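import Cfsg.Statements.S0947
import Cfsg.Agent.Blocks.Rank
import Cfsg.Agent.ZStar.Second
-- import your own Cfsg.Agent.* helpers here

set_option autoImplicit false
set_option linter.style.haveILetI false
open Cfsg CfsgLib CfsgLib.Blocks CfsgLib.CharBasics CfsgLib.ZStar
open scoped ComplexConjugate

namespace Cfsg.Agent.S0947

theorem cast_normSq_sum {A : Type*} [Group A] [Fintype (IrrCharacter A)] (S : Set (IrrCharacter A))
    [DecidablePred (· ∈ S)] (a : A) :
    ((∑ᶠ χ ∈ S, ‖(χ : A → ℂ) a‖ ^ 2 : ℝ) : ℂ) =
      ∑ χ : IrrCharacter A, if χ ∈ S then (χ : A → ℂ) a * conj ((χ : A → ℂ) a) else 0 := by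
  rw [finsum_mem_eq_toFinset_sum, Complex.ofReal_sum, ← Finset.sum_filter,
    show S.toFinset = Finset.univ.filter (· ∈ S) by ext; simp]
  exact Finset.sum_congr rfl fun χ _ => by rw [Complex.mul_conj']; push_cast; rfl

/-- Let z ≠ 1 be a p-element of the finite group G with centralizer H, and fix a maximal ideal M of the algebraic integers containing p. (i) For every y ∈ H of order prime to p, the sum over ζ in the principal block of G of |ζ (z * y)|² equals the sum over χ in the principal block of H of |χ y|². (ii) If moreover H has a normal p-complement (its largest normal subgroup of order prime to p has p-power index), that common value is the largest power of p dividing the order of H. -/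
theorem result {G : Type*} [Group G] [Finite G] (p : ℕ) [Fact p.Prime] (M : Ideal Cfsg.AlgInt) (hM : Cfsg.IsPModular p M) (z : G) (hz : ∃ k : ℕ, orderOf z = p ^ k) (hz1 : z ≠ 1) (y : Subgroup.centralizer ({z} : Set G)) (hy : ¬ p ∣ orderOf y) : (∑ᶠ ζ ∈ Cfsg.principalBlock M G, ‖(ζ : G → ℂ) (z * (y : G))‖ ^ 2 = ∑ᶠ χ ∈ Cfsg.principalBlock M (Subgroup.centralizer ({z} : Set G)), ‖(χ : Subgroup.centralizer ({z} : Set G) → ℂ) y‖ ^ 2) ∧ ((∃ k : ℕ, (Cfsg.pPrimeCore p (Subgroup.centralizer ({z} : Set G))).index = p ^ k) → ∑ᶠ ζ ∈ Cfsg.principalBlock M G, ‖(ζ : G → ℂ) (z * (y : G))‖ ^ 2 = ((p ^ (Nat.card (Subgroup.centralizer ({z} : Set G))).factorization p : ℕ) : ℝ)) := by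
  classical
  haveI : Fintype G := Fintype.ofFinite G
  haveI : Fintype (Subgroup.centralizer ({z} : Set G)) := Fintype.ofFinite _
  haveI : Fintype (IrrCharacter G) := @Fintype.ofFinite _ finite_irrCharacter
  haveI : Fintype (IrrCharacter (Subgroup.centralizer ({z} : Set G))) := @Fintype.ofFinite _ finite_irrCharacter
  have hB := isPBlock_principal (M := M) (G := G)
  have hb := isPBlock_principal (M := M) (G := Subgroup.centralizer ({z} : Set G))
  have hind : IsInducedBlock M (Subgroup.centralizer ({z} : Set G))
      (principalBlock M (Subgroup.centralizer ({z} : Set G))) (principalBlock M G) := by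
    have hQ := ZStar.isPGroup_zpowers hM.1 hz
    have hH : ∀ g, g ∈ Subgroup.centralizer ({z} : Set G) ↔ ∀ q ∈ Subgroup.zpowers z, q * g = g * q := by
      intro g
      rw [Subgroup.mem_centralizer_singleton_iff]
      constructor
      · intro h q hq
        obtain ⟨n, rfl⟩ := hq
        exact (Commute.zpow_left (show Commute z g from h.symm) n)
      · exact fun h => (h z (Subgroup.mem_zpowers z)).symm
    refine isInducedBlock_of_not_small hM hQ hH hb hB (oneChar_mem_principal hM) fun hs => ?_
    exact not_memLocalIdeal_one hM (by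
      simpa using memLocalIdeal_sub hM hs ((omega_res_principal hM hQ hH _).1 (oneChar_mem_principal hM)))
  have hkey : ∀ y' : Subgroup.centralizer ({z} : Set G), ¬ p ∣ orderOf y' →
      ((∑ᶠ ζ ∈ principalBlock M G, ‖(ζ : G → ℂ) (z * (y' : G))‖ ^ 2 : ℝ) : ℂ) =
        blockKernel (principalBlock M (Subgroup.centralizer ({z} : Set G))) y' y' := by
    intro y' hy'
    rw [cast_normSq_sum, sum_sq_section hM hz hB hy', Finset.sum_eq_single (principalBlock M (Subgroup.centralizer ({z} : Set G)))]
    · intro b hb' hne
      have h := (Finset.mem_filter.1 hb').2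
      exact absurd ((isInducedBlock_principal_iff hM ⟨_, h⟩).1 h) hne
    · exact fun h => absurd (Finset.mem_filter.2 ⟨mem_blockFinset.2 hb, hind⟩) h
  refine ⟨Complex.ofReal_injective ?_, fun hN => ?_⟩
  · rw [hkey y hy, cast_normSq_sum, blockKernel_eq, Finset.sum_filter]
  obtain ⟨k, hk⟩ := hN
  haveI := (CfsgLib.PCore.pPrimeCore_mem p (Subgroup.centralizer ({z} : Set G))).1
  have hNp := CfsgLib.PCore.not_dvd_card_pPrimeCore p (Subgroup.centralizer ({z} : Set G))
  have hreg : ∀ a : Subgroup.centralizer ({z} : Set G),
      ¬ p ∣ orderOf a ↔ a ∈ pPrimeCore p (Subgroup.centralizer ({z} : Set G)) := by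
    intro a
    constructor
    · intro ha
      have h1 := Subgroup.pow_index_mem (pPrimeCore p (Subgroup.centralizer ({z} : Set G))) a
      rw [hk] at h1
      obtain ⟨m, hm⟩ := exists_pow_eq_self_of_coprime
        (((hM.1.coprime_iff_not_dvd.2 ha).pow_left k) : (p ^ k).Coprime (orderOf a))
      rw [← hm]
      exact Subgroup.pow_mem _ h1 m
    · intro ha h
      exact hNp (h.trans (Subgroup.orderOf_dvd_natCard _ ha))
  have hS : ∀ a : Subgroup.centralizer ({z} : Set G), ¬ p ∣ orderOf a →
      blockKernel (principalBlock M (Subgroup.centralizer ({z} : Set G))) a a =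
        blockKernel (principalBlock M (Subgroup.centralizer ({z} : Set G))) 1 1 := by
    intro a ha
    rw [blockKernel_eq, blockKernel_eq]
    exact Finset.sum_congr rfl fun ξ hξ => by
      rw [pPrimeCore_le_ker hM (Finset.mem_filter.1 hξ).2 ((hreg a).1 ha)]
  have hrank : blockRank p (principalBlock M (Subgroup.centralizer ({z} : Set G))) = 1 := by
    set v : Subgroup.centralizer ({z} : Set G) → ℂ := fun a => if p ∣ orderOf a then 0 else 1 with hv
    have hv0 : v ≠ 0 := fun h => by
      have := congrFun h 1
      simp [hv, hM.1.ne_one] at this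
    have e : Submodule.span ℂ ((fun χ : IrrCharacter (Subgroup.centralizer ({z} : Set G)) =>
        pRegularPart p (χ : Subgroup.centralizer ({z} : Set G) → ℂ)) ''
          principalBlock M (Subgroup.centralizer ({z} : Set G))) = Submodule.span ℂ {v} := by
      apply le_antisymm <;> rw [Submodule.span_le]
      · rintro _ ⟨ξ, hξ, rfl⟩
        refine Submodule.mem_span_singleton.2 ⟨(ξ : Subgroup.centralizer ({z} : Set G) → ℂ) 1, ?_⟩
        funext a
        simp only [Pi.smul_apply, smul_eq_mul, hv, pRegularPart_apply]
        split_ifs with h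
        · rw [mul_zero]
        · rw [mul_one, pPrimeCore_le_ker hM hξ ((hreg a).1 h)]
      · rintro _ rfl
        refine Submodule.subset_span ⟨oneChar, oneChar_mem_principal hM, ?_⟩
        funext a
        simp [hv, pRegularPart_apply, oneChar_apply]
    rw [blockRank, e, finrank_span_singleton hv0]
  have hd := sum_blockKernel_diag hM hb
  rw [hrank, Nat.cast_one, mul_one, Finset.sum_congr rfl (g := fun a => if p ∣ orderOf a then 0 else
    blockKernel (principalBlock M (Subgroup.centralizer ({z} : Set G))) 1 1)
    (fun a _ => by split_ifs with h <;> [rfl; exact hS a h]), Finset.sum_ite, Finset.sum_const_zero, zero_add,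
    Finset.sum_const, nsmul_eq_mul] at hd
  have hc : (Finset.univ.filter fun a : Subgroup.centralizer ({z} : Set G) => ¬ p ∣ orderOf a).card =
      Nat.card (pPrimeCore p (Subgroup.centralizer ({z} : Set G))) := by
    rw [Nat.card_eq_fintype_card, Fintype.card_subtype]
    exact congrArg _ (Finset.filter_congr fun a _ => hreg a)
  have hcard : Nat.card (Subgroup.centralizer ({z} : Set G)) =
      Nat.card (pPrimeCore p (Subgroup.centralizer ({z} : Set G))) * p ^ k := by
    rw [← hk]; exact (Subgroup.card_mul_index _).symm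
  have hf : (Nat.card (Subgroup.centralizer ({z} : Set G))).factorization p = k := by
    rw [hcard, Nat.factorization_mul Nat.card_pos.ne' (pow_ne_zero _ hM.1.ne_zero), Finsupp.add_apply,
      Nat.factorization_eq_zero_of_not_dvd hNp, zero_add, Nat.Prime.factorization_pow hM.1,
      Finsupp.single_eq_same]
  apply Complex.ofReal_injective
  rw [hkey y hy, hS y hy, hf]
  rw [hc, hcard, Nat.cast_mul] at hd
  rw [mul_left_cancel₀ (Nat.cast_ne_zero.2 Nat.card_pos.ne') hd]
  push_cast
  rfl

end Cfsg.Agent.S0947
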