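import Cfsg.Statements.S4720
import Cfsg.Agent.Blocks.Rank
import Cfsg.Agent.Blocks.Section
import Cfsg.Agent.ZStar.Second

set_option autoImplicit false
set_option linter.style.haveILetI false
open Cfsg

namespace Cfsg.Agent.S4720

open CfsgLib CfsgLib.CharBasics CfsgLib.Blocks

/-- Column norm of the principal block at a `p`-element. -/
theorem column_norm {G : Type*} [Group G] [Fintype G] {p : ℕ} {M : Ideal AlgInt} (hM : IsPModular p M) {z : G}
    (hz : ∃ k : ℕ, orderOf z = p ^ k) :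
    ∑ᶠ χ ∈ principalBlock M G, (χ : G → ℂ) z * starRingEnd ℂ ((χ : G → ℂ) z) =
      ((∑ᶠ ψ ∈ principalBlock M ↥(Subgroup.centralizer ({z} : Set G)),
        charDegree (ψ : ↥(Subgroup.centralizer ({z} : Set G)) → ℂ) ^ 2 : ℕ) : ℂ) := by
  classical
  haveI : Fintype (Subgroup.centralizer ({z} : Set G)) := Fintype.ofFinite _
  haveI : Fintype (IrrCharacter G) := @Fintype.ofFinite _ finite_irrCharacter
  haveI : Fintype (IrrCharacter (Subgroup.centralizer ({z} : Set G))) := @Fintype.ofFinite _ finite_irrCharacter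
  have hB := isPBlock_principal (M := M) (G := G)
  have hb := isPBlock_principal (M := M) (G := Subgroup.centralizer ({z} : Set G))
  have hQ := ZStar.isPGroup_zpowers hM.1 hz
  have hH := ZStar.mem_centralizer_zpowers z
  have hind : IsInducedBlock M (Subgroup.centralizer ({z} : Set G))
      (principalBlock M (Subgroup.centralizer ({z} : Set G))) (principalBlock M G) := by
    refine ZStar.isInducedBlock_of_not_small hM hQ hH hb hB (oneChar_mem_principal hM) fun hs => ?_
    exact not_memLocalIdeal_one hM (by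
      simpa using memLocalIdeal_sub hM hs ((ZStar.omega_res_principal hM hQ hH _).1 (oneChar_mem_principal hM)))
  have hy : ¬ p ∣ orderOf (1 : Subgroup.centralizer ({z} : Set G)) := by
    rw [orderOf_one]; exact hM.1.not_dvd_one
  have h := sum_sq_section hM hz hB hy
  rw [Finset.sum_eq_single (principalBlock M (Subgroup.centralizer ({z} : Set G)))
    (fun b hb' hne => absurd ((ZStar.isInducedBlock_principal_iff hM ⟨_, (Finset.mem_filter.1 hb').2⟩).1
      (Finset.mem_filter.1 hb').2) hne)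
    (fun h => absurd (Finset.mem_filter.2 ⟨mem_blockFinset.2 hb, hind⟩) h), blockKernel_eq] at h
  simp only [Subgroup.coe_one, mul_one] at h
  rw [finsum_mem_def, finsum_eq_sum_of_fintype]
  simp only [Set.indicator_apply]
  rw [h, finsum_mem_eq_toFinset_sum, Nat.cast_sum,
    show (principalBlock M ↥(Subgroup.centralizer ({z} : Set G))).toFinset =
      Finset.univ.filter (· ∈ principalBlock M ↥(Subgroup.centralizer ({z} : Set G))) by ext; simp]
  refine Finset.sum_congr rfl fun ξ _ => ?_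
  rw [apply_one (isCharacter_of_irr ξ.2), Complex.conj_natCast, sq, Nat.cast_mul]

/-- Let p be a prime, M a maximal ideal of the algebraic integers containing p, P a p-subgroup of the finite group G, N a subgroup with P ≤ N ≤ N_G(P), and U a nonempty subset of P normalized by N such that an element of U and an element of P that are conjugate in G are already conjugate in N, and such that λ(C_G(y)) = w·#C_N(y) for every y ∈ U with one rational number w, where λ(X) denotes the sum of the squares of the degrees of the irreducible characters in the principal p-block of X. For a complex function θ on P and χ in the principal block of G put a_χ(θ) = #P⁻¹ Σ_{y ∈ P} χ(y) θ(y⁻¹). Then for generalized characters θ, η of P with θ vanishing outside U, Σ_χ a_χ(θ)·conj(a_χ(η)) = (w/#P²)·Σ_{y ∈ P} θ(y)·conj(Σ_{x ∈ N} η(x y x⁻¹)) (η extended by zero off P; the conjugates lie in P), the first sum over the principal p-block of G. -/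
theorem result {G : Type*} [Group G] [Finite G] (p : ℕ) [Fact p.Prime] (M : Ideal Cfsg.AlgInt) (hM : Cfsg.IsPModular p M) (P : Subgroup G) (hP : IsPGroup p P) (N : Subgroup G) (hPN : P ≤ N) (hNN : N ≤ Subgroup.normalizer (P : Set G)) (U : Set G) (hUne : U.Nonempty) (hUP : U ⊆ (P : Set G)) (hUN : ∀ n ∈ N, ∀ u ∈ U, n * u * n⁻¹ ∈ U) (hfus : ∀ u ∈ U, ∀ g : G, g * u * g⁻¹ ∈ (P : Set G) → ∃ n ∈ N, n * u * n⁻¹ = g * u * g⁻¹) (w : ℚ) (hw : ∀ y ∈ U, ((∑ᶠ ψ ∈ Cfsg.principalBlock M ↥(Subgroup.centralizer ({y} : Set G)), Cfsg.charDegree (ψ : ↥(Subgroup.centralizer ({y} : Set G)) → ℂ) ^ 2) : ℚ) = w * Nat.card ↥(N ⊓ Subgroup.centralizer ({y} : Set G))) (θ η : ↥P → ℂ) (hθ : Cfsg.IsGeneralizedCharacter ↥P θ) (hη : Cfsg.IsGeneralizedCharacter ↥P η) (hθU : ∀ y : ↥P, (y : G) ∉ U → θ y = 0) : ∑ᶠ χ ∈ Cfsg.principalBlock M G, ((Nat.card ↥P : ℂ)⁻¹ * ∑ᶠ y : ↥P, (χ : G → ℂ) (y : G) * θ y⁻¹) * (starRingEnd ℂ) ((Nat.card ↥P : ℂ)⁻¹ * ∑ᶠ y : ↥P, (χ : G → ℂ) (y : G) * η y⁻¹) = ((w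 : ℂ) / ((Nat.card ↥P : ℂ) ^ 2)) * ∑ᶠ y : ↥P, θ y * (starRingEnd ℂ) (∑ᶠ x : ↥N, Cfsg.extendByZero P η ((x : G) * (y : G) * (x : G)⁻¹)) := by
  classical
  haveI : Fintype G := Fintype.ofFinite G
  haveI : Fintype P := Fintype.ofFinite P
  haveI : Fintype N := Fintype.ofFinite N
  haveI : Fintype (IrrCharacter G) := @Fintype.ofFinite _ finite_irrCharacter
  set B := principalBlock M G with hB
  have hBb : IsPBlock M B := isPBlock_principal
  have hpow : ∀ y : P, ∃ k : ℕ, orderOf (y : G) = p ^ k := fun y => by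
    haveI := Fact.mk hM.1
    obtain ⟨k, hk⟩ := IsPGroup.iff_orderOf.1 hP y
    exact ⟨k, by rw [Subgroup.orderOf_coe, hk]⟩
  have hpart : ∀ y : P, IsPPart p (y : G) (y : G) := fun y =>
    ⟨1, mul_one _, Commute.one_right _, hpow y, by rw [orderOf_one]; exact hM.1.not_dvd_one⟩
  set K : P → P → ℂ := fun y z => ∑ χ ∈ B.toFinset, (χ : G → ℂ) (y : G) * starRingEnd ℂ ((χ : G → ℂ) (z : G)) with hK
  -- expansion of the left side
  have hL : ∑ᶠ χ ∈ B, ((Nat.card ↥P : ℂ)⁻¹ * ∑ᶠ y : ↥P, (χ : G → ℂ) (y : G) * θ y⁻¹) *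
      (starRingEnd ℂ) ((Nat.card ↥P : ℂ)⁻¹ * ∑ᶠ y : ↥P, (χ : G → ℂ) (y : G) * η y⁻¹) =
      ((Nat.card P : ℂ) ^ 2)⁻¹ * ∑ y : P, θ y * ∑ z : P, K y⁻¹ z⁻¹ * starRingEnd ℂ (η z) := by
    rw [finsum_mem_eq_toFinset_sum]
    simp only [finsum_eq_sum_of_fintype, map_mul, map_inv₀, Complex.conj_natCast, map_sum]
    conv_rhs => rw [Finset.mul_sum]
    have e : ∀ χ : IrrCharacter G,
        (Nat.card P : ℂ)⁻¹ * (∑ y : P, (χ : G → ℂ) (y : G) * θ y⁻¹) *
          ((Nat.card P : ℂ)⁻¹ * ∑ y : P, starRingEnd ℂ ((χ : G → ℂ) (y : G)) * starRingEnd ℂ (η y⁻¹)) =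
        ∑ y : P, ∑ z : P, ((Nat.card P : ℂ) ^ 2)⁻¹ * (θ y *
          ((χ : G → ℂ) ((y⁻¹ : P) : G) * starRingEnd ℂ ((χ : G → ℂ) ((z⁻¹ : P) : G)) * starRingEnd ℂ (η z))) := by
      intro χ
      rw [← Fintype.sum_equiv (Equiv.inv P) (fun y : P => (χ : G → ℂ) ((y⁻¹ : P) : G) * θ y)
          (fun y : P => (χ : G → ℂ) (y : G) * θ y⁻¹) (fun y => by simp),
        ← Fintype.sum_equiv (Equiv.inv P)
          (fun y : P => starRingEnd ℂ ((χ : G → ℂ) ((y⁻¹ : P) : G)) * starRingEnd ℂ (η y))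
          (fun y : P => starRingEnd ℂ ((χ : G → ℂ) (y : G)) * starRingEnd ℂ (η y⁻¹)) (fun y => by simp),
        Finset.mul_sum, Finset.mul_sum, Finset.sum_mul_sum]
      exact Finset.sum_congr rfl fun y _ => Finset.sum_congr rfl fun z _ => by
        rw [sq, mul_inv]; ring
    rw [Finset.sum_congr rfl fun χ _ => e χ, Finset.sum_comm]
    refine Finset.sum_congr rfl fun y _ => ?_
    rw [Finset.sum_comm, Finset.mul_sum, Finset.mul_sum]
    refine Finset.sum_congr rfl fun z _ => ?_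
    simp only [hK, Finset.sum_mul, Finset.mul_sum]
  rw [hL, finsum_eq_sum_of_fintype, div_eq_mul_inv, mul_comm (w : ℂ), mul_assoc]
  congr 1
  rw [Finset.mul_sum]
  refine Finset.sum_congr rfl fun y _ => ?_
  by_cases hy : θ y = 0
  · rw [hy]; ring
  have hyU : (y : G) ∈ U := by_contra fun h => hy (hθU y h)
  have hself : K y⁻¹ y⁻¹ = (w : ℂ) * Nat.card ↥(N ⊓ Subgroup.centralizer ({(y : G)} : Set G)) := by
    have hC : Subgroup.centralizer ({((y⁻¹ : P) : G)} : Set G) = Subgroup.centralizer ({(y : G)} : Set G) := by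
      ext x
      simp only [Subgroup.mem_centralizer_singleton_iff, Subgroup.coe_inv]
      exact ⟨fun h => (Commute.inv_right_iff.1 h).eq, fun h => (Commute.inv_right h).eq⟩
    have h1 := column_norm hM (hpow y⁻¹)
    rw [finsum_mem_eq_toFinset_sum, hC] at h1
    show ∑ χ ∈ B.toFinset, _ = _
    rw [h1]
    have h2 := congrArg (fun q : ℚ => (q : ℂ)) (hw _ hyU)
    haveI : Fintype (IrrCharacter ↥(Subgroup.centralizer ({(y : G)} : Set G))) :=
      @Fintype.ofFinite _ finite_irrCharacter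
    rw [finsum_mem_eq_toFinset_sum] at h2 ⊢
    simp only [Rat.cast_sum, Rat.cast_pow, Rat.cast_natCast, Rat.cast_mul] at h2
    push_cast
    exact h2
  have hKz : ∀ z : P, K y⁻¹ z⁻¹ =
      if IsConj (y : G) (z : G) then (w : ℂ) * Nat.card ↥(N ⊓ Subgroup.centralizer ({(y : G)} : Set G)) else 0 := by
    intro z
    split_ifs with hc
    · rw [← hself]
      refine Finset.sum_congr rfl fun χ _ => ?_
      have e : (χ : G → ℂ) ((z⁻¹ : P) : G) = (χ : G → ℂ) ((y⁻¹ : P) : G) := by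
        rw [Subgroup.coe_inv, Subgroup.coe_inv, apply_inv (isCharacter_of_irr χ.2), apply_inv (isCharacter_of_irr χ.2),
          apply_isConj (isCharacter_of_irr χ.2) hc]
      rw [e]
    · have h := block_orth_of_not_isConj hM hBb (hpart y⁻¹) (hpart z⁻¹) fun h => hc ?_
      · rwa [finsum_mem_eq_toFinset_sum] at h
      · obtain ⟨c, hc'⟩ := isConj_iff.1 h
        refine isConj_iff.2 ⟨c, ?_⟩
        rw [Subgroup.coe_inv, Subgroup.coe_inv, ← conj_inv, inv_inj] at hc'
        exact hc'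
  have hext : ∀ x : N, extendByZero P η ((x : G) * (y : G) * (x : G)⁻¹) =
      ∑ z : P, if (z : G) = (x : G) * (y : G) * (x : G)⁻¹ then η z else 0 := by
    intro x
    have hmem : (x : G) * (y : G) * (x : G)⁻¹ ∈ P :=
      (Subgroup.mem_normalizer_iff.1 (hNN x.2) _).1 y.2
    rw [Finset.sum_eq_single_of_mem (⟨_, hmem⟩ : P) (Finset.mem_univ _)
      (fun z _ hz => if_neg fun h => hz (Subtype.ext h)), if_pos rfl, extendByZero]
    exact Subtype.val_injective.extend_apply η 0 ⟨_, hmem⟩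
  simp only [finsum_eq_sum_of_fintype, hext, map_sum, Finset.mul_sum]
  rw [Finset.sum_comm]
  refine Finset.sum_congr rfl fun z _ => ?_
  rw [hKz]
  simp only [apply_ite (starRingEnd ℂ), map_zero, mul_ite, mul_zero]
  rw [← Finset.sum_filter, Finset.sum_const, nsmul_eq_mul]
  split_ifs with hc
  · obtain ⟨g, hg⟩ := isConj_iff.1 hc
    obtain ⟨n, hnN, hn⟩ := hfus _ hyU g (by rw [hg]; exact z.2)
    rw [hg] at hn
    have hcard : (Finset.univ.filter fun x : N => (z : G) = (x : G) * (y : G) * (x : G)⁻¹).card =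
        Nat.card ↥(N ⊓ Subgroup.centralizer ({(y : G)} : Set G)) := by
      rw [← Fintype.card_subtype, ← Nat.card_eq_fintype_card]
      refine Nat.card_congr
        { toFun := fun x => ⟨n⁻¹ * (x.1 : G), Subgroup.mem_inf.2 ⟨N.mul_mem (N.inv_mem hnN) x.1.2, ?_⟩⟩
          invFun := fun c => ⟨⟨n * (c : G), N.mul_mem hnN (Subgroup.mem_inf.1 c.2).1⟩, ?_⟩
          left_inv := fun x => by ext; simp
          right_inv := fun c => by ext; simp }
      · refine Subgroup.mem_centralizer_singleton_iff.2 (mul_inv_eq_iff_eq_mul.1 ?_)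
        calc n⁻¹ * (x.1 : G) * (y : G) * (n⁻¹ * (x.1 : G))⁻¹
            = n⁻¹ * ((x.1 : G) * (y : G) * (x.1 : G)⁻¹) * n := by group
          _ = (y : G) := by rw [← x.2, ← hn]; group
      · show (z : G) = n * (c : G) * (y : G) * (n * (c : G))⁻¹
        rw [← hn, mul_inv_rev, mul_assoc n (c : G),
          Subgroup.mem_centralizer_singleton_iff.1 (Subgroup.mem_inf.1 c.2).2]
        group
    rw [hcard]; ring
  · rw [zero_mul, mul_zero, eq_comm, mul_eq_zero]
    left
    rw [Nat.cast_eq_zero, Finset.card_eq_zero, Finset.eq_empty_iff_forall_notMem]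
    exact fun x hx => hc (isConj_iff.2 ⟨(x : G), (Finset.mem_filter.1 hx).2.symm⟩)

end Cfsg.Agent.S4720
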