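import Cfsg.Statements.S4438
import Cfsg.Agent.Blocks.CoveredDefect
-- import your own Cfsg.Agent.* helpers here

set_option autoImplicit false
open Cfsg

namespace Cfsg.Agent.S4438

/-- Let N be a normal subgroup of the finite group G, b a block of N with defect group Q, and B a block of G covering b (some member of B has a constituent in b on restriction to N), all relative to a maximal ideal M of the algebraic integers containing p. Then B has a defect group P with P ⊓ N = Q. -/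
theorem result {G : Type*} [Group G] [Fintype G] (p : ℕ) [Fact p.Prime] (M : Ideal Cfsg.AlgInt) (hM : Cfsg.IsPModular p M) (N : Subgroup G) [hN : N.Normal] [Fintype N] (b : Set (Cfsg.IrrCharacter N)) (hb : Cfsg.IsPBlock M b) (Q : Subgroup G) (hQN : Q ≤ N) (hQ : Cfsg.IsDefectGroup p M b (Q.subgroupOf N)) (B : Set (Cfsg.IrrCharacter G)) (hB : Cfsg.IsPBlock M B) (hcov : (∃ χ ∈ B, ∃ θ ∈ b, Cfsg.classInner (fun n : N => (χ : G → ℂ) n) (θ : N → ℂ) ≠ 0)) : ∃ P : Subgroup G, Cfsg.IsDefectGroup p M B P ∧ P ⊓ N = Q := by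
  obtain ⟨P₀, hP₀, hP₀N, -⟩ := CfsgLib.Blocks.exists_defectGroup_inf hM hb hB hcov
  obtain ⟨c, hc⟩ := CfsgLib.Blocks.exists_conj_eq_defectGroup hM hb hP₀N hQ
  refine ⟨P₀.map (MulAut.conj (c : G)).toMonoidHom, CfsgLib.Blocks.isDefectGroup_map_conj hM hB hP₀ c, ?_⟩
  ext x
  rw [Subgroup.mem_inf]
  constructor
  · rintro ⟨⟨y, hy, rfl⟩, hx⟩
    have hyN : y ∈ N := by
      have h := hN.conj_mem _ hx (c : G)⁻¹
      simpa [mul_assoc] using h
    have h : MulAut.conj c ⟨y, hyN⟩ ∈ Q.subgroupOf N := hc ▸ ⟨⟨y, hyN⟩, ⟨hy, hyN⟩, rfl⟩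
    exact h
  · intro hx
    obtain ⟨z, hz, he⟩ : (⟨x, hQN hx⟩ : N) ∈ ((P₀ ⊓ N).subgroupOf N).map (MulAut.conj c).toMonoidHom :=
      hc.symm ▸ (show (⟨x, hQN hx⟩ : N) ∈ Q.subgroupOf N from hx)
    exact ⟨⟨z, hz.1, congrArg Subtype.val he⟩, hQN hx⟩

end Cfsg.Agent.S4438
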