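import Cfsg.Statements.S4511
import Cfsg.Agent.Blocks.Rank
-- import your own Cfsg.Agent.* helpers here

set_option autoImplicit false
set_option linter.style.haveILetI false
open Cfsg CfsgLib CfsgLib.Blocks CfsgLib.CharBasics
open scoped ComplexConjugate

namespace Cfsg.Agent.S4511

/-- Brauer's count of the irreducible characters in a block by subsections. Let M be a maximal ideal of the algebraic integers containing the prime p, B a p-block of the finite group G, and X a set of representatives of the conjugacy classes of p-elements of G (elements of p-power order, the identity included: every p-element is conjugate to exactly one member of X). Then the number of irreducible characters in B is the sum, over x ∈ X and over the blocks b of C_G(x) that induce B, of the p-regular rank of b (the number of irreducible Brauer characters of b, here the dimension of the span of the restrictions of the members of b to the p-regular elements of C_G(x)). -/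
theorem result {G : Type*} [Group G] [Finite G] (p : ℕ) (M : Ideal Cfsg.AlgInt) (hM : Cfsg.IsPModular p M)
    (B : Set (Cfsg.IrrCharacter G)) (hB : Cfsg.IsPBlock M B) (X : Finset G)
    (hX : ∀ x ∈ X, ∃ k : ℕ, orderOf x = p ^ k)
    (hXrep : ∀ g : G, (∃ k : ℕ, orderOf g = p ^ k) → ∃! x, x ∈ X ∧ IsConj g x) :
    Nat.card B = ∑ x ∈ X, ∑ᶠ b ∈ {b : Set (Cfsg.IrrCharacter ↥(Subgroup.centralizer ({x} : Set G))) | Cfsg.IsInducedBlock M (Subgroup.centralizer ({x} : Set G)) b B},
      Cfsg.blockRank p b := by
  classical
  haveI : Fintype G := Fintype.ofFinite G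
  haveI : ∀ x : G, Fintype (Subgroup.centralizer ({x} : Set G)) := fun x => Fintype.ofFinite _
  haveI : Fintype (IrrCharacter G) := @Fintype.ofFinite _ finite_irrCharacter
  haveI : ∀ x : G, Fintype (IrrCharacter (Subgroup.centralizer ({x} : Set G))) :=
    fun x => @Fintype.ofFinite _ finite_irrCharacter
  choose pp yy hyy using ZStar.exists_pPart hM.1 (G := G)
  have hpp : ∀ g, IsPPart p g (pp g) := fun g =>
    ⟨yy g, (hyy g).1, (hyy g).2.1, (hyy g).2.2.1, (hyy g).2.2.2.1⟩
  set F : G → ℂ := fun g =>
    ∑ χ : IrrCharacter G, if χ ∈ B then (χ : G → ℂ) g * conj ((χ : G → ℂ) g) else 0 with hF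
  have hFc : IsClassFunction G F := fun a c => by
    simp only [hF]
    exact Finset.sum_congr rfl fun χ _ => by rw [isClassFunction (isCharacter_of_irr χ.2) a c]
  have hG : (Nat.card G : ℂ) ≠ 0 := Nat.cast_ne_zero.2 Nat.card_pos.ne'
  have htot : ∑ g : G, F g = (Nat.card G : ℂ) * (Nat.card B : ℕ) := by
    simp only [hF]
    rw [Finset.sum_comm, Finset.sum_congr rfl (g := fun χ => if χ ∈ B then (Nat.card G : ℂ) else 0) fun χ _ => ?_]
    · rw [← Finset.sum_filter, Finset.sum_const, nsmul_eq_mul, mul_comm, Nat.card_eq_fintype_card (α := B),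
        ← Fintype.card_subtype]
    · split_ifs
      · rw [sum_mul_conj, if_pos rfl]
      · simp
  have hset : ∀ x : G, ∑ᶠ b ∈ {b : Set (IrrCharacter (Subgroup.centralizer ({x} : Set G))) |
      IsInducedBlock M (Subgroup.centralizer ({x} : Set G)) b B}, blockRank p b =
      ∑ b ∈ (blockFinset M (Subgroup.centralizer ({x} : Set G))).filter
        (fun b => IsInducedBlock M (Subgroup.centralizer ({x} : Set G)) b B), blockRank p b := by
    intro x
    rw [show {b : Set (IrrCharacter (Subgroup.centralizer ({x} : Set G))) |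
      IsInducedBlock M (Subgroup.centralizer ({x} : Set G)) b B} =
      ↑((blockFinset M (Subgroup.centralizer ({x} : Set G))).filter
        (fun b => IsInducedBlock M (Subgroup.centralizer ({x} : Set G)) b B)) by
      ext b
      simp only [Set.mem_setOf_eq, Finset.coe_filter, mem_blockFinset]
      exact ⟨fun h => ⟨h.1, h⟩, fun h => h.2⟩, finsum_mem_coe_finset]
  have hsec : ∀ x ∈ X, ∑ g : G, (if IsConj x (pp g) then F g else 0) = (Nat.card G : ℂ) *
      ((∑ᶠ b ∈ {b : Set (IrrCharacter (Subgroup.centralizer ({x} : Set G))) |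
        IsInducedBlock M (Subgroup.centralizer ({x} : Set G)) b B}, blockRank p b : ℕ) : ℂ) := by
    intro x hx
    have hC : (Nat.card (Subgroup.centralizer ({x} : Set G)) : ℂ) ≠ 0 := Nat.cast_ne_zero.2 Nat.card_pos.ne'
    apply mul_left_cancel₀ hC
    rw [sum_section hM.1 hFc (hX x hx) pp hpp, hset, Nat.cast_sum, mul_left_comm]
    congr 1
    rw [Finset.mul_sum, Finset.sum_congr rfl (fun b hb => (sum_blockKernel_diag hM
      (mem_blockFinset.1 (Finset.mem_filter.1 hb).1)).symm), Finset.sum_comm]
    refine Finset.sum_congr rfl fun y _ => ?_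
    split_ifs with hy
    · simp
    · rw [← sum_sq_section hM (hX x hx) hB hy]
  have hsplit : ∑ g : G, F g = ∑ x ∈ X, ∑ g : G, (if IsConj x (pp g) then F g else 0) := by
    rw [Finset.sum_comm (s := X)]
    refine Finset.sum_congr rfl fun g _ => ?_
    obtain ⟨_, -, -, hpow, -⟩ := hpp g
    obtain ⟨x, ⟨hxX, hxc⟩, huniq⟩ := hXrep (pp g) hpow
    rw [Finset.sum_eq_single x]
    · rw [if_pos hxc.symm]
    · exact fun z hz hne => if_neg fun hc => hne (huniq z ⟨hz, hc.symm⟩)
    · exact fun h => absurd hxX h
  rw [Finset.sum_congr rfl hsec, ← Finset.mul_sum, htot, ← Nat.cast_sum] at hsplit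
  exact_mod_cast mul_left_cancel₀ hG hsplit

end Cfsg.Agent.S4511
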