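import Cfsg.Statements.S4682
import Cfsg.Agent.Blocks.PairAlg.Fusion

set_option autoImplicit false
open Cfsg

namespace Cfsg.Agent.S4682

open CfsgLib.PairAlg CfsgLib.Blocks
attribute [local instance] residueField residue_charP


/-- Fix a prime p and a maximal ideal M of the algebraic integers containing p, a p-block B of the finite group G with maximal Brauer pair (P, e), P abelian, and a Brauer pair (Q, f) ≤ (P, e). Let T_Q be the stabilizer of f in N_G(Q) and T_P the stabilizer of e in N_G(P). Then every element of T_Q is a product of an element of T_P and an element of C_G(Q); and the index of C_G(Q) in T_Q equals the index of T_P ∩ C_G(Q) in T_P ∩ N_G(Q). -/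
theorem result {G : Type*} [Group G] [Fintype G] (p : ℕ) [Fact p.Prime] (M : Ideal Cfsg.AlgInt) (hM : Cfsg.IsPModular p M) (B : Set (Cfsg.IrrCharacter G)) (P : Subgroup G) (e : Set (Cfsg.IrrCharacter (Subgroup.centralizer (P : Set G)))) (hmax : Cfsg.IsMaximalBrauerPair p M B P e) (hab : ∀ x ∈ P, ∀ y ∈ P, x * y = y * x) (Q : Subgroup G) (f : Set (Cfsg.IrrCharacter (Subgroup.centralizer (Q : Set G)))) (hQP : Q ≤ P) (hf : Cfsg.IsPBlock M f) (hle : Cfsg.SubpairLE p M Q f P e) (TQ : Subgroup G) (hTQ : ∀ y : G, y ∈ TQ ↔ y ∈ Subgroup.normalizer (Q : Set G) ∧ Cfsg.StabilizesBlock (Subgroup.centralizer (Q : Set G)) f y) (TP : Subgroup G) (hTP : ∀ y : G, y ∈ TP ↔ y ∈ Subgroup.normalizer (P : Set G) ∧ Cfsg.StabilizesBlock (Subgroup.centralizer (P : Set G)) e y) : (∀ x ∈ TQ, ∃ y ∈ TP, ∃ c ∈ Subgroup.centralizer (Q : Set G), x = y * c) ∧ ((Subgroup.centralizer (Q : Set G)).subgroupOf TQ).index = ((TP ⊓ Subgroup.centralizer (Q : Set G)).subgroupOf (TP ⊓ Subgroup.normalizer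 (Q : Set G))).index := by
  obtain ⟨hQf, hle'⟩ := le'_of_subpairLE hM hle hmax.1.1
  have hc := complete (G := G) hM
  have hm := isMax_bc hM hmax
  have hp := isPair_bc hM hQf
  have hPe := isPair_bc hM hmax.1.1
  obtain rfl := stab_eq hM hf hTQ
  obtain rfl := stab_eq hM hmax.1.1.2 hTP
  have hPC : P ≤ (Subgroup.centralizer (Q : Set G)) := fun a ha => Subgroup.mem_centralizer_iff.2 fun q hq => (hab a ha q (hQP hq)).symm
  have hCP : Subgroup.centralizer (P : Set G) ≤ (Subgroup.centralizer (Q : Set G)) := Subgroup.centralizer_le hQP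
  have hblk : IsBlk (Subgroup.centralizer (Q : Set G)) (bc hM Q f) := by
    have := hp.blk; rwa [CH_top] at this
  have hstep : NStep p ⊤ Q (bc hM Q f) P (bc hM P e) :=
    LE'.nstep hc hPe hle' (hPC.trans (centralizer_le_normalizer Q))
  have hbound : dmax p (Subgroup.centralizer (Q : Set G)) (bc hM Q f) ≤ Nat.card P := by
    obtain ⟨y, -, hcard⟩ := exists_full hc hm hle' (centralizer_le_stab hp)
    rw [← hcard]
    exact Subgroup.card_le_of_le inf_le_left
  have hmaxC : ∀ (R : Subgroup G) (r : MonoidAlgebra (Residue hM) G), OfBlk p (Subgroup.centralizer (Q : Set G)) (bc hM Q f) R r →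
      Nat.card R = Nat.card P → IsMax p (Subgroup.centralizer (Q : Set G)) (bc hM Q f) R r := by
    refine fun R r hR hcard => ⟨hR, fun S a hS hl => (Subgroup.eq_of_le_of_card_ge hl.subgroup_le ?_).symm⟩
    rw [hcard]
    exact (le_dmax hS.2.1.isP hS.2.1.le hS.br_ne).trans hbound
  have h1 : OfBlk p (Subgroup.centralizer (Q : Set G)) (bc hM Q f) P (bc hM P e) := ⟨hblk, hPe.to_sub hPC hCP, hstep.mul⟩
  have key : ∀ x ∈ stab Q (bc hM Q f), ∃ y ∈ stab P (bc hM P e), ∃ c ∈ (Subgroup.centralizer (Q : Set G)), x = y * c ∧ y ∈ Subgroup.normalizer (Q : Set G) := by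
    intro x hx
    have hsx := hstep.cj x
    rw [cm_of_mem_normalizer hx.1, mem_stabOf.1 hx.2] at hsx
    have hxC : cm x P ≤ (Subgroup.centralizer (Q : Set G)) := by
      rw [← cm_of_mem_normalizer (x := x) (R := (Subgroup.centralizer (Q : Set G))) (mem_normalizer_of_cm (by rw [cm_centralizer, cm_of_mem_normalizer hx.1]))]
      exact cm_mono hPC
    have h2 : OfBlk p (Subgroup.centralizer (Q : Set G)) (bc hM Q f) (cm x P) (cj x (bc hM P e)) :=
      ⟨hblk, (hPe.cj x).to_sub hxC (Subgroup.centralizer_le hsx.le), hsx.mul⟩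
    obtain ⟨c, hcC, e1, e2⟩ := max_conj hc (hmaxC _ _ h1 rfl) (hmaxC _ _ h2 (card_cm x P))
    have hy : c⁻¹ * x ∈ stab P (bc hM P e) := by
      refine ⟨mem_normalizer_of_cm ?_, ?_⟩
      · rw [← cm_cm, show cm x P = cm c P from e1, cm_cm, inv_mul_cancel, cm_one]
      · show cj (c⁻¹ * x) _ = _
        rw [← cj_cj, e2, cj_inv_cj]
    have hyQ : c⁻¹ * x ∈ Subgroup.normalizer (Q : Set G) :=
      mul_mem (inv_mem (centralizer_le_normalizer Q hcC)) hx.1
    refine ⟨c⁻¹ * x, hy, (c⁻¹ * x)⁻¹ * x, ?_, by group, hyQ⟩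
    have hn : c⁻¹ * x ∈ Subgroup.normalizer ((Subgroup.centralizer (Q : Set G)) : Set G) :=
      mem_normalizer_of_cm (by rw [cm_centralizer, cm_of_mem_normalizer hyQ])
    have := (Subgroup.mem_normalizer_iff.1 (inv_mem hn) c).1 hcC
    rw [show (c⁻¹ * x)⁻¹ * x = (c⁻¹ * x)⁻¹ * c * (c⁻¹ * x)⁻¹⁻¹ by group]
    exact this
  refine ⟨fun x hx => ?_, ?_⟩
  · obtain ⟨y, hy, c, hcC, h, -⟩ := key x hx
    exact ⟨y, hy, c, hcC, h⟩
  set A := stab P (bc hM P e) ⊓ Subgroup.normalizer (Q : Set G) with hA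
  have hAT : A ≤ stab Q (bc hM Q f) := by
    rintro y ⟨hy1, hy2⟩
    refine ⟨hy2, below_unique hc hPe ?_ hle'⟩
    have := hle'.cj y
    rwa [cm_of_mem_normalizer hy2, cm_of_mem_normalizer hy1.1, mem_stabOf.1 hy1.2] at this
  have hCT : (Subgroup.centralizer (Q : Set G)) ≤ stab Q (bc hM Q f) := centralizer_le_stab hp
  let N := Subgroup.normalizer (Q : Set G)
  have hAC : (stab P (bc hM P e) ⊓ (Subgroup.centralizer (Q : Set G))) = A ⊓ (Subgroup.centralizer (Q : Set G)) :=
    le_antisymm (fun u hu => ⟨⟨hu.1, centralizer_le_normalizer Q hu.2⟩, hu.2⟩) (fun u hu => ⟨hu.1.1, hu.2⟩)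
  rw [hAC]
  show (Subgroup.centralizer (Q : Set G)).relIndex (stab Q (bc hM Q f)) = (A ⊓ (Subgroup.centralizer (Q : Set G))).relIndex A
  rw [Subgroup.inf_relIndex_left]
  have hTN : stab Q (bc hM Q f) ≤ N := inf_le_left
  haveI : ((Subgroup.centralizer (Q : Set G)).subgroupOf N).Normal := Subgroup.normal_subgroupOf_of_le_normalizer fun u hu =>
    mem_normalizer_of_cm (by rw [cm_centralizer, cm_of_mem_normalizer hu])
  have e : (stab Q (bc hM Q f)).subgroupOf N = A.subgroupOf N ⊔ (Subgroup.centralizer (Q : Set G)).subgroupOf N := by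
    refine le_antisymm (fun x hx => ?_) (sup_le (Subgroup.comap_mono hAT) (Subgroup.comap_mono hCT))
    obtain ⟨y, hy, c, hcC, h, hyQ⟩ := key x hx
    have hx' : x = (⟨y, hyQ⟩ : N) * ⟨c, centralizer_le_normalizer Q hcC⟩ := Subtype.ext h
    rw [hx']
    exact Subgroup.mul_mem_sup (show (⟨y, hyQ⟩ : N) ∈ A.subgroupOf N from ⟨hy, hyQ⟩) hcC
  rw [← Subgroup.relIndex_subgroupOf hTN, ← Subgroup.relIndex_subgroupOf (H := (Subgroup.centralizer (Q : Set G))) (inf_le_right : A ≤ N), e,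
    Subgroup.relIndex_sup_right]

end Cfsg.Agent.S4682
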