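import Cfsg.Statements.S4650
import Cfsg.Agent.Blocks.PairAlg.Local
import Cfsg.Agent.Blocks.PairAlg.Nilpotent
import Cfsg.Agent.Fusion.Abelian
import Cfsg.Agent.S4682

set_option autoImplicit false
open Cfsg

namespace Cfsg.Agent.S4650

open CfsgLib.PairAlg CfsgLib.Blocks
attribute [local instance] residueField residue_charP
noncomputable local instance instFintypeSubgroupS4650 {G : Type*} [Group G] [Fintype G] (K : Subgroup G) : Fintype K :=
  Fintype.ofFinite K


/-- Let B be a block of the finite group G relative to a maximal ideal M of the algebraic integers containing the prime p, with a nontrivial commutative defect group P; let c be a block of C_G(P) inducing B and T the stabilizer of c in N_G(P). Then T/C_G(P) acts freely on the non-identity elements of P (an element of T fixing a non-identity element of P under conjugation lies in C_G(P)) if and only if, for every nontrivial subgroup Q of P, the block of C_G(Q) induced by c inside C_G(Q) is a nilpotent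 block of C_G(Q). -/
theorem result {G : Type*} [Group G] [Finite G] (p : ℕ) [Fact p.Prime] (M : Ideal Cfsg.AlgInt) (hM : Cfsg.IsPModular p M) (B : Set (Cfsg.IrrCharacter G)) (hB : Cfsg.IsPBlock M B) (P : Subgroup G) (hPD : Cfsg.IsDefectGroup p M B P) (hPab : ∀ x ∈ P, ∀ y ∈ P, x * y = y * x) (hP1 : P ≠ ⊥) (c : Set (Cfsg.IrrCharacter (Subgroup.centralizer (P : Set G)))) (hc : Cfsg.IsInducedBlock M (Subgroup.centralizer (P : Set G)) c B) (T : Subgroup G) (hT : ∀ g : G, g ∈ T ↔ (g ∈ Subgroup.normalizer (P : Set G) ∧ Cfsg.StabilizesBlock (Subgroup.centralizer (P : Set G)) c g)) : (∀ g ∈ T, ∀ x ∈ P, x ≠ 1 → g * x * g⁻¹ = x → g ∈ Subgroup.centralizer (P : Set G)) ↔ ∀ Q : Subgroup G, Q ≤ P → Q ≠ ⊥ → ∀ f : Set (Cfsg.IrrCharacter (Subgroup.centralizer (Q : Set G))), Cfsg.IsInducedBlockIn M (Subgroup.centralizer (Q : Set G)) (Subgroup.centralizer (P : Set G)) c f → Cfsg.IsNilpotentBlock p M f := by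
  haveI := Fintype.ofFinite G
  have hmax := isMaximal_of_induced hM hPD hc
  obtain rfl := stab_eq hM hc.1 hT
  have hcp := complete (G := G) hM
  have hPe := isPair_bc hM hmax.1.1
  have hTmem : ∀ z : G, z ∈ stab P (bc hM P c) ↔
      z ∈ Subgroup.normalizer (P : Set G) ∧ StabilizesBlock (Subgroup.centralizer (P : Set G)) c z :=
    fun z => ⟨fun h => ⟨h.1, (stabilizesBlock_bc_iff hM hc.1 h.1).2 h.2⟩,
      fun h => ⟨h.1, (stabilizesBlock_bc_iff hM hc.1 h.1).1 h.2⟩⟩
  have hPQ : ∀ Q : Subgroup G, Q ≤ P → P ≤ Subgroup.centralizer (Q : Set G) := fun Q hQ a ha =>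
    Subgroup.mem_centralizer_iff.2 fun q hq => (hPab a ha q (hQ hq)).symm
  constructor
  · intro hfree Q hQP hQ1 f hind
    have hN := (isInducedBlockIn_iff hM hQP (hPQ Q hQP) hmax.1.1).1 hind
    have hQf : IsBrauerPair p M Q f := hN.1
    have hle := ((nstep_bc_iff hM hQf hmax.1.1).1 hN).le'
    have hof := ofBlk_of_below hM hmax hle
    refine ⟨hQf.2, fun R g hRg y hyN hst _ => ?_⟩
    have hι : Function.Injective (Subgroup.centralizer (Q : Set G)).subtype := Subgroup.subtype_injective _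
    have h1 := (isBrauerPairOf_iff_ofBlk hM _ hι hQf.2 hRg.1).1 hRg
    set a := bl hM ((Subgroup.centralizer (Q : Set G)).subtype.comp
      (Subgroup.centralizer (R : Set (Subgroup.centralizer (Q : Set G)))).subtype) g with ha
    set R' := R.map (Subgroup.centralizer (Q : Set G)).subtype with hR'
    rw [Subgroup.range_subtype] at h1
    change OfBlk p (Subgroup.centralizer (Q : Set G)) (bc hM Q f) R' a at h1
    have hs := nstep_of_local (isPair_bc hM hQf) h1
    have hofS := (ofBlk_iff_of_nstep hcp hs).2 hof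
    obtain ⟨z, hz⟩ := exists_conj_below_max hM hmax hofS
    obtain ⟨g', hg', hg'e⟩ := exists_bc hM (isPair_of_le' hM hmax hz)
    rw [← hg'e] at hz
    have hyR : cm (y : G) R' = R' := by
      refine Subgroup.eq_of_le_of_card_ge ?_ (card_cm _ _).ge
      rintro _ ⟨_, ⟨r, hr, rfl⟩, rfl⟩
      exact ⟨y * r * y⁻¹, (Subgroup.mem_normalizer_iff.1 hyN r).1 hr, rfl⟩
    have hyS : (y : G) ∈ stab (Q ⊔ R') a := by
      refine ⟨mem_normalizer_of_cm ?_, ((stabilizesBlock_iff_cj hM _ hι hRg.1.2).1 hst).2⟩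
      show (Q ⊔ R').map _ = _
      rw [Subgroup.map_sup]
      exact congrArg₂ (· ⊔ ·) (cm_of_mem_normalizer (centralizer_le_normalizer Q y.2)) hyR
    have hwT : z * y * z⁻¹ ∈ stab (cm z (Q ⊔ R')) (bc hM (cm z (Q ⊔ R')) g') := by
      rw [hg'e, ← cm_stab]
      exact conj_mem_cm.2 hyS
    obtain ⟨t, ht, d, hd, he⟩ := (Cfsg.Agent.S4682.result p M hM B P c hmax hPab _ g' hz.subgroup_le hg'.2
      (subpairLE_of_le' hM hg' hmax.1.1 hz) (stab (cm z (Q ⊔ R')) (bc hM _ g'))
      (fun w => ⟨fun h => ⟨h.1, (stabilizesBlock_bc_iff hM hg'.2 h.1).2 h.2⟩,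
        fun h => ⟨h.1, (stabilizesBlock_bc_iff hM hg'.2 h.1).1 h.2⟩⟩)
      (stab P (bc hM P c)) hTmem).1 _ hwT
    obtain ⟨q, hq, hq1⟩ : ∃ q ∈ Q, q ≠ 1 := by
      by_contra hcon
      push Not at hcon
      exact hQ1 ((Subgroup.eq_bot_iff_forall _).2 hcon)
    have hqS : z * q * z⁻¹ ∈ cm z (Q ⊔ R') := conj_mem_cm.2 (Subgroup.mem_sup_left hq)
    have hwq : (z * y * z⁻¹) * (z * q * z⁻¹) * (z * y * z⁻¹)⁻¹ = z * q * z⁻¹ := by
      have e1 : (y : G) * q * (y : G)⁻¹ = q := by
        rw [← Subgroup.mem_centralizer_iff.1 y.2 q hq, mul_inv_cancel_right]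
      calc (z * y * z⁻¹) * (z * q * z⁻¹) * (z * y * z⁻¹)⁻¹ = z * ((y : G) * q * (y : G)⁻¹) * z⁻¹ := by group
        _ = _ := by rw [e1]
    rw [he, show t * d * (z * q * z⁻¹) * (t * d)⁻¹ = t * (d * (z * q * z⁻¹) * d⁻¹) * t⁻¹ by group,
      ← Subgroup.mem_centralizer_iff.1 hd _ hqS, mul_inv_cancel_right] at hwq
    have htC : t ∈ Subgroup.centralizer ((cm z (Q ⊔ R') : Subgroup G) : Set G) :=
      Subgroup.centralizer_le hz.subgroup_le (hfree t ht _ (hz.subgroup_le hqS) (by simpa using hq1) hwq)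
    have hyC : z * y * z⁻¹ ∈ cm z (Subgroup.centralizer ((Q ⊔ R' : Subgroup G) : Set G)) := by
      rw [cm_centralizer, he]
      exact mul_mem htC hd
    refine Subgroup.mem_centralizer_iff.2 fun r hr => Subtype.ext ?_
    exact Subgroup.mem_centralizer_iff.1 (conj_mem_cm.1 hyC) (r : G) (Subgroup.mem_sup_right ⟨r, hr, rfl⟩)
  · intro hnilQ g hg x hxP hx1 hgx
    set Q := Subgroup.zpowers x with hQ
    have hQP : Q ≤ P := Subgroup.zpowers_le.2 hxP
    have hQ1 : Q ≠ ⊥ := fun h => hx1 (Subgroup.zpowers_eq_bot.1 h)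
    obtain ⟨a, ha⟩ := exists_below hcp hPe hQP
    obtain ⟨f, hQf, rfl⟩ := exists_bc hM (ha.isPair hPe)
    have hs := LE'.nstep hcp hPe ha ((hPQ Q hQP).trans (centralizer_le_normalizer Q))
    have hnil := hnilQ Q hQP hQ1 f ((isInducedBlockIn_iff hM hQP (hPQ Q hQP) hmax.1.1).2
      ((nstep_bc_iff hM hQf hmax.1.1).2 hs))
    have hCPQ : Subgroup.centralizer (P : Set G) ≤ Subgroup.centralizer (Q : Set G) := Subgroup.centralizer_le hQP
    set P' := P.subgroupOf (Subgroup.centralizer (Q : Set G)) with hP'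
    have hmap : P'.map (Subgroup.centralizer (Q : Set G)).subtype = P := Subgroup.map_subgroupOf_eq_of_le (hPQ Q hQP)
    have hι : Function.Injective (Subgroup.centralizer (Q : Set G)).subtype := Subgroup.subtype_injective _
    have hblk : IsBlk (CH (Subgroup.centralizer (Q : Set G)) P) (bc hM P c) := by
      rw [CH_of_le hCPQ, ← CH_top P]; exact hPe.blk
    obtain ⟨c', hc', hc'e⟩ := exists_bl hM ((Subgroup.centralizer (Q : Set G)).subtype.comp
      (Subgroup.centralizer (P' : Set (Subgroup.centralizer (Q : Set G)))).subtype)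
      (injective_comp _ hι _) (K := CH (Subgroup.centralizer (Q : Set G)) P)
      (by rw [range_centralizer _ hι, hmap, Subgroup.range_subtype]) hblk
    have hblkQ : IsBlk (Subgroup.centralizer (Q : Set G)) (bc hM Q f) := by
      have := (isPair_bc hM hQf).blk; rwa [CH_top] at this
    have hP'p : IsPGroup p P' := hmax.1.1.1.of_equiv (Subgroup.subgroupOfEquivOfLe (hPQ Q hQP)).symm
    have hpair : IsBrauerPairOf p M f P' c' := by
      refine (isBrauerPairOf_iff_ofBlk hM _ hι hQf.2 ⟨hP'p, hc'⟩).2 ?_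
      rw [hc'e, hmap, Subgroup.range_subtype]
      exact ⟨hblkQ, hPe.to_sub (hPQ Q hQP) hCPQ, hs.mul⟩
    obtain ⟨F, hF⟩ := exists_blockFusionSystem hM hmax
    obtain ⟨φ, hr, hk, -⟩ := exists_autHom hM hmax hF (LE'.refl : LE' p ⊤ P (bc hM P c) P (bc hM P c))
    have hnd := CfsgLib.Fusion.not_dvd_card_autGroup hmax.1.1.1 (isSaturated_block hM hmax hF) hPab
    set n := orderOf g with hn
    have hord : ¬ p ∣ orderOf (g ^ p ^ n.factorization p) := by
      rw [orderOf_pow' _ (pow_ne_zero _ (Fact.out : p.Prime).ne_zero), ← hn, Nat.gcd_eq_right (Nat.ordProj_dvd n p)]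
      exact Nat.not_dvd_ordCompl (Fact.out : p.Prime) (orderOf_pos _).ne'
    have hgxQ : g ∈ Subgroup.centralizer (Q : Set G) := by
      have hle : Q ≤ Subgroup.centralizer ({g} : Set G) := Subgroup.zpowers_le.2
        (Subgroup.mem_centralizer_singleton_iff.2 (by
          conv_lhs => rw [← hgx]
          group))
      exact Subgroup.mem_centralizer_iff.2 fun q hq => Subgroup.mem_centralizer_singleton_iff.1 (hle hq)
    set g₀ := g ^ p ^ n.factorization p with hg₀
    have hg₀T : g₀ ∈ stab P (bc hM P c) := Subgroup.pow_mem _ hg _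
    have hg₀Q : g₀ ∈ Subgroup.centralizer (Q : Set G) := Subgroup.pow_mem _ hgxQ _
    have hN' : (⟨g₀, hg₀Q⟩ : Subgroup.centralizer (Q : Set G)) ∈ Subgroup.normalizer (P' : Set (Subgroup.centralizer (Q : Set G))) := by
      refine Subgroup.mem_normalizer_iff.2 fun r => ?_
      rw [hP', Subgroup.mem_subgroupOf, Subgroup.mem_subgroupOf]
      exact Subgroup.mem_normalizer_iff.1 hg₀T.1 (r : G)
    have hst' : StabilizesBlock (Subgroup.centralizer (P' : Set (Subgroup.centralizer (Q : Set G)))) c' ⟨g₀, hg₀Q⟩ := by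
      refine (stabilizesBlock_iff_cj hM _ hι hc').2 ⟨le_normalizer_centralizer P' hN', ?_⟩
      rw [hc'e]; exact hg₀T.2
    have hcent := hnil.2 P' c' hpair _ hN' hst' (by rwa [IsPRegular, ← Subgroup.orderOf_coe])
    have hker : (⟨g₀, hg₀T⟩ : ↥(stab P (bc hM P c))) ∈ φ.ker := by
      rw [hk]
      refine Subgroup.mem_centralizer_iff.2 fun u hu => ?_
      exact congrArg Subtype.val (Subgroup.mem_centralizer_iff.1 hcent ⟨u, hPQ Q hQP hu⟩ hu)
    have hd1 : orderOf (φ ⟨g, hg⟩) ∣ p ^ n.factorization p := orderOf_dvd_of_pow_eq_one (by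
      rw [← map_pow, ← MonoidHom.mem_ker]; exact hker)
    have hd2 : orderOf (φ ⟨g, hg⟩) ∣ Nat.card (F.autGroup P) := by
      have hm : φ ⟨g, hg⟩ ∈ F.autGroup P := hr ▸ ⟨_, rfl⟩
      rw [show orderOf (φ ⟨g, hg⟩) = orderOf (⟨_, hm⟩ : F.autGroup P) from Subgroup.orderOf_coe (⟨_, hm⟩ : F.autGroup P)]
      exact orderOf_dvd_natCard _
    have h1 : φ ⟨g, hg⟩ = 1 := orderOf_eq_one_iff.1 (Nat.eq_one_of_dvd_coprimes
      (Nat.Coprime.pow_left _ ((Fact.out : p.Prime).coprime_iff_not_dvd.2 hnd)) hd1 hd2)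
    have h2 : (⟨g, hg⟩ : ↥(stab P (bc hM P c))) ∈ φ.ker := h1
    rw [hk] at h2
    exact h2

end Cfsg.Agent.S4650
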