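import Cfsg.Statements.S4688
import Cfsg.Agent.Blocks.PairAlg.Nilpotent
import Cfsg.Agent.S4678

set_option autoImplicit false
open Cfsg

namespace Cfsg.Agent.S4688

open CfsgLib.PairAlg CfsgLib.Blocks
attribute [local instance] residueField residue_charP
noncomputable local instance instFintypeSubgroupS4688 {G : Type*} [Group G] [Fintype G] (K : Subgroup G) : Fintype K :=
  Fintype.ofFinite K


/-- Fix a prime p and a maximal ideal M of the algebraic integers containing p, and a nilpotent p-block B of the finite group G with maximal Brauer pair (P, e). Then for every Brauer pair (Q, f) of B, f is a nilpotent block of C_G(Q); and if moreover (Q, f) ≤ (P, e), then C_P(Q) is a defect group of f as a block of C_G(Q). -/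
theorem result {G : Type*} [Group G] [Fintype G] (p : ℕ) [Fact p.Prime] (M : Ideal Cfsg.AlgInt) (hM : Cfsg.IsPModular p M) (B : Set (Cfsg.IrrCharacter G)) (P : Subgroup G) (e : Set (Cfsg.IrrCharacter (Subgroup.centralizer (P : Set G)))) (hmax : Cfsg.IsMaximalBrauerPair p M B P e) (hnil : Cfsg.IsNilpotentBlock p M B) (Q : Subgroup G) (f : Set (Cfsg.IrrCharacter (Subgroup.centralizer (Q : Set G)))) (hQf : Cfsg.IsBrauerPairOf p M B Q f) : Cfsg.IsNilpotentBlock p M f ∧ (Cfsg.SubpairLE p M Q f P e → Cfsg.IsDefectGroup p M f ((P ⊓ Subgroup.centralizer (Q : Set G)).subgroupOf (Subgroup.centralizer (Q : Set G)))) := by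
  have hc := complete (G := G) hM
  have hQ := hQf.1
  have hp := isPair_bc hM hQ
  have hof := (isBrauerPairOf_iff_bc hM hmax.1.2.1 hQ).1 hQf
  refine ⟨⟨hQ.2, fun R g hRg x hxN hst hreg => ?_⟩, fun hle => ?_⟩
  · have hι : Function.Injective (Subgroup.centralizer (Q : Set G)).subtype := Subgroup.subtype_injective _
    have h1 := (isBrauerPairOf_iff_ofBlk hM _ hι hQ.2 hRg.1).1 hRg
    set a := bl hM ((Subgroup.centralizer (Q : Set G)).subtype.comp
      (Subgroup.centralizer (R : Set (Subgroup.centralizer (Q : Set G)))).subtype) g with ha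
    set R' := R.map (Subgroup.centralizer (Q : Set G)).subtype with hR'
    rw [Subgroup.range_subtype] at h1
    change OfBlk p (Subgroup.centralizer (Q : Set G)) (bc hM Q f) R' a at h1
    have hR'C : R' ≤ Subgroup.centralizer (Q : Set G) := h1.2.1.le
    have hSp : IsPGroup p ↥(Q ⊔ R') :=
      hQ.1.to_sup_of_normal_left' h1.2.1.isP (hR'C.trans (centralizer_le_normalizer Q))
    have hcenS : Subgroup.centralizer ((Q ⊔ R' : Subgroup G) : Set G) =
        CH (Subgroup.centralizer (Q : Set G)) R' := by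
      refine le_antisymm (le_inf (Subgroup.centralizer_le (SetLike.coe_subset_coe.2 le_sup_left)) (Subgroup.centralizer_le (SetLike.coe_subset_coe.2 le_sup_right))) ?_
      intro z hz
      refine Subgroup.mem_centralizer_iff.2 fun q hq => ?_
      have hsup : Q ⊔ R' ≤ Subgroup.centralizer ({z} : Set G) := sup_le
        (fun u hu => Subgroup.mem_centralizer_singleton_iff.2 (Subgroup.mem_centralizer_iff.1 hz.1 u hu))
        (fun u hu => Subgroup.mem_centralizer_singleton_iff.2 (Subgroup.mem_centralizer_iff.1 hz.2 u hu))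
      exact Subgroup.mem_centralizer_singleton_iff.1 (hsup hq)
    have hS : IsPair p ⊤ (Q ⊔ R') a := ⟨hSp, le_top, by rw [CH_top, hcenS]; exact h1.2.1.blk⟩
    have hFS : Fix (Q ⊔ R') (bc hM Q f) := fun u hu =>
      (sup_le (le_stab hp) (hR'C.trans (centralizer_le_stab hp)) hu).2
    have hBr : Br (Q ⊔ R') (bc hM Q f) = Br R' (bc hM Q f) := by
      have hQQ : Br Q (bc hM Q f) = bc hM Q f := hp.br_self
      conv_rhs => rw [← hQQ]
      classical
      ext z
      simp only [Br, coeff_cut, hcenS, CH, Subgroup.mem_inf]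
      split_ifs <;> first | rfl | simp_all
    have hstep : NStep p ⊤ Q (bc hM Q f) (Q ⊔ R') a :=
      ⟨hp, hS, le_sup_left, sup_le Subgroup.le_normalizer (hR'C.trans (centralizer_le_normalizer Q)), hFS,
        by rw [hBr]; exact h1.2.2⟩
    have hofS : OfBlk p ⊤ (bG hM B) (Q ⊔ R') a := (ofBlk_iff_of_nstep hc hstep).2 hof
    have hxR : cm (x : G) R' = R' := by
      refine Subgroup.eq_of_le_of_card_ge ?_ (card_cm _ _).ge
      rintro _ ⟨_, ⟨r, hr, rfl⟩, rfl⟩
      exact ⟨x * r * x⁻¹, (Subgroup.mem_normalizer_iff.1 hxN r).1 hr, rfl⟩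
    have hxS : (x : G) ∈ stab (Q ⊔ R') a := by
      refine ⟨mem_normalizer_of_cm ?_, ((stabilizesBlock_iff_cj hM _ hι hRg.1.2).1 hst).2⟩
      show (Q ⊔ R').map _ = _
      rw [Subgroup.map_sup]
      exact congrArg₂ (· ⊔ ·) (cm_of_mem_normalizer (centralizer_le_normalizer Q x.2)) hxR
    have hx := mem_centralizer_of_nilpotent hM hmax hnil hofS hxS
      (by rwa [IsPRegular, Subgroup.orderOf_coe])
    refine Subgroup.mem_centralizer_iff.2 fun r hr => Subtype.ext ?_
    exact Subgroup.mem_centralizer_iff.1 hx (r : G) (Subgroup.mem_sup_right ⟨r, hr, rfl⟩)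
  · obtain ⟨-, hle'⟩ := le'_of_subpairLE hM hle hmax.1.1
    obtain ⟨F, hF⟩ := exists_blockFusionSystem hM hmax
    exact (Cfsg.Agent.S4678.result p M hM B P e hmax F hF Q f hle'.subgroup_le hQ.2 hle).1
      (isFullyCentralized_of_nilpotent hM hmax hF hnil hle'.subgroup_le)

end Cfsg.Agent.S4688
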