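import Cfsg.Statements.S4653
import Cfsg.Agent.Blocks.NormalPSub

set_option autoImplicit false
open Cfsg

namespace Cfsg.Agent.S4653

open CfsgLib.Blocks CfsgLib.CharBasics

variable {G : Type*} [Group G] [Fintype G]

/-- A class element vanishing outside `C`. -/
private def Good (C : Subgroup G) (z : MonoidAlgebra ℂ G) : Prop := IsClassElt z ∧ ∀ g, g ∉ C → z.coeff g = 0

private theorem good_one (C : Subgroup G) : Good C (1 : MonoidAlgebra ℂ G) :=
  ⟨isClassElt_one, fun g hg => by
    classical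
    rw [MonoidAlgebra.one_def, MonoidAlgebra.coeff_single, Finsupp.single_apply, if_neg]
    exact fun e => hg (e ▸ C.one_mem)⟩

private theorem Good.sub {C : Subgroup G} {z w : MonoidAlgebra ℂ G} (hz : Good C z) (hw : Good C w) : Good C (z - w) :=
  ⟨hz.1.sub hw.1, fun g hg => by
    rw [MonoidAlgebra.coeff_sub, Finsupp.sub_apply, hz.2 g hg, hw.2 g hg, sub_zero]⟩

private theorem Good.smul {C : Subgroup G} {z : MonoidAlgebra ℂ G} (c : ℂ) (hz : Good C z) : Good C (c • z) :=
  ⟨hz.1.smul c, fun g hg => by rw [MonoidAlgebra.coeff_smul, Finsupp.smul_apply, hz.2 g hg, smul_zero]⟩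

private theorem Good.mul {C : Subgroup G} {z w : MonoidAlgebra ℂ G} (hz : Good C z) (hw : Good C w) : Good C (z * w) :=
  ⟨hz.1.mul hw.1, fun g hg => by
    classical
    rw [coeff_mul_eq]
    refine Finset.sum_eq_zero fun x _ => ?_
    by_cases hx : x ∈ C
    · rw [hw.2 _ (fun h => hg (by simpa using C.mul_mem hx h)), mul_zero]
    · rw [hz.2 x hx, zero_mul]⟩

private theorem good_classElt (C : Subgroup G) [C.Normal] {h : G} (hh : h ∈ C) : Good C (classElt h) :=
  ⟨isClassElt_classElt h, fun g hg => by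
    classical
    rw [coeff_classElt, if_neg]
    intro hc
    obtain ⟨c, rfl⟩ := isConj_iff.1 hc
    exact hg (Subgroup.Normal.conj_mem ‹C.Normal› _ hh c)⟩

/-- Fix a prime p and a maximal ideal M of the algebraic integers containing p. Let P be a normal p-subgroup of the finite group G and B a p-block of G. Then the idempotent of B is supported on C_G(P): its coefficient at every element of G outside C_G(P) is zero. -/
theorem result {G : Type*} [Group G] [Fintype G] (p : ℕ) [Fact p.Prime] (M : Ideal Cfsg.AlgInt) (hM : Cfsg.IsPModular p M) (P : Subgroup G) [P.Normal] (hP : IsPGroup p P) (B : Set (Cfsg.IrrCharacter G)) (hB : Cfsg.IsPBlock M B) (g : G) (hg : g ∉ Subgroup.centralizer (P : Set G)) : Cfsg.blockCoeff B g = 0 := by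
  classical
  haveI : Fintype (IrrCharacter G) := @Fintype.ofFinite _ finite_irrCharacter
  set C : Subgroup G := Subgroup.centralizer (P : Set G) with hC
  haveI : C.Normal := by rw [hC]; infer_instance
  -- members and non-members of `B` are separated by a class inside `C`
  have hsep : ∀ ψ ∈ B, ∀ φ : IrrCharacter G, φ ∉ B →
      ∃ h ∈ C, centralChar (ψ : G → ℂ) h ≠ centralChar (φ : G → ℂ) h := by
    intro ψ hψ φ hφ
    by_contra hcon
    push Not at hcon
    refine hφ ((IsPBlock.mem_iff hM hB hψ).2 fun h => ?_)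
    by_cases hh : h ∈ C
    · rw [hcon h hh, sub_self]; exact memLocalIdeal_zero hM
    · exact memLocalIdeal_sub hM (centralChar_mem_of_notMem_centralizer hM P hP ψ hh)
        (centralChar_mem_of_notMem_centralizer hM P hP φ hh)
  have hone : ∀ ψ ∈ B, ∀ s : Finset (IrrCharacter G), (∀ φ ∈ s, φ ∉ B) →
      ∃ z, Good C z ∧ omega (ψ : G → ℂ) z = 1 ∧ ∀ φ ∈ s, omega (φ : G → ℂ) z = 0 := by
    intro ψ hψ s
    induction s using Finset.induction_on with
    | empty => exact fun _ => ⟨1, good_one C, omega_one ψ.2, by simp⟩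
    | @insert φ s _ ih =>
      intro hs
      obtain ⟨z, hz, hz1, hz0⟩ := ih fun χ hχ => hs χ (Finset.mem_insert_of_mem hχ)
      obtain ⟨h, hh, hne⟩ := hsep ψ hψ φ (hs φ (Finset.mem_insert_self _ _))
      let u : MonoidAlgebra ℂ G := (centralChar (ψ : G → ℂ) h - centralChar (φ : G → ℂ) h)⁻¹ •
        (classElt h - centralChar (φ : G → ℂ) h • (1 : MonoidAlgebra ℂ G))
      have hu : Good C u := ((good_classElt C hh).sub ((good_one C).smul _)).smul _
      have hω : ∀ χ : IrrCharacter G, omega (χ : G → ℂ) u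
          = (centralChar (ψ : G → ℂ) h - centralChar (φ : G → ℂ) h)⁻¹ *
            (centralChar (χ : G → ℂ) h - centralChar (φ : G → ℂ) h) := fun χ => by
        rw [omega_smul, omega_sub, omega_classElt χ.2, omega_smul, omega_one χ.2, mul_one]
      refine ⟨z * u, hz.mul hu, ?_, fun χ hχ => ?_⟩
      · rw [omega_mul ψ.2 hz.1, hz1, hω, inv_mul_cancel₀ (sub_ne_zero.2 hne), mul_one]
      · rw [omega_mul χ.2 hz.1]
        rcases Finset.mem_insert.1 hχ with rfl | hx
        · rw [hω, sub_self, mul_zero, mul_zero]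
        · rw [hz0 χ hx, zero_mul]
  have hall : ∀ t : Finset (IrrCharacter G), (∀ ψ ∈ t, ψ ∈ B) →
      ∃ z, Good C z ∧ (∀ ψ ∈ t, omega (ψ : G → ℂ) z = 1) ∧ ∀ φ : IrrCharacter G, φ ∉ B → omega (φ : G → ℂ) z = 0 := by
    intro t
    induction t using Finset.induction_on with
    | empty => exact fun _ => ⟨1 - 1, (good_one C).sub (good_one C), by simp, fun φ _ => by rw [omega_sub, sub_self]⟩
    | @insert ψ t _ ih =>
      intro ht
      obtain ⟨z, hz, hz1, hz0⟩ := ih fun χ hχ => ht χ (Finset.mem_insert_of_mem hχ)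
      obtain ⟨q, hq, hq1, hq0⟩ := hone ψ (ht ψ (Finset.mem_insert_self _ _)) (Finset.univ.filter (· ∉ B))
        (fun φ hφ => (Finset.mem_filter.1 hφ).2)
      refine ⟨1 - (1 - z) * (1 - q), (good_one C).sub (((good_one C).sub hz).mul ((good_one C).sub hq)),
        fun χ hχ => ?_, fun φ hφ => ?_⟩
      · rw [omega_sub, omega_one χ.2, omega_mul χ.2 ((good_one C).sub hz).1, omega_sub, omega_sub, omega_one χ.2]
        rcases Finset.mem_insert.1 hχ with rfl | hx
        · rw [hq1]; ring
        · rw [hz1 χ hx]; ring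
      · rw [omega_sub, omega_one φ.2, omega_mul φ.2 ((good_one C).sub hz).1, omega_sub, omega_sub, omega_one φ.2,
          hz0 φ hφ, hq0 φ (Finset.mem_filter.2 ⟨Finset.mem_univ _, hφ⟩)]
        ring
  obtain ⟨z, hz, hz1, hz0⟩ := hall (Finset.univ.filter (· ∈ B)) (fun ψ hψ => (Finset.mem_filter.1 hψ).2)
  have e : blockElt B = z := eq_of_omega_eq (isClassElt_blockElt B) hz.1 fun χ => by
    rw [omega_blockElt]
    split_ifs with hχ
    · exact (hz1 χ (Finset.mem_filter.2 ⟨Finset.mem_univ _, hχ⟩)).symm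
    · exact (hz0 χ hχ).symm
  rw [← coeff_blockElt, e]
  exact hz.2 g hg

end Cfsg.Agent.S4653
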