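import Cfsg.Statements.S0920
import Cfsg.Agent.Blocks.FirstMain


set_option autoImplicit false
open Cfsg

namespace Cfsg.Agent.S0920

open CfsgLib.Blocks CfsgLib.CharBasics

/-- Brauer's First Main Theorem. Let D be a p-subgroup of the finite group G with normalizer N, and fix a maximal ideal M of the algebraic integers containing p. Then (i) every block b of N having D as a defect group induces some block B of G having D as a defect group; (ii) every block of G with defect group D is induced by exactly one block of N with defect group D. -/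
theorem result {G : Type*} [Group G] [Finite G] (p : ℕ) [Fact p.Prime] (M : Ideal Cfsg.AlgInt) (hM : Cfsg.IsPModular p M) (D : Subgroup G) (hD : IsPGroup p D) : (∀ b : Set (Cfsg.IrrCharacter (Subgroup.normalizer (D : Set G))), Cfsg.IsPBlock M b → Cfsg.IsDefectGroup p M b (D.subgroupOf (Subgroup.normalizer (D : Set G))) → ∃ B : Set (Cfsg.IrrCharacter G), Cfsg.IsPBlock M B ∧ Cfsg.IsDefectGroup p M B D ∧ Cfsg.IsInducedBlock M (Subgroup.normalizer (D : Set G)) b B) ∧ (∀ B : Set (Cfsg.IrrCharacter G), Cfsg.IsPBlock M B → Cfsg.IsDefectGroup p M B D → ∃! b : Set (Cfsg.IrrCharacter (Subgroup.normalizer (D : Set G))), Cfsg.IsPBlock M b ∧ Cfsg.IsDefectGroup p M b (D.subgroupOf (Subgroup.normalizer (D : Set G))) ∧ Cfsg.IsInducedBlock M (Subgroup.normalizer (D : Set G)) b B) := by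
  classical
  haveI := Fintype.ofFinite G
  haveI := Fintype.ofFinite (Subgroup.normalizer (D : Set G))
  obtain ⟨h1, h2⟩ := first_main hM hD (le_refl (Subgroup.normalizer (D : Set G)))
  refine ⟨fun b hb hbD => ?_, fun B hB hBD => ?_⟩
  · obtain ⟨B, ⟨hB, hBD, hBc⟩, -⟩ := h2 b hb hbD
    exact ⟨B, hB, hBD, isInducedBlock_of_coeff_congr hM hD rfl hb hB hBc⟩
  · obtain ⟨c, ⟨hc, hcD, hcc⟩, -⟩ := h1 B hB hBD
    refine ⟨c, ⟨hc, hcD, isInducedBlock_of_coeff_congr hM hD rfl hc hB hcc⟩, fun b ⟨hb, hbD, hind⟩ => ?_⟩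
    obtain ⟨B', ⟨hB', -, hBc'⟩, -⟩ := h2 b hb hbD
    have hind' := isInducedBlock_of_coeff_congr hM hD rfl hb hB' hBc'
    have hBB : B' = B := by
      obtain ⟨ξ, hξ⟩ := IsPBlock.nonempty hM hb
      obtain ⟨χ, hχ⟩ := IsPBlock.nonempty hM hB
      obtain ⟨ψ, hψ⟩ := IsPBlock.nonempty hM hB'
      refine IsPBlock.eq_of_mem hM hB' hB ((IsPBlock.mem_iff hM hB' hψ).2 fun g => ?_) hχ
      have := memLocalIdeal_sub hM (hind.2.2 ξ hξ χ hχ g) (hind'.2.2 ξ hξ ψ hψ g)
      rwa [sub_sub_sub_cancel_left] at this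
    subst hBB
    exact ((h1 B' hB hBD).unique ⟨hb, hbD, hBc'⟩ ⟨hc, hcD, hcc⟩)

end Cfsg.Agent.S0920
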