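import Cfsg.Statements.S4448
import Cfsg.Agent.Clifford.InvariantAbove

set_option autoImplicit false
open Cfsg

namespace Cfsg.Agent.S4448

/-- Inside a finite group Γ let S normalise G and also normalise a normal subgroup N of G, with the order of S coprime to the index of N in G and G/N solvable. Then for every S-invariant irreducible character ϑ of N, the induced character ϑ^G has an S-invariant irreducible constituent. -/
theorem result {Γ : Type*} [Group Γ] [Fintype Γ] (G S N : Subgroup Γ) [Fintype G] [Fintype N] (hnorm : ∀ s ∈ S, ∀ g ∈ G, s * g * s⁻¹ ∈ G) (hNG : N ≤ G) [hNn : (N.subgroupOf G).Normal] (hNS : ∀ s ∈ S, ∀ n ∈ N, s * n * s⁻¹ ∈ N) (hcop : (N.relIndex G).Coprime (Nat.card S)) (hsolv : Group.IsSolvable (G ⧸ N.subgroupOf G)) (θ : Cfsg.IrrCharacter N) (hinv : (∀ s ∈ S, ∀ g g' : N, (g' : Γ) = s * g * s⁻¹ → (θ : N → ℂ) g' = (θ : N → ℂ) g)) : ∃ χ : Cfsg.IrrCharacter G, Cfsg.classInner (fun n : N => (χ : G → ℂ) ⟨n, hNG n.2⟩) (θ : N → ℂ) ≠ 0 ∧ (∀ s ∈ S,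 ∀ g g' : G, (g' : Γ) = s * g * s⁻¹ → (χ : G → ℂ) g' = (χ : G → ℂ) g) := by
  classical
  suffices key : ∀ (n : ℕ) (G : Subgroup Γ) [Fintype G], (∀ s ∈ S, ∀ g ∈ G, s * g * s⁻¹ ∈ G) →
      ∀ (hNG : N ≤ G), (N.subgroupOf G).Normal → N.relIndex G = n → n.Coprime (Nat.card S) →
      (∀ q : (N.subgroupOf G).Normal, Group.IsSolvable (G ⧸ N.subgroupOf G)) →
      ∃ χ : G → ℂ, Cfsg.IsIrrCharacter G χ ∧
        Cfsg.classInner (fun n : N => χ ⟨n, hNG n.2⟩) (θ : N → ℂ) ≠ 0 ∧
        (∀ s ∈ S, ∀ g g' : G, (g' : Γ) = s * g * s⁻¹ → χ g' = χ g) by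
    obtain ⟨χ, h1, h2, h3⟩ := key _ G hnorm hNG hNn rfl hcop fun _ => hsolv
    exact ⟨⟨χ, h1⟩, h2, h3⟩
  intro n
  induction n using Nat.strong_induction_on with
  | _ n ih =>
  intro G _ hnormG hNG hn hidx hco hsol
  haveI := hn
  haveI := hsol hn
  by_cases hGN : G ≤ N
  · let E : G ≃* N :=
      { toFun := fun g => ⟨g, hGN g.2⟩
        invFun := fun x => ⟨x, hNG x.2⟩
        left_inv := fun _ => rfl
        right_inv := fun _ => rfl
        map_mul' := fun _ _ => rfl }
    refine ⟨fun g => (θ : N → ℂ) (E g), CfsgLib.Clifford.isIrrCharacter_comp θ.2 E.toMonoidHom E.surjective, ?_,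
      fun s hs g g' h => hinv s hs (E g) (E g') h⟩
    change Cfsg.classInner (θ : N → ℂ) (θ : N → ℂ) ≠ 0
    rw [CfsgLib.CharBasics.classInner_self θ.2]
    exact one_ne_zero
  -- a proper invariant subgroup with abelian quotient
  let Ms : Subgroup G := commutator G ⊔ N.subgroupOf G
  haveI hMs : Ms.Normal := inferInstanceAs (commutator G ⊔ N.subgroupOf G).Normal
  have hlt : Ms < ⊤ := by
    refine lt_top_iff_ne_top.mpr fun htop => ?_
    have hnt : Nontrivial (G ⧸ N.subgroupOf G) := by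
      obtain ⟨g, hg, hgN⟩ := SetLike.not_le_iff_exists.mp hGN
      exact nontrivial_of_ne ((⟨g, hg⟩ : G) : G ⧸ N.subgroupOf G) 1 fun h =>
        hgN ((QuotientGroup.eq_one_iff (N := N.subgroupOf G) (⟨g, hg⟩ : G)).mp h)
    refine (Group.IsSolvable.commutator_lt_top_of_nontrivial (G := G ⧸ N.subgroupOf G)).ne ?_
    refine eq_top_iff.mpr fun q _ => ?_
    obtain ⟨g, rfl⟩ := QuotientGroup.mk_surjective q
    obtain ⟨c, hc, x, hx, hcx⟩ := Subgroup.mem_sup_of_normal_right.mp (htop ▸ Subgroup.mem_top g : g ∈ Ms)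
    rw [← hcx, QuotientGroup.mk_mul, (QuotientGroup.eq_one_iff x).mpr hx, mul_one, commutator_def]
    have hle : (commutator G).map (QuotientGroup.mk' (N.subgroupOf G)) ≤ ⁅(⊤ : Subgroup (G ⧸ N.subgroupOf G)), ⊤⁆ := by
      rw [commutator_def, Subgroup.map_commutator]
      exact Subgroup.commutator_mono le_top le_top
    exact hle (Subgroup.mem_map_of_mem _ hc)
  let M : Subgroup Γ := Ms.map G.subtype
  have hMG : M ≤ G := Subgroup.map_subtype_le Ms
  have hNM : N ≤ M := fun x hx =>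
    Subgroup.mem_map.mpr ⟨⟨x, hNG hx⟩, le_sup_right (α := Subgroup G) hx, rfl⟩
  have hnormM : ∀ s ∈ S, ∀ m ∈ M, s * m * s⁻¹ ∈ M := by
    intro s hs m hm
    obtain ⟨g, hg, rfl⟩ := Subgroup.mem_map.mp hm
    let c : G →* G :=
      { toFun := fun g => ⟨s * g * s⁻¹, hnormG s hs g g.2⟩
        map_one' := Subtype.ext (by simp)
        map_mul' := fun a b => Subtype.ext (by simp [mul_assoc]) }
    refine Subgroup.mem_map.mpr ⟨c g, ?_, rfl⟩
    have hle : Ms ≤ Ms.comap c := by
      refine sup_le ?_ fun x hx => le_sup_right (α := Subgroup G) (hNS s hs x hx)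
      rw [← Subgroup.map_le_iff_le_comap, commutator_def, Subgroup.map_commutator]
      exact (Subgroup.commutator_mono le_top le_top).trans le_sup_left
    exact hle hg
  let := Fintype.ofFinite M
  have hnM : (N.subgroupOf M).Normal :=
    ⟨fun x hx m => hn.conj_mem ⟨((x : M) : Γ), hMG x.2⟩ hx ⟨(m : Γ), hMG m.2⟩⟩
  have hrel : N.relIndex M * M.relIndex G = N.relIndex G := Subgroup.relIndex_mul_relIndex N M G hNM hMG
  have hsubM : M.subgroupOf G = Ms := Subgroup.comap_map_eq_self_of_injective G.subtype_injective Ms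
  have hMne : 1 < M.relIndex G := by
    rw [Subgroup.relIndex, hsubM]
    exact Subgroup.one_lt_index_of_ne_top hlt.ne
  have hlt' : N.relIndex M < n := by
    rw [← hidx, ← hrel]
    exact lt_mul_of_one_lt_right (Nat.pos_of_ne_zero Subgroup.index_ne_zero_of_finite) hMne
  obtain ⟨ψ, hψ, hψN, hψS⟩ := ih _ hlt' M hnormM hNM hnM rfl
    (hco.coprime_dvd_left (by rw [← hidx, ← hrel]; exact dvd_mul_right _ _))
    (fun q => by
      haveI := hsol hn
      refine Group.isSolvable_of_isSolvable_injective (f := QuotientGroup.map (N.subgroupOf M) (N.subgroupOf G)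
        (Subgroup.inclusion hMG) fun x hx => hx) fun a b hab => ?_
      obtain ⟨a, rfl⟩ := QuotientGroup.mk_surjective a
      obtain ⟨b, rfl⟩ := QuotientGroup.mk_surjective b
      change ((Subgroup.inclusion hMG a : G) : G ⧸ N.subgroupOf G) = (Subgroup.inclusion hMG b : G) at hab
      rw [QuotientGroup.eq] at hab
      exact QuotientGroup.eq.mpr hab)
  haveI : (M.subgroupOf G).Normal := hsubM ▸ hMs
  let := Fintype.ofFinite (M.subgroupOf G)
  let E : M.subgroupOf G ≃* M := Subgroup.subgroupOfEquivOfLe hMG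
  have hψ' : Cfsg.IsIrrCharacter (M.subgroupOf G) (fun m => ψ (E m)) :=
    CfsgLib.Clifford.isIrrCharacter_comp hψ E.toMonoidHom E.surjective
  let act : S →* MulAut G :=
    { toFun := fun s =>
        { toFun := fun g => ⟨s * g * (s : Γ)⁻¹, hnormG s s.2 g g.2⟩
          invFun := fun g => ⟨(s : Γ)⁻¹ * g * s, by simpa using hnormG (s : Γ)⁻¹ (S.inv_mem s.2) g g.2⟩
          left_inv := fun g => Subtype.ext (by simp [mul_assoc])
          right_inv := fun g => Subtype.ext (by simp [mul_assoc])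
          map_mul' := fun a b => Subtype.ext (by simp [mul_assoc]) }
      map_one' := MulEquiv.ext fun g => Subtype.ext (by simp)
      map_mul' := fun a b => MulEquiv.ext fun g => Subtype.ext (by simp [mul_assoc]) }
  obtain ⟨χ, hχ, hχM, hχinv⟩ := CfsgLib.Clifford.exists_invariant_over_abelian (M := M.subgroupOf G)
    (fun x y => by
      rw [hsubM]
      exact Subgroup.mem_sup_left (by
        rw [commutator_def, ← commutatorElement_def]
        exact Subgroup.commutator_mem_commutator (Subgroup.mem_top x) (Subgroup.mem_top y)))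
    act (hco.coprime_dvd_left (by rw [← hidx, ← hrel]; exact dvd_mul_left _ _))
    (fun s m hm => hnormM s s.2 m hm) hψ' (fun s m => hψS s s.2 _ _ rfl)
  refine ⟨χ, hχ, ?_, fun s hs g g' h => ?_⟩
  · obtain ⟨R, hR, hsum⟩ := CfsgLib.Clifford.exists_eq_add_of_constituent
      (CfsgLib.CharBasics.isCharacter_restrict (CfsgLib.CharBasics.isCharacter_of_irr hχ) (M.subgroupOf G)) hψ' hχM
    have h1 : (fun x : N => χ ⟨x, hNG x.2⟩) =
        (fun x : N => ψ ⟨x, hNM x.2⟩) + fun x : N => R (E.symm ⟨x, hNM x.2⟩) := funext fun x => by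
      have := congrFun hsum (E.symm ⟨x, hNM x.2⟩)
      rw [Pi.add_apply, MulEquiv.apply_symm_apply] at this
      exact this
    rw [h1]
    exact CfsgLib.Clifford.classInner_add_ne_zero_left
      (CfsgLib.CharBasics.isCharacter_comp (CfsgLib.CharBasics.isCharacter_of_irr hψ) (Subgroup.inclusion hNM))
      (CfsgLib.CharBasics.isCharacter_comp hR (E.symm.toMonoidHom.comp (Subgroup.inclusion hNM)))
      (CfsgLib.CharBasics.isCharacter_of_irr θ.2) hψN
  · rw [← hχinv ⟨s, hs⟩ g]
    exact congrArg χ (Subtype.ext h)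

end Cfsg.Agent.S4448
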