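import Cfsg.Statements.S4449
import Cfsg.Agent.Blocks.GlaubermanNormal


set_option autoImplicit false
open Cfsg

namespace Cfsg.Agent.S4449

open CfsgLib CfsgLib.Blocks CfsgLib.CharBasics

/-- Inside a finite group Γ let the solvable subgroup S normalise G with the orders of G and S coprime, and let N be a normal subgroup of G normalised by S. Then for every S-invariant irreducible character ϑ of N, the induced character ϑ^G has an S-invariant irreducible constituent. -/
theorem result {Γ : Type*} [Group Γ] [Fintype Γ] (G S N : Subgroup Γ) [Fintype G] [Fintype N] (hnorm : ∀ s ∈ S, ∀ g ∈ G, s * g * s⁻¹ ∈ G) (hNG : N ≤ G) (hNnormal : ∀ g ∈ G, ∀ n ∈ N, g * n * g⁻¹ ∈ N) (hNS : ∀ s ∈ S, ∀ n ∈ N, s * n * s⁻¹ ∈ N) (hcop : (Nat.card G).Coprime (Nat.card S)) (hsolv : Group.IsSolvable S) (θ : Cfsg.IrrCharacter N) (hinv : (∀ s ∈ S, ∀ g g' : N, (g' : Γ) = s * g * s⁻¹ → (θ : N → ℂ) g' = (θ : N → ℂ) g)) : ∃ χ : Cfsg.IrrCharacter G, Cfsg.classInner (fun n : N =>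 (χ : G → ℂ) ⟨n, hNG n.2⟩) (θ : N → ℂ) ≠ 0 ∧ (∀ s ∈ S, ∀ g g' : G, (g' : Γ) = s * g * s⁻¹ → (χ : G → ℂ) g' = (χ : G → ℂ) g) := by
  classical
  let φ : S →* MulAut G :=
    { toFun := fun s =>
        { toFun := fun g => ⟨(s : Γ) * g * (s : Γ)⁻¹, hnorm s s.2 g g.2⟩
          invFun := fun g => ⟨(s : Γ)⁻¹ * g * s, by
            have := hnorm _ (S.inv_mem s.2) g g.2
            rwa [inv_inv] at this⟩
          left_inv := fun g => Subtype.ext (by simp [mul_assoc])
          right_inv := fun g => Subtype.ext (by simp [mul_assoc])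
          map_mul' := fun a b => Subtype.ext (by simp [mul_assoc]) }
      map_one' := MulEquiv.ext fun g => Subtype.ext (by simp)
      map_mul' := fun s t => MulEquiv.ext fun g => Subtype.ext (by simp [mul_assoc]) }
  let N' : Subgroup G := N.subgroupOf G
  haveI : N'.Normal := ⟨fun n hn g => hNnormal g g.2 (n : Γ) hn⟩
  haveI : Fintype N' := Fintype.ofFinite _
  let e : N' ≃* N := Subgroup.subgroupOfEquivOfLe hNG
  have hN' : ∀ s : S, ∀ x ∈ N', φ s x ∈ N' := fun s x hx => hNS s s.2 (x : Γ) hx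
  obtain ⟨χ, hχ, hne⟩ := exists_invariant_over (Nat.card S) G S φ rfl hcop hsolv N' hN' (pushChar e.symm θ)
    (fun s x => hinv s s.2 (e x) (e (NormalSylowCorr.restrictAct φ N' hN' s x)) rfl)
  refine ⟨χ, ?_, fun s hs g g' h => ?_⟩
  · intro h0
    refine hne (Eq.trans ?_ h0)
    simp only [Cfsg.classInner]
    rw [Nat.card_congr e.toEquiv, ← e.toEquiv.sum_comp]
    rfl
  · rw [show g' = φ ⟨s, hs⟩ g from Subtype.ext h]
    exact hχ _ _
end Cfsg.Agent.S4449
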