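import Cfsg.Statements.S3771
import Cfsg.Agent.PGroup.Basic
import Cfsg.Agent.PGroup.DStar
-- import your own Cfsg.Agent.* helpers here

set_option autoImplicit false
open Cfsg

namespace Cfsg.Agent.S3771

/-- Let p be a prime and R a finite p-group of p-rank at most 2 (no elementary abelian subgroup of order p³) in which every element has order dividing p. Then R has order at most p³. -/
theorem result {R : Type*} [Group R] [Finite R] {p : ℕ} [Fact p.Prime] (hR : IsPGroup p R) (hrank : Cfsg.PRankLE p 2 R) (hexp : ∀ x : R, x ^ p = 1) : Nat.card R ≤ p ^ 3 := by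
  classical
  have hp : p.Prime := Fact.out
  obtain ⟨A, hA⟩ := (Set.toFinite {A : Subgroup R | A.Normal ∧ IsMulCommutative A}).exists_maximal
    ⟨⊥, inferInstance, ⟨⟨fun a b => Subsingleton.elim _ _⟩⟩⟩
  obtain ⟨hAn, hAc⟩ := hA.prop
  haveI := hAn
  have hC := CfsgLib.PGroup.centralizer_maximal_normal_abelian hR hAc
    fun B hB hBc hle => le_antisymm (hA.2 ⟨hB, hBc⟩ hle) hle
  have hA2 : Nat.card A ≤ p ^ 2 := hrank A hAc fun a _ => hexp a
  obtain ⟨k, hk⟩ := (hR.to_subgroup A).exists_card_eq
  rcases Nat.eq_zero_or_pos k with h0 | hkpos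
  · have hbot : A = ⊥ := Subgroup.card_eq_one.mp (by rw [hk, h0, pow_zero])
    rw [hbot] at hC
    have hS : (⊤ : Subgroup R) = ⊥ :=
      (eq_top_iff.mpr fun g _ => Subgroup.mem_centralizer_iff.mpr fun b hb => by
        rw [Subgroup.mem_bot.mp hb, one_mul, mul_one]).symm.trans hC
    rw [← Subgroup.card_top (G := R), hS, Subgroup.card_bot]
    exact Nat.one_le_pow _ _ hp.pos
  · have hk2 : k ≤ 2 := (Nat.pow_le_pow_iff_right hp.one_lt).mp (hk ▸ hA2)
    have hpA : p ∣ Nat.card A := hk ▸ dvd_pow_self p hkpos.ne'
    letI : MulAction (ConjAct R) A := inferInstance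
    obtain ⟨z, hz, hz1⟩ := (hR.of_equiv ConjAct.toConjAct).exists_fixed_point_of_prime_dvd_card_of_fixed_point
      A hpA (a := 1) (fun g => Subtype.ext (by simp [ConjAct.smul_def]))
    have hzc : ∀ g : R, g * z * g⁻¹ = z := fun g => by
      have h := congrArg Subtype.val (hz (ConjAct.toConjAct g))
      simpa [ConjAct.Subgroup.val_conj_smul, ConjAct.smul_def] using h
    set Z := Subgroup.zpowers (z : R) with hZ
    have hzA : Z ≤ A := Subgroup.zpowers_le.mpr z.2
    have hzo : Nat.card Z = p := by
      rw [Nat.card_zpowers]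
      exact orderOf_eq_prime (hexp _) fun h => hz1 (Subtype.ext h).symm
    by_cases hAZ : A ≤ Z
    · have htop : Subgroup.centralizer (A : Set R) = ⊤ := eq_top_iff.mpr fun g _ =>
        Subgroup.mem_centralizer_iff.mpr fun b hb => by
          obtain ⟨j, rfl⟩ := Subgroup.mem_zpowers_iff.mp (hAZ hb)
          exact ((show Commute g (z : R) from mul_inv_eq_iff_eq_mul.mp (hzc g)).zpow_right j).eq.symm
      rw [← Subgroup.card_top (G := R), ← htop, hC, hk]
      exact Nat.pow_le_pow_right hp.pos (by omega)
    · obtain ⟨a, haA, haZ⟩ := SetLike.not_le_iff_exists.mp hAZ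
      set K := Subgroup.centralizer ({a} : Set R) with hK
      -- `z` and `a` generate `A`
      have hKA : K ≤ A := by
        rw [← hC]
        intro g hg
        rw [Subgroup.mem_centralizer_iff]
        set D := Subgroup.centralizer ({g} : Set R) ⊓ A with hD
        have hZD : Z ≤ D := le_inf (Subgroup.zpowers_le.mpr (Subgroup.mem_centralizer_singleton_iff.mpr
          (mul_inv_eq_iff_eq_mul.mp (hzc g)).symm)) hzA
        have haD : a ∈ D := ⟨Subgroup.mem_centralizer_singleton_iff.mpr (Subgroup.mem_centralizer_singleton_iff.mp hg).symm, haA⟩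
        have hlt : Z < D := lt_of_le_not_ge hZD fun h => haZ (h haD)
        obtain ⟨j, hj⟩ := (hR.to_subgroup D).exists_card_eq
        have h1 : Nat.card Z < Nat.card D := by
          by_contra hcon
          exact hlt.ne (Subgroup.eq_of_le_of_card_ge hZD (Nat.le_of_not_lt hcon))
        rw [hzo, hj] at h1
        have hj2 : 2 ≤ j := by
          by_contra hcon
          interval_cases j <;> simp at h1
          exact absurd h1 (by have := hp.one_lt; omega)
        have hDA : D = A := Subgroup.eq_of_le_of_card_ge inf_le_right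
          (by rw [hj]; exact hA2.trans (Nat.pow_le_pow_right hp.pos hj2))
        intro b hb
        exact Subgroup.mem_centralizer_singleton_iff.mp (hDA.symm ▸ hb : b ∈ D).1
      have hlt : K.index < p ^ 2 := by
        refine lt_of_lt_of_le ?_ hA2
        let f : R ⧸ K → A := Quotient.lift (fun g => ⟨g * a * g⁻¹, hAn.conj_mem a haA g⟩) fun g h hgh => by
          have := Subgroup.mem_centralizer_singleton_iff.mp (QuotientGroup.leftRel_apply.mp hgh)
          apply Subtype.ext
          show g * a * g⁻¹ = h * a * h⁻¹
          calc g * a * g⁻¹ = g * (a * (g⁻¹ * h)) * h⁻¹ := by group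
            _ = g * ((g⁻¹ * h) * a) * h⁻¹ := by rw [this]
            _ = h * a * h⁻¹ := by group
        have hinj : Function.Injective f := by
          intro x y
          induction x using QuotientGroup.induction_on with
          | H g =>
            induction y using QuotientGroup.induction_on with
            | H h =>
              intro hgh
              have h' : g * a * g⁻¹ = h * a * h⁻¹ := congrArg Subtype.val hgh
              refine QuotientGroup.eq.mpr (Subgroup.mem_centralizer_singleton_iff.mpr ?_)
              calc g⁻¹ * h * a = g⁻¹ * (h * a * h⁻¹) * h := by group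
                _ = g⁻¹ * (g * a * g⁻¹) * h := by rw [h']
                _ = a * (g⁻¹ * h) := by group
        refine lt_of_le_of_ne (Nat.card_le_card_of_injective f hinj) fun he => ?_
        obtain ⟨x, hx⟩ := ((Nat.bijective_iff_injective_and_card f).mpr ⟨hinj, he⟩).2 1
        induction x using QuotientGroup.induction_on with
        | H g =>
          exact haZ (conj_eq_one_iff.mp (congrArg Subtype.val hx : g * a * g⁻¹ = 1) ▸ Z.one_mem)
      obtain ⟨i, -, hi⟩ := (Nat.dvd_prime_pow hp).mp
        (show K.index ∣ p ^ _ from (Classical.choose_spec hR.exists_card_eq) ▸ K.index_dvd_card)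
      rw [hi] at hlt
      have hi1 := (Nat.pow_lt_pow_iff_right hp.one_lt).mp hlt
      rw [← K.card_mul_index, hi, pow_succ]
      exact Nat.mul_le_mul ((Subgroup.card_le_of_le hKA).trans hA2 : Nat.card K ≤ p ^ 2)
        ((Nat.pow_le_pow_right hp.pos (by omega : i ≤ 1)).trans (pow_one p).le)

end Cfsg.Agent.S3771
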