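import Cfsg.Statements.S4455
import Cfsg.Agent.CharBasics.Ortho
import Cfsg.Agent.Clifford.ResidualExt
import Cfsg.Agent.Clifford.RepBasic
import Cfsg.Agent.Blocks.PairAlg.Basic
import Cfsg.Agent.Transfer.Residual

set_option autoImplicit false
open Cfsg CfsgLib CfsgLib.CharBasics

namespace Cfsg.Agent.S4455

/-- Fix a prime p and a finite group G. Let s be the sum of χ(1)² over the irreducible characters χ of G whose degree is not divisible by p and whose determinantal order o(χ) is not divisible by p. Then the order of O^p(G), the subgroup generated by the elements of order prime to p, is congruent to s modulo p. -/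
theorem result {G : Type*} [Group G] [Finite G] (p : ℕ) (hp : p.Prime) : (Nat.card (Cfsg.pResidual p G) : ℤ) ≡ (∑ᶠ χ ∈ {χ : Cfsg.IrrCharacter G | ¬ p ∣ Cfsg.charDegree (χ : G → ℂ) ∧ ¬ p ∣ Cfsg.detOrder (χ : G → ℂ)}, (Cfsg.charDegree (χ : G → ℂ) : ℤ) ^ 2) [ZMOD p] := by
  classical
  haveI : Fact p.Prime := ⟨hp⟩
  let N := Cfsg.pResidual p G
  haveI hN : N.Normal := CfsgLib.Transfer.pResidual_normal
  obtain ⟨k, hk⟩ := CfsgLib.Transfer.index_pResidual (p := p) (G := G)
  haveI := Fintype.ofFinite G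
  haveI := finite_irrCharacter (G := G)
  haveI := finite_irrCharacter (G := N)
  haveI := Fintype.ofFinite (IrrCharacter N)
  haveI := Fintype.ofFinite (IrrCharacter G)
  obtain ⟨P⟩ : Nonempty (Sylow p G) := inferInstance
  letI : MulAction P (IrrCharacter N) :=
    { smul := fun s θ => ⟨Clifford.conjFun ((s : G)⁻¹) (θ : N → ℂ), Clifford.isIrrCharacter_conjFun _ θ.2⟩
      one_smul := fun θ => Subtype.ext (by
        show Clifford.conjFun ((1 : P) : G)⁻¹ (θ : N → ℂ) = _
        rw [Subgroup.coe_one, inv_one, Clifford.conjFun_one])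
      mul_smul := fun s t θ => Subtype.ext (by
        show Clifford.conjFun ((s * t : P) : G)⁻¹ (θ : N → ℂ) = Clifford.conjFun ((s : G)⁻¹) (Clifford.conjFun ((t : G)⁻¹) _)
        rw [Clifford.conjFun_mul, Subgroup.coe_mul, mul_inv_rev]) }
  have hfix : ∀ θ : IrrCharacter N, (∀ s : P, s • θ = θ) → ∀ (g : G) (n : N),
      (θ : N → ℂ) ⟨g * n * g⁻¹, hN.conj_mem (n : G) n.2 g⟩ = (θ : N → ℂ) n := by
    intro θ hθ g n
    have hT : (⊤ : Subgroup G) ≤ Clifford.inertia (θ : N → ℂ) := by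
      rw [← CfsgLib.Transfer.pResidual_sup_sylow P]
      refine sup_le (Clifford.le_inertia (isClassFunction (isCharacter_of_irr θ.2))) fun s hs => ?_
      rw [Clifford.mem_inertia]
      have := congrArg Subtype.val (hθ ⟨s⁻¹, inv_mem hs⟩)
      change Clifford.conjFun (s⁻¹)⁻¹ (θ : N → ℂ) = _ at this
      rwa [inv_inv] at this
    exact congrFun (Clifford.mem_inertia.1 (hT (Subgroup.mem_top g))) n
  let F : IrrCharacter N → ZMod p := fun θ => (charDegree (θ : N → ℂ) ^ 2 : ℕ)
  have hF : ∀ (s : P) θ, F (s • θ) = F θ := fun s θ => by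
    have : ((s • θ : IrrCharacter N) : N → ℂ) 1 = (θ : N → ℂ) 1 := congrArg (θ : N → ℂ)
      (Subtype.ext (show (s : G)⁻¹ * ((1 : N) : G) * (s : G)⁻¹⁻¹ = ((1 : N) : G) by simp))
    simp only [F, charDegree, this]
  have h1 := CfsgLib.PairAlg.sum_eq_sum_fixed P.2 F hF
  have h0 : ∑ θ, F θ = (Nat.card N : ZMod p) := by
    simp only [F]
    rw [← Nat.cast_sum, sum_sq_degree]
  rw [h0, ← Finset.sum_filter_ne_zero, Finset.filter_filter] at h1
  rw [← ZMod.intCast_eq_intCast_iff, Int.cast_natCast, h1,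
    finsum_mem_eq_finite_toFinset_sum _ (Set.toFinite _), Int.cast_sum]
  have hne : ∀ θ : IrrCharacter N, F θ ≠ 0 ↔ ¬ p ∣ charDegree (θ : N → ℂ) := fun θ => by
    simp only [F, Ne, ZMod.natCast_eq_zero_iff]
    exact ⟨fun h hd => h (dvd_pow hd two_ne_zero), fun h hd => h (hp.dvd_of_dvd_pow hd)⟩
  symm
  refine Finset.sum_bij
    (fun χ hχ => (⟨fun n : N => (χ : G → ℂ) n, Clifford.isIrr_restrict_of_pow_index hp N hk χ.2
      ((Set.Finite.mem_toFinset _).1 hχ).1⟩ : IrrCharacter N)) ?_ ?_ ?_ ?_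
  · intro χ hχ
    rw [Finset.mem_filter]
    refine ⟨Finset.mem_univ _, fun s => Subtype.ext (funext fun n => ?_), ?_⟩
    · exact isClassFunction (isCharacter_of_irr χ.2) (n : G) ((s : G)⁻¹)
    · rw [hne]
      exact ((Set.Finite.mem_toFinset _).1 hχ).1
  · intro χ hχ χ' hχ' he
    have hres : ∀ n : N, (χ' : G → ℂ) n = (χ : G → ℂ) n := fun n => (congrFun (congrArg Subtype.val he) n).symm
    exact Subtype.ext (Clifford.canonical_extension_unique N rfl
      (Clifford.isIrr_restrict_of_pow_index hp N hk χ.2 ((Set.Finite.mem_toFinset _).1 hχ).1)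
      ((Set.Finite.mem_toFinset _).1 hχ).1 χ.2 (fun n => rfl) ((Set.Finite.mem_toFinset _).1 hχ).2
      χ'.2 hres ((Set.Finite.mem_toFinset _).1 hχ').2).symm
  · intro θ hθ
    rw [Finset.mem_filter, hne] at hθ
    obtain ⟨χ, hχ, hres, ho⟩ := Clifford.exists_canonical_extension N rfl θ.2 (hfix θ hθ.2.1) hθ.2.2
    refine ⟨⟨χ, hχ⟩, (Set.Finite.mem_toFinset _).2 ⟨?_, ho⟩, Subtype.ext (funext hres)⟩
    have : charDegree χ = charDegree (θ : N → ℂ) := by
      unfold charDegree; rw [← hres 1, Subgroup.coe_one]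
    show ¬ p ∣ charDegree χ
    rw [this]; exact hθ.2.2
  · intro χ hχ
    simp only [F, charDegree, Subgroup.coe_one]
    push_cast
    rfl

end Cfsg.Agent.S4455
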