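import Cfsg.Statements.S0292
import Cfsg.Agent.OrthOrder.Center
-- import your own Cfsg.Agent.* helpers here

set_option autoImplicit false
open Cfsg

namespace Cfsg.Agent.S0292

/-- 2 |PΩ_{2m+1}(q)| = q^(m^2) prod_{i=1}^{m} (q^(2i) - 1), for q odd and m at least 3 (type B_m). -/
theorem result {F : Type*} [Field F] [Fintype F] {q : ℕ} (hF : Fintype.card F = q) (hodd : Odd q) (m : ℕ) (hm : 3 ≤ m) : 2 * Nat.card (Cfsg.POmega F (Cfsg.quadFormOdd m F)) = q ^ (m ^ 2) * ∏ i ∈ Finset.range m, (q ^ (2 * (i + 1)) - 1) := by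
  subst hF
  have h2 := CfsgLib.OrthOrder.two_ne_zero_of_odd hodd
  have hQ := CfsgLib.Forms.nondegenerate_quadOdd m h2
  have hn : 5 ≤ Fintype.card (Unit ⊕ (Fin m ⊕ Fin m)) := by simp; omega
  have key := CfsgLib.OrthOrder.card_POmega_mul (CfsgLib.Forms.quadOdd F m)
  rw [CfsgLib.Forms.index_Omega _ h2 hQ (by omega),
    CfsgLib.OrthOrder.card_center_eq_one hQ hn (CfsgLib.OrthOrder.neg_one_notMem_of_odd h2 (by simp [parity_simps])),
    CfsgLib.OrthOrder.natCard_isometryGroup _ rfl, CfsgLib.OrthOrder.card_isom_odd h2] at key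
  rw [← CfsgLib.Forms.coe_quadOdd]
  linarith

end Cfsg.Agent.S0292
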