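import Cfsg.Statements.S5025
import Cfsg.Agent.RankOne.Basic

set_option autoImplicit false
open Cfsg

namespace Cfsg.Agent.S5025

open CfsgLib.RankOne in
lemma not_rootElement {G : Type*} [Group G] {S : Set (Subgroup G)} (hS : Cfsg.IsRootSubgroupSet S)
    {A B : Subgroup G} (hB : B ∈ Cfsg.rankOnePartners S A) {z : G}
    (hz : z ∈ Subgroup.centralizer ((A ⊔ B : Subgroup G) : Set G)) (hz1 : z ≠ 1) :
    ∀ a ∈ A, a ≠ 1 → z * a ∉ Cfsg.rootElements S := by
  rintro a ha ha1 ⟨hc1, C, hC, hc⟩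
  obtain ⟨hBS, hp⟩ := hB
  have hzc : ∀ x ∈ A ⊔ B, x * z = z * x := fun x hx => Subgroup.mem_centralizer_iff.1 hz x hx
  have hzB : conjBy B z = B := conjBy_eq_self_iff.2 <| by
    refine Subgroup.mem_normalizer_iff.2 fun y => ⟨fun hy => ?_, fun hy => ?_⟩
    · rwa [← hzc y (Subgroup.mem_sup_right hy), mul_inv_cancel_right]
    · have h2 := hzc _ (Subgroup.mem_sup_right hy)
      have h3 : z * y * z⁻¹ = y := mul_left_cancel (a := z) (by rw [← h2]; group)
      rwa [← h3]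
  have key : ∀ b ∈ B, ∀ b' ∈ B, b' * ((z * a) * b * (z * a)⁻¹) = ((z * a) * b * (z * a)⁻¹) * b' →
      b = 1 ∨ b' = 1 := by
    intro b hb b' hb' hcomm
    by_contra hne
    push Not at hne
    have e : (z * a) * b * (z * a)⁻¹ = a * b * a⁻¹ := by
      have h1 : z * (a * b * a⁻¹) = a * b * a⁻¹ * z := (hzc _ (mul_mem (mul_mem
        (Subgroup.mem_sup_left ha) (Subgroup.mem_sup_right hb)) (inv_mem (Subgroup.mem_sup_left ha)))).symm
      calc (z * a) * b * (z * a)⁻¹ = z * (a * b * a⁻¹) * z⁻¹ := by group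
        _ = a * b * a⁻¹ := by rw [h1]; group
    rw [e] at hcomm
    have hd1 : a * b * a⁻¹ ≠ 1 := fun e => hne.1 <| by
      calc b = a⁻¹ * (a * b * a⁻¹) * a := by group
        _ = 1 := by rw [e]; group
    exact ha1 (eq_one_of_normalizes hp ha (eq_of_commute hp hb' (conj_mem_conjBy hb) hne.2 hd1
      (right_mem_unipotent hp) (conjBy_mem_unipotent (right_mem_unipotent hp) (Subgroup.mem_sup_left ha))
      hcomm).symm)
  obtain ⟨b₀, hb₀, hb₀1⟩ := nonidentity_left (RankOnePair_symm hp)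
  haveI := hS.commutative B hBS
  have hBcomm : ∀ x ∈ B, ∀ y ∈ B, x * y = y * x := fun x hx y hy =>
    congrArg Subtype.val (mul_comm' (⟨x, hx⟩ : B) ⟨y, hy⟩)
  rcases hS.pair C hC B hBS with hcom | hr | hcc
  · have := (Subgroup.commutator_eq_bot_iff_le_centralizer.1 hcom) hc
    have h1 := Subgroup.mem_centralizer_iff.1 this b₀ hb₀
    refine absurd (key b₀ hb₀ b₀ hb₀ ?_) (not_or.2 ⟨hb₀1, hb₀1⟩)
    rw [← h1, mul_inv_cancel_right]
  · obtain ⟨b, hb, -, he⟩ := hr.cond_left _ hc hc1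
    obtain ⟨b₁, hb₁, -, he₁⟩ := hp.cond_left a ha ha1
    have hCa : conjBy B (z * a)⁻¹ = conjBy B a⁻¹ := by
      rw [mul_inv_rev, ← conjBy_conjBy, conjBy_eq_iff.2 (show B = conjBy B z⁻¹⁻¹ by rw [inv_inv, hzB])]
    rw [hCa, ← he₁, conjBy_eq_iff, conjBy_conjBy, inv_inv] at he
    have hCU : C ∈ unipotentSubgroups A B :=
      ⟨_, mul_mem (Subgroup.mem_sup_right hb) (inv_mem (Subgroup.mem_sup_right hb₁)), he⟩
    have hzA : conjBy A z = A := by
      ext y
      rw [mem_conjBy]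
      constructor
      · intro hy
        have h3 : y = z⁻¹ * y * z := by
          have h4 := hzc _ (Subgroup.mem_sup_left hy : z⁻¹ * y * z ∈ A ⊔ B)
          calc y = z * (z⁻¹ * y * z) * z⁻¹ := by group
            _ = z⁻¹ * y * z := by rw [← h4]; group
        rwa [h3]
      · intro hy
        rwa [mul_assoc, hzc y (Subgroup.mem_sup_left hy), inv_mul_cancel_left]
    have hfix : conjBy A (z * a) = A := by rw [← conjBy_conjBy, conjBy_eq_self_of_mem ha, hzA]
    have hAC : A = C := eq_of_fixed hp hc hc1 hCU left_mem_unipotent hfix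
    rw [← hAC] at hc
    have hzAmem : z ∈ A := by simpa using A.mul_mem hc (A.inv_mem ha)
    exact hz1 (eq_one_of_normalizes hp hzAmem hzB)
  · have hb := hcc.2.1
    refine absurd (key b₀ hb₀ b₀ hb₀ ?_) (not_or.2 ⟨hb₀1, hb₀1⟩)
    have hmem : (z * a) * b₀ * (z * a)⁻¹ * b₀⁻¹ ∈ ⁅C, B⁆ :=
      Subgroup.commutator_mem_commutator hc hb₀
    have h1 := hb _ hmem b₀ (Subgroup.mem_sup_right hb₀)
    calc b₀ * ((z * a) * b₀ * (z * a)⁻¹) = b₀ * ((z * a) * b₀ * (z * a)⁻¹ * b₀⁻¹) * b₀ := by group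
      _ = ((z * a) * b₀ * (z * a)⁻¹ * b₀⁻¹) * b₀ * b₀ := by rw [h1]
      _ = _ := by group

/-- Let S be a set of abstract root subgroups of G, A ∈ S and B a rank one partner of A in S. If z ≠ 1 centralizes ⟨A, B⟩, then no product z a with a a non-identity element of A is a non-identity element of a member of S. -/
theorem result {G : Type*} [Group G] {S : Set (Subgroup G)} (hS : Cfsg.IsRootSubgroupSet S)
    {A B : Subgroup G} (hA : A ∈ S) (hB : B ∈ Cfsg.rankOnePartners S A) {z : G}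
    (hz : z ∈ Subgroup.centralizer ((A ⊔ B : Subgroup G) : Set G)) (hz1 : z ≠ 1) :
    ∀ a ∈ A, a ≠ 1 → z * a ∉ Cfsg.rootElements S := by
  exact not_rootElement hS hB hz hz1

end Cfsg.Agent.S5025
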