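import Cfsg.Statements.S5028
import Cfsg.Agent.RankOne.Basic

set_option autoImplicit false
open Cfsg

namespace Cfsg.Agent.S5028

open CfsgLib.RankOne in
lemma meet {G : Type*} [Group G] {S : Set (Subgroup G)} (hS : Cfsg.IsRootSubgroupSet S)
    {A : Subgroup G} (hA : ¬ Cfsg.IsIsolatedIn (Cfsg.FAdj S) S A) (hAS : A ∈ S) :
    ∀ B ∈ S, A ⊓ B = ⊥ ∨ A = B := by
  intro B hB
  have hex : ∃ E ∈ S, IsRankOnePair A E := by
    by_contra hne
    push Not at hne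
    exact hA ⟨hAS, fun E => ⟨fun h => hne E h.2.1 h.2.2, fun h => hne E h.1 (RankOnePair_symm h.2.2)⟩⟩
  obtain ⟨E, hE, hp⟩ := hex
  refine or_iff_not_imp_left.2 fun hne => ?_
  obtain ⟨⟨x, hxA, hxB⟩, hx1'⟩ := Subgroup.ne_bot_iff_exists_ne_one.1 hne
  have hx1 : x ≠ 1 := fun e => hx1' (Subtype.ext e)
  obtain ⟨e₀, he₀, he₀1⟩ := nonidentity_left (RankOnePair_symm hp)
  haveI := hS.commutative E hE
  have hEcomm : ∀ u ∈ E, ∀ v ∈ E, u * v = v * u := fun u hu v hv =>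
    congrArg Subtype.val (mul_comm' (⟨u, hu⟩ : E) ⟨v, hv⟩)
  have hd1 : x * e₀ * x⁻¹ ≠ 1 := fun e => he₀1 <| by
    calc e₀ = x⁻¹ * (x * e₀ * x⁻¹) * x := by group
      _ = 1 := by rw [e]; group
  have key : e₀ * (x * e₀ * x⁻¹) = (x * e₀ * x⁻¹) * e₀ → False := fun hc =>
    hx1 (eq_one_of_normalizes hp hxA (eq_of_commute hp he₀ (conj_mem_conjBy he₀) he₀1 hd1
      (right_mem_unipotent hp) (conjBy_mem_unipotent (right_mem_unipotent hp) (Subgroup.mem_sup_left hxA))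
      hc).symm)
  rcases hS.pair B hB E hE with hcom | hr | hcc
  · have h1 := Subgroup.mem_centralizer_iff.1 (Subgroup.commutator_eq_bot_iff_le_centralizer.1 hcom hxB)
      e₀ he₀
    exact (key (by rw [← h1, mul_inv_cancel_right])).elim
  · obtain ⟨e₁, he₁, -, h1⟩ := hp.cond_left x hxA hx1
    obtain ⟨e₂, he₂, -, h2⟩ := hr.cond_left x hxB hx1
    rw [← h1, conjBy_eq_iff, conjBy_conjBy, inv_inv] at h2
    exact eq_of_commute hp hxA hxB hx1 hx1 left_mem_unipotent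
      ⟨_, mul_mem (Subgroup.mem_sup_right he₂) (inv_mem (Subgroup.mem_sup_right he₁)), h2⟩ rfl
  · refine (key ?_).elim
    have hmem : x * e₀ * x⁻¹ * e₀⁻¹ ∈ ⁅B, E⁆ := Subgroup.commutator_mem_commutator hxB he₀
    have h1 := hcc.2.1 _ hmem e₀ (Subgroup.mem_sup_right he₀)
    calc e₀ * (x * e₀ * x⁻¹) = e₀ * (x * e₀ * x⁻¹ * e₀⁻¹) * e₀ := by group
      _ = (x * e₀ * x⁻¹ * e₀⁻¹) * e₀ * e₀ := by rw [h1]
      _ = _ := by group

/-- Let S be a set of abstract root subgroups of G and A a member of S having a rank one partner in S. Then A meets every other member of S trivially. -/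
theorem result {G : Type*} [Group G] {S : Set (Subgroup G)} (hS : Cfsg.IsRootSubgroupSet S)
    {A : Subgroup G} (hA : ¬ Cfsg.IsIsolatedIn (Cfsg.FAdj S) S A) (hAS : A ∈ S) : ∀ B ∈ S, A ⊓ B = ⊥ ∨ A = B := by
  exact meet hS hA hAS

end Cfsg.Agent.S5028
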