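import Cfsg.Statements.S5093
import Cfsg.Agent.Transfer.Hyperfocal
import Cfsg.Agent.Fusion.Group

set_option autoImplicit false
open Cfsg
open scoped commutatorElement

namespace Cfsg.Agent.S5093

/-- Hyperfocal subgroup Theorem: for a finite group G with Sylow p-subgroup S, the hyperfocal subgroup of the fusion system of G on S equals S ∩ O^p(G), where O^p(G) is the subgroup generated by the elements of order prime to p. -/
theorem result {G : Type*} [Group G] [Finite G] (p : ℕ) [Fact p.Prime] (S : Sylow p G) : (Cfsg.groupFusionSystem (S : Subgroup G)).hyperfocalSubgroup p = (S : Subgroup G) ⊓ Cfsg.pResidual p G := by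
  have hgen : ∀ D : Subgroup G, D ≤ (S : Subgroup G) → ∀ n : Subgroup.normalizer (D : Set G),
      n ∈ Cfsg.pResidual p (Subgroup.normalizer (D : Set G)) → ∀ x ∈ D,
      x⁻¹ * ((n : G) * x * (n : G)⁻¹) ∈ (Cfsg.groupFusionSystem (S : Subgroup G)).hyperfocalSubgroup p := by
    intro D hD n hn x hx
    have hmem : ∀ m : Subgroup.normalizer (D : Set G),
        Subgroup.normalizerMonoidHom D m ∈ (Cfsg.groupFusionSystem (S : Subgroup G)).autGroup D := by
      intro m
      rw [CfsgLib.Fusion.autGroup_group hD, CfsgLib.Fusion.mem_autInducedBy]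
      exact ⟨m, trivial, fun _ => rfl⟩
    let θ := (Subgroup.normalizerMonoidHom D).codRestrict _ hmem
    exact Subgroup.subset_closure ⟨D, θ n, ⟨x, hx⟩, hD,
      CfsgLib.Transfer.map_pResidual_le θ ⟨n, hn, rfl⟩, rfl⟩
  refine le_antisymm ?_ ?_
  · rw [Cfsg.FusionSystem.hyperfocalSubgroup, Subgroup.closure_le]
    rintro _ ⟨D, α, x, hD, hα, rfl⟩
    refine Subgroup.mem_inf.2 ⟨mul_mem (inv_mem (hD x.2)) (hD (((α : MulAut D) x).2)), ?_⟩
    have hsur : ∀ β : (Cfsg.groupFusionSystem (S : Subgroup G)).autGroup D,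
        ∃ m : Subgroup.normalizer (D : Set G), Subgroup.normalizerMonoidHom D m = β := by
      intro β
      obtain ⟨g, -, hg⟩ := CfsgLib.Fusion.mem_autInducedBy.1 ((CfsgLib.Fusion.autGroup_group hD).le β.2)
      exact ⟨⟨g, CfsgLib.Fusion.mem_normalizer_of_conj hg⟩, MulEquiv.ext fun y => Subtype.ext (hg y).symm⟩
    have hmem : ∀ m : Subgroup.normalizer (D : Set G),
        Subgroup.normalizerMonoidHom D m ∈ (Cfsg.groupFusionSystem (S : Subgroup G)).autGroup D := by
      intro m
      rw [CfsgLib.Fusion.autGroup_group hD, CfsgLib.Fusion.mem_autInducedBy]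
      exact ⟨m, trivial, fun _ => rfl⟩
    let θ := (Subgroup.normalizerMonoidHom D).codRestrict _ hmem
    have hθ : Function.Surjective θ := fun β => by
      obtain ⟨m, hm⟩ := hsur β
      exact ⟨m, Subtype.ext hm⟩
    rw [← CfsgLib.Transfer.map_pResidual_eq (p := p) θ hθ] at hα
    obtain ⟨n, hn, rfl⟩ := hα
    have h1 := CfsgLib.Transfer.map_pResidual_le (Subgroup.normalizer (D : Set G)).subtype ⟨n, hn, rfl⟩
    show (x : G)⁻¹ * ((n : G) * x * (n : G)⁻¹) ∈ Cfsg.pResidual p G
    have h2 := mul_mem ((CfsgLib.Transfer.pResidual_normal (p := p) (G := G)).conj_mem _ h1 (x : G)⁻¹) (inv_mem h1)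
    simpa [mul_assoc] using h2
  · refine CfsgLib.Transfer.inf_pResidual_le_of_local S _ ?_ fun D hD n hn hnp x hx =>
      hgen D hD ⟨n, hn⟩ (CfsgLib.Transfer.mem_pResidual_of_coprime (by rwa [Subgroup.orderOf_mk])) x hx
    intro s hs
    refine Subgroup.mem_normalizer_fintype
      (S := (((Cfsg.groupFusionSystem (S : Subgroup G)).hyperfocalSubgroup p : Subgroup G) : Set G)) fun y hy => ?_
    suffices (Cfsg.groupFusionSystem (S : Subgroup G)).hyperfocalSubgroup p ≤
        ((Cfsg.groupFusionSystem (S : Subgroup G)).hyperfocalSubgroup p).comap (MulAut.conj s).toMonoidHom from this hy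
    rw [Cfsg.FusionSystem.hyperfocalSubgroup, Subgroup.closure_le]
    rintro _ ⟨D, α, x, hD, hα, rfl⟩
    have hmem : ∀ m : Subgroup.normalizer (D : Set G),
        Subgroup.normalizerMonoidHom D m ∈ (Cfsg.groupFusionSystem (S : Subgroup G)).autGroup D := by
      intro m
      rw [CfsgLib.Fusion.autGroup_group hD, CfsgLib.Fusion.mem_autInducedBy]
      exact ⟨m, trivial, fun _ => rfl⟩
    let θ := (Subgroup.normalizerMonoidHom D).codRestrict _ hmem
    have hθ : Function.Surjective θ := fun β => by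
      obtain ⟨g, -, hg⟩ := CfsgLib.Fusion.mem_autInducedBy.1 ((CfsgLib.Fusion.autGroup_group hD).le β.2)
      exact ⟨⟨g, CfsgLib.Fusion.mem_normalizer_of_conj hg⟩,
        Subtype.ext (MulEquiv.ext fun y => Subtype.ext (hg y).symm)⟩
    rw [← CfsgLib.Transfer.map_pResidual_eq (p := p) θ hθ] at hα
    obtain ⟨n, hn, rfl⟩ := hα
    set D' := D.map (MulAut.conj s).toMonoidHom with hD'
    let f : Subgroup.normalizer (D : Set G) →* Subgroup.normalizer (D' : Set G) :=
      ((MulAut.conj s).toMonoidHom.comp (Subgroup.normalizer (D : Set G)).subtype).codRestrict _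
        fun m => Subgroup.le_normalizer_map _ ⟨m, m.2, rfl⟩
    have hD'S : D' ≤ (S : Subgroup G) := by
      rintro _ ⟨y, hy, rfl⟩
      exact mul_mem (mul_mem hs (hD hy)) (inv_mem hs)
    have h1 := hgen D' hD'S (f n) (CfsgLib.Transfer.map_pResidual_le f ⟨n, hn, rfl⟩)
      (MulAut.conj s (x : G)) ⟨(x : G), x.2, rfl⟩
    show s * ((x : G)⁻¹ * ((n : G) * x * (n : G)⁻¹)) * s⁻¹ ∈ (Cfsg.groupFusionSystem (S : Subgroup G)).hyperfocalSubgroup p
    simpa [f, mul_assoc] using h1

end Cfsg.Agent.S5093
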