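import Cfsg.Statements.S0304
import Cfsg.Agent.OrthOrder.OddTwo
-- import your own Cfsg.Agent.* helpers here

set_option autoImplicit false
open Cfsg

namespace Cfsg.Agent.S0304

/-- In characteristic 2, O_{2m+1}(q) is isomorphic to Sp_{2m}(q). -/
theorem result {F : Type*} [Field F] [Fintype F] [CharP F 2] (m : ℕ) : Nonempty (Cfsg.isometryGroup F (Cfsg.quadFormOdd m F) ≃* Matrix.symplecticGroup (Fin m) F) := by
  exact CfsgLib.OrthOrder.isometryGroup_odd_equiv_symplectic m

end Cfsg.Agent.S0304
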