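import Cfsg.Statements.S3784
import Mathlib

set_option autoImplicit false
open Cfsg

namespace Cfsg.Agent.S3784


theorem geom_odd (x : ℤ) (hx : Odd x) : ∀ n : ℕ, Odd n → Odd (∑ i ∈ Finset.range n, x ^ i) := by
  intro n hn
  have h : ∀ n : ℕ, ((∑ i ∈ Finset.range n, x ^ i : ℤ) : ZMod 2) = (n : ZMod 2) := by
    intro n
    have h1 : (x : ZMod 2) = 1 := by
      obtain ⟨k, rfl⟩ := hx
      push_cast
      rw [show (2 : ZMod 2) = 0 from rfl]; simp
    push_cast [h1]
    simp
  obtain ⟨m, rfl⟩ := hn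
  have h2 := h (2 * m + 1)
  push_cast at h2
  rw [show (2 : ZMod 2) = 0 from rfl, zero_mul, zero_add] at h2
  rw [Int.odd_iff]
  have h3 := (ZMod.intCast_eq_intCast_iff' (∑ i ∈ Finset.range (2 * m + 1), x ^ i) 1 2).1 (by push_cast; exact h2)
  simpa using h3

/-- An odd factor of a power of two is one. -/
theorem eq_of_odd_factor {s : ℤ} {v w a : ℕ} (hs : Odd s) (hv : w = v) (h : s * (v : ℤ) = ((2 ^ a : ℕ) : ℤ)) : w = 2 ^ a := by
  have h1 : s.natAbs * v = 2 ^ a := by
    have := congrArg Int.natAbs h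
    rwa [Int.natAbs_mul, Int.natAbs_natCast, Int.natAbs_natCast] at this
  obtain ⟨j, -, hj⟩ := (Nat.dvd_prime_pow Nat.prime_two).1 (Dvd.intro v h1)
  rcases j with _ | j
  · rw [hj, pow_zero, one_mul] at h1; omega
  · have h2 := Int.natAbs_odd.2 hs
    rw [hj] at h2
    exact absurd h2 (by simp [Nat.odd_pow_iff])


/-- Let p, q be primes and a, b positive integers with p^a = q^b + 1. Then either p = 2, b = 1, a is prime and q = 2^a − 1; or q = 2, a = 1, b is a power of 2 and p = 2^b + 1; or p^a = 9 and q^b = 8. -/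
theorem result (p q a b : ℕ) (hp : p.Prime) (hq : q.Prime) (ha : 1 ≤ a) (hb : 1 ≤ b) (h : p ^ a = q ^ b + 1) : (p = 2 ∧ b = 1 ∧ a.Prime ∧ q + 1 = 2 ^ a) ∨ (q = 2 ∧ a = 1 ∧ (∃ m : ℕ, b = 2 ^ m) ∧ p = 2 ^ b + 1) ∨ (p ^ a = 9 ∧ q ^ b = 8) := by
  have h2p : 2 ≤ p := hp.two_le
  have h2q : 2 ≤ q := hq.two_le
  have hqb : 2 ≤ q ^ b := le_trans h2q (Nat.le_self_pow (by omega) q)
  rcases hp.eq_two_or_odd' with rfl | hpo
  · have hqo : Odd q := by
      rcases hq.eq_two_or_odd' with rfl | h9
      · exfalso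
        have h1 : (2 : ℕ) ∣ 2 ^ a := dvd_pow_self 2 (by omega)
        have h3 : (2 : ℕ) ∣ 2 ^ b := dvd_pow_self 2 (by omega)
        omega
      · exact h9
    rcases Nat.even_or_odd' b with ⟨k, rfl | rfl⟩
    · exfalso
      obtain ⟨t, ht⟩ := hqo.pow (n := k)
      have hsq : q ^ (2 * k) = 4 * (t * t + t) + 1 := by rw [mul_comm, pow_mul, ht]; ring
      rcases a with _ | _ | a
      · omega
      · rw [pow_one] at h; omega
      · have : 2 ^ (a + 1 + 1) = 4 * 2 ^ a := by ring
        omega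
    · have hk : q + 1 = 2 ^ a := by
        refine eq_of_odd_factor (geom_odd (-(q : ℤ)) (by simpa using (Int.odd_coe_nat q).2 hqo) (2 * k + 1) ⟨k, rfl⟩) rfl ?_
        have h1 := geom_sum_mul (-(q : ℤ)) (2 * k + 1)
        rw [Odd.neg_pow ⟨k, rfl⟩] at h1
        push_cast
        have h3 : ((2 ^ a : ℕ) : ℤ) = ((q ^ (2 * k + 1) + 1 : ℕ) : ℤ) := by rw [h]
        push_cast at h3
        linarith
      have hk0 : k = 0 := by
        by_contra hk0
        have := Nat.pow_lt_pow_right (show 1 < q by omega) (show 1 < 2 * k + 1 by omega)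
        rw [pow_one] at this
        omega
      subst hk0
      refine Or.inl ⟨rfl, rfl, ?_, hk⟩
      refine (Nat.prime_of_pow_sub_one_prime (a := 2) ?_ ?_).2
      · rintro rfl
        omega
      · rw [show 2 ^ a - 1 = q by omega]; exact hq
  · have hq2 : q = 2 := by
      rcases hq.eq_two_or_odd' with h9 | h9
      · exact h9
      · exfalso
        obtain ⟨u, hu⟩ := hpo.pow (n := a)
        obtain ⟨v, hv⟩ := h9.pow (n := b)
        omega
    subst hq2
    rcases Nat.even_or_odd' a with ⟨k, rfl | rfl⟩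
    · right; right
      have hk : 2 ≤ p ^ k := le_trans h2p (Nat.le_self_pow (by omega) p)
      obtain ⟨w, hw⟩ : ∃ w, p ^ k = w + 1 := ⟨p ^ k - 1, by omega⟩
      have hsq : p ^ (2 * k) = (w + 1) * (w + 1) := by rw [two_mul, pow_add, hw]
      have h1 : w * (w + 2) = 2 ^ b := by
        have : (w + 1) * (w + 1) = w * (w + 2) + 1 := by ring
        omega
      obtain ⟨i, -, hi⟩ := (Nat.dvd_prime_pow Nat.prime_two).1 (Dvd.intro _ h1)
      obtain ⟨j, -, hj⟩ := (Nat.dvd_prime_pow Nat.prime_two).1 (Dvd.intro_left _ h1)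
      have hw2 : w = 2 := by
        rcases i with _ | _ | i
        · exfalso
          rcases j with _ | j
          · omega
          · rw [pow_succ] at hj; rw [pow_zero] at hi; omega
        · omega
        · exfalso
          have : 2 ^ (i + 1 + 1) = 4 * 2 ^ i := by ring
          rcases j with _ | _ | j
          · omega
          · omega
          · have : 2 ^ (j + 1 + 1) = 4 * 2 ^ j := by ring
            omega
      subst hw2
      constructor <;> omega
    · right; left
      have hk : p - 1 = 2 ^ b := by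
        refine eq_of_odd_factor (geom_odd (p : ℤ) ((Int.odd_coe_nat p).2 hpo) (2 * k + 1) ⟨k, rfl⟩) rfl ?_
        have h1 := geom_sum_mul (p : ℤ) (2 * k + 1)
        have h3 : ((p ^ (2 * k + 1) : ℕ) : ℤ) = ((2 ^ b + 1 : ℕ) : ℤ) := by rw [h]
        push_cast [Nat.cast_sub (show 1 ≤ p by omega)] at h3 ⊢
        linarith
      have hk0 : k = 0 := by
        by_contra hk0
        have := Nat.pow_lt_pow_right (show 1 < p by omega) (show 1 < 2 * k + 1 by omega)
        rw [pow_one] at this
        omega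
      subst hk0
      have hp' : p = 2 ^ b + 1 := by omega
      exact ⟨rfl, rfl, Nat.pow_of_pow_add_prime (a := 2) (by omega) (by omega) (hp' ▸ hp), hp'⟩

end Cfsg.Agent.S3784
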