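import Cfsg.Statements.S3794
import Mathlib
import Cfsg.Agent.FpfFour.Basic

set_option autoImplicit false
open Cfsg

namespace Cfsg.Agent.S3794

private theorem aux (n : ℕ) : ∀ (G : Type*) [Group G] [Finite G], Nat.card G = n → Group.IsSolvable G →
    ∀ σ : MulAut G, σ ^ 4 = 1 → (∀ g : G, σ g = g → g = 1) → Group.IsNilpotent (commutator G) := by
  induction n using Nat.strong_induction_on with
  | _ n ih =>
  intro G _ _ hn hG σ hσ hfpf
  classical
  subst hn
  by_cases htriv : (⊤ : Subgroup G) = ⊥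
  · have : commutator G = ⊥ := le_bot_iff.1 (htriv ▸ le_top)
    rw [this]; infer_instance
  obtain ⟨N, ⟨hNn, hNσ, hN1⟩, hmin⟩ := Set.Finite.exists_minimal
    (s := {N : Subgroup G | N.Normal ∧ (∀ x ∈ N, σ x ∈ N) ∧ N ≠ ⊥}) (Set.toFinite _)
    ⟨⊤, inferInstance, fun x _ => Subgroup.mem_top _, htriv⟩
  haveI := hNn
  have hmin' : ∀ M : Subgroup G, M.Normal → (∀ x ∈ M, σ x ∈ M) → M ≤ N → M = ⊥ ∨ M = N := fun M h1 h2 h3 => by
    rcases eq_or_ne M ⊥ with e | e
    · exact Or.inl e
    · exact Or.inr (le_antisymm h3 (hmin ⟨h1, h2, e⟩ h3))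
  have hNsol : Group.IsSolvable N := inferInstance
  have hNab : ∀ x ∈ N, ∀ y ∈ N, x * y = y * x := by
    rcases hmin' ⁅N, N⁆ inferInstance (fun x hx => by
      have : (⁅N, N⁆ : Subgroup G).map σ.toMonoidHom ≤ ⁅N, N⁆ := by
        rw [Subgroup.map_commutator]
        exact Subgroup.commutator_mono (by rintro _ ⟨y, hy, rfl⟩; exact hNσ y hy) (by rintro _ ⟨y, hy, rfl⟩; exact hNσ y hy)
      exact this ⟨x, hx, rfl⟩) (Subgroup.commutator_le_left N N) with h | h
    · intro x hx y hy
      exact (Subgroup.mem_centralizer_iff.1 (Subgroup.commutator_eq_bot_iff_le_centralizer.1 h hx) y hy).symm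
    · exfalso
      haveI : Nontrivial N := (Subgroup.nontrivial_iff_ne_bot N).2 hN1
      have hlt := Group.IsSolvable.commutator_lt_top_of_nontrivial (G := N)
      refine hlt.ne (Subgroup.map_injective N.subtype_injective ?_)
      rw [commutator_def, Subgroup.map_commutator, ← MonoidHom.range_eq_map, Subgroup.range_subtype, h]
  obtain ⟨q, hq, hqd⟩ := Nat.exists_prime_and_dvd (fun e => hN1 (Subgroup.eq_bot_of_card_eq N e))
  haveI := Fact.mk hq
  have hNexp : ∀ x ∈ N, x ^ q = 1 := by
    let M : Subgroup G :=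
      { carrier := {x | x ∈ N ∧ x ^ q = 1}
        one_mem' := ⟨one_mem N, one_pow q⟩
        mul_mem' := fun {a b} ha hb => ⟨mul_mem ha.1 hb.1, by
          rw [Commute.mul_pow (hNab a ha.1 b hb.1), ha.2, hb.2, mul_one]⟩
        inv_mem' := fun {a} ha => ⟨inv_mem ha.1, by rw [inv_pow, ha.2, inv_one]⟩ }
    rcases hmin' M ⟨fun a ha g => ⟨hNn.conj_mem a ha.1 g, by rw [conj_pow, ha.2, mul_one, mul_inv_cancel]⟩⟩
      (fun x hx => ⟨hNσ x hx.1, by rw [← map_pow, hx.2, map_one]⟩) (fun x hx => hx.1) with h | h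
    · exfalso
      obtain ⟨x, hx⟩ := exists_prime_orderOf_dvd_card' (G := N) q hqd
      have hmem : (x : G) ∈ M := ⟨x.2, by rw [← SubgroupClass.coe_pow, ← hx, pow_orderOf_eq_one]; rfl⟩
      rw [h, Subgroup.mem_bot] at hmem
      exact hq.ne_one (by rw [← hx, orderOf_eq_one_iff]; exact Subtype.ext hmem)
    · intro x hx
      exact (h ▸ hx : x ∈ M).2
  have hσN : N.map σ.toMonoidHom = N := by
    refine Subgroup.eq_of_le_of_card_ge (by rintro _ ⟨x, hx, rfl⟩; exact hNσ x hx) ?_
    rw [Subgroup.card_map_of_injective (f := σ.toMonoidHom) σ.injective]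
  -- the quotient
  let σq : MulAut (G ⧸ N) := QuotientGroup.congr N N σ hσN
  have hσqk : ∀ g : G, σq (g : G ⧸ N) = ((σ g : G) : G ⧸ N) := fun g => rfl
  have hσq4 : σq ^ 4 = 1 := by
    refine MulEquiv.ext fun x => ?_
    obtain ⟨g, rfl⟩ := QuotientGroup.mk_surjective x
    change σq (σq (σq (σq (g : G ⧸ N)))) = (g : G ⧸ N)
    rw [hσqk, hσqk, hσqk, hσqk]
    exact congrArg _ (DFunLike.congr_fun hσ g)
  have hσqf : ∀ x, σq x = x → x = 1 := by
    intro x hx
    obtain ⟨g, rfl⟩ := QuotientGroup.mk_surjective x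
    rw [hσqk, QuotientGroup.eq] at hx
    have h2 := inv_mem hx
    rw [mul_inv_rev, inv_inv] at h2
    exact (QuotientGroup.eq_one_iff g).2 (CfsgLib.FpfFour.quotient_fpf σ hfpf N hNσ g h2)
  have hlt : Nat.card (G ⧸ N) < Nat.card G := by
    rw [Subgroup.card_eq_card_quotient_mul_card_subgroup N]
    exact lt_mul_of_one_lt_right Nat.card_pos ((Subgroup.one_lt_card_iff_ne_bot N).2 hN1)
  have hnil := ih _ hlt (G ⧸ N) rfl inferInstance σq hσq4 hσqf
  -- `G'` centralises `N`
  letI : CommGroup N := { (inferInstance : Group N) with mul_comm := fun x y => Subtype.ext (hNab x x.2 y y.2) }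
  let cN : G →* MulAut N := MulAut.conjNormal
  let s : MulAut N :=
    { toFun := fun x => ⟨σ (x : G), hNσ x x.2⟩
      invFun := fun x => ⟨σ.symm (x : G), by
        obtain ⟨y, hy, e⟩ := hσN.ge x.2
        rw [← e]
        change σ.symm (σ y) ∈ N
        rwa [MulEquiv.symm_apply_apply]⟩
      left_inv := fun x => Subtype.ext (σ.symm_apply_apply (x : G))
      right_inv := fun x => Subtype.ext (σ.apply_symm_apply (x : G))
      map_mul' := fun x y => Subtype.ext (map_mul σ (x : G) y) }
  have hcompat : ∀ (g : G) (v : N), s (cN g v) = cN (σ g) (s v) := fun g v =>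
    Subtype.ext (by change σ (g * (v : G) * g⁻¹) = σ g * σ (v : G) * (σ g)⁻¹; simp only [map_mul, map_inv])
  set K := cN.ker with hK
  have hKσ : ∀ x ∈ K, σ x ∈ K := by
    intro x hx
    rw [hK, MonoidHom.mem_ker] at hx ⊢
    refine MulEquiv.ext fun v => ?_
    obtain ⟨w, rfl⟩ := s.surjective v
    rw [← hcompat, hx]; rfl
  have hσK : K.map σ.toMonoidHom = K := by
    refine Subgroup.eq_of_le_of_card_ge (by rintro _ ⟨x, hx, rfl⟩; exact hKσ x hx) ?_
    rw [Subgroup.card_map_of_injective (f := σ.toMonoidHom) σ.injective]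
  let σK : MulAut (G ⧸ K) := QuotientGroup.congr K K σ hσK
  have hcomm := CfsgLib.FpfFour.core (QuotientGroup.kerLift cN) (QuotientGroup.kerLift_injective cN)
    inferInstance (q := q) (fun v => Subtype.ext (hNexp v v.2)) ((Subgroup.nontrivial_iff_ne_bot N).2 hN1) σK s
    (by
      refine MulEquiv.ext fun x => ?_
      obtain ⟨g, rfl⟩ := QuotientGroup.mk_surjective x
      exact congrArg (QuotientGroup.mk : G → G ⧸ K) (DFunLike.congr_fun hσ g))
    (MulEquiv.ext fun v => Subtype.ext (DFunLike.congr_fun hσ (v : G)))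
    (fun x v => by
      obtain ⟨g, rfl⟩ := QuotientGroup.mk_surjective x
      exact hcompat g v)
    (fun x hx => by
      obtain ⟨g, rfl⟩ := QuotientGroup.mk_surjective x
      replace hx : ((σ g : G) : G ⧸ K) = (g : G ⧸ K) := hx
      rw [QuotientGroup.eq] at hx
      have h2 := inv_mem hx
      rw [mul_inv_rev, inv_inv] at h2
      exact (QuotientGroup.eq_one_iff g).2 (CfsgLib.FpfFour.quotient_fpf σ hfpf K hKσ g h2))
    (fun v hv => Subtype.ext (hfpf (v : G) (congrArg Subtype.val hv)))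
    (fun U hU hUs => by
      rcases hmin' (U.map N.subtype) ⟨by
          rintro _ ⟨u, hu, rfl⟩ g
          exact ⟨cN g u, hU (g : G ⧸ K) u hu, rfl⟩⟩
        (by rintro _ ⟨u, hu, rfl⟩; exact ⟨s u, hUs u hu, rfl⟩) (Subgroup.map_subtype_le U) with h | h
      · exact Or.inl ((Subgroup.map_eq_bot_iff_of_injective U N.subtype_injective).1 h)
      · refine Or.inr (Subgroup.map_injective N.subtype_injective ?_)
        rw [h, ← MonoidHom.range_eq_map, Subgroup.range_subtype])
  have hGK : commutator G ≤ K := by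
    rw [commutator_def, Subgroup.commutator_le]
    intro g _ h _
    rw [← QuotientGroup.eq_one_iff]
    change QuotientGroup.mk' K (g * h * g⁻¹ * h⁻¹) = 1
    simp only [map_mul, map_inv, QuotientGroup.mk'_apply]
    rw [hcomm (g : G ⧸ K) (h : G ⧸ K), mul_inv_cancel_right, mul_inv_cancel]
  let f : ↥(commutator G) →* ↥(commutator (G ⧸ N)) :=
    ((QuotientGroup.mk' N).comp (commutator G).subtype).codRestrict _ (fun x => by
      have h : (commutator G).map (QuotientGroup.mk' N) ≤ commutator (G ⧸ N) := by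
        rw [commutator_def, commutator_def, Subgroup.map_commutator]
        exact Subgroup.commutator_mono le_top le_top
      exact h ⟨x, x.2, rfl⟩)
  haveI := hnil
  refine Subgroup.isNilpotent_of_ker_le_center f ?_
  intro x hx
  rw [Subgroup.mem_center_iff]
  intro y
  have hxN : (x : G) ∈ N := by
    rw [← QuotientGroup.eq_one_iff]
    exact congrArg Subtype.val hx
  have h1 := congrArg Subtype.val (DFunLike.congr_fun (hGK y.2) (⟨x, hxN⟩ : N))
  replace h1 : (y : G) * x * (y : G)⁻¹ = x := h1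
  exact Subtype.ext (by
    change (y : G) * x = x * y
    rw [← mul_inv_eq_iff_eq_mul]; exact h1)

/-- Let G be a finite solvable group with an automorphism σ satisfying σ⁴ = 1 and fixing only the identity. Then the derived subgroup G' is nilpotent. -/
theorem result {G : Type*} [Group G] [Finite G] (hG : Group.IsSolvable G) (σ : MulAut G) (hσ : σ ^ 4 = 1) (hfpf : ∀ g : G, σ g = g → g = 1) : Group.IsNilpotent (commutator G) := by
  exact aux _ G rfl hG σ hσ hfpf

end Cfsg.Agent.S3794
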