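import Cfsg.Statements.S0839
import Cfsg.Agent.SLn.Basic
-- import your own Cfsg.Agent.* helpers here

set_option autoImplicit false
open Cfsg

namespace Cfsg.Agent.S0839

/-- Every transvection t ∈ SL_(n+2)(F) (rank(t − 1) = 1, (t − 1)² = 0) is conjugate in SL_(n+2)(F) to 1 + v·e_0ᵀ for some column vector v with v_0 = 0 (the group A of matrices that are the identity except in the first column below the diagonal); the dimension is written n + 2 ≥ 2. -/
theorem result {F : Type*} [Field F] (n : ℕ) (t : Matrix.SpecialLinearGroup (Fin (n + 2)) F) (ht : Cfsg.IsTransvection (t : Matrix (Fin (n + 2)) (Fin (n + 2)) F)) : ∃ (g : Matrix.SpecialLinearGroup (Fin (n + 2)) F) (v : Fin (n + 2) → F), v 0 = 0 ∧ ((g⁻¹ * t * g : Matrix.SpecialLinearGroup (Fin (n + 2)) F) : Matrix (Fin (n + 2)) (Fin (n + 2)) F) = 1 + Matrix.vecMulVec v (Pi.single 0 1) := by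
  obtain ⟨M, hMdef⟩ : ∃ M, M = (t : Matrix (Fin (n + 2)) (Fin (n + 2)) F) - 1 := ⟨_, rfl⟩
  obtain ⟨hr, hsq⟩ := ht
  rw [← hMdef] at hr hsq
  rw [Matrix.rank] at hr
  obtain ⟨⟨u, hu⟩, hu0, huspan⟩ := finrank_eq_one_iff'.1 hr
  choose φ hφ using fun j : Fin (n + 2) =>
    huspan ⟨M.mulVec (Pi.single j 1), ⟨_, rfl⟩⟩
  have hM : M = Matrix.vecMulVec u φ := by
    ext i j
    have h := congrFun (congrArg Subtype.val (hφ j)) i
    simp only [SetLike.val_smul, Pi.smul_apply, smul_eq_mul, Matrix.mulVec_single_one,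
      Matrix.col_apply] at h
    rw [Matrix.vecMulVec_apply, ← h, mul_comm]
  have hu' : u ≠ 0 := fun h => hu0 (Subtype.ext h)
  have hφ0 : φ ≠ 0 := by
    rintro rfl
    obtain ⟨w, hw⟩ := hu
    apply hu'
    rw [← hw]
    simp [hM]
  have hdot : dotProduct φ u = 0 := by
    by_contra hd
    rw [hM, Matrix.vecMulVec_mul_vecMulVec] at hsq
    obtain ⟨i, hi⟩ := Function.ne_iff.1 hu'
    obtain ⟨j, hj⟩ := Function.ne_iff.1 hφ0
    have := congrFun₂ hsq i j
    simp_all [Matrix.vecMulVec_apply]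
  obtain ⟨h, hh⟩ := CfsgLib.SLn.exists_smul_eq hφ0
    (Pi.single_ne_zero_iff.2 (one_ne_zero (α := F)) :
      (Pi.single 0 1 : Fin (n + 2) → F) ≠ 0)
  set g := h.transpose with hg
  have hφg : Matrix.vecMul φ (g : Matrix (Fin (n + 2)) (Fin (n + 2)) F) = Pi.single 0 1 := by
    rw [hg, Matrix.SpecialLinearGroup.coe_transpose, Matrix.vecMul_transpose, ← hh]
    rfl
  refine ⟨g, Matrix.mulVec ((g⁻¹ : Matrix.SpecialLinearGroup (Fin (n + 2)) F) :
    Matrix (Fin (n + 2)) (Fin (n + 2)) F) u, ?_, ?_⟩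
  · have : dotProduct (Pi.single 0 1 : Fin (n + 2) → F)
        (Matrix.mulVec ((g⁻¹ : Matrix.SpecialLinearGroup (Fin (n + 2)) F) :
          Matrix (Fin (n + 2)) (Fin (n + 2)) F) u) = 0 := by
      rw [← hφg, ← Matrix.dotProduct_mulVec, Matrix.mulVec_mulVec,
        ← Matrix.SpecialLinearGroup.coe_mul, mul_inv_cancel, Matrix.SpecialLinearGroup.coe_one,
        Matrix.one_mulVec, hdot]
    simpa using this
  · have ht1 : (t : Matrix (Fin (n + 2)) (Fin (n + 2)) F) = 1 + M := by rw [hMdef]; abel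
    rw [Matrix.SpecialLinearGroup.coe_mul, Matrix.SpecialLinearGroup.coe_mul, ht1, mul_add,
      add_mul, mul_one, ← Matrix.SpecialLinearGroup.coe_mul, inv_mul_cancel,
      Matrix.SpecialLinearGroup.coe_one, hM, Matrix.mul_vecMulVec, Matrix.vecMulVec_mul, hφg]

end Cfsg.Agent.S0839
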