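import Cfsg.Statements.S0755
import Mathlib
import Cfsg.Agent.Hermitian.Basic

set_option autoImplicit false
open Cfsg

namespace Cfsg.Agent.S0755

/-- Classification of Hermitian forms over finite fields: if σ is a non-identity involutive automorphism of the finite field F and B is a non-degenerate conjugate-symmetric σ-sesquilinear form on the finite-dimensional space V, then V has a B-orthonormal basis. -/
theorem result {F V : Type*} [Field F] [Finite F] [AddCommGroup V] [Module F V] [FiniteDimensional F V] (σ : F →+* F) (hσ : σ ≠ RingHom.id F) (hσ2 : ∀ a : F, σ (σ a) = a) (B : V →ₛₗ[σ] V →ₗ[F] F) (hS : B.IsSymm) (hB : B.Nondegenerate) : ∃ b : Module.Basis (Fin (Module.finrank F V)) F V, ∀ i j, B (b i) (b j) = if i = j then 1 else 0 := by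
  classical
  let ONFam : ℕ → Prop := fun m => ∃ e : Fin m → V, ∀ i j, B (e i) (e j) = if i = j then 1 else 0
  have hbound : ∀ m, ONFam m → m ≤ Module.finrank F V := by
    rintro m ⟨e, he⟩
    have hli : LinearIndependent F e := by
      rw [Fintype.linearIndependent_iff]
      intro c hc i
      have := congrArg (fun v => B (e i) v) hc
      simpa [map_sum, he] using this
    simpa using hli.fintype_card_le_finrank
  obtain ⟨m, ⟨e, he⟩, hmax⟩ : ∃ m, ONFam m ∧ ∀ m', ONFam m' → m' ≤ m := by
    obtain ⟨m, hm, hmx⟩ := Set.exists_max_image {m | ONFam m} id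
      ((Set.finite_Iic (Module.finrank F V)).subset fun m hm => hbound m hm)
      ⟨0, Fin.elim0, fun i => i.elim0⟩
    exact ⟨m, hm, hmx⟩
  have hsym : ∀ x y, σ (B x y) = B y x := hS.eq
  let P : Submodule F V := ⨅ i, LinearMap.ker (B (e i))
  have hmemP : ∀ x, x ∈ P ↔ ∀ i, B (e i) x = 0 := fun x => by simp [P]
  have hP : ∀ x ∈ P, ∀ y ∈ P, B x y = 0 := by
    intro x hx y hy
    by_contra hxy
    obtain ⟨w, hw, hww⟩ := CfsgLib.Hermitian.exists_diag_ne hσ B hS P hx hy hxy
    obtain ⟨c, hc, hcn⟩ := CfsgLib.Hermitian.exists_norm hσ hσ2 (inv_ne_zero hww)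
      (by rw [map_inv₀, hsym])
    have hw' := (hmemP w).mp hw
    have hw'' : ∀ i, B w (e i) = 0 := fun i => by rw [← hsym, hw' i, map_zero]
    have : ONFam (m + 1) := by
      refine ⟨Fin.snoc e (c • w), fun i j => ?_⟩
      refine Fin.lastCases ?_ (fun i => ?_) i <;> refine Fin.lastCases ?_ (fun j => ?_) j
      · simp only [Fin.snoc_last, LinearMap.map_smulₛₗ, LinearMap.smul_apply, map_smul, smul_eq_mul,
          RingHom.id_apply, if_true]
        linear_combination (B w w) * hcn + inv_mul_cancel₀ hww
      · simp [hw'', Ne.symm (Fin.castSucc_ne_last j)]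
      · simp [hw']
      · simp [he]
    have := hmax _ this
    omega
  have hdec : ∀ v, v - ∑ i, B (e i) v • e i ∈ P := fun v => (hmemP _).mpr fun j => by
    simp [map_sum, map_sub, he]
  have hbot : ∀ x ∈ P, x = 0 := by
    intro x hx
    apply hB.1
    intro v
    have := hP x hx _ (hdec v)
    have hx' : ∀ i, B x (e i) = 0 := fun i => by rw [← hsym, (hmemP x).mp hx i, map_zero]
    simpa [map_sum, map_sub, hx'] using this
  have hli : LinearIndependent F e := by
    rw [Fintype.linearIndependent_iff]
    intro c hc i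
    have := congrArg (fun v => B (e i) v) hc
    simpa [map_sum, he] using this
  have hspan : ⊤ ≤ Submodule.span F (Set.range e) := by
    intro v _
    rw [sub_eq_zero.mp (hbot _ (hdec v))]
    exact Submodule.sum_mem _ fun i _ => Submodule.smul_mem _ _ (Submodule.subset_span ⟨i, rfl⟩)
  let b := Module.Basis.mk hli hspan
  have hm : Module.finrank F V = m := Module.finrank_eq_card_basis b |>.trans (Fintype.card_fin m)
  refine ⟨b.reindex (finCongr hm.symm), fun i j => ?_⟩
  simp [b, he, Fin.ext_iff]

end Cfsg.Agent.S0755
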