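import Cfsg.Statements.S2946
import Cfsg.Agent.JComp.Basic
import Cfsg.Agent.PReduced.Hom

set_option autoImplicit false
open Cfsg

namespace Cfsg.Agent.S2946

open scoped commutatorElement
open CfsgLib.JComp

/-- Let G be a finite group of characteristic 2 type in which every 2-local subgroup is solvable and the centralizer of Ω₁(Z(S)) lies in N_G(S) for every Sylow 2-subgroup S, and let T be a nontrivial 2-subgroup (below, J is the Thompson subgroup generated by the elementary abelian 2-subgroups of largest order), K a J(T)-component and Z₀ = Ω₁(Z(J(T))). Then Z₀ meets W_K = [Ω₁(Z(O₂(K))), K] in a subgroup of order 2, and Z₀ is the product of Z₀ ∩ Z(⟨K, J(T)⟩) and Z₀ ∩ W_K. -/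
theorem result {G : Type*} [Group G] [Finite G] (hL : Cfsg.IsCharacteristicTwoType G) (hN : ∀ N : Subgroup G, Cfsg.IsTwoLocal N → Group.IsSolvable ↥N)
    (hZ : ∀ S : Sylow 2 G, Subgroup.centralizer (Cfsg.omegaCenterOf (S : Subgroup G) : Set G) ≤ Subgroup.normalizer ((S : Subgroup G) : Set G)) (T : Subgroup G) (hT : IsPGroup 2 ↥T) (hT1 : T ≠ ⊥) (K : Subgroup G) (hK : Cfsg.IsJComponent T K)
    (Z₀ : Subgroup G) (hZ₀ : Z₀ = Cfsg.omegaCenterOf (Cfsg.thompsonSubgroupOf 2 T)) :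
    Nat.card ↥(Z₀ ⊓ Cfsg.wOf K) = 2 ∧
      (Z₀ ⊓ ((K ⊔ Cfsg.thompsonSubgroupOf 2 T) ⊓ Subgroup.centralizer ((K ⊔ Cfsg.thompsonSubgroupOf 2 T) : Set G))) ⊔ (Z₀ ⊓ Cfsg.wOf K) = Z₀ := by
  haveI : Fact (Nat.Prime 2) := ⟨Nat.prime_two⟩
  set J := Cfsg.thompsonSubgroupOf 2 T with hJdef
  set H := K ⊔ J with hHdef
  set W := Cfsg.wOf K with hWdef
  set Q := Cfsg.pCoreOf 2 K with hQdef
  have hJK : J ≤ Subgroup.normalizer (K : Set G) := J_normalizes hK
  have hWQ : W ≤ Q := wOf_le_pCoreOf K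
  have hWK : W ≤ K := hWQ.trans (pCoreOf_le K)
  have hWsq : ∀ w ∈ W, w * w = 1 := hK.2.2.2.2.2
  have hQW : ∀ y ∈ Q, ∀ v ∈ W, y * v = v * y := fun y hy v hv =>
    (mem_omegaCenterOf.1 (wOf_le_omega K hv)).2.1 y hy
  have hWcomm : ∀ v ∈ W, ∀ v' ∈ W, v * v' = v' * v := fun v hv v' hv' => hQW v (hWQ hv) v' hv'
  have hWel : Cfsg.IsElementaryAbelian 2 W :=
    ⟨⟨⟨fun a b => Subtype.ext (hWcomm a a.2 b b.2)⟩⟩, fun a ha => by rw [pow_two]; exact hWsq a ha⟩
  have hHK : ∀ h ∈ H, ∀ k ∈ K, h * k * h⁻¹ ∈ K := fun h hh k hk =>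
    (Subgroup.mem_normalizer_iff.1 ((sup_le Subgroup.le_normalizer hJK : H ≤ _) hh) k).1 hk
  have hHW : ∀ h ∈ H, ∀ w ∈ W, h * w * h⁻¹ ∈ W := fun h hh w hw => conj_mem_wOf (hHK h hh) hw
  obtain ⟨k, hk, hko, hkQ⟩ := exists_odd_notMem hK
  have hfpf : ∀ w ∈ W, k * w * k⁻¹ = w → w = 1 := fun w hw e => fpf_wOf hK hk hko hkQ hw e
  obtain ⟨hk3, hcases⟩ := K_cases hK hk hkQ
  have hW1 : ∃ w ∈ W, w ≠ 1 := by
    refine W.bot_or_exists_ne_one.resolve_left fun h => ?_
    have := hK.2.2.2.2.1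
    rw [← hWdef, h, Subgroup.card_bot] at this
    omega
  have hKW : ∀ x ∈ K, (∀ w ∈ W, x * w = w * x) → x ∈ Q := by
    intro x hx hc
    obtain ⟨w, hw, hw1⟩ := hW1
    rcases hcases x hx with h | h | h
    · exact h
    · refine absurd (hfpf w hw ?_) hw1
      have hq : Commute (x * k⁻¹) w := hQW _ h w hw
      rw [mul_inv_eq_iff_eq_mul, show k = (x * k⁻¹)⁻¹ * x by group]
      exact (hq.inv_left.mul_left (hc w hw)).eq
    · refine absurd (hfpf w hw ?_) hw1
      have hq : Commute (x * (k * k)⁻¹) w := hQW _ h w hw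
      have hk2 : Commute (k * k) w := by
        rw [show k * k = (x * (k * k)⁻¹)⁻¹ * x by rw [mul_inv_rev, inv_inv, inv_mul_cancel_right]]
        exact hq.inv_left.mul_left (hc w hw)
      have hk3' : Commute (k * k * k) w := hQW _ hk3 w hw
      rw [mul_inv_eq_iff_eq_mul, show k = (k * k)⁻¹ * (k * k * k) by group]
      exact (hk2.inv_left.mul_left hk3').eq
  -- odd elements of H lie in K
  have hJp : IsPGroup 2 ↥J := isPGroup_thompson hT
  have hodd : ∀ y ∈ H, Odd (orderOf y) → y ∈ K := by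
    intro y hy ho
    rw [← SetLike.mem_coe, hHdef, Subgroup.coe_mul_of_right_le_normalizer_left K J hJK] at hy
    obtain ⟨x, hx, j, hj, rfl⟩ := hy
    simp only [] at ho ⊢
    obtain ⟨n, hn⟩ := hJp ⟨j, hj⟩
    have hjn : j ^ 2 ^ n = 1 := by simpa using congrArg Subtype.val hn
    have hpw : ∀ m : ℕ, ∃ x' ∈ K, (x * j) ^ m = x' * j ^ m := by
      intro m
      induction m with
      | zero => exact ⟨1, K.one_mem, by simp⟩
      | succ m ih =>
        obtain ⟨x', hx', he⟩ := ih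
        refine ⟨x' * (j ^ m * x * (j ^ m)⁻¹), K.mul_mem hx' ?_, ?_⟩
        · exact (Subgroup.mem_normalizer_iff.1 ((Subgroup.normalizer (K : Set G)).pow_mem (hJK hj) m) x).1 hx
        · rw [pow_succ, he, pow_succ]; simp [mul_assoc]
    obtain ⟨x', hx', he⟩ := hpw (2 ^ n)
    rw [hjn, mul_one] at he
    obtain ⟨m, hm⟩ := exists_pow_eq_self_of_coprime
      (show Nat.Coprime (2 ^ n) (orderOf (x * j)) from ho.coprime_two_left.pow_left n)
    rw [← hm, he]; exact K.pow_mem hx' m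
  set R := H ⊓ Subgroup.centralizer (W : Set G) with hRdef
  have hRW : ∀ r ∈ R, ∀ w ∈ W, r * w = w * r := fun r hr w hw =>
    (Subgroup.mem_centralizer_iff.1 hr.2 w hw).symm
  have hRn : ∀ h ∈ H, ∀ r ∈ R, h * r * h⁻¹ ∈ R := by
    intro h hh r hr
    refine ⟨H.mul_mem (H.mul_mem hh hr.1) (H.inv_mem hh), Subgroup.mem_centralizer_iff.2 fun w hw => ?_⟩
    have hw' := hHW h⁻¹ (H.inv_mem hh) w hw
    calc w * (h * r * h⁻¹) = h * ((h⁻¹ * w * h⁻¹⁻¹) * r) * h⁻¹ := by group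
      _ = h * (r * (h⁻¹ * w * h⁻¹⁻¹)) * h⁻¹ := by rw [hRW r hr _ hw']
      _ = h * r * h⁻¹ * w := by group
  have hQR : Q ≤ R := fun y hy => ⟨Subgroup.mem_sup_left (pCoreOf_le K hy),
    Subgroup.mem_centralizer_iff.2 fun w hw => (hQW y hy w hw).symm⟩
  have hRp : IsPGroup 2 ↥R := by
    intro g
    obtain ⟨n, m, hm, hnm⟩ := Nat.exists_eq_two_pow_mul_odd (orderOf_pos (g : G)).ne'
    refine ⟨n, Subtype.ext ?_⟩
    rw [SubmonoidClass.coe_pow]
    set y := (g : G) ^ 2 ^ n with hy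
    have hyo : orderOf y = m := by
      rw [hy, orderOf_pow_of_dvd (by positivity) (by rw [hnm]; exact dvd_mul_right _ _), hnm,
        Nat.mul_div_cancel_left _ (by positivity)]
    have hyR : y ∈ R := R.pow_mem g.2 _
    have hyQ : y ∈ Q := hKW y (hodd y hyR.1 (hyo ▸ hm)) (hRW y hyR)
    obtain ⟨e, he⟩ := isPGroup_pCoreOf K ⟨y, hyQ⟩
    have hd : orderOf y ∣ 2 ^ e := orderOf_dvd_of_pow_eq_one (by simpa using congrArg Subtype.val he)
    exact orderOf_eq_one_iff.1 (Nat.eq_one_of_dvd_coprimes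
      ((Nat.coprime_two_right.2 (hyo ▸ hm)).pow_right e) dvd_rfl hd)
  -- a Sylow 2-subgroup of H containing J
  obtain ⟨S, hJS, hS⟩ := exists_sylowTwoIn (H := H) hJp le_sup_right
  have hJS' : Cfsg.thompsonSubgroupOf 2 S = J := hK.2.2.2.1 S hS hJS
  have hRS : R ≤ S := by
    have hSn : S ≤ Subgroup.normalizer (R : Set G) := by
      intro s hs
      rw [Subgroup.mem_normalizer_iff]
      refine fun r => ⟨hRn s (hS.1 hs) r, fun h => ?_⟩
      have := hRn s⁻¹ (H.inv_mem (hS.1 hs)) _ h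
      rwa [show s⁻¹ * (s * r * s⁻¹) * s⁻¹⁻¹ = r by group] at this
    obtain ⟨e, he⟩ := IsPGroup.iff_card.1 (hS.2.1.to_sup_of_normal_right' hRp hSn)
    have h2 : S.relIndex (S ⊔ R) ∣ Nat.card ↥(S ⊔ R) :=
      (Subgroup.index_dvd_card _)
    have h3 : S.relIndex (S ⊔ R) ∣ S.relIndex H :=
      Dvd.intro _ (Subgroup.relIndex_mul_relIndex S (S ⊔ R) H le_sup_left (sup_le hS.1 inf_le_left))
    rw [he] at h2
    have h1 : S.relIndex (S ⊔ R) = 1 := Nat.eq_one_of_dvd_coprimes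
      ((Nat.coprime_two_right.2 hS.2.2).pow_right e) h3 h2
    exact le_sup_right.trans (Subgroup.relIndex_eq_one.1 h1)
  have hWR : W ≤ R := hWQ.trans hQR
  have hmem : ∀ A, IsMaxEl S A → ∀ x ∈ S, x * x = 1 → (∀ a ∈ A, a * x = x * a) → x ∈ A := by
    intro A hA x hx hx2 hc
    have hz : Cfsg.IsElementaryAbelian 2 (Subgroup.zpowers x) := by
      refine ⟨inferInstance, ?_⟩
      rintro _ ⟨n, rfl⟩
      simp only []
      rw [pow_two, ← (Commute.refl x).mul_zpow, hx2, one_zpow]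
    have hs := CfsgLib.Offender.isElementaryAbelian_sup hA.el hz (fun a ha =>
      Subgroup.mem_centralizer_iff.2 (by
        rintro _ ⟨n, rfl⟩
        exact ((show Commute a x from hc a ha).zpow_right n).symm.eq))
    have := Subgroup.eq_of_le_of_card_ge (le_sup_left : A ≤ A ⊔ Subgroup.zpowers x)
      (hA.max _ (sup_le hA.le (Subgroup.zpowers_le.2 hx)) hs)
    exact this.ge (Subgroup.mem_sup_right (Subgroup.mem_zpowers x))
  have hmaxJ : ∀ A, IsMaxEl S A → A ≤ J := fun A hA => hA.le_thompson.trans hJS'.le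
  -- some maximal elementary abelian subgroup acts nontrivially on W
  obtain ⟨A₀, hA₀, a, ha, haW⟩ : ∃ A₀, IsMaxEl S A₀ ∧ ∃ a ∈ A₀, a ∉ Subgroup.centralizer (W : Set G) := by
    by_contra h
    push Not at h
    have hJC : J ≤ Subgroup.centralizer (W : Set G) :=
      thompson_le fun A hA a ha => h A (hA.of_thompson_eq hJS') a ha
    have hKC : K ≤ R := by
      rw [← hK.2.1, Subgroup.commutator_le]
      intro x hx j hj
      have hjR : j ∈ R := ⟨Subgroup.mem_sup_right hj, hJC hj⟩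
      rw [commutatorElement_def]
      exact R.mul_mem (hRn x (Subgroup.mem_sup_left hx) j hjR) (R.inv_mem hjR)
    exact hkQ (hKW k hk (hRW k (hKC hk)))
  have ha2 : a * a = 1 := el_sq hA₀.el ha
  have haH : a ∈ H := Subgroup.mem_sup_right (hmaxJ A₀ hA₀ ha)
  set F := W ⊓ Subgroup.centralizer ({a} : Set G) with hFdef
  have hFmem : ∀ {w : G}, w ∈ F ↔ w ∈ W ∧ a * w * a⁻¹ = w := fun {w} => by
    rw [hFdef, Subgroup.mem_inf, Subgroup.mem_centralizer_singleton_iff, mul_inv_eq_iff_eq_mul]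
    exact and_congr_right fun _ => eq_comm
  have hai : a⁻¹ = a := inv_eq_of_mul_eq_one_left ha2
  have hFsymm : ∀ w ∈ W, (a * w * a⁻¹) * w ∈ F := by
    intro w hw
    refine hFmem.2 ⟨W.mul_mem (hHW a haH w hw) hw, ?_⟩
    calc a * (a * w * a⁻¹ * w) * a⁻¹ = (a * a) * w * (a⁻¹ * w * a⁻¹) := by group
      _ = w * (a * w * a⁻¹) := by rw [ha2, hai, one_mul]
      _ = a * w * a⁻¹ * w := hWcomm w hw _ (hHW a haH w hw)
  have hFne : F ≠ W := fun e => haW (Subgroup.mem_centralizer_iff.2 fun w hw => by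
    have := (hFmem.1 (e.ge hw)).2
    rw [mul_inv_eq_iff_eq_mul] at this
    exact this.symm)
  have hFbot : F ≠ ⊥ := by
    intro e
    obtain ⟨w, hw, hw1⟩ := hW1
    have h1 : a * w * a⁻¹ * w = 1 := Subgroup.mem_bot.1 (e.le (hFsymm w hw))
    have h2 : a * w * a⁻¹ = w := (eq_inv_of_mul_eq_one_left h1).trans (inv_eq_of_mul_eq_one_left (hWsq w hw))
    exact hw1 (Subgroup.mem_bot.1 (e.le (hFmem.2 ⟨hw, h2⟩)))
  have hFcard : Nat.card ↥F = 2 := by
    have h1 : Nat.card ↥F ∣ 4 := by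
      have := Subgroup.card_dvd_of_le (inf_le_left : F ≤ W)
      rwa [show Nat.card ↥W = 4 from hK.2.2.2.2.1] at this
    have h2 : Nat.card ↥F ≠ 1 := fun h => hFbot (Subgroup.eq_bot_of_card_eq F h)
    have h3 : Nat.card ↥F ≠ 4 := fun h =>
      hFne (Subgroup.eq_of_le_of_card_ge inf_le_left (by rw [show Nat.card ↥W = 4 from hK.2.2.2.2.1, h]))
    have h4 := Nat.le_of_dvd (by norm_num) h1
    interval_cases hn : Nat.card ↥F <;> omega
  have hF2 : ∀ x ∈ F, ∀ y ∈ F, x ≠ 1 → y ≠ 1 → x = y := by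
    intro x hx y hy hx1 hy1
    by_contra hne
    have hsub : ({1, x, y} : Set G) ⊆ (F : Set G) := by
      intro z hz
      simp only [Set.mem_insert_iff, Set.mem_singleton_iff] at hz
      rcases hz with rfl | rfl | rfl
      exacts [F.one_mem, hx, hy]
    have := Set.ncard_le_ncard hsub (Set.toFinite _)
    rw [Set.ncard_insert_of_notMem (by simp [Ne.symm hx1, Ne.symm hy1]), Set.ncard_pair hne,
      show (F : Set G).ncard = 2 from hFcard] at this
    omega
  -- elements of A₀ fix F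
  have hFA : F ≤ A₀ := by
    intro w hw
    refine hmem A₀ hA₀ w (hRS (hWR hw.1)) (hWsq w hw.1) fun b hb => ?_
    by_cases hw1 : w = 1
    · rw [hw1, mul_one, one_mul]
    have hab : Commute a b := el_comm hA₀.el ha hb
    have hbH : b ∈ H := Subgroup.mem_sup_right (hmaxJ A₀ hA₀ hb)
    have hbw : b * w * b⁻¹ ∈ F := by
      refine hFmem.2 ⟨hHW b hbH w hw.1, ?_⟩
      calc a * (b * w * b⁻¹) * a⁻¹ = (a * b) * w * (a * b)⁻¹ := by group
        _ = (b * a) * w * (b * a)⁻¹ := by rw [hab.eq]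
        _ = b * (a * w * a⁻¹) * b⁻¹ := by group
        _ = b * w * b⁻¹ := by rw [(hFmem.1 hw).2]
    exact mul_inv_eq_iff_eq_mul.1 (hF2 _ hbw w hw (fun h => hw1 (by simpa using h)) hw1)
  obtain ⟨w₀, hw₀, hw₀1, hw₀J⟩ : ∃ w ∈ W, w ≠ 1 ∧ w ∈ J ∧ ∀ j ∈ J, j * w = w * j := by
    set N := W.subgroupOf J with hN
    haveI : N.Normal := ⟨fun n hn j => hHW j (Subgroup.mem_sup_right j.2) n hn⟩
    have hNb : N ≠ ⊥ := by
      obtain ⟨w, hw, hw1⟩ := F.bot_or_exists_ne_one.resolve_left hFbot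
      intro e
      have : (⟨w, hmaxJ A₀ hA₀ (hFA hw)⟩ : ↥J) ∈ N := hw.1
      rw [e, Subgroup.mem_bot] at this
      exact hw1 (congrArg Subtype.val this)
    obtain ⟨n, hn, hn1⟩ := (Subgroup.bot_or_exists_ne_one _).resolve_left
      (CfsgLib.PReduced.inf_center_ne_bot hJp hNb)
    exact ⟨n, hn.1, fun h => hn1 (Subtype.ext h), n.2, fun j hj =>
      congrArg Subtype.val (Subgroup.mem_center_iff.1 hn.2 ⟨j, hj⟩)⟩
  obtain ⟨hw₀j, hw₀c⟩ := hw₀J
  have hw₀F : w₀ ∈ F := hFmem.2 ⟨hw₀, mul_inv_eq_iff_eq_mul.2 (hw₀c a (hmaxJ A₀ hA₀ ha))⟩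
  have hFeq : Z₀ ⊓ W = F := by
    refine le_antisymm (fun x hx => hFmem.2 ⟨hx.2, ?_⟩) (fun x hx => ⟨?_, hx.1⟩)
    · exact mul_inv_eq_iff_eq_mul.2 ((mem_omegaCenterOf.1 (hZ₀ ▸ hx.1)).2.1 a (hmaxJ A₀ hA₀ ha))
    · rw [hZ₀]
      by_cases hx1 : x = 1
      · rw [hx1]; exact Subgroup.one_mem _
      rw [hF2 x hx w₀ hw₀F hx1 hw₀1]
      exact mem_omegaCenterOf.2 ⟨hw₀j, hw₀c, hWsq w₀ hw₀⟩
  refine ⟨by rw [hFeq]; exact hFcard, ?_⟩
  -- nontrivially acting maximal subgroups give maximal subgroups inside R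
  have hprime : ∀ A, IsMaxEl S A → ∀ b ∈ A, b ∉ Subgroup.centralizer (W : Set G) →
      IsMaxEl S ((A ⊓ Subgroup.centralizer (W : Set G)) ⊔ W) := by
    intro A hA b hb hbW
    have hC : A ⊓ Subgroup.centralizer (W : Set G) ≤ Subgroup.centralizer (W : Set G) := inf_le_right
    refine ⟨sup_le (inf_le_left.trans hA.le) (hWR.trans hRS),
      CfsgLib.Offender.isElementaryAbelian_sup
        (CfsgLib.Offender.isElementaryAbelian_mono hA.el inf_le_left) hWel hC,
      fun B hB hBe => (hA.max B hB hBe).trans ?_⟩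
    have hbH : b ∈ H := Subgroup.mem_sup_right (hmaxJ A hA hb)
    obtain ⟨w, hw, hbw⟩ : ∃ w ∈ W, b * w * b⁻¹ ≠ w := by
      by_contra h
      push Not at h
      exact hbW (Subgroup.mem_centralizer_iff.2 fun w hw => (mul_inv_eq_iff_eq_mul.1 (h w hw)).symm)
    -- every element of A either centralizes W or becomes so after multiplication with b
    have hor : ∀ x ∈ A, x ∉ Subgroup.centralizer (W : Set G) → x * b ∈ Subgroup.centralizer (W : Set G) := by
      intro x hx hxW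
      by_contra hxb
      have hxH : x ∈ H := Subgroup.mem_sup_right (hmaxJ A hA hx)
      have hfix : ∀ y ∈ A, ∀ v ∈ W, b * v * b⁻¹ = v → y * v * y⁻¹ = v ∨ v = 1 := by
        intro y hy v hv hbv
        by_cases hv1 : v = 1
        · exact Or.inr hv1
        left
        by_contra hne
        have hyH : y ∈ H := Subgroup.mem_sup_right (hmaxJ A hA hy)
        set v' := y * v * y⁻¹ with hv'
        have hv'f : b * v' * b⁻¹ = v' := by
          rw [hv', show b * (y * v * y⁻¹) * b⁻¹ = (b * y) * v * (b * y)⁻¹ by group,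
            (el_comm hA.el hb hy).eq, show (y * b) * v * (y * b)⁻¹ = y * (b * v * b⁻¹) * y⁻¹ by group, hbv]
        have hset : ({1, v, v', w, b * w * b⁻¹} : Set G) ⊆ (W : Set G) := by
          intro z hz
          simp only [Set.mem_insert_iff, Set.mem_singleton_iff] at hz
          rcases hz with rfl | rfl | rfl | rfl | rfl
          exacts [W.one_mem, hv, hHW y hyH v hv, hw, hHW b hbH w hw]
        have hcard := Set.ncard_le_ncard hset (Set.toFinite _)
        have hw1 : w ≠ 1 := fun h => hbw (by rw [h]; group)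
        have hvw : v ≠ w := fun h => hbw (by rw [← h]; exact hbv)
        have hv'w : v' ≠ w := fun h => hbw (by rw [← h]; exact hv'f)
        have hv'1 : v' ≠ 1 := fun h => hv1 (by simpa [hv'] using h)
        have hinj : ∀ {p q : G}, b * p * b⁻¹ = b * q * b⁻¹ → p = q := fun h => by simpa using h
        have n1 : b * w * b⁻¹ ≠ 1 := fun h => hw1 (hinj (by rw [h]; group))
        have n2 : b * w * b⁻¹ ≠ v := fun h => hvw (hinj (hbv.trans h.symm))
        have n3 : b * w * b⁻¹ ≠ v' := fun h => hv'w (hinj (hv'f.trans h.symm))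
        rw [show (W : Set G).ncard = 4 from hK.2.2.2.2.1,
          Set.ncard_insert_of_notMem (by simp [Ne.symm hv1, Ne.symm hv'1, Ne.symm hw1, Ne.symm n1]),
          Set.ncard_insert_of_notMem (by simp [Ne.symm hne, hvw, Ne.symm n2]),
          Set.ncard_insert_of_notMem (by simp [hv'w, Ne.symm n3]),
          Set.ncard_pair (Ne.symm hbw)] at hcard
        omega
      -- the fixed element of b
      set v := b * w * b⁻¹ * w with hv
      have hb2 : b * b = 1 := el_sq hA.el hb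
      have hbi : b⁻¹ = b := inv_eq_of_mul_eq_one_left hb2
      have hvW : v ∈ W := W.mul_mem (hHW b hbH w hw) hw
      have hbv : b * v * b⁻¹ = v := by
        calc b * (b * w * b⁻¹ * w) * b⁻¹ = (b * b) * w * (b⁻¹ * w * b⁻¹) := by group
          _ = w * (b * w * b⁻¹) := by rw [hb2, hbi, one_mul]
          _ = b * w * b⁻¹ * w := hWcomm w hw _ (hHW b hbH w hw)
      have hv1 : v ≠ 1 := fun h => hbw
        ((eq_inv_of_mul_eq_one_left h).trans (inv_eq_of_mul_eq_one_left (hWsq w hw)))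
      have hxv : x * v * x⁻¹ = v := (hfix x hx v hvW hbv).resolve_right hv1
      -- W = {1, v, w, v * w}, so both x and b move w to v * w
      have hxw : x * w * x⁻¹ ≠ w := by
        intro h
        apply hxW
        refine Subgroup.mem_centralizer_iff.2 fun u hu => ?_
        have hset : ({1, v, w, v * w} : Set G) ⊆ (W : Set G) := by
          intro z hz
          simp only [Set.mem_insert_iff, Set.mem_singleton_iff] at hz
          rcases hz with rfl | rfl | rfl | rfl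
          exacts [W.one_mem, hvW, hw, W.mul_mem hvW hw]
        have hw1 : w ≠ 1 := fun h => hbw (by rw [h]; group)
        have hvw : v ≠ w := fun h => hbw (by rw [← h]; exact hbv)
        have m1 : v * w ≠ 1 := fun h => hvw
          ((eq_inv_of_mul_eq_one_left h).trans (inv_eq_of_mul_eq_one_left (hWsq w hw)))
        have heq : ({1, v, w, v * w} : Set G) = (W : Set G) := by
          refine Set.eq_of_subset_of_ncard_le hset ?_ (Set.toFinite _)
          rw [show (W : Set G).ncard = 4 from hK.2.2.2.2.1,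
            Set.ncard_insert_of_notMem (by simp [Ne.symm hv1, Ne.symm hw1, Ne.symm m1]),
            Set.ncard_insert_of_notMem (by simp [hvw, hw1]),
            Set.ncard_pair (by simp [hv1])]
        have hu' : u ∈ ({1, v, w, v * w} : Set G) := heq ▸ hu
        have e1 : Commute x v := mul_inv_eq_iff_eq_mul.1 hxv
        have e2 : Commute x w := mul_inv_eq_iff_eq_mul.1 h
        simp only [Set.mem_insert_iff, Set.mem_singleton_iff] at hu'
        rcases hu' with rfl | rfl | rfl | rfl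
        exacts [by simp, e1.symm.eq, e2.symm.eq, (e1.mul_right e2).symm.eq]
      apply hxb
      refine Subgroup.mem_centralizer_iff.2 fun u hu => ?_
      have hmv : ∀ {p : G}, p ∈ H → p * v * p⁻¹ = v → p * w * p⁻¹ ≠ w → p * w * p⁻¹ = v * w := by
        intro p hp hpv hpw
        have hinj : ∀ {r q : G}, p * r * p⁻¹ = p * q * p⁻¹ → r = q := fun h => by simpa using h
        by_contra hne
        have hw1 : w ≠ 1 := fun h => hbw (by rw [h]; group)
        have hvw : v ≠ w := fun h => hbw (by rw [← h]; exact hbv)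
        have m1 : v * w ≠ 1 := fun h => hvw
          ((eq_inv_of_mul_eq_one_left h).trans (inv_eq_of_mul_eq_one_left (hWsq w hw)))
        have n1 : p * w * p⁻¹ ≠ 1 := fun h => hw1 (hinj (by rw [h]; group))
        have n2 : p * w * p⁻¹ ≠ v := fun h => hvw (hinj (hpv.trans h.symm))
        have hset : ({1, v, w, v * w, p * w * p⁻¹} : Set G) ⊆ (W : Set G) := by
          intro z hz
          simp only [Set.mem_insert_iff, Set.mem_singleton_iff] at hz
          rcases hz with rfl | rfl | rfl | rfl | rfl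
          exacts [W.one_mem, hvW, hw, W.mul_mem hvW hw, hHW p hp w hw]
        have hcard := Set.ncard_le_ncard hset (Set.toFinite _)
        rw [show (W : Set G).ncard = 4 from hK.2.2.2.2.1,
          Set.ncard_insert_of_notMem (by simp [Ne.symm hv1, Ne.symm hw1, Ne.symm m1, Ne.symm n1]),
          Set.ncard_insert_of_notMem (by simp [hvw, hw1, Ne.symm n2]),
          Set.ncard_insert_of_notMem (by simp [hv1, Ne.symm hpw]),
          Set.ncard_pair (Ne.symm hne)] at hcard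
        omega
      have hx' : x * w * x⁻¹ = v * w := hmv hxH hxv hxw
      have hb' : b * w * b⁻¹ = v * w := hmv hbH hbv hbw
      have hxbw : (x * b) * w * (x * b)⁻¹ = w := by
        calc (x * b) * w * (x * b)⁻¹ = x * (b * w * b⁻¹) * x⁻¹ := by group
          _ = (x * v * x⁻¹) * (x * w * x⁻¹) := by rw [hb']; group
          _ = v * (v * w) := by rw [hxv, hx']
          _ = w := by rw [← mul_assoc, hWsq v hvW, one_mul]
      have hxbv : (x * b) * v * (x * b)⁻¹ = v := by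
        calc (x * b) * v * (x * b)⁻¹ = x * (b * v * b⁻¹) * x⁻¹ := by group
          _ = v := by rw [hbv, hxv]
      have hset : ({1, v, w, v * w} : Set G) ⊆ (W : Set G) := by
        intro z hz
        simp only [Set.mem_insert_iff, Set.mem_singleton_iff] at hz
        rcases hz with rfl | rfl | rfl | rfl
        exacts [W.one_mem, hvW, hw, W.mul_mem hvW hw]
      have hw1 : w ≠ 1 := fun h => hbw (by rw [h]; group)
      have hvw : v ≠ w := fun h => hbw (by rw [← h]; exact hbv)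
      have m1 : v * w ≠ 1 := fun h => hvw
        ((eq_inv_of_mul_eq_one_left h).trans (inv_eq_of_mul_eq_one_left (hWsq w hw)))
      have heq : ({1, v, w, v * w} : Set G) = (W : Set G) := by
        refine Set.eq_of_subset_of_ncard_le hset ?_ (Set.toFinite _)
        rw [show (W : Set G).ncard = 4 from hK.2.2.2.2.1,
          Set.ncard_insert_of_notMem (by simp [Ne.symm hv1, Ne.symm hw1, Ne.symm m1]),
          Set.ncard_insert_of_notMem (by simp [hvw, hw1]),
          Set.ncard_pair (by simp [hv1])]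
      have hu' : u ∈ ({1, v, w, v * w} : Set G) := heq ▸ hu
      have e1 : Commute (x * b) v := mul_inv_eq_iff_eq_mul.1 hxbv
      have e2 : Commute (x * b) w := mul_inv_eq_iff_eq_mul.1 hxbw
      simp only [Set.mem_insert_iff, Set.mem_singleton_iff] at hu'
      rcases hu' with rfl | rfl | rfl | rfl
      exacts [by simp, e1.symm.eq, e2.symm.eq, (e1.mul_right e2).symm.eq]
    have hwA : w ∉ A := fun h => hbw (mul_inv_eq_iff_eq_mul.2 (el_comm hA.el hb h).eq)
    classical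
    set A' := (A ⊓ Subgroup.centralizer (W : Set G)) ⊔ W with hA'
    have hf : ∀ x : ↥A, (if (x : G) ∈ Subgroup.centralizer (W : Set G) then (x : G) else (x : G) * b * w) ∈ A' := by
      intro x
      split_ifs with h
      · exact Subgroup.mem_sup_left ⟨x.2, h⟩
      · exact A'.mul_mem (Subgroup.mem_sup_left ⟨A.mul_mem x.2 hb, hor x x.2 h⟩) (Subgroup.mem_sup_right hw)
    refine Nat.card_le_card_of_injective (fun x : ↥A => (⟨_, hf x⟩ : ↥A')) fun x y hxy => ?_
    have e := congrArg Subtype.val hxy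
    simp only at e
    split_ifs at e with h1 h2 h2
    · exact Subtype.ext e
    · exact absurd (by rw [show w = ((y : G) * b)⁻¹ * ((y : G) * b * w) by group, ← e]
                       exact A.mul_mem (A.inv_mem (A.mul_mem y.2 hb)) x.2) hwA
    · exact absurd (by rw [show w = ((x : G) * b)⁻¹ * ((x : G) * b * w) by group, e]
                       exact A.mul_mem (A.inv_mem (A.mul_mem x.2 hb)) y.2) hwA
    · exact Subtype.ext (mul_right_cancel (mul_right_cancel e))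
  have hprimeR : ∀ A, IsMaxEl S A → (A ⊓ Subgroup.centralizer (W : Set G)) ⊔ W ≤ R := fun A hA =>
    sup_le (fun x hx => ⟨Subgroup.mem_sup_right (hmaxJ A hA hx.1), hx.2⟩) hWR
  set X : Set G := {x | x ∈ R ∧ x * x = 1 ∧ ∀ A, IsMaxEl S A → A ≤ R → ∀ b ∈ A, b * x = x * b} with hXdef
  have hXA : ∀ x ∈ X, ∀ A, IsMaxEl S A → ∀ b ∈ A, b ∉ Subgroup.centralizer (W : Set G) →
      x ∈ (A ⊓ Subgroup.centralizer (W : Set G)) ⊔ W := fun x hx A hA b hb hbW =>
    hmem _ (hprime A hA b hb hbW) x (hRS hx.1) hx.2.1 (hx.2.2 _ (hprime A hA b hb hbW) (hprimeR A hA))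
  have hRnS : ∀ s ∈ S, ∀ r ∈ R, s * r * s⁻¹ ∈ R := fun s hs => hRn s (hS.1 hs)
  have hXH : ∀ h ∈ H, ∀ x ∈ X, h * x * h⁻¹ ∈ X := by
    rintro h hh x ⟨hx1, hx2, hx3⟩
    refine ⟨hRn h hh x hx1, ?_, fun A hA hAR b hb => ?_⟩
    · rw [show h * x * h⁻¹ * (h * x * h⁻¹) = h * (x * x) * h⁻¹ by group, hx2]; group
    have hA' : IsMaxEl S (A.map (MulAut.conj h⁻¹).toMonoidHom) := by
      refine ⟨?_, ?_, fun B hB hBe => ?_⟩
      · rintro _ ⟨c, hc, rfl⟩; exact hRS (hRn h⁻¹ (H.inv_mem hh) c (hAR hc))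
      · refine ⟨⟨⟨?_⟩⟩, ?_⟩
        · rintro ⟨_, p, hp, rfl⟩ ⟨_, q, hq, rfl⟩
          refine Subtype.ext ?_
          show (MulAut.conj h⁻¹).toMonoidHom p * (MulAut.conj h⁻¹).toMonoidHom q =
            (MulAut.conj h⁻¹).toMonoidHom q * (MulAut.conj h⁻¹).toMonoidHom p
          rw [← map_mul, (el_comm hA.el hp hq).eq, map_mul]
        · rintro _ ⟨p, hp, rfl⟩
          rw [← map_pow, hA.el.2 p hp, map_one]
      · rw [Subgroup.card_map_of_injective (MulAut.conj h⁻¹).injective]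
        exact hA.max B hB hBe
    have hb' : h⁻¹ * b * h⁻¹⁻¹ ∈ A.map (MulAut.conj h⁻¹).toMonoidHom := ⟨b, hb, rfl⟩
    have hc := hx3 _ hA' (by rintro _ ⟨c, hc, rfl⟩; exact hRn h⁻¹ (H.inv_mem hh) c (hAR hc)) _ hb'
    calc b * (h * x * h⁻¹) = h * ((h⁻¹ * b * h⁻¹⁻¹) * x) * h⁻¹ := by group
      _ = h * (x * (h⁻¹ * b * h⁻¹⁻¹)) * h⁻¹ := by rw [hc]
      _ = h * x * h⁻¹ * b := by group
  have hWX : ∀ x ∈ X, ∀ w ∈ W, x * w = w * x := fun x hx w hw => hRW x hx.1 w hw
  -- H acts trivially modulo W on X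
  let D : Subgroup G :=
    { carrier := {h | h ∈ H ∧ ∀ x ∈ X, h * x * h⁻¹ * x⁻¹ ∈ W}
      one_mem' := ⟨H.one_mem, fun x _ => by simp⟩
      mul_mem' := by
        rintro p q ⟨hp, hp'⟩ ⟨hq, hq'⟩
        refine ⟨H.mul_mem hp hq, fun x hx => ?_⟩
        rw [show p * q * x * (p * q)⁻¹ * x⁻¹ = (p * (q * x * q⁻¹ * x⁻¹) * p⁻¹) * (p * x * p⁻¹ * x⁻¹) by group]
        exact W.mul_mem (hHW p hp _ (hq' x hx)) (hp' x hx)
      inv_mem' := by
        rintro p ⟨hp, hp'⟩
        refine ⟨H.inv_mem hp, fun x hx => ?_⟩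
        have h1 := hp' _ (hXH p⁻¹ (H.inv_mem hp) x hx)
        rw [show p * (p⁻¹ * x * p⁻¹⁻¹) * p⁻¹ * (p⁻¹ * x * p⁻¹⁻¹)⁻¹ = x * (p⁻¹ * x * p⁻¹⁻¹)⁻¹ by group] at h1
        have h2 := W.inv_mem h1
        rwa [mul_inv_rev, inv_inv] at h2 }
  have hJD : J ≤ D := by
    refine thompson_le fun A hA b hb => ?_
    have hA' : IsMaxEl S A := hA.of_thompson_eq hJS'
    refine ⟨Subgroup.mem_sup_right (hmaxJ A hA' hb), fun x hx => ?_⟩
    by_cases hAC : ∀ c ∈ A, c ∈ Subgroup.centralizer (W : Set G)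
    · rw [hx.2.2 A hA' (fun c hc => ⟨Subgroup.mem_sup_right (hmaxJ A hA' hc), hAC c hc⟩) b hb]
      simp
    · push Not at hAC
      obtain ⟨c, hc, hcW⟩ := hAC
      have hx' : x ∈ (((A ⊓ Subgroup.centralizer (W : Set G)) ⊔ W : Subgroup G) : Set G) := hXA x hx A hA' c hc hcW
      rw [Subgroup.coe_mul_of_left_le_normalizer_right _ W
        ((show _ ≤ Subgroup.centralizer (W : Set G) from inf_le_right).trans
          (Subgroup.centralizer_le_normalizer _))] at hx'
      obtain ⟨p, hp, v, hv, rfl⟩ := hx'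
      have hbp : Commute b p := el_comm hA'.el hb hp.1
      simp only []
      rw [show b * (p * v) * b⁻¹ = (b * p) * v * b⁻¹ by group, hbp.eq,
        show p * b * v * b⁻¹ * (p * v)⁻¹ = p * ((b * v * b⁻¹) * v⁻¹) * p⁻¹ by group]
      have hm : b * v * b⁻¹ * v⁻¹ ∈ W :=
        W.mul_mem (hHW b (Subgroup.mem_sup_right (hmaxJ A hA' hb)) v hv) (W.inv_mem hv)
      exact hHW p (Subgroup.mem_sup_right (hmaxJ A hA' hp.1)) _ hm
  have hKD : K ≤ D := by
    rw [← hK.2.1, Subgroup.commutator_le]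
    intro p hp j hj
    rw [commutatorElement_def]
    refine D.mul_mem ⟨H.mul_mem (H.mul_mem (Subgroup.mem_sup_left hp) (Subgroup.mem_sup_right hj))
      (H.inv_mem (Subgroup.mem_sup_left hp)), fun x hx => ?_⟩ (D.inv_mem (hJD hj))
    have hpH : p ∈ H := Subgroup.mem_sup_left hp
    have h1 := (hJD hj).2 _ (hXH p⁻¹ (H.inv_mem hpH) x hx)
    have h2 := hHW p hpH _ h1
    rwa [show p * (j * (p⁻¹ * x * p⁻¹⁻¹) * j⁻¹ * (p⁻¹ * x * p⁻¹⁻¹)⁻¹) * p⁻¹ =
      p * j * p⁻¹ * x * (p * j * p⁻¹)⁻¹ * x⁻¹ by group] at h2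
  have hHD : H ≤ D := sup_le hKD hJD
  refine le_antisymm (sup_le inf_le_left inf_le_left) fun z hz => ?_
  obtain ⟨hzJ, hzc, hz2⟩ := mem_omegaCenterOf.1 (hZ₀ ▸ hz)
  have hzR : z ∈ R := by
    refine ⟨Subgroup.mem_sup_right hzJ, Subgroup.mem_centralizer_iff.2 fun w hw => ?_⟩
    exact hzc w (hmaxJ _ (hprime A₀ hA₀ a ha haW) (Subgroup.mem_sup_right hw))
  have hzX : z ∈ X := ⟨hzR, hz2, fun A hA _ b hb => hzc b (hmaxJ A hA hb)⟩
  have hkH : k ∈ H := Subgroup.mem_sup_left hk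
  set u := k * z * k⁻¹ * z⁻¹ with hu
  have huW : u ∈ W := (hKD hk).2 z hzX
  obtain ⟨w, hw, hwu⟩ : ∃ w ∈ W, w * (k * w * k⁻¹)⁻¹ = u := by
    let f : ↥W → ↥W := fun w => ⟨w * (k * (w : G) * k⁻¹)⁻¹, W.mul_mem w.2 (W.inv_mem (hHW k hkH w w.2))⟩
    have hf : Function.Injective f := by
      intro p q e
      have e' : (p : G) * (k * p * k⁻¹)⁻¹ = q * (k * q * k⁻¹)⁻¹ := congrArg Subtype.val e
      have h1 : k * ((q : G)⁻¹ * p) * k⁻¹ = (q : G)⁻¹ * p := by
        calc k * ((q : G)⁻¹ * p) * k⁻¹ = (k * q * k⁻¹)⁻¹ * (k * p * k⁻¹) := by group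
          _ = (q : G)⁻¹ * ((q : G) * (k * q * k⁻¹)⁻¹) * (k * p * k⁻¹) := by group
          _ = (q : G)⁻¹ * p := by rw [← e']; group
      exact Subtype.ext (inv_mul_eq_one.1 (hfpf _ (W.mul_mem (W.inv_mem q.2) p.2) h1)).symm
    obtain ⟨w, hw⟩ := Finite.surjective_of_injective hf ⟨u, huW⟩
    exact ⟨w, w.2, congrArg Subtype.val hw⟩
  set c := z * w with hc
  have hkc : k * c * k⁻¹ = c := by
    have huz : u * z = z * u := hQW u (hWQ huW) u huW |> fun _ => (hRW z hzR u huW).symm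
    calc k * c * k⁻¹ = (u * z) * (k * w * k⁻¹) := by rw [hc, hu]; group
      _ = z * (u * (k * w * k⁻¹)) := by rw [huz, mul_assoc]
      _ = c := by rw [← hwu, inv_mul_cancel_right]
  have hcX : c ∈ X := by
    refine ⟨R.mul_mem hzR (hWR hw), ?_, fun A hA hAR b hb => ?_⟩
    · have e := hRW z hzR w hw
      calc z * w * (z * w) = z * (w * z) * w := by group
        _ = (z * z) * (w * w) := by rw [← e]; group
        _ = 1 := by rw [hz2, hWsq w hw, one_mul]
    · exact ((show Commute b z from hzc b (hmaxJ A hA hb)).mul_right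
        (show Commute b w from hRW b (hAR hb) w hw)).eq
  have hWc : ∀ v ∈ W, c * v = v * c := hWX c hcX
  have hJS2 : ∀ s ∈ S, ∀ j ∈ J, s * j * s⁻¹ ∈ J := fun s hs j hj => by
    have h1 := conj_mem_thompson (S := S) (g := s) (fun t ht => S.mul_mem (S.mul_mem hs ht) (S.inv_mem hs))
      (x := j) (hJS'.symm ▸ hj)
    rwa [hJS'] at h1
  have hv : ∀ g ∈ R, g⁻¹ * c * g * c⁻¹ ∈ F := by
    intro g hg
    have hvW : g⁻¹ * c * g * c⁻¹ ∈ W := by
      have := (hHD (H.inv_mem hg.1)).2 c hcX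
      rwa [inv_inv] at this
    refine hFmem.2 ⟨hvW, ?_⟩
    set v := g⁻¹ * c * g * c⁻¹ with hv
    set u₁ := a⁻¹ * c * a * c⁻¹ with hu₁
    have hu₁W : u₁ ∈ W := by
      have := (hHD (H.inv_mem haH)).2 c hcX
      rwa [inv_inv] at this
    have hp : (g * a * g⁻¹ * a⁻¹) * c = c * (g * a * g⁻¹ * a⁻¹) := by
      set p := g * a * g⁻¹ * a⁻¹ with hp
      have hpJ : p ∈ J := J.mul_mem (hJS2 g (hRS hg) a (hmaxJ A₀ hA₀ ha)) (J.inv_mem (hmaxJ A₀ hA₀ ha))
      have hpR : p ∈ R := by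
        rw [hp, show g * a * g⁻¹ * a⁻¹ = g * (a * g⁻¹ * a⁻¹) by group]
        exact R.mul_mem hg (hRn a haH _ (R.inv_mem hg))
      exact ((show Commute p z from hzc p hpJ).mul_right (show Commute p w from hRW p hpR w hw)).eq
    have h1 : a * (g⁻¹ * (a⁻¹ * c * a) * g) * a⁻¹ = g⁻¹ * c * g := by
      calc a * (g⁻¹ * (a⁻¹ * c * a) * g) * a⁻¹
          = g⁻¹ * ((g * a * g⁻¹ * a⁻¹) * c * (g * a * g⁻¹ * a⁻¹)⁻¹) * g := by group
        _ = g⁻¹ * c * g := by rw [hp, mul_inv_cancel_right]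
    have h2 : g⁻¹ * (a⁻¹ * c * a) * g = u₁ * (v * c) := by
      have hgu : g⁻¹ * u₁ * g = u₁ := by
        rw [mul_assoc, ← hRW g hg u₁ hu₁W, inv_mul_cancel_left]
      calc g⁻¹ * (a⁻¹ * c * a) * g = (g⁻¹ * u₁ * g) * (g⁻¹ * c * g) := by rw [hu₁]; group
        _ = u₁ * (v * c) := by rw [hgu, hv]; group
    have h3 : a * u₁ * a⁻¹ * (a * v * a⁻¹) * (a * c * a⁻¹) = v * c := by
      rw [h2] at h1
      calc a * u₁ * a⁻¹ * (a * v * a⁻¹) * (a * c * a⁻¹) = a * (u₁ * (v * c)) * a⁻¹ := by group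
        _ = g⁻¹ * c * g := h1
        _ = v * c := by rw [hv]; group
    have h4 : a * u₁ * a⁻¹ * (a * v * a⁻¹) = (a * v * a⁻¹) * (a * u₁ * a⁻¹) :=
      hWcomm _ (hHW a haH _ hu₁W) _ (hHW a haH _ hvW)
    have h5 : (a * u₁ * a⁻¹) * (a * c * a⁻¹) = c := by rw [hu₁]; group
    rw [h4, mul_assoc (a * v * a⁻¹), h5] at h3
    exact mul_right_cancel h3
  have hRc : ∀ g ∈ R, g * c = c * g := by
    intro g hg
    set v := g⁻¹ * c * g * c⁻¹ with hvdef
    have hgk : k * g * k⁻¹ ∈ R := hRn k hkH g hg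
    have h1 : k * v * k⁻¹ ∈ F := by
      have := hv _ hgk
      rwa [show (k * g * k⁻¹)⁻¹ * c * (k * g * k⁻¹) * c⁻¹ =
        (k * g⁻¹ * k⁻¹) * c * (k * g * k⁻¹) * c⁻¹ by group,
        show (k * g⁻¹ * k⁻¹) * c * (k * g * k⁻¹) * c⁻¹ =
          (k * g⁻¹ * k⁻¹) * (k * c * k⁻¹) * (k * g * k⁻¹) * (k * c * k⁻¹)⁻¹ by rw [hkc],
        show (k * g⁻¹ * k⁻¹) * (k * c * k⁻¹) * (k * g * k⁻¹) * (k * c * k⁻¹)⁻¹ = k * v * k⁻¹ by
          rw [hvdef]; group] at this
    by_cases hv1 : v = 1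
    · rw [hvdef, mul_inv_eq_one, mul_assoc, inv_mul_eq_iff_eq_mul] at hv1
      exact hv1.symm
    · have := hF2 _ h1 v (hv g hg) (fun h => hv1 (by simpa using h)) hv1
      exact absurd (hfpf v (hv g hg).1 this) hv1
  have hKc : ∀ x ∈ K, x * c = c * x := by
    intro x hx
    have hk' : Commute k c := mul_inv_eq_iff_eq_mul.1 hkc
    rcases hcases x hx with h | h | h
    · exact hRc x (hQR h)
    · rw [show x = x * k⁻¹ * k by group]
      exact ((show Commute (x * k⁻¹) c from hRc _ (hQR h)).mul_left hk').eq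
    · rw [show x = x * (k * k)⁻¹ * (k * k) by group]
      exact ((show Commute (x * (k * k)⁻¹) c from hRc _ (hQR h)).mul_left (hk'.mul_left hk')).eq
  have hJc : ∀ j ∈ J, j * c = c * j := by
    intro j hj
    have hjH : j ∈ H := Subgroup.mem_sup_right hj
    set d := j⁻¹ * c * j * c⁻¹ with hd
    have hdW : d ∈ W := by
      have := (hHD (H.inv_mem hjH)).2 c hcX
      rwa [inv_inv] at this
    have h1 : k * (d * c) * k⁻¹ = d * c := by
      have hk' : j * k * j⁻¹ ∈ K := hHK j hjH k hk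
      have e := hKc _ hk'
      calc k * (d * c) * k⁻¹ = j⁻¹ * ((j * k * j⁻¹) * c * (j * k * j⁻¹)⁻¹) * j := by rw [hd]; group
        _ = d * c := by rw [e, mul_inv_cancel_right, hd]; group
    have h2 : k * d * k⁻¹ = d := by
      rw [show k * (d * c) * k⁻¹ = (k * d * k⁻¹) * (k * c * k⁻¹) by group, hkc] at h1
      exact mul_right_cancel h1
    have := hfpf d hdW h2
    rw [hd, mul_inv_eq_one, mul_assoc, inv_mul_eq_iff_eq_mul] at this
    exact this.symm
  have hHc : H ≤ Subgroup.centralizer ({c} : Set G) := sup_le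
    (fun x hx => Subgroup.mem_centralizer_singleton_iff.2 (hKc x hx))
    (fun x hx => Subgroup.mem_centralizer_singleton_iff.2 (hJc x hx))
  have hcJ : c ∈ J := hmaxJ _ (hprime A₀ hA₀ a ha haW) (hXA c hcX A₀ hA₀ a ha haW)
  have hcZ : c ∈ Z₀ := by rw [hZ₀]; exact mem_omegaCenterOf.2 ⟨hcJ, hJc, hcX.2.1⟩
  have hwZ : w ∈ Z₀ := by
    have : w = z⁻¹ * c := by rw [hc, inv_mul_cancel_left]
    rw [this]; exact Z₀.mul_mem (Z₀.inv_mem hz) hcZ
  rw [show z = c * w⁻¹ by rw [hc, mul_inv_cancel_right]]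
  exact Subgroup.mul_mem _ (Subgroup.mem_sup_left ⟨hcZ, Subgroup.mem_sup_right hcJ,
    Subgroup.mem_centralizer_iff.2 fun h hh => Subgroup.mem_centralizer_singleton_iff.1
      (hHc (hh.elim (fun h1 => Subgroup.mem_sup_left h1) fun h1 => Subgroup.mem_sup_right h1))⟩)
    (Subgroup.mem_sup_right ⟨Z₀.inv_mem hwZ, W.inv_mem hw⟩)

end Cfsg.Agent.S2946
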