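import Cfsg.Statements.S2947
import Cfsg.Agent.LocalLemmas.SylowGraph
import Cfsg.Agent.PGroup.Basic

set_option autoImplicit false
open Cfsg
open scoped commutatorElement

namespace Cfsg.Agent.S2947

/-- Let G be a finite group of characteristic 2 type in which every 2-local subgroup is solvable and the centralizer of Ω₁(Z(S)) lies in N_G(S) for every Sylow 2-subgroup S; suppose O₂(G) = 1, fix a Sylow 2-subgroup S and a 2-local subgroup M containing N_G(J(S)) (J the Thompson subgroup generated by the elementary abelian 2-subgroups of largest order). Then M is strongly embedded in G (a proper subgroup of even order whose intersection with each conjugate by an element outside M has odd order) if and only if no nontrivial 2-subgroup of M lies in a 2-local subgroup of G not contained in M. -/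
theorem result {G : Type*} [Group G] [Finite G] (hL : Cfsg.IsCharacteristicTwoType G) (hN : ∀ N : Subgroup G, Cfsg.IsTwoLocal N → Group.IsSolvable ↥N)
    (hZ : ∀ S : Sylow 2 G, Subgroup.centralizer (Cfsg.omegaCenterOf (S : Subgroup G) : Set G) ≤ Subgroup.normalizer ((S : Subgroup G) : Set G)) (hO : Cfsg.pCore 2 G = ⊥) (S : Sylow 2 G) (M : Subgroup G) (hM : Cfsg.IsTwoLocal M)
    (hMJ : Subgroup.normalizer (Cfsg.thompsonSubgroupOf 2 (S : Subgroup G) : Set G) ≤ M) :
    Cfsg.IsStronglyEmbedded M ↔ Cfsg.straddlingTwoSubgroups M = ∅ := by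
  obtain ⟨T₀, hT₀, hT₀1, hMT₀⟩ := hM
  constructor
  · rintro ⟨hMtop, -, hodd⟩
    have hse : ∀ g : G, g ∉ M → ¬ 2 ∣ Nat.card ↥(M ⊓ M.map (MulAut.conj g).toMonoidHom) := fun g hg h =>
      Nat.not_even_iff_odd.mpr (hodd g hg) (even_iff_two_dvd.mpr h)
    refine Set.eq_empty_iff_forall_notMem.mpr ?_
    rintro T ⟨hT, hT1, hTM, L, ⟨R, hR, hR1, rfl⟩, hTL, hLM⟩
    apply hLM
    have hRT : IsPGroup 2 ↥(R ⊔ T) := by
      rw [sup_comm]; exact hT.to_sup_of_normal_right' hR hTL
    set P := R ⊔ T with hP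
    haveI : (R.subgroupOf P).Normal :=
      Subgroup.normal_subgroupOf_of_le_normalizer (sup_le Subgroup.le_normalizer hTL)
    have hlt : (⊥ : Subgroup P) < R.subgroupOf P := bot_lt_iff_ne_bot.mpr fun e => hR1 <| by
      have : R.subgroupOf P = ⊥ := e
      rwa [Subgroup.subgroupOf_eq_bot, disjoint_iff, inf_eq_left.mpr le_sup_left] at this
    obtain ⟨x, hxR, hx1, hxc⟩ := CfsgLib.PGroup.exists_mem_central_mod hRT hlt
    have hxT : (x : G) ∈ Subgroup.centralizer (T : Set G) := Subgroup.mem_centralizer_iff.mpr fun t ht =>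
      (congrArg Subtype.val (commutatorElement_eq_one_iff_mul_comm.mp
        (Subgroup.mem_bot.mp (hxc ⟨t, Subgroup.mem_sup_right ht⟩)))).symm
    have hxM : (x : G) ∈ M := CfsgLib.SylowGraph.normalizer_le hse hT hT1 hTM
      (Subgroup.centralizer_le_normalizer _ hxT)
    have hne : R ⊓ M ≠ ⊥ := fun e => hx1 <| by
      have h1 : (x : G) ∈ R ⊓ M := ⟨Subgroup.mem_subgroupOf.mp hxR, hxM⟩
      rw [e, Subgroup.mem_bot] at h1
      rw [Subgroup.mem_bot]; exact Subtype.ext h1
    exact CfsgLib.SylowGraph.normalizer_le hse hR hR1 (CfsgLib.SylowGraph.le_of_inf_ne_bot hse hR hne)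
  · intro hemp
    have hnorm : ∀ U : Subgroup G, IsPGroup 2 U → U ≠ ⊥ → U ≤ M → Subgroup.normalizer (U : Set G) ≤ M := by
      intro U hU hU1 hUM
      by_contra hne
      have : U ∈ Cfsg.straddlingTwoSubgroups M :=
        ⟨hU, hU1, hUM, Subgroup.normalizer (U : Set G), ⟨U, hU, hU1, rfl⟩, Subgroup.le_normalizer, hne⟩
      rw [hemp] at this
      exact this
    refine ⟨fun htop => hT₀1 ?_, ?_, fun g hg => Nat.not_even_iff_odd.mp fun hev => hg ?_⟩
    · haveI : T₀.Normal := Subgroup.normalizer_eq_top_iff.mp (hMT₀ ▸ htop)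
      exact le_bot_iff.mp ((CfsgLib.LocalLemmas.le_pCore hT₀).trans hO.le)
    · obtain ⟨k, hk0, hk⟩ := hT₀.nontrivial_iff_card.mp ((Subgroup.nontrivial_iff_ne_bot _).mpr hT₀1)
      exact even_iff_two_dvd.mpr ((hk ▸ dvd_pow_self 2 (by omega)).trans
        (Subgroup.card_dvd_of_le (hMT₀ ▸ Subgroup.le_normalizer)))
    · set D := M ⊓ M.map (MulAut.conj g).toMonoidHom with hD
      obtain ⟨U0⟩ := Sylow.nonempty (p := 2) (G := D)
      set U := (U0 : Subgroup D).map D.subtype with hU
      have hUp : IsPGroup 2 U := U0.isPGroup'.map _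
      have hUD : U ≤ D := Subgroup.map_subtype_le _
      have hU1 : U ≠ ⊥ := fun e => by
        have h2 := U0.dvd_card_of_dvd_card (even_iff_two_dvd.mp hev)
        rw [(Subgroup.map_eq_bot_iff_of_injective _ D.subtype_injective).mp e, Subgroup.card_bot] at h2
        omega
      set U' := U.map (MulAut.conj g⁻¹).toMonoidHom with hU'
      have hU'M : U' ≤ M := by
        rintro _ ⟨a, ha, rfl⟩
        simpa using CfsgLib.LocalLemmas.mem_conjMap.mp (hUD ha).2
      have hU'1 : U' ≠ ⊥ := fun e => hU1 ((Subgroup.map_eq_bot_iff_of_injective _ (MulAut.conj g⁻¹).injective).mp e)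
      have hND : Subgroup.normalizer (U : Set G) ≤ D := by
        refine le_inf (hnorm U hUp hU1 (hUD.trans inf_le_left)) fun y hy => ?_
        rw [CfsgLib.LocalLemmas.mem_conjMap]
        refine hnorm U' (CfsgLib.LocalLemmas.isPGroup_conjMap hUp) hU'1 hU'M ?_
        have h4 := Subgroup.le_normalizer_map (H := U) (MulAut.conj g⁻¹).toMonoidHom ⟨y, hy, rfl⟩
        rwa [show (MulAut.conj g⁻¹).toMonoidHom y = g⁻¹ * y * g by simp] at h4
      obtain ⟨Q, hQ⟩ := hUp.exists_le_sylow
      have hUQ : U = (Q : Subgroup G) := by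
        by_contra hne
        obtain ⟨y, hyQ, hyU, hyN⟩ := CfsgLib.LocalLemmas.exists_mem_normalizer_not_mem Q.isPGroup' (lt_of_le_of_ne hQ hne)
        have h1 : (U0 : Subgroup D) ≤ (Q : Subgroup G).subgroupOf D := fun a ha =>
          Subgroup.mem_subgroupOf.mpr (hQ (Subgroup.mem_map_of_mem _ ha))
        have h2 := U0.3 (Q.isPGroup'.comap_subtype (K := D)) h1
        exact hyU ⟨⟨y, hND hyN⟩, h2.le (Subgroup.mem_subgroupOf.mpr hyQ), rfl⟩
      have hQM : (Q : Subgroup G) ≤ M := hUQ ▸ hUD.trans inf_le_left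
      obtain ⟨m, hm, hle⟩ := CfsgLib.LocalLemmas.exists_conj_le_of_le Q hQM hU'M (CfsgLib.LocalLemmas.isPGroup_conjMap hUp)
      have hgm : m⁻¹ * g⁻¹ ∈ Subgroup.normalizer (U : Set G) := by
        refine CfsgLib.LocalLemmas.mem_normalizer_of_conjMap_le ?_
        rw [← CfsgLib.LocalLemmas.conjMap_conjMap, ← hU']
        refine (CfsgLib.LocalLemmas.conjMap_mono hle).trans ?_
        rw [CfsgLib.LocalLemmas.conjMap_conjMap, inv_mul_cancel, CfsgLib.LocalLemmas.conjMap_one, hUQ]
      have h3 : g⁻¹ ∈ M := by simpa using M.mul_mem hm (hnorm U hUp hU1 (hUD.trans inf_le_left) hgm)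
      simpa using M.inv_mem h3

end Cfsg.Agent.S2947
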