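import Cfsg.Statements.S2949
import Cfsg.Agent.JComp.Straddle

set_option autoImplicit false
open Cfsg

namespace Cfsg.Agent.S2949

open CfsgLib.JComp

/-- Let G be a finite group of characteristic 2 type in which every 2-local subgroup is solvable and the centralizer of Ω₁(Z(S)) lies in N_G(S) for every Sylow 2-subgroup S; suppose O₂(G) = 1, fix a Sylow 2-subgroup S and a 2-local subgroup M containing N_G(J(S)) (J the Thompson subgroup generated by the elementary abelian 2-subgroups of largest order). For every T maximal (for the order of a largest elementary abelian subgroup, then the order of J(T), then the order of T) among the nontrivial 2-subgroups of M lying in a 2-local subgroup not inside M, there is a J(T)-component K not contained in M with J(T) the Thompson subgroup of every Sylow 2-subgroup of N_G(W_K) containing J(T), and O₂(⟨K, T⟩) ≠ 1. -/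
theorem result {G : Type*} [Group G] [Finite G] (hL : Cfsg.IsCharacteristicTwoType G) (hN : ∀ N : Subgroup G, Cfsg.IsTwoLocal N → Group.IsSolvable ↥N)
    (hZ : ∀ S : Sylow 2 G, Subgroup.centralizer (Cfsg.omegaCenterOf (S : Subgroup G) : Set G) ≤ Subgroup.normalizer ((S : Subgroup G) : Set G)) (hO : Cfsg.pCore 2 G = ⊥) (S : Sylow 2 G) (M : Subgroup G) (hM : Cfsg.IsTwoLocal M)
    (hMJ : Subgroup.normalizer (Cfsg.thompsonSubgroupOf 2 (S : Subgroup G) : Set G) ≤ M) (T : Subgroup G) (hT : T ∈ Cfsg.maxStraddlingTwoSubgroups M) :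
    (Cfsg.jComponentsOutside M T).Nonempty := by
  haveI : Fact (Nat.Prime 2) := ⟨Nat.prime_two⟩
  obtain ⟨L, hL2, hTL, hLM⟩ := hT.1.2.2.2
  obtain ⟨T₁, hTT₁, hT₁⟩ := exists_sylowTwoIn hT.1.1 hTL
  obtain ⟨-, -, g3, g4, K, hK, hKL, hKM⟩ := straddle_main hL hN hZ S hMJ hT hL2 hLM hT₁
    ((thompson_le_self T).trans hTT₁)
  have e := g4 hTL hTT₁
  refine ⟨K, ⟨hK, fun X hJX hX => ?_⟩, hKM, fun h => ?_⟩
  · -- X is a Sylow 2-subgroup of a 2-local subgroup outside M
    have hWp : IsPGroup 2 ↥(Cfsg.wOf K) := fun w => ⟨1, Subtype.ext (by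
      rw [SubmonoidClass.coe_pow, pow_one, pow_two]; exact hK.2.2.2.2.2 w w.2)⟩
    have hW1 : Cfsg.wOf K ≠ ⊥ := fun h => by
      have := hK.2.2.2.2.1
      rw [h, Subgroup.card_bot] at this
      omega
    have hKN : K ≤ Subgroup.normalizer (Cfsg.wOf K : Set G) := fun g hg =>
      Subgroup.mem_normalizer_fintype fun x hx =>
        conj_mem_wOf (fun y hy => K.mul_mem (K.mul_mem hg hy) (K.inv_mem hg)) hx
    exact ((straddle_main hL hN hZ S hMJ hT ⟨_, hWp, hW1, rfl⟩ (fun hle => hKM (hKN.trans hle)) hX hJX).1).symm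
  · have cx := isTwoLocal_ctx hL hN hZ hL2
    have hOT : Cfsg.pCoreOf 2 L ≤ T := e.symm ▸ core_le_sylow hT₁
    have hle : K ⊔ T ≤ L := sup_le hKL hTL
    have hn : ((Cfsg.pCoreOf 2 L).subgroupOf (K ⊔ T)).Normal :=
      ⟨fun x hx g => conj_mem_core (hle g.2) hx⟩
    have h1 := CfsgLib.Components.le_pCore hn (p := 2) (isPGroup_pCoreOf L).comap_subtype
    have hO : Cfsg.pCoreOf 2 L ≠ ⊥ := fun hb => by
      obtain ⟨t, ht, ht1⟩ := T.bot_or_exists_ne_one.resolve_left hT.1.2.1
      have h2 := cx.cent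
      rw [hb] at h2
      exact ht1 (Subgroup.mem_bot.1 (h2 (Subgroup.mem_centralizer_iff.2 fun y hy => by
        rw [Subgroup.mem_bot.1 hy, one_mul, mul_one])))
    refine hO (eq_bot_iff.2 fun x hx => ?_)
    rw [← h]
    exact ⟨⟨x, Subgroup.mem_sup_right (hOT hx)⟩, h1 hx, rfl⟩

end Cfsg.Agent.S2949
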