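import Cfsg.Statements.S2952
import Cfsg.Agent.JComp.Outside
import Cfsg.Agent.S2947
import Cfsg.Agent.S2949
import Cfsg.Agent.Invol.StronglyEmbedded

set_option autoImplicit false
open Cfsg

namespace Cfsg.Agent.S2952

open CfsgLib.JComp

theorem exists_max {G : Type*} [Group G] [Finite G] {M : Subgroup G}
    (h : (Cfsg.straddlingTwoSubgroups M).Nonempty) : (Cfsg.maxStraddlingTwoSubgroups M).Nonempty := by
  obtain ⟨T₁, hT₁, m₁⟩ := Set.exists_max_image _ (fun T => Cfsg.maxElemAbelianOrder T) (Set.toFinite _) h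
  obtain ⟨T₂, ⟨hT₂, e₂⟩, m₂⟩ := Set.exists_max_image
    {T | T ∈ Cfsg.straddlingTwoSubgroups M ∧ Cfsg.maxElemAbelianOrder T = Cfsg.maxElemAbelianOrder T₁}
    (fun T => Nat.card ↥(Cfsg.thompsonSubgroupOf 2 T)) (Set.toFinite _) ⟨T₁, hT₁, rfl⟩
  obtain ⟨T₃, ⟨hT₃, e₃, e₃'⟩, m₃⟩ := Set.exists_max_image
    {T | T ∈ Cfsg.straddlingTwoSubgroups M ∧ Cfsg.maxElemAbelianOrder T = Cfsg.maxElemAbelianOrder T₁ ∧
      Nat.card ↥(Cfsg.thompsonSubgroupOf 2 T) = Nat.card ↥(Cfsg.thompsonSubgroupOf 2 T₂)}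
    (fun T => Nat.card ↥T) (Set.toFinite _) ⟨T₂, hT₂, e₂, rfl⟩
  exact ⟨T₃, hT₃, fun T hT => ⟨(m₁ T hT).trans e₃.ge, fun ha => ⟨(m₂ T ⟨hT, ha.trans e₃⟩).trans e₃'.ge,
    fun hj => m₃ T ⟨hT, ha.trans e₃, hj.trans e₃'⟩⟩⟩⟩

theorem exists_local {G : Type*} [Group G] [Finite G] {S : Sylow 2 G} {M T K : Subgroup G}
    (c : StraddleCtx S M T) (hK : K ∈ Cfsg.jComponentsOutside M T) :
    ∃ L : Subgroup G, Cfsg.IsMaximalTwoLocal L ∧ K ≤ L ∧ Cfsg.IsSylowTwoIn T L := by
  obtain ⟨⟨hKc, -⟩, hKM, hO2⟩ := hK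
  set P := K ⊔ T with hP
  have hPN : P ≤ Subgroup.normalizer (Cfsg.pCoreOf 2 P : Set G) := fun x hx =>
    Subgroup.mem_normalizer_fintype fun y hy =>
      conj_mem_pCoreOf (fun h hh => P.mul_mem (P.mul_mem hx hh) (P.inv_mem hx)) hy
  obtain ⟨L, hLmax, hle⟩ := exists_maximalTwoLocal (G := G) ⟨_, isPGroup_pCoreOf P, hO2, rfl⟩
  have hKL : K ≤ L := le_sup_left.trans (hPN.trans hle)
  exact ⟨L, hLmax, hKL, c.sylow_of_le hKc hKM hLmax.1 hKL (le_sup_right.trans (hPN.trans hle))⟩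

/-- A moved component when `T` is a Sylow 2-subgroup of `G` is impossible. -/
theorem no_moved {G : Type*} [Group G] [Finite G] {S : Sylow 2 G} {M T K : Subgroup G}
    (c : StraddleCtx S M T) (hO : Cfsg.pCore 2 G = ⊥) (hK : Cfsg.IsJComponent T K) (hKM : ¬ K ≤ M)
    {L : Subgroup G} (hL : Cfsg.IsMaximalTwoLocal L) (hTL : Cfsg.IsSylowTwoIn T L) (hKL : K ≤ L)
    (P : Sylow 2 G) (hPT : (P : Subgroup G) = T)
    (hNJ : Subgroup.normalizer (Cfsg.thompsonSubgroupOf 2 T : Set G) ≤ L)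
    {t : G} (ht : t ∈ T) (hmove : K.map (MulAut.conj t).toMonoidHom ≠ K) : False := by
  classical
  haveI : Fact (Nat.Prime 2) := ⟨Nat.prime_two⟩
  have htJ := normalizer_le_thompson T (Subgroup.le_normalizer ht)
  set K' := K.map (MulAut.conj t).toMonoidHom with hK'def
  have hK' : Cfsg.IsJComponent T K' := c.conj_component hK htJ
  have hKM' : ¬ K' ≤ M := c.conj_not_le (c.T_le_M ht) hKM
  have hKL' : K' ≤ L := by
    rintro _ ⟨y, hy, rfl⟩
    exact L.mul_mem (L.mul_mem (hTL.1 ht) (hKL hy)) (L.inv_mem (hTL.1 ht))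
  have hJL : Cfsg.thompsonSubgroupOf 2 T ≤ L := (thompson_le_self T).trans hTL.1
  have hX := sup_le hKL hJL
  have hX' := sup_le hKL' hJL
  have hT1 := c.T_ne_bot
  have cx := c.ctx hL.1
  have hMJ' : Subgroup.normalizer (Cfsg.thompsonSubgroupOf 2 (P : Subgroup G) : Set G) ≤ L := hPT ▸ hNJ
  have hWW : Cfsg.wOf K ⊓ Cfsg.wOf K' = ⊥ :=
    Classical.byContradiction fun h => hmove (component_unique cx hTL hT1 hK hKL hTL hT1 hK' hKL' h)
  obtain ⟨w, ⟨hwZ, hwW⟩, hw1⟩ := c.exists_w hK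
  obtain ⟨w', ⟨hwZ', hwW'⟩, hw1'⟩ := c.exists_w hK'
  have hww : w ≠ w' := fun e => hw1 (Subgroup.mem_bot.1 (hWW.le ⟨hwW, e ▸ hwW'⟩))
  have hw' : w' ∈ hOf T K := ⟨hwZ', Subgroup.mem_centralizer_iff.2 fun y hy =>
    (component_cent cx hTL hT1 hK hKL hTL hT1 hK' hKL' hmove w' hwW' y hy).symm⟩
  have hw : w ∈ hOf T K' := ⟨hwZ, Subgroup.mem_centralizer_iff.2 fun y hy =>
    (component_cent cx hTL hT1 hK' hKL' hTL hT1 hK hKL (Ne.symm hmove) w hwW y hy).symm⟩
  have hwsq : w * w = 1 := hK.2.2.2.2.2 w hwW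
  have hwsq' : w' * w' = 1 := hK'.2.2.2.2.2 w' hwW'
  have hwc : w * w' = w' * w :=
    ((mem_omegaCenterOf.1 hwZ).2.1 w' (mem_omegaCenterOf.1 hwZ').1).symm
  set z := w * w' with hz
  have hzsq : z * z = 1 := by
    rw [hz, show w * w' * (w * w') = w * (w' * w) * w' by group, ← hwc,
      show w * (w * w') * w' = (w * w) * (w' * w') by group, hwsq, hwsq', one_mul]
  have hzw : ∀ {Y : Subgroup G}, z ∈ Y → w ∈ Y → w' ∈ Y := fun {Y} h1 h2 => by
    have := Y.mul_mem h2 h1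
    rwa [hz, ← mul_assoc, hwsq, one_mul] at this
  have hzw' : ∀ {Y : Subgroup G}, z ∈ Y → w' ∈ Y → w ∈ Y := fun {Y} h1 h2 => by
    have := Y.mul_mem h1 h2
    rwa [hz, mul_assoc, hwsq', mul_one] at this
  have hz1 : z ≠ 1 := fun e => hww (by
    calc w = w * (w' * w') := by rw [hwsq', mul_one]
      _ = z * w' := by rw [hz, mul_assoc]
      _ = w' := by rw [e, one_mul])
  -- a component in `L` never has `z` in its four-group
  have hzout : ∀ T' K'' : Subgroup G, Cfsg.IsSylowTwoIn T' L → T' ≠ ⊥ → Cfsg.IsJComponent T' K'' → K'' ≤ L →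
      z ∉ Cfsg.wOf K'' := by
    intro T' K'' hT' hT'1 hK'' hKL'' hzW
    by_cases e : K'' = K
    · subst e
      exact hw1' (Subgroup.mem_bot.1 (hWW.le ⟨hzw hzW hwW, hwW'⟩))
    by_cases e' : K'' = K'
    · subst e'
      exact hw1 (Subgroup.mem_bot.1 (hWW.le ⟨hwW, hzw' hzW hwW'⟩))
    obtain ⟨k, hk, hko, hkQ⟩ := exists_odd_notMem hK''
    refine hz1 (fpf_wOf hK'' hk hko hkQ hzW ?_)
    have h1 : Commute k z :=
      (show Commute k w from
        (component_cent cx hT' hT'1 hK'' hKL'' hTL hT1 hK hKL (Ne.symm e) w hwW k hk).symm).mul_right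
      (show Commute k w' from
        (component_cent cx hT' hT'1 hK'' hKL'' hTL hT1 hK' hKL' (Ne.symm e') w' hwW' k hk).symm)
    rw [h1.eq, mul_inv_cancel_right]
  rcases (Cfsg.straddlingTwoSubgroups L).eq_empty_or_nonempty with hemp | hne
  · -- `L` strongly embedded: one class of involutions
    have hSE := (Cfsg.Agent.S2947.result c.char2 c.sol2 c.zn hO P L hL.1 hMJ').2 hemp
    have hwo : orderOf w = 2 := orderOf_eq_prime (by rw [pow_two, hwsq]) hw1
    have hzo : orderOf z = 2 := orderOf_eq_prime (by rw [pow_two, hzsq]) hz1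
    have hwL : w ∈ L := hKL ((wOf_le_pCoreOf K).trans (pCoreOf_le K) hwW)
    have hwL' : w' ∈ L := hKL' ((wOf_le_pCoreOf K').trans (pCoreOf_le K') hwW')
    obtain ⟨g, hg⟩ : ∃ g, g ∉ L := by
      by_contra h
      push Not at h
      exact hSE.1 (eq_top_iff.2 fun y _ => h y)
    have hi : g * w * g⁻¹ ∉ L := fun h => hg (CfsgLib.Invol.mem_of_conj_mem hSE hwo hwL h)
    obtain ⟨d₀, hd₀⟩ := isConj_iff.1
      (CfsgLib.Invol.isConj_inside_outside hSE hzo (L.mul_mem hwL hwL') (by rw [CfsgLib.Invol.orderOf_conj]; exact hwo) hi)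
    set d := d₀⁻¹ * g with hd
    have hdw : d * w * d⁻¹ = z := by
      calc d * w * d⁻¹ = d₀⁻¹ * (g * w * g⁻¹) * d₀ := by rw [hd]; group
        _ = z := by rw [← hd₀]; group
    have hdL : d ∈ L := CfsgLib.Invol.mem_of_conj_mem hSE hwo hwL (by rw [hdw]; exact L.mul_mem hwL hwL')
    have hTd := isSylowTwoIn_map (MulAut.conj d) hTL
    rw [show L.map (MulAut.conj d).toMonoidHom = L from
      Subgroup.mem_normalizer_iff_map_conj_eq.1 (Subgroup.le_normalizer hdL)] at hTd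
    refine hzout _ _ hTd (fun e => hT1 ((Subgroup.map_eq_bot_iff_of_injective _
      (MulAut.conj d).injective).1 e)) (CfsgLib.JComp.IsJComponent.map (MulAut.conj d) hK) ?_ ?_
    · rintro _ ⟨y, hy, rfl⟩
      exact L.mul_mem (L.mul_mem hdL (hKL hy)) (L.inv_mem hdL)
    · rw [wOf_map]
      exact ⟨w, hwW, hdw⟩
  obtain ⟨T₁, hT₁⟩ := exists_max hne
  have c₁ : StraddleCtx P L T₁ := ⟨c.char2, c.sol2, c.zn, hMJ', hT₁⟩
  obtain ⟨K₁, hK₁o⟩ := Cfsg.Agent.S2949.result c.char2 c.sol2 c.zn hO P L hL.1 hMJ' T₁ hT₁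
  obtain ⟨L₁, hL₁, hKL₁, hTL₁⟩ := exists_local c₁ hK₁o
  obtain ⟨⟨hK₁, -⟩, hK₁L, -⟩ := hK₁o
  obtain ⟨P₁, hTP₁, hP₁L, -⟩ := c₁.exists_sylow
  by_cases hcase : (P₁ : Subgroup G) ≤ T₁
  · -- then everything is conjugate to a configuration over `T`
    obtain ⟨l, hl, hmem⟩ := sylow_conj hTL c₁.two c₁.T_le_M
    have hmap : T₁.map (MulAut.conj l).toMonoidHom = T := by
      refine Subgroup.eq_of_le_of_card_ge (by rintro _ ⟨y, hy, rfl⟩; exact hmem y hy) ?_
      rw [Subgroup.card_map_of_injective (f := (MulAut.conj l).toMonoidHom) (MulAut.conj l).injective, ← hPT,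
        P.card_eq_multiplicity, ← P₁.card_eq_multiplicity]
      exact Subgroup.card_le_of_le hcase
    set K₂ := K₁.map (MulAut.conj l).toMonoidHom with hK₂def
    have hK₂ : Cfsg.IsJComponent T K₂ := hmap ▸ CfsgLib.JComp.IsJComponent.map (MulAut.conj l) hK₁
    have hK₂L : ¬ K₂ ≤ L := fun h => hK₁L fun y hy => by
      have := L.mul_mem (L.mul_mem (L.inv_mem hl) (h ⟨y, hy, rfl⟩)) hl
      simpa [mul_assoc] using this
    have hdis : ∀ A, A = K ∨ A = K' → ∀ e ∈ hOf T K₂, e ∈ hOf T A → e = 1 := by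
      intro A hA e he1 he2
      by_contra hne1
      refine hK₂L fun y hy => ?_
      have hy' : y ∈ Subgroup.centralizer ({e} : Set G) :=
        Subgroup.mem_centralizer_singleton_iff.2 (Subgroup.mem_centralizer_iff.1 he1.2 y hy)
      rcases hA with rfl | rfl
      · exact c.cent_le hK hKM hL hX he2 hne1 hy'
      · exact c.cent_le hK' hKM' hL hX' he2 hne1 hy'
    have hprod : ∀ A, A = K ∨ A = K' →
        Nat.card ↥(hOf T K₂) * Nat.card ↥(hOf T A) ≤ Nat.card ↥(z0Of T) := by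
      intro A hA
      rw [← Nat.card_prod]
      refine Nat.card_le_card_of_injective
        (fun p => ⟨(p.1 : G) * (p.2 : G), (z0Of T).mul_mem p.1.2.1 p.2.2.1⟩) ?_
      rintro ⟨⟨a, ha⟩, ⟨b, hb⟩⟩ ⟨⟨a', ha'⟩, ⟨b', hb'⟩⟩ e
      have e' : a * b = a' * b' := congrArg Subtype.val e
      have e2 : a'⁻¹ * a = b' * b⁻¹ := by
        calc a'⁻¹ * a = a'⁻¹ * (a * b) * b⁻¹ := by group
          _ = b' * b⁻¹ := by rw [e']; group
      have h1 := hdis A hA _ ((hOf T K₂).mul_mem ((hOf T K₂).inv_mem ha') ha)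
        (e2 ▸ (hOf T A).mul_mem hb' ((hOf T A).inv_mem hb))
      rw [h1] at e2
      exact Prod.ext (Subtype.ext (inv_mul_eq_one.1 h1).symm) (Subtype.ext (mul_inv_eq_one.1 e2.symm).symm)
    have hH2 : 2 ≤ Nat.card ↥(hOf T K) := by
      have : Nontrivial ↥(hOf T K) := ⟨⟨⟨w', hw'⟩, 1, fun e => hw1' (congrArg Subtype.val e)⟩⟩
      exact Finite.one_lt_card
    have hK₂2 : Nat.card ↥(hOf T K₂) ≤ 2 :=
      Nat.le_of_mul_le_mul_right ((hprod K (Or.inl rfl)).trans (c.card_z0_le hK)) Nat.card_pos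
    have hzZ : z ∈ z0Of T := (z0Of T).mul_mem hwZ hwZ'
    have hZ4 : Nat.card ↥(z0Of T) = 4 := by
      refine le_antisymm ((c.card_z0_le hK₂).trans (by omega)) ?_
      have hsub : ({1, w, w', z} : Set G) ⊆ (z0Of T : Set G) := by
        intro y hy
        simp only [Set.mem_insert_iff, Set.mem_singleton_iff] at hy
        rcases hy with rfl | rfl | rfl | rfl
        exacts [(z0Of T).one_mem, hwZ, hwZ', hzZ]
      have h1 := Set.ncard_le_ncard hsub (Set.toFinite _)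
      rw [Set.ncard_insert_of_notMem (by
          simp only [Set.mem_insert_iff, Set.mem_singleton_iff, not_or]
          exact ⟨Ne.symm hw1, Ne.symm hw1', Ne.symm hz1⟩),
        Set.ncard_insert_of_notMem (by
          simp only [Set.mem_insert_iff, Set.mem_singleton_iff, not_or]
          exact ⟨hww, fun e => hw1' (mul_left_cancel (a := w) (by rw [mul_one]; exact e.symm))⟩),
        Set.ncard_pair (fun e => hw1 (mul_right_cancel (b := w') (by rw [one_mul]; exact e.symm)))] at h1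
      exact h1
    have hZsq : ∀ y ∈ z0Of T, y * y = 1 := fun y hy => (mem_omegaCenterOf.1 hy).2.2
    have hz₂ : z ∈ hOf T K₂ := by
      have hne2 : hOf T K₂ ≠ ⊥ := fun h => by
        have := c.card_z0_le hK₂
        rw [hZ4, h, Subgroup.card_bot] at this
        omega
      obtain ⟨e, he, he1⟩ := (Subgroup.bot_or_exists_ne_one _).resolve_left hne2
      rcases four_cases hZ4 hZsq hwZ hwZ' hw1 hw1' hww he.1 with h | h | h | h
      · exact absurd h he1
      · subst h; exact absurd (hdis K' (Or.inr rfl) e he hw) he1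
      · subst h; exact absurd (hdis K (Or.inl rfl) e he hw') he1
      · rw [hz, ← h]; exact he
    obtain ⟨w₂, ⟨hwZ₂, hwW₂⟩, hw₂1⟩ := c.exists_w hK₂
    have hzW₂ : z ∉ Cfsg.wOf K₂ := fun h => by
      obtain ⟨k, hk, hko, hkQ⟩ := exists_odd_notMem hK₂
      exact hz1 (fpf_wOf hK₂ hk hko hkQ h (by
        rw [Subgroup.mem_centralizer_iff.1 hz₂.2 k hk, mul_inv_cancel_right]))
    have hw₂c : w₂ = w ∨ w₂ = w' := by
      rcases four_cases hZ4 hZsq hwZ hwZ' hw1 hw1' hww hwZ₂ with h | h | h | h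
      · exact absurd h hw₂1
      · exact Or.inl h
      · exact Or.inr h
      · exact absurd (by rw [hz, ← h]; exact hwW₂) hzW₂
    -- `T` permutes `w` and `w'`
    have hperm : ∀ s ∈ T, ∀ A, Cfsg.IsJComponent T A → A ≤ L → ∀ v, v ∈ z0Of T → v ∈ Cfsg.wOf A → v ≠ 1 →
        s * v * s⁻¹ = w ∨ s * v * s⁻¹ = w' := by
      intro s hs A hA hAL v hvZ hvW hv1
      have hsJ := normalizer_le_thompson T (Subgroup.le_normalizer hs)
      have hm : s * v * s⁻¹ ∈ Cfsg.wOf (A.map (MulAut.conj s).toMonoidHom) := by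
        rw [wOf_map]; exact ⟨v, hvW, rfl⟩
      rcases four_cases hZ4 hZsq hwZ hwZ' hw1 hw1' hww (conj_mem_omegaCenterOf hsJ hvZ) with h | h | h | h
      · exact absurd (by simpa using h) hv1
      · exact Or.inl h
      · exact Or.inr h
      · refine absurd (show z ∈ _ by rw [hz, ← h]; exact hm) (hzout T _ hTL hT1 (c.conj_component hA hsJ) ?_)
        rintro _ ⟨y, hy, rfl⟩
        exact L.mul_mem (L.mul_mem (hTL.1 hs) (hAL hy)) (L.inv_mem (hTL.1 hs))
    have hTz : T ≤ Subgroup.centralizer ({z} : Set G) := by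
      intro s hs
      have h1 := hperm s hs K hK hKL w hwZ hwW hw1
      have h2 := hperm s hs K' hK' hKL' w' hwZ' hwW' hw1'
      have h3 : s * w * s⁻¹ ≠ s * w' * s⁻¹ := fun e => hww (mul_left_cancel (mul_right_cancel e))
      have h4 : s * z * s⁻¹ = z := by
        rw [hz, show s * (w * w') * s⁻¹ = (s * w * s⁻¹) * (s * w' * s⁻¹) by group]
        rcases h1 with a | a <;> rcases h2 with b | b <;> rw [a, b] at h3 ⊢
        · exact absurd rfl h3
        · exact hwc.symm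
        · exact absurd rfl h3
      exact Subgroup.mem_centralizer_singleton_iff.2 (mul_inv_eq_iff_eq_mul.1 h4)
    have htw : t * w * t⁻¹ = w' := by
      rcases hperm t ht K hK hKL w hwZ hwW hw1 with h | h
      · refine absurd (component_unique cx hTL hT1 hK hKL hTL hT1 hK' hKL' fun hb => hw1 ?_) hmove
        refine Subgroup.mem_bot.1 (hb.le ⟨hwW, ?_⟩)
        rw [hK'def, wOf_map]
        exact ⟨w, hwW, h⟩
      · exact h
    have htw' : t * w' * t⁻¹ = w := by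
      rcases hperm t ht K' hK' hKL' w' hwZ' hwW' hw1' with h | h
      · exact h
      · exact absurd (mul_left_cancel (mul_right_cancel (htw.trans h.symm))) hww
    -- two components in `C(z)`
    set C := Subgroup.centralizer ({z} : Set G) with hC
    have hC2 : Cfsg.IsTwoLocal C := isTwoLocal_centralizer hzsq hz1
    have hTC : Cfsg.IsSylowTwoIn T C := by
      refine ⟨hTz, c.two, ?_⟩
      rw [Nat.odd_iff]
      have : ¬ 2 ∣ T.relIndex C := fun h =>
        P.not_dvd_index (by rw [hPT]; exact h.trans (Subgroup.relIndex_dvd_index_of_le hTz))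
      omega
    have hK₂C : K₂ ≤ C := fun y hy =>
      Subgroup.mem_centralizer_singleton_iff.2 (Subgroup.mem_centralizer_iff.1 hz₂.2 y hy)
    have hK₃C : K₂.map (MulAut.conj t).toMonoidHom ≤ C := by
      rintro _ ⟨y, hy, rfl⟩
      exact C.mul_mem (C.mul_mem (hTz ht) (hK₂C hy)) (C.inv_mem (hTz ht))
    have hw₃ : t * w₂ * t⁻¹ ∈ Cfsg.wOf (K₂.map (MulAut.conj t).toMonoidHom) := by
      rw [wOf_map]; exact ⟨w₂, hwW₂, rfl⟩
    have hne3 : K₂.map (MulAut.conj t).toMonoidHom ≠ K₂ := by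
      intro e
      rw [e] at hw₃
      refine hzW₂ ?_
      rcases hw₂c with rfl | rfl
      · rw [htw] at hw₃; exact (Cfsg.wOf K₂).mul_mem hwW₂ hw₃
      · rw [htw'] at hw₃; exact (Cfsg.wOf K₂).mul_mem hw₃ hwW₂
    have hc3 := component_cent (c.ctx hC2) hTC hT1 hK₂ hK₂C hTC hT1 (c.conj_component hK₂ htJ) hK₃C hne3
      _ hw₃
    obtain ⟨k, hk, hko, hkQ⟩ := exists_odd_notMem hK₂
    have hkz : Commute k z := Subgroup.mem_centralizer_iff.1 hz₂.2 k hk
    have hk3 : Commute k (t * w₂ * t⁻¹) := (hc3 k hk).symm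
    refine hw₂1 (fpf_wOf hK₂ hk hko hkQ hwW₂ ?_)
    have hk2 : Commute k w₂ := by
      rcases hw₂c with rfl | rfl
      · rw [htw] at hk3
        have := hkz.mul_right hk3
        rwa [hz, mul_assoc, hwsq', mul_one] at this
      · rw [htw'] at hk3
        have := hk3.mul_right hkz
        rwa [hz, ← mul_assoc, hwsq, one_mul] at this
    rw [hk2.eq, mul_inv_cancel_right]
  -- `T₁` is not a Sylow 2-subgroup: the amalgam lemma bounds it
  have hJL₁ : Cfsg.thompsonSubgroupOf 2 T₁ ≤ L₁ := (thompson_le_self T₁).trans hTL₁.1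
  set U := vOf L with hU
  have hUsq : ∀ y ∈ U, y * y = 1 := fun y hy => (mem_omegaCenterOf.1 hy).2.2
  have hUc : ∀ y ∈ U, ∀ y' ∈ U, y * y' = y' * y := fun y hy y' hy' =>
    ((mem_omegaCenterOf.1 hy).2.1 y' (vOf_le_core hy')).symm
  have hU16 : 16 ≤ Nat.card ↥U := by
    have hle : Cfsg.wOf K ⊔ Cfsg.wOf K' ≤ U :=
      sup_le (wOf_le_vOf cx hTL hT1 hK hKL) (wOf_le_vOf cx hTL hT1 hK' hKL')
    refine le_trans ?_ (Subgroup.card_le_of_le hle)
    have hn : Cfsg.wOf K ≤ Subgroup.normalizer (Cfsg.wOf K' : Set G) := fun a ha =>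
      Subgroup.mem_normalizer_fintype fun b hb => by
        show a * b * a⁻¹ ∈ Cfsg.wOf K'
        rw [hUc a (wOf_le_vOf cx hTL hT1 hK hKL ha) b (wOf_le_vOf cx hTL hT1 hK' hKL' hb), mul_inv_cancel_right]
        exact hb
    have e := CfsgLib.ZJ.card_sup_mul_card_inf_of_le_normalizer hn
    rw [hWW, Subgroup.card_bot, mul_one, hK.2.2.2.2.1, hK'.2.2.2.2.1] at e
    omega
  by_cases hUT : U ≤ T₁
  · obtain ⟨x, hx, hxT, hx2, hxn⟩ := exists_normalizing P₁.isPGroup' hTP₁ hcase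
    obtain ⟨pc, hbd⟩ := c₁.pairCtx hK₁ hK₁L hL₁ hTL₁ hKL₁ hxn hx2
      (c₁.not_mem_sylow hTL₁ P₁.isPGroup' hTP₁ hx hxT)
    obtain ⟨u, hu, hu1, huT⟩ := pc.exists_fixed
    obtain ⟨-, -, -, hcT, C, -, -, -, -, hcQ, hcC⟩ := pc.small hu hu1 huT hbd
    have hUeq : U = T₁ := Subgroup.eq_of_le_of_card_ge hUT (by omega)
    obtain ⟨a, ha, b, hb, hne'⟩ := pc.noncomm
    exact hne' (hUc _ (hUeq ▸ (mem_qOf.1 (pc.W_le_Q ha)).1) _
      (hUeq ▸ hxn _ (mem_qOf.1 (pc.W_le_Q hb)).1))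
  have hnU : T₁ ≤ Subgroup.normalizer (U : Set G) := fun y hy =>
    Subgroup.mem_normalizer_fintype fun v hv => conj_mem_vOf (c₁.T_le_M hy) hv
  have hR : IsPGroup 2 ↥(U ⊔ T₁) :=
    (isPGroup_of_sq hUsq).to_sup_of_normal_left' c₁.two hnU
  obtain ⟨x₀, hx₀, hxT, hx2, hxn⟩ := exists_normalizing hR le_sup_right fun h => hUT (le_sup_left.trans h)
  have hx₀' : x₀ ∈ ((U ⊔ T₁ : Subgroup G) : Set G) := hx₀
  rw [Subgroup.coe_mul_of_right_le_normalizer_left _ _ hnU] at hx₀'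
  obtain ⟨x, hxU, s, hs, rfl⟩ := hx₀'
  simp only [] at hxT hx2 hxn
  have hxT' : x ∉ T₁ := fun h => hxT (T₁.mul_mem h hs)
  have hxn' : ∀ y ∈ T₁, x * y * x⁻¹ ∈ T₁ := fun y hy => by
    have := hxn _ (T₁.mul_mem (T₁.mul_mem (T₁.inv_mem hs) hy) hs)
    rwa [show x * s * (s⁻¹ * y * s) * (x * s)⁻¹ = x * y * x⁻¹ by group] at this
  obtain ⟨pc, hbd⟩ := c₁.pairCtx hK₁ hK₁L hL₁ hTL₁ hKL₁ hxn' (by rw [hUsq x hxU]; exact T₁.one_mem)
    (c₁.not_mem_sylow hTL₁ hR le_sup_right (Subgroup.mem_sup_left hxU) hxT')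
  obtain ⟨u, hu, hu1, huT⟩ := pc.exists_fixed
  obtain ⟨hxu, -⟩ := pc.small hu hu1 huT hbd
  obtain ⟨a, ha, b, hb, hne'⟩ := pc.noncomm
  have haT : a ∈ T₁ := (mem_qOf.1 (pc.W_le_Q ha)).1
  have hxi : x⁻¹ = x := inv_eq_of_mul_eq_one_left (hUsq x hxU)
  have hself : a * (x * a * x⁻¹) = x * a * x⁻¹ * a := by
    have hai : a⁻¹ = a := inv_eq_of_mul_eq_one_left (hK₁.2.2.2.2.2 a ha)
    have h1 := hUc _ (conj_mem_vOf (c₁.T_le_M haT) hxU) x hxU
    rw [hai] at h1
    rw [hxi]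
    calc a * (x * a * x) = a * x * a * x := by group
      _ = x * (a * x * a) := h1
      _ = x * a * x * a := by group
  have hca : ∀ y ∈ Cfsg.wOf K₁, y = 1 ∨ y = u → a * (x * y * x⁻¹) = x * y * x⁻¹ * a := by
    rintro y hy (rfl | rfl)
    · simp
    · rw [hxu]; exact huT a haT
  rcases eq_or_ne a u with rfl | hau
  · exact hne' (huT _ (hxn' b (mem_qOf.1 (pc.W_le_Q hb)).1)).symm
  rcases eq_or_ne a 1 with rfl | ha1
  · exact hne' (by simp)
  rcases four_cases hK₁.2.2.2.2.1 (fun y hy => hK₁.2.2.2.2.2 y hy) hu ha hu1 ha1 (Ne.symm hau) hb with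
    h | h | h | h
  · exact hne' (hca b hb (Or.inl h))
  · exact hne' (hca b hb (Or.inr h))
  · subst h; exact hne' hself
  · subst h
    refine hne' ?_
    rw [show x * (u * a) * x⁻¹ = (x * u * x⁻¹) * (x * a * x⁻¹) by group, hxu]
    exact ((show Commute a u from huT a haT).mul_right (show Commute a (x * a * x⁻¹) from hself)).eq

/-- Let G be a finite group of characteristic 2 type in which every 2-local subgroup is solvable and the centralizer of Ω₁(Z(S)) lies in N_G(S) for every Sylow 2-subgroup S; suppose O₂(G) = 1, fix a Sylow 2-subgroup S and a 2-local subgroup M containing N_G(J(S)) (J the Thompson subgroup generated by the elementary abelian 2-subgroups of largest order). Let T be maximal (for the order of a largest elementary abelian subgroup, then the order of J(T), then the order of T) among the nontrivial 2-subgroups of M lying in a 2-local subgroup not inside M, and K a J(T)-component not contained in M with J(T)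 the Thompson subgroup of every Sylow 2-subgroup of N_G(W_K) containing J(T), and O₂(⟨K, T⟩) ≠ 1. Then K is normal in ⟨K, T⟩. -/
theorem result {G : Type*} [Group G] [Finite G] (hL : Cfsg.IsCharacteristicTwoType G) (hN : ∀ N : Subgroup G, Cfsg.IsTwoLocal N → Group.IsSolvable ↥N)
    (hZ : ∀ S : Sylow 2 G, Subgroup.centralizer (Cfsg.omegaCenterOf (S : Subgroup G) : Set G) ≤ Subgroup.normalizer ((S : Subgroup G) : Set G)) (hO : Cfsg.pCore 2 G = ⊥) (S : Sylow 2 G) (M : Subgroup G) (hM : Cfsg.IsTwoLocal M)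
    (hMJ : Subgroup.normalizer (Cfsg.thompsonSubgroupOf 2 (S : Subgroup G) : Set G) ≤ M) (T : Subgroup G) (hT : T ∈ Cfsg.maxStraddlingTwoSubgroups M)
    (K : Subgroup G) (hK : K ∈ Cfsg.jComponentsOutside M T) : (K.subgroupOf (K ⊔ T)).Normal := by
  have c : StraddleCtx S M T := ⟨hL, hN, hZ, hMJ, hT⟩
  obtain ⟨L, hLmax, hKL, hTL⟩ := exists_local c hK
  obtain ⟨⟨hKc, -⟩, hKM, -⟩ := hK
  suffices hTN : T ≤ Subgroup.normalizer (K : Set G) by
    exact Subgroup.normal_subgroupOf_of_le_normalizer (sup_le Subgroup.le_normalizer hTN)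
  intro t ht
  refine Subgroup.mem_normalizer_iff_map_conj_eq.2 (Classical.byContradiction fun hmove => ?_)
  have hNJ : Subgroup.normalizer (Cfsg.thompsonSubgroupOf 2 T : Set G) ≤ L := fun x hx =>
    Classical.byContradiction fun hxL => hmove (Subgroup.mem_normalizer_iff_map_conj_eq.1
      (c.normalizes hKc hKM hLmax hTL hKL hx hxL ht))
  obtain ⟨P, hTP, -, -⟩ := c.exists_sylow
  have hPT : (P : Subgroup G) = T := by
    refine le_antisymm (Classical.byContradiction fun hne => ?_) hTP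
    obtain ⟨x, hx, hxT, hx2, hxn⟩ := exists_normalizing P.isPGroup' hTP hne
    exact c.not_mem_sylow hTL P.isPGroup' hTP hx hxT
      (hNJ (normalizer_le_thompson T (Subgroup.mem_normalizer_fintype fun s hs => hxn s hs)))
  exact no_moved c hO hKc hKM hLmax hTL hKL P hPT hNJ ht hmove

end Cfsg.Agent.S2952
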