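import Cfsg.Statements.S2941
import Cfsg.Agent.LocalLemmas.Basic

set_option autoImplicit false
open scoped commutatorElement
open Cfsg

namespace Cfsg.Agent.S2941

/-- Let G be a finite group of characteristic 2 type in which every 2-local subgroup is solvable and the centralizer of Ω₁(Z(S)) lies in N_G(S) for every Sylow 2-subgroup S, and let T be a nontrivial 2-subgroup and K a J(T)-component (J the Thompson subgroup generated by the elementary abelian 2-subgroups of largest order). If a subgroup Q is normalized by ⟨K, J(T)⟩ and normalizes J(T), then Q normalizes K. -/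
theorem result {G : Type*} [Group G] [Finite G] (hL : Cfsg.IsCharacteristicTwoType G) (hN : ∀ N : Subgroup G, Cfsg.IsTwoLocal N → Group.IsSolvable ↥N)
    (hZ : ∀ S : Sylow 2 G, Subgroup.centralizer (Cfsg.omegaCenterOf (S : Subgroup G) : Set G) ≤ Subgroup.normalizer ((S : Subgroup G) : Set G)) (T : Subgroup G) (hT : IsPGroup 2 ↥T) (hT1 : T ≠ ⊥) (K : Subgroup G) (hK : Cfsg.IsJComponent T K)
    (Q : Subgroup G) (hQ1 : K ⊔ Cfsg.thompsonSubgroupOf 2 T ≤ Subgroup.normalizer (Q : Set G)) (hQ2 : Q ≤ Subgroup.normalizer (Cfsg.thompsonSubgroupOf 2 T : Set G)) :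
    Q ≤ Subgroup.normalizer (K : Set G) := by
  set J := Cfsg.thompsonSubgroupOf 2 T with hJ
  have hKJ : ⁅K, J⁆ = K := hK.2.1
  intro q hq
  -- every conjugate of an element of J by an element of K is conjugated by q back into K ⊔ J
  have key : ∀ k ∈ K, ∀ j ∈ J, q * (k * j * k⁻¹) * q⁻¹ ∈ K ⊔ J := by
    intro k hk j hj
    have hkQ : k ∈ Subgroup.normalizer (Q : Set G) := hQ1 (Subgroup.mem_sup_left hk)
    have hq' : k⁻¹ * q * k ∈ Q := by
      have := (Subgroup.mem_set_normalizer_iff.mp ((Subgroup.normalizer (Q : Set G)).inv_mem hkQ) q).mp hq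
      simpa using this
    have hj' : (k⁻¹ * q * k) * j * (k⁻¹ * q * k)⁻¹ ∈ J :=
      (Subgroup.mem_set_normalizer_iff.mp (hQ2 hq') j).mp hj
    have e : q * (k * j * k⁻¹) * q⁻¹ = k * ((k⁻¹ * q * k) * j * (k⁻¹ * q * k)⁻¹) * k⁻¹ := by
      simp [mul_assoc]
    rw [e]
    exact (K ⊔ J).mul_mem ((K ⊔ J).mul_mem (Subgroup.mem_sup_left hk) (Subgroup.mem_sup_right hj'))
      ((K ⊔ J).inv_mem (Subgroup.mem_sup_left hk))
  have hKle : ∀ x ∈ K, q * x * q⁻¹ ∈ K ⊔ J := by
    intro x hx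
    have hle : K ≤ (K ⊔ J).comap (MulAut.conj q).toMonoidHom := by
      rw [← hKJ, Subgroup.commutator_le]
      intro k hk j hj
      have h1 := key k hk j hj
      have h2 : q * j⁻¹ * q⁻¹ ∈ K ⊔ J := by
        have := key 1 K.one_mem j⁻¹ (J.inv_mem hj)
        simpa using this
      have h3 := (K ⊔ J).mul_mem h1 h2
      rw [hKJ, Subgroup.mem_comap]
      simpa [commutatorElement_def, mul_assoc] using h3
    exact hle hx
  -- odd-order elements of K ⊔ J lie in K
  have hJN : J ≤ Subgroup.normalizer (K : Set G) := by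
    intro j hj
    apply CfsgLib.LocalLemmas.mem_normalizer_of_conjMap_le
    intro x hx
    rw [CfsgLib.LocalLemmas.mem_conjMap] at hx
    have hc : ⁅j⁻¹ * x * j, j⁆ ∈ K := by
      have hm : ⁅j⁻¹ * x * j, j⁆ ∈ ⁅K, J⁆ := Subgroup.commutator_mem_commutator hx hj
      rwa [hKJ] at hm
    have e : x = ⁅j⁻¹ * x * j, j⁆⁻¹ * (j⁻¹ * x * j) := by simp [commutatorElement_def, mul_assoc]
    rw [e]; exact K.mul_mem (K.inv_mem hc) hx
  have hodd : ∀ y ∈ K ⊔ J, Odd (orderOf y) → y ∈ K := by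
    intro y hy ho
    have hy' : y ∈ (K ⊔ J : Subgroup G) := hy
    rw [← SetLike.mem_coe, Subgroup.coe_mul_of_right_le_normalizer_left K J hJN] at hy'
    obtain ⟨k, hk, j, hj, rfl⟩ := hy'
    simp only [] at ho ⊢
    have hJp : IsPGroup 2 ↥J := (hT.to_subgroup _).map _
    obtain ⟨n, hn⟩ := IsPGroup.iff_orderOf.mp hJp ⟨j, hj⟩
    rw [Subgroup.orderOf_mk] at hn
    have hjn : j ∈ Subgroup.normalizer (K : Set G) := hJN hj
    -- (k * j) ^ m = k' * j ^ m
    have hpw : ∀ m : ℕ, ∃ k' ∈ K, (k * j) ^ m = k' * j ^ m := by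
      intro m
      induction m with
      | zero => exact ⟨1, K.one_mem, by simp⟩
      | succ m ih =>
        obtain ⟨k', hk', he⟩ := ih
        refine ⟨k' * (j ^ m * k * (j ^ m)⁻¹), K.mul_mem hk' ?_, ?_⟩
        · exact (Subgroup.mem_set_normalizer_iff.mp ((Subgroup.normalizer (K : Set G)).pow_mem hjn m) k).mp hk
        · rw [pow_succ, he, pow_succ]; simp [mul_assoc]
    obtain ⟨k', hk', he⟩ := hpw (2 ^ n)
    have h1 : j ^ 2 ^ n = 1 := by rw [← hn]; exact pow_orderOf_eq_one j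
    rw [h1, mul_one] at he
    have hcop : Nat.Coprime (2 ^ n) (orderOf (k * j)) := ho.coprime_two_left.pow_left n
    obtain ⟨m, hm⟩ := exists_pow_eq_self_of_coprime hcop
    rw [← hm, he]; exact K.pow_mem hk' m
  apply CfsgLib.LocalLemmas.mem_normalizer_of_conjMap_le
  rw [Subgroup.map_le_iff_le_comap]
  calc K = Subgroup.closure {g : G | g ∈ K ∧ Odd (orderOf g)} := hK.1.symm
    _ ≤ _ := by
      rw [Subgroup.closure_le]
      rintro g ⟨hg, hgo⟩
      show (MulAut.conj q) g ∈ K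
      apply hodd
      · exact hKle g hg
      · rwa [MulEquiv.orderOf_eq]

end Cfsg.Agent.S2941
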