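import Cfsg.Statements.S0079
import Cfsg.Agent.Transfer.HallFocal

set_option autoImplicit false
open Cfsg
open scoped commutatorElement

namespace Cfsg.Agent.S0079

/-- A nilpotent Hall subgroup has a normal complement exactly when elements of it that are conjugate in the whole group are already conjugate inside it. -/
theorem result {G : Type*} [Group G] [Finite G] (H : Subgroup G) (hH : Group.IsNilpotent H) (hHall : Nat.Coprime (Nat.card H) H.index) : (∃ N : Subgroup G, N.Normal ∧ N.IsComplement' H) ↔ ∀ x ∈ H, ∀ y ∈ H, (∃ g : G, g * x * g⁻¹ = y) → ∃ h ∈ H, h * x * h⁻¹ = y := by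
  constructor
  · rintro ⟨N, hN, hc⟩ x hx y hy ⟨g, hg⟩
    obtain ⟨⟨⟨a, ha⟩, ⟨h, hh⟩⟩, hah⟩ := hc.2 g
    simp only at hah
    refine ⟨h, hh, ?_⟩
    have hx' : h * x * h⁻¹ ∈ H := mul_mem (mul_mem hh hx) (inv_mem hh)
    have hmem : y * (h * x * h⁻¹)⁻¹ ∈ N := by
      have e : y * (h * x * h⁻¹)⁻¹ = a * ((h * x * h⁻¹) * a⁻¹ * (h * x * h⁻¹)⁻¹) := by
        rw [← hg, ← hah]; group
      rw [e]
      exact mul_mem ha (hN.conj_mem _ (inv_mem ha) _)
    have h1 : y * (h * x * h⁻¹)⁻¹ ∈ N ⊓ H := Subgroup.mem_inf.2 ⟨hmem, mul_mem hy (inv_mem hx')⟩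
    rw [disjoint_iff.1 hc.disjoint, Subgroup.mem_bot, mul_inv_eq_one] at h1
    exact h1.symm
  · intro h
    obtain ⟨n, hn⟩ := (Subgroup.isNilpotent_iff_lowerCentralSeries _).1 hH
    have key : ∀ i, (fun K : Subgroup G => Subgroup.focalSubgroup K)^[i] H ≤ H.lowerCentralSeries i := by
      intro i
      induction i with
      | zero => simp
      | succ i ih =>
        have hsub : ∀ j, (fun K : Subgroup G => Subgroup.focalSubgroup K)^[j] H ≤ H := by
          intro j
          induction j with
          | zero => exact le_rfl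
          | succ j ihj => rw [Function.iterate_succ_apply']; exact (Subgroup.focalSubgroup_le _).trans ihj
        rw [Function.iterate_succ_apply', Subgroup.lowerCentralSeries_succ]
        refine (CfsgLib.Transfer.focalSubgroup_le_commutator_of_control (X := H) fun x hx g hg => ?_).trans
          (Subgroup.commutator_mono ih le_rfl)
        exact h x (hsub i hx) _ (hsub i hg) ⟨g, rfl⟩
    exact CfsgLib.Transfer.exists_complement_of_focal_series H hHall n (le_bot_iff.1 ((key n).trans hn.le))

end Cfsg.Agent.S0079
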