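import Cfsg.Statements.S3951
import Cfsg.Agent.Schur.Cocycle
import Cfsg.Agent.Schur.TwoGen

set_option autoImplicit false
open Cfsg

namespace Cfsg.Agent.S3951

/-- For positive integers `m` and `n` with `n` dividing `m`, the Schur multiplier of the abelian group `ZMod m × ZMod n` (written multiplicatively) is cyclic of order `n`. In particular the elementary abelian group of order `p ^ 2` has multiplier of order `p`. -/
theorem result (m n : ℕ) [NeZero m] [NeZero n] (hnm : n ∣ m) : Cfsg.HasCyclicSchurMultiplier (Multiplicative (ZMod m × ZMod n)) n := by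
  let β : Additive (Multiplicative (ZMod m × ZMod n)) →+
      Additive (Multiplicative (ZMod m × ZMod n)) →+ ZMod n :=
    AddMonoidHom.mk' (fun x => AddMonoidHom.mk'
      (fun y => ZMod.castHom hnm (ZMod n) (x.toMul.toAdd).1 * (y.toMul.toAdd).2)
      (fun y z => by simp only [toMul_add, toAdd_mul, Prod.snd_add, mul_add])) (fun x z => by
        refine AddMonoidHom.ext fun y => ?_
        simp only [toMul_add, toAdd_mul, Prod.fst_add, map_add, add_mul, AddMonoidHom.add_apply, AddMonoidHom.mk'_apply])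
  refine ⟨⟨CfsgLib.Schur.BilExt β, inferInstance, inferInstance, CfsgLib.Schur.bilProj β,
    ⟨CfsgLib.Schur.bilProj_surjective β, CfsgLib.Schur.bilProj_ker_le_center β, ?_⟩, ?_⟩,
    fun Γ _ _ σ hσ => ?_⟩
  · intro x hx
    have h1 := (CfsgLib.Schur.bil_mem_inf (β := β) (Multiplicative.ofAdd ((1 : ZMod m), (0 : ZMod n)))
      (Multiplicative.ofAdd ((0 : ZMod m), (1 : ZMod n))) (Commute.all _ _)).2
    have h2 : x = CfsgLib.Schur.bilIncl β (Multiplicative.ofAdd (1 : ZMod n)) ^ x.fib.val := by
      rw [← map_pow, ← ofAdd_nsmul, nsmul_one, ZMod.natCast_zmod_val]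
      exact CfsgLib.Schur.BilExt.ext (hx : x.base = 1) rfl
    rw [h2]
    refine pow_mem ?_ _
    convert h1
    simp [β, ZMod.cast_one hnm]
    rfl
  · exact ⟨{ toFun := fun x => Multiplicative.ofAdd x.1.fib
             invFun := fun a => ⟨CfsgLib.Schur.bilIncl β a, rfl⟩
             left_inv := fun x => Subtype.ext (CfsgLib.Schur.BilExt.ext x.2.symm rfl)
             right_inv := fun a => rfl
             map_mul' := fun x y => by
              rw [← ofAdd_add]
              congr 1
              change x.1.fib + y.1.fib + β (Additive.ofMul x.1.base) _ = _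
              rw [show x.1.base = 1 from x.2]
              simp }⟩
  obtain ⟨A, hA⟩ := hσ.1 (Multiplicative.ofAdd ((1 : ZMod m), (0 : ZMod n)))
  obtain ⟨B, hB⟩ := hσ.1 (Multiplicative.ofAdd ((0 : ZMod m), (1 : ZMod n)))
  have hgen : Subgroup.closure ({σ B, σ A} : Set _) = ⊤ := by
    rw [eq_top_iff]
    intro g _
    have : g = σ B ^ g.toAdd.2.val * σ A ^ g.toAdd.1.val := by
      rw [hA, hB, ← ofAdd_nsmul, ← ofAdd_nsmul, ← ofAdd_add]
      refine (Multiplicative.toAdd.injective ?_)
      rw [toAdd_ofAdd]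
      ext <;> simp [nsmul_eq_mul]
    rw [this]
    exact mul_mem (pow_mem (Subgroup.subset_closure (by simp)) _) (pow_mem (Subgroup.subset_closure (by simp)) _)
  let c := A * B * A⁻¹ * B⁻¹
  have hcker : c ∈ σ.ker := by
    rw [MonoidHom.mem_ker]
    simp [c]
  have hcc : ∀ g, g * c = c * g := Subgroup.mem_center_iff.1 (hσ.2.1 hcker)
  have : (Subgroup.zpowers c).Normal := ⟨fun x hx g => by
    obtain ⟨i, rfl⟩ := Subgroup.mem_zpowers_iff.1 hx
    rw [(Commute.zpow_right (hcc g) i).eq, mul_inv_cancel_right]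
    exact Subgroup.zpow_mem_zpowers _ _⟩
  refine CfsgLib.Schur.exists_surj_zmod (c := c) ?_ σ.ker fun g hg => ?_
  · have hAB : A * B * A⁻¹ = c * B := by simp [c]
    have hBn : B ^ n ∈ σ.ker := by
      rw [MonoidHom.mem_ker, map_pow, hB, ← ofAdd_nsmul]
      simp
    have h1 : A * B ^ n * A⁻¹ = c ^ n * B ^ n := by
      rw [← conj_pow, hAB, (Commute.mul_pow (hcc B).symm)]
    rw [Subgroup.mem_center_iff.1 (hσ.2.1 hBn) A, mul_inv_cancel_right] at h1
    exact mul_eq_right.1 h1.symm
  · exact CfsgLib.Schur.commutator_le_of_gen hσ hgen _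
      (Subgroup.mem_zpowers c : A * B * A⁻¹ * B⁻¹ ∈ _) (hσ.2.2 hg)

end Cfsg.Agent.S3951
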