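import Cfsg.Statements.S0743
import Mathlib

set_option autoImplicit false
open Cfsg

namespace Cfsg.Agent.S0743

/-- Gleason's Lemma: let `p` be a prime and `1 ≤ k < n`; if every `k`-subset of the `n` points is exactly the fixed-point set of some `p`-subgroup of `G`, then `G` is `k`-transitive. -/
theorem result {α : Type*} [Fintype α] [DecidableEq α] (G : Subgroup (Equiv.Perm α)) {p k : ℕ} (hp : p.Prime) (hk : 1 ≤ k) (hkn : k < Fintype.card α) (h : ∀ s : Finset α, s.card = k → ∃ P : Subgroup G, IsPGroup p P ∧ MulAction.fixedPoints P α = (s : Set α)) : MulAction.IsMultiplyPretransitive G α k := by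
  classical
  haveI : Fact p.Prime := ⟨hp⟩
  -- transitivity of pointwise stabilisers
  have htrans : ∀ t : Finset α, t.card + 1 = k → ∀ a b : α, a ∉ t → b ∉ t →
      ∃ g : G, (∀ c ∈ t, g • c = c) ∧ g • a = b := by
    intro t ht a b hat hbt
    set H := fixingSubgroup G ((t : Finset α) : Set α) with hH
    have hHmem : ∀ g : G, g ∈ H ↔ ∀ c ∈ t, g • c = c := fun g => by
      rw [hH, mem_fixingSubgroup_iff]; rfl
    by_contra hcon
    have hnot : ∀ x y : α, x ∉ t → y ∈ MulAction.orbit H x → y ∉ t := by
      rintro x y hx ⟨g, rfl⟩ hy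
      have h1 : g⁻¹.1 • (g.1 • x) = g.1 • x := (hHmem _).1 g⁻¹.2 _ hy
      rw [show (g⁻¹).1 = (g.1)⁻¹ from rfl, inv_smul_smul] at h1
      exact hx (h1 ▸ hy)
    have key : ∀ c : α, c ∉ t → ∀ x : α, x ∉ t →
        Nat.card (MulAction.orbit H x) ≡ (if c ∈ MulAction.orbit H x then 1 else 0) [MOD p] := by
      intro c hct x hx
      obtain ⟨P, hP, hfix⟩ := h (insert c t) (by rw [Finset.card_insert_of_notMem hct]; exact ht)
      have hPH : P ≤ H := by
        intro g hg
        rw [hHmem]
        intro d hd
        have : d ∈ MulAction.fixedPoints P α := by rw [hfix]; simp [hd]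
        exact this ⟨g, hg⟩
      letI : MulAction P (MulAction.orbit H x) := MulAction.compHom _ (Subgroup.inclusion hPH)
      refine (hP.card_modEq_card_fixedPoints (MulAction.orbit H x)).trans ?_
      have heq : ∀ y : MulAction.orbit H x, y ∈ MulAction.fixedPoints P (MulAction.orbit H x) ↔ (y : α) = c := by
        intro y
        constructor
        · intro hy
          have h1 : (y : α) ∈ MulAction.fixedPoints P α := fun g => congrArg Subtype.val (hy g)
          rw [hfix, Finset.coe_insert, Set.mem_insert_iff] at h1
          exact h1.resolve_right fun h2 => hnot x y hx y.2 h2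
        · intro hy g
          apply Subtype.ext
          have h1 : c ∈ MulAction.fixedPoints P α := by rw [hfix]; simp
          show (g : G) • (y : α) = y
          rw [hy]; exact h1 g
      split_ifs with hc
      · haveI : Unique (MulAction.fixedPoints P (MulAction.orbit H x)) :=
          { default := ⟨⟨c, hc⟩, (heq _).2 rfl⟩
            uniq := fun y => Subtype.ext (Subtype.ext ((heq y.1).1 y.2)) }
        rw [Nat.card_unique]
      · haveI : IsEmpty (MulAction.fixedPoints P (MulAction.orbit H x)) :=
          ⟨fun y => hc ((heq y.1).1 y.2 ▸ y.1.2)⟩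
        rw [Nat.card_of_isEmpty]
    have h1 := key a hat a hat
    rw [if_pos (MulAction.mem_orbit_self a)] at h1
    have h2 := key b hbt a hat
    rw [if_neg (fun hb => hcon (by
      obtain ⟨g, hg⟩ := hb
      exact ⟨g.1, (hHmem g.1).1 g.2, hg⟩))] at h2
    have h3 : 1 ≡ 0 [MOD p] := h1.symm.trans h2
    exact hp.ne_one (Nat.dvd_one.1 (Nat.modEq_zero_iff_dvd.1 h3))
  rw [MulAction.isMultiplyPretransitive_iff]
  intro x y
  suffices H : ∀ i : ℕ, i ≤ k → ∃ g : G, ∀ j : Fin k, (j : ℕ) < i → g • x j = y j by
    obtain ⟨g, hg⟩ := H k le_rfl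
    exact ⟨g, Function.Embedding.ext fun j => hg j j.2⟩
  intro i
  induction i with
  | zero => exact fun _ => ⟨1, fun j hj => absurd hj (Nat.not_lt_zero _)⟩
  | succ i ih =>
    intro hi
    obtain ⟨g, hg⟩ := ih (by omega)
    set a := g • x ⟨i, by omega⟩
    set b := y ⟨i, by omega⟩
    set t0 : Finset α := (Finset.univ.filter fun j : Fin k => (j : ℕ) < i).image y with ht0
    have hat0 : a ∉ t0 := by
      rw [ht0, Finset.mem_image]
      rintro ⟨j, hj, hja⟩
      rw [Finset.mem_filter] at hj
      rw [← hg j hj.2] at hja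
      have hji := x.injective (MulAction.injective g hja)
      rw [hji] at hj
      exact lt_irrefl _ hj.2
    have hbt0 : b ∉ t0 := by
      rw [ht0, Finset.mem_image]
      rintro ⟨j, hj, hjb⟩
      rw [Finset.mem_filter] at hj
      rw [y.injective hjb] at hj
      exact lt_irrefl _ hj.2
    have ht0c : t0.card ≤ k - 1 := by
      refine Finset.card_image_le.trans ?_
      calc (Finset.univ.filter fun j : Fin k => (j : ℕ) < i).card ≤ ((Finset.range i)).card :=
            Finset.card_le_card_of_injOn (fun j => (j : ℕ)) (fun j hj => by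
              simp only [Finset.coe_filter, Set.mem_setOf_eq] at hj
              simpa using hj.2) (fun _ _ _ _ h => Fin.ext h)
        _ ≤ k - 1 := by rw [Finset.card_range]; omega
    have hsize : k - 1 ≤ (Finset.univ \ {a, b} : Finset α).card := by
      rw [Finset.card_sdiff_of_subset (Finset.subset_univ _), Finset.card_univ]
      have : ({a, b} : Finset α).card ≤ 2 := Finset.card_le_two
      omega
    obtain ⟨t, ht0t, htsub, htc⟩ := Finset.exists_subsuperset_card_eq (n := k - 1)
      (show t0 ⊆ Finset.univ \ {a, b} from fun c hc => by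
        simp only [Finset.mem_sdiff, Finset.mem_univ, true_and, Finset.mem_insert, Finset.mem_singleton]
        rintro (rfl | rfl)
        · exact hat0 hc
        · exact hbt0 hc) ht0c hsize
    obtain ⟨u, hu, hua⟩ := htrans t (by omega) a b
      (fun hh => by have := htsub hh; simp at this) (fun hh => by have := htsub hh; simp at this)
    refine ⟨u * g, fun j hj => ?_⟩
    rw [mul_smul]
    rcases Nat.lt_succ_iff_lt_or_eq.1 hj with h' | h'
    · rw [hg j h']
      exact hu _ (ht0t (Finset.mem_image.2 ⟨j, by simp [h'], rfl⟩))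
    · rw [show j = ⟨i, by omega⟩ from Fin.ext h']
      exact hua


end Cfsg.Agent.S0743
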