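import Cfsg.Statements.S0744
import Mathlib


set_option autoImplicit false
open Cfsg

namespace Cfsg.Agent.S0744

/-- If for some `k > 1` the pointwise stabilisers of all `(k-1)`-subsets have the same order `> 1` and those of all `k`-subsets have the same order, then the group is `(k-1)`-transitive. -/
theorem result {α : Type*} [Fintype α] [DecidableEq α] (G : Subgroup (Equiv.Perm α)) {k : ℕ} (hk : 1 < k) (hkn : k ≤ Fintype.card α) (l m : ℕ) (hl : 1 < l) (hkm1 : ∀ s : Finset α, s.card = k - 1 → Nat.card (fixingSubgroup G (s : Set α)) = l) (hkm : ∀ s : Finset α, s.card = k → Nat.card (fixingSubgroup G (s : Set α)) = m) : MulAction.IsMultiplyPretransitive G α (k - 1) := by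
  classical
  obtain ⟨j, rfl⟩ : ∃ j, k = j + 1 := ⟨k - 1, by omega⟩
  rw [Nat.add_sub_cancel] at hkm1 ⊢
  have hfs : ∀ (t : Finset α) (g : G), g ∈ fixingSubgroup G (t : Set α) ↔ ∀ x ∈ t, g • x = x :=
    fun t g => mem_fixingSubgroup_iff G
  have hins : ∀ (t : Finset α) (x : α) (g : G),
      g ∈ fixingSubgroup G ((insert x t : Finset α) : Set α) ↔ g ∈ fixingSubgroup G (t : Set α) ∧ g • x = x := by
    intro t x g
    rw [hfs, hfs]
    simp [Finset.forall_mem_insert, and_comm]
  have hstab : ∀ (t : Finset α) (x : α),
      Nat.card (MulAction.orbit (fixingSubgroup G (t : Set α)) x) *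
        Nat.card (fixingSubgroup G ((insert x t : Finset α) : Set α)) = Nat.card (fixingSubgroup G (t : Set α)) := by
    intro t x
    rw [← Nat.card_prod]
    refine Nat.card_congr ((Equiv.prodCongr (Equiv.refl _) ?_).trans
      (MulAction.orbitProdStabilizerEquivGroup (fixingSubgroup G (t : Set α)) x))
    exact { toFun := fun g => ⟨⟨g.1, ((hins t x g.1).1 g.2).1⟩, ((hins t x g.1).1 g.2).2⟩
            invFun := fun g => ⟨g.1.1, (hins t x g.1.1).2 ⟨g.1.2, g.2⟩⟩
            left_inv := fun _ => rfl
            right_inv := fun _ => rfl }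
  have hfix_inv : ∀ (t : Finset α) (g : fixingSubgroup G (t : Set α)) (y : α), y ∈ t → g • y = y :=
    fun t g y hy => (hfs t g.1).1 g.2 y hy
  -- orbits of point stabilisers
  have hl' : ∀ (s : Finset α) (x : α), s.card = j → x ∉ s →
      Nat.card (MulAction.orbit (fixingSubgroup G (s : Set α)) x) * m = l := by
    intro s x hs hx
    have h := hstab s x
    rw [hkm _ (by rw [Finset.card_insert_of_notMem hx, hs]), hkm1 s hs] at h
    exact h
  have hm0 : m ≠ 0 := by
    obtain ⟨s, -, hs⟩ := Finset.exists_subset_card_eq (s := (Finset.univ : Finset α)) (n := j + 1) (by simpa using hkn)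
    rw [← hkm s hs]
    exact Nat.card_pos.ne'
  obtain ⟨s0, -, hs0⟩ := Finset.exists_subset_card_eq (s := (Finset.univ : Finset α)) (n := j) (by simp; omega)
  obtain ⟨x0, hx0⟩ : ∃ x, x ∉ s0 := by
    by_contra hall
    push Not at hall
    have := Finset.card_le_card (fun x _ => hall x : (Finset.univ : Finset α) ⊆ s0)
    rw [Finset.card_univ, hs0] at this
    omega
  let r := Nat.card (MulAction.orbit (fixingSubgroup G (s0 : Set α)) x0)
  have hr : ∀ (s : Finset α) (x : α), s.card = j → x ∉ s →
      Nat.card (MulAction.orbit (fixingSubgroup G (s : Set α)) x) = r := fun s x hs hx =>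
    Nat.eq_of_mul_eq_mul_right (Nat.pos_of_ne_zero hm0) ((hl' s x hs hx).trans (hl' s0 x0 hs0 hx0).symm)
  have hr1 : 1 < r := by
    by_contra hle
    have hfix : ∀ x, x ∉ s0 → ∀ g : fixingSubgroup G (s0 : Set α), g • x = x := by
      intro x hx g
      have hsub : Subsingleton (MulAction.orbit (fixingSubgroup G (s0 : Set α)) x) :=
        Finite.card_le_one_iff_subsingleton.1 (by rw [hr s0 x hs0 hx]; omega)
      exact congrArg Subtype.val (hsub.elim ⟨g • x, MulAction.mem_orbit x g⟩ ⟨x, MulAction.mem_orbit_self x⟩)
    have hone : Subsingleton (fixingSubgroup G (s0 : Set α)) := ⟨fun g h => by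
      refine Subtype.ext (Subtype.ext (Equiv.ext fun x => ?_))
      show g • x = h • x
      by_cases hx : x ∈ s0
      · rw [hfix_inv _ g x hx, hfix_inv _ h x hx]
      · rw [hfix x hx g, hfix x hx h]⟩
    have := Finite.card_le_one_iff_subsingleton.2 hone
    rw [hkm1 s0 hs0] at this
    omega
  -- transitivity of the smaller fixing subgroups outside
  have htrans : ∀ (d : ℕ) (t : Finset α), t.card + (d + 1) = j → ∀ x y, x ∉ t → y ∉ t →
      y ∈ MulAction.orbit (fixingSubgroup G (t : Set α)) x := by
    intro d
    induction d with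
    | zero =>
      intro t ht x y hx hy
      by_contra hne
      let A := MulAction.orbit (fixingSubgroup G (t : Set α)) x
      let B := MulAction.orbit (fixingSubgroup G (t : Set α)) y
      have hjx : (insert x t).card = j := by rw [Finset.card_insert_of_notMem hx]; omega
      have hjy : (insert y t).card = j := by rw [Finset.card_insert_of_notMem hy]; omega
      have hAB : Nat.card A = Nat.card B := by
        have h1 := hstab t x
        have h2 := hstab t y
        rw [hkm1 _ hjx] at h1
        rw [hkm1 _ hjy] at h2
        exact Nat.eq_of_mul_eq_mul_right (by omega) (h1.trans h2.symm)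
      let S := fixingSubgroup G ((insert x t : Finset α) : Set α)
      -- `r` divides the size of invariant sets outside `insert x t`
      have hdvd : ∀ X : Set α, (∀ g : S, ∀ z ∈ X, g • z ∈ X) → (∀ z ∈ X, z ∉ insert x t) → r ∣ Nat.card X := by
        intro X hinv hout
        letI : MulAction S X :=
          { smul := fun g z => ⟨g • (z : α), hinv g z z.2⟩
            one_smul := fun z => Subtype.ext (one_smul S (z : α))
            mul_smul := fun g h z => Subtype.ext (mul_smul g h (z : α)) }
        haveI := Fintype.ofFinite (Quotient (MulAction.orbitRel S X))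
        rw [Nat.card_congr (MulAction.selfEquivSigmaOrbits S X), Nat.card_sigma]
        refine Finset.dvd_sum fun q _ => ?_
        rw [← hr (insert x t) (q.out : α) hjx (hout _ q.out.2)]
        rw [← Nat.card_image_of_injective (Subtype.val_injective (p := (· ∈ X))) (MulAction.orbit S q.out)]
        refine dvd_of_eq (congrArg (fun Z : Set α => Nat.card Z) (Set.ext fun w => ⟨?_, ?_⟩))
        · rintro ⟨g, rfl⟩
          exact ⟨g • q.out, MulAction.mem_orbit _ g, rfl⟩
        · rintro ⟨_, ⟨g, rfl⟩, rfl⟩
          exact ⟨g, rfl⟩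
      have hSle : ∀ g : S, (g : G) ∈ fixingSubgroup G (t : Set α) := fun g => ((hins t x g.1).1 g.2).1
      have hA : r ∣ Nat.card ↥(A \ {x}) := by
        refine hdvd _ (fun g z hz => ⟨?_, ?_⟩) fun z hz => ?_
        · obtain ⟨h, rfl⟩ := hz.1
          exact ⟨⟨g, hSle g⟩ * h, mul_smul _ _ _⟩
        · intro e
          refine hz.2 ?_
          have hgx : g • x = x := ((hins t x g.1).1 g.2).2
          exact smul_left_cancel g ((e : g • z = x).trans hgx.symm)
        · simp only [Finset.mem_insert, not_or]
          refine ⟨hz.2, fun hzt => hx ?_⟩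
          obtain ⟨h, rfl⟩ := hz.1
          have := hfix_inv t h⁻¹ (h • x) hzt
          rw [inv_smul_smul] at this
          exact this ▸ hzt
      have hB : r ∣ Nat.card B := by
        refine hdvd _ (fun g z hz => ?_) fun z hz => ?_
        · obtain ⟨h, rfl⟩ := hz
          exact ⟨⟨g, hSle g⟩ * h, mul_smul _ _ _⟩
        · simp only [Finset.mem_insert, not_or]
          obtain ⟨h, rfl⟩ := hz
          refine ⟨fun e => hne ⟨h⁻¹, ?_⟩, fun hzt => hy ?_⟩
          · show h⁻¹ • x = y
            rw [← e, inv_smul_smul]
          · have := hfix_inv t h⁻¹ (h • y) hzt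
            rw [inv_smul_smul] at this
            exact this ▸ hzt
      have hA1 : Nat.card ↥(A \ {x}) + 1 = Nat.card A := by
        rw [Nat.card_coe_set_eq, Nat.card_coe_set_eq]
        exact Set.ncard_diff_singleton_add_one (MulAction.mem_orbit_self x) (Set.toFinite A)
      rw [← hAB, ← hA1] at hB
      have := Nat.eq_one_of_dvd_one ((Nat.dvd_add_right hA).1 hB)
      omega
    | succ d ih =>
      intro t ht x y hx hy
      obtain ⟨z, hz⟩ : ∃ z, z ∉ insert x (insert y t) := by
        by_contra hall
        push Not at hall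
        have := Finset.card_le_card (fun w _ => hall w : (Finset.univ : Finset α) ⊆ insert x (insert y t))
        rw [Finset.card_univ] at this
        have h1 := Finset.card_insert_le x (insert y t)
        have h2 := Finset.card_insert_le y t
        omega
      simp only [Finset.mem_insert, not_or] at hz
      obtain ⟨g, hg⟩ := ih (insert z t) (by rw [Finset.card_insert_of_notMem hz.2.2]; omega) x y
        (by simp [hx, Ne.symm hz.1]) (by simp [hy, Ne.symm hz.2.1])
      exact ⟨⟨g.1, ((hins t z g.1).1 g.2).1⟩, hg⟩
  suffices h : ∀ i, i ≤ j → MulAction.IsMultiplyPretransitive G α i from h j le_rfl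
  intro i
  induction i with
  | zero => intro _; exact ⟨fun f g => ⟨1, by ext x; exact x.elim0⟩⟩
  | succ i ih =>
    intro hi
    refine ⟨fun f f' => ?_⟩
    haveI := ih (by omega)
    obtain ⟨g, hg⟩ := MulAction.exists_smul_eq G ((Fin.castSuccEmb).trans f) ((Fin.castSuccEmb).trans f')
    let t : Finset α := Finset.univ.image fun q : Fin i => f' q.castSucc
    have hg' : ∀ q : Fin i, g • f q.castSucc = f' q.castSucc := fun q => DFunLike.congr_fun hg q
    have hlast : ∀ q : Fin i, q.castSucc ≠ Fin.last i := fun q => (Fin.castSucc_lt_last q).ne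
    have ht : t.card = i := by
      refine (Finset.card_image_of_injective _ (f'.injective.comp (Fin.castSucc_injective i))).trans ?_
      rw [Finset.card_univ, Fintype.card_fin]
    have hxn : g • f (Fin.last i) ∉ t := by
      intro hm
      obtain ⟨q, -, hq⟩ := Finset.mem_image.1 hm
      rw [← hg'] at hq
      exact hlast q (f.injective (smul_left_cancel g hq))
    have hyn : f' (Fin.last i) ∉ t := by
      intro hm
      obtain ⟨q, -, hq⟩ := Finset.mem_image.1 hm
      exact hlast q (f'.injective hq)
    obtain ⟨h, hh⟩ := htrans (j - i - 1) t (by omega) _ _ hxn hyn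
    refine ⟨(h : G) * g, DFunLike.ext _ _ fun q => ?_⟩
    refine Fin.lastCases ?_ (fun q' => ?_) q
    · show ((h : G) * g) • f (Fin.last i) = f' (Fin.last i)
      rw [mul_smul]
      exact hh
    · show ((h : G) * g) • f q'.castSucc = f' q'.castSucc
      rw [mul_smul, hg']
      exact hfix_inv t h _ (Finset.mem_image_of_mem _ (Finset.mem_univ q'))

end Cfsg.Agent.S0744
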