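import Cfsg.Statements.S0736
import Mathlib.Combinatorics.Enumerative.DoubleCounting

set_option autoImplicit false
open Cfsg

namespace Cfsg.Agent.S0736
open scoped Pointwise

/-- A `k`-homogeneous permutation group of degree `n`, `k ≥ 2`, with `k + q - 1 ≤ n` for every prime power `q` dividing `k`, is `(k-1)`-homogeneous. -/
theorem result {α : Type*} [Fintype α] [DecidableEq α] (G : Subgroup (Equiv.Perm α)) {k : ℕ} (hk : 2 ≤ k) (hG : MulAction.IsPretransitive G (Set.powersetCard α k)) (hq : ∀ q : ℕ, IsPrimePow q → q ∣ k → k + q - 1 ≤ Fintype.card α) : MulAction.IsPretransitive G (Set.powersetCard α (k - 1)) := by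
  classical
  -- no prime divisor of `q ∣ k` divides `C(k + i, i)` for `i < q`
  have hchoose : ∀ (p m : ℕ), p.Prime → p ^ m ∣ k → ∀ i, i < p ^ m → ¬ p ∣ (k + i).choose i := by
    intro p m hp hm i
    induction i with
    | zero => intro _; simpa using hp.not_dvd_one
    | succ i ih =>
      intro hi
      obtain ⟨v, u, hu, hvu⟩ := Nat.exists_eq_pow_mul_and_not_dvd (Nat.succ_ne_zero i) p hp.ne_one
      have hvm : v < m := by
        have h1 : p ^ v ≤ i + 1 := Nat.le_of_dvd (Nat.succ_pos _) ⟨u, hvu⟩
        exact (Nat.pow_lt_pow_iff_right hp.one_lt).1 (lt_of_le_of_lt h1 hi)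
      obtain ⟨w, hw⟩ : p ^ (v + 1) ∣ k := (pow_dvd_pow p hvm).trans hm
      have key := Nat.add_one_mul_choose_eq (k + i) i
      have e1 : k + i + 1 = p ^ v * (p * w + u) := by
        rw [Nat.mul_add, ← hvu, hw, pow_succ, mul_assoc]; omega
      rw [e1] at key
      have e2 : p ^ v * ((p * w + u) * (k + i).choose i) =
          p ^ v * ((k + (i + 1)).choose (i + 1) * u) := by
        rw [← mul_assoc, key, show k + (i + 1) = p ^ v * (p * w + u) by omega]
        rw [show (i + 1) = p ^ v * u from hvu]
        ring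
      have e3 := Nat.eq_of_mul_eq_mul_left (pow_pos hp.pos v) e2
      intro hd
      have hd' : p ∣ (p * w + u) * (k + i).choose i := e3 ▸ Dvd.dvd.mul_right hd u
      rcases hp.dvd_mul.1 hd' with h | h
      · exact hu ((Nat.dvd_add_right (dvd_mul_right p w)).1 h)
      · exact ih (by omega) h
  -- an orbit on `(k - 1)`-sets
  refine ⟨fun x y => ?_⟩
  let O : Finset (Finset α) := Finset.univ.filter
    (fun S => ∃ g : G, S = ((g • x : Set.powersetCard α (k - 1)) : Finset α))
  have hOcard : ∀ S ∈ O, S.card = k - 1 := by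
    intro S hS
    obtain ⟨g, rfl⟩ := (Finset.mem_filter.1 hS).2
    exact Set.powersetCard.card_eq _
  have hOinv : ∀ (g : G) (S : Finset α), S ∈ O → g • S ∈ O := by
    intro g S hS
    obtain ⟨h, rfl⟩ := (Finset.mem_filter.1 hS).2
    refine Finset.mem_filter.2 ⟨Finset.mem_univ _, g * h, ?_⟩
    rw [mul_smul]; exact (Set.powersetCard.coe_smul (g := g) (s := h • x)).symm
  let f : Finset α → ℕ := fun U => (O.filter (· ⊆ U)).card
  have hfinv : ∀ (g : G) (U : Finset α), f (g • U) = f U := by
    intro g U
    refine (Finset.card_bij (fun S _ => g • S) ?_ ?_ ?_).symm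
    · intro S hS
      rw [Finset.mem_filter] at hS ⊢
      exact ⟨hOinv g S hS.1, Finset.smul_finset_subset_smul_finset hS.2⟩
    · intro S _ S' _ h
      exact MulAction.injective g h
    · intro S hS
      rw [Finset.mem_filter] at hS
      refine ⟨g⁻¹ • S, Finset.mem_filter.2 ⟨hOinv _ S hS.1, ?_⟩, smul_inv_smul g S⟩
      have := Finset.smul_finset_subset_smul_finset (a := g⁻¹) hS.2
      rwa [inv_smul_smul] at this
  have hkn : k ≤ Fintype.card α := by
    obtain ⟨p, hp, hpk⟩ := Nat.exists_prime_and_dvd (show k ≠ 1 by omega)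
    have := hq p hp.isPrimePow hpk
    have := hp.two_le
    omega
  obtain ⟨T0, hxT0, -, hT0⟩ := Finset.exists_subsuperset_card_eq (n := k)
    (Finset.subset_univ (x : Finset α)) (by rw [Set.powersetCard.card_eq]; omega) (by simpa using hkn)
  have hconst : ∀ T : Finset α, T.card = k → f T = f T0 := by
    intro T hT
    obtain ⟨g, hg⟩ := hG.exists_smul_eq (⟨T0, hT0⟩ : Set.powersetCard α k) ⟨T, hT⟩
    have hg' : g • T0 = T := by
      have := congrArg (fun s : Set.powersetCard α k => (s : Finset α)) hg
      exact (Set.powersetCard.coe_smul (g := g) (s := ⟨T0, hT0⟩)).symm.trans this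
    rw [← hg', hfinv]
  have hsub : ∀ T : Finset α, T.card = k → O.filter (· ⊆ T) ⊆ T.powersetCard (k - 1) := by
    intro T hT S hS
    rw [Finset.mem_filter] at hS
    exact Finset.mem_powersetCard.2 ⟨hS.2, hOcard S hS.1⟩
  have hchk : k.choose (k - 1) = k := by
    rw [Nat.choose_symm (by omega : 1 ≤ k), Nat.choose_one_right]
  have hak : f T0 ≤ k := by
    have := Finset.card_le_card (hsub T0 hT0)
    rw [Finset.card_powersetCard, hT0, hchk] at this
    exact this
  have hapos : 0 < f T0 := Finset.card_pos.2 ⟨x, Finset.mem_filter.2 ⟨Finset.mem_filter.2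
    ⟨Finset.mem_univ _, 1, by simp⟩, hxT0⟩⟩
  have hcount : ∀ U : Finset α, k ≤ U.card →
      f U * (U.card - (k - 1)) = U.card.choose k * f T0 := by
    intro U hU
    have h1 : ∑ T ∈ U.powersetCard k, (O.filter (· ⊆ T)).card = U.card.choose k * f T0 := by
      rw [Finset.sum_congr rfl (fun T hT => hconst T (Finset.mem_powersetCard.1 hT).2)]
      simp
    have h2 : ∀ S ∈ O, ((U.powersetCard k).filter (fun T => S ⊆ T)).card =
        if S ⊆ U then U.card - (k - 1) else 0 := by
      intro S hS
      split_ifs with hSU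
      · have himg : (U.powersetCard k).filter (fun T => S ⊆ T) =
            (U \ S).image (fun a => insert a S) := by
          ext T
          simp only [Finset.mem_filter, Finset.mem_powersetCard, Finset.mem_image, Finset.mem_sdiff]
          constructor
          · rintro ⟨⟨hTU, hT⟩, hST⟩
            obtain ⟨a, ha⟩ := Finset.card_eq_one.1
              (show (T \ S).card = 1 by rw [Finset.card_sdiff_of_subset hST, hT, hOcard S hS]; omega)
            have haT : a ∈ T \ S := by rw [ha]; simp
            rw [Finset.mem_sdiff] at haT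
            refine ⟨a, ⟨hTU haT.1, haT.2⟩, ?_⟩
            rw [Finset.insert_eq, ← ha, Finset.sdiff_union_of_subset hST]
          · rintro ⟨a, ⟨haU, haS⟩, rfl⟩
            refine ⟨⟨Finset.insert_subset haU hSU, ?_⟩, Finset.subset_insert _ _⟩
            rw [Finset.card_insert_of_notMem haS, hOcard S hS]; omega
        rw [himg, Finset.card_image_of_injOn, Finset.card_sdiff_of_subset hSU, hOcard S hS]
        intro a ha b _ hab
        have ha' : a ∉ S := (Finset.mem_sdiff.1 ha).2
        have : a ∈ insert b S := by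
          have h := Finset.mem_insert_self a S
          simp only at hab
          rwa [hab] at h
        simpa [ha'] using this
      · rw [Finset.card_eq_zero, Finset.filter_eq_empty_iff]
        intro T hT hST
        exact hSU (hST.trans (Finset.mem_powersetCard.1 hT).1)
    have h3 := Finset.sum_card_bipartiteAbove_eq_sum_card_bipartiteBelow (s := O)
      (t := U.powersetCard k) (fun S T => S ⊆ T)
    simp only [Finset.bipartiteAbove, Finset.bipartiteBelow] at h3
    rw [Finset.sum_congr rfl h2] at h3
    rw [← h1, ← h3, ← Finset.sum_filter, Finset.sum_const, smul_eq_mul]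
  have hdvd : k ∣ f T0 := by
    rw [Nat.dvd_iff_prime_pow_dvd_dvd]
    intro p m hp hm
    rcases Nat.eq_zero_or_pos m with rfl | hm0
    · simp
    have h1 : 1 ≤ p ^ m := Nat.one_le_pow _ _ hp.pos
    have h2 := hq (p ^ m) (hp.isPrimePow.pow (by omega)) hm
    obtain ⟨U, -, hU⟩ := Finset.exists_subset_card_eq (s := (Finset.univ : Finset α))
      (n := k + p ^ m - 1) (by simpa using h2)
    have h3 := hcount U (by omega)
    rw [hU, show k + p ^ m - 1 - (k - 1) = p ^ m by omega] at h3
    have h4 : p ^ m ∣ (k + p ^ m - 1).choose k * f T0 := ⟨f U, by rw [← h3, mul_comm]⟩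
    have h5 : ¬ p ∣ (k + p ^ m - 1).choose k := by
      have h6 := hchoose p m hp hm (p ^ m - 1) (by omega)
      rw [show k + p ^ m - 1 = k + (p ^ m - 1) by omega, Nat.choose_symm_add]
      exact h6
    exact ((hp.coprime_iff_not_dvd.2 h5).pow_left m).dvd_of_dvd_mul_left h4
  have haeq : f T0 = k := le_antisymm hak (Nat.le_of_dvd hapos hdvd)
  obtain ⟨T, hyT, -, hT⟩ := Finset.exists_subsuperset_card_eq (n := k)
    (Finset.subset_univ (y : Finset α)) (by rw [Set.powersetCard.card_eq]; omega) (by simpa using hkn)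
  have hall : O.filter (· ⊆ T) = T.powersetCard (k - 1) := by
    refine Finset.eq_of_subset_of_card_le (hsub T hT) ?_
    rw [Finset.card_powersetCard, hT, hchk]
    exact (((hconst T hT).trans haeq).symm).le
  have hy : (y : Finset α) ∈ O.filter (· ⊆ T) := by
    rw [hall]
    exact Finset.mem_powersetCard.2 ⟨hyT, Set.powersetCard.card_eq _⟩
  obtain ⟨g, hg⟩ := (Finset.mem_filter.1 (Finset.mem_filter.1 hy).1).2
  exact ⟨g, Subtype.ext hg.symm⟩


end Cfsg.Agent.S0736
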