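import Cfsg.Statements.S3761
import Cfsg.Agent.QDWr.Recognition
import Cfsg.Agent.PGroup.ChermakDelgado

set_option autoImplicit false
open Cfsg

namespace Cfsg.Agent.S3761

open scoped commutatorElement Pointwise
set_option maxHeartbeats 1000000

variable {G : Type*} [Group G]

lemma conj_zpow_act {g a : G} {r : ℤ} (h : g * a * g⁻¹ = a ^ r) (i : ℤ) : g * a ^ i * g⁻¹ = a ^ (r * i) := by
  rw [← conj_zpow, h, zpow_mul]

lemma conj_mul_act {g g' a : G} {r r' : ℤ} (h : g * a * g⁻¹ = a ^ r) (h' : g' * a * g'⁻¹ = a ^ r') :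
    g * g' * a * (g * g')⁻¹ = a ^ (r * r') := by
  rw [← conj_zpow_act h, ← h']; group

lemma conj_pow_act {g a : G} {r : ℤ} (h : g * a * g⁻¹ = a ^ r) (k : ℕ) : g ^ k * a * (g ^ k)⁻¹ = a ^ (r ^ k) := by
  induction k with
  | zero => simp
  | succ k ih => rw [pow_succ, pow_succ]; exact conj_mul_act ih h

lemma zpow_eq_iff_dvd {a : G} {N : ℕ} (ha : orderOf a = N) (i j : ℤ) : a ^ i = a ^ j ↔ (N : ℤ) ∣ j - i := by
  rw [zpow_eq_zpow_iff_modEq, ha, Int.modEq_iff_dvd]

/-- `(a ^ i * m) ^ l` when `m` moves `a` by a translation. -/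
lemma pow_twisted {a m : G} {c : ℤ} (i : ℤ) (hm : ∀ i : ℤ, m * a ^ i * m⁻¹ = a ^ (i * (1 + c))) {N : ℕ}
    (ha : orderOf a = N) (hc2 : (N : ℤ) ∣ c * c) (l : ℕ) :
    (a ^ i * m) ^ l = a ^ (i * l + c * i * (l.choose 2 : ℕ)) * m ^ l := by
  induction l with
  | zero => simp
  | succ l ih =>
    have hl : m ^ l * a ^ i = a ^ (i * (1 + c * l)) * m ^ l := by
      clear ih
      induction l with
      | zero => simp
      | succ l ihl =>
        have e : m * a ^ (i * (1 + c * l)) = a ^ (i * (1 + c * l) * (1 + c)) * m := by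
          rw [← hm, inv_mul_cancel_right]
        rw [pow_succ', mul_assoc, ihl, ← mul_assoc, e, mul_assoc]
        congr 1
        obtain ⟨d, hd⟩ := hc2
        exact (zpow_eq_iff_dvd ha _ _).2 ⟨-(i * l * d), by push_cast; linear_combination (-(i * l : ℤ)) * hd⟩
    rw [pow_succ, ih, mul_assoc, ← mul_assoc (m ^ l), hl]
    simp only [mul_assoc]
    rw [← pow_succ, ← mul_assoc (a ^ _), ← zpow_add]
    congr 2
    rw [Nat.choose_succ_succ l 1, Nat.choose_one_right]
    push_cast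
    ring

lemma dvd_sq_sub_one {n : ℕ} (hn : 1 ≤ n) {r : ℤ} (h : (2 : ℤ) ^ n ∣ r ^ 2 - 1) :
    (2 : ℤ) ^ (n - 1) ∣ r - 1 ∨ (2 : ℤ) ^ (n - 1) ∣ r + 1 := by
  obtain ⟨k, rfl⟩ := Nat.exists_eq_add_of_le' hn
  have hodd : Odd r := by
    by_contra hev
    rw [Int.not_odd_iff_even] at hev
    obtain ⟨t, rfl⟩ := hev
    obtain ⟨d, hd⟩ := (dvd_pow_self (2 : ℤ) (Nat.succ_ne_zero k)).trans h
    ring_nf at hd
    omega
  obtain ⟨t, rfl⟩ := hodd
  rw [Nat.add_sub_cancel]
  have h' : (2 : ℤ) ^ k ∣ 2 * (t * (t + 1)) := by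
    refine Int.dvd_of_mul_dvd_mul_left (a := 2) two_ne_zero ?_
    rw [← pow_succ']; convert h using 1; ring
  rcases k with - | k
  · exact Or.inl (one_dvd _)
  have h'' : (2 : ℤ) ^ k ∣ t * (t + 1) := by
    refine Int.dvd_of_mul_dvd_mul_left (a := 2) two_ne_zero ?_
    rw [← pow_succ']; exact h'
  have hp : Prime (2 : ℤ) := Int.prime_two
  rcases Int.even_or_odd t with he | ho
  · left
    have hn2 : ¬ (2 : ℤ) ∣ t + 1 := by obtain ⟨s, rfl⟩ := he; omega
    have := hp.pow_dvd_of_dvd_mul_right k hn2 h''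
    rw [pow_succ']
    exact (mul_dvd_mul_left 2 this).trans (by rw [show (2 * t + 1 - 1 : ℤ) = 2 * t by ring])
  · right
    have hn2 : ¬ (2 : ℤ) ∣ t := by obtain ⟨s, rfl⟩ := ho; omega
    have := hp.pow_dvd_of_dvd_mul_left k hn2 h''
    rw [pow_succ']
    exact (mul_dvd_mul_left 2 this).trans (by rw [show (2 * t + 1 + 1 : ℤ) = 2 * (t + 1) by ring])

lemma dvd_pow_sub_one_odd {p n : ℕ} (hp : p.Prime) (hp2 : p ≠ 2) (hn : 1 ≤ n) {r : ℤ}
    (h : (p : ℤ) ^ n ∣ r ^ p - 1) : (p : ℤ) ^ (n - 1) ∣ r - 1 := by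
  haveI := Fact.mk hp
  have h1 : (p : ℤ) ∣ r - 1 := by
    rw [← ZMod.intCast_zmod_eq_zero_iff_dvd]
    have h2 : (((r ^ p - 1 : ℤ)) : ZMod p) = 0 :=
      (ZMod.intCast_zmod_eq_zero_iff_dvd _ p).2 ((dvd_pow_self _ (by omega)).trans h)
    push_cast at h2 ⊢
    rwa [ZMod.pow_card] at h2
  have hnr : ¬ (p : ℤ) ∣ r := fun hd => by
    have : (p : ℤ) ∣ 1 := by simpa using dvd_sub hd h1
    exact hp.one_lt.ne' (by exact_mod_cast Int.eq_one_of_dvd_one (by positivity) this)
  have he := Int.emultiplicity_pow_sub_pow hp (hp.odd_of_ne_two hp2) (x := r) (y := 1) h1 hnr p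
  rw [one_pow] at he
  have hle := le_emultiplicity_of_pow_dvd h
  rw [he, (Nat.finiteMultiplicity_iff.2 ⟨hp.ne_one, hp.pos⟩).emultiplicity_self] at hle
  refine pow_dvd_of_le_emultiplicity ?_
  have h3 : ((n - 1 : ℕ) : ℕ∞) + 1 ≤ emultiplicity (↑p : ℤ) (r - 1) + 1 := by
    have : ((n - 1 : ℕ) : ℕ∞) + 1 = (n : ℕ∞) := by norm_cast; omega
    rwa [this]
  exact (ENat.add_le_add_iff_right (by simp)).1 h3

/-- The case of a maximal cyclic subgroup inverted up to the middle. -/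
lemma first_branch [Finite G] {n : ℕ} (hn : 2 ≤ n) (hG : Nat.card G = 2 ^ (n + 1)) {a y : G}
    (ha : orderOf a = 2 ^ n) (hy : y ∉ Subgroup.zpowers a) (hy2 : y ^ 2 ∈ Subgroup.zpowers a) {r : ℤ}
    (hr : y * a * y⁻¹ = a ^ r) (hrm : (2 : ℤ) ^ (n - 1) ∣ r + 1) (hr4 : (4 : ℤ) ∣ r + 1) :
    (∃ m : ℕ, Nonempty (G ≃* DihedralGroup m)) ∨ (∃ m : ℕ, Nonempty (G ≃* QuaternionGroup m)) ∨
      Cfsg.IsQuasiDihedral G := by
  have hgen : Subgroup.zpowers a ⊔ Subgroup.zpowers y = ⊤ := by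
    refine Subgroup.eq_top_of_le_card _ ?_
    have hlt : Subgroup.zpowers a < Subgroup.zpowers a ⊔ Subgroup.zpowers y :=
      lt_of_le_of_ne le_sup_left fun e => hy (by rw [e]; exact Subgroup.mem_sup_right (Subgroup.mem_zpowers y))
    obtain ⟨k, hk⟩ := Subgroup.card_dvd_of_le hlt.le
    rw [Nat.card_zpowers, ha] at hk
    have hk1 : 2 ≤ k := by
      by_contra hk1
      have hlt' : Nat.card ↥(Subgroup.zpowers a) < Nat.card ↥(Subgroup.zpowers a ⊔ Subgroup.zpowers y) :=
        Set.Finite.card_lt_card (Set.toFinite _) hlt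
      rw [Nat.card_zpowers, ha] at hlt'
      interval_cases k <;> omega
    rw [hG, hk, pow_succ]
    exact Nat.mul_le_mul_left _ hk1
  have hpos : 0 < 2 ^ (n - 1) := Nat.two_pow_pos _
  have hn' : 2 ^ n = 2 * 2 ^ (n - 1) := by rw [← pow_succ']; congr 1; omega
  have hnZ : ((2 ^ n : ℕ) : ℤ) = 2 * 2 ^ (n - 1) := by rw [hn']; push_cast; ring
  obtain ⟨j, hj⟩ := hy2
  have hj2 : a ^ j = y ^ 2 := hj
  -- `y ^ 2` is fixed by `y`
  have hfix : a ^ (r * j) = a ^ j := by
    rw [← conj_zpow_act hr, hj2]; group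
  obtain ⟨d, hd⟩ := (zpow_eq_iff_dvd ha _ _).1 hfix
  obtain ⟨t, ht⟩ := hr4
  have hjm : (2 : ℤ) ^ (n - 1) ∣ j := by
    rw [hnZ, show j - r * j = 2 * (j * (1 - 2 * t)) by rw [show r = 4 * t - 1 by linarith]; ring] at hd
    have h2 : (2 : ℤ) ^ (n - 1) ∣ j * (1 - 2 * t) := ⟨d, by linarith⟩
    exact Int.prime_two.pow_dvd_of_dvd_mul_right _ (by omega) h2
  obtain ⟨e, he⟩ := hrm
  haveI : NeZero (2 ^ n) := ⟨(Nat.two_pow_pos n).ne'⟩
  haveI : NeZero (2 ^ (n - 1)) := ⟨hpos.ne'⟩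
  obtain ⟨s, hs⟩ := hjm
  rcases Int.even_or_odd e with ⟨u, hu⟩ | ⟨u, hu⟩
  · have hinv : y * a * y⁻¹ = a⁻¹ := by
      rw [hr, ← zpow_neg_one]
      exact (zpow_eq_iff_dvd ha _ _).2 ⟨-u, by rw [hnZ]; linear_combination -he - (2 : ℤ) ^ (n - 1) * hu⟩
    rcases Int.even_or_odd s with ⟨v, hv⟩ | ⟨v, hv⟩
    · refine Or.inl ⟨2 ^ n, CfsgLib.QDWr.nonempty_mulEquiv_dihedral ha hinv ?_ hy hgen⟩
      rw [← hj2, ← zpow_zero a]
      exact (zpow_eq_iff_dvd ha _ _).2 ⟨-v, by rw [hnZ, hs, hv]; ring⟩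
    · refine Or.inr (Or.inl ⟨2 ^ (n - 1), CfsgLib.RankOneP.nonempty_mulEquiv_quaternion (ha.trans hn') hinv ?_ hy hgen⟩)
      rw [← hj2, ← zpow_natCast a (2 ^ (n - 1))]
      exact (zpow_eq_iff_dvd ha _ _).2 ⟨-v, by rw [hnZ, hs, hv]; push_cast; ring⟩
  · have hn3 : 3 ≤ n := by
      by_contra h3
      obtain rfl : n = 2 := by omega
      norm_num at he
      omega
    refine Or.inr (Or.inr ⟨n, hn3, hG, a, ?_⟩)
    have hc : a ^ (2 ^ (n - 1) - 1 : ℕ) = a ^ r := by
      rw [← zpow_natCast]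
      exact (zpow_eq_iff_dvd ha _ _).2 ⟨u, by rw [hnZ, Nat.cast_sub hpos]; push_cast; linear_combination he + (2 : ℤ) ^ (n - 1) * hu⟩
    rcases Int.even_or_odd s with ⟨v, hv⟩ | ⟨v, hv⟩
    · refine ⟨y, ha, orderOf_eq_prime ?_ ?_, by rw [hc, hr]⟩
      · rw [← hj2, ← zpow_zero a]
        exact (zpow_eq_iff_dvd ha _ _).2 ⟨-v, by rw [hnZ, hs, hv]; ring⟩
      · exact fun h => hy (h ▸ Subgroup.one_mem _)
    · refine ⟨a * y, ha, orderOf_eq_prime ?_ ?_, ?_⟩
      · rw [show (a * y) ^ 2 = a * (y * a * y⁻¹) * y ^ 2 by simp [pow_two, mul_assoc], hr, ← hj2, ← zpow_one_add, ← zpow_add,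
          ← zpow_zero a]
        exact (zpow_eq_iff_dvd ha _ _).2 ⟨-(u + v + 1), by
          rw [hnZ, hs, hv]; linear_combination -he - (2 : ℤ) ^ (n - 1) * hu⟩
      · intro h
        exact hy (by rw [← inv_mul_cancel_left a y, h, mul_one]; exact Subgroup.inv_mem _ (Subgroup.mem_zpowers a))
      · rw [hc, show a * y * a * (a * y)⁻¹ = a * (y * a * y⁻¹) * a⁻¹ by group, hr, ← zpow_one_add, ← zpow_neg_one,
          ← zpow_add]
        congr 1; ring

/-- Let G be a finite non-abelian p-group with a cyclic normal subgroup U of order p^n such that C_G(U) = U. Then either p = 2 and G is dihedral, generalized quaternion or semidihedral of order 2^(n+1); or, writing U₁ for the subgroup generated by the p-th powers of elements of U and M = C_G(U₁), the subgroup U has index p in M and the subgroup Ω₁(M) generated by the elements of M of order dividing p is elementary abelian of order p² and characteristic in G. -/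
theorem result {G : Type*} [Group G] [Finite G] {p : ℕ} [Fact p.Prime] (hG : IsPGroup p G) (hna : ¬ IsMulCommutative G) (U : Subgroup G) [U.Normal] (hU : IsCyclic U) (n : ℕ) (hUn : Nat.card U = p ^ n) (hC : Subgroup.centralizer (U : Set G) = U) : (p = 2 ∧ Nat.card G = 2 ^ (n + 1) ∧ ((∃ m : ℕ, Nonempty (G ≃* DihedralGroup m)) ∨ (∃ m : ℕ, Nonempty (G ≃* QuaternionGroup m)) ∨ Cfsg.IsQuasiDihedral G)) ∨ (U.relIndex (Subgroup.centralizer (Cfsg.powerClosure p 1 U : Set G)) = p ∧ Cfsg.IsElementaryAbelian p (Cfsg.omegaOne p (Subgroup.centralizer (Cfsg.powerClosure p 1 U : Set G))) ∧ Nat.card ↥(Cfsg.omegaOne p (Subgroup.centralizer (Cfsg.powerClosure p 1 U : Set G))) = p ^ 2 ∧ (Cfsg.omegaOne p (Subgroup.centralizer (Cfsg.powerClosure p 1 U : Set G))).Characteristic) := by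
  classical
  have hp : p.Prime := Fact.out
  obtain ⟨⟨a, haU⟩, haG⟩ := hU.exists_generator
  have hUz : U = Subgroup.zpowers a := le_antisymm (fun x hx => by
      obtain ⟨i, hi⟩ := haG ⟨x, hx⟩; exact ⟨i, congrArg Subtype.val hi⟩) (Subgroup.zpowers_le.2 haU)
  subst hUz
  rw [Nat.card_zpowers] at hUn
  have hact : ∀ g : G, ∃ r : ℤ, g * a * g⁻¹ = a ^ r := fun g => by
    obtain ⟨r, hr⟩ := Subgroup.Normal.conj_mem ‹(Subgroup.zpowers a).Normal› a (Subgroup.mem_zpowers a) g
    exact ⟨r, hr.symm⟩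
  have hmemU : ∀ (g : G) (r : ℤ), g * a * g⁻¹ = a ^ r → ((p : ℤ) ^ n ∣ r - 1 ↔ g ∈ Subgroup.zpowers a) := fun g r hr => by
    have hiff : (p : ℤ) ^ n ∣ r - 1 ↔ g * a * g⁻¹ = a := by
      have := zpow_eq_iff_dvd hUn 1 r
      rw [zpow_one, ← hr] at this
      push_cast at this
      exact this.symm.trans eq_comm
    rw [hiff]
    refine ⟨fun h => ?_, fun ⟨i, hi⟩ => ?_⟩
    · rw [← hC, Subgroup.mem_centralizer_iff]
      rintro _ ⟨i, rfl⟩
      exact (((Commute.symm (mul_inv_eq_iff_eq_mul.1 h)).zpow_left i)).eq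
    · rw [show g = a ^ i from hi.symm]; group
  -- `G` is not `U`
  obtain ⟨g0, hg0⟩ : ∃ g, g ∉ Subgroup.zpowers a := by
    by_contra h
    push Not at h
    exact hna ⟨⟨fun x y => by
      obtain ⟨i, rfl⟩ := h x; obtain ⟨j, rfl⟩ := h y
      exact ((Commute.refl a).zpow_zpow i j).eq⟩⟩
  have hout : ∀ g : G, g ∉ Subgroup.zpowers a → ∃ j : ℕ, g ^ p ^ j ∉ Subgroup.zpowers a ∧ (g ^ p ^ j) ^ p ∈ Subgroup.zpowers a := by
    intro g hg
    obtain ⟨k, hk⟩ := hG g
    by_contra hcon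
    push Not at hcon
    have : ∀ j, g ^ p ^ j ∉ Subgroup.zpowers a := fun j => by
      induction j with
      | zero => simpa using hg
      | succ j ih => rw [pow_succ, pow_mul]; exact hcon j ih
    exact this k (hk ▸ Subgroup.one_mem _)
  -- the exponent is at least two
  have hn : 2 ≤ n := by
    by_contra hlt
    obtain ⟨j, hj1, hj2⟩ := hout g0 hg0
    obtain ⟨r, hr⟩ := hact (g0 ^ p ^ j)
    refine hj1 ((hmemU _ r hr).1 ?_)
    rcases (by omega : n = 0 ∨ n = 1) with rfl | rfl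
    · simp
    · have h1 := (hmemU _ _ (conj_pow_act hr p)).2 hj2
      rw [pow_one] at h1 ⊢
      rw [← ZMod.intCast_zmod_eq_zero_iff_dvd] at h1 ⊢
      push_cast at h1 ⊢
      rwa [ZMod.pow_card] at h1
  obtain ⟨n2, rfl⟩ := Nat.exists_eq_add_of_le' hn
  set n := n2 + 2 with hndef
  have hN : ((p ^ n : ℕ) : ℤ) = (p : ℤ) ^ n := by push_cast; rfl
  have hpz : (p : ℤ) ≠ 0 := by exact_mod_cast hp.ne_zero
  set M := Subgroup.centralizer (Cfsg.powerClosure p 1 (Subgroup.zpowers a) : Set G) with hM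
  have hmemM : ∀ (g : G) (r : ℤ), g * a * g⁻¹ = a ^ r → (g ∈ M ↔ (p : ℤ) ^ (n - 1) ∣ r - 1) := fun g r hr => by
    have hiff : (p : ℤ) ^ (n - 1) ∣ r - 1 ↔ g * a ^ (p : ℤ) * g⁻¹ = a ^ (p : ℤ) := by
      rw [conj_zpow_act hr, eq_comm (a := a ^ (r * _)), zpow_eq_iff_dvd hUn, hN,
        show r * (p : ℤ) - p = (r - 1) * p by ring, show n = n - 1 + 1 by omega, pow_succ, Nat.add_sub_cancel]
      exact (mul_dvd_mul_iff_right hpz).symm
    rw [hiff]
    constructor
    · intro hg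
      have := Subgroup.mem_centralizer_iff.1 hg (a ^ (p : ℤ))
        (Subgroup.subset_closure ⟨a, Subgroup.mem_zpowers a, by rw [pow_one, zpow_natCast]⟩)
      rw [← this, mul_inv_cancel_right]
    · intro hg
      have hle : Cfsg.powerClosure p 1 (Subgroup.zpowers a) ≤ Subgroup.centralizer ({g} : Set G) := by
        refine (Subgroup.closure_le _).2 ?_
        rintro _ ⟨_, ⟨i, rfl⟩, rfl⟩
        refine Subgroup.mem_centralizer_singleton_iff.2 ?_
        rw [pow_one, ← zpow_natCast, ← zpow_mul, mul_comm, zpow_mul]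
        exact ((Commute.symm (mul_inv_eq_iff_eq_mul.1 hg)).zpow_left i).eq
      exact Subgroup.mem_centralizer_iff.2 fun x hx => Subgroup.mem_centralizer_singleton_iff.1 (hle hx)
  by_cases hgen : (p ≠ 2 ∨ 3 ≤ n) ∧ ∃ m ∈ M, m ∉ Subgroup.zpowers a
  · -- the modular case
    right
    obtain ⟨hcase, m, hmM, hmU⟩ := hgen
    have hUM : Subgroup.zpowers a ≤ M := fun x hx => by
      refine (hmemM x 1 ?_).2 (by simp)
      obtain ⟨i, rfl⟩ := hx
      rw [zpow_one]; group
    have hk : ∀ g ∈ M, ∃ k : ℤ, g * a * g⁻¹ = a ^ (1 + k * (p : ℤ) ^ (n - 1)) := fun g hg => by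
      obtain ⟨r, hr⟩ := hact g
      obtain ⟨k, hk⟩ := (hmemM g r hr).1 hg
      exact ⟨k, by rw [hr]; congr 1; linarith⟩
    have hrel : (Subgroup.zpowers a).relIndex M = p := by
      obtain ⟨b, hb⟩ := (hG.to_subgroup M).index ((Subgroup.zpowers a).subgroupOf M)
      have hb0 : b ≠ 0 := by
        rintro rfl
        rw [pow_zero, Subgroup.index_eq_one, Subgroup.subgroupOf_eq_top] at hb
        exact hmU (hb hmM)
      refine le_antisymm ?_ (by rw [Subgroup.relIndex, hb]; exact Nat.le_self_pow hb0 p)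
      choose k hk using hk
      haveI : NeZero p := ⟨hp.ne_zero⟩
      calc (Subgroup.zpowers a).relIndex M = Nat.card (↥M ⧸ (Subgroup.zpowers a).subgroupOf M) := Subgroup.index_eq_card _
        _ ≤ Nat.card (ZMod p) := Nat.card_le_card_of_injective
            (fun q : ↥M ⧸ (Subgroup.zpowers a).subgroupOf M => (k q.out.1 q.out.2 : ZMod p)) fun q q' h => by
          rw [← QuotientGroup.out_eq' q, ← QuotientGroup.out_eq' q']
          refine QuotientGroup.eq.2 (Subgroup.mem_subgroupOf.2 ?_)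
          have hd : (p : ℤ) ∣ k q'.out.1 q'.out.2 - k q.out.1 q.out.2 := (ZMod.intCast_eq_intCast_iff_dvd_sub _ _ p).1 h
          obtain ⟨r, hr⟩ := hact ((q.out.1)⁻¹ * q'.out.1)
          refine (hmemU _ r hr).1 ?_
          have e := conj_mul_act (hk q.out.1 q.out.2) hr
          rw [mul_inv_cancel_left, hk q'.out.1 q'.out.2, zpow_eq_iff_dvd hUn, hN] at e
          obtain ⟨e1, he1⟩ := e
          obtain ⟨d, hd⟩ := hd
          have hpp : (p : ℤ) ^ (n - 1) * p = (p : ℤ) ^ n := by rw [← pow_succ]; congr 1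
          -- multiply back
          have hr1 : (p : ℤ) ^ n ∣ (1 + k q.out.1 q.out.2 * (p : ℤ) ^ (n - 1)) * (r - 1) :=
            ⟨e1 + d, by linear_combination he1 + (p : ℤ) ^ (n - 1) * hd + d * hpp⟩
          refine (IsCoprime.dvd_of_dvd_mul_left ?_ hr1)
          refine IsCoprime.pow_left ?_
          refine ⟨-(k q.out.1 q.out.2) * (p : ℤ) ^ (n - 2), 1, ?_⟩
          rw [show n - 1 = n - 2 + 1 by omega, pow_succ]; ring
        _ = p := Nat.card_zmod p
    obtain ⟨k, hk0⟩ := hk m hmM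
    set c := k * (p : ℤ) ^ (n - 1) with hc
    have hmi : ∀ i : ℤ, m * a ^ i * m⁻¹ = a ^ (i * (1 + c)) := fun i => by rw [conj_zpow_act hk0, mul_comm]
    have hc2 : ((p ^ n : ℕ) : ℤ) ∣ c * c := by
      rw [hN]
      refine ⟨k * k * (p : ℤ) ^ n2, ?_⟩
      rw [hc, show n - 1 = n2 + 1 from rfl, hndef]; ring
    -- the twisted unit
    have hQ : (p : ℤ) ∣ (p : ℤ) ^ n2 * (p.choose 2 : ℕ) := by
      rcases hcase with h | h
      · exact (Int.natCast_dvd_natCast.2 (hp.dvd_choose_self two_ne_zero (by have := hp.two_le; omega))).mul_left _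
      · exact (dvd_pow_self _ (by omega)).mul_right _
    have hunit : ∀ l : ℤ, IsCoprime ((p : ℤ) ^ (n - 1)) (1 + k * l * ((p : ℤ) ^ n2 * (p.choose 2 : ℕ))) := fun l => by
      obtain ⟨q, hq⟩ := hQ
      refine IsCoprime.pow_left ⟨-(k * l * q), 1, ?_⟩
      rw [hq]; ring
    have hpow : ∀ i : ℤ, (a ^ i * m) ^ p = a ^ (p * (i * (1 + k * 1 * ((p : ℤ) ^ n2 * (p.choose 2 : ℕ))))) * m ^ p := fun i => by
      rw [pow_twisted i hmi hUn hc2]
      congr 2
      rw [hc, show n - 1 = n2 + 1 from rfl]; ring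
    -- `m ^ p` lies in `U`
    have hmp : m ^ p ∈ Subgroup.zpowers a := by
      have h1 := conj_pow_act hk0 p
      refine (hmemU _ _ h1).1 ?_
      obtain ⟨w, hw⟩ : ∃ w : ℤ, (1 + c) ^ p = 1 + p * c + c * c * w := by
        have : ∀ l : ℕ, ∃ w : ℤ, (1 + c) ^ l = 1 + l * c + c * c * w := fun l => by
          induction l with
          | zero => exact ⟨0, by simp⟩
          | succ l ih => obtain ⟨w, hw⟩ := ih; exact ⟨w + l + c * w, by rw [pow_succ, hw]; push_cast; ring⟩
        exact this p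
      rw [show (1 + k * (p : ℤ) ^ (n - 1)) = 1 + c from rfl, hw]
      rw [hN] at hc2
      have h2 : (p : ℤ) ^ n ∣ (p : ℤ) * c := ⟨k, by rw [hc, show n = n - 1 + 1 by omega, pow_succ, Nat.add_sub_cancel]; ring⟩
      rw [show (1 + (p : ℤ) * c + c * c * w - 1) = (p : ℤ) * c + c * c * w by ring]
      exact dvd_add h2 (hc2.mul_right w)
    obtain ⟨j, hj⟩ := hmp
    have hj' : a ^ j = m ^ p := hj
    have hjp : (p : ℤ) ∣ j := by
      have hfix : a ^ ((1 + c) * j) = a ^ j := by rw [← conj_zpow_act hk0, hj']; group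
      rw [zpow_eq_iff_dvd hUn, hN, show j - (1 + c) * j = -(k * j * (p : ℤ) ^ (n - 1)) by rw [hc]; ring, dvd_neg,
        show n = 1 + (n - 1) by omega, pow_add, pow_one, Nat.add_sub_cancel_left, mul_dvd_mul_iff_right (pow_ne_zero _ hpz)] at hfix
      rcases (Nat.prime_iff_prime_int.1 hp).dvd_or_dvd hfix with h | h
      · exfalso
        refine hmU ((hmemU m _ hk0).1 ?_)
        obtain ⟨d, hd⟩ := h
        exact ⟨d, by rw [hc, hd, show (p : ℤ) ^ n = (p : ℤ) ^ (n - 1) * p by rw [← pow_succ]; congr 1]; ring⟩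
      · exact h
    obtain ⟨i0, rfl⟩ := hjp
    -- an element of order `p` outside `U`
    obtain ⟨v, w, hvw⟩ := hunit 1
    set t := a ^ (-(i0 * w)) * m with ht
    have htp : t ^ p = 1 := by
      rw [ht, hpow, ← hj', ← zpow_add, ← zpow_zero a]
      refine (zpow_eq_iff_dvd hUn _ _).2 ⟨-(i0 * v), ?_⟩
      rw [hN, show (p : ℤ) ^ n = (p : ℤ) ^ (n - 1) * p by rw [← pow_succ]; congr 1]
      linear_combination (p : ℤ) * i0 * hvw
    have htM : t ∈ M := M.mul_mem (hUM ⟨_, rfl⟩) hmM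
    have htU : t ∉ Subgroup.zpowers a := fun h => hmU (by
      have := Subgroup.mul_mem _ (Subgroup.inv_mem _ (⟨_, rfl⟩ : a ^ (-(i0 * w)) ∈ Subgroup.zpowers a)) h
      simpa [ht] using this)
    have htk : t * a * t⁻¹ = a ^ (1 + c) := by
      rw [ht, show a ^ (-(i0 * w)) * m * a * (a ^ (-(i0 * w)) * m)⁻¹ = a ^ (-(i0 * w)) * (m * a * m⁻¹) * (a ^ (-(i0 * w)))⁻¹ by group,
        hk0]
      group
    set z := a ^ ((p : ℤ) ^ (n - 1)) with hz
    have hzord : orderOf z = p := by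
      refine orderOf_eq_prime ?_ ?_
      · rw [hz, ← zpow_natCast, ← zpow_mul, ← zpow_zero a]
        exact (zpow_eq_iff_dvd hUn _ _).2 ⟨-1, by rw [hN, show n = n - 1 + 1 by omega, pow_succ, Nat.add_sub_cancel]; ring⟩
      · intro h
        rw [hz, ← zpow_zero a, zpow_eq_iff_dvd hUn, hN, zero_sub, dvd_neg] at h
        have := Int.natAbs_dvd_natAbs.2 h
        simp only [Int.natAbs_pow, Int.natAbs_natCast] at this
        exact absurd ((Nat.pow_dvd_pow_iff_le_right hp.one_lt).1 this) (by omega)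
    have hzt : Commute z t := by
      have := conj_zpow_act htk ((p : ℤ) ^ (n - 1))
      rw [show (1 + c) * (p : ℤ) ^ (n - 1) = (p : ℤ) ^ (n - 1) + (p : ℤ) ^ n * (k * (p : ℤ) ^ n2) by
        rw [hc, show n - 1 = n2 + 1 from rfl, hndef]; ring, zpow_add, zpow_mul,
        show a ^ ((p : ℤ) ^ n) = 1 by rw [← hN, zpow_natCast, ← hUn, pow_orderOf_eq_one], one_zpow, mul_one] at this
      exact (mul_inv_eq_iff_eq_mul.1 this).symm
    have htord : orderOf t = p := orderOf_eq_prime htp fun h => htU (h ▸ Subgroup.one_mem _)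
    set Z := Subgroup.zpowers z ⊔ Subgroup.zpowers t with hZdef
    haveI hZab : IsMulCommutative ↥Z := by
      rw [hZdef, Subgroup.zpowers_eq_closure, Subgroup.zpowers_eq_closure, ← Subgroup.closure_union]
      refine Subgroup.isMulCommutative_closure ?_
      rintro x (rfl | rfl) y (rfl | rfl)
      exacts [rfl, hzt.eq, hzt.eq.symm, rfl]
    have hZexp : ∀ x ∈ Z, x ^ p = 1 := fun x hx => by
      obtain ⟨x1, hx1, x2, hx2, rfl⟩ : ∃ x1 ∈ Subgroup.zpowers z, ∃ x2 ∈ Subgroup.zpowers t, x1 * x2 = x := by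
        have hnorm : Subgroup.zpowers t ≤ Subgroup.normalizer (Subgroup.zpowers z : Set G) := by
          refine le_trans ?_ (Subgroup.centralizer_le_normalizer _)
          rw [Subgroup.zpowers_le, Subgroup.mem_centralizer_iff]
          rintro _ ⟨i, rfl⟩
          exact (hzt.zpow_left i).eq
        rw [hZdef, ← SetLike.mem_coe, Subgroup.coe_mul_of_right_le_normalizer_left _ _ hnorm] at hx
        exact hx
      obtain ⟨i, rfl⟩ := hx1
      obtain ⟨l, rfl⟩ := hx2
      show (z ^ i * t ^ l) ^ p = 1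
      rw [(hzt.zpow_zpow i l).mul_pow, ← zpow_natCast, ← zpow_mul, mul_comm, zpow_mul, zpow_natCast,
        ← hzord, pow_orderOf_eq_one, one_zpow, one_mul, hzord, ← zpow_natCast, ← zpow_mul, mul_comm, zpow_mul, zpow_natCast,
        htp, one_zpow]
    have hzM : z ∈ M := hUM ⟨_, rfl⟩
    -- elements of `M` with trivial `p`-th power lie in `Z`
    have hOm : ∀ x ∈ M, x ^ p = 1 → x ∈ Z := by
      intro x hxM hxp
      have hM' : M = Subgroup.zpowers a ⊔ Subgroup.zpowers t := by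
        refine (Subgroup.eq_of_le_of_card_ge (sup_le hUM (Subgroup.zpowers_le.2 htM)) ?_).symm
        have hlt : Subgroup.zpowers a < Subgroup.zpowers a ⊔ Subgroup.zpowers t :=
          lt_of_le_of_ne le_sup_left fun e => htU (by rw [e]; exact Subgroup.mem_sup_right (Subgroup.mem_zpowers t))
        have h1 := Subgroup.card_mul_index ((Subgroup.zpowers a).subgroupOf M)
        rw [Nat.card_congr (Subgroup.subgroupOfEquivOfLe hUM).toEquiv,
          show ((Subgroup.zpowers a).subgroupOf M).index = p from hrel] at h1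
        obtain ⟨q, hq⟩ := Subgroup.card_dvd_of_le hlt.le
        rw [← h1, hq]
        refine Nat.mul_le_mul_left _ ?_
        have hq1 : q ≠ 1 := fun e => hlt.ne (Subgroup.eq_of_le_of_card_ge hlt.le (by rw [hq, e, mul_one]))
        have hqd : q ∣ p := by
          have h3 : Nat.card ↥(Subgroup.zpowers a ⊔ Subgroup.zpowers t) ∣ Nat.card ↥M :=
            Subgroup.card_dvd_of_le (sup_le hUM (Subgroup.zpowers_le.2 htM))
          rw [hq, ← h1] at h3
          exact Nat.dvd_of_mul_dvd_mul_left Nat.card_pos h3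
        exact le_of_eq ((hp.eq_one_or_self_of_dvd q hqd).resolve_left hq1).symm
      rw [hM', ← SetLike.mem_coe, Subgroup.coe_mul_of_right_le_normalizer_left _ _
        (by rw [Subgroup.normalizer_eq_top]; exact le_top)] at hxM
      obtain ⟨_, ⟨i, rfl⟩, _, ⟨l, rfl⟩, rfl⟩ := hxM
      obtain ⟨L, hL⟩ : ∃ L : ℕ, t ^ l = t ^ L := by
        refine ⟨(l % p).toNat, ?_⟩
        rw [← zpow_natCast, Int.toNat_of_nonneg (Int.emod_nonneg _ hpz), ← htord, zpow_mod_orderOf]
      change (a ^ i * t ^ l) ^ p = 1 at hxp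
      show a ^ i * t ^ l ∈ Z
      rw [hL] at hxp ⊢
      obtain ⟨cL, hcL⟩ : ∃ cL : ℤ, (1 + c) ^ L = 1 + L * c + c * c * cL := by
        clear hxp hL
        induction L with
        | zero => exact ⟨0, by simp⟩
        | succ L ih => obtain ⟨w, hw⟩ := ih; exact ⟨w + L + c * w, by rw [pow_succ, hw]; push_cast; ring⟩
      have htl : ∀ i : ℤ, t ^ L * a ^ i * (t ^ L)⁻¹ = a ^ (i * (1 + L * c)) := fun i => by
        rw [conj_zpow_act (conj_pow_act htk L), hcL]
        obtain ⟨d, hd⟩ := hc2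
        exact (zpow_eq_iff_dvd hUn _ _).2 ⟨-(d * cL * i), by linear_combination (-(cL * i)) * hd⟩
      rw [pow_twisted i htl hUn (by obtain ⟨d, hd⟩ := hc2; exact ⟨L * L * d, by linear_combination (L * L : ℤ) * hd⟩),
        show (t ^ L) ^ p = 1 by rw [← pow_mul, mul_comm, pow_mul, htp, one_pow], mul_one, ← zpow_zero a,
        zpow_eq_iff_dvd hUn, hN, zero_sub, dvd_neg] at hxp
      have hxp' : (p : ℤ) ^ (n - 1) * p ∣ i * (1 + k * L * ((p : ℤ) ^ n2 * (p.choose 2 : ℕ))) * p := by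
        rw [← pow_succ, show n - 1 + 1 = n by omega,
          show i * (1 + k * L * ((p : ℤ) ^ n2 * (p.choose 2 : ℕ))) * p = i * (p : ℤ) + (L : ℤ) * c * i * (p.choose 2 : ℕ) by
            rw [hc, show n - 1 = n2 + 1 from rfl]; ring]
        exact hxp
      obtain ⟨i', hi'⟩ := (hunit L).dvd_of_dvd_mul_right ((mul_dvd_mul_iff_right hpz).1 hxp')
      refine Z.mul_mem (Subgroup.mem_sup_left ⟨i', ?_⟩) (Subgroup.mem_sup_right (Subgroup.pow_mem _ (Subgroup.mem_zpowers t) L))
      show z ^ i' = a ^ i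
      rw [hz, ← zpow_mul, ← hi']
    have hO : Cfsg.omegaOne p M = Z := by
      refine le_antisymm ((Subgroup.closure_le _).2 fun x hx => hOm x hx.1 hx.2) (sup_le ?_ ?_) <;>
        rw [Subgroup.zpowers_le]
      · exact Subgroup.subset_closure ⟨hzM, by rw [← hzord]; exact pow_orderOf_eq_one z⟩
      · exact Subgroup.subset_closure ⟨htM, htp⟩
    have hZU : ∀ x ∈ Subgroup.zpowers a, x ^ p = 1 → x ∈ Subgroup.zpowers z := by
      rintro _ ⟨i, rfl⟩ hx
      change (a ^ i) ^ p = 1 at hx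
      rw [← zpow_natCast, ← zpow_mul, ← zpow_zero a, zpow_eq_iff_dvd hUn, hN, zero_sub, dvd_neg,
        show n = n - 1 + 1 by omega, pow_succ, mul_dvd_mul_iff_right hpz] at hx
      obtain ⟨i', hi'⟩ := hx
      exact ⟨i', by show z ^ i' = a ^ i; rw [hz, ← zpow_mul, ← hi']⟩
    have htZ : t ∉ Subgroup.zpowers z := fun h => htU ((Subgroup.zpowers_le.2 (Subgroup.zpow_mem _ (Subgroup.mem_zpowers a) _) : Subgroup.zpowers z ≤ Subgroup.zpowers a) h)
    have hZcard : Nat.card ↥Z = p ^ 2 := by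
      have hinf : Subgroup.zpowers z ⊓ Subgroup.zpowers t = ⊥ := by
        refine (Subgroup.eq_bot_iff_forall _).2 fun x hx => ?_
        by_contra h1
        haveI := Fact.mk hp
        have hgen := zpowers_eq_top_of_prime_card (G := ↥(Subgroup.zpowers t)) (p := p) (by rw [Nat.card_zpowers, htord])
          (g := ⟨x, hx.2⟩) (fun e => h1 (congrArg Subtype.val e))
        obtain ⟨i, hi⟩ := (hgen ▸ Subgroup.mem_top _ : (⟨t, Subgroup.mem_zpowers t⟩ : ↥(Subgroup.zpowers t)) ∈ Subgroup.zpowers (⟨x, hx.2⟩ : ↥(Subgroup.zpowers t)))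
        have : x ^ i = t := congrArg Subtype.val hi
        exact htZ (this ▸ Subgroup.zpow_mem _ hx.1 i)
      have hle := CfsgLib.PGroup.card_mul_card_le (Subgroup.zpowers z) (Subgroup.zpowers t)
      rw [hinf, Subgroup.card_bot, mul_one, Nat.card_zpowers, Nat.card_zpowers, hzord, htord, ← sq] at hle
      refine le_antisymm ?_ hle
      have hnorm : Subgroup.zpowers t ≤ Subgroup.normalizer (Subgroup.zpowers z : Set G) := by
        refine le_trans ?_ (Subgroup.centralizer_le_normalizer _)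
        rw [Subgroup.zpowers_le, Subgroup.mem_centralizer_iff]
        rintro _ ⟨i, rfl⟩
        exact (hzt.zpow_left i).eq
      calc Nat.card ↥Z = Nat.card ↥((Subgroup.zpowers z : Set G) * (Subgroup.zpowers t : Set G) : Set G) := by
            rw [← Subgroup.coe_mul_of_right_le_normalizer_left _ _ hnorm]; rfl
        _ ≤ Nat.card ↥(Subgroup.zpowers z : Set G) * Nat.card ↥(Subgroup.zpowers t : Set G) := Set.natCard_mul_le
        _ = p ^ 2 := by
          rw [show Nat.card ↥(Subgroup.zpowers z : Set G) = p from (Nat.card_zpowers z).trans hzord,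
            show Nat.card ↥(Subgroup.zpowers t : Set G) = p from (Nat.card_zpowers t).trans htord, sq]
    rw [hO]
    refine ⟨hrel, ⟨hZab, hZexp⟩, hZcard, Subgroup.characteristic_iff_map_eq.2 fun φ => ?_⟩
    -- `Z` is the only normal elementary abelian subgroup of order `p ^ 2`
    have hZn : Z.Normal := by
      rw [← hO]
      refine ⟨fun x hx g => ?_⟩
      induction hx using Subgroup.closure_induction with
      | mem x hx =>
        refine Subgroup.subset_closure ⟨?_, by rw [conj_pow, hx.2, mul_one, mul_inv_cancel]⟩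
        obtain ⟨r, hr⟩ := hact g
        obtain ⟨r', hr'⟩ := hact g⁻¹
        obtain ⟨s, hs⟩ := hact x
        refine (hmemM _ _ (conj_mul_act (conj_mul_act hr hs) hr')).2 ?_
        have hrr : (p : ℤ) ^ n ∣ r * r' - 1 := (hmemU _ _ (conj_mul_act hr hr')).2 (by rw [mul_inv_cancel]; exact Subgroup.one_mem _)
        obtain ⟨d1, hd1⟩ := hrr
        obtain ⟨d2, hd2⟩ := (hmemM _ _ hs).1 hx.1
        exact ⟨(p : ℤ) * d1 + r * r' * d2, by
          rw [show n = n - 1 + 1 by omega, pow_succ] at hd1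
          linear_combination hd1 + r * r' * hd2⟩
      | one => simp
      | mul x y _ _ ihx ihy =>
        rw [show g * (x * y) * g⁻¹ = g * x * g⁻¹ * (g * y * g⁻¹) by group]; exact Subgroup.mul_mem _ ihx ihy
      | inv x _ ih => rw [show g * x⁻¹ * g⁻¹ = (g * x * g⁻¹)⁻¹ by group]; exact Subgroup.inv_mem _ ih
    set E := Z.map φ.toMonoidHom with hE
    haveI hEn : E.Normal := hZn.map _ φ.surjective
    have hEcard : Nat.card ↥E = p ^ 2 := by rw [hE, Subgroup.card_map_of_injective φ.injective, hZcard]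
    have hEexp : ∀ x ∈ E, x ^ p = 1 := by
      rintro _ ⟨x, hx, rfl⟩; rw [← map_pow, hZexp x hx, map_one]
    refine Subgroup.eq_of_le_of_card_ge (fun x hx => ?_) (by rw [hEcard, hZcard])
    obtain ⟨r, hr⟩ := hact x
    refine hOm x ((hmemM x r hr).2 ?_) (hEexp x hx)
    have hmem : a ^ (r - 1) ∈ E := by
      rw [zpow_sub, zpow_one, ← hr]
      have := E.mul_mem hx (hEn.conj_mem _ (E.inv_mem hx) a)
      simpa [mul_assoc] using this
    have := hEexp _ hmem
    rw [← zpow_natCast, ← zpow_mul, ← zpow_zero a, zpow_eq_iff_dvd hUn, hN, zero_sub, dvd_neg,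
      show n = n - 1 + 1 by omega, pow_succ, mul_dvd_mul_iff_right hpz] at this
    exact this
  · -- the maximal class case
    left
    have hp2 : p = 2 := by
      by_contra hne
      refine hgen ⟨Or.inl hne, ?_⟩
      obtain ⟨j, hj1, hj2⟩ := hout g0 hg0
      obtain ⟨r, hr⟩ := hact (g0 ^ p ^ j)
      exact ⟨_, (hmemM _ r hr).2 (dvd_pow_sub_one_odd hp hne (by omega) ((hmemU _ _ (conj_pow_act hr p)).2 hj2)), hj1⟩
    subst hp2
    -- outside `U` everything inverts `a` modulo `2 ^ (n - 1)` and modulo `4`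
    have hkey : ∀ y : G, y ∉ Subgroup.zpowers a → y ^ 2 ∈ Subgroup.zpowers a → ∀ r : ℤ, y * a * y⁻¹ = a ^ r →
        (2 : ℤ) ^ (n - 1) ∣ r + 1 ∧ (4 : ℤ) ∣ r + 1 := by
      intro y hy hy2 r hr
      have h1 := (hmemU _ _ (conj_pow_act hr 2)).2 hy2
      push_cast at h1
      rcases Nat.lt_or_ge n 3 with h3 | h3
      · have hn2 : n = 2 := by omega
        rw [hn2] at h1 ⊢
        have hnot : ¬ (4 : ℤ) ∣ r - 1 := fun h => hy ((hmemU y r hr).1 (by rw [hn2]; norm_num; exact h))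
        have hodd : Odd r := by
          by_contra hev
          rw [Int.not_odd_iff_even] at hev
          obtain ⟨s, rfl⟩ := hev
          obtain ⟨d, hd⟩ := h1
          ring_nf at hd
          omega
        obtain ⟨s, rfl⟩ := hodd
        norm_num
        constructor <;> omega
      · rcases dvd_sq_sub_one (by omega) h1 with h | h
        · exfalso
          exact hgen ⟨Or.inr h3, y, (hmemM y r hr).2 (by exact_mod_cast h), hy⟩
        · exact ⟨h, (show (4 : ℤ) ∣ 2 ^ (n - 1) from ⟨2 ^ (n - 3), by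
            rw [show n - 1 = 2 + (n - 3) by omega, pow_add]; norm_num⟩).trans h⟩
    have hsq : ∀ g : G, g ^ 2 ∈ Subgroup.zpowers a := by
      intro g
      by_contra hg2
      obtain ⟨j, hj1, hj2⟩ := hout (g ^ 2) hg2
      obtain ⟨r, hr⟩ := hact (g ^ 2 ^ j)
      have hr2 := conj_pow_act hr 2
      rw [← pow_mul, mul_comm, pow_mul] at hr2
      obtain ⟨d, hd⟩ := (hkey _ hj1 hj2 _ hr2).2
      rcases Int.even_or_odd r with ⟨s, rfl⟩ | ⟨s, rfl⟩ <;> ring_nf at hd <;> omega
    have hdis : ∀ g : G, g ∉ Subgroup.zpowers a → g0⁻¹ * g ∈ Subgroup.zpowers a := by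
      intro g hg
      obtain ⟨r, hr⟩ := hact (g0⁻¹ * g)
      obtain ⟨s, hs⟩ := hact g0
      obtain ⟨s', hs'⟩ := hact g
      by_contra hnot
      obtain ⟨d0, hd0⟩ := (hkey g0 hg0 (hsq g0) s hs).2
      obtain ⟨d1, hd1⟩ := (hkey g hg (hsq g) s' hs').2
      obtain ⟨d2, hd2⟩ := (hkey _ hnot (hsq _) r hr).2
      have e := conj_mul_act hs hr
      rw [mul_inv_cancel_left, hs', zpow_eq_iff_dvd hUn] at e
      obtain ⟨d, hd⟩ := e
      push_cast at hd
      obtain rfl : s = 4 * d0 - 1 := by linarith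
      obtain rfl : s' = 4 * d1 - 1 := by linarith
      obtain rfl : r = 4 * d2 - 1 := by linarith
      rw [hndef, pow_add] at hd
      ring_nf at hd
      omega
    have hidx : (Subgroup.zpowers a).index = 2 := by
      rw [Subgroup.index_eq_two_iff]
      refine ⟨g0⁻¹, fun g => ?_⟩
      by_cases hg : g ∈ Subgroup.zpowers a
      · exact Or.inr ⟨hg, fun h => hg0 (by
          have := Subgroup.mul_mem _ (Subgroup.inv_mem _ hg) h
          simpa using this)⟩
      · exact Or.inl ⟨by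
          have := Subgroup.Normal.mem_comm ‹(Subgroup.zpowers a).Normal› (hdis g hg)
          exact this, hg⟩
    have hcard : Nat.card G = 2 ^ (n + 1) := by
      rw [← Subgroup.card_mul_index (Subgroup.zpowers a), hidx, Nat.card_zpowers, hUn]; ring
    obtain ⟨r, hr⟩ := hact g0
    obtain ⟨h1, h4⟩ := hkey g0 hg0 (hsq g0) r hr
    exact ⟨rfl, hcard, first_branch hn hcard hUn hg0 (hsq g0) hr h1 h4⟩

end Cfsg.Agent.S3761
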