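import Cfsg.Statements.S5411
import Cfsg.Agent.MonsterPlus.Setting
-- import your own Cfsg.Agent.* helpers here

set_option autoImplicit false
open Cfsg

namespace Cfsg.Agent.S5411

/-- Let G be a finite group of Monster type at the involution z with Q the extraspecial normal subgroup of order 2^25 of C = C_G(z) (so C/Q is identified with the first Conway group with Q modulo its centre the Leech lattice modulo 2, and z is not weakly closed in Q). Then C acts transitively by conjugation on the involutions of Q that are not conjugate to z in G. -/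
theorem result {G : Type*} [Group G] [Finite G] (z : G) (Q : Subgroup (Subgroup.centralizer ({z} : Set G))) [Q.Normal] (hM : Cfsg.IsOfMonsterType z Q) (s t : G) (hsQ : ∃ hsc : s ∈ Subgroup.centralizer ({z} : Set G), (⟨s, hsc⟩ : Subgroup.centralizer ({z} : Set G)) ∈ Q) (htQ : ∃ htc : t ∈ Subgroup.centralizer ({z} : Set G), (⟨t, htc⟩ : Subgroup.centralizer ({z} : Set G)) ∈ Q) (hs2 : orderOf s = 2) (ht2 : orderOf t = 2) (hs : ¬ IsConj z s) (ht : ¬ IsConj z t) : ∃ h ∈ Subgroup.centralizer ({z} : Set G), h * s * h⁻¹ = t := by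
  obtain ⟨hS, e, ψ, hψ⟩ := hM
  have hsA := CfsgLib.MonsterPlus.mem_amb.2 hsQ
  have htA := CfsgLib.MonsterPlus.mem_amb.2 htQ
  obtain ⟨g, hgQ, hgz⟩ := hS.2.2.2.2
  have hu2 : orderOf (g * z * g⁻¹) = 2 := by
    rw [show g * z * g⁻¹ = (MulAut.conj g).toMonoidHom z from rfl, orderOf_injective _ (MulAut.conj g).injective]
    exact hS.1
  obtain ⟨p, v, rfl, hp1, hv, hpv⟩ := CfsgLib.MonsterPlus.amb_rep hS hψ hsA hs2 (fun h => hs (h ▸ IsConj.refl _))
  obtain ⟨q, w, rfl, hq1, hw, hqw⟩ := CfsgLib.MonsterPlus.amb_rep hS hψ htA ht2 (fun h => ht (h ▸ IsConj.refl _))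
  obtain ⟨u, x, hu, hu1, hx, hux⟩ := CfsgLib.MonsterPlus.amb_rep hS hψ (CfsgLib.MonsterPlus.mem_amb.2 hgQ) hu2 hgz
  have hzu : IsConj z ((u : Subgroup.centralizer ({z} : Set G)) : G) := by
    rw [hu]; exact isConj_iff.2 ⟨g, rfl⟩
  have key : ∀ (r : Q) (y : Cfsg.leechLattice), (QuotientGroup.mk r : Q ⧸ Subgroup.center Q) ≠ 1 →
      ψ y = QuotientGroup.mk r → ¬ IsConj z ((r : Subgroup.centralizer ({z} : Set G)) : G) →
      Cfsg.sqNorm (x : Cfsg.GolayPt → ℤ) ≠ Cfsg.sqNorm (y : Cfsg.GolayPt → ℤ) := by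
    intro r y hr hy hnc he
    obtain ⟨c, -, hc⟩ := CfsgLib.MonsterPlus.conj_amb_of_same_type hS hψ hux hy hr hx he
    exact hnc (hzu.trans (isConj_iff.2 ⟨c, hc⟩))
  have h1 := key p v hp1 hpv hs
  have h2 := key q w hq1 hqw ht
  exact CfsgLib.MonsterPlus.conj_amb_of_same_type hS hψ hpv hqw hq1 hv (by omega)

end Cfsg.Agent.S5411
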