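import Cfsg.Statements.S3977
import Cfsg.Agent.RankOneP.Basic

set_option autoImplicit false
open Cfsg

namespace Cfsg.Agent.S3977

/-- Let `p` be a prime and `G` a group of order `p ^ m` which has exactly one subgroup of order `p ^ s`, where `1 ≤ s < m`, and where `s ≥ 2` if `p = 2`. Then `G` is cyclic. (For `p = 2` and `s = 1` the generalized quaternion groups also occur; that case is the classical criterion for a unique involution.) -/
theorem result {G : Type*} [Group G] [Finite G] (p m s : ℕ) (hp : p.Prime) (hG : Nat.card G = p ^ m) (hs : 1 ≤ s) (hsm : s < m) (h2 : p ≠ 2 ∨ 2 ≤ s) (huniq : ∀ H K : Subgroup G, Nat.card H = p ^ s → Nat.card K = p ^ s → H = K) : IsCyclic G := by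
  classical
  haveI : Fact p.Prime := ⟨hp⟩
  have hPG : IsPGroup p G := IsPGroup.of_card hG
  obtain ⟨H, hH⟩ := Sylow.exists_subgroup_card_pow_prime (G := G) p (n := s) (by rw [hG]; exact Nat.pow_dvd_pow p hsm.le)
  have hsmall : ∀ x : G, x ^ p ^ s = 1 → x ∈ H := by
    intro x hx
    obtain ⟨t, ht, hxo⟩ := (Nat.dvd_prime_pow hp).1 (orderOf_dvd_of_pow_eq_one hx)
    obtain ⟨K, hK, hle⟩ := Sylow.exists_subgroup_card_pow_prime_le p (m := s) (n := t)
      (by rw [hG]; exact Nat.pow_dvd_pow p hsm.le) (Subgroup.zpowers x) (by rw [Nat.card_zpowers, hxo]) ht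
    rw [huniq H K hH hK]
    exact hle (Subgroup.mem_zpowers x)
  haveI hHc : IsCyclic H := by
    by_contra hnc
    have hall : ∀ x : G, x ∈ H := by
      intro x
      obtain ⟨t, ht⟩ := IsPGroup.iff_orderOf.1 hPG x
      by_cases hts : t ≤ s
      · refine hsmall x (orderOf_dvd_iff_pow_eq_one.1 ?_)
        rw [ht]; exact Nat.pow_dvd_pow p hts
      · exfalso
        apply hnc
        obtain ⟨d, rfl⟩ : ∃ d, t = s + d := ⟨t - s, by omega⟩
        have ho : orderOf (x ^ p ^ d) = p ^ s := by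
          rw [orderOf_pow' _ (pow_ne_zero _ hp.ne_zero), ht, Nat.gcd_eq_right (Dvd.intro_left _ (pow_add p s d).symm),
            pow_add, Nat.mul_div_cancel _ (pow_pos hp.pos d)]
        have e := huniq H (Subgroup.zpowers (x ^ p ^ d)) hH (by rw [Nat.card_zpowers, ho])
        subst e
        exact ⟨⟨⟨x ^ p ^ d, Subgroup.mem_zpowers _⟩, fun w => by
          obtain ⟨i, hi⟩ := w.2
          exact ⟨i, Subtype.ext hi⟩⟩⟩
    have htop : H = ⊤ := (Subgroup.eq_top_iff' H).2 hall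
    rw [htop, Subgroup.card_top, hG] at hH
    exact absurd (Nat.pow_right_injective hp.two_le hH) (by omega)
  have hexp : ∀ x : G, x ^ p = 1 → x ∈ H := fun x hx => hsmall x (by
    obtain ⟨d, rfl⟩ := Nat.exists_eq_add_of_le hs
    rw [pow_add, pow_one, pow_mul, hx, one_pow])
  have hu : CfsgLib.RankOneP.UniqueOrderP p G := by
    intro x y hx hy hx1
    have hox : orderOf x = p := orderOf_eq_prime hx hx1
    have hcx : Nat.card (Subgroup.zpowers (⟨x, hexp x hx⟩ : H)) = p := by rw [Nat.card_zpowers, Subgroup.orderOf_mk, hox]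
    rcases eq_or_ne y 1 with rfl | hy1
    · exact one_mem _
    have hoy : orderOf y = p := orderOf_eq_prime hy hy1
    have hcy : Nat.card (Subgroup.zpowers (⟨y, hexp y hy⟩ : H)) = p := by rw [Nat.card_zpowers, Subgroup.orderOf_mk, hoy]
    have e := CfsgLib.RankOneP.zpowers_eq_of_orderOf_eq (a := (⟨y, hexp y hy⟩ : H))
      (b := (⟨x, hexp x hx⟩ : H)) (by rw [← Nat.card_zpowers, hcy, ← hcx, Nat.card_zpowers])
    obtain ⟨i, hi⟩ : (⟨y, hexp y hy⟩ : H) ∈ Subgroup.zpowers (⟨x, hexp x hx⟩ : H) := e ▸ Subgroup.mem_zpowers _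
    exact ⟨i, congrArg Subtype.val hi⟩
  rcases CfsgLib.RankOneP.isCyclic_or_quaternion hPG hu with h | ⟨rfl, k, hk, ⟨e⟩⟩
  · exact h
  exfalso
  have hs2 : 2 ≤ s := h2.resolve_left (by simp)
  have h4 : ∀ q : QuaternionGroup (2 ^ k), q ^ 4 = 1 → e.symm q ∈ H := fun q hq => hsmall _ (by
    rw [← map_pow, MulEquiv.map_eq_one_iff]
    obtain ⟨d, rfl⟩ := Nat.exists_eq_add_of_le hs2
    rw [pow_add, pow_mul, show (2 : ℕ) ^ 2 = 4 from rfl, hq, one_pow])
  obtain ⟨k, rfl⟩ := Nat.exists_eq_add_of_le hk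
  set q1 : QuaternionGroup (2 ^ (1 + k)) := QuaternionGroup.a ((2 ^ k : ℕ) : ZMod (2 * 2 ^ (1 + k))) with hq1
  have hq14 : q1 ^ 4 = 1 := by
    rw [hq1, ← QuaternionGroup.a_one_pow, ← pow_mul, show 2 ^ k * 4 = 2 * 2 ^ (1 + k) by ring, QuaternionGroup.a_one_pow_n]
  have hc : Commute (e.symm q1) (e.symm (QuaternionGroup.xa 0)) := by
    letI := IsCyclic.commGroup (α := H)
    exact congrArg Subtype.val (mul_comm (⟨_, h4 q1 hq14⟩ : H) ⟨_, h4 _ (QuaternionGroup.xa_pow_four 0)⟩)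
  have hc2 : q1 * QuaternionGroup.xa 0 = QuaternionGroup.xa 0 * q1 := by
    apply e.symm.injective
    rw [map_mul, map_mul]; exact hc.eq
  rw [hq1, QuaternionGroup.a_mul_xa, QuaternionGroup.xa_mul_a, QuaternionGroup.xa.injEq, zero_sub, zero_add,
    neg_eq_iff_add_eq_zero, ← Nat.cast_add, ZMod.natCast_eq_zero_iff] at hc2
  have h3 := Nat.le_of_dvd (by positivity) hc2
  have h5 : 2 ^ (1 + k) = 2 * 2 ^ k := by ring
  have h6 : 0 < 2 ^ k := by positivity
  omega

end Cfsg.Agent.S3977
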