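import Cfsg.Statements.S4003
import Cfsg.Agent.PLocalBasics.NormalElemAbelian
import Cfsg.Agent.S1337
import Cfsg.Agent.S3977
import Cfsg.Agent.PGroup.Extraspecial
import Cfsg.Agent.PCore.OmegaFix
import Mathlib.GroupTheory.SpecificGroups.Cyclic

set_option autoImplicit false
open Cfsg
open scoped commutatorElement

namespace Cfsg.Agent.S4003

/-- A noncyclic group of odd prime power order has a normal elementary abelian subgroup of order `p ^ 2`. -/
theorem exists_normal_four {P : Type*} [Group P] [Finite P] {p : ℕ} [hp : Fact p.Prime] (hodd : p ≠ 2)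
    (hP : IsPGroup p P) (hnc : ¬ IsCyclic P) :
    ∃ U : Subgroup P, U.Normal ∧ Nat.card U = p ^ 2 ∧ Cfsg.IsElementaryAbelian p U := by
  obtain ⟨A, hn, hA, hmax⟩ := CfsgLib.PLocalBasics.exists_max_normal_el hP hodd
  haveI := hn
  obtain ⟨k, hk⟩ := IsPGroup.iff_card.1 (hP.to_subgroup A)
  by_cases h2 : 2 ≤ k
  · obtain ⟨U, hU, hUA, hUc⟩ := Cfsg.Agent.S1337.exists_normal_sq hP A (hk ▸ Nat.pow_le_pow_right hp.out.pos h2)
    exact ⟨U, hU, hUc, ⟨⟨fun a b => Subtype.ext (show (a : P) * b = b * a from congrArg Subtype.val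
      (hA.1.is_comm.comm (⟨a, hUA a.2⟩ : A) ⟨b, hUA b.2⟩))⟩⟩, fun a ha => hA.2 a (hUA ha)⟩
  · exfalso
    obtain ⟨n, hn'⟩ := IsPGroup.iff_card.1 hP
    have hcen : A ≤ Subgroup.center P := CfsgLib.PLocalBasics.le_center_of_card_le hP inferInstance
      (hk ▸ (Nat.pow_le_pow_right hp.out.pos (by omega : k ≤ 1)).trans (pow_one p).le)
    have hall : ∀ x : P, x ^ p = 1 → x ∈ A := fun x hx =>
      hmax x (Subgroup.mem_centralizer_iff.2 fun a ha => (Subgroup.mem_center_iff.1 (hcen ha) x).symm) hx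
    rcases Nat.lt_or_ge 1 n with h1 | h1
    · apply hnc
      refine Cfsg.Agent.S3977.result p n 1 hp.out hn' le_rfl h1 (Or.inl hodd) fun H K hH hK => ?_
      have hle : ∀ H : Subgroup P, Nat.card H = p ^ 1 → H = A := by
        intro H hH
        refine Subgroup.eq_of_le_of_card_ge (fun x hx => hall x ?_) ?_
        · have := pow_card_eq_one' (G := H) (x := ⟨x, hx⟩)
          rw [hH, pow_one] at this
          exact congrArg Subtype.val this
        · rw [hH, hk]; exact Nat.pow_le_pow_right hp.out.pos (by omega)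
      rw [hle H hH, hle K hK]
    · apply hnc
      rcases (show n = 0 ∨ n = 1 by omega) with rfl | rfl
      · haveI : Subsingleton P := Finite.card_le_one_iff_subsingleton.1 (by rw [hn', pow_zero])
        infer_instance
      · exact isCyclic_of_prime_card (p := p) (by rw [hn', pow_one])

open CfsgLib.PGroup in
/-- In a noncyclic group of odd prime power order the number of elements of order `p ^ s` is divisible by `p ^ s`. -/
theorem dvd_card_orderOf {P : Type*} [Group P] [Finite P] {p : ℕ} [hp : Fact p.Prime] (hodd : p ≠ 2)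
    (hP : IsPGroup p P) (hnc : ¬ IsCyclic P) {s : ℕ} (hs : 1 < s) :
    p ^ s ∣ Nat.card {x : P // orderOf x = p ^ s} := by
  classical
  haveI : Fintype P := Fintype.ofFinite P
  obtain ⟨U, hUn, hUc, hU⟩ := exists_normal_four hodd hP hnc
  haveI := hUn
  let κ : {x : P // orderOf x = p ^ s} → Subgroup P := fun x => Subgroup.zpowers x.1 ⊔ U
  rw [← Nat.card_congr (Equiv.sigmaFiberEquiv κ), Nat.card_sigma]
  refine Finset.dvd_sum fun K _ => ?_
  rcases isEmpty_or_nonempty {x // κ x = K} with he | ⟨⟨⟨x, hx⟩, rfl⟩⟩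
  · simp
  set M := Subgroup.zpowers x ⊔ U with hM
  set M0 := Subgroup.zpowers (x ^ p) ⊔ U with hM0
  have hM0M : M0 ≤ M := sup_le_sup_right (Subgroup.zpowers_le.2 (pow_mem (Subgroup.mem_zpowers x) p)) U
  have hdec : ∀ y ∈ M, ∃ i : ℤ, ∃ u ∈ U, y = x ^ i * u := by
    intro y hy
    obtain ⟨a, ha, u, hu, rfl⟩ := Subgroup.mem_sup_of_normal_right.1 hy
    obtain ⟨i, rfl⟩ := Subgroup.mem_zpowers_iff.1 ha
    exact ⟨i, u, hu, rfl⟩
  have hcommU : ∀ a b : M, ((⁅a, b⁆ : M) : P) ∈ U := by
    intro a b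
    obtain ⟨i, u, hu, hi⟩ := hdec a a.2
    obtain ⟨j, v, hv, hj⟩ := hdec b b.2
    rw [← QuotientGroup.eq_one_iff, ← QuotientGroup.mk'_apply]
    show QuotientGroup.mk' U ⁅(a : P), (b : P)⁆ = 1
    rw [map_commutatorElement, hi, hj, map_mul, map_mul, map_zpow, map_zpow,
      (QuotientGroup.eq_one_iff u).2 hu |> (fun h => (show QuotientGroup.mk' U u = 1 from h)),
      (show QuotientGroup.mk' U v = 1 from (QuotientGroup.eq_one_iff v).2 hv), mul_one, mul_one,
      commutatorElement_eq_one_iff_mul_comm]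
    exact ((Commute.refl _).zpow_zpow i j).eq
  set Z := commutator M with hZ
  have hZU : Z ≤ U.subgroupOf M := by
    rw [hZ, commutator_eq_closure, Subgroup.closure_le]
    rintro _ ⟨a, b, rfl⟩
    exact hcommU a b
  have hZne : Z ≠ U.subgroupOf M := by
    intro e
    have hxM : x ∈ M := Subgroup.mem_sup_left (Subgroup.mem_zpowers x)
    have htop : Subgroup.zpowers (⟨x, hxM⟩ : M) ⊔ frattini M = ⊤ := by
      refine eq_top_iff.2 fun y _ => ?_
      obtain ⟨i, u, hu, hy⟩ := hdec y y.2
      have hy' : y = (⟨x, hxM⟩ : M) ^ i * ⟨u, Subgroup.mem_sup_right hu⟩ := Subtype.ext hy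
      rw [hy']
      refine Subgroup.mul_mem_sup (zpow_mem (Subgroup.mem_zpowers _) i) (commutator_le_frattini (hP.to_subgroup M) ?_)
      rw [← hZ, e]; exact hu
    have hcyc := frattini_nongenerating htop
    haveI : IsCyclic M := ⟨⟨⟨x, hxM⟩, fun y => by
      rw [← Subgroup.mem_zpowers_iff, hcyc]; exact Subgroup.mem_top y⟩⟩
    haveI : IsCyclic (U.subgroupOf M) := inferInstance
    have hUcyc : IsCyclic U := (Subgroup.subgroupOfEquivOfLe (le_sup_right : U ≤ M)).isCyclic.1 this
    obtain ⟨g, hg⟩ := hUcyc.exists_generator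
    have h1 := orderOf_eq_card_of_forall_mem_zpowers hg
    rw [hUc] at h1
    have h2 : orderOf g ∣ p := orderOf_dvd_of_pow_eq_one (Subtype.ext (hU.2 g g.2))
    rw [h1] at h2
    have := Nat.le_of_dvd hp.out.pos h2
    have := Nat.lt_pow_self (n := 2) hp.out.one_lt
    nlinarith [hp.out.one_lt]
  have hZcard : Nat.card Z ≤ p := by
    obtain ⟨k, hk⟩ := IsPGroup.iff_card.1 ((hP.to_subgroup M).to_subgroup Z)
    have hlt : Nat.card Z < p ^ 2 := by
      rw [← hUc, ← Nat.card_congr (Subgroup.subgroupOfEquivOfLe (le_sup_right : U ≤ M)).toEquiv]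
      exact lt_of_le_of_ne (Subgroup.card_le_of_le hZU) fun e => hZne (Subgroup.eq_of_le_of_card_ge hZU e.ge)
    rw [hk] at hlt ⊢
    have := (Nat.pow_lt_pow_iff_right hp.out.one_lt).1 hlt
    exact (Nat.pow_le_pow_right hp.out.pos (by omega : k ≤ 1)).trans (pow_one p).le
  have hZc : Z ≤ Subgroup.center M :=
    CfsgLib.PLocalBasics.le_center_of_card_le (hP.to_subgroup M) inferInstance hZcard
  have hcomm : ∀ a b : M, ⁅a, b⁆ ∈ Subgroup.center M := fun a b =>
    hZc (Subgroup.commutator_mem_commutator (Subgroup.mem_top a) (Subgroup.mem_top b))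
  have hpow : ∀ a b : M, (a * b) ^ p = a ^ p * b ^ p := by
    intro a b
    rw [CfsgLib.PCore.mul_pow_of_class_two hcomm]
    obtain ⟨t, ht⟩ := hp.out.odd_of_ne_two hodd
    rw [show p * (p - 1) / 2 = p * t by
      rw [show p - 1 = t * 2 by omega, ← mul_assoc, Nat.mul_div_cancel _ (by norm_num)],
      pow_mul, show ⁅b, a⁆ ^ p = 1 from Subtype.ext (by rw [SubgroupClass.coe_pow]; exact hU.2 _ (hcommU b a)),
      one_pow, mul_one]
  have hMp : ∀ i : ℤ, ∀ u ∈ U, (x ^ i * u) ^ p = x ^ (i * p) := by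
    intro i u hu
    have := congrArg Subtype.val (hpow ((⟨x, Subgroup.mem_sup_left (Subgroup.mem_zpowers x)⟩ : M) ^ i) ⟨u, Subgroup.mem_sup_right hu⟩)
    simp only [Subgroup.coe_mul, SubgroupClass.coe_pow, SubgroupClass.coe_zpow] at this
    rw [this, hU.2 u hu, mul_one, ← zpow_natCast (x ^ i) p, ← zpow_mul]
  have hpd : ∀ i : ℤ, ∀ u ∈ U, ((p : ℤ) ∣ i ↔ x ^ i * u ∈ M0) := by
    intro i u hu
    constructor
    · rintro ⟨j, rfl⟩
      exact Subgroup.mul_mem_sup (Subgroup.mem_zpowers_iff.2 ⟨j, by rw [← zpow_natCast, ← zpow_mul]⟩) hu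
    · intro hmem
      obtain ⟨a, ha, v, hv, he⟩ := Subgroup.mem_sup_of_normal_right.1 hmem
      obtain ⟨j, rfl⟩ := Subgroup.mem_zpowers_iff.1 ha
      have := congrArg (· ^ p) he
      simp only [hMp i u hu] at this
      rw [← zpow_natCast x p, ← zpow_mul, hMp _ v hv] at this
      have h2 : x ^ (((p : ℤ) * j - i) * p) = 1 := by rw [sub_mul, zpow_sub, this, mul_inv_cancel]
      have h3 := orderOf_dvd_iff_zpow_eq_one.2 h2
      rw [hx, Nat.cast_pow, show s = (s - 1) + 1 by omega, pow_succ] at h3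
      have h4 := Int.dvd_of_mul_dvd_mul_right (by exact_mod_cast hp.out.ne_zero) h3
      have h5 : (p : ℤ) ∣ (p : ℤ) * j - i := (dvd_pow_self _ (by omega : s - 1 ≠ 0)).trans h4
      simpa using dvd_sub (dvd_mul_right (p : ℤ) j) h5
  have hfib : Nat.card {y // κ y = κ ⟨x, hx⟩} = Nat.card M - Nat.card M0 := by
    have e : {y // κ y = κ ⟨x, hx⟩} ≃ ((M : Set P) \ (M0 : Set P) : Set P) :=
      { toFun := fun y => ⟨y.1.1, by
          have hy : y.1.1 ∈ M := by
            have := y.2
            simp only [κ] at this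
            rw [hM, ← this]; exact Subgroup.mem_sup_left (Subgroup.mem_zpowers _)
          refine ⟨hy, fun h0 => ?_⟩
          obtain ⟨i, u, hu, hy'⟩ := hdec _ hy
          rw [hy', SetLike.mem_coe, ← hpd i u hu] at h0
          obtain ⟨j, rfl⟩ := h0
          have hord : (y.1.1) ^ p ^ (s - 1) = 1 := by
            rw [show s - 1 = (s - 2) + 1 by omega, pow_succ', pow_mul, hy', hMp _ u hu, ← zpow_natCast, ← zpow_mul,
              show (p : ℤ) * j * (p : ℤ) * ((p ^ (s - 2) : ℕ) : ℤ) = ((p ^ s : ℕ) : ℤ) * j by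
                rw [Nat.cast_pow, Nat.cast_pow, show s = (s - 2) + 2 by omega, pow_add]; simp; ring,
              zpow_mul, zpow_natCast, ← hx, pow_orderOf_eq_one, one_zpow]
          have h6 := Nat.le_of_dvd (pow_pos hp.out.pos _) (y.1.2 ▸ orderOf_dvd_of_pow_eq_one hord)
          have := (Nat.pow_le_pow_iff_right hp.out.one_lt).1 h6
          omega⟩
        invFun := fun y => ⟨⟨y.1, by
          obtain ⟨hyM, hy0⟩ := y.2
          obtain ⟨i, u, hu, hy'⟩ := hdec _ hyM
          rw [hy', SetLike.mem_coe, ← hpd i u hu] at hy0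
          have hiu : IsCoprime i ((p : ℤ) ^ (s - 1)) := ((Nat.prime_iff_prime_int.1 hp.out).coprime_iff_not_dvd.2 hy0).symm.pow_right
          have hop : orderOf (y.1 ^ p) = p ^ (s - 1) := by
            rw [hy', hMp i u hu, mul_comm, zpow_mul, zpow_natCast]
            have ho : orderOf (x ^ p) = p ^ (s - 1) := by
              rw [orderOf_pow_of_dvd hp.out.ne_zero (hx ▸ dvd_pow_self p (by omega)), hx,
                Nat.div_eq_iff_eq_mul_left hp.out.pos (dvd_pow_self p (by omega)), ← pow_succ]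
              congr 1; omega
            obtain ⟨a, b, hab⟩ := hiu
            refine Nat.dvd_antisymm (ho ▸ orderOf_dvd_of_mem_zpowers (Subgroup.mem_zpowers_iff.2 ⟨i, rfl⟩)) ?_
            have : x ^ p = ((x ^ p) ^ i) ^ a := by
              rw [← zpow_mul]
              conv_lhs => rw [← zpow_one (x ^ p), ← hab]
              rw [zpow_add, mul_comm a i, mul_comm b, zpow_mul (x ^ p) ((p : ℤ) ^ (s - 1)) b,
                show ((p : ℤ) ^ (s - 1)) = ((p ^ (s - 1) : ℕ) : ℤ) by push_cast; ring, zpow_natCast, ← ho,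
                pow_orderOf_eq_one, one_zpow, mul_one]
            conv_lhs => rw [← ho, this]
            exact orderOf_dvd_of_mem_zpowers (Subgroup.mem_zpowers_iff.2 ⟨a, rfl⟩)
          rw [orderOf_eq_iff (pow_pos hp.out.pos _)]
          have h1 : y.1 ^ p ^ s = 1 := by
            rw [show p ^ s = p * p ^ (s - 1) by rw [← pow_succ']; congr 1; omega, pow_mul, ← hop, pow_orderOf_eq_one]
          have h7 : orderOf y.1 = p ^ s := by
            obtain ⟨k, hk, hk'⟩ := (Nat.dvd_prime_pow hp.out).1 (orderOf_dvd_of_pow_eq_one h1)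
            rcases eq_or_lt_of_le hk with rfl | hlt
            · exact hk'
            · exfalso
              have h8 : (y.1 ^ p) ^ p ^ (s - 2) = 1 := by
                rw [← pow_mul, ← pow_succ']
                exact orderOf_dvd_iff_pow_eq_one.1 (hk' ▸ pow_dvd_pow p (by omega))
              have h9 := Nat.le_of_dvd (pow_pos hp.out.pos _) (hop ▸ orderOf_dvd_of_pow_eq_one h8)
              have := (Nat.pow_le_pow_iff_right hp.out.one_lt).1 h9
              omega
          exact (orderOf_eq_iff (pow_pos hp.out.pos _)).1 h7⟩, by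
          obtain ⟨hyM, hy0⟩ := y.2
          obtain ⟨i, u, hu, hy'⟩ := hdec _ hyM
          rw [hy', SetLike.mem_coe, ← hpd i u hu] at hy0
          show Subgroup.zpowers y.1 ⊔ U = M
          refine le_antisymm (sup_le (Subgroup.zpowers_le.2 hyM) le_sup_right) (sup_le (Subgroup.zpowers_le.2 ?_) le_sup_right)
          have hco : IsCoprime i ((p : ℤ) ^ s) := ((Nat.prime_iff_prime_int.1 hp.out).coprime_iff_not_dvd.2 hy0).symm.pow_right
          obtain ⟨a, b, hab⟩ := hco
          have hxi : x ^ i ∈ Subgroup.zpowers y.1 ⊔ U := by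
            rw [show x ^ i = y.1 * u⁻¹ by rw [hy', mul_inv_cancel_right]]
            exact Subgroup.mul_mem_sup (Subgroup.mem_zpowers _) (inv_mem hu)
          have := zpow_mem hxi a
          rwa [← zpow_mul, mul_comm, show a * i = 1 - b * (p : ℤ) ^ s by linarith, zpow_sub, zpow_one, mul_comm b,
            zpow_mul, show ((p : ℤ) ^ s) = ((p ^ s : ℕ) : ℤ) by push_cast; ring, zpow_natCast, ← hx,
            pow_orderOf_eq_one, one_zpow, inv_one, mul_one] at this⟩
        left_inv := fun y => rfl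
        right_inv := fun y => rfl }
    rw [Nat.card_congr e, Nat.card_coe_set_eq, Set.ncard_sdiff (SetLike.coe_subset_coe.2 hM0M),
      ← Nat.card_coe_set_eq, ← Nat.card_coe_set_eq]
    rfl
  rw [hfib]
  have hxp : orderOf (x ^ p) = p ^ (s - 1) := by
    rw [orderOf_pow_of_dvd hp.out.ne_zero (hx ▸ dvd_pow_self p (by omega)), hx,
      Nat.div_eq_iff_eq_mul_left hp.out.pos (dvd_pow_self p (by omega)), ← pow_succ]
    congr 1; omega
  obtain ⟨t, ht⟩ := IsPGroup.iff_card.1 (hP.to_subgroup M0)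
  have hst : s ≤ t := by
    have hlt : Nat.card (Subgroup.zpowers (x ^ p)) < Nat.card M0 := by
      refine lt_of_le_of_ne (Subgroup.card_le_of_le le_sup_left) fun e => ?_
      have hle : U ≤ Subgroup.zpowers (x ^ p) :=
        (le_sup_right : U ≤ M0).trans (Subgroup.eq_of_le_of_card_ge le_sup_left e.ge).ge
      haveI : IsCyclic (U.subgroupOf (Subgroup.zpowers (x ^ p))) := inferInstance
      have hUcyc : IsCyclic U := (Subgroup.subgroupOfEquivOfLe hle).isCyclic.1 this
      obtain ⟨g, hg⟩ := hUcyc.exists_generator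
      have h1 := orderOf_eq_card_of_forall_mem_zpowers hg
      rw [hUc] at h1
      have h2 : orderOf g ∣ p := orderOf_dvd_of_pow_eq_one (Subtype.ext (hU.2 g g.2))
      rw [h1] at h2
      have := Nat.le_of_dvd hp.out.pos h2
      nlinarith [hp.out.one_lt]
    rw [Nat.card_zpowers, hxp, ht] at hlt
    have := (Nat.pow_lt_pow_iff_right hp.out.one_lt).1 hlt
    omega
  have h1 : p ^ s ∣ Nat.card M0 := ht ▸ pow_dvd_pow p hst
  exact Nat.dvd_sub (h1.trans (Subgroup.card_dvd_of_le hM0M)) h1

/-- Elements of order `n` and cyclic subgroups of order `n`. -/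
theorem card_orderOf_eq {G : Type*} [Group G] [Finite G] (n : ℕ) (K : Subgroup G) :
    Nat.card {x : G // x ∈ K ∧ orderOf x = n} =
      n.totient * Nat.card {C : Subgroup G // C ≤ K ∧ IsCyclic C ∧ Nat.card C = n} := by
  classical
  haveI : Fintype G := Fintype.ofFinite G
  let f : {x : G // x ∈ K ∧ orderOf x = n} → {C : Subgroup G // C ≤ K ∧ IsCyclic C ∧ Nat.card C = n} :=
    fun x => ⟨Subgroup.zpowers x.1, Subgroup.zpowers_le.2 x.2.1, inferInstance, by rw [Nat.card_zpowers, x.2.2]⟩
  rw [← Nat.card_congr (Equiv.sigmaFiberEquiv f), Nat.card_sigma, Nat.card_eq_fintype_card (α := {C : Subgroup G // C ≤ K ∧ IsCyclic C ∧ Nat.card C = n}),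
    mul_comm, ← Finset.card_univ, ← smul_eq_mul, ← Finset.sum_const]
  refine Finset.sum_congr rfl fun C _ => ?_
  obtain ⟨C, hCK, hcyc, hC⟩ := C
  have e : {x // f x = ⟨C, hCK, hcyc, hC⟩} ≃ {c : C // orderOf c = n} :=
    { toFun := fun x => ⟨⟨x.1.1, by
          have := congrArg Subtype.val x.2
          exact (SetLike.ext_iff.1 this x.1.1).1 (Subgroup.mem_zpowers x.1.1)⟩, by rw [← Subgroup.orderOf_coe]; exact x.1.2.2⟩
      invFun := fun c => ⟨⟨c.1.1, hCK c.1.2, by rw [Subgroup.orderOf_coe]; exact c.2⟩, Subtype.ext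
        (Subgroup.eq_of_le_of_card_ge (Subgroup.zpowers_le.2 c.1.2)
          (by rw [Nat.card_zpowers, Subgroup.orderOf_coe, c.2, hC]))⟩
      left_inv := fun x => rfl
      right_inv := fun c => rfl }
  rw [Nat.card_congr e]
  haveI : Fintype C := Fintype.ofFinite C
  rw [Nat.card_eq_fintype_card, Fintype.card_subtype]
  exact IsCyclic.card_orderOf_eq_totient (by rw [← Nat.card_eq_fintype_card, hC])

/-- Cyclic subgroups of order `p ^ s` in `G` and in a Sylow `p`-subgroup, modulo `p`. -/
theorem card_cyclic_modEq {G : Type*} [Group G] [Finite G] {p : ℕ} [hp : Fact p.Prime] (P : Sylow p G) (s : ℕ) :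
    Nat.card {C : Subgroup G // C ≤ ⊤ ∧ IsCyclic C ∧ Nat.card C = p ^ s} ≡
      Nat.card {C : Subgroup G // C ≤ (P : Subgroup G) ∧ IsCyclic C ∧ Nat.card C = p ^ s} [MOD p] := by
  have key : ∀ K : Subgroup G, (P : Subgroup G) ≤ Subgroup.normalizer (K : Set G) → (P : Subgroup G) ≤ K →
      Nat.card {C : Subgroup G // C ≤ K ∧ IsCyclic C ∧ Nat.card C = p ^ s} ≡
      Nat.card {C : Subgroup G // C ≤ (P : Subgroup G) ∧ IsCyclic C ∧ Nat.card C = p ^ s ∧
        (P : Subgroup G) ≤ Subgroup.normalizer (C : Set G)} [MOD p] := by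
    intro K hPK hPK'
    let X := {C : Subgroup G // C ≤ K ∧ IsCyclic C ∧ Nat.card C = p ^ s}
    letI : MulAction (P : Subgroup G) X :=
      { smul := fun g C => ⟨C.1.map (MulAut.conj (g : G)).toMonoidHom, by
          rintro _ ⟨c, hc, rfl⟩
          exact (Subgroup.mem_normalizer_iff.1 (hPK g.2) c).1 (C.2.1 hc), by
          haveI := C.2.2.1
          exact isCyclic_of_surjective _ ((MulAut.conj (g : G)).toMonoidHom.subgroupMap_surjective C.1), by
          rw [Subgroup.card_map_of_injective (MulAut.conj (g : G)).injective, C.2.2.2]⟩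
        one_smul := fun C => Subtype.ext (by
          show C.1.map (MulAut.conj ((1 : (P : Subgroup G)) : G)).toMonoidHom = C.1
          rw [OneMemClass.coe_one, map_one]; exact Subgroup.map_id C.1)
        mul_smul := fun a b C => Subtype.ext (by
          show C.1.map (MulAut.conj ((a * b : (P : Subgroup G)) : G)).toMonoidHom =
            (C.1.map (MulAut.conj (b : G)).toMonoidHom).map (MulAut.conj (a : G)).toMonoidHom
          rw [Subgroup.map_map, Subgroup.coe_mul, map_mul]; rfl) }
    have h := P.2.card_modEq_card_fixedPoints X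
    refine h.trans (show _ ≡ _ [MOD p] from ?_)
    refine (congrArg (· % p) ?_ : _)
    have hfix : ∀ C : MulAction.fixedPoints (P : Subgroup G) X,
        (P : Subgroup G) ≤ Subgroup.normalizer (C.1.1 : Set G) := by
      intro C
      rw [Subgroup.le_normalizer_iff]
      intro g hg c hc
      exact (show C.1.1.map (MulAut.conj g).toMonoidHom = C.1.1 from congrArg Subtype.val (C.2 ⟨g, hg⟩)) ▸ ⟨c, hc, rfl⟩
    have hle : ∀ C : MulAction.fixedPoints (P : Subgroup G) X, C.1.1 ≤ (P : Subgroup G) := by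
      intro C
      have hCp : IsPGroup p C.1.1 := IsPGroup.of_card C.1.2.2.2
      have := P.3 (hCp.to_sup_of_normal_left' P.2 (hfix C)) le_sup_right
      exact le_sup_left.trans this.le
    refine Nat.card_congr
      { toFun := fun C => ⟨C.1.1, hle C, C.1.2.2.1, C.1.2.2.2, hfix C⟩
        invFun := fun C => ⟨⟨C.1, C.2.1.trans hPK', C.2.2.1, C.2.2.2.1⟩, fun g => Subtype.ext ?_⟩
        left_inv := fun C => rfl
        right_inv := fun C => rfl }
    show C.1.map (MulAut.conj (g : G)).toMonoidHom = C.1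
    refine Subgroup.eq_of_le_of_card_ge ?_ (by rw [Subgroup.card_map_of_injective (MulAut.conj (g : G)).injective])
    rintro _ ⟨c, hc, rfl⟩
    exact (Subgroup.mem_normalizer_iff.1 (C.2.2.2.2 g.2) c).1 hc
  exact (key ⊤ (fun g _ => Subgroup.mem_normalizer_iff.2 fun _ => ⟨fun _ => Subgroup.mem_top _, fun _ => Subgroup.mem_top _⟩) le_top).trans (key _ Subgroup.le_normalizer le_rfl).symm

/-- The number of elements of order `p ^ s` is divisible by `p ^ s`. -/
theorem dvd_card_orderOf_group {G : Type*} [Group G] [Finite G] {p : ℕ} [hp : Fact p.Prime] (hodd : p ≠ 2)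
    (P : Sylow p G) (hnc : ¬ IsCyclic (P : Subgroup G)) {s : ℕ} (hs : 1 < s) :
    p ^ s ∣ Nat.card {x : G // orderOf x = p ^ s} := by
  have hX : Nat.card {x : (P : Subgroup G) // orderOf x = p ^ s} =
      Nat.card {x : G // x ∈ (P : Subgroup G) ∧ orderOf x = p ^ s} := Nat.card_congr
    { toFun := fun x => ⟨x.1.1, x.1.2, by rw [Subgroup.orderOf_coe]; exact x.2⟩
      invFun := fun x => ⟨⟨x.1, x.2.1⟩, by rw [← Subgroup.orderOf_coe]; exact x.2.2⟩
      left_inv := fun x => rfl
      right_inv := fun x => rfl }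
  have hd := dvd_card_orderOf hodd P.2 hnc hs
  rw [hX, card_orderOf_eq, Nat.totient_prime_pow hp.out (by omega)] at hd
  have hpp : p ^ (s - 1) * p = p ^ s := by rw [← pow_succ]; congr 1; omega
  have hd' : p ^ (s - 1) * p ∣ p ^ (s - 1) * ((p - 1) * Nat.card {C : Subgroup G // C ≤ (P : Subgroup G) ∧ IsCyclic C ∧ Nat.card C = p ^ s}) := by
    rw [hpp, ← mul_assoc]; exact hd
  have h1 := Nat.dvd_of_mul_dvd_mul_left (pow_pos hp.out.pos _) hd'
  have hcop : Nat.Coprime p (p - 1) := hp.out.coprime_iff_not_dvd.2 fun h => by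
    have := hp.out.one_lt
    have := Nat.le_of_dvd (by omega) h
    omega
  have h2 := hcop.dvd_of_dvd_mul_left h1
  have e : Nat.card {x : G // orderOf x = p ^ s} = Nat.card {x : G // x ∈ (⊤ : Subgroup G) ∧ orderOf x = p ^ s} :=
    Nat.card_congr (Equiv.subtypeEquivRight fun x => by simp)
  rw [e, card_orderOf_eq, Nat.totient_prime_pow hp.out (by omega), mul_assoc]
  refine dvd_trans (dvd_of_eq hpp.symm) ?_
  exact Nat.mul_dvd_mul_left _ (dvd_mul_of_dvd_right (((card_cyclic_modEq P s).dvd_iff dvd_rfl).2 h2) _)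


/-- Let G be a finite group, p an odd prime dividing the order of G whose Sylow p-subgroups are not cyclic, and n = p^s·m with s > 1 and m coprime to p. Then the number of elements of G of order n is a multiple of p^s. -/
theorem result {G : Type*} [Group G] [Finite G] (p : ℕ) [Fact p.Prime] (hodd : p ≠ 2) (hpG : p ∣ Nat.card G)
    (P : Sylow p G) (hP : ¬ IsCyclic ↥(P : Subgroup G)) (s m : ℕ) (hs : 1 < s) (hm : Nat.Coprime p m) :
    p ^ s ∣ Nat.card {g : G // orderOf g = p ^ s * m} := by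
  classical
  haveI : Fintype G := Fintype.ofFinite G
  have hp := (Fact.out : p.Prime)
  have hcop : Nat.Coprime (p ^ s) m := hm.pow_left s
  -- the inverse of `p ^ s` modulo `m`
  have hm0 : m ≠ 0 := by rintro rfl; rw [Nat.coprime_zero_right] at hm; exact hp.one_lt.ne' hm
  let Y := {y : G // orderOf y = m}
  let U : Y → Type _ := fun y => {u : G // Commute y.1 u ∧ orderOf u = p ^ s}
  let F : (Σ y : Y, U y) → {g : G // orderOf g = p ^ s * m} := fun t => ⟨t.1.1 * t.2.1, by
    rw [t.2.2.1.orderOf_mul_eq_mul_orderOf_of_coprime (by rw [t.1.2, t.2.2.2]; exact hcop.symm), t.1.2, t.2.2.2, mul_comm]⟩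
  have hF : Function.Bijective F := by
    constructor
    · rintro ⟨⟨y, hy⟩, ⟨u, huc, hu⟩⟩ ⟨⟨y', hy'⟩, ⟨u', huc', hu'⟩⟩ e
      have e' : y * u = y' * u' := congrArg Subtype.val e
      have h1 := congrArg (fun g : G => g ^ p ^ s) e'
      rw [huc.mul_pow, huc'.mul_pow, ← hu, pow_orderOf_eq_one, hu, ← hu', pow_orderOf_eq_one, mul_one, mul_one, hu'] at h1
      have h2 : y = y' := by
        refine (Set.InjOn.eq_iff (f := fun g : G => g) (s := Set.univ) (fun _ _ _ _ h => h) trivial trivial).1 ?_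
        obtain ⟨a, ha⟩ := exists_pow_eq_self_of_coprime (n := p ^ s) (x := y) (hy ▸ hcop)
        obtain ⟨b, hb⟩ := exists_pow_eq_self_of_coprime (n := p ^ s) (x := y') (hy' ▸ hcop)
        calc y = (y ^ p ^ s) ^ a := ha.symm
          _ = (y' ^ p ^ s) ^ a := by rw [h1]
          _ = y' := by
            have : (y ^ p ^ s) ^ a = y := ha
            have hord : orderOf (y' ^ p ^ s) = m := by rw [Nat.Coprime.orderOf_pow (hy' ▸ hcop.symm), hy']
            have hab : (y' ^ p ^ s) ^ a = (y' ^ p ^ s) ^ b := by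
              rw [pow_eq_pow_iff_modEq, hord]
              have ha' : y ^ (p ^ s * a) = y ^ 1 := by rw [pow_mul, ha, pow_one]
              have hb' : y' ^ (p ^ s * b) = y' ^ 1 := by rw [pow_mul, hb, pow_one]
              rw [pow_eq_pow_iff_modEq, hy] at ha'
              rw [pow_eq_pow_iff_modEq, hy'] at hb'
              exact Nat.ModEq.cancel_left_of_coprime hcop.symm (ha'.trans hb'.symm)
            rw [hab, hb]
      subst h2
      obtain rfl : u = u' := mul_left_cancel e'
      rfl
    · rintro ⟨g, hg⟩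
      obtain ⟨a, b, hab⟩ := (Int.isCoprime_iff_nat_coprime.2 (by simpa using hcop) : IsCoprime ((p ^ s : ℕ) : ℤ) (m : ℤ))
      have hg1 : g ^ (((p ^ s : ℕ) : ℤ) * (m : ℤ)) = 1 := by
        rw [← Nat.cast_mul, zpow_natCast, ← hg, pow_orderOf_eq_one]
      set y := g ^ (a * ((p ^ s : ℕ) : ℤ)) with hydef
      set u := g ^ (b * (m : ℤ)) with hudef
      have hgy : y * u = g := by rw [hydef, hudef, ← zpow_add, hab, zpow_one]
      have hy1 : y ^ m = 1 := by
        rw [hydef, ← zpow_natCast, ← zpow_mul, mul_assoc, mul_comm, zpow_mul, hg1, one_zpow]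
      have hu1 : u ^ p ^ s = 1 := by
        rw [hudef, ← zpow_natCast, ← zpow_mul, mul_assoc, mul_comm (m : ℤ), mul_comm b, zpow_mul, hg1, one_zpow]
      have hc : Commute y u := ((Commute.refl g).zpow_zpow _ _)
      have hdy := orderOf_dvd_of_pow_eq_one hy1
      have hdu := orderOf_dvd_of_pow_eq_one hu1
      have hmul := hc.orderOf_mul_eq_mul_orderOf_of_coprime
        ((hcop.symm.coprime_dvd_left hdy).coprime_dvd_right hdu)
      rw [hgy, hg] at hmul
      have hyo : orderOf y = m := by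
        refine Nat.dvd_antisymm hdy ((hcop.symm.coprime_dvd_right hdu).dvd_of_dvd_mul_right ?_)
        exact ⟨p ^ s, by rw [← hmul, mul_comm]⟩
      have huo : orderOf u = p ^ s := by
        refine Nat.dvd_antisymm hdu ((hcop.coprime_dvd_right hdy).dvd_of_dvd_mul_left ?_)
        exact ⟨m, hmul.symm⟩
      exact ⟨⟨⟨y, hyo⟩, ⟨u, hc, huo⟩⟩, Subtype.ext hgy⟩
  rw [← Nat.card_congr (Equiv.ofBijective F hF), Nat.card_sigma]
  letI : MulAction (P : Subgroup G) Y :=
    { smul := fun g y => ⟨(g : G) * y.1 * (g : G)⁻¹, by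
        rw [← MulAut.conj_apply, (MulAut.conj (g : G)).orderOf_eq]; exact y.2⟩
      one_smul := fun y => Subtype.ext (show ((1 : (P : Subgroup G)) : G) * y.1 * ((1 : (P : Subgroup G)) : G)⁻¹ = y.1 by simp)
      mul_smul := fun a b y => Subtype.ext (show ((a * b : (P : Subgroup G)) : G) * y.1 * ((a * b : (P : Subgroup G)) : G)⁻¹ =
        (a : G) * ((b : G) * y.1 * (b : G)⁻¹) * (a : G)⁻¹ by simp [mul_assoc]) }
  have hinv : ∀ (g : (P : Subgroup G)) (y : Y), Nat.card (U (g • y)) = Nat.card (U y) := fun g y =>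
    (Nat.card_congr ((MulAut.conj (g : G)).toEquiv.subtypeEquiv fun u => and_congr
      ⟨fun h => h.map (MulAut.conj (g : G)), fun h => by
        have := h.map (MulAut.conj (g : G)).symm
        simpa [show ((g • y : Y)).1 = MulAut.conj (g : G) y.1 from rfl, mul_assoc] using this⟩
      (by rw [← (MulAut.conj (g : G)).orderOf_eq u]; rfl))).symm
  rw [← (MulAction.selfEquivSigmaOrbits (P : Subgroup G) Y).symm.sum_comp, Fintype.sum_sigma]
  refine Finset.dvd_sum fun ω _ => ?_
  have hconst : ∀ z : MulAction.orbit (P : Subgroup G) ω.out,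
      Nat.card (U ((MulAction.selfEquivSigmaOrbits (P : Subgroup G) Y).symm ⟨ω, z⟩)) = Nat.card (U ω.out) := by
    rintro ⟨z, g, rfl⟩
    exact hinv g _
  rw [Finset.sum_congr rfl (fun z _ => hconst z), Finset.sum_const, Finset.card_univ, smul_eq_mul,
    ← Nat.card_eq_fintype_card]
  have hC : Nat.card (U ω.out) = Nat.card {x : G // x ∈ Subgroup.centralizer ({ω.out.1} : Set G) ∧ orderOf x = p ^ s} :=
    Nat.card_congr (Equiv.subtypeEquivRight fun u => and_congr_left' (by
      rw [Subgroup.mem_centralizer_singleton_iff]; exact ⟨fun h => h.eq.symm, fun h => h.symm⟩))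
  obtain ⟨k, hk⟩ := P.2.card_orbit ω.out
  rw [hC, hk]
  rcases k with _ | k
  · rw [pow_zero, one_mul]
    set C := Subgroup.centralizer ({ω.out.1} : Set G) with hCdef
    have hsub : (MulAction.orbit (P : Subgroup G) ω.out).Subsingleton := by
      rw [← Set.subsingleton_coe]
      exact Finite.card_le_one_iff_subsingleton.1 (by rw [hk, pow_zero])
    have hPC : (P : Subgroup G) ≤ C := by
      intro g hg
      rw [hCdef, Subgroup.mem_centralizer_singleton_iff]
      have := congrArg Subtype.val (hsub (MulAction.mem_orbit ω.out (⟨g, hg⟩ : (P : Subgroup G))) (MulAction.mem_orbit_self _))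
      exact mul_inv_eq_iff_eq_mul.1 this
    have e : Nat.card {x : C // orderOf x = p ^ s} = Nat.card {x : G // x ∈ C ∧ orderOf x = p ^ s} := Nat.card_congr
      { toFun := fun x => ⟨x.1.1, x.1.2, by rw [Subgroup.orderOf_coe]; exact x.2⟩
        invFun := fun x => ⟨⟨x.1, x.2.1⟩, by rw [← Subgroup.orderOf_coe]; exact x.2.2⟩
        left_inv := fun x => rfl
        right_inv := fun x => rfl }
    rw [← e]
    refine dvd_card_orderOf_group hodd (P.subtype hPC) (fun hc => hP ?_) hs
    exact ((MulEquiv.subgroupCongr (P.coe_subtype hPC)).trans (Subgroup.subgroupOfEquivOfLe hPC)).isCyclic.1 hc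
  · rw [card_orderOf_eq, Nat.totient_prime_pow hp (by omega), ← mul_assoc, ← mul_assoc, pow_succ', mul_assoc p]
    refine dvd_mul_of_dvd_left (dvd_mul_of_dvd_left ?_ _) _
    rw [← mul_assoc, mul_comm p, mul_assoc, ← pow_succ']
    exact dvd_mul_of_dvd_right (by rw [show s - 1 + 1 = s by omega]) _

end Cfsg.Agent.S4003
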