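import Cfsg.Statements.S0640
import Cfsg.Agent.PLocalBasics.AutRankTwo

set_option autoImplicit false
set_option linter.style.longLine false
open Cfsg

namespace Cfsg.Agent.S0640

/-- For odd p, a prime q ≠ p dividing the order of the automorphism group of a p-group of rank at most 2 divides p² - 1 and is less than p. -/
theorem result {R : Type*} [Group R] [Finite R] {p : ℕ} [Fact p.Prime] (hp : p ≠ 2) (hR : IsPGroup p R) (hrk : Cfsg.PRankLE p 2 R) (q : ℕ) (hq : q.Prime) (hqp : q ≠ p) (hdvd : q ∣ Nat.card (MulAut R)) : q ∣ p ^ 2 - 1 ∧ q < p := by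
  have : Fact q.Prime := ⟨hq⟩
  obtain ⟨α, hα⟩ := exists_prime_orderOf_dvd_card' q hdvd
  have h := CfsgLib.PLocalBasics.aut_prime_divisor hp hR hrk hq hqp hα
  refine ⟨h, ?_⟩
  have hp' : p.Prime := Fact.out
  have h2 := hp'.two_le
  rw [show p ^ 2 - 1 = (p + 1) * (p - 1) by rw [← Nat.sq_sub_sq, one_pow]] at h
  rcases hq.dvd_mul.1 h with h | h
  · have h3 := Nat.le_of_dvd (by omega) h
    rcases h3.lt_or_eq with h4 | h4
    · omega
    · obtain ⟨r, hr⟩ := hp'.odd_of_ne_two hp
      exfalso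
      rcases hq.eq_two_or_odd' with h5 | ⟨s, hs⟩ <;> omega
  · have h3 := Nat.le_of_dvd (by omega) h
    omega

end Cfsg.Agent.S0640
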