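import Cfsg.Statements.S1461
import Mathlib.Tactic
import Cfsg.Agent.PLocalBasics.PLength
import Cfsg.Agent.PCore.Basic
import Cfsg.Agent.Signalizer.MinSimple2

set_option autoImplicit false
open Cfsg
open scoped commutatorElement

namespace Cfsg.Agent.S1461

section
variable {G : Type*} [Group G] [Finite G] {p : ℕ} [hp : Fact p.Prime]

theorem exists_core_sup (hpl : Cfsg.PLengthLE p 1 G) (S : Sylow p G) :
    ∃ U : Subgroup G, U.Normal ∧ (Nat.card U).Coprime p ∧ ((S : Subgroup G) ⊔ U).Normal := by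
  have hU : (Cfsg.upperPSeries p G 1).1.Normal := (Cfsg.upperPSeries p G 1).2
  have hV : (Cfsg.upperPSeries p G 2).1.Normal := (Cfsg.upperPSeries p G 2).2
  set U := (Cfsg.upperPSeries p G 1).1 with hUdef
  set V := (Cfsg.upperPSeries p G 2).1 with hVdef
  have hU0 : (Nat.card U).Coprime p := by
    rw [hUdef, Cfsg.upperPSeries]
    simp only [Even.zero, ↓reduceIte]
    rw [CfsgLib.PCore.card_comap_mk']
    refine Nat.Coprime.mul_left ?_ (CfsgLib.PCore.pPrimeCore_coprime p _)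
    show (Nat.card ↥(⊥ : Subgroup G)).Coprime p
    rw [Subgroup.card_bot]; exact Nat.coprime_one_left p
  have e2 : V = (Cfsg.pCore p (G ⧸ U)).comap (QuotientGroup.mk' U) := by
    rw [hVdef, show (2 : ℕ) = 1 + 1 from rfl, Cfsg.upperPSeries]
    simp only [Nat.not_even_one, ↓reduceIte]
    rfl
  have h3 : (Cfsg.pPrimeCore p (G ⧸ V)).comap (QuotientGroup.mk' V) = ⊤ := by
    have h := hpl
    rw [Cfsg.PLengthLE, show (2 * 1 + 1 : ℕ) = 2 + 1 from rfl, Cfsg.upperPSeries] at h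
    simp only [even_two, ↓reduceIte] at h
    exact h
  refine ⟨U, hU, hU0, ?_⟩
  suffices (S : Subgroup G) ⊔ U = V by rw [this]; exact hV
  refine le_antisymm (sup_le ?_ ?_) ?_
  · -- the image of S in G/V is a p-group and a p'-group
    intro s hs
    rw [← QuotientGroup.eq_one_iff (N := V), ← orderOf_eq_one_iff]
    have h4 : Cfsg.pPrimeCore p (G ⧸ V) = ⊤ := by
      rw [← Subgroup.map_comap_eq_self_of_surjective (QuotientGroup.mk'_surjective V) (Cfsg.pPrimeCore p _), h3,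
        Subgroup.map_top_of_surjective _ (QuotientGroup.mk'_surjective V)]
    have hc := CfsgLib.PCore.pPrimeCore_coprime p (G ⧸ V)
    rw [h4, Subgroup.card_top] at hc
    obtain ⟨n, hn⟩ := IsPGroup.iff_card.1 S.2
    exact Nat.eq_one_of_dvd_coprimes (hc.pow_right n) (orderOf_dvd_natCard _)
      ((orderOf_map_dvd (QuotientGroup.mk' V) s).trans (hn ▸ Subgroup.orderOf_dvd_natCard _ hs))
  · rw [e2]
    intro u hu
    show QuotientGroup.mk' U u ∈ Cfsg.pCore p (G ⧸ U)
    rw [QuotientGroup.mk'_apply, (QuotientGroup.eq_one_iff u).2 hu]; exact Subgroup.one_mem _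
  · rw [e2]
    refine (Subgroup.comap_mono (CfsgLib.PCore.pCore_le_sylow (S.mapSurjective (QuotientGroup.mk'_surjective U)))).trans ?_
    rw [Sylow.coe_mapSurjective, Subgroup.comap_map_eq, QuotientGroup.ker_mk']

end

/-- Let G be a finite solvable group, p a prime with G = O_{p',p,p'}(G), and S a Sylow p-subgroup. Then: if S ≤ G' then S ≤ [N_G(S), N_G(S)]; if Y ⊆ S and xYx⁻¹ ⊆ S then x = g c for some g ∈ N_G(S) and c centralizing Y; and for every p-subgroup Q there is x ∈ C_G(Q ∩ S) with xQx⁻¹ ≤ S. -/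
theorem result {G : Type*} [Group G] [Finite G] [Group.IsSolvable G] (p : ℕ) [Fact p.Prime] (hpl : Cfsg.PLengthLE p 1 G) (S : Sylow p G) :
    ((S : Subgroup G) ≤ commutator G → (S : Subgroup G) ≤ ⁅Subgroup.normalizer ((S : Subgroup G) : Set G), Subgroup.normalizer ((S : Subgroup G) : Set G)⁆) ∧
      (∀ (Y : Set G) (x : G), Y ⊆ (S : Subgroup G) → (fun y => x * y * x⁻¹) '' Y ⊆ (S : Subgroup G) →
        ∃ g ∈ Subgroup.normalizer ((S : Subgroup G) : Set G), ∃ c ∈ Subgroup.centralizer Y, g * c = x) ∧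
      ∀ Q : Subgroup G, IsPGroup p Q → ∃ x ∈ Subgroup.centralizer ((Q ⊓ (S : Subgroup G) : Subgroup G) : Set G), Q.map (MulAut.conj x).toMonoidHom ≤ (S : Subgroup G) := by
  obtain ⟨U, hUn, hUc, hSU⟩ := exists_core_sup hpl S
  set N := Subgroup.normalizer ((S : Subgroup G) : Set G) with hN
  have htop : U ⊔ N = ⊤ := by
    have h := Sylow.normalizer_sup_eq_top' S (N := (S : Subgroup G) ⊔ U) le_sup_left
    rw [eq_top_iff, ← h]
    exact sup_le le_sup_right (sup_le (Subgroup.le_normalizer.trans le_sup_right) le_sup_left)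
  have hdec : ∀ x : G, ∃ g ∈ N, ∃ u ∈ U, g * u = x := fun x => by
    have hx : x ∈ ((N ⊔ U : Subgroup G) : Set G) := by rw [sup_comm, htop]; trivial
    rw [Subgroup.mul_normal N U] at hx
    obtain ⟨g, hg, u, hu, rfl⟩ := hx
    exact ⟨g, hg, u, hu, rfl⟩
  have hdisj : ∀ z ∈ U, z ∈ (S : Subgroup G) → z = 1 := fun z hz hzS => by
    obtain ⟨n, hn⟩ := IsPGroup.iff_card.1 S.2
    rw [← orderOf_eq_one_iff]
    exact Nat.eq_one_of_dvd_coprimes (hUc.pow_right n) (Subgroup.orderOf_dvd_natCard _ hz)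
      (hn ▸ Subgroup.orderOf_dvd_natCard _ hzS)
  refine ⟨fun hS x hx => ?_, fun Y x hY hxY => ?_, fun Q hQ => ?_⟩
  · refine CfsgLib.Signalizer.mem_commutator_of_coprime (K := U) (L := N)
      (by rw [Subgroup.normalizer_eq_top (H := U)]; exact le_top) (Subgroup.le_normalizer hx) ?_ ?_
    · obtain ⟨n, hn⟩ := IsPGroup.iff_card.1 S.2
      exact Nat.Coprime.coprime_dvd_left (hn ▸ Subgroup.orderOf_dvd_natCard _ hx) (hUc.symm.pow_left n)
    · rw [htop]; exact hS hx
  · obtain ⟨g, hg, u, hu, rfl⟩ := hdec x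
    refine ⟨g, hg, u, Subgroup.mem_centralizer_iff.2 fun y hy => ?_, rfl⟩
    have h1 : g * u * y * (g * u)⁻¹ ∈ (S : Subgroup G) := hxY ⟨y, hy, rfl⟩
    have h2 : u * y * u⁻¹ ∈ (S : Subgroup G) := by
      have := (Subgroup.mem_normalizer_iff''.1 hg _).1 h1
      simpa [mul_assoc] using this
    have h3 : u * y * u⁻¹ * y⁻¹ = 1 := hdisj _
      (by rw [show u * y * u⁻¹ * y⁻¹ = u * (y * u⁻¹ * y⁻¹) by group]
          exact U.mul_mem hu (hUn.conj_mem _ (U.inv_mem hu) y))
      ((S : Subgroup G).mul_mem h2 ((S : Subgroup G).inv_mem (hY hy)))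
    calc y * u = (u * y * u⁻¹ * y⁻¹) * y * u := by rw [h3, one_mul]
      _ = u * y := by group
  · obtain ⟨R, hR⟩ := hQ.exists_le_sylow
    obtain ⟨x, rfl⟩ := MulAction.exists_smul_eq G S R
    obtain ⟨g, hg, u, hu, rfl⟩ := hdec x
    have hu' : g * u * g⁻¹ ∈ U := hUn.conj_mem u hu g
    set v := g * u * g⁻¹
    have hmem : ∀ q ∈ Q, v⁻¹ * q * v ∈ (S : Subgroup G) := fun q hq => by
      have h := hR hq
      rw [Sylow.coe_subgroup_smul] at h
      obtain ⟨s, hs, hsq⟩ := h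
      have hsq' : g * u * s * (g * u)⁻¹ = q := hsq
      have : v⁻¹ * q * v = g * s * g⁻¹ := by rw [← hsq']; simp only [v]; group
      rw [this]
      exact (Subgroup.mem_normalizer_iff.1 hg s).1 hs
    refine ⟨v⁻¹, Subgroup.mem_centralizer_iff.2 fun y hy => ?_, ?_⟩
    · obtain ⟨hyQ, hyS⟩ := Subgroup.mem_inf.1 hy
      have h3 : v⁻¹ * y * v * y⁻¹ = 1 := hdisj _
        (by rw [show v⁻¹ * y * v * y⁻¹ = v⁻¹ * (y * v * y⁻¹) by group]
            exact U.mul_mem (U.inv_mem hu') (hUn.conj_mem _ hu' y))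
        ((S : Subgroup G).mul_mem (hmem y hyQ) ((S : Subgroup G).inv_mem hyS))
      calc y * v⁻¹ = (v⁻¹ * y * v * y⁻¹) * y * v⁻¹ := by rw [h3, one_mul]
        _ = v⁻¹ * y := by group
    · rintro _ ⟨q, hq, rfl⟩
      simpa [MulAut.conj_apply, mul_assoc] using hmem q hq

end Cfsg.Agent.S1461
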