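import Cfsg.Statements.S1395
import Mathlib.Tactic
import Cfsg.Agent.Signalizer.MinSimple2

set_option autoImplicit false
open Cfsg
open scoped Pointwise
open scoped commutatorElement

namespace Cfsg.Agent.S1395

/-- Let G be a minimal simple group of odd order, A a subgroup satisfying the transitivity hypothesis with K = O_{π(A)'}(C_G(A)), q a prime not dividing the order of A, and P a proper subgroup all of whose prime divisors divide the order of A, containing A as a subnormal subgroup, such that any two maximal A-invariant q-subgroups are conjugate under K. Then (a) K ∩ C_G(P) = O_{π(A)'}(C_G(P)); (b) any two maximal P-invariant q-subgroups are conjugate under O_{π(A)'}(C_G(P)); (c) every maximal P-invariant q-subgroup is a maximal A-invariant q-subgroup; (d) for every maximal P-invariant q-subgroup Q, P ∩ N_G(P)' ≤ N_G(Q)' and N_G(P) is generated by O_{π(A)'}(C_G(P)) and N_G(P) ∩ N_G(Q). -/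
theorem result {G : Type*} [Group G] [Finite G] (hG : Cfsg.IsMinSimpleOddOrder G)
    (A : Subgroup G) (hA : Cfsg.TransitivityHypothesis A) (q : ℕ) (hq : q.Prime) (hqA : ¬ q ∣ Nat.card A)
    (P : Subgroup G) (hP : P ≠ ⊤) (hPπ : (∀ r : ℕ, r.Prime → r ∣ Nat.card P → r ∣ Nat.card A)) (hAP : A ≤ P) (hsn : (A.subgroupOf P).IsSubnormal)
    (htr : ∀ Q₁ ∈ Cfsg.maxInvSubgroups ⊤ A {q}, ∀ Q₂ ∈ Cfsg.maxInvSubgroups ⊤ A {q}, ∃ k ∈ Cfsg.piCoreOf (Cfsg.primesNotDvd (Nat.card A)) (Subgroup.centralizer (A : Set G)), Q₂ = Q₁.map (MulAut.conj k).toMonoidHom) :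
    Cfsg.piCoreOf (Cfsg.primesNotDvd (Nat.card A)) (Subgroup.centralizer (A : Set G)) ⊓ Subgroup.centralizer (P : Set G) = Cfsg.piCoreOf (Cfsg.primesNotDvd (Nat.card A)) (Subgroup.centralizer (P : Set G)) ∧
      (∀ Q₁ ∈ Cfsg.maxInvSubgroups ⊤ P {q}, ∀ Q₂ ∈ Cfsg.maxInvSubgroups ⊤ P {q}, ∃ k ∈ Cfsg.piCoreOf (Cfsg.primesNotDvd (Nat.card A)) (Subgroup.centralizer (P : Set G)), Q₂ = Q₁.map (MulAut.conj k).toMonoidHom) ∧
      Cfsg.maxInvSubgroups ⊤ P {q} ⊆ Cfsg.maxInvSubgroups ⊤ A {q} ∧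
      ∀ Q ∈ Cfsg.maxInvSubgroups ⊤ P {q},
        P ⊓ ⁅Subgroup.normalizer (P : Set G), Subgroup.normalizer (P : Set G)⁆ ≤ ⁅Subgroup.normalizer (Q : Set G), Subgroup.normalizer (Q : Set G)⁆ ∧
        Subgroup.normalizer (P : Set G) = Cfsg.piCoreOf (Cfsg.primesNotDvd (Nat.card A)) (Subgroup.centralizer (P : Set G)) ⊔ (Subgroup.normalizer (P : Set G) ⊓ Subgroup.normalizer (Q : Set G)) := by
  have := Fact.mk hq
  have htr' : CfsgLib.Signalizer.Trans A A q := ⟨subset_rfl, fun Q₁ h₁ Q₂ h₂ => htr Q₁ h₁ Q₂ h₂⟩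
  obtain ⟨hsub, hconj⟩ := CfsgLib.Signalizer.trans_of_subnormal hG hA hqA hAP hPπ hsn htr'
  refine ⟨CfsgLib.Signalizer.coreCentralizer_inf_eq hG hA hAP, fun Q₁ h₁ Q₂ h₂ => hconj Q₁ h₁ Q₂ h₂, hsub,
    fun Q hQ => ?_⟩
  set NP := Subgroup.normalizer (P : Set G)
  set L := NP ⊓ Subgroup.normalizer (Q : Set G) with hL
  set KP := Cfsg.piCoreOf (Cfsg.primesNotDvd (Nat.card A)) (Subgroup.centralizer (P : Set G))
  have hKN : KP ≤ NP := (CfsgLib.Signalizer.piCoreOf_le _ _).trans (Subgroup.centralizer_le_normalizer _)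
  have hLK : L ≤ Subgroup.normalizer (KP : Set G) :=
    (inf_le_left.trans (CfsgLib.PCore.le_normalizer_centralizer le_rfl)).trans
      (CfsgLib.Signalizer.normalizer_le_normalizer_piCoreOf _ _)
  have heq : NP = KP ⊔ L := by
    refine le_antisymm (fun n hn => ?_) (sup_le hKN inf_le_left)
    obtain ⟨k, hk, he⟩ := hconj Q hQ _ (CfsgLib.Signalizer.conj_mem_maxInv_of_normalizer hn hQ)
    have hl : k⁻¹ * n ∈ L := by
      refine Subgroup.mem_inf.2 ⟨mul_mem (inv_mem (hKN hk)) hn, Subgroup.mem_normalizer_iff_map_conj_eq.2 ?_⟩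
      show MulAut.conj (k⁻¹ * n) • Q = Q
      rw [CfsgLib.Signalizer.conj_smul_mul, he, ← CfsgLib.Signalizer.conj_smul_mul, inv_mul_cancel, map_one, one_smul]
    have := mul_mem (Subgroup.mem_sup_left (T := L) hk) (Subgroup.mem_sup_right (S := KP) hl)
    rwa [mul_inv_cancel_left] at this
  refine ⟨fun x hx => ?_, heq⟩
  obtain ⟨hxP, hxc⟩ := Subgroup.mem_inf.1 hx
  rw [heq] at hxc
  have hxL : x ∈ L := Subgroup.mem_inf.2 ⟨Subgroup.le_normalizer hxP,
    (CfsgLib.Signalizer.mem_invSubgroups_top_singleton.1 hQ.1).2 hxP⟩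
  refine Subgroup.commutator_mono inf_le_right inf_le_right
    (CfsgLib.Signalizer.mem_commutator_of_coprime hLK hxL ?_ hxc)
  refine Nat.Coprime.coprime_dvd_left (Subgroup.orderOf_dvd_natCard _ hxP) (Nat.coprime_of_dvd ?_)
  intro r hr hrP hrK
  exact (CfsgLib.Signalizer.piCoreOf_isPi _ _ r hr hrK).2 (hPπ r hr hrP)

end Cfsg.Agent.S1395
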