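import Cfsg.Statements.S1396
import Mathlib.Tactic
import Cfsg.Agent.Signalizer.MinSimple2

set_option autoImplicit false
open Cfsg
open scoped commutatorElement

namespace Cfsg.Agent.S1396

/-- Let G be a minimal simple group of odd order, p a prime dividing the order of G and A an abelian p-subgroup. Suppose either (1) A consists exactly of the elements x of C_G(A) with x^p = 1, and every proper subgroup of G has p-length at most one, or (2) A is normal and self-centralizing in some Sylow p-subgroup of G and has rank at least 2. Then A satisfies the transitivity hypothesis. -/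
theorem result {G : Type*} [Group G] [Finite G] (hG : Cfsg.IsMinSimpleOddOrder G)
    (p : ℕ) [Fact p.Prime] (hp : p ∣ Nat.card G) (A : Subgroup G) (hAp : IsPGroup p A) (hAc : IsMulCommutative A)
    (h : (∀ x ∈ Subgroup.centralizer (A : Set G), x ^ p = 1 ↔ x ∈ A) ∧ (∀ H : Subgroup G, H ≠ ⊤ → Cfsg.PLengthLE p 1 H) ∨
      ∃ P : Sylow p G, Cfsg.IsSCN (P : Subgroup G) A ∧ ¬ Cfsg.PRankLE p 1 A) :
    Cfsg.TransitivityHypothesis A := by
  have := hAc
  rcases h with ⟨hx, -⟩ | ⟨P, hP, hr⟩
  · refine CfsgLib.Signalizer.transitivityHypothesis_of_omega hG hp hAp ?_ fun x hxC hxp => (hx x hxC).1 hxp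
    rintro rfl
    obtain ⟨g, hg⟩ := exists_prime_orderOf_dvd_card' p hp
    have h1 : g ∈ (⊥ : Subgroup G) := (hx g (Subgroup.mem_centralizer_iff.2 (by
      intro a ha
      rw [Subgroup.mem_bot.1 ha]; simp))).1 (by rw [← hg]; exact pow_orderOf_eq_one g)
    rw [Subgroup.mem_bot] at h1
    rw [h1, orderOf_one] at hg
    exact (Fact.out : p.Prime).ne_one hg.symm
  · refine CfsgLib.Signalizer.transitivityHypothesis_of_omega hG hp hAp ?_ fun x hxC hxp =>
      CfsgLib.Signalizer.mem_of_scn P hP hxC hxp
    rintro rfl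
    refine hr fun E _ _ => ?_
    rw [pow_one, Subsingleton.elim E ⊥, Subgroup.card_bot]
    exact (Fact.out : p.Prime).pos

end Cfsg.Agent.S1396
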