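import Cfsg.Statements.S1452
import Cfsg.Agent.NormalEl.Basic

set_option autoImplicit false
open Cfsg

namespace Cfsg.Agent.S1452

/-- Let p be an odd prime and R a finite p-group containing an elementary abelian subgroup of order p ^ 3. If E is a normal elementary abelian subgroup of R of order p ^ 2, then E ≤ A for some normal subgroup A of R with C_R(A) = A that contains an elementary abelian subgroup of order p ^ 3. -/
theorem result {R : Type*} [Group R] [Finite R] (p : ℕ) [Fact p.Prime] (hp : p ≠ 2) (hR : IsPGroup p R) (hr : ¬ Cfsg.PRankLE p 2 R)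
    (E : Subgroup R) [E.Normal] (hE : Cfsg.IsElementaryAbelian p E) (hE2 : Nat.card E = p ^ 2) :
    ∃ A : Subgroup R, E ≤ A ∧ A.Normal ∧ Subgroup.centralizer (A : Set R) = A ∧ ¬ Cfsg.PRankLE p 2 A := by
  classical
  obtain ⟨A₀, hEA, hA₀n, hA₀, hA₀3⟩ := CfsgLib.NormalEl.exists_normal_over hp hR hr E hE hE2
  obtain ⟨A, hA⟩ := (Set.toFinite {A : Subgroup R | A.Normal ∧ IsMulCommutative A ∧ A₀ ≤ A}).exists_maximal
    ⟨A₀, hA₀n, hA₀.1, le_rfl⟩
  obtain ⟨hAn, hAc, hA0A⟩ := hA.prop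
  haveI := hAn
  refine ⟨A, hEA.trans hA0A, hAn, CfsgLib.PGroup.centralizer_maximal_normal_abelian hR hAc
    (fun B hB hBc hle => le_antisymm (hA.2 ⟨hB, hBc, hA0A.trans hle⟩ hle) hle), fun hle => ?_⟩
  have h := hle (A₀.subgroupOf A)
    (by
      haveI := hA₀.1
      exact ⟨⟨fun x y => Subtype.ext (Subtype.ext (CfsgLib.NormalEl.commute_of_elementary hA₀ (Subgroup.mem_subgroupOf.1 x.2) (Subgroup.mem_subgroupOf.1 y.2)))⟩⟩)
    (fun a ha => Subtype.ext (by simpa using hA₀.2 _ ha))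
  rw [Nat.card_congr (Subgroup.subgroupOfEquivOfLe hA0A).toEquiv] at h
  have h2 := hA₀3.trans h
  rw [Nat.pow_le_pow_iff_right (Fact.out : p.Prime).one_lt] at h2
  omega


end Cfsg.Agent.S1452
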