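import Cfsg.Statements.S1457
import Cfsg.Agent.QdFree.Corollaries
-- import your own Cfsg.Agent.* helpers here

set_option autoImplicit false
open Cfsg

namespace Cfsg.Agent.S1457

/-- Let G be a solvable group of odd order, p a prime, S a Sylow p-subgroup of G and A an abelian subgroup of S normal in S. Then A ≤ O_{p',p}(G). -/
theorem result {G : Type*} [Group G] [Finite G] [Group.IsSolvable G] (hodd : Odd (Nat.card G)) (p : ℕ) [Fact p.Prime] (S : Sylow p G) (A : Subgroup G) (hA : A ≤ (S : Subgroup G)) (hAc : IsMulCommutative A)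
    (hAn : (S : Subgroup G) ≤ Subgroup.normalizer (A : Set G)) :
    A ≤ Cfsg.pPrimePCore p G := by
  haveI : IsMulCommutative A := hAc
  by_cases hp2 : p = 2
  · subst hp2
    intro a ha
    obtain ⟨k, hk⟩ := IsPGroup.iff_card.1 S.2
    have h1 : orderOf a ∣ 2 ^ k := hk ▸ Subgroup.orderOf_dvd_natCard _ (hA ha)
    rw [orderOf_eq_one_iff.1 (Nat.eq_one_of_dvd_coprimes ((Nat.coprime_two_left.2 hodd).pow_left k) h1
      (orderOf_dvd_natCard a))]
    exact one_mem _
  intro a ha
  rw [CfsgLib.PCore.mem_pPrimePCore]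
  set O := Cfsg.pPrimeCore p G
  set π := QuotientGroup.mk' O
  have hoddq : Odd (Nat.card (G ⧸ O)) := Odd.of_dvd_nat hodd (Subgroup.card_quotient_dvd_card O)
  set K := Cfsg.pCore p (G ⧸ O)
  haveI : K.Normal := Cfsg.pCore_normal p _
  haveI : (Subgroup.centralizer (K : Set (G ⧸ O))).Normal := Subgroup.normal_centralizer
  have hc : Subgroup.centralizer (K : Set (G ⧸ O)) ≤ K :=
    CfsgLib.PCore.hall_higman CfsgLib.PCore.isPSolvable_of_isSolvable CfsgLib.PCore.pPrimeCore_quotient
  refine CfsgLib.ZJ.mem_of_normal_isPGroup_quotient (Subgroup.centralizer (K : Set (G ⧸ O)))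
    ((CfsgLib.PCore.isPGroup_pCore p _).to_le hc)
    (CfsgLib.ZJ.isPStableOn_of_isNormalizerPStable (CfsgLib.QdFree.isNormalizerPStable_of_odd hoddq hp2) K
      (CfsgLib.PCore.isPGroup_pCore p _) (π a) ?_)
  have hKN : K ≤ Subgroup.normalizer ((A.map π : Subgroup (G ⧸ O)) : Set (G ⧸ O)) := by
    refine le_trans ?_ ((Subgroup.map_mono hAn).trans (Subgroup.le_normalizer_map π))
    rw [← Sylow.coe_mapSurjective (QuotientGroup.mk'_surjective O) S]
    exact CfsgLib.PCore.pCore_le_sylow _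
  have hza : Subgroup.zpowers (π a) ≤ A.map π := Subgroup.zpowers_le.2 ⟨a, ha, rfl⟩
  have h1 : ⁅K, Subgroup.zpowers (π a)⁆ ≤ A.map π := by
    refine Subgroup.commutator_le.2 fun k hk z hz => ?_
    rw [commutatorElement_def]
    exact (A.map π).mul_mem ((Subgroup.mem_normalizer_iff.1 (hKN hk) z).1 (hza hz)) ((A.map π).inv_mem (hza hz))
  rw [Subgroup.commutator_eq_bot_iff_le_centralizer]
  exact fun x hx => Subgroup.mem_centralizer_iff.2 fun z hz => setLike_mul_comm (hza hz) (h1 hx)

end Cfsg.Agent.S1457
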