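import Cfsg.Statements.S1458
import Cfsg.Agent.ZJCenter.Normal
import Cfsg.Agent.QdFree.Corollaries
import Cfsg.Agent.PCore.PConstrained
-- import your own Cfsg.Agent.* helpers here

set_option autoImplicit false
open Cfsg

namespace Cfsg.Agent.S1458

/-- Let G be a solvable group of odd order, p a prime and S a Sylow p-subgroup of G. Then the subgroup generated by the centre of the Thompson subgroup of S and O_{p'}(G) is normal in G. -/
theorem result {G : Type*} [Group G] [Finite G] [Group.IsSolvable G] (hodd : Odd (Nat.card G)) (p : ℕ) [Fact p.Prime] (S : Sylow p G) :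
    (Cfsg.centerThompsonOf p (S : Subgroup G) ⊔ Cfsg.pPrimeCore p G).Normal := by
  haveI : (Cfsg.pPrimeCore p G).Normal := Cfsg.pPrimeCore_normal p G
  rw [CfsgLib.ZJCenter.centerThompsonOf_eq]
  by_cases hp : p = 2
  · subst hp
    have hS : (S : Subgroup G) = ⊥ := by
      obtain ⟨k, hk⟩ := IsPGroup.iff_card.1 S.isPGroup'
      have h1 : Odd (2 ^ k) := hk ▸ hodd.of_dvd_nat (Subgroup.card_subgroup_dvd_card _)
      rcases Nat.eq_zero_or_pos k with rfl | h0
      · exact Subgroup.card_eq_one.1 (by rw [hk, pow_zero])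
      · exact absurd h1 (Nat.not_odd_iff_even.2 ((Nat.even_pow' h0.ne').2 even_two))
    have hZ : CfsgLib.ZJCenter.Z 2 (S : Subgroup G) = ⊥ := le_bot_iff.1 (hS ▸ CfsgLib.ZJCenter.Z_le _)
    rw [hZ, bot_sup_eq]
    exact Cfsg.pPrimeCore_normal 2 G
  set π := QuotientGroup.mk' (Cfsg.pPrimeCore p G) with hπ
  have hπs : Function.Surjective π := QuotientGroup.mk'_surjective _
  have hoddq : Odd (Nat.card (G ⧸ Cfsg.pPrimeCore p G)) :=
    hodd.of_dvd_nat (Subgroup.card_quotient_dvd_card _)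
  have hn := CfsgLib.ZJCenter.Z_normal hp _ _ le_rfl
    (CfsgLib.PCore.hall_higman (CfsgLib.PCore.isPSolvable_quotient CfsgLib.PCore.isPSolvable_of_isSolvable _)
      CfsgLib.PCore.pPrimeCore_quotient)
    (CfsgLib.QdFree.isNormalizerPStable_of_odd hoddq hp) (S.mapSurjective hπs)
  have hinj : ∀ x ∈ (S : Subgroup G), π x = 1 → x = 1 := fun x hx h1 => by
    have h2 : x ∈ (S : Subgroup G) ⊓ Cfsg.pPrimeCore p G := ⟨hx, (QuotientGroup.eq_one_iff x).1 h1⟩
    rwa [CfsgLib.PCore.inf_eq_bot_of_isPGroup_of_coprime S.isPGroup' (CfsgLib.PCore.pPrimeCore_coprime p G),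
      Subgroup.mem_bot] at h2
  rw [Sylow.coe_mapSurjective, CfsgLib.ZJCenter.Z_map π hinj] at hn
  have hk : π.ker = Cfsg.pPrimeCore p G := QuotientGroup.ker_mk' _
  rw [← hk, ← Subgroup.comap_map_eq]
  exact hn.comap π

end Cfsg.Agent.S1458
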