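import Cfsg.Statements.S0623
import Mathlib
import Cfsg.Agent.StableClosure.Basic

set_option autoImplicit false
open Cfsg
open scoped commutatorElement

namespace Cfsg.Agent.S0623

/-- No element of a finite p-group acts quadratically and nontrivially on the stable normal closure W(S). -/
theorem result {S : Type*} [Group S] [Finite S] {p : ℕ} [Fact p.Prime] (hS : IsPGroup p S) (x : S) (hq : ⁅⁅Cfsg.stableNormalClosure p S, Subgroup.zpowers x⁆, Subgroup.zpowers x⁆ = ⊥) : ⁅Cfsg.stableNormalClosure p S, Subgroup.zpowers x⁆ = ⊥ := by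
  classical
  set W := Cfsg.stableNormalClosure p S with hW
  set X : Set S := {x | ⁅⁅W, Subgroup.zpowers x⁆, Subgroup.zpowers x⁆ = ⊥} with hX
  have hfam : W ≤ W ⊓ Subgroup.centralizer X := by
    refine sInf_le ⟨le_inf (CfsgLib.StableClosure.omegaOne_center_le_stable p) ?_, ?_⟩
    · rw [Cfsg.omegaOne, Subgroup.closure_le]
      rintro z ⟨hz, -⟩
      exact Subgroup.mem_centralizer_iff.mpr fun y _ => Subgroup.mem_center_iff.mp hz y
    intro H _ τ hτ
    obtain ⟨hinj, hfin, ⟨P, hP⟩, hc, hJ, hst⟩ := hτ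
    haveI := hfin
    haveI hVn : (W.map τ).Normal := by
      have hmem : W.map τ = (sInf {W' : Subgroup S | Cfsg.omegaOne p (Subgroup.center S) ≤ W' ∧
        ∀ (H : Type _) [Group H] (τ : S →* H), Cfsg.IsStableEmbedding p τ → (W'.map τ).Normal}).map τ := rfl
      constructor
      intro v hv g
      obtain ⟨w, hw, rfl⟩ := hv
      have key : ∀ W' : Subgroup S, Cfsg.omegaOne p (Subgroup.center S) ≤ W' →
          (∀ (H : Type _) [Group H] (τ : S →* H), Cfsg.IsStableEmbedding p τ → (W'.map τ).Normal) →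
          ∃ y ∈ W', τ y = g * τ w * g⁻¹ := fun W' h1 h2 =>
        (h2 H τ ⟨hinj, hfin, ⟨P, hP⟩, hc, hJ, hst⟩).conj_mem _
          ⟨w, Subgroup.mem_sInf.mp hw W' ⟨h1, h2⟩, rfl⟩ g
      obtain ⟨y, -, hy⟩ := key _ (CfsgLib.StableClosure.omegaOne_center_le p)
        (fun H _ τ h => CfsgLib.StableClosure.omegaCenterThompson_map_normal τ h.1 h.2.2.2.2.1)
      refine ⟨y, Subgroup.mem_sInf.mpr fun W' hW' => ?_, hy⟩
      obtain ⟨y', hy', hyy⟩ := key W' hW'.1 hW'.2
      rwa [hinj (hy.trans hyy.symm)]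
    set V := W.map τ with hV
    set C := Subgroup.centralizer (V : Set H) with hC
    have hps : Cfsg.IsPStableOn p V :=
      hst V (Subgroup.map_mono (CfsgLib.StableClosure.le_omegaCenterThompson p))
    constructor
    intro v hv g
    obtain ⟨u, hu, rfl⟩ := hv
    obtain ⟨w, hwW, hwu⟩ := hVn.conj_mem _ ⟨u, hu.1, rfl⟩ g
    refine ⟨w, ⟨hwW, Subgroup.mem_centralizer_iff.mpr fun x hx => hinj ?_⟩, hwu⟩
    have hqx : ⁅⁅V, Subgroup.zpowers (τ x)⁆, Subgroup.zpowers (τ x)⁆ = ⊥ := by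
      rw [hV, ← MonoidHom.map_zpowers, ← Subgroup.map_commutator, ← Subgroup.map_commutator,
        show ⁅⁅W, Subgroup.zpowers x⁆, Subgroup.zpowers x⁆ = ⊥ from hx, Subgroup.map_bot]
    set a : H := g⁻¹ * τ x * g with ha
    have hqa : ⁅⁅V, Subgroup.zpowers a⁆, Subgroup.zpowers a⁆ = ⊥ := by
      have hVg : V.map (MulAut.conj g⁻¹).toMonoidHom = V := by
        refine le_antisymm ?_ ?_
        · rintro _ ⟨z, hz, rfl⟩
          exact hVn.conj_mem z hz g⁻¹
        · intro z hz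
          refine ⟨g * z * g⁻¹, hVn.conj_mem z hz g, ?_⟩
          simp [mul_assoc]
      have hae : a = (MulAut.conj g⁻¹).toMonoidHom (τ x) := by simp [ha]
      rw [hae, ← MonoidHom.map_zpowers, ← hVg, ← Subgroup.map_commutator, ← Subgroup.map_commutator,
        hqx, Subgroup.map_bot]
    have hPimg : Cfsg.pCore p (H ⧸ C) ≤ τ.range.map (QuotientGroup.mk' C) := by
      refine sSup_le fun N hN => ?_
      have hsurj : Function.Surjective (QuotientGroup.mk' C) := QuotientGroup.mk'_surjective C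
      let P' : Sylow p (H ⧸ C) := P.mapSurjective hsurj
      have hle : N ≤ (P' : Subgroup (H ⧸ C)) := by
        obtain ⟨Q, hQ⟩ := hN.2.exists_le_sylow
        obtain ⟨k, hk⟩ := MulAction.exists_smul_eq (H ⧸ C) Q P'
        intro z hz
        rw [← hk, Sylow.coe_subgroup_smul, Subgroup.mem_pointwise_smul_iff_inv_smul_mem]
        apply hQ
        have := hN.1.conj_mem z hz k⁻¹
        rw [inv_inv] at this
        simpa using this
      rwa [Sylow.coe_mapSurjective, hP] at hle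
    obtain ⟨_, ⟨s, rfl⟩, hs⟩ := hPimg (hps a hqa)
    have hs' : (τ s)⁻¹ * a ∈ C := by
      rw [← QuotientGroup.eq]
      exact hs
    have hcong : ∀ b b' : H, b⁻¹ * b' ∈ C → ∀ n : ℤ, ∃ c ∈ C, b' ^ n = b ^ n * c := by
      intro b b' hbb n
      refine ⟨(b ^ n)⁻¹ * b' ^ n, ?_, by group⟩
      rw [← QuotientGroup.eq, QuotientGroup.mk_zpow, QuotientGroup.mk_zpow,
        QuotientGroup.eq.mpr hbb]
    have hle1 : ⁅V, Subgroup.zpowers (τ s)⁆ ≤ ⁅V, Subgroup.zpowers a⁆ := by
      rw [Subgroup.commutator_le]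
      rintro z hz _ ⟨n, rfl⟩
      obtain ⟨c, hc', hn⟩ := hcong a (τ s) (by simpa using C.inv_mem hs') n
      have hcz : c * z⁻¹ = z⁻¹ * c :=
        ((Subgroup.mem_centralizer_iff.mp hc') _ (V.inv_mem hz)).symm
      have e : ⁅z, a ^ n * c⁆ = ⁅z, a ^ n⁆ := by
        simp only [commutatorElement_def]
        calc z * (a ^ n * c) * z⁻¹ * (a ^ n * c)⁻¹ = z * a ^ n * (c * z⁻¹) * (c⁻¹ * (a ^ n)⁻¹) := by group
          _ = z * a ^ n * (z⁻¹ * c) * (c⁻¹ * (a ^ n)⁻¹) := by rw [hcz]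
          _ = _ := by group
      show ⁅z, τ s ^ n⁆ ∈ _
      rw [hn, e]
      exact Subgroup.commutator_mem_commutator hz ⟨n, rfl⟩
    have hqs : ⁅⁅V, Subgroup.zpowers (τ s)⁆, Subgroup.zpowers (τ s)⁆ = ⊥ := by
      rw [Subgroup.commutator_eq_bot_iff_le_centralizer]
      intro z hz
      rw [Subgroup.mem_centralizer_iff]
      rintro _ ⟨n, rfl⟩
      obtain ⟨c, hc', hn⟩ := hcong a (τ s) (by simpa using C.inv_mem hs') n
      have hz' := hle1 hz
      have h1 : a ^ n * z = z * a ^ n :=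
        Subgroup.mem_centralizer_iff.mp (Subgroup.commutator_eq_bot_iff_le_centralizer.mp hqa hz') _ ⟨n, rfl⟩
      have h2 : z * c = c * z :=
        Subgroup.mem_centralizer_iff.mp hc' z (Subgroup.commutator_le_left V _ hz')
      show τ s ^ n * z = z * τ s ^ n
      rw [hn, mul_assoc, ← h2, ← mul_assoc, h1, mul_assoc]
    have hsX : s ∈ X := by
      show ⁅⁅W, Subgroup.zpowers s⁆, Subgroup.zpowers s⁆ = ⊥
      rw [hV, ← MonoidHom.map_zpowers, ← Subgroup.map_commutator, ← Subgroup.map_commutator,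
        Subgroup.map_eq_bot_iff_of_injective _ hinj] at hqs
      exact hqs
    have hsu : τ s * τ u = τ u * τ s := by
      rw [← map_mul, ← map_mul, Subgroup.mem_centralizer_iff.mp hu.2 s hsX]
    have hau : a * τ u = τ u * a := by
      have h2 : τ u * ((τ s)⁻¹ * a) = (τ s)⁻¹ * a * τ u :=
        Subgroup.mem_centralizer_iff.mp hs' (τ u) ⟨u, hu.1, rfl⟩
      calc a * τ u = τ s * ((τ s)⁻¹ * a * τ u) := by group
        _ = τ s * τ u * ((τ s)⁻¹ * a) := by rw [← h2, ← mul_assoc]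
        _ = τ u * a := by rw [hsu]; group
    rw [map_mul, map_mul, hwu]
    calc τ x * (g * τ u * g⁻¹) = g * (a * τ u) * g⁻¹ := by rw [ha]; group
      _ = g * (τ u * a) * g⁻¹ := by rw [hau]
      _ = g * τ u * g⁻¹ * τ x := by rw [ha]; group
  rw [Subgroup.commutator_eq_bot_iff_le_centralizer]
  intro w hw
  rw [Subgroup.mem_centralizer_iff]
  rintro _ ⟨n, rfl⟩
  have h1 : x * w = w * x := Subgroup.mem_centralizer_iff.mp (hfam hw).2 x hq
  exact (Commute.zpow_left h1 n).eq

end Cfsg.Agent.S0623
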