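import Cfsg.Statements.S3370
import Cfsg.Agent.RankOneP.Basic

set_option autoImplicit false
open Cfsg

namespace Cfsg.Agent.S3370


theorem num {p q n a : ℕ} (hp : p.Prime) (hq : q.Prime) (hn : 1 ≤ n) (ha : 1 ≤ a) (h : q ^ n = p ^ a + 1) :
    (q = 2 ∧ a = 1) ∨ (p = 2 ∧ n = 1) ∨ (p = 2 ∧ q = 3 ∧ n = 2 ∧ a = 3) := by
  rcases hq.eq_two_or_odd' with rfl | hqo
  · left
    refine ⟨rfl, ?_⟩
    have hpo : Odd p := by
      refine hp.odd_of_ne_two ?_
      rintro rfl
      have : 2 ∣ 2 ^ a + 1 := h ▸ dvd_pow_self 2 (by omega)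
      have : 2 ∣ 2 ^ a := dvd_pow_self 2 (by omega)
      omega
    rcases Nat.even_or_odd a with hae | hao
    · exfalso
      obtain ⟨b, rfl⟩ := hae
      obtain ⟨c, hc⟩ := hpo.pow (n := b)
      rw [pow_add, hc] at h
      have h1 : (2 * c + 1) * (2 * c + 1) = 4 * (c * c + c) + 1 := by ring
      rw [h1] at h
      rcases Nat.lt_or_ge n 2 with h2 | h2
      · obtain rfl : n = 1 := by omega
        have : 1 < p ^ (b + b) := Nat.one_lt_pow (by omega) hp.one_lt
        rw [pow_add, hc, h1] at this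
        omega
      · have : 4 ∣ 2 ^ n := pow_dvd_pow 2 h2
        omega
    · by_contra ha1
      set S : ℤ := ∑ i ∈ Finset.range a, (-(p:ℤ)) ^ i with hS
      have hmul : S * ((p:ℤ) + 1) = ((2 ^ n : ℕ) : ℤ) := by
        have h1 := geom_sum_mul (-(p:ℤ)) a
        rw [hao.neg_pow] at h1
        rw [h]; push_cast
        linear_combination -h1
      have hodd : (S : ZMod 2) = 1 := by
        have hp1 : ((p : ℤ) : ZMod 2) = 1 := by
          obtain ⟨c, rfl⟩ := hpo
          push_cast
          rw [show (2 : ZMod 2) = 0 from rfl]; simp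
        rw [hS, Int.cast_sum]
        simp only [Int.cast_pow, Int.cast_neg, hp1, show (-1 : ZMod 2) = 1 from rfl, one_pow,
          Finset.sum_const, Finset.card_range, nsmul_one]
        obtain ⟨c, rfl⟩ := hao
        push_cast
        rw [show (2 : ZMod 2) = 0 from rfl]; simp
      have hd : S.natAbs ∣ 2 ^ n := Int.natCast_dvd_natCast.1 (by rw [Int.natAbs_dvd]; exact ⟨_, hmul.symm⟩)
      obtain ⟨k, -, hk⟩ := (Nat.dvd_prime_pow Nat.prime_two).1 hd
      rcases Nat.eq_zero_or_pos k with rfl | hk0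
      · have hlt : p + 1 < p ^ a + 1 := by
          have := Nat.pow_lt_pow_right hp.one_lt (show 1 < a by omega)
          rw [pow_one] at this
          omega
        have h2 := congrArg Int.natAbs hmul
        rw [Int.natAbs_mul, hk, Int.natAbs_natCast, h, pow_zero, one_mul,
          show ((p:ℤ) + 1) = ((p + 1 : ℕ) : ℤ) by push_cast; rfl, Int.natAbs_natCast] at h2
        omega
      · have h2 : (2:ℤ) ∣ S := by
          have : (2:ℕ) ∣ S.natAbs := hk ▸ dvd_pow_self 2 hk0.ne'
          exact Int.natCast_dvd.2 this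
        obtain ⟨c, hc⟩ := h2
        rw [hc, Int.cast_mul] at hodd
        rw [show ((2:ℤ) : ZMod 2) = 0 from rfl, zero_mul] at hodd
        exact zero_ne_one hodd
  · have hp2 : p = 2 := by
      by_contra hp2
      obtain ⟨c, hc⟩ := (hp.odd_of_ne_two hp2).pow (n := a)
      obtain ⟨d, hd⟩ := hqo.pow (n := n)
      omega
    subst hp2
    rcases Nat.even_or_odd n with hne | hno
    · obtain ⟨b, rfl⟩ := hne
      right; right
      have hq1 : 1 ≤ q ^ b := Nat.one_le_pow _ _ hq.pos
      have h1 : (q ^ b - 1) * (q ^ b + 1) = 2 ^ a := by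
        have h0 := Nat.sq_sub_sq (q ^ b) 1
        rw [one_pow, sq, ← pow_add, h, Nat.add_sub_cancel] at h0
        rw [mul_comm, h0]
      obtain ⟨i, -, hi⟩ := (Nat.dvd_prime_pow Nat.prime_two).1 (h1 ▸ dvd_mul_right (q ^ b - 1) (q ^ b + 1))
      obtain ⟨j, -, hj⟩ := (Nat.dvd_prime_pow Nat.prime_two).1 (h1 ▸ dvd_mul_left (q ^ b + 1) (q ^ b - 1))
      have hi1 : i = 1 := by
        rcases Nat.lt_or_ge i 2 with h2 | h2
        · rcases (show i = 0 ∨ i = 1 by omega) with rfl | rfl
          · obtain ⟨c, hc⟩ := hqo.pow (n := b)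
            rw [pow_zero] at hi
            omega
          · rfl
        · exfalso
          have : 4 ∣ 2 ^ i := pow_dvd_pow 2 h2
          have : 4 ∣ 2 ^ j := pow_dvd_pow 2 (show 2 ≤ j by
            by_contra h3
            have := Nat.pow_le_pow_right (show 1 ≤ 2 by norm_num) (show j ≤ 1 by omega)
            rw [pow_one] at this
            have := Nat.pow_le_pow_right (show 1 ≤ 2 by norm_num) h2
            omega)
          omega
      subst hi1
      have hb3 : q ^ b = 3 := by rw [pow_one] at hi; omega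
      have hb : b = 1 := (hb3 ▸ Nat.prime_three : (q ^ b).Prime).eq_one_of_pow
      subst hb
      rw [pow_one] at hb3
      subst hb3
      refine ⟨rfl, rfl, rfl, Nat.pow_right_injective le_rfl (show 2 ^ a = 2 ^ 3 by omega)⟩
    · right; left
      refine ⟨rfl, ?_⟩
      by_contra hn1
      set S := ∑ i ∈ Finset.range n, q ^ i with hS
      have hmul : S * (q - 1) = 2 ^ a := by
        have h1 := geom_sum_mul_add (q - 1) n
        rw [Nat.sub_add_cancel hq.one_le, ← hS, h] at h1
        omega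
      obtain ⟨k, -, hk⟩ := (Nat.dvd_prime_pow Nat.prime_two).1 (Dvd.intro _ hmul)
      have hodd : Odd S := by
        rw [hS, Finset.odd_sum_iff_odd_card_odd]
        rw [Finset.filter_true_of_mem (fun i _ => hqo.pow), Finset.card_range]
        exact hno
      have hle : q ^ 1 + 1 ≤ S := by
        have h2 := Finset.sum_le_sum_of_subset (f := fun i => q ^ i) (s := {0, 1}) (t := Finset.range n)
          (by intro i hi; simp at hi ⊢; omega)
        rw [Finset.sum_pair (by norm_num)] at h2
        rw [hS]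
        simpa [add_comm] using h2
      rcases Nat.eq_zero_or_pos k with rfl | hk0
      · rw [pow_zero] at hk; rw [pow_one] at hle; have := hq.two_le; omega
      · obtain ⟨c, hc⟩ := hodd
        have : 2 ∣ S := hk ▸ dvd_pow_self 2 hk0.ne'
        omega

theorem zmod3_cases : ∀ b : ZMod 3, b = 0 ∨ b = 1 ∨ b = 2 := by decide

/-- The coordinates of the product of a vector with the map fixing-free data `(1,1), (a,b)`. -/
def mapOf (a b : ZMod 3) (x : ZMod 3 × ZMod 3) : ZMod 3 × ZMod 3 := (x.1 + x.2 * a, x.1 + x.2 * b)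

def tOf (x : ZMod 3 × ZMod 3) : ZMod 3 × ZMod 3 := (x.1, -x.2)

theorem check : ∀ a b : ZMod 3, (∀ x, (mapOf a b)^[16] x = x) → (∀ x, (mapOf a b ∘ tOf)^[16] x = x) →
    ((∀ x, (mapOf a b)^[8] x = x) ∧ ¬ (∀ x, (mapOf a b)^[4] x = x) ∧
      ∀ x, tOf (mapOf a b (tOf x)) = (mapOf a b)^[3] x) ∨
    ((∀ x, (mapOf a b ∘ tOf)^[8] x = x) ∧ ¬ (∀ x, (mapOf a b ∘ tOf)^[4] x = x) ∧
      ∀ x, tOf ((mapOf a b ∘ tOf) (tOf x)) = (mapOf a b ∘ tOf)^[3] x) := by decide

/-- A transitive 2-subgroup of `GL(2,3)` of order 16 is semidihedral. -/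
theorem semidihedral {V : Type*} [AddCommGroup V] [Module (ZMod 3) V] [Finite V] (hV : Nat.card V = 9)
    {G : Type*} [Group G] [Finite G] (hG : Nat.card G = 16)
    (ρ : G →* (V ≃ₗ[ZMod 3] V)) (hρ : Function.Injective ρ)
    (htrans : ∀ v w : V, v ≠ 0 → w ≠ 0 → ∃ g : G, ρ g v = w)
    (v : V) (hv : v ≠ 0) (t : G) (ht : t ≠ 1) (ht2 : t * t = 1) (htv : ρ t v = v) :
    Cfsg.IsQuasiDihedral G := by
  classical
  have hone : ∀ u, ρ 1 u = u := fun u => by rw [map_one]; rfl
  have hmul : ∀ (g h : G) u, ρ (g * h) u = ρ g (ρ h u) := fun g h u => by rw [map_mul]; rfl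
  obtain ⟨u, hu⟩ : ∃ u, ρ t u ≠ u := by
    by_contra h; push Not at h
    exact ht (hρ (LinearEquiv.ext fun x => (h x).trans (hone x).symm))
  set w := u - ρ t u with hw
  have hw0 : w ≠ 0 := sub_ne_zero.2 (Ne.symm hu)
  have htw : ρ t w = -w := by rw [hw, map_sub, ← hmul, ht2, hone, neg_sub]
  let e : ZMod 3 × ZMod 3 → V := fun x => x.1 • v + x.2 • w
  have he0 : ∀ a b : ZMod 3, a • v + b • w = 0 → a = 0 ∧ b = 0 := by
    intro a b h
    have h' := congrArg (ρ t) h
    rw [map_add, map_smul, map_smul, htv, htw, map_zero] at h'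
    have h2 : (2 * a) • v = 0 := by
      rw [mul_smul, two_smul]; linear_combination (norm := module) h + h'
    have h3 : (2 * b) • w = 0 := by
      rw [mul_smul, two_smul]; linear_combination (norm := module) h - h'
    have h2z : (2 : ZMod 3) ≠ 0 := by decide
    exact ⟨(mul_eq_zero.1 ((smul_eq_zero.1 h2).resolve_right hv)).resolve_left h2z,
      (mul_eq_zero.1 ((smul_eq_zero.1 h3).resolve_right hw0)).resolve_left h2z⟩
  have hinj : Function.Injective e := by
    rintro ⟨a, b⟩ ⟨c, d⟩ h
    obtain ⟨h1, h2⟩ := he0 (a - c) (b - d) (by rw [sub_smul, sub_smul]; linear_combination (norm := module) h)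
    rw [sub_eq_zero] at h1 h2
    rw [h1, h2]
  have hbij : Function.Bijective e := (Nat.bijective_iff_injective_and_card e).2 ⟨hinj, by
    rw [hV, Nat.card_prod, Nat.card_zmod]⟩
  have hvw : v + w ≠ 0 := fun h => one_ne_zero (he0 1 1 (by rw [one_smul, one_smul]; exact h)).1
  obtain ⟨g, hg⟩ := htrans v (v + w) hv hvw
  obtain ⟨⟨a, b⟩, hab⟩ := hbij.2 (ρ g w)
  have hge : ∀ x, ρ g (e x) = e (mapOf a b x) := by
    rintro ⟨c, d⟩
    simp only [e, mapOf, map_add, map_smul, hg, ← hab]
    module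
  have hte : ∀ x, ρ t (e x) = e (tOf x) := by
    rintro ⟨c, d⟩
    simp only [e, tOf, map_add, map_smul, htv, htw, smul_neg, neg_smul]
  have hgte : ∀ x, ρ (g * t) (e x) = e ((mapOf a b ∘ tOf) x) := fun x => by
    rw [hmul, hte, hge]; rfl
  have hpow : ∀ (s : G) (f : ZMod 3 × ZMod 3 → ZMod 3 × ZMod 3), (∀ x, ρ s (e x) = e (f x)) →
      ∀ (k : ℕ) x, ρ (s ^ k) (e x) = e (f^[k] x) := by
    intro s f hs k
    induction k with
    | zero => intro x; rw [pow_zero, hone]; rfl
    | succ k ih => intro x; rw [pow_succ', hmul, ih, hs, Function.iterate_succ_apply']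
  have heq : ∀ (s s' : G), (∀ x, ρ s (e x) = ρ s' (e x)) → s = s' := fun s s' h =>
    hρ (LinearEquiv.ext fun y => by obtain ⟨x, rfl⟩ := hbij.2 y; exact h x)
  have hone' : ∀ (s : G) (f : ZMod 3 × ZMod 3 → ZMod 3 × ZMod 3), (∀ x, ρ s (e x) = e (f x)) →
      ∀ (k : ℕ), ((∀ x, f^[k] x = x) ↔ s ^ k = 1) := by
    intro s f hs k
    constructor
    · intro h; exact heq _ _ fun x => by rw [hpow s f hs, h, hone]
    · intro h x; apply hinj; rw [← hpow s f hs, h, hone]
  have h16 : ∀ s : G, s ^ 16 = 1 := fun s => hG ▸ pow_card_eq_one'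
  have hfin : ∀ (s : G) (f : ZMod 3 × ZMod 3 → ZMod 3 × ZMod 3), (∀ x, ρ s (e x) = e (f x)) →
      (∀ x, f^[8] x = x) → ¬ (∀ x, f^[4] x = x) → (∀ x, tOf (f (tOf x)) = f^[3] x) → Cfsg.IsQuasiDihedral G := by
    intro s f hs h8 h4 h3
    haveI : Fact (Nat.Prime 2) := ⟨Nat.prime_two⟩
    refine ⟨3, le_rfl, by rw [hG]; norm_num, s, t, ?_, orderOf_eq_prime (by rw [sq]; exact ht2) ht, ?_⟩
    · exact orderOf_eq_prime_pow (n := 2) (fun h => h4 ((hone' s f hs 4).2 h)) ((hone' s f hs 8).1 h8)
    · rw [show t⁻¹ = t from inv_eq_of_mul_eq_one_right ht2]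
      refine heq _ _ fun x => ?_
      rw [hmul, hmul, hte, hs, hte, hpow s f hs, h3]
      rfl
  rcases check a b ((hone' g _ hge 16).2 (h16 g)) ((hone' _ _ hgte 16).2 (h16 _)) with ⟨h1, h2, h3⟩ | ⟨h1, h2, h3⟩
  · exact hfin g _ hge h1 h2 h3
  · exact hfin _ _ hgte h1 h2 h3

/-- Let q be a prime, V a non-trivial finite vector space over the field with q elements, and G a non-trivial finite p-group (p prime) acting faithfully and linearly on V and transitively on the non-zero vectors. Then either q = 2 and G has prime order p = |V| − 1; or p = 2, V has q elements with q = 2^m + 1 and G is cyclic of order 2^m; or p = 2, q = 3, V has 9 elements and G is cyclic of order 8, quaternion of order 8, or semidihedral of order 16. -/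
theorem result (q : ℕ) [Fact q.Prime] {V : Type*} [AddCommGroup V] [Module (ZMod q) V] [Finite V] [Nontrivial V]
    {G : Type*} [Group G] [Finite G] [Nontrivial G] (p : ℕ) [Fact p.Prime] (hG : IsPGroup p G)
    (ρ : G →* (V ≃ₗ[ZMod q] V)) (hρ : Function.Injective ρ)
    (htrans : ∀ v w : V, v ≠ 0 → w ≠ 0 → ∃ g : G, ρ g v = w) :
    (q = 2 ∧ p = Nat.card V - 1 ∧ Nat.card G = p) ∨
    (p = 2 ∧ Nat.card V = q ∧ (∃ m : ℕ, q = 2 ^ m + 1 ∧ Nat.card G = 2 ^ m) ∧ IsCyclic G) ∨
    (p = 2 ∧ q = 3 ∧ Nat.card V = 9 ∧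
      ((IsCyclic G ∧ Nat.card G = 8) ∨ Nonempty (G ≃* QuaternionGroup 2) ∨ (Cfsg.IsQuasiDihedral G ∧ Nat.card G = 16))) := by
  classical
  have hp := (Fact.out : p.Prime)
  have hq := (Fact.out : q.Prime)
  letI : MulAction G V := MulAction.compHom V ρ
  have hsmul : ∀ (g : G) (x : V), g • x = ρ g x := fun g x => rfl
  have hone : ∀ u, ρ 1 u = u := fun u => by rw [map_one]; rfl
  have hmul : ∀ (g h : G) u, ρ (g * h) u = ρ g (ρ h u) := fun g h u => by rw [map_mul]; rfl
  obtain ⟨v, hv⟩ := exists_ne (0 : V)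
  have horb : MulAction.orbit G v = {x : V | x ≠ 0} := by
    ext x
    constructor
    · rintro ⟨g, rfl⟩
      exact fun h => hv ((ρ g).map_eq_zero_iff.1 h)
    · intro hx
      obtain ⟨g, hg⟩ := htrans v x hv hx
      exact ⟨g, hg⟩
  have hidx : (MulAction.stabilizer G v).index = Nat.card V - 1 := by
    rw [MulAction.index_stabilizer, horb]
    rw [show {x : V | x ≠ 0} = ({0} : Set V)ᶜ from rfl, Set.ncard_compl, Set.ncard_singleton]
  obtain ⟨k, hk⟩ := IsPGroup.iff_card.1 hG
  obtain ⟨a, -, ha⟩ := (Nat.dvd_prime_pow hp).1 (hk ▸ Subgroup.index_dvd_card (MulAction.stabilizer G v))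
  set n := Module.finrank (ZMod q) V with hn
  have hcV : Nat.card V = q ^ n := by rw [Module.natCard_eq_pow_finrank (K := ZMod q), Nat.card_zmod]
  have hn1 : 1 ≤ n := Module.finrank_pos
  have hV2 : 2 ≤ Nat.card V := Finite.one_lt_card
  have hnum : q ^ n = p ^ a + 1 := by rw [← ha, hidx, ← hcV]; omega
  have hcardG : Nat.card G = p ^ a * Nat.card (MulAction.stabilizer G v) := by
    rw [← ha, mul_comm, Subgroup.card_mul_index]
  have hker : ∀ s : G, (∀ x, ρ s x = x) → s = 1 := fun s h =>
    hρ (LinearEquiv.ext fun x => (h x).trans (hone x).symm)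
  have ha1 : 1 ≤ a := by
    by_contra h0
    obtain rfl : a = 0 := by omega
    obtain ⟨g, hg⟩ := exists_ne (1 : G)
    rw [pow_zero] at hnum
    refine hg (hker g fun x => ?_)
    have h2 : Nat.card V = 2 := by omega
    obtain ⟨y, hy, huniq⟩ := (Nat.card_eq_two_iff' (0 : V)).1 h2
    rcases eq_or_ne x 0 with rfl | hx
    · exact map_zero _
    · rw [huniq x hx, huniq (ρ g y) (fun h => hy ((ρ g).map_eq_zero_iff.1 h))]
  rcases num hp hq hn1 ha1 hnum with ⟨hq2, ha'⟩ | ⟨hp2, hn'⟩ | ⟨hp2, hq3, hn', ha'⟩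
  · subst ha'
    rw [pow_one] at hnum hcardG ha
    refine Or.inl ⟨hq2, by omega, ?_⟩
    haveI hnor : (MulAction.stabilizer G v).Normal := Subgroup.normal_of_index_eq_minFac_card (by
      rw [ha, hk, Nat.pow_minFac (by rintro rfl; rw [pow_zero] at hk; have : 1 < Nat.card G := Finite.one_lt_card; omega),
        hp.minFac_eq])
    have : MulAction.stabilizer G v = ⊥ := by
      rw [Subgroup.eq_bot_iff_forall]
      intro s hs
      refine hker s fun x => ?_
      rcases eq_or_ne x 0 with rfl | hx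
      · exact map_zero _
      · obtain ⟨g, rfl⟩ := htrans v x hv hx
        have h2 : ρ (g⁻¹ * s * g⁻¹⁻¹) v = v := hnor.conj_mem s hs g⁻¹
        have h3 := congrArg (ρ g) h2
        rwa [← hmul, show g * (g⁻¹ * s * g⁻¹⁻¹) = s * g by group, hmul] at h3
    rw [hcardG, this, Subgroup.card_bot, mul_one]
  · refine Or.inr (Or.inl ⟨hp2, by rw [hcV, hn', pow_one], ?_⟩)
    have hspan : ∀ x : V, ∃ c : ZMod q, c • v = x := (finrank_eq_one_iff_of_nonzero' v hv).1 hn'
    have hst : MulAction.stabilizer G v = ⊥ := by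
      rw [Subgroup.eq_bot_iff_forall]
      intro s hs
      refine hker s fun x => ?_
      obtain ⟨c, rfl⟩ := hspan x
      rw [map_smul, show ρ s v = v from hs]
    rw [hcardG, hst, Subgroup.card_bot, mul_one]
    subst hp2
    refine ⟨⟨a, by rw [hn', pow_one] at hnum; exact hnum, rfl⟩, ?_⟩
    choose c hc using fun g : G => hspan (ρ g v)
    have hsinj : Function.Injective (fun x : ZMod q => x • v) := smul_left_injective _ hv
    let f : G →* ZMod q :=
      { toFun := c
        map_one' := hsinj (by show c 1 • v = (1 : ZMod q) • v; rw [hc, hone, one_smul])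
        map_mul' := fun g h => hsinj (by
          show c (g * h) • v = (c g * c h) • v
          rw [hc, hmul, ← hc h, map_smul, ← hc g, smul_smul, mul_comm]) }
    refine isCyclic_of_subgroup_isDomain f fun g h hgh => hρ (LinearEquiv.ext fun x => ?_)
    obtain ⟨d, rfl⟩ := hspan x
    rw [map_smul, map_smul, ← hc g, ← hc h]
    exact congrArg (fun z => d • z • v) hgh
  · subst hp2 hq3 ha'
    have hV9 : Nat.card V = 9 := by rw [hcV, hn']; norm_num
    refine Or.inr (Or.inr ⟨rfl, rfl, hV9, ?_⟩)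
    set H := MulAction.stabilizer G v with hH
    have hoff : ∃ u, u ∉ Submodule.span (ZMod 3) {v} := by
      by_contra h
      push Not at h
      have h1 := Nat.card_le_card_of_surjective (fun c : ZMod 3 => c • v)
        (fun x => Submodule.mem_span_singleton.1 (h x))
      rw [hV9, Nat.card_zmod] at h1
      omega
    obtain ⟨u, hu⟩ := hoff
    have hsp : Submodule.span (ZMod 3) {v, u} = ⊤ := by
      apply Submodule.eq_top_of_finrank_eq
      rw [← hn, hn']
      have hli : LinearIndependent (ZMod 3) ![v, u] := by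
        rw [LinearIndependent.pair_iff' hv]
        intro c hc
        exact hu (Submodule.mem_span_singleton.2 ⟨c, hc⟩)
      have := finrank_span_eq_card hli
      rw [Matrix.range_cons, Matrix.range_cons, Matrix.range_empty] at this
      rw [Set.union_empty, Set.singleton_union, Fintype.card_fin] at this
      exact this
    have hcoord : ∀ x : V, ∃ c d : ZMod 3, c • v + d • u = x := fun x =>
      Submodule.mem_span_pair.1 (hsp ▸ Submodule.mem_top)
    have hdet : ∀ s : G, ρ s v = v → ρ s u = u → s = 1 := fun s h1 h2 => hker s fun x => by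
      obtain ⟨c, d, rfl⟩ := hcoord x
      rw [map_add, map_smul, map_smul, h1, h2]
    have hpow2 : ∀ s : G, s ^ 3 = 1 → s = 1 := fun s hs => orderOf_eq_one_iff.1 (by
      have h1 : orderOf s ∣ 2 ^ k := hk ▸ orderOf_dvd_natCard s
      exact Nat.eq_one_of_dvd_coprimes (Nat.Coprime.pow_left k (by norm_num : Nat.Coprime 2 3)) h1
        (orderOf_dvd_of_pow_eq_one hs))
    have hform : ∀ s : G, ρ s v = v → s ≠ 1 → ∃ a : ZMod 3, ρ s u = a • v + (2 : ZMod 3) • u := by
      intro s hs hs1
      obtain ⟨a, b, hab⟩ := hcoord (ρ s u)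
      rcases zmod3_cases b with rfl | rfl | rfl
      · exfalso
        rw [zero_smul, add_zero] at hab
        have : u = a • v := (ρ s).injective (by rw [map_smul, hs, hab])
        exact hu (Submodule.mem_span_singleton.2 ⟨a, this.symm⟩)
      · exfalso
        rw [one_smul] at hab
        refine hs1 (hpow2 s (hdet _ ?_ ?_))
        · rw [pow_succ, pow_two, hmul, hmul, hs, hs, hs]
        · rw [pow_succ, pow_two, hmul, hmul, ← hab, map_add, map_smul, hs, ← hab, map_add, map_add,
            map_smul, hs, ← hab]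
          have h30 : (3 : ZMod 3) = 0 := rfl
          have h3 : (3 : ZMod 3) • (a • v) = 0 := by rw [h30, zero_smul]
          linear_combination (norm := module) h3
      · exact ⟨a, hab.symm⟩
    have htwo : ∀ s t : G, ρ s v = v → ρ t v = v → s ≠ 1 → t ≠ 1 → s * t = 1 := by
      intro s t hs ht hs1 ht1
      by_contra hst
      obtain ⟨a, ha⟩ := hform s hs hs1
      obtain ⟨b, hb⟩ := hform t ht ht1
      obtain ⟨c, hc⟩ := hform (s * t) (by rw [hmul, ht, hs]) hst
      rw [hmul, hb, map_add, map_smul, map_smul, hs, ha] at hc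
      have : ((2 : ZMod 3) * 2 - 2) • u = (c - b - 2 * a) • v := by
        linear_combination (norm := module) hc
      rw [show (2 : ZMod 3) * 2 - 2 = 2 from rfl] at this
      refine hu (Submodule.mem_span_singleton.2 ⟨2 * (c - b - 2 * a), ?_⟩)
      rw [mul_smul, ← this, smul_smul, show (2 : ZMod 3) * 2 = 1 from rfl, one_smul]
    by_cases hH1 : H = ⊥
    · have hc8 : Nat.card G = 8 := by rw [hcardG, hH1, Subgroup.card_bot]; norm_num
      have hu' : CfsgLib.RankOneP.UniqueOrderP 2 G := by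
        intro x y hx hy hx1
        have hneg : ∀ s : G, s ^ 2 = 1 → s ≠ 1 → ∀ z, ρ s z = -z := by
          intro s hs hs1 z
          by_contra hz
          have hne : z + ρ s z ≠ 0 := fun h => hz (eq_neg_of_add_eq_zero_right h)
          have hfix : ρ s (z + ρ s z) = z + ρ s z := by
            rw [map_add, ← hmul, ← pow_two, hs, hone, add_comm]
          obtain ⟨g, hg⟩ := htrans v _ hv hne
          have : g⁻¹ * s * g ∈ H := by
            show ρ (g⁻¹ * s * g) v = v
            rw [hmul, hmul, hg, hfix, ← hg, ← hmul, inv_mul_cancel, hone]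
          rw [hH1, Subgroup.mem_bot, mul_assoc, inv_mul_eq_one] at this
          exact hs1 (mul_eq_right.1 this.symm)
        rcases eq_or_ne y 1 with rfl | hy1
        · exact one_mem _
        · have : y = x := hρ (LinearEquiv.ext fun z => by rw [hneg y hy hy1, hneg x hx hx1])
          rw [this]; exact Subgroup.mem_zpowers x
      rcases CfsgLib.RankOneP.isCyclic_or_quaternion hG hu' with h | ⟨-, j, hj, ⟨e⟩⟩
      · exact Or.inl ⟨h, hc8⟩
      · have hce := Nat.card_congr e.toEquiv
        rw [hc8, Nat.card_eq_fintype_card (α := QuaternionGroup _), QuaternionGroup.card] at hce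
        obtain rfl : j = 1 := Nat.pow_right_injective le_rfl (show 2 ^ j = 2 ^ 1 by omega)
        exact Or.inr (Or.inl ⟨e⟩)
    · haveI := (Subgroup.nontrivial_iff_ne_bot H).2 hH1
      obtain ⟨⟨t, htH⟩, ht1⟩ := exists_ne (1 : H)
      have ht : t ≠ 1 := fun h => ht1 (Subtype.ext h)
      have htt : t * t = 1 := htwo t t htH htH ht ht
      have hHt : Nat.card H = 2 := by
        rw [Nat.card_eq_two_iff' (1 : H)]
        refine ⟨⟨t, htH⟩, ht1, fun ⟨s, hs⟩ hs1 => Subtype.ext ?_⟩
        have := htwo s t hs htH (fun h => hs1 (Subtype.ext h)) ht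
        exact mul_right_cancel (this.trans htt.symm)
      have hc16 : Nat.card G = 16 := by rw [hcardG, hHt]; norm_num
      exact Or.inr (Or.inr ⟨semidihedral hV9 hc16 ρ hρ htrans v hv t ht htt htH, hc16⟩)

end Cfsg.Agent.S3370
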