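import Cfsg.Statements.S1466
import Mathlib.Tactic
import Cfsg.Agent.PGroup.Basic
import Cfsg.Agent.PGroup.DStar

set_option autoImplicit false
open Cfsg
open scoped commutatorElement

namespace Cfsg.Agent.S1466

/-- Let p be a prime and R a nontrivial finite p-group. Then for every i > 0, Z(R) ≤ C_R(L_i(R)) ≤ L_i(R); likewise Z(R) ≤ C_R(L_*(R)) ≤ L_*(R) and Z(R) ≤ C_R(L(R)) ≤ L(R); and L(R) ≠ 1, L_*(R) ≠ 1. -/
theorem result {R : Type*} [Group R] [Finite R] (p : ℕ) [Fact p.Prime] (hR : IsPGroup p R) [Nontrivial R] :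
    (∀ i : ℕ, 0 < i → Subgroup.center R ≤ Subgroup.centralizer ((Cfsg.puigSeq R i : Subgroup R) : Set R) ∧
        Subgroup.centralizer ((Cfsg.puigSeq R i : Subgroup R) : Set R) ≤ Cfsg.puigSeq R i) ∧
      (Subgroup.center R ≤ Subgroup.centralizer ((Cfsg.puigLower R : Subgroup R) : Set R) ∧ Subgroup.centralizer ((Cfsg.puigLower R : Subgroup R) : Set R) ≤ Cfsg.puigLower R) ∧
      (Subgroup.center R ≤ Subgroup.centralizer ((Cfsg.puigSubgroup R : Subgroup R) : Set R) ∧ Subgroup.centralizer ((Cfsg.puigSubgroup R : Subgroup R) : Set R) ≤ Cfsg.puigSubgroup R) ∧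
      Cfsg.puigSubgroup R ≠ ⊥ ∧ Cfsg.puigLower R ≠ ⊥ := by
  obtain ⟨A, hAn, hAc, hAmax⟩ := CfsgLib.PGroup.exists_maximal_normal_abelian R
  have := hAn
  have hself := CfsgLib.PGroup.centralizer_maximal_normal_abelian hR hAc hAmax
  have hA : ∀ i, A ≤ Cfsg.puigSeq R (i + 1) := fun i => le_sSup
    ⟨hAc, by rw [Subgroup.normalizer_eq_top (H := A)]; exact le_top⟩
  have key : ∀ S : Subgroup R, A ≤ S → Subgroup.center R ≤ Subgroup.centralizer (S : Set R) ∧
      Subgroup.centralizer (S : Set R) ≤ S := fun S hS =>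
    ⟨Subgroup.center_le_centralizer _, ((Subgroup.centralizer_le hS).trans_eq hself).trans hS⟩
  have hL : A ≤ Cfsg.puigSubgroup R := le_iInf fun n => hA (2 * n)
  have hLs : A ≤ Cfsg.puigLower R := (hA 1).trans (le_iSup (fun n => Cfsg.puigSeq R (2 * n)) 1)
  have hne : ∀ S : Subgroup R, A ≤ S → S ≠ ⊥ := fun S hS h => by
    obtain ⟨h1, h2⟩ := key S hS
    have hz := (h1.trans h2).trans h.le
    have := hR.center_nontrivial
    exact (Subgroup.nontrivial_iff_ne_bot _).1 this (le_bot_iff.1 hz)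
  refine ⟨fun i hi => ?_, key _ hLs, key _ hL, hne _ hL, hne _ hLs⟩
  obtain ⟨j, rfl⟩ := Nat.exists_eq_succ_of_ne_zero hi.ne'
  exact key _ (hA j)

end Cfsg.Agent.S1466
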