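import Cfsg.Statements.S1467
-- import your own Cfsg.Agent.* helpers here

set_option autoImplicit false
open Cfsg

namespace Cfsg.Agent.S1467

/-- Let G be a finite group with Puig series L_n(G). Then L_0 = 1, L_1 = G; L_{2n} ≤ L_{2n+2} ≤ L_{2m+3} ≤ L_{2m+1} for all n, m; there is k with L_{2n}(G) = L_*(G) and L_{2n+1}(G) = L(G) for all n ≥ k; L_*(G) ≤ L(G); and applying one Puig step to L_*(G) gives L(G) and to L(G) gives L_*(G). -/
theorem result {G : Type*} [Group G] [Finite G] :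
    Cfsg.puigSeq G 0 = ⊥ ∧ Cfsg.puigSeq G 1 = ⊤ ∧
      (∀ n m : ℕ, Cfsg.puigSeq G (2 * n) ≤ Cfsg.puigSeq G (2 * n + 2) ∧ Cfsg.puigSeq G (2 * n) ≤ Cfsg.puigSeq G (2 * m + 1) ∧
        Cfsg.puigSeq G (2 * m + 3) ≤ Cfsg.puigSeq G (2 * m + 1)) ∧
      (∃ k : ℕ, ∀ n : ℕ, k ≤ n → Cfsg.puigSeq G (2 * n) = Cfsg.puigLower G ∧ Cfsg.puigSeq G (2 * n + 1) = Cfsg.puigSubgroup G) ∧
      Cfsg.puigLower G ≤ Cfsg.puigSubgroup G ∧
      Cfsg.puigStep (Cfsg.puigLower G) = Cfsg.puigSubgroup G ∧ Cfsg.puigStep (Cfsg.puigSubgroup G) = Cfsg.puigLower G := by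
  have anti : ∀ X Y : Subgroup G, X ≤ Y → Cfsg.puigStep Y ≤ Cfsg.puigStep X := by
    intro X Y h
    exact sSup_le_sSup fun A hA => ⟨hA.1, h.trans hA.2⟩
  have hs : ∀ n, Cfsg.puigSeq G (n + 1) = Cfsg.puigStep (Cfsg.puigSeq G n) := fun n => rfl
  have h0 : Cfsg.puigSeq G 0 = ⊥ := rfl
  have h1 : Cfsg.puigSeq G 1 = ⊤ := by
    refine eq_top_iff.2 fun g _ => ?_
    have : Subgroup.zpowers g ≤ Cfsg.puigSeq G 1 := le_sSup ⟨inferInstance, by simp [h0]⟩
    exact this (Subgroup.mem_zpowers g)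
  have two : ∀ a b, Cfsg.puigSeq G a ≤ Cfsg.puigSeq G b →
      Cfsg.puigSeq G (b + 1) ≤ Cfsg.puigSeq G (a + 1) ∧ Cfsg.puigSeq G (a + 2) ≤ Cfsg.puigSeq G (b + 2) :=
    fun a b h => ⟨anti _ _ h, anti _ _ (anti _ _ h)⟩
  have hev : ∀ n, Cfsg.puigSeq G (2 * n) ≤ Cfsg.puigSeq G (2 * n + 2) := by
    intro n
    induction n with
    | zero => simp [h0]
    | succ n ih => exact (two _ _ ih).2
  have hod : ∀ n, Cfsg.puigSeq G (2 * n + 3) ≤ Cfsg.puigSeq G (2 * n + 1) :=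
    fun n => (two _ _ (hev n)).1
  have hmid : ∀ n, Cfsg.puigSeq G (2 * n) ≤ Cfsg.puigSeq G (2 * n + 1) := by
    intro n
    induction n with
    | zero => simp [h0]
    | succ n ih => exact (two _ _ ih).2
  have monoE : Monotone fun n => Cfsg.puigSeq G (2 * n) := monotone_nat_of_le_succ hev
  have monoO : Antitone fun n => Cfsg.puigSeq G (2 * n + 1) := antitone_nat_of_succ_le hod
  have hall : ∀ n m, Cfsg.puigSeq G (2 * n) ≤ Cfsg.puigSeq G (2 * m + 1) := fun n m =>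
    (monoE (le_max_left n m)).trans ((hmid _).trans (monoO (le_max_right n m)))
  obtain ⟨k₁, hk₁⟩ := (wellFoundedGT_iff_monotone_chain_condition (α := Subgroup G)).1 inferInstance
    ⟨_, monoE⟩
  obtain ⟨k₂, hk₂⟩ := (wellFoundedGT_iff_monotone_chain_condition (α := (Subgroup G)ᵒᵈ)).1 inferInstance
    ⟨fun n => OrderDual.toDual (Cfsg.puigSeq G (2 * n + 1)), fun a b h => monoO h⟩
  have hlow : ∀ n, max k₁ k₂ ≤ n → Cfsg.puigSeq G (2 * n) = Cfsg.puigLower G := by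
    intro n hn
    refine le_antisymm (le_iSup (fun n => Cfsg.puigSeq G (2 * n)) n) (iSup_le fun j => ?_)
    rcases le_total j n with h | h
    · exact monoE h
    · exact le_of_eq ((hk₁ j (((le_max_left _ _).trans hn).trans h)).symm.trans (hk₁ n ((le_max_left _ _).trans hn)))
  have hup : ∀ n, max k₁ k₂ ≤ n → Cfsg.puigSeq G (2 * n + 1) = Cfsg.puigSubgroup G := by
    intro n hn
    refine le_antisymm (le_iInf fun j => ?_) (iInf_le (fun n => Cfsg.puigSeq G (2 * n + 1)) n)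
    rcases le_total j n with h | h
    · exact monoO h
    · exact le_of_eq ((hk₂ n ((le_max_right _ _).trans hn)).symm.trans (hk₂ j (((le_max_right _ _).trans hn).trans h)))
  refine ⟨h0, h1, fun n m => ⟨hev n, hall n m, hod m⟩, ⟨max k₁ k₂, fun n hn => ⟨hlow n hn, hup n hn⟩⟩, ?_, ?_, ?_⟩
  · exact iSup_le fun n => le_iInf fun m => hall n m
  · rw [← hlow _ le_rfl, ← hup _ le_rfl, hs]
  · rw [← hup _ le_rfl, ← hlow (max k₁ k₂ + 1) (Nat.le_succ _)]
    exact (hs _).symm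

end Cfsg.Agent.S1467
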