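import Cfsg.Statements.S5036
import Cfsg.Agent.RootGroups.Case

set_option autoImplicit false
open Cfsg
open scoped commutatorElement

namespace Cfsg.Agent.S5036

open CfsgLib.RankOne CfsgLib.RootGroups

/-- The configuration `⁅B, A⁆ = C`, `⁅D, C⁆ = A`. -/
structure Config {G : Type*} [Group G] (S : Set (Subgroup G)) (A B C D : Subgroup G) : Prop where
  root : IsRootSubgroupSet S
  memA : A ∈ S
  memB : B ∈ S
  memC : C ∈ S
  memD : D ∈ S
  hBA : ⁅B, A⁆ = C
  hDC : ⁅D, C⁆ = A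

namespace Config

variable {G : Type*} [Group G] {S : Set (Subgroup G)} {A B C D : Subgroup G}

lemma symm (h : Config S A B C D) : Config S C D A B :=
  ⟨h.root, h.memC, h.memD, h.memA, h.memB, h.hDC, h.hBA⟩

lemma caseBA (h : Config S A B C D) : RootCommutatorCase S B A :=
  case_of_commutator_mem h.root h.memB h.memA (h.hBA ▸ h.memC)

lemma commAC (h : Config S A B C D) {a c : G} (ha : a ∈ A) (hc : c ∈ C) : a * c = c * a :=
  (case_comm_right h.caseBA (h.hBA ▸ hc) ha).symm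

lemma commBC (h : Config S A B C D) {b c : G} (hb : b ∈ B) (hc : c ∈ C) : b * c = c * b :=
  (case_comm_left h.caseBA (h.hBA ▸ hc) hb).symm

lemma commDA (h : Config S A B C D) {d a : G} (hd : d ∈ D) (ha : a ∈ A) : d * a = a * d :=
  h.symm.commBC hd ha

lemma conjB (h : Config S A B C D) {b x : G} (hb : b ∈ B) (hx : x ∈ A ⊔ C) : b * x * b⁻¹ ∈ A ⊔ C := by
  obtain ⟨a, ha, c, hc, rfl⟩ := (mem_sup_of_commute (fun a ha c hc => h.commAC ha hc)).1 hx
  have e : b * (a * c) * b⁻¹ = (b * a * b⁻¹ * a⁻¹) * a * c := by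
    calc b * (a * c) * b⁻¹ = b * a * b⁻¹ * (b * c * b⁻¹) := by group
      _ = b * a * b⁻¹ * c := by rw [conj_eq_self (h.commBC hb hc)]
      _ = _ := by group
  rw [e]
  exact mul_mem (mul_mem (Subgroup.mem_sup_right (h.hBA ▸ commutator_mem hb ha)) (Subgroup.mem_sup_left ha))
    (Subgroup.mem_sup_right hc)

lemma conjD (h : Config S A B C D) {d x : G} (hd : d ∈ D) (hx : x ∈ A ⊔ C) : d * x * d⁻¹ ∈ A ⊔ C := by
  rw [sup_comm] at hx ⊢
  exact h.symm.conjB hd hx

/-- An element of `A` centralizing `B` is trivial. -/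
lemma eq_one_of_cent (h : Config S A B C D) {a : G} (ha : a ∈ A) (hc : ∀ b ∈ B, b * a = a * b) : a = 1 := by
  by_contra ha1
  apply h.root.ne_bot C h.memC
  rw [← h.hBA, ← h.caseBA.2.2.2 a ha ha1, eq_bot_iff, Subgroup.closure_le]
  rintro _ ⟨b, hb, rfl⟩
  show b * a * b⁻¹ * a⁻¹ = 1
  rw [hc b hb]; group

lemma mem_right_of_cent (h : Config S A B C D) {x : G} (hx : x ∈ A ⊔ C) (hc : ∀ b ∈ B, b * x = x * b) :
    x ∈ C := by
  obtain ⟨a, ha, c, hcC, rfl⟩ := (mem_sup_of_commute (fun a ha c hc => h.commAC ha hc)).1 hx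
  rw [h.eq_one_of_cent ha fun b hb => ?_, one_mul]
  · exact hcC
  have h1 : Commute b (a * c * c⁻¹) :=
    Commute.mul_right (hc b hb) (Commute.inv_right (h.commBC hb hcC))
  rw [mul_inv_cancel_right] at h1
  exact h1.eq

lemma mem_left_of_cent (h : Config S A B C D) {x : G} (hx : x ∈ A ⊔ C) (hc : ∀ d ∈ D, d * x = x * d) :
    x ∈ A := by
  rw [sup_comm] at hx
  exact h.symm.mem_right_of_cent hx hc

lemma eq_one_of_inf (h : Config S A B C D) {x : G} (ha : x ∈ A) (hc : x ∈ C) : x = 1 :=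
  h.eq_one_of_cent ha fun _ hb => h.commBC hb hc

lemma split_unique (h : Config S A B C D) {a a' c c' : G} (ha : a ∈ A) (ha' : a' ∈ A) (hc : c ∈ C)
    (hc' : c' ∈ C) (e : a * c = a' * c') : a = a' ∧ c = c' := by
  have h1 : a'⁻¹ * a = c' * c⁻¹ := by
    calc a'⁻¹ * a = a'⁻¹ * (a * c) * c⁻¹ := by group
      _ = c' * c⁻¹ := by rw [e]; group
  have h2 := h.eq_one_of_inf (A.mul_mem (A.inv_mem ha') ha) (h1 ▸ C.mul_mem hc' (C.inv_mem hc))
  exact ⟨(inv_mul_eq_one.1 h2).symm, (mul_inv_eq_one.1 (h1 ▸ h2)).symm⟩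

/-- `p = [b, d]` centralizing `B` and `D` acts trivially on `A`, and as `b` does on `C`. -/
lemma step (h : Config S A B C D) {b d : G} (hb : b ∈ B) (hd : d ∈ D)
    (hpB : ∀ b' ∈ B, b' * (b * d * b⁻¹ * d⁻¹) = b * d * b⁻¹ * d⁻¹ * b')
    (hpD : ∀ d' ∈ D, d' * (b * d * b⁻¹ * d⁻¹) = b * d * b⁻¹ * d⁻¹ * d') {c : G} (hc : c ∈ C) :
    let p := b * d * b⁻¹ * d⁻¹
    let a := d * c * d⁻¹ * c⁻¹
    p * a * p⁻¹ = a ∧ p * c * p⁻¹ = b * a * b⁻¹ * a⁻¹ * c := by
  intro p a
  have ha : a ∈ A := h.hDC ▸ commutator_mem hd hc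
  have hN : ∀ x ∈ A ⊔ C, p * x * p⁻¹ ∈ A ⊔ C := fun x hx => by
    have h1 := h.conjB hb (h.conjD hd (h.conjB (B.inv_mem hb) (h.conjD (D.inv_mem hd) hx)))
    convert h1 using 1
    simp only [p]
    group
  have hc1 : p * c * p⁻¹ ∈ C := by
    refine h.mem_right_of_cent (hN c (Subgroup.mem_sup_right hc)) fun b' hb' => ?_
    exact ((Commute.mul_right (hpB b' hb' : Commute b' p) (h.commBC hb' hc)).mul_right
      (Commute.inv_right (hpB b' hb' : Commute b' p))).eq
  have ha1 : p * a * p⁻¹ ∈ A := by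
    refine h.mem_left_of_cent (hN a (Subgroup.mem_sup_left ha)) fun d' hd' => ?_
    exact ((Commute.mul_right (hpD d' hd' : Commute d' p) (h.commDA hd' ha)).mul_right
      (Commute.inv_right (hpD d' hd' : Commute d' p))).eq
  have hz : b * a * b⁻¹ * a⁻¹ ∈ C := h.hBA ▸ commutator_mem hb ha
  have key : (p * a * p⁻¹) * (p * c * p⁻¹) = a * (b * a * b⁻¹ * a⁻¹ * c) := by
    calc (p * a * p⁻¹) * (p * c * p⁻¹) = (p * d) * c * (p * d)⁻¹ := by simp only [a]; group
      _ = b * (d * (b⁻¹ * c * b) * d⁻¹) * b⁻¹ := by simp only [p]; group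
      _ = b * (a * c) * b⁻¹ := by
          have e1 : b⁻¹ * c * b = c := by rw [mul_assoc, ← h.commBC hb hc, inv_mul_cancel_left]
          rw [e1]
          simp only [a]
          group
      _ = (b * a * b⁻¹ * a⁻¹) * a * (b * c * b⁻¹) := by group
      _ = (b * a * b⁻¹ * a⁻¹) * a * c := by rw [conj_eq_self (h.commBC hb hc)]
      _ = a * (b * a * b⁻¹ * a⁻¹ * c) := by rw [← h.commAC ha hz, mul_assoc]
  exact h.split_unique ha1 ha hc1 (C.mul_mem hz hc) key

lemma rankOne (h : Config S A B C D) : IsRankOnePair B D := by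
  have hDCcase := h.symm.caseBA
  obtain ⟨b, hb, hb1⟩ := exists_nonid h.root h.memB
  obtain ⟨d, hd, hd1⟩ := exists_nonid h.root h.memD
  rcases h.root.pair B h.memB D h.memD with hc | hr | hcc
  · exfalso
    apply h.root.ne_bot C h.memC
    rw [← h.hBA, CfsgLib.RootGroups.commutator_eq_bot_iff]
    intro b' hb' a ha
    obtain ⟨c, hc', rfl⟩ := exists_commutator_eq hDCcase hd hd1 (h.hDC.symm ▸ ha)
    have e1 : Commute b' d := CfsgLib.RootGroups.commutator_eq_bot_iff.1 hc b' hb' d hd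
    have e2 : Commute b' c := h.commBC hb' hc'
    exact (((e1.mul_right e2).mul_right e1.inv_right).mul_right e2.inv_right).eq
  · exact hr
  exfalso
  set p := b * d * b⁻¹ * d⁻¹ with hp
  have hpm : p ∈ ⁅B, D⁆ := commutator_mem hb hd
  have hpB : ∀ b' ∈ B, b' * p = p * b' := fun b' hb' => (case_comm_left hcc hpm hb').symm
  have hpD : ∀ d' ∈ D, d' * p = p * d' := fun d' hd' => (case_comm_right hcc hpm hd').symm
  have hq : d * b * d⁻¹ * b⁻¹ = p⁻¹ := by rw [hp]; group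
  apply h.root.ne_bot C h.memC
  rw [← h.hBA, ← h.caseBA.2.2.1 b hb hb1, eq_bot_iff, Subgroup.closure_le]
  rintro _ ⟨a, ha, rfl⟩
  obtain ⟨c, hc, rfl⟩ := exists_commutator_eq hDCcase hd hd1 (h.hDC.symm ▸ ha)
  have h1 := (h.step hb hd hpB hpD hc).2
  have hz : b * (d * c * d⁻¹ * c⁻¹) * b⁻¹ * (d * c * d⁻¹ * c⁻¹)⁻¹ ∈ C :=
    h.hBA ▸ commutator_mem hb (h.hDC ▸ commutator_mem hd hc)
  -- `p` fixes every element of `C`
  obtain ⟨a', ha', hae⟩ := exists_commutator_eq h.caseBA hb hb1 (h.hBA.symm ▸ hc)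
  have h2 := (h.symm.step hd hb
    (fun x hx => by rw [hq]; exact (Commute.inv_right (hpD x hx : Commute x p)).eq)
    (fun x hx => by rw [hq]; exact (Commute.inv_right (hpB x hx : Commute x p)).eq) ha').1
  rw [hae, hq, inv_inv] at h2
  have h3 : p * c * p⁻¹ = c := by
    calc p * c * p⁻¹ = p * (p⁻¹ * c * p) * p⁻¹ := by rw [h2]
      _ = c := by group
  rw [← hp] at h1
  rw [h3] at h1
  exact mul_eq_right.1 h1.symm

/-- Only the identity of `B` commutes with a non-identity element of `A`. -/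
lemma eq_one_of_commute (h : Config S A B C D) {a b : G} (ha : a ∈ A) (ha1 : a ≠ 1) (hb : b ∈ B)
    (hab : b * a = a * b) : b = 1 := by
  by_contra hb1
  obtain ⟨d, hd, -, he⟩ := h.rankOne.cond_left b hb hb1
  refine ha1 (h.eq_one_of_cent ha fun y hy => ?_)
  have h1 : d⁻¹ * y * d ∈ conjBy D b⁻¹ := by
    rw [← he]
    have := conj_mem_conjBy (g := d⁻¹) hy
    rwa [inv_inv] at this
  rw [mem_conjBy, inv_inv] at h1
  have e1 : Commute b a := hab
  have e2 : Commute d a := h.commDA hd ha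
  have e3 : Commute (b * (d⁻¹ * y * d) * b⁻¹) a := h.commDA h1 ha
  have e4 := ((e1.inv_left.mul_left e3).mul_left e1)
  have e5 : Commute (d⁻¹ * y * d) a := by
    rwa [show b⁻¹ * (b * (d⁻¹ * y * d) * b⁻¹) * b = d⁻¹ * y * d by group] at e4
  have e6 := (e2.mul_left e5).mul_left e2.inv_left
  have e7 : Commute y a := by
    rwa [show d * (d⁻¹ * y * d) * d⁻¹ = y by group] at e6
  exact e7.eq

/-- A conjugate of `A` under `B` is a conjugate of `C` under `D`. -/
lemma conj_eq (h : Config S A B C D) {b : G} (hb : b ∈ B) :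
    (conjBy A b = A) ∨ ∃ d ∈ D, conjBy A b = conjBy C d := by
  by_cases hb1 : b = 1
  · exact Or.inl (hb1 ▸ conjBy_one A)
  obtain ⟨d, hd, -, he⟩ := h.rankOne.cond_left b⁻¹ (B.inv_mem hb) (inv_ne_one.2 hb1)
  rw [inv_inv] at he
  refine Or.inr ⟨d⁻¹, D.inv_mem hd, ?_⟩
  ext x
  rw [mem_conjBy, mem_conjBy, inv_inv]
  constructor
  · intro hx
    have hxN : x ∈ A ⊔ C := by
      have := h.conjB hb (Subgroup.mem_sup_left hx)
      simpa [mul_assoc] using this
    refine h.mem_right_of_cent (by simpa using h.conjD hd hxN) fun y hy => ?_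
    have h1 : d⁻¹ * y * d ∈ conjBy D b := by
      rw [← he]
      have := conj_mem_conjBy (g := d⁻¹) hy
      rwa [inv_inv] at this
    rw [mem_conjBy] at h1
    have e : Commute (b⁻¹ * (d⁻¹ * y * d) * b) (b⁻¹ * x * b) := h.commDA h1 hx
    have e' := e.map (MulAut.conj (d * b)).toMonoidHom
    simp only [MulEquiv.coe_toMonoidHom, MulAut.conj_apply] at e'
    exact (by convert e' using 1 <;> group : Commute y (d * x * d⁻¹)).eq
  · intro hx
    have hxN : x ∈ A ⊔ C := by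
      have := h.conjD (D.inv_mem hd) (Subgroup.mem_sup_right hx)
      simpa [mul_assoc] using this
    refine h.mem_left_of_cent (by simpa using h.conjB (B.inv_mem hb) hxN) fun y hy => ?_
    have h1 : b * y * b⁻¹ ∈ conjBy B d⁻¹ := by
      rw [he]
      exact conj_mem_conjBy hy
    rw [mem_conjBy, inv_inv] at h1
    have e : Commute (d * (b * y * b⁻¹) * d⁻¹) (d * x * d⁻¹) := h.commBC h1 hx
    have e' := e.map (MulAut.conj (d * b)⁻¹).toMonoidHom
    simp only [MulEquiv.coe_toMonoidHom, MulAut.conj_apply] at e'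
    exact (by convert e' using 1 <;> group : Commute y (b⁻¹ * x * b)).eq

/-- The family `{A^b} ∪ {C}`. -/
def fam (A B C : Subgroup G) : Set (Subgroup G) := (fun b : G => conjBy A b) '' (B : Set G) ∪ {C}

lemma fam_subset (h : Config S A B C D) : fam A B C ⊆ fam C D A := by
  rintro E (⟨b, hb, rfl⟩ | rfl)
  · rcases h.conj_eq hb with e | ⟨d, hd, e⟩
    · exact Or.inr e
    · exact Or.inl ⟨d, hd, e.symm⟩
  · exact Or.inl ⟨1, D.one_mem, conjBy_one _⟩

lemma fam_eq (h : Config S A B C D) : fam A B C = fam C D A :=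
  Set.Subset.antisymm h.fam_subset h.symm.fam_subset

lemma fam_conjB (h : Config S A B C D) {E : Subgroup G} (hE : E ∈ fam A B C) {b : G} (hb : b ∈ B) :
    conjBy E b ∈ fam A B C := by
  rcases hE with ⟨b', hb', rfl⟩ | rfl
  · exact Or.inl ⟨b * b', B.mul_mem hb hb', (conjBy_conjBy A b' b).symm⟩
  · refine Or.inr ?_
    rw [Set.mem_singleton_iff, conjBy_eq_self_iff, Subgroup.mem_normalizer_iff]
    intro c
    constructor
    · intro hc; rwa [conj_eq_self (h.commBC hb hc)]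
    · intro hc
      have := h.commBC (B.inv_mem hb) hc
      have e : c = b * c * b⁻¹ := by
        calc c = b⁻¹ * (b * c * b⁻¹) * b := by group
          _ = _ := by rw [this]; group
      rwa [e]

lemma fam_conjD (h : Config S A B C D) {E : Subgroup G} (hE : E ∈ fam A B C) {d : G} (hd : d ∈ D) :
    conjBy E d ∈ fam A B C := by
  rw [h.fam_eq] at hE ⊢
  exact h.symm.fam_conjB hE hd

lemma orbit_eq (h : Config S A B C D) : {E | ∃ x ∈ B ⊔ D, E = conjBy A x} = fam A B C := by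
  ext E
  constructor
  · rintro ⟨x, hx, rfl⟩
    rw [Subgroup.sup_eq_closure] at hx
    suffices ∀ F ∈ fam A B C, conjBy F x ∈ fam A B C from
      this A (Or.inl ⟨1, B.one_mem, conjBy_one A⟩)
    induction hx using Subgroup.closure_induction'' with
    | mem y hy => exact fun F hF => hy.elim (fun hy => h.fam_conjB hF hy) (fun hy => h.fam_conjD hF hy)
    | inv_mem y hy =>
      exact fun F hF => hy.elim (fun hy => h.fam_conjB hF (B.inv_mem hy)) (fun hy => h.fam_conjD hF (D.inv_mem hy))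
    | one => intro F hF; rwa [conjBy_one]
    | mul y z _ _ hy hz => intro F hF; rw [← conjBy_conjBy]; exact hy _ (hz F hF)
  · rintro (⟨b, hb, rfl⟩ | rfl)
    · exact ⟨b, Subgroup.mem_sup_left hb, rfl⟩
    · obtain ⟨b, hb, hb1⟩ := exists_nonid h.root h.memB
      rcases h.conj_eq hb with e | ⟨d, hd, e⟩
      · exfalso
        obtain ⟨a, ha, ha1⟩ := exists_nonid h.root h.memA
        refine hb1 (h.eq_one_of_commute ha ha1 hb (eq_of_conj_eq_self ?_))
        have h1 : b * a * b⁻¹ * a⁻¹ ∈ A := A.mul_mem (e ▸ conj_mem_conjBy ha) (A.inv_mem ha)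
        exact mul_inv_eq_one.1 (h.eq_one_of_inf h1 (h.hBA ▸ commutator_mem hb ha))
      · refine ⟨d⁻¹ * b, mul_mem (inv_mem (Subgroup.mem_sup_right hd)) (Subgroup.mem_sup_left hb), ?_⟩
        rw [← conjBy_conjBy, e, conjBy_inv_conjBy]

lemma partition (h : Config S A B C D) : IsSubgroupPartition (A ⊔ C) (fam A B C) := by
  have hle : ∀ b ∈ B, conjBy A b ≤ A ⊔ C := by
    rintro b hb _ ⟨a, ha, rfl⟩
    exact h.conjB hb (Subgroup.mem_sup_left ha)
  have hAC : ∀ b ∈ B, conjBy A b ⊓ C = ⊥ := fun b hb => (Subgroup.eq_bot_iff_forall _).2 fun x hx => by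
    obtain ⟨⟨a, ha, rfl⟩, hxC⟩ := hx
    have h1 : a ∈ C := by
      have e : a = b⁻¹ * (b * a * b⁻¹) * b := by group
      have e2 := h.commBC (B.inv_mem hb) hxC
      simp only [MulEquiv.coe_toMonoidHom, MulAut.conj_apply] at e2 hxC
      rw [e, e2, inv_mul_cancel_right]
      exact hxC
    rw [h.eq_one_of_inf ha h1, map_one]
  refine ⟨?_, fun x hx hx1 => ?_, ?_⟩
  · rintro E (⟨b, hb, rfl⟩ | rfl)
    · exact hle b hb
    · exact le_sup_right
  · obtain ⟨a, ha, c, hc, rfl⟩ := (mem_sup_of_commute (fun a ha c hc => h.commAC ha hc)).1 hx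
    by_cases ha1 : a = 1
    · exact ⟨C, Or.inr rfl, by rw [ha1, one_mul]; exact hc⟩
    obtain ⟨b, hb, hbe⟩ :=
      exists_commutator_eq (rootCommutatorCase_symm h.caseBA) (A.inv_mem ha) (inv_ne_one.2 ha1)
        (by rw [Subgroup.commutator_comm, h.hBA]; exact hc)
    refine ⟨conjBy A b, Or.inl ⟨b, hb, rfl⟩, ?_⟩
    have e : a * c = b * a * b⁻¹ := by rw [← hbe]; group
    rw [e]
    exact conj_mem_conjBy ha
  · rintro E (⟨b, hb, rfl⟩ | rfl) F (⟨b', hb', rfl⟩ | rfl) hne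
    · rw [Subgroup.eq_bot_iff_forall]
      rintro x ⟨hx, hx'⟩
      replace hx := mem_conjBy.1 hx
      replace hx' := mem_conjBy.1 hx'
      by_contra hx1
      set a := b⁻¹ * x * b with hadef
      set v := b'⁻¹ * b with hv
      have hvB : v ∈ B := B.mul_mem (B.inv_mem hb') hb
      have h1 : v * a * v⁻¹ ∈ A := by
        convert hx' using 1
        rw [hv, hadef]; group
      have h2 : v * a * v⁻¹ * a⁻¹ = 1 :=
        h.eq_one_of_inf (A.mul_mem h1 (A.inv_mem hx)) (h.hBA ▸ commutator_mem hvB hx)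
      have ha1 : a ≠ 1 := fun e => hx1 <| by
        calc x = b * a * b⁻¹ := by rw [hadef]; group
          _ = 1 := by rw [e]; group
      have h3 := h.eq_one_of_commute hx ha1 hvB (eq_of_conj_eq_self (mul_inv_eq_one.1 h2))
      exact hne (by rw [inv_mul_eq_one.1 h3])
    · exact hAC b hb
    · rw [inf_comm]; exact hAC b' hb'
    · exact absurd rfl hne

lemma fixB (h : Config S A B C D) {x : G} (hx : x ∈ B ⊔ D)
    (hxN : ∀ y ∈ A ⊔ C, x * y = y * x) : conjBy B x = B := by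
  rcases (mem_unipotent h.rankOne).1 (conjBy_mem_unipotent left_mem_unipotent hx) with e | ⟨b, hb, e⟩
  · exact e
  exfalso
  obtain ⟨c, hc, hc1⟩ := exists_nonid h.root h.memC
  have h1 : b⁻¹ * c * b = c := by rw [mul_assoc, ← h.commBC hb hc, inv_mul_cancel_left]
  refine hc1 (h.eq_one_of_inf ?_ hc)
  rw [← h1]
  refine h.mem_left_of_cent (by rw [h1]; exact Subgroup.mem_sup_right hc) fun d hd => ?_
  have h2 : b * d * b⁻¹ ∈ conjBy B x := by
    rw [e]; exact conj_mem_conjBy hd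
  rw [mem_conjBy] at h2
  have e1 : Commute x c := hxN c (Subgroup.mem_sup_right hc)
  have e2 : Commute (x⁻¹ * (b * d * b⁻¹) * x) c := h.commBC h2 hc
  have e3 := (e1.mul_left e2).mul_left e1.inv_left
  have e4 : Commute (b * d * b⁻¹) c := by
    rwa [show x * (x⁻¹ * (b * d * b⁻¹) * x) * x⁻¹ = b * d * b⁻¹ by group] at e3
  have e5 := e4.map (MulAut.conj b⁻¹).toMonoidHom
  simp only [MulEquiv.coe_toMonoidHom, MulAut.conj_apply, inv_inv] at e5
  exact (by convert e5 using 1; group : Commute d (b⁻¹ * c * b)).eq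

lemma central (h : Config S A B C D) {x : G} (hx : x ∈ B ⊔ D) (hxN : ∀ y ∈ A ⊔ C, x * y = y * x)
    {b : G} (hb : b ∈ B) : x * b = b * x := by
  have h1 : x * b * x⁻¹ * b⁻¹ ∈ B := B.mul_mem (h.fixB hx hxN ▸ conj_mem_conjBy hb) (B.inv_mem hb)
  obtain ⟨a, ha, ha1⟩ := exists_nonid h.root h.memA
  have hc : Commute (x * b * x⁻¹ * b⁻¹) a := by
    have e1 : Commute x a := hxN a (Subgroup.mem_sup_left ha)
    have e2 : Commute x (b⁻¹ * a * b) := by
      have h3 := h.conjB (B.inv_mem hb) (Subgroup.mem_sup_left ha)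
      rw [inv_inv] at h3
      exact hxN _ h3
    have e3 := e2.inv_left.map (MulAut.conj b).toMonoidHom
    simp only [MulEquiv.coe_toMonoidHom, MulAut.conj_apply] at e3
    have e3' : Commute (b * x⁻¹ * b⁻¹) a := by
      convert e3 using 1
      group
    have e4 := e1.mul_left e3'
    rwa [show x * (b * x⁻¹ * b⁻¹) = x * b * x⁻¹ * b⁻¹ by group] at e4
  exact mul_inv_eq_iff_eq_mul.1 (mul_inv_eq_one.1 (h.eq_one_of_commute ha ha1 h1 hc.eq))

end Config

/-- Let S be a set of abstract root subgroups of G, A, B ∈ S with C = ⁅A, B⁆ ∈ S, and D ∈ S with ⁅D, C⁆ = A. Put X = ⟨B, D⟩ and N = AC. Then B, D form a rank one pair; the conjugates of A under X are the conjugates of C under X, namely the conjugates of A by elements of B together with C, equally the conjugates of C by elements of D together with A, and they partition N; and the centralizer of N in X is central in X. -/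
theorem result {G : Type*} [Group G] {S : Set (Subgroup G)} (hS : Cfsg.IsRootSubgroupSet S)
    {A B D : Subgroup G} (hA : A ∈ S) (hB : B ∈ S) (hC : ⁅A, B⁆ ∈ S) (hD : D ∈ S) (hDC : ⁅D, ⁅A, B⁆⁆ = A) :
    Cfsg.IsRankOnePair B D ∧
    {E | ∃ x ∈ B ⊔ D, E = Cfsg.conjBy A x} = {E | ∃ x ∈ B ⊔ D, E = Cfsg.conjBy ⁅A, B⁆ x} ∧
    {E | ∃ x ∈ B ⊔ D, E = Cfsg.conjBy A x} = (fun b : G => Cfsg.conjBy A b) '' (B : Set G) ∪ {⁅A, B⁆} ∧
    {E | ∃ x ∈ B ⊔ D, E = Cfsg.conjBy A x} = (fun d : G => Cfsg.conjBy ⁅A, B⁆ d) '' (D : Set G) ∪ {A} ∧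
    Cfsg.IsSubgroupPartition (A ⊔ ⁅A, B⁆) {E | ∃ x ∈ B ⊔ D, E = Cfsg.conjBy A x} ∧
    ∀ x ∈ (B ⊔ D) ⊓ Subgroup.centralizer ((A ⊔ ⁅A, B⁆ : Subgroup G) : Set G), ∀ y ∈ B ⊔ D, x * y = y * x := by
  have h : Config S A B ⁅A, B⁆ D :=
    ⟨hS, hA, hB, hC, hD, Subgroup.commutator_comm B A, hDC⟩
  have h' := h.symm
  have horb : {E | ∃ x ∈ B ⊔ D, E = Cfsg.conjBy ⁅A, B⁆ x} = Config.fam ⁅A, B⁆ D A := by
    rw [← h'.orbit_eq, sup_comm D B]
  refine ⟨h.rankOne, ?_, h.orbit_eq, ?_, ?_, ?_⟩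
  · rw [h.orbit_eq, horb, h.fam_eq]
  · rw [h.orbit_eq, h.fam_eq]
    rfl
  · rw [h.orbit_eq]; exact h.partition
  · rintro x ⟨hx, hxc⟩ y hy
    have hxN : ∀ z ∈ A ⊔ ⁅A, B⁆, x * z = z * x := fun z hz => (Subgroup.mem_centralizer_iff.1 hxc z hz).symm
    have hle : B ⊔ D ≤ Subgroup.centralizer {x} := sup_le
      (fun b hb => Subgroup.mem_centralizer_singleton_iff.2 (h.central hx hxN hb).symm)
      (fun d hd => Subgroup.mem_centralizer_singleton_iff.2
        (h'.central (by rwa [sup_comm]) (fun z hz => hxN z (by rwa [sup_comm])) hd).symm)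
    exact (Subgroup.mem_centralizer_singleton_iff.1 (hle hy)).symm

end Cfsg.Agent.S5036
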