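import Cfsg.Statements.S5029
import Cfsg.Agent.RootGroups.Case

set_option autoImplicit false
open Cfsg
open scoped commutatorElement

namespace Cfsg.Agent.S5029

open CfsgLib.RankOne CfsgLib.RootGroups

/-- Let S be a set of abstract root subgroups of G, A ∈ S having a rank one partner in S, and B ∈ S with C = ⁅A, B⁆ ∈ S. Then the members of S contained in AC are the conjugates of A by elements of B together with C, they partition AC, the members of S inside AC partition AC so that A is a line partner of C, and for every non-identity a ∈ A the map b ↦ a⁻¹ b⁻¹ a b is an isomorphism from B onto C. -/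
theorem result {G : Type*} [Group G] {S : Set (Subgroup G)} (hS : Cfsg.IsRootSubgroupSet S)
    {A B : Subgroup G} (hA : ¬ Cfsg.IsIsolatedIn (Cfsg.FAdj S) S A) (hAS : A ∈ S) (hB : B ∈ S) (hC : ⁅A, B⁆ ∈ S) :
    Cfsg.membersIn S (A ⊔ ⁅A, B⁆) = (fun b : G => Cfsg.conjBy A b) '' (B : Set G) ∪ {⁅A, B⁆} ∧
    Cfsg.IsSubgroupPartition (A ⊔ ⁅A, B⁆) (Cfsg.membersIn S (A ⊔ ⁅A, B⁆)) ∧
    A ∈ Cfsg.linePartners S ⁅A, B⁆ ∧
    ∀ a ∈ A, a ≠ 1 → ∃ φ : ↥B ≃* ↥⁅A, B⁆, ∀ b : ↥B, (φ b : G) = a⁻¹ * (b : G)⁻¹ * a * b := by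
  set C := ⁅A, B⁆ with hCdef
  have hcase := case_of_commutator_mem hS hAS hB hC
  have hsymm := rootCommutatorCase_symm hcase
  have hBA : ⁅B, A⁆ = C := Subgroup.commutator_comm B A
  have hcA : ∀ a ∈ A, ∀ c ∈ C, a * c = c * a := fun a ha c hc => (case_comm_left hcase hc ha).symm
  have hconjN : ∀ b ∈ B, ∀ a ∈ A, b * a * b⁻¹ ∈ A ⊔ C := fun b hb a ha => by
    have h1 : b * a * b⁻¹ * a⁻¹ ∈ C := hBA ▸ commutator_mem hb ha
    simpa using mul_mem (Subgroup.mem_sup_right h1 : _ ∈ A ⊔ C) (Subgroup.mem_sup_left ha)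
  have hle : ∀ b ∈ B, Cfsg.conjBy A b ≤ A ⊔ C := by
    rintro b hb _ ⟨a, ha, rfl⟩
    exact hconjN b hb a ha
  have hcover : ∀ x ∈ A ⊔ C, x ∉ C → ∃ b ∈ B, x ∈ Cfsg.conjBy A b := by
    intro x hx hxC
    obtain ⟨a, ha, c, hc, rfl⟩ := (mem_sup_of_commute hcA).1 hx
    have ha1 : a ≠ 1 := fun e => hxC (by rw [e, one_mul]; exact hc)
    obtain ⟨b, hb, hbe⟩ := exists_commutator_eq hcase (A.inv_mem ha) (inv_ne_one.2 ha1) hc
    refine ⟨b, hb, ?_⟩
    have : a * c = b * a * b⁻¹ * 1 := by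
      rw [← hbe, mul_one]
      group
    rw [this, mul_one]
    exact conj_mem_conjBy ha
  obtain ⟨A', hA', hp⟩ := exists_partner hA hAS
  have hE : ∀ E ∈ S, E ≤ C → E = C := by
    intro E hE hEC
    refine le_antisymm hEC ?_
    rcases hS.pair C hC A' hA' with hcom | hr | hcm
    · exfalso
      obtain ⟨a, ha, ha1⟩ := exists_nonid hS hAS
      obtain ⟨c, hc, hc1⟩ := exists_nonid hS hC
      refine Cfsg.Agent.S5025.not_rootElement hS ⟨hA', hp⟩ (Subgroup.mem_centralizer_iff.2 ?_) hc1 a ha ha1 ?_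
      · have hle' : A ⊔ A' ≤ Subgroup.centralizer {c} := sup_le
          (fun x hx => Subgroup.mem_centralizer_singleton_iff.2 (hcA x hx c hc))
          (fun x hx => Subgroup.mem_centralizer_singleton_iff.2
            ((CfsgLib.RootGroups.commutator_eq_bot_iff.1 hcom c hc x hx).symm))
        exact fun g hg => Subgroup.mem_centralizer_singleton_iff.1 (hle' hg)
      · rw [← hcA a ha c hc]
        obtain ⟨b, hb, hbe⟩ := exists_commutator_eq hcase (A.inv_mem ha) (inv_ne_one.2 ha1) hc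
        refine ⟨?_, Cfsg.conjBy A b, hS.conj_mem A hAS b, ?_⟩
        · rw [← hbe]
          intro e
          have e' : b * a * b⁻¹ = 1 := by rw [← e]; group
          exact ha1 (conj_eq_one_iff.1 e')
        · have : a * c = b * a * b⁻¹ := by rw [← hbe]; group
          rw [this]
          exact conj_mem_conjBy ha
    · have hni := not_isolated hC hA' hr
      obtain ⟨e, he, he1⟩ := exists_nonid hS hE
      exact (eq_of_mem hS hC hni hE (hEC he) he he1).le
    · rcases hS.pair E hE A' hA' with hcom | hr | hem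
      · exfalso
        obtain ⟨e, he, he1⟩ := exists_nonid hS hE
        apply hS.ne_bot _ hcm.1
        rw [← hcm.2.2.1 e (hEC he) he1, eq_bot_iff, Subgroup.closure_le]
        rintro _ ⟨x, hx, rfl⟩
        simp [CfsgLib.RootGroups.commutator_eq_bot_iff.1 hcom e he x hx]
      · intro c hc
        obtain ⟨e, he, he1⟩ := exists_nonid hS hE
        have := eq_of_mem hS hE (not_isolated hE hA' hr) hC he (hEC he) he1
        rwa [this]
      · intro c hc
        obtain ⟨a', ha', ha'1⟩ := exists_nonid hS hA'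
        obtain ⟨e₀, he₀, he₀1⟩ := exists_nonid hS hE
        have hMeq : ⁅A', E⁆ = ⁅A', C⁆ := by
          rw [Subgroup.commutator_comm A' E, Subgroup.commutator_comm A' C,
            ← hcm.2.2.1 e₀ (hEC he₀) he₀1, ← hem.2.2.1 e₀ he₀ he₀1]
        obtain ⟨e, he, heq⟩ := exists_commutator_eq (rootCommutatorCase_symm hem) ha' ha'1
          (hMeq ▸ commutator_mem ha' hc : a' * c * a'⁻¹ * c⁻¹ ∈ ⁅A', E⁆)
        have hcs := rootCommutatorCase_symm hcm
        have hd : a' * (c * e⁻¹) * a'⁻¹ * (c * e⁻¹)⁻¹ = 1 := by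
          have h1 := commutator_mul hcs ha' (C.mul_mem hc (C.inv_mem (hEC he))) (hEC he)
          rw [inv_mul_cancel_right, ← heq] at h1
          exact mul_eq_right.1 h1.symm
        have h2 := eq_one_of_commute hS hA' (not_isolated hA' hAS (Cfsg.RankOnePair_symm hp)) hcs ha' ha'1
          (C.mul_mem hc (C.inv_mem (hEC he))) (eq_of_conj_eq_self (mul_inv_eq_one.1 hd))
        rwa [mul_inv_eq_one.1 h2]
  have hmem : Cfsg.membersIn S (A ⊔ C) = (fun b : G => Cfsg.conjBy A b) '' (B : Set G) ∪ {C} := by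
    ext E
    constructor
    · rintro ⟨hES, hEle⟩
      by_cases hEC : E ≤ C
      · exact Or.inr (hE E hES hEC)
      obtain ⟨x, hx, hxC⟩ := SetLike.not_le_iff_exists.1 hEC
      obtain ⟨b, hb, hxb⟩ := hcover x (hEle hx) hxC
      refine Or.inl ⟨b, hb, eq_of_mem hS (hS.conj_mem A hAS b) (not_isolated_conj hS hAS hA b) hES hxb hx ?_⟩
      exact fun e => hxC (e ▸ C.one_mem)
    · rintro (⟨b, hb, rfl⟩ | rfl)
      · exact ⟨hS.conj_mem A hAS b, hle b hb⟩
      · exact ⟨hC, le_sup_right⟩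
  have hpart : Cfsg.IsSubgroupPartition (A ⊔ C) (Cfsg.membersIn S (A ⊔ C)) := by
    refine ⟨fun E hE' => hE'.2, fun x hx hx1 => ?_, fun E hE' F hF hne => ?_⟩
    · by_cases hxC : x ∈ C
      · exact ⟨C, ⟨hC, le_sup_right⟩, hxC⟩
      · obtain ⟨b, hb, hxb⟩ := hcover x hx hxC
        exact ⟨_, ⟨hS.conj_mem A hAS b, hle b hb⟩, hxb⟩
    · rw [hmem] at hE' hF
      rcases hE' with ⟨b, hb, rfl⟩ | rfl
      · exact (Cfsg.Agent.S5028.meet hS (not_isolated_conj hS hAS hA b) (hS.conj_mem A hAS b) F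
          (by rcases hF with ⟨b', -, rfl⟩ | rfl
              · exact hS.conj_mem A hAS b'
              · exact hC)).resolve_right hne
      · rcases hF with ⟨b, hb, rfl⟩ | rfl
        · rw [inf_comm]
          exact (Cfsg.Agent.S5028.meet hS (not_isolated_conj hS hAS hA b) (hS.conj_mem A hAS b) C hC).resolve_right hne.symm
        · exact absurd rfl hne
  refine ⟨hmem, hpart, ⟨⟨hAS, ?_, ?_⟩, ?_⟩, fun a ha ha1 => ?_⟩
  · intro e
    apply hS.ne_bot C hC
    rw [hCdef, CfsgLib.RootGroups.commutator_eq_bot_iff]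
    exact fun x hx y hy => case_comm_right hcase (e ▸ hx : x ∈ C) hy
  · rw [CfsgLib.RootGroups.commutator_eq_bot_iff]
    exact fun c hc x hx => case_comm_left hcase hc hx
  · rw [sup_comm C A]
    exact hpart
  let f : ↥B →* ↥C := MonoidHom.mk'
    (fun b => ⟨a⁻¹ * (b : G)⁻¹ * a * b, by
      simpa using commutator_mem (A.inv_mem ha) (B.inv_mem b.2)⟩)
    (fun b b' => Subtype.ext <| by
      show a⁻¹ * ((b : G) * b')⁻¹ * a * (b * b') = a⁻¹ * (b : G)⁻¹ * a * b * (a⁻¹ * (b' : G)⁻¹ * a * b')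
      have h1 := commutator_mul hcase (A.inv_mem ha) (B.inv_mem b.2) (B.inv_mem b'.2)
      simp only [inv_inv, mul_inv_rev] at h1
      rw [mul_comm_of_mem hS hB (B.inv_mem b.2) (B.inv_mem b'.2), mul_comm_of_mem hS hB b'.2 b.2] at h1
      rw [mul_inv_rev]
      exact h1)
  refine ⟨MulEquiv.ofBijective f ⟨(injective_iff_map_eq_one f).2 fun b hb => ?_, fun c => ?_⟩, fun b => rfl⟩
  · refine Subtype.ext ?_
    have h1 : a⁻¹ * (b : G)⁻¹ * a * b = 1 := congrArg Subtype.val hb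
    refine eq_one_of_commute hS hAS hA hcase ha ha1 b.2 ?_
    calc a * (b : G) = b * a * (a⁻¹ * (b : G)⁻¹ * a * b) := by group
      _ = b * a := by rw [h1, mul_one]
  · obtain ⟨b, hb, hbe⟩ := exists_commutator_eq hcase (A.inv_mem ha) (inv_ne_one.2 ha1) c.2
    refine ⟨⟨b⁻¹, B.inv_mem hb⟩, Subtype.ext ?_⟩
    show a⁻¹ * (b⁻¹)⁻¹ * a * b⁻¹ = c
    rw [← hbe, inv_inv, inv_inv]

end Cfsg.Agent.S5029
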