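import Cfsg.Statements.S5038
import Cfsg.Agent.RootGroups.Line

set_option autoImplicit false
open Cfsg

namespace Cfsg.Agent.S5038

open CfsgLib.RankOne CfsgLib.RootGroups

/-- Let S be a set of abstract root subgroups of G in which every member has a rank one partner, A ∈ S and B a line partner of A. Then the subgroup generated by the members of S normalizing AB permutes the members of S inside AB doubly transitively by conjugation. -/
theorem result {G : Type*} [Group G] {S : Set (Subgroup G)} (hS : Cfsg.IsRootSubgroupSet S)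
    (hF : ∀ A ∈ S, ¬ Cfsg.IsIsolatedIn (Cfsg.FAdj S) S A) {A B : Subgroup G} (hA : A ∈ S) (hB : B ∈ Cfsg.linePartners S A) :
    ∀ C₁ ∈ Cfsg.membersIn S (A ⊔ B), ∀ C₂ ∈ Cfsg.membersIn S (A ⊔ B), ∀ D₁ ∈ Cfsg.membersIn S (A ⊔ B),
      ∀ D₂ ∈ Cfsg.membersIn S (A ⊔ B), C₁ ≠ C₂ → D₁ ≠ D₂ →
        ∃ x ∈ ⨆ E ∈ Cfsg.normalizingMembers S (A ⊔ B), E, Cfsg.conjBy C₁ x = D₁ ∧ Cfsg.conjBy C₂ x = D₂ := by
  have hl := line_of_linePartners hS hA hB
  set N := A ⊔ B with hNdef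
  set T := Cfsg.membersIn S N
  set H := ⨆ E ∈ Cfsg.normalizingMembers S N, E
  have hAT : A ∈ T := ⟨hA, le_sup_left⟩
  have hBT : B ∈ T := ⟨hB.1.1, le_sup_right⟩
  have hni : ∀ D ∈ T, ¬ Cfsg.IsIsolatedIn (Cfsg.FAdj S) S D := fun D hD => hF D hD.1
  have hHN : H ≤ Subgroup.normalizer (N : Set G) := iSup₂_le fun E hE => hE.2
  have hstable : ∀ x ∈ H, ∀ C ∈ T, Cfsg.conjBy C x ∈ T := fun x hx C hC =>
    ⟨hS.conj_mem C hC.1 x, by
      rw [← CfsgLib.RankOne.conjBy_eq_self_iff.2 (hHN hx)]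
      exact Subgroup.map_mono hC.2⟩
  have hMle : ∀ {M : Subgroup G}, M ∈ Cfsg.normalizingMembers S N → M ≤ H := fun {M} hM =>
    le_iSup₂ (f := fun E (_ : E ∈ Cfsg.normalizingMembers S N) => E) M hM
  obtain ⟨D, hD, hDA, hAD, M, hM, hMfix, hMtr⟩ := exists_mover hS hl hAT hBT hB.1.2.1 rfl hni
  obtain ⟨D', hD', hDD', hDgen, M', hM', hM'fix, hM'tr⟩ :=
    exists_mover hS hl hD hAT hDA.symm (by rw [sup_comm]; exact hAD) hni
  have htrans : ∀ C ∈ T, ∃ x ∈ H, Cfsg.conjBy A x = C := by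
    intro C hC
    by_cases hCD : C = D
    · subst hCD
      by_cases hAD' : A = D'
      · -- a third member
        obtain ⟨a, ha, ha1⟩ := exists_nonid hS hA
        obtain ⟨d, hd, hd1⟩ := exists_nonid hS hC.1
        have hne : a * d ≠ 1 := fun e => hDA <| Eq.symm <| eq_of_mem hS hA (hni A hAT) hC.1 ha
          (by rw [eq_inv_of_mul_eq_one_left e]; exact C.inv_mem hd) ha1
        obtain ⟨E, hE, hEx⟩ := hl.cover _ (N.mul_mem (hAT.2 ha) (hC.2 hd)) hne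
        have hEC : E ≠ C := fun e => hDA (Eq.symm (eq_of_mem hS hA (hni A hAT) hC.1 ha (by
          have := C.mul_mem (e ▸ hEx) (C.inv_mem hd)
          rwa [mul_inv_cancel_right] at this) ha1))
        have hEA : E ≠ A := fun e => hDA (eq_of_mem hS hC.1 (hni C hC) hA hd (by
          have := A.mul_mem (A.inv_mem ha) (e ▸ hEx)
          rwa [inv_mul_cancel_left] at this) hd1)
        obtain ⟨m, hm, hme⟩ := hMtr E hE hEC
        obtain ⟨m', hm', hm'e⟩ := hM'tr E hE (hAD' ▸ hEA)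
        refine ⟨m'⁻¹ * m, H.mul_mem (H.inv_mem (hMle hM' hm')) (hMle hM hm), ?_⟩
        rw [← conjBy_conjBy, hme, ← hm'e, conjBy_inv_conjBy]
      · obtain ⟨m', hm', hm'e⟩ := hM'tr A hAT hAD'
        exact ⟨m'⁻¹, H.inv_mem (hMle hM' hm'), by rw [← hm'e, conjBy_inv_conjBy]⟩
    · obtain ⟨m, hm, hme⟩ := hMtr C hC hCD
      exact ⟨m, hMle hM hm, hme⟩
  -- stabiliser of `D` is transitive on the other members
  have hstab : ∀ X ∈ T, ∀ Y ∈ T, ∀ Z ∈ T, Y ≠ X → Z ≠ X →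
      ∃ x ∈ H, Cfsg.conjBy X x = X ∧ Cfsg.conjBy Y x = Z := by
    intro X hX Y hY Z hZ hYX hZX
    obtain ⟨x, hx, hxe⟩ := htrans X hX
    obtain ⟨y, hy, hye⟩ := htrans D hD
    set g := x * y⁻¹ with hg
    have hgH : g ∈ H := H.mul_mem hx (H.inv_mem hy)
    have hgD : Cfsg.conjBy D g = X := by
      rw [hg, ← hye, conjBy_conjBy, inv_mul_cancel_right, hxe]
    have key : ∀ W ∈ T, W ≠ X → ∃ m ∈ M, Cfsg.conjBy A m = Cfsg.conjBy W g⁻¹ := by
      intro W hW hWX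
      refine hMtr _ (hstable _ (H.inv_mem hgH) W hW) fun e => hWX ?_
      rw [conjBy_eq_iff, inv_inv] at e
      rw [e, hgD]
    obtain ⟨m, hm, hme⟩ := key Y hY hYX
    obtain ⟨k, hk, hke⟩ := key Z hZ hZX
    refine ⟨g * (k * m⁻¹) * g⁻¹, H.mul_mem (H.mul_mem hgH (H.mul_mem (hMle hM hk) (H.inv_mem (hMle hM hm))))
      (H.inv_mem hgH), ?_, ?_⟩
    · rw [← conjBy_conjBy, ← hgD, conjBy_inv_conjBy, ← conjBy_conjBy,
        hMfix _ (M.mul_mem hk (M.inv_mem hm))]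
    · rw [← conjBy_conjBy, ← hme, conjBy_conjBy, show g * (k * m⁻¹) * m = g * k by group, ← conjBy_conjBy, hke,
        conjBy_conjBy, mul_inv_cancel, conjBy_one]
  intro C₁ hC₁ C₂ hC₂ D₁ hD₁ D₂ hD₂ hC hDne
  obtain ⟨x, hx, hxe⟩ := htrans C₁ hC₁
  obtain ⟨y, hy, hye⟩ := htrans D₁ hD₁
  have hg : y * x⁻¹ ∈ H := H.mul_mem hy (H.inv_mem hx)
  have hge : Cfsg.conjBy C₁ (y * x⁻¹) = D₁ := by
    rw [← hxe, conjBy_conjBy, inv_mul_cancel_right, hye]
  obtain ⟨z, hz, hz1, hz2⟩ := hstab D₁ hD₁ (Cfsg.conjBy C₂ (y * x⁻¹)) (hstable _ hg C₂ hC₂) D₂ hD₂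
    (fun e => hC (conjBy_inj.1 (hge.trans e.symm))) hDne.symm
  exact ⟨z * (y * x⁻¹), H.mul_mem hz hg, by rw [← conjBy_conjBy, hge, hz1], by rw [← conjBy_conjBy, hz2]⟩

end Cfsg.Agent.S5038
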