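import Cfsg.Statements.S5042
import Cfsg.Agent.RootGroups.NonDeg

set_option autoImplicit false
open Cfsg
open scoped commutatorElement

namespace Cfsg.Agent.S5042

open CfsgLib.RankOne CfsgLib.RootGroups

theorem orbit_line {G : Type*} [Group G] {S : Set (Subgroup G)} (hS : IsRootSubgroupClass S)
    (hnd : IsNondegenerateRootSet S) {A B Z : Subgroup G} (hA : A ∈ S) (hB : B ∈ rankOnePartners S A)
    (hZ : Z ∈ linePartners S A) :
    ∃ g ∈ (⨆ C ∈ linePartners S A, C) ⊔ B, conjBy A g = Z := by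
  set G₀ := (⨆ C ∈ linePartners S A, C) ⊔ B
  have hΛ : ∀ {C : Subgroup G}, C ∈ linePartners S A → C ≤ G₀ := fun {C} hC =>
    le_trans (le_iSup₂ (f := fun C (_ : C ∈ linePartners S A) => C) C hC) le_sup_left
  have hni := class_not_isolated hS hnd
  set N := A ⊔ Z with hNdef
  have hN := line_of_linePartners hS.1 hA hZ
  have hAT : A ∈ membersIn S N := ⟨hA, le_sup_left⟩
  have hZT : Z ∈ membersIn S N := ⟨hZ.1.1, le_sup_right⟩
  obtain ⟨D, hD, hDA, hgen, hnr⟩ := exists_axis hS.1 hN hAT hZT hZ.1.2.1 rfl hB.1 hB.2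
    (fun D hD => hni D hD.1)
  have hDl : D ∈ linePartners S A :=
    ⟨⟨hD.1, hDA, CfsgLib.RootGroups.commutator_eq_bot_iff.2 (hN.comm_members hAT hD)⟩, by rw [hgen]; exact hZ.2⟩
  have hMle : ⁅D, B⁆ ≤ G₀ := Subgroup.commutator_le.2 fun x hx y hy =>
    mul_mem (mul_mem (mul_mem (hΛ hDl hx) (Subgroup.mem_sup_right hy)) (inv_mem (hΛ hDl hx)))
      (inv_mem (Subgroup.mem_sup_right hy))
  have hother : ∀ C ∈ membersIn S N, C ≠ D → ∃ g ∈ G₀, conjBy A g = C := by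
    intro C hC hCD
    obtain ⟨x, hx, hx1⟩ := exists_nonid hS.1 hC.1
    obtain ⟨a, ha, d, hd, rfl⟩ := (mem_sup_of_commute (hN.comm_members hAT hD)).1 (show x ∈ A ⊔ D by rw [hgen]; exact hC.2 hx)
    have ha1 : a ≠ 1 := by
      rintro rfl
      rw [one_mul] at hx hx1
      exact hCD (eq_of_mem hS.1 hC.1 (hni C hC.1) hD.1 hx hd hx1)
    obtain ⟨u, hu, -, hCe⟩ := exists_conj_eq hS.1 hN hAT hD hDA hB.1 hB.2 hnr ha ha1 hd hC hx
    exact ⟨_, hMle (inv_mem (by simpa using commutator_mem (D.inv_mem hd) hu)), hCe.symm⟩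
  by_cases hZD : Z = D
  swap
  · exact hother Z hZT hZD
  subst hZD
  -- move `Z` off itself by a line partner of `A`
  obtain ⟨P, hP, hp, hnrP⟩ := exists_partner_axis hS hnd hZ.1.1 (linePartners_symm hA hZ)
  obtain ⟨heq, hcase⟩ := axis_eq hS.1 hN hD hAT hDA.symm hP hp hnrP (hni A hA)
  set M := ⁅A, P⁆
  have hMl : M ∈ linePartners S A := by
    have h := linePartners_commutator hS.1 (A := M) (B := Z) (by
      exact (case_of_not_rankOne hS.1 hA hP hnrP (hN.not_commute hS.1 hD hAT hDA.symm hP hp)).1) (hni _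
      (case_of_not_rankOne hS.1 hA hP hnrP (hN.not_commute hS.1 hD hAT hDA.symm hP hp)).1) hD.1
      (by rw [Subgroup.commutator_comm, heq]; exact hA)
    rw [Subgroup.commutator_comm, heq] at h
    exact h
  obtain ⟨a, ha, ha1⟩ := exists_nonid hS.1 hA
  obtain ⟨z, hz, hz1⟩ := exists_nonid hS.1 hD.1
  have hne : z * a ≠ 1 := fun e => hDA <| eq_of_mem hS.1 hD.1 (hni Z hD.1) hA hz
    (by rw [eq_inv_of_mul_eq_one_left e]; exact A.inv_mem ha) hz1
  obtain ⟨C, hC, hCx⟩ := hN.cover _ (N.mul_mem (hD.2 hz) (hAT.2 ha)) hne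
  obtain ⟨u, hu, -, hCe⟩ := exists_conj_eq hS.1 hN hD hAT hDA.symm hP hp hnrP hz hz1 ha hC hCx
  have hCZ : C ≠ Z := fun e => hDA <| Eq.symm <| eq_of_mem hS.1 hA (hni A hA) hD.1 ha (by
    have := Z.mul_mem (Z.inv_mem hz) (e ▸ hCx)
    rwa [inv_mul_cancel_left] at this) ha1
  obtain ⟨g, hg, hge⟩ := hother C hC hCZ
  set m := (a⁻¹ * u * a * u⁻¹)⁻¹
  have hm : m ∈ G₀ := hΛ hMl (inv_mem (by simpa using commutator_mem (A.inv_mem ha) hu))
  refine ⟨m⁻¹ * g, mul_mem (inv_mem hm) hg, ?_⟩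
  rw [← conjBy_conjBy, hge, hCe, conjBy_inv_conjBy]

/-- Let S be a non-degenerate class of abstract root subgroups of G, A ∈ S and B a rank one partner of A. Then G is generated by the line partners of A together with B. -/
theorem result {G : Type*} [Group G] {S : Set (Subgroup G)} (hS : Cfsg.IsRootSubgroupClass S) (hnd : Cfsg.IsNondegenerateRootSet S)
    {A B : Subgroup G} (hA : A ∈ S) (hB : B ∈ Cfsg.rankOnePartners S A) :
    (⨆ C ∈ Cfsg.linePartners S A, C) ⊔ B = ⊤ := by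
  set G₀ := (⨆ C ∈ Cfsg.linePartners S A, C) ⊔ B
  have horb : ∀ Z ∈ S, ∃ g ∈ G₀, Cfsg.conjBy A g = Z := by
    intro Z hZ
    have h := CfsgLib.RootGroups.linePartners_connected hS hnd A hA Z hZ
    clear hZ
    induction h with
    | refl => exact ⟨1, G₀.one_mem, conjBy_one A⟩
    | @tail X Y _ hXY ih =>
      obtain ⟨g, hg, rfl⟩ := ih
      have h1 := linePartners_conj hS.1 g⁻¹ hXY.2.2
      rw [conjBy_inv_conjBy] at h1
      obtain ⟨k, hk, hke⟩ := orbit_line hS hnd hA hB h1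
      exact ⟨g * k, G₀.mul_mem hg hk, by rw [← conjBy_conjBy, hke, conjBy_conjBy, mul_inv_cancel, conjBy_one]⟩
  have hAle : A ≤ G₀ := by
    obtain ⟨C, hC⟩ := CfsgLib.RootGroups.exists_linePartner hS hnd hA
    have hCle : C ≤ G₀ :=
      le_trans (le_iSup₂ (f := fun C (_ : C ∈ Cfsg.linePartners S A) => C) C hC) le_sup_left
    obtain ⟨g, hg, hge⟩ := horb C hC.1.1
    intro a ha
    have h1 : g * a * g⁻¹ ∈ G₀ := hCle (hge ▸ conj_mem_conjBy ha)
    have := G₀.mul_mem (G₀.mul_mem (G₀.inv_mem hg) h1) hg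
    convert this using 1
    group
  rw [eq_top_iff, ← hS.1.generates]
  refine iSup₂_le fun Z hZ => ?_
  obtain ⟨g, hg, rfl⟩ := horb Z hZ
  rintro _ ⟨a, ha, rfl⟩
  exact G₀.mul_mem (G₀.mul_mem hg (hAle ha)) (G₀.inv_mem hg)

end Cfsg.Agent.S5042
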