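import Cfsg.Statements.S3103
import Cfsg.Agent.A8GL4.Basic
import Cfsg.Agent.S4218
import Cfsg.Agent.PLocalBasics.SmallOmega

set_option autoImplicit false
open Cfsg

namespace Cfsg.Agent.S3103

/-- automorphisms of an elementary abelian 2-group of order at most 16 embed in `GL₄(2)` -/
theorem exists_aut_hom (V : Type*) [Group V] [Finite V] (hV : ∀ v : V, v ^ 2 = 1) (hc : Nat.card V ≤ 2 ^ 4) :
    ∃ f : MulAut V →* GL (Fin 4) (ZMod 2), Function.Injective f := by
  haveI : Fact (Nat.Prime 2) := ⟨Nat.prime_two⟩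
  letI : CommGroup V :=
    { (inferInstance : Group V) with
      mul_comm := fun a b => by
        have h : ∀ v : V, v⁻¹ = v := fun v => inv_eq_of_mul_eq_one_right (by rw [← pow_two]; exact hV v)
        rw [← h (a * b), mul_inv_rev, h, h] }
  letI : Module (ZMod 2) (Additive V) := AddCommGroup.zmodModule fun v => by
    show Additive.ofMul (Additive.toMul v ^ 2) = 0
    rw [hV]; rfl
  haveI : Module.Finite (ZMod 2) (Additive V) := Module.Finite.of_finite
  have hd : Module.finrank (ZMod 2) (Additive V) ≤ 4 := by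
    have h := Module.natCard_eq_pow_finrank (K := ZMod 2) (V := Additive V)
    rw [Nat.card_zmod, show Nat.card (Additive V) = Nat.card V from rfl] at h
    rw [h] at hc
    exact (Nat.pow_le_pow_iff_right (by norm_num)).mp hc
  let e : (Additive V × (Fin (4 - Module.finrank (ZMod 2) (Additive V)) → ZMod 2)) ≃ₗ[ZMod 2] (Fin 4 → ZMod 2) :=
    LinearEquiv.ofFinrankEq _ _ (by
      rw [Module.finrank_prod, Module.finrank_fintype_fun_eq_card, Module.finrank_fintype_fun_eq_card,
        Fintype.card_fin, Fintype.card_fin]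
      omega)
  let lin : MulAut V → (Additive V ≃ₗ[ZMod 2] Additive V) := fun φ =>
    { (MulEquiv.toAdditive φ : Additive V ≃+ Additive V) with
      map_smul' := fun c x => ZMod.map_smul ((MulEquiv.toAdditive φ : Additive V ≃+ Additive V).toAddMonoidHom) c x }
  let tot : MulAut V → ((Fin 4 → ZMod 2) ≃ₗ[ZMod 2] (Fin 4 → ZMod 2)) := fun φ =>
    e.symm.trans (((lin φ).prodCongr (LinearEquiv.refl _ _)).trans e)
  let F : MulAut V →* LinearMap.GeneralLinearGroup (ZMod 2) (Fin 4 → ZMod 2) :=
    MonoidHom.mk' (fun φ => LinearMap.GeneralLinearGroup.ofLinearEquiv (tot φ)) (fun φ ψ => by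
      apply Units.ext
      apply LinearMap.ext
      intro x
      show tot (φ * ψ) x = tot φ (tot ψ x)
      simp only [tot, LinearEquiv.trans_apply, LinearEquiv.symm_apply_apply]
      rfl)
  refine ⟨(Matrix.GeneralLinearGroup.toLin.symm.toMonoidHom).comp F, ?_⟩
  refine Matrix.GeneralLinearGroup.toLin.symm.injective.comp (fun φ ψ h => ?_)
  apply MulEquiv.ext
  intro v
  have h1 : tot φ (e (Additive.ofMul v, 0)) = tot ψ (e (Additive.ofMul v, 0)) :=
    LinearMap.congr_fun (congrArg Units.val h) _
  simp only [tot, LinearEquiv.trans_apply, LinearEquiv.symm_apply_apply] at h1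
  exact congrArg Prod.fst (e.injective h1)

/-- Let X be a finite 2-constrained group with no nontrivial normal subgroup of odd order such that O₂(X) has sectional 2-rank at most 4. Then X/O₂(X) is isomorphic to a subgroup of the alternating group of degree 8. -/
theorem result {X : Type*} [Group X] [Finite X] (hc : Cfsg.IsPConstrained 2 X) (hO : Cfsg.oddCore X = ⊥)
    (h4 : Cfsg.SectionalPRankLE 2 4 ↥(Cfsg.pCore 2 X)) :
    ∃ f : X ⧸ Cfsg.pCore 2 X →* ↥(alternatingGroup (Fin 8)), Function.Injective f := by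
  haveI : Fact (Nat.Prime 2) := ⟨Nat.prime_two⟩
  have hC := (CfsgLib.PCore.isPConstrained_iff_of_core_eq_bot hO).mp hc
  set R := Cfsg.pCore 2 X with hR
  have hRn : R.Normal := Subgroup.sSup_normal _ fun _ h => h.1
  have hRp : IsPGroup 2 R := CfsgLib.PCore.isPGroup_pCore 2 X
  let conjR : X →* MulAut R := MulAut.conjNormal
  let res : MulAut R →* MulAut (R ⧸ frattini R) :=
    MonoidHom.mk' (fun φ => QuotientGroup.congr (frattini R) (frattini R) φ
        (Cfsg.Agent.S4218.map_frattini φ)) (fun φ ψ => by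
      apply MulEquiv.ext
      intro q
      obtain ⟨r, rfl⟩ := QuotientGroup.mk'_surjective (frattini R) q
      rfl)
  let act := res.comp conjR
  have hker : act.ker = R := by
    ext x
    constructor
    · intro hx
      refine Cfsg.Agent.S4218.frattini_kernel_le hRp hC (fun D hD hDp => CfsgLib.PCore.le_pCore hD hDp) ?_
      intro r hr
      have h1 := DFunLike.congr_fun (MonoidHom.mem_ker.mp hx) (QuotientGroup.mk' (frattini R) ⟨r, hr⟩)
      have h2 : (QuotientGroup.mk' (frattini R)) (MulAut.conjNormal x ⟨r, hr⟩) =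
          QuotientGroup.mk' (frattini R) ⟨r, hr⟩ := h1
      rw [← mul_inv_eq_one, ← map_inv, ← map_mul] at h2
      have h3 := (QuotientGroup.eq_one_iff _).mp h2
      refine ⟨_, h3, ?_⟩
      simp
    · intro hx
      rw [MonoidHom.mem_ker]
      apply MulEquiv.ext
      intro q
      obtain ⟨r, rfl⟩ := QuotientGroup.mk'_surjective (frattini R) q
      show QuotientGroup.mk' (frattini R) (MulAut.conjNormal x r) = QuotientGroup.mk' (frattini R) r
      have e : MulAut.conjNormal x r = (⟨x, hx⟩ : R) * r * (⟨x, hx⟩ : R)⁻¹ := Subtype.ext (by simp)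
      rw [e, map_mul, map_mul, map_inv]
      have hcomm : ∀ a b : R ⧸ frattini R, a * b = b * a := fun a b => by
        have h : ∀ v : R ⧸ frattini R, v⁻¹ = v := fun v => inv_eq_of_mul_eq_one_right (by
          rw [← pow_two]; exact CfsgLib.PLocalBasics.frattini_quotient_pow hRp v)
        rw [← h (a * b), mul_inv_rev, h, h]
      rw [hcomm _ (QuotientGroup.mk' (frattini R) r), mul_inv_cancel_right]
  have hpow := CfsgLib.PLocalBasics.frattini_quotient_pow (p := 2) hRp
  have hcard : Nat.card (R ⧸ frattini R) ≤ 2 ^ 4 := by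
    let t : (⊤ : Subgroup R) →* R ⧸ frattini R := (QuotientGroup.mk' (frattini R)).comp (⊤ : Subgroup R).subtype
    have ht : Function.Surjective t := fun q => by
      obtain ⟨r, rfl⟩ := QuotientGroup.mk'_surjective (frattini R) q
      exact ⟨⟨r, Subgroup.mem_top r⟩, rfl⟩
    let eq := QuotientGroup.quotientKerEquivOfSurjective t ht
    have h := h4 ⊤ t.ker ⊤ ⟨⟨fun a b => Subtype.ext (eq.injective (by
        have h2 : ∀ v : R ⧸ frattini R, v⁻¹ = v := fun v => inv_eq_of_mul_eq_one_right (by
          rw [← pow_two]; exact hpow v)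
        rw [Subgroup.coe_mul, Subgroup.coe_mul, map_mul, map_mul, ← h2 (eq a * eq b), mul_inv_rev, h2, h2]))⟩⟩
      (fun a _ => eq.injective (by rw [map_pow, map_one, hpow]))
    rwa [Subgroup.card_top, Nat.card_congr eq.toEquiv] at h
  obtain ⟨f1, hf1⟩ := exists_aut_hom (R ⧸ frattini R) hpow hcard
  obtain ⟨f2, hf2⟩ := CfsgLib.A8GL4.exists_GL_hom
  refine ⟨(f2.comp f1).comp ((QuotientGroup.kerLift act).comp
    (QuotientGroup.quotientMulEquivOfEq hker).symm.toMonoidHom), ?_⟩
  exact (hf2.comp hf1).comp ((QuotientGroup.kerLift_injective act).comp (MulEquiv.injective _))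

end Cfsg.Agent.S3103
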