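import Cfsg.Statements.S0011
import Cfsg.Agent.CoprimeAction.FrattiniNilpotent

set_option autoImplicit false
open Cfsg

namespace Cfsg.Agent.S0011

/-- If the Frattini quotient of a finite group is nilpotent then the group is nilpotent. -/
theorem result {G : Type*} [Group G] [Finite G]
    (h : Group.IsNilpotent (G ⧸ frattini G)) : Group.IsNilpotent G := by
  haveI : Group.IsNilpotent ↥((⊤ : Subgroup G).map (QuotientGroup.mk' (frattini G))) := by
    haveI := h
    infer_instance
  haveI := CfsgLib.CoprimeAction.isNilpotent_of_map_frattini (⊤ : Subgroup G) this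
  exact Group.nilpotent_of_surjective ((Subgroup.topEquiv : (⊤ : Subgroup G) ≃* G)).toMonoidHom (Subgroup.topEquiv : (⊤ : Subgroup G) ≃* G).surjective

end Cfsg.Agent.S0011
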