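import Cfsg.Statements.S0030
import Cfsg.Agent.CoprimeAction.Basic

set_option autoImplicit false
open Cfsg

namespace Cfsg.Agent.S0030

/-- Under coprime action fixed points of a product of two invariant subgroups factor: if K = X Y with X and Y normalised by A then every A-fixed element of K is a product of an A-fixed element of X and an A-fixed element of Y. -/
theorem result {G : Type*} [Group G] [Finite G] (A K : Subgroup G) (hAK : A ≤ Subgroup.normalizer (K : Set G))
    (hcop : (Nat.card A).Coprime (Nat.card K)) (hsolv : Group.IsSolvable A ∨ Group.IsSolvable K)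
    (X Y : Subgroup G) (hX : X ≤ K) (hY : Y ≤ K) (hXA : A ≤ Subgroup.normalizer (X : Set G)) (hYA : A ≤ Subgroup.normalizer (Y : Set G))
    (hXY : ∀ k ∈ K, ∃ x ∈ X, ∃ y ∈ Y, k = x * y) (k : G) (hk : k ∈ K ⊓ Subgroup.centralizer (A : Set G)) :
    ∃ x ∈ X ⊓ Subgroup.centralizer (A : Set G), ∃ y ∈ Y ⊓ Subgroup.centralizer (A : Set G), k = x * y := by
  have hkK := (Subgroup.mem_inf.1 hk).1
  have hkC := Subgroup.mem_centralizer_iff.1 (Subgroup.mem_inf.1 hk).2
  obtain ⟨x, hx, y, hy, rfl⟩ := hXY k hkK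
  have hI : X ⊓ Y ≤ K := inf_le_left.trans hX
  have hAI : A ≤ Subgroup.normalizer ((X ⊓ Y : Subgroup G) : Set G) :=
    (le_inf hXA hYA).trans Subgroup.inf_normalizer_le_normalizer_inf
  obtain ⟨n, hn, hc⟩ := CfsgLib.CoprimeAction.exists_mem_centralizer (k := x⁻¹) hAI
    (hcop.coprime_dvd_right (Subgroup.card_dvd_of_le hI)) (by
      rcases hsolv with h | h
      · exact Or.inl h
      · exact Or.inr (Group.isSolvable_of_isSolvable_injective (Subgroup.inclusion_injective hI)))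
    (fun a ha => by
      refine Subgroup.mem_inf.2 ⟨?_, ?_⟩
      · exact mul_mem (CfsgLib.CoprimeAction.conj_mem hXA ha (inv_mem hx)) (inv_mem (inv_mem hx))
      · have h1 : a * x * a⁻¹ * (a * y * a⁻¹) = x * y := by
          calc a * x * a⁻¹ * (a * y * a⁻¹) = a * (x * y) * a⁻¹ := by group
            _ = x * y := by rw [hkC a ha]; group
        have h2 : a * x⁻¹ * a⁻¹ * x⁻¹⁻¹ = a * y * a⁻¹ * y⁻¹ := by
          calc a * x⁻¹ * a⁻¹ * x⁻¹⁻¹ = (a * x * a⁻¹)⁻¹ * (x * y) * y⁻¹ := by group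
            _ = (a * x * a⁻¹)⁻¹ * (a * x * a⁻¹ * (a * y * a⁻¹)) * y⁻¹ := by rw [h1]
            _ = _ := by group
        rw [h2]
        exact mul_mem (CfsgLib.CoprimeAction.conj_mem hYA ha hy) (inv_mem hy))
  refine ⟨(n * x⁻¹)⁻¹, Subgroup.mem_inf.2 ⟨?_, inv_mem hc⟩, n * x⁻¹ * (x * y),
    Subgroup.mem_inf.2 ⟨?_, mul_mem hc (Subgroup.mem_inf.1 hk).2⟩, by group⟩
  · exact inv_mem (mul_mem (Subgroup.mem_inf.1 hn).1 (inv_mem hx))
  · rw [show n * x⁻¹ * (x * y) = n * y by group]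
    exact mul_mem (Subgroup.mem_inf.1 hn).2 hy

end Cfsg.Agent.S0030
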