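import Cfsg.Statements.S0032
import Mathlib.GroupTheory.FixedPointFree
import Mathlib.Tactic.Group

set_option autoImplicit false
open Cfsg

namespace Cfsg.Agent.S0032

/-- If an automorphism of a finite group fixes only the identity and maps a normal subgroup N into itself, then the only cosets of N it fixes are those in N: a fixed coset xN forces x ∈ N. -/
theorem result {G : Type*} [Group G] [Finite G] (φ : G ≃* G)
    (hφ : MonoidHom.FixedPointFree (φ : G →* G)) (N : Subgroup G) [N.Normal] (hN : ∀ n ∈ N, φ n ∈ N)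
    (x : G) (hx : (φ x)⁻¹ * x ∈ N) : x ∈ N := by
  have hinj : Function.Injective (fun n : N => (⟨(φ n)⁻¹ * n, mul_mem (inv_mem (hN n n.2)) n.2⟩ : N)) := by
    intro a b hab
    have h : (φ a)⁻¹ * a = (φ b)⁻¹ * b := congrArg Subtype.val hab
    have h2 : (φ : G →* G) ((b : G) * (a : G)⁻¹) = (b : G) * (a : G)⁻¹ := by
      show φ _ = _
      rw [map_mul, map_inv]
      calc φ b * (φ a)⁻¹ = φ b * ((φ a)⁻¹ * a) * (a : G)⁻¹ := by group
        _ = φ b * ((φ b)⁻¹ * b) * (a : G)⁻¹ := by rw [h]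
        _ = _ := by group
    exact Subtype.ext (mul_inv_eq_one.1 (hφ _ h2)).symm
  obtain ⟨n, hn⟩ := (Finite.injective_iff_surjective.1 hinj) ⟨_, hx⟩
  have hn' : (φ n)⁻¹ * n = (φ x)⁻¹ * x := congrArg Subtype.val hn
  have h2 : (φ : G →* G) (x * (n : G)⁻¹) = x * (n : G)⁻¹ := by
    show φ _ = _
    rw [map_mul, map_inv]
    calc φ x * (φ n)⁻¹ = φ x * ((φ n)⁻¹ * n) * (n : G)⁻¹ := by group
      _ = φ x * ((φ x)⁻¹ * x) * (n : G)⁻¹ := by rw [hn']
      _ = _ := by group
  rw [mul_inv_eq_one.1 (hφ _ h2)]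
  exact n.2

end Cfsg.Agent.S0032
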