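import Cfsg.Statements.S0034
import Cfsg.Agent.Frob.Basic

set_option autoImplicit false
open Cfsg

namespace Cfsg.Agent.S0034

/-- For a Frobenius complement H, the set of elements lying in no conjugate of H, together with 1, has exactly as many elements as the index of H, and that index is congruent to 1 modulo the order of H. -/
theorem result {G : Type*} [Group G] [Finite G] (H : Subgroup G) (hH : Cfsg.IsFrobeniusComplement H) :
    Nat.card (Cfsg.frobeniusKernel H) = H.index ∧ H.index % Nat.card H = 1 % Nat.card H := by
  refine ⟨CfsgLib.Frob.card_kernel hH, ?_⟩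
  have h := CfsgLib.Frob.card_dvd_index_sub_one hH
  have h0 : H.index ≠ 0 := Subgroup.index_ne_zero_of_finite
  exact ((Nat.modEq_iff_dvd' (by omega)).mpr h).symm

end Cfsg.Agent.S0034
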