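import Cfsg.Statements.S0035
import Cfsg.Agent.Frob.Kernel

set_option autoImplicit false
open Cfsg

namespace Cfsg.Agent.S0035

/-- Frobenius' Theorem: if H is a Frobenius complement in a finite group, the identity together with the elements lying in no conjugate of H form a normal subgroup, which is a complement to H. -/
theorem result {G : Type*} [Group G] [Finite G] (H : Subgroup G) (hH : Cfsg.IsFrobeniusComplement H) :
    ∃ N : Subgroup G, (N : Set G) = Cfsg.frobeniusKernel H ∧ N.Normal ∧ Subgroup.IsComplement' N H := by
  exact ⟨CfsgLib.Frob.kernel hH, CfsgLib.Frob.coe_kernel hH, CfsgLib.Frob.kernel_normal hH,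
    CfsgLib.Frob.isComplement'_kernel hH⟩

end Cfsg.Agent.S0035
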