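import Cfsg.Statements.S0039
import Cfsg.Agent.Frob.Basic

set_option autoImplicit false
open Cfsg

namespace Cfsg.Agent.S0039

/-- In a finite group that is a semidirect product of a normal subgroup K by a nontrivial subgroup H, H is a Frobenius complement exactly when each nonidentity element of H acts without nonidentity fixed points on K by conjugation. -/
theorem result {G : Type*} [Group G] [Finite G] (K H : Subgroup G) [K.Normal]
    (hc : Subgroup.IsComplement' K H) (hK : K ≠ ⊥) (hH : H ≠ ⊥) :
    Cfsg.IsFrobeniusComplement H ↔ ∀ h ∈ H, h ≠ 1 → K ⊓ Subgroup.centralizer {h} = ⊥ := by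
  constructor
  · intro hF h hh h1
    rw [Subgroup.eq_bot_iff_forall]
    rintro x ⟨hx, hxc⟩
    have hxH := CfsgLib.Frob.centralizer_le hF hh h1 hxc
    exact (Subgroup.disjoint_def.mp hc.disjoint) hx hxH
  · intro hfpf
    refine CfsgLib.Frob.isFrobeniusComplement_of_fpf K H (disjoint_iff.mp hc.disjoint) hc.sup_eq_top hK hH ?_
    intro h hh k hk hhk
    by_contra hne
    rw [not_or] at hne
    apply hne.2
    have : k ∈ (⊥ : Subgroup G) := hfpf h hh hne.1 ▸
      ⟨hk, Subgroup.mem_centralizer_singleton_iff.mpr hhk.symm⟩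
    exact Subgroup.mem_bot.mp this

end Cfsg.Agent.S0039
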