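import Cfsg.Statements.S0042
import Cfsg.Agent.Frob.Kernel
import Cfsg.Agent.ZJ.Fpf

set_option autoImplicit false
open Cfsg

namespace Cfsg.Agent.S0042

/-- In a finite Frobenius group, the Frobenius kernel is (the carrier of) a normal subgroup which is nilpotent. -/
theorem result {G : Type*} [Group G] [Finite G] (H : Subgroup G) (hH : Cfsg.IsFrobeniusComplement H) :
    ∃ N : Subgroup G, (N : Set G) = Cfsg.frobeniusKernel H ∧ N.Normal ∧ Group.IsNilpotent N := by
  classical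
  haveI := CfsgLib.Frob.kernel_normal hH
  refine ⟨CfsgLib.Frob.kernel hH, CfsgLib.Frob.coe_kernel hH, inferInstance, ?_⟩
  obtain ⟨a, ha, ha1⟩ := CfsgLib.Frob.exists_ne_one hH
  haveI : Nontrivial H := ⟨⟨⟨a, ha⟩, 1, fun e => ha1 (congrArg Subtype.val e)⟩⟩
  obtain ⟨p, hp, hpd⟩ := Nat.exists_prime_and_dvd (n := Nat.card H) Finite.one_lt_card.ne'
  haveI : Fact p.Prime := ⟨hp⟩
  obtain ⟨h, hh⟩ := exists_prime_orderOf_dvd_card' p hpd
  have hh1 : (h : G) ≠ 1 := fun e => hp.one_lt.ne' (by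
    rw [← hh, show h = 1 from Subtype.ext e, orderOf_one])
  refine CfsgLib.ZJ.isNilpotent_of_fixedPointFree (α := MulAut.conjNormal (h : G)) hp ?_ ?_
  · intro v hv
    have h1 : (h : G) * v * (h : G)⁻¹ = v := by
      have h0 := congrArg Subtype.val hv
      rwa [MulAut.conjNormal_apply] at h0
    have h2 : (v : G) ∈ CfsgLib.Frob.kernel hH ⊓ Subgroup.centralizer ({(h : G)} : Set G) :=
      ⟨v.2, Subgroup.mem_centralizer_singleton_iff.mpr (mul_inv_eq_iff_eq_mul.mp h1).symm⟩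
    rw [CfsgLib.Frob.kernel_inf_centralizer hH h.2 hh1] at h2
    exact Subtype.ext (Subgroup.mem_bot.mp h2)
  · rw [← map_pow, ← Subgroup.coe_pow, ← hh, pow_orderOf_eq_one]
    exact map_one _

end Cfsg.Agent.S0042
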