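import Cfsg.Statements.S0047
import Mathlib.GroupTheory.Solvable
import Mathlib.GroupTheory.QuotientGroup.Basic
import Mathlib.Tactic.Group

set_option autoImplicit false
open Cfsg

namespace Cfsg.Agent.S0047

/-- A finite group which is the product AB of two abelian subgroups A and B is solvable. -/
theorem result {G : Type*} [Group G] [Finite G] (A B : Subgroup G)
    [IsMulCommutative A] [IsMulCommutative B] (hAB : ∀ g : G, ∃ a ∈ A, ∃ b ∈ B, g = a * b) :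
    Group.IsSolvable G := by
  have hBA : ∀ g : G, ∃ a ∈ A, ∃ b ∈ B, g = b * a := fun g => by
    obtain ⟨a, ha, b, hb, h⟩ := hAB g⁻¹
    exact ⟨a⁻¹, inv_mem ha, b⁻¹, inv_mem hb, by rw [← inv_inv g, h, mul_inv_rev]⟩
  have cA : ∀ {x y : G}, x ∈ A → y ∈ A → x * y = y * x := fun hx hy =>
    congrArg Subtype.val (mul_comm' (⟨_, hx⟩ : A) ⟨_, hy⟩)
  have cB : ∀ {x y : G}, x ∈ B → y ∈ B → x * y = y * x := fun hx hy =>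
    congrArg Subtype.val (mul_comm' (⟨_, hx⟩ : B) ⟨_, hy⟩)
  -- conjugation of a commutator by an element of `A` or of `B`
  have conjA : ∀ (a a₁ a₂ b b₂ : G), a ∈ A → a₁ ∈ A → a₂ ∈ A → a₁ * b * a₁⁻¹ = b₂ * a₂ →
      a₁ * (a * b * a⁻¹ * b⁻¹) * a₁⁻¹ = a * b₂ * a⁻¹ * b₂⁻¹ := by
    intro a a₁ a₂ b b₂ ha ha₁ ha₂ h
    calc a₁ * (a * b * a⁻¹ * b⁻¹) * a₁⁻¹
        = (a₁ * a) * b * (a₁ * a)⁻¹ * (a₁ * b * a₁⁻¹)⁻¹ := by group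
      _ = (a * a₁) * b * (a * a₁)⁻¹ * (a₁ * b * a₁⁻¹)⁻¹ := by rw [cA ha₁ ha]
      _ = a * (a₁ * b * a₁⁻¹) * a⁻¹ * (a₁ * b * a₁⁻¹)⁻¹ := by group
      _ = a * b₂ * (a₂ * a⁻¹) * a₂⁻¹ * b₂⁻¹ := by rw [h]; group
      _ = a * b₂ * a⁻¹ * b₂⁻¹ := by rw [cA ha₂ (inv_mem ha)]; group
  have conjB : ∀ (a a₃ b b₁ b₃ : G), b ∈ B → b₁ ∈ B → b₃ ∈ B → b₁ * a * b₁⁻¹ = a₃ * b₃ →
      b₁ * (a * b * a⁻¹ * b⁻¹) * b₁⁻¹ = a₃ * b * a₃⁻¹ * b⁻¹ := by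
    intro a a₃ b b₁ b₃ hb hb₁ hb₃ h
    calc b₁ * (a * b * a⁻¹ * b⁻¹) * b₁⁻¹
        = (b₁ * a * b₁⁻¹) * (b₁ * b) * a⁻¹ * (b₁ * b)⁻¹ := by group
      _ = (b₁ * a * b₁⁻¹) * (b * b₁) * a⁻¹ * (b * b₁)⁻¹ := by rw [cB hb₁ hb]
      _ = (b₁ * a * b₁⁻¹) * b * (b₁ * a * b₁⁻¹)⁻¹ * b⁻¹ := by group
      _ = a₃ * (b₃ * b) * b₃⁻¹ * a₃⁻¹ * b⁻¹ := by rw [h]; group
      _ = a₃ * b * a₃⁻¹ * b⁻¹ := by rw [cB hb₃ hb]; group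
  set S : Set G := {x | ∃ a ∈ A, ∃ b ∈ B, x = a * b * a⁻¹ * b⁻¹} with hS
  set K := Subgroup.closure S with hK
  have hcomm : ∀ x ∈ S, ∀ y ∈ S, x * y = y * x := by
    rintro _ ⟨a, ha, b, hb, rfl⟩ _ ⟨a₁, ha₁, b₁, hb₁, rfl⟩
    have key : ∀ a₁ b₁ : G, a₁ ∈ A → b₁ ∈ B →
        a₁ * (b₁ * (a * b * a⁻¹ * b⁻¹) * b₁⁻¹) * a₁⁻¹ = b₁ * (a₁ * (a * b * a⁻¹ * b⁻¹) * a₁⁻¹) * b₁⁻¹ := by
      intro a₁ b₁ ha₁ hb₁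
      obtain ⟨a₂, ha₂, b₂, hb₂, h2⟩ := hBA (a₁ * b * a₁⁻¹)
      obtain ⟨a₃, ha₃, b₃, hb₃, h3⟩ := hAB (b₁ * a * b₁⁻¹)
      rw [conjB a a₃ b b₁ b₃ hb hb₁ hb₃ h3, conjA a₃ a₁ a₂ b b₂ ha₃ ha₁ ha₂ h2,
        conjA a a₁ a₂ b b₂ ha ha₁ ha₂ h2, conjB a a₃ b₂ b₁ b₃ hb₂ hb₁ hb₃ h3]
    have h := key a₁⁻¹ b₁⁻¹ (inv_mem ha₁) (inv_mem hb₁)
    calc a * b * a⁻¹ * b⁻¹ * (a₁ * b₁ * a₁⁻¹ * b₁⁻¹)
        = a₁ * b₁ * (b₁⁻¹ * (a₁⁻¹ * (a * b * a⁻¹ * b⁻¹) * a₁⁻¹⁻¹) * b₁⁻¹⁻¹) * a₁⁻¹ * b₁⁻¹ := by group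
      _ = a₁ * b₁ * (a₁⁻¹ * (b₁⁻¹ * (a * b * a⁻¹ * b⁻¹) * b₁⁻¹⁻¹) * a₁⁻¹⁻¹) * a₁⁻¹ * b₁⁻¹ := by rw [h]
      _ = _ := by group
  haveI hKn : K.Normal := by
    have hgen : ∀ g x : G, x ∈ S → g * x * g⁻¹ ∈ K := by
      have hA : ∀ a₁ ∈ A, ∀ x ∈ S, a₁ * x * a₁⁻¹ ∈ S := by
        rintro a₁ ha₁ _ ⟨a, ha, b, hb, rfl⟩
        obtain ⟨a₂, ha₂, b₂, hb₂, h2⟩ := hBA (a₁ * b * a₁⁻¹)
        exact ⟨a, ha, b₂, hb₂, conjA a a₁ a₂ b b₂ ha ha₁ ha₂ h2⟩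
      have hB : ∀ b₁ ∈ B, ∀ x ∈ S, b₁ * x * b₁⁻¹ ∈ S := by
        rintro b₁ hb₁ _ ⟨a, ha, b, hb, rfl⟩
        obtain ⟨a₃, ha₃, b₃, hb₃, h3⟩ := hAB (b₁ * a * b₁⁻¹)
        exact ⟨a₃, ha₃, b, hb, conjB a a₃ b b₁ b₃ hb hb₁ hb₃ h3⟩
      intro g x hx
      obtain ⟨a₁, ha₁, b₁, hb₁, rfl⟩ := hAB g
      rw [show a₁ * b₁ * x * (a₁ * b₁)⁻¹ = a₁ * (b₁ * x * b₁⁻¹) * a₁⁻¹ by group]
      exact Subgroup.subset_closure (hA a₁ ha₁ _ (hB b₁ hb₁ x hx))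
    refine ⟨fun n hn g => ?_⟩
    have hle : K ≤ K.comap (MulAut.conj g).toMonoidHom := (Subgroup.closure_le _).2 fun x hx => hgen g x hx
    exact hle hn
  haveI hKab : IsMulCommutative K := Subgroup.isMulCommutative_closure hcomm
  haveI : Group.IsSolvable K := Group.isSolvable_of_comm fun x y => mul_comm' x y
  haveI : Group.IsSolvable (G ⧸ K) := Group.isSolvable_of_comm fun x y => by
    obtain ⟨x, rfl⟩ := QuotientGroup.mk_surjective x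
    obtain ⟨y, rfl⟩ := QuotientGroup.mk_surjective y
    have hab : ∀ a ∈ A, ∀ b ∈ B, ((a : G ⧸ K)) * (b : G ⧸ K) = (b : G ⧸ K) * (a : G ⧸ K) := by
      intro a ha b hb
      rw [← QuotientGroup.mk_mul, ← QuotientGroup.mk_mul, QuotientGroup.eq]
      have : (a * b)⁻¹ * (b * a) = b⁻¹ * a⁻¹ * b⁻¹⁻¹ * a⁻¹⁻¹ := by group
      rw [this]
      have h4 : a⁻¹ * b⁻¹ * a⁻¹⁻¹ * b⁻¹⁻¹ ∈ K := Subgroup.subset_closure ⟨a⁻¹, inv_mem ha, b⁻¹, inv_mem hb, rfl⟩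
      have h5 := inv_mem h4
      simpa [mul_assoc] using h5
    obtain ⟨a, ha, b, hb, rfl⟩ := hAB x
    obtain ⟨c, hc, d, hd, rfl⟩ := hAB y
    simp only [QuotientGroup.mk_mul]
    calc (a : G ⧸ K) * b * (c * d) = a * (b * c) * d := by group
      _ = a * (c * b) * d := by rw [hab c hc b hb]
      _ = (a * c) * (b * d) := by group
      _ = (c * a) * (d * b) := congrArg₂ (fun u v : G => ((u : G ⧸ K)) * (v : G ⧸ K)) (cA ha hc) (cB hb hd)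
      _ = c * (a * d) * b := by group
      _ = c * (d * a) * b := by rw [hab a ha d hd]
      _ = c * d * (a * b) := by group
  exact Group.isSolvable_of_ker_le_range K.subtype (QuotientGroup.mk' K) (by simp)

end Cfsg.Agent.S0047
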