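import Cfsg.Statements.S0049
import Cfsg.Agent.Hall.StructBatch
-- import your own Cfsg.Agent.* helpers here

set_option autoImplicit false
open Cfsg

namespace Cfsg.Agent.S0049

/-- A prime divisor of the order of a finite group also divides the index of the Frattini subgroup. -/
theorem result {G : Type*} [Group G] [Finite G] (p : ℕ) (hp : p.Prime) (hdvd : p ∣ Nat.card G) :
    p ∣ (frattini G).index := by
  exact CfsgLib.Hall.Struct.dvd_index_frattini p hp hdvd

end Cfsg.Agent.S0049
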