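import Cfsg.Statements.S0056
import Cfsg.Agent.CoprimeAction.Abelian

set_option autoImplicit false
open Cfsg

namespace Cfsg.Agent.S0056

/-- A coprime action on an abelian group that fixes all elements of prime order is trivial. -/
theorem result {G : Type*} [Group G] [Finite G] (A V : Subgroup G) [IsMulCommutative V]
    (hAV : A ≤ Subgroup.normalizer (V : Set G)) (hcop : (Nat.card A).Coprime (Nat.card V))
    (hΩ : ∀ v ∈ V, (orderOf v).Prime → ∀ a ∈ A, a * v = v * a) : A ≤ Subgroup.centralizer (V : Set G) := by
  exact CfsgLib.CoprimeAction.le_centralizer_of_fixes_prime_order hAV hcop hΩ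

end Cfsg.Agent.S0056
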