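import Cfsg.Statements.S0057
import Cfsg.Agent.CoprimeAction.Abelian
import Cfsg.Agent.CoprimeAction.Invariant
import Mathlib.GroupTheory.IndexNormal

set_option autoImplicit false
open Cfsg
open scoped commutatorElement

namespace Cfsg.Agent.S0057

/-- Under coprime action, if the centraliser of A in K has prime index p in K then the commutator subgroup [K, A] has order exactly p. -/
theorem result {G : Type*} [Group G] [Finite G] (A K : Subgroup G) (hAK : A ≤ Subgroup.normalizer (K : Set G))
    (hcop : (Nat.card A).Coprime (Nat.card K)) (hsolv : Group.IsSolvable A ∨ Group.IsSolvable K)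
    (p : ℕ) (hp : p.Prime) (hidx : (K ⊓ Subgroup.centralizer (A : Set G)).relIndex K = p) :
    Nat.card (⁅K, A⁆ : Subgroup G) = p := by
  have : Fact p.Prime := ⟨hp⟩
  obtain ⟨R, hR⟩ := CfsgLib.CoprimeAction.exists_invariant_sylow hAK hcop hsolv p
  set P := (R : Subgroup K).map K.subtype with hPdef
  set C := K ⊓ Subgroup.centralizer (A : Set G) with hC
  have hPK : P ≤ K := Subgroup.map_subtype_le _
  have hP : IsPGroup p P := R.isPGroup'.map _
  have hcC : Nat.card C * p = Nat.card K := by
    rw [← hidx, ← Subgroup.relIndex_bot_left (H := C), ← Subgroup.relIndex_bot_left (H := K)]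
    exact Subgroup.relIndex_mul_relIndex _ _ _ bot_le inf_le_left
  -- `K = P C`
  have hnot : ¬ P ≤ C := by
    intro h
    have h1 := Subgroup.card_dvd_of_le h
    rw [CfsgLib.CoprimeAction.card_sylow_map] at h1
    have h2 := Nat.mul_dvd_mul_right h1 p
    rw [hcC, ← pow_succ] at h2
    exact Nat.pow_succ_factorization_not_dvd Nat.card_pos.ne' hp h2
  have hmulK : ∀ k ∈ K, ∃ y ∈ P, ∃ c ∈ C, y * c = k := by
    have hne1 : (C.subgroupOf P).index ≠ 1 := fun h1 =>
      hnot (Subgroup.relIndex_eq_one.1 h1)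
    obtain ⟨i, hi⟩ : ∃ i, (C.subgroupOf P).index = p ^ i := hP.index (C.subgroupOf P)
    let f : P ⧸ C.subgroupOf P → K ⧸ C.subgroupOf K :=
      Subgroup.quotientSubgroupOfEmbeddingOfLE C hPK
    have hf : Function.Injective f := Function.Embedding.injective _
    have hle := Nat.card_le_card_of_injective f hf
    have hcK : Nat.card (K ⧸ C.subgroupOf K) = p := hidx
    have hcP : Nat.card (P ⧸ C.subgroupOf P) = p := by
      rw [hcK] at hle
      rw [← Subgroup.index_eq_card] at hle ⊢
      rcases i with _ | i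
      · exact absurd (by simpa using hi) hne1
      · refine le_antisymm hle ?_
        rw [hi, pow_succ']
        exact Nat.le_mul_of_pos_right _ (pow_pos hp.pos _)
    have hbij : Function.Bijective f :=
      (Nat.bijective_iff_injective_and_card f).2 ⟨hf, hcP.trans hcK.symm⟩
    intro k hk
    obtain ⟨q, hq⟩ := hbij.2 (QuotientGroup.mk ⟨k, hk⟩)
    obtain ⟨y, rfl⟩ := QuotientGroup.mk_surjective q
    refine ⟨y, y.2, (y : G)⁻¹ * k, ?_, mul_inv_cancel_left _ _⟩
    exact Subgroup.mem_subgroupOf.1 (QuotientGroup.eq.1 hq)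
  -- `[K, A] = [P, A]`
  have hD : ⁅K, A⁆ = ⁅P, A⁆ := by
    refine le_antisymm ?_ (Subgroup.commutator_mono hPK le_rfl)
    rw [Subgroup.commutator_le]
    intro k hk a ha
    obtain ⟨y, hy, c, hc, rfl⟩ := hmulK k hk
    have hca := Subgroup.mem_centralizer_iff.1 (Subgroup.mem_inf.1 hc).2 a ha
    have e : ⁅y * c, a⁆ = ⁅y, a⁆ := by
      rw [commutatorElement_def, commutatorElement_def, mul_assoc y c a, ← hca]; group
    rw [e]
    exact Subgroup.commutator_mem_commutator hy ha
  set D := ⁅K, A⁆ with hDdef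
  have hDP : D ≤ P := hD ▸ CfsgLib.CoprimeAction.commutator_le_of_normalizer hR
  have hDK : D ≤ K := hDP.trans hPK
  have hAD : A ≤ Subgroup.normalizer (D : Set G) :=
    CfsgLib.CoprimeAction.le_normalizer_commutator hAK
  have hDD : ⁅D, A⁆ = D := CfsgLib.CoprimeAction.commutator_commutator_eq hAK hcop hsolv
  have hcopD : (Nat.card A).Coprime (Nat.card D) :=
    hcop.coprime_dvd_right (Subgroup.card_dvd_of_le hDK)
  set Q := D ⊓ C with hQdef
  -- `Q` has index `p` in `D`
  have hQidx : Q.relIndex D = p := by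
    rw [hQdef, inf_comm, Subgroup.inf_relIndex_right]
    have : (C.subgroupOf D).index ≠ 1 := by
      intro h1
      have hDC : D ≤ C := Subgroup.relIndex_eq_one.1 h1
      have hKC : K ≤ C := by
        have := CfsgLib.CoprimeAction.commutator_sup_centralizer hAK hcop hsolv
        rw [← this]; exact sup_le hDC le_rfl
      have h2 : C.relIndex K = 1 := Subgroup.relIndex_eq_one.2 hKC
      rw [hidx] at h2
      exact hp.one_lt.ne' h2
    obtain ⟨i, hi⟩ : ∃ i, (C.subgroupOf D).index = p ^ i := (hP.to_le hDP).index _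
    have hle := Nat.card_le_card_of_injective _
      (Subgroup.quotientSubgroupOfEmbeddingOfLE C hDK).injective
    have hcK : Nat.card (K ⧸ C.subgroupOf K) = p := hidx
    rw [hcK, ← Subgroup.index_eq_card] at hle
    rcases i with _ | i
    · exact absurd (by simpa using hi) this
    · refine le_antisymm hle ?_
      show p ≤ (C.subgroupOf D).index
      rw [hi, pow_succ']
      exact Nat.le_mul_of_pos_right _ (pow_pos hp.pos _)
  have hQn : (Q.subgroupOf D).Normal := by
    have : Group.IsNilpotent D := (hP.to_le hDP).isNilpotent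
    apply Subgroup.normal_of_index_eq_minFac_card
    have hidxQ : (Q.subgroupOf D).index = p := hQidx
    rw [hidxQ]
    obtain ⟨m, hm⟩ := (hP.to_le hDP).exists_card_eq
    rw [hm]
    rcases m with _ | m
    · have := (Q.subgroupOf D).index_dvd_card
      rw [hidxQ, hm] at this
      exact absurd (Nat.eq_one_of_dvd_one (by simpa using this)) hp.one_lt.ne'
    · rw [Nat.Prime.pow_minFac hp (Nat.succ_ne_zero m)]
  -- `Q` is central in `D`
  have hQD : ∀ d ∈ D, ∀ x ∈ Q, d * x = x * d := by
    intro d hd x hx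
    have hgen : D ≤ Subgroup.centralizer (Q : Set G) := by
      rw [← hDD, Subgroup.commutator_le]
      intro e he a ha
      rw [Subgroup.mem_centralizer_iff]
      intro z hz
      obtain ⟨hzD, hzC⟩ := Subgroup.mem_inf.1 (show z ∈ D ⊓ C from hz)
      have hfix : ∀ w ∈ Q, a * w * a⁻¹ = w := fun w hw => by
        rw [Subgroup.mem_centralizer_iff.1
          (Subgroup.mem_inf.1 (Subgroup.mem_inf.1 hw).2).2 a ha, mul_inv_cancel_right]
      have hw : e⁻¹ * z * e ∈ Q := by
        exact Subgroup.mem_subgroupOf.1 (hQn.conj_mem' ⟨z, hzD⟩ hz ⟨e, he⟩)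
      have h1 : (a * e * a⁻¹)⁻¹ * z * (a * e * a⁻¹) = e⁻¹ * z * e := by
        calc (a * e * a⁻¹)⁻¹ * z * (a * e * a⁻¹)
            = a * (e⁻¹ * (a⁻¹ * z * a) * e) * a⁻¹ := by group
          _ = a * (e⁻¹ * z * e) * a⁻¹ := by
            congr 3
            rw [mul_assoc a⁻¹, ← Subgroup.mem_centralizer_iff.1 (Subgroup.mem_inf.1 hzC).2 a ha,
              inv_mul_cancel_left]
          _ = _ := hfix _ hw
      calc z * ⁅e, a⁆ = e * (e⁻¹ * z * e) * (a * e * a⁻¹)⁻¹ := by
            rw [commutatorElement_def]; group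
        _ = e * ((a * e * a⁻¹)⁻¹ * z * (a * e * a⁻¹)) * (a * e * a⁻¹)⁻¹ := by rw [h1]
        _ = ⁅e, a⁆ * z := by rw [commutatorElement_def]; group
    exact (Subgroup.mem_centralizer_iff.1 (hgen hd) x hx).symm
  have hDcomm : IsMulCommutative D := by
    refine ⟨⟨?_⟩⟩
    have hcyc : IsCyclic (D ⧸ Q.subgroupOf D) :=
      isCyclic_of_prime_card (p := p) (by rw [← Subgroup.index_eq_card]; exact hQidx)
    exact commutative_of_cyclic_center_quotient (QuotientGroup.mk' (Q.subgroupOf D)) (by
      rw [QuotientGroup.ker_mk']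
      intro x hx
      rw [Subgroup.mem_center_iff]
      intro g
      exact Subtype.ext (hQD g g.2 x hx))
  have hbot : Q = ⊥ := by
    rw [eq_bot_iff, ← CfsgLib.CoprimeAction.centralizer_inf_commutator_eq_bot hAD hcopD, hDD]
    exact le_inf (le_inf inf_le_left (inf_le_right.trans inf_le_right)) inf_le_left
  rw [← hQidx, hbot, Subgroup.relIndex_bot_left]

end Cfsg.Agent.S0057
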