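import Cfsg.Statements.S0059
import Cfsg.Agent.CoprimeAction.Basic

set_option autoImplicit false
open Cfsg

namespace Cfsg.Agent.S0059

/-- Let a finite group act on a set on which a normal subgroup K of coprime order and index is transitive, with K or the quotient solvable. Then any complement H of K has a fixed point, and any two H-fixed points are interchanged by an element of K centralising H. -/
theorem result {G : Type*} [Group G] [Finite G] {X : Type*} [Nonempty X] [MulAction G X]
    (K H : Subgroup G) [K.Normal] (hc : Subgroup.IsComplement' K H) (hcop : (Nat.card K).Coprime K.index)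
    (hsolv : Group.IsSolvable K ∨ Group.IsSolvable (G ⧸ K)) (htrans : MulAction.IsPretransitive K X) :
    (∃ x : X, ∀ h ∈ H, h • x = x) ∧
    ∀ x y : X, (∀ h ∈ H, h • x = x) → (∀ h ∈ H, h • y = y) → ∃ k ∈ K ⊓ Subgroup.centralizer (H : Set G), k • x = y := by
  have : (MulAction.IsPretransitive K X) := htrans
  have hsolv' : Group.IsSolvable H ∨ Group.IsSolvable K := by
    rcases hsolv with h | h
    · exact Or.inr h
    · refine Or.inl (Group.isSolvable_of_isSolvable_injective
        (f := (QuotientGroup.mk' K).comp H.subtype) ?_)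
      rw [← MonoidHom.ker_eq_bot_iff, eq_bot_iff]
      intro x hx
      have hxK : (x : G) ∈ K := (QuotientGroup.eq_one_iff _).1 hx
      have := hc.disjoint.le_bot (Subgroup.mem_inf.2 ⟨hxK, x.2⟩)
      exact Subgroup.mem_bot.2 (Subtype.ext (Subgroup.mem_bot.1 this))
  have hcop' : (Nat.card H).Coprime (Nat.card K) := by
    rw [CfsgLib.CoprimeAction.card_eq_index_of_complement hc]; exact hcop.symm
  have htr : ∀ x ∈ (Set.univ : Set X), ∀ y ∈ (Set.univ : Set X), ∃ k ∈ K, k • x = y := by
    intro x _ y _
    obtain ⟨k, hk⟩ := MulAction.exists_smul_eq K x y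
    exact ⟨k, k.2, hk⟩
  obtain ⟨x, -, hx⟩ := CfsgLib.CoprimeAction.exists_fixed (Subgroup.le_normalizer_of_normal) hcop'
    hsolv' (Set.univ : Set X) Set.univ_nonempty (fun _ _ _ _ => trivial) (fun _ _ _ _ => trivial) htr
  refine ⟨⟨x, hx⟩, fun a b ha hb => ?_⟩
  exact CfsgLib.CoprimeAction.fixed_transitive (Subgroup.le_normalizer_of_normal) hcop' hsolv'
    Set.univ (fun _ _ _ _ => trivial) htr trivial trivial ha hb

end Cfsg.Agent.S0059
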