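import Cfsg.Statements.S0062
import Cfsg.Agent.CharBasics.Burnside

set_option autoImplicit false
open Cfsg

namespace Cfsg.Agent.S0062

/-- A finite group of order p^2 * q^2 with p and q prime is solvable. -/
theorem result {G : Type*} [Group G] [Finite G] (p q : ℕ) (hp : p.Prime) (hq : q.Prime)
    (hG : Nat.card G = p ^ 2 * q ^ 2) : Group.IsSolvable G := by
  refine CfsgLib.CharBasics.isSolvable_two_primes p q fun r hr hdvd => ?_
  rw [hG] at hdvd
  rcases (Nat.Prime.dvd_mul hr).1 hdvd with h | h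
  · exact Or.inl ((Nat.prime_dvd_prime_iff_eq hr hp).1 (hr.dvd_of_dvd_pow h))
  · exact Or.inr ((Nat.prime_dvd_prime_iff_eq hr hq).1 (hr.dvd_of_dvd_pow h))

end Cfsg.Agent.S0062
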