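import Cfsg.Statements.S0069
import Cfsg.Agent.Zass.Basic

set_option autoImplicit false
open Cfsg

namespace Cfsg.Agent.S0069

/-- A Frobenius complement has nontrivial centre: if H ≠ 1 complements a nontrivial normal subgroup K and every nonidentity element of H has trivial centraliser in K, then the centre of H is nontrivial. -/
theorem result {G : Type*} [Group G] [Finite G] (K H : Subgroup G) [K.Normal]
    (hc : Subgroup.IsComplement' K H) (hK : K ≠ ⊥) (hH : H ≠ ⊥) (hfpf : ∀ h ∈ H, h ≠ 1 → K ⊓ Subgroup.centralizer {h} = ⊥) :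
    Subgroup.center H ≠ ⊥ := by
  have hC : Cfsg.IsFrobeniusComplement H := by
    refine CfsgLib.Frob.isFrobeniusComplement_of_fpf K H (disjoint_iff.mp hc.disjoint) hc.sup_eq_top hK hH
      (fun h hh k hk hhk => ?_)
    by_cases h1 : h = 1
    · exact Or.inl h1
    refine Or.inr ?_
    have hm : k ∈ K ⊓ Subgroup.centralizer {h} :=
      ⟨hk, Subgroup.mem_centralizer_singleton_iff.mpr hhk.symm⟩
    rwa [hfpf h hh h1, Subgroup.mem_bot] at hm
  haveI : Nontrivial H := (Subgroup.nontrivial_iff_ne_bot H).mpr hH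
  exact CfsgLib.Zass.center_ne_bot (CfsgLib.Frob.latFpf_of_complement hC)

end Cfsg.Agent.S0069
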