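import Cfsg.Statements.S0070
import Cfsg.Agent.CoprimeAction.FrattiniNilpotent

set_option autoImplicit false
open Cfsg

namespace Cfsg.Agent.S0070

/-- The Fitting subgroup commutes with passing to the Frattini quotient: the Fitting subgroup of G modulo its Frattini subgroup is the image of the Fitting subgroup of G. -/
theorem result {G : Type*} [Group G] [Finite G] :
    Cfsg.fittingSubgroup (G ⧸ frattini G) = (Cfsg.fittingSubgroup G).map (QuotientGroup.mk' (frattini G)) := by
  set π := QuotientGroup.mk' (frattini G) with hπdef
  have hπ : Function.Surjective π := QuotientGroup.mk'_surjective _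
  apply le_antisymm
  · set F := Cfsg.fittingSubgroup (G ⧸ frattini G) with hF
    haveI : F.Normal := CfsgLib.Components.fittingSubgroup_normal
    haveI : (F.comap π).Normal := Subgroup.Normal.comap inferInstance π
    have hm : (F.comap π).map π = F := Subgroup.map_comap_eq_self_of_surjective hπ F
    have h1 : Group.IsNilpotent ↥(F.comap π) :=
      CfsgLib.CoprimeAction.isNilpotent_of_map_frattini _ (by
        rw [hm]; exact CfsgLib.Components.fittingSubgroup_isNilpotent)
    rw [← hm]
    exact Subgroup.map_mono (CfsgLib.Components.le_fittingSubgroup inferInstance h1)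
  · haveI := CfsgLib.Components.fittingSubgroup_isNilpotent (G := G)
    refine CfsgLib.Components.le_fittingSubgroup
      (Subgroup.Normal.map CfsgLib.Components.fittingSubgroup_normal π hπ) ?_
    exact Group.nilpotent_of_surjective (π.subgroupMap (Cfsg.fittingSubgroup G)) (MonoidHom.subgroupMap_surjective _ _)

end Cfsg.Agent.S0070
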