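import Cfsg.Statements.S0072
import Cfsg.Agent.Transfer.Frobenius

set_option autoImplicit false
open Cfsg

namespace Cfsg.Agent.S0072

/-- A finite group has a normal p-complement if and only if every p-local subgroup (normalizer of a nontrivial p-subgroup) has one. -/
theorem result {G : Type*} [Group G] [Finite G] (p : ℕ) [Fact p.Prime] : Cfsg.HasNormalPComplement p G ↔ ∀ Q : Subgroup G, IsPGroup p Q → Q ≠ ⊥ → Cfsg.HasNormalPComplement p (Subgroup.normalizer (Q : Set G)) := by
  refine ⟨fun h Q _ _ => CfsgLib.Transfer.hasNormalPComplement_subgroup _ h, fun h => ?_⟩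
  refine CfsgLib.Transfer.frobenius_normal_complement fun Q hQ g hg ho => ?_
  by_cases hne : Q = ⊥
  · rw [Subgroup.mem_centralizer_iff]
    intro q hq
    rw [hne] at hq
    rw [Subgroup.mem_bot.1 hq, one_mul, mul_one]
  have hloc := CfsgLib.Transfer.locallyTrivial_of_hasNormalPComplement (h Q hQ hne)
  have h1 : IsPGroup p (Q.subgroupOf (Subgroup.normalizer (Q : Set G))) :=
    hQ.comap_of_injective _ Subtype.val_injective
  have h2 := hloc _ h1 ⟨g, hg⟩ (by
    rw [Subgroup.normalizer_eq_top_iff.2 Subgroup.normal_in_normalizer]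
    trivial) (by rwa [Subgroup.orderOf_mk])
  rw [Subgroup.mem_centralizer_iff] at h2 ⊢
  intro q hq
  exact congrArg Subtype.val (h2 ⟨q, Subgroup.le_normalizer hq⟩ hq)

end Cfsg.Agent.S0072
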