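import Cfsg.Statements.S0077
import Cfsg.Agent.Transfer.Focal

set_option autoImplicit false
open Cfsg
open scoped commutatorElement

namespace Cfsg.Agent.S0077

/-- If a subgroup Z of the centre of a Sylow p-subgroup P is weakly closed in P, then P meets the derived subgroup of G exactly where it meets the derived subgroup of the normalizer of Z. -/
theorem result {G : Type*} [Group G] [Finite G] {p : ℕ} [Fact p.Prime] (P : Sylow p G) (Z : Subgroup G) (hZ : Z ≤ Subgroup.centralizer (P : Set G)) (hW : Cfsg.IsWeaklyClosed Z P) : commutator G ⊓ (P : Subgroup G) = ⁅Subgroup.normalizer (Z : Set G), Subgroup.normalizer (Z : Set G)⁆ ⊓ (P : Subgroup G) := by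
  have hPZ : (P : Subgroup G) ≤ Subgroup.normalizer (Z : Set G) :=
    (Subgroup.le_centralizer_iff.1 hZ).trans (Subgroup.centralizer_le_normalizer _)
  refine le_antisymm (le_inf ?_ inf_le_right) (inf_le_inf_right _ (Subgroup.commutator_mono le_top le_top))
  rw [inf_comm, CfsgLib.Transfer.inf_commutator_eq_focal P]
  refine (CfsgLib.Transfer.focalSubgroup_le_commutator_of_control fun x hx g hg =>
    CfsgLib.Transfer.exists_conj_normalizer_weaklyClosed P hW (fun w hw => ?_) (fun w hw => ?_)).trans
    (Subgroup.commutator_mono hPZ le_rfl)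
  · exact Subgroup.mem_centralizer_singleton_iff.2 (Subgroup.mem_centralizer_iff.1 (hZ hw) x hx).symm
  · exact Subgroup.mem_centralizer_singleton_iff.2 (Subgroup.mem_centralizer_iff.1 (hZ hw) _ hg).symm

end Cfsg.Agent.S0077
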