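import Cfsg.Statements.S0078
import Cfsg.Agent.Transfer.Hyperfocal

set_option autoImplicit false
open Cfsg
open scoped commutatorElement

namespace Cfsg.Agent.S0078

/-- In a p-normal group, a Sylow p-subgroup P meets O^p(G) exactly where it meets O^p(V), for any subgroup V containing the normalizer of the centre of P. -/
theorem result {G : Type*} [Group G] [Finite G] {p : ℕ} [Fact p.Prime] (P : Sylow p G) (hn : ∀ Q : Sylow p G, (P : Subgroup G) ⊓ Subgroup.centralizer (P : Set G) ≤ (Q : Subgroup G) → (Q : Subgroup G) ⊓ Subgroup.centralizer (Q : Set G) = (P : Subgroup G) ⊓ Subgroup.centralizer (P : Set G)) (V : Subgroup G) (hV : Subgroup.normalizer (((P : Subgroup G) ⊓ Subgroup.centralizer (P : Set G) : Subgroup G) : Set G) ≤ V) : (P : Subgroup G) ⊓ Cfsg.pResidual p G = (P : Subgroup G) ⊓ (Cfsg.pResidual p V).map V.subtype := by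
  set Z : Subgroup G := (P : Subgroup G) ⊓ Subgroup.centralizer (P : Set G) with hZ
  have hW : Cfsg.IsWeaklyClosed Z P := by
    refine ⟨inf_le_left, fun g hg => ?_⟩
    have h1 : Z ≤ ((g⁻¹ • P : Sylow p G) : Subgroup G) := fun z hz =>
      CfsgLib.Transfer.mem_smul_sylow_iff.2 (by rw [inv_inv]; exact hg ⟨z, hz, rfl⟩)
    have h2 := hn (g⁻¹ • P) h1
    refine Subgroup.eq_of_le_of_card_ge ?_ (le_of_eq (Subgroup.card_map_of_injective (MulAut.conj g).injective).symm)
    rintro _ ⟨z, hz, rfl⟩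
    rw [← h2] at hz
    obtain ⟨hz1, hz2⟩ := hz
    refine ⟨by simpa using CfsgLib.Transfer.mem_smul_sylow_iff.1 hz1, Subgroup.mem_centralizer_iff.2 fun s hs => ?_⟩
    have h3 := Subgroup.mem_centralizer_iff.1 hz2 (g⁻¹ * s * g)
      (CfsgLib.Transfer.mem_smul_sylow_iff.2 (by simpa [mul_assoc] using hs))
    show s * (g * z * g⁻¹) = g * z * g⁻¹ * s
    calc s * (g * z * g⁻¹) = g * ((g⁻¹ * s * g) * z) * g⁻¹ := by group
      _ = g * (z * (g⁻¹ * s * g)) * g⁻¹ := by rw [h3]
      _ = g * z * g⁻¹ * s := by group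
  have hPV : (P : Subgroup G) ≤ V :=
    Subgroup.le_normalizer.trans ((CfsgLib.Transfer.le_normalizer_of_weaklyClosed P hW).trans hV)
  refine CfsgLib.Transfer.inf_pResidual_eq_of_control P V hPV fun x hx g hg => ?_
  obtain ⟨m, hm, hme⟩ := CfsgLib.Transfer.exists_conj_normalizer_weaklyClosed P hW (x := x) (g := g)
    (fun w hw => Subgroup.mem_centralizer_singleton_iff.2 (Subgroup.mem_centralizer_iff.1 hw.2 x hx).symm)
    (fun w hw => Subgroup.mem_centralizer_singleton_iff.2 (Subgroup.mem_centralizer_iff.1 hw.2 _ hg).symm)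
  exact ⟨m, hV hm, hme⟩

end Cfsg.Agent.S0078
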