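import Cfsg.Statements.S0082
import Cfsg.Agent.Transfer.AbelianSylow

set_option autoImplicit false
open Cfsg
open scoped commutatorElement

namespace Cfsg.Agent.S0082

/-- With a cyclic Sylow p-subgroup, either there is a normal p-complement or the elements of order prime to p generate the whole group. -/
theorem result {G : Type*} [Group G] [Finite G] {p : ℕ} [Fact p.Prime] (P : Sylow p G) (hP : IsCyclic P) : Cfsg.HasNormalPComplement p G ∨ Cfsg.pResidual p G = ⊤ := by
  have hP' : IsMulCommutative P := (hP : IsCyclic (P : Subgroup G)).isMulCommutative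
  obtain ⟨h1, h2⟩ := CfsgLib.Transfer.abelian_decomp P hP'
  have hle : ⁅(P : Subgroup G), Subgroup.normalizer ((P : Subgroup G) : Set G)⁆ ≤ P := le_sup_right.trans h2.le
  rcases CfsgLib.Transfer.eq_bot_or_eq_bot_of_cyclic P.isPGroup' hP inf_le_left hle h1 with h | h
  · right
    rw [h, bot_sup_eq] at h2
    rw [CfsgLib.Transfer.pResidual_eq_top_iff P]
    exact h2.ge.trans (Subgroup.commutator_mono le_top le_top)
  · left
    refine CfsgLib.Transfer.burnside_normal_complement P ?_
    rw [h, sup_bot_eq] at h2
    exact Subgroup.le_centralizer_iff.1 (h2.ge.trans inf_le_right)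

end Cfsg.Agent.S0082
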