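import Cfsg.Statements.S0083
import Cfsg.Agent.Transfer.AbelianSylow
import Cfsg.Agent.Transfer.Frobenius

set_option autoImplicit false
open Cfsg
open scoped commutatorElement IsMulCommutative Pointwise

namespace Cfsg.Agent.S0083

/-- For an abelian Sylow p-subgroup P, a normal p-complement exists exactly when the normalizer of P is an internal direct product of P with some subgroup. -/
theorem result {G : Type*} [Group G] [Finite G] {p : ℕ} [Fact p.Prime] (P : Sylow p G) (hP : IsMulCommutative P) : Cfsg.HasNormalPComplement p G ↔ ∃ Q : Subgroup G, Q ≤ Subgroup.centralizer (P : Set G) ∧ Q ⊓ (P : Subgroup G) = ⊥ ∧ Q ⊔ (P : Subgroup G) = Subgroup.normalizer (P : Set G) := by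
  have hP' : IsMulCommutative (P : Subgroup G) := hP
  have hPC : (P : Subgroup G) ≤ Subgroup.centralizer (P : Set G) := fun x hx =>
    Subgroup.mem_centralizer_iff.2 fun y hy => congrArg Subtype.val (mul_comm' (⟨y, hy⟩ : (P : Subgroup G)) ⟨x, hx⟩)
  constructor
  · intro h
    obtain ⟨A, hAN, hcop, hprod⟩ := CfsgLib.Transfer.exists_normalizer_complement P
    refine ⟨A, fun a ha => ?_, Subgroup.inf_eq_bot_of_coprime hcop, le_antisymm (sup_le hAN Subgroup.le_normalizer) ?_⟩
    · refine CfsgLib.Transfer.locallyTrivial_of_hasNormalPComplement h _ P.isPGroup' a (hAN ha) ?_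
      refine Nat.Coprime.coprime_dvd_left (A.orderOf_dvd_natCard ha) ?_
      obtain ⟨k, hk⟩ := IsPGroup.iff_card.1 P.isPGroup'
      rcases k with _ | k
      · exact ((Fact.out : p.Prime).coprime_iff_not_dvd.2 fun hd => P.not_dvd_index (by
          have h1 := hd.trans (Subgroup.card_subgroup_dvd_card A)
          rw [← Subgroup.card_mul_index (P : Subgroup G), hk, pow_zero, one_mul] at h1
          exact h1)).symm
      · exact Nat.Coprime.coprime_dvd_right (hk ▸ dvd_pow_self p k.succ_ne_zero) hcop
    · intro n hn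
      obtain ⟨y, hy, a, ha, rfl⟩ := hprod n hn
      exact mul_mem (Subgroup.mem_sup_right hy) (Subgroup.mem_sup_left ha)
  · rintro ⟨Q, hQ, -, hsup⟩
    exact CfsgLib.Transfer.burnside_normal_complement P (hsup.ge.trans (sup_le hQ hPC))

end Cfsg.Agent.S0083
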