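import Cfsg.Statements.S0084
import Cfsg.Agent.Transfer.SmallSylow

set_option autoImplicit false
open Cfsg
open scoped commutatorElement IsMulCommutative Pointwise

namespace Cfsg.Agent.S0084

/-- A group whose Sylow 2-subgroups are Klein four-groups and whose order is prime to 3 has a normal 2-complement. -/
theorem result {G : Type*} [Group G] [Finite G] (T : Sylow 2 G) (hT : IsKleinFour T) (h3 : ¬ 3 ∣ Nat.card G) : Cfsg.HasNormalPComplement 2 G := by
  refine CfsgLib.Transfer.hasNormalPComplement_of_no_aut T fun q hq hq2 hqd i k hik hk hdvd => ?_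
  have h4 : Nat.card (T : Subgroup G) = 4 := hT.card_four
  rw [h4] at hk
  have hk2 : k ≤ 2 := (Nat.pow_dvd_pow_iff_le_right (by norm_num : 1 < 2)).1 (show 2 ^ k ∣ 2 ^ 2 from hk)
  have hq3 : q ≠ 3 := fun e => h3 (e ▸ hqd)
  have h1 := hq.two_le
  interval_cases k <;> interval_cases i <;> norm_num at hdvd
  all_goals first
    | exact hq2 ((Nat.prime_dvd_prime_iff_eq hq Nat.prime_two).1 hdvd)
    | exact hq3 ((Nat.prime_dvd_prime_iff_eq hq Nat.prime_three).1 hdvd)
    | omega

end Cfsg.Agent.S0084
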