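import Cfsg.Statements.S0085
import Cfsg.Agent.Transfer.SmallSylow

set_option autoImplicit false
open Cfsg
open scoped commutatorElement IsMulCommutative Pointwise

namespace Cfsg.Agent.S0085

/-- A group whose Sylow 2-subgroups are elementary abelian of order 8 and whose order is prime to 3 and to 7 has a normal 2-complement. -/
theorem result {G : Type*} [Group G] [Finite G] (T : Sylow 2 G) (h8 : Nat.card T = 8) (he : ∀ x : T, x * x = 1) (h3 : ¬ 3 ∣ Nat.card G) (h7 : ¬ 7 ∣ Nat.card G) : Cfsg.HasNormalPComplement 2 G := by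
  refine CfsgLib.Transfer.hasNormalPComplement_of_no_aut T fun q hq hq2 hqd i k hik hk hdvd => ?_
  rw [show Nat.card (T : Subgroup G) = 2 ^ 3 from h8] at hk
  have hk2 : k ≤ 3 := (Nat.pow_dvd_pow_iff_le_right (by norm_num : 1 < 2)).1 hk
  have hq3 : q ≠ 3 := fun e => h3 (e ▸ hqd)
  have hq7 : q ≠ 7 := fun e => h7 (e ▸ hqd)
  have h1 := hq.two_le
  interval_cases k <;> interval_cases i <;> norm_num at hdvd
  all_goals first
    | omega
    | (have h6 := Nat.le_of_dvd (by norm_num) hdvd; interval_cases q <;> simp_all (config := { decide := true }))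

end Cfsg.Agent.S0085
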