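import Cfsg.Statements.S0087
import Cfsg.Agent.Transfer.HallFocal
import Cfsg.Agent.Hall.Schmidt

set_option autoImplicit false
open Cfsg
open scoped commutatorElement IsMulCommutative Pointwise

namespace Cfsg.Agent.S0087

/-- A Hall subgroup that is central in its normalizer has a normal complement. -/
theorem result {G : Type*} [Group G] [Finite G] (H : Subgroup G) (hHall : Nat.Coprime (Nat.card H) H.index) (h : Subgroup.normalizer (H : Set G) ≤ Subgroup.centralizer (H : Set G)) : ∃ N : Subgroup G, N.Normal ∧ N.IsComplement' H := by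
  have hcomm : ∀ a ∈ H, ∀ b ∈ H, a * b = b * a := fun a ha b hb =>
    Subgroup.mem_centralizer_iff.1 (h (Subgroup.le_normalizer hb)) a ha
  refine CfsgLib.Transfer.exists_complement_of_focal_series H hHall 1 ?_
  rw [Function.iterate_one, eq_bot_iff]
  refine CfsgLib.Transfer.focalSubgroup_le_of_forall fun x hx g hg => ?_
  set C := Subgroup.centralizer ({g * x * g⁻¹} : Set G) with hC
  have hHC : H ≤ C := fun a ha => Subgroup.mem_centralizer_singleton_iff.2 (hcomm a ha _ hg)
  have hgC : H.map (MulAut.conj g).toMonoidHom ≤ C := by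
    rintro _ ⟨a, ha, rfl⟩
    refine Subgroup.mem_centralizer_singleton_iff.2 ?_
    show MulAut.conj g a * MulAut.conj g x = MulAut.conj g x * MulAut.conj g a
    rw [← map_mul, ← map_mul, hcomm a ha x hx]
  have hnil : Group.IsNilpotent (H.subgroupOf C) := by
    have : IsMulCommutative (H.subgroupOf C) :=
      ⟨⟨fun a b => Subtype.ext (Subtype.ext (hcomm _ a.2 _ b.2))⟩⟩
    infer_instance
  have hcH : Nat.card (H.subgroupOf C) = Nat.card H := Nat.card_congr (Subgroup.subgroupOfEquivOfLe hHC).toEquiv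
  obtain ⟨c, hc⟩ := CfsgLib.Hall.wielandt_nilpotent_hall (H.subgroupOf C)
    ((H.map (MulAut.conj g).toMonoidHom).subgroupOf C) hnil
    (by
      rw [hcH]
      exact hHall.coprime_dvd_right (Subgroup.relIndex_dvd_index_of_le hHC |> fun h => h))
    (fun p _ hd => by
      rw [hcH]
      rw [Nat.card_congr (Subgroup.subgroupOfEquivOfLe hgC).toEquiv,
        Subgroup.card_map_of_injective (MulAut.conj g).injective] at hd
      exact hd)
  have hn : (c : G)⁻¹ * g ∈ Subgroup.normalizer (H : Set G) := by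
    refine Subgroup.mem_normalizer_fintype (S := (H : Set G)) fun a ha => ?_
    have h1 := hc (show (⟨MulAut.conj g a, hgC ⟨a, ha, rfl⟩⟩ : C) ∈ _ from ⟨a, ha, rfl⟩)
    obtain ⟨b, hb, hbe⟩ := (Subgroup.mem_smul_pointwise_iff_exists _ _ _).1 h1
    have h2 : (c : G) * b * (c : G)⁻¹ = g * a * g⁻¹ := congrArg Subtype.val hbe
    have : (c : G)⁻¹ * g * a * ((c : G)⁻¹ * g)⁻¹ = b := by
      calc (c : G)⁻¹ * g * a * ((c : G)⁻¹ * g)⁻¹ = (c : G)⁻¹ * (g * a * g⁻¹) * c := by group
        _ = b := by rw [← h2]; group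
    rw [this]
    exact hb
  have h1 := Subgroup.mem_centralizer_iff.1 (h hn) x hx
  have h2 : (c : G)⁻¹ * (g * x * g⁻¹) * c = x := by
    calc (c : G)⁻¹ * (g * x * g⁻¹) * c = ((c : G)⁻¹ * g * x) * ((c : G)⁻¹ * g)⁻¹ := by group
      _ = x := by rw [← h1]; group
  have h3 := Subgroup.mem_centralizer_singleton_iff.1 c.2
  rw [mul_assoc, ← h3, inv_mul_cancel_left] at h2
  rw [Subgroup.mem_bot, show x * (g * x⁻¹ * g⁻¹) = x * (g * x * g⁻¹)⁻¹ by group, h2, mul_inv_cancel]

end Cfsg.Agent.S0087
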