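import Cfsg.Statements.S0089
import Cfsg.Agent.Transfer.SmallSylow

set_option autoImplicit false
open Cfsg
open scoped commutatorElement IsMulCommutative Pointwise

namespace Cfsg.Agent.S0089

/-- When all Sylow subgroups are abelian, the derived subgroup meets the centre trivially. -/
theorem result {G : Type*} [Group G] [Finite G] (h : ∀ p : ℕ, p.Prime → ∀ P : Sylow p G, IsMulCommutative P) : commutator G ⊓ Subgroup.center G = ⊥ := by
  by_contra hne
  have : Nontrivial (commutator G ⊓ Subgroup.center G : Subgroup G) := (Subgroup.nontrivial_iff_ne_bot _).2 hne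
  obtain ⟨p, hp, hpd⟩ := Nat.exists_prime_and_dvd
    (Finite.one_lt_card (α := (commutator G ⊓ Subgroup.center G : Subgroup G))).ne'
  have : Fact p.Prime := ⟨hp⟩
  obtain ⟨⟨z, hz1, hz2⟩, hz⟩ := exists_prime_orderOf_dvd_card' p hpd
  rw [← Subgroup.orderOf_coe] at hz
  change orderOf z = p at hz
  obtain ⟨P, hP⟩ := (IsPGroup.of_card (n := 1) (by rw [Nat.card_zpowers, hz, pow_one]) :
    IsPGroup p (Subgroup.zpowers z)).exists_le_sylow
  have : IsMulCommutative (P : Subgroup G) := h p hp P
  have := CfsgLib.Transfer.eq_one_of_mem_abelian_hall (P : Subgroup G) P.card_coprime_index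
    (hP (Subgroup.mem_zpowers z)) hz1 hz2
  rw [this, orderOf_one] at hz
  exact hp.one_lt.ne hz

end Cfsg.Agent.S0089
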