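import Cfsg.Statements.S0090
import Cfsg.Agent.Transfer.HallFocal
import Cfsg.Agent.CoprimeAction.Abelian

set_option autoImplicit false
open Cfsg
open scoped commutatorElement IsMulCommutative Pointwise

namespace Cfsg.Agent.S0090

/-- An abelian normal Hall subgroup A splits as the internal direct product of G' ∩ A and Z(G) ∩ A, and [A, G] = G' ∩ A. -/
theorem result {G : Type*} [Group G] [Finite G] (A : Subgroup G) [A.Normal] (hc : IsMulCommutative A) (hHall : Nat.Coprime (Nat.card A) A.index) : ⁅A, (⊤ : Subgroup G)⁆ = commutator G ⊓ A ∧ (commutator G ⊓ A) ⊓ (Subgroup.center G ⊓ A) = ⊥ ∧ (commutator G ⊓ A) ⊔ (Subgroup.center G ⊓ A) = A := by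
  have := hc
  have hcomm : ∀ x ∈ A, ∀ y ∈ A, x * y = y * x := fun x hx y hy =>
    congrArg Subtype.val (mul_comm' (⟨x, hx⟩ : A) ⟨y, hy⟩)
  obtain ⟨K, hK⟩ := Subgroup.exists_right_complement'_of_coprime hHall
  have hKA : K ≤ Subgroup.normalizer (A : Set G) := by rw [Subgroup.normalizer_eq_top]; exact le_top
  have hcop : (Nat.card K).Coprime (Nat.card A) := hK.symm.index_eq_card ▸ hHall.symm
  have h1 := CfsgLib.CoprimeAction.centralizer_inf_commutator_eq_bot hKA hcop
  have h2 := CfsgLib.CoprimeAction.commutator_sup_centralizer hKA hcop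
    (Or.inr (Group.isSolvable_of_comm fun a b => mul_comm' a b))
  have hAK : ⁅A, (⊤ : Subgroup G)⁆ = ⁅A, K⁆ := by
    refine le_antisymm ?_ (Subgroup.commutator_mono le_rfl le_top)
    rw [Subgroup.commutator_le]
    intro x hx g _
    obtain ⟨⟨⟨a, ha⟩, ⟨k, hk⟩⟩, hak⟩ := hK.2 g
    simp only at hak
    have h3 := Subgroup.commutator_mem_commutator hx hk
    have e : ⁅x, a * k⁆ = ⁅x, a⁆ * (a * ⁅x, k⁆ * a⁻¹) := by simp only [commutatorElement_def]; group
    rw [← hak, e, commutatorElement_eq_one_iff_mul_comm.2 (hcomm x hx a ha), one_mul,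
      hcomm a ha _ (CfsgLib.CoprimeAction.commutator_le_of_normalizer hKA h3), mul_inv_cancel_right]
    exact h3
  have heq : ⁅A, (⊤ : Subgroup G)⁆ = commutator G ⊓ A := by
    refine le_antisymm (le_inf (Subgroup.commutator_mono le_top le_rfl) (Subgroup.commutator_le_left A ⊤)) ?_
    have hdvd : ⁅A, A⁆.relIndex A ∣ Nat.card A := Subgroup.index_dvd_card _
    rw [← (CfsgLib.Transfer.focal_eq_and_exists A (hHall.symm.coprime_dvd_right hdvd)).1]
    exact CfsgLib.Transfer.focalSubgroup_le_commutator_of_control (X := ⊤) fun x _ g _ => ⟨g, trivial, rfl⟩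
  have hZ : Subgroup.center G ⊓ A = A ⊓ Subgroup.centralizer (K : Set G) := by
    refine le_antisymm (fun z hz => ⟨hz.2, Subgroup.mem_centralizer_iff.2 fun k _ => Subgroup.mem_center_iff.1 hz.1 k⟩) ?_
    rintro z ⟨hzA, hzK⟩
    refine ⟨Subgroup.mem_center_iff.2 fun g => ?_, hzA⟩
    obtain ⟨⟨⟨a, ha⟩, ⟨k, hk⟩⟩, hak⟩ := hK.2 g
    simp only at hak
    rw [← hak, mul_assoc, Subgroup.mem_centralizer_iff.1 hzK k hk, ← mul_assoc, hcomm a ha z hzA, mul_assoc]
  refine ⟨heq, ?_, ?_⟩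
  · rw [← heq, hAK, hZ, inf_comm]; exact h1
  · rw [← heq, hAK, hZ]; exact h2

end Cfsg.Agent.S0090
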