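import Cfsg.Statements.S0091
import Cfsg.Agent.Transfer.Frobenius

set_option autoImplicit false
open Cfsg

namespace Cfsg.Agent.S0091

/-- If a nontrivial Sylow p-subgroup controls its own fusion then it is not contained in the derived subgroup. -/
theorem result {G : Type*} [Group G] [Finite G] {p : ℕ} [Fact p.Prime] (P : Sylow p G) (hp : p ∣ Nat.card G) (h : ∀ x ∈ P, ∀ y ∈ P, (∃ g : G, g * x * g⁻¹ = y) → ∃ z ∈ P, z * x * z⁻¹ = y) : ¬ (P : Subgroup G) ≤ commutator G := by
  intro hle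
  obtain ⟨Q, N, hN, hc⟩ := CfsgLib.Transfer.hasNormalPComplement_of_control P
    fun x hx g hg => h x hx _ hg ⟨g, rfl⟩
  have h1 := (CfsgLib.Transfer.hasNormalPComplement_iff_inf P).mp ⟨Q, N, hN, hc⟩
  rw [(CfsgLib.Transfer.pResidual_eq_top_iff P).mpr hle, top_inf_eq] at h1
  have h2 : (P : Subgroup G).index = Nat.card G := by rw [h1, Subgroup.index_bot]
  exact P.not_dvd_index (h2 ▸ hp)

end Cfsg.Agent.S0091
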