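import Cfsg.Statements.S0092
import Cfsg.Agent.Transfer.AbelianSylow
import Cfsg.Agent.CoprimeAction.Conjugacy
import Cfsg.Agent.Transfer.Frobenius

set_option autoImplicit false
open Cfsg
open scoped commutatorElement IsMulCommutative Pointwise

namespace Cfsg.Agent.S0092

/-- If the Sylow p-subgroups of O^p(G) are abelian then G splits over O^p(G). -/
theorem result {G : Type*} [Group G] [Finite G] {p : ℕ} [Fact p.Prime] (h : ∀ Q : Sylow p (Cfsg.pResidual p G), IsMulCommutative Q) : ∃ K : Subgroup G, K.IsComplement' (Cfsg.pResidual p G) := by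
  set R := Cfsg.pResidual p G with hR
  have hRn : R.Normal := CfsgLib.Transfer.pResidual_normal
  obtain ⟨T⟩ : Nonempty (Sylow p R) := inferInstance
  have hT : IsMulCommutative (T : Subgroup R) := h T
  set NT := Subgroup.normalizer ((T : Subgroup R) : Set R) with hNT
  obtain ⟨A, hAN, hcop, hprod⟩ := CfsgLib.Transfer.exists_normalizer_complement T
  have hTA : (T : Subgroup R) ⊓ Subgroup.centralizer (A : Set R) = ⊥ := by
    obtain ⟨h1, h2⟩ := CfsgLib.Transfer.abelian_decomp T hT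
    have h3 : (T : Subgroup R) ≤ ⁅(T : Subgroup R), NT⁆ := by
      refine le_trans ?_ (CfsgLib.Transfer.abelian_focal_eq T hT).le
      rw [← CfsgLib.Transfer.inf_commutator_eq_focal T]
      exact le_inf le_rfl ((CfsgLib.Transfer.pResidual_eq_top_iff T).1 CfsgLib.Transfer.pResidual_pResidual)
    rw [eq_bot_iff, ← h1]
    rintro t ⟨ht, htA⟩
    refine ⟨⟨ht, Subgroup.mem_centralizer_iff.2 fun m hm => ?_⟩, h3 ht⟩
    obtain ⟨y, hy, a, ha, rfl⟩ := hprod m hm
    have hyt : y * t = t * y := congrArg Subtype.val (mul_comm' (⟨y, hy⟩ : (T : Subgroup R)) ⟨t, ht⟩)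
    rw [mul_assoc, Subgroup.mem_centralizer_iff.1 htA a ha, ← mul_assoc, hyt, mul_assoc]
  set Q := (T : Subgroup R).map R.subtype with hQ
  set A' := A.map R.subtype with hA'
  set M := Subgroup.normalizer (Q : Set G) ⊓ Subgroup.normalizer (A' : Set G) with hM
  have hMR : M ⊓ R ≤ A' := by
    rintro m ⟨⟨hmQ, hmA⟩, hmR⟩
    have hmT : (⟨m, hmR⟩ : R) ∈ NT := by
      refine Subgroup.mem_normalizer_fintype (S := ((T : Subgroup R) : Set R)) fun t ht => ?_
      obtain ⟨t', ht', he⟩ := (Subgroup.mem_normalizer_iff.1 hmQ (t : G)).1 ⟨t, ht, rfl⟩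
      have : t' = ⟨m, hmR⟩ * t * ⟨m, hmR⟩⁻¹ := Subtype.ext he
      exact this ▸ ht'
    obtain ⟨y, hy, a, ha, hya⟩ := hprod _ hmT
    have hmA' : ∀ b ∈ A, (⟨m, hmR⟩ : R) * b * (⟨m, hmR⟩ : R)⁻¹ ∈ A := fun b hb => by
      obtain ⟨b', hb', he⟩ := (Subgroup.mem_normalizer_iff.1 hmA (b : G)).1 ⟨b, hb, rfl⟩
      have : b' = ⟨m, hmR⟩ * b * ⟨m, hmR⟩⁻¹ := Subtype.ext he
      exact this ▸ hb'
    have hyc : y ∈ (T : Subgroup R) ⊓ Subgroup.centralizer (A : Set R) := by
      refine ⟨hy, Subgroup.mem_centralizer_iff.2 fun b hb => ?_⟩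
      have hyA : y * b * y⁻¹ ∈ A := by
        have hb1 : a⁻¹ * b * a ∈ A := mul_mem (mul_mem (inv_mem ha) hb) ha
        have h2 := hmA' _ hb1
        rw [← hya] at h2
        simpa [mul_assoc] using h2
      have hTb : y * (b * y⁻¹ * b⁻¹) ∈ (T : Subgroup R) :=
        mul_mem hy ((Subgroup.mem_normalizer_iff.1 (hAN hb) _).1 (inv_mem hy))
      have h4 : y * b * y⁻¹ * b⁻¹ ∈ A ⊓ (T : Subgroup R) :=
        Subgroup.mem_inf.2 ⟨mul_mem hyA (inv_mem hb), by simpa [mul_assoc] using hTb⟩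
      rw [Subgroup.inf_eq_bot_of_coprime hcop, Subgroup.mem_bot, mul_inv_eq_one, mul_inv_eq_iff_eq_mul] at h4
      exact h4.symm
    rw [hTA, Subgroup.mem_bot] at hyc
    refine ⟨a, ha, ?_⟩
    rw [hyc, one_mul] at hya
    rw [hya]; rfl
  have hMtop : ∀ g : G, ∃ m ∈ M, ∃ r ∈ R, m * r = g := by
    intro g
    obtain ⟨n, hn, r, hr, rfl⟩ := Subgroup.mem_sup_of_normal_right.1
      ((Sylow.normalizer_sup_eq_top T).ge (Subgroup.mem_top g))
    have hn' : n ∈ Subgroup.normalizer (Q : Set G) := hn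
    let TN : Sylow p NT := T.subtype Subgroup.le_normalizer
    have hTN : (TN : Subgroup NT).Normal := Subgroup.normal_in_normalizer
    have : IsMulCommutative (TN : Subgroup NT) :=
      ⟨⟨fun u v => by
        apply Subtype.ext; apply Subtype.ext
        show ((u : NT) : R) * ((v : NT) : R) = ((v : NT) : R) * ((u : NT) : R)
        exact congrArg Subtype.val (mul_comm' (⟨_, u.2⟩ : (T : Subgroup R)) ⟨_, v.2⟩)⟩⟩
    have hcN : (Nat.card (TN : Subgroup NT)).Coprime (TN : Subgroup NT).index := TN.card_coprime_index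
    let φ : R →* R := ((MulAut.conj n).toMonoidHom.comp R.subtype).codRestrict R fun x => hRn.conj_mem x x.2 n
    set B := A.map φ with hB
    have hφi : Function.Injective φ := fun u v huv =>
      Subtype.ext ((MulAut.conj n).injective (congrArg Subtype.val huv))
    have hφT : ∀ t ∈ (T : Subgroup R), φ t ∈ (T : Subgroup R) := fun t ht => by
      obtain ⟨t', ht', he⟩ := (Subgroup.mem_normalizer_iff.1 hn' (t : G)).1 ⟨t, ht, rfl⟩
      have : t' = φ t := Subtype.ext he
      exact this ▸ ht'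
    have hφT' : (T : Subgroup R).map φ = (T : Subgroup R) :=
      Subgroup.eq_of_le_of_card_ge (Subgroup.map_le_iff_le_comap.2 hφT) (Subgroup.card_map_of_injective hφi).ge
    have hBN : B ≤ NT := by
      rintro _ ⟨a, ha, rfl⟩
      refine Subgroup.mem_normalizer_fintype (S := ((T : Subgroup R) : Set R)) fun t ht => ?_
      obtain ⟨t', ht', rfl⟩ := hφT'.ge ht
      rw [← map_inv, ← map_mul, ← map_mul]
      exact hφT _ ((Subgroup.mem_normalizer_iff.1 (hAN ha) t').1 ht')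
    have hcomp : ∀ C : Subgroup R, C ≤ NT → Nat.card C = Nat.card A →
        Subgroup.IsComplement' (TN : Subgroup NT) (C.subgroupOf NT) := by
      intro C hC hcC
      have hcT : Nat.card (TN : Subgroup NT) = Nat.card (T : Subgroup R) :=
        Nat.card_congr (Subgroup.subgroupOfEquivOfLe (Subgroup.le_normalizer : (T : Subgroup R) ≤ NT)).toEquiv
      have hcNT : Nat.card NT = Nat.card (T : Subgroup R) * Nat.card A := by
        rw [← Nat.card_prod]
        refine (Nat.card_congr (Equiv.ofBijective (fun q : ↥(T : Subgroup R) × ↥A =>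
          (⟨q.1 * q.2, mul_mem (Subgroup.le_normalizer q.1.2) (hAN q.2.2)⟩ : NT)) ⟨?_, ?_⟩)).symm
        · intro q q' hqq
          have h5 : (q'.1 : R)⁻¹ * q.1 = (q'.2 : R) * (q.2 : R)⁻¹ := by
            have h6 : (q.1 : R) * q.2 = q'.1 * q'.2 := congrArg Subtype.val hqq
            rw [eq_mul_inv_iff_mul_eq, mul_assoc, h6, inv_mul_cancel_left]
          have h7 : (q'.1 : R)⁻¹ * q.1 ∈ A ⊓ (T : Subgroup R) :=
            Subgroup.mem_inf.2 ⟨h5 ▸ A.mul_mem q'.2.2 (A.inv_mem q.2.2), mul_mem (inv_mem q'.1.2) q.1.2⟩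
          rw [Subgroup.inf_eq_bot_of_coprime hcop, Subgroup.mem_bot] at h7
          have h8 : (q'.2 : R) * (q.2 : R)⁻¹ = 1 := h5 ▸ h7
          rw [inv_mul_eq_one] at h7
          rw [mul_inv_eq_one] at h8
          exact Prod.ext (Subtype.ext h7.symm) (Subtype.ext h8.symm)
        · rintro ⟨m, hm⟩
          obtain ⟨y, hy, a, ha, hya⟩ := hprod m hm
          exact ⟨(⟨y, hy⟩, ⟨a, ha⟩), Subtype.ext hya⟩
      refine Subgroup.isComplement'_of_coprime ?_ ?_
      · rw [hcT, Nat.card_congr (Subgroup.subgroupOfEquivOfLe hC).toEquiv, hcC, hcNT]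
      · rw [hcT, Nat.card_congr (Subgroup.subgroupOfEquivOfLe hC).toEquiv, hcC]
        exact hcop.symm
    obtain ⟨t, ht, hte⟩ := CfsgLib.CoprimeAction.complement_conj_comm (TN : Subgroup NT) hcN
      (hcomp A hAN rfl) (hcomp B hBN (Subgroup.card_map_of_injective hφi))
    refine ⟨((t : R) : G)⁻¹ * n, Subgroup.mem_inf.2 ⟨?_, ?_⟩, n⁻¹ * ((t : R) : G) * n * r, ?_, by group⟩
    · exact mul_mem (inv_mem (Subgroup.le_normalizer ⟨(t : R), ht, rfl⟩)) hn'
    · refine Subgroup.mem_normalizer_fintype (S := (A' : Set G)) ?_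
      rintro _ ⟨a, ha, rfl⟩
      have h5 : (⟨φ a, hBN ⟨a, ha, rfl⟩⟩ : NT) ∈ B.subgroupOf NT := ⟨a, ha, rfl⟩
      rw [← hte] at h5
      obtain ⟨b, hb, hbe⟩ := (Subgroup.mem_smul_pointwise_iff_exists _ _ _).1 h5
      have h6 : ((t : R) : G) * ((b : R) : G) * ((t : R) : G)⁻¹ = n * (a : G) * n⁻¹ :=
        congrArg (fun z : NT => ((z : R) : G)) hbe
      refine ⟨(b : R), hb, ?_⟩
      show ((b : R) : G) = ((t : R) : G)⁻¹ * n * (a : G) * (((t : R) : G)⁻¹ * n)⁻¹
      calc ((b : R) : G) = ((t : R) : G)⁻¹ * (((t : R) : G) * ((b : R) : G) * ((t : R) : G)⁻¹) * ((t : R) : G) := by group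
        _ = _ := by rw [h6]; group
    · exact mul_mem (by simpa using hRn.conj_mem _ (t : R).2 n⁻¹) hr
  obtain ⟨K⟩ : Nonempty (Sylow p M) := inferInstance
  refine ⟨(K : Subgroup M).map M.subtype, Subgroup.isComplement'_of_disjoint_and_mul_eq_univ ?_ ?_⟩
  · rw [disjoint_iff, eq_bot_iff]
    rintro x ⟨hxK, hxR⟩
    have hxA : x ∈ A' := hMR ⟨Subgroup.map_subtype_le _ hxK, hxR⟩
    have hKp : IsPGroup p ((K : Subgroup M).map M.subtype) := K.isPGroup'.map _
    obtain ⟨k, hk⟩ := IsPGroup.iff_orderOf.1 hKp ⟨x, hxK⟩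
    rw [Subgroup.orderOf_mk] at hk
    have hA'p : (Nat.card A').Coprime p := by
      rw [hA', Subgroup.card_map_of_injective R.subtype_injective]
      refine ((Fact.out : p.Prime).coprime_iff_not_dvd.2 fun hd => ?_).symm
      obtain ⟨u, hu⟩ := exists_prime_orderOf_dvd_card' p hd
      obtain ⟨S, hS⟩ := (IsPGroup.of_card (n := 1) (by rw [Nat.card_zpowers, hu, pow_one]) :
        IsPGroup p (Subgroup.zpowers u)).exists_le_sylow
      have huN : (u : R) ∈ NT := hAN u.2
      have hg : IsPGroup p (Subgroup.zpowers (u : R)) :=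
        IsPGroup.of_card (n := 1) (by rw [Nat.card_zpowers, Subgroup.orderOf_coe, hu, pow_one])
      have h1 : (Subgroup.zpowers (u : R) ⊔ (T : Subgroup R) : Subgroup R) = T :=
        T.3 (hg.to_sup_of_normal_right' T.isPGroup' (Subgroup.zpowers_le.mpr huN)) le_sup_right
      have h2 : (u : R) ∈ A ⊓ (T : Subgroup R) :=
        Subgroup.mem_inf.2 ⟨u.2, h1 ▸ Subgroup.mem_sup_left (Subgroup.mem_zpowers _)⟩
      rw [Subgroup.inf_eq_bot_of_coprime hcop, Subgroup.mem_bot] at h2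
      rw [← Subgroup.orderOf_coe, h2, orderOf_one] at hu
      exact (Fact.out : p.Prime).one_lt.ne hu
    rw [Subgroup.mem_bot, ← orderOf_eq_one_iff, hk]
    exact Nat.eq_one_of_dvd_coprimes (hA'p.pow_right k) (hk ▸ A'.orderOf_dvd_natCard hxA) dvd_rfl
  · let π : M →* G ⧸ R := (QuotientGroup.mk' R).comp M.subtype
    have hπ : Function.Surjective π := fun q => by
      obtain ⟨g, rfl⟩ := QuotientGroup.mk'_surjective R q
      obtain ⟨m, hm, r, hr, rfl⟩ := hMtop g
      exact ⟨⟨m, hm⟩, QuotientGroup.eq.2 (by simpa using hr)⟩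
    have htop : ((K.mapSurjective hπ : Sylow p (G ⧸ R)) : Subgroup (G ⧸ R)) = ⊤ :=
      ((K.mapSurjective hπ).3 (CfsgLib.Transfer.isPGroup_quotient_pResidual.to_subgroup ⊤) le_top).symm
    refine Set.eq_univ_of_forall fun g => ?_
    obtain ⟨k, hk, hke⟩ := htop.ge (Subgroup.mem_top (QuotientGroup.mk' R g))
    have hr : (k : G)⁻¹ * g ∈ R := QuotientGroup.eq.1 hke
    exact ⟨(k : G), ⟨k, hk, rfl⟩, _, hr, mul_inv_cancel_left _ _⟩

end Cfsg.Agent.S0092
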