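import Cfsg.Statements.S0097
import Cfsg.Agent.PGroup.Extraspecial

set_option autoImplicit false
open Cfsg

namespace Cfsg.Agent.S0097

/-- For odd p and E extraspecial, the subgroup generated by the elements of order dividing p has exponent dividing p and index at most p. -/
theorem result {E : Type*} [Group E] [Finite E] {p : ℕ} [Fact p.Prime] (hp : p ≠ 2) (h : Cfsg.IsExtraspecial p E) : (Subgroup.closure {x : E | x ^ p = 1}).index ≤ p ∧ ∀ g ∈ Subgroup.closure {x : E | x ^ p = 1}, g ^ p = 1 := by
  have hk : Subgroup.closure {x : E | x ^ p = 1} = (CfsgLib.Extraspecial.powHom h hp).ker := by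
    refine le_antisymm ((Subgroup.closure_le _).mpr fun x hx => (CfsgLib.Extraspecial.mem_ker_powHom h hp x).mpr hx)
      fun x hx => Subgroup.subset_closure ((CfsgLib.Extraspecial.mem_ker_powHom h hp x).mp hx)
  rw [hk]
  exact ⟨CfsgLib.Extraspecial.index_ker_powHom_le h hp, fun g hg => (CfsgLib.Extraspecial.mem_ker_powHom h hp g).mp hg⟩

end Cfsg.Agent.S0097
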