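import Cfsg.Statements.S0099
import Cfsg.Agent.PGroup.ExtraspecialIso

set_option autoImplicit false
open Cfsg

namespace Cfsg.Agent.S0099

/-- Among three extraspecial 2-groups of equal order, some two are isomorphic. -/
theorem result {E₁ : Type*} {E₂ : Type*} {E₃ : Type*} [Group E₁] [Group E₂] [Group E₃] [Finite E₁] [Finite E₂] [Finite E₃] (h₁ : Cfsg.IsExtraspecial 2 E₁) (h₂ : Cfsg.IsExtraspecial 2 E₂) (h₃ : Cfsg.IsExtraspecial 2 E₃) (h12 : Nat.card E₁ = Nat.card E₂) (h23 : Nat.card E₂ = Nat.card E₃) : Nonempty (E₁ ≃* E₂) ∨ Nonempty (E₂ ≃* E₃) ∨ Nonempty (E₁ ≃* E₃) := by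
  obtain ⟨n, -, hn⟩ := CfsgLib.Extraspecial.exists_card h₁
  have hn2 : Nat.card E₂ = 2 ^ (2 * n + 1) := h12 ▸ hn
  have hn3 : Nat.card E₃ = 2 ^ (2 * n + 1) := h23 ▸ hn2
  have x₁ := CfsgLib.Extraspecial.xs_of_isExtraspecial h₁
  have x₂ := CfsgLib.Extraspecial.xs_of_isExtraspecial h₂
  have x₃ := CfsgLib.Extraspecial.xs_of_isExtraspecial h₃
  by_cases p₁ : CfsgLib.Extraspecial.IsPlus n E₁ <;> by_cases p₂ : CfsgLib.Extraspecial.IsPlus n E₂ <;>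
    by_cases p₃ : CfsgLib.Extraspecial.IsPlus n E₃
  all_goals first
    | exact Or.inl (CfsgLib.Extraspecial.iso_two n E₁ E₂ x₁ x₂ hn hn2 (by tauto))
    | exact Or.inr (Or.inl (CfsgLib.Extraspecial.iso_two n E₂ E₃ x₂ x₃ hn2 hn3 (by tauto)))
    | exact Or.inr (Or.inr (CfsgLib.Extraspecial.iso_two n E₁ E₃ x₁ x₃ hn hn3 (by tauto)))

end Cfsg.Agent.S0099
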