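import Cfsg.Statements.S0102
import Mathlib.GroupTheory.Transfer
import Mathlib.GroupTheory.Sylow
import Mathlib.GroupTheory.SpecificGroups.Cyclic

set_option autoImplicit false
open Cfsg

namespace Cfsg.Agent.S0102

/-- A finite perfect group with cyclic Sylow p-subgroups has no perfect central extension whose kernel has order divisible by p. -/
theorem result {G : Type*} {H : Type*} [Group G] [Group H] [Finite G] [Finite H] (hG : commutator G = ⊤) {p : ℕ} [Fact p.Prime] (hcyc : ∀ P : Sylow p G, IsCyclic P) (σ : H →* G) (hσ : Function.Surjective σ) (hz : σ.ker ≤ Subgroup.center H) (hH : commutator H = ⊤) : ¬ p ∣ Nat.card σ.ker := by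
  intro hp
  obtain ⟨z, hzo⟩ := exists_prime_orderOf_dvd_card' (G := σ.ker) p hp
  have hzc : (z : H) ∈ Subgroup.center H := hz z.2
  have hzo' : orderOf (z : H) = p := by rw [Subgroup.orderOf_coe]; exact hzo
  obtain ⟨P⟩ : Nonempty (Sylow p H) := inferInstance
  have hzn : (Subgroup.zpowers (z : H)).Normal := ⟨fun a ha g => by
    have hac : a ∈ Subgroup.center H := Subgroup.zpowers_le.2 hzc ha
    rwa [Subgroup.mem_center_iff.1 hac g, mul_inv_cancel_right]⟩
  have hzP : (z : H) ∈ (P : Subgroup H) := by
    haveI := hzn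
    have hzp : IsPGroup p (Subgroup.zpowers (z : H)) :=
      IsPGroup.of_card (n := 1) (by rw [Nat.card_zpowers, hzo', pow_one])
    have h1 := P.is_maximal' (hzp.to_sup_of_normal_left P.isPGroup') le_sup_right
    exact h1 ▸ Subgroup.mem_sup_left (Subgroup.mem_zpowers _)
  haveI hcomm : IsMulCommutative (P : Subgroup H) := by
    haveI : IsCyclic ((P.mapSurjective hσ : Sylow p G) : Subgroup G) := hcyc _
    refine MonoidHom.isMulCommutative_of_isCyclic_of_ker_le_center
      ((σ.comp (P : Subgroup H).subtype).codRestrict ((P.mapSurjective hσ : Sylow p G) : Subgroup G)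
        fun x => ⟨x, x.2, rfl⟩) fun a ha => ?_
    have ha' : (a : H) ∈ σ.ker := congrArg Subtype.val (MonoidHom.mem_ker.1 ha)
    exact Subgroup.mem_center_iff.2 fun b => Subtype.ext (Subgroup.mem_center_iff.1 (hz ha') b)
  open scoped IsMulCommutative in
  have key : MonoidHom.transfer (MonoidHom.id (P : Subgroup H)) (z : H) = 1 := by
    have h1 : commutator H ≤ (MonoidHom.transfer (MonoidHom.id (P : Subgroup H))).ker :=
      Abelianization.commutator_subset_ker _
    rw [hH] at h1
    exact h1 (Subgroup.mem_top _)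
  rw [MonoidHom.transfer_eq_pow] at key
  swap
  · intro k g₀ _
    have hk : (z : H) ^ k ∈ Subgroup.center H := pow_mem hzc k
    rw [Subgroup.mem_center_iff.1 hk g₀⁻¹, mul_assoc, inv_mul_cancel, mul_one]
  have h2 : (z : H) ^ (P : Subgroup H).index = 1 := congrArg Subtype.val key
  have h3 := orderOf_dvd_of_pow_eq_one h2
  rw [hzo'] at h3
  exact P.not_dvd_index h3

end Cfsg.Agent.S0102
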