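import Cfsg.Statements.S0104
import Cfsg.Agent.Transfer.Fusion

set_option autoImplicit false
open Cfsg
open scoped commutatorElement IsMulCommutative Pointwise

namespace Cfsg.Agent.S0104

/-- A subgroup Z of a Sylow p-subgroup P that is normalized by N_G(P) is weakly closed in P exactly when it is normal in every Sylow p-subgroup containing it. -/
theorem result {G : Type*} [Group G] [Finite G] {p : ℕ} [Fact p.Prime] (P : Sylow p G) (Z : Subgroup G) (hZP : Z ≤ (P : Subgroup G)) (hZN : Subgroup.normalizer (P : Set G) ≤ Subgroup.normalizer (Z : Set G)) : Cfsg.IsWeaklyClosed Z P ↔ ∀ R : Sylow p G, Z ≤ (R : Subgroup G) → (R : Subgroup G) ≤ Subgroup.normalizer (Z : Set G) := by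
  have hPN : (P : Subgroup G) ≤ Subgroup.normalizer (Z : Set G) := Subgroup.le_normalizer.trans hZN
  constructor
  · intro hW R hR
    obtain ⟨a, rfl⟩ := MulAction.exists_smul_eq G P R
    have h1 : Z.map (MulAut.conj a⁻¹).toMonoidHom ≤ (P : Subgroup G) := by
      rintro _ ⟨z, hz, rfl⟩
      show a⁻¹ * z * a⁻¹⁻¹ ∈ (P : Subgroup G)
      rw [inv_inv]
      exact CfsgLib.Transfer.mem_smul_sylow_iff.1 (hR hz)
    have ha : a⁻¹ ∈ Subgroup.normalizer (Z : Set G) :=
      Subgroup.mem_normalizer_iff_map_conj_eq.2 (hW.2 a⁻¹ h1)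
    intro r hr
    have h2 := hPN (CfsgLib.Transfer.mem_smul_sylow_iff.1 hr)
    have h3 := mul_mem (mul_mem (inv_mem ha) h2) ha
    simpa [mul_assoc] using h3
  · intro h
    refine ⟨hZP, fun g hg => ?_⟩
    have h1 : Z ≤ ((g⁻¹ • P : Sylow p G) : Subgroup G) := fun z hz =>
      CfsgLib.Transfer.mem_smul_sylow_iff.2 (by rw [inv_inv]; exact hg ⟨z, hz, rfl⟩)
    obtain ⟨c, hc⟩ := MulAction.exists_smul_eq (Subgroup.normalizer (Z : Set G)) (P.subtype hPN)
      ((g⁻¹ • P : Sylow p G).subtype (h _ h1))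
    simp_rw [Sylow.smul_subtype, Subgroup.smul_def] at hc
    have h2 : (g * (c : G)) • P = P := by
      rw [mul_smul, Sylow.subtype_injective hc, smul_inv_smul]
    have h3 := mul_mem (hZN (Sylow.smul_eq_iff_mem_normalizer.1 h2)) (inv_mem c.2)
    rw [mul_inv_cancel_right] at h3
    exact Subgroup.mem_normalizer_iff_map_conj_eq.1 h3

end Cfsg.Agent.S0104
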