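import Cfsg.Statements.S0105
import Cfsg.Agent.Transfer.AbelianSylow

set_option autoImplicit false
open Cfsg
open scoped commutatorElement IsMulCommutative

namespace Cfsg.Agent.S0105

/-- With an abelian Sylow p-subgroup P, some quotient of G is isomorphic to the part of P central in N_G(P). -/
theorem result {G : Type*} [Group G] [Finite G] {p : ℕ} [Fact p.Prime] (P : Sylow p G) (hP : IsMulCommutative P) : ∃ (N : Subgroup G) (hN : N.Normal), Nonempty (G ⧸ N ≃* ((P : Subgroup G) ⊓ Subgroup.centralizer (Subgroup.normalizer (P : Set G) : Set G) : Subgroup G)) := by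
  obtain ⟨h1, h2⟩ := CfsgLib.Transfer.abelian_decomp P hP
  set Z := (P : Subgroup G) ⊓ Subgroup.centralizer (Subgroup.normalizer (P : Set G) : Set G) with hZ
  refine ⟨(P : Subgroup G).transferFocal.ker, MonoidHom.normal_ker _, ⟨?_⟩⟩
  refine (Subgroup.transferFocal.quotientKerMulEquivQuotientFocalSubroupOf P).trans (MulEquiv.symm ?_)
  refine MulEquiv.ofBijective ((QuotientGroup.mk' _).comp (Subgroup.inclusion (inf_le_left : Z ≤ P))) ⟨?_, ?_⟩
  · refine (MonoidHom.ker_eq_bot_iff _).1 (eq_bot_iff.2 fun z hz => ?_)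
    have h3 : (z : G) ∈ (P : Subgroup G).focalSubgroup := by
      rw [← Subgroup.map_focalSubgroupOf]
      exact ⟨_, (QuotientGroup.eq_one_iff _).1 hz, rfl⟩
    rw [CfsgLib.Transfer.abelian_focal_eq P hP] at h3
    have h4 : (z : G) ∈ (⊥ : Subgroup G) := h1 ▸ ⟨z.2, h3⟩
    exact Subgroup.mem_bot.2 (Subtype.ext (Subgroup.mem_bot.1 h4))
  · intro q
    obtain ⟨⟨x, hx⟩, rfl⟩ := QuotientGroup.mk'_surjective _ q
    have hle : (⁅(P : Subgroup G), Subgroup.normalizer ((P : Subgroup G) : Set G)⁆) ≤ P := le_sup_right.trans h2.le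
    have hnorm : Z ≤ Subgroup.normalizer ((⁅(P : Subgroup G), Subgroup.normalizer ((P : Subgroup G) : Set G)⁆ : Subgroup G) : Set G) :=
      inf_le_left.trans CfsgLib.CoprimeAction.self_le_normalizer_commutator
    obtain ⟨z, hz, f, hf, hzf⟩ := CfsgLib.CoprimeAction.exists_mul_of_mem_sup hnorm (h2.ge hx)
    refine ⟨⟨z, hz⟩, QuotientGroup.eq.2 ?_⟩
    have hf' : f ∈ (P : Subgroup G).focalSubgroup := by rwa [CfsgLib.Transfer.abelian_focal_eq P hP]
    rw [← Subgroup.map_focalSubgroupOf] at hf'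
    obtain ⟨f', hf'', hfe⟩ := hf'
    have he : f' = (Subgroup.inclusion (inf_le_left : Z ≤ P) ⟨z, hz⟩)⁻¹ * ⟨x, hx⟩ := by
      apply Subtype.ext
      show (f' : G) = z⁻¹ * x
      rw [← hzf, inv_mul_cancel_left]
      exact hfe
    exact he ▸ hf''

end Cfsg.Agent.S0105
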