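import Cfsg.Statements.S0108
import Cfsg.Agent.ZJ.Complement
-- import your own Cfsg.Agent.* helpers here

set_option autoImplicit false
open Cfsg

namespace Cfsg.Agent.S0108

/-- The Thompson normal p-complement Theorem, in the form stating that for odd p, G has a normal p-complement exactly when the normalizer of the Thompson subgroup J(P) and the centralizer of the centre of P both have one. -/
theorem result {G : Type*} [Group G] [Finite G] {p : ℕ} [Fact p.Prime] (hp : p ≠ 2) (P : Sylow p G) : Cfsg.HasNormalPComplement p G ↔ (Cfsg.HasNormalPComplement p (Subgroup.normalizer (Cfsg.thompsonSubgroupOf p (P : Subgroup G) : Set G)) ∧ Cfsg.HasNormalPComplement p (Subgroup.centralizer (((P : Subgroup G) ⊓ Subgroup.centralizer (P : Set G)) : Set G))) := by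
  rw [CfsgLib.ZJ.thompsonSubgroupOf_eq]
  refine ⟨fun h => ⟨CfsgLib.Transfer.hasNormalPComplement_subgroup _ h,
    CfsgLib.Transfer.hasNormalPComplement_subgroup _ h⟩, fun h => ?_⟩
  exact CfsgLib.ZJ.hasNormalPComplement_of_J hp P h.1 h.2

end Cfsg.Agent.S0108
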