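import Cfsg.Statements.S0109
import Cfsg.Agent.PLocalBasics.ActModel
import Cfsg.Agent.PCore.PSolvable

set_option autoImplicit false
open Cfsg
open scoped commutatorElement

namespace Cfsg.Agent.S0109

/-- The Thompson factorization Theorem for solvable groups states that, with p odd (and abelian Sylow 2-subgroups when p = 3) and no nontrivial normal subgroup of order prime to p, every element of G is a product of an element normalizing J(P) and an element centralizing the elements of order dividing p in the centre of P. -/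
theorem result {G : Type*} [Group G] [Finite G] {p : ℕ} [Fact p.Prime] (hp : p ≠ 2) (hs : Group.IsSolvable G) (h3 : p = 3 → ∀ T : Sylow 2 G, IsMulCommutative T) (hF : ∀ N : Subgroup G, N.Normal → Nat.Coprime (Nat.card N) p → N = ⊥) (P : Sylow p G) (g : G) : ∃ a ∈ Subgroup.normalizer (Cfsg.thompsonSubgroupOf p (P : Subgroup G) : Set G), ∃ c ∈ Subgroup.centralizer {x : G | x ∈ (P : Subgroup G) ∧ (∀ y ∈ (P : Subgroup G), x * y = y * x) ∧ x ^ p = 1}, g = a * c := by
  have hsep : Cfsg.IsPSolvable p G := CfsgLib.PCore.isPSolvable_of_isSolvable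
  have hO : Cfsg.pPrimeCore p G = ⊥ :=
    hF _ (Cfsg.pPrimeCore_normal p G) (CfsgLib.PCore.pPrimeCore_coprime p G)
  by_cases hnf : Cfsg.IsThompsonFactorizable p G
  · obtain ⟨x, hx, c, hc, n, hn, he⟩ := hnf P g⁻¹
    rw [hO, Subgroup.mem_bot] at hx
    subst hx
    refine ⟨n⁻¹, inv_mem hn, c⁻¹, ?_, ?_⟩
    · refine Subgroup.centralizer_le (fun z hz => ?_) (inv_mem hc)
      exact Subgroup.subset_closure ⟨⟨hz.1, Subgroup.mem_centralizer_iff.2 fun y hy => (hz.2.1 y hy).symm⟩, hz.2.2⟩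
    · rw [one_mul] at he
      rw [← mul_inv_rev, ← he, inv_inv]
  exfalso
  obtain ⟨hn, hV, hOq⟩ := CfsgLib.PLocalBasics.omegaJoin_data hsep hO
  set V := CfsgLib.PLocalBasics.omegaJoin p G with hVdef
  haveI := hn
  set ι := CfsgLib.PLocalBasics.actι V with hι
  obtain ⟨c, hgen⟩ := CfsgLib.PLocalBasics.model_faithCtx V ι (CfsgLib.PLocalBasics.actV V) hsep hV hOq
    (CfsgLib.PLocalBasics.actV_injective V) (CfsgLib.PLocalBasics.actι_conj V) (CfsgLib.PLocalBasics.actι_faith V)
  have hker := CfsgLib.PLocalBasics.ker_eq_centralizer V ι (CfsgLib.PLocalBasics.actV V)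
    (CfsgLib.PLocalBasics.actV_injective V) (CfsgLib.PLocalBasics.actι_conj V) (CfsgLib.PLocalBasics.actι_faith V)
  have hH : (Cfsg.thompsonSubgroup p G).map ι ≠ ⊥ := by
    rw [Ne, Subgroup.map_eq_bot_iff, hker]
    exact fun h => hnf ((CfsgLib.PLocalBasics.factorizable_iff hO).2 h)
  obtain ⟨A, hA⟩ := CfsgLib.PLocalBasics.exists_minOff c hgen hH
  have d := hA.factData c
  obtain rfl : p = 3 := d.small.resolve_left hp
  set R := CfsgLib.PLocalBasics.factR 3 ((Cfsg.thompsonSubgroup 3 G).map ι) A with hR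
  have hRr : R ≤ ι.range := (le_sup_left.trans d.leH).trans (Subgroup.map_le_range _ _)
  have hR2 : IsPGroup 2 (R.subgroupOf ι.range) := by
    have := d.qGroup
    rw [CfsgLib.PLocalBasics.otherPrime, if_neg (by norm_num)] at this
    exact this.comap_subtype
  haveI : Fact (Nat.Prime 2) := ⟨Nat.prime_two⟩
  obtain ⟨T', hT'⟩ := hR2.exists_le_sylow
  obtain ⟨T⟩ : Nonempty (Sylow 2 G) := inferInstance
  obtain ⟨k, hk⟩ := MulAction.exists_smul_eq ι.range (T.mapSurjective ι.rangeRestrict_surjective) T'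
  haveI : IsMulCommutative T := h3 rfl T
  refine d.nonComm rfl ⟨⟨fun x y => Subtype.ext ?_⟩⟩
  have hab : ∀ a ∈ (T' : Subgroup ι.range), ∀ b ∈ (T' : Subgroup ι.range), a * b = b * a := by
    rw [← hk]
    rintro _ ⟨_, ⟨a, ha, rfl⟩, rfl⟩ _ ⟨_, ⟨b, hb, rfl⟩, rfl⟩
    exact (map_mul _ _ _).symm.trans ((congrArg _ (show ι.rangeRestrict a * ι.rangeRestrict b = ι.rangeRestrict b * ι.rangeRestrict a by
      rw [← map_mul, ← map_mul, show a * b = b * a from congrArg Subtype.val (mul_comm' (⟨a, ha⟩ : (T : Subgroup G)) ⟨b, hb⟩)])).trans (map_mul _ _ _))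
  have hxy := congrArg Subtype.val (hab ⟨x, hRr x.2⟩ (hT' (Subgroup.mem_subgroupOf.2 x.2)) ⟨y, hRr y.2⟩ (hT' (Subgroup.mem_subgroupOf.2 y.2)))
  exact hxy

end Cfsg.Agent.S0109
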