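import Cfsg.Statements.S0111
import Cfsg.Agent.Transfer.Focal

set_option autoImplicit false
open Cfsg
open scoped commutatorElement IsMulCommutative Pointwise

namespace Cfsg.Agent.S0111

/-- The Thompson transfer lemma states that an involution of a Sylow 2-subgroup P lying outside a subgroup Q of index 2 in P either lies outside some normal subgroup of index 2 in G or is conjugate to an element of Q. -/
theorem result {G : Type*} [Group G] [Finite G] (P : Sylow 2 G) (Q : Subgroup G) (hQP : Q ≤ (P : Subgroup G)) (hQi : Q.relIndex (P : Subgroup G) = 2) (u : G) (hu : orderOf u = 2) (huP : u ∈ (P : Subgroup G)) (huQ : u ∉ Q) : (∃ M : Subgroup G, M.Normal ∧ M.index = 2 ∧ u ∉ M) ∨ ∃ g : G, g * u * g⁻¹ ∈ Q := by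
  by_contra hcon
  push Not at hcon
  obtain ⟨hM, hconj⟩ := hcon
  obtain ⟨N, hN, hidx, hu'⟩ := CfsgLib.Transfer.thompson_transfer P hQP hQi
    (by rw [← pow_two, ← hu, pow_orderOf_eq_one]) hconj
  exact hu' (hM N hN hidx)

end Cfsg.Agent.S0111
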