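import Cfsg.Statements.S0116
import Cfsg.Agent.Fusion.GroupAlperin

set_option autoImplicit false
open Cfsg

namespace Cfsg.Agent.S0116

/-- The Alperin fusion Theorem states that conjugation between subsets of a Sylow p-subgroup P factors through normalizers of tame intersections P ∩ Q_i with other Sylow p-subgroups, carrying the subset along step by step. -/
theorem result {G : Type*} [Group G] [Finite G] {p : ℕ} [Fact p.Prime] (P : Sylow p G) (A : Set G) (g : G) (hA : A ⊆ (P : Set G)) (hAg : (fun a => g⁻¹ * a * g) '' A ⊆ (P : Set G)) : ∃ (n : ℕ) (Q : Fin n → Sylow p G) (x : Fin n → G), (List.ofFn x).prod = g ∧ (∀ i : Fin n, x i ∈ Subgroup.normalizer ((((P : Subgroup G) ⊓ (Q i : Subgroup G)) : Subgroup G) : Set G) ∧ ¬ p ∣ ((P : Subgroup G) ⊓ Subgroup.normalizer ((((P : Subgroup G) ⊓ (Q i : Subgroup G)) : Subgroup G) : Set G)).relIndex (Subgroup.normalizer ((((P : Subgroup G) ⊓ (Q i : Subgroup G)) : Subgroup G) : Set G)) ∧ ¬ p ∣ ((Q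 i : Subgroup G) ⊓ Subgroup.normalizer ((((P : Subgroup G) ⊓ (Q i : Subgroup G)) : Subgroup G) : Set G)).relIndex (Subgroup.normalizer ((((P : Subgroup G) ⊓ (Q i : Subgroup G)) : Subgroup G) : Set G))) ∧ (∀ h : 0 < n, A ⊆ (((P : Subgroup G) ⊓ (Q ⟨0, h⟩ : Subgroup G) : Subgroup G) : Set G)) ∧ ∀ i : Fin n, ∀ h : i.val + 1 < n, (fun a => (((List.ofFn x).take (i.val + 1)).prod)⁻¹ * a * ((List.ofFn x).take (i.val + 1)).prod) '' A ⊆ (((P : Subgroup G) ⊓ (Q ⟨i.val + 1, h⟩ : Subgroup G) : Subgroup G) : Set G) := by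
  set T := Subgroup.closure A with hTdef
  have hT : T ≤ P := (Subgroup.closure_le _).2 hA
  have hTg : CfsgLib.GroupAlperin.cj T g ≤ P := by
    rw [CfsgLib.GroupAlperin.cj, hTdef, MonoidHom.map_closure, Subgroup.closure_le]
    rintro _ ⟨a, ha, rfl⟩
    exact hAg ⟨a, ha, by simp⟩
  obtain ⟨n, Q, x, hprod, hprop, h0, hnext⟩ :=
    (CfsgLib.GroupAlperin.exists_chain_of_fusion P hT hTg).exists_fin
  refine ⟨n, Q, x, hprod, fun i => ⟨(hprop i).1, (hprop i).2.1.1, (hprop i).2.1.2⟩, fun h => ?_, fun i h => ?_⟩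
  · exact Set.Subset.trans Subgroup.subset_closure (h0 h)
  · rintro _ ⟨a, ha, rfl⟩
    refine hnext i h (CfsgLib.GroupAlperin.mem_cj.2 ?_)
    simpa [mul_assoc] using Subgroup.subset_closure (k := A) ha

end Cfsg.Agent.S0116
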