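import Cfsg.Statements.S0119
import Cfsg.Agent.CoprimeAction.Frattini
import Mathlib.GroupTheory.Abelianization.Defs
import Mathlib.Algebra.BigOperators.Group.Finset.Basic

set_option autoImplicit false
open Cfsg
open scoped commutatorElement

namespace Cfsg.Agent.S0119

/-- If a p'-group A of automorphisms of a p-group G satisfies G = [G, A] and acts trivially on every characteristic abelian subgroup, then G is special with centre equal to the fixed points of A. -/
theorem result {G : Type*} [Group G] [Finite G] {p : ℕ} [Fact p.Prime] (hG : IsPGroup p G) (A : Subgroup (MulAut G)) (hA : Nat.Coprime (Nat.card A) p) (hGA : Subgroup.closure {x : G | ∃ g : G, ∃ a ∈ A, x = g⁻¹ * a g} = ⊤) (hchar : ∀ H : Subgroup G, H.Characteristic → IsMulCommutative H → ∀ a ∈ A, ∀ h ∈ H, a h = h) : Cfsg.IsSpecial p G ∧ (∀ g : G, (g ∈ Subgroup.center G ↔ ∀ a ∈ A, a g = g)) := by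
  classical
  have hnil : Group.IsNilpotent G := hG.isNilpotent
  have hgen : ∀ H : Subgroup G, (∀ g : G, ∀ a ∈ A, g⁻¹ * a g ∈ H) → ∀ x : G, x ∈ H := by
    intro H hH x
    have hle : (⊤ : Subgroup G) ≤ H := hGA ▸ (Subgroup.closure_le H).2 (by
      rintro _ ⟨g, a, ha, rfl⟩; exact hH g a ha)
    exact hle (Subgroup.mem_top x)
  -- characteristic abelian subgroups are central
  have hcentral : ∀ H : Subgroup G, H.Characteristic → IsMulCommutative H →
      H ≤ Subgroup.center G := by
    intro H hH hc y hy
    have hHn : H.Normal := Subgroup.normal_of_characteristic H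
    rw [Subgroup.mem_center_iff]
    intro x
    have : x ∈ Subgroup.centralizer ({y} : Set G) := hgen _ (fun g a ha => by
      rw [Subgroup.mem_centralizer_singleton_iff]
      have h1 := hchar H hH hc a ha
      have h4 : a (g * y * g⁻¹) = g * y * g⁻¹ := h1 _ (hHn.conj_mem y hy g)
      rw [map_mul, map_mul, map_inv, h1 y hy] at h4
      calc g⁻¹ * a g * y = g⁻¹ * (a g * y * (a g)⁻¹) * a g := by group
        _ = g⁻¹ * (g * y * g⁻¹) * a g := by rw [h4]
        _ = _ := by group) x
    exact Subgroup.mem_centralizer_singleton_iff.1 this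
  set Z := Subgroup.center G with hZ
  -- class at most two
  have hclass : commutator G ≤ Z := by
    let Z₂ := Subgroup.upperCentralSeries G 2
    have hZ₂ : ∀ z ∈ Z₂, ∀ x : G, z * x * z⁻¹ * x⁻¹ ∈ Z := by
      intro z hz x
      have := (Subgroup.mem_upperCentralSeries_succ_iff (n := 1)).1 hz x
      rwa [Subgroup.upperCentralSeries_one] at this
    -- `Z₂` centralises the derived subgroup
    have hcc : commutator G ≤ Subgroup.centralizer (Z₂ : Set G) := by
      rw [commutator_def, Subgroup.commutator_le]
      intro x _ y _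
      rw [Subgroup.mem_centralizer_iff]
      intro z hz
      -- conjugation by `z` multiplies by central elements
      set u := z * x * z⁻¹ * x⁻¹ with hu
      set v := z * y * z⁻¹ * y⁻¹ with hv
      have hu' : ∀ g : G, u * g = g * u := fun g => (Subgroup.mem_center_iff.1 (hZ₂ z hz x) g).symm
      have hv' : ∀ g : G, v * g = g * v := fun g => (Subgroup.mem_center_iff.1 (hZ₂ z hz y) g).symm
      have h1 : z * ⁅x, y⁆ * z⁻¹ = ⁅u * x, v * y⁆ := by
        simp only [hu, hv, commutatorElement_def]; group
      have h2 : ⁅u * x, v * y⁆ = ⁅x, y⁆ := by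
        rw [commutatorElement_def, commutatorElement_def]
        calc u * x * (v * y) * (u * x)⁻¹ * (v * y)⁻¹
            = u * (x * v) * (y * x⁻¹ * u⁻¹) * y⁻¹ * v⁻¹ := by group
          _ = u * (v * x) * (y * x⁻¹ * u⁻¹) * y⁻¹ * v⁻¹ := by rw [← hv' x]
          _ = u * v * (x * y * x⁻¹) * u⁻¹ * (y⁻¹ * v⁻¹) := by group
          _ = u * v * u⁻¹ * (x * y * x⁻¹ * y⁻¹) * v⁻¹ := by
            rw [show u * v * (x * y * x⁻¹) * u⁻¹ = u * v * u⁻¹ * (x * y * x⁻¹) by
              rw [mul_assoc (u * v), mul_assoc (u * v) u⁻¹,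
                ((show Commute u (x * y * x⁻¹) from hu' _).inv_left).eq]]
            group
          _ = v * (x * y * x⁻¹ * y⁻¹) * v⁻¹ := by rw [hu' v]; group
          _ = _ := by rw [hv' (x * y * x⁻¹ * y⁻¹)]; group
      rw [← mul_inv_eq_iff_eq_mul]
      exact h1.trans h2
    set D := commutator G ⊓ Z₂
    have hDc : IsMulCommutative D := ⟨⟨fun a b => Subtype.ext
      (Subgroup.mem_centralizer_iff.1 (hcc (Subgroup.mem_inf.1 b.2).1) a (Subgroup.mem_inf.1 a.2).2)⟩⟩
    have hDchar : D.Characteristic := by
      rw [Subgroup.characteristic_iff_map_eq]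
      intro φ
      show (commutator G ⊓ Z₂).map φ.toMonoidHom = _
      rw [Subgroup.map_inf _ _ _ φ.injective,
        Subgroup.characteristic_iff_map_eq.1 inferInstance φ,
        Subgroup.characteristic_iff_map_eq.1 (inferInstance : Z₂.Characteristic) φ]
    have hDZ : D ≤ Z := hcentral D hDchar hDc
    -- the image in `G / Z` meets the centre trivially
    let π := QuotientGroup.mk' Z
    have hπ : Function.Surjective π := QuotientGroup.mk'_surjective Z
    have hpre : ∀ x ∈ commutator G, π x ∈ Subgroup.center (G ⧸ Z) → π x = 1 := by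
      intro x hx hxc
      have hx2 : x ∈ Z₂ := by
        rw [Subgroup.mem_upperCentralSeries_succ_iff (n := 1)]
        intro y
        rw [Subgroup.upperCentralSeries_one, ← QuotientGroup.eq_one_iff]
        show π (x * y * x⁻¹ * y⁻¹) = 1
        rw [map_mul, map_mul, map_mul, map_inv, map_inv,
          ← Subgroup.mem_center_iff.1 hxc (π y)]
        group
      exact (QuotientGroup.eq_one_iff x).2 (hDZ (Subgroup.mem_inf.2 ⟨hx, hx2⟩))
    by_contra hnot
    have hN : (commutator G).map π ≠ ⊥ := fun h =>
      hnot ((Subgroup.map_eq_bot_iff _).1 h |>.trans (le_of_eq (QuotientGroup.ker_mk' Z)))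
    have hn : ((commutator G).map π).Normal := Subgroup.Normal.map inferInstance π hπ
    obtain ⟨m, hm⟩ : ∃ m, (⊤ : Subgroup (G ⧸ Z)).lowerCentralSeries m = ⊥ :=
      nilpotent_iff_lowerCentralSeries.1 inferInstance
    -- descend along commutators with `G / Z`
    have key : ∀ k, ∀ y ∈ (commutator G).map π,
        y ∈ (⊤ : Subgroup (G ⧸ Z)).lowerCentralSeries (m - k) → y = 1 := by
      intro k
      induction k with
      | zero => intro y _ hy; rwa [Nat.sub_zero, hm, Subgroup.mem_bot] at hy
      | succ k ih =>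
        intro y hy hy'
        rcases Nat.lt_or_ge k m with hk | hk
        · obtain ⟨x, hx, rfl⟩ := hy
          refine hpre x hx ?_
          rw [Subgroup.mem_center_iff]
          intro g
          have h1 : ⁅π x, g⁆ = 1 := by
            refine ih _ ?_ ?_
            · have := hn.conj_mem (π x)⁻¹ (inv_mem ⟨x, hx, rfl⟩) g
              rw [commutatorElement_def]
              rw [show π x * g * (π x)⁻¹ * g⁻¹ = π x * (g * (π x)⁻¹ * g⁻¹) by group]
              exact mul_mem ⟨x, hx, rfl⟩ this
            · rw [show m - k = (m - (k + 1)) + 1 by omega, Subgroup.lowerCentralSeries_succ]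
              exact Subgroup.commutator_mem_commutator hy' (Subgroup.mem_top g)
          exact (commutatorElement_eq_one_iff_mul_comm.1 h1).symm
        · refine ih y hy ?_
          rwa [show m - k = m - (k + 1) by omega]
    apply hN
    rw [Subgroup.eq_bot_iff_forall]
    exact fun y hy => key m y hy (by simp)
  have hcomm : ∀ x y : G, ⁅x, y⁆ ∈ Z := fun x y =>
    hclass (Subgroup.commutator_mem_commutator (Subgroup.mem_top x) (Subgroup.mem_top y))
  have hpowc : ∀ (x y : G) (n : ℕ), ⁅x ^ n, y⁆ = ⁅x, y⁆ ^ n := by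
    intro x y n
    induction n with
    | zero => simp
    | succ n ih =>
      have hc := Subgroup.mem_center_iff.1 (hcomm x y)
      calc ⁅x ^ (n + 1), y⁆ = x ^ n * ⁅x, y⁆ * y * (x ^ n)⁻¹ * y⁻¹ := by
            simp only [commutatorElement_def, pow_succ]; group
        _ = ⁅x, y⁆ * (x ^ n * y * (x ^ n)⁻¹ * y⁻¹) := by rw [hc (x ^ n)]; group
        _ = _ := by rw [← commutatorElement_def, ih, ← pow_succ']
  -- exponent `p` modulo the centre
  have hexp : ∀ x : G, x ^ p ∈ Z := by
    have hex : ∃ n : ℕ, ∀ x : G, x ^ p ^ n ∈ Z := by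
      obtain ⟨k, hk⟩ := hG.exists_card_eq
      exact ⟨k, fun x => by rw [← hk, pow_card_eq_one']; exact one_mem _⟩
    set n := Nat.find hex with hn
    have hspec : ∀ x : G, x ^ p ^ n ∈ Z := Nat.find_spec hex
    rcases Nat.lt_or_ge n 2 with h | h
    · intro x
      interval_cases hn2 : n
      · exact pow_mem (by simpa [hn2] using hspec x) p
      · simpa [hn2] using hspec x
    exfalso
    set H := Subgroup.closure (Set.range fun x : G => x ^ p ^ (n - 1)) with hH
    have hHc : IsMulCommutative H := Subgroup.isMulCommutative_closure (by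
      rintro _ ⟨x, rfl⟩ _ ⟨y, rfl⟩
      rw [← commutatorElement_eq_one_iff_mul_comm, hpowc]
      have hsym : ∀ a b : G, ⁅a, b⁆ = ⁅b, a⁆⁻¹ := fun a b => (commutatorElement_inv b a).symm
      rw [hsym, hpowc, inv_pow, ← pow_mul, ← pow_add]
      have hz : ⁅y, x⁆ ^ p ^ n = 1 := by
        rw [← hpowc, commutatorElement_eq_one_iff_mul_comm]
        exact (Subgroup.mem_center_iff.1 (hspec y) x).symm
      obtain ⟨d, hd⟩ := Nat.pow_dvd_pow p (show n ≤ n - 1 + (n - 1) by omega)
      rw [hd, pow_mul, hz, one_pow, inv_one])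
    have hHchar : H.Characteristic := by
      rw [Subgroup.characteristic_iff_map_le]
      intro φ
      rw [hH, MonoidHom.map_closure]
      refine Subgroup.closure_mono ?_
      rintro _ ⟨_, ⟨x, rfl⟩, rfl⟩
      exact ⟨φ x, (map_pow φ x _).symm⟩
    exact Nat.find_min hex (show n - 1 < Nat.find hex by omega)
      (fun x => hcentral H hHchar hHc (Subgroup.subset_closure ⟨x, rfl⟩))
  -- fixed points lie in the derived subgroup
  have hfix : ∀ g : G, (∀ a ∈ A, a g = g) → g ∈ commutator G := by
    intro g hg
    have : Fintype A := Fintype.ofFinite _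
    let f : G →* Abelianization G :=
      ∏ a : A, Abelianization.of.comp (a : MulAut G).toMonoidHom
    have hf : ∀ x, f x = ∏ a : A, Abelianization.of ((a : MulAut G) x) :=
      fun x => MonoidHom.finsetProd_apply _ _ _
    have h1 : f g = 1 := hgen f.ker (fun x a ha => by
      rw [MonoidHom.mem_ker, map_mul, map_inv, inv_mul_eq_one, hf, hf]
      exact (Fintype.prod_equiv (Equiv.mulRight (⟨a, ha⟩ : A)) _ _ fun b => rfl).symm) g
    rw [hf, Finset.prod_congr rfl (fun a _ => by rw [hg a a.2]), Finset.prod_const, Finset.card_univ,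
      ← Nat.card_eq_fintype_card] at h1
    have h2 : Abelianization.of g = 1 := by
      obtain ⟨k, hk⟩ := hG g
      rw [← orderOf_eq_one_iff]
      exact Nat.eq_one_of_dvd_coprimes (hA.pow_right k) (orderOf_dvd_of_pow_eq_one h1)
        (orderOf_dvd_of_pow_eq_one (by rw [← map_pow, hk, map_one]))
    rwa [← MonoidHom.mem_ker, Abelianization.ker_of] at h2
  have hZfix : ∀ g ∈ Z, ∀ a ∈ A, a g = g := fun g hg a ha =>
    hchar Z inferInstance inferInstance a ha g hg
  have hZcomm : Z = commutator G :=
    le_antisymm (fun g hg => hfix g (hZfix g hg)) hclass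
  refine ⟨⟨hG, le_antisymm ?_ ?_, hZcomm.symm⟩, fun g => ⟨fun hg => hZfix g hg, fun hg => hclass (hfix g hg)⟩⟩
  · exact CfsgLib.CoprimeAction.frattini_le_of_elementary Z hclass hexp
  · rw [← hZ, hZcomm]; exact CfsgLib.CoprimeAction.commutator_le_frattini' hG

end Cfsg.Agent.S0119
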