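import Cfsg.Statements.S0120
import Cfsg.Agent.PCore.OmegaFix
import Mathlib.GroupTheory.SemidirectProduct

set_option autoImplicit false
open Cfsg

namespace Cfsg.Agent.S0120

/-- For odd p, a p'-automorphism of a p-group acting trivially on the elements of order dividing p is trivial. -/
theorem result {G : Type*} [Group G] [Finite G] {p : ℕ} [Fact p.Prime] (hp : p ≠ 2) (hG : IsPGroup p G) (a : MulAut G) (ha : Nat.Coprime (orderOf a) p) (h : ∀ x : G, x ^ p = 1 → a x = x) : a = 1 := by
  let φ : Subgroup.zpowers a →* MulAut G := (Subgroup.zpowers a).subtype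
  let S := G ⋊[φ] Subgroup.zpowers a
  have : Finite S := Finite.of_equiv _ SemidirectProduct.equivProd.symm
  let R : Subgroup S := (SemidirectProduct.inl : G →* S).range
  let Q : Subgroup S := (SemidirectProduct.inr : Subgroup.zpowers a →* S).range
  have hR : IsPGroup p R := hG.of_surjective _ (MonoidHom.rangeRestrict_surjective _)
  have hQc : (Nat.card Q).Coprime p := by
    rw [← Nat.card_congr (MonoidHom.ofInjective (SemidirectProduct.inr_injective (φ := φ))).toEquiv,
      Nat.card_zpowers]
    exact ha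
  have hfixall : ∀ x : G, x ^ p = 1 → ∀ b ∈ Subgroup.zpowers a, b x = x := by
    intro x hx b hb
    have hle : Subgroup.zpowers a ≤ MulAction.stabilizer (MulAut G) x :=
      Subgroup.zpowers_le.2 (h x hx)
    exact hle hb
  have hQR : Q ≤ Subgroup.normalizer (R : Set S) := by
    rw [Subgroup.le_normalizer_iff]
    rintro _ ⟨b, rfl⟩ _ ⟨x, rfl⟩
    exact ⟨φ b x, by rw [SemidirectProduct.inl_aut, map_inv]⟩
  have key := CfsgLib.PCore.le_centralizer_of_fixed_omega hp hR (E := ⊥) (IsPGroup.of_bot) hQc
    bot_le hQR bot_le (by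
      rintro _ ⟨x, rfl⟩ hx -
      rw [← map_pow, ← map_one (SemidirectProduct.inl : G →* S)] at hx
      have hx' : x ^ p = 1 := SemidirectProduct.inl_injective hx
      rw [Subgroup.mem_centralizer_iff]
      rintro _ ⟨b, rfl⟩
      have e := SemidirectProduct.inl_aut (φ := φ) b x
      rw [show φ b x = x from hfixall x hx' b b.2, map_inv, eq_mul_inv_iff_mul_eq] at e
      exact e.symm)
  ext x
  show a x = x
  have h1 : SemidirectProduct.inl x * SemidirectProduct.inr ⟨a, Subgroup.mem_zpowers a⟩ =
      (SemidirectProduct.inr ⟨a, Subgroup.mem_zpowers a⟩ * SemidirectProduct.inl x : S) :=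
    Subgroup.mem_centralizer_iff.1 (key ⟨_, rfl⟩) _ ⟨x, rfl⟩
  apply SemidirectProduct.inl_injective (φ := φ)
  show SemidirectProduct.inl (φ ⟨a, Subgroup.mem_zpowers a⟩ x) = _
  rw [SemidirectProduct.inl_aut, map_inv, ← h1, mul_inv_cancel_right]

end Cfsg.Agent.S0120
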