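import Cfsg.Statements.S0121
import Cfsg.Agent.CoprimeAction.Basic

set_option autoImplicit false
open Cfsg

namespace Cfsg.Agent.S0121

/-- A p'-automorphism of a p-group acting trivially on a critical subgroup is trivial. -/
theorem result {G : Type*} [Group G] [Finite G] {p : ℕ} [Fact p.Prime] (hG : IsPGroup p G) (H : Subgroup G) (hH : H.Characteristic) (h1 : (frattini H).map H.subtype ≤ Subgroup.centralizer (H : Set G)) (h2 : ⁅H, (⊤ : Subgroup G)⁆ ≤ H ⊓ Subgroup.centralizer (H : Set G)) (h3 : Subgroup.centralizer (H : Set G) ≤ H) (a : MulAut G) (ha : Nat.Coprime (orderOf a) p) (h : ∀ x ∈ H, a x = x) : a = 1 := by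
  have hHn : H.Normal := Subgroup.normal_of_characteristic H
  ext x
  show a x = x
  have hc : x⁻¹ * a x ∈ Subgroup.centralizer (H : Set G) := by
    rw [Subgroup.mem_centralizer_iff]
    intro y hy
    have h4 : a (x * y * x⁻¹) = x * y * x⁻¹ := h _ (hHn.conj_mem y hy x)
    rw [map_mul, map_mul, map_inv, h y hy] at h4
    calc y * (x⁻¹ * a x) = x⁻¹ * (x * y * x⁻¹) * a x := by group
      _ = x⁻¹ * (a x * y * (a x)⁻¹) * a x := by rw [h4]
      _ = x⁻¹ * a x * y := by group
  set n := x⁻¹ * a x with hn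
  have hfix : a n = n := h n (h3 hc)
  have hx : a x = x * n := by rw [hn]; group
  have hk : ∀ k : ℕ, (a ^ k) x = x * n ^ k := by
    intro k
    induction k with
    | zero => simp
    | succ k ih =>
      rw [pow_succ', MulAut.mul_apply, ih, map_mul, map_pow, hfix, hx, pow_succ', mul_assoc]
  have h5 := hk (orderOf a)
  rw [pow_orderOf_eq_one, MulAut.one_apply, left_eq_mul] at h5
  have h6 : orderOf n = 1 := by
    obtain ⟨k, hk'⟩ := hG n
    exact Nat.eq_one_of_dvd_coprimes ((ha.pow_right k)) (orderOf_dvd_of_pow_eq_one h5)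
      (orderOf_dvd_of_pow_eq_one hk')
  rw [hx, orderOf_eq_one_iff.1 h6, mul_one]

end Cfsg.Agent.S0121
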