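import Cfsg.Statements.S0125
import Cfsg.Agent.Transfer.Frobenius
import Cfsg.Agent.Transfer.Focal

set_option autoImplicit false
open Cfsg
open scoped commutatorElement IsMulCommutative Pointwise

namespace Cfsg.Agent.S0125

/-- The centralizer of a self-centralizing normal subgroup A of a Sylow p-subgroup is the direct product of A with a normal p'-subgroup. -/
theorem result {G : Type*} [Group G] [Finite G] {p : ℕ} [Fact p.Prime] (R : Sylow p G) (A : Subgroup G) (hAR : A ≤ (R : Subgroup G)) (hAn : (R : Subgroup G) ≤ Subgroup.normalizer (A : Set G)) (hC : (R : Subgroup G) ⊓ Subgroup.centralizer (A : Set G) = A) : ∃ H : Subgroup G, H ≤ Subgroup.centralizer (A : Set G) ∧ Nat.Coprime (Nat.card H) p ∧ Subgroup.centralizer (A : Set G) ≤ Subgroup.normalizer (H : Set G) ∧ H ⊓ A = ⊥ ∧ H ⊔ A = Subgroup.centralizer (A : Set G) := by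
  set N := Subgroup.normalizer (A : Set G) with hN
  set C := Subgroup.centralizer (A : Set G) with hCdef
  have hCN : C ≤ N := Subgroup.centralizer_le_normalizer _
  set C' := C.subgroupOf N with hC'
  have hC'n : C'.Normal := Subgroup.normal_subgroupOf_of_le_normalizer (by
    intro n hn
    refine Subgroup.mem_normalizer_fintype (S := (C : Set G)) fun c hc => Subgroup.mem_centralizer_iff.2 fun a ha => ?_
    have ha' : n⁻¹ * a * n ∈ A := (Subgroup.mem_normalizer_iff''.1 hn a).1 ha
    have := Subgroup.mem_centralizer_iff.1 hc _ ha'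
    calc a * (n * c * n⁻¹) = n * ((n⁻¹ * a * n) * c) * n⁻¹ := by group
      _ = n * (c * (n⁻¹ * a * n)) * n⁻¹ := by rw [this]
      _ = n * c * n⁻¹ * a := by group)
  obtain ⟨T, hT⟩ := CfsgLib.Transfer.exists_sylow_map_eq_inf (R.subtype hAn) C'
  have hTA : ∀ t : C', t ∈ T → ((t : N) : G) ∈ A := by
    intro t ht
    have h1 := hT.le (Subgroup.mem_map_of_mem C'.subtype ht)
    rw [← hC]
    exact Subgroup.mem_inf.2 ⟨h1.1, h1.2⟩
  have hb : Cfsg.HasNormalPComplement p C' :=
    CfsgLib.Transfer.burnside_normal_complement T fun c _ => Subgroup.mem_centralizer_iff.2 fun t ht =>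
      Subtype.ext (Subtype.ext (Subgroup.mem_centralizer_iff.1 c.2 _ (hTA t ht)))
  set H := ((Cfsg.pResidual p C').map C'.subtype).map N.subtype with hH
  have hAC : A ≤ C := hC ▸ inf_le_right
  have hHC : H ≤ C := by
    rintro _ ⟨y, ⟨z, -, rfl⟩, rfl⟩
    exact z.2
  have hcop : (Nat.card H).Coprime p := by
    rw [hH, Subgroup.card_map_of_injective N.subtype_injective, Subgroup.card_map_of_injective C'.subtype_injective]
    exact ((Fact.out : p.Prime).coprime_iff_not_dvd.2 (CfsgLib.Transfer.hasNormalPComplement_iff.1 hb)).symm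
  have hchar : (Cfsg.pResidual p C').Characteristic := CfsgLib.Transfer.pResidual_characteristic
  have hHn : ((Cfsg.pResidual p C').map C'.subtype).Normal := ConjAct.normal_of_characteristic_of_normal
  refine ⟨H, hHC, hcop, fun c hc => ?_, ?_, le_antisymm (sup_le hHC hAC) fun c hc => ?_⟩
  · refine Subgroup.le_normalizer_map N.subtype ⟨⟨c, hCN hc⟩, ?_, rfl⟩
    rw [Subgroup.normalizer_eq_top]; trivial
  · obtain ⟨k, hk⟩ := IsPGroup.iff_card.1 (R.isPGroup'.to_le hAR)
    exact Subgroup.inf_eq_bot_of_coprime (hk ▸ hcop.pow_right k)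
  · have : (Cfsg.pResidual p C').Normal := CfsgLib.Transfer.pResidual_normal
    obtain ⟨r, hr, t, ht, hrt⟩ := Subgroup.mem_sup_of_normal_left.mp
      (show (⟨⟨c, hCN hc⟩, hc⟩ : C') ∈ Cfsg.pResidual p C' ⊔ (T : Subgroup C') by
        rw [CfsgLib.Transfer.pResidual_sup_sylow]; trivial)
    have he : ((r : N) : G) * ((t : N) : G) = c := congrArg (fun z : C' => ((z : N) : G)) hrt
    rw [← he]
    exact mul_mem (Subgroup.mem_sup_left ⟨_, ⟨r, hr, rfl⟩, rfl⟩) (Subgroup.mem_sup_right (hTA t ht))

end Cfsg.Agent.S0125
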