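import Cfsg.Statements.S0127
import Cfsg.Agent.S0126
import Cfsg.Agent.PLocalBasics.ClassThree
import Cfsg.Agent.ZJ.Replacement

set_option autoImplicit false
open Cfsg
open scoped commutatorElement

namespace Cfsg.Agent.S0127

/-- For odd p, in a non-cyclic p-group with a cyclic subgroup of index p, the elements of order dividing p generate an elementary abelian subgroup of order p^2. -/
theorem result {R : Type*} [Group R] [Finite R] {p : ℕ} [Fact p.Prime] (hp : p ≠ 2) (hR : IsPGroup p R) (hnc : ¬ IsCyclic R) (C : Subgroup R) (hC : IsCyclic C) (hCi : C.index = p) : Cfsg.IsElementaryAbelian p (Subgroup.closure {x : R | x ^ p = 1}) ∧ Nat.card (Subgroup.closure {x : R | x ^ p = 1}) = p ^ 2 := by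
  have hp' : p.Prime := Fact.out
  obtain ⟨A, hAn, hA, hAc⟩ := Cfsg.Agent.S0126.result hp hR hnc
  haveI := hA.1
  haveI hCn : C.Normal := by
    apply Subgroup.normal_of_index_eq_minFac_card
    rw [hCi]
    obtain ⟨k, hk⟩ := IsPGroup.iff_card.1 hR
    rcases Nat.eq_zero_or_pos k with rfl | hk0
    · exfalso
      have hd := hCi ▸ C.index_dvd_card
      rw [hk, pow_zero] at hd
      exact hp'.not_dvd_one hd
    · rw [hk, Nat.Prime.pow_minFac hp' hk0.ne']
  have hACne : ¬ A ≤ C := fun h => by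
    haveI := hC
    haveI : IsCyclic A := isCyclic_of_injective (Subgroup.inclusion h) (Subgroup.inclusion_injective h)
    obtain ⟨⟨g, hg⟩, hgen⟩ := IsCyclic.exists_generator (α := A)
    have h1 : orderOf (⟨g, hg⟩ : A) = p ^ 2 := (orderOf_eq_card_of_forall_mem_zpowers hgen).trans hAc
    have h2 : orderOf (⟨g, hg⟩ : A) ∣ p := orderOf_dvd_of_pow_eq_one (Subtype.ext (hA.2 g hg))
    rw [h1] at h2
    have := Nat.le_of_dvd hp'.pos h2
    nlinarith [hp'.two_le]
  have htop : A ⊔ C = ⊤ := by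
    by_contra hne
    have hlt : C < A ⊔ C := lt_of_le_of_ne le_sup_right fun h => hACne (h.symm ▸ le_sup_left)
    have hidx := Subgroup.relIndex_mul_index (le_sup_right : C ≤ A ⊔ C)
    rw [hCi] at hidx
    rcases (Nat.dvd_prime hp').1 (Dvd.intro_left _ hidx) with h | h
    · exact hne (Subgroup.index_eq_one.1 h)
    · rw [h] at hidx
      have : C.relIndex (A ⊔ C) = 1 := Nat.eq_of_mul_eq_mul_right hp'.pos (hidx.trans (one_mul p).symm)
      exact hlt.not_ge (Subgroup.relIndex_eq_one.1 this)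
  set Z := A ⊓ C with hZ
  have hZle : Nat.card Z ≤ p := by
    have hd : Nat.card Z ∣ p ^ 2 := hAc ▸ Subgroup.card_dvd_of_le inf_le_left
    obtain ⟨k, hk, hk'⟩ := (Nat.dvd_prime_pow hp').1 hd
    interval_cases k
    · simp [hk', hp'.one_lt.le]
    · simp [hk']
    · exact absurd ((Subgroup.eq_of_le_of_card_ge inf_le_left (by rw [hAc, hk'])).ge.trans inf_le_right) hACne
  have hcomm : ∀ x y : R, ⁅x, y⁆ ∈ Z := by
    intro x y
    obtain ⟨a, ha, c, hc, rfl⟩ := Subgroup.mem_sup_of_normal_left.1 (htop.symm ▸ Subgroup.mem_top x : x ∈ A ⊔ C)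
    obtain ⟨b, hb, d, hd, rfl⟩ := Subgroup.mem_sup_of_normal_left.1 (htop.symm ▸ Subgroup.mem_top y : y ∈ A ⊔ C)
    haveI := hC
    letI : CommGroup C := IsCyclic.commGroup
    have hcd : c * d = d * c := congrArg Subtype.val (mul_comm (⟨c, hc⟩ : C) ⟨d, hd⟩)
    have hab : a * b = b * a := setLike_mul_comm ha hb
    refine ⟨(QuotientGroup.eq_one_iff _).1 ?_, (QuotientGroup.eq_one_iff _).1 ?_⟩
    · have ea : (QuotientGroup.mk' A) a = 1 := (QuotientGroup.eq_one_iff a).2 ha
      have eb : (QuotientGroup.mk' A) b = 1 := (QuotientGroup.eq_one_iff b).2 hb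
      show QuotientGroup.mk' A ⁅a * c, b * d⁆ = 1
      rw [map_commutatorElement, map_mul, map_mul, ea, eb, one_mul, one_mul, ← map_commutatorElement,
        commutatorElement_eq_one_iff_mul_comm.2 hcd, map_one]
    · have ec : (QuotientGroup.mk' C) c = 1 := (QuotientGroup.eq_one_iff c).2 hc
      have ed : (QuotientGroup.mk' C) d = 1 := (QuotientGroup.eq_one_iff d).2 hd
      show QuotientGroup.mk' C ⁅a * c, b * d⁆ = 1
      rw [map_commutatorElement, map_mul, map_mul, ec, ed, mul_one, mul_one, ← map_commutatorElement,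
        commutatorElement_eq_one_iff_mul_comm.2 hab, map_one]
  haveI : Z.Normal := inferInstanceAs (A ⊓ C).Normal
  have hZc : Z ≤ Subgroup.center R := by
    by_cases h1 : Z = ⊥
    · rw [h1]; exact bot_le
    · refine inf_eq_left.1 (Subgroup.eq_of_le_of_card_ge inf_le_left (hZle.trans ?_))
      have hne := CfsgLib.PReduced.inf_center_ne_bot hR h1
      obtain ⟨k, hk⟩ := IsPGroup.iff_card.1 (hR.to_subgroup (Z ⊓ Subgroup.center R))
      rw [hk]
      refine Nat.le_self_pow (fun h0 => hne (Subgroup.card_eq_one.1 ?_)) p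
      rw [hk, h0, pow_zero]
  have hclass : CfsgLib.PLocalBasics.SmallClass p R := Or.inl ⟨hp, fun a b => hZc (hcomm a b)⟩
  have hsub : Subgroup.closure {x : R | x ^ p = 1} = A := by
    refine le_antisymm ((Subgroup.closure_le _).2 fun x hx => ?_) fun a ha => Subgroup.subset_closure (hA.2 a ha)
    obtain ⟨a, ha, c, hc, rfl⟩ := Subgroup.mem_sup_of_normal_left.1 (htop.symm ▸ Subgroup.mem_top x : x ∈ A ⊔ C)
    have h1 := hclass.pow_p a c (hA.2 _ (hcomm c a).1)
    rw [hx, hA.2 a ha, one_mul] at h1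
    refine A.mul_mem ha ?_
    by_contra hcA
    have hc1 : c ≠ 1 := fun h => hcA (h ▸ A.one_mem)
    -- the subgroup of order `p` of `C`
    by_cases hz : Z = ⊥
    · have hRab : ∀ u v : R, u * v = v * u := fun u v => commutatorElement_eq_one_iff_mul_comm.1
        (Subgroup.mem_bot.1 (hz ▸ hcomm u v))
      have hcard : Nat.card C * Nat.card A ≤ Nat.card R := by
        refine (le_of_eq ?_).trans (Subgroup.card_le_card_group (A ⊔ C))
        have := CfsgLib.ZJ.card_sup_mul_card_inf_of_le_normalizer (A := A) (B := C) (le_top.trans_eq (Subgroup.normalizer_eq_top C).symm)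
        rw [← hZ, hz, Subgroup.card_bot, mul_one] at this
        rw [this, mul_comm]
      rw [← Subgroup.card_mul_index C, hCi, hAc] at hcard
      have := Nat.le_of_mul_le_mul_left hcard Nat.card_pos
      nlinarith [hp'.two_le]
    · haveI := hC
      haveI : Nontrivial Z := Z.nontrivial_iff_ne_bot.2 hz
      obtain ⟨⟨z, hzA, hzC⟩, hz1⟩ := exists_ne (1 : Z)
      have hz1' : z ≠ 1 := fun e => hz1 (Subtype.ext e)
      have h2 : (⟨c, hc⟩ : C) ∈ Subgroup.zpowers (⟨z, hzC⟩ : C) := by
        rw [CfsgLib.RankOneP.zpowers_eq_of_orderOf_eq (a := (⟨z, hzC⟩ : C)) (b := ⟨c, hc⟩) (by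
          rw [Subgroup.orderOf_mk, Subgroup.orderOf_mk, orderOf_eq_prime (hA.2 z hzA) hz1', orderOf_eq_prime h1.symm hc1])]
        exact Subgroup.mem_zpowers _
      obtain ⟨i, hi⟩ := Subgroup.mem_zpowers_iff.1 h2
      have hi' : z ^ i = c := congrArg Subtype.val hi
      exact hcA (hi' ▸ A.zpow_mem hzA i)
  rw [hsub]
  exact ⟨hA, hAc⟩

end Cfsg.Agent.S0127
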