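import Cfsg.Statements.S0128
import Cfsg.Agent.PLocalBasics.NormalElemAbelian
import Cfsg.Agent.S0126

set_option autoImplicit false
open Cfsg

namespace Cfsg.Agent.S0128

/-- For p > 3, in a p-group of p-rank at most 2 the elements of order dividing p generate a subgroup of exponent dividing p. -/
theorem result {R : Type*} [Group R] [Finite R] {p : ℕ} [Fact p.Prime] (hp : 3 < p) (hR : IsPGroup p R) (hrk : ∀ E : Subgroup R, Cfsg.IsElementaryAbelian p E → Nat.card E ≤ p ^ 2) (g : R) (hg : g ∈ Subgroup.closure {x : R | x ^ p = 1}) : g ^ p = 1 := by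
  by_cases hc : IsCyclic R
  · letI : CommGroup R := IsCyclic.commGroup
    induction hg using Subgroup.closure_induction with
    | mem x hx => exact hx
    | one => exact one_pow _
    | inv x _ hx => rw [inv_pow, hx, inv_one]
    | mul x y _ _ hx hy => rw [mul_pow, hx, hy, one_mul]
  · obtain ⟨A, hAn, hA, hAc⟩ := Cfsg.Agent.S0126.result (by omega) hR hc
    haveI := hAn
    exact CfsgLib.PLocalBasics.omega_rank_two hR hp hA hAc hrk hg

end Cfsg.Agent.S0128
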