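import Cfsg.Statements.S0129
import Cfsg.Agent.PLocalBasics.CentralizerBound

set_option autoImplicit false
open Cfsg

namespace Cfsg.Agent.S0129

/-- The order of a p-group is bounded by p^(a(a+1)/2) when it has a maximal normal abelian subgroup of order p^a. -/
theorem result {G : Type*} [Group G] [Finite G] {p : ℕ} [Fact p.Prime] (hG : IsPGroup p G) (A : Subgroup G) [A.Normal] (hA : IsMulCommutative A) (hmax : ∀ B : Subgroup G, B.Normal → IsMulCommutative B → A ≤ B → B = A) (a : ℕ) (ha : Nat.card A = p ^ a) : Nat.card G ≤ p ^ (a * (a + 1) / 2) := by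
  have hp : p.Prime := Fact.out
  have hC := CfsgLib.PGroup.centralizer_maximal_normal_abelian hG hA hmax
  have h := CfsgLib.PLocalBasics.index_centralizer_le hG a A inferInstance ha.le
  rw [hC] at h
  rw [← Subgroup.card_mul_index A, ha]
  refine (Nat.mul_le_mul_left _ h).trans (le_of_eq ?_)
  rw [← pow_add, Nat.choose_two_right]
  congr 1
  rcases a with _ | n
  · simp
  · simp only [Nat.add_sub_cancel]
    rw [show (n + 1) * (n + 1 + 1) = (n + 1) * n + 2 * (n + 1) by ring, Nat.add_mul_div_left _ _ two_pos]
    ring

end Cfsg.Agent.S0129
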