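import Cfsg.Statements.S0131
import Cfsg.Agent.Transfer.Focal

set_option autoImplicit false
open Cfsg
open scoped commutatorElement IsMulCommutative

namespace Cfsg.Agent.S0131

/-- P/P' has a normal complement in G exactly when the focal subgroup G' ∩ P is as small as possible, namely P'. -/
theorem result {G : Type*} [Group G] [Finite G] {p : ℕ} [Fact p.Prime] (P : Sylow p G) : (∃ N : Subgroup G, N.Normal ∧ N ⊓ (P : Subgroup G) = ⁅(P : Subgroup G), (P : Subgroup G)⁆ ∧ N ⊔ (P : Subgroup G) = ⊤) ↔ commutator G ⊓ (P : Subgroup G) = ⁅(P : Subgroup G), (P : Subgroup G)⁆ := by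
  rw [inf_comm, CfsgLib.Transfer.inf_commutator_eq_focal P]
  constructor
  · rintro ⟨N, hN, h1, h2⟩
    refine le_antisymm ?_ (Subgroup.commutator_le_focalSubgroup _)
    have hcomm : ∀ a b : G, ⁅a, b⁆ ∈ N := by
      have hlt : ∀ g : G, ∃ x : (P : Subgroup G), QuotientGroup.mk' N g = QuotientGroup.mk' N (x : G) := by
        intro g
        obtain ⟨m, hm, x, hx, rfl⟩ := Subgroup.mem_sup_of_normal_left.1 (h2.ge (Subgroup.mem_top g))
        exact ⟨⟨x, hx⟩, by rw [map_mul, (QuotientGroup.eq_one_iff m).2 hm |> fun h => (h : QuotientGroup.mk' N m = 1), one_mul]⟩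
      intro a b
      obtain ⟨x, hx⟩ := hlt a
      obtain ⟨y, hy⟩ := hlt b
      rw [← QuotientGroup.ker_mk' N, MonoidHom.mem_ker, map_commutatorElement, hx, hy, ← map_commutatorElement]
      exact (QuotientGroup.eq_one_iff _).2 ((h1.ge (Subgroup.commutator_mem_commutator x.2 y.2)).1)
    rw [← CfsgLib.Transfer.inf_commutator_eq_focal P, ← h1, inf_comm]
    exact inf_le_inf_right _ (Subgroup.commutator_le.2 fun a _ b _ => hcomm a b)
  · intro h
    refine ⟨(P : Subgroup G).transferFocal.ker, MonoidHom.normal_ker _, ?_, ?_⟩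
    · rw [Subgroup.ker_transferFocal_inf_eq_focalSubgroup P, h]
    · rw [eq_top_iff, ← CfsgLib.Transfer.pResidual_sup_sylow P]
      exact sup_le_sup_right (CfsgLib.Transfer.pResidual_le_ker_transferFocal P) _

end Cfsg.Agent.S0131
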