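import Cfsg.Statements.S0136
import Cfsg.Agent.CharBasics.Ortho

set_option autoImplicit false
open Cfsg

namespace Cfsg.Agent.S0136

/-- Two elements of a finite group are conjugate if and only if no irreducible complex character separates them. -/
theorem result {G : Type*} [Group G] [Finite G] (g h : G) : IsConj g h ↔ ∀ χ : Cfsg.IrrCharacter G, (χ : G → ℂ) g = (χ : G → ℂ) h := by
  classical
  haveI := Fintype.ofFinite G
  haveI := Fintype.ofFinite (Cfsg.IrrCharacter G)
  refine ⟨fun hc χ => CfsgLib.CharBasics.apply_isConj (CfsgLib.CharBasics.isCharacter_of_irr χ.2) hc,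
    fun hagree => ?_⟩
  by_contra hn
  have h1 := CfsgLib.CharBasics.sum_col g h
  rw [if_neg hn] at h1
  have h2 := CfsgLib.CharBasics.sum_col h h
  rw [if_pos (IsConj.refl h)] at h2
  have h3 : (Nat.card (Subgroup.centralizer ({h} : Set G)) : ℂ) = 0 := by
    rw [← h2, ← h1]
    exact Finset.sum_congr rfl fun χ _ => by rw [hagree χ]
  exact Nat.card_pos.ne' (Nat.cast_eq_zero.1 h3)

end Cfsg.Agent.S0136
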