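import Cfsg.Statements.S0138
import Cfsg.Agent.CharBasics.Abstract

set_option autoImplicit false
open Cfsg CfsgLib.CharBasics
open scoped ComplexConjugate

namespace Cfsg.Agent.S0138

/-- A character value has absolute value equal to the degree exactly when the group element acts by a scalar. -/
theorem result {G : Type*} [Group G] [Finite G] {V : Type*} [AddCommGroup V] [Module ℂ V] [FiniteDimensional ℂ V] (ρ : Representation ℂ G V) (g : G) : ‖ρ.character g‖ = (Module.finrank ℂ V : ℝ) ↔ ∃ ω : ℂ, ρ g = ω • (LinearMap.id : V →ₗ[ℂ] V) := by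
  classical
  rcases Nat.eq_zero_or_pos (Module.finrank ℂ V) with hd | hd
  · haveI := Module.finrank_zero_iff.1 hd
    refine iff_of_true ?_ ⟨0, Subsingleton.elim _ _⟩
    rw [hd, Nat.cast_zero, norm_eq_zero, Representation.character, Subsingleton.elim (ρ g) 0, map_zero]
  have hc := isCharacter_rep ρ
  have hdeg := charDegree_rep ρ
  have hord := orderOf_pos g
  constructor
  · intro hn
    obtain ⟨lam, hl, hv⟩ := exists_eigen hc g
    have hs : ρ.character g = ∑ i, lam i := by simpa using hv 1
    have hd' : (Module.finrank ℂ V : ℂ) ≠ 0 := Nat.cast_ne_zero.mpr hd.ne'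
    set ω : ℂ := ρ.character g / Module.finrank ℂ V with hω
    have hω1 : ‖ω‖ = 1 := by
      rw [hω, norm_div, hn, Complex.norm_natCast, div_self (Nat.cast_ne_zero.mpr hd.ne')]
    have hω0 : ω ≠ 0 := fun h => by rw [h, norm_zero] at hω1; exact zero_ne_one hω1
    have hall : ∀ i, lam i = ω := fun i => by
      have := eq_one_of_sum_eq_card (fun j => lam j / ω) (fun j => by
        rw [norm_div, hω1, Complex.norm_eq_one_of_pow_eq_one (hl j) hord.ne', div_one]) (by
        rw [← Finset.sum_div, ← hs, Fintype.card_fin, hdeg, hω]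
        field_simp
        rw [div_self]
        intro h0; rw [h0, norm_zero] at hn; exact hd.ne' (by exact_mod_cast hn.symm)) i
      rwa [div_eq_one_iff_eq hω0] at this
    have hωN : ω ^ orderOf g = 1 := by
      have i : Fin (charDegree ρ.character) := ⟨0, by rwa [hdeg]⟩
      rw [← hall i, hl i]
    let T : Module.End ℂ V := ω⁻¹ • ρ g
    have hT : T ^ orderOf g = 1 := by
      rw [smul_pow, inv_pow, hωN, inv_one, one_smul, ← map_pow, pow_orderOf_eq_one, map_one]
    let u : (Module.End ℂ V)ˣ := Units.ofPowEqOne T _ hT hord.ne'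
    have hu : u ^ orderOf g = 1 := Units.ext (by rw [Units.val_pow_eq_pow_val]; exact hT)
    haveI : Finite (Subgroup.zpowers u) :=
      (finite_zpowers.2 (isOfFinOrder_iff_pow_eq_one.2 ⟨_, hord, hu⟩)).to_subtype
    let σ : Representation ℂ (Subgroup.zpowers u) V := (Units.coeHom _).comp (Subgroup.zpowers u).subtype
    have hid := rep_eq_id σ ⟨u, Subgroup.mem_zpowers u⟩ (by
      show LinearMap.trace ℂ V T = _
      rw [map_smul, smul_eq_mul]
      show ω⁻¹ * ρ.character g = _
      rw [hω, inv_div]
      field_simp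
      rw [div_self]
      intro h0; rw [h0, norm_zero] at hn; exact hd.ne' (by exact_mod_cast hn.symm))
    refine ⟨ω, ?_⟩
    have h1 : ω⁻¹ • ρ g = LinearMap.id := hid
    rw [← h1, smul_smul, mul_inv_cancel₀ hω0, one_smul]
  · rintro ⟨ω, hω⟩
    have hωN : ω ^ orderOf g = 1 := by
      have h1 : (ρ g) ^ orderOf g = 1 := by rw [← map_pow, pow_orderOf_eq_one, map_one]
      rw [hω, smul_pow, ← Module.End.one_eq_id, one_pow] at h1
      haveI : Nontrivial V := Module.nontrivial_of_finrank_pos (R := ℂ) hd
      obtain ⟨v, hv⟩ := exists_ne (0 : V)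
      have := LinearMap.congr_fun h1 v
      simp only [LinearMap.smul_apply, Module.End.one_apply] at this
      exact smul_left_injective ℂ hv (this.trans (one_smul ℂ v).symm)
    rw [Representation.character, hω, map_smul, LinearMap.trace_id, smul_eq_mul, norm_mul,
      Complex.norm_eq_one_of_pow_eq_one hωN hord.ne', one_mul, Complex.norm_natCast]

end Cfsg.Agent.S0138
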