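import Cfsg.Statements.S0143
import Cfsg.Agent.CharBasics.Burnside

set_option autoImplicit false
open Cfsg CfsgLib.CharBasics

namespace Cfsg.Agent.S0143

/-- If a finite simple group has a non-identity element whose conjugacy class has prime-power size, then the group has prime order. -/
theorem result {G : Type*} [Group G] [Finite G] [IsSimpleGroup G] (p k : ℕ) (hp : p.Prime) (g : G) (hg : g ≠ 1) (hclass : (Subgroup.centralizer ({g} : Set G)).index = p ^ k) : (Nat.card G).Prime := by
  rcases Nat.eq_zero_or_pos k with rfl | hk
  · rw [pow_zero, Subgroup.index_eq_one] at hclass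
    have hcen : g ∈ Subgroup.center G := Subgroup.mem_center_iff.2 fun x =>
      Subgroup.mem_centralizer_singleton_iff.1 (hclass ▸ Subgroup.mem_top x)
    have htop : Subgroup.center G = ⊤ := ((inferInstance : (Subgroup.center G).Normal).eq_bot_or_eq_top).resolve_left
      fun h => hg (Subgroup.mem_bot.1 (h ▸ hcen))
    letI : CommGroup G :=
      { (inferInstance : Group G) with mul_comm := fun a b => Subgroup.mem_center_iff.1 (htop ▸ Subgroup.mem_top b) a }
    exact IsSimpleGroup.prime_card
  · exact absurd (inferInstance : IsSimpleGroup G) (not_isSimpleGroup_of_class_prime_pow hp g hclass hk)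

end Cfsg.Agent.S0143
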