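import Cfsg.Statements.S0147
import Cfsg.Agent.CharBasics.Induced

set_option autoImplicit false
open Cfsg CfsgLib.CharBasics
open scoped ComplexConjugate

namespace Cfsg.Agent.S0147

/-- Transitivity of induction: inducing from H to K and then from K to G is the same as inducing from H to G. -/
theorem result {G : Type*} [Group G] [Fintype G] (H K : Subgroup G) [Fintype K] (hHK : H ≤ K) (θ : H → ℂ) : Cfsg.indFun K (Cfsg.indFun (H.subgroupOf K) (fun x => θ ⟨(x : K), Subgroup.mem_subgroupOf.mp x.2⟩)) = Cfsg.indFun H θ := by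
  classical
  funext g
  have hinner : ∀ z : G, Cfsg.extendByZero K (Cfsg.indFun (H.subgroupOf K) (fun x => θ ⟨(x : K), Subgroup.mem_subgroupOf.mp x.2⟩)) z =
      (Nat.card H : ℂ)⁻¹ * ∑ y : K, Cfsg.extendByZero H θ ((y : G)⁻¹ * z * y) := by
    intro z
    by_cases hz : z ∈ K
    · rw [show z = ((⟨z, hz⟩ : K) : G) from rfl, extendByZero_coe, indFun,
        Nat.card_congr (Subgroup.subgroupOfEquivOfLe hHK).toEquiv]
      congr 1
      refine Finset.sum_congr rfl fun y _ => ?_
      set w : K := y⁻¹ * ⟨z, hz⟩ * y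
      show _ = Cfsg.extendByZero H θ (w : G)
      by_cases hw : (w : G) ∈ H
      · exact (extendByZero_coe (H.subgroupOf K) _ ⟨w, Subgroup.mem_subgroupOf.mpr hw⟩).trans
          (extendByZero_coe H θ ⟨_, hw⟩).symm
      · rw [extendByZero_of_not_mem H θ hw,
          extendByZero_of_not_mem (H.subgroupOf K) _ (fun h => hw (Subgroup.mem_subgroupOf.mp h))]
    · rw [extendByZero_of_not_mem K _ hz, Finset.sum_eq_zero fun y _ => extendByZero_of_not_mem H θ fun h => hz ?_,
        mul_zero]
      have h1 := K.mul_mem (K.mul_mem y.2 (hHK h)) (K.inv_mem y.2)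
      simpa [mul_assoc] using h1
  have hy : ∀ y : K, ∑ x : G, Cfsg.extendByZero H θ ((y : G)⁻¹ * (x⁻¹ * g * x) * y) =
      ∑ x : G, Cfsg.extendByZero H θ (x⁻¹ * g * x) := fun y =>
    Fintype.sum_equiv (Equiv.mulRight (y : G)) _ _ fun x => by
      simp only [Equiv.coe_mulRight, mul_inv_rev, mul_assoc]
  conv_lhs => rw [indFun]; simp only [hinner]
  rw [← Finset.mul_sum, Finset.sum_comm, Finset.sum_congr rfl (fun y _ => hy y), Finset.sum_const, indFun,
    Finset.card_univ, nsmul_eq_mul, ← Nat.card_eq_fintype_card]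
  have hK : (Nat.card K : ℂ) ≠ 0 := Nat.cast_ne_zero.mpr Nat.card_pos.ne'
  field_simp

end Cfsg.Agent.S0147
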