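import Cfsg.Statements.S0149
import Cfsg.Agent.CharBasics.Induced

set_option autoImplicit false
open Cfsg CfsgLib.CharBasics
open scoped ComplexConjugate

namespace Cfsg.Agent.S0149

/-- Let T be a subset of G meeting each of its conjugates by elements outside its normalizer N only in the identity, and let ψ be a class function of N vanishing on N away from T. Then the function induced from ψ agrees with ψ at every non-identity element of T. -/
theorem result {G : Type*} [Group G] [Fintype G] (T : Set G) (hTI : ∀ g : G, g ∉ Subgroup.normalizer T → ∀ t ∈ T, g * t * g⁻¹ ∈ T → t = 1) (hTN : T ⊆ Subgroup.normalizer T) (ψ : Subgroup.normalizer T → ℂ) (hψ : Cfsg.IsClassFunction (Subgroup.normalizer T) ψ) (hψT : ∀ x : Subgroup.normalizer T, (x : G) ∉ T → ψ x = 0) (t : Subgroup.normalizer T) (htT : (t : G) ∈ T) (ht1 : t ≠ 1) : Cfsg.indFun (Subgroup.normalizer T) ψ t = ψ t := by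
  classical
  have hterm : ∀ x : G, Cfsg.extendByZero (Subgroup.normalizer T) ψ (x⁻¹ * (t : G) * x) = if x ∈ (Subgroup.normalizer T) then ψ t else 0 := by
    intro x
    by_cases hx : x ∈ (Subgroup.normalizer T)
    · rw [if_pos hx, show x⁻¹ * (t : G) * x = (((⟨x, hx⟩ : (Subgroup.normalizer T))⁻¹ * t * ⟨x, hx⟩ : (Subgroup.normalizer T)) : G) from rfl,
        extendByZero_coe]
      simpa using hψ t (⟨x, hx⟩ : (Subgroup.normalizer T))⁻¹
    · rw [if_neg hx]
      by_cases hm : x⁻¹ * (t : G) * x ∈ (Subgroup.normalizer T)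
      · rw [show x⁻¹ * (t : G) * x = ((⟨_, hm⟩ : (Subgroup.normalizer T)) : G) from rfl, extendByZero_coe]
        refine hψT ⟨_, hm⟩ fun hT => ht1 (Subtype.ext ?_)
        exact hTI x⁻¹ (fun h => hx (by simpa using (Subgroup.normalizer T).inv_mem h)) t htT (by simpa using hT)
      · exact extendByZero_of_not_mem (Subgroup.normalizer T) ψ hm
  rw [indFun, Finset.sum_congr rfl (fun x _ => hterm x), ← Finset.sum_filter, Finset.sum_const, nsmul_eq_mul,
    ← Fintype.card_subtype, ← Nat.card_eq_fintype_card, inv_mul_cancel_left₀ (Nat.cast_ne_zero.mpr Nat.card_pos.ne')]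

end Cfsg.Agent.S0149
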