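import Cfsg.Statements.S0155
import Cfsg.Agent.CharBasics.Basic

set_option autoImplicit false
open Cfsg CfsgLib.CharBasics

namespace Cfsg.Agent.S0155

/-- The character of the left regular representation of a finite group takes the value |G| at the identity and 0 at every other element. -/
theorem result {G : Type*} [Group G] [Fintype G] [DecidableEq G] (g : G) : (Representation.leftRegular ℂ G).character g = if g = 1 then (Nat.card G : ℂ) else 0 := by
  show LinearMap.trace ℂ (MonoidAlgebra ℂ G) (Representation.leftRegular ℂ G g) = _
  rw [LinearMap.trace_eq_matrix_trace ℂ (MonoidAlgebra.basis G ℂ), Matrix.trace]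
  simp only [Matrix.diag_apply, LinearMap.toMatrix_apply]
  split_ifs with h
  · subst h; simp [Nat.card_eq_fintype_card, MonoidAlgebra.basis]
  · refine Finset.sum_eq_zero fun x _ => ?_
    simp [MonoidAlgebra.basis, MonoidAlgebra.coeff_single, h]

end Cfsg.Agent.S0155
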