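import Cfsg.Statements.S0156
import Cfsg.Agent.CharBasics.Ortho
import Cfsg.Agent.S0155

set_option autoImplicit false
open Cfsg CfsgLib.CharBasics

namespace Cfsg.Agent.S0156

/-- The character of the left regular representation is the sum over the irreducible characters χ of χ 1 • χ. -/
theorem result {G : Type*} [Group G] [Fintype G] : (Representation.leftRegular ℂ G).character = ∑ᶠ χ : Cfsg.IrrCharacter G, (χ : G → ℂ) 1 • (χ : G → ℂ) := by
  classical
  haveI : Fintype (IrrCharacter G) := Fintype.ofFinite _
  funext g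
  rw [Cfsg.Agent.S0155.result g, finsum_eq_sum_of_fintype, Finset.sum_apply]
  simp only [Pi.smul_apply, smul_eq_mul]
  rw [Finset.sum_congr rfl (fun χ _ => by rw [apply_one (isCharacter_of_irr χ.2)] :
    ∀ χ ∈ (Finset.univ : Finset (IrrCharacter G)), _ = (charDegree (χ : G → ℂ) : ℂ) * (χ : G → ℂ) g)]
  by_cases h : g = 1
  · subst h
    rw [if_pos rfl, ← sum_sq_degree (G := G)]
    push_cast
    exact Finset.sum_congr rfl fun χ _ => by rw [apply_one (isCharacter_of_irr χ.2), sq]
  · rw [if_neg h, sum_mul_degree h]

end Cfsg.Agent.S0156
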