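import Cfsg.Statements.S0162
import Cfsg.Agent.CharBasics.OddReal
import Cfsg.Agent.CharBasics.Central

set_option autoImplicit false
open Cfsg CfsgLib.CharBasics
open scoped ComplexConjugate

namespace Cfsg.Agent.S0162

/-- If a finite group has odd order, its order is congruent to its number of conjugacy classes modulo 16. -/
theorem result {G : Type*} [Group G] [Finite G] (hodd : Odd (Nat.card G)) : Nat.card G ≡ Nat.card (ConjClasses G) [MOD 16] := by
  classical
  haveI := Fintype.ofFinite G
  haveI := Fintype.ofFinite (IrrCharacter G)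
  rw [← card_irr (G := G), Nat.card_eq_fintype_card (α := IrrCharacter G), ← ZMod.natCast_eq_natCast_iff]
  have hsum : ∑ χ : IrrCharacter G, charDegree (χ : G → ℂ) ^ 2 = Nat.card G := by
    have h := sum_sq_degree (G := G)
    exact_mod_cast h
  rw [← hsum, Nat.cast_sum]
  rw [← sub_eq_zero, show (Fintype.card (IrrCharacter G) : ZMod 16) = ∑ _χ : IrrCharacter G, (1 : ZMod 16) by simp,
    ← Finset.sum_sub_distrib]
  have h8 : ∀ χ : IrrCharacter G, (2 : ZMod 16) * (((charDegree (χ : G → ℂ) ^ 2 : ℕ) : ZMod 16) - 1) = 0 := by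
    intro χ
    have ho : Odd (charDegree (χ : G → ℂ)) := hodd.of_dvd_nat (degree_dvd χ)
    obtain ⟨k, hk⟩ := ho
    have hall : ∀ a : ZMod 16, 2 * ((2 * a + 1) ^ 2 - 1) = 0 := by decide
    rw [hk]
    push_cast
    exact hall _
  refine Finset.sum_involution (fun χ _ => ⟨fun g => conj ((χ : G → ℂ) g), CfsgLib.BrauerInd.isIrr_star χ.2⟩)
    (fun χ _ => ?_) (fun χ _ hne he => hne ?_) (fun _ _ => Finset.mem_univ _) (fun χ _ => Subtype.ext (funext fun g => ?_))
  · have hd : charDegree (fun g => conj ((χ : G → ℂ) g)) = charDegree (χ : G → ℂ) := by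
      simp only [charDegree, Complex.conj_re]
    show _ + (((charDegree (fun g => conj ((χ : G → ℂ) g)) ^ 2 : ℕ) : ZMod 16) - 1) = 0
    rw [hd, ← two_mul]
    exact h8 χ
  · have h1 := eq_one_of_odd_of_real hodd χ.2 (fun g => congrFun (congrArg Subtype.val he) g)
    have hd1 : charDegree (fun _ : G => (1 : ℂ)) = 1 := by simp [charDegree]
    rw [h1, hd1]
    norm_num
  · simp

end Cfsg.Agent.S0162
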