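import Cfsg.Statements.S0163
import Cfsg.Agent.BrauerInd.Induction

set_option autoImplicit false
open Cfsg

namespace Cfsg.Agent.S0163

/-- Brauer's induction Theorem: every character of a finite group is a ℤ-linear combination of functions induced from linear characters (homomorphisms to ℂˣ) of elementary subgroups. -/
theorem result {G : Type*} [Group G] [Fintype G] (χ : G → ℂ) (hχ : Cfsg.IsCharacter G χ) : ∃ l : List ((E : Subgroup G) × ((E →* ℂˣ) × ℤ)), (∀ t ∈ l, ∃ p : ℕ, p.Prime ∧ Cfsg.IsElementary p t.1) ∧ χ = (l.map fun t => (t.2.2 : ℂ) • Cfsg.indFun t.1 (fun e => (t.2.1 e : ℂ))).sum := by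
  have h := CfsgLib.BrauerInd.isCharacter_mem_monomialSpan hχ
  clear hχ
  induction h using AddSubgroup.closure_induction with
  | mem f hf =>
    obtain ⟨E, l, ⟨p, hp, hE⟩, rfl⟩ := hf
    exact ⟨[⟨E, l, 1⟩], fun t ht => ⟨p, hp, by rw [List.mem_singleton.1 ht]; exact hE⟩, by simp⟩
  | zero => exact ⟨[], by simp, by simp⟩
  | add a b _ _ ha hb =>
    obtain ⟨la, hla, rfl⟩ := ha
    obtain ⟨lb, hlb, rfl⟩ := hb
    exact ⟨la ++ lb, fun t ht => (List.mem_append.1 ht).elim (hla t) (hlb t), by simp⟩
  | neg a _ ha =>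
    obtain ⟨la, hla, rfl⟩ := ha
    refine ⟨la.map fun t => ⟨t.1, t.2.1, -t.2.2⟩, fun t ht => ?_, ?_⟩
    · obtain ⟨u, hu, rfl⟩ := List.mem_map.1 ht
      exact hla u hu
    · rename_i hmem
      clear hla hmem
      induction la with
      | nil => simp
      | cons u la ih =>
        simp only [List.map_cons, List.sum_cons, neg_add, ih]
        congr 1
        simp


end Cfsg.Agent.S0163
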