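import Cfsg.Statements.S0166
import Cfsg.Agent.Splitting.Field
-- import your own Cfsg.Agent.* helpers here

set_option autoImplicit false
open Cfsg

namespace Cfsg.Agent.S0166

/-- Brauer's splitting field Theorem: a complex representation of a finite group of exponent m is equivalent to a representation by matrices with entries in ℚ adjoined exp(2πi/m). -/
theorem result {G : Type*} [Group G] [Finite G] (n : ℕ) (ρ : Representation ℂ G (Fin n → ℂ)) : ∃ σ : Representation ℂ G (Fin n → ℂ), Nonempty (ρ.Equiv σ) ∧ ∀ g : G, ∀ i j : Fin n, LinearMap.toMatrix' (σ g) i j ∈ Algebra.adjoin ℚ ({Complex.exp (2 * Real.pi * Complex.I / (Monoid.exponent G : ℂ))} : Set ℂ) := by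
  classical
  haveI := Fintype.ofFinite G
  set ζ : ℂ := Complex.exp (2 * Real.pi * Complex.I / (Monoid.exponent G : ℂ)) with hζ
  have hm : Monoid.exponent G ≠ 0 := Monoid.exponent_ne_zero_of_finite
  have hprim : IsPrimitiveRoot ζ (Monoid.exponent G) := Complex.isPrimitiveRoot_exp _ hm
  have hint : IsIntegral ℚ ζ := (hprim.isIntegral (Nat.pos_of_ne_zero hm)).tower_top
  haveI : NeZero (Monoid.exponent G) := ⟨hm⟩
  obtain ⟨σ, hσ⟩ := CfsgLib.Splitting.exists_realisation (IntermediateField.adjoin ℚ {ζ}).toSubfield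
    (fun z hz => by
      obtain ⟨i, -, rfl⟩ := hprim.eq_pow_of_pow_eq_one hz
      exact pow_mem (IntermediateField.mem_adjoin_simple_self ℚ ζ) i) ρ
  refine ⟨CfsgLib.Splitting.complexify _ σ, CfsgLib.Clifford.nonempty_equiv_of_char ρ _ hσ.symm, fun g i j => ?_⟩
  rw [CfsgLib.Splitting.toMatrix'_complexify, Matrix.map_apply,
    ← IntermediateField.adjoin_simple_toSubalgebra_of_isAlgebraic hint.isAlgebraic]
  exact (LinearMap.toMatrix' (σ g) i j).2

end Cfsg.Agent.S0166
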