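import Cfsg.Statements.S0168
import Cfsg.Agent.CharBasics.Central

set_option autoImplicit false
open Cfsg

namespace Cfsg.Agent.S0168

/-- The Burnside–Brauer Theorem. Let χ be the character of a faithful complex representation of a finite group, taking m distinct values. Then every irreducible character has nonzero inner product with χ ^ i for some i < m. -/
theorem result {G : Type*} [Group G] [Fintype G] {V : Type*} [AddCommGroup V] [Module ℂ V] [FiniteDimensional ℂ V] (ρ : Representation ℂ G V) (hfaithful : Function.Injective ρ) (ψ : G → ℂ) (hψ : Cfsg.IsIrrCharacter G ψ) : ∃ i : ℕ, i < Nat.card (Set.range ρ.character) ∧ Cfsg.classInner (fun g => ρ.character g ^ i) ψ ≠ 0 := by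
  classical
  by_contra hne
  push Not at hne
  have hd1 : ρ.character 1 ∈ Finset.univ.image ρ.character := Finset.mem_image_of_mem _ (Finset.mem_univ _)
  set S := (Finset.univ.image ρ.character).erase (ρ.character 1) with hS
  have hcard : Nat.card (Set.range ρ.character) = S.card + 1 := by
    rw [hS, Finset.card_erase_of_mem hd1, Nat.sub_add_cancel (Finset.card_pos.mpr ⟨_, hd1⟩),
      Nat.card_eq_fintype_card, ← Set.toFinset_card, Set.toFinset_range]
  let P : Polynomial ℂ := ∏ a ∈ S, (Polynomial.X - Polynomial.C a)
  have hdeg : P.natDegree < S.card + 1 := by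
    rw [Polynomial.natDegree_finsetProd_X_sub_C_eq_card]
    exact Nat.lt_succ_self _
  have hsum : ∑ g : G, P.eval (ρ.character g) * (starRingEnd ℂ) (ψ g) = 0 := by
    simp only [Polynomial.eval_eq_sum_range' hdeg, Finset.sum_mul]
    rw [Finset.sum_comm]
    refine Finset.sum_eq_zero fun i hi => ?_
    have h := hne i (hcard ▸ Finset.mem_range.mp hi)
    rw [CfsgLib.CharBasics.classInner_eq, mul_eq_zero] at h
    have h' := h.resolve_left (inv_ne_zero (Nat.cast_ne_zero.mpr Nat.card_pos.ne'))
    simp only [mul_assoc]
    rw [← Finset.mul_sum, h', mul_zero]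
  rw [Finset.sum_eq_single (1 : G)] at hsum
  · rcases mul_eq_zero.mp hsum with h | h
    · rw [Polynomial.eval_prod, Finset.prod_eq_zero_iff] at h
      obtain ⟨a, ha, h0⟩ := h
      rw [Polynomial.eval_sub, Polynomial.eval_X, Polynomial.eval_C, sub_eq_zero] at h0
      exact (Finset.mem_erase.mp ha).1 h0.symm
    · rw [map_eq_zero] at h
      exact CfsgLib.CharBasics.apply_one_ne_zero hψ h
  · intro g _ hg
    have hgne : ρ.character g ≠ ρ.character 1 := by
      intro h
      apply hg
      let e := (Module.finBasis ℂ V).equivFun
      have h2 := CfsgLib.CharBasics.eq_id_of_character_eq (CfsgLib.CharBasics.repConj e ρ) g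
        (by rw [CfsgLib.CharBasics.repConj_character]; exact h)
      apply hfaithful
      rw [map_one]
      refine LinearMap.ext fun v => e.injective ?_
      have h3 := LinearMap.congr_fun h2 (e v)
      simp only [CfsgLib.CharBasics.repConj_apply, LinearEquiv.conj_apply, LinearMap.comp_apply,
        LinearEquiv.coe_coe, LinearEquiv.symm_apply_apply, LinearMap.id_apply] at h3
      exact h3
    rw [Polynomial.eval_prod, Finset.prod_eq_zero (i := ρ.character g)
      (Finset.mem_erase.mpr ⟨hgne, Finset.mem_image_of_mem _ (Finset.mem_univ _)⟩) (by simp), zero_mul]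
  · simp

end Cfsg.Agent.S0168
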