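import Cfsg.Statements.S0169
import Cfsg.Agent.Clifford.Ito

set_option autoImplicit false
open Cfsg

namespace Cfsg.Agent.S0169

/-- Itô's Theorem on character degrees: the degree of an irreducible complex representation of a finite group divides the index of any abelian normal subgroup. -/
theorem result {G : Type*} [Group G] [Finite G] {V : Type*} [AddCommGroup V] [Module ℂ V] [FiniteDimensional ℂ V] (ρ : Representation ℂ G V) [ρ.IsIrreducible] (H : Subgroup G) [H.Normal] (hH : ∀ a ∈ H, ∀ b ∈ H, a * b = b * a) : Module.finrank ℂ V ∣ H.index := by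
  classical
  have := Fintype.ofFinite G
  haveI : IsMulCommutative H := ⟨⟨fun a b => Subtype.ext (hH a a.2 b b.2)⟩⟩
  have hχ : Cfsg.IsIrrCharacter G ρ.character := by
    refine CfsgLib.CharBasics.isIrr_of_norm_one (CfsgLib.CharBasics.isCharacter_rep ρ) ?_
    have : Invertible (Nat.card G : ℂ) := invertibleOfNonzero (Nat.cast_ne_zero.mpr Nat.card_pos.ne')
    have h := Representation.char_orthonormal ρ ρ
    rw [if_pos ⟨Representation.Equiv.refl ρ⟩] at h
    rw [CfsgLib.CharBasics.classInner_eq]
    refine Eq.trans (congrArg _ (Finset.sum_congr rfl fun g _ => ?_)) h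
    rw [← CfsgLib.CharBasics.apply_inv (CfsgLib.CharBasics.isCharacter_rep ρ)]
  have h := CfsgLib.Clifford.ito_dvd hχ H
  rwa [show Cfsg.charDegree ρ.character = Module.finrank ℂ V by
    rw [Cfsg.charDegree, Representation.char_one, Complex.natCast_re, Nat.floor_natCast]] at h

end Cfsg.Agent.S0169
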