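import Cfsg.Statements.S0170
import Cfsg.Agent.Clifford.Basic
import Cfsg.Agent.IndFun.Basic

set_option autoImplicit false
open Cfsg

namespace Cfsg.Agent.S0170

/-- Exceptional characters. Let S be a subset of a finite group contained in its normalizer N and meeting its conjugates by elements outside N only in the identity. Given n ≥ 2 distinct irreducible characters of N of equal degree that vanish on N away from S, there exist a sign ε and n distinct irreducible characters θ_i of G such that inducing χ_i − χ_j to G gives ε (θ_i − θ_j) for all i, j. -/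
theorem result {G : Type*} [Group G] [Fintype G] (S : Set G) (hSN : S ⊆ Subgroup.normalizer S) (hTI : ∀ g : G, g ∉ Subgroup.normalizer S → ∀ s ∈ S, g * s * g⁻¹ ∈ S → s = 1) (n : ℕ) (hn : 2 ≤ n) (χ : Fin n → (Subgroup.normalizer S → ℂ)) (hirr : ∀ i, Cfsg.IsIrrCharacter (Subgroup.normalizer S) (χ i)) (hinj : Function.Injective χ) (hvan : ∀ i, ∀ x : Subgroup.normalizer S, (x : G) ∉ S → χ i x = 0) (hdeg : ∀ i j, χ i 1 = χ j 1) : ∃ ε : ℂ, (ε = 1 ∨ ε = -1) ∧ ∃ θ : Fin n → (G → ℂ), (∀ i, Cfsg.IsIrrCharacter G (θ i)) ∧ Function.Injective θ ∧ ∀ i j, Cfsg.indFun (Subgroup.normalizer S) (χ i) - Cfsg.indFun (Subgroup.normalizer S) (χ j) = ε • (θ i - θ j) := by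
  classical
  open CfsgLib.CharBasics in
  letI := Fintype.ofFinite (Subgroup.normalizer S : Subgroup G)
  have := Fintype.ofFinite (Cfsg.IrrCharacter G)
  let N : Subgroup G := Subgroup.normalizer S
  let I : Fin n → G → ℂ := fun i => Cfsg.indFun N (χ i)
  have hI : ∀ i, Cfsg.IsCharacter G (I i) := fun i =>
    CfsgLib.CharBasics.isCharacter_indFun N (CfsgLib.CharBasics.isCharacter_of_irr (hirr i))
  let D : Fin n → Fin n → G → ℂ := fun i j => I i - I j
  have hDc : ∀ i j, Cfsg.IsClassFunction G (D i j) := fun i j g x => by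
    simp only [D, Pi.sub_apply, CfsgLib.CharBasics.isClassFunction (hI i) g x,
      CfsgLib.CharBasics.isClassFunction (hI j) g x]
  have hval : ∀ i j, ∀ s : N, (s : G) ∈ S → (s : G) ≠ 1 → D i j s = χ i s - χ j s := by
    intro i j s hs hs1
    have hterm : ∀ x : G, Cfsg.extendByZero N (χ i) (x⁻¹ * s * x) - Cfsg.extendByZero N (χ j) (x⁻¹ * s * x) =
        if x ∈ N then χ i s - χ j s else 0 := by
      intro x
      split_ifs with hx
      · have hm : x⁻¹ * (s : G) * x ∈ N := N.mul_mem (N.mul_mem (N.inv_mem hx) s.2) hx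
        rw [CfsgLib.IndFun.extendByZero_mem _ hm, CfsgLib.IndFun.extendByZero_mem _ hm]
        have h1 : (⟨x⁻¹ * (s : G) * x, hm⟩ : N) = (⟨x, hx⟩ : N)⁻¹ * s * (⟨x, hx⟩ : N) := Subtype.ext rfl
        rw [h1, CfsgLib.CharBasics.apply_conj' (CfsgLib.CharBasics.isCharacter_of_irr (hirr i)),
          CfsgLib.CharBasics.apply_conj' (CfsgLib.CharBasics.isCharacter_of_irr (hirr j))]
      · by_cases hm : x⁻¹ * (s : G) * x ∈ N
        · rw [CfsgLib.IndFun.extendByZero_mem _ hm, CfsgLib.IndFun.extendByZero_mem _ hm]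
          have hnS : x⁻¹ * (s : G) * x ∉ S := fun h => hs1 (hTI x⁻¹ (fun h2 => hx (by simpa using N.inv_mem h2)) s hs
            (by rwa [inv_inv]))
          rw [hvan i ⟨_, hm⟩ hnS, hvan j ⟨_, hm⟩ hnS, sub_zero]
        · rw [CfsgLib.IndFun.extendByZero_not_mem _ hm, CfsgLib.IndFun.extendByZero_not_mem _ hm, sub_zero]
    simp only [D, I, Pi.sub_apply, Cfsg.indFun]
    rw [← mul_sub, ← Finset.sum_sub_distrib, Finset.sum_congr rfl fun x _ => hterm x, ← Finset.sum_filter,
      Finset.sum_const, nsmul_eq_mul, ← Fintype.card_subtype, ← Nat.card_eq_fintype_card,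
      inv_mul_cancel_left₀ (Nat.cast_ne_zero.mpr (Nat.card_pos (α := N)).ne')]
  have hiso : ∀ i j k l, Cfsg.classInner (D i j) (D k l) =
      Cfsg.classInner (χ i) (χ k) - Cfsg.classInner (χ j) (χ k) -
        (Cfsg.classInner (χ i) (χ l) - Cfsg.classInner (χ j) (χ l)) := by
    intro i j k l
    have h1 : Cfsg.classInner (D i j) (D k l) =
        Cfsg.classInner (χ i - χ j) (fun x : N => D k l x) := by
      rw [CfsgLib.Clifford.classInner_sub_left, CfsgLib.Clifford.classInner_sub_left,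
        CfsgLib.CharBasics.classInner_indFun N (χ i) (hDc k l), CfsgLib.CharBasics.classInner_indFun N (χ j) (hDc k l)]
    rw [h1, CfsgLib.CharBasics.classInner_eq, CfsgLib.CharBasics.classInner_eq, CfsgLib.CharBasics.classInner_eq,
      CfsgLib.CharBasics.classInner_eq, CfsgLib.CharBasics.classInner_eq, ← mul_sub, ← mul_sub, ← mul_sub,
      ← Finset.sum_sub_distrib, ← Finset.sum_sub_distrib, ← Finset.sum_sub_distrib]
    congr 1
    refine Finset.sum_congr rfl fun x _ => ?_
    by_cases hx : (x : G) ∈ S ∧ (x : G) ≠ 1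
    · rw [hval k l x hx.1 hx.2, Pi.sub_apply, map_sub]
      ring
    · have h0 : χ i x - χ j x = 0 := by
        by_cases hxS : (x : G) ∈ S
        · have hx1 : x = 1 := Subtype.ext (by simpa using not_and.mp hx hxS)
          rw [hx1, hdeg i j, sub_self]
        · rw [hvan i x hxS, hvan j x hxS, sub_self]
      rw [Pi.sub_apply, h0, zero_mul, eq_comm]
      linear_combination ((starRingEnd ℂ) (χ k x) - (starRingEnd ℂ) (χ l x)) * h0
  have hint : ∀ i j (ψ : Cfsg.IrrCharacter G), ∃ c : ℤ, Cfsg.classInner (D i j) (ψ : G → ℂ) = c := by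
    intro i j ψ
    obtain ⟨a, ha⟩ := CfsgLib.CharBasics.classInner_character_nat (hI i) ψ
    obtain ⟨b, hb⟩ := CfsgLib.CharBasics.classInner_character_nat (hI j) ψ
    exact ⟨(a : ℤ) - b, by rw [CfsgLib.Clifford.classInner_sub_left, ha, hb]; push_cast; ring⟩
  have hone : ∀ i j, D i j 1 = 0 := fun i j => by
    simp only [D, I, Pi.sub_apply, CfsgLib.CharBasics.indFun_apply_one, hdeg i j, sub_self]
  have hsplit : ∀ i j, i ≠ j → ∃ p m : Cfsg.IrrCharacter G, p ≠ m ∧ D i j = (p : G → ℂ) - (m : G → ℂ) := by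
    intro i j hij
    choose c hc using hint i j
    have hexp := CfsgLib.CharBasics.classFun_expand (hDc i j)
    simp only [hc] at hexp
    have hnorm : Cfsg.classInner (D i j) (D i j) = 2 := by
      rw [hiso, CfsgLib.CharBasics.classInner_self (hirr i), CfsgLib.CharBasics.classInner_self (hirr j),
        CfsgLib.CharBasics.classInner_ne (hirr j) (hirr i) (fun h => hij (hinj h).symm),
        CfsgLib.CharBasics.classInner_ne (hirr i) (hirr j) (fun h => hij (hinj h))]
      norm_num
    have hsq : ∑ ψ, c ψ * c ψ = 2 := by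
      nth_rewrite 1 [hexp] at hnorm
      rw [CfsgLib.CharBasics.classInner_sum_left,
        Finset.sum_congr rfl (g := fun ψ => ((c ψ * c ψ : ℤ) : ℂ)) fun ψ _ => by
          rw [CfsgLib.CharBasics.classInner_smul_left, CfsgLib.CharBasics.classInner_comm, hc ψ]; simp] at hnorm
      exact_mod_cast hnorm
    have hsum : ∑ ψ, c ψ * (Cfsg.charDegree (ψ : G → ℂ) : ℤ) = 0 := by
      have h := congrFun hexp 1
      rw [hone, Finset.sum_apply] at h
      simp only [Pi.smul_apply, smul_eq_mul,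
        fun ψ : Cfsg.IrrCharacter G => CfsgLib.CharBasics.apply_one (CfsgLib.CharBasics.isCharacter_of_irr ψ.2)] at h
      exact_mod_cast h.symm
    have hd : ∀ ψ : Cfsg.IrrCharacter G, 0 < (Cfsg.charDegree (ψ : G → ℂ) : ℤ) := fun ψ => by
      exact_mod_cast CfsgLib.CharBasics.charDegree_pos ψ.2
    have hne : ∃ ψ, c ψ ≠ 0 := by
      by_contra hh
      push Not at hh
      simp [hh] at hsq
    obtain ⟨p, hp⟩ : ∃ p, 0 < c p := by
      by_contra hh
      push Not at hh
      obtain ⟨ψ, hψ⟩ := hne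
      have := (Finset.sum_eq_zero_iff_of_nonpos
        (fun x _ => mul_nonpos_of_nonpos_of_nonneg (hh x) (hd x).le)).mp hsum ψ (Finset.mem_univ _)
      exact hψ ((mul_eq_zero.mp this).resolve_right (hd ψ).ne')
    obtain ⟨m, hm⟩ : ∃ m, c m < 0 := by
      by_contra hh
      push Not at hh
      have := (Finset.sum_eq_zero_iff_of_nonneg
        (fun x _ => mul_nonneg (hh x) (hd x).le)).mp hsum p (Finset.mem_univ _)
      exact hp.ne' ((mul_eq_zero.mp this).resolve_right (hd p).ne')
    have hpm : p ≠ m := fun h => by rw [h] at hp; omega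
    rw [← Finset.add_sum_erase _ _ (Finset.mem_univ p),
      ← Finset.add_sum_erase _ _ (Finset.mem_erase.mpr ⟨hpm.symm, Finset.mem_univ m⟩)] at hsq
    have hnn : ∀ x ∈ (Finset.univ.erase p).erase m, 0 ≤ c x * c x := fun x _ => mul_self_nonneg _
    have hp2 : 1 ≤ c p * c p := by nlinarith
    have hm2 : 1 ≤ c m * c m := by nlinarith
    have hrest0 : ∑ x ∈ (Finset.univ.erase p).erase m, c x * c x = 0 := by
      have := Finset.sum_nonneg hnn
      omega
    have hrest : ∀ x, x ≠ p → x ≠ m → c x = 0 := fun x h1 h2 => mul_self_eq_zero.mp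
      ((Finset.sum_eq_zero_iff_of_nonneg hnn).mp hrest0 x (by simp [h1, h2]))
    have hcp : c p = 1 := by nlinarith
    have hcm : c m = -1 := by nlinarith
    refine ⟨p, m, hpm, ?_⟩
    rw [hexp, ← Finset.add_sum_erase _ _ (Finset.mem_univ p),
      ← Finset.add_sum_erase _ _ (Finset.mem_erase.mpr ⟨hpm.symm, Finset.mem_univ m⟩),
      Finset.sum_eq_zero fun x hx => by
        rw [hrest x (by simp at hx; exact hx.2) (by simp at hx; exact hx.1), Int.cast_zero, zero_smul],
      hcp, hcm]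
    simp [sub_eq_add_neg]
  let z : Fin n := ⟨0, by omega⟩
  let o : Fin n := ⟨1, by omega⟩
  have hoz : o ≠ z := fun h => by simpa [o, z] using congrArg Fin.val h
  choose p m hpm hD using fun j : {j : Fin n // j ≠ z} => hsplit z j.1 (Ne.symm j.2)
  have hone' : ∀ j k, j ≠ k → (p j = p k ∧ m j ≠ m k) ∨ (m j = m k ∧ p j ≠ p k) := by
    intro j k hjk
    have h1 := hiso z j.1 z k.1
    rw [CfsgLib.CharBasics.classInner_self (hirr z),
      CfsgLib.CharBasics.classInner_ne (hirr j.1) (hirr z) (fun h => j.2 (hinj h)),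
      CfsgLib.CharBasics.classInner_ne (hirr z) (hirr k.1) (fun h => k.2 (hinj h).symm),
      CfsgLib.CharBasics.classInner_ne (hirr j.1) (hirr k.1) (fun h => hjk (Subtype.ext (hinj h)))] at h1
    rw [hD j, hD k, CfsgLib.Clifford.classInner_sub_left] at h1
    have hsub : ∀ a b c : Cfsg.IrrCharacter G, Cfsg.classInner (a : G → ℂ) ((b : G → ℂ) - (c : G → ℂ)) =
        (if a = b then 1 else 0) - (if a = c then 1 else 0) := fun a b c => by
      rw [← CfsgLib.CharBasics.classInner_irr a b, ← CfsgLib.CharBasics.classInner_irr a c]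
      simp only [CfsgLib.CharBasics.classInner_eq, Pi.sub_apply, map_sub, mul_sub, Finset.sum_sub_distrib]
    rw [hsub, hsub] at h1
    have hj := hpm j
    have hk := hpm k
    by_cases a1 : p j = p k <;> by_cases a2 : m j = m k
    · simp [a1, a2, hk, hk.symm] at h1
    · exact Or.inl ⟨a1, a2⟩
    · exact Or.inr ⟨a2, a1⟩
    · exfalso
      rw [if_neg a1, if_neg a2] at h1
      split_ifs at h1 <;> norm_num at h1
  have hfin : ∃ ε : ℂ, (ε = 1 ∨ ε = -1) ∧ ∃ θ : Fin n → Cfsg.IrrCharacter G,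
      Function.Injective θ ∧ ∀ j, j ≠ z → D z j = ε • ((θ z : G → ℂ) - (θ j : G → ℂ)) := by
    by_cases hall : ∀ j, p j = p ⟨o, hoz⟩
    · refine ⟨1, Or.inl rfl, fun j => if h : j = z then p ⟨o, hoz⟩ else m ⟨j, h⟩, ?_, fun j hj => ?_⟩
      · intro a b hab
        by_cases ha : a = z <;> by_cases hb : b = z <;> simp only [ha, hb, dif_pos, dif_neg, not_false_iff] at hab
        · rw [ha, hb]
        · exact absurd (hab ▸ hall ⟨b, hb⟩) (hpm ⟨b, hb⟩)
        · exact absurd (hab.symm ▸ hall ⟨a, ha⟩) (hpm ⟨a, ha⟩)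
        · by_contra hne
          rcases hone' ⟨a, ha⟩ ⟨b, hb⟩ (fun h => hne (congrArg Subtype.val h)) with ⟨-, h⟩ | ⟨-, h⟩
          · exact h hab
          · exact h ((hall _).trans (hall _).symm)
      · simp only [dif_pos, dif_neg hj, one_smul]
        rw [hD ⟨j, hj⟩, hall ⟨j, hj⟩]
    · push Not at hall
      obtain ⟨k, hk⟩ := hall
      have hko : k ≠ ⟨o, hoz⟩ := fun h => hk (by rw [h])
      have hmk : m k = m ⟨o, hoz⟩ := (hone' k _ hko).elim (fun h => absurd h.1 hk) (fun h => h.1)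
      have hall' : ∀ j, m j = m ⟨o, hoz⟩ := by
        intro j
        by_contra hne
        have hjo : j ≠ ⟨o, hoz⟩ := fun h => hne (by rw [h])
        have hjk : j ≠ k := fun h => hne (h ▸ hmk)
        have hpj : p j = p ⟨o, hoz⟩ := (hone' j _ hjo).elim (fun h => h.1) (fun h => absurd h.1 hne)
        rcases hone' j k hjk with ⟨h, -⟩ | ⟨h, -⟩
        · exact hk (h ▸ hpj)
        · exact hne (h.trans hmk)
      refine ⟨-1, Or.inr rfl, fun j => if h : j = z then m ⟨o, hoz⟩ else p ⟨j, h⟩, ?_, fun j hj => ?_⟩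
      · intro a b hab
        by_cases ha : a = z <;> by_cases hb : b = z <;> simp only [ha, hb, dif_pos, dif_neg, not_false_iff] at hab
        · rw [ha, hb]
        · exact absurd (hab.symm.trans (hall' ⟨b, hb⟩).symm) (hpm ⟨b, hb⟩)
        · exact absurd (hab.trans (hall' ⟨a, ha⟩).symm) (hpm ⟨a, ha⟩)
        · by_contra hne
          rcases hone' ⟨a, ha⟩ ⟨b, hb⟩ (fun h => hne (congrArg Subtype.val h)) with ⟨-, h⟩ | ⟨-, h⟩
          · exact h ((hall' _).trans (hall' _).symm)
          · exact h hab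
      · simp only [dif_pos, dif_neg hj, neg_smul, one_smul, neg_sub]
        rw [hD ⟨j, hj⟩, hall' ⟨j, hj⟩]
  obtain ⟨ε, hε, θ, hθ, hDθ⟩ := hfin
  refine ⟨ε, hε, fun i => (θ i : G → ℂ), fun i => (θ i).2, fun a b h => hθ (Subtype.ext h), fun i j => ?_⟩
  have hz : ∀ i, D z i = ε • ((θ z : G → ℂ) - (θ i : G → ℂ)) := fun i => by
    by_cases hi : i = z
    · subst hi; simp [D]
    · exact hDθ i hi
  show D i j = _
  rw [show D i j = D z j - D z i by simp only [D]; abel, hz j, hz i, ← smul_sub]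
  congr 1
  abel

end Cfsg.Agent.S0170
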