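import Cfsg.Statements.S0173
import Cfsg.Agent.Clifford.BrauerPerm
import Cfsg.Agent.Clifford.RepBasic

set_option autoImplicit false
open Cfsg

namespace Cfsg.Agent.S0173

/-- Brauer's permutation lemma for a single automorphism: the number of conjugacy classes mapped to themselves equals the number of irreducible complex characters χ with χ ∘ α = χ. -/
theorem result {G : Type*} [Group G] [Finite G] (α : G ≃* G) : Nat.card {C : ConjClasses G // ConjClasses.map α.toMonoidHom C = C} = Nat.card {χ : Cfsg.IrrCharacter G // (χ : G → ℂ) ∘ α = (χ : G → ℂ)} := by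
  classical
  have hc : ∀ (e : G ≃* G) (χ : Cfsg.IrrCharacter G), Cfsg.IsIrrCharacter G ((χ : G → ℂ) ∘ e) := fun e χ =>
    CfsgLib.Clifford.isIrrCharacter_comp χ.2 e.toMonoidHom e.surjective
  let σ : Cfsg.IrrCharacter G ≃ Cfsg.IrrCharacter G :=
    { toFun := fun χ => ⟨_, hc α χ⟩
      invFun := fun χ => ⟨_, hc α.symm χ⟩
      left_inv := fun χ => Subtype.ext (funext fun g => by simp)
      right_inv := fun χ => Subtype.ext (funext fun g => by simp) }
  let τ : ConjClasses G ≃ ConjClasses G :=
    { toFun := ConjClasses.map α.toMonoidHom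
      invFun := ConjClasses.map α.symm.toMonoidHom
      left_inv := fun C => by
        obtain ⟨g, rfl⟩ := ConjClasses.exists_rep C
        exact congrArg ConjClasses.mk (α.symm_apply_apply g)
      right_inv := fun C => by
        obtain ⟨g, rfl⟩ := ConjClasses.exists_rep C
        exact congrArg ConjClasses.mk (α.apply_symm_apply g) }
  have h := CfsgLib.Clifford.brauer_perm σ τ.symm fun χ g g' hgg => by
    have h1 : ConjClasses.mk (α g') = ConjClasses.mk g := by
      have h2 := congrArg τ hgg
      rw [Equiv.apply_symm_apply] at h2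
      exact h2
    exact CfsgLib.CharBasics.apply_isConj (CfsgLib.CharBasics.isCharacter_of_irr χ.2)
      (ConjClasses.mk_eq_mk_iff_isConj.mp h1)
  calc Nat.card {C : ConjClasses G // ConjClasses.map α.toMonoidHom C = C}
      = Nat.card {C : ConjClasses G // τ.symm C = C} := Nat.card_congr (Equiv.subtypeEquivRight fun C => by
        rw [Equiv.symm_apply_eq, eq_comm]; rfl)
    _ = Nat.card {χ : Cfsg.IrrCharacter G // σ χ = χ} := h.symm
    _ = _ := Nat.card_congr (Equiv.subtypeEquivRight fun χ => Subtype.ext_iff)

end Cfsg.Agent.S0173
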