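import Cfsg.Statements.S0171
import Cfsg.Agent.Clifford.Correspondence
import Cfsg.Agent.S0173

set_option autoImplicit false
open Cfsg

namespace Cfsg.Agent.S0171

/-- Let G = K H with K normal, K ⊓ H trivial, and no non-identity element of H commuting with a non-identity element of K (a Frobenius group with kernel K and complement H). Then every non-principal irreducible character of K induces to an irreducible character of G. -/
theorem result {G : Type*} [Group G] [Fintype G] (K H : Subgroup G) [K.Normal] (hKH : K ⊓ H = ⊥) (hKH' : K ⊔ H = ⊤) (hfpf : ∀ h ∈ H, h ≠ 1 → ∀ k ∈ K, h * k = k * h → k = 1) (τ : K → ℂ) (hτ : Cfsg.IsIrrCharacter K τ) (hτ1 : τ ≠ fun _ => 1) : Cfsg.IsIrrCharacter G (Cfsg.indFun K τ) := by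
  classical
  letI := Fintype.ofFinite K
  have hτc := CfsgLib.CharBasics.isCharacter_of_irr hτ
  have hinert : K = CfsgLib.Clifford.inertia τ := by
    refine le_antisymm (CfsgLib.Clifford.le_inertia (CfsgLib.CharBasics.isClassFunction hτc)) fun g hg => ?_
    obtain ⟨k0, hk0, h, hh, rfl⟩ :=
      Subgroup.mem_sup_of_normal_left.mp (hKH' ▸ Subgroup.mem_top g : g ∈ K ⊔ H)
    by_cases hh1 : h = 1
    · rw [hh1, mul_one]; exact hk0
    exfalso
    apply hτ1
    have hhI : h ∈ CfsgLib.Clifford.inertia τ := by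
      have := (CfsgLib.Clifford.inertia τ).mul_mem ((CfsgLib.Clifford.inertia τ).inv_mem
        (CfsgLib.Clifford.le_inertia (CfsgLib.CharBasics.isClassFunction hτc) hk0)) hg
      rwa [inv_mul_cancel_left] at this
    -- the automorphism induced by `h` fixes one class only
    let α : K ≃* K := MulAut.conjNormal h
    have hperm := Cfsg.Agent.S0173.result (G := K) α
    have hclasses : Nat.card {C : ConjClasses K // ConjClasses.map α.toMonoidHom C = C} = 1 := by
      refine Nat.card_eq_one_iff_unique.mpr ⟨⟨fun C D => ?_⟩, ⟨⟨ConjClasses.mk 1, by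
        exact congrArg ConjClasses.mk (map_one α.toMonoidHom)⟩⟩⟩
      suffices hC : ∀ C : {C : ConjClasses K // ConjClasses.map α.toMonoidHom C = C}, C.1 = ConjClasses.mk 1 from
        Subtype.ext ((hC C).trans (hC D).symm)
      rintro ⟨C, hC⟩
      obtain ⟨k, rfl⟩ := ConjClasses.exists_rep C
      obtain ⟨a, ha⟩ := isConj_iff.mp (ConjClasses.mk_eq_mk_iff_isConj.mp hC)
      have ha' : (a : G) * (h * k * h⁻¹) * (a : G)⁻¹ = k := by
        have h1 := congrArg Subtype.val ha
        simpa [α] using h1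
      let f : K → K := fun b => ⟨(b : G) * (h * (b : G)⁻¹ * h⁻¹),
        K.mul_mem b.2 ((inferInstance : K.Normal).conj_mem _ (K.inv_mem b.2) h)⟩
      have hinj : Function.Injective f := by
        intro b c hbc
        have h1 : (b : G) * (h * (b : G)⁻¹ * h⁻¹) = c * (h * (c : G)⁻¹ * h⁻¹) := congrArg Subtype.val hbc
        have h2 : h * ((c : G)⁻¹ * b) = (c : G)⁻¹ * b * h := by
          have h4 : (c : G)⁻¹ * b * h = (c : G)⁻¹ * ((b : G) * (h * (b : G)⁻¹ * h⁻¹)) * h * b := by group
          rw [h4, h1]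
          group
        exact Subtype.ext (inv_mul_eq_one.mp (hfpf h hh hh1 _ (K.mul_mem (K.inv_mem c.2) b.2) h2)).symm
      obtain ⟨b, hb⟩ := (Finite.injective_iff_surjective.mp hinj) a
      have hb' : (a : G) * h = b * h * (b : G)⁻¹ := by
        rw [← hb]
        change (b : G) * (h * (b : G)⁻¹ * h⁻¹) * h = _
        group
      have hcm : (b : G)⁻¹ * k * b = 1 := by
        have hmem : (b : G)⁻¹ * k * b ∈ K := K.mul_mem (K.mul_mem (K.inv_mem b.2) k.2) b.2
        refine hfpf h hh hh1 _ hmem ?_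
        have h3 : (a : G) * h * k * ((a : G) * h)⁻¹ = k := by
          rw [mul_inv_rev]
          simpa only [mul_assoc] using ha'
        rw [hb'] at h3
        have h5 : h * ((b : G)⁻¹ * k * b) * h⁻¹ = (b : G)⁻¹ * k * b := by
          calc h * ((b : G)⁻¹ * k * b) * h⁻¹
              = (b : G)⁻¹ * ((b : G) * h * (b : G)⁻¹ * k * ((b : G) * h * (b : G)⁻¹)⁻¹) * b := by group
            _ = _ := by rw [h3]
        exact mul_inv_eq_iff_eq_mul.mp h5
      have hk1 : k = 1 := by
        refine Subtype.ext ?_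
        rw [show (k : G) = b * ((b : G)⁻¹ * k * b) * (b : G)⁻¹ by group, hcm]
        simp
      exact congrArg ConjClasses.mk hk1
    rw [hclasses] at hperm
    obtain ⟨hsub, -⟩ := Nat.card_eq_one_iff_unique.mp hperm.symm
    have h6 := @Subsingleton.elim _ hsub
      ⟨⟨τ, hτ⟩, (CfsgLib.Clifford.conjFun_eq_comp h τ).symm.trans (CfsgLib.Clifford.mem_inertia.mp hhI)⟩
      ⟨⟨fun _ => 1, CfsgLib.CharBasics.isIrrCharacter_one⟩, rfl⟩
    exact congrArg (fun x => x.1.1) h6
  refine (CfsgLib.Clifford.indFun_inertia_irr hτ K hinert le_rfl hτ ?_).1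
  rw [show (fun n : K => τ ⟨(n : G), n.2⟩) = τ from rfl, CfsgLib.CharBasics.classInner_self hτ]
  exact one_ne_zero

end Cfsg.Agent.S0171
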