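import Cfsg.Statements.S0172
import Mathlib


set_option autoImplicit false
open Cfsg

namespace Cfsg.Agent.S0172

/-- The sum of the centralizer orders. -/
theorem sum_card_commute (M : Type*) [Group M] [Fintype M] :
    ∑ x : M, Nat.card {y : M // Commute x y} = Nat.card (ConjClasses M) * Nat.card M := by
  rw [← card_comm_eq_card_conjClasses_mul_card M, ← Nat.card_sigma]
  exact Nat.card_congr (Equiv.subtypeProdEquivSigmaSubtype (fun x y : M => Commute x y)).symm

/-- Centralizer orders inside a subgroup containing the centralizer. -/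
theorem card_commute_subgroup {G : Type*} [Group G] (S : Subgroup G) (x : S)
    (hS : ∀ y : G, Commute (x : G) y → y ∈ S) :
    Nat.card {y : S // Commute x y} = Nat.card {y : G // Commute (x : G) y} := by
  refine Nat.card_congr
    { toFun := fun y => ⟨(y.1 : G), congrArg Subtype.val y.2.eq⟩
      invFun := fun y => ⟨⟨y.1, hS y.1 y.2⟩, Subtype.ext y.2.eq⟩
      left_inv := fun y => rfl
      right_inv := fun y => rfl }

/-- Class number of a Frobenius group: if G = K H with K normal, K ⊓ H trivial and no non-identity element of H commuting with a non-identity element of K, then |H| * k(G) + 1 = |H| * k(H) + k(K), where k denotes the number of conjugacy classes. -/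
theorem result {G : Type*} [Group G] [Finite G] (K H : Subgroup G) [K.Normal] (hKH : K ⊓ H = ⊥) (hKH' : K ⊔ H = ⊤) (hfpf : ∀ h ∈ H, h ≠ 1 → ∀ k ∈ K, h * k = k * h → k = 1) : Nat.card H * Nat.card (ConjClasses G) + 1 = Nat.card H * Nat.card (ConjClasses H) + Nat.card (ConjClasses K) := by
  classical
  haveI := Fintype.ofFinite G
  have hdec : ∀ g : G, ∃ k ∈ K, ∃ h ∈ H, k * h = g := fun g =>
    Subgroup.mem_sup_of_normal_left.mp (hKH'.symm ▸ Subgroup.mem_top g)
  have hbot : ∀ x, x ∈ K → x ∈ H → x = 1 := fun x hx hx' =>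
    Subgroup.mem_bot.mp (hKH ▸ (⟨hx, hx'⟩ : x ∈ K ⊓ H))
  -- centralizers in the complement
  have hCH : ∀ h ∈ H, h ≠ 1 → ∀ y : G, Commute h y → y ∈ H := by
    intro h hh h1 y hy
    obtain ⟨k, hk, h', hh', rfl⟩ := hdec y
    have e1 : k⁻¹ * (h * k * h⁻¹) = h' * h * h'⁻¹ * h⁻¹ := by
      have hy' : h * k * h' = k * h' * h := by rw [mul_assoc]; exact hy.eq
      calc k⁻¹ * (h * k * h⁻¹) = k⁻¹ * (h * k * h') * (h'⁻¹ * h⁻¹) := by group
        _ = k⁻¹ * (k * h' * h) * (h'⁻¹ * h⁻¹) := by rw [hy']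
        _ = _ := by group
    have e2 : k⁻¹ * (h * k * h⁻¹) = 1 := hbot _
      (K.mul_mem (K.inv_mem hk) ((inferInstance : K.Normal).conj_mem k hk h))
      (e1 ▸ H.mul_mem (H.mul_mem (H.mul_mem hh' hh) (H.inv_mem hh')) (H.inv_mem hh))
    have e3 : k = 1 := by
      refine hfpf h hh h1 k hk ?_
      rw [inv_mul_eq_one] at e2
      exact (mul_inv_eq_iff_eq_mul.mp e2.symm)
    rw [e3, one_mul]
    exact hh'
  -- the elements outside the kernel
  let φ : K × {h : H // h ≠ 1} → {x : G // x ∉ K} := fun a =>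
    ⟨(a.1 : G) * (a.2.1 : G) * (a.1 : G)⁻¹, fun hm => a.2.2 (Subtype.ext (hbot _ (by
      have := K.mul_mem (K.mul_mem (K.inv_mem a.1.2) hm) a.1.2
      simpa [mul_assoc] using this) a.2.1.2))⟩
  have hinj : Function.Injective φ := by
    rintro ⟨⟨k, hk⟩, ⟨⟨h, hh⟩, h1⟩⟩ ⟨⟨k', hk'⟩, ⟨⟨h', hh'⟩, h1'⟩⟩ e
    have e' : k * h * k⁻¹ = k' * h' * k'⁻¹ := congrArg Subtype.val e
    set m := k'⁻¹ * k with hm
    have e1 : m * h * m⁻¹ = h' := by
      calc m * h * m⁻¹ = k'⁻¹ * (k * h * k⁻¹) * k' := by rw [hm]; group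
        _ = k'⁻¹ * (k' * h' * k'⁻¹) * k' := by rw [e']
        _ = h' := by group
    have hmK : m ∈ K := K.mul_mem (K.inv_mem hk') hk
    have e2 : h' * h⁻¹ = 1 := hbot _ (by
      rw [← e1, mul_assoc m h m⁻¹, mul_assoc m, mul_assoc h]
      exact K.mul_mem hmK (by
        rw [← mul_assoc]
        exact (inferInstance : K.Normal).conj_mem _ (K.inv_mem hmK) h)) (H.mul_mem hh' (H.inv_mem hh))
    have e3 : h' = h := mul_inv_eq_one.mp e2
    have e4 : m = 1 := hfpf h hh (fun e => h1 (Subtype.ext e)) m hmK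
      (mul_inv_eq_iff_eq_mul.mp (e1.trans e3)).symm
    have e5 : k' = k := inv_mul_eq_one.mp e4
    subst e5 e3
    rfl
  have hKHcard : Nat.card K * Nat.card H = Nat.card G :=
    (Subgroup.isComplement'_of_disjoint_and_mul_eq_univ (disjoint_iff.mpr hKH) (by
      rw [← Subgroup.normal_mul, hKH', Subgroup.coe_top])).card_mul
  have hbij : Function.Bijective φ := by
    refine (Fintype.bijective_iff_injective_and_card φ).mpr ⟨hinj, ?_⟩
    rw [Fintype.card_prod, Fintype.card_subtype_compl, Fintype.card_subtype_compl,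
      Fintype.card_subtype_eq, ← Nat.card_eq_fintype_card, ← Nat.card_eq_fintype_card,
      ← Nat.card_eq_fintype_card, Nat.mul_sub, mul_one, hKHcard]
  -- centralizers in the kernel
  have hCK : ∀ k ∈ K, k ≠ 1 → ∀ y : G, Commute k y → y ∈ K := by
    intro k hk k1 y hy
    by_contra hyK
    obtain ⟨⟨⟨a, ha⟩, ⟨⟨h, hh⟩, h1⟩⟩, e⟩ := hbij.2 ⟨y, hyK⟩
    have e' : a * h * a⁻¹ = y := congrArg Subtype.val e
    apply k1
    have h2 : a⁻¹ * k * a = 1 := by
      refine hfpf h hh (fun e => h1 (Subtype.ext e)) _ ?_ ?_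
      · simpa using (inferInstance : K.Normal).conj_mem k hk a⁻¹
      · calc h * (a⁻¹ * k * a) = a⁻¹ * ((a * h * a⁻¹) * k) * a := by group
          _ = a⁻¹ * (k * (a * h * a⁻¹)) * a := by rw [e', hy.eq]
          _ = _ := by group
    calc k = a * (a⁻¹ * k * a) * a⁻¹ := by group
      _ = 1 := by rw [h2]; group
  set c : G → ℕ := fun x => Nat.card {y : G // Commute x y} with hc
  have hc1 : c 1 = Nat.card G :=
    Nat.card_congr (Equiv.subtypeUnivEquiv fun y => Commute.one_left y)
  have hsum := sum_card_commute G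
  rw [← Fintype.sum_subtype_add_sum_subtype (fun x => x ∈ K) c] at hsum
  -- the kernel part
  have hA : ∑ x : {x : G // x ∈ K}, c x + Nat.card K = Nat.card (ConjClasses K) * Nat.card K + Nat.card G := by
    rw [← sum_card_commute K, ← Finset.add_sum_erase _ _ (Finset.mem_univ (1 : K))]
    rw [← Finset.add_sum_erase _ (fun x : K => Nat.card {y : K // Commute x y}) (Finset.mem_univ (1 : K))]
    have h1 : Nat.card {y : K // Commute (1 : K) y} = Nat.card K :=
      Nat.card_congr (Equiv.subtypeUnivEquiv fun y => Commute.one_left y)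
    have h2 : ∀ x ∈ (Finset.univ : Finset K).erase 1, Nat.card {y : K // Commute x y} = c x := fun x hx =>
      card_commute_subgroup K x (hCK x x.2 (fun e => (Finset.mem_erase.mp hx).1 (Subtype.ext e)))
    rw [Finset.sum_congr rfl h2, h1]
    show c ((1 : K) : G) + _ + _ = _
    rw [Subgroup.coe_one, hc1]
    omega
  have hB : ∑ x : {x : G // ¬ x ∈ K}, c x + Nat.card K * Nat.card H =
      Nat.card K * (Nat.card (ConjClasses H) * Nat.card H) := by
    rw [← Fintype.sum_bijective φ hbij (fun a => c ((a.2.1 : H) : G)) _ (fun a => by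
      refine (Nat.card_congr (Equiv.subtypeEquiv (MulAut.conj (a.1 : G)).toEquiv fun y => ?_))
      exact ⟨fun hy => hy.map (MulAut.conj (a.1 : G)).toMonoidHom, fun hy => by
        simpa [φ, mul_assoc] using hy.map (MulAut.conj (a.1 : G)).symm.toMonoidHom⟩)]
    simp only [Fintype.sum_prod_type, Finset.sum_const, Finset.card_univ, smul_eq_mul]
    rw [← Nat.card_eq_fintype_card (α := K), ← mul_add, ← sum_card_commute H,
      ← Fintype.sum_subtype_add_sum_subtype (fun x : H => x ≠ 1) (fun x : H => Nat.card {y : H // Commute x y})]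
    congr 2
    · refine Finset.sum_congr rfl fun x _ => ?_
      exact (card_commute_subgroup H x.1 (hCH x.1 x.1.2 (fun e => x.2 (Subtype.ext e)))).symm
    · haveI : Subsingleton {x : H // ¬ x ≠ 1} :=
        ⟨fun x y => Subtype.ext ((not_not.mp x.2).trans (not_not.mp y.2).symm)⟩
      rw [Fintype.sum_subsingleton _ (⟨1, fun h => h rfl⟩ : {x : H // ¬ x ≠ 1})]
      exact (Nat.card_congr (Equiv.subtypeUnivEquiv fun y => Commute.one_left y)).symm
  rw [← hKHcard] at hsum hA
  refine Nat.eq_of_mul_eq_mul_left (Nat.card_pos (α := K)) ?_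
  linarith

end Cfsg.Agent.S0172
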