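import Cfsg.Statements.S0175
import Cfsg.Agent.CharBasics.Induced
import Cfsg.Agent.IndFun.Basic

set_option autoImplicit false
open Cfsg

namespace Cfsg.Agent.S0175

/-- Taketa's Theorem on M-groups: if every irreducible complex character of a finite group is induced from a linear character (a homomorphism to ℂˣ) of some subgroup, the group is solvable. -/
theorem result {G : Type*} [Group G] [Fintype G] (hM : ∀ χ : G → ℂ, Cfsg.IsIrrCharacter G χ → ∃ (H : Subgroup G) (lam : H →* ℂˣ), χ = Cfsg.indFun H (fun h => (lam h : ℂ))) : Group.IsSolvable G := by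
  classical
  open CfsgLib.CharBasics in
  have hker : ∀ (d : ℕ) (χ : G → ℂ), Cfsg.IsIrrCharacter G χ → Cfsg.charDegree χ ≤ d →
      ∀ g ∈ derivedSeries G d, χ g = χ 1 := by
    intro d
    induction d with
    | zero => intro χ hχ hle; exact absurd (charDegree_pos hχ) (by omega)
    | succ d ih =>
      intro χ hχ hle g hg
      obtain ⟨H, lam, hlam⟩ := hM χ hχ
      have hidx : H.index ≤ d + 1 := by
        have h1 : χ 1 = (H.index : ℂ) := by
          rw [hlam, indFun_apply_one]
          simp
        rw [apply_one (isCharacter_of_irr hχ), Nat.cast_inj] at h1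
        omega
      have hlin : ∀ a ∈ ⁅H, H⁆, ∃ ha : a ∈ H, lam ⟨a, ha⟩ = 1 := by
        intro a ha
        have hle' : ⁅H, H⁆ ≤ lam.ker.map H.subtype := by
          rw [Subgroup.commutator_le]
          intro a ha b hb
          refine ⟨(⟨a, ha⟩ : H) * ⟨b, hb⟩ * ⟨a, ha⟩⁻¹ * ⟨b, hb⟩⁻¹, ?_, by
            simp [commutatorElement_def]⟩
          rw [SetLike.mem_coe, MonoidHom.mem_ker, map_mul, map_mul, map_mul, map_inv, map_inv,
            mul_right_comm (lam ⟨a, ha⟩), mul_inv_cancel, one_mul, mul_inv_cancel]
        obtain ⟨⟨b, hb⟩, hbk, rfl⟩ := hle' ha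
        exact ⟨hb, hbk⟩
      have hconj : ∀ x : G, x⁻¹ * g * x ∈ ⁅H, H⁆ := by
        intro x
        have hgn : x⁻¹ * g * x ∈ derivedSeries G (d + 1) := by
          have := (derivedSeries_normal G (d + 1)).conj_mem g hg x⁻¹
          rwa [inv_inv] at this
        rcases Nat.lt_or_ge H.index 2 with hlt | hge
        · have hH : H = ⊤ := Subgroup.index_eq_one.mp
            (by have := Subgroup.index_ne_zero_of_finite (H := H); omega)
          refine Subgroup.commutator_mono ?_ ?_ hgn <;> exact hH ▸ le_top
        · have hPH : derivedSeries G d ≤ H := by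
            intro y hy
            obtain ⟨r, f, hf, hdec⟩ := exists_decomp (isCharacter_indFun H (θ := fun _ : H => (1 : ℂ))
              (isCharacter_of_irr isIrrCharacter_one))
            have hfin : Fintype H := Fintype.ofFinite H
            obtain ⟨i0, hi0⟩ : ∃ i, f i = fun _ => 1 := by
              by_contra hh
              push Not at hh
              have h1 := classInner_indFun H (fun _ : H => (1 : ℂ)) (f := fun _ : G => (1 : ℂ)) (fun _ _ => rfl)
              rw [classInner_self isIrrCharacter_one, hdec, classInner_sum_left] at h1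
              exact zero_ne_one ((Finset.sum_eq_zero fun i _ =>
                classInner_ne (hf i) isIrrCharacter_one (hh i)).symm.trans h1)
            have h1 := congrFun hdec 1
            rw [indFun_apply_one, mul_one, Finset.sum_apply,
              Finset.sum_congr rfl (fun i _ => apply_one (isCharacter_of_irr (hf i))), ← Nat.cast_sum,
              Nat.cast_inj] at h1
            have hi0d : Cfsg.charDegree (f i0) = 1 := by simp [Cfsg.charDegree, hi0]
            have hall : ∀ i, f i y = f i 1 := by
              intro i
              refine ih (f i) (hf i) ?_ y hy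
              by_cases hi : i = i0
              · subst hi; omega
              · have h2 := Finset.sum_le_sum_of_subset (f := fun i => Cfsg.charDegree (f i))
                  (Finset.subset_univ {i0, i})
                rw [Finset.sum_pair (Ne.symm hi), ← h1] at h2
                omega
            have h3 : Cfsg.indFun H (fun _ => (1 : ℂ)) y = (H.index : ℂ) := by
              have h5 := congrFun hdec 1
              rw [indFun_apply_one, mul_one, Finset.sum_apply] at h5
              rw [hdec, Finset.sum_apply, h5]
              exact Finset.sum_congr rfl fun i _ => hall i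
            rw [CfsgLib.IndFun.indFun_const_one_eq_card_fixedBy, Nat.cast_inj, Subgroup.index] at h3
            have h4 : MulAction.fixedBy (G ⧸ H) y = Set.univ :=
              Set.eq_of_subset_of_ncard_le (Set.subset_univ _)
                (by rw [Set.ncard_univ, ← Nat.card_coe_set_eq, h3])
            have := (CfsgLib.IndFun.mk_mem_fixedBy_iff H y 1).mp (h4 ▸ Set.mem_univ _)
            simpa using this
          rw [derivedSeries_succ] at hgn
          exact Subgroup.commutator_mono hPH hPH hgn
      rw [hlam, indFun_apply_one, Cfsg.indFun, Finset.sum_congr rfl (g := fun _ => (1 : ℂ)) fun x _ => ?_,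
        Finset.sum_const, Finset.card_univ, nsmul_one, map_one, Units.val_one, mul_one,
        ← Nat.card_eq_fintype_card, ← H.index_mul_card, Nat.cast_mul, mul_comm (H.index : ℂ),
        inv_mul_cancel_left₀ (Nat.cast_ne_zero.mpr Nat.card_pos.ne')]
      obtain ⟨hm, h1⟩ := hlin _ (hconj x)
      rw [CfsgLib.IndFun.extendByZero_mem _ hm, h1, Units.val_one]
  have := Fintype.ofFinite (Cfsg.IrrCharacter G)
  refine ⟨⟨Finset.univ.sup fun χ : Cfsg.IrrCharacter G => Cfsg.charDegree (χ : G → ℂ), ?_⟩⟩
  refine (Subgroup.eq_bot_iff_forall _).mpr fun g hg => ?_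
  by_contra hg1
  have h0 := CfsgLib.CharBasics.sum_mul_degree hg1
  have h2 : ((∑ χ : Cfsg.IrrCharacter G, Cfsg.charDegree (χ : G → ℂ) ^ 2 : ℕ) : ℂ) = 0 := by
    rw [← h0]
    push_cast
    refine Finset.sum_congr rfl fun χ _ => ?_
    rw [hker _ χ χ.2 (Finset.le_sup (f := fun χ : Cfsg.IrrCharacter G => Cfsg.charDegree (χ : G → ℂ))
      (Finset.mem_univ χ)) g hg, CfsgLib.CharBasics.apply_one (CfsgLib.CharBasics.isCharacter_of_irr χ.2), sq]
  rw [Nat.cast_eq_zero, Finset.sum_eq_zero_iff] at h2
  have h4 := h2 CfsgLib.CharBasics.oneChar (Finset.mem_univ _)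
  rw [pow_eq_zero_iff two_ne_zero] at h4
  exact (CfsgLib.CharBasics.charDegree_pos CfsgLib.CharBasics.oneChar.2).ne' h4

end Cfsg.Agent.S0175
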