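import Cfsg.Statements.S0177
import Cfsg.Agent.BrauerInd.IndAlgebra
import Cfsg.Agent.CharBasics.Basic

set_option autoImplicit false
open Cfsg

namespace Cfsg.Agent.S0177

/-- The Artin induction Theorem: for a character χ of a finite group, |G| • χ is a ℤ-linear combination of functions induced from homomorphisms of cyclic subgroups into ℂˣ. -/
theorem result {G : Type*} [Group G] [Fintype G] (χ : G → ℂ) (hχ : Cfsg.IsCharacter G χ) : ∃ l : List ((A : Subgroup G) × ((A →* ℂˣ) × ℤ)), (∀ t ∈ l, IsCyclic t.1) ∧ (Nat.card G : ℂ) • χ = (l.map fun t => (t.2.2 : ℂ) • Cfsg.indFun t.1 (fun a => (t.2.1 a : ℂ))).sum := by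
  classical
  have := Fintype.ofFinite (Subgroup G)
  let Sp : AddSubgroup (G → ℂ) := AddSubgroup.closure
    {f | ∃ (A : Subgroup G) (l : A →* ℂˣ), IsCyclic A ∧ f = Cfsg.indFun A (fun a => (l a : ℂ))}
  let Θ : Subgroup G → G → ℂ := fun A g => ∑ x : G, if Subgroup.zpowers (x⁻¹ * g * x) = A then 1 else 0
  have hcl := CfsgLib.CharBasics.isClassFunction hχ
  have hres : ∀ A : Subgroup G, IsCyclic A → χ * Cfsg.indFun A (fun _ => (1 : ℂ)) ∈ Sp := by
    intro A hA
    haveI : IsMulCommutative A := inferInstance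
    obtain ⟨r, f, hf, hdec⟩ :=
      CfsgLib.CharBasics.exists_decomp (CfsgLib.CharBasics.isCharacter_restrict hχ A)
    have h1 : (fun a : A => χ a * 1) = ∑ i, f i := by rw [← hdec]; simp
    rw [CfsgLib.BrauerInd.mul_indFun A χ hcl, h1, CfsgLib.BrauerInd.indFun_sum]
    refine AddSubgroup.sum_mem _ fun i _ => AddSubgroup.subset_closure ⟨A,
      CfsgLib.IndFun.linHom (CfsgLib.CharBasics.isCharacter_of_irr (hf i))
        (CfsgLib.CharBasics.irr_comm_hom (hf i)).1, hA, ?_⟩
    congr 1
  have hΘ : ∀ n : ℕ, ∀ A : Subgroup G, Nat.card A = n → χ * Θ A ∈ Sp := by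
    intro n
    induction n using Nat.strong_induction_on with
    | _ n ih =>
      intro A hn
      by_cases hA : IsCyclic A
      · have hsum : ∑ B ∈ Finset.univ.filter (· ≤ A), Θ B =
            (Nat.card A) • Cfsg.indFun A (fun _ => (1 : ℂ)) := by
          funext g
          rw [Finset.sum_apply, Pi.smul_apply, nsmul_eq_mul, Cfsg.indFun,
            mul_inv_cancel_left₀ (Nat.cast_ne_zero.mpr Nat.card_pos.ne')]
          simp only [Θ]
          rw [Finset.sum_comm]
          refine Finset.sum_congr rfl fun x _ => ?_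
          rw [Finset.sum_ite_eq]
          simp only [Finset.mem_filter, Finset.mem_univ, true_and, Subgroup.zpowers_le]
          by_cases hx : x⁻¹ * g * x ∈ A
          · rw [if_pos hx, CfsgLib.IndFun.extendByZero_mem _ hx]
          · rw [if_neg hx, CfsgLib.IndFun.extendByZero_not_mem _ hx]
        rw [← Finset.add_sum_erase _ _
          (Finset.mem_filter.mpr ⟨Finset.mem_univ A, le_rfl⟩ : A ∈ Finset.univ.filter (· ≤ A))] at hsum
        rw [eq_sub_of_add_eq hsum, mul_sub, mul_smul_comm, Finset.mul_sum]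
        refine Sp.sub_mem (Sp.nsmul_mem (hres A hA) _) (AddSubgroup.sum_mem _ fun B hB => ?_)
        obtain ⟨hBA, hB'⟩ := Finset.mem_erase.mp hB
        have hle := (Finset.mem_filter.mp hB').2
        refine ih _ ?_ B rfl
        rw [← hn]
        exact lt_of_le_of_ne (Nat.le_of_dvd Nat.card_pos (Subgroup.card_dvd_of_le hle)) fun h => hBA
          (Subgroup.eq_of_le_of_card_ge hle h.ge)
      · have h0 : Θ A = 0 := funext fun g => Finset.sum_eq_zero fun x _ =>
          if_neg fun h => hA (by subst h; infer_instance)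
        rw [h0, mul_zero]
        exact Sp.zero_mem
  have hall : (Nat.card G : ℂ) • χ ∈ Sp := by
    have : (Nat.card G : ℂ) • χ = ∑ A : Subgroup G, χ * Θ A := by
      funext g
      rw [Finset.sum_apply]
      simp only [Pi.mul_apply, Pi.smul_apply, smul_eq_mul, Θ, ← Finset.mul_sum]
      rw [Finset.sum_comm]
      simp [Finset.sum_ite_eq, mul_comm]
    rw [this]
    exact AddSubgroup.sum_mem _ fun A _ => hΘ _ A rfl
  suffices h : ∀ f ∈ Sp, ∃ l : List ((A : Subgroup G) × ((A →* ℂˣ) × ℤ)), (∀ t ∈ l, IsCyclic t.1) ∧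
      f = (l.map fun t => (t.2.2 : ℂ) • Cfsg.indFun t.1 (fun a => (t.2.1 a : ℂ))).sum from h _ hall
  intro f hf
  induction hf using AddSubgroup.closure_induction with
  | mem f hf =>
    obtain ⟨A, l, hA, rfl⟩ := hf
    exact ⟨[⟨A, l, 1⟩], by simpa using hA, by simp⟩
  | zero => exact ⟨[], by simp, by simp⟩
  | add a b _ _ ha hb =>
    obtain ⟨la, hla, rfl⟩ := ha
    obtain ⟨lb, hlb, rfl⟩ := hb
    exact ⟨la ++ lb, fun t ht => (List.mem_append.mp ht).elim (hla t) (hlb t),
      by rw [List.map_append, List.sum_append]⟩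
  | neg a _ ha =>
    obtain ⟨la, hla, rfl⟩ := ha
    refine ⟨la.map fun t => ⟨t.1, t.2.1, -t.2.2⟩, ?_, ?_⟩
    · intro t ht
      obtain ⟨u, hu, rfl⟩ := List.mem_map.mp ht
      exact hla u hu
    · rename_i hh
      clear hla hh
      induction la with
      | nil => simp
      | cons t la ih =>
        simp only [List.map_cons, List.sum_cons, neg_add, Int.cast_neg, neg_smul]
        congr 1
        

end Cfsg.Agent.S0177
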