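import Cfsg.Statements.S0179
import Cfsg.Agent.CharBasics.Abstract
import Cfsg.Agent.CharBasics.Extra
import Cfsg.Agent.S0887

set_option autoImplicit false
open Cfsg CfsgLib.CharBasics

namespace Cfsg.Agent.S0179

/-- The degree of an irreducible complex representation of a finite group divides the index of the centre. -/
theorem result {G : Type*} [Group G] [Finite G] {V : Type*} [AddCommGroup V] [Module ℂ V] [FiniteDimensional ℂ V] (ρ : Representation ℂ G V) [ρ.IsIrreducible] : Module.finrank ℂ V ∣ (Subgroup.center G).index := by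
  haveI : Fintype G := Fintype.ofFinite G
  haveI : Fintype (Subgroup.center G) := Fintype.ofFinite _
  obtain ⟨χ, hχ⟩ := exists_irr ρ
  obtain ⟨θ, hθ⟩ := exists_restrict_constituent (Subgroup.center G) χ
  have hθ' : classInner (fun n : Subgroup.center G => (χ : G → ℂ) n) (θ : Subgroup.center G → ℂ) ≠ 0 := by
    rw [classInner_comm]; simpa using hθ
  have h := (Cfsg.Agent.S0887.result (Subgroup.center G) _ χ.2 _ θ.2 hθ' (charDegree (χ : G → ℂ))
    (charDegree (θ : Subgroup.center G → ℂ)) (apply_one (isCharacter_of_irr χ.2)) (apply_one (isCharacter_of_irr θ.2))).2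
  rw [charDegree_comm θ.2, Nat.div_one, hχ, charDegree_rep] at h
  exact h

end Cfsg.Agent.S0179
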