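import Cfsg.Statements.S0180
import Cfsg.Agent.BrauerInd.Galois

set_option autoImplicit false
open Cfsg

namespace Cfsg.Agent.S0180

/-- Every irreducible complex character of a finite group takes only rational values if and only if g is conjugate to g ^ m for every element g and every m coprime to the group order. -/
theorem result {G : Type*} [Group G] [Finite G] : (∀ χ : Cfsg.IrrCharacter G, ∀ g : G, ∃ q : ℚ, (χ : G → ℂ) g = (q : ℂ)) ↔ ∀ m : ℕ, m.Coprime (Nat.card G) → ∀ g : G, IsConj g (g ^ m) := by
  classical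
  haveI := Fintype.ofFinite G
  haveI := Fintype.ofFinite (Cfsg.IrrCharacter G)
  constructor
  · intro h m hm g
    by_contra hne
    have key : ∀ χ : Cfsg.IrrCharacter G, χ.1 (g ^ m) = χ.1 g := by
      intro χ
      obtain ⟨p, hp⟩ := CfsgLib.CharBasics.cycPoly_character (CfsgLib.CharBasics.isCharacter_of_irr χ.2) g
      obtain ⟨q, hq⟩ := h χ g
      have hint : IsIntegral ℤ (algebraMap ℚ ℂ q) := by
        show IsIntegral ℤ ((q : ℂ))
        rw [← hq]; exact CfsgLib.CharBasics.isIntegral_apply (CfsgLib.CharBasics.isCharacter_of_irr χ.2) g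
      rw [isIntegral_algebraMap_iff (algebraMap ℚ ℂ).injective] at hint
      obtain ⟨z, hz⟩ := IsIntegrallyClosed.algebraMap_eq_of_integral hint
      rw [hp m]
      by_contra hne'
      have h1 := hp 1
      rw [pow_one, pow_one] at h1
      have hqz : χ.1 g = (z : ℂ) := by rw [hq, ← hz]; simp
      have h0 : Polynomial.aeval (CfsgLib.CharBasics.zetaRoot (Nat.card G) ^ m)
          (p - Polynomial.C z) ≠ 0 := by
        rw [map_sub, Polynomial.aeval_C, sub_ne_zero]
        intro he; apply hne'; rw [he, hqz]; simp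
      refine h0 ?_
      have : Polynomial.aeval (CfsgLib.CharBasics.zetaRoot (Nat.card G)) (p - Polynomial.C z) = 0 := by
        rw [map_sub, Polynomial.aeval_C, ← h1, hqz]; simp
      have hz' := CfsgLib.CharBasics.zetaRoot_prim (N := Nat.card G) Nat.card_pos.ne'
      have hdvd : Polynomial.cyclotomic (Nat.card G) ℤ ∣ p - Polynomial.C z := by
        rw [Polynomial.cyclotomic_eq_minpoly hz' Nat.card_pos]
        exact minpoly.isIntegrallyClosed_dvd (hz'.isIntegral Nat.card_pos) this
      obtain ⟨r, hr⟩ := hdvd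
      rw [hr, map_mul, Polynomial.cyclotomic_eq_minpoly (hz'.pow_of_coprime m hm) Nat.card_pos,
        minpoly.aeval, zero_mul]
    have hcol := CfsgLib.CharBasics.sum_col g (g ^ m)
    simp only [key, if_neg hne, Complex.mul_conj'] at hcol
    have hcol' := CfsgLib.CharBasics.sum_normSq_col g
    have h0 : ((∑ χ : Cfsg.IrrCharacter G, ‖χ.1 g‖ ^ 2 : ℝ) : ℂ) = 0 := by
      rw [← hcol]; push_cast; rfl
    rw [hcol'] at h0
    have hpos : 0 < Nat.card (Subgroup.centralizer ({g} : Set G)) := Nat.card_pos
    norm_cast at h0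
    omega
  · intro h χ g
    have hc := CfsgLib.CharBasics.isCharacter_of_irr χ.2
    obtain ⟨p, hp⟩ := CfsgLib.CharBasics.cycPoly_character hc g
    obtain ⟨z, hz⟩ := CfsgLib.BrauerInd.int_of_conjugates_eq Nat.card_pos.ne' p (χ.1 g) (fun j hj => by
      rw [← hp j]; exact (CfsgLib.CharBasics.apply_isConj hc (h j hj g)).symm)
    exact ⟨z, by rw [hz]; simp⟩

end Cfsg.Agent.S0180
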