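import Cfsg.Statements.S0181
import Cfsg.Agent.Clifford.CosetAvg
import Cfsg.Agent.Clifford.LinChar

set_option autoImplicit false
open Cfsg

namespace Cfsg.Agent.S0181

/-- Let H be a normal subgroup of a finite group G and ρ an irreducible complex representation whose kernel does not contain H. If g commutes with no non-identity element of H, then the character of ρ vanishes at g. -/
theorem result {G : Type*} [Group G] [Finite G] {V : Type*} [AddCommGroup V] [Module ℂ V] [FiniteDimensional ℂ V] (ρ : Representation ℂ G V) [ρ.IsIrreducible] (H : Subgroup G) [H.Normal] (hker : ∃ h ∈ H, ρ h ≠ LinearMap.id) (g : G) (hg : ∀ h ∈ H, h * g = g * h → h = 1) : ρ.character g = 0 := by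
  classical
  have := Fintype.ofFinite G
  have := Fintype.ofFinite H
  have : Invertible (Nat.card G : ℂ) := invertibleOfNonzero (Nat.cast_ne_zero.mpr Nat.card_pos.ne')
  have hχ : Cfsg.IsIrrCharacter G ρ.character := by
    refine CfsgLib.CharBasics.isIrr_of_norm_one (CfsgLib.CharBasics.isCharacter_rep ρ) ?_
    have h := Representation.char_orthonormal ρ ρ
    rw [if_pos ⟨Representation.Equiv.refl ρ⟩] at h
    rw [CfsgLib.CharBasics.classInner_eq]
    refine Eq.trans (congrArg _ (Finset.sum_congr rfl fun g _ => ?_)) h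
    rw [← CfsgLib.CharBasics.apply_inv (CfsgLib.CharBasics.isCharacter_rep ρ)]
  have hnot : ¬ ∀ n ∈ H, ρ.character n = ρ.character 1 := by
    intro hall
    obtain ⟨h, hh, hne⟩ := hker
    obtain ⟨m, σ, -, hσ⟩ := hχ
    obtain ⟨φ⟩ := CfsgLib.Clifford.nonempty_equiv_of_irreducible_of_character_eq ‹ρ.IsIrreducible› hσ
    apply hne
    have h2 : σ h = LinearMap.id := CfsgLib.CharBasics.eq_id_of_character_eq σ h (by rw [hσ]; exact hall h hh)
    refine LinearMap.ext fun v => φ.toLinearEquiv.injective ?_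
    have h3 := Representation.IntertwiningMap.isIntertwining _ _ φ.toIntertwiningMap h v
    change φ.toLinearEquiv (ρ h v) = φ.toLinearEquiv v
    rw [show φ.toLinearEquiv (ρ h v) = σ h (φ.toLinearEquiv v) from h3, h2]
    rfl
  have h0 := CfsgLib.Clifford.coset_sum_eq_zero hχ hnot g
  let f : H → H := fun a => ⟨a * (g * (a : G)⁻¹ * g⁻¹),
    H.mul_mem a.2 ((inferInstance : H.Normal).conj_mem _ (H.inv_mem a.2) g)⟩
  have hinj : Function.Injective f := by
    intro a b hab
    have h1 : (a : G) * (g * (a : G)⁻¹ * g⁻¹) = b * (g * (b : G)⁻¹ * g⁻¹) := congrArg Subtype.val hab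
    have h2 : (b : G)⁻¹ * a * g = g * ((b : G)⁻¹ * a) := by
      have h4 : (b : G)⁻¹ * a * g = (b : G)⁻¹ * ((a : G) * (g * (a : G)⁻¹ * g⁻¹)) * g * a := by group
      rw [h4, h1]
      group
    exact Subtype.ext (inv_mul_eq_one.mp (hg _ (H.mul_mem (H.inv_mem b.2) a.2) h2)).symm
  rw [← (Finite.injective_iff_bijective.mp hinj).sum_comp (fun n : H => ρ.character ((n : G) * g))] at h0
  rw [Finset.sum_congr rfl (g := fun _ => ρ.character g) fun a _ => ?_, Finset.sum_const, nsmul_eq_mul] at h0
  · exact (mul_eq_zero.mp h0).resolve_left (Nat.cast_ne_zero.mpr Fintype.card_ne_zero)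
  · change ρ.character ((a : G) * (g * (a : G)⁻¹ * g⁻¹) * g) = _
    rw [show (a : G) * (g * (a : G)⁻¹ * g⁻¹) * g = a * g * (a : G)⁻¹ by group, Representation.char_conj]

end Cfsg.Agent.S0181
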