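import Cfsg.Statements.S0184
import Cfsg.Agent.CharBasics.Central
import Cfsg.Agent.Clifford.ScalarIndex
import Cfsg.Agent.PReduced.Hom

set_option autoImplicit false
open Cfsg

namespace Cfsg.Agent.S0184

/-- A finite p-group admits a faithful irreducible complex representation if and only if its centre is cyclic. -/
theorem result {G : Type*} [Group G] [Finite G] (p : ℕ) [Fact p.Prime] (hG : IsPGroup p G) : (∃ (n : ℕ) (ρ : Representation ℂ G (Fin n → ℂ)), ρ.IsIrreducible ∧ Function.Injective ρ) ↔ IsCyclic (Subgroup.center G) := by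
  classical
  have := Fintype.ofFinite G
  constructor
  · rintro ⟨n, ρ, hρ, hinj⟩
    have hn : Nontrivial (Fin n → ℂ) :=
      Module.finrank_pos_iff.mp (CfsgLib.Clifford.finrank_pos_of_irreducible hρ)
    have hsc : ∀ z : Subgroup.center G, ∃ c : ℂ, ρ z = c • 1 := fun z =>
      CfsgLib.Clifford.schur_scalar hρ (ρ z) fun g => by
        rw [← map_mul, ← map_mul, ← Subgroup.mem_center_iff.mp z.2 g]
    choose c hc using hsc
    have huniq : ∀ a b : ℂ, a • (1 : Module.End ℂ (Fin n → ℂ)) = b • 1 → a = b :=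
      fun a b h => smul_left_injective ℂ (one_ne_zero (α := Module.End ℂ (Fin n → ℂ))) h
    let f : Subgroup.center G →* ℂ :=
      { toFun := c
        map_one' := huniq _ _ (by rw [← hc, Subgroup.coe_one, map_one, one_smul])
        map_mul' := fun a b => huniq _ _ (by rw [← hc, Subgroup.coe_mul, map_mul, hc, hc, smul_mul_smul_comm, one_mul]) }
    exact isCyclic_of_subgroup_isDomain f fun a b h => Subtype.ext (hinj (by rw [hc, hc]; exact congrArg (· • _) h))
  · intro hcyc
    rcases subsingleton_or_nontrivial G with hs | hnt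
    · obtain ⟨n, ρ, hρ, -⟩ := CfsgLib.CharBasics.isIrrCharacter_one (G := G)
      exact ⟨n, ρ, hρ, fun a b _ => Subsingleton.elim a b⟩
    haveI := hG.center_nontrivial
    obtain ⟨k, hk, hcard⟩ := (hG.to_subgroup (Subgroup.center G)).nontrivial_iff_card.mp inferInstance
    obtain ⟨z, hz⟩ := exists_prime_orderOf_dvd_card' (G := Subgroup.center G) p (hcard ▸ dvd_pow_self p hk.ne')
    have hz1 : (z : G) ≠ 1 := fun h => by
      have h' : z = 1 := Subtype.ext h
      rw [h', orderOf_one] at hz
      exact (Fact.out : p.Prime).ne_one hz.symm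
    have := Fintype.ofFinite (Cfsg.IrrCharacter G)
    obtain ⟨χ, hχ⟩ : ∃ χ : Cfsg.IrrCharacter G, (χ : G → ℂ) z ≠ (χ : G → ℂ) 1 := by
      by_contra hh
      push Not at hh
      have h0 := CfsgLib.CharBasics.sum_mul_degree hz1
      have h2 : ((∑ χ : Cfsg.IrrCharacter G, Cfsg.charDegree (χ : G → ℂ) ^ 2 : ℕ) : ℂ) = 0 := by
        rw [← h0]
        push_cast
        refine Finset.sum_congr rfl fun χ _ => ?_
        rw [hh χ, CfsgLib.CharBasics.apply_one (CfsgLib.CharBasics.isCharacter_of_irr χ.2), sq]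
      rw [Nat.cast_eq_zero, Finset.sum_eq_zero_iff] at h2
      obtain ⟨χ0⟩ : Nonempty (Cfsg.IrrCharacter G) := ⟨CfsgLib.CharBasics.oneChar⟩
      have h3 := CfsgLib.CharBasics.charDegree_pos χ0.2
      have h4 := h2 χ0 (Finset.mem_univ _)
      rw [pow_eq_zero_iff two_ne_zero] at h4
      omega
    obtain ⟨n, ρ, hρ, hρχ⟩ := χ.2
    refine ⟨n, ρ, hρ, ?_⟩
    by_contra hni
    obtain ⟨g, hg, hg1⟩ : ∃ g : G, ρ g = 1 ∧ g ≠ 1 := by
      simp only [Function.Injective, not_forall] at hni
      obtain ⟨a, b, hab, hne⟩ := hni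
      exact ⟨a * b⁻¹, by rw [map_mul, hab, ← map_mul, mul_inv_cancel, map_one],
        fun h => hne (mul_inv_eq_one.mp h)⟩
    let K : Subgroup G :=
      { carrier := {x | ρ x = 1}
        mul_mem' := fun {a b} (ha : ρ a = 1) (hb : ρ b = 1) => by change ρ (a * b) = 1; rw [map_mul, ha, hb, one_mul]
        one_mem' := map_one ρ
        inv_mem' := fun {a} (ha : ρ a = 1) => by
          change ρ a⁻¹ = 1
          have h := map_mul ρ a⁻¹ a
          rw [inv_mul_cancel, map_one, ha, mul_one] at h
          exact h.symm }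
    haveI hKn : K.Normal := ⟨fun x (hx : ρ x = 1) y => by
      change ρ (y * x * y⁻¹) = 1
      rw [map_mul, map_mul, hx, mul_one, ← map_mul, mul_inv_cancel, map_one]⟩
    haveI : Group.IsNilpotent G := hG.isNilpotent
    have hKne : K ≠ ⊥ := fun h => hg1 (Subgroup.mem_bot.mp (h ▸ hg))
    obtain ⟨w, hwK, hwne⟩ : ∃ w ∈ K ⊓ Subgroup.center G, w ≠ 1 := by
      have hne := CfsgLib.PReduced.inf_center_ne_bot hG hKne
      exact (Subgroup.ne_bot_iff_exists_ne_one.mp hne).elim fun w hw =>
        ⟨w, w.2, fun h => hw (Subtype.ext h)⟩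
    -- every nontrivial subgroup of the cyclic centre contains the element of prime order
    obtain ⟨v, hv⟩ := exists_prime_orderOf_dvd_card' (G := (K ⊓ Subgroup.center G : Subgroup G)) p (by
      haveI : Nontrivial (K ⊓ Subgroup.center G : Subgroup G) :=
        ⟨⟨w, hwK⟩, 1, fun h => hwne (congrArg Subtype.val h)⟩
      obtain ⟨j, hj, hjc⟩ := (hG.to_subgroup (K ⊓ Subgroup.center G)).nontrivial_iff_card.mp inferInstance
      exact hjc ▸ dvd_pow_self p hj.ne')
    obtain ⟨u, hu, huo⟩ : ∃ u : Subgroup.center G, (u : G) ∈ K ∧ orderOf u = p :=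
      ⟨⟨(v : G), v.2.2⟩, v.2.1, by
        rw [← Subgroup.orderOf_coe]
        rw [← Subgroup.orderOf_coe] at hv
        exact hv⟩
    have hzmem : z ∈ Subgroup.zpowers u := by
      have hzp : z ^ p = 1 := hz ▸ pow_orderOf_eq_one z
      have hup : u ^ p = 1 := huo ▸ pow_orderOf_eq_one u
      have := Fintype.ofFinite (Subgroup.center G)
      let A : Finset (Subgroup.center G) := Finset.univ.filter fun b => b ^ p = 1
      let B : Finset (Subgroup.center G) := Finset.univ.filter fun b => b ∈ Subgroup.zpowers u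
      have hBA : B ⊆ A := fun b hb => by
        obtain ⟨j, rfl⟩ := Subgroup.mem_zpowers_iff.mp (Finset.mem_filter.mp hb).2
        refine Finset.mem_filter.mpr ⟨Finset.mem_univ _, ?_⟩
        rw [← zpow_natCast, ← zpow_mul, mul_comm, zpow_mul, zpow_natCast, hup, one_zpow]
      have hBcard : B.card = p := by
        rw [← huo, ← Nat.card_zpowers, Nat.card_eq_fintype_card, Fintype.card_subtype]
      have hA : A.card ≤ B.card := by
        rw [hBcard]
        exact IsCyclic.card_pow_eq_one_le (Fact.out : p.Prime).pos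
      have hzA : z ∈ A := Finset.mem_filter.mpr ⟨Finset.mem_univ _, hzp⟩
      rw [← Finset.eq_of_subset_of_card_le hBA hA] at hzA
      exact (Finset.mem_filter.mp hzA).2
    obtain ⟨i, rfl⟩ := Subgroup.mem_zpowers_iff.mp hzmem
    apply hχ
    have hzK : ρ ((u ^ i : Subgroup.center G) : G) = 1 := by
      rw [Subgroup.coe_zpow]
      exact K.zpow_mem hu i
    rw [← hρχ, Representation.character, Representation.character, hzK, map_one ρ]

end Cfsg.Agent.S0184
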