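import Cfsg.Statements.S0185
import Cfsg.Agent.CharBasics.Central
import Cfsg.Agent.CharBasics.Burnside

set_option autoImplicit false
open Cfsg

namespace Cfsg.Agent.S0185

/-- If a finite group has a faithful complex representation of degree less than the smallest prime dividing its order, the group is abelian. -/
theorem result {G : Type*} [Group G] [Finite G] {V : Type*} [AddCommGroup V] [Module ℂ V] [FiniteDimensional ℂ V] (ρ : Representation ℂ G V) (hfaithful : Function.Injective ρ) (hdeg : ∀ p : ℕ, p.Prime → p ∣ Nat.card G → Module.finrank ℂ V < p) (a b : G) : a * b = b * a := by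
  classical
  obtain ⟨e⟩ : Nonempty (V ≃ₗ[ℂ] (Fin (Module.finrank ℂ V) → ℂ)) := ⟨(Module.finBasis ℂ V).equivFun⟩
  set σ := CfsgLib.CharBasics.repConj e ρ with hσ
  have hch : Cfsg.IsCharacter G σ.character := ⟨_, σ, rfl⟩
  obtain ⟨r, ψ, hψ, hsum⟩ := CfsgLib.CharBasics.exists_decomp hch
  have hone : ∀ i, Cfsg.charDegree (ψ i) = 1 := by
    intro i
    by_contra hne
    obtain ⟨p, hp, hpd⟩ := Nat.exists_prime_and_dvd hne
    have h1 := (Nat.le_of_dvd (CfsgLib.CharBasics.charDegree_pos (hψ i)) hpd)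
    have h2 := hdeg p hp (hpd.trans (CfsgLib.CharBasics.degree_dvd ⟨ψ i, hψ i⟩))
    have h3 : ∑ j, Cfsg.charDegree (ψ j) = Module.finrank ℂ V := by
      have h4 := congrFun hsum 1
      rw [Representation.char_one, Module.finrank_fin_fun, Finset.sum_apply,
        Finset.sum_congr rfl (fun j _ => CfsgLib.CharBasics.apply_one (CfsgLib.CharBasics.isCharacter_of_irr (hψ j)))] at h4
      exact_mod_cast h4.symm
    have h4 : Cfsg.charDegree (ψ i) ≤ ∑ j, Cfsg.charDegree (ψ j) :=
      Finset.single_le_sum (f := fun j => Cfsg.charDegree (ψ j)) (fun _ _ => Nat.zero_le _) (Finset.mem_univ i)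
    omega
  have hker : ∀ i, ψ i (a * b * a⁻¹ * b⁻¹) = ψ i 1 := by
    intro i
    refine CfsgLib.CharBasics.commutator_mem_charKer (hψ i) ?_ a
    obtain ⟨lam, hl, hv⟩ := CfsgLib.CharBasics.exists_eigen (CfsgLib.CharBasics.isCharacter_of_irr (hψ i)) b
    have h1 := hv 1
    simp only [pow_one] at h1
    haveI : Unique (Fin (Cfsg.charDegree (ψ i))) := (Fin.castOrderIso (hone i)).toEquiv.unique
    rw [h1, Fintype.sum_unique, show (Cfsg.charDegree (ψ i) : ℝ) = 1 by exact_mod_cast hone i]
    exact Complex.norm_eq_one_of_pow_eq_one (hl default) (orderOf_pos b).ne'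
  have hid : σ (a * b * a⁻¹ * b⁻¹) = LinearMap.id := by
    refine CfsgLib.CharBasics.eq_id_of_character_eq σ _ ?_
    rw [congrFun hsum, congrFun hsum, Finset.sum_apply, Finset.sum_apply]
    exact Finset.sum_congr rfl fun i _ => hker i
  have hρ : ρ (a * b * a⁻¹ * b⁻¹) = LinearMap.id := by
    apply e.conj.injective
    rw [← CfsgLib.CharBasics.repConj_apply, ← hσ, hid, LinearEquiv.conj_id]
  have hc : a * b * a⁻¹ * b⁻¹ = 1 := hfaithful (hρ.trans (map_one ρ).symm)
  calc a * b = a * b * a⁻¹ * b⁻¹ * b * a := by group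
    _ = b * a := by rw [hc, one_mul]

end Cfsg.Agent.S0185
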