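import Cfsg.Statements.S0187
import Cfsg.Agent.CharBasics.Ortho
import Cfsg.Agent.CharBasics.Extra

set_option autoImplicit false
open Cfsg

namespace Cfsg.Agent.S0187

/-- A finite group is commutative if and only if every irreducible complex character has degree 1. -/
theorem result {G : Type*} [Group G] [Finite G] : (∀ a b : G, a * b = b * a) ↔ ∀ χ : Cfsg.IrrCharacter G, (χ : G → ℂ) 1 = 1 := by
  classical
  haveI := Fintype.ofFinite G
  haveI := Fintype.ofFinite (Cfsg.IrrCharacter G)
  constructor
  · intro hc χ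
    haveI : IsMulCommutative G := ⟨⟨hc⟩⟩
    rw [CfsgLib.CharBasics.apply_one (CfsgLib.CharBasics.isCharacter_of_irr χ.2),
      CfsgLib.CharBasics.charDegree_comm χ.2, Nat.cast_one]
  · intro h
    have hd : ∀ χ : Cfsg.IrrCharacter G, Cfsg.charDegree (χ : G → ℂ) = 1 := fun χ => by
      exact_mod_cast (CfsgLib.CharBasics.apply_one (CfsgLib.CharBasics.isCharacter_of_irr χ.2)).symm.trans (h χ)
    have h1 := CfsgLib.CharBasics.sum_sq_degree (G := G)
    simp only [hd, one_pow, Finset.sum_const, Finset.card_univ, smul_eq_mul, mul_one] at h1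
    have h2 := CfsgLib.CharBasics.card_irr (G := G)
    rw [Nat.card_eq_fintype_card, h1] at h2
    have hb := (Nat.bijective_iff_surjective_and_card (ConjClasses.mk (α := G))).2
      ⟨ConjClasses.mk_surjective, h2⟩
    intro a b
    have h3 : a * b * a⁻¹ = b := hb.1 (ConjClasses.mk_eq_mk_iff_isConj.2 (isConj_iff.2 ⟨a, rfl⟩).symm)
    calc a * b = a * b * a⁻¹ * a := by group
      _ = b * a := by rw [h3]

end Cfsg.Agent.S0187
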