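import Cfsg.Statements.S0189
import Cfsg.Agent.CharBasics.Ortho

set_option autoImplicit false
open Cfsg CfsgLib.CharBasics

namespace Cfsg.Agent.S0189

/-- If a complex character of a finite group vanishes at every non-identity element of a Sylow p-subgroup P, then |P| divides its degree. -/
theorem result {G : Type*} [Group G] [Finite G] (p : ℕ) [Fact p.Prime] (P : Sylow p G) (χ : G → ℂ) (hχ : Cfsg.IsCharacter G χ) (hvan : ∀ g : G, g ∈ P → g ≠ 1 → χ g = 0) : ∃ k : ℕ, χ 1 = (Nat.card P : ℂ) * k := by
  classical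
  haveI : Fintype (P : Subgroup G) := Fintype.ofFinite _
  obtain ⟨k, hk⟩ := classInner_character_nat (isCharacter_restrict hχ (P : Subgroup G)) oneChar
  refine ⟨k, ?_⟩
  rw [← hk, show ((oneChar : IrrCharacter ↥(P : Subgroup G)) : ↥(P : Subgroup G) → ℂ) = fun _ => 1 from rfl, classInner_one,
    Finset.sum_eq_single (1 : (P : Subgroup G)) (fun x _ hx => hvan x x.2 fun h => hx (Subtype.ext h))
      (fun h => absurd (Finset.mem_univ _) h)]
  rw [← mul_assoc, mul_inv_cancel₀ (Nat.cast_ne_zero.2 Nat.card_pos.ne'), one_mul, Subgroup.coe_one]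

end Cfsg.Agent.S0189
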