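import Cfsg.Statements.S0193
import Cfsg.Agent.Clifford.Basic

set_option autoImplicit false
open Cfsg CfsgLib.CharBasics
open scoped ComplexConjugate

namespace Cfsg.Agent.S0193

/-- Let H be a normal subgroup of a finite group G and θ an irreducible character of H. Then |H| times the inner product of the induced function of θ with itself equals the number of g in G with θ(g h g⁻¹) = θ(h) for all h in H; in particular the induced character is irreducible when only elements of H stabilise θ. -/
theorem result {G : Type*} [Group G] [Fintype G] (H : Subgroup G) [hN : H.Normal] (θ : H → ℂ) (hθ : Cfsg.IsIrrCharacter H θ) : (Nat.card H : ℂ) * Cfsg.classInner (Cfsg.indFun H θ) (Cfsg.indFun H θ) = (Nat.card {g : G // ∀ h : H, θ ⟨g * h * g⁻¹, hN.conj_mem h h.2 g⟩ = θ h} : ℂ) := by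
  classical
  haveI := Fintype.ofFinite H
  open CfsgLib.Clifford in
  have key : ∀ x : G, classInner (conjFun x θ) θ = if conjFun x θ = θ then 1 else 0 := by
    intro x
    split_ifs with e
    · rw [e, classInner_self hθ]
    · exact classInner_ne (CfsgLib.Clifford.isIrrCharacter_conjFun x hθ) hθ e
  rw [classInner_indFun' H θ (isClassFunction_indFun H θ), CfsgLib.Clifford.indFun_restrict_normal,
    classInner_smul_left, classInner_sum_left,
    mul_inv_cancel_left₀ (Nat.cast_ne_zero.mpr Nat.card_pos.ne'),
    Fintype.sum_equiv (Equiv.inv G) (fun x => classInner (CfsgLib.Clifford.conjFun x⁻¹ θ) θ)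
      (fun x => classInner (CfsgLib.Clifford.conjFun x θ) θ) (fun x => rfl),
    Finset.sum_congr rfl (fun x _ => key x), Finset.sum_boole, ← Fintype.card_subtype,
    ← Nat.card_eq_fintype_card]
  exact congrArg Nat.cast (Nat.card_congr (Equiv.subtypeEquivRight fun x => funext_iff))

end Cfsg.Agent.S0193
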