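import Cfsg.Statements.S0194
import Cfsg.Agent.Clifford.Basic
import Cfsg.Agent.CharBasics.OddReal

set_option autoImplicit false
open scoped ComplexConjugate
open Cfsg CfsgLib.CharBasics
open scoped ComplexConjugate

namespace Cfsg.Agent.S0194

/-- Let G have odd order, H be a normal subgroup and θ a non-principal irreducible character of H. Then the function induced from θ is orthogonal to its complex conjugate. -/
theorem result {G : Type*} [Group G] [Fintype G] (hodd : Odd (Nat.card G)) (H : Subgroup G) [H.Normal] (θ : H → ℂ) (hθ : Cfsg.IsIrrCharacter H θ) (hθ1 : θ ≠ fun _ => 1) : Cfsg.classInner (fun g => conj (Cfsg.indFun H θ g)) (Cfsg.indFun H θ) = 0 := by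
  classical
  haveI := Fintype.ofFinite H
  set θ' : H → ℂ := fun h => conj (θ h) with hθ'
  have hθ'irr : IsIrrCharacter H θ' := CfsgLib.BrauerInd.isIrr_star hθ
  have hconj : (fun g => conj (Cfsg.indFun H θ g)) = Cfsg.indFun H θ' := by
    funext g
    simp only [indFun, map_mul, map_inv₀, map_natCast, map_sum]
    congr 1
    refine Finset.sum_congr rfl fun x _ => ?_
    by_cases hm : x⁻¹ * g * x ∈ H
    · rw [show x⁻¹ * g * x = ((⟨_, hm⟩ : H) : G) from rfl, extendByZero_coe, extendByZero_coe]
    · rw [extendByZero_of_not_mem H θ hm, extendByZero_of_not_mem H θ' hm, map_zero]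
  rw [hconj, classInner_indFun' H θ (isClassFunction_indFun H θ'), CfsgLib.Clifford.indFun_restrict_normal,
    classInner_smul_left, classInner_sum_left]
  refine mul_eq_zero_of_right _ (Finset.sum_eq_zero fun x _ => ?_)
  refine classInner_ne (CfsgLib.Clifford.isIrrCharacter_conjFun _ hθ'irr) hθ fun he => hθ1 ?_
  set y := x⁻¹
  have he' : CfsgLib.Clifford.conjFun y θ = θ' := by
    funext h
    have := congrArg conj (congrFun he h)
    simpa [hθ', CfsgLib.Clifford.conjFun_apply] using this
  have hsq : y ^ 2 ∈ CfsgLib.Clifford.inertia θ := by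
    rw [CfsgLib.Clifford.mem_inertia, sq, ← CfsgLib.Clifford.conjFun_mul, he', he]
  have hy : y ∈ CfsgLib.Clifford.inertia θ := by
    obtain ⟨k, hk⟩ := hodd
    have : y = (y ^ 2) ^ (k + 1) := by
      rw [← pow_mul, show 2 * (k + 1) = (2 * k + 1) + 1 by ring, ← hk, pow_succ, pow_card_eq_one', one_mul]
    rw [this]
    exact pow_mem hsq _
  have hreal : ∀ h, conj (θ h) = θ h := fun h => by
    rw [CfsgLib.Clifford.mem_inertia, he'] at hy
    exact congrFun hy h
  exact eq_one_of_odd_of_real (hodd.of_dvd_nat (Subgroup.card_subgroup_dvd_card H)) hθ hreal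

end Cfsg.Agent.S0194
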