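import Cfsg.Statements.S0196
import Mathlib


set_option autoImplicit false
open Cfsg

namespace Cfsg.Agent.S0196

/-- Let A be a subgroup of a finite group G that equals the centralizer of each of its non-identity elements, and let N be its normalizer. Then the index of A in N divides |A| − 1 (N/A permutes the non-identity elements of A in orbits of full length). -/
theorem result {G : Type*} [Group G] [Finite G] (A : Subgroup G) (hA : ∀ x ∈ A, x ≠ 1 → Subgroup.centralizer ({x} : Set G) = A) : (A.subgroupOf (Subgroup.normalizer (A : Set G))).index ∣ Nat.card A - 1 := by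
  classical
  set N := Subgroup.normalizer (A : Set G)
  let X := {a : G // a ∈ A ∧ a ≠ 1}
  letI : MulAction N X :=
    { smul := fun n a => ⟨n * a * (n : G)⁻¹, (Subgroup.mem_normalizer_iff.1 n.2 _).1 a.2.1,
        fun h => a.2.2 (by simpa [mul_assoc] using congrArg (fun z => (n : G)⁻¹ * z * n) h)⟩
      one_smul := fun a => Subtype.ext (by show (1 : G) * a * (1 : G)⁻¹ = a; simp)
      mul_smul := fun m n a => Subtype.ext (by
        show ((m : G) * n) * a * ((m : G) * n)⁻¹ = m * (n * a * (n : G)⁻¹) * (m : G)⁻¹
        simp only [mul_inv_rev, mul_assoc]) }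
  have hstab : ∀ a : X, MulAction.stabilizer N a = A.subgroupOf N := by
    intro a
    ext n
    rw [MulAction.mem_stabilizer_iff, Subgroup.mem_subgroupOf]
    have hC := hA a a.2.1 a.2.2
    constructor
    · intro h
      have he : (n : G) * a * (n : G)⁻¹ = a := congrArg Subtype.val h
      rw [← hC, Subgroup.mem_centralizer_singleton_iff]
      calc (n : G) * a = n * a * (n : G)⁻¹ * n := by group
        _ = a * n := by rw [he]
    · intro h
      rw [← hC, Subgroup.mem_centralizer_singleton_iff] at h
      refine Subtype.ext ?_
      show (n : G) * a * (n : G)⁻¹ = a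
      rw [h, mul_inv_cancel_right]
  have hcard : Nat.card X = Nat.card (MulAction.orbitRel.Quotient N X) * (A.subgroupOf N).index := by
    rw [Nat.card_congr (MulAction.selfEquivSigmaOrbitsQuotientStabilizer N X)]
    exact (Nat.card_congr ((Equiv.sigmaCongrRight fun (ω : Quotient (MulAction.orbitRel N X)) =>
      Subgroup.quotientEquivOfEq (hstab ω.out)).trans (Equiv.sigmaEquivProd _ _))).trans (Nat.card_prod _ _)
  have hX : Nat.card X = Nat.card A - 1 := by
    haveI := Fintype.ofFinite G
    rw [Nat.card_eq_fintype_card, Nat.card_eq_fintype_card, Fintype.card_subtype, Fintype.card_subtype,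
      show (Finset.univ.filter fun a : G => a ∈ A ∧ a ≠ 1) = (Finset.univ.filter fun a : G => a ∈ A).erase 1 by
        ext a; simp [and_comm],
      Finset.card_erase_of_mem (by simp [A.one_mem])]
  exact ⟨_, (hX.symm.trans hcard).trans (mul_comm _ _)⟩

end Cfsg.Agent.S0196
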