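import Cfsg.Statements.S0198
import Cfsg.Agent.Exceptional.Gram

set_option autoImplicit false
open Cfsg CfsgLib CfsgLib.CharBasics

namespace Cfsg.Agent.S0198

/-- The isometry lemma behind exceptional characters. Let τ be a family of generalized characters of a finite group G indexed by Fin n, with τ i₀ = 0, every τ i vanishing at the identity, and inner products ⟨τ i, τ j⟩ = 2 if i = j and 1 otherwise for i, j ≠ i₀. Then there are a sign ε and pairwise distinct irreducible characters μ i with τ i = ε (μ i − μ i₀) for all i. -/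
theorem result {G : Type*} [Group G] [Fintype G] (n : ℕ) (i₀ : Fin n) (τ : Fin n → (G → ℂ)) (h0 : τ i₀ = 0) (hgen : ∀ i, Cfsg.IsGeneralizedCharacter G (τ i)) (hone : ∀ i, τ i 1 = 0) (hgram : ∀ i j, i ≠ i₀ → j ≠ i₀ → Cfsg.classInner (τ i) (τ j) = if i = j then 2 else 1) : ∃ ε : ℂ, (ε = 1 ∨ ε = -1) ∧ ∃ μ : Fin n → (G → ℂ), (∀ i, Cfsg.IsIrrCharacter G (μ i)) ∧ Function.Injective μ ∧ ∀ i, τ i = ε • (μ i - μ i₀) := by
  classical
  have h0' : ∀ j, classInner (τ i₀) (τ j) = 0 := fun j => by rw [h0]; exact Exceptional.classInner_zero_l _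
  have h0'' : ∀ j, classInner (τ j) (τ i₀) = 0 := fun j => by rw [h0]; exact Exceptional.classInner_zero_r _
  by_cases htwo : ∃ i j : Fin n, i ≠ j
  · haveI : Nonempty (Fin n) := ⟨i₀⟩
    have hg : ∀ i j : Fin n, classInner (τ i) (τ j) =
        (if i = j then 1 else 0) + 1 - (if i = i₀ then 1 else 0) - (if j = i₀ then 1 else 0) := by
      intro i j
      by_cases hi : i = i₀
      · subst hi; rw [h0' j]; rcases eq_or_ne j i with rfl | hj <;> simp_all [Ne.symm]
      by_cases hj : j = i₀
      · subst hj; rw [h0'' i]; simp [hi]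
      rw [hgram i j hi hj]; by_cases hij : i = j <;> simp [hij, hi, hj] <;> norm_num
    obtain ⟨ε, f, hε, hf, hD⟩ := Exceptional.exceptional_family_gram (G := G) htwo (fun i j => τ i - τ j)
      (fun i j => Exceptional.gen_sub (hgen i) (hgen j)) (fun i j => by simp [hone])
      (fun i j k l => by
        rw [Exceptional.classInner_sub_left, Exceptional.classInner_sub_right, Exceptional.classInner_sub_right,
          hg, hg, hg, hg]
        ring)
      (fun i j k => by abel)
    refine ⟨ε, hε, fun i => (f i : G → ℂ), fun i => (f i).2, Subtype.val_injective.comp hf, fun i => ?_⟩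
    have := hD i i₀
    simpa [h0] using this
  · push Not at htwo
    refine ⟨1, Or.inl rfl, fun _ => fun _ => 1, fun _ => isIrrCharacter_one, fun i j _ => htwo i j, fun i => ?_⟩
    rw [htwo i i₀, h0]; simp

end Cfsg.Agent.S0198
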