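import Cfsg.Statements.S0200
import Cfsg.Agent.Invol.TwoPart
import Cfsg.Agent.Subnormal.BaerSuzuki

set_option autoImplicit false
open Cfsg

namespace Cfsg.Agent.S0200

/-- An involution lying in no normal 2-subgroup of a finite group inverts a nontrivial element of odd order (a consequence of the Baer–Suzuki Theorem). -/
theorem result {G : Type*} [Group G] [Finite G] (t : G) (ht : orderOf t = 2) (hO : ∀ N : Subgroup G, N.Normal → IsPGroup 2 N → t ∉ N) : ∃ h : G, h ≠ 1 ∧ Odd (orderOf h) ∧ t * h * t⁻¹ = h⁻¹ := by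
  by_contra hcon
  push Not at hcon
  have : Fact (Nat.Prime 2) := ⟨Nat.prime_two⟩
  have htt := CfsgLib.Invol.mul_self_of_orderOf ht
  apply hO (Cfsg.pCore 2 G) (CfsgLib.Subnormal.normal_pCore 2) (CfsgLib.Subnormal.isPGroup_pCore 2)
  refine CfsgLib.Subnormal.mem_pCore_of_forall_isPGroup fun g => ?_
  set s := g * t * g⁻¹ with hs
  have hss : s * s = 1 :=
    CfsgLib.Invol.mul_self_of_orderOf ((CfsgLib.Invol.orderOf_conj g t).trans ht)
  obtain ⟨k, m, hm, hn⟩ := Nat.exists_eq_two_pow_mul_odd (orderOf_pos (t * s)).ne'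
  refine CfsgLib.Invol.isPGroup_closure_pair htt hss (k := k) ?_
  suffices h1 : (t * s) ^ 2 ^ k = 1 from orderOf_dvd_iff_pow_eq_one.2 h1
  by_contra hne
  refine hcon ((t * s) ^ 2 ^ k) hne ?_ ?_
  · rw [orderOf_pow_of_dvd (by positivity) (by rw [hn]; exact dvd_mul_right _ _), hn,
      Nat.mul_div_cancel_left _ (by positivity)]
    exact hm
  · rw [← zpow_natCast, CfsgLib.Invol.swap_zpow htt hss, mul_inv_cancel_right, zpow_neg]

end Cfsg.Agent.S0200
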