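import Cfsg.Statements.S0203
import Cfsg.Agent.Invol.KleinFour
import Mathlib.GroupTheory.Transfer

set_option autoImplicit false
open Cfsg

namespace Cfsg.Agent.S0203

/-- If a Sylow 2-subgroup P of a finite group G is a Klein four-group, then G has three classes of involutions if and only if P has a normal complement in G. -/
theorem result {G : Type*} [Group G] [Finite G] (P : Sylow 2 G) (hP : IsKleinFour (P : Subgroup G)) : Nat.card {C : ConjClasses G // ∃ t : G, orderOf t = 2 ∧ ConjClasses.mk t = C} = 3 ↔ ∃ N : Subgroup G, N.Normal ∧ Subgroup.IsComplement' N (P : Subgroup G) := by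
  haveI : Fact (Nat.Prime 2) := ⟨Nat.prime_two⟩
  haveI := hP
  constructor
  · intro h3
    have hb := (Nat.bijective_iff_surjective_and_card (CfsgLib.Invol.kleinMap P hP)).2
      ⟨CfsgLib.Invol.kleinMap_surjective P hP, (CfsgLib.Invol.card_kleinDom P hP).trans h3.symm⟩
    have hle : Subgroup.normalizer (P : Set G) ≤ Subgroup.centralizer (P : Set G) := by
      intro n hn
      rw [Subgroup.mem_centralizer_iff]
      intro x hx
      rw [SetLike.mem_coe] at hx
      by_cases h1 : x = 1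
      · simp [h1]
      have hconj : n * x * n⁻¹ ∈ (P : Subgroup G) := (Subgroup.mem_normalizer_iff.1 hn x).1 hx
      have h4 : (⟨⟨_, hconj⟩, fun h => h1 (conj_eq_one_iff.1 (congrArg Subtype.val h : n * x * n⁻¹ = 1))⟩ : {a : (P : Subgroup G) // a ≠ 1}) =
          ⟨⟨x, hx⟩, fun h => h1 (congrArg Subtype.val h)⟩ :=
        hb.1 (Subtype.ext (ConjClasses.mk_eq_mk_iff_isConj.2 (isConj_iff.2 ⟨n⁻¹, by group⟩)))
      have h5 : n * x * n⁻¹ = x := congrArg (fun a : {a : (P : Subgroup G) // a ≠ 1} => (a.1 : G)) h4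
      exact (mul_inv_eq_iff_eq_mul.1 h5).symm
    exact ⟨_, MonoidHom.normal_ker _, MonoidHom.ker_transferSylow_isComplement' P hle⟩
  · rintro ⟨N, hN, hc⟩
    haveI := hN
    refine ((Nat.card_eq_of_bijective (CfsgLib.Invol.kleinMap P hP) ⟨?_, CfsgLib.Invol.kleinMap_surjective P hP⟩).symm.trans
      (CfsgLib.Invol.card_kleinDom P hP))
    intro a b hab
    obtain ⟨g, hg⟩ := isConj_iff.1 (ConjClasses.mk_eq_mk_iff_isConj.1 (congrArg Subtype.val hab))
    obtain ⟨⟨⟨u, hu⟩, ⟨q, hq⟩⟩, huq⟩ := hc.2 g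
    have huq' : u * q = g := huq
    have hqa : q * ((a : (P : Subgroup G)) : G) * q⁻¹ = ((a : (P : Subgroup G)) : G) := by
      have h6 : q * ((a : (P : Subgroup G)) : G) = ((a : (P : Subgroup G)) : G) * q :=
        congrArg Subtype.val (mul_comm_of_exponent_two (G := (P : Subgroup G)) IsKleinFour.exponent_two ⟨q, hq⟩ a.1)
      rw [h6, mul_inv_cancel_right]
    have h7 : u * ((a : (P : Subgroup G)) : G) * u⁻¹ = ((b : (P : Subgroup G)) : G) := by
      rw [← hg, ← huq']
      conv_lhs => rw [← hqa]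
      group
    have h8 : ((b : (P : Subgroup G)) : G) * ((a : (P : Subgroup G)) : G)⁻¹ ∈ N := by
      rw [← h7, show u * ((a : (P : Subgroup G)) : G) * u⁻¹ * ((a : (P : Subgroup G)) : G)⁻¹ =
        u * (((a : (P : Subgroup G)) : G) * u⁻¹ * ((a : (P : Subgroup G)) : G)⁻¹) by group]
      exact N.mul_mem hu (hN.conj_mem _ (N.inv_mem hu) _)
    have h9 : ((b : (P : Subgroup G)) : G) * ((a : (P : Subgroup G)) : G)⁻¹ = 1 :=
      Subgroup.mem_bot.1 (hc.disjoint.le_bot ⟨h8, (P : Subgroup G).mul_mem b.1.2 ((P : Subgroup G).inv_mem a.1.2)⟩)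
    exact Subtype.ext (Subtype.ext (mul_inv_eq_one.1 h9).symm)

end Cfsg.Agent.S0203
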