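import Cfsg.Statements.S0210
import Cfsg.Agent.Invol.Dihedral

set_option autoImplicit false
open Cfsg

namespace Cfsg.Agent.S0210

/-- If x, y are involutions whose product has even order, no element of the subgroup generated by x and y conjugates x to y. -/
theorem result {G : Type*} [Group G] [Finite G] (x y : G) (hx : orderOf x = 2) (hy : orderOf y = 2) (heven : Even (orderOf (x * y))) (d : G) (hd : d ∈ Subgroup.closure ({x, y} : Set G)) : d * x * d⁻¹ ≠ y := by
  intro h
  exact Nat.not_odd_iff_even.2 heven
    ((CfsgLib.Invol.exists_conj_iff_odd (CfsgLib.Invol.mul_self_of_orderOf hx)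
      (CfsgLib.Invol.mul_self_of_orderOf hy)).1 ⟨d, hd, h⟩)

end Cfsg.Agent.S0210
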