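import Cfsg.Statements.S0211
import Cfsg.Agent.Invol.Dihedral

set_option autoImplicit false
open Cfsg

namespace Cfsg.Agent.S0211

/-- Let x, y be involutions with xy of even order n and z = (xy)^(n/2). Then xz is conjugate to x by an element of the subgroup generated by x, y if and only if 4 divides n. -/
theorem result {G : Type*} [Group G] [Finite G] (x y : G) (hx : orderOf x = 2) (hy : orderOf y = 2) (heven : Even (orderOf (x * y))) : (∃ d ∈ Subgroup.closure ({x, y} : Set G), d * x * d⁻¹ = x * (x * y) ^ (orderOf (x * y) / 2)) ↔ 4 ∣ orderOf (x * y) := by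
  have hx' := CfsgLib.Invol.mul_self_of_orderOf hx
  have hy' := CfsgLib.Invol.mul_self_of_orderOf hy
  obtain ⟨-, hcx, -⟩ := CfsgLib.Invol.half_pow hx' hy' heven
  have hxe : x * (x * y) ^ (orderOf (x * y) / 2)
      = (x * y) ^ ((orderOf (x * y) / 2 : ℕ) : ℤ) * x := by
    rw [zpow_natCast]; exact hcx.symm.eq
  rw [hxe, CfsgLib.Invol.exists_conj_eq_zpow_iff hx' hy']
  obtain ⟨m, hm⟩ := heven
  have hdiv : orderOf (x * y) / 2 = m := by omega
  rw [hdiv, hm]
  constructor
  · rintro ⟨k, c, hc⟩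
    push_cast at hc
    have h2 : (2 : ℤ) ∣ (m : ℤ) := ⟨k - m * c, by linarith⟩
    have : 2 ∣ m := by exact_mod_cast h2
    omega
  · rintro h
    obtain ⟨j, rfl⟩ : 2 ∣ m := by omega
    exact ⟨j, 0, by push_cast; ring⟩

end Cfsg.Agent.S0211
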