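import Cfsg.Statements.S0212
import Cfsg.Agent.Invol.BrauerFowler
import Mathlib.Data.Finite.Perm

set_option autoImplicit false
open Cfsg

namespace Cfsg.Agent.S0212

/-- The Brauer–Fowler bound: if G is a finite simple group and t an involution of G whose centralizer has order n, then |G| ≤ (2n^2)!. -/
theorem result {G : Type*} [Group G] [Finite G] [IsSimpleGroup G] (t : G) (ht : orderOf t = 2) : Nat.card G ≤ Nat.factorial (2 * (Nat.card (Subgroup.centralizer ({t} : Set G))) ^ 2) := by
  classical
  have : Fintype G := Fintype.ofFinite G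
  have : Fact (Nat.Prime 2) := ⟨Nat.prime_two⟩
  have hn : 2 ∣ Nat.card G := ht ▸ orderOf_dvd_natCard t
  set c := Nat.card (Subgroup.centralizer ({t} : Set G)) with hc
  have hc1 : 0 < c := Nat.card_pos
  by_cases hcen : t ∈ Subgroup.center G
  · have htop : Subgroup.centralizer ({t} : Set G) = ⊤ := by
      rw [eq_top_iff]
      intro g _
      rw [Subgroup.mem_centralizer_singleton_iff]
      exact Subgroup.mem_center_iff.1 hcen g
    rw [hc, htop, Subgroup.card_top]
    exact le_trans (le_trans (Nat.le_self_pow (by norm_num) _) (Nat.le_mul_of_pos_left _ (by norm_num)))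
      (Nat.self_le_factorial _)
  have hZ : Subgroup.center G = ⊥ := by
    rcases (inferInstance : (Subgroup.center G).Normal).eq_bot_or_eq_top with h | h
    · exact h
    · exact absurd (h ▸ Subgroup.mem_top t) hcen
  have hZodd : Odd (Nat.card (Subgroup.center G)) := by rw [hZ, Subgroup.card_bot]; exact odd_one
  obtain ⟨H, hH, hcase⟩ := CfsgLib.Invol.brauer_fowler (even_iff_two_dvd.2 hn) hZodd
  have hi : H.index ≤ 2 * c ^ 2 := by
    rcases hcase with h | h
    · rw [h]; exact Nat.le_mul_of_pos_right 2 (pow_pos hc1 2)
    · set T := Nat.card {u : G // orderOf u = 2}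
      -- the class of `t` lies among the involutions
      have hT : Nat.card G ≤ c * T := by
        rw [hc, ← Subgroup.card_mul_index (Subgroup.centralizer ({t} : Set G))]
        refine Nat.mul_le_mul_left _ ?_
        rw [Subgroup.index_eq_card]
        refine Nat.card_le_card_of_injective
          (fun q => ⟨q.out * t * q.out⁻¹, (CfsgLib.Invol.orderOf_conj _ _).trans ht⟩) ?_
        intro a b hab
        simp only [Subtype.mk.injEq] at hab
        rw [← QuotientGroup.out_eq' a, ← QuotientGroup.out_eq' b, QuotientGroup.eq,
          Subgroup.mem_centralizer_singleton_iff]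
        calc a.out⁻¹ * b.out * t = a.out⁻¹ * (b.out * t * b.out⁻¹) * b.out := by group
          _ = a.out⁻¹ * (a.out * t * a.out⁻¹) * b.out := by rw [hab]
          _ = _ := by group
      have hTpos : 0 < T := Nat.pos_of_ne_zero (fun h0 => by
        rw [h0] at hT; have : 0 < Nat.card G := Nat.card_pos; omega)
      have h2 : Nat.card G * (Nat.card G + T) ≤ c * T * (c * T + T) :=
        Nat.mul_le_mul hT (Nat.add_le_add_right hT T)
      have h3 : 2 * H.index * T ^ 2 < T ^ 2 * (c * (c + 1)) := by
        refine lt_of_lt_of_le h (h2.trans (le_of_eq (by ring)))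
      have h4 : 2 * H.index < c * (c + 1) :=
        Nat.lt_of_mul_lt_mul_left (a := T ^ 2) (by rw [mul_comm]; exact h3)
      nlinarith
  have hcore : H.normalCore = ⊥ := by
    rcases H.normalCore_normal.eq_bot_or_eq_top with h | h
    · exact h
    · exact absurd (top_le_iff.1 (h ▸ H.normalCore_le)) hH
  have hinj : Function.Injective (MulAction.toPermHom G (G ⧸ H)) := by
    rw [← MonoidHom.ker_eq_bot_iff, ← Subgroup.normalCore_eq_ker, hcore]
  have hle := Nat.card_le_card_of_injective _ hinj
  rw [Nat.card_perm, ← Subgroup.index_eq_card] at hle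
  exact hle.trans (Nat.factorial_le hi)

end Cfsg.Agent.S0212
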