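import Cfsg.Statements.S0216
import Cfsg.Agent.Invol.TwoPart

set_option autoImplicit false
open Cfsg

namespace Cfsg.Agent.S0216

/-- Conjugates of an isolated involution in a common 2-group are equal. -/
theorem conj_unique {G : Type*} [Group G] [Finite G] (P : Sylow 2 G) (u : G) (huP : u ∈ P)
    (hiso : ∀ g : G, g * u * g⁻¹ ∈ P → g * u * g⁻¹ = u) {R : Subgroup G} (hR : IsPGroup 2 R)
    {a b : G} (ha : a ∈ R) (hb : b ∈ R) (hua : IsConj u a) (hub : IsConj u b) : a = b := by
  obtain ⟨Q, hQ⟩ := hR.exists_le_sylow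
  obtain ⟨h, hh⟩ := MulAction.exists_smul_eq G Q P
  have key : ∀ b ∈ R, IsConj u b → h * b * h⁻¹ = u := by
    intro b hb hcb
    obtain ⟨c, rfl⟩ := isConj_iff.1 hcb
    have h1 := hiso (h * c) (by
      have : h * (c * u * c⁻¹) * h⁻¹ ∈ P := by
        rw [← hh, ← SetLike.mem_coe, Sylow.coe_smul]
        exact ⟨_, hQ hb, rfl⟩
      simpa [mul_assoc] using this)
    simpa [mul_assoc] using h1
  exact mul_left_cancel (mul_right_cancel ((key a ha hua).trans (key b hb hub).symm))


/-- For an involution u in a Sylow 2-subgroup P of a finite group G, the following are equivalent: no G-conjugate of u other than u lies in P; every commutator of u with an element of G has odd order. -/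
theorem result {G : Type*} [Group G] [Finite G] (P : Sylow 2 G) (u : G) (hu : orderOf u = 2) (huP : u ∈ P) : (∀ g : G, g * u * g⁻¹ ∈ P → g * u * g⁻¹ = u) ↔ (∀ g : G, Odd (orderOf (u * g * u⁻¹ * g⁻¹))) := by
  have huu := CfsgLib.Invol.mul_self_of_orderOf hu
  have : Fact (Nat.Prime 2) := ⟨Nat.prime_two⟩
  constructor
  · intro hiso g
    set s := g * u * g⁻¹ with hs
    have hss : s * s = 1 :=
      CfsgLib.Invol.mul_self_of_orderOf ((CfsgLib.Invol.orderOf_conj g u).trans hu)
    have he : u * g * u⁻¹ * g⁻¹ = u * s := by rw [CfsgLib.Invol.inv_eq_of_orderOf hu, hs]; group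
    rw [he]
    obtain ⟨d, z, k, m, hd, hdz, -, hk, hm, hn, hR⟩ := CfsgLib.Invol.exists_two_part huu hss
    have huz : u = z := conj_unique P u huP hiso hR (Subgroup.subset_closure (Or.inl rfl))
      (Subgroup.subset_closure (Or.inr rfl)) (IsConj.refl u)
      (isConj_iff.2 ⟨d * g, by rw [← hdz, hs]; group⟩)
    rw [← huz, huu, orderOf_one] at hk
    rw [hn, ← hk, one_mul]
    exact hm
  · intro hodd g hg
    have hmem : u * (g * u * g⁻¹) ∈ P := mul_mem huP hg
    have h1 := hodd g
    rw [show u * g * u⁻¹ * g⁻¹ = u * (g * u * g⁻¹) by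
      rw [CfsgLib.Invol.inv_eq_of_orderOf hu]; group] at h1
    obtain ⟨k, hk⟩ := P.isPGroup' ⟨_, hmem⟩
    have hk' : (u * (g * u * g⁻¹)) ^ 2 ^ k = 1 := congrArg Subtype.val hk
    have h2 : orderOf (u * (g * u * g⁻¹)) = 1 := Nat.eq_one_of_dvd_coprimes
      (Nat.Coprime.pow_right k (Nat.coprime_two_right.2 h1)) dvd_rfl
      (orderOf_dvd_of_pow_eq_one hk')
    rw [orderOf_eq_one_iff] at h2
    exact ((eq_inv_of_mul_eq_one_right h2).trans (CfsgLib.Invol.inv_eq_of_orderOf hu))

end Cfsg.Agent.S0216
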