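import Cfsg.Statements.S0218
import Mathlib.GroupTheory.SpecificGroups.Quaternion
import Mathlib.Tactic

set_option autoImplicit false
open Cfsg

namespace Cfsg.Agent.S0218

/-- The generalized quaternion group of order 2^(n+3) contains exactly one element of order 2. -/
theorem result (n : ℕ) : Nat.card {x : QuaternionGroup (2 ^ (n + 1)) // orderOf x = 2} = 1 := by
  have hn : NeZero (2 ^ (n + 1) : ℕ) := ⟨by positivity⟩
  rw [Nat.card_eq_one_iff_unique]
  refine ⟨⟨fun a b => Subtype.ext ?_⟩, ⟨⟨QuaternionGroup.a ((2 ^ (n + 1) : ℕ) : ZMod (2 * 2 ^ (n + 1))), ?_⟩⟩⟩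
  · have key : ∀ x : QuaternionGroup (2 ^ (n + 1)), orderOf x = 2 →
        x = QuaternionGroup.a ((2 ^ (n + 1) : ℕ) : ZMod (2 * 2 ^ (n + 1))) := by
      intro x hx
      rcases x with i | i
      · congr 1
        have h0 := pow_orderOf_eq_one (QuaternionGroup.a i)
        rw [hx, pow_two, QuaternionGroup.a_mul_a, QuaternionGroup.one_def] at h0
        have h1 : i + i = 0 := QuaternionGroup.a.inj h0
        have hne : i ≠ 0 := by
          rintro rfl
          rw [QuaternionGroup.a_zero, orderOf_one] at hx
          norm_num at hx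
        rw [← ZMod.natCast_zmod_val i] at h1 hne ⊢
        rw [← Nat.cast_add, ZMod.natCast_eq_zero_iff] at h1
        have hlt := i.val_lt
        have hpos : i.val ≠ 0 := fun h => hne (by rw [h]; simp)
        obtain ⟨c, hc⟩ := h1
        congr 1
        rcases c with _ | _ | c
        · omega
        · omega
        · nlinarith
      · rw [QuaternionGroup.orderOf_xa] at hx
        norm_num at hx
    rw [key a a.2, key b b.2]
  · rw [← QuaternionGroup.a_one_pow, orderOf_pow_of_dvd (NeZero.ne _)
      (by rw [QuaternionGroup.orderOf_a_one]; exact dvd_mul_left _ _),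
      QuaternionGroup.orderOf_a_one, Nat.mul_div_cancel _ (NeZero.pos _)]

end Cfsg.Agent.S0218
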