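import Cfsg.Statements.S0220
import Cfsg.Agent.S0219
import Mathlib.GroupTheory.Nilpotent
import Mathlib.GroupTheory.Sylow
import Mathlib.GroupTheory.SpecificGroups.Cyclic
import Mathlib.GroupTheory.GroupAction.Basic

set_option autoImplicit false
open Cfsg

namespace Cfsg.Agent.S0220

theorem aux {G : Type*} [Group G] [Finite G] (x : G) (hx : orderOf x = 2) (C : Subgroup G)
    (hC : C = Subgroup.centralizer ({x} : Set G)) (S : Sylow 2 C) [IsCyclic ↥(S : Subgroup C)] :
    ∃ H : Subgroup G, H.index = 2 := by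
  haveI : Fact (Nat.Prime 2) := ⟨Nat.prime_two⟩
  have hxC : x ∈ C := hC ▸ Subgroup.mem_centralizer_singleton_iff.2 rfl
  have hxS : (⟨x, hxC⟩ : C) ∈ (S : Subgroup C) := by
    have hn : (Subgroup.zpowers (⟨x, hxC⟩ : C)).Normal := ⟨fun a ha g => by
      have : g * a * g⁻¹ = a := by
        obtain ⟨k, rfl⟩ := Subgroup.mem_zpowers_iff.1 ha
        have hcomm : Commute g (⟨x, hxC⟩ : C) := Subtype.ext (Subgroup.mem_centralizer_singleton_iff.1 (hC ▸ g.2))
        rw [(hcomm.zpow_right k).eq, mul_inv_cancel_right]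
      rwa [this]⟩
    have hp : IsPGroup 2 (Subgroup.zpowers (⟨x, hxC⟩ : C)) := IsPGroup.of_card (n := 1) (by
      rw [Nat.card_zpowers, Subgroup.orderOf_mk, hx, pow_one])
    haveI := hn
    have h1 := S.is_maximal' (hp.to_sup_of_normal_left S.isPGroup') le_sup_right
    exact h1 ▸ Subgroup.mem_sup_left (Subgroup.mem_zpowers _)
  set S' : Subgroup G := (S : Subgroup C).map C.subtype with hS'
  have hS'C : S' ≤ C := Subgroup.map_subtype_le _
  obtain ⟨T, hT⟩ := (S.isPGroup'.map C.subtype).exists_le_sylow
  have hTC : (T : Subgroup G) ⊓ C = S' := by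
    refine le_antisymm (fun y hy => ?_) (le_inf hT hS'C)
    have h1 : IsPGroup 2 ((T : Subgroup G).comap C.subtype) :=
      T.isPGroup'.comap_of_injective C.subtype Subtype.val_injective
    have h2 : (T : Subgroup G).comap C.subtype = S := S.is_maximal' h1 (Subgroup.map_le_iff_le_comap.1 hT)
    exact ⟨⟨y, hy.2⟩, h2 ▸ (show (⟨y, hy.2⟩ : C) ∈ (T : Subgroup G).comap C.subtype from hy.1), rfl⟩
  have heq : S' = T := by
    by_contra hne
    haveI : Group.IsNilpotent (T : Subgroup G) := T.isPGroup'.isNilpotent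
    set D := S'.subgroupOf (T : Subgroup G) with hD
    have hDne : D < ⊤ := lt_top_iff_ne_top.2 fun h => hne (le_antisymm hT (Subgroup.subgroupOf_eq_top.1 h))
    obtain ⟨g, hgN, hgD⟩ := SetLike.exists_of_lt (Group.normalizerCondition_of_isNilpotent D hDne)
    have hxS' : x ∈ S' := ⟨⟨x, hxC⟩, hxS, rfl⟩
    have hconj : (g : G) * x * (g : G)⁻¹ ∈ S' := by
      have := (Subgroup.mem_normalizer_iff.1 hgN ⟨x, hT hxS'⟩).1 (show x ∈ S' from hxS')
      exact this
    have huniq : (g : G) * x * (g : G)⁻¹ = x := by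
      haveI : IsCyclic S' := isCyclic_of_surjective
        ((S : Subgroup C).equivMapOfInjective C.subtype Subtype.val_injective).toMonoidHom
        ((S : Subgroup C).equivMapOfInjective C.subtype Subtype.val_injective).surjective
      haveI := Fintype.ofFinite S'
      have h2 : ∀ {y : G} (hy : y ∈ S'), orderOf y = 2 → (⟨y, hy⟩ : S') ∈ Finset.univ.filter (fun a : S' => orderOf a = 2) :=
        fun hy ho => Finset.mem_filter.2 ⟨Finset.mem_univ _, by rw [Subgroup.orderOf_mk, ho]⟩
      have hdvd : 2 ∣ Fintype.card S' := by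
        rw [← Nat.card_eq_fintype_card, ← hx]
        exact Subgroup.orderOf_dvd_natCard S' hxS'
      have hc1 := IsCyclic.card_orderOf_eq_totient (α := S') hdvd
      rw [Nat.totient_two] at hc1
      have := Finset.card_le_one.1 hc1.le _ (h2 hconj (by
        rw [show (g : G) * x * (g : G)⁻¹ = MulAut.conj (g : G) x from rfl,
          show orderOf (MulAut.conj (g : G) x) = orderOf x from
            orderOf_injective (MulAut.conj (g : G)).toMonoidHom (MulAut.conj (g : G)).injective x, hx])) _ (h2 hxS' hx)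
      exact congrArg Subtype.val this
    have hgC : (g : G) ∈ C := hC ▸ Subgroup.mem_centralizer_singleton_iff.2 (mul_inv_eq_iff_eq_mul.1 huniq)
    exact hgD (show (g : G) ∈ S' from hTC ▸ ⟨g.2, hgC⟩)
  refine Cfsg.Agent.S0219.result ?_ T ?_
  · exact even_iff_two_dvd.2 (hx ▸ orderOf_dvd_natCard x)
  · rw [← heq]
    exact isCyclic_of_surjective _ ((S : Subgroup C).equivMapOfInjective C.subtype Subtype.val_injective).surjective


/-- If x is an involution of a finite group G and a Sylow 2-subgroup of the centralizer of x is cyclic, then G has a subgroup of index 2; in particular G is not simple unless it has order 2. -/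
theorem result {G : Type*} [Group G] [Finite G] (x : G) (hx : orderOf x = 2) (S : Sylow 2 ↥(Subgroup.centralizer ({x} : Set G))) (hS : IsCyclic (S : Subgroup ↥(Subgroup.centralizer ({x} : Set G)))) : ∃ H : Subgroup G, H.index = 2 := by
  exact @aux G _ _ x hx _ rfl S hS

end Cfsg.Agent.S0220
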