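import Cfsg.Statements.S0221
import Cfsg.Agent.Invol.NormalFour
import Cfsg.Agent.Transfer.Focal

set_option autoImplicit false
open Cfsg
open scoped Pointwise

namespace Cfsg.Agent.S0221

/-- Let G be a finite group with no subgroup of index 2 whose 2-rank is at least 3 (it contains an elementary abelian subgroup of order 8). Then the centralizer of every involution of G also contains an elementary abelian subgroup of order 8. -/
theorem result {G : Type*} [Group G] [Finite G] (hno : ∀ H : Subgroup G, H.index ≠ 2) (hrank : ∃ E : Subgroup G, Nat.card E = 8 ∧ ∀ e ∈ E, e ^ 2 = 1) (x : G) (hx : orderOf x = 2) : ∃ E : Subgroup G, E ≤ Subgroup.centralizer ({x} : Set G) ∧ Nat.card E = 8 ∧ ∀ e ∈ E, e ^ 2 = 1 := by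
  obtain ⟨E, hE, hE2⟩ := hrank
  have hno_G := hno
  haveI : Fact (Nat.Prime 2) := ⟨Nat.prime_two⟩
  have hxx : x * x = 1 := by rw [← pow_two, ← hx]; exact pow_orderOf_eq_one x
  have hEp : IsPGroup 2 E := IsPGroup.of_card (n := 3) (by rw [hE]; norm_num)
  obtain ⟨S, hES⟩ := hEp.exists_le_sylow
  obtain ⟨M, hM, hMy⟩ := CfsgLib.Invol.exists_index_two_rank_three S.isPGroup' (E.subgroupOf S)
    (by rw [← hE]; exact Nat.card_congr (Subgroup.subgroupOfEquivOfLe hES).toEquiv)
    (fun e he => Subtype.ext (by rw [Subgroup.coe_mul, ← pow_two]; exact hE2 e he))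
  set MG : Subgroup G := M.map (S : Subgroup G).subtype with hMG
  have hconj : ∃ g : G, g * x * g⁻¹ ∈ MG := by
    rcases hM with hM | hM
    · obtain ⟨T, hT⟩ := (IsPGroup.of_card (G := Subgroup.zpowers x) (p := 2) (n := 1)
        (by rw [Nat.card_zpowers, hx, pow_one])).exists_le_sylow
      obtain ⟨g, hg⟩ := MulAction.exists_smul_eq G T S
      refine ⟨g, ?_⟩
      rw [hMG, hM, ← MonoidHom.range_eq_map, Subgroup.range_subtype, ← hg]
      exact Subgroup.smul_mem_pointwise_smul x (MulAut.conj g) (T : Subgroup G) (hT (Subgroup.mem_zpowers x))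
    · by_contra hno
      push Not at hno
      have hrel : MG.relIndex S = 2 := by
        rw [Subgroup.relIndex, hMG, Subgroup.subgroupOf, Subgroup.comap_map_eq_self_of_injective
          (S : Subgroup G).subtype_injective, hM]
      obtain ⟨N, -, hN, -⟩ := CfsgLib.Transfer.thompson_transfer S (Subgroup.map_subtype_le M) hrel hxx hno
      exact hno_G N hN
  obtain ⟨g, hg⟩ := hconj
  obtain ⟨y, hy, hyx⟩ := Subgroup.mem_map.1 hg
  have hyx' : (y : G) = g * x * g⁻¹ := hyx
  obtain ⟨K, hK, hK2, hKy⟩ := hMy y hy (Subtype.ext (by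
    rw [Subgroup.coe_mul, hyx', show g * x * g⁻¹ * (g * x * g⁻¹) = g * (x * x) * g⁻¹ by group, hxx, mul_one,
      mul_inv_cancel, Subgroup.coe_one]))
  let φ : (S : Subgroup G) →* G := (MulAut.conj g⁻¹).toMonoidHom.comp (S : Subgroup G).subtype
  have hφ : Function.Injective φ := (MulAut.conj g⁻¹).injective.comp (S : Subgroup G).subtype_injective
  refine ⟨K.map φ, ?_, ?_, ?_⟩
  · rintro _ ⟨e, he, rfl⟩
    rw [Subgroup.mem_centralizer_singleton_iff]
    have hφy : φ y = x := by
      show g⁻¹ * (y : G) * g⁻¹⁻¹ = x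
      rw [hyx']; group
    have h1 := congrArg φ (hKy e he)
    rw [map_mul, map_mul, hφy] at h1
    exact h1.symm
  · rw [Subgroup.card_map_of_injective hφ, hK]
  · rintro _ ⟨e, he, rfl⟩
    rw [← map_pow, pow_two, hK2 e he, map_one]

end Cfsg.Agent.S0221
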