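import Cfsg.Statements.S0225
import Cfsg.Agent.ZStar.Main
-- import your own Cfsg.Agent.* helpers here

set_option autoImplicit false
open Cfsg

namespace Cfsg.Agent.S0225

/-- If a finite group G has even order but contains no Klein four-subgroup (2-rank 1), then some involution z of G is central modulo a normal subgroup of odd order: there is a normal subgroup N of odd order containing every commutator z g z⁻¹ g⁻¹. -/
theorem result {G : Type*} [Group G] [Finite G] (heven : Even (Nat.card G)) (hrank : ∀ E : Subgroup G, ¬ IsKleinFour E) : ∃ z : G, orderOf z = 2 ∧ ∃ N : Subgroup G, N.Normal ∧ Odd (Nat.card N) ∧ ∀ g : G, z * g * z⁻¹ * g⁻¹ ∈ N := by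
  haveI := Fact.mk Nat.prime_two
  obtain ⟨z, hz⟩ := exists_prime_orderOf_dvd_card' 2 (even_iff_two_dvd.1 heven)
  refine ⟨z, hz, pPrimeCore 2 G, Cfsg.pPrimeCore_normal 2 G,
    Nat.coprime_two_right.1 (CfsgLib.PCore.pPrimeCore_coprime 2 G), CfsgLib.ZStar.zstar ⟨hz, fun g hc => ?_⟩⟩
  by_contra hne
  set v := g * z * g⁻¹ with hv
  have hz2 := CfsgLib.Isolated.mul_self_of_orderOf_two hz
  have hv2 : v * v = 1 := CfsgLib.Isolated.conj_sq g hz2
  have hz1 : z ≠ 1 := fun e => by simp [e] at hz
  have hv1 : v ≠ 1 := fun e => hz1 (conj_eq_one_iff.1 e)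
  have hzv : z * v ≠ 1 := fun e => hne (mul_left_cancel (e.trans hz2.symm))
  let E : Subgroup G :=
    { carrier := {1, z, v, z * v}
      one_mem' := Or.inl rfl
      mul_mem' := by
        have a1 : v * z = z * v := hc.eq.symm
        have a2 : z * (z * v) = v := by rw [← mul_assoc, hz2, one_mul]
        have a3 : v * (z * v) = z := by rw [← mul_assoc, a1, mul_assoc, hv2, mul_one]
        have a4 : z * v * z = v := by rw [mul_assoc, a1, a2]
        have a5 : z * v * v = z := by rw [mul_assoc, hv2, mul_one]
        have a6 : z * v * (z * v) = 1 := by rw [mul_assoc, a3, hz2]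
        rintro a b (rfl | rfl | rfl | rfl) (rfl | rfl | rfl | rfl) <;>
          simp [hz2, hv2, a1, a2, a3, a4, a5, a6]
      inv_mem' := by
        rintro a (rfl | rfl | rfl | rfl)
        · simp
        · rw [inv_eq_of_mul_eq_one_left hz2]; simp
        · rw [inv_eq_of_mul_eq_one_left hv2]; simp
        · rw [mul_inv_rev, inv_eq_of_mul_eq_one_left hz2, inv_eq_of_mul_eq_one_left hv2, hc.eq.symm]; simp }
  refine hrank E { card_four := ?_, exponent_two := ?_ }
  · have e : (E : Set G) = ↑({1, z, v, z * v} : Set G) := rfl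
    rw [show Nat.card E = Set.ncard (E : Set G) from Nat.card_coe_set_eq _, e,
      Set.ncard_insert_of_notMem, Set.ncard_insert_of_notMem, Set.ncard_pair]
    · intro e'; exact hz1 (mul_eq_right.1 e'.symm)
    · simp only [Set.mem_insert_iff, Set.mem_singleton_iff]
      rintro (e' | e')
      · exact hne e'.symm
      · exact hv1 (mul_eq_left.1 e'.symm)
    · simp only [Set.mem_insert_iff, Set.mem_singleton_iff]
      rintro (e' | e' | e')
      · exact hz1 e'.symm
      · exact hv1 e'.symm
      · exact hzv e'.symm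
  · haveI : Nontrivial E := ⟨⟨z, Or.inr (Or.inl rfl)⟩, 1, fun e' => hz1 (congrArg Subtype.val e')⟩
    refine (Monoid.exponent_eq_prime_iff Nat.prime_two).2 fun x hx => orderOf_eq_prime ?_ hx
    obtain ⟨x, hxm⟩ := x
    apply Subtype.ext
    show x ^ 2 = 1
    rw [pow_two]
    rcases hxm with rfl | rfl | rfl | rfl
    · exact one_mul 1
    · exact hz2
    · exact hv2
    · rw [mul_assoc, ← mul_assoc v, hc.eq.symm, mul_assoc z v v, hv2, mul_one, hz2]

end Cfsg.Agent.S0225
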