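import Cfsg.Statements.S0228
import Mathlib

set_option autoImplicit false
open Cfsg

namespace Cfsg.Agent.S0228

/-- A group of order 12 in which no involution is central is isomorphic to the alternating group on four letters. -/
theorem result {G : Type*} [Group G] [Finite G] (hG : Nat.card G = 12) (hz : ∀ z : G, orderOf z = 2 → z ∉ Subgroup.center G) : Nonempty (G ≃* alternatingGroup (Fin 4)) := by
  haveI : Fact (Nat.Prime 3) := ⟨Nat.prime_three⟩
  haveI : Fact (Nat.Prime 2) := ⟨Nat.prime_two⟩
  have P : Sylow 3 G := default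
  have S : Sylow 2 G := default
  have hP : Nat.card (P : Subgroup G) = 3 := by
    rw [P.card_eq_multiplicity, hG]
    norm_num [Nat.factorization_def]
    rw [show (12 : ℕ) = 3 ^ 1 * 4 by norm_num, padicValNat.mul (by norm_num) (by norm_num), padicValNat.prime_pow,
      padicValNat.eq_zero_of_not_dvd (n := 4) (by norm_num)]
    norm_num
  have hS : Nat.card (S : Subgroup G) = 4 := by
    rw [S.card_eq_multiplicity, hG]
    norm_num [Nat.factorization_def]
    rw [show (12 : ℕ) = 2 ^ 2 * 3 by norm_num, padicValNat.mul (by norm_num) (by norm_num), padicValNat.prime_pow,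
      padicValNat.eq_zero_of_not_dvd (n := 3) (by norm_num)]
    norm_num
  have hnn : ¬ (P : Subgroup G).Normal := by
    intro hn
    obtain ⟨u, hu⟩ := (isCyclic_of_prime_card hP).exists_generator
    set f : (S : Subgroup G) →* MulAut (P : Subgroup G) := (MulAut.conjNormal).comp (S : Subgroup G).subtype with hf
    have hker : f.ker ≠ ⊥ := by
      intro hb
      haveI := Fintype.ofFinite (MulAut (P : Subgroup G))
      have h1 := Subgroup.card_dvd_of_injective f (f.ker_eq_bot_iff.1 hb)
      haveI : IsCyclic (P : Subgroup G) := isCyclic_of_prime_card hP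
      rw [hS, IsCyclic.card_mulAut, hP] at h1
      norm_num [Nat.totient_prime Nat.prime_three] at h1
    have h4 : Nat.card f.ker ∣ 4 := hS ▸ Subgroup.card_subgroup_dvd_card _
    obtain ⟨t, ht⟩ : ∃ t : f.ker, orderOf t = 2 := by
      refine exists_prime_orderOf_dvd_card' 2 ?_
      obtain ⟨j, -, hj⟩ := (Nat.dvd_prime_pow Nat.prime_two).1 (show Nat.card f.ker ∣ 2 ^ 2 from h4)
      rcases j with _ | j
      · exact absurd (Subgroup.card_eq_one.1 (by simpa using hj)) hker
      · rw [hj, pow_succ]; exact dvd_mul_left _ _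
    have htord : orderOf ((t : (S : Subgroup G)) : G) = 2 := by rw [Subgroup.orderOf_coe, Subgroup.orderOf_coe, ht]
    refine hz _ htord ?_
    set C := Subgroup.centralizer ({((t : (S : Subgroup G)) : G)} : Set G) with hC
    have hPC : (P : Subgroup G) ≤ C := by
      intro p hp
      rw [Subgroup.mem_centralizer_singleton_iff]
      have h2 := congrArg (fun a : MulAut (P : Subgroup G) => ((a ⟨p, hp⟩ : (P : Subgroup G)) : G)) (MonoidHom.mem_ker.1 t.2)
      simp only [hf, MonoidHom.comp_apply, MulAut.conjNormal_apply, MulAut.one_apply, Subgroup.coe_subtype] at h2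
      exact (mul_inv_eq_iff_eq_mul.1 h2).symm
    have hSC : (S : Subgroup G) ≤ C := by
      intro s hs
      rw [Subgroup.mem_centralizer_singleton_iff]
      exact congrArg Subtype.val (IsPGroup.commutative_of_card_eq_prime_sq (p := 2) (by rw [hS]; rfl) (⟨s, hs⟩ : (S : Subgroup G)) (t : (S : Subgroup G)))
    have hC' : C = ⊤ := by
      refine Subgroup.eq_top_of_card_eq _ (Nat.dvd_antisymm (Subgroup.card_subgroup_dvd_card _) ?_)
      rw [hG]
      exact Nat.Coprime.mul_dvd_of_dvd_of_dvd (by norm_num : Nat.Coprime 3 4) (hP ▸ Subgroup.card_dvd_of_le hPC)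
        (hS ▸ Subgroup.card_dvd_of_le hSC)
    rw [Subgroup.mem_center_iff]
    intro g
    exact Subgroup.mem_centralizer_singleton_iff.1 ((show g ∈ C by rw [hC']; exact Subgroup.mem_top g))
  have hPi : (P : Subgroup G).index = 4 := by
    have := (P : Subgroup G).card_mul_index
    rw [hP, hG] at this; omega
  have hn3 : Nat.card (Sylow 3 G) = 4 := by
    have h1 : Nat.card (Sylow 3 G) ∣ 4 := hPi ▸ P.card_dvd_index
    have h2 : Nat.card (Sylow 3 G) ≡ 1 [MOD 3] := card_sylow_modEq_one 3 G
    have h3 : Nat.card (Sylow 3 G) ≠ 1 := by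
      rw [P.card_eq_index_normalizer, Ne, Subgroup.index_eq_one]
      exact fun h => hnn (Subgroup.normalizer_eq_top_iff.1 h)
    have h4 := Nat.le_of_dvd (by norm_num) h1
    unfold Nat.ModEq at h2
    interval_cases h : Nat.card (Sylow 3 G) <;> simp_all
  have hN : Subgroup.normalizer (P : Set G) = P := by
    refine (Subgroup.eq_of_le_of_card_ge Subgroup.le_normalizer ?_).symm
    have h5 := (Subgroup.normalizer (P : Set G)).card_mul_index
    rw [← P.card_eq_index_normalizer, hn3, hG] at h5
    rw [hP]
    have h6 : Nat.card (Subgroup.normalizer (P : Set G)) = 3 := by omega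
    exact h6.le
  set φ := MulAction.toPermHom G (Sylow 3 G) with hφ
  have hinj : Function.Injective φ := by
    rw [← φ.ker_eq_bot_iff]
    have hle : φ.ker ≤ (P : Subgroup G) := by
      intro g hg
      rw [← hN, ← P.stabilizer_eq_normalizer, MulAction.mem_stabilizer_iff]
      exact Equiv.congr_fun (MonoidHom.mem_ker.1 hg) P
    rcases (Nat.dvd_prime Nat.prime_three).1 (hP ▸ Subgroup.card_dvd_of_le hle) with h | h
    · exact Subgroup.card_eq_one.1 h
    · exact absurd (Subgroup.eq_of_le_of_card_ge hle (by rw [h, hP]) ▸ φ.normal_ker) hnn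
  obtain ⟨e⟩ : Nonempty (Sylow 3 G ≃ Fin 4) := ⟨(Finite.equivFin _).trans (finCongr hn3)⟩
  set ψ := e.permCongrHom.toMonoidHom.comp φ with hψ
  have hψi : Function.Injective ψ := e.permCongrHom.injective.comp hinj
  have h2 : ψ.range.index = 2 := by
    have h6 := ψ.range.card_mul_index
    rw [← Nat.card_congr (MonoidHom.ofInjective hψi).toEquiv, hG, Nat.card_perm, Nat.card_fin] at h6
    norm_num [Nat.factorial] at h6
    omega
  exact ⟨(MonoidHom.ofInjective hψi).trans (MulEquiv.subgroupCongr (Equiv.Perm.eq_alternatingGroup_of_index_eq_two h2))⟩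

end Cfsg.Agent.S0228
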