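import Cfsg.Statements.S0229
import Cfsg.Agent.Invol.TwoPart

set_option autoImplicit false
open Cfsg

namespace Cfsg.Agent.S0229

/-- An isolated involution of a Sylow subgroup commutes with every conjugate of it in a common
2-group. -/
theorem eq_of_mem_two_group {G : Type*} [Group G] [Finite G] (P : Sylow 2 G) (u : G) (huP : u ∈ P)
    (hiso : ∀ g : G, g * u * g⁻¹ ∈ P → g * u * g⁻¹ = u) {R : Subgroup G} (hR : IsPGroup 2 R)
    {a : G} (ha : a ∈ R) (hconj : IsConj u a) : ∀ r ∈ R, r * a = a * r := by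
  obtain ⟨Q, hQ⟩ := hR.exists_le_sylow
  obtain ⟨h, hh⟩ := MulAction.exists_smul_eq G Q P
  have hmem : ∀ r ∈ R, h * r * h⁻¹ ∈ P := by
    intro r hr
    rw [← hh, ← SetLike.mem_coe, Sylow.coe_smul]
    exact ⟨r, hQ hr, rfl⟩
  obtain ⟨c, hc⟩ := isConj_iff.1 hconj
  have key : ∀ b ∈ R, IsConj u b → h * b * h⁻¹ = u := by
    intro b hb hcb
    obtain ⟨c, rfl⟩ := isConj_iff.1 hcb
    have h1 := hiso (h * c) (by
      have := hmem _ hb
      simpa [mul_assoc] using this)
    simpa [mul_assoc] using h1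
  intro r hr
  have h1 := key a ha hconj
  have h2 := key (r * a * r⁻¹) (mul_mem (mul_mem hr ha) (inv_mem hr))
    (hconj.trans (isConj_iff.2 ⟨r, rfl⟩))
  have h3 : r * a * r⁻¹ = a := mul_left_cancel (mul_right_cancel (h2.trans h1.symm))
  calc r * a = r * a * r⁻¹ * r := by group
    _ = a * r := by rw [h3]


/-- Let t be an involution of a Sylow 2-subgroup S of a finite group G, conjugate in G to no other element of S, and let s be an involution of G not conjugate to t. Then the order of st is twice an odd number. -/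
theorem result {G : Type*} [Group G] [Finite G] (S : Sylow 2 G) (t : G) (ht : orderOf t = 2) (htS : t ∈ S) (hiso : ∀ g : G, g * t * g⁻¹ ∈ S → g * t * g⁻¹ = t) (s : G) (hs : orderOf s = 2) (hns : ¬ IsConj s t) : orderOf (s * t) % 4 = 2 := by
  have hss := CfsgLib.Invol.mul_self_of_orderOf hs
  have htt := CfsgLib.Invol.mul_self_of_orderOf ht
  have : Fact (Nat.Prime 2) := ⟨Nat.prime_two⟩
  obtain ⟨d, z, k, m, hd, hdz, hzz, hk, hm, hn, hR⟩ := CfsgLib.Invol.exists_two_part hss htt
  have hz : IsConj t z := isConj_iff.2 ⟨d, hdz⟩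
  have hc := eq_of_mem_two_group S t htS hiso hR (Subgroup.subset_closure (Or.inr rfl)) hz s
    (Subgroup.subset_closure (Or.inl rfl))
  have hk1 : k = 1 := by
    have hord : orderOf (s * z) ∣ 2 := by
      refine orderOf_dvd_of_pow_eq_one ?_
      rw [(show Commute s z from hc).mul_pow, pow_two, pow_two, hss, hzz, one_mul]
    rw [hk] at hord
    have hle := (Nat.pow_dvd_pow_iff_le_right (by norm_num : 1 < 2)).1
      (by simpa using hord : 2 ^ k ∣ 2 ^ 1)
    rcases Nat.eq_zero_or_pos k with rfl | hpos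
    · exfalso
      apply hns
      rw [pow_zero, orderOf_eq_one_iff] at hk
      rw [← (eq_inv_of_mul_eq_one_left hk).trans
        (inv_eq_of_mul_eq_one_left hzz)] at hz
      exact hz.symm
    · omega
  obtain ⟨j, rfl⟩ := hm
  rw [hn, hk1]
  omega

end Cfsg.Agent.S0229
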