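import Cfsg.Statements.S0230
import Cfsg.Agent.Invol.TwoPart

set_option autoImplicit false
open Cfsg

namespace Cfsg.Agent.S0230

/-- Let G be a finite group with two non-conjugate involutions, and let t be an involution whose centralizer has maximal order among centralizers of involutions. Then |G| < |C_G(t)|^3. -/
theorem result {G : Type*} [Group G] [Finite G] (s t : G) (hs : orderOf s = 2) (ht : orderOf t = 2) (hnc : ¬ IsConj s t) (hmax : ∀ u : G, orderOf u = 2 → Nat.card (Subgroup.centralizer ({u} : Set G)) ≤ Nat.card (Subgroup.centralizer ({t} : Set G))) : Nat.card G < Nat.card (Subgroup.centralizer ({t} : Set G)) ^ 3 := by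
  classical
  have : Fintype G := Fintype.ofFinite G
  set c := Nat.card (Subgroup.centralizer ({t} : Set G)) with hc
  let I : Finset G := Finset.univ.filter fun z => orderOf z = 2 ∧ Commute z t
  let J : G → Finset G := fun z => Finset.univ.filter fun w => orderOf w = 2 ∧ Commute w z
  have hJ : ∀ z, (J z).card + 1 ≤ Nat.card (Subgroup.centralizer ({z} : Set G)) := by
    intro z
    rw [Nat.card_eq_fintype_card, Fintype.card_subtype]
    rw [← Finset.card_insert_of_notMem (a := (1 : G)) (s := J z) (by simp [J])]
    refine Finset.card_le_card fun w hw => ?_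
    rw [Finset.mem_filter]
    refine ⟨Finset.mem_univ _, Subgroup.mem_centralizer_singleton_iff.2 ?_⟩
    rcases Finset.mem_insert.1 hw with rfl | hw
    · simp
    · exact (Finset.mem_filter.1 hw).2.2.eq
  have hI : I.card + 1 ≤ c := hJ t
  have hcls : Nat.card G = Nat.card (Subgroup.centralizer ({s} : Set G)) *
      (Subgroup.centralizer ({s} : Set G)).index := (Subgroup.card_mul_index _).symm
  have hsub : (Finset.univ.filter fun w => IsConj s w) ⊆ I.biUnion J := by
    intro w hw
    have hsw := (Finset.mem_filter.1 hw).2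
    obtain ⟨g, rfl⟩ := isConj_iff.1 hsw
    have hwo : orderOf (g * s * g⁻¹) = 2 := (CfsgLib.Invol.orderOf_conj g s).trans hs
    obtain ⟨z, hz, hzt, hzw⟩ := CfsgLib.Invol.exists_commuting_involution ht hwo
      (fun h => hnc (hsw.trans h.symm))
    rw [Finset.mem_biUnion]
    exact ⟨z, Finset.mem_filter.2 ⟨Finset.mem_univ _, hz, hzt⟩,
      Finset.mem_filter.2 ⟨Finset.mem_univ _, hwo, hzw.symm⟩⟩
  have hidx : (Subgroup.centralizer ({s} : Set G)).index ≤
      (Finset.univ.filter fun w => IsConj s w).card := by
    rw [← Fintype.card_subtype, ← Nat.card_eq_fintype_card, Subgroup.index_eq_card]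
    refine Nat.card_le_card_of_injective
      (fun q => ⟨q.out * s * q.out⁻¹, isConj_iff.2 ⟨q.out, rfl⟩⟩) ?_
    intro a b hab
    simp only [Subtype.mk.injEq] at hab
    rw [← QuotientGroup.out_eq' a, ← QuotientGroup.out_eq' b, QuotientGroup.eq,
      Subgroup.mem_centralizer_singleton_iff]
    calc a.out⁻¹ * b.out * s = a.out⁻¹ * (b.out * s * b.out⁻¹) * b.out := by group
      _ = a.out⁻¹ * (a.out * s * a.out⁻¹) * b.out := by rw [hab]
      _ = _ := by group
  have hun : (I.biUnion J).card ≤ I.card * c :=
    Finset.card_biUnion_le_card_mul _ _ _ fun z hz =>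
      (Nat.le_succ _).trans ((hJ z).trans (hmax z (Finset.mem_filter.1 hz).2.1))
  have h1 := (hidx.trans (Finset.card_le_card hsub)).trans hun
  have h2 : Nat.card (Subgroup.centralizer ({s} : Set G)) ≤ c := hmax s hs
  have hcpos : 0 < c := Nat.card_pos
  calc Nat.card G ≤ c * (I.card * c) := hcls ▸ Nat.mul_le_mul h2 h1
    _ < c * (c * c) := (Nat.mul_lt_mul_left hcpos).2 ((Nat.mul_lt_mul_right hcpos).2 (by omega))
    _ = c ^ 3 := by ring

end Cfsg.Agent.S0230
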