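import Cfsg.Statements.S0231
import Cfsg.Agent.Invol.TwoPart

set_option autoImplicit false
open scoped Pointwise
open Cfsg

namespace Cfsg.Agent.S0231

/-- Let T be a Sylow 2-subgroup of the finite group G which is not normal and which intersects every other Sylow 2-subgroup trivially. Then G has a single conjugacy class of involutions. -/
theorem result {G : Type*} [Group G] [Finite G] (T : Sylow 2 G) (hnn : ¬ (T : Subgroup G).Normal) (hTI : ∀ g : G, MulAut.conj g • (T : Subgroup G) ≠ T → MulAut.conj g • (T : Subgroup G) ⊓ T = ⊥) (s t : G) (hs : orderOf s = 2) (ht : orderOf t = 2) : IsConj s t := by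
  classical
  have : Fact (Nat.Prime 2) := ⟨Nat.prime_two⟩
  -- distinct Sylow subgroups meet trivially
  have hTI' : ∀ (R Q : Sylow 2 G) (x : G), x ≠ 1 → x ∈ R → x ∈ Q → R = Q := by
    intro R Q x hx hR hQ
    obtain ⟨a, rfl⟩ := MulAction.exists_smul_eq G T R
    obtain ⟨b, rfl⟩ := MulAction.exists_smul_eq G T Q
    by_contra hne
    have hg : MulAut.conj (b⁻¹ * a) • (T : Subgroup G) ≠ T := by
      intro h
      apply hne
      have : (b⁻¹ * a) • T = T := Sylow.ext (by rw [Sylow.coe_subgroup_smul]; exact h)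
      rw [mul_smul, inv_smul_eq_iff] at this
      exact this
    have h1 : b⁻¹ * x * b ∈ MulAut.conj (b⁻¹ * a) • (T : Subgroup G) ⊓ (T : Subgroup G) := by
      change x ∈ MulAut.conj a • (T : Subgroup G) at hR
      change x ∈ MulAut.conj b • (T : Subgroup G) at hQ
      rw [Subgroup.mem_pointwise_smul_iff_inv_smul_mem] at hR hQ
      simp only [← map_inv, MulAut.smul_def, MulAut.conj_apply, inv_inv] at hR hQ
      refine Subgroup.mem_inf.2 ⟨?_, hQ⟩
      rw [Subgroup.mem_pointwise_smul_iff_inv_smul_mem]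
      simpa [← map_inv, MulAut.smul_def, mul_assoc] using hR
    rw [hTI _ hg, Subgroup.mem_bot] at h1
    apply hx
    calc x = b * (b⁻¹ * x * b) * b⁻¹ := by group
      _ = 1 := by rw [h1]; group
  have hpair : ∀ a b : G, orderOf a = 2 → orderOf b = 2 → Commute a b →
      ∀ R Q : Sylow 2 G, a ∈ R → b ∈ Q → R = Q := by
    intro a b ha hb hab R Q hR hQ
    obtain ⟨S, hS⟩ : ∃ S : Sylow 2 G, a ∈ S ∧ b ∈ S := by
      have haa := CfsgLib.Invol.mul_self_of_orderOf ha
      have hbb := CfsgLib.Invol.mul_self_of_orderOf hb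
      obtain ⟨S, hS⟩ := (CfsgLib.Invol.isPGroup_closure_pair haa hbb (k := 1) (by
        refine orderOf_dvd_of_pow_eq_one ?_
        rw [pow_one, hab.mul_pow, pow_two, pow_two, haa, hbb, one_mul])).exists_le_sylow
      exact ⟨S, hS (Subgroup.subset_closure (Or.inl rfl)), hS (Subgroup.subset_closure (Or.inr rfl))⟩
    exact (hTI' R S a (CfsgLib.Invol.ne_one_of_orderOf ha) hR hS.1).trans
      (hTI' S Q b (CfsgLib.Invol.ne_one_of_orderOf hb) hS.2 hQ)
  have hnonconj : ∀ a b : G, orderOf a = 2 → orderOf b = 2 → ¬ IsConj a b →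
      ∀ R Q : Sylow 2 G, a ∈ R → b ∈ Q → R = Q := by
    intro a b ha hb hab R Q hR hQ
    obtain ⟨z, hz, hza, hzb⟩ := CfsgLib.Invol.exists_commuting_involution ha hb hab
    obtain ⟨S, hS⟩ : ∃ S : Sylow 2 G, z ∈ S := by
      obtain ⟨S, hS⟩ := (IsPGroup.of_card (n := 1)
        (show Nat.card (Subgroup.zpowers z) = 2 ^ 1 by rw [Nat.card_zpowers, hz, pow_one])).exists_le_sylow
      exact ⟨S, hS (Subgroup.mem_zpowers z)⟩
    exact (hpair a z ha hz hza.symm R S hR hS).trans (hpair z b hz hb hzb S Q hS hQ)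
  by_contra hst
  have hsyl : ∀ a : G, orderOf a = 2 → ∃ R : Sylow 2 G, a ∈ R := by
    intro a ha
    obtain ⟨S, hS⟩ := (IsPGroup.of_card (n := 1)
      (show Nat.card (Subgroup.zpowers a) = 2 ^ 1 by rw [Nat.card_zpowers, ha, pow_one])).exists_le_sylow
    exact ⟨S, hS (Subgroup.mem_zpowers a)⟩
  obtain ⟨R, hR⟩ := hsyl s hs
  obtain ⟨R', hR'⟩ := hsyl t ht
  obtain rfl := hnonconj s t hs ht hst R R' hR hR'
  -- every conjugate of `t` lies in `R`, so `R` is normal
  apply hnn
  have hall : ∀ g : G, g • R = R := by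
    intro g
    refine (hnonconj s (g * t * g⁻¹) hs ((CfsgLib.Invol.orderOf_conj g t).trans ht)
      (fun h => hst (h.trans (isConj_iff.2 ⟨g, rfl⟩).symm)) R (g • R) hR ?_).symm
    rw [← SetLike.mem_coe, Sylow.coe_smul]
    exact ⟨t, hR', rfl⟩
  obtain ⟨a, rfl⟩ := MulAction.exists_smul_eq G T R
  rw [← Subgroup.normalizer_eq_top_iff, eq_top_iff]
  intro g _
  refine Sylow.smul_eq_iff_mem_normalizer.1 ?_
  have := hall (a * g * a⁻¹)
  rw [← mul_smul, inv_mul_cancel_right, mul_smul] at this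
  exact MulAction.injective a this

end Cfsg.Agent.S0231
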