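import Cfsg.Statements.S0232
import Cfsg.Agent.Invol.BrauerFowler
import Mathlib.GroupTheory.SchurZassenhaus

set_option autoImplicit false
open Cfsg

namespace Cfsg.Agent.S0232

/-- A finite group G of even order greater than 2 has a proper subgroup H with |G| < |H|^3. -/
theorem result {G : Type*} [Group G] [Finite G] (heven : Even (Nat.card G)) (hgt : 2 < Nat.card G) : ∃ H : Subgroup G, H ≠ ⊤ ∧ Nat.card G < (Nat.card H) ^ 3 := by
  suffices h : ∀ n : ℕ, Even n → 2 < n → ∀ (G : Type u_1) [Group G] [Finite G],
      Nat.card G = n → ∃ H : Subgroup G, H ≠ ⊤ ∧ n < (Nat.card H) ^ 3 from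
    h _ heven hgt G rfl
  intro n
  induction n using Nat.strong_induction_on with
  | _ n ih =>
    intro hev hgt G _ _ hcard
    have hev' : Even (Nat.card G) := hcard ▸ hev
    rcases Nat.even_or_odd (Nat.card (Subgroup.center G)) with hZ | hZ
    · -- a central involution
      have : Fact (Nat.Prime 2) := ⟨Nat.prime_two⟩
      obtain ⟨z, hz⟩ := exists_prime_orderOf_dvd_card' 2 (even_iff_two_dvd.1 hZ)
      set Z := Subgroup.zpowers (z : G) with hZdef
      have hZ2 : Nat.card Z = 2 := by rw [hZdef, Nat.card_zpowers, Subgroup.orderOf_coe, hz]
      have : Z.Normal := ⟨fun a ha g => by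
        have hac : a ∈ Subgroup.center G := (Subgroup.zpowers_le.2 z.2) ha
        rw [Subgroup.mem_center_iff.1 hac g, mul_inv_cancel_right]; exact ha⟩
      have hidx : 2 * Z.index = n := by rw [← hZ2, Subgroup.card_mul_index, hcard]
      rcases Nat.even_or_odd Z.index with hi | hi
      · by_cases hgt2 : 2 < Z.index
        · obtain ⟨K, hK, hK3⟩ := ih Z.index (by omega) hi hgt2 (G ⧸ Z) (Subgroup.index_eq_card Z).symm
          refine ⟨K.comap (QuotientGroup.mk' Z), ?_, ?_⟩
          · intro h
            apply hK
            rw [← Subgroup.map_comap_eq_self_of_surjective (QuotientGroup.mk'_surjective Z) K, h,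
              Subgroup.map_top_of_surjective _ (QuotientGroup.mk'_surjective Z)]
          · have h1 := Subgroup.card_mul_index (K.comap (QuotientGroup.mk' Z))
            rw [Subgroup.index_comap_of_surjective _ (QuotientGroup.mk'_surjective Z), hcard] at h1
            have h2 := Subgroup.card_mul_index K
            rw [← Subgroup.index_eq_card] at h2
            have hpos : 0 < K.index := Nat.pos_of_ne_zero Subgroup.index_ne_zero_of_finite
            have h3 : Nat.card (K.comap (QuotientGroup.mk' Z)) = 2 * Nat.card K := by
              apply Nat.eq_of_mul_eq_mul_right hpos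
              rw [h1, mul_assoc, h2, hidx]
            rw [h3, mul_pow, ← hidx]
            omega
        · refine ⟨Z, ?_, ?_⟩
          · intro h; rw [h, Subgroup.card_top, hcard] at hZ2; omega
          · rw [hZ2]; omega
      · obtain ⟨K, hK⟩ := Subgroup.exists_right_complement'_of_coprime (N := Z)
          (by rw [hZ2]; exact (Nat.coprime_two_left).2 hi)
        have hKc : Nat.card K = Z.index := by
          have h1 := hK.card_mul
          rw [hZ2, hcard, ← hidx] at h1
          omega
        refine ⟨K, ?_, ?_⟩
        · intro h; rw [h, Subgroup.card_top, hcard] at hKc; omega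
        · rw [hKc]
          have h3 : 2 ≤ Z.index := by omega
          have : 2 * Z.index < Z.index ^ 3 := by
            calc 2 * Z.index = Z.index * 2 := mul_comm _ _
              _ < Z.index * (Z.index * Z.index) := (Nat.mul_lt_mul_left (by omega)).2 (by nlinarith)
              _ = Z.index ^ 3 := by ring
          omega
    · obtain ⟨H, hH, hcase⟩ := CfsgLib.Invol.brauer_fowler hev' hZ
      rcases hcase with h | h
      · refine ⟨H, hH, ?_⟩
        have h1 := Subgroup.card_mul_index H
        rw [h, hcard] at h1
        have : 2 ≤ Nat.card H := by omega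
        rw [← h1]
        calc Nat.card H * 2 < Nat.card H * (Nat.card H * Nat.card H) :=
              (Nat.mul_lt_mul_left (by omega)).2 (by nlinarith)
          _ = Nat.card H ^ 3 := by ring
      · have : Fact (Nat.Prime 2) := ⟨Nat.prime_two⟩
        obtain ⟨t, ht⟩ := exists_prime_orderOf_dvd_card' 2 (even_iff_two_dvd.1 hev')
        set C := Subgroup.centralizer ({t} : Set G) with hC
        have hCt : C ≠ ⊤ := by
          intro hh
          rw [hC] at hh
          have hmem : t ∈ Subgroup.center G := by
            rw [Subgroup.mem_center_iff]
            intro g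
            exact Subgroup.mem_centralizer_singleton_iff.1 (hh ▸ Subgroup.mem_top g)
          have := Subgroup.orderOf_dvd_natCard _ hmem
          rw [ht] at this
          exact Nat.not_even_iff_odd.2 hZ (even_iff_two_dvd.2 this)
        have h2C : 2 ≤ Nat.card C := Nat.le_of_dvd Nat.card_pos
          (ht ▸ Subgroup.orderOf_dvd_natCard _ (Subgroup.mem_centralizer_singleton_iff.2 rfl))
        set T := Nat.card {u : G // orderOf u = 2}
        have hT : C.index ≤ T := by
          rw [Subgroup.index_eq_card]
          refine Nat.card_le_card_of_injective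
            (fun q => ⟨q.out * t * q.out⁻¹, (CfsgLib.Invol.orderOf_conj _ _).trans ht⟩) ?_
          intro a b hab
          simp only [Subtype.mk.injEq] at hab
          rw [← QuotientGroup.out_eq' a, ← QuotientGroup.out_eq' b, QuotientGroup.eq,
            Subgroup.mem_centralizer_singleton_iff]
          calc a.out⁻¹ * b.out * t = a.out⁻¹ * (b.out * t * b.out⁻¹) * b.out := by group
            _ = a.out⁻¹ * (a.out * t * a.out⁻¹) * b.out := by rw [hab]
            _ = _ := by group
        have hTC : n ≤ Nat.card C * T := by
          rw [← hcard, ← Subgroup.card_mul_index C]; exact Nat.mul_le_mul_left _ hT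
        rw [hcard] at h
        have hHi := Subgroup.card_mul_index H
        rw [hcard] at hHi
        by_contra hnone
        push Not at hnone
        have hC3 := hnone C hCt
        have hH3 := hnone H hH
        generalize Nat.card C = c at *
        generalize Nat.card H = m at *
        generalize H.index = i at *
        have hTpos : 0 < T := Nat.pos_of_ne_zero (fun h0 => by rw [h0] at hTC; omega)
        have h2 : n * (n + T) ≤ c * T * (c * T + T) :=
          Nat.mul_le_mul hTC (Nat.add_le_add_right hTC T)
        have h3 : 2 * i < c * (c + 1) :=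
          Nat.lt_of_mul_lt_mul_left (a := T ^ 2)
            (by rw [mul_comm]; exact lt_of_lt_of_le h (h2.trans (le_of_eq (by ring))))
        have h5 : 2 * n < m * (c * (c + 1)) := by
          rw [← hHi]
          rcases Nat.eq_zero_or_pos m with rfl | hm
          · omega
          · calc 2 * (m * i) = m * (2 * i) := by ring
              _ < _ := (Nat.mul_lt_mul_left hm).2 h3
        rcases le_total m c with hmc | hmc
        · have : m * (c * (c + 1)) ≤ c * (c * (c + 1)) := Nat.mul_le_mul_right _ hmc
          nlinarith
        · have : c * (c + 1) ≤ m * (m + 1) := Nat.mul_le_mul hmc (Nat.add_le_add_right hmc 1)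
          have : m * (c * (c + 1)) ≤ m * (m * (m + 1)) := Nat.mul_le_mul_left _ this
          nlinarith

end Cfsg.Agent.S0232
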