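import Cfsg.Statements.S0239
import Cfsg.Agent.Invol.Counting

set_option autoImplicit false
open Cfsg

namespace Cfsg.Agent.S0239

/-- If some nontrivial element x of a finite group G is conjugate to x⁻¹, then |G| is even. -/
theorem result {G : Type*} [Group G] [Finite G] (x : G) (hx : x ≠ 1) (hreal : IsConj x x⁻¹) : Even (Nat.card G) := by
  by_contra hne
  rw [Nat.not_even_iff_odd] at hne
  obtain ⟨g, hg⟩ := isConj_iff.1 hreal
  have key : ∀ k : ℕ, g ^ (2 * k) * x * (g ^ (2 * k))⁻¹ = x := by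
    intro k
    induction k with
    | zero => simp
    | succ k ih =>
      calc g ^ (2 * (k + 1)) * x * (g ^ (2 * (k + 1)))⁻¹
          = g * (g * (g ^ (2 * k) * x * (g ^ (2 * k))⁻¹) * g⁻¹) * g⁻¹ := by
            rw [show 2 * (k + 1) = 1 + 1 + 2 * k by ring, pow_add, pow_add, pow_one]; group
        _ = g * x⁻¹ * g⁻¹ := by rw [ih, hg]
        _ = (g * x * g⁻¹)⁻¹ := by group
        _ = x := by rw [hg, inv_inv]
  obtain ⟨m, hm⟩ := hne
  have h1 : g ^ (2 * m + 1) = 1 := by rw [← hm]; exact pow_card_eq_one'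
  have h2 : x = x⁻¹ := by
    calc x = g ^ (2 * m + 1) * x * (g ^ (2 * m + 1))⁻¹ := by rw [h1]; group
      _ = g * (g ^ (2 * m) * x * (g ^ (2 * m))⁻¹) * g⁻¹ := by rw [pow_succ']; group
      _ = x⁻¹ := by rw [key, hg]
  have h3 := CfsgLib.Invol.orderOf_eq_two (by nth_rewrite 1 [h2]; exact inv_mul_cancel x) hx
  have h4 := orderOf_dvd_natCard x
  rw [h3, hm] at h4
  omega

end Cfsg.Agent.S0239
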