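import Cfsg.Statements.S0240
import Cfsg.Agent.Invol.Counting

set_option autoImplicit false
open Cfsg

namespace Cfsg.Agent.S0240

/-- Let G be a finite group with n involutions and H a subgroup with |H|·(n+1) > |G|. Then some nontrivial h ∈ H is strongly real in G: an involution t of G satisfies t h t⁻¹ = h⁻¹. -/
theorem result {G : Type*} [Group G] [Finite G] (H : Subgroup G) (hH : Nat.card G < Nat.card H * (Nat.card {t : G // orderOf t = 2} + 1)) : ∃ h : G, h ∈ H ∧ h ≠ 1 ∧ ∃ t : G, orderOf t = 2 ∧ t * h * t⁻¹ = h⁻¹ := by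
  classical
  let f : Option {t : G // orderOf t = 2} → G ⧸ H := fun o => o.elim ((1 : G) : G ⧸ H) (fun t => (t.1 : G ⧸ H))
  have hnot : ¬ Function.Injective f := by
    intro hf
    have h := Nat.card_le_card_of_injective f hf
    rw [Finite.card_option, ← Subgroup.index_eq_card] at h
    have := Subgroup.card_mul_index H
    have := Nat.mul_le_mul_left (Nat.card H) h
    omega
  obtain ⟨a, b, hab, hne⟩ := Function.not_injective_iff.1 hnot
  have case1 : ∀ t : {t : G // orderOf t = 2}, ((1 : G) : G ⧸ H) = (t.1 : G ⧸ H) →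
      ∃ h : G, h ∈ H ∧ h ≠ 1 ∧ ∃ t : G, orderOf t = 2 ∧ t * h * t⁻¹ = h⁻¹ := by
    intro t ht
    rw [QuotientGroup.eq, inv_one, one_mul] at ht
    exact ⟨t.1, ht, CfsgLib.Invol.ne_one_of_orderOf t.2, t.1, t.2, by
      rw [mul_inv_cancel_right, CfsgLib.Invol.inv_eq_of_orderOf t.2]⟩
  rcases a with _ | s <;> rcases b with _ | t
  · exact absurd rfl hne
  · exact case1 t hab
  · exact case1 s hab.symm
  · refine ⟨s.1⁻¹ * t.1, QuotientGroup.eq.1 hab, ?_, s.1, s.2, ?_⟩
    · intro h
      exact hne (congrArg some (Subtype.ext (inv_mul_eq_one.1 h)))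
    · rw [mul_inv_rev, inv_inv, mul_inv_cancel_left, CfsgLib.Invol.inv_eq_of_orderOf t.2,
        CfsgLib.Invol.inv_eq_of_orderOf s.2]

end Cfsg.Agent.S0240
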