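import Cfsg.Statements.S0241
import Cfsg.Agent.Invol.Counting

set_option autoImplicit false
open Cfsg

namespace Cfsg.Agent.S0241

/-- If x ≠ 1 is conjugate to x⁻¹ in a finite group G and |C_G(x)| is odd, then some involution t satisfies t x t⁻¹ = x⁻¹. -/
theorem result {G : Type*} [Group G] [Finite G] (x : G) (hx : x ≠ 1) (hreal : IsConj x x⁻¹) (hodd : Odd (Nat.card (Subgroup.centralizer ({x} : Set G)))) : ∃ t : G, orderOf t = 2 ∧ t * x * t⁻¹ = x⁻¹ := by
  obtain ⟨g, hg⟩ := isConj_iff.1 hreal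
  have hg2 : g ^ 2 ∈ Subgroup.centralizer ({x} : Set G) := by
    rw [Subgroup.mem_centralizer_singleton_iff]
    calc g ^ 2 * x = g * (g * x * g⁻¹) * g := by rw [pow_two]; group
      _ = g * x⁻¹ * g⁻¹ * g ^ 2 := by rw [hg]; group
      _ = (g * x * g⁻¹)⁻¹ * g ^ 2 := by group
      _ = x * g ^ 2 := by rw [hg, inv_inv]
  obtain ⟨m, hm⟩ := hodd
  have h1 : (g ^ 2) ^ (2 * m + 1) = 1 := by
    have := congrArg Subtype.val (pow_card_eq_one' (x := (⟨g ^ 2, hg2⟩ : Subgroup.centralizer ({x} : Set G))))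
    rw [← hm]; simpa only [SubmonoidClass.coe_pow, OneMemClass.coe_one] using this
  set t := g ^ (2 * m + 1) with ht
  have htt : t * t = 1 := by
    rw [ht, ← pow_add, ← two_mul, pow_mul, h1]
  have hgm : (g ^ 2) ^ m ∈ Subgroup.centralizer ({x} : Set G) := pow_mem hg2 m
  rw [Subgroup.mem_centralizer_singleton_iff] at hgm
  have hinv : t * x * t⁻¹ = x⁻¹ := by
    calc t * x * t⁻¹ = g * ((g ^ 2) ^ m * x) * ((g ^ 2) ^ m)⁻¹ * g⁻¹ := by
          rw [ht, pow_succ', pow_mul]; group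
      _ = g * x * g⁻¹ := by rw [hgm]; group
      _ = x⁻¹ := hg
  refine ⟨t, CfsgLib.Invol.orderOf_eq_two htt ?_, hinv⟩
  intro ht1
  rw [ht1, one_mul, inv_one, mul_one] at hinv
  have h3 := CfsgLib.Invol.orderOf_eq_two (by nth_rewrite 1 [hinv]; exact inv_mul_cancel x) hx
  have h4 : orderOf x ∣ Nat.card (Subgroup.centralizer ({x} : Set G)) :=
    Subgroup.orderOf_dvd_natCard _ (Subgroup.mem_centralizer_singleton_iff.2 rfl)
  rw [h3, hm] at h4
  omega

end Cfsg.Agent.S0241
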