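import Mathlib
import Cfsg.Statements.S0244
-- import your own Cfsg.Agent.* helpers here

set_option autoImplicit false
open Cfsg

namespace Cfsg.Agent.S0244

/-- Sp_2 = SL_2: a matrix on Fin 1 ⊕ Fin 1 lies in Mathlib's symplectic group iff its determinant is 1. -/
theorem result {R : Type*} [CommRing R] (A : Matrix (Fin 1 ⊕ Fin 1) (Fin 1 ⊕ Fin 1) R) : A ∈ Matrix.symplecticGroup (Fin 1) R ↔ A.det = 1 := by
  have hdet : A.det = A (.inl 0) (.inl 0) * A (.inr 0) (.inr 0) -
      A (.inl 0) (.inr 0) * A (.inr 0) (.inl 0) := by
    rw [← Matrix.det_submatrix_equiv_self finSumFinEquiv.symm A, Matrix.det_fin_two]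
    rfl
  rw [SymplecticGroup.mem_iff, hdet]
  constructor
  · intro h
    have := congrFun₂ h (.inr 0) (.inl 0)
    simp [Matrix.mul_apply, Fintype.sum_sum_type, Matrix.J] at this
    linear_combination this
  · intro h
    ext i j
    fin_cases i <;> fin_cases j <;>
      simp [Matrix.mul_apply, Fintype.sum_sum_type, Matrix.J] <;>
      first
        | linear_combination h
        | linear_combination -h
        | ring1

end Cfsg.Agent.S0244
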