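import Cfsg.Statements.S0256
import Cfsg.Agent.A8GL4.Basic

set_option autoImplicit false
open Cfsg

namespace Cfsg.Agent.S0256

/-- PSL_4(2) is isomorphic to A_8. -/
theorem result {F : Type*} [Field F] [Fintype F] (hF : Fintype.card F = 2) : Nonempty (Matrix.ProjectiveSpecialLinearGroup (Fin 4) F ≃* alternatingGroup (Fin 8)) := by
  haveI : Fact (Nat.Prime 2) := ⟨Nat.prime_two⟩
  obtain ⟨e⟩ := CfsgLib.A8GL4.nonempty_equiv
  let r : ZMod 2 ≃+* F := FiniteField.ringEquivOfCardEq (by rw [ZMod.card, hF])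
  let f : Matrix.SpecialLinearGroup (Fin 4) (ZMod 2) →* Matrix.SpecialLinearGroup (Fin 4) F :=
    Matrix.SpecialLinearGroup.map r.toRingHom
  let g : Matrix.SpecialLinearGroup (Fin 4) F →* Matrix.SpecialLinearGroup (Fin 4) (ZMod 2) :=
    Matrix.SpecialLinearGroup.map r.symm.toRingHom
  let m : Matrix.SpecialLinearGroup (Fin 4) (ZMod 2) ≃* Matrix.SpecialLinearGroup (Fin 4) F :=
    f.toMulEquiv g (MonoidHom.ext fun x => by ext i j; simp [f, g])
      (MonoidHom.ext fun x => by ext i j; simp [f, g])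
  exact ⟨((QuotientGroup.quotientMulEquivOfEq (CfsgLib.A8GL4.center_eq_bot F hF)).trans
    QuotientGroup.quotientBot).trans (m.symm.trans e)⟩

end Cfsg.Agent.S0256
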