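import Cfsg.Statements.S0257
import Cfsg.Agent.SL2.SylowTwo
-- import your own Cfsg.Agent.* helpers here

set_option autoImplicit false
open Cfsg

namespace Cfsg.Agent.S0257

/-- SL_2(3) has a normal subgroup of index 3 isomorphic to the quaternion group of order 8, and its centre has order 2. -/
theorem result {F : Type*} [Field F] [Fintype F] (hF : Fintype.card F = 3) : (∃ Q : Subgroup (Matrix.SpecialLinearGroup (Fin 2) F), Q.Normal ∧ Q.index = 3 ∧ Nonempty (Q ≃* QuaternionGroup 2)) ∧ Nat.card (Subgroup.center (Matrix.SpecialLinearGroup (Fin 2) F)) = 2 := by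
  classical
  have : Fact (Nat.Prime 3) := ⟨by norm_num⟩
  have hodd : Odd (Nat.card F) := by rw [Nat.card_eq_fintype_card, hF]; decide
  have h2 : (2 : F) ≠ 0 := by
    intro h
    have := FiniteField.even_card_of_char_two (F := F)
      (ringChar.eq_iff.2 (CharTwo.of_one_ne_zero_of_two_eq_zero one_ne_zero h))
    omega
  let e : ZMod 3 ≃+* F := ZMod.ringEquivOfPrime F (by norm_num) hF
  let f := Matrix.SpecialLinearGroup.map (n := Fin 2) e.symm.toRingHom
  have hf : Function.Bijective f := by
    refine Function.bijective_iff_has_inverse.2 ⟨Matrix.SpecialLinearGroup.map (n := Fin 2) e.toRingHom,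
      fun g => ?_, fun g => ?_⟩ <;>
    · ext i j; simp [f, Matrix.SpecialLinearGroup.map_apply_coe]
  let E := MulEquiv.ofBijective f hf
  have h24 : Nat.card (Matrix.SpecialLinearGroup (Fin 2) F) = 24 := by
    rw [Nat.card_congr E.toEquiv, Nat.card_eq_fintype_card]; exact (by decide +kernel :
      (Finset.univ : Finset (Matrix.SpecialLinearGroup (Fin 2) (ZMod 3))).card = 24)
  obtain ⟨S⟩ := (inferInstance : Nonempty (Sylow 2 (Matrix.SpecialLinearGroup (Fin 2) F)))
  have h8 : Nat.card (S : Subgroup (Matrix.SpecialLinearGroup (Fin 2) F)) = 8 := by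
    rw [Sylow.card_eq_multiplicity, h24, Nat.factorization_def _ Nat.prime_two,
      show (24 : ℕ) = 2 ^ 3 * 3 by norm_num, padicValNat.mul (by norm_num) (by norm_num),
      padicValNat.prime_pow, padicValNat.eq_zero_of_not_dvd (by norm_num : ¬ 2 ∣ 3)]
    rfl
  obtain ⟨d⟩ := CfsgLib.SL2.exists_sylowTwoData hodd S
  obtain ⟨eq⟩ := d.quat
  have hk : d.k = 1 := by
    have h := Nat.card_congr eq.toEquiv
    rw [h8, Nat.card_eq_fintype_card, QuaternionGroup.card] at h
    exact Nat.pow_right_injective (le_refl 2) (show 2 ^ d.k = 2 ^ 1 by omega)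
  rw [hk] at eq
  have hset : ((S : Subgroup (Matrix.SpecialLinearGroup (Fin 2) F)) : Set (Matrix.SpecialLinearGroup (Fin 2) F)) =
      {g | g ^ 4 = 1} := by
    refine Set.eq_of_subset_of_ncard_le (fun g hg => ?_) ?_
    · have h1 : ∀ q : QuaternionGroup (2 ^ 1), q ^ 4 = 1 := by decide
      have h := congrArg Subtype.val (eq.injective ((map_pow eq ⟨g, hg⟩ 4).trans ((h1 _).trans (map_one eq).symm)))
      simpa using h
    · rw [← Nat.card_coe_set_eq, ← Nat.card_coe_set_eq, SetLike.coe_sort_coe, h8,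
        Nat.card_congr (Equiv.subtypeEquiv E.toEquiv (q := fun g => g ^ 4 = 1) fun g => by
          simp [← map_pow]), Nat.card_eq_fintype_card, Fintype.card_subtype]
      exact le_of_eq (by decide +kernel)
  refine ⟨⟨S, ⟨fun n hn g => ?_⟩, ?_, ⟨eq⟩⟩, ?_⟩
  · rw [← SetLike.mem_coe, hset, Set.mem_ofPred_eq] at hn ⊢
    rw [conj_pow, hn, mul_one, mul_inv_cancel]
  · have h := Subgroup.card_mul_index (S : Subgroup (Matrix.SpecialLinearGroup (Fin 2) F))
    rw [h8, h24] at h
    omega
  · rw [CfsgLib.SL2.card_center, CfsgLib.SL2.card_sq_eq_one_odd h2]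

end Cfsg.Agent.S0257
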