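import Cfsg.Statements.S0258
import Cfsg.Agent.SL2.GLTwo
-- import your own Cfsg.Agent.* helpers here

set_option autoImplicit false
open Cfsg

namespace Cfsg.Agent.S0258

/-- GL_2(q), q a power of the prime p, has exactly q + 1 Sylow p-subgroups. -/
theorem result {F : Type*} [Field F] [Fintype F] {q : ℕ} (hF : Fintype.card F = q) (p : ℕ) [Fact p.Prime] [CharP F p] : Nat.card (Sylow p (Matrix.GeneralLinearGroup (Fin 2) F)) = q + 1 := by
  subst hF
  obtain ⟨P0, hP0⟩ := CfsgLib.SL2.GLTwo.exists_sylow_uHom (F := F) p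
  have hN : Nat.card (Sylow p (Matrix.GeneralLinearGroup (Fin 2) F)) = (Cfsg.upperTriangularGL 2 F).index := by
    rw [← CfsgLib.SL2.GLTwo.normalizer_uHom, ← hP0]
    exact Sylow.card_eq_index_normalizer P0
  rw [hN]
  have e2 := Subgroup.card_mul_index (Cfsg.upperTriangularGL 2 F)
  rw [CfsgLib.SL2.GLTwo.card_borel, Matrix.card_GL_field, Fin.prod_univ_two] at e2
  obtain ⟨r, hr⟩ : ∃ r, Fintype.card F = r + 1 := ⟨Fintype.card F - 1, by have := Fintype.card_pos (α := F); omega⟩
  have hr0 : 0 < r := by have := Fintype.one_lt_card (α := F); omega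
  simp only [Fin.val_zero, pow_zero, Fin.val_one, pow_one, hr, Nat.add_sub_cancel,
    show (r + 1) ^ 2 - 1 = r * (r + 2) by rw [show (r + 1) ^ 2 = r * (r + 2) + 1 by ring]; omega,
    show (r + 1) ^ 2 - (r + 1) = r * (r + 1) by rw [show (r + 1) ^ 2 = r * (r + 1) + (r + 1) by ring]; omega] at e2 ⊢
  have hpos : 0 < (r + 1) * r ^ 2 := by positivity
  exact Nat.eq_of_mul_eq_mul_left hpos (e2.trans (by ring))

end Cfsg.Agent.S0258
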