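import Cfsg.Statements.S0260
import Cfsg.Agent.SL2.Elements
import Cfsg.Agent.SL2.Basic
-- import your own Cfsg.Agent.* helpers here

set_option autoImplicit false
open Cfsg
open scoped Pointwise

namespace Cfsg.Agent.S0260

/-- Any two distinct Sylow p-subgroups of SL_2(q), p the characteristic, generate SL_2(q). -/
theorem result {F : Type*} [Field F] [Fintype F] (p : ℕ) [Fact p.Prime] [CharP F p] (P Q : Sylow p (Matrix.SpecialLinearGroup (Fin 2) F)) (h : P ≠ Q) : (P : Subgroup (Matrix.SpecialLinearGroup (Fin 2) F)) ⊔ (Q : Subgroup (Matrix.SpecialLinearGroup (Fin 2) F)) = ⊤ := by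
  classical
  have hpp : p.Prime := Fact.out
  obtain ⟨n, -, hn⟩ := FiniteField.card F p
  let U : Subgroup (Matrix.SpecialLinearGroup (Fin 2) F) := (CfsgLib.SL2.upperHom (F := F)).range
  have hUc : Nat.card U = p ^ (n : ℕ) := by
    rw [← Nat.card_congr (MonoidHom.ofInjective (f := CfsgLib.SL2.upperHom (F := F))
      (fun s t h => Multiplicative.toAdd.injective (CfsgLib.SL2.upperU_injective h))).toEquiv,
      Nat.card_congr Multiplicative.toAdd, Nat.card_eq_fintype_card, hn]
  have hnd : ¬ p ∣ (p ^ (n : ℕ)) ^ 2 - 1 := by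
    intro hd
    have h3 : p ∣ (p ^ (n : ℕ)) ^ 2 := dvd_pow (dvd_pow_self p n.ne_zero) two_ne_zero
    have := Nat.dvd_sub h3 hd
    rw [Nat.sub_sub_self (Nat.one_le_pow _ _ (pow_pos hpp.pos _)), Nat.dvd_one] at this
    exact hpp.ne_one this
  let S : Sylow p (Matrix.SpecialLinearGroup (Fin 2) F) := Sylow.ofCard U (by
    rw [hUc, CfsgLib.SL2.card_SL2, hn,
      Nat.factorization_mul (pow_ne_zero _ hpp.ne_zero) (fun h => hnd (by rw [h]; exact dvd_zero p)),
      Finsupp.add_apply, hpp.factorization_pow, Finsupp.single_eq_same,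
      Nat.factorization_eq_zero_of_not_dvd hnd, add_zero])
  obtain ⟨g, hg⟩ := MulAction.exists_smul_eq (Matrix.SpecialLinearGroup (Fin 2) F) P S
  set H := ((g • P : Sylow p _) : Subgroup (Matrix.SpecialLinearGroup (Fin 2) F)) ⊔
    ((g • Q : Sylow p _) : Subgroup (Matrix.SpecialLinearGroup (Fin 2) F)) with hH
  suffices hsuff : H = ⊤ by
    rw [hH, Sylow.coe_subgroup_smul, Sylow.coe_subgroup_smul, ← Subgroup.smul_sup] at hsuff
    rw [eq_top_iff]
    intro x _
    have h1 : MulAut.conj g x ∈ MulAut.conj g •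
        ((P : Subgroup (Matrix.SpecialLinearGroup (Fin 2) F)) ⊔ Q) := by
      rw [hsuff]; exact Subgroup.mem_top _
    obtain ⟨y, hy, hyx⟩ := (Subgroup.mem_smul_pointwise_iff_exists _ _ _).mp h1
    rw [show y = x from (MulAut.conj g).injective hyx] at hy
    exact hy
  obtain ⟨k, hk⟩ := MulAction.exists_smul_eq (Matrix.SpecialLinearGroup (Fin 2) F) S (g • Q)
  have hU : ∀ t : F, CfsgLib.SL2.upperU t ∈ H := fun t => by
    refine Subgroup.mem_sup_left ?_
    rw [hg]
    exact ⟨Multiplicative.ofAdd t, rfl⟩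
  have hQc : ∀ t : F, k * CfsgLib.SL2.upperU t * k⁻¹ ∈ ((g • Q : Sylow p _) : Subgroup _) := fun t => by
    rw [← hk, Sylow.coe_subgroup_smul]
    exact (Subgroup.mem_smul_pointwise_iff_exists _ _ _).mpr
      ⟨CfsgLib.SL2.upperU t, ⟨Multiplicative.ofAdd t, rfl⟩, rfl⟩
  have hc : k.1 1 0 ≠ 0 := by
    intro hc
    apply h
    apply MulAction.injective g
    change g • P = g • Q
    rw [hg, ← hk]
    apply Sylow.ext
    have hle : MulAut.conj k • U ≤ U := by
      intro x hx
      obtain ⟨_, ⟨t, rfl⟩, rfl⟩ := (Subgroup.mem_smul_pointwise_iff_exists _ _ _).mp hx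
      refine ⟨Multiplicative.ofAdd (k.1 0 0 ^ 2 * t.toAdd), ?_⟩
      have hd := CfsgLib.SL2.det_eq k
      rw [hc, mul_zero, sub_zero] at hd
      change CfsgLib.SL2.upperU _ = k * CfsgLib.SL2.upperU _ * k⁻¹
      apply CfsgLib.SL2.ext2 <;> simp [CfsgLib.SL2.mul00, CfsgLib.SL2.mul01, CfsgLib.SL2.mul10,
        CfsgLib.SL2.mul11, CfsgLib.SL2.inv00, CfsgLib.SL2.inv01, CfsgLib.SL2.inv10, CfsgLib.SL2.inv11, hc]
      · linear_combination -hd
      · ring
      · linear_combination -hd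
    rw [Sylow.coe_subgroup_smul]
    exact (Subgroup.eq_of_le_of_card_ge hle (le_of_eq (Nat.card_congr
      (Subgroup.equivSMul (MulAut.conj k) U).toEquiv))).symm
  have hL : ∀ s : F, CfsgLib.SL2.lowerU s ∈ H := by
    intro s
    have h1 : k * CfsgLib.SL2.upperU (-s / k.1 1 0 ^ 2) * k⁻¹ ∈ H := Subgroup.mem_sup_right (hQc _)
    have hd := CfsgLib.SL2.det_eq k
    have e : k * CfsgLib.SL2.upperU (-s / k.1 1 0 ^ 2) * k⁻¹ =
        CfsgLib.SL2.upperU (k.1 0 0 / k.1 1 0) * CfsgLib.SL2.lowerU s * CfsgLib.SL2.upperU (-(k.1 0 0 / k.1 1 0)) := by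
      apply CfsgLib.SL2.ext2 <;> simp [CfsgLib.SL2.mul00, CfsgLib.SL2.mul01, CfsgLib.SL2.mul10,
        CfsgLib.SL2.mul11, CfsgLib.SL2.inv00, CfsgLib.SL2.inv01, CfsgLib.SL2.inv10, CfsgLib.SL2.inv11] <;> field_simp
      all_goals first
        | ring1
        | linear_combination (exp := 1) hd
        | linear_combination (exp := 1) -hd
        | linear_combination (k.1 1 0 ^ 2) * hd
        | linear_combination -(k.1 1 0 ^ 2) * hd
        | linear_combination (k.1 1 0) * hd
        | linear_combination -(k.1 1 0) * hd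
        | linear_combination (k.1 1 0 * s) * hd
        | linear_combination -(k.1 1 0 * s) * hd
        | linear_combination (s) * hd
        | linear_combination -(s) * hd
    rw [e] at h1
    have := H.mul_mem (H.mul_mem (H.inv_mem (hU (k.1 0 0 / k.1 1 0))) h1) (hU (k.1 0 0 / k.1 1 0))
    simpa [CfsgLib.SL2.upperU_neg, mul_assoc] using this
  rw [eq_top_iff]
  intro x _
  have key : ∀ X : Matrix.SpecialLinearGroup (Fin 2) F, X.1 1 0 ≠ 0 → X ∈ H := by
    intro X hX
    have hd := CfsgLib.SL2.det_eq X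
    have e : X = CfsgLib.SL2.upperU ((X.1 0 0 - 1) / X.1 1 0) * CfsgLib.SL2.lowerU (X.1 1 0) *
        CfsgLib.SL2.upperU ((X.1 1 1 - 1) / X.1 1 0) := by
      apply CfsgLib.SL2.ext2 <;> simp [CfsgLib.SL2.mul00, CfsgLib.SL2.mul01, CfsgLib.SL2.mul10, CfsgLib.SL2.mul11] <;> field_simp
      all_goals first
        | ring1
        | linear_combination (exp := 1) hd
        | linear_combination (exp := 1) -hd
    rw [e]
    exact H.mul_mem (H.mul_mem (hU _) (hL _)) (hU _)
  by_cases hx : x.1 1 0 = 0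
  · have hd := CfsgLib.SL2.det_eq x
    have h10 : (x * CfsgLib.SL2.lowerU 1).1 1 0 ≠ 0 := by
      simp [CfsgLib.SL2.mul10, hx]
      intro h'
      simp [hx, h'] at hd
    have := H.mul_mem (key _ h10) (H.inv_mem (hL 1))
    rwa [mul_inv_cancel_right] at this
  · exact key x hx

end Cfsg.Agent.S0260
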