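import Cfsg.Statements.S0264
import Cfsg.Agent.SLn.Basic

open scoped commutatorElement
-- import your own Cfsg.Agent.* helpers here

set_option autoImplicit false
open Cfsg

namespace Cfsg.Agent.S0264

/-- GL_n(F)' = SL_n(F) (as the kernel of det), for every field F and every n, except n = 2 over the field of two elements. -/
theorem result {F : Type*} [Field F] (n : ℕ) (h : n = 2 → ∃ a : F, a ≠ 0 ∧ a ≠ 1) : commutator (Matrix.GeneralLinearGroup (Fin n) F) = (Matrix.GeneralLinearGroup.det : Matrix.GeneralLinearGroup (Fin n) F →* Fˣ).ker := by
  apply le_antisymm (Abelianization.commutator_subset_ker _)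
  intro g hg
  let s : Matrix.SpecialLinearGroup (Fin n) F :=
    ⟨(g : Matrix (Fin n) (Fin n) F), congrArg Units.val (MonoidHom.mem_ker.1 hg)⟩
  have hs : Matrix.SpecialLinearGroup.toGL s = g := Units.ext rfl
  rw [← hs]
  rcases Nat.lt_or_ge n 2 with h1 | h2
  · have : Subsingleton (Fin n) := Fin.subsingleton_iff_le_one.2 (by omega)
    rw [Subsingleton.elim s 1, map_one]
    exact one_mem _
  have : Nontrivial (Fin n) := Fin.nontrivial_iff_two_le.2 h2
  suffices H : (commutator (Matrix.GeneralLinearGroup (Fin n) F)).comap
      Matrix.SpecialLinearGroup.toGL = ⊤ by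
    have hmem : s ∈ (commutator (Matrix.GeneralLinearGroup (Fin n) F)).comap
        Matrix.SpecialLinearGroup.toGL := by rw [H]; trivial
    exact hmem
  rcases Nat.lt_or_ge n 3 with h2' | h3
  · obtain ⟨a, ha0, ha1⟩ := h (by omega)
    refine CfsgLib.SLn.eq_top_of_transvection _ fun i j hij c => ?_
    let d : Matrix.GeneralLinearGroup (Fin n) F := Matrix.GeneralLinearGroup.mkOfDetNeZero
      (Matrix.diagonal (Function.update 1 i a)) (by
        rw [Matrix.det_diagonal, Finset.prod_update_of_mem (Finset.mem_univ _)]
        simpa using ha0)
    have hconj : d * Matrix.SpecialLinearGroup.toGL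
        (Matrix.SpecialLinearGroup.transvection hij (c / (a - 1))) =
        Matrix.SpecialLinearGroup.toGL (Matrix.SpecialLinearGroup.transvection hij c *
          Matrix.SpecialLinearGroup.transvection hij (c / (a - 1))) * d := by
      rw [← Matrix.SpecialLinearGroup.transvection_add]
      refine Units.ext (Matrix.ext fun k l => ?_)
      have e : a * (c / (a - 1)) = c + c / (a - 1) := by
        field_simp [sub_ne_zero_of_ne ha1]
        ring
      change ((Matrix.diagonal (Function.update 1 i a)) * (Matrix.transvection i j (c / (a - 1))))
        k l = ((Matrix.transvection i j (c + c / (a - 1))) *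
          Matrix.diagonal (Function.update 1 i a)) k l
      rw [Matrix.diagonal_mul, Matrix.mul_diagonal, Matrix.transvection, Matrix.transvection]
      simp only [Matrix.add_apply, Matrix.one_apply, Matrix.single_apply, Function.update_apply,
        Pi.one_apply]
      rcases eq_or_ne k l with rfl | hkl
      · simp [show ¬(i = k ∧ j = k) from fun h => hij (h.1.trans h.2.symm)]
      · rw [if_neg hkl]
        by_cases hx : i = k ∧ j = l
        · obtain ⟨rfl, rfl⟩ := hx
          simp [hij.symm]
          linear_combination e
        · simp [hx]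
    rw [map_mul] at hconj
    rw [Subgroup.mem_comap]
    have hc : Matrix.SpecialLinearGroup.toGL (Matrix.SpecialLinearGroup.transvection hij c) =
        ⁅d, Matrix.SpecialLinearGroup.toGL
          (Matrix.SpecialLinearGroup.transvection hij (c / (a - 1)))⁆ := by
      rw [commutatorElement_def, hconj, mul_inv_cancel_right, mul_inv_cancel_right]
    rw [hc]
    exact Subgroup.commutator_mem_commutator (Subgroup.mem_top _) (Subgroup.mem_top _)
  · rw [eq_top_iff, ← CfsgLib.SLn.commutator_eq_top (Or.inl (by simpa using h3)),
      ← Subgroup.map_le_iff_le_comap, commutator_def, Subgroup.map_commutator]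
    exact Subgroup.commutator_mono le_top le_top

end Cfsg.Agent.S0264
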