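import Cfsg.Statements.S0266
import Cfsg.Agent.SLn.ProjLine
-- import your own Cfsg.Agent.* helpers here

set_option autoImplicit false
open scoped MatrixGroups
open Cfsg

namespace Cfsg.Agent.S0266

/-- PGL_2(F) is sharply 3-transitive on the projective line: it is 3-transitive and the stabiliser of three distinct points is trivial. -/
theorem result {F : Type*} [Field F] : MulAction.IsMultiplyPretransitive (Matrix.ProjGenLinGroup (Fin 2) F) (Projectivization F (Fin 2 → F)) 3 ∧ ∀ (g : Matrix.ProjGenLinGroup (Fin 2) F) (a b c : Projectivization F (Fin 2 → F)), a ≠ b → a ≠ c → b ≠ c → g • a = a → g • b = b → g • c = c → g = 1 := by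
  refine ⟨⟨fun x y => ?_⟩, fun g a b c hab hac hbc ha hb hc => ?_⟩
  · obtain ⟨M, hM⟩ := CfsgLib.SLn.exists_GL_stdPoint x.injective
    obtain ⟨N, hN⟩ := CfsgLib.SLn.exists_GL_stdPoint y.injective
    refine ⟨Matrix.ProjGenLinGroup.mk (N * M⁻¹), Function.Embedding.ext fun i => ?_⟩
    rw [Function.Embedding.smul_apply]
    change (N * M⁻¹) • x i = y i
    rw [← hM i, mul_smul, inv_smul_smul, hN i]
  · induction g using Matrix.ProjGenLinGroup.induction_on with | mk A => ?_
    obtain ⟨M, hM⟩ := CfsgLib.SLn.exists_GL_stdPoint (p := ![a, b, c]) (by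
      intro i j hij
      fin_cases i <;> fin_cases j <;> first
        | rfl
        | exact absurd hij hab
        | exact absurd hij hac
        | exact absurd hij hbc
        | exact absurd hij.symm hab
        | exact absurd hij.symm hac
        | exact absurd hij.symm hbc)
    have hfix : ∀ i, A • ![a, b, c] i = ![a, b, c] i := fun i => by
      fin_cases i <;> assumption
    obtain ⟨u, hu⟩ := CfsgLib.SLn.eq_scalar_of_fix (M⁻¹ * A * M) (fun i => by
      rw [mul_smul, mul_smul, hM i, hfix i, ← hM i, inv_smul_smul])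
    rw [Matrix.ProjGenLinGroup.mk_eq_one]
    have hz : (M⁻¹ * A * M) ∈ Subgroup.center (GL (Fin 2) F) := by
      rw [hu, Matrix.GeneralLinearGroup.center_eq_range_scalar]; exact ⟨u, rfl⟩
    have := Subgroup.Normal.conj_mem inferInstance _ hz M
    simpa [mul_assoc] using this

end Cfsg.Agent.S0266
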