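import Cfsg.Statements.S0267
import Cfsg.Agent.SLn.ProjLine
-- import your own Cfsg.Agent.* helpers here

set_option autoImplicit false
open Cfsg

namespace Cfsg.Agent.S0267

/-- SL_2(q) is 3-transitive on the q+1 points of the projective line if and only if q is even. -/
theorem result {F : Type*} [Field F] [Fintype F] : MulAction.IsMultiplyPretransitive (Matrix.SpecialLinearGroup (Fin 2) F) (Projectivization F (Fin 2 → F)) 3 ↔ ringChar F = 2 := by
  constructor
  · intro h
    by_contra hne
    obtain ⟨e, he⟩ := FiniteField.exists_nonsquare hne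
    have he0 : e ≠ 0 := fun h0 => he (h0 ▸ IsSquare.zero)
    let D : GL (Fin 2) F := Matrix.GeneralLinearGroup.mkOfDetNeZero
      (Matrix.diagonal ![1, e]) (by simp [Matrix.det_diagonal, he0])
    let x : Fin 3 ↪ Projectivization F (Fin 2 → F) := ⟨CfsgLib.SLn.stdPoint F, by
      intro i j hij
      rw [CfsgLib.SLn.stdPoint, CfsgLib.SLn.stdPoint, Projectivization.mk_eq_mk_iff'] at hij
      obtain ⟨r, hr⟩ := hij
      have e0 := congrFun hr 0
      have e1 := congrFun hr 1
      fin_cases i <;> fin_cases j <;> simp_all [CfsgLib.SLn.stdVec]⟩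
    let y : Fin 3 ↪ Projectivization F (Fin 2 → F) :=
      x.trans ⟨fun p => D • p, MulAction.injective D⟩
    obtain ⟨g, hg⟩ := h.exists_smul_eq x y
    have hfix : ∀ i, (D⁻¹ * Matrix.SpecialLinearGroup.toGL g) • CfsgLib.SLn.stdPoint F i =
        CfsgLib.SLn.stdPoint F i := fun i => by
      have h1 : g • CfsgLib.SLn.stdPoint F i = D • CfsgLib.SLn.stdPoint F i := by
        exact DFunLike.congr_fun hg i
      rw [mul_smul, inv_smul_eq_iff, ← h1]
      induction CfsgLib.SLn.stdPoint F i using Projectivization.ind with | _ v hv =>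
      rfl
    obtain ⟨u, hu⟩ := CfsgLib.SLn.eq_scalar_of_fix _ hfix
    rw [inv_mul_eq_iff_eq_mul] at hu
    have := congr(Matrix.det (($hu : GL (Fin 2) F) : Matrix (Fin 2) (Fin 2) F))
    simp [D, Matrix.det_diagonal] at this
    refine he ⟨(u : F)⁻¹, ?_⟩
    field_simp
    linear_combination -this
  · intro h2
    refine ⟨fun x y => ?_⟩
    obtain ⟨M, hM⟩ := CfsgLib.SLn.exists_GL_stdPoint x.injective
    obtain ⟨N, hN⟩ := CfsgLib.SLn.exists_GL_stdPoint y.injective
    obtain ⟨s, hs⟩ := FiniteField.isSquare_of_char_two h2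
      ((N * M⁻¹ : GL (Fin 2) F) : Matrix (Fin 2) (Fin 2) F).det
    have hs0 : s ≠ 0 := by
      rintro rfl
      exact (N * M⁻¹).det_ne_zero (by rw [hs, mul_zero])
    let g : Matrix.SpecialLinearGroup (Fin 2) F :=
      ⟨s⁻¹ • ((N * M⁻¹ : GL (Fin 2) F) : Matrix (Fin 2) (Fin 2) F), by
        rw [Matrix.det_smul, hs, Fintype.card_fin]; field_simp⟩
    refine ⟨g, Function.Embedding.ext fun i => ?_⟩
    rw [Function.Embedding.smul_apply]
    have key : (N * M⁻¹) • x i = y i := by rw [← hM i, mul_smul, inv_smul_smul, hN i]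
    rw [← key]
    induction x i using Projectivization.ind with | _ v hv =>
    rw [Projectivization.smul_mk, Projectivization.smul_mk, Projectivization.mk_eq_mk_iff']
    exact ⟨s⁻¹, (Matrix.smul_mulVec _ _ _).symm⟩

end Cfsg.Agent.S0267
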