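import Cfsg.Statements.S0268
import Cfsg.Agent.SLTwoSq.Basic
-- import your own Cfsg.Agent.* helpers here

set_option autoImplicit false
open Cfsg

namespace Cfsg.Agent.S0268

/-- For q odd, -1 is the unique involution of SL_2(q). -/
theorem result {F : Type*} [Field F] [Fintype F] (hF : Odd (Fintype.card F)) (g : Matrix.SpecialLinearGroup (Fin 2) F) (h1 : g ≠ 1) (h2 : g * g = 1) : (g : Matrix (Fin 2) (Fin 2) F) = -1 := by
  have h2' : (2 : F) ≠ 0 := Ring.two_ne_zero (CfsgLib.SLTwoSq.ringChar_ne_two hF)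
  rcases CfsgLib.SLTwoSq.sq_eq_one h2' g h2 with h | h
  · exact absurd h h1
  · rw [h]
    ext i j
    fin_cases i <;> fin_cases j <;> simp [CfsgLib.SLTwoSq.negOne]

end Cfsg.Agent.S0268
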