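import Cfsg.Statements.S0270
import Cfsg.Agent.SpGeom.Simple
-- import your own Cfsg.Agent.* helpers here

set_option autoImplicit false
open Cfsg

namespace Cfsg.Agent.S0270

/-- PSp_{2m}(q) is simple for m at least 2 and (m, q) other than (2, 2). -/
theorem result {F : Type*} [Field F] [Fintype F] (m : ℕ) (hm : 2 ≤ m) (h : m = 2 → 3 ≤ Fintype.card F) : IsSimpleGroup (Cfsg.PSp m F) := by
  apply CfsgLib.SpGeom.isSimpleGroup_PSp (by omega)
  rcases Nat.lt_or_ge m 3 with h3 | h3
  · have hq := h (by omega)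
    rcases Nat.lt_or_ge (Fintype.card F) 4 with h4 | h4
    · exact Or.inr (Or.inl ⟨hm, CfsgLib.SpGeom.two_ne_zero_of_card_three (by omega)⟩)
    · exact Or.inr (Or.inr (CfsgLib.SpGeom.exists_pow_two_ne h4))
  · exact Or.inl h3

end Cfsg.Agent.S0270
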