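import Cfsg.Statements.S0272
import Cfsg.Agent.SL2.GLTwo
-- import your own Cfsg.Agent.* helpers here

set_option autoImplicit false
open Cfsg

namespace Cfsg.Agent.S0272

/-- The normaliser in GL_2(q) of a Sylow p-subgroup, p the characteristic, has order q (q-1)^2. -/
theorem result {F : Type*} [Field F] [Fintype F] {q : ℕ} (hF : Fintype.card F = q) (p : ℕ) [Fact p.Prime] [CharP F p] (P : Sylow p (Matrix.GeneralLinearGroup (Fin 2) F)) : Nat.card (Subgroup.normalizer ((P : Subgroup (Matrix.GeneralLinearGroup (Fin 2) F)) : Set (Matrix.GeneralLinearGroup (Fin 2) F))) = q * (q - 1) ^ 2 := by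
  subst hF
  obtain ⟨P0, hP0⟩ := CfsgLib.SL2.GLTwo.exists_sylow_uHom (F := F) p
  have h1 := Sylow.card_eq_index_normalizer P
  have h2 := Sylow.card_eq_index_normalizer P0
  have h3 : (Subgroup.normalizer ((P : Subgroup (Matrix.GeneralLinearGroup (Fin 2) F)) : Set (Matrix.GeneralLinearGroup (Fin 2) F))).index =
      (Cfsg.upperTriangularGL 2 F).index := by
    rw [← CfsgLib.SL2.GLTwo.normalizer_uHom, ← hP0]
    exact h1.symm.trans h2
  have e1 := Subgroup.card_mul_index (Subgroup.normalizer ((P : Subgroup (Matrix.GeneralLinearGroup (Fin 2) F)) : Set (Matrix.GeneralLinearGroup (Fin 2) F)))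
  have e2 := Subgroup.card_mul_index (Cfsg.upperTriangularGL 2 F)
  rw [h3, ← e2] at e1
  rw [← CfsgLib.SL2.GLTwo.card_borel]
  exact Nat.eq_of_mul_eq_mul_right (Nat.pos_of_ne_zero Subgroup.index_ne_zero_of_finite) e1

end Cfsg.Agent.S0272
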