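import Cfsg.Statements.S0275
import Mathlib
import Cfsg.Agent.H29.DicksonSL.Basic
import Cfsg.Agent.RankOneP.Basic
import Cfsg.Agent.S0261

set_option autoImplicit false
open Cfsg

namespace Cfsg.Agent.S0275

/-- If p is odd and H is a subgroup of SL_2(q), q a power of p, with more than one Sylow p-subgroup, then the Sylow 2-subgroups of H are generalised quaternion. -/
theorem result {F : Type*} [Field F] [Fintype F] (p : ℕ) [Fact p.Prime] [CharP F p] (hp : p ≠ 2) (H : Subgroup (Matrix.SpecialLinearGroup (Fin 2) F)) (hH : 1 < Nat.card (Sylow p H)) (S : Sylow 2 H) : ∃ k : ℕ, 1 ≤ k ∧ Nonempty ((S : Subgroup H) ≃* QuaternionGroup (2 ^ k)) := by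
  obtain ⟨K, hKH, ⟨e⟩⟩ := CfsgLib.H29.DicksonSL.contains_SL2p p hp H hH
  have hinv : ∀ x : Matrix.SpecialLinearGroup (Fin 2) F, x * x = 1 → x = 1 ∨ x = -1 := by
    intro x hx
    have hx' : x = x⁻¹ := eq_inv_of_mul_eq_one_left hx
    have h00 := congrArg (fun z : Matrix.SpecialLinearGroup (Fin 2) F => z.1 0 0) hx'
    have h01 := congrArg (fun z : Matrix.SpecialLinearGroup (Fin 2) F => z.1 0 1) hx'
    have h10 := congrArg (fun z : Matrix.SpecialLinearGroup (Fin 2) F => z.1 1 0) hx'
    simp only [CfsgLib.SL2.inv00, CfsgLib.SL2.inv01, CfsgLib.SL2.inv10] at h00 h01 h10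
    have h2 : (2 : F) ≠ 0 := by
      intro h
      rw [show (2 : F) = ((2 : ℕ) : F) by norm_num, CharP.cast_eq_zero_iff F p] at h
      exact hp ((Nat.prime_dvd_prime_iff_eq Fact.out Nat.prime_two).mp h)
    have e01 : x.1 0 1 = 0 := (mul_eq_zero.mp (by linear_combination h01 : (2 : F) * x.1 0 1 = 0)).resolve_left h2
    have e10 : x.1 1 0 = 0 := (mul_eq_zero.mp (by linear_combination h10 : (2 : F) * x.1 1 0 = 0)).resolve_left h2
    have hd := CfsgLib.SL2.det_eq x
    rw [e01, e10, ← h00, mul_zero, sub_zero, mul_self_eq_one_iff] at hd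
    rcases hd with hd | hd
    · exact Or.inl (CfsgLib.SL2.ext2 (by simp [hd]) (by simp [e01]) (by simp [e10]) (by simp [← h00, hd]))
    · exact Or.inr (CfsgLib.SL2.ext2 (by simp [hd]) (by simp [e01]) (by simp [e10]) (by simp [← h00, hd]))
  have hu : CfsgLib.RankOneP.UniqueOrderP 2 (S : Subgroup H) := by
    intro a b ha hb ha1
    have h1 : ∀ c : (S : Subgroup H), c ^ 2 = 1 →
        ((c : H) : Matrix.SpecialLinearGroup (Fin 2) F) = 1 ∨ ((c : H) : Matrix.SpecialLinearGroup (Fin 2) F) = -1 :=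
      fun c hc => hinv _ (by rw [← pow_two]; exact congrArg (fun z : (S : Subgroup H) =>
        ((z : H) : Matrix.SpecialLinearGroup (Fin 2) F)) hc)
    have haN : ((a : H) : Matrix.SpecialLinearGroup (Fin 2) F) = -1 :=
      (h1 a ha).resolve_left fun h => ha1 (Subtype.ext (Subtype.ext h))
    rcases h1 b hb with h | h
    · rw [show b = 1 from Subtype.ext (Subtype.ext h)]; exact one_mem _
    · rw [show b = a from Subtype.ext (Subtype.ext (h.trans haN.symm))]; exact Subgroup.mem_zpowers _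
  rcases CfsgLib.RankOneP.isCyclic_or_quaternion S.2 hu with hc | ⟨-, hk⟩
  · exfalso
    obtain ⟨T⟩ : Nonempty (Sylow 2 (Matrix.SpecialLinearGroup (Fin 2) (ZMod p))) := inferInstance
    obtain ⟨k, hk1, ⟨eT⟩⟩ := Cfsg.Agent.S0261.result (F := ZMod p)
      (by rw [ZMod.card]; exact (Fact.out : p.Prime).odd_of_ne_two hp) T
    let f : Matrix.SpecialLinearGroup (Fin 2) (ZMod p) →* H :=
      (Subgroup.inclusion hKH).comp e.symm.toMonoidHom
    have hf : Function.Injective f := (Subgroup.inclusion_injective hKH).comp e.symm.injective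
    obtain ⟨S', hS'⟩ := (T.2.map f).exists_le_sylow
    obtain ⟨g, rfl⟩ := MulAction.exists_smul_eq H S S'
    haveI := hc
    haveI : IsCyclic ((g • S : Sylow 2 H) : Subgroup H) :=
      isCyclic_of_surjective (S.equivSMul g).toMonoidHom (S.equivSMul g).surjective
    haveI : IsCyclic ((T : Subgroup (Matrix.SpecialLinearGroup (Fin 2) (ZMod p))).map f) :=
      Subgroup.isCyclic_of_le hS'
    haveI : IsCyclic (QuaternionGroup (2 ^ k)) :=
      isCyclic_of_surjective (((Subgroup.equivMapOfInjective _ f hf).symm.trans eT).toMonoidHom)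
        ((Subgroup.equivMapOfInjective _ f hf).symm.trans eT).surjective
    have hcomm := (IsCyclic.isMulCommutative (α := QuaternionGroup (2 ^ k))).is_comm.comm
      (QuaternionGroup.a 1) (QuaternionGroup.xa 0)
    simp only [QuaternionGroup.a_mul_xa, QuaternionGroup.xa_mul_a, QuaternionGroup.xa.injEq] at hcomm
    rw [zero_sub, zero_add, neg_eq_iff_add_eq_zero, show (1 : ZMod (2 * 2 ^ k)) + 1 = ((2 : ℕ) : ZMod (2 * 2 ^ k)) by norm_num,
      ZMod.natCast_eq_zero_iff] at hcomm
    have h2k : 2 ≤ 2 ^ k := Nat.le_self_pow (by omega) 2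
    have := Nat.le_of_dvd two_pos hcomm
    omega
  · exact hk

end Cfsg.Agent.S0275
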