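import Cfsg.Statements.S0276
import Cfsg.Agent.SL2.SylowTwoNormalizer
-- import your own Cfsg.Agent.* helpers here

set_option autoImplicit false
open Cfsg
open scoped Pointwise

namespace Cfsg.Agent.S0276

/-- For q = 3 or 5 mod 8 the Sylow 2-subgroups of PSL_2(q) are elementary abelian of order 4. -/
theorem result {F : Type*} [Field F] [Fintype F] {q : ℕ} (hF : Fintype.card F = q) (hq : q % 8 = 3 ∨ q % 8 = 5) (P : Sylow 2 (Matrix.ProjectiveSpecialLinearGroup (Fin 2) F)) : IsKleinFour (P : Subgroup (Matrix.ProjectiveSpecialLinearGroup (Fin 2) F)) := by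
  classical
  subst hF
  have hodd : Odd (Fintype.card F) := Nat.odd_iff.mpr (by omega)
  have h2 : (2 : F) ≠ 0 := by
    intro h
    have : CharP F 2 := CharTwo.of_one_ne_zero_of_two_eq_zero one_ne_zero h
    have := FiniteField.even_card_iff_char_two.mp (ringChar.eq F 2)
    omega
  obtain ⟨S⟩ := (inferInstance : Nonempty (Sylow 2 (Matrix.SpecialLinearGroup (Fin 2) F)))
  obtain ⟨d⟩ := CfsgLib.SL2.exists_sylowTwoData (by rwa [Nat.card_eq_fintype_card]) S
  have hk : d.k = 1 := by
    have := d.k_pos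
    by_contra hk
    have h' := d.card_mod.mp (by omega)
    rw [Nat.card_eq_fintype_card] at h'
    omega
  let T := S.mapSurjective (f := CfsgLib.SL2.proj (F := F)) CfsgLib.SL2.proj_surjective
  have hT : (T : Subgroup (Matrix.ProjectiveSpecialLinearGroup (Fin 2) F)) =
      (S : Subgroup (Matrix.SpecialLinearGroup (Fin 2) F)).map CfsgLib.SL2.proj := rfl
  have hcS : Nat.card (S : Subgroup (Matrix.SpecialLinearGroup (Fin 2) F)) = 8 := by
    obtain ⟨e⟩ := d.quat
    rw [Nat.card_congr e.toEquiv, Nat.card_eq_fintype_card, QuaternionGroup.card, hk]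
    norm_num
  have hZS : Subgroup.center (Matrix.SpecialLinearGroup (Fin 2) F) ≤ (S : Subgroup (Matrix.SpecialLinearGroup (Fin 2) F)) := by
    intro z hz
    have hA2 : d.A * d.A ∈ (S : Subgroup (Matrix.SpecialLinearGroup (Fin 2) F)) := Subgroup.mul_mem _ d.A_mem d.A_mem
    rcases (CfsgLib.SL2.mem_center_iff z).mp hz with rfl | rfl
    · exact one_mem _
    · have h4 : d.A ^ 4 = 1 := by
        have := pow_orderOf_eq_one d.A; rwa [d.orderOf_A, hk] at this
      have h1 : (d.A * d.A) * (d.A * d.A) = 1 := by rw [← pow_two, ← pow_two, ← pow_mul]; exact h4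
      rcases (CfsgLib.SL2.mem_center_iff _).mp ((CfsgLib.SL2.isCentral_sq h2).mp h1) with h | h
      · exact absurd ((CfsgLib.SL2.isCentral_sq h2).mp h) (d.A_not_center h2)
      · exact h ▸ hA2
  have hcT : Nat.card (T : Subgroup (Matrix.ProjectiveSpecialLinearGroup (Fin 2) F)) = 4 := by
    rw [hT]
    let r := (CfsgLib.SL2.proj (F := F)).comp (S : Subgroup (Matrix.SpecialLinearGroup (Fin 2) F)).subtype
    have hr : r.range = (S : Subgroup (Matrix.SpecialLinearGroup (Fin 2) F)).map CfsgLib.SL2.proj := by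
      rw [MonoidHom.range_comp, Subgroup.range_subtype]
    have hrk : r.ker = (Subgroup.center (Matrix.SpecialLinearGroup (Fin 2) F)).subgroupOf (S : Subgroup (Matrix.SpecialLinearGroup (Fin 2) F)) := by
      ext x
      simp [r, Subgroup.mem_subgroupOf, CfsgLib.SL2.proj, QuotientGroup.eq_one_iff]
    have h := Subgroup.card_eq_card_quotient_mul_card_subgroup r.ker
    rw [Nat.card_congr (QuotientGroup.quotientKerEquivRange r).toEquiv, hr, hrk,
      Nat.card_congr (Subgroup.subgroupOfEquivOfLe hZS).toEquiv, hcS,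
      CfsgLib.SL2.card_center, CfsgLib.SL2.card_sq_eq_one_odd h2] at h
    omega
  have hexp : ∀ x ∈ (T : Subgroup (Matrix.ProjectiveSpecialLinearGroup (Fin 2) F)), x ^ 2 = 1 := by
    intro x hx
    rw [hT] at hx
    obtain ⟨y, hy, rfl⟩ := hx
    rw [← map_pow, CfsgLib.SL2.proj_eq_one_iff]
    have h4 : d.A ^ 4 = 1 := by
      have := pow_orderOf_eq_one d.A; rwa [d.orderOf_A, hk] at this
    obtain ⟨i, rfl | rfl⟩ := d.mem_cases y hy
    · apply (CfsgLib.SL2.mem_center_iff _).mp
      apply (CfsgLib.SL2.isCentral_sq h2).mp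
      rw [← pow_mul, ← pow_add, show i * 2 + i * 2 = 4 * i by ring, pow_mul, h4, one_pow]
    · right
      rw [sq]
      refine CfsgLib.SL2.inverting_sq h2 d.tr_sq_ne ?_
      have hAi : d.A ^ i * d.z = d.z * d.A ^ i :=
        Subgroup.mem_centralizer_singleton_iff.mp (Subgroup.pow_mem _ d.mem_centralizer i)
      rw [show d.w * d.A ^ i * d.z * (d.w * d.A ^ i)⁻¹ = d.w * (d.A ^ i * d.z * (d.A ^ i)⁻¹) * d.w⁻¹ by group,
        hAi, mul_inv_cancel_right, d.inverting]
  obtain ⟨g, rfl⟩ := MulAction.exists_smul_eq (Matrix.ProjectiveSpecialLinearGroup (Fin 2) F) T P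
  have hcP : Nat.card ((g • T : Sylow 2 _) : Subgroup (Matrix.ProjectiveSpecialLinearGroup (Fin 2) F)) = 4 := by
    rw [← hcT]; exact (Nat.card_congr (Sylow.equiv T (g • T)).toEquiv).symm
  refine ⟨hcP, ?_⟩
  have hpow : ∀ x : ((g • T : Sylow 2 _) : Subgroup (Matrix.ProjectiveSpecialLinearGroup (Fin 2) F)), x ^ 2 = 1 := by
    intro x
    obtain ⟨y, rfl⟩ := (Sylow.equiv T (g • T)).surjective x
    rw [← map_pow, show y ^ 2 = 1 from Subtype.ext (hexp y y.2), map_one]
  haveI : Nontrivial ((g • T : Sylow 2 _) : Subgroup (Matrix.ProjectiveSpecialLinearGroup (Fin 2) F)) :=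
    Finite.one_lt_card_iff_nontrivial.mp (by rw [hcP]; norm_num)
  exact (Monoid.exponent_eq_prime_iff Nat.prime_two).mpr fun x hx => orderOf_eq_prime (hpow x) hx

end Cfsg.Agent.S0276
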