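import Cfsg.Statements.S0281
import Cfsg.Agent.UGeom.Count
import Cfsg.Agent.WordLaw.Unitary
import Cfsg.Agent.SL2.Basic
-- import your own Cfsg.Agent.* helpers here

set_option autoImplicit false
open Cfsg

namespace Cfsg.Agent.S0281

/-- SU_2(q) is isomorphic to SL_2(q). -/
theorem result {F K : Type*} [Field F] [Fintype F] [Field K] [Fintype K] {q : ℕ} (hF : Fintype.card F = q ^ 2) (hK : Fintype.card K = q) : Nonempty (Cfsg.SU 2 F q ≃* Matrix.SpecialLinearGroup (Fin 2) K) := by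
  classical
  obtain ⟨C⟩ := CfsgLib.UGeom.nonempty_conj hF
  obtain ⟨F₀, _, _, hF₀, φ, hφ⟩ := CfsgLib.WordLaw.exists_sl2_to_su2 q hF
  let e : K ≃+* F₀ := FiniteField.ringEquivOfCardEq (hK.trans hF₀.symm)
  let ψ : Matrix.SpecialLinearGroup (Fin 2) K →* Cfsg.SU 2 F q :=
    φ.comp (Matrix.SpecialLinearGroup.map e.toRingHom)
  have hψ : Function.Injective ψ := fun a b h => by
    have h1 := hφ h
    refine Subtype.ext (Matrix.map_injective e.injective ?_)
    exact congrArg Subtype.val h1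
  have hcard : Nat.card (Matrix.SpecialLinearGroup (Fin 2) K) = Nat.card (Cfsg.SU 2 F q) := by
    have h2 := CfsgLib.UGeom.card_SU_mul C (n := 2) (by norm_num)
    rw [CfsgLib.UGeom.card_GU C 2] at h2
    apply Nat.eq_of_mul_eq_mul_left (show 0 < q + 1 by omega)
    rw [h2, CfsgLib.SL2.card_SL2 K, hK]
    simp [Finset.prod_range_succ]
    ring
  exact ⟨(MulEquiv.ofBijective ψ ((Nat.bijective_iff_injective_and_card ψ).2 ⟨hψ, hcard⟩)).symm⟩

end Cfsg.Agent.S0281
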