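import Cfsg.Statements.S0290
import Cfsg.Agent.OrthOrder.Count
-- import your own Cfsg.Agent.* helpers here

set_option autoImplicit false
open Cfsg

namespace Cfsg.Agent.S0290

/-- The minus-type quadratic form on F^(2m), m at least 1, has q^(2m-1) + q^(m-1) - q^m zeros (that is, (q^m + 1)(q^(m-1) - 1) non-zero isotropic vectors). -/
theorem result {F : Type*} [Field F] [Fintype F] {q : ℕ} (hF : Fintype.card F = q) (m : ℕ) (hm : 1 ≤ m) (a b : F) (hab : ∀ z₁ z₂ : F, z₁ ^ 2 + a * z₁ * z₂ + b * z₂ ^ 2 = 0 → z₁ = 0 ∧ z₂ = 0) : Nat.card {v : (Fin (m - 1) ⊕ Fin (m - 1)) ⊕ Fin 2 → F // Cfsg.quadFormMinus (m - 1) F a b v = 0} = q ^ (2 * m - 1) + q ^ (m - 1) - q ^ m := by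
  obtain ⟨k, rfl⟩ : ∃ k, m = k + 1 := ⟨m - 1, by omega⟩
  rw [CfsgLib.OrthOrder.card_zero_minus (m := k + 1 - 1) (hab := hab), hF]
  simp only [Nat.add_sub_cancel]
  rcases Nat.eq_zero_or_pos k with rfl | hk
  · simp
  · obtain ⟨j, rfl⟩ : ∃ j, k = j + 1 := ⟨k - 1, by omega⟩
    have h1 : 2 * (j + 1 + 1) - 1 = j + 1 + j + 2 := by omega
    have h2 : q ^ (j + 2) ≤ q ^ (j + 1 + j + 2) := Nat.pow_le_pow_right (hF ▸ Fintype.card_pos) (by omega)
    rw [h1, Nat.add_sub_cancel, Nat.sub_mul, one_mul, Nat.sub_mul, ← pow_add, ← pow_add, ← pow_add,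
      show j + 1 + 1 = j + 2 from rfl]
    omega

end Cfsg.Agent.S0290
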