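import Cfsg.Statements.S0291
import Cfsg.Agent.OrthOrder.Count
-- import your own Cfsg.Agent.* helpers here

set_option autoImplicit false
open Cfsg

namespace Cfsg.Agent.S0291

/-- For q odd, the form x_0^2 + sum_{i<m} x_i y_i on F^(2m+1) has exactly q^(2m) zeros. -/
theorem result {F : Type*} [Field F] [Fintype F] {q : ℕ} (hF : Fintype.card F = q) (hodd : Odd q) (m : ℕ) : Nat.card {v : Unit ⊕ (Fin m ⊕ Fin m) → F // Cfsg.quadFormOdd m F v = 0} = q ^ (2 * m) := by
  rw [CfsgLib.OrthOrder.card_zero_odd, hF]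
  rcases Nat.eq_zero_or_pos m with rfl | hm
  · simp
  · obtain ⟨k, rfl⟩ : ∃ k, m = k + 1 := ⟨m - 1, by omega⟩
    have h2 : q ^ (k + 1) ≤ q ^ (k + 1 + k + 1) :=
      Nat.pow_le_pow_right (hF ▸ Fintype.card_pos) (by omega)
    rw [Nat.add_sub_cancel, Nat.sub_mul, Nat.sub_mul, one_mul, ← pow_add, ← pow_succ, ← pow_succ,
      show 2 * (k + 1) = k + 1 + k + 1 by omega]
    omega

end Cfsg.Agent.S0291
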