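import Cfsg.Statements.S0790
import Cfsg.Agent.Forms.OrthBasics

set_option autoImplicit false
open Cfsg

namespace Cfsg.Agent.S0790

/-- −1 ∈ Ω⁺_2m(q) iff q^m ≡ 1 (mod 4), for q odd and m ≥ 1 (so that in the other case SO⁺_2m(q) = 2 × Ω⁺_2m(q)). -/
theorem result {F : Type*} [Field F] [Fintype F] {q : ℕ} (hF : Fintype.card F = q) (hodd : Odd q) (m : ℕ) (hm : 1 ≤ m) : (∃ g : ↥(Cfsg.isometryGroup F (Cfsg.quadFormPlus m F)), g ∈ Cfsg.Omega F (Cfsg.quadFormPlus m F) ∧ ((g : Matrix.GeneralLinearGroup (Fin m ⊕ Fin m) F) : Matrix (Fin m ⊕ Fin m) (Fin m ⊕ Fin m) F) = -1) ↔ q ^ m % 4 = 1 := by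
  have h2 : (2 : F) ≠ 0 := by
    refine Ring.two_ne_zero fun h => ?_
    have h' := FiniteField.even_card_of_char_two h
    have := Nat.odd_iff.1 hodd
    omega
  rw [← CfsgLib.Forms.coe_quadPlus,
    CfsgLib.Forms.neg_one_mem_Omega_iff h2 (CfsgLib.Forms.nondegenerate_quadPlus m) (by simp) (by simp; omega),
    ← CfsgLib.Forms.isSquare_neg_one_pow hF hodd, ← CfsgLib.Forms.det_gram_pairs (CfsgLib.Forms.standard_pairs (F := F) m)]
  rw [show (⇑(Pi.basisFun F (Fin m ⊕ Fin m)) : Fin m ⊕ Fin m → Fin m ⊕ Fin m → F) =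
    Sum.elim (fun i => Pi.single (Sum.inl i) 1) (fun i => Pi.single (Sum.inr i) 1) by
      funext i; rcases i with i | i <;> simp]

end Cfsg.Agent.S0790
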