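import Cfsg.Statements.S2621
import Cfsg.Agent.Forms.Gram

set_option autoImplicit false
open Cfsg

namespace Cfsg.Agent.S2621

/-- Discriminant of an elliptic quadratic form Σ_(i<m−1) x_i y_i + z₁² + a z₁z₂ + c z₂² (binary part anisotropic) in dimension 2m over a field with q elements, q odd, m ≥ 1: the determinant of the Gram matrix of its polar form in any basis is a square if and only if m(q − 1)/2 is odd (equivalently q^m ≡ 3 (mod 4)). -/
theorem result {F : Type*} [Field F] [Fintype F] {q : ℕ} (hF : Fintype.card F = q) (hq : Odd q) {m : ℕ} (hm : 1 ≤ m) (a c : F) (hac : ∀ z₁ z₂ : F, z₁ ^ 2 + a * z₁ * z₂ + c * z₂ ^ 2 = 0 → z₁ = 0 ∧ z₂ = 0) {ι : Type*} [Fintype ι] [DecidableEq ι] (b : Module.Basis ι F ((Fin (m - 1) ⊕ Fin (m - 1)) ⊕ Fin 2 → F)) : IsSquare (Matrix.of (fun i j : ι => QuadraticMap.polar (Cfsg.quadFormMinus (m - 1) F a c) (b i) (b j))).det ↔ ¬ Even (m * (q - 1) / 2) := by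
  obtain ⟨k, rfl⟩ : ∃ k, m = k + 1 := ⟨m - 1, by omega⟩
  have h2 : (2 : F) ≠ 0 := by
    refine Ring.two_ne_zero fun h => ?_
    have h' := FiniteField.even_card_of_char_two h
    have := Nat.odd_iff.1 hq
    omega
  rw [CfsgLib.Forms.even_half_iff hq, ← CfsgLib.Forms.isSquare_neg_one_pow hF hq,
    ← CfsgLib.Forms.coe_quadMinus]
  show IsSquare (CfsgLib.Forms.gram ⇑(CfsgLib.Forms.quadMinus F k a c) ⇑b).det ↔ _
  rw [CfsgLib.Forms.isSquare_det_gram_iff _ b (Pi.basisFun F ((Fin k ⊕ Fin k) ⊕ Fin 2))]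
  have hne : ¬ IsSquare (a ^ 2 - 4 * c) := by
    rintro ⟨r, hr⟩
    refine one_ne_zero (hac ((-a + r) / 2) 1 ?_).2
    field_simp
    linear_combination -hr
  have hne0 : a ^ 2 - 4 * c ≠ 0 := fun h => hne (h ▸ IsSquare.zero)
  have hgram : CfsgLib.Forms.gram ⇑(CfsgLib.Forms.quadMinus F k a c) ⇑(Pi.basisFun F ((Fin k ⊕ Fin k) ⊕ Fin 2)) =
      Matrix.fromBlocks (CfsgLib.Forms.gram ⇑(CfsgLib.Forms.quadPlus F k)
        (Sum.elim (fun i => Pi.single (Sum.inl i) (1 : F)) (fun i => Pi.single (Sum.inr i) 1))) 0 0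
        !![2, a; a, 2 * c] := by
    simp only [CfsgLib.Forms.coe_quadMinus, CfsgLib.Forms.coe_quadPlus]
    ext ((i | i) | i) ((j | j) | j) <;>
      simp [CfsgLib.Forms.gram, CfsgLib.Forms.polar_minus, CfsgLib.Forms.polar_plus, Pi.single_apply]
    fin_cases i <;> fin_cases j <;> simp
  rw [hgram, Matrix.det_fromBlocks_zero₂₁, CfsgLib.Forms.det_gram_pairs (CfsgLib.Forms.standard_pairs k),
    Matrix.det_fin_two_of]
  classical
  have hm1 : ((-1 : F) ^ k) ≠ 0 := by simp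
  have hd : (2 * (2 * c) - a * a) ≠ 0 := fun h => hne0 (by linear_combination -h)
  have e : (-1 : F) ^ k * (2 * (2 * c) - a * a) = (-1) ^ (k + 1) * (a ^ 2 - 4 * c) := by ring
  have hm2 : ((-1 : F) ^ (k + 1)) ≠ 0 := by simp
  rw [e, ← quadraticChar_one_iff_isSquare (mul_ne_zero hm2 hne0), map_mul,
    quadraticChar_neg_one_iff_not_isSquare.2 hne, ← quadraticChar_one_iff_isSquare hm2]
  rcases quadraticChar_dichotomy hm2 with h | h <;> simp [h]

end Cfsg.Agent.S2621
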