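import Cfsg.Statements.S0791
import Cfsg.Agent.S2621
import Cfsg.Agent.Forms.OrthBasics

set_option autoImplicit false
open Cfsg

namespace Cfsg.Agent.S0791

/-- −1 ∈ Ω⁻_2m(q) iff q^m ≡ −1 (mod 4), for q odd and m ≥ 1; for the minus-type form quadFormMinus (m−1) with anisotropic binary part. -/
theorem result {F : Type*} [Field F] [Fintype F] {q : ℕ} (hF : Fintype.card F = q) (hodd : Odd q) (m : ℕ) (hm : 1 ≤ m) (a b : F) (hab : ∀ z₁ z₂ : F, z₁ ^ 2 + a * z₁ * z₂ + b * z₂ ^ 2 = 0 → z₁ = 0 ∧ z₂ = 0) : (∃ g : ↥(Cfsg.isometryGroup F (Cfsg.quadFormMinus (m - 1) F a b)), g ∈ Cfsg.Omega F (Cfsg.quadFormMinus (m - 1) F a b) ∧ ((g : Matrix.GeneralLinearGroup ((Fin (m - 1) ⊕ Fin (m - 1)) ⊕ Fin 2) F) : Matrix ((Fin (m - 1) ⊕ Fin (m - 1)) ⊕ Fin 2) ((Fin (m - 1) ⊕ Fin (m - 1)) ⊕ Fin 2) F) = -1) ↔ q ^ m % 4 = 3 := by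
  have h2 : (2 : F) ≠ 0 := by
    refine Ring.two_ne_zero fun h => ?_
    have h' := FiniteField.even_card_of_char_two h
    have := Nat.odd_iff.1 hodd
    omega
  have key := Cfsg.Agent.S2621.result hF hodd hm a b hab (Pi.basisFun F ((Fin (m - 1) ⊕ Fin (m - 1)) ⊕ Fin 2))
  rw [← CfsgLib.Forms.coe_quadMinus] at key ⊢
  rw [CfsgLib.Forms.neg_one_mem_Omega_iff h2 (CfsgLib.Forms.nondegenerate_quadMinus _ hab) (by simp [Nat.even_add]) (by simp)]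
  refine key.trans ?_
  rw [CfsgLib.Forms.even_half_iff hodd]
  have : q ^ m % 2 = 1 := Nat.odd_iff.1 hodd.pow
  omega

end Cfsg.Agent.S0791
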