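import Cfsg.Statements.S0294
import Cfsg.Agent.OrthOrder.Center
import Cfsg.Agent.Forms.OrthBasics
import Cfsg.Agent.S0791
-- import your own Cfsg.Agent.* helpers here

set_option autoImplicit false
open Cfsg

namespace Cfsg.Agent.S0294

/-- gcd(4, q^m + 1) |PΩ^-_{2m}(q)| = q^(m(m-1)) (q^m + 1) prod_{i=1}^{m-1} (q^(2i) - 1), m at least 4 (type ²D_m). -/
theorem result {F : Type*} [Field F] [Fintype F] {q : ℕ} (hF : Fintype.card F = q) (m : ℕ) (hm : 4 ≤ m) (a b : F) (hab : ∀ z₁ z₂ : F, z₁ ^ 2 + a * z₁ * z₂ + b * z₂ ^ 2 = 0 → z₁ = 0 ∧ z₂ = 0) : Nat.gcd 4 (q ^ m + 1) * Nat.card (Cfsg.POmega F (Cfsg.quadFormMinus (m - 1) F a b)) = q ^ (m * (m - 1)) * (q ^ m + 1) * ∏ i ∈ Finset.range (m - 1), (q ^ (2 * (i + 1)) - 1) := by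
  subst hF
  obtain ⟨k, rfl⟩ : ∃ k, m = k + 1 := ⟨m - 1, by omega⟩
  have hiff' : Odd (Fintype.card F) → ((∃ g ∈ Cfsg.Omega F (Cfsg.quadFormMinus k F a b),
      ((g : GL ((Fin k ⊕ Fin k) ⊕ Fin 2) F) : Matrix ((Fin k ⊕ Fin k) ⊕ Fin 2) ((Fin k ⊕ Fin k) ⊕ Fin 2) F) = -1) ↔
      Fintype.card F ^ (k + 1) % 4 = 3) :=
    fun hodd => Cfsg.Agent.S0791.result rfl hodd (k + 1) (by omega) a b hab
  show _ * Nat.card (Cfsg.POmega F (Cfsg.quadFormMinus k F a b)) = _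
  rw [Nat.add_sub_cancel]
  have hQ := CfsgLib.Forms.nondegenerate_quadMinus k hab
  have hn : 5 ≤ Fintype.card ((Fin k ⊕ Fin k) ⊕ Fin 2) := by simp; omega
  have key := CfsgLib.OrthOrder.card_POmega_mul (CfsgLib.Forms.quadMinus F k a b)
  rw [CfsgLib.OrthOrder.natCard_isometryGroup _ rfl, CfsgLib.OrthOrder.card_isom_minus hab] at key
  rw [← CfsgLib.Forms.coe_quadMinus]
  rcases em ((2 : F) = 0) with h2 | h2
  · rw [CfsgLib.Forms.index_Omega_two h2 hQ (Or.inr (by omega)) (by omega),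
      CfsgLib.OrthOrder.card_center_char_two h2 hQ hn] at key
    have hev := FiniteField.even_card_of_char_two (F := F)
      (ringChar.eq_iff.2 (CharTwo.of_one_ne_zero_of_two_eq_zero one_ne_zero h2))
    have hodd : (Fintype.card F ^ (k + 1) + 1) % 2 = 1 := by
      have h3 : Fintype.card F ^ (k + 1) % 2 = 0 := by rw [Nat.pow_mod, hev]; simp
      omega
    have hg : Nat.gcd 4 (Fintype.card F ^ (k + 1) + 1) = 1 :=
      (Nat.Coprime.pow_left 2 (Nat.coprime_two_left.2 (Nat.odd_iff.2 hodd)) : Nat.Coprime (2 ^ 2) _)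
    rw [hg]
    linarith
  · have hodd := CfsgLib.OrthOrder.odd_of_two_ne_zero h2
    rw [CfsgLib.Forms.index_Omega _ h2 hQ (by omega)] at key
    have hiff := hiff' hodd
    rw [← CfsgLib.Forms.coe_quadMinus] at hiff
    have hmod : (Fintype.card F ^ (k + 1)) % 2 = 1 := Nat.odd_iff.1 hodd.pow
    rcases em (Fintype.card F ^ (k + 1) % 4 = 3) with h4 | h4
    · rw [CfsgLib.OrthOrder.card_center_eq_two h2 hQ hn (hiff.2 h4)] at key
      rw [show Nat.gcd 4 (Fintype.card F ^ (k + 1) + 1) = 4 from Nat.gcd_eq_left (Nat.dvd_of_mod_eq_zero (by omega))]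
      linarith
    · rw [CfsgLib.OrthOrder.card_center_eq_one hQ hn (mt hiff.1 h4)] at key
      rw [show Nat.gcd 4 (Fintype.card F ^ (k + 1) + 1) = 2 by
        rw [Nat.gcd_rec, show (Fintype.card F ^ (k + 1) + 1) % 4 = 2 by omega]; rfl]
      linarith

end Cfsg.Agent.S0294
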