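import Cfsg.Statements.S0298
import Cfsg.Agent.S0264

set_option autoImplicit false
open Cfsg Matrix
open scoped commutatorElement

namespace Cfsg.Agent.S0298

/-- PΩ_3(q) is isomorphic to PSL_2(q) for q odd. -/
theorem result {F : Type*} [Field F] [Fintype F] (hodd : Odd (Fintype.card F)) : Nonempty (Cfsg.POmega F (Cfsg.quadFormOdd 1 F) ≃* Matrix.ProjectiveSpecialLinearGroup (Fin 2) F) := by
  classical
  have h2 : (2 : F) ≠ 0 := fun h => by
    have h' : CharP F 2 := CharTwo.of_one_ne_zero_of_two_eq_zero one_ne_zero h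
    have := FiniteField.even_card_iff_char_two.1 (ringChar.eq F 2)
    rw [Nat.odd_iff] at hodd
    omega
  obtain ⟨M, hM⟩ : ∃ M : (Unit ⊕ (Fin 1 ⊕ Fin 1) → F) →ₗ[F] Matrix (Fin 2) (Fin 2) F,
      ∀ v, M v = !![v (.inl ()), v (.inr (.inl 0)); v (.inr (.inr 0)), -v (.inl ())] := by
    refine ⟨{ toFun := fun v => !![v (.inl ()), v (.inr (.inl 0)); v (.inr (.inr 0)), -v (.inl ())],
              map_add' := fun u v => ?_, map_smul' := fun r v => ?_ }, fun v => rfl⟩
    · ext i j; fin_cases i <;> fin_cases j <;> simp; ring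
    · ext i j; fin_cases i <;> fin_cases j <;> simp
  obtain ⟨N, hN⟩ : ∃ N : Matrix (Fin 2) (Fin 2) F →ₗ[F] (Unit ⊕ (Fin 1 ⊕ Fin 1) → F),
      ∀ A, N A = Sum.elim (fun _ => A 0 0) (Sum.elim (fun _ => A 0 1) (fun _ => A 1 0)) := by
    refine ⟨{ toFun := fun A => Sum.elim (fun _ => A 0 0) (Sum.elim (fun _ => A 0 1) (fun _ => A 1 0)),
              map_add' := fun u v => ?_, map_smul' := fun r v => ?_ }, fun v => rfl⟩
    · funext k; rcases k with k | k | k <;> simp
    · funext k; rcases k with k | k | k <;> simp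
  have hNM : ∀ v, N (M v) = v := fun v => by
    funext k; rcases k with k | k | k <;> simp [hN, hM, Subsingleton.elim k 0]
  have hMN : ∀ A : Matrix (Fin 2) (Fin 2) F, A.trace = 0 → M (N A) = A := fun A hA => by
    have h11 : A 1 1 = -A 0 0 := by rw [Matrix.trace_fin_two] at hA; linear_combination hA
    ext i j; fin_cases i <;> fin_cases j <;> simp [hN, hM, h11]
  have hQdet : ∀ v, Cfsg.quadFormOdd 1 F v = -(M v).det := fun v => by
    simp [Cfsg.quadFormOdd, hM, Matrix.det_fin_two]; ring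
  have htr : ∀ v, (M v).trace = 0 := fun v => by simp [hM, Matrix.trace_fin_two]
  let L : GL (Fin 2) F → ((Unit ⊕ (Fin 1 ⊕ Fin 1) → F) →ₗ[F] (Unit ⊕ (Fin 1 ⊕ Fin 1) → F)) := fun g =>
    N.comp ((LinearMap.mulLeft F (g : Matrix (Fin 2) (Fin 2) F)).comp
      ((LinearMap.mulRight F ((g⁻¹ : GL (Fin 2) F) : Matrix (Fin 2) (Fin 2) F)).comp M))
  have hL : ∀ g v, M (L g v) = (g : Matrix (Fin 2) (Fin 2) F) * M v * ((g⁻¹ : GL (Fin 2) F) : Matrix (Fin 2) (Fin 2) F) := fun g v => by
    simp only [L, LinearMap.comp_apply, LinearMap.mulLeft_apply, LinearMap.mulRight_apply]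
    rw [← mul_assoc]
    exact hMN _ ((Matrix.trace_units_conj g _).trans (htr v))
  have hMinj : Function.Injective M := fun u v h => by rw [← hNM u, h, hNM]
  let Φ₀ : GL (Fin 2) F →* Matrix (Unit ⊕ (Fin 1 ⊕ Fin 1)) (Unit ⊕ (Fin 1 ⊕ Fin 1)) F :=
    { toFun := fun g => LinearMap.toMatrix' (L g)
      map_one' := Matrix.ext_of_mulVec_single fun i => by
        rw [LinearMap.toMatrix'_mulVec, Matrix.one_mulVec]
        exact hMinj (by simp [hL])
      map_mul' := fun g h => Matrix.ext_of_mulVec_single fun i => by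
        rw [LinearMap.toMatrix'_mulVec, ← Matrix.mulVec_mulVec, LinearMap.toMatrix'_mulVec, LinearMap.toMatrix'_mulVec]
        exact hMinj (by simp [hL, mul_assoc, -Matrix.coe_units_inv]) }
  let Φ : GL (Fin 2) F →* ↥(Cfsg.isometryGroup F (Cfsg.quadFormOdd 1 F)) :=
    Φ₀.toHomUnits.codRestrict _ fun g u v => by
      show Cfsg.quadFormOdd 1 F (LinearMap.toMatrix' (L g) *ᵥ u) = Cfsg.quadFormOdd 1 F u
      rw [LinearMap.toMatrix'_mulVec, hQdet, hQdet, hL, Matrix.det_units_conj]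
  have hΦ : ∀ g v, (Φ g).1.1 *ᵥ v = L g v := fun g v => LinearMap.toMatrix'_mulVec _ _
  have hneg : ∀ h : ↥(Cfsg.isometryGroup F (Cfsg.quadFormOdd 1 F)), ∃ (g : GL (Fin 2) F) (ε : F), (ε = 1 ∨ ε = -1) ∧
      h.1.1 = ε • (Φ g).1.1 := by
    intro h
    set X : (Unit ⊕ (Fin 1 ⊕ Fin 1) → F) → Matrix (Fin 2) (Fin 2) F := fun v => M (h.1.1 *ᵥ v)
    have hdet : ∀ v, (X v).det = (M v).det := fun v => by
      have := h.2 v 0
      change Cfsg.quadFormOdd 1 F (h.1.1 *ᵥ v) = Cfsg.quadFormOdd 1 F v at this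
      rw [hQdet, hQdet] at this
      exact neg_injective this
    have hadd : ∀ u v, X (u + v) = X u + X v := fun u v => by simp [X, Matrix.mulVec_add]
    have htr2 : ∀ u v, (X u * X v).trace = (M u * M v).trace := fun u v => by
      have e : ∀ A B : Matrix (Fin 2) (Fin 2) F, (A + B).det - A.det - B.det = A.trace * B.trace - (A * B).trace := fun A B => by
        simp [Matrix.det_fin_two, Matrix.trace_fin_two, Matrix.mul_apply, Fin.sum_univ_two]; ring
      have h1 := e (X u) (X v)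
      rw [← hadd, hdet, hdet, hdet, map_add, e (M u) (M v), htr, htr, show (X u).trace = 0 from htr _,
        show (X v).trace = 0 from htr _] at h1
      linear_combination h1
    have hsq : ∀ A : Matrix (Fin 2) (Fin 2) F, A.trace = 0 → A * A = (-A.det) • 1 := fun A hA => by
      have h11 : A 1 1 = -A 0 0 := by rw [Matrix.trace_fin_two] at hA; linear_combination hA
      ext i j; fin_cases i <;> fin_cases j <;>
        simp [Matrix.mul_apply, Fin.sum_univ_two, Matrix.det_fin_two, h11] <;> ring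
    let e₀ : Unit ⊕ (Fin 1 ⊕ Fin 1) → F := Pi.single (.inl ()) 1
    let e₁ : Unit ⊕ (Fin 1 ⊕ Fin 1) → F := Pi.single (.inr (.inl 0)) 1
    let e₂ : Unit ⊕ (Fin 1 ⊕ Fin 1) → F := Pi.single (.inr (.inr 0)) 1
    have hM0 : M e₀ = !![1, 0; 0, -1] := by simp [hM, e₀]
    have hM1 : M e₁ = !![0, 1; 0, 0] := by simp [hM, e₁]
    have hM2 : M e₂ = !![0, 0; 1, 0] := by simp [hM, e₂]
    have hA : X e₁ * X e₁ = 0 := by
      rw [hsq _ (htr _), hdet, hM1]; simp [Matrix.det_fin_two]
    have hB : X e₂ * X e₂ = 0 := by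
      rw [hsq _ (htr _), hdet, hM2]; simp [Matrix.det_fin_two]
    have hC : X e₂ * X e₁ + X e₁ * X e₂ = 1 := by
      have h1 := hsq (X e₁ + X e₂) (by simp [X, htr])
      rw [← hadd, hdet, map_add, hM1, hM2, hadd] at h1
      simp only [mul_add, add_mul, hA, hB] at h1
      simpa [Matrix.det_fin_two] using h1
    obtain ⟨w, hw, hw0⟩ : ∃ w, w ≠ 0 ∧ X e₂ *ᵥ w = 0 :=
      Matrix.exists_mulVec_eq_zero_iff.2 (by rw [hdet, hM2]; simp [Matrix.det_fin_two])
    have hu : X e₂ *ᵥ (X e₁ *ᵥ w) = w := by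
      have := congrArg (· *ᵥ w) hC
      simpa [Matrix.add_mulVec, ← Matrix.mulVec_mulVec, hw0] using this
    obtain ⟨G, hG⟩ : ∃ G : Matrix (Fin 2) (Fin 2) F, G = Matrix.of fun i j => ![X e₁ *ᵥ w, w] j i := ⟨_, rfl⟩
    have hG0 : G *ᵥ Pi.single 0 1 = X e₁ *ᵥ w := by funext i; simp [hG]
    have hG1 : G *ᵥ Pi.single 1 1 = w := by funext i; simp [hG]
    have hGd : G.det ≠ 0 := fun hd => by
      obtain ⟨c, hc, hc0⟩ := Matrix.exists_mulVec_eq_zero_iff.2 hd
      have e : G *ᵥ c = c 0 • (X e₁ *ᵥ w) + c 1 • w := by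
        funext i; fin_cases i <;> simp [hG, Matrix.mulVec, dotProduct, Fin.sum_univ_two] <;> ring
      rw [e] at hc0
      have h0 := congrArg (X e₂ *ᵥ ·) hc0
      simp only [Matrix.mulVec_add, Matrix.mulVec_smul, hu, hw0, smul_zero, add_zero, Matrix.mulVec_zero, smul_eq_zero, hw, or_false] at h0
      rw [h0, zero_smul, zero_add, smul_eq_zero, or_iff_left hw] at hc0
      exact hc (funext fun i => by fin_cases i <;> simp [h0, hc0])
    obtain ⟨g, hg⟩ : ∃ g : GL (Fin 2) F, (g : Matrix (Fin 2) (Fin 2) F) = G :=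
      ⟨Matrix.GeneralLinearGroup.mkOfDetNeZero G hGd, rfl⟩
    let Y : (Unit ⊕ (Fin 1 ⊕ Fin 1) → F) → Matrix (Fin 2) (Fin 2) F := fun v =>
      ((g⁻¹ : GL (Fin 2) F) : Matrix (Fin 2) (Fin 2) F) * X v * (g : Matrix (Fin 2) (Fin 2) F)
    have hgi : ((g⁻¹ : GL (Fin 2) F) : Matrix (Fin 2) (Fin 2) F) * (g : Matrix (Fin 2) (Fin 2) F) = 1 := by
      rw [← Units.val_mul, inv_mul_cancel, Units.val_one]
    have hgi' : (g : Matrix (Fin 2) (Fin 2) F) * ((g⁻¹ : GL (Fin 2) F) : Matrix (Fin 2) (Fin 2) F) = 1 := by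
      rw [← Units.val_mul, mul_inv_cancel, Units.val_one]
    have hXY : ∀ v, X v = (g : Matrix (Fin 2) (Fin 2) F) * Y v * ((g⁻¹ : GL (Fin 2) F) : Matrix (Fin 2) (Fin 2) F) :=
      fun v => by simp only [Y, ← mul_assoc, hgi', one_mul]; rw [mul_assoc, hgi', mul_one]
    have hY1 : Y e₁ = M e₁ := by
      have e : X e₁ * G = G * M e₁ := Matrix.ext_of_mulVec_single fun i => by
        rw [← Matrix.mulVec_mulVec, ← Matrix.mulVec_mulVec]
        fin_cases i
        · rw [show ((⟨0, _⟩ : Fin 2)) = 0 from rfl, hG0, show M e₁ *ᵥ Pi.single 0 1 = 0 by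
            funext i; fin_cases i <;> simp [hM1], Matrix.mulVec_zero, Matrix.mulVec_mulVec, hA, Matrix.zero_mulVec]
        · rw [show ((⟨1, _⟩ : Fin 2)) = 1 from rfl, hG1, show M e₁ *ᵥ Pi.single 1 1 = Pi.single 0 1 by
            funext i; fin_cases i <;> simp [hM1], hG0]
      simp only [Y, mul_assoc, hg, e]
      rw [← hg, ← mul_assoc, hgi, one_mul]
    have hY2 : Y e₂ = M e₂ := by
      have e : X e₂ * G = G * M e₂ := Matrix.ext_of_mulVec_single fun i => by
        rw [← Matrix.mulVec_mulVec, ← Matrix.mulVec_mulVec]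
        fin_cases i
        · rw [show ((⟨0, _⟩ : Fin 2)) = 0 from rfl, hG0, show M e₂ *ᵥ Pi.single 0 1 = Pi.single 1 1 by
            funext i; fin_cases i <;> simp [hM2], hG1, hu]
        · rw [show ((⟨1, _⟩ : Fin 2)) = 1 from rfl, hG1, show M e₂ *ᵥ Pi.single 1 1 = 0 by
            funext i; fin_cases i <;> simp [hM2], Matrix.mulVec_zero, hw0]
      simp only [Y, mul_assoc, hg, e]
      rw [← hg, ← mul_assoc, hgi, one_mul]
    have hYt : ∀ u v, (Y u * Y v).trace = (M u * M v).trace := fun u v => by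
      rw [← htr2 u v, show Y u * Y v = ((g⁻¹ : GL (Fin 2) F) : Matrix (Fin 2) (Fin 2) F) * (X u * X v) * (g : Matrix (Fin 2) (Fin 2) F) by
        simp only [Y, mul_assoc]; rw [← mul_assoc (g : Matrix (Fin 2) (Fin 2) F), hgi', one_mul],
        Matrix.trace_units_conj']
    have hYtr : (Y e₀).trace = 0 := by
      show (((g⁻¹ : GL (Fin 2) F) : Matrix (Fin 2) (Fin 2) F) * X e₀ * (g : Matrix (Fin 2) (Fin 2) F)).trace = 0
      rw [Matrix.trace_units_conj']
      exact htr _
    have t1 := hYt e₀ e₁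
    have t2 := hYt e₀ e₂
    have t0 := hYt e₀ e₀
    rw [hY1, hM0, hM1] at t1
    rw [hY2, hM0, hM2] at t2
    rw [hM0] at t0
    simp [Matrix.trace_fin_two, Matrix.mul_apply, Fin.sum_univ_two] at t1 t2 t0
    have h11 : Y e₀ 1 1 = -(Y e₀ 0 0) := by rw [Matrix.trace_fin_two] at hYtr; linear_combination hYtr
    rw [h11, t1, t2] at t0
    have hε : Y e₀ 0 0 = 1 ∨ Y e₀ 0 0 = -1 := mul_self_eq_one_iff.1 (mul_left_cancel₀ h2 (by linear_combination t0))
    have hlin : ∀ v, X v = v (.inl ()) • X e₀ + v (.inr (.inl 0)) • X e₁ + v (.inr (.inr 0)) • X e₂ := fun v => by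
      conv_lhs => rw [show v = v (.inl ()) • e₀ + v (.inr (.inl 0)) • e₁ + v (.inr (.inr 0)) • e₂ by
        funext k; rcases k with k | k | k <;> simp [e₀, e₁, e₂, Subsingleton.elim k 0]]
      simp [X, Matrix.mulVec_add, Matrix.mulVec_smul]
    have hY0 : ∀ ε : F, ε = Y e₀ 0 0 → Y e₀ = ε • M e₀ := fun ε hε' => by
      ext i j; fin_cases i <;> fin_cases j <;> simp [hM0, hε', t1, t2, h11]
    obtain ⟨δ, hδ⟩ : ∃ δ : GL (Fin 2) F, (δ : Matrix (Fin 2) (Fin 2) F) = !![1, 0; 0, -1] :=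
      ⟨Matrix.GeneralLinearGroup.mkOfDetNeZero !![1, 0; 0, -1] (by simp [Matrix.det_fin_two]), rfl⟩
    have hδ' : δ⁻¹ = δ := inv_eq_of_mul_eq_one_right (Units.ext (by
      rw [Units.val_mul, hδ]; ext i j; fin_cases i <;> fin_cases j <;> simp [Matrix.mul_apply, Fin.sum_univ_two]))
    rcases hε with hε | hε
    · refine ⟨g, 1, Or.inl rfl, Matrix.ext_of_mulVec_single fun i => hMinj ?_⟩
      rw [one_smul, hΦ, hL]
      show X (Pi.single i 1) = _
      rw [hlin, hXY e₀, hXY e₁, hXY e₂, hY1, hY2, hY0 _ rfl, hε, one_smul, ← Matrix.smul_mul, ← Matrix.mul_smul,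
        ← Matrix.smul_mul, ← Matrix.mul_smul, ← Matrix.smul_mul, ← Matrix.mul_smul, ← add_mul, ← add_mul, ← mul_add, ← mul_add]
      congr 2
      simp only [← map_smul, ← map_add]
      congr 1
      funext k; rcases k with k | k | k <;> simp [e₀, e₁, e₂, Subsingleton.elim k 0]
    · refine ⟨g * δ, -1, Or.inr rfl, Matrix.ext_of_mulVec_single fun i => hMinj ?_⟩
      rw [Matrix.smul_mulVec, hΦ, map_smul, hL, _root_.mul_inv_rev, Units.val_mul, Units.val_mul, hδ']
      show X (Pi.single i 1) = _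
      have hc : ∀ v, (-1 : F) • ((δ : Matrix (Fin 2) (Fin 2) F) * M v * (δ : Matrix (Fin 2) (Fin 2) F)) =
          v (.inl ()) • ((-1 : F) • M e₀) + v (.inr (.inl 0)) • M e₁ + v (.inr (.inr 0)) • M e₂ := fun v => by
        ext i j; fin_cases i <;> fin_cases j <;> simp [hδ, hM, e₀, e₁, e₂, Matrix.mul_apply, Fin.sum_univ_two]
      rw [hlin, hXY e₀, hXY e₁, hXY e₂, hY1, hY2, hY0 _ rfl, hε, ← Matrix.smul_mul, ← Matrix.mul_smul,
        ← Matrix.smul_mul, ← Matrix.mul_smul, ← Matrix.smul_mul, ← Matrix.mul_smul, ← add_mul, ← add_mul, ← mul_add, ← mul_add,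
        ← hc, Matrix.mul_smul, Matrix.smul_mul]
      simp only [mul_assoc]
  have hcomm : Cfsg.Omega F (Cfsg.quadFormOdd 1 F) =
      ((Matrix.GeneralLinearGroup.det : GL (Fin 2) F →* Fˣ).ker).map Φ := by
    rw [← Cfsg.Agent.S0264.result 2 (fun _ => ⟨-1, by simp, fun h => h2 (by linear_combination -h)⟩)]
    refine le_antisymm ?_ ?_
    · rw [Cfsg.Omega, commutator_def, Subgroup.commutator_le]
      intro x _ y _
      obtain ⟨g₁, ε₁, he₁, hx⟩ := hneg x
      obtain ⟨g₂, ε₂, he₂, hy⟩ := hneg y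
      refine ⟨⁅g₁, g₂⁆, Subgroup.commutator_mem_commutator (Subgroup.mem_top _) (Subgroup.mem_top _), ?_⟩
      have hxy : x * y = ⁅Φ g₁, Φ g₂⁆ * (y * x) := by
        refine Subtype.ext (Units.ext ?_)
        show x.1.1 * y.1.1 = (⁅Φ g₁, Φ g₂⁆).1.1 * (y.1.1 * x.1.1)
        rw [hx, hy, Matrix.smul_mul, Matrix.mul_smul, Matrix.smul_mul, Matrix.mul_smul, Matrix.mul_smul, Matrix.mul_smul,
          smul_comm ε₁ ε₂]
        congr 2
        exact congrArg (fun z : ↥(Cfsg.isometryGroup F (Cfsg.quadFormOdd 1 F)) => z.1.1)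
          (show Φ g₁ * Φ g₂ = ⁅Φ g₁, Φ g₂⁆ * (Φ g₂ * Φ g₁) by rw [commutatorElement_def]; group)
      rw [map_commutatorElement, commutatorElement_def x y, mul_assoc, ← _root_.mul_inv_rev, eq_mul_inv_iff_mul_eq]
      exact hxy.symm
    · rw [commutator_def, Subgroup.map_commutator, Cfsg.Omega, commutator_def]
      exact Subgroup.commutator_mono le_top le_top
  have hmem : ∀ s : Matrix.SpecialLinearGroup (Fin 2) F,
      Φ (Matrix.SpecialLinearGroup.toGL s) ∈ Cfsg.Omega F (Cfsg.quadFormOdd 1 F) := fun s => by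
    rw [hcomm]
    exact ⟨_, MonoidHom.mem_ker.2 (Units.ext (show (Matrix.SpecialLinearGroup.toGL s : Matrix (Fin 2) (Fin 2) F).det = 1 from s.2)), rfl⟩
  let ρ : Matrix.SpecialLinearGroup (Fin 2) F →* Cfsg.POmega F (Cfsg.quadFormOdd 1 F) :=
    (QuotientGroup.mk' _).comp ((Φ.comp Matrix.SpecialLinearGroup.toGL).codRestrict _ hmem)
  have hsurj : Function.Surjective ρ := by
    refine (QuotientGroup.mk'_surjective _).comp fun z => ?_
    obtain ⟨g, hg, e⟩ := (SetLike.ext_iff.1 hcomm z.1).1 z.2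
    exact ⟨⟨g.1, congrArg Units.val (MonoidHom.mem_ker.1 hg)⟩,
      Subtype.ext (by rw [← e]; exact congrArg Φ (Units.ext rfl))⟩
  have hker : ρ.ker = Subgroup.center (Matrix.SpecialLinearGroup (Fin 2) F) := by
    ext s
    constructor
    · intro hs
      have hz : ((Φ.comp Matrix.SpecialLinearGroup.toGL).codRestrict _ hmem) s ∈
          Subgroup.center (Cfsg.Omega F (Cfsg.quadFormOdd 1 F)) := (QuotientGroup.eq_one_iff _).1 hs
      have key : ∀ t : Matrix.SpecialLinearGroup (Fin 2) F, t.1.trace = 2 → Commute s t := by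
        intro t ht
        have e := congrArg Subtype.val (Subgroup.mem_center_iff.1 hz (((Φ.comp Matrix.SpecialLinearGroup.toGL).codRestrict _ hmem) t))
        change Φ (Matrix.SpecialLinearGroup.toGL t) * Φ (Matrix.SpecialLinearGroup.toGL s) =
          Φ (Matrix.SpecialLinearGroup.toGL s) * Φ (Matrix.SpecialLinearGroup.toGL t) at e
        rw [← map_mul, ← map_mul, ← map_mul, ← map_mul] at e
        obtain ⟨A, hAdef⟩ : ∃ A, A = Matrix.SpecialLinearGroup.toGL (s * t * (t * s)⁻¹) := ⟨_, rfl⟩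
        have hΦA : Φ A = 1 := by rw [hAdef, map_mul, map_mul, map_inv, map_inv, e, mul_inv_cancel]
        have hc : ∀ v, (A : Matrix (Fin 2) (Fin 2) F) * M v = M v * (A : Matrix (Fin 2) (Fin 2) F) := fun v => by
          have h1 := hL A v
          rw [← hΦ, hΦA] at h1
          have h1' : M v = (A : Matrix (Fin 2) (Fin 2) F) * M v * ((A⁻¹ : GL (Fin 2) F) : Matrix (Fin 2) (Fin 2) F) := by
            simpa [-Matrix.coe_units_inv] using h1
          conv_rhs => rw [h1', mul_assoc, ← Units.val_mul, inv_mul_cancel, Units.val_one, mul_one]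
        have hca := hc (Pi.single (.inl ()) 1)
        have hcb := hc (Pi.single (.inr (.inl 0)) 1)
        rw [hM] at hca hcb
        have a01 := congrFun (congrFun hca 0) 1
        have a10 := congrFun (congrFun hca 1) 0
        have a00 := congrFun (congrFun hcb 0) 1
        simp [Matrix.mul_apply, Fin.sum_univ_two] at a01 a10 a00
        have a01' : (A : Matrix (Fin 2) (Fin 2) F) 0 1 = 0 := mul_left_cancel₀ h2 (by linear_combination -a01)
        have a10' : (A : Matrix (Fin 2) (Fin 2) F) 1 0 = 0 := mul_left_cancel₀ h2 (by linear_combination a10)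
        obtain ⟨c, hc'⟩ : ∃ c : F, (s * t).1 = c • (t * s).1 := by
          refine ⟨(A : Matrix (Fin 2) (Fin 2) F) 0 0, ?_⟩
          rw [show s * t = s * t * (t * s)⁻¹ * (t * s) by group, Matrix.SpecialLinearGroup.coe_mul,
            show (s * t * (t * s)⁻¹).1 = (A : Matrix (Fin 2) (Fin 2) F) by rw [hAdef]; rfl,
            show (A : Matrix (Fin 2) (Fin 2) F) = (A : Matrix (Fin 2) (Fin 2) F) 0 0 • 1 by
              ext i j; fin_cases i <;> fin_cases j <;> simp [a01', a10', a00]]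
          simp
        have hc1 : c = 1 := by
          have h1 : s.1 * t.1 * (s⁻¹).1 = c • t.1 := by
            rw [← Matrix.SpecialLinearGroup.coe_mul, hc', Matrix.SpecialLinearGroup.coe_mul, Matrix.smul_mul, mul_assoc,
              ← Matrix.SpecialLinearGroup.coe_mul, mul_inv_cancel, Matrix.SpecialLinearGroup.coe_one, mul_one]
          have h2' := congrArg Matrix.trace h1
          rw [Matrix.trace_mul_cycle, ← Matrix.SpecialLinearGroup.coe_mul, inv_mul_cancel,
            Matrix.SpecialLinearGroup.coe_one, one_mul, Matrix.trace_smul, smul_eq_mul, ht] at h2'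
          exact mul_right_cancel₀ h2 (by linear_combination -h2')
        exact Subtype.ext (by rw [hc', hc1, one_smul])
      have c1 : s.1 * !![1, 1; 0, 1] = !![1, 1; 0, 1] * s.1 := congrArg Subtype.val (key ⟨!![1, 1; 0, 1], by simp [Matrix.det_fin_two]⟩ (by simp [Matrix.trace_fin_two]; ring)).eq
      have c2 : s.1 * !![1, 0; 1, 1] = !![1, 0; 1, 1] * s.1 := congrArg Subtype.val (key ⟨!![1, 0; 1, 1], by simp [Matrix.det_fin_two]⟩ (by simp [Matrix.trace_fin_two]; ring)).eq
      have x1 := congrFun (congrFun c1 0) 0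
      have x2 := congrFun (congrFun c1 0) 1
      have x3 := congrFun (congrFun c2 0) 0
      simp [Matrix.mul_apply, Fin.sum_univ_two] at x1 x2 x3
      rw [Subgroup.mem_center_iff]
      intro t
      refine Subtype.ext ?_
      have hs' : s.1 = s.1 0 0 • (1 : Matrix (Fin 2) (Fin 2) F) := by
        ext i j; fin_cases i <;> fin_cases j <;> simp <;> grind
      show t.1 * s.1 = s.1 * t.1
      rw [hs']; simp
    · intro hs
      refine (QuotientGroup.eq_one_iff _).2 (Subgroup.mem_center_iff.2 fun z => ?_)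
      obtain ⟨t, ht, e⟩ := (SetLike.ext_iff.1 hcomm z.1).1 z.2
      refine Subtype.ext ?_
      show z.1 * Φ _ = Φ _ * z.1
      rw [← e, ← map_mul, ← map_mul]
      refine congrArg Φ ?_
      have := congrArg Subtype.val
        (Subgroup.mem_center_iff.1 hs ⟨t.1, congrArg Units.val (MonoidHom.mem_ker.1 ht)⟩)
      exact Units.ext this
  exact ⟨((QuotientGroup.quotientMulEquivOfEq hker.symm).trans
    (QuotientGroup.quotientKerEquivOfSurjective ρ hsurj)).symm⟩

end Cfsg.Agent.S0298
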