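import Cfsg.Statements.S0299
import Cfsg.Agent.S0264
import Cfsg.Agent.Forms.SmallIso

set_option autoImplicit false
open Cfsg Matrix
open scoped commutatorElement

namespace Cfsg.Agent.S0299

/-- PΩ^+_4(q) is isomorphic to PSL_2(q) x PSL_2(q) for q at least 3. -/
theorem result {F : Type*} [Field F] [Fintype F] (hF : 3 ≤ Fintype.card F) : Nonempty (Cfsg.POmega F (Cfsg.quadFormPlus 2 F) ≃* Matrix.ProjectiveSpecialLinearGroup (Fin 2) F × Matrix.ProjectiveSpecialLinearGroup (Fin 2) F) := by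
  classical
  obtain ⟨a₀, ha0, ha1⟩ : ∃ a : F, a ≠ 0 ∧ a ≠ 1 := by
    have h : ({0, 1} : Finset F).card < Fintype.card F := lt_of_le_of_lt Finset.card_le_two (by omega)
    obtain ⟨a, -, ha⟩ := Finset.exists_mem_notMem_of_card_lt_card (t := Finset.univ) h
    simp at ha
    exact ⟨a, ha.1, ha.2⟩
  obtain ⟨M, hM⟩ : ∃ M : (Fin 2 ⊕ Fin 2 → F) ≃ₗ[F] Matrix (Fin 2) (Fin 2) F,
      ∀ v, M v = !![v (.inl 0), v (.inl 1); -v (.inr 1), v (.inr 0)] := by
    refine ⟨{ toFun := fun v => !![v (.inl 0), v (.inl 1); -v (.inr 1), v (.inr 0)],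
              invFun := fun A => Sum.elim ![A 0 0, A 0 1] ![A 1 1, -A 1 0],
              map_add' := fun u v => ?_, map_smul' := fun r v => ?_,
              left_inv := fun v => ?_, right_inv := fun A => ?_ }, fun v => rfl⟩
    · ext i j; fin_cases i <;> fin_cases j <;> simp; ring
    · ext i j; fin_cases i <;> fin_cases j <;> simp
    · funext k; rcases k with k | k <;> fin_cases k <;> simp
    · ext i j; fin_cases i <;> fin_cases j <;> simp
  have hQdet : ∀ v, Cfsg.quadFormPlus 2 F v = (M v).det := fun v => by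
    simp [Cfsg.quadFormPlus, hM, Matrix.det_fin_two, Fin.sum_univ_two]
  set G := ↥(Cfsg.isometryGroup F (Cfsg.quadFormPlus 2 F))
  -- isometries from linear maps of matrices
  have build : ∀ f : Matrix (Fin 2) (Fin 2) F →ₗ[F] Matrix (Fin 2) (Fin 2) F, Function.Injective f →
      (∀ X, (f X).det = X.det) → ∃ g : G, ∀ X, M (g.1.1 *ᵥ M.symm X) = f X := by
    intro f hf hdet
    let A : Matrix (Fin 2 ⊕ Fin 2) (Fin 2 ⊕ Fin 2) F :=
      LinearMap.toMatrix' (M.symm.toLinearMap.comp (f.comp M.toLinearMap))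
    have hA : ∀ v, A *ᵥ v = M.symm (f (M v)) := fun v => LinearMap.toMatrix'_mulVec _ _
    have hAu : IsUnit A := Matrix.mulVec_injective_iff_isUnit.1 fun u v h => by
      rw [hA, hA] at h
      exact M.injective (hf (M.symm.injective h))
    refine ⟨⟨hAu.unit, fun u v => ?_⟩, fun X => ?_⟩
    · show Cfsg.quadFormPlus 2 F (A *ᵥ u) = Cfsg.quadFormPlus 2 F u
      rw [hA, hQdet, hQdet, M.apply_symm_apply, hdet]
    · show M (A *ᵥ M.symm X) = f X
      rw [hA, M.apply_symm_apply, M.apply_symm_apply]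
  obtain ⟨act, hact⟩ : ∃ act : GL (Fin 2) F → GL (Fin 2) F → G, ∀ A B,
      Matrix.GeneralLinearGroup.det A = Matrix.GeneralLinearGroup.det B →
      ∀ X, M ((act A B).1.1 *ᵥ M.symm X) = (A : Matrix (Fin 2) (Fin 2) F) * X * ((B⁻¹ : GL (Fin 2) F) : Matrix (Fin 2) (Fin 2) F) := by
    have h : ∀ A B : GL (Fin 2) F, ∃ g : G, Matrix.GeneralLinearGroup.det A = Matrix.GeneralLinearGroup.det B →
        ∀ X, M (g.1.1 *ᵥ M.symm X) = (A : Matrix (Fin 2) (Fin 2) F) * X * ((B⁻¹ : GL (Fin 2) F) : Matrix (Fin 2) (Fin 2) F) := by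
      intro A B
      by_cases hd : Matrix.GeneralLinearGroup.det A = Matrix.GeneralLinearGroup.det B
      · obtain ⟨g, hg⟩ := build ((LinearMap.mulLeft F (A : Matrix (Fin 2) (Fin 2) F)).comp
            (LinearMap.mulRight F ((B⁻¹ : GL (Fin 2) F) : Matrix (Fin 2) (Fin 2) F)))
          (fun X Y h => by
            simp only [LinearMap.comp_apply, LinearMap.mulLeft_apply, LinearMap.mulRight_apply] at h
            exact (Units.mul_left_inj B⁻¹).1 ((Units.mul_right_inj A).1 h))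
          (fun X => by
            have hd' : (A : Matrix (Fin 2) (Fin 2) F).det = (B : Matrix (Fin 2) (Fin 2) F).det := congrArg Units.val hd
            simp only [LinearMap.comp_apply, LinearMap.mulLeft_apply, LinearMap.mulRight_apply, Matrix.det_mul]
            rw [hd', mul_left_comm, ← Matrix.det_mul, ← Units.val_mul, mul_inv_cancel, Units.val_one, Matrix.det_one, mul_one])
        exact ⟨g, fun _ X => (hg X).trans (by simp [mul_assoc])⟩
      · exact ⟨1, fun h => absurd h hd⟩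
    choose g hg using h
    exact ⟨g, hg⟩
  have hext : ∀ g g' : G, (∀ X, M (g.1.1 *ᵥ M.symm X) = M (g'.1.1 *ᵥ M.symm X)) → g = g' := fun g g' h =>
    Subtype.ext (Units.ext (Matrix.ext_of_mulVec_single fun i => by simpa using h (M (Pi.single i 1))))
  have hcompM : ∀ (g g' : G) X, M ((g * g').1.1 *ᵥ M.symm X) = M (g.1.1 *ᵥ M.symm (M (g'.1.1 *ᵥ M.symm X))) :=
    fun g g' X => by
      rw [M.symm_apply_apply, Matrix.mulVec_mulVec]
      rfl
  have hone : ∀ X, M ((1 : G).1.1 *ᵥ M.symm X) = X := fun X => by simp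
  have hactmul : ∀ A B A' B' : GL (Fin 2) F, Matrix.GeneralLinearGroup.det A = Matrix.GeneralLinearGroup.det B →
      Matrix.GeneralLinearGroup.det A' = Matrix.GeneralLinearGroup.det B' →
      act (A * A') (B * B') = act A B * act A' B' := fun A B A' B' h h' => hext _ _ fun X => by
    rw [hact _ _ (by rw [map_mul, map_mul, h, h']), hcompM, hact A B h, hact A' B' h', _root_.mul_inv_rev]
    simp only [Units.val_mul, mul_assoc]
  obtain ⟨τ, hτ⟩ := build (Matrix.transposeLinearEquiv (Fin 2) (Fin 2) F F).toLinearMap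
    (Matrix.transposeLinearEquiv (Fin 2) (Fin 2) F F).injective (fun X => Matrix.det_transpose X)
  replace hτ : ∀ X, M (τ.1.1 *ᵥ M.symm X) = X.transpose := hτ
  let toG : (Matrix.SpecialLinearGroup (Fin 2) F) → GL (Fin 2) F := fun s => Matrix.SpecialLinearGroup.toGL s
  have hdetS : ∀ s : (Matrix.SpecialLinearGroup (Fin 2) F), Matrix.GeneralLinearGroup.det (toG s) = 1 := fun s =>
    Units.ext (show (toG s : Matrix (Fin 2) (Fin 2) F).det = 1 from s.2)
  have hofdet : ∀ A : GL (Fin 2) F, Matrix.GeneralLinearGroup.det A = 1 → ∃ s : (Matrix.SpecialLinearGroup (Fin 2) F), toG s = A := fun A h =>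
    ⟨⟨A.1, congrArg Units.val h⟩, Units.ext rfl⟩
  let Ψ : (Matrix.SpecialLinearGroup (Fin 2) F) × (Matrix.SpecialLinearGroup (Fin 2) F) →* G := MonoidHom.mk' (fun p => act (toG p.1) (toG p.2)) fun p p' => by
    simp only [toG, Prod.fst_mul, Prod.snd_mul, map_mul]
    exact hactmul _ _ _ _ ((hdetS _).trans (hdetS _).symm) ((hdetS _).trans (hdetS _).symm)
  have hΨ : ∀ s t X, M ((Ψ (s, t)).1.1 *ᵥ M.symm X) = s.1 * X * (t⁻¹).1 := fun s t X =>
    (hact _ _ ((hdetS _).trans (hdetS _).symm) X).trans (by simp only [toG, ← map_inv]; rfl)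
  obtain ⟨dd, hdd⟩ : ∃ dd : Fˣ →* GL (Fin 2) F, ∀ d, (dd d : Matrix (Fin 2) (Fin 2) F) = !![(d : F), 0; 0, 1] := by
    let D : Fˣ →* Matrix (Fin 2) (Fin 2) F :=
      { toFun := fun d => !![(d : F), 0; 0, 1]
        map_one' := by ext i j; fin_cases i <;> fin_cases j <;> simp
        map_mul' := fun a b => by ext i j; fin_cases i <;> fin_cases j <;> simp [Matrix.mul_apply, Fin.sum_univ_two] }
    exact ⟨D.toHomUnits, fun d => rfl⟩
  have hddet : ∀ d, Matrix.GeneralLinearGroup.det (dd d) = d := fun d =>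
    Units.ext (show (dd d : Matrix (Fin 2) (Fin 2) F).det = d by simp [hdd, Matrix.det_fin_two])
  -- every pair reduces to the diagonal one
  have hdiag : ∀ A : GL (Fin 2) F, ∃ s : (Matrix.SpecialLinearGroup (Fin 2) F), ∃ d, act A A = Ψ (s, s) * act (dd d) (dd d) := by
    intro A
    obtain ⟨s, hs⟩ := hofdet (A * (dd (Matrix.GeneralLinearGroup.det A))⁻¹) (by rw [map_mul, map_inv, hddet, mul_inv_cancel])
    refine ⟨s, Matrix.GeneralLinearGroup.det A, ?_⟩
    show _ = act (toG s) (toG s) * _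
    rw [← hactmul _ _ _ _ rfl rfl, hs, inv_mul_cancel_right]
  let S : Set G := insert τ (Set.range fun d => act (dd d) (dd d))
  have hττ : τ * τ = 1 := hext _ _ fun X => by rw [hcompM, hτ, hτ, hone, Matrix.transpose_transpose]
  have hτact : ∀ A B : GL (Fin 2) F, Matrix.GeneralLinearGroup.det A = Matrix.GeneralLinearGroup.det B →
      ∀ A' B' : GL (Fin 2) F, (A' : Matrix (Fin 2) (Fin 2) F) = ((B⁻¹ : GL (Fin 2) F) : Matrix (Fin 2) (Fin 2) F).transpose →
      ((B'⁻¹ : GL (Fin 2) F) : Matrix (Fin 2) (Fin 2) F) = (A : Matrix (Fin 2) (Fin 2) F).transpose →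
      Matrix.GeneralLinearGroup.det A' = Matrix.GeneralLinearGroup.det B' → τ * act A B = act A' B' * τ := by
    intro A B h A' B' e1 e2 h'
    refine hext _ _ fun X => ?_
    rw [hcompM, hact A B h, hτ, hcompM, hτ, hact A' B' h', e1, e2]
    simp only [Matrix.transpose_mul, mul_assoc]
  have hτΨ : ∀ s t : (Matrix.SpecialLinearGroup (Fin 2) F), ∃ s' t', τ * Ψ (s, t) = Ψ (s', t') * τ := fun s t => by
    obtain ⟨t', ht'⟩ : ∃ t' : (Matrix.SpecialLinearGroup (Fin 2) F), t'.1 = (t⁻¹).1.transpose := ⟨⟨_, (Matrix.det_transpose _).trans (t⁻¹).2⟩, rfl⟩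
    obtain ⟨s', hs'⟩ : ∃ s' : (Matrix.SpecialLinearGroup (Fin 2) F), s'.1 = (s⁻¹).1.transpose := ⟨⟨_, (Matrix.det_transpose _).trans (s⁻¹).2⟩, rfl⟩
    refine ⟨t', s', hext _ _ fun X => ?_⟩
    rw [hcompM, hΨ, hτ, hcompM, hτ, hΨ, ht', Matrix.SpecialLinearGroup.coe_inv s', hs']
    rw [Matrix.transpose_mul, Matrix.transpose_mul, Matrix.SpecialLinearGroup.coe_inv]
    simp only [Matrix.SpecialLinearGroup.coe_inv, Matrix.adjugate_transpose, mul_assoc]
    rw [Matrix.adjugate_adjugate _ (by simp)]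
    simp
  have hgen : ∀ g : G, g ∈ Subgroup.closure S ⊔ Ψ.range := by
    intro h
    have hΨmem : ∀ p, Ψ p ∈ Subgroup.closure S ⊔ Ψ.range := fun p => Subgroup.mem_sup_right ⟨p, rfl⟩
    have hτmem : τ ∈ Subgroup.closure S ⊔ Ψ.range := Subgroup.mem_sup_left (Subgroup.subset_closure (Or.inl rfl))
    have hdmem : ∀ A, act A A ∈ Subgroup.closure S ⊔ Ψ.range := fun A => by
      obtain ⟨s, d, e⟩ := hdiag A
      rw [e]
      exact mul_mem (hΨmem _) (Subgroup.mem_sup_left (Subgroup.subset_closure (Or.inr ⟨d, rfl⟩)))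
    have hdetpres : ∀ (g : G) X, (M (g.1.1 *ᵥ M.symm X)).det = X.det := fun g X => by
      rw [← hQdet]
      exact (g.2 _ 0).trans ((hQdet _).trans (by rw [M.apply_symm_apply]))
    set N := M (h.1.1 *ᵥ M.symm 1)
    let s : (Matrix.SpecialLinearGroup (Fin 2) F) := ⟨N, by rw [hdetpres, Matrix.det_one]⟩
    obtain ⟨h', hh'⟩ : ∃ h', h' = (Ψ (s, 1))⁻¹ * h := ⟨_, rfl⟩
    have hh : h = Ψ (s, 1) * h' := by rw [hh', mul_inv_cancel_left]
    rw [hh]
    refine mul_mem (hΨmem _) ?_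
    have hfix : M (h'.1.1 *ᵥ M.symm 1) = 1 := by
      have e : N = s.1 * M (h'.1.1 *ᵥ M.symm 1) := by
        show M (h.1.1 *ᵥ M.symm 1) = _
        rw [hh, hcompM, hΨ]
        simp
      have h2 := congrArg ((s⁻¹).1 * ·) e
      simp only [← mul_assoc] at h2
      rw [← Matrix.SpecialLinearGroup.coe_mul, inv_mul_cancel, Matrix.SpecialLinearGroup.coe_one, one_mul,
        show (s⁻¹).1 * N = (s⁻¹ * s).1 from rfl, inv_mul_cancel, Matrix.SpecialLinearGroup.coe_one] at h2
      exact h2.symm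
    let Y : Matrix (Fin 2) (Fin 2) F →ₗ[F] Matrix (Fin 2) (Fin 2) F :=
      M.toLinearMap.comp ((Matrix.toLin' h'.1.1).comp M.symm.toLinearMap)
    have hY : ∀ X, Y X = M (h'.1.1 *ᵥ M.symm X) := fun X => rfl
    have hYd : ∀ X, (Y X).det = X.det := fun X => hdetpres h' X
    have hY1 : Y 1 = 1 := hfix
    have hd1 : ∀ X : Matrix (Fin 2) (Fin 2) F, (1 + X).det = 1 + X.trace + X.det := fun X => by
      simp [Matrix.det_fin_two, Matrix.trace_fin_two]; ring
    have hYt : ∀ X, (Y X).trace = X.trace := fun X => by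
      have h1 := hd1 (Y X)
      rw [← hY1, ← map_add, hYd, hYd, hd1 X] at h1
      linear_combination -h1
    set P := Y !![1, 0; 0, 0] with hPdef
    have hPd : P.det = 0 := by rw [hPdef, hYd]; simp [Matrix.det_fin_two]
    have hPt : P.trace = 1 := by rw [hPdef, hYt]; simp [Matrix.trace_fin_two]
    obtain ⟨u, hu, hu0⟩ := Matrix.exists_mulVec_eq_zero_iff.2 (show (P - 1).det = 0 by
      simp [Matrix.det_fin_two, Matrix.trace_fin_two] at hPd hPt ⊢; linear_combination hPd - hPt)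
    obtain ⟨w, hw, hw0⟩ := Matrix.exists_mulVec_eq_zero_iff.2 hPd
    rw [Matrix.sub_mulVec, Matrix.one_mulVec, sub_eq_zero] at hu0
    obtain ⟨K, hK⟩ : ∃ K : Matrix (Fin 2) (Fin 2) F, K = Matrix.of fun i j => ![u, w] j i := ⟨_, rfl⟩
    have hK0 : K *ᵥ Pi.single 0 1 = u := by funext i; simp [hK]
    have hK1 : K *ᵥ Pi.single 1 1 = w := by funext i; simp [hK]
    have hKd : K.det ≠ 0 := fun hd => by
      obtain ⟨c, hc, hc0⟩ := Matrix.exists_mulVec_eq_zero_iff.2 hd
      have e : K *ᵥ c = c 0 • u + c 1 • w := by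
        funext i; fin_cases i <;> simp [hK, Matrix.mulVec, dotProduct, Fin.sum_univ_two] <;> ring
      rw [e] at hc0
      have h0 := congrArg (P *ᵥ ·) hc0
      simp only [Matrix.mulVec_add, Matrix.mulVec_smul, hu0, hw0, smul_zero, add_zero, Matrix.mulVec_zero,
        smul_eq_zero, hu, or_false] at h0
      rw [h0, zero_smul, zero_add, smul_eq_zero, or_iff_left hw] at hc0
      exact hc (funext fun i => by fin_cases i <;> simp [h0, hc0])
    obtain ⟨k, hk⟩ : ∃ k : GL (Fin 2) F, (k : Matrix (Fin 2) (Fin 2) F) = K :=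
      ⟨Matrix.GeneralLinearGroup.mkOfDetNeZero K hKd, rfl⟩
    obtain ⟨h'', hk''⟩ : ∃ h'', h' = act k k * h'' := ⟨(act k k)⁻¹ * h', by rw [mul_inv_cancel_left]⟩
    rw [hk'']
    refine mul_mem (hdmem k) ?_
    let Z : Matrix (Fin 2) (Fin 2) F →ₗ[F] Matrix (Fin 2) (Fin 2) F :=
      M.toLinearMap.comp ((Matrix.toLin' h''.1.1).comp M.symm.toLinearMap)
    have hZ : ∀ X, Z X = M (h''.1.1 *ᵥ M.symm X) := fun X => rfl
    have hYZ : ∀ X, Y X = (k : Matrix (Fin 2) (Fin 2) F) * Z X * ((k⁻¹ : GL (Fin 2) F) : Matrix (Fin 2) (Fin 2) F) :=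
      fun X => by rw [hY, hk'', hcompM, hact k k rfl]; rfl
    have hki : ∀ A B : Matrix (Fin 2) (Fin 2) F, (k : Matrix (Fin 2) (Fin 2) F) * A * ((k⁻¹ : GL (Fin 2) F) : Matrix (Fin 2) (Fin 2) F) =
        B → A = ((k⁻¹ : GL (Fin 2) F) : Matrix (Fin 2) (Fin 2) F) * B * (k : Matrix (Fin 2) (Fin 2) F) := fun A B e => by
      rw [← e]; simp only [← mul_assoc, ← Units.val_mul, inv_mul_cancel, Units.val_one, one_mul]
      rw [mul_assoc, ← Units.val_mul, inv_mul_cancel, Units.val_one, mul_one]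
    have hZd : ∀ X, (Z X).det = X.det := fun X => hdetpres h'' X
    have hZ1 : Z 1 = 1 := by
      rw [hki _ _ (hYZ 1).symm, hY1, mul_one, ← Units.val_mul, inv_mul_cancel, Units.val_one]
    have hZt : ∀ X, (Z X).trace = X.trace := fun X => by
      rw [← hYt X, hYZ, Matrix.trace_units_conj]
    have hZP : Z !![1, 0; 0, 0] = !![1, 0; 0, 0] := by
      have e : P * K = K * !![1, 0; 0, 0] := Matrix.ext_of_mulVec_single fun i => by
        rw [← Matrix.mulVec_mulVec, ← Matrix.mulVec_mulVec]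
        fin_cases i
        · rw [show ((⟨0, _⟩ : Fin 2)) = 0 from rfl, hK0, show (!![1, 0; 0, 0] : Matrix (Fin 2) (Fin 2) F) *ᵥ Pi.single 0 1 = Pi.single 0 1 by
            funext i; fin_cases i <;> simp, hK0, hu0]
        · rw [show ((⟨1, _⟩ : Fin 2)) = 1 from rfl, hK1, show (!![1, 0; 0, 0] : Matrix (Fin 2) (Fin 2) F) *ᵥ Pi.single 1 1 = 0 by
            funext i; fin_cases i <;> simp, Matrix.mulVec_zero, hw0]
      rw [hki _ _ (hYZ _).symm, ← hPdef, mul_assoc, hk, e, ← hk, ← mul_assoc, ← Units.val_mul, inv_mul_cancel, Units.val_one, one_mul]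
    have hoff : ∀ X : Matrix (Fin 2) (Fin 2) F, X.trace = 0 → X.det = 0 → X 1 1 = 0 →
        Z X 0 0 = 0 ∧ Z X 1 1 = 0 ∧ Z X 0 1 * Z X 1 0 = 0 := by
      intro X ht hd h11
      have e : ∀ W : Matrix (Fin 2) (Fin 2) F, (!![1, 0; 0, 0] + W).det = W.det + W 1 1 := fun W => by
        simp [Matrix.det_fin_two]; ring
      have h1 := e (Z X)
      rw [show (!![1, 0; 0, 0] : Matrix (Fin 2) (Fin 2) F) + Z X = Z (!![1, 0; 0, 0] + X) by rw [map_add, hZP],
        hZd, hZd, e X, hd, h11, zero_add, zero_add] at h1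
      have h2 := hZt X
      rw [ht, Matrix.trace_fin_two, ← h1, add_zero] at h2
      have h3 := hZd X
      rw [hd, Matrix.det_fin_two, h2, ← h1] at h3
      exact ⟨h2, h1.symm, by linear_combination -h3⟩
    obtain ⟨c00, c11, cc⟩ := hoff !![0, 1; 0, 0] (by simp [Matrix.trace_fin_two]) (by simp [Matrix.det_fin_two]) (by simp)
    obtain ⟨d00, d11, dd'⟩ := hoff !![0, 0; 1, 0] (by simp [Matrix.trace_fin_two]) (by simp [Matrix.det_fin_two]) (by simp)
    have hcd := hZd (!![0, 1; 0, 0] + !![0, 0; 1, 0])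
    rw [map_add] at hcd
    simp [Matrix.det_fin_two, c00, c11, d00, d11] at hcd
    have hlin : ∀ X, Z X = X 0 0 • Z !![1, 0; 0, 0] + X 0 1 • Z !![0, 1; 0, 0] + X 1 0 • Z !![0, 0; 1, 0] +
        X 1 1 • (Z 1 - Z !![1, 0; 0, 0]) := fun X => by
      conv_lhs => rw [show X = X 0 0 • !![1, 0; 0, 0] + X 0 1 • !![0, 1; 0, 0] + X 1 0 • !![0, 0; 1, 0] +
          X 1 1 • (1 - !![1, 0; 0, 0]) by ext i j; fin_cases i <;> fin_cases j <;> simp]
      simp only [map_add, map_smul, map_sub]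
    rcases mul_eq_zero.1 cc with hc | hc
    · have hc' : Z !![0, 1; 0, 0] 1 0 ≠ 0 := fun h => by
        simp [hc, h] at hcd; grind
      have hd' : Z !![0, 0; 1, 0] 1 0 = 0 := by
        rcases mul_eq_zero.1 dd' with h | h
        · simp [hc, h] at hcd
        · exact h
      obtain ⟨e, he⟩ : ∃ e : Fˣ, (e : F) = Z !![0, 1; 0, 0] 1 0 := ⟨Units.mk0 _ hc', rfl⟩
      have e1 : h'' = act (dd e⁻¹) (dd e⁻¹) * τ := hext _ _ fun X => by
        rw [hcompM, hτ, hact _ _ rfl, ← map_inv, inv_inv, hdd, hdd, ← hZ, hlin, hZ1, hZP]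
        have := e.ne_zero
        ext i j; fin_cases i <;> fin_cases j <;>
          simp [Matrix.mul_apply, Matrix.vecMul, dotProduct, Fin.sum_univ_two, c00, c11, d00, d11, hc, hd', he] <;> grind
      rw [e1]
      exact mul_mem (hdmem _) hτmem
    · have hc' : Z !![0, 1; 0, 0] 0 1 ≠ 0 := fun h => by
        simp [hc, h] at hcd; grind
      have hd' : Z !![0, 0; 1, 0] 0 1 = 0 := by
        rcases mul_eq_zero.1 dd' with h | h
        · exact h
        · simp [hc, h] at hcd
      obtain ⟨e, he⟩ : ∃ e : Fˣ, (e : F) = Z !![0, 1; 0, 0] 0 1 := ⟨Units.mk0 _ hc', rfl⟩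
      have e1 : h'' = act (dd e) (dd e) := hext _ _ fun X => by
        rw [hact _ _ rfl, ← map_inv, hdd, hdd, ← hZ, hlin, hZ1, hZP]
        have := e.ne_zero
        ext i j; fin_cases i <;> fin_cases j <;>
          simp [Matrix.mul_apply, Matrix.vecMul, dotProduct, Fin.sum_univ_two, c00, c11, d00, d11, hc, hd', he] <;> grind
      rw [e1]
      exact hdmem _
  have hΩ : Cfsg.Omega F (Cfsg.quadFormPlus 2 F) = Ψ.range := by
    refine le_antisymm (CfsgLib.Forms.commutator_le_of_generators (S := S) ?_ ?_ hgen) ?_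
    · have hconj : ∀ g : G, (∀ s t, ∃ s' t', g * Ψ (s, t) = Ψ (s', t') * g) →
          g ∈ Subgroup.normalizer (Ψ.range : Set G) := fun g hg => by
        refine Subgroup.mem_normalizer_fintype fun n hn => ?_
        obtain ⟨⟨s, t⟩, rfl⟩ := hn
        obtain ⟨s', t', e⟩ := hg s t
        exact ⟨(s', t'), by rw [e, mul_inv_cancel_right]⟩
      rintro g (rfl | ⟨d, rfl⟩)
      · exact hconj _ hτΨ
      · refine hconj _ fun s t => ?_
        obtain ⟨s', hs'⟩ := hofdet (dd d * toG s * (dd d)⁻¹) (by simp [hdetS])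
        obtain ⟨t', ht'⟩ := hofdet (dd d * toG t * (dd d)⁻¹) (by simp [hdetS])
        refine ⟨s', t', ?_⟩
        show _ * act (toG s) (toG t) = act (toG s') (toG t') * _
        rw [← hactmul _ _ _ _ rfl ((hdetS _).trans (hdetS _).symm), ← hactmul _ _ _ _ ((hdetS _).trans (hdetS _).symm) rfl,
          hs', ht', inv_mul_cancel_right, inv_mul_cancel_right]
    · have hτd : ∀ d, ∃ h ∈ Ψ.range, τ * act (dd d) (dd d) = h * (act (dd d) (dd d) * τ) := by
        intro d
        have h1 : τ * act (dd d) (dd d) = act (dd d⁻¹) (dd d⁻¹) * τ := hτact _ _ rfl _ _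
          (by rw [← map_inv, hdd]; ext i j; fin_cases i <;> fin_cases j <;> simp)
          (by rw [← map_inv, inv_inv, hdd]; ext i j; fin_cases i <;> fin_cases j <;> simp) rfl
        obtain ⟨s, hs⟩ : ∃ s : (Matrix.SpecialLinearGroup (Fin 2) F), (toG s : Matrix (Fin 2) (Fin 2) F) = !![(d : F)⁻¹, 0; 0, (d : F)] :=
          ⟨⟨!![(d : F)⁻¹, 0; 0, (d : F)], by simp [Matrix.det_fin_two]⟩, rfl⟩
        refine ⟨Ψ (s, s), ⟨_, rfl⟩, ?_⟩
        rw [h1, ← mul_assoc]
        congr 1
        show _ = act (toG s) (toG s) * _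
        rw [← hactmul _ _ _ _ rfl rfl]
        refine hext _ _ fun X => ?_
        rw [hact _ _ rfl, hact _ _ rfl, ← map_inv, inv_inv, _root_.mul_inv_rev, Units.val_mul, Units.val_mul, ← map_inv,
          show ((toG s)⁻¹ : GL (Fin 2) F) = toG s⁻¹ from (map_inv _ _).symm]
        have hsi : (toG s⁻¹ : Matrix (Fin 2) (Fin 2) F) = !![(d : F), 0; 0, (d : F)⁻¹] := by
          show (s⁻¹).1 = _
          rw [Matrix.SpecialLinearGroup.coe_inv, show s.1 = _ from hs, Matrix.adjugate_fin_two]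
          simp
        rw [hs, hsi, hdd, hdd]
        have := d.ne_zero
        ext i j; fin_cases i <;> fin_cases j <;> simp [Matrix.mul_apply, Matrix.vecMul, dotProduct, Fin.sum_univ_two] <;> field_simp
      rintro g (rfl | ⟨d, rfl⟩) g' (rfl | ⟨d', rfl⟩)
      · exact ⟨1, one_mem _, by rw [one_mul]⟩
      · exact hτd d'
      · obtain ⟨h, hh, e⟩ := hτd d
        exact ⟨h⁻¹, inv_mem hh, by rw [e, inv_mul_cancel_left]⟩
      · refine ⟨1, one_mem _, ?_⟩
        rw [one_mul, ← hactmul _ _ _ _ rfl rfl, ← hactmul _ _ _ _ rfl rfl, ← map_mul, ← map_mul, mul_comm d]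
    · have hlr : ∀ s : (Matrix.SpecialLinearGroup (Fin 2) F), Ψ (s, 1) ∈ Cfsg.Omega F (Cfsg.quadFormPlus 2 F) ∧ Ψ (1, s) ∈ Cfsg.Omega F (Cfsg.quadFormPlus 2 F) := by
        intro s
        have hmem : toG s ∈ commutator (GL (Fin 2) F) := by
          rw [Cfsg.Agent.S0264.result 2 fun _ => ⟨a₀, ha0, ha1⟩]
          exact MonoidHom.mem_ker.2 (hdetS s)
        let l : GL (Fin 2) F →* G := MonoidHom.mk' (fun A => act A (dd (Matrix.GeneralLinearGroup.det A))) fun A B => by
          rw [map_mul, map_mul, ← hactmul _ _ _ _ (hddet _).symm (hddet _).symm]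
        let r : GL (Fin 2) F →* G := MonoidHom.mk' (fun A => act (dd (Matrix.GeneralLinearGroup.det A)) A) fun A B => by
          rw [map_mul, map_mul, ← hactmul _ _ _ _ (hddet _) (hddet _)]
        have hm : ∀ f : GL (Fin 2) F →* G, f (toG s) ∈ Cfsg.Omega F (Cfsg.quadFormPlus 2 F) := fun f => by
          have := Subgroup.mem_map_of_mem f hmem
          rw [commutator_def, Subgroup.map_commutator] at this
          exact Subgroup.commutator_mono le_top le_top this
        constructor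
        · have := hm l
          simp only [l, MonoidHom.mk'_apply, hdetS, map_one] at this
          show act (toG s) (toG 1) ∈ _
          simpa [toG] using this
        · have := hm r
          simp only [r, MonoidHom.mk'_apply, hdetS, map_one] at this
          show act (toG 1) (toG s) ∈ _
          simpa [toG] using this
      rintro _ ⟨⟨s, t⟩, rfl⟩
      rw [show (s, t) = (s, (1 : (Matrix.SpecialLinearGroup (Fin 2) F))) * ((1 : (Matrix.SpecialLinearGroup (Fin 2) F)), t) by simp, map_mul]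
      exact mul_mem (hlr s).1 (hlr t).2
  let ρ : (Matrix.SpecialLinearGroup (Fin 2) F) × (Matrix.SpecialLinearGroup (Fin 2) F) →* Cfsg.POmega F (Cfsg.quadFormPlus 2 F) :=
    (QuotientGroup.mk' _).comp (Ψ.codRestrict _ fun p => by rw [hΩ]; exact ⟨p, rfl⟩)
  have hsurj : Function.Surjective ρ := by
    refine (QuotientGroup.mk'_surjective _).comp fun z => ?_
    obtain ⟨p, hp⟩ := (SetLike.ext_iff.1 hΩ z.1).1 z.2
    exact ⟨p, Subtype.ext hp⟩
  have hker : ρ.ker = (Subgroup.center (Matrix.SpecialLinearGroup (Fin 2) F)).prod (Subgroup.center (Matrix.SpecialLinearGroup (Fin 2) F)) := by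
    have hkerΨ : ∀ p : (Matrix.SpecialLinearGroup (Fin 2) F) × (Matrix.SpecialLinearGroup (Fin 2) F), Ψ p = 1 → p.1 = p.2 := fun p hp => by
      have h := hΨ p.1 p.2 1
      rw [hp, hone, mul_one] at h
      have h' : p.1 * p.2⁻¹ = 1 := Subtype.ext h.symm
      exact mul_inv_eq_one.1 h'
    ext ⟨s, t⟩
    constructor
    · intro hs
      have hz := Subgroup.mem_center_iff.1 ((QuotientGroup.eq_one_iff _).1 hs)
      have key : ∀ p : (Matrix.SpecialLinearGroup (Fin 2) F) × (Matrix.SpecialLinearGroup (Fin 2) F), Ψ (p * (s, t) * (p⁻¹ * (s, t)⁻¹)) = 1 := fun p => by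
        have := congrArg Subtype.val (hz (⟨Ψ p, by rw [hΩ]; exact ⟨p, rfl⟩⟩))
        change Ψ p * Ψ (s, t) = Ψ (s, t) * Ψ p at this
        rw [map_mul, map_mul, this, map_mul, map_inv, map_inv]
        group
      refine ⟨Subgroup.mem_center_iff.2 fun x => ?_, Subgroup.mem_center_iff.2 fun x => ?_⟩
      · have h := hkerΨ _ (key (x, 1))
        simp only [Prod.fst_mul, Prod.snd_mul, Prod.fst_inv, Prod.snd_inv, one_mul, inv_one, mul_inv_cancel] at h
        rw [← mul_inv_eq_one, _root_.mul_inv_rev]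
        exact h
      · have h := hkerΨ _ (key (1, x))
        simp only [Prod.fst_mul, Prod.snd_mul, Prod.fst_inv, Prod.snd_inv, one_mul, inv_one, mul_inv_cancel] at h
        rw [← mul_inv_eq_one, _root_.mul_inv_rev]
        exact h.symm
    · rintro ⟨hs, ht⟩
      refine (QuotientGroup.eq_one_iff _).2 (Subgroup.mem_center_iff.2 fun z => ?_)
      obtain ⟨⟨x, y⟩, e⟩ := (SetLike.ext_iff.1 hΩ z.1).1 z.2
      refine Subtype.ext ?_
      show z.1 * Ψ (s, t) = Ψ (s, t) * z.1
      rw [← e, ← map_mul, ← map_mul, Prod.mk_mul_mk, Prod.mk_mul_mk, Subgroup.mem_center_iff.1 hs x, Subgroup.mem_center_iff.1 ht y]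
  let π : (Matrix.SpecialLinearGroup (Fin 2) F) × (Matrix.SpecialLinearGroup (Fin 2) F) →* Matrix.ProjectiveSpecialLinearGroup (Fin 2) F × Matrix.ProjectiveSpecialLinearGroup (Fin 2) F :=
    (QuotientGroup.mk' _).prodMap (QuotientGroup.mk' _)
  have hπs : Function.Surjective π := Prod.map_surjective.2 ⟨QuotientGroup.mk'_surjective _, QuotientGroup.mk'_surjective _⟩
  have hπk : π.ker = (Subgroup.center (Matrix.SpecialLinearGroup (Fin 2) F)).prod (Subgroup.center (Matrix.SpecialLinearGroup (Fin 2) F)) := by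
    simp [π, MonoidHom.ker_prodMap]
  exact ⟨((QuotientGroup.quotientKerEquivOfSurjective ρ hsurj).symm.trans
    (QuotientGroup.quotientMulEquivOfEq (hker.trans hπk.symm))).trans
      (QuotientGroup.quotientKerEquivOfSurjective π hπs)⟩

end Cfsg.Agent.S0299
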