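import Cfsg.Statements.S0300
import Cfsg.Agent.SLn.Basic
import Cfsg.Agent.Forms.SmallIso
import Cfsg.Agent.Forms.Unitary
import Cfsg.Agent.UGeom.Lines

set_option autoImplicit false
open Cfsg Matrix
open scoped commutatorElement

namespace Cfsg.Agent.S0300

/-- PΩ^-_4(q) is isomorphic to PSL_2(q^2). -/
theorem result {F K : Type*} [Field F] [Fintype F] [Field K] [Fintype K] {q : ℕ} (hF : Fintype.card F = q) (hK : Fintype.card K = q ^ 2) (a b : F) (hab : ∀ z₁ z₂ : F, z₁ ^ 2 + a * z₁ * z₂ + b * z₂ ^ 2 = 0 → z₁ = 0 ∧ z₂ = 0) : Nonempty (Cfsg.POmega F (Cfsg.quadFormMinus 1 F a b) ≃* Matrix.ProjectiveSpecialLinearGroup (Fin 2) K) := by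
  classical
  obtain ⟨f⟩ := CfsgLib.Forms.Unitary.exists_algebra hK hF
  letI := f.toAlgebra
  obtain ⟨C⟩ := CfsgLib.UGeom.nonempty_conj hK
  let ι : F →+* K := algebraMap F K
  obtain ⟨η, hη⟩ : ∃ η : K, η ^ 2 - ι a * η + ι b = 0 := by
    let p : Polynomial F := Polynomial.X ^ 2 - Polynomial.C a * Polynomial.X + Polynomial.C b
    have hdeg : p.natDegree = 2 := by simp only [p]; compute_degree!
    have hirr : Irreducible p := by
      refine (Polynomial.irreducible_iff_roots_eq_zero_of_degree_le_three (by omega) (by omega)).2 ?_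
      refine Multiset.eq_zero_of_forall_notMem fun z hz => ?_
      have := (Polynomial.mem_roots'.1 hz).2
      simp only [p, Polynomial.IsRoot, Polynomial.eval_add, Polynomial.eval_sub, Polynomial.eval_pow, Polynomial.eval_X,
        Polynomial.eval_mul, Polynomial.eval_C] at this
      exact one_ne_zero (hab (-z) 1 (by linear_combination this)).2
    haveI : Fact (Irreducible p) := ⟨hirr⟩
    haveI : Module.Finite F (AdjoinRoot p) := (AdjoinRoot.powerBasis hirr.ne_zero).finite
    have hd : Module.finrank F (AdjoinRoot p) = 2 := by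
      rw [(AdjoinRoot.powerBasis hirr.ne_zero).finrank, AdjoinRoot.powerBasis_dim, hdeg]
    obtain ⟨φ⟩ := FiniteField.nonempty_algHom_of_finrank_dvd (F := F) (K := AdjoinRoot p) (L := K)
      (by subst hF; rw [hd, CfsgLib.Forms.Unitary.finrank_eq hK])
    refine ⟨φ (AdjoinRoot.root p), ?_⟩
    have := congrArg φ (AdjoinRoot.eval₂_root p)
    simp only [p, Polynomial.eval₂_add, Polynomial.eval₂_sub, Polynomial.eval₂_pow, Polynomial.eval₂_X, Polynomial.eval₂_mul,
      Polynomial.eval₂_C, map_add, map_sub, map_pow, map_mul, map_zero, ← AdjoinRoot.algebraMap_eq, AlgHom.commutes] at this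
    exact this
  have hσι : ∀ t, C.σ (ι t) = ι t := fun t => by rw [C.pow, ← map_pow, ← hF, FiniteField.pow_card]
  have hfix : ∀ x, C.σ x = x → ∃ t, ι t = x := by
    have hinj : Function.Injective (fun t : F => (⟨ι t, hσι t⟩ : {x : K // C.σ x = x})) :=
      fun t t' h => ι.injective (congrArg Subtype.val h)
    have hb := (Nat.bijective_iff_injective_and_card _).2 ⟨hinj, by
      rw [Nat.card_eq_fintype_card, hF, CfsgLib.UGeom.card_fixed C]⟩
    intro x hx
    obtain ⟨t, ht⟩ := hb.2 ⟨x, hx⟩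
    exact ⟨t, congrArg Subtype.val ht⟩
  have hηne : C.σ η ≠ η := fun h => by
    obtain ⟨t, ht⟩ := hfix η h
    refine one_ne_zero (hab (-t) 1 (ι.injective ?_)).2
    rw [← ht] at hη
    simp only [map_zero, map_add, map_mul, map_pow, map_neg, map_one]
    linear_combination hη
  have hη' : C.σ η ^ 2 - ι a * C.σ η + ι b = 0 := by
    have := congrArg C.σ hη
    simpa [hσι] using this
  have hsum : η + C.σ η = ι a := by
    have h : (C.σ η - η) * (η + C.σ η - ι a) = 0 := by linear_combination hη' - hη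
    exact sub_eq_zero.1 ((mul_eq_zero.1 h).resolve_left (sub_ne_zero.2 hηne))
  have hprod : η * C.σ η = ι b := by linear_combination η * hsum - hη
  obtain ⟨zc, hzc⟩ : ∃ zc : ((Fin 1 ⊕ Fin 1) ⊕ Fin 2 → F) → K, ∀ v, zc v = ι (v (.inr 0)) + ι (v (.inr 1)) * η :=
    ⟨_, fun v => rfl⟩
  obtain ⟨M, hM⟩ : ∃ M : ((Fin 1 ⊕ Fin 1) ⊕ Fin 2 → F) →ₗ[F] Matrix (Fin 2) (Fin 2) K,
      ∀ v, M v = !![ι (v (.inl (.inl 0))), zc v; C.σ (zc v), -ι (v (.inl (.inr 0)))] := by
    refine ⟨{ toFun := fun v => !![ι (v (.inl (.inl 0))), zc v; C.σ (zc v), -ι (v (.inl (.inr 0)))],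
              map_add' := fun u v => ?_, map_smul' := fun r v => ?_ }, fun v => rfl⟩
    · ext i j; fin_cases i <;> fin_cases j <;> simp [hzc, hσι] <;> ring
    · have hσι' : ∀ t, C.σ (algebraMap F K t) = algebraMap F K t := hσι
      ext i j; fin_cases i <;> fin_cases j <;> simp [hzc, hσι', Algebra.smul_def, ι] <;> ring
  have hzinj : ∀ s t : F, ι s + ι t * η = 0 → s = 0 ∧ t = 0 := by
    intro s t h
    by_cases ht : t = 0
    · subst ht; exact ⟨ι.injective (by simpa using h), rfl⟩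
    · exfalso
      refine hηne ?_
      have hne : ι t ≠ 0 := by simpa using ht
      have e : η = ι (-s / t) := by
        rw [map_div₀, map_neg, eq_div_iff hne]; linear_combination h
      rw [e, hσι]
  have hMinj : Function.Injective M := by
    refine (injective_iff_map_eq_zero M).2 fun v hv => ?_
    rw [hM] at hv
    have e00 := congrFun (congrFun hv 0) 0
    have e01 := congrFun (congrFun hv 0) 1
    have e11 := congrFun (congrFun hv 1) 1
    simp at e00 e01 e11
    obtain ⟨e0, e1⟩ := hzinj _ _ ((hzc v).symm.trans e01)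
    funext k
    rcases k with (k | k) | k <;> fin_cases k
    · exact e00
    · exact e11
    · exact e0
    · exact e1
  have hzsurj : ∀ z : K, ∃ s t : F, ι s + ι t * η = z := by
    have hinj : Function.Injective (fun p : F × F => ι p.1 + ι p.2 * η) := fun p p' h => by
      have := hzinj (p.1 - p'.1) (p.2 - p'.2) (by simp only [map_sub]; linear_combination h)
      exact Prod.ext (sub_eq_zero.1 this.1) (sub_eq_zero.1 this.2)
    have hb := (Nat.bijective_iff_injective_and_card _).2 ⟨hinj, by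
      rw [Nat.card_prod, Nat.card_eq_fintype_card, Nat.card_eq_fintype_card, hF, hK, sq]⟩
    intro z
    obtain ⟨p, hp⟩ := hb.2 z
    exact ⟨p.1, p.2, hp⟩
  have hherm : ∀ A : Matrix (Fin 2) (Fin 2) K, C.σ (A 0 0) = A 0 0 → C.σ (A 1 1) = A 1 1 → A 1 0 = C.σ (A 0 1) →
      ∃ v, M v = A := by
    intro A h0 h1 h10
    obtain ⟨x, hx⟩ := hfix _ h0
    obtain ⟨y, hy⟩ := hfix _ h1
    obtain ⟨s, t, hz⟩ := hzsurj (A 0 1)
    refine ⟨Sum.elim (Sum.elim (fun _ => x) (fun _ => -y)) ![s, t], ?_⟩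
    rw [hM, hzc]
    ext i j; fin_cases i <;> fin_cases j <;> simp [hx, hy, hz, h10]
  have hMh : ∀ v, C.σ (M v 0 0) = M v 0 0 ∧ C.σ (M v 1 1) = M v 1 1 ∧ M v 1 0 = C.σ (M v 0 1) := fun v => by
    simp [hM, hσι]
  have hQdet : ∀ v, ι (Cfsg.quadFormMinus 1 F a b v) = -(M v).det := fun v => by
    simp only [Cfsg.quadFormMinus, Fin.sum_univ_one, map_add, map_mul, map_pow, hM, hzc, Matrix.det_fin_two]
    simp [hσι]
    linear_combination -(ι (v (.inr 0)) * ι (v (.inr 1))) * hsum - (ι (v (.inr 1))) ^ 2 * hprod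
  let st : Matrix (Fin 2) (Fin 2) K → Matrix (Fin 2) (Fin 2) K := fun A => (A.map C.σ).transpose
  have hstmul : ∀ A B, st (A * B) = st B * st A := fun A B => by
    simp [st, Matrix.map_mul, Matrix.transpose_mul]
  have hdetσ : ∀ A : Matrix (Fin 2) (Fin 2) K, (A.map C.σ).det = C.σ A.det := fun A => by
    simp [Matrix.det_fin_two]
  set G := ↥(Cfsg.isometryGroup F (Cfsg.quadFormMinus 1 F a b))
  have hext : ∀ g g' : G, (∀ v, M (g.1.1 *ᵥ v) = M (g'.1.1 *ᵥ v)) → g = g' := fun g g' h =>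
    Subtype.ext (Units.ext (Matrix.ext_of_mulVec_single fun i => hMinj (h _)))
  have hcomp : ∀ (g g' : G) v, (g * g').1.1 *ᵥ v = g.1.1 *ᵥ (g'.1.1 *ᵥ v) := fun g g' v => by
    rw [Matrix.mulVec_mulVec]; rfl
  have hdetpres : ∀ (g : G) v, (M (g.1.1 *ᵥ v)).det = (M v).det := fun g v => by
    have := congrArg ι (g.2 v 0)
    change ι (Cfsg.quadFormMinus 1 F a b (g.1.1 *ᵥ v)) = ι (Cfsg.quadFormMinus 1 F a b v) at this
    rw [hQdet, hQdet] at this
    exact neg_injective this
  have build : ∀ φ : Matrix (Fin 2) (Fin 2) K → Matrix (Fin 2) (Fin 2) K,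
      (∀ X Y, φ (X + Y) = φ X + φ Y) → (∀ (r : F) X, φ (r • X) = r • φ X) →
      (∀ v, ∃ w, M w = φ (M v)) → (∀ X, φ X = 0 → X = 0) → (∀ X, (φ X).det = X.det) →
      ∃ g : G, ∀ v, M (g.1.1 *ᵥ v) = φ (M v) := by
    intro φ hadd hsm hw hker hdet
    choose w hw using hw
    let L : ((Fin 1 ⊕ Fin 1) ⊕ Fin 2 → F) →ₗ[F] ((Fin 1 ⊕ Fin 1) ⊕ Fin 2 → F) :=
      { toFun := w
        map_add' := fun u v => hMinj (by rw [map_add, hw, hw, hw, map_add, hadd])
        map_smul' := fun r v => hMinj (by rw [RingHom.id_apply, map_smul, hw, hw, map_smul, hsm]) }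
    have hA : ∀ v, M (LinearMap.toMatrix' L *ᵥ v) = φ (M v) := fun v => by rw [LinearMap.toMatrix'_mulVec]; exact hw v
    have hAu : IsUnit (LinearMap.toMatrix' L) := Matrix.mulVec_injective_iff_isUnit.1 fun u v h => by
      have h' := congrArg M h
      simp only [hA] at h'
      refine hMinj (sub_eq_zero.1 (hker _ ?_))
      have e := hadd (M u - M v) (M v)
      rw [sub_add_cancel, h'] at e
      exact right_eq_add.1 e
    refine ⟨⟨hAu.unit, fun u v => ι.injective ?_⟩, hA⟩
    show ι (Cfsg.quadFormMinus 1 F a b (LinearMap.toMatrix' L *ᵥ u)) = ι (Cfsg.quadFormMinus 1 F a b u)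
    rw [hQdet, hQdet, hA, hdet]
  let Nd : GL (Fin 2) K → Prop := fun g => (g : Matrix (Fin 2) (Fin 2) K).det * C.σ (g : Matrix (Fin 2) (Fin 2) K).det = 1
  obtain ⟨act, hact⟩ : ∃ act : GL (Fin 2) K → G, ∀ g, Nd g →
      ∀ v, M ((act g).1.1 *ᵥ v) = (g : Matrix (Fin 2) (Fin 2) K) * M v * st (g : Matrix (Fin 2) (Fin 2) K) := by
    have h : ∀ g : GL (Fin 2) K, ∃ x : G, Nd g →
        ∀ v, M (x.1.1 *ᵥ v) = (g : Matrix (Fin 2) (Fin 2) K) * M v * st (g : Matrix (Fin 2) (Fin 2) K) := by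
      intro g
      by_cases hd : Nd g
      · obtain ⟨x, hx⟩ := build (fun X => (g : Matrix (Fin 2) (Fin 2) K) * X * st (g : Matrix (Fin 2) (Fin 2) K))
          (fun X Y => by simp only [mul_add, add_mul]) (fun r X => by simp only [Matrix.mul_smul, Matrix.smul_mul])
          (fun v => by
            obtain ⟨h0, h1, h10⟩ := hMh v
            refine hherm _ ?_ ?_ ?_ <;>
              simp [st, Matrix.mul_apply, Fin.sum_univ_two, h0, h1, h10, C.invol] <;> ring)
          (fun X hX => by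
            have h1 : IsUnit (st (g : Matrix (Fin 2) (Fin 2) K)) := by
              rw [Matrix.isUnit_iff_isUnit_det, Matrix.det_transpose, hdetσ]
              exact (IsUnit.mk0 _ (right_ne_zero_of_mul_eq_one hd))
            exact g.isUnit.mul_right_eq_zero.1 (h1.mul_left_eq_zero.1 hX))
          (fun X => by
            rw [Matrix.det_mul, Matrix.det_mul, Matrix.det_transpose, hdetσ]
            linear_combination X.det * hd)
        exact ⟨x, fun _ => hx⟩
      · exact ⟨1, fun h => absurd h hd⟩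
    choose x hx using h
    exact ⟨x, hx⟩
  have hactmul : ∀ g g', Nd g → Nd g' → act (g * g') = act g * act g' := fun g g' h h' => hext _ _ fun v => by
    rw [hact _ (by simp only [Nd, Units.val_mul, Matrix.det_mul, map_mul] at h h' ⊢; linear_combination h' + (g' : Matrix (Fin 2) (Fin 2) K).det * C.σ (g' : Matrix (Fin 2) (Fin 2) K).det * h),
      hcomp, hact g h, hact g' h', Units.val_mul, hstmul]
    simp only [mul_assoc]
  obtain ⟨τ, hτ⟩ := build Matrix.transpose (fun X Y => Matrix.transpose_add X Y) (fun r X => Matrix.transpose_smul r X)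
    (fun v => by
      obtain ⟨h0, h1, h10⟩ := hMh v
      exact hherm _ (by simpa using h0) (by simpa using h1) (by simp [h10, C.invol]))
    (fun X h => by simpa using h) (fun X => Matrix.det_transpose X)
  let toG : Matrix.SpecialLinearGroup (Fin 2) K → GL (Fin 2) K := fun s => Matrix.SpecialLinearGroup.toGL s
  have hNS : ∀ s, Nd (toG s) := fun s => by
    show s.1.det * C.σ s.1.det = 1
    rw [s.2, map_one, one_mul]
  let Ψ : Matrix.SpecialLinearGroup (Fin 2) K →* G := MonoidHom.mk' (fun s => act (toG s)) fun s s' => by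
    simp only [toG, map_mul]; exact hactmul _ _ (hNS s) (hNS s')
  have hΨ : ∀ (s : Matrix.SpecialLinearGroup (Fin 2) K) v, M ((Ψ s).1.1 *ᵥ v) = s.1 * M v * st s.1 := fun s v => hact _ (hNS s) v
  obtain ⟨dd, hdd⟩ : ∃ dd : Kˣ →* GL (Fin 2) K, ∀ d, (dd d : Matrix (Fin 2) (Fin 2) K) = !![(d : K), 0; 0, 1] := by
    let D : Kˣ →* Matrix (Fin 2) (Fin 2) K :=
      { toFun := fun d => !![(d : K), 0; 0, 1]
        map_one' := by ext i j; fin_cases i <;> fin_cases j <;> simp
        map_mul' := fun x y => by ext i j; fin_cases i <;> fin_cases j <;> simp [Matrix.mul_apply, Fin.sum_univ_two] }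
    exact ⟨D.toHomUnits, fun d => rfl⟩
  have hNdd : ∀ d : Kˣ, (d : K) * C.σ d = 1 → Nd (dd d) := fun d h => by simp [Nd, hdd, Matrix.det_fin_two, h]
  let S : Set G := insert τ {x | ∃ d : Kˣ, (d : K) * C.σ d = 1 ∧ x = act (dd d)}
  let ex : (Fin 1 ⊕ Fin 1) ⊕ Fin 2 → F := Pi.single (.inl (.inl 0)) 1
  let ey : (Fin 1 ⊕ Fin 1) ⊕ Fin 2 → F := Pi.single (.inl (.inr 0)) 1
  let e0 : (Fin 1 ⊕ Fin 1) ⊕ Fin 2 → F := Pi.single (.inr 0) 1
  let e1 : (Fin 1 ⊕ Fin 1) ⊕ Fin 2 → F := Pi.single (.inr 1) 1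
  have hMx : M ex = !![1, 0; 0, 0] := by simp [hM, hzc, ex]
  have hMy : M ey = !![0, 0; 0, -1] := by simp [hM, hzc, ey]
  have hM0 : M e0 = !![0, 1; 1, 0] := by simp [hM, hzc, e0]
  have hM1 : M e1 = !![0, η; C.σ η, 0] := by simp [hM, hzc, e1]
  have hdec : ∀ v, v = v (.inl (.inl 0)) • ex + v (.inl (.inr 0)) • ey + v (.inr 0) • e0 + v (.inr 1) • e1 := fun v => by
    funext k; rcases k with (k | k) | k <;> fin_cases k <;> simp [ex, ey, e0, e1]
  have hgen : ∀ g : G, g ∈ Subgroup.closure S ⊔ Ψ.range := by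
    intro h
    have hΨmem : ∀ p, Ψ p ∈ Subgroup.closure S ⊔ Ψ.range := fun p => Subgroup.mem_sup_right ⟨p, rfl⟩
    obtain ⟨h0, h1, h10⟩ := hMh (h.1.1 *ᵥ ex)
    set P := M (h.1.1 *ᵥ ex) with hP
    have hPd : P.det = 0 := by rw [hP, hdetpres, hMx]; simp [Matrix.det_fin_two]
    rw [Matrix.det_fin_two, h10] at hPd
    have hP0 : P ≠ 0 := fun e => by
      have := hMinj (a₁ := h.1.1 *ᵥ ex) (a₂ := 0) (by rw [← hP, e, map_zero])
      have h2 := congrArg (h⁻¹.1.1 *ᵥ ·) this
      simp only [Matrix.mulVec_zero] at h2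
      rw [← hcomp, inv_mul_cancel] at h2
      simp only [OneMemClass.coe_one, Units.val_one, Matrix.one_mulVec] at h2
      simp [ex] at h2
    obtain ⟨w, hw⟩ : ∃ w : Fin 2 → K, ∀ i j, P i j = w i * C.σ (w j) := by
      by_cases hx : P 0 0 = 0
      · have hz : P 0 1 = 0 := by
          rcases mul_eq_zero.1 (show P 0 1 * C.σ (P 0 1) = 0 by linear_combination -hPd + P 1 1 * hx) with e | e
          exacts [e, by simpa using congrArg C.σ e]
        have hy : P 1 1 ≠ 0 := fun e => hP0 (by ext i j; fin_cases i <;> fin_cases j <;> simp [hx, hz, e, h10])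
        obtain ⟨c, -, hc⟩ := CfsgLib.Hermitian.exists_norm C.ne_id C.invol hy h1
        rw [mul_comm] at hc
        refine ⟨![0, c], fun i j => ?_⟩
        fin_cases i <;> fin_cases j <;> simp [hx, hz, h10, hc]
      · obtain ⟨c, -, hc⟩ := CfsgLib.Hermitian.exists_norm C.ne_id C.invol hx h0
        rw [mul_comm] at hc
        have hc0 : c ≠ 0 := fun e => hx (by rw [← hc, e, zero_mul])
        have hc1 : C.σ c ≠ 0 := (map_ne_zero C.σ).2 hc0
        refine ⟨![c, C.σ (P 0 1) / C.σ c], fun i j => ?_⟩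
        fin_cases i <;> fin_cases j <;> simp [hc, h10, C.invol] <;> field_simp
        linear_combination hPd + P 1 1 * hc
    obtain ⟨s, hs⟩ : ∃ s : Matrix.SpecialLinearGroup (Fin 2) K, ∀ i, s.1 i 0 = w i := by
      by_cases hx : w 0 = 0
      · have hy : w 1 ≠ 0 := fun e => hP0 (by ext i j; fin_cases i <;> fin_cases j <;> simp [hw, hx, e])
        refine ⟨⟨!![0, -(w 1)⁻¹; w 1, 0], by simp [Matrix.det_fin_two, hy]⟩, fun i => ?_⟩
        fin_cases i <;> simp [hx]
      · refine ⟨⟨!![w 0, 0; w 1, (w 0)⁻¹], by simp [Matrix.det_fin_two, hx]⟩, fun i => ?_⟩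
        fin_cases i <;> simp
    obtain ⟨h', hh'⟩ : ∃ h', h' = (Ψ s)⁻¹ * h := ⟨_, rfl⟩
    have hh : h = Ψ s * h' := by rw [hh', mul_inv_cancel_left]
    rw [hh]
    refine mul_mem (hΨmem _) ?_
    have hfx : h'.1.1 *ᵥ ex = ex := by
      rw [hh', hcomp]
      have e : (Ψ s).1.1 *ᵥ ex = h.1.1 *ᵥ ex := hMinj (by
        rw [hΨ, ← hP, hMx]
        ext i j
        rw [hw, ← hs, ← hs]
        fin_cases i <;> fin_cases j <;> simp [st, Matrix.mul_apply, Matrix.vecMul, dotProduct, Fin.sum_univ_two])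
      rw [← e, ← hcomp, inv_mul_cancel]
      simp
    obtain ⟨k0, k1, k10⟩ := hMh (h'.1.1 *ᵥ ey)
    set Q := M (h'.1.1 *ᵥ ey) with hQ
    have hQd : Q.det = 0 := by rw [hQ, hdetpres, hMy]; simp [Matrix.det_fin_two]
    have hQ11 : Q 1 1 = -1 := by
      have h2 := hdetpres h' (ex + ey)
      rw [Matrix.mulVec_add, hfx, map_add, map_add, hMx, hMy, ← hQ] at h2
      simp [Matrix.det_fin_two] at h2
      rw [Matrix.det_fin_two] at hQd
      linear_combination h2 - hQd
    obtain ⟨t, ht⟩ : ∃ t : Matrix.SpecialLinearGroup (Fin 2) K, t.1 = !![1, -(Q 0 1); 0, 1] :=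
      ⟨⟨_, by simp [Matrix.det_fin_two]⟩, rfl⟩
    obtain ⟨h'', hh''⟩ : ∃ h'', h'' = (Ψ t)⁻¹ * h' := ⟨_, rfl⟩
    have hk : h' = Ψ t * h'' := by rw [hh'', mul_inv_cancel_left]
    rw [hk]
    refine mul_mem (hΨmem _) ?_
    have hgx : h''.1.1 *ᵥ ex = ex := by
      rw [hh'', hcomp, hfx]
      have e : (Ψ t).1.1 *ᵥ ex = ex := hMinj (by
        rw [hΨ, hMx, ht]
        ext i j; fin_cases i <;> fin_cases j <;> simp [st, Matrix.mul_apply, Matrix.vecMul, dotProduct, Fin.sum_univ_two])
      conv_lhs => rw [← e, ← hcomp, inv_mul_cancel]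
      simp
    have hgy : h''.1.1 *ᵥ ey = ey := by
      rw [hh'', hcomp]
      have e : (Ψ t).1.1 *ᵥ ey = h'.1.1 *ᵥ ey := hMinj (by
        rw [hΨ, ← hQ, hMy, ht]
        rw [Matrix.det_fin_two, hQ11, k10] at hQd
        ext i j; fin_cases i <;> fin_cases j <;> simp [st, Matrix.mul_apply, Matrix.vecMul, dotProduct, Fin.sum_univ_two, hQ11, k10]
        linear_combination hQd)
      rw [← e, ← hcomp, inv_mul_cancel]
      simp
    have hoff : ∀ v, M v 0 0 = 0 → M v 1 1 = 0 → M (h''.1.1 *ᵥ v) 0 0 = 0 ∧ M (h''.1.1 *ᵥ v) 1 1 = 0 := by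
      intro v v0 v1
      have p1 := hdetpres h'' (ex + v)
      have p2 := hdetpres h'' (ey + v)
      have p0 := hdetpres h'' v
      rw [Matrix.mulVec_add, hgx, map_add, map_add, hMx] at p1
      rw [Matrix.mulVec_add, hgy, map_add, map_add, hMy] at p2
      simp [Matrix.det_fin_two, v0, v1] at p1 p2 p0
      exact ⟨by linear_combination p0 - p2, by linear_combination p1 - p0⟩
    obtain ⟨a00, a11⟩ := hoff e0 (by simp [hM0]) (by simp [hM0])
    obtain ⟨b00, b11⟩ := hoff e1 (by simp [hM1]) (by simp [hM1])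
    obtain ⟨μ, hμ⟩ : ∃ μ, μ = M (h''.1.1 *ᵥ e0) 0 1 := ⟨_, rfl⟩
    obtain ⟨ν, hν⟩ : ∃ ν, ν = M (h''.1.1 *ᵥ e1) 0 1 := ⟨_, rfl⟩
    have a10 := (hMh (h''.1.1 *ᵥ e0)).2.2
    have b10 := (hMh (h''.1.1 *ᵥ e1)).2.2
    rw [← hμ] at a10
    rw [← hν] at b10
    have hμ1 : μ * C.σ μ = 1 := by
      have := hdetpres h'' e0
      simp [Matrix.det_fin_two, hM0, a00, a11, a10, ← hμ] at this
      linear_combination this
    have hν1 : ν * C.σ ν = ι b := by
      have := hdetpres h'' e1
      simp [Matrix.det_fin_two, hM1, b00, b11, b10, ← hν] at this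
      linear_combination this + hprod
    have hμν : μ * C.σ ν + ν * C.σ μ = ι a := by
      have := hdetpres h'' (e0 + e1)
      simp [Matrix.mulVec_add, Matrix.det_fin_two, hM0, hM1, a00, a11, a10, b00, b11, b10, ← hμ, ← hν] at this
      linear_combination this - hμ1 - hν1 + hsum + hprod
    have hlin : ∀ v, M (h''.1.1 *ᵥ v) = !![ι (v (.inl (.inl 0))), μ * ι (v (.inr 0)) + ν * ι (v (.inr 1));
        C.σ μ * ι (v (.inr 0)) + C.σ ν * ι (v (.inr 1)), -ι (v (.inl (.inr 0)))] := fun v => by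
      conv_lhs => rw [hdec v]
      simp only [Matrix.mulVec_add, Matrix.mulVec_smul, hgx, hgy, map_add, map_smul, hMx, hMy]
      ext i j
      simp only [Matrix.add_apply, Matrix.smul_apply]
      simp only [Algebra.smul_def]
      fin_cases i <;> fin_cases j <;>
        simp [ι, a00, a11, a10, b00, b11, b10, ← hμ, ← hν] <;> ring
    have hκ : ν * C.σ μ = η ∨ ν * C.σ μ = C.σ η := by
      have : (ν * C.σ μ - η) * (ν * C.σ μ - C.σ η) = 0 := by
        linear_combination hprod + (C.σ μ * μ) * (-hν1) + (ν * C.σ μ) * hμν - (ν * C.σ μ) * hsum - ι b * hμ1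
      rcases mul_eq_zero.1 this with e | e
      · exact Or.inl (sub_eq_zero.1 e)
      · exact Or.inr (sub_eq_zero.1 e)
    obtain ⟨d, hd⟩ : ∃ d : Kˣ, (d : K) = μ := ⟨Units.mk0 μ (left_ne_zero_of_mul_eq_one hμ1), rfl⟩
    have hdmem : act (dd d) ∈ Subgroup.closure S ⊔ Ψ.range :=
      Subgroup.mem_sup_left (Subgroup.subset_closure (Or.inr ⟨d, by rw [hd]; exact hμ1, rfl⟩))
    rcases hκ with e | e
    · have hνe : ν = μ * η := by linear_combination -ν * hμ1 + μ * e
      have : h'' = act (dd d) := hext _ _ fun v => by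
        rw [hlin, hact _ (hNdd d (by rw [hd]; exact hμ1)), hdd, hd, hM, hzc]
        ext i j; fin_cases i <;> fin_cases j <;>
          simp [st, Matrix.mul_apply, Matrix.vecMul, dotProduct, Fin.sum_univ_two, hνe, hσι] <;> grind
      rw [this]
      exact hdmem
    · have hνe : ν = μ * C.σ η := by linear_combination -ν * hμ1 + μ * e
      have : h'' = act (dd d) * τ := hext _ _ fun v => by
        rw [hlin, hcomp, hact _ (hNdd d (by rw [hd]; exact hμ1)), hτ, hdd, hd, hM, hzc]
        ext i j; fin_cases i <;> fin_cases j <;>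
          simp [st, Matrix.mul_apply, Matrix.vecMul, dotProduct, Fin.sum_univ_two, hνe, hσι, C.invol] <;> grind
      rw [this]
      exact mul_mem hdmem (Subgroup.mem_sup_left (Subgroup.subset_closure (Or.inl rfl)))
  have hΩ : Cfsg.Omega F (Cfsg.quadFormMinus 1 F a b) = Ψ.range := by
    refine le_antisymm (CfsgLib.Forms.commutator_le_of_generators (S := S) ?_ ?_ hgen) ?_
    · have hconj : ∀ g : G, (∀ s, ∃ s', g * Ψ s = Ψ s' * g) →
          g ∈ Subgroup.normalizer (Ψ.range : Set G) := fun g hg => by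
        refine Subgroup.mem_normalizer_fintype fun n hn => ?_
        obtain ⟨s, rfl⟩ := hn
        obtain ⟨s', e⟩ := hg s
        exact ⟨s', by rw [e, mul_inv_cancel_right]⟩
      rintro g (rfl | ⟨d, hd, rfl⟩)
      · refine hconj _ fun s => ?_
        obtain ⟨s', hs'⟩ : ∃ s' : Matrix.SpecialLinearGroup (Fin 2) K, s'.1 = s.1.map C.σ :=
          ⟨⟨_, (hdetσ _).trans ((congrArg C.σ s.2).trans (map_one _))⟩, rfl⟩
        refine ⟨s', hext _ _ fun v => ?_⟩
        rw [hcomp, hτ, hΨ, hcomp, hΨ, hτ, hs']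
        simp [st, Matrix.transpose_mul, mul_assoc, Matrix.map_map, Function.comp_def, C.invol]
      · refine hconj _ fun s => ?_
        obtain ⟨s', hs'⟩ : ∃ s', toG s' = dd d * toG s * (dd d)⁻¹ :=
          ⟨⟨(dd d * toG s * (dd d)⁻¹ : GL (Fin 2) K).1, by rw [Units.val_mul, Units.val_mul, Matrix.det_units_conj]; exact s.2⟩, Units.ext rfl⟩
        refine ⟨s', ?_⟩
        show _ * act (toG s) = act (toG s') * _
        rw [← hactmul _ _ (hNdd d hd) (hNS s), ← hactmul _ _ (hNS _) (hNdd d hd), hs', inv_mul_cancel_right]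
    · have hτd : ∀ d : Kˣ, (d : K) * C.σ d = 1 → ∃ h ∈ Ψ.range, τ * act (dd d) = h * (act (dd d) * τ) := by
        intro d hd
        obtain ⟨s, hs⟩ : ∃ s : Matrix.SpecialLinearGroup (Fin 2) K, s.1 = !![C.σ (d : K), 0; 0, (d : K)] :=
          ⟨⟨_, by simp [Matrix.det_fin_two]; linear_combination hd⟩, rfl⟩
        refine ⟨Ψ s, ⟨_, rfl⟩, hext _ _ fun v => ?_⟩
        rw [hcomp, hτ, hact _ (hNdd d hd), hcomp, hΨ, hcomp, hact _ (hNdd d hd), hτ, hdd, hs, hM]
        ext i j; fin_cases i <;> fin_cases j <;>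
          simp [st, Matrix.mul_apply, Matrix.vecMul, dotProduct, Fin.sum_univ_two, C.invol] <;> grind
      rintro g (rfl | ⟨d, hd, rfl⟩) g' (rfl | ⟨d', hd', rfl⟩)
      · exact ⟨1, one_mem _, by rw [one_mul]⟩
      · exact hτd d' hd'
      · obtain ⟨h, hh, e⟩ := hτd d hd
        exact ⟨h⁻¹, inv_mem hh, by rw [e, inv_mul_cancel_left]⟩
      · refine ⟨1, one_mem _, ?_⟩
        rw [one_mul, ← hactmul _ _ (hNdd d hd) (hNdd d' hd'), ← hactmul _ _ (hNdd d' hd') (hNdd d hd), ← map_mul, ← map_mul, mul_comm d]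
    · obtain ⟨x, hx0, hx2⟩ : ∃ x : K, x ≠ 0 ∧ x ^ 2 ≠ 1 := by
        have hq := C.two_le
        have h4 : 4 ≤ Fintype.card K := by rw [hK]; nlinarith
        have h : ({0, 1, -1} : Finset K).card < Fintype.card K := lt_of_le_of_lt Finset.card_le_three (by omega)
        obtain ⟨x, -, hx⟩ := Finset.exists_mem_notMem_of_card_lt_card (t := Finset.univ) h
        simp at hx
        exact ⟨x, hx.1, fun e => by rcases sq_eq_one_iff.1 e with e | e; exacts [hx.2.1 e, hx.2.2 e]⟩
      rw [MonoidHom.range_eq_map, ← CfsgLib.SLn.commutator_eq_top (F := K) (ι := Fin 2) (Or.inr ⟨x, hx0, hx2⟩), commutator_def,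
        Subgroup.map_commutator]
      exact Subgroup.commutator_mono le_top le_top
  let ρ : Matrix.SpecialLinearGroup (Fin 2) K →* Cfsg.POmega F (Cfsg.quadFormMinus 1 F a b) :=
    (QuotientGroup.mk' _).comp (Ψ.codRestrict _ fun p => by rw [hΩ]; exact ⟨p, rfl⟩)
  have hsurj : Function.Surjective ρ := by
    refine (QuotientGroup.mk'_surjective _).comp fun z => ?_
    obtain ⟨p, hp⟩ := (SetLike.ext_iff.1 hΩ z.1).1 z.2
    exact ⟨p, Subtype.ext hp⟩
  have hkerΨ : ∀ A, Ψ A = 1 → ∃ c : K, c * c = 1 ∧ A.1 = c • (1 : Matrix (Fin 2) (Fin 2) K) := by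
    intro A hA
    have h := fun v => hΨ A v
    simp only [hA] at h
    have hx := h ex
    have hy := h ey
    have hz := h e0
    simp only [hMx, hMy, hM0] at hx hy hz
    have x00 := congrFun (congrFun hx 0) 0
    have x11 := congrFun (congrFun hx 1) 1
    have y00 := congrFun (congrFun hy 0) 0
    have z01 := congrFun (congrFun hz 0) 1
    simp [st, hMx, hMy, hM0, Matrix.mul_apply, Matrix.vecMul, dotProduct, Fin.sum_univ_two] at x00 x11 y00 z01
    have e10 : A.1 1 0 = 0 := x11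
    have e01 : A.1 0 1 = 0 := y00
    have e11 : A.1 1 1 = A.1 0 0 := by
      simp [e01, e10] at z01
      refine C.σ.injective (mul_left_cancel₀ (left_ne_zero_of_mul_eq_one z01.symm) ?_)
      rw [← z01, ← x00]
    refine ⟨A.1 0 0, ?_, ?_⟩
    · have := A.2
      rw [Matrix.det_fin_two, e01, e10, e11] at this
      linear_combination this
    · ext i j; fin_cases i <;> fin_cases j <;> simp [e01, e10, e11]
  have hker : ρ.ker = Subgroup.center (Matrix.SpecialLinearGroup (Fin 2) K) := by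
    ext s
    constructor
    · intro hs
      have hz := Subgroup.mem_center_iff.1 ((QuotientGroup.eq_one_iff _).1 hs)
      have key : ∀ t : Matrix.SpecialLinearGroup (Fin 2) K, t.1.trace = 2 → Commute s t := by
        intro t ht
        have e := congrArg Subtype.val (hz (⟨Ψ t, by rw [hΩ]; exact ⟨t, rfl⟩⟩))
        change Ψ t * Ψ s = Ψ s * Ψ t at e
        obtain ⟨c, hcc, hc⟩ := hkerΨ (s * t * (t * s)⁻¹) (by rw [map_mul, map_inv, map_mul, map_mul, e, mul_inv_cancel])
        have hc' : (s * t).1 = c • (t * s).1 := by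
          rw [show s * t = s * t * (t * s)⁻¹ * (t * s) by group, Matrix.SpecialLinearGroup.coe_mul, hc]
          simp
        have hc1 : c = 1 := by
          have h1 : s.1 * t.1 * (s⁻¹).1 = c • t.1 := by
            rw [← Matrix.SpecialLinearGroup.coe_mul, hc', Matrix.SpecialLinearGroup.coe_mul, Matrix.smul_mul, mul_assoc,
              ← Matrix.SpecialLinearGroup.coe_mul, mul_inv_cancel, Matrix.SpecialLinearGroup.coe_one, mul_one]
          have h2' := congrArg Matrix.trace h1
          rw [Matrix.trace_mul_cycle, ← Matrix.SpecialLinearGroup.coe_mul, inv_mul_cancel,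
            Matrix.SpecialLinearGroup.coe_one, one_mul, Matrix.trace_smul, smul_eq_mul, ht] at h2'
          rcases mul_self_eq_one_iff.1 hcc with e | e
          · exact e
          · subst e
            by_cases h2 : (2 : K) = 0
            · linear_combination -h2
            · exact mul_right_cancel₀ h2 (by linear_combination -h2')
        exact Subtype.ext (by rw [hc', hc1, one_smul])
      have c1 : s.1 * !![1, 1; 0, 1] = !![1, 1; 0, 1] * s.1 := congrArg Subtype.val (key ⟨!![1, 1; 0, 1], by simp [Matrix.det_fin_two]⟩ (by simp [Matrix.trace_fin_two]; ring)).eq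
      have c2 : s.1 * !![1, 0; 1, 1] = !![1, 0; 1, 1] * s.1 := congrArg Subtype.val (key ⟨!![1, 0; 1, 1], by simp [Matrix.det_fin_two]⟩ (by simp [Matrix.trace_fin_two]; ring)).eq
      have x1 := congrFun (congrFun c1 0) 0
      have x2 := congrFun (congrFun c1 0) 1
      have x3 := congrFun (congrFun c2 0) 0
      simp [Matrix.mul_apply, Fin.sum_univ_two] at x1 x2 x3
      rw [Subgroup.mem_center_iff]
      intro t
      refine Subtype.ext ?_
      have hs' : s.1 = s.1 0 0 • (1 : Matrix (Fin 2) (Fin 2) K) := by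
        ext i j; fin_cases i <;> fin_cases j <;> simp <;> grind
      show t.1 * s.1 = s.1 * t.1
      rw [hs']; simp
    · intro hs
      refine (QuotientGroup.eq_one_iff _).2 (Subgroup.mem_center_iff.2 fun z => ?_)
      obtain ⟨t, e⟩ := (SetLike.ext_iff.1 hΩ z.1).1 z.2
      refine Subtype.ext ?_
      show z.1 * Ψ s = Ψ s * z.1
      rw [← e, ← map_mul, ← map_mul, Subgroup.mem_center_iff.1 hs t]
  exact ⟨((QuotientGroup.quotientMulEquivOfEq hker.symm).trans
    (QuotientGroup.quotientKerEquivOfSurjective ρ hsurj)).symm⟩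

end Cfsg.Agent.S0300
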