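import Cfsg.Statements.S0302
import Cfsg.Agent.SLn.Card
import Cfsg.Agent.SLn.Basic
import Cfsg.Agent.OrthOrder.Orders
import Cfsg.Agent.OrthOrder.Center
import Cfsg.Agent.S0790

set_option autoImplicit false
open Cfsg Matrix
open scoped commutatorElement

namespace Cfsg.Agent.S0302

/-- PΩ^+_6(q) is isomorphic to PSL_4(q). -/
theorem result {F : Type*} [Field F] [Fintype F] : Nonempty (Cfsg.POmega F (Cfsg.quadFormPlus 3 F) ≃* Matrix.ProjectiveSpecialLinearGroup (Fin 4) F) := by
  classical
  obtain ⟨M, hM⟩ : ∃ M : (Fin 3 ⊕ Fin 3 → F) →ₗ[F] Matrix (Fin 4) (Fin 4) F, ∀ v, M v =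
      !![0, v (.inl 0), v (.inl 1), v (.inl 2); -v (.inl 0), 0, v (.inr 2), -v (.inr 1);
        -v (.inl 1), -v (.inr 2), 0, v (.inr 0); -v (.inl 2), v (.inr 1), -v (.inr 0), 0] := by
    refine ⟨{ toFun := fun v => !![0, v (.inl 0), v (.inl 1), v (.inl 2); -v (.inl 0), 0, v (.inr 2), -v (.inr 1);
                -v (.inl 1), -v (.inr 2), 0, v (.inr 0); -v (.inl 2), v (.inr 1), -v (.inr 0), 0],
              map_add' := fun u v => ?_, map_smul' := fun r v => ?_ }, fun v => rfl⟩
    · ext i j; fin_cases i <;> fin_cases j <;> simp <;> ring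
    · ext i j; fin_cases i <;> fin_cases j <;> simp
  obtain ⟨N, hN⟩ : ∃ N : Matrix (Fin 4) (Fin 4) F →ₗ[F] (Fin 3 ⊕ Fin 3 → F),
      ∀ X, N X = Sum.elim ![X 0 1, X 0 2, X 0 3] ![X 2 3, -X 1 3, X 1 2] := by
    refine ⟨{ toFun := fun X => Sum.elim ![X 0 1, X 0 2, X 0 3] ![X 2 3, -X 1 3, X 1 2],
              map_add' := fun u v => ?_, map_smul' := fun r v => ?_ }, fun v => rfl⟩
    · funext k; rcases k with k | k <;> fin_cases k <;> simp <;> ring
    · funext k; rcases k with k | k <;> fin_cases k <;> simp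
  have hNM : ∀ v, N (M v) = v := fun v => by
    funext k; rcases k with k | k <;> fin_cases k <;> simp [hN, hM]
  have hMinj : Function.Injective M := fun u v h => by rw [← hNM u, h, hNM]
  have hMN : ∀ (g : Matrix (Fin 4) (Fin 4) F) v, M (N (g * M v * g.transpose)) = g * M v * g.transpose := fun g v => by
    ext i j
    fin_cases i <;> fin_cases j <;>
      simp [hN, hM, Matrix.mul_apply, Matrix.vecMul, dotProduct, Fin.sum_univ_four] <;> ring
  let Lm : Matrix (Fin 4) (Fin 4) F → ((Fin 3 ⊕ Fin 3 → F) →ₗ[F] (Fin 3 ⊕ Fin 3 → F)) := fun g =>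
    N.comp ((LinearMap.mulLeft F g).comp ((LinearMap.mulRight F g.transpose).comp M))
  have hL : ∀ g v, M (Lm g v) = g * M v * g.transpose := fun g v => by
    simp only [Lm, LinearMap.comp_apply, LinearMap.mulLeft_apply, LinearMap.mulRight_apply]
    rw [← mul_assoc]
    exact hMN g v
  let T₀ : Matrix.SpecialLinearGroup (Fin 4) F →* Matrix (Fin 3 ⊕ Fin 3) (Fin 3 ⊕ Fin 3) F :=
    { toFun := fun g => LinearMap.toMatrix' (Lm g.1)
      map_one' := Matrix.ext_of_mulVec_single fun i => by
        rw [LinearMap.toMatrix'_mulVec, Matrix.one_mulVec]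
        exact hMinj (by simp [hL])
      map_mul' := fun g h => Matrix.ext_of_mulVec_single fun i => by
        rw [LinearMap.toMatrix'_mulVec, ← Matrix.mulVec_mulVec, LinearMap.toMatrix'_mulVec, LinearMap.toMatrix'_mulVec]
        exact hMinj (by simp [hL, mul_assoc, Matrix.transpose_mul]) }
  let T : Matrix.SpecialLinearGroup (Fin 4) F →* Matrix.GeneralLinearGroup (Fin 3 ⊕ Fin 3) F := T₀.toHomUnits
  have hTv : ∀ g v, M ((T g).1 *ᵥ v) = g.1 * M v * g.1.transpose := fun g v =>
    (congrArg M (LinearMap.toMatrix'_mulVec _ _)).trans (hL _ _)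
  have hH : (Cfsg.isometryGroup F (Cfsg.quadFormPlus 3 F)).comap T = ⊤ := by
    refine CfsgLib.SLn.eq_top_of_transvection _ fun i j hij c => ?_
    intro u v
    show Cfsg.quadFormPlus 3 F ((T _).1 *ᵥ u) = Cfsg.quadFormPlus 3 F u
    rw [← hNM ((T _).1 *ᵥ u), hTv, Matrix.SpecialLinearGroup.transvection_coe]
    fin_cases i <;> fin_cases j <;>
      first
        | exact absurd rfl hij
        | (simp [Cfsg.quadFormPlus, hN, hM, Matrix.transvection, Matrix.mul_apply, Matrix.vecMul, dotProduct,
            Fin.sum_univ_four, Fin.sum_univ_three, Matrix.single_apply, Matrix.one_apply] <;> ring)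
  let Ψ : Matrix.SpecialLinearGroup (Fin 4) F →* ↥(Cfsg.isometryGroup F (Cfsg.quadFormPlus 3 F)) :=
    T.codRestrict _ fun g => (SetLike.ext_iff.1 hH g).2 trivial
  have hΩ : ∀ g, Ψ g ∈ Cfsg.Omega F (Cfsg.quadFormPlus 3 F) := fun g => by
    have hg : g ∈ commutator (Matrix.SpecialLinearGroup (Fin 4) F) := by
      rw [CfsgLib.SLn.commutator_eq_top (Or.inl (by simp))]; trivial
    have := Subgroup.mem_map_of_mem Ψ hg
    rw [commutator_def, Subgroup.map_commutator] at this
    exact Subgroup.commutator_mono le_top le_top this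
  let ρ : Matrix.SpecialLinearGroup (Fin 4) F →* Cfsg.POmega F (Cfsg.quadFormPlus 3 F) :=
    (QuotientGroup.mk' _).comp (Ψ.codRestrict _ hΩ)
  have hkerΨ : ∀ g, Ψ g = 1 → ∃ d : F, d * d = 1 ∧ g.1 = d • (1 : Matrix (Fin 4) (Fin 4) F) := by
    intro g hg
    have h : ∀ v, g.1 * M v * g.1.transpose = M v := fun v => by
      rw [← hTv, show T g = 1 from congrArg Subtype.val hg]; simp
    have hminor : ∀ a b i j : Fin 4, a ≠ b → g.1 i a * g.1 j b - g.1 i b * g.1 j a =
        (if i = a ∧ j = b then 1 else 0) - (if i = b ∧ j = a then 1 else 0) := by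
      intro a b i j hab
      obtain ⟨v, hv⟩ : ∃ v, M v = Matrix.single a b 1 - Matrix.single b a 1 := ⟨N (Matrix.single a b 1 - Matrix.single b a 1), by
        ext i j; fin_cases a <;> fin_cases b <;> first
          | exact absurd rfl hab
          | (fin_cases i <;> fin_cases j <;> simp [hM, hN, Matrix.single_apply])⟩
      have e := congrFun (congrFun (h v) i) j
      rw [hv, Matrix.sub_apply, Matrix.single_apply, Matrix.single_apply] at e
      simp only [Matrix.mul_apply, Matrix.transpose_apply, Matrix.sub_apply, Matrix.single_apply, mul_sub, sub_mul,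
        Finset.sum_sub_distrib] at e
      simp only [mul_ite, mul_one, mul_zero, ite_mul, zero_mul, ite_and, Finset.sum_ite_eq, Finset.mem_univ, if_true] at e
      exact e.trans (by simp only [@eq_comm _ a, @eq_comm _ b, ← ite_and])
    have hoff : ∀ i a : Fin 4, i ≠ a → g.1 i a = 0 := by
      intro i a hia
      obtain ⟨b, hba, hbi⟩ : ∃ b : Fin 4, b ≠ a ∧ b ≠ i := by revert i a; decide
      have e1 := hminor a b i a hba.symm
      have e2 := hminor a b i b hba.symm
      have e3 := hminor a b a b hba.symm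
      simp [hia, hbi.symm, hba, hba.symm] at e1 e2 e3
      linear_combination g.1 a a * e2 - g.1 b a * e1 - g.1 i a * e3
    have hd : ∀ a b : Fin 4, a ≠ b → g.1 a a * g.1 b b = 1 := fun a b hab => by
      have e := hminor a b a b hab
      simpa [hoff a b hab, hab, hab.symm] using e
    have heq : ∀ a, g.1 a a = g.1 0 0 := fun a => by
      obtain ⟨c, hca, hc0⟩ : ∃ c : Fin 4, c ≠ a ∧ c ≠ 0 := by revert a; decide
      exact mul_right_cancel₀ (right_ne_zero_of_mul_eq_one (hd a c hca.symm)) ((hd a c hca.symm).trans (hd 0 c hc0.symm).symm)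
    refine ⟨g.1 0 0, ?_, Matrix.ext fun i j => ?_⟩
    · have := hd 0 1 (by decide)
      rwa [heq 1] at this
    · rcases eq_or_ne i j with rfl | hij
      · simp [heq i]
      · simp [hoff i j hij, hij]
  have hker : ρ.ker = Subgroup.center (Matrix.SpecialLinearGroup (Fin 4) F) := by
    ext s
    constructor
    · intro hs
      have hz := Subgroup.mem_center_iff.1 ((QuotientGroup.eq_one_iff _).1 hs)
      have hcent : Subgroup.centralizer {s} = ⊤ := by
        refine CfsgLib.SLn.eq_top_of_transvection _ fun i j hij c => ?_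
        set t := Matrix.SpecialLinearGroup.transvection hij c with htdef
        have e := congrArg Subtype.val (hz ((Ψ.codRestrict _ hΩ) t))
        change Ψ t * Ψ s = Ψ s * Ψ t at e
        obtain ⟨d, hdd, hd⟩ := hkerΨ (s * t * (t * s)⁻¹) (by rw [map_mul, map_inv, map_mul, map_mul, e, mul_inv_cancel])
        have hc' : (s * t).1 = d • (t * s).1 := by
          rw [show s * t = s * t * (t * s)⁻¹ * (t * s) by group, Matrix.SpecialLinearGroup.coe_mul, hd]
          simp
        have hd1 : d = 1 := by
          have h1 : s.1 * t.1 * (s⁻¹).1 = d • t.1 := by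
            rw [← Matrix.SpecialLinearGroup.coe_mul, hc', Matrix.SpecialLinearGroup.coe_mul, Matrix.smul_mul, mul_assoc,
              ← Matrix.SpecialLinearGroup.coe_mul, mul_inv_cancel, Matrix.SpecialLinearGroup.coe_one, mul_one]
          have h2' := congrArg Matrix.trace h1
          rw [Matrix.trace_mul_cycle, ← Matrix.SpecialLinearGroup.coe_mul, inv_mul_cancel,
            Matrix.SpecialLinearGroup.coe_one, one_mul, Matrix.trace_smul, smul_eq_mul,
            show t.1.trace = 4 by
              simp [htdef, Matrix.SpecialLinearGroup.transvection_coe, Matrix.transvection, Matrix.trace_add,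
                Matrix.trace_one, Matrix.trace_single_eq_of_ne _ _ _ hij]] at h2'
          rcases mul_self_eq_one_iff.1 hdd with e | e
          · exact e
          · subst e
            by_cases h2 : (2 : F) = 0
            · linear_combination -h2
            · have h4 : (4 : F) ≠ 0 := by
                rw [show (4 : F) = 2 * 2 by norm_num]; exact mul_ne_zero h2 h2
              exact mul_right_cancel₀ h4 (by linear_combination -h2')
        rw [Subgroup.mem_centralizer_singleton_iff]
        exact (Subtype.ext (by rw [hc', hd1, one_smul]) : s * t = t * s).symm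
      rw [Subgroup.mem_center_iff]
      intro t
      exact (Subgroup.mem_centralizer_singleton_iff.1 (show t ∈ Subgroup.centralizer {s} by rw [hcent]; trivial))
    · intro hs
      refine (QuotientGroup.eq_one_iff _).2 (Subgroup.mem_center_iff.2 fun z => ?_)
      obtain ⟨c, -, hc⟩ := Matrix.SpecialLinearGroup.mem_center_iff.1 hs
      refine Subtype.ext (Subtype.ext (Units.ext ?_))
      have hcs : (T s).1 = (c * c) • 1 := Matrix.ext_of_mulVec_single fun i => hMinj (by
        rw [hTv, Matrix.smul_mulVec, Matrix.one_mulVec, map_smul, ← hc, Matrix.scalar_apply, ← Matrix.smul_one_eq_diagonal]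
        simp [smul_smul])
      show z.1.1.1 * (T s).1 = (T s).1 * z.1.1.1
      rw [hcs]
      simp
  have hcard : Nat.card (Matrix.ProjectiveSpecialLinearGroup (Fin 4) F) = Nat.card (Cfsg.POmega F (Cfsg.quadFormPlus 3 F)) := by
    have hP := CfsgLib.SLn.card_PSL_eq F 4 (by norm_num)
    set X := Nat.card (Matrix.ProjectiveSpecialLinearGroup (Fin 4) F)
    have hQ := CfsgLib.Forms.nondegenerate_quadPlus (F := F) 3
    have hn : 5 ≤ Fintype.card (Fin 3 ⊕ Fin 3) := by simp
    have key := CfsgLib.OrthOrder.card_POmega_mul (CfsgLib.Forms.quadPlus F 3)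
    rw [CfsgLib.OrthOrder.natCard_isometryGroup _ rfl, CfsgLib.OrthOrder.card_isom_plus 2] at key
    rw [← CfsgLib.Forms.coe_quadPlus]
    set Y := Nat.card (Cfsg.POmega F ⇑(CfsgLib.Forms.quadPlus F 3))
    have hq : 2 ≤ Fintype.card F := Fintype.one_lt_card
    simp only [Fin.prod_univ_four, Fin.val_zero, Fin.val_one, Fin.val_two, pow_zero, pow_one, show ((3 : Fin 4) : ℕ) = 3 from rfl] at hP
    simp only [Finset.prod_range_succ, Finset.prod_range_zero, one_mul] at key
    simp only [Nat.reduceMul, Nat.reduceAdd] at key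
    set q := Fintype.card F with hqdef
    have hbig : Nat.gcd 4 (q - 1) * (q - 1) * X = (q - 1) * (q ^ 6 * (q ^ 3 - 1) * ((q ^ 2 - 1) * (q ^ 4 - 1))) := by
      rw [mul_assoc, hP]
      zify [Nat.one_le_pow 4 q (by omega), Nat.one_le_pow 3 q (by omega), Nat.one_le_pow 2 q (by omega), (by omega : 1 ≤ q),
        Nat.pow_le_pow_right (by omega : 0 < q) (show 1 ≤ 4 by omega), Nat.pow_le_pow_right (by omega : 0 < q) (show 2 ≤ 4 by omega),
        Nat.pow_le_pow_right (by omega : 0 < q) (show 3 ≤ 4 by omega), (Nat.le_self_pow (by omega) q : q ≤ q ^ 4)]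
      ring
    have hX : Nat.gcd 4 (q - 1) * X = q ^ 6 * (q ^ 3 - 1) * ((q ^ 2 - 1) * (q ^ 4 - 1)) := by
      refine Nat.eq_of_mul_eq_mul_left (show 0 < q - 1 by omega) ?_
      rw [← hbig]; ring
    rcases em ((2 : F) = 0) with h2 | h2
    · rw [CfsgLib.Forms.index_Omega_two h2 hQ (Or.inr (by simp)) (by simp),
        CfsgLib.OrthOrder.card_center_char_two h2 hQ hn] at key
      have hev := FiniteField.even_card_of_char_two (F := F)
        (ringChar.eq_iff.2 (CharTwo.of_one_ne_zero_of_two_eq_zero one_ne_zero h2))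
      rw [show Nat.gcd 4 (q - 1) = 1 from
        (Nat.Coprime.pow_left 2 (Nat.coprime_two_left.2 (Nat.odd_iff.2 (by omega))) : Nat.Coprime (2 ^ 2) _)] at hX
      linarith
    · have hodd := CfsgLib.OrthOrder.odd_of_two_ne_zero h2
      rw [CfsgLib.Forms.index_Omega _ h2 hQ (by simp)] at key
      have hiff := Cfsg.Agent.S0790.result rfl hodd 3 (by omega)
      rw [← CfsgLib.Forms.coe_quadPlus] at hiff
      have h3 : q ^ 3 % 4 = q % 4 := by
        rcases (by have := Nat.odd_iff.1 hodd; omega : q % 4 = 1 ∨ q % 4 = 3) with h | h <;> simp [Nat.pow_mod, h]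
      rcases em (q % 4 = 1) with h4 | h4
      · rw [CfsgLib.OrthOrder.card_center_eq_two h2 hQ hn (hiff.2 (h3.trans h4))] at key
        rw [Nat.gcd_eq_left (Nat.dvd_of_mod_eq_zero (by omega) : 4 ∣ q - 1)] at hX
        linarith
      · rw [CfsgLib.OrthOrder.card_center_eq_one hQ hn (mt hiff.1 (h3 ▸ h4))] at key
        have := Nat.odd_iff.1 hodd
        rw [show Nat.gcd 4 (q - 1) = 2 by
          rw [Nat.gcd_rec, show (q - 1) % 4 = 2 by omega]; rfl] at hX
        linarith
  let ρ' : Matrix.ProjectiveSpecialLinearGroup (Fin 4) F →* Cfsg.POmega F (Cfsg.quadFormPlus 3 F) :=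
    QuotientGroup.lift _ ρ hker.ge
  have hinj : Function.Injective ρ' := by
    rw [injective_iff_map_eq_one]
    intro x hx
    obtain ⟨s, rfl⟩ := QuotientGroup.mk_surjective x
    exact (QuotientGroup.eq_one_iff s).2 (hker ▸ hx)
  exact ⟨(MulEquiv.ofBijective ρ' ((Nat.bijective_iff_injective_and_card _).2 ⟨hinj, hcard⟩)).symm⟩

end Cfsg.Agent.S0302
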