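import Cfsg.Statements.S0316
-- import your own Cfsg.Agent.* helpers here
import Cfsg.Agent.BNPair.Parabolic

set_option autoImplicit false
open Cfsg

namespace Cfsg.Agent.S0316

/-- The map `J ↦ P_J` is a lattice isomorphism from the power set of the set of distinguished generators onto the
subgroups containing `B`. -/
theorem result {G : Type*} [Group G] (P : Cfsg.BNPair G) :
    ∃ e : Set P.S ≃o {M : Subgroup G // P.B ≤ M},
      ∀ J : Set P.S, ((e J : {M : Subgroup G // P.B ≤ M}) : Subgroup G) = P.parabolic (Subtype.val '' J) := by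
  refine ⟨{ toFun := fun J => ⟨P.parabolic (Subtype.val '' J), CfsgLib.BNPair.B_le_parabolic P _⟩
            invFun := fun M => {s | (s : G) ∈ (M : Subgroup G)}
            left_inv := ?_
            right_inv := ?_
            map_rel_iff' := ?_ }, fun J => rfl⟩
  · intro J
    ext s
    refine ⟨fun h => ?_, fun h => CfsgLib.BNPair.subset_parabolic P _ ⟨s, h, rfl⟩⟩
    obtain ⟨t, ht, hts⟩ := CfsgLib.BNPair.mem_of_mem_parabolic P (Subtype.coe_image_subset _ J) s.2 h
    exact Subtype.ext hts ▸ ht
  · rintro ⟨M, hM⟩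
    refine Subtype.ext ?_
    show P.parabolic _ = M
    conv_rhs => rw [CfsgLib.BNPair.eq_parabolic P M hM]
    congr 1
    ext x
    constructor
    · rintro ⟨s, hs, rfl⟩
      exact ⟨s.2, hs⟩
    · rintro ⟨h1, h2⟩
      exact ⟨⟨x, h1⟩, h2, rfl⟩
  · intro J K
    show P.parabolic _ ≤ P.parabolic _ ↔ J ⊆ K
    rw [CfsgLib.BNPair.parabolic_subset_iff P (Subtype.coe_image_subset _ J) (Subtype.coe_image_subset _ K),
      Set.image_subset_image_iff Subtype.val_injective]

end Cfsg.Agent.S0316
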