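import Cfsg.Statements.S0318
-- import your own Cfsg.Agent.* helpers here
import Cfsg.Agent.BNPair.Parabolic

set_option autoImplicit false
open Cfsg

namespace Cfsg.Agent.S0318

/-- For `n ∈ N`, the subgroup generated by `B` and `n` coincides with the subgroup generated by `B` and the
conjugate `n B n⁻¹`. -/
theorem result {G : Type*} [Group G] (P : Cfsg.BNPair G) {n : G}
    (hn : n ∈ P.N) :
    P.B ⊔ Subgroup.closure {n} = P.B ⊔ P.B.map (MulAut.conj n).toMonoidHom := by
  have hnn : n ∈ P.B ⊔ Subgroup.closure {n} :=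
    Subgroup.mem_sup_right (Subgroup.subset_closure rfl)
  refine le_antisymm (sup_le le_sup_left ((Subgroup.closure_le _).2 (Set.singleton_subset_iff.2 ?_)))
    (sup_le le_sup_left ?_)
  · exact CfsgLib.BNPair.mem_of_conj_le P _ le_sup_left hn fun b hb =>
      Subgroup.mem_sup_right (Subgroup.mem_map_of_mem _ hb)
  · rintro _ ⟨b, hb, rfl⟩
    exact mul_mem (mul_mem hnn (Subgroup.mem_sup_left hb)) (inv_mem hnn)

end Cfsg.Agent.S0318
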