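import Cfsg.Statements.S0321
-- import your own Cfsg.Agent.* helpers here
import Cfsg.Agent.BNPair.Parabolic

set_option autoImplicit false
open Cfsg

namespace Cfsg.Agent.S0321

/-- For `n ∈ N` not in `B`, the union `B ∪ B n B` is (the underlying set of) a subgroup exactly when `n` agrees
modulo `B ⊓ N` with one of the distinguished representatives; thus the distinguished involutions are
determined by `B` and `N`. -/
theorem result {G : Type*} [Group G] (P : Cfsg.BNPair G) {n : G}
    (hn : n ∈ P.N) (hnB : n ∉ P.B) :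
    (∃ H : Subgroup G, (H : Set G) = (P.B : Set G) ∪ DoubleCoset.doubleCoset n (P.B : Set G) P.B) ↔ ∃ s ∈ P.S, s⁻¹ * n ∈ P.B := by
  open CfsgLib.BNPair in
  constructor
  · rintro ⟨H, hH⟩
    have hBH : P.B ≤ H := fun x hx => by rw [← SetLike.mem_coe, hH]; exact Set.mem_union_left _ hx
    have hnH : n ∈ H := by
      rw [← SetLike.mem_coe, hH]; exact Set.mem_union_right _ (DoubleCoset.mem_doubleCoset_self ..)
    obtain ⟨s, hsS, hsH⟩ : (P.S ∩ (H : Set G)).Nonempty := by
      by_contra hne
      rw [Set.not_nonempty_iff_eq_empty] at hne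
      have := eq_parabolic P H hBH
      rw [hne] at this
      rw [this] at hnH
      unfold Cfsg.BNPair.parabolic at hnH
      rw [Subgroup.closure_empty, sup_bot_eq] at hnH
      exact hnB hnH
    rw [hH] at hsH
    rcases hsH with h | h
    · exact absurd h (S_not_mem_B P ⟨s, hsS⟩)
    · refine ⟨s, hsS, ?_⟩
      rw [← cell_mk P hn] at h
      exact (mk_eq_iff P _ hn).1 (cell_unique P (S_mem_cell P ⟨s, hsS⟩) h)
  · rintro ⟨s, hs, hsn⟩
    refine ⟨P.parabolic {s}, ?_⟩
    have hJ : ({s} : Set G) ⊆ P.S := Set.singleton_subset_iff.2 hs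
    have hc : σ P ⟨s, hs⟩ = mk P n hn := (mk_eq_iff P _ hn).2 hsn
    have hset : {t : P.S | (t : G) ∈ ({s} : Set G)} = {⟨s, hs⟩} := by
      ext t; simp [Subtype.ext_iff]
    ext g
    rw [SetLike.mem_coe, mem_parabolic_iff P hJ, hset, Set.mem_union, ← cell_mk P hn, ← hc, SetLike.mem_coe,
      ← mem_cell_one P]
    constructor
    · rintro ⟨w, hw, hg⟩
      have : w = 1 ∨ w = σ P ⟨s, hs⟩ := by
        clear hg
        unfold wPar at hw
        rw [Set.image_singleton] at hw
        induction hw using Subgroup.closure_induction with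
        | mem x hx => exact Or.inr hx
        | one => exact Or.inl rfl
        | mul x y _ _ hx hy =>
          rcases hx with rfl | rfl <;> rcases hy with rfl | rfl <;> simp [σ_sq]
        | inv x _ hx => rcases hx with rfl | rfl <;> simp [σ_inv]
      rcases this with rfl | rfl
      exacts [Or.inl hg, Or.inr hg]
    · rintro (h | h)
      exacts [⟨1, one_mem _, h⟩, ⟨_, σ_mem_wPar P rfl, h⟩]

end Cfsg.Agent.S0321
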