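import Cfsg.Statements.S0322
-- import your own Cfsg.Agent.* helpers here
import Cfsg.Agent.BNPair.Basic

set_option autoImplicit false
open Cfsg

namespace Cfsg.Agent.S0322

/-- A group with a (B,N)-pair of rank one acts doubly transitively on the left cosets of `B`. -/
theorem result {G : Type*} [Group G] (P : Cfsg.BNPair G) (h : P.rank = 1) : MulAction.IsMultiplyPretransitive G (G ⧸ P.B) 2 := by
  open CfsgLib.BNPair in
  obtain ⟨s₀, hs₀⟩ := Set.ncard_eq_one.1 h
  have hsS : s₀ ∈ P.S := by rw [hs₀]; rfl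
  set s : P.S := ⟨s₀, hsS⟩
  have huniq : ∀ t : P.S, t = s := fun t => Subtype.ext (by simpa [hs₀] using t.2)
  have hW : ∀ w : CfsgLib.BNPair.W P, w = 1 ∨ w = σ P s := by
    intro w
    obtain ⟨L, rfl⟩ := wd_surjective P w
    induction L with
    | nil => exact Or.inl rfl
    | cons t L ih =>
      rw [wd_cons, huniq t]
      rcases ih with h | h <;> rw [h]
      · exact Or.inr (mul_one _)
      · exact Or.inl (σ_sq P s)
  have hcov : ∀ g : G, g ∉ P.B → ∃ b ∈ P.B, ∃ b' ∈ P.B, g = b * s₀ * b' := by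
    intro g hg
    obtain ⟨w, hw⟩ := bruhat P g
    rcases hW w with rfl | rfl
    · exact absurd ((mem_cell_one P).1 hw) hg
    · rw [σ, cell_mk, DoubleCoset.mem_doubleCoset] at hw
      exact hw
  set o : G ⧸ P.B := ((1 : G) : G ⧸ P.B) with ho
  have hfix : ∀ b ∈ P.B, b • o = o := fun b hb => by
    simpa [ho, QuotientGroup.eq] using hb
  have hmove : ∀ p : G ⧸ P.B, p ≠ o → ∃ b ∈ P.B, b • (s₀ • o) = p := by
    intro p hp
    obtain ⟨g, rfl⟩ := QuotientGroup.mk_surjective p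
    obtain ⟨b, hb, b', hb', rfl⟩ := hcov g (fun hg => hp (by simpa [ho, QuotientGroup.eq] using hg))
    exact ⟨b, hb, by rw [smul_smul, ho, MulAction.Quotient.smul_coe, smul_eq_mul, mul_one]; exact (QuotientGroup.mk_mul_of_mem _ hb').symm⟩
  have hstd : ∀ a c : G ⧸ P.B, a ≠ c → ∃ g : G, g • o = a ∧ g • (s₀ • o) = c := by
    intro a c hac
    obtain ⟨g, hg⟩ := MulAction.exists_smul_eq G o a
    obtain ⟨b, hb, hbe⟩ := hmove (g⁻¹ • c) (fun he => hac (by rw [← hg, ← he, smul_inv_smul]))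
    exact ⟨g * b, by rw [mul_smul, hfix b hb, hg], by rw [mul_smul, hbe, smul_inv_smul]⟩
  rw [MulAction.is_two_pretransitive_iff]
  intro a b c d hab hcd
  obtain ⟨g, hga, hgb⟩ := hstd a b hab
  obtain ⟨g', hgc, hgd⟩ := hstd c d hcd
  exact ⟨g' * g⁻¹, by rw [mul_smul, ← hga, inv_smul_smul, hgc], by rw [mul_smul, ← hgb, inv_smul_smul, hgd]⟩

end Cfsg.Agent.S0322
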