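import Cfsg.Statements.S0333
import Cfsg.Agent.Sz.Partition
-- import your own Cfsg.Agent.* helpers here

set_option autoImplicit false
open Cfsg

namespace Cfsg.Agent.S0333

/-- With `q = 2^(2m+1)` and `r = 2^m`, the Suzuki group has cyclic subgroups of orders `q + 2r + 1` and
`q - 2r + 1`; each is the centraliser of each of its non-identity elements and has index `4` in its normaliser. -/
theorem result {F : Type*} [Field F] [Fintype F] {m : ℕ} (hm : 1 ≤ m)
    (hF : Fintype.card F = 2 ^ (2 * m + 1)) :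
    ∀ k ∈ ({2 ^ (2 * m + 1) + 2 ^ (m + 1) + 1, 2 ^ (2 * m + 1) - 2 ^ (m + 1) + 1} : Set ℕ),
      ∃ U : Subgroup (Cfsg.Sz F m), IsCyclic U ∧ Nat.card U = k ∧
        (∀ u ∈ U, u ≠ 1 → Subgroup.centralizer {u} = U) ∧ Nat.card (Subgroup.normalizer (U : Set (Cfsg.Sz F m))) = 4 * k := by
  intro k hk
  have h : CfsgLib.Sz.Hyp F m := ⟨hm, hF⟩
  obtain ⟨u, hu, hcard⟩ := (CfsgLib.Sz.tori h).2 k (by
    rw [hF]; simpa using hk)
  have e := (CfsgLib.Sz.equivModel h).symm
  refine ⟨(CfsgLib.Sz.tz u).map e.toMonoidHom, ?_, ?_, ?_, ?_⟩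
  · haveI := (CfsgLib.Sz.tz_facts h hu).1
    exact isCyclic_of_surjective (e.subgroupMap _) (MulEquiv.surjective _)
  · rw [Subgroup.card_map_of_injective e.injective, hcard]
  · rintro _ ⟨x, hx, rfl⟩ hx1
    have hx' : x ≠ 1 := fun h0 => hx1 (by rw [h0]; exact map_one _)
    rw [← CfsgLib.Sz.tz_eq h hu hx hx']
    exact (CfsgLib.Sz.map_centralizer_singleton e x).symm
  · rw [← Subgroup.map_equiv_normalizer_eq, Subgroup.card_map_of_injective e.injective,
      ((CfsgLib.Sz.tori h).1 u hu).2, hcard]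

end Cfsg.Agent.S0333
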