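import Cfsg.Statements.S0339
import Cfsg.Agent.Frob.Kernel

set_option autoImplicit false
open Cfsg

namespace Cfsg.Agent.S0339

open MulAction

section Aux

variable {G Ω : Type*} [Group G] [MulAction G Ω]

theorem nontrivial_of_zassenhaus (hZ : Cfsg.IsZassenhausGroup G Ω) : Nontrivial Ω := by
  obtain ⟨-, -, -, ⟨g, -, a, b, hab, -, -⟩, -⟩ := hZ
  exact ⟨⟨a, b, hab⟩⟩

theorem finite_group [Finite Ω] (hZ : Cfsg.IsZassenhausGroup G Ω) : Finite G := by
  haveI := hZ.1
  exact Finite.of_injective (fun g : G => (fun x : Ω => g • x))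
    (fun _ _ h => eq_of_smul_eq_smul (congrFun h))

theorem normal_transitive (hZ : Cfsg.IsZassenhausGroup G Ω) {N : Subgroup G} [N.Normal]
    (hN : N ≠ ⊥) : IsPretransitive N Ω := by
  haveI := hZ.1
  haveI : IsPreprimitive G Ω := isPreprimitive_of_is_two_pretransitive hZ.2.1
  refine IsQuasiPreprimitive.isPretransitive_of_normal (G := G) ?_
  intro h
  obtain ⟨⟨n, hn⟩, hn1⟩ := Subgroup.ne_bot_iff_exists_ne_one.mp hN
  refine hn1 (Subtype.ext (eq_of_smul_eq_smul (α := Ω) fun x => ?_))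
  have hx : x ∈ fixedPoints N Ω := by rw [h]; trivial
  show n • x = (1 : G) • x
  rw [one_smul]
  exact hx ⟨n, hn⟩

/-- every point stabilizer in a nontrivial normal subgroup is nontrivial. -/
theorem exists_fix (hZ : Cfsg.IsZassenhausGroup G Ω) {N : Subgroup G} [hN' : N.Normal]
    (hN : N ≠ ⊥) (b : Ω) : ∃ h ∈ N, h ≠ 1 ∧ h • b = b := by
  haveI := normal_transitive hZ hN
  obtain ⟨a, ha⟩ := hZ.2.2.2.2 N hN' (normal_transitive hZ hN)
  obtain ⟨⟨x, hx⟩, hx1⟩ := Subgroup.ne_bot_iff_exists_ne_one.mp ha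
  rw [mem_stabilizer_iff] at hx
  obtain ⟨n, hn⟩ := exists_smul_eq N a b
  refine ⟨((n * x * n⁻¹ : N) : G), (n * x * n⁻¹ : N).2, ?_, ?_⟩
  · intro h
    apply hx1
    have h' : n * x * n⁻¹ = 1 := Subtype.ext h
    exact Subtype.ext (conj_eq_one_iff.mp h')
  · show (n * x * n⁻¹) • b = b
    rw [← hn, mul_smul, mul_smul, inv_smul_smul, hx]

open CfsgLib.Frob in
/-- some nontrivial element of `N` fixes two points. -/
theorem exists_fix_two [Finite Ω] (hZ : Cfsg.IsZassenhausGroup G Ω) {N : Subgroup G} [hN' : N.Normal]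
    (hN : N ≠ ⊥) : ∃ h ∈ N, h ≠ 1 ∧ ∃ a b : Ω, a ≠ b ∧ h • a = a ∧ h • b = b := by
  haveI := finite_group hZ
  haveI := nontrivial_of_zassenhaus hZ
  haveI htr := normal_transitive hZ hN
  by_contra hcon
  push Not at hcon
  obtain ⟨a, a', haa'⟩ := exists_pair_ne Ω
  have hH : Cfsg.IsFrobeniusComplement (stabilizer N a) := by
    refine ⟨?_, ?_, ?_⟩
    · obtain ⟨h, hhN, h1, hha⟩ := exists_fix hZ hN a
      refine Subgroup.ne_bot_iff_exists_ne_one.mpr ⟨⟨⟨h, hhN⟩, hha⟩, fun e => h1 ?_⟩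
      exact congrArg (fun y : stabilizer N a => ((y : N) : G)) e
    · intro htop
      obtain ⟨n, hn⟩ := exists_smul_eq N a a'
      have : n ∈ stabilizer N a := by rw [htop]; trivial
      exact haa' (by rw [← hn]; exact (mem_stabilizer_iff.mp this).symm)
    · intro g hg
      rw [eq_bot_iff]
      intro x hx
      obtain ⟨hxa, hxg⟩ := Subgroup.mem_inf.mp hx
      rw [mem_smul_iff, mem_stabilizer_iff] at hxg
      rw [mem_stabilizer_iff] at hxa
      rw [Subgroup.mem_bot]
      by_contra hx1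
      have hxg' : x • (g • a) = g • a := by
        rw [mul_smul, mul_smul, inv_smul_eq_iff] at hxg
        exact hxg
      exact hcon (x : G) x.2 (fun e => hx1 (Subtype.ext e)) a (g • a)
        (fun e => hg (mem_stabilizer_iff.mpr e.symm)) hxa hxg'
  haveI := kernel_characteristic hH
  haveI hKn : ((kernel hH).map N.subtype).Normal := inferInstance
  have hKt : IsPretransitive ((kernel hH).map N.subtype) Ω := by
    haveI : IsPretransitive (kernel hH) Ω := by
      have hfix : ∀ b : Ω, ∃ k : kernel hH, k • a = b := by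
        intro b
        obtain ⟨n, hn⟩ := exists_smul_eq N a b
        obtain ⟨⟨k, h⟩, hkh⟩ := (isComplement'_kernel hH).2 n
        refine ⟨k, ?_⟩
        rw [← hn, ← hkh]
        show (k : N) • a = ((k : N) * (h : N)) • a
        rw [mul_smul, mem_stabilizer_iff.mp h.2]
      refine ⟨fun x y => ?_⟩
      obtain ⟨k, rfl⟩ := hfix x
      obtain ⟨l, rfl⟩ := hfix y
      exact ⟨l * k⁻¹, by rw [mul_smul, inv_smul_smul]⟩
    refine ⟨fun x y => ?_⟩
    obtain ⟨k, hk⟩ := exists_smul_eq (kernel hH) x y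
    exact ⟨⟨((k : N) : G), Subgroup.mem_map_of_mem N.subtype k.2⟩, hk⟩
  obtain ⟨b, hb⟩ := hZ.2.2.2.2 _ hKn hKt
  refine hb ((Subgroup.eq_bot_iff_forall _).mpr ?_)
  rintro ⟨_, k, hk, rfl⟩ hkb
  rw [mem_stabilizer_iff] at hkb
  obtain ⟨n, hn⟩ := exists_smul_eq N a b
  have hkb' : k • b = b := hkb
  have hmem : n⁻¹ * k * n ∈ stabilizer N a := by
    rw [mem_stabilizer_iff, mul_smul, mul_smul, hn, hkb', ← hn, inv_smul_smul]
  rcases mem_kernel_iff.mp ((mem_kernel hH).mp hk) with h1 | h1
  · exact Subtype.ext (by simp [h1])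
  · exact absurd hmem (h1 n)

/-- `N` is doubly transitive. -/
theorem two_transitive [Finite Ω] (hZ : Cfsg.IsZassenhausGroup G Ω) {N : Subgroup G}
    [hN' : N.Normal] (hN : N ≠ ⊥) : IsMultiplyPretransitive N Ω 2 := by
  haveI := finite_group hZ
  haveI htr := normal_transitive hZ hN
  haveI := hZ.1
  have key : ∀ a b c : Ω, b ≠ a → c ≠ a → ∃ n : N, n • a = a ∧ n • b = c := by
    intro a
    set A : Subgroup G := N ⊓ stabilizer G a with hA
    obtain ⟨h₀, h₀N, h₀1, a₁, b₁, hab₁, h₀a, h₀b⟩ := exists_fix_two hZ hN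
    obtain ⟨n, hn⟩ := exists_smul_eq N a₁ a
    have hn' : (n : G) • a₁ = a := hn
    let h₁ : G := n * h₀ * (n : G)⁻¹
    have h₁A : h₁ ∈ A := by
      refine ⟨N.mul_mem (N.mul_mem n.2 h₀N) (N.inv_mem n.2), ?_⟩
      show h₁ • a = a
      simp only [h₁, ← hn', mul_smul, inv_smul_smul, h₀a]
    have h₁ne : h₁ ≠ 1 := fun e => h₀1 (conj_eq_one_iff.mp e)
    let b₀ : Ω := (n : G) • b₁
    have hb₀ : b₀ ≠ a := fun e => hab₁ (smul_left_cancel (n : G) (hn'.trans e.symm))
    have h₁b : h₁ • b₀ = b₀ := by simp only [h₁, b₀, mul_smul, inv_smul_smul, h₀b]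
    -- pass to an element of prime order
    have hp := Nat.minFac_prime (fun e => h₁ne (orderOf_eq_one_iff.mp e))
    set p := (orderOf h₁).minFac with hpdef
    haveI := Fact.mk hp
    let h : A := ⟨h₁ ^ (orderOf h₁ / p), A.pow_mem h₁A _⟩
    have hord : orderOf (h₁ ^ (orderOf h₁ / p)) = p :=
      orderOf_pow_orderOf_div (orderOf_pos h₁).ne' (Nat.minFac_dvd _)
    have hne : (h : G) ≠ 1 := fun e => by
      have h' : orderOf (h₁ ^ (orderOf h₁ / p)) = 1 := orderOf_eq_one_iff.mpr e
      exact hp.one_lt.ne' (hord.symm.trans h')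
    have ha : (h : G) • a = a := mem_stabilizer_iff.mp h.2.2
    have hb : (h : G) • b₀ = b₀ := by
      have : h₁ ∈ stabilizer G b₀ := h₁b
      exact (stabilizer G b₀).pow_mem this _
    have honly : ∀ x : Ω, x ≠ a → (h : G) • x = x → x = b₀ := by
      intro x hxa hx
      by_contra hxb
      exact hne (hZ.2.2.1 h a b₀ x hb₀.symm (Ne.symm hxb) (Ne.symm hxa) ha hb hx)
    have hPp : IsPGroup p (Subgroup.zpowers h) := by
      refine IsPGroup.of_card (n := 1) ?_
      rw [Nat.card_zpowers, pow_one, ← Subgroup.orderOf_coe]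
      exact hord
    -- all orbits of `A` off `a` have the same size
    have hsize : ∀ x y : Ω, x ≠ a → y ≠ a → Nat.card (orbit A x) = Nat.card (orbit A y) := by
      intro x y hx hy
      obtain ⟨g, hga, hgx⟩ :=
        (is_two_pretransitive_iff (G := G) (α := Ω)).mp hZ.2.1 hx.symm hy.symm
      have hgA : ∀ m ∈ A, g * m * g⁻¹ ∈ A ∧ g⁻¹ * m * g ∈ A := by
        intro m hm
        have hma : m • a = a := hm.2
        have hga' : g⁻¹ • a = a := inv_smul_eq_iff.mpr hga.symm
        refine ⟨⟨hN'.conj_mem m hm.1 g, ?_⟩, ⟨by simpa using hN'.conj_mem m hm.1 g⁻¹, ?_⟩⟩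
        · show (g * m * g⁻¹) • a = a
          rw [mul_smul, mul_smul, hga', hma, hga]
        · show (g⁻¹ * m * g) • a = a
          rw [mul_smul, mul_smul, hga, hma, hga']
      have himg : orbit A y = (fun z => g • z) '' orbit A x := by
        ext z
        constructor
        · rintro ⟨m, rfl⟩
          refine ⟨g⁻¹ • ((m : G) • y), ⟨⟨g⁻¹ * m * g, (hgA m m.2).2⟩, ?_⟩, smul_inv_smul g _⟩
          show (g⁻¹ * (m : G) * g) • x = _
          rw [mul_smul, mul_smul, hgx]
        · rintro ⟨_, ⟨m, rfl⟩, rfl⟩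
          refine ⟨⟨g * m * g⁻¹, (hgA m m.2).1⟩, ?_⟩
          show (g * (m : G) * g⁻¹) • y = g • ((m : G) • x)
          rw [mul_smul, mul_smul, ← hgx, inv_smul_smul]
      rw [himg, Nat.card_image_of_injective (MulAction.injective g)]
    have hb₀orb : ∀ c : Ω, c ≠ a → c ∈ orbit A b₀ := by
      intro c hc
      by_contra hcb
      have hfix : ∀ x : Ω, ∀ z : orbit A x, z ∈ fixedPoints (Subgroup.zpowers h) (orbit A x) →
          x ≠ a → (z : Ω) = b₀ := by
        intro x z hz hx
        refine honly _ ?_ (congrArg Subtype.val (hz ⟨h, Subgroup.mem_zpowers h⟩))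
        intro e
        obtain ⟨m, hm⟩ := z.2
        have hm' : (m : G) • x = a := hm.trans e
        have hma : (m : G) • a = a := m.2.2
        exact hx (smul_left_cancel (m : G) (hm'.trans hma.symm))
      have h0 : Nat.card (fixedPoints (Subgroup.zpowers h) (orbit A c)) = 0 := by
        rw [Nat.card_eq_zero]
        left
        refine ⟨fun ⟨z, hz⟩ => hcb ?_⟩
        have := hfix c z hz hc
        rw [orbit_eq_iff.mpr (this ▸ z.2)]
        exact mem_orbit_self c
      have h1 : Nat.card (fixedPoints (Subgroup.zpowers h) (orbit A b₀)) = 1 := by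
        rw [Nat.card_eq_one_iff_unique]
        refine ⟨⟨fun u v => ?_⟩, ?_⟩
        · exact Subtype.ext (Subtype.ext ((hfix b₀ u.1 u.2 hb₀).trans (hfix b₀ v.1 v.2 hb₀).symm))
        · refine ⟨⟨⟨b₀, mem_orbit_self b₀⟩, ?_⟩⟩
          rintro ⟨u, hu⟩
          obtain ⟨j, rfl⟩ := Subgroup.mem_zpowers_iff.mp hu
          refine Subtype.ext ?_
          show ((h : G) ^ j) • b₀ = b₀
          have : (h : G) ∈ stabilizer G b₀ := hb
          exact (stabilizer G b₀).zpow_mem this j
      have e1 := hPp.card_modEq_card_fixedPoints (orbit A b₀)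
      have e2 := hPp.card_modEq_card_fixedPoints (orbit A c)
      rw [hsize b₀ c hb₀ hc, h1] at e1
      rw [h0] at e2
      have := e1.symm.trans e2
      rw [Nat.ModEq, Nat.one_mod_eq_one.mpr hp.one_lt.ne', Nat.zero_mod] at this
      omega
    intro b c hb' hc'
    have hbb := orbit_eq_iff.mpr (hb₀orb b hb')
    have : c ∈ orbit A b := by rw [hbb]; exact hb₀orb c hc'
    obtain ⟨m, hm⟩ := this
    exact ⟨⟨m, m.2.1⟩, mem_stabilizer_iff.mp m.2.2, hm⟩
  rw [is_two_pretransitive_iff]
  intro a b c d hab hcd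
  obtain ⟨n, hn⟩ := exists_smul_eq N a c
  have hnb : n • b ≠ c := fun e => hab (smul_left_cancel n (hn.trans e.symm))
  obtain ⟨m, hmc, hmd⟩ := key c (n • b) d hnb hcd.symm
  exact ⟨m * n, by rw [mul_smul, hn, hmc], by rw [mul_smul, hmd]⟩

/-- `N` has no regular normal subgroup. -/
theorem no_regular [Finite Ω] (hZ : Cfsg.IsZassenhausGroup G Ω) {N : Subgroup G}
    [hN' : N.Normal] (hN : N ≠ ⊥) (M : Subgroup N) [hM : M.Normal] [IsPretransitive M Ω] :
    ∃ a : Ω, stabilizer M a ≠ ⊥ := by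
  haveI := hZ.1
  haveI := nontrivial_of_zassenhaus hZ
  haveI : IsPreprimitive N Ω := isPreprimitive_of_is_two_pretransitive (two_transitive hZ hN)
  by_contra hcon
  push Not at hcon
  have free : ∀ m ∈ M, ∀ x : Ω, m • x = x → m = 1 := by
    intro m hm x hx
    have : (⟨m, hm⟩ : M) ∈ stabilizer M x := hx
    rw [hcon x, Subgroup.mem_bot] at this
    exact congrArg Subtype.val this
  have hinv : ∀ g : G, ∀ m ∈ M, MulAut.conjNormal g m ∈ M := by
    intro g
    let φ : N ≃* N := MulAut.conjNormal g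
    haveI hM' : (M.map φ.toMonoidHom).Normal := hM.map _ φ.surjective
    have hval : ∀ m : N, ∀ x : Ω, φ m • (g • x) = g • (m • x) := by
      intro m x
      show ((φ m : N) : G) • (g • x) = g • ((m : G) • x)
      rw [MulAut.conjNormal_apply, mul_smul, mul_smul, inv_smul_smul]
    have free' : ∀ m ∈ M.map φ.toMonoidHom, ∀ x : Ω, m • x = x → m = 1 := by
      rintro _ ⟨m, hm, rfl⟩ x hx
      have e : φ m • (g • (g⁻¹ • x)) = g • (g⁻¹ • x) := by rw [smul_inv_smul]; exact hx
      rw [hval] at e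
      rw [free m hm _ (smul_left_cancel g e), map_one]
    have trans' : ∀ x y : Ω, ∃ m ∈ M.map φ.toMonoidHom, m • x = y := by
      intro x y
      obtain ⟨m, hm⟩ := exists_smul_eq M (g⁻¹ • x) (g⁻¹ • y)
      refine ⟨φ m, Subgroup.mem_map_of_mem _ m.2, ?_⟩
      have hm' : (m : N) • (g⁻¹ • x) = g⁻¹ • y := hm
      have := hval m (g⁻¹ • x)
      rw [smul_inv_smul, hm', smul_inv_smul] at this
      exact this
    suffices hR : M ≤ M.map φ.toMonoidHom ∧ M.map φ.toMonoidHom ≤ M by
      intro m hm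
      exact hR.2 (Subgroup.mem_map_of_mem φ.toMonoidHom hm)
    generalize M.map φ.toMonoidHom = M' at hM' free' trans'
    by_cases hR : M ⊓ M' = ⊥
    · exfalso
      have hcom : ∀ m ∈ M, ∀ m' ∈ M', Commute m m' := fun m hm m' hm' =>
        Subgroup.commute_of_normal_of_disjoint M M' hM hM' (disjoint_iff.mpr hR) m m' hm hm'
      have hsame : ∀ m ∈ M, m ∈ M' → m = 1 := fun m hm hm' => by
        have : m ∈ M ⊓ M' := ⟨hm, hm'⟩
        rw [hR] at this
        exact Subgroup.mem_bot.mp this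
      obtain ⟨a, a', haa'⟩ := exists_pair_ne Ω
      have hsq : ∀ m ∈ M, m * m = 1 := by
        intro m hm
        by_contra hmm
        have hm1 : m ≠ 1 := fun e => hmm (by rw [e, mul_one])
        obtain ⟨m', hm', hma⟩ := trans' a (m⁻¹ • a)
        have hxa : (m * m') • a = a := by rw [mul_smul, hma, smul_inv_smul]
        have hxm : Commute (m * m') m := (Commute.refl m).mul_left (hcom m hm m' hm').symm
        have h1 : (m * m') • (m • a) = m • a := by rw [← mul_smul, hxm.eq, mul_smul, hxa]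
        have h2 : (m * m') • (m • m • a) = m • m • a := by rw [← mul_smul, hxm.eq, mul_smul, h1]
        have d1 : a ≠ m • a := fun e => hm1 (free m hm a e.symm)
        have d2 : m • a ≠ m • m • a := fun e => hm1 (free m hm (m • a) e.symm)
        have d3 : a ≠ m • m • a := fun e =>
          hmm (free (m * m) (M.mul_mem hm hm) a (by rw [mul_smul]; exact e.symm))
        have hx : m * m' = 1 :=
          Subtype.ext (hZ.2.2.1 ((m * m' : N) : G) a (m • a) (m • m • a) d1 d2 d3 hxa h1 h2)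
        exact hm1 (hsame m hm (by rw [eq_inv_of_mul_eq_one_left hx]; exact M'.inv_mem hm'))
      have habel : ∀ m ∈ M, ∀ k ∈ M, m * k = k * m := by
        intro m hm k hk
        have e := hsq (m * k) (M.mul_mem hm hk)
        have em : m⁻¹ = m := inv_eq_of_mul_eq_one_left (hsq m hm)
        have ek : k⁻¹ = k := inv_eq_of_mul_eq_one_left (hsq k hk)
        have := eq_inv_of_mul_eq_one_left e
        rw [mul_inv_rev, em, ek] at this
        exact this
      obtain ⟨m, hma⟩ := exists_smul_eq M a a'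
      have hma' : (m : N) • a = a' := hma
      obtain ⟨m', hm', hm'a⟩ := trans' a a'
      have hx : m'⁻¹ * (m : N) = 1 := by
        refine Subtype.ext (eq_of_smul_eq_smul (α := Ω) fun z => ?_)
        obtain ⟨k, hk⟩ := exists_smul_eq M a z
        have hk' : (k : N) • a = z := hk
        show (m'⁻¹ * (m : N)) • z = (1 : G) • z
        have c1 : Commute (m'⁻¹ * (m : N)) k :=
          ((hcom k k.2 m' hm').symm.inv_left).mul_left (habel m m.2 k k.2)
        rw [one_smul, ← hk', ← mul_smul, c1.eq, mul_smul, mul_smul, hma', ← hm'a, inv_smul_smul]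
      have hm1 := hsame m m.2 (by rw [← inv_mul_eq_one.mp hx]; exact hm')
      exact haa' (by rw [← hma', hm1, one_smul])
    · haveI hRn : (M ⊓ M').Normal := Subgroup.normal_inf_normal M M'
      haveI : FaithfulSMul N Ω := ⟨fun {x y} h => Subtype.ext (eq_of_smul_eq_smul (α := Ω) h)⟩
      haveI : IsPretransitive (M ⊓ M' : Subgroup N) Ω := by
        refine IsQuasiPreprimitive.isPretransitive_of_normal (G := N) fun h => hR ?_
        rw [eq_bot_iff]
        intro r hr
        obtain ⟨x⟩ := (inferInstance : Nonempty Ω)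
        have hx : x ∈ fixedPoints (M ⊓ M' : Subgroup N) Ω := by rw [h]; trivial
        exact free r hr.1 x (hx ⟨r, hr⟩)
      obtain ⟨a⟩ := (inferInstance : Nonempty Ω)
      constructor
      · intro m hm
        obtain ⟨r, hr⟩ := exists_smul_eq (M ⊓ M' : Subgroup N) a (m • a)
        have hr' : (r : N) • a = m • a := hr
        have : (r : N)⁻¹ * m = 1 := free _ (M.mul_mem (M.inv_mem r.2.1) hm) a
          (by rw [mul_smul, ← hr', inv_smul_smul])
        rw [← inv_mul_eq_one.mp this]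
        exact r.2.2
      · intro m hm
        obtain ⟨r, hr⟩ := exists_smul_eq (M ⊓ M' : Subgroup N) a (m • a)
        have hr' : (r : N) • a = m • a := hr
        have : (r : N)⁻¹ * m = 1 := free' _ (M'.mul_mem (M'.inv_mem r.2.2) hm) a
          (by rw [mul_smul, ← hr', inv_smul_smul])
        rw [← inv_mul_eq_one.mp this]
        exact r.2.1
  have hMn : (M.map N.subtype).Normal := by
    constructor
    rintro _ ⟨m, hm, rfl⟩ g
    exact ⟨MulAut.conjNormal g m, hinv g m hm, MulAut.conjNormal_apply g m⟩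
  have hMt : IsPretransitive (M.map N.subtype) Ω := by
    refine ⟨fun x y => ?_⟩
    obtain ⟨k, hk⟩ := exists_smul_eq M x y
    exact ⟨⟨((k : N) : G), Subgroup.mem_map_of_mem N.subtype k.2⟩, hk⟩
  obtain ⟨b, hb⟩ := hZ.2.2.2.2 _ hMn hMt
  refine hb ((Subgroup.eq_bot_iff_forall _).mpr ?_)
  rintro ⟨_, k, hk, rfl⟩ hkb
  exact Subtype.ext (by simp [free k hk b hkb])

end Aux

/-- A non-trivial normal subgroup of a Zassenhaus group is itself a Zassenhaus group on the same set. -/
theorem result {G Ω : Type*} [Group G] [MulAction G Ω] [Finite Ω]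
    (hZ : Cfsg.IsZassenhausGroup G Ω) (N : Subgroup G) [N.Normal] (hN : N ≠ ⊥) :
    Cfsg.IsZassenhausGroup N Ω := by
  haveI := hZ.1
  refine ⟨⟨fun {x y} h => Subtype.ext (eq_of_smul_eq_smul (α := Ω) h)⟩, two_transitive hZ hN,
    ?_, ?_, fun M hM hMt => no_regular hZ hN M⟩
  · intro g a b c hab hbc hac ha hb hc
    exact Subtype.ext (hZ.2.2.1 (g : G) a b c hab hbc hac ha hb hc)
  · obtain ⟨h, hhN, h1, a, b, hab, ha, hb⟩ := exists_fix_two hZ hN
    exact ⟨⟨h, hhN⟩, fun e => h1 (congrArg Subtype.val e), a, b, hab, ha, hb⟩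

end Cfsg.Agent.S0339
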