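import Cfsg.Statements.S0338
import Cfsg.Agent.ZGrp.OddDegree

set_option autoImplicit false
open Cfsg

namespace Cfsg.Agent.S0338

/-- A Zassenhaus group of odd degree is a simple group. -/
theorem result {G Ω : Type*} [Group G] [MulAction G Ω] [Fintype Ω]
    (hZ : Cfsg.IsZassenhausGroup G Ω) (hodd : Odd (Fintype.card Ω)) : IsSimpleGroup G := by
  haveI := Cfsg.Agent.S0339.finite_group hZ
  haveI := Cfsg.Agent.S0339.nontrivial_of_zassenhaus hZ
  obtain ⟨a, b, hab⟩ := exists_pair_ne Ω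
  haveI : Nontrivial G := by
    obtain ⟨g, hg, -⟩ := hZ.2.2.2.1
    exact ⟨⟨g, 1, hg⟩⟩
  refine ⟨fun N hN => or_iff_not_imp_left.2 fun h => ?_⟩
  exact CfsgLib.ZGrp.normal_eq_top hZ hodd hab N h

end Cfsg.Agent.S0338
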