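import Cfsg.Statements.S0341
import Cfsg.Agent.Zas.Field
import Cfsg.Agent.Frob.Kernel
import Cfsg.Agent.Frob.Structure
import Cfsg.Agent.ZJ.Fpf

set_option autoImplicit false
open Cfsg

namespace Cfsg.Agent.S0341

/-- If a finite group acts faithfully and doubly transitively, no non-identity element fixes three points, some
non-identity element fixes two points, and some normal subgroup acts regularly, then the number of points
is `2^p` with `p` prime. -/
theorem result {G Ω : Type*} [Group G]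
    [MulAction G Ω] [Fintype Ω] [FaithfulSMul G Ω] (h2 : MulAction.IsMultiplyPretransitive G Ω 2)
    (h3 : ∀ g : G, ∀ a b c : Ω, a ≠ b → b ≠ c → a ≠ c → g • a = a → g • b = b → g • c = c → g = 1)
    (hfix : ∃ g : G, g ≠ 1 ∧ ∃ a b : Ω, a ≠ b ∧ g • a = a ∧ g • b = b)
    (N : Subgroup G) [N.Normal] (hNt : MulAction.IsPretransitive N Ω)
    (hNr : ∀ a : Ω, MulAction.stabilizer N a = ⊥) :
    ∃ p : ℕ, p.Prime ∧ Fintype.card Ω = 2 ^ p := by
  classical
  haveI := h2
  haveI : Finite G := Finite.of_injective _ (MulAction.toPerm_injective (α := G) (β := Ω))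
  obtain ⟨g₀, hg₀, a, b, hab, hga, hgb⟩ := hfix
  set ev : N → Ω := fun n => (n : G) • a with hev'
  have hev : Function.Bijective ev := by
    refine ⟨fun n m e => ?_, fun y => ?_⟩
    · have : m⁻¹ * n ∈ MulAction.stabilizer N a := by
        show (m⁻¹ * n) • a = a
        rw [mul_smul, show n • a = m • a from e, inv_smul_smul]
      rw [hNr a, Subgroup.mem_bot] at this
      exact (inv_mul_eq_one.mp this).symm
    · obtain ⟨n, hn⟩ := MulAction.exists_smul_eq N a y
      exact ⟨n, hn⟩
  have hev1 : ev 1 = a := one_smul G a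
  let cj : G → N → N := fun g n => ⟨g * n * g⁻¹, Subgroup.Normal.conj_mem inferInstance _ n.2 g⟩
  have hcj : ∀ g n, g • a = a → ev (cj g n) = g • ev n := fun g n hg => by
    show (g * n * g⁻¹) • a = g • ((n : G) • a)
    rw [mul_smul, mul_smul, inv_smul_eq_iff.mpr hg.symm]
  obtain ⟨v, hv⟩ := hev.2 b
  have hv1 : v ≠ 1 := fun e => hab (by rw [← hv, e, hev1])
  have hfix2 : ∀ g : G, g • a = a → g ≠ 1 → ∀ n m : N, n ≠ 1 → m ≠ 1 → g • ev n = ev n → g • ev m = ev m → n = m := by
    intro g hg hg1 n m hn hm hgn hgm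
    by_contra hnm
    exact hg1 (h3 g a (ev n) (ev m) (fun e => hn (hev.1 (e.symm.trans hev1.symm))) (fun e => hnm (hev.1 e))
      (fun e => hm (hev.1 (e.symm.trans hev1.symm))) hg hgn hgm)
  have hvv : v * v = 1 := by
    by_contra hne
    have h1 : cj g₀ v = v := hev.1 (by rw [hcj g₀ v hga, hv, hgb])
    have h2' : cj g₀ (v * v) = v * v := by
      conv_rhs => rw [← h1]
      exact Subtype.ext (by show g₀ * ((v : G) * v) * g₀⁻¹ = g₀ * v * g₀⁻¹ * (g₀ * v * g₀⁻¹); group)
    have := hfix2 g₀ hga hg₀ (v * v) v hne hv1 (by rw [← hcj g₀ _ hga, h2']) (by rw [hv, hgb])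
    exact hv1 (mul_eq_left.mp this)
  have hexp : ∀ n : N, n * n = 1 := by
    intro n
    by_cases hn : n = 1
    · rw [hn, one_mul]
    obtain ⟨g, hg1, hg2⟩ := (MulAction.is_two_pretransitive_iff.mp h2)
      (show a ≠ ev v from fun e => hv1 (hev.1 (e.symm.trans hev1.symm)))
      (show a ≠ ev n from fun e => hn (hev.1 (e.symm.trans hev1.symm)))
    have : cj g v = n := hev.1 (by rw [hcj g v hg1, hg2])
    rw [← this]
    refine Subtype.ext ?_
    show g * v * g⁻¹ * (g * v * g⁻¹) = 1
    have hvv' : (v : G) * v = 1 := congrArg Subtype.val hvv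
    rw [show g * (v : G) * g⁻¹ * (g * v * g⁻¹) = g * ((v : G) * v) * g⁻¹ by group, hvv', mul_one, mul_inv_cancel]
  letI : CommGroup N :=
    { (inferInstance : Group N) with
      mul_comm := fun x y => by
        have hx := inv_eq_of_mul_eq_one_right (hexp x)
        have hy := inv_eq_of_mul_eq_one_right (hexp y)
        have hxy := inv_eq_of_mul_eq_one_right (hexp (x * y))
        rw [mul_inv_rev, hx, hy] at hxy
        exact hxy.symm }
  haveI : Fact (Nat.Prime 2) := ⟨Nat.prime_two⟩
  obtain ⟨k, hk⟩ : ∃ k, Nat.card N = 2 ^ k := IsPGroup.iff_card.mp fun n => ⟨1, by rw [pow_one, pow_two, hexp]⟩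
  have hΩ : Fintype.card Ω = 2 ^ k := by rw [← hk, Nat.card_congr (Equiv.ofBijective ev hev), Nat.card_eq_fintype_card]
  set Ha := MulAction.stabilizer G a with hHa
  set M := MulAction.stabilizer Ha (ev v) with hMdef
  have htransH : ∀ n : N, n ≠ 1 → ∃ x : Ha, x • ev v = ev n := by
    intro n hn
    obtain ⟨g, hg1, hg2⟩ := (MulAction.is_two_pretransitive_iff.mp h2)
      (show a ≠ ev v from fun e => hv1 (hev.1 (e.symm.trans hev1.symm)))
      (show a ≠ ev n from fun e => hn (hev.1 (e.symm.trans hev1.symm)))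
    exact ⟨⟨g, hg1⟩, hg2⟩
  have hne_a : ∀ n : N, n ≠ 1 → ev n ≠ a := fun n hn e => hn (hev.1 (e.trans hev1.symm))
  have hM : Cfsg.IsFrobeniusComplement M := by
    refine ⟨fun e => hg₀ ?_, fun e => ?_, fun g hg => ?_⟩
    · have : (⟨g₀, hga⟩ : Ha) ∈ M := by show g₀ • ev v = ev v; rw [hv, hgb]
      rw [e, Subgroup.mem_bot] at this
      exact congrArg Subtype.val this
    · have hall : ∀ n : N, n ≠ 1 → n = v := fun n hn => by
        obtain ⟨x, hx⟩ := htransH n hn
        have : x ∈ M := e ▸ Subgroup.mem_top x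
        exact hev.1 (hx.symm.trans this)
      refine hg₀ (eq_of_smul_eq_smul (α := Ω) fun y => ?_)
      rw [one_smul]
      obtain ⟨n, rfl⟩ := hev.2 y
      by_cases hn : n = 1
      · rw [hn, hev1, hga]
      · rw [hall n hn, hv, hgb]
    · rw [eq_bot_iff]
      intro x hx
      obtain ⟨hx1, hx2⟩ := Subgroup.mem_inf.mp hx
      rw [Subgroup.mem_pointwise_smul_iff_inv_smul_mem] at hx2
      have e1 : (x : G) • ev v = ev v := hx1
      have e2 : (x : G) • ((g : G) • ev v) = (g : G) • ev v := by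
        have e3 : ((g⁻¹ * x * g : Ha) : G) • ev v = ev v := by
          have : (g⁻¹ * x * g : Ha) ∈ M := by simpa [MulAut.smul_def] using hx2
          exact this
        rw [Subgroup.coe_mul, Subgroup.coe_mul, Subgroup.coe_inv, mul_smul, mul_smul, inv_smul_eq_iff] at e3
        exact e3
      refine Subgroup.mem_bot.mpr (Subtype.ext ?_)
      refine h3 (x : G) a (ev v) ((g : G) • ev v) (fun e => hne_a v hv1 e.symm) (fun e => hg e.symm)
        (fun e => ?_) x.2 e1 e2
      exact hne_a v hv1 (by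
        have h9 : (g : G) • a = a := g.2
        exact (MulAction.injective (g : G) (h9.trans e)).symm)
  set K := CfsgLib.Frob.kernel hM with hKdef
  have hKfpf : ∀ x ∈ K, x ≠ 1 → ∀ n : N, n ≠ 1 → x • ev n ≠ ev n := by
    intro x hx hx1 n hn e
    obtain ⟨g, hg⟩ := htransH n hn
    rcases (CfsgLib.Frob.mem_kernel hM).mp hx with h | h
    · exact hx1 h
    · refine h g (Subgroup.mem_pointwise_smul_iff_inv_smul_mem.mpr ?_)
      have : (g⁻¹ * x * g : Ha) ∈ M := by
        show (g⁻¹ * x * g : Ha) • ev v = ev v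
        rw [mul_smul, mul_smul, hg, e, ← hg, inv_smul_smul]
      simpa [MulAut.smul_def] using this
  have hKtrans : ∀ n : N, n ≠ 1 → ∃ x ∈ K, x • ev v = ev n := by
    intro n hn
    obtain ⟨g, hg⟩ := htransH n hn
    obtain ⟨⟨x, m⟩, hxm, -⟩ := Subgroup.isComplement_iff_existsUnique.mp (CfsgLib.Frob.isComplement'_kernel hM) g
    refine ⟨x, x.2, ?_⟩
    rw [← hg, ← hxm, mul_smul, show (m : Ha) • ev v = ev v from m.2]
  have hKcard : Nat.card K = 2 ^ k - 1 := by
    rw [CfsgLib.Frob.card_kernel_subgroup, hMdef, MulAction.index_stabilizer, ← hΩ, ← Nat.card_eq_fintype_card]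
    have : MulAction.orbit Ha (ev v) = {a}ᶜ := by
      ext y
      constructor
      · rintro ⟨x, rfl⟩ e
        refine hne_a v hv1 (MulAction.injective (x : G) ?_)
        exact (Set.mem_singleton_iff.mp e).trans x.2.symm
      · intro hy
        obtain ⟨n, rfl⟩ := hev.2 y
        obtain ⟨x, hx⟩ := htransH n fun e => hy (by rw [e, hev1]; rfl)
        exact ⟨x, hx⟩
    rw [this, Set.ncard_compl, Set.ncard_singleton]
  have hk0 : k ≠ 0 := by
    rintro rfl
    rw [pow_zero] at hk
    exact hv1 ((Nat.card_eq_one_iff_unique.mp hk).1.elim _ _)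
  have hKodd : ¬ 2 ∣ Nat.card K := by
    rw [hKcard]
    intro h
    have h4 : 2 ∣ 2 ^ k := dvd_pow_self 2 hk0
    have h5 : 1 ≤ 2 ^ k := Nat.one_le_two_pow
    omega
  -- nilpotent
  obtain ⟨r, hr, hrdvd⟩ := Nat.exists_prime_and_dvd (n := Nat.card M) (fun e => hM.1 (Subgroup.card_eq_one.mp e))
  haveI := Fact.mk hr
  obtain ⟨m, hm⟩ := exists_prime_orderOf_dvd_card' (G := M) r hrdvd
  have hm1 : (m : Ha) ≠ 1 := fun e => hr.one_lt.ne' (by rw [← hm, show m = 1 from Subtype.ext e, orderOf_one])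
  have hmr : (m : Ha) ^ r = 1 := by rw [← hm, ← Subgroup.coe_pow, pow_orderOf_eq_one, Subgroup.coe_one]
  haveI : K.Normal := CfsgLib.Frob.kernel_normal hM
  have hnil : Group.IsNilpotent K := by
    refine CfsgLib.ZJ.isNilpotent_of_fixedPointFree hr (α := MulAut.conjNormal (m : Ha)) ?_ ?_
    · intro x hx
      refine Subtype.ext ?_
      have e : (x : Ha) ∈ K ⊓ Subgroup.centralizer ({(m : Ha)} : Set Ha) := by
        refine ⟨x.2, Subgroup.mem_centralizer_singleton_iff.mpr ?_⟩
        have := congrArg Subtype.val hx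
        rw [MulAut.conjNormal_apply] at this
        calc (x : Ha) * m = (m : Ha) * x * (m : Ha)⁻¹ * m := by rw [this]
          _ = (m : Ha) * x := by group
      rw [CfsgLib.Frob.kernel_inf_centralizer hM m.2 hm1, Subgroup.mem_bot] at e
      exact e
    · rw [← map_pow, hmr, map_one]
  -- cyclic Sylow subgroups
  set K' := K.map Ha.subtype with hK'
  have hK'a : ∀ x ∈ K', x • a = a := by rintro _ ⟨x, -, rfl⟩; exact x.2
  let L := N ⊔ K'
  have hKL : K' ≤ L := le_sup_right
  have hlat : CfsgLib.Frob.LatFpf (K'.subgroupOf L) := by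
    refine CfsgLib.Frob.latFpf_of_complement ⟨fun e => ?_, fun e => ?_, fun g hg => ?_⟩
    · have h1 := Nat.card_congr (Subgroup.subgroupOfEquivOfLe hKL).toEquiv
      rw [e, Subgroup.card_bot, hK', Subgroup.card_map_of_injective Ha.subtype_injective, hKcard] at h1
      have h4 : 2 ^ k = 2 := by omega
      have hall : ∀ n : N, n ≠ 1 → n = v := fun n hn => by
        by_contra hne
        have : 3 ≤ Nat.card N := by
          haveI := Fintype.ofFinite N
          rw [Nat.card_eq_fintype_card]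
          refine le_trans (le_of_eq ?_) (Finset.card_le_univ {1, v, n})
          rw [Finset.card_insert_of_notMem (by simp [hv1.symm, Ne.symm hn]), Finset.card_pair (Ne.symm hne)]
        omega
      refine hg₀ (eq_of_smul_eq_smul (α := Ω) fun y => ?_)
      rw [one_smul]
      obtain ⟨n, rfl⟩ := hev.2 y
      by_cases hn : n = 1
      · rw [hn, hev1, hga]
      · rw [hall n hn, hv, hgb]
    · have : (v : G) ∈ K' := by
        have h1 : (⟨v, (le_sup_left : N ≤ L) v.2⟩ : L) ∈ K'.subgroupOf L := e ▸ Subgroup.mem_top _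
        exact h1
      exact hne_a v hv1 (hK'a _ this)
    · rw [eq_bot_iff]
      intro x hx
      obtain ⟨hx1, hx2⟩ := Subgroup.mem_inf.mp hx
      rw [Subgroup.mem_pointwise_smul_iff_inv_smul_mem] at hx2
      obtain ⟨n, hn, y, hy, hny⟩ : ∃ n ∈ N, ∃ y ∈ K', n * y = (g : G) :=
        Subgroup.mem_sup_of_normal_left.mp g.2
      have hn1 : (⟨n, hn⟩ : N) ≠ 1 := fun e => hg (show (g : G) ∈ K' by
        rw [← hny, show n = 1 from congrArg Subtype.val e, one_mul]; exact hy)
      have hga' : (g : G) • a = ev ⟨n, hn⟩ := by rw [← hny, mul_smul, hK'a y hy]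
      obtain ⟨x', hx', hxx'⟩ := hx1
      have hfix : (x : G) • ev ⟨n, hn⟩ = ev ⟨n, hn⟩ := by
        have h1 : ((g⁻¹ * x * g : L) : G) ∈ K' := by simpa [MulAut.smul_def, Subgroup.mem_subgroupOf] using hx2
        have h2' := hK'a _ h1
        rw [Subgroup.coe_mul, Subgroup.coe_mul, Subgroup.coe_inv, mul_smul, mul_smul, inv_smul_eq_iff, hga'] at h2'
        exact h2'
      by_contra hne
      refine hKfpf x' hx' (fun e => hne (Subgroup.mem_bot.mpr (Subtype.ext ?_))) ⟨n, hn⟩ hn1 ?_
      · rw [show ((x : L) : G) = Ha.subtype x' from hxx'.symm, e, map_one]; rfl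
      · rw [show ((x : L) : G) = Ha.subtype x' from hxx'.symm] at hfix
        exact hfix
  let iso : K ≃* (K'.subgroupOf L) :=
    (K.equivMapOfInjective Ha.subtype Ha.subtype_injective).trans (Subgroup.subgroupOfEquivOfLe hKL).symm
  haveI : IsZGroup K := by
    refine ⟨fun p hp P => ?_⟩
    haveI := Fact.mk hp
    have hQ := CfsgLib.Frob.LatFpf.sylow_cyclic_or_quaternion hlat (p := p) (P := (P : Subgroup K).map iso.toMonoidHom)
      (P.2.map _)
    rcases hQ with hc | ⟨rfl, j, hj, -⟩
    · exact isCyclic_of_surjective (Subgroup.equivMapOfInjective (P : Subgroup K) iso.toMonoidHom iso.injective).symm.toMonoidHom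
        (Subgroup.equivMapOfInjective (P : Subgroup K) iso.toMonoidHom iso.injective).symm.surjective
    · have : Nat.card (P : Subgroup K) = 1 := by
        obtain ⟨e, he⟩ := IsPGroup.iff_card.mp P.2
        rcases Nat.eq_zero_or_pos e with rfl | h
        · rw [he, pow_zero]
        · exact absurd ((dvd_pow_self 2 h.ne').trans (he ▸ Subgroup.card_subgroup_dvd_card _)) hKodd
      exact @isCyclic_of_subsingleton _ _ (Nat.card_eq_one_iff_unique.mp this).1
  haveI := hnil
  obtain ⟨t, ht⟩ := (inferInstance : IsCyclic K).exists_generator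
  -- the field
  let T : AddMonoid.End (Additive N) := MonoidHom.toAdditive (MonoidHom.mk' (cj ((t : Ha) : G)) fun x y =>
    Subtype.ext (by show ((t : Ha) : G) * ((x : G) * y) * ((t : Ha) : G)⁻¹ = _; simp [cj, mul_assoc]))
  have hT : ∀ n, ev (Additive.toMul (T (Additive.ofMul n))) = (t : Ha) • ev n := fun n => hcj _ n (t : Ha).2
  have hTn : ∀ (i : ℕ) n, ev (Additive.toMul (T ^ i • Additive.ofMul n)) =
      ((t ^ i : K) : Ha) • ev n := by
    intro i n
    induction i with
    | zero => simp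
    | succ i ih =>
      rw [pow_succ', mul_smul, AddMonoid.End.smul_def, ← ofMul_toMul (T ^ i • Additive.ofMul n)]
      refine (hT _).trans ?_
      rw [ih, ← mul_smul, ← Subgroup.coe_mul, ← pow_succ']
  have hgen : ∀ w : Additive N, w ≠ 0 → ∀ u : Additive N, u ≠ 0 → ∃ i : ℕ, T ^ i • w = u := by
    intro w hw u hu
    obtain ⟨x, hx, hxw⟩ := hKtrans (Additive.toMul w) hw
    obtain ⟨y, hy, hyu⟩ := hKtrans (Additive.toMul u) hu
    obtain ⟨i, hi⟩ : ∃ i : ℕ, t ^ i = (⟨y, hy⟩ * ⟨x, hx⟩⁻¹ : K) :=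
      (Submonoid.mem_powers_iff _ _).mp ((mem_powers_iff_mem_zpowers).mpr (ht _))
    refine ⟨i, Additive.toMul.injective (hev.1 ?_)⟩
    rw [← ofMul_toMul w, hTn, hi, Subgroup.coe_mul, Subgroup.coe_inv, mul_smul,
      show (x : Ha)⁻¹ • ev (Additive.toMul w) = ev v by rw [← hxw, inv_smul_smul], hyu]
  obtain ⟨F, hF, hFf, Φ, ω, hΦv, hΦ, hω⟩ := CfsgLib.Zas.exists_field T (fun W hW => by
    rcases AddSubgroup.bot_or_exists_ne_zero W with h | ⟨w, hw, hw0⟩
    · exact Or.inl h
    · refine Or.inr (eq_top_iff.mpr fun u hu' => ?_)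
      rcases eq_or_ne u 0 with rfl | hu
      · exact W.zero_mem
      obtain ⟨i, rfl⟩ := hgen w hw0 u hu
      clear hu hu'
      induction i with
      | zero => simpa using hw
      | succ i ih => rw [pow_succ', mul_smul]; exact hW _ ih) (v₀ := Additive.ofMul v) hv1
  have hΦ : ∀ u, Φ (T u) = ω * Φ u := hΦ
  have hcardF : Fintype.card F = 2 ^ k := by
    rw [← Nat.card_eq_fintype_card, ← Nat.card_congr Φ.toEquiv, Nat.card_congr Additive.toMul, hk]
  haveI : CharP F 2 := charP_of_card_eq_prime_pow hcardF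
  letI : Algebra (ZMod 2) F := ZMod.algebra F 2
  -- the semilinear action of `m`
  let C : AddMonoid.End (Additive N) := MonoidHom.toAdditive (MonoidHom.mk' (cj ((m : Ha) : G)) fun x y =>
    Subtype.ext (by show ((m : Ha) : G) * ((x : G) * y) * ((m : Ha) : G)⁻¹ = _; simp [cj, mul_assoc]))
  have hC : ∀ n, ev (Additive.toMul (C (Additive.ofMul n))) = (m : Ha) • ev n := fun n => hcj _ n (m : Ha).2
  let S : F →+ F := (Φ.toAddMonoidHom.comp C).comp Φ.symm.toAddMonoidHom
  have hCv : C (Additive.ofMul v) = Additive.ofMul v :=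
    Additive.toMul.injective (hev.1 ((hC v).trans m.2))
  have hS1 : S 1 = 1 := by
    show Φ (C (Φ.symm 1)) = 1
    rw [← hΦv, Φ.symm_apply_apply, hCv]
  obtain ⟨j, hj⟩ : ∃ j : ℕ, t ^ j = (⟨(m : Ha) * t * (m : Ha)⁻¹, Subgroup.Normal.conj_mem inferInstance _ t.2 _⟩ : K) :=
    (Submonoid.mem_powers_iff _ _).mp ((mem_powers_iff_mem_zpowers).mpr (ht _))
  have hΦn : ∀ (i : ℕ) u, Φ (T ^ i • u) = ω ^ i * Φ u := by
    intro i
    induction i with
    | zero => simp
    | succ i ih => intro u; rw [pow_succ', mul_smul, AddMonoid.End.smul_def, hΦ, ih, pow_succ', mul_assoc]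
  obtain ⟨φ, -, hφ⟩ := CfsgLib.Zas.exists_ringHom (ω' := ω ^ j) hω S (by rw [hS1]; exact one_ne_zero) (by
    intro x
    obtain ⟨u, rfl⟩ := Φ.surjective x
    show Φ (C (Φ.symm (ω * Φ u))) = ω ^ j * Φ (C (Φ.symm (Φ u)))
    rw [← hΦ, Φ.symm_apply_apply, Φ.symm_apply_apply, ← hΦn]
    refine congrArg Φ (Additive.toMul.injective (hev.1 ?_))
    rw [← ofMul_toMul (T u), hC, ← ofMul_toMul (C u), hTn,
      show ev (Additive.toMul (C u)) = (m : Ha) • ev (Additive.toMul u) from hC _,
      show ev (Additive.toMul (T u)) = (t : Ha) • ev (Additive.toMul u) from hT _, hj]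
    simp [← mul_smul, mul_assoc])
  have hφS : ∀ x, φ x = S x := fun x => by rw [hφ x, hS1, one_mul]
  let ψ : F ≃ₐ[ZMod 2] F := AlgEquiv.ofRingEquiv
    (f := RingEquiv.ofBijective φ (Finite.injective_iff_bijective.mp φ.injective))
    fun z => by rw [← ZMod.natCast_zmod_val z, map_natCast, map_natCast]
  have hψ : ∀ x, ψ x = S x := hφS
  have hSn : ∀ (i : ℕ) u, (ψ ^ i) (Φ u) = Φ (C ^ i • u) := by
    intro i
    induction i with
    | zero => simp
    | succ i ih =>
      intro u
      rw [pow_succ', AlgEquiv.mul_apply, ih, pow_succ', mul_smul, AddMonoid.End.smul_def, hψ]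
      show Φ (C (Φ.symm (Φ _))) = _
      rw [Φ.symm_apply_apply]
      rfl
  have hCn : ∀ (i : ℕ) n, ev (Additive.toMul (C ^ i • Additive.ofMul n)) =
      ((m : Ha) ^ i) • ev n := by
    intro i n
    induction i with
    | zero => simp
    | succ i ih =>
      rw [pow_succ', mul_smul, AddMonoid.End.smul_def, ← ofMul_toMul (C ^ i • Additive.ofMul n)]
      refine (hC _).trans ?_
      rw [ih, ← mul_smul, ← pow_succ']
  have hψr : ψ ^ r = 1 := by
    refine AlgEquiv.ext fun x => ?_
    obtain ⟨u, rfl⟩ := Φ.surjective x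
    rw [hSn, AlgEquiv.one_apply]
    refine congrArg Φ (Additive.toMul.injective (hev.1 ?_))
    rw [← ofMul_toMul u, hCn, hmr, one_smul]
    rfl
  have htop : Subgroup.zpowers ψ = ⊤ := by
    rw [← IntermediateField.fixingSubgroup_fixedField (Subgroup.zpowers ψ),
      show IntermediateField.fixedField (Subgroup.zpowers ψ) = ⊥ from ?_, IntermediateField.fixingSubgroup_bot]
    rw [eq_bot_iff]
    intro x hx
    have h1 : ψ x = x := hx ⟨ψ, Subgroup.mem_zpowers ψ⟩
    obtain ⟨u, rfl⟩ := Φ.surjective x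
    rcases eq_or_ne u 0 with rfl | hu
    · rw [map_zero]; exact zero_mem _
    rw [hψ] at h1
    have h2' : C u = u := Φ.injective (by
      have : Φ (C (Φ.symm (Φ u))) = Φ u := h1
      rwa [Φ.symm_apply_apply] at this)
    have h3' : (m : Ha) • ev (Additive.toMul u) = ev (Additive.toMul u) :=
      (hC (Additive.toMul u)).symm.trans (congrArg (fun z : Additive N => ev (Additive.toMul z)) h2')
    have := hfix2 ((m : Ha) : G) (m : Ha).2 (fun e => hm1 (Subtype.ext e)) (Additive.toMul u) v hu hv1 h3' m.2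
    rw [show u = Additive.ofMul v from congrArg Additive.ofMul this, hΦv]
    exact one_mem _
  have hord : orderOf ψ = k := by
    rw [← Nat.card_zpowers, htop, Subgroup.card_top, IsGalois.card_aut_eq_finrank]
    have := Module.card_eq_pow_finrank (K := ZMod 2) (V := F)
    rw [hcardF, ZMod.card] at this
    exact Nat.pow_right_injective le_rfl this.symm
  rcases (Nat.dvd_prime hr).mp (hord ▸ orderOf_dvd_of_pow_eq_one hψr) with h1 | h1
  · subst h1
    obtain ⟨x, hx, hx1⟩ : ∃ x : Ha, x ≠ 1 ∧ x • ev v = ev v := ⟨⟨g₀, hga⟩, fun e => hg₀ (congrArg Subtype.val e), by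
      show g₀ • ev v = ev v; rw [hv, hgb]⟩
    exfalso
    refine hx (Subtype.ext (eq_of_smul_eq_smul (α := Ω) fun y => ?_))
    rw [Subgroup.coe_one, one_smul]
    obtain ⟨n, rfl⟩ := hev.2 y
    by_cases hn : n = 1
    · rw [hn, hev1]; exact x.2
    · have hN2 : n = v := by
        by_contra hne
        have : 3 ≤ Nat.card N := by
          haveI := Fintype.ofFinite N
          rw [Nat.card_eq_fintype_card]
          refine le_trans (le_of_eq ?_) (Finset.card_le_univ {1, v, n})
          rw [Finset.card_insert_of_notMem (by simp [hv1.symm, Ne.symm hn]), Finset.card_pair (Ne.symm hne)]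
        omega
      rw [hN2]; exact hx1
  · exact ⟨r, hr, by rw [hΩ, h1]⟩

end Cfsg.Agent.S0341
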