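import Cfsg.Statements.S0738
import Cfsg.Agent.ZGrp.LargeStab
import Cfsg.Agent.ZGrp.Counts

set_option autoImplicit false
open Cfsg

namespace Cfsg.Agent.S0738

/-- Let a finite Zassenhaus group of degree `n + 1` have two-point stabilisers of order `d` with `2d ≥ n - 1`. Then a normal subgroup of a point stabiliser acting regularly on the remaining points is elementary abelian, and the degree is a prime power plus one. -/
theorem result {G Ω : Type*} [Group G] [Finite G] [MulAction G Ω] [Fintype Ω] (hZ : Cfsg.IsZassenhausGroup G Ω) {a b : Ω} (hab : a ≠ b) (hd : Fintype.card Ω - 2 ≤ 2 * Nat.card ↥(MulAction.stabilizer G a ⊓ MulAction.stabilizer G b)) (F : Subgroup G) (hFle : F ≤ MulAction.stabilizer G a) (hFn : (F.subgroupOf (MulAction.stabilizer G a)).Normal) (hreg : ∀ y z : Ω, y ≠ a → z ≠ a → ∃! u : F, (u : G) • y = z) : IsMulCommutative F ∧ ∃ p f : ℕ, p.Prime ∧ (∀ u ∈ F, u ^ p = 1) ∧ Fintype.card Ω = p ^ f + 1 := by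
  classical
  set M := MulAction.stabilizer G a
  set D : Subgroup G := M ⊓ MulAction.stabilizer G b
  have hFfix : ∀ u ∈ F, u ≠ 1 → ∀ c : Ω, u • c = c → c = a := fun u hu hu1 c hc => by
    by_contra hca
    obtain ⟨v, -, hv⟩ := hreg c c hca hca
    exact hu1 (congrArg Subtype.val ((hv ⟨u, hu⟩ hc).trans (hv 1 (one_smul _ _)).symm))
  have hFcard : Nat.card F + 1 = Fintype.card Ω := by
    have hbij : Function.Bijective fun u : F => (⟨(u : G) • b, fun h => hab (MulAction.injective (u : G)
        ((MulAction.mem_stabilizer_iff.1 (hFle u.2)).trans h.symm))⟩ : {c : Ω // c ≠ a}) := by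
      refine ⟨fun u v h => ?_, fun c => ?_⟩
      · obtain ⟨w, -, hw⟩ := hreg b ((u : G) • b) hab.symm (fun h => hab (MulAction.injective (u : G)
          ((MulAction.mem_stabilizer_iff.1 (hFle u.2)).trans h.symm)))
        exact (hw u rfl).trans (hw v (congrArg Subtype.val h).symm).symm
      · obtain ⟨w, hw, -⟩ := hreg b c hab.symm c.2
        exact ⟨w, Subtype.ext hw⟩
    rw [Nat.card_eq_of_bijective _ hbij, Nat.card_eq_fintype_card, Fintype.card_subtype_compl,
      Fintype.card_subtype_eq]
    have := CfsgLib.ZGrp.four_le_card hZ hab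
    omega
  have hn := CfsgLib.ZGrp.four_le_card hZ hab
  have hNF : ∀ d : D, ∀ u ∈ F, (d : G) * u * (d : G)⁻¹ ∈ F := fun d u hu => by
    have := hFn.conj_mem ⟨u, hFle hu⟩ (Subgroup.mem_subgroupOf.2 hu) ⟨d, d.2.1⟩
    exact Subgroup.mem_subgroupOf.1 this
  let φ : D →* MulAut F :=
    { toFun := fun d =>
        { toFun := fun u => ⟨(d : G) * u * (d : G)⁻¹, hNF d u u.2⟩
          invFun := fun u => ⟨(d : G)⁻¹ * u * (d : G)⁻¹⁻¹, hNF d⁻¹ u u.2⟩
          left_inv := fun u => Subtype.ext (by simp; group)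
          right_inv := fun u => Subtype.ext (by simp; group)
          map_mul' := fun u v => Subtype.ext (by simp [mul_assoc]) }
      map_one' := MulEquiv.ext fun u => Subtype.ext (by simp)
      map_mul' := fun d d' => MulEquiv.ext fun u => Subtype.ext (by simp [mul_assoc]) }
  have hfpf : ∀ (d : D) (k u : F), k * φ d u * k⁻¹ = u → d = 1 ∨ u = 1 := by
    intro d k u h
    have h' : (k : G) * ((d : G) * u * (d : G)⁻¹) * (k : G)⁻¹ = u := congrArg Subtype.val h
    set w := (k : G) * (d : G) with hw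
    have hwu : w * u = u * w := by
      calc w * u = (k : G) * ((d : G) * u * (d : G)⁻¹) * (k : G)⁻¹ * w := by rw [hw]; group
        _ = u * w := by rw [h']
    have hwa : w • a = a := by
      rw [hw, mul_smul, MulAction.mem_stabilizer_iff.1 d.2.1, MulAction.mem_stabilizer_iff.1 (hFle k.2)]
    by_cases hall : ∀ c : Ω, w • c = c → c = a
    · left
      have hwF := CfsgLib.ZGrp.mem_kernel hZ hab F hFle hFcard hFfix hwa hall
      have hdF : (d : G) ∈ F := (Subgroup.mul_mem_cancel_left F k.2).1 hwF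
      by_contra hd1
      exact hab (hFfix _ hdF (fun e => hd1 (Subtype.ext e)) b d.2.2).symm
    · push Not at hall
      obtain ⟨c, hc, hca⟩ := hall
      by_cases hw1 : w = 1
      · left
        have hdF : (d : G) ∈ F := by rw [eq_inv_of_mul_eq_one_right (hw.symm.trans hw1 : (k : G) * (d : G) = 1)]; exact F.inv_mem k.2
        by_contra hd1
        exact hab (hFfix _ hdF (fun e => hd1 (Subtype.ext e)) b d.2.2).symm
      · right
        have h1 : w • (u : G) • c = (u : G) • c := by rw [smul_smul, hwu, mul_smul, hc]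
        have h2 : (u : G) • c ≠ a := fun e => hca (MulAction.injective (u : G)
          (e.trans (MulAction.mem_stabilizer_iff.1 (hFle u.2)).symm))
        have h3 := (CfsgLib.ZGrp.eq_or_eq_of_fix hZ (Ne.symm hca) (CfsgLib.ZGrp.mem_pst.2 ⟨hwa, hc⟩) hw1 h1).resolve_left h2
        by_contra hu1
        exact hca (hFfix _ u.2 (fun e => hu1 (Subtype.ext e)) c h3)
  haveI : Nontrivial F := Finite.one_lt_card_iff_nontrivial.1 (by omega)
  obtain ⟨hab', p, f, hp, hexp, hcard⟩ :=
    CfsgLib.ZGrp.elementary_of_invariant φ hfpf (show Nat.card F ≤ 2 * Nat.card D + 1 by omega)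
  refine ⟨⟨⟨hab'⟩⟩, p, f, hp, fun u hu => congrArg Subtype.val (hexp ⟨u, hu⟩), by omega⟩

end Cfsg.Agent.S0738
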