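import Cfsg.Statements.S0741
import Mathlib

set_option autoImplicit false
open Cfsg

namespace Cfsg.Agent.S0741

/-- If the two-point stabilisers of a finite Zassenhaus group of degree `n + 1` have even order `d`, then `2d ≥ n - 1`. -/
theorem result {G Ω : Type*} [Group G] [Finite G] [MulAction G Ω] [Fintype Ω] (hZ : Cfsg.IsZassenhausGroup G Ω) {a b : Ω} (hab : a ≠ b) (heven : Even (Nat.card ↥(MulAction.stabilizer G a ⊓ MulAction.stabilizer G b))) : Fintype.card Ω - 2 ≤ 2 * Nat.card ↥(MulAction.stabilizer G a ⊓ MulAction.stabilizer G b) := by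
  classical
  obtain ⟨hf, h2, h3, -, -⟩ := hZ
  haveI := hf
  have h2' : ∀ {x y z w : Ω}, x ≠ y → z ≠ w → ∃ g : G, g • x = z ∧ g • y = w :=
    MulAction.is_two_pretransitive_iff.1 h2
  set D : Subgroup G := MulAction.stabilizer G a ⊓ MulAction.stabilizer G b with hD
  obtain ⟨⟨z, hza, hzb⟩, hzo⟩ := exists_prime_orderOf_dvd_card' (hp := ⟨Nat.prime_two⟩) (G := D) 2
    (even_iff_two_dvd.1 heven)
  rw [← Subgroup.orderOf_coe] at hzo
  change orderOf z = 2 at hzo
  let T := {t : G // t ≠ 1 ∧ t * t = 1 ∧ ∃ x y : Ω, x ≠ y ∧ t • x = x ∧ t • y = y}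
  have hinv : ∀ x y : Ω, x ≠ y → ∃ t : T, t.1 • x = x ∧ t.1 • y = y := by
    intro x y hxy
    obtain ⟨g, hga, hgb⟩ := h2' hab hxy
    have e1 : (g * z * g⁻¹) • x = x := by
      rw [← hga, mul_smul, mul_smul, inv_smul_smul, MulAction.mem_stabilizer_iff.mp hza]
    have e2 : (g * z * g⁻¹) • y = y := by
      rw [← hgb, mul_smul, mul_smul, inv_smul_smul, MulAction.mem_stabilizer_iff.mp hzb]
    have hz2 : z * z = 1 := by rw [← pow_two]; exact orderOf_dvd_iff_pow_eq_one.mp hzo.dvd
    refine ⟨⟨g * z * g⁻¹, fun h => ?_, ?_, x, y, hxy, e1, e2⟩, e1, e2⟩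
    · rw [conj_eq_one_iff] at h
      rw [h, orderOf_one] at hzo
      omega
    · rw [show g * z * g⁻¹ * (g * z * g⁻¹) = g * (z * z) * g⁻¹ by group, hz2]; group
  have hfix : ∀ t : T, Nat.card {x : Ω // t.1 • x = x} = 2 := by
    rintro ⟨t, ht1, -, x, y, hxy, hx, hy⟩
    rw [Nat.card_eq_two_iff]
    refine ⟨⟨x, hx⟩, ⟨y, hy⟩, fun e => hxy (congrArg Subtype.val e), Set.eq_univ_of_forall ?_⟩
    rintro ⟨w, hw⟩
    by_contra hne
    simp only [Set.mem_insert_iff, Set.mem_singleton_iff, Subtype.mk.injEq, not_or] at hne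
    exact ht1 (h3 t x y w hxy (Ne.symm hne.2) (Ne.symm hne.1) hx hy hw)
  let P := {q : Ω × Ω // q.1 ≠ q.2}
  have hP : Nat.card P = Fintype.card Ω * (Fintype.card Ω - 1) := by
    rw [Nat.card_eq_fintype_card, Fintype.card_subtype]
    have : (Finset.univ.filter fun q : Ω × Ω => q.1 ≠ q.2) = (Finset.univ : Finset Ω).offDiag := by
      ext q; simp
    rw [this, Finset.offDiag_card, Finset.card_univ, Nat.mul_sub, mul_one]
  -- every ordered pair is fixed by an involution
  have hlow : Nat.card P ≤ 2 * Nat.card T := by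
    choose τ hτ1 hτ2 using fun q : P => hinv q.1.1 q.1.2 q.2
    have h := Nat.card_le_card_of_injective
      (fun q : P => (⟨τ q, ⟨q.1.1, hτ1 q⟩⟩ : (t : T) × {x : Ω // t.1 • x = x})) ?_
    · haveI : Fintype T := Fintype.ofFinite T
      rw [Nat.card_sigma, Finset.sum_congr rfl (fun t _ => hfix t), Finset.sum_const, Finset.card_univ,
        ← Nat.card_eq_fintype_card, smul_eq_mul, mul_comm] at h
      exact h
    · rintro ⟨⟨x, y⟩, hxy⟩ ⟨⟨x', y'⟩, hxy'⟩ e
      simp only at hxy hxy'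
      obtain ⟨e1, e2⟩ := Sigma.mk.inj_iff.mp e
      have hxx : x = x' := by
        have : ∀ (s s' : T) (p : {w : Ω // s.1 • w = w}) (p' : {w : Ω // s'.1 • w = w}),
            s = s' → HEq p p' → (p : Ω) = p' := by
          rintro s s' p p' rfl hh
          rw [eq_of_heq hh]
        exact this _ _ _ _ e1 e2
      subst hxx
      by_contra hne
      have hyy : y ≠ y' := fun h => hne (Subtype.ext (Prod.ext rfl h))
      refine (τ ⟨(x, y), hxy⟩).2.1 (h3 _ x y y' hxy hyy hxy' (hτ1 _) (hτ2 _) ?_)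
      rw [e1]
      exact hτ2 ⟨(x, y'), hxy'⟩
  -- each ordered pair is exchanged by at most `d` of them
  have hhigh : Nat.card T * (Fintype.card Ω - 2) ≤ Nat.card P * Nat.card D := by
    choose g hg1 hg2 using fun q : P => h2' q.2 hab
    have hsw : ∀ (t : T) (x : {x : Ω // ¬ t.1 • x = x}), x.1 ≠ t.1 • x.1 := fun t x => Ne.symm x.2
    choose σ hσ1 hσ2 using fun q : P => h2' q.2 (Ne.symm q.2)
    let qq : ((t : T) × {x : Ω // ¬ t.1 • x = x}) → P := fun s => ⟨(s.2.1, s.1.1 • s.2.1), hsw s.1 s.2⟩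
    let F : ((t : T) × {x : Ω // ¬ t.1 • x = x}) → P × D := fun s =>
      (qq s, ⟨g (qq s) * ((σ (qq s))⁻¹ * s.1.1) * (g (qq s))⁻¹, by
          obtain ⟨t, x⟩ := s
          set q : P := qq ⟨t, x⟩ with hq
          have hx1 : ((σ q)⁻¹ * t.1) • x.1 = x.1 := by
            rw [mul_smul, inv_smul_eq_iff]; exact (hσ1 q).symm
          have hx2 : ((σ q)⁻¹ * t.1) • (t.1 • x.1) = t.1 • x.1 := by
            rw [mul_smul, smul_smul t.1 t.1, t.2.2.1, one_smul, inv_smul_eq_iff]; exact (hσ2 q).symm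
          refine Subgroup.mem_inf.mpr ⟨?_, ?_⟩
          · rw [MulAction.mem_stabilizer_iff, mul_smul, mul_smul, ← hg1 q, inv_smul_smul, hx1]
          · rw [MulAction.mem_stabilizer_iff, mul_smul, mul_smul, ← hg2 q, inv_smul_smul, hx2]⟩)
    have hF : Function.Injective F := by
      rintro ⟨t, x⟩ ⟨t', x'⟩ e
      have e1 := congrArg (fun r : P × D => r.1) e
      have e2 := congrArg (fun r : P × D => (r.2 : G)) e
      simp only [F] at e1 e2
      rw [e1] at e2
      have ht : t = t' := Subtype.ext (mul_left_cancel (mul_left_cancel (mul_right_cancel e2)))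
      subst ht
      have hx : x = x' := Subtype.ext (congrArg (fun q : P => q.1.1) e1)
      subst hx
      rfl
    have h := Nat.card_le_card_of_injective F hF
    haveI : Fintype T := Fintype.ofFinite T
    rw [Nat.card_sigma, Nat.card_prod, Finset.sum_congr rfl (g := fun _ => Fintype.card Ω - 2) (fun t _ => by
        rw [Nat.card_eq_fintype_card, Fintype.card_subtype_compl, ← Nat.card_eq_fintype_card
          (α := {x : Ω // t.1 • x = x}), hfix t]),
      Finset.sum_const, Finset.card_univ, ← Nat.card_eq_fintype_card, smul_eq_mul] at h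
    exact h
  have hne : 0 < Nat.card P := by
    haveI : Nonempty P := ⟨⟨(a, b), hab⟩⟩
    exact Nat.card_pos
  refine Nat.le_of_mul_le_mul_left ?_ hne
  calc Nat.card P * (Fintype.card Ω - 2) ≤ 2 * Nat.card T * (Fintype.card Ω - 2) := Nat.mul_le_mul_right _ hlow
    _ ≤ 2 * (Nat.card P * Nat.card D) := by rw [mul_assoc]; exact Nat.mul_le_mul_left 2 hhigh
    _ = Nat.card P * (2 * Nat.card D) := by ring

end Cfsg.Agent.S0741
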