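import Cfsg.Statements.S0740
import Mathlib


set_option autoImplicit false
open Cfsg

namespace Cfsg.Agent.S0740

/-- In a finite Zassenhaus group any two points `a ≠ b` are swapped by an involution; every such involution has exactly one fixed point when the degree is odd and 0 or 2 fixed points when the degree is even; and if the two-point stabiliser has even order, some such involution has exactly 2 fixed points. -/
theorem result {G Ω : Type*} [Group G] [Finite G] [MulAction G Ω] [Fintype Ω] (hZ : Cfsg.IsZassenhausGroup G Ω) {a b : Ω} (hab : a ≠ b) : (∃ s : G, orderOf s = 2 ∧ s • a = b ∧ s • b = a) ∧ (∀ s : G, orderOf s = 2 → s • a = b → s • b = a → (Odd (Fintype.card Ω) → Nat.card (MulAction.fixedBy Ω s) = 1) ∧ (Even (Fintype.card Ω) → Nat.card (MulAction.fixedBy Ω s) = 0 ∨ Nat.card (MulAction.fixedBy Ω s) = 2)) ∧ (Even (Fintype.card Ω) → Even (Nat.card ↥(MulAction.stabilizer G a ⊓ MulAction.stabilizer G b)) → ∃ s : G, orderOf s = 2 ∧ s • a = b ∧ s • b = a ∧ Nat.card (MulAction.fixedBy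 Ω s) = 2) := by
  classical
  obtain ⟨hf, h2, h3, ⟨g0, hg0, p, q, hpq, -, -⟩, -⟩ := hZ
  haveI := hf
  haveI := h2
  haveI : Fact (Nat.Prime 2) := ⟨Nat.prime_two⟩
  have h2' : ∀ {x y z w : Ω}, x ≠ y → z ≠ w → ∃ g : G, g • x = z ∧ g • y = w :=
    MulAction.is_two_pretransitive_iff.1 h2
  have hinv : ∀ s : G, orderOf s = 2 → ∀ x : Ω, s • s • x = x := fun s hs x => by
    rw [smul_smul, ← sq, ← hs, pow_orderOf_eq_one, one_smul]
  have hsq : ∀ s : G, orderOf s = 2 → ∀ c : Ω, s • c ≠ c → ∃ g : G, orderOf (g * s * g⁻¹) = 2 ∧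
      (g * s * g⁻¹) • a = b ∧ (g * s * g⁻¹) • b = a := by
    intro s hs c hc
    obtain ⟨g, h1, h4⟩ := h2' hc.symm hab
    refine ⟨g, ?_, ?_, ?_⟩
    · rw [← MulAut.conj_apply, MulEquiv.orderOf_eq]
      exact hs
    · rw [mul_smul, mul_smul, inv_smul_eq_iff.2 h1.symm, h4]
    · rw [mul_smul, mul_smul, inv_smul_eq_iff.2 h4.symm, hinv s hs, h1]
  have hcard : ∀ s : G, orderOf s = 2 → Nat.card (MulAction.fixedBy Ω s) ≤ 2 ∧
      (Even (Fintype.card Ω) ↔ Even (Nat.card (MulAction.fixedBy Ω s))) := by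
    intro s hs
    refine ⟨?_, ?_⟩
    · by_contra hlt
      rw [not_le, Nat.card_eq_fintype_card, Fintype.two_lt_card_iff] at hlt
      obtain ⟨⟨x, hx⟩, ⟨y, hy⟩, ⟨z, hz⟩, hxy, hxz, hyz⟩ := hlt
      have h1 := h3 s x y z (fun e => hxy (Subtype.ext e)) (fun e => hyz (Subtype.ext e)) (fun e => hxz (Subtype.ext e)) hx hy hz
      rw [h1, orderOf_one] at hs
      omega
    · have hP : IsPGroup 2 (Subgroup.zpowers s) := IsPGroup.of_card (n := 1) (by rw [Nat.card_zpowers, hs, pow_one])
      have hmod := hP.card_modEq_card_fixedPoints Ω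
      have he : MulAction.fixedPoints (Subgroup.zpowers s) Ω = MulAction.fixedBy Ω s := by
        ext x
        constructor
        · intro h
          exact h ⟨s, Subgroup.mem_zpowers s⟩
        · rintro h ⟨_, k, rfl⟩
          exact Subgroup.zpow_mem (MulAction.stabilizer G x) h k
      rw [he, Nat.card_eq_fintype_card] at hmod
      rw [Nat.even_iff, Nat.even_iff, Nat.card_eq_fintype_card] at *
      unfold Nat.ModEq at hmod
      omega
  refine ⟨?_, fun s hs hsa hsb => ⟨fun ho => ?_, fun he => ?_⟩, fun he hst => ?_⟩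
  · obtain ⟨g, hg1, hg2⟩ := h2' hab hab.symm
    have heven : 2 ∣ Nat.card G := by
      have h1 : g ^ 2 • a = a := by rw [pow_two, mul_smul, hg1, hg2]
      by_contra hodd
      have ho : Odd (orderOf g) := by
        rw [← Nat.not_even_iff_odd, even_iff_two_dvd]
        exact fun h => hodd (h.trans (orderOf_dvd_natCard g))
      obtain ⟨k, hk⟩ := ho
      have h5 : g ^ (orderOf g) • a = b := by
        rw [hk, pow_succ', mul_smul, pow_mul]
        have : ∀ i : ℕ, (g ^ 2) ^ i • a = a := by
          intro i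
          induction i with
          | zero => simp
          | succ i ih => rw [pow_succ, mul_smul, h1, ih]
        rw [this, hg1]
      rw [pow_orderOf_eq_one, one_smul] at h5
      exact hab h5
    obtain ⟨t, ht⟩ := exists_prime_orderOf_dvd_card' (G := G) 2 heven
    obtain ⟨c, hc⟩ : ∃ c : Ω, t • c ≠ c := by
      by_contra hall
      push Not at hall
      have : t = 1 := FaithfulSMul.eq_of_smul_eq_smul fun x : Ω => by rw [one_smul, hall]
      rw [this, orderOf_one] at ht
      omega
    obtain ⟨k, hk⟩ := hsq t ht c hc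
    exact ⟨_, hk⟩
  · obtain ⟨h1, h4⟩ := hcard s hs
    rw [Nat.even_iff, Nat.even_iff] at h4
    rw [Nat.odd_iff] at ho
    omega
  · obtain ⟨h1, h4⟩ := hcard s hs
    have := h4.1 he
    rw [Nat.even_iff] at this
    omega
  · obtain ⟨t, ht⟩ := exists_prime_orderOf_dvd_card' (G := ↥(MulAction.stabilizer G a ⊓ MulAction.stabilizer G b)) 2
      (even_iff_two_dvd.1 hst)
    rw [← Subgroup.orderOf_coe] at ht
    have hta : (t : G) • a = a := t.2.1
    have htb : (t : G) • b = b := t.2.2
    obtain ⟨c, hc⟩ : ∃ c : Ω, (t : G) • c ≠ c := by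
      by_contra hall
      push Not at hall
      have : (t : G) = 1 := FaithfulSMul.eq_of_smul_eq_smul fun x : Ω => by rw [one_smul, hall]
      rw [this, orderOf_one] at ht
      omega
    have h2fix : 1 < Nat.card (MulAction.fixedBy Ω (t : G)) :=
      Finite.one_lt_card_iff_nontrivial.2 (nontrivial_of_ne ⟨a, hta⟩ ⟨b, htb⟩ fun e => hab (congrArg Subtype.val e))
    obtain ⟨k, hk1, hk2, hk3⟩ := hsq _ ht c hc
    refine ⟨_, hk1, hk2, hk3, ?_⟩
    have heq : Nat.card (MulAction.fixedBy Ω (k * (t : G) * k⁻¹)) = Nat.card (MulAction.fixedBy Ω (t : G)) := by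
      refine (Nat.card_congr ((MulAction.toPerm k).subtypeEquiv fun x => ?_)).symm
      show (t : G) • x = x ↔ (k * (t : G) * k⁻¹) • k • x = k • x
      rw [mul_smul, mul_smul, inv_smul_smul]
      exact (smul_left_cancel_iff k).symm
    obtain ⟨h1, -⟩ := hcard _ ht
    omega

end Cfsg.Agent.S0740
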