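import Cfsg.Statements.S0345
import Cfsg.Agent.Zas.Simple
import Cfsg.Agent.ZGrp.Invol
import Cfsg.Agent.S0739
import Cfsg.Agent.S0740

set_option autoImplicit false
open Cfsg

namespace Cfsg.Agent.S0345

/-- In a finite simple Zassenhaus group the stabiliser `H` of two points `a ≠ b` is cyclic, and some involution
interchanging `a` and `b` inverts every element of `H`. -/
theorem result {G Ω : Type*} [Group G] [Finite G] [MulAction G Ω] [Finite Ω]
    (hZ : Cfsg.IsZassenhausGroup G Ω) [IsSimpleGroup G]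
    {a b : Ω} (hab : a ≠ b) :
    IsCyclic ↥(MulAction.stabilizer G a ⊓ MulAction.stabilizer G b) ∧
      ∃ v : G, orderOf v = 2 ∧ v • a = b ∧ v • b = a ∧ ∀ h ∈ MulAction.stabilizer G a ⊓ MulAction.stabilizer G b, v * h * v⁻¹ = h⁻¹ := by
  classical
  haveI := Fintype.ofFinite Ω
  rcases Nat.even_or_odd (Nat.card ↥(MulAction.stabilizer G a ⊓ MulAction.stabilizer G b)) with heven | hodd
  · obtain ⟨V, hV, hVfin, G', φ, e, hφ, hea, heb, hC, hS, hq, h5, hc⟩ := CfsgLib.Zas.exists_half_of_simple hZ hab heven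
    obtain ⟨ι, hι, hrange, hιφ⟩ := hC.exists_pst e φ hφ hea heb
    obtain ⟨K, hK, hKfin, hdec, Φ, ω, -, -, hlin, -, -⟩ := CfsgLib.Zas.exists_linear_of_half hC hS hq h5 hc
    letI := hK
    haveI : IsCyclic (CfsgLib.Zas.scalars G') := by
      choose u hu using fun s : CfsgLib.Zas.scalars G' =>
        hlin ⟨CfsgLib.Zas.mapVec Φ (s : Equiv.Perm V), (CfsgLib.Zas.mem_scalars_map Φ _).mpr s.2⟩
      have hu1 : ∀ s, (u s : K) = CfsgLib.Zas.mapVec Φ (s : Equiv.Perm V) 1 := fun s => by
        rw [show CfsgLib.Zas.mapVec Φ (s : Equiv.Perm V) = Units.mulLeft (u s) from hu s]; simp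
      refine isCyclic_of_subgroup_isDomain
        ({ toFun := fun s => (u s : K)
           map_one' := by rw [hu1, Subgroup.coe_one, map_one (CfsgLib.Zas.mapVec Φ)]; rfl
           map_mul' := fun s t => by
            rw [hu1 (s * t), Subgroup.coe_mul, map_mul, Equiv.Perm.mul_apply, ← hu1 t,
              show CfsgLib.Zas.mapVec Φ (s : Equiv.Perm V) = Units.mulLeft (u s) from hu s, Units.mulLeft_apply] } :
          CfsgLib.Zas.scalars G' →* K) fun s t h => ?_
      refine Subtype.ext ((CfsgLib.Zas.mapVec Φ).injective ?_)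
      rw [show CfsgLib.Zas.mapVec Φ (s : Equiv.Perm V) = Units.mulLeft (u s) from hu s,
        show CfsgLib.Zas.mapVec Φ (t : Equiv.Perm V) = Units.mulLeft (u t) from hu t, Units.ext h]
    obtain ⟨w, hw, w0, w1⟩ := hC.exists_swap
    refine ⟨?_, φ.symm ⟨w, hw⟩, ?_, ?_, ?_, ?_⟩
    · rw [← hrange]
      exact isCyclic_of_surjective ι.rangeRestrict ι.rangeRestrict_surjective
    · refine orderOf_eq_prime ?_ fun h => ?_
      · rw [pow_two, ← map_mul, show (⟨w, hw⟩ : G') * ⟨w, hw⟩ = 1 from Subtype.ext (hS w hw w0 w1), map_one]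
      · rw [MulEquiv.map_eq_one_iff] at h
        rw [show w = 1 from congrArg Subtype.val h] at w0
        exact Option.some_ne_none _ w0.symm
    · exact e.injective (by rw [hφ, φ.apply_symm_apply, hea, heb]; exact w0)
    · exact e.injective (by rw [hφ, φ.apply_symm_apply, hea, heb]; exact w1)
    · rw [← hrange]
      rintro _ ⟨s, rfl⟩
      refine φ.injective (Subtype.ext ?_)
      rw [map_mul, map_mul, map_inv, map_inv, φ.apply_symm_apply, Subgroup.coe_mul, Subgroup.coe_mul, Subgroup.coe_inv,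
        Subgroup.coe_inv, hιφ, hS.conj hw w0 w1, Subgroup.coe_inv, map_inv]
  · obtain ⟨hcyc, -, hinv⟩ := Cfsg.Agent.S0739.result hZ hab hodd
      (fun q hq hd => CfsgLib.ZGrp.no_normal_complement_of_simple hZ hab q hq hd)
    obtain ⟨⟨v, hv2, hva, hvb⟩, -⟩ := Cfsg.Agent.S0740.result hZ hab
    exact ⟨hcyc, v, hv2, hva, hvb, hinv v hva hvb⟩

end Cfsg.Agent.S0345
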