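import Cfsg.Statements.S0351
-- no helpers

set_option autoImplicit false
open Cfsg

namespace Cfsg.Agent.S0351

/-- Derived design: removing a point p from the blocks through p of an S(t+1, k+1, v) yields an S(t, k, v-1) on the points other than p. -/
theorem result {α : Type*} [Fintype α] [DecidableEq α] {t k : ℕ} {B : Set (Finset α)} (hB : Cfsg.IsSteinerSystem (t + 1) (k + 1) B) (p : α) : Cfsg.IsSteinerSystem t k {b' : Finset {a : α // a ≠ p} | ∃ b ∈ B, p ∈ b ∧ b' = Finset.subtype (fun a => a ≠ p) b} := by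
  classical
  refine ⟨?_, fun s hs => ?_⟩
  · rintro _ ⟨b, hb, hp, rfl⟩
    rw [Finset.card_subtype, Finset.filter_ne' b p, Finset.card_erase_of_mem hp, hB.1 b hb]
    omega
  · have hps : p ∉ s.map (Function.Embedding.subtype _) := fun h => by
      simp at h
    obtain ⟨b, ⟨hb, hsb⟩, hu⟩ := hB.2 (insert p (s.map (Function.Embedding.subtype _)))
      (by rw [Finset.card_insert_of_notMem hps, Finset.card_map, hs])
    obtain ⟨hp, hsb⟩ := Finset.insert_subset_iff.1 hsb
    refine ⟨Finset.subtype (fun a => a ≠ p) b, ⟨⟨b, hb, hp, rfl⟩, fun x hx => ?_⟩, ?_⟩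
    · exact Finset.mem_subtype.2 (hsb (Finset.mem_map_of_mem _ hx))
    · rintro _ ⟨⟨c, hc, hpc, rfl⟩, hsc⟩
      refine congrArg _ (hu c ⟨hc, Finset.insert_subset hpc fun x hx => ?_⟩)
      obtain ⟨y, hy, rfl⟩ := Finset.mem_map.1 hx
      exact Finset.mem_subtype.1 (hsc hy)

end Cfsg.Agent.S0351
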