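import Cfsg.Statements.S0357
import Cfsg.Agent.Steiner.Count

set_option autoImplicit false
open Cfsg

namespace Cfsg.Agent.S0357

/-- In a Steiner system S(5, 6, 12), the complement of every block is again a block. -/
theorem result {α : Type*} [Fintype α] [DecidableEq α] (hα : Fintype.card α = 12) {B : Set (Finset α)} (hB : Cfsg.IsSteinerSystem 5 6 B) {b : Finset α} (hb : b ∈ B) : bᶜ ∈ B := by
  have h := (CfsgLib.Steiner.meet_12 hB hα hb).1
  rw [CfsgLib.Steiner.meet, Finset.card_eq_one] at h
  obtain ⟨c, hc⟩ := h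
  have hm := hc.symm ▸ Finset.mem_singleton_self c
  rw [Finset.mem_filter, CfsgLib.Steiner.mem_blocks, Finset.card_eq_zero] at hm
  have : c = bᶜ := by
    refine Finset.eq_of_subset_of_card_le (fun x hx => Finset.mem_compl.2 fun hxb => ?_) ?_
    · have : x ∈ c ∩ b := Finset.mem_inter.2 ⟨hx, hxb⟩
      rw [hm.2] at this
      simp at this
    · rw [Finset.card_compl, hα, hB.1 b hb, hB.1 c hm.1]
  exact this ▸ hm.1

end Cfsg.Agent.S0357
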