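import Cfsg.Statements.S0358
import Cfsg.Agent.Golay.Code
import Mathlib
open CfsgLib.Golay

set_option autoImplicit false
open Cfsg

namespace Cfsg.Agent.S0358

/-- The length-24 code built from the squares modulo 23 has dimension 12 over the field with two elements. -/
theorem result : Module.finrank (ZMod 2) Cfsg.golayCode = 12 := by
  have e : Nat.card Cfsg.golayCode = 2 ^ 12 := by
    have hb : Function.Bijective (fun w : Cfsg.golayCode =>
        (⟨wmask w.1, mem_code_iff_list.1 w.2⟩ : {m // m ∈ codeList})) := by
      refine ⟨fun v w h => Subtype.ext (wmask_injective (congrArg Subtype.val h)), fun m => ?_⟩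
      obtain ⟨w, hw, hw'⟩ := exists_word_of_allSums basis exists_word_basis _ m.2
      exact ⟨⟨w, hw⟩, Subtype.ext hw'⟩
    rw [Nat.card_congr (Equiv.ofBijective _ hb)]
    rw [Nat.card_eq_fintype_card, Fintype.card_of_subtype codeList.toFinset (by simp),
      List.toFinset_card_of_nodup codeList_nodup]
    decide +kernel
  have h := Module.natCard_eq_pow_finrank (K := ZMod 2) (V := Cfsg.golayCode)
  rw [e, Nat.card_zmod] at h
  exact (Nat.pow_right_injective (by omega) h).symm

end Cfsg.Agent.S0358
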