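import Cfsg.Statements.S0362
import Cfsg.Agent.Golay.Code
import Mathlib
open CfsgLib.Golay

set_option autoImplicit false
open Cfsg

namespace Cfsg.Agent.S0362

/-- The length-24 code is self-orthogonal: the dot product over ZMod 2 of any two of its words vanishes (with dimension 12 this makes it self-dual). -/
theorem result (v w : Cfsg.GolayPt → ZMod 2) (hv : v ∈ Cfsg.golayCode) (hw : w ∈ Cfsg.golayCode) : ∑ i, v i * w i = 0 := by
  have h : popc (wmask v &&& wmask w) % 2 = 0 := by
    have hb : ∀ a ∈ basis, ∀ b ∈ codeList, popc (a.2 &&& b) % 2 = 0 := by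
      have := (by decide +kernel : (basis.all fun a => codeList.all fun b =>
        Nat.beq (popc (a.2 &&& b) % 2) 0) = true)
      simpa [List.all_eq_true, Nat.beq_eq] using this
    obtain ⟨v', hv', hv''⟩ := exists_word_of_allSums basis exists_word_basis _ (mem_code_iff_list.1 hv)
    have lin : ∀ l : List (ℕ × ℕ), (∀ a ∈ l, ∀ b ∈ codeList, popc (a.2 &&& b) % 2 = 0) →
        ∀ m ∈ allSums l, ∀ b ∈ codeList, popc (m &&& b) % 2 = 0 := by
      intro l
      induction l with
      | nil => intro _ m hm b _; simp [allSums] at hm; subst hm; simp; decide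
      | cons a r ih =>
        obtain ⟨p, c⟩ := a
        intro h m hm b hb
        simp only [allSums, List.mem_append, List.mem_map] at hm
        rcases hm with hm | ⟨x, hx, rfl⟩
        · exact ih (fun a ha => h a (List.mem_cons_of_mem _ ha)) m hm b hb
        · have h1 := h (p, c) List.mem_cons_self b hb
          have h2 := ih (fun a ha => h a (List.mem_cons_of_mem _ ha)) x hx b hb
          have key : ∀ k x y : ℕ, popAux k (x ^^^ y) % 2 = (popAux k x + popAux k y) % 2 := by
            intro k
            induction k with
            | zero => intros; rfl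
            | succ k ihk =>
              intro x y
              have := ihk (x / 2) (y / 2)
              have e0 : (x ^^^ y) / 2 = x / 2 ^^^ y / 2 := by
                refine Nat.eq_of_testBit_eq fun i => ?_
                simp [← Nat.testBit_succ]
              have e1 : (x ^^^ y) % 2 = (x % 2 + y % 2) % 2 := by
                have := Nat.testBit_xor x y 0
                simp [Nat.testBit_zero] at this
                rcases Nat.mod_two_eq_zero_or_one x with hx | hx <;>
                  rcases Nat.mod_two_eq_zero_or_one y with hy | hy <;> simp_all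
              simp only [popAux, e0]
              omega
          rw [Nat.and_xor_distrib_right]
          unfold popc at h1 h2 ⊢
          rw [key]
          simp only [] at h1; omega
    exact lin basis hb _ (mem_code_iff_list.1 hv) _ (mem_code_iff_list.1 hw)
  have hsum : ∑ i, v i * w i = (((support₂ v ∩ support₂ w).card : ℕ) : ZMod 2) := by
    rw [Finset.card_eq_sum_ones, Nat.cast_sum, Finset.sum_congr rfl (fun i _ => Nat.cast_one),
      ← Finset.sum_subset (Finset.subset_univ (support₂ v ∩ support₂ w))]
    · refine Finset.sum_congr rfl fun i hi => ?_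
      simp only [Finset.mem_inter, support₂, Finset.mem_filter, Finset.mem_univ, true_and] at hi
      exact (by decide : ∀ a b : ZMod 2, a ≠ 0 → b ≠ 0 → a * b = 1) _ _ hi.1 hi.2
    · intro i _ hi
      simp only [Finset.mem_inter, support₂, Finset.mem_filter, Finset.mem_univ, true_and] at hi
      exact (by decide : ∀ a b : ZMod 2, ¬(a ≠ 0 ∧ b ≠ 0) → a * b = 0) _ _ hi
  rw [hsum, ZMod.natCast_eq_zero_iff, Nat.dvd_iff_mod_eq_zero, ← popc_mask, mask_inter]
  exact h

end Cfsg.Agent.S0362
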