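import Cfsg.Statements.S0370
import Cfsg.Agent.Golay.M24
import Mathlib
open CfsgLib.Golay

set_option autoImplicit false
open Cfsg

namespace Cfsg.Agent.S0370

/-- The permutation x ↦ x + 1 of the residues modulo 23, fixing the extra point, lies in the group of the length-24 code. -/
theorem result : Equiv.optionCongr (Equiv.addRight (1 : ZMod 23)) ∈ Cfsg.M24 := by
  have h : Equiv.optionCongr (Equiv.addRight (1 : ZMod 23)) = permOf gen0 := by
    have hv : validTab gen0 = true := by decide +kernel
    refine Equiv.ext fun p => idx_injective (Fin.ext ?_)
    rw [idx_permOf hv]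
    revert p
    decide +kernel
  rw [h]
  exact permOf_mem_M24 (by decide +kernel) (by decide +kernel)

end Cfsg.Agent.S0370
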