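import Cfsg.Statements.S0371
import Cfsg.Agent.Golay.M24
import Mathlib
open CfsgLib.Golay

set_option autoImplicit false
open Cfsg

namespace Cfsg.Agent.S0371

/-- Multiplication by a nonzero square residue modulo 23, fixing the extra point, lies in the group of the length-24 code. -/
theorem result (u : (ZMod 23)ˣ) (hu : IsSquare u) : Equiv.optionCongr (Units.mulLeft u) ∈ Cfsg.M24 := by
  obtain ⟨r, hr⟩ := hu
  have key : ∀ a : ZMod 23, a ≠ 0 → presTab (List.ofFn fun i : Fin 24 =>
      (idx ((pt i).map fun x => a * a * x)).val) = true := by decide +kernel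
  haveI : Fact (Nat.Prime 23) := ⟨by decide⟩
  have h0 : (r : ZMod 23) ≠ 0 := r.ne_zero
  rw [← permOf_tabOf (Equiv.optionCongr (Units.mulLeft u))]
  refine permOf_mem_M24 (validTab_tabOf _) ?_
  have : tabOf (Equiv.optionCongr (Units.mulLeft u)) = List.ofFn (fun i : Fin 24 =>
      (idx ((pt i).map fun x => (r : ZMod 23) * r * x)).val) := by
    subst hr; rfl
  rw [this]
  exact key _ h0

end Cfsg.Agent.S0371
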