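import Cfsg.Statements.S0372
import Cfsg.Agent.Golay.M24
import Mathlib
open CfsgLib.Golay

set_option autoImplicit false
open Cfsg

namespace Cfsg.Agent.S0372

/-- The involution x ↦ -1/x of the projective line over ZMod 23 lies in the group of the length-24 code. -/
theorem result : Cfsg.projInv ∈ Cfsg.M24 := by
  have h : Cfsg.projInv = permOf gen1 := by
    have hv : validTab gen1 = true := by decide +kernel
    refine Equiv.ext fun p => idx_injective (Fin.ext ?_)
    rw [idx_permOf hv]
    revert p
    decide +kernel
  rw [h]
  exact permOf_mem_M24 (by decide +kernel) (by decide +kernel)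

end Cfsg.Agent.S0372
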