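import Cfsg.Statements.S0374
import Cfsg.Agent.Golay.M24
import Mathlib
open CfsgLib.Golay

set_option autoImplicit false
open Cfsg

namespace Cfsg.Agent.S0374

/-- The group of the length-24 code is generated by x ↦ x+1, x ↦ -1/x and the cube-twist permutation. -/
theorem result : Subgroup.closure {Equiv.optionCongr (Equiv.addRight (1 : ZMod 23)), Cfsg.projInv, Cfsg.cubeTwist} = Cfsg.M24 := by
  rw [← genGroup_eq, genGroup]
  have h0 : Equiv.optionCongr (Equiv.addRight (1 : ZMod 23)) = permOf gen0 := by
    have hv : validTab gen0 = true := by decide +kernel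
    refine Equiv.ext fun p => idx_injective (Fin.ext ?_)
    rw [idx_permOf hv]
    revert p
    decide +kernel
  have h1 : Cfsg.projInv = permOf gen1 := by
    have hv : validTab gen1 = true := by decide +kernel
    refine Equiv.ext fun p => idx_injective (Fin.ext ?_)
    rw [idx_permOf hv]
    revert p
    decide +kernel
  have h2 : Cfsg.cubeTwist = permOf gen2 := by
    have hv : validTab gen2 = true := by decide +kernel
    refine Equiv.ext fun p => idx_injective (Fin.ext ?_)
    rw [idx_permOf hv, Cfsg.cubeTwist, Equiv.ofBijective_apply]
    revert p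
    decide +kernel
  rw [h0, h1, h2]

end Cfsg.Agent.S0374
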