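import Cfsg.Statements.S0384
import Cfsg.Agent.Golay.DodStab
import Mathlib
open CfsgLib.Golay
open scoped Pointwise

set_option autoImplicit false
open scoped Pointwise
open Cfsg

namespace Cfsg.Agent.S0384

/-- A dodecad stabiliser is sharply 5-transitive on the dodecad. -/
theorem result (d : Finset Cfsg.GolayPt) (hd : d ∈ Cfsg.dodecads) (x y : Fin 5 ↪ Cfsg.GolayPt) (hx : ∀ i, x i ∈ d) (hy : ∀ i, y i ∈ d) : ∃! g : MulAction.stabilizer Cfsg.M24 d, ∀ i, ((g : Cfsg.M24) : Equiv.Perm Cfsg.GolayPt) (x i) = y i := by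
  obtain ⟨g, hg, hgd, hgi⟩ := DodStab.exists_map_in le_rfl hd hd x y x.injective y.injective hx hy
  refine ⟨⟨⟨g, hg⟩, MulAction.mem_stabilizer_iff.2 hgd⟩, hgi, fun h hh => ?_⟩
  obtain ⟨a, ha, had, hai⟩ := DodStab.exists_map_in le_rfl DodStab.D_mem hd
    (fun i : Fin 5 => ptN (DodStab.inBase.getD i.val 0)) x (by intro i j; revert i j; decide +kernel)
    x.injective (by decide +kernel) hx
  have hc : a⁻¹ * g⁻¹ * ((h : Cfsg.M24) : Equiv.Perm Cfsg.GolayPt) * a ∈ DodStab.chainA 5 := by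
    refine DodStab.mem_chainA.2 ⟨mul_mem (mul_mem (mul_mem (inv_mem ha) (inv_mem hg)) (h : Cfsg.M24).2) ha, ?_, ?_⟩
    · have e : ((h : Cfsg.M24) : Equiv.Perm Cfsg.GolayPt) • d = d := h.2
      rw [mul_smul, had, mul_smul, e, mul_smul, inv_smul_eq_iff.2 hgd.symm, ← had, inv_smul_smul]
    · intro i hi
      obtain ⟨j, hj, rfl⟩ := List.mem_take_iff_getElem.1 hi
      have hj5 : j < 5 := by omega
      have := hai ⟨j, hj5⟩
      simp only [List.getD_eq_getElem DodStab.inBase 0 hj5] at this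
      simp only [Equiv.Perm.mul_apply]
      erw [this, hh ⟨j, hj5⟩, ← hgi ⟨j, hj5⟩, ← this]
      simp
      rfl
  rw [Subgroup.eq_bot_of_card_eq _ DodStab.card_chainA.2.2.2.2.2, Subgroup.mem_bot] at hc
  apply Subtype.ext; apply Subtype.ext
  have : ((h : Cfsg.M24) : Equiv.Perm Cfsg.GolayPt) = g := by
    have e := congrArg (fun z => g * a * z * a⁻¹) hc
    simpa [mul_assoc] using e
  exact this

end Cfsg.Agent.S0384
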