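import Cfsg.Statements.S0385
import Cfsg.Agent.Golay.DodStab
import Mathlib
open CfsgLib.Golay
open scoped Pointwise

set_option autoImplicit false
open Cfsg

namespace Cfsg.Agent.S0385

/-- The 6-point intersections of octads with a fixed dodecad form a Steiner system S(5, 6, 12) on the dodecad. -/
theorem result (d : Finset Cfsg.GolayPt) (hd : d ∈ Cfsg.dodecads) : Cfsg.IsSteinerSystem 5 6 {h : Finset {p : Cfsg.GolayPt // p ∈ d} | ∃ o ∈ Cfsg.octads, (o ∩ d).card = 6 ∧ h = Finset.subtype (fun p => p ∈ d) o} := by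
  constructor
  · rintro h ⟨o, ho, h6, rfl⟩
    rw [Finset.card_subtype, Finset.filter_mem_eq_inter, h6]
  · intro s hs
    obtain ⟨o, ho, hso⟩ := exists_octad (s := s.map (Function.Embedding.subtype _))
      (by rw [Finset.card_map, hs])
    have hsub : s.map (Function.Embedding.subtype _) ⊆ o ∩ d := fun x hx => by
      refine Finset.mem_inter.2 ⟨hso hx, ?_⟩
      obtain ⟨y, -, rfl⟩ := Finset.mem_map.1 hx
      exact y.2
    have h6 : (o ∩ d).card = 6 := by
      have := Finset.card_le_card hsub
      rw [Finset.card_map, hs] at this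
      rcases DodStab.dod_inter_oct hd ho with h | h | h <;> omega
    refine ⟨Finset.subtype (fun p => p ∈ d) o, ⟨⟨o, ho, h6, rfl⟩, fun y hy => ?_⟩, ?_⟩
    · exact Finset.mem_subtype.2 (hso (Finset.mem_map_of_mem _ hy))
    · rintro h ⟨⟨o', ho', -, rfl⟩, hs'⟩
      rw [octad_unique ho ho' (s := s.map (Function.Embedding.subtype _))
        (by rw [Finset.card_map, hs]) hso fun x hx => by
          obtain ⟨y, hy, rfl⟩ := Finset.mem_map.1 hx
          exact Finset.mem_subtype.1 (hs' hy)]

end Cfsg.Agent.S0385
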