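import Cfsg.Statements.S0386
import Cfsg.Agent.Golay.DodStab
import Mathlib
open CfsgLib.Golay
open scoped Pointwise

set_option autoImplicit false
open Cfsg

namespace Cfsg.Agent.S0386

/-- For a fixed dodecad, 132 octads meet it in 6 points, 132 in 2 points and 495 in 4 points. -/
theorem result (d : Finset Cfsg.GolayPt) (hd : d ∈ Cfsg.dodecads) : {o : Finset Cfsg.GolayPt | o ∈ Cfsg.octads ∧ (o ∩ d).card = 6}.ncard = 132 ∧ {o : Finset Cfsg.GolayPt | o ∈ Cfsg.octads ∧ (o ∩ d).card = 2}.ncard = 132 ∧ {o : Finset Cfsg.GolayPt | o ∈ Cfsg.octads ∧ (o ∩ d).card = 4}.ncard = 495 := by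
  obtain ⟨g, hg, rfl⟩ := DodStab.exists_map_dodecad DodStab.D_mem hd
  have move : ∀ k : ℕ, {o : Finset Cfsg.GolayPt | o ∈ Cfsg.octads ∧ (o ∩ g • DodStab.D).card = k} =
      (g • ·) '' {o : Finset Cfsg.GolayPt | o ∈ Cfsg.octads ∧ (o ∩ DodStab.D).card = k} := by
    intro k
    ext o
    constructor
    · rintro ⟨ho, hk⟩
      refine ⟨g⁻¹ • o, ⟨smul_mem_octads (inv_mem hg) ho, ?_⟩, smul_inv_smul g o⟩
      rw [← hk, ← Finset.card_smul_finset g, Finset.smul_finset_inter, smul_inv_smul]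
    · rintro ⟨u, ⟨hu, hk⟩, rfl⟩
      exact ⟨smul_mem_octads hg hu, by rw [← Finset.smul_finset_inter, Finset.card_smul_finset, hk]⟩
  simp only [move, Set.ncard_image_of_injective _ (MulAction.injective g)]
  refine ⟨?_, ?_, ?_⟩
  · refine (ncard_eq_filter (k := 8) (P := fun o => (o ∩ DodStab.D).card = 6)
      (fun v => Nat.beq (popc (v &&& DodStab.sqD)) 6) (fun s => by
        rw [Nat.beq_eq, ← mask_toSet DodStab.sqD_lt, ← mask_inter, popc_mask])).trans ?_
    decide +kernel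
  · refine (ncard_eq_filter (k := 8) (P := fun o => (o ∩ DodStab.D).card = 2)
      (fun v => Nat.beq (popc (v &&& DodStab.sqD)) 2) (fun s => by
        rw [Nat.beq_eq, ← mask_toSet DodStab.sqD_lt, ← mask_inter, popc_mask])).trans ?_
    decide +kernel
  · refine (ncard_eq_filter (k := 8) (P := fun o => (o ∩ DodStab.D).card = 4)
      (fun v => Nat.beq (popc (v &&& DodStab.sqD)) 4) (fun s => by
        rw [Nat.beq_eq, ← mask_toSet DodStab.sqD_lt, ← mask_inter, popc_mask])).trans ?_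
    decide +kernel

end Cfsg.Agent.S0386
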