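import Cfsg.Statements.S0406
import Cfsg.Agent.LeechChar.Coord
import Cfsg.Agent.LeechChar.Main

set_option autoImplicit false
open Matrix
open Cfsg

namespace Cfsg.Agent.S0406

/-- A rank-24 even lattice with no roots and the stated numbers of vectors of norms 4, 6, 8 is isomorphic to the Leech lattice. -/
theorem result (B : Matrix (Fin 24) (Fin 24) ℤ) (hsymm : B.IsSymm) (hpos : ∀ x : Fin 24 → ℤ, x ≠ 0 → 0 < x ⬝ᵥ (B *ᵥ x)) (heven : ∀ x : Fin 24 → ℤ, (2 : ℤ) ∣ x ⬝ᵥ (B *ᵥ x)) (h2 : ∀ x : Fin 24 → ℤ, x ⬝ᵥ (B *ᵥ x) ≠ 2) (h4 : {x : Fin 24 → ℤ | x ⬝ᵥ (B *ᵥ x) = 4}.ncard = 196560) (h6 : {x : Fin 24 → ℤ | x ⬝ᵥ (B *ᵥ x) = 6}.ncard = 16773120) (h8 : {x : Fin 24 → ℤ | x ⬝ᵥ (B *ᵥ x) = 8}.ncard = 398034000) : ∃ f : (Fin 24 → ℤ) ≃+ Cfsg.leechLattice, ∀ x : Fin 24 → ℤ, Cfsg.sqNorm ((f x : Cfsg.leechLattice) : Cfsg.GolayPt → ℤ) = 8 * (x ⬝ᵥ (B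 *ᵥ x)) := by
  obtain ⟨φ, hinj, hnorm, hF⟩ :=
    CfsgLib.LeechChar.exists_coord ⟨hsymm, hpos, heven, h2⟩ h4 h6 h8
  obtain ⟨T, hT, hL⟩ := CfsgLib.LeechChar.exists_mono hF
  have hmem : ∀ y, T.symm (φ y) ∈ Cfsg.leechLattice := fun y => by
    rw [← hL]
    exact ⟨y, (T.apply_symm_apply _).symm⟩
  let g : (Fin 24 → ℤ) →+ Cfsg.leechLattice :=
    (T.symm.toAddMonoidHom.comp φ).codRestrict Cfsg.leechLattice hmem
  have hg : Function.Bijective g := by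
    refine ⟨fun a b hab => hinj (T.symm.injective (congrArg Subtype.val hab)), fun z => ?_⟩
    obtain ⟨y, hy⟩ : T z.1 ∈ φ.range := (SetLike.ext_iff.1 hL z.1).2 z.2
    exact ⟨y, Subtype.ext (show T.symm (φ y) = z.1 by rw [hy, T.symm_apply_apply])⟩
  refine ⟨AddEquiv.ofBijective g hg, fun x => ?_⟩
  show Cfsg.sqNorm (T.symm (φ x)) = _
  rw [← hT, T.apply_symm_apply, hnorm]

end Cfsg.Agent.S0406
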