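import Cfsg.Statements.S0409
import Cfsg.Agent.Steiner.Iso23

set_option autoImplicit false
open Cfsg

namespace Cfsg.Agent.S0409

/-- Uniqueness of the Steiner system S(4, 7, 23) up to isomorphism. -/
theorem result {α β : Type*} [Fintype α] [DecidableEq α] [Fintype β] [DecidableEq β] (hα : Fintype.card α = 23) (hβ : Fintype.card β = 23) {B : Set (Finset α)} {B' : Set (Finset β)} (hB : Cfsg.IsSteinerSystem 4 7 B) (hB' : Cfsg.IsSteinerSystem 4 7 B') : Cfsg.SetSystemIso B B' := by
  obtain ⟨e, he⟩ := CfsgLib.Steiner.iso_octads23 hB hα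
  obtain ⟨e', he'⟩ := CfsgLib.Steiner.iso_octads23 hB' hβ
  refine ⟨e.trans e'.symm, ?_⟩
  rw [← he'] at he
  have h := congrArg (fun S => (fun o => Finset.image e'.symm o) '' S) he
  simp only [Set.image_image, Finset.image_image] at h
  simpa [Function.comp_def] using h

end Cfsg.Agent.S0409
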