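import Cfsg.Statements.S0412
import Cfsg.Agent.Steiner.Iso24
import Cfsg.Agent.Golay.Simple

set_option autoImplicit false
open Cfsg

namespace Cfsg.Agent.S0412

/-- Aut of an S(5, 8, 24) is simple of order 244823040 and 5-transitive on points. -/
theorem result {α : Type*} [Fintype α] [DecidableEq α] (hα : Fintype.card α = 24) {B : Set (Finset α)} (hB : Cfsg.IsSteinerSystem 5 8 B) : Cfsg.IsM24 (Cfsg.setSystemAut B) ∧ MulAction.IsMultiplyPretransitive (Cfsg.setSystemAut B) α 5 := by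
  obtain ⟨e, he⟩ := CfsgLib.Steiner.iso_octads hB hα
  let E : Cfsg.setSystemAut B ≃* Cfsg.M24 :=
    (CfsgLib.Steiner.autEquiv e he).trans (MulEquiv.subgroupCongr CfsgLib.Golay.M24_eq_setSystemAut.symm)
  refine ⟨⟨?_, (Nat.card_congr E.toEquiv).trans CfsgLib.Golay.card_M24⟩,
    CfsgLib.Steiner.pretransitive_of_equiv e he fun x y hx hy => ?_⟩
  · haveI := CfsgLib.Golay.Simple.simple_M24
    exact E.isSimpleGroup
  · obtain ⟨g, hg, h⟩ := CfsgLib.Golay.exists_map_tuple le_rfl x y hx hy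
    exact ⟨g, CfsgLib.Golay.M24_eq_setSystemAut ▸ hg, h⟩

end Cfsg.Agent.S0412
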