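import Cfsg.Statements.S0413
import Cfsg.Agent.Steiner.Iso23
import Cfsg.Agent.S0376
import Cfsg.Agent.S0377

set_option autoImplicit false
open Cfsg

namespace Cfsg.Agent.S0413

/-- Aut of an S(4, 7, 23) is simple of order 10200960 and 4-transitive. -/
theorem result {α : Type*} [Fintype α] [DecidableEq α] (hα : Fintype.card α = 23) {B : Set (Finset α)} (hB : Cfsg.IsSteinerSystem 4 7 B) : Cfsg.IsM23 (Cfsg.setSystemAut B) ∧ MulAction.IsMultiplyPretransitive (Cfsg.setSystemAut B) α 4 := by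
  obtain ⟨e, he⟩ := CfsgLib.Steiner.iso_octads23 hB hα
  let E : Cfsg.setSystemAut B ≃* MulAction.stabilizer Cfsg.M24 (none : Cfsg.GolayPt) :=
    (CfsgLib.Steiner.autEquiv e he).trans CfsgLib.Steiner.autEquiv23
  refine ⟨⟨?_, (Nat.card_congr E.toEquiv).trans (Cfsg.Agent.S0376.result none)⟩,
    CfsgLib.Steiner.pretransitive_of_equiv e he fun x y hx hy => ?_⟩
  · haveI := Cfsg.Agent.S0377.result (none : Cfsg.GolayPt)
    exact E.isSimpleGroup
  · obtain ⟨g, hg, h⟩ := CfsgLib.Golay.exists_map_tuple (n := 5) le_rfl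
      (Fin.cons none (some ∘ x)) (Fin.cons none (some ∘ y))
      (Fin.cons_injective_iff.2 ⟨by simp, (Option.some_injective _).comp hx⟩)
      (Fin.cons_injective_iff.2 ⟨by simp, (Option.some_injective _).comp hy⟩)
    have h0 : g none = none := by simpa using h 0
    refine ⟨_, (CfsgLib.Steiner.autEquiv23.symm ⟨⟨g, hg⟩, h0⟩).2, fun i => Option.some_injective _ ?_⟩
    rw [CfsgLib.Steiner.autEquiv23_symm_some]
    simpa using h i.succ

end Cfsg.Agent.S0413
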