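import Cfsg.Statements.S0425
import Cfsg.Agent.Steiner.Aut12
import Cfsg.Agent.S0383

set_option autoImplicit false
open scoped Pointwise
open Cfsg

namespace Cfsg.Agent.S0425

/-- Aut of an S(5, 6, 12) is simple of order 95040 and sharply 5-transitive on points. -/
theorem result {α : Type*} [Fintype α] [DecidableEq α] (hα : Fintype.card α = 12) {B : Set (Finset α)} (hB : Cfsg.IsSteinerSystem 5 6 B) : Cfsg.IsM12 (Cfsg.setSystemAut B) ∧ MulAction.IsMultiplyPretransitive (Cfsg.setSystemAut B) α 5 ∧ ∀ x : Fin 5 ↪ α, MulAction.stabilizer (Cfsg.setSystemAut B) x = ⊥ := by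
  obtain ⟨e, he⟩ := CfsgLib.Steiner.Twelve.iso12 hB hα
  have he' : (fun b => b.image e.symm) '' B = CfsgLib.Steiner.Twelve.hexads12 := by
    rw [← he, Set.image_image]
    simp [Finset.image_image]
  let E : Cfsg.setSystemAut B ≃* MulAction.stabilizer Cfsg.M24 CfsgLib.Golay.DodStab.D :=
    (CfsgLib.Steiner.autEquiv e.symm he').trans CfsgLib.Steiner.Twelve.autEquiv12.symm
  refine ⟨⟨?_, (Nat.card_congr E.toEquiv).trans
      (CfsgLib.Golay.DodStab.card_stab_dodecad CfsgLib.Golay.DodStab.D_mem)⟩,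
    CfsgLib.Steiner.pretransitive_of_equiv e.symm he' fun x y hx hy =>
      CfsgLib.Steiner.Twelve.exists_aut_map le_rfl x y hx hy, fun x => ?_⟩
  · haveI := Cfsg.Agent.S0383.result _ CfsgLib.Golay.DodStab.D_mem
    exact E.isSimpleGroup
  · refine (Subgroup.eq_bot_iff_forall _).2 fun g hg => (CfsgLib.Steiner.autEquiv e.symm he').injective ?_
    rw [map_one]
    refine (Subgroup.eq_bot_iff_forall _).1
      (CfsgLib.Steiner.Twelve.sharp (x := x.trans e.symm.toEmbedding)) _ ?_
    refine MulAction.mem_stabilizer_iff.2 (Function.Embedding.ext fun i => ?_)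
    show e.symm (g.1 (e.symm.symm (e.symm (x i)))) = e.symm (x i)
    have h : g.1 (x i) = x i := congrArg (fun f : Fin 5 ↪ α => f i) (MulAction.mem_stabilizer_iff.1 hg)
    simp [h]

end Cfsg.Agent.S0425
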