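import Cfsg.Statements.S0426
import Cfsg.Agent.Steiner.Aut11
import Cfsg.Agent.S0387
import Cfsg.Agent.S0388

set_option autoImplicit false
open Cfsg

namespace Cfsg.Agent.S0426

/-- Aut of an S(4, 5, 11) is simple of order 7920 and sharply 4-transitive on points. -/
theorem result {α : Type*} [Fintype α] [DecidableEq α] (hα : Fintype.card α = 11) {B : Set (Finset α)} (hB : Cfsg.IsSteinerSystem 4 5 B) : Cfsg.IsM11 (Cfsg.setSystemAut B) ∧ MulAction.IsMultiplyPretransitive (Cfsg.setSystemAut B) α 4 ∧ ∀ x : Fin 4 ↪ α, MulAction.stabilizer (Cfsg.setSystemAut B) x = ⊥ := by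
  obtain ⟨e, h0, he⟩ := CfsgLib.Steiner.Eleven.iso11 hB hα
  let E := (CfsgLib.Steiner.Eleven.autEquiv11 e h0 he).trans CfsgLib.Steiner.Eleven.modelEquiv.symm
  refine ⟨⟨?_, (Nat.card_congr E.toEquiv).trans
      (Cfsg.Agent.S0387.result _ CfsgLib.Golay.DodStab.D_mem _ (CfsgLib.Steiner.Twelve.ι_mem 0))⟩,
    ⟨fun x y => ?_⟩, CfsgLib.Steiner.Eleven.aut_sharp e h0 he⟩
  · haveI := Cfsg.Agent.S0388.result _ CfsgLib.Golay.DodStab.D_mem _ (CfsgLib.Steiner.Twelve.ι_mem 0)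
    exact E.isSimpleGroup
  · obtain ⟨σ, hσ⟩ := CfsgLib.Steiner.Eleven.aut_map e h0 he x y x.injective y.injective
    exact ⟨σ, Function.Embedding.ext hσ⟩

end Cfsg.Agent.S0426
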