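import Cfsg.Statements.S0427
import Cfsg.Agent.Steiner.Graph22

set_option autoImplicit false
open Cfsg

namespace Cfsg.Agent.S0427

open CfsgLib.Steiner CfsgLib.Steiner.Graph22


/-- The block graph (adjacent = disjoint) of an S(3, 6, 22) is strongly regular with parameters (77, 16, 0, 4). -/
theorem result {α : Type*} [Fintype α] (hα : Fintype.card α = 22) {B : Set (Finset α)} (hB : Cfsg.IsSteinerSystem 3 6 B) [Fintype B] [DecidableRel (Cfsg.blockGraph B).Adj] : (Cfsg.blockGraph B).IsSRGWith 77 16 0 4 := by
  classical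
  have hcard := card_blocks hB hα
  have hN : ∀ b : B, {c : B | (Cfsg.blockGraph B).Adj b c}.ncard = 16 := fun b => by
    simp only [blockGraph_adj hB, disjoint_comm (a := b.1)]
    rw [ncard_sub fun d => Disjoint d b.1, ← card_away hB hα b.2]
    rfl
  have hC : ∀ v w : B, v ≠ w → ((Cfsg.blockGraph B).commonNeighbors v w).ncard =
      if Disjoint v.1 w.1 then 0 else 4 := fun v w hne => by
    rw [← common_away hB hα v.2 w.2 (fun e => hne (Subtype.ext e)),
      show (Cfsg.blockGraph B).commonNeighbors v w = {c : B | Disjoint c.1 v.1 ∧ Disjoint c.1 w.1} from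
        Set.ext fun c => by simp [SimpleGraph.mem_commonNeighbors, blockGraph_adj hB, disjoint_comm (a := c.1)],
      ncard_sub fun d => Disjoint d v.1 ∧ Disjoint d w.1]
    refine congrArg Finset.card (Finset.ext fun d => ?_)
    simp [mem_away, mem_blocks]
    tauto
  refine ⟨by rw [← Nat.card_eq_fintype_card, hcard], fun b => ?_, fun v w h => ?_, fun v w hne h => ?_⟩
  · rw [← SimpleGraph.card_neighborSet_eq_degree, ← Nat.card_eq_fintype_card, Nat.card_coe_set_eq]
    exact hN b
  · rw [← Nat.card_eq_fintype_card, Nat.card_coe_set_eq, hC v w h.ne, if_pos ((blockGraph_adj hB v w).1 h)]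
  · rw [← Nat.card_eq_fintype_card, Nat.card_coe_set_eq, hC v w hne,
      if_neg (mt (blockGraph_adj hB v w).2 h)]

end Cfsg.Agent.S0427
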