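import Cfsg.Statements.S0428
import Cfsg.Agent.Steiner.Graph22

set_option autoImplicit false
open Cfsg

namespace Cfsg.Agent.S0428

open CfsgLib.Steiner CfsgLib.Steiner.Graph22


/-- The point-block graph of an S(3, 6, 22) is strongly regular with parameters (100, 22, 0, 6). -/
theorem result {α : Type*} [Fintype α] (hα : Fintype.card α = 22) {B : Set (Finset α)} (hB : Cfsg.IsSteinerSystem 3 6 B) [Fintype B] [DecidableRel (Cfsg.pointBlockGraph B).Adj] : (Cfsg.pointBlockGraph B).IsSRGWith 100 22 0 6 := by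
  classical
  let G := Cfsg.pointBlockGraph B
  have hdis : ∀ b : B, ¬ Disjoint b.1 b.1 := block_ne_empty hB
  have p0 : ∀ a : α, G.Adj none (some (Sum.inl a)) := fun a => ⟨by simp, Or.inl trivial⟩
  have p0' : ∀ b : B, ¬ G.Adj none (some (Sum.inr b)) := fun b h => h.2.elim id id
  have pp : ∀ a a' : α, ¬ G.Adj (some (Sum.inl a)) (some (Sum.inl a')) := fun a a' h => h.2.elim id id
  have pb : ∀ (a : α) (b : B), G.Adj (some (Sum.inl a)) (some (Sum.inr b)) ↔ a ∈ b.1 := fun a b =>
    ⟨fun h => h.2.elim id False.elim, fun h => ⟨by simp, Or.inl h⟩⟩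
  have bb : ∀ b c : B, G.Adj (some (Sum.inr b)) (some (Sum.inr c)) ↔ Disjoint b.1 c.1 := fun b c =>
    ⟨fun h => h.2.elim id fun h' => Disjoint.symm h', fun h => ⟨fun e => by
      obtain rfl := Sum.inr_injective (Option.some_injective _ e)
      exact hdis b h, Or.inl h⟩⟩
  -- membership in common neighbourhoods
  have hset : ∀ v w, (G.commonNeighbors v w).ncard =
      (if G.Adj v none ∧ G.Adj w none then 1 else 0) +
      {a | G.Adj v (some (Sum.inl a)) ∧ G.Adj w (some (Sum.inl a))}.ncard +
      {c : B | G.Adj v (some (Sum.inr c)) ∧ G.Adj w (some (Sum.inr c))}.ncard := fun v w => by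
    rw [ncard_split]
    congr
  have hloop : ∀ v, ¬ G.Adj v v := fun v => G.loopless.irrefl v
  have n00 : ∀ a, ¬ G.Adj none (some (Sum.inl a)) → False := fun a h => h (p0 a)
  have a0 : ∀ a, G.Adj (some (Sum.inl a)) none := fun a => (p0 a).symm
  have b0 : ∀ b : B, ¬ G.Adj (some (Sum.inr b)) none := fun b h => p0' b h.symm
  have bp : ∀ (a : α) (b : B), G.Adj (some (Sum.inr b)) (some (Sum.inl a)) ↔ a ∈ b.1 := fun a b =>
    (G.adj_comm _ _).trans (pb a b)
  have d16 : ∀ b : B, {c : B | Disjoint b.1 c.1}.ncard = 16 := fun b => by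
    simp only [disjoint_comm (a := b.1)]
    rw [ncard_sub fun d => Disjoint d b.1, ← card_away hB hα b.2]
    rfl
  have ab : ∀ (a : α) (b : B), {c : B | a ∈ c.1 ∧ Disjoint b.1 c.1}.ncard =
      if a ∈ b.1 then 0 else 6 := fun a b => by
    split_ifs with h
    · rw [Set.ncard_eq_zero]
      exact Set.eq_empty_of_forall_notMem fun c hc => Finset.disjoint_left.1 hc.2 h hc.1
    · rw [ncard_sub fun d => a ∈ d ∧ Disjoint b.1 d, ← card_away_point hB hα b.2 h]
      refine congrArg Finset.card (Finset.ext fun d => ?_)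
      simp [mem_away, mem_blocks, disjoint_comm (a := b.1)]
      tauto
  have key : ∀ v w, v ≠ w → (G.commonNeighbors v w).ncard = if G.Adj v w then 0 else 6 := by
    intro v w hne
    rw [hset]
    rcases v with _ | a | b <;> rcases w with _ | a' | b'
    · exact absurd rfl hne
    · simp [p0, hloop, p0', pp]
    · simp [hloop, p0', p0, bp, b0, hB.1 b'.1 b'.2]
    · simp [p0, hloop, p0', pp, a0]
    · have hne' : a ≠ a' := fun e => hne (by rw [e])
      simp [pp, a0, pb]
      rw [ncard_sub fun d => a ∈ d ∧ a' ∈ d, card_through_two hB hα hne']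
    · simp [b0, pp, bp, pb, bb, ab]
    · simp [hloop, p0', p0, bp, b0, hB.1 b.1 b.2]
    · simp [b0, pp, bp, pb, bb]
      simp only [and_comm (a := Disjoint _ _), ab]
    · have hne' : b.1 ≠ b'.1 := fun e => hne (by rw [Subtype.ext e])
      simp only [b0, bp, bb, false_and, if_false, Nat.zero_add]
      rw [show {a : α | a ∈ b.1 ∧ a ∈ b'.1} = ↑(b.1 ∩ b'.1) from by ext; simp, Set.ncard_coe_finset,
        ncard_sub fun d => Disjoint b.1 d ∧ Disjoint b'.1 d]
      have hc := common_away hB hα b.2 b'.2 hne'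
      have e : ((blocks B).filter fun d => Disjoint b.1 d ∧ Disjoint b'.1 d) = away B b.1 ∩ away B b'.1 := by
        ext d
        simp [mem_away, mem_blocks, disjoint_comm (a := b.1), disjoint_comm (a := b'.1)]
        tauto
      rw [e, hc]
      by_cases h : Disjoint b.1 b'.1
      · simp [h, Finset.disjoint_iff_inter_eq_empty.1 h]
      · have := (inter_cases hB hα b'.2 b.2 hne').resolve_left fun h' =>
          h (Finset.disjoint_iff_inter_eq_empty.2 (Finset.card_eq_zero.1 h'))
        simp [h, this]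
  have hdeg : ∀ v, (G.neighborSet v).ncard = 22 := by
    intro v
    rw [ncard_split]
    rcases v with _ | a | b
    · simp [hloop, p0, p0', Set.ncard_univ, hα]
    · simp [a0, pp, pb]
      rw [ncard_sub fun d => a ∈ d, card_through hB hα a]
    · simp [b0, bp, bb, d16, hB.1 b.1 b.2]
  refine ⟨?_, fun v => ?_, fun v w h => ?_, fun v w hne h => ?_⟩
  · rw [Fintype.card_option, Fintype.card_sum, hα, ← Nat.card_eq_fintype_card, card_blocks hB hα]
  · rw [← SimpleGraph.card_neighborSet_eq_degree, ← Nat.card_eq_fintype_card, Nat.card_coe_set_eq]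
    exact hdeg v
  · rw [← Nat.card_eq_fintype_card, Nat.card_coe_set_eq]
    exact (key v w h.ne).trans (if_pos h)
  · rw [← Nat.card_eq_fintype_card, Nat.card_coe_set_eq]
    exact (key v w hne).trans (if_neg h)

end Cfsg.Agent.S0428
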