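import Cfsg.Statements.S0439
-- helpers

set_option autoImplicit false
open Cfsg

namespace Cfsg.Agent.S0439

/-- In the symmetric group of degree n ≥ 2, the set of transpositions is a conjugacy class of 3-transpositions which generates the group. -/
theorem result (n : ℕ) (hn : 2 ≤ n) : Cfsg.IsThreeTranspositionClass {σ : Equiv.Perm (Fin n) | σ.IsSwap} := by
  have hset : ∀ σ ∈ {σ : Equiv.Perm (Fin n) | σ.IsSwap}, ∀ τ ∈ {σ : Equiv.Perm (Fin n) | σ.IsSwap},
      (σ * τ) ^ 2 = 1 ∨ (σ * τ) ^ 3 = 1 := by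
    have same : ∀ a b c : Fin n, a ≠ b → a ≠ c → (Equiv.swap a b * Equiv.swap a c) ^ 2 = 1 ∨
        (Equiv.swap a b * Equiv.swap a c) ^ 3 = 1 := by
      intro a b c hab hac
      by_cases hbc : b = c
      · subst hbc; left; simp
      · right
        have := pow_orderOf_eq_one (Equiv.swap a b * Equiv.swap a c)
        rwa [(Equiv.Perm.isThreeCycle_swap_mul_swap_same hab hac hbc).orderOf] at this
    rintro σ ⟨a, b, hab, rfl⟩ τ ⟨c, d, hcd, rfl⟩
    by_cases h1 : a = c
    · subst h1; exact same a b d hab hcd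
    by_cases h2 : a = d
    · subst h2; rw [Equiv.swap_comm c a]; exact same a b c hab h1
    by_cases h3 : b = c
    · subst h3; rw [Equiv.swap_comm a b]; exact same b a d (Ne.symm hab) hcd
    by_cases h4 : b = d
    · subst h4; rw [Equiv.swap_comm a b, Equiv.swap_comm c b]; exact same b a c (Ne.symm hab) h3
    left
    have hd : Equiv.Perm.Disjoint (Equiv.swap a b) (Equiv.swap c d) := by
      intro x
      by_cases hxa : x = a
      · right; subst hxa; exact Equiv.swap_apply_of_ne_of_ne h1 h2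
      by_cases hxb : x = b
      · right; subst hxb; exact Equiv.swap_apply_of_ne_of_ne h3 h4
      left; exact Equiv.swap_apply_of_ne_of_ne hxa hxb
    rw [hd.commute.mul_pow, pow_two, pow_two, Equiv.swap_mul_self, Equiv.swap_mul_self, one_mul]
  refine ⟨⟨fun σ hσ => hσ.orderOf, hset⟩, ?_, Equiv.Perm.closure_isSwap⟩
  have h01 : (⟨0, by omega⟩ : Fin n) ≠ ⟨1, by omega⟩ := by simp [Fin.ext_iff]
  refine ⟨Equiv.swap ⟨0, by omega⟩ ⟨1, by omega⟩, ⟨_, _, h01, rfl⟩, Set.ext fun σ => ⟨?_, ?_⟩⟩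
  · rintro ⟨a, b, hab, rfl⟩
    exact Equiv.Perm.isConj_swap h01 hab
  · intro hc
    rw [Set.mem_setOf_eq, Equiv.Perm.isSwap_iff_cycleType,
      ← Equiv.Perm.isConj_iff_cycleType_eq.1 hc, ← Equiv.Perm.isSwap_iff_cycleType]
    exact ⟨_, _, h01, rfl⟩


end Cfsg.Agent.S0439
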