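import Cfsg.Statements.S0440
import Mathlib
import Cfsg.Agent.SpGeom.Basic
-- import your own Cfsg.Agent.* helpers here

set_option autoImplicit false
open Cfsg

namespace Cfsg.Agent.S0440

open Matrix CfsgLib.SpGeom

theorem z2 : ∀ a : ZMod 2, a = 0 ∨ a = 1 := by decide

theorem z2_sq : ∀ a : ZMod 2, a * a = a := by decide

theorem z2_neg : ∀ a : ZMod 2, -a = a := by decide

theorem finrank_span {n : ℕ} {v : Fin n ⊕ Fin n → ZMod 2} (hv : v ≠ 0) :
    Module.finrank (ZMod 2) (Submodule.span (ZMod 2) {v}) = 1 := finrank_span_singleton hv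

theorem rank_one_iff {n : ℕ} (g : Matrix.symplecticGroup (Fin n) (ZMod 2)) :
    ((g : Matrix (Fin n ⊕ Fin n) (Fin n ⊕ Fin n) (ZMod 2)) - 1).rank = 1 ↔ ∃ v, v ≠ 0 ∧ g = tv v 1 := by
  constructor
  · intro h
    obtain ⟨⟨v, hv⟩, hv0, hspan⟩ := finrank_eq_one_iff'.1
      (show Module.finrank (ZMod 2) (LinearMap.range ((g : Matrix (Fin n ⊕ Fin n) (Fin n ⊕ Fin n) (ZMod 2)) - 1).mulVecLin) = 1 from h)
    have hv' : v ≠ 0 := fun e => hv0 (Subtype.ext e)
    have hφ : ∀ x, ∃ c : ZMod 2, (g : Matrix (Fin n ⊕ Fin n) (Fin n ⊕ Fin n) (ZMod 2)) *ᵥ x = x + c • v := by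
      intro x
      obtain ⟨c, hc⟩ := hspan ⟨_, LinearMap.mem_range_self _ x⟩
      refine ⟨c, ?_⟩
      have hc' : c • v = ((g : Matrix (Fin n ⊕ Fin n) (Fin n ⊕ Fin n) (ZMod 2)) - 1) *ᵥ x := congrArg Subtype.val hc
      rw [hc', sub_mulVec, one_mulVec, add_sub_cancel]
    choose φ hφ using hφ
    obtain ⟨y, hy⟩ := exists_form_ne_zero hv'
    have hy1 : Cfsg.sympForm n (ZMod 2) v y = 1 := (z2 _).resolve_left hy
    have key : ∀ x, φ x = φ y * Cfsg.sympForm n (ZMod 2) x v := by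
      intro x
      have h1 := form_mulVec g x y
      rw [hφ x, hφ y] at h1
      simp only [form_add_left, form_add_right, form_smul_left, form_smul_right, form_self, mul_zero, add_zero,
        hy1, mul_one] at h1
      have h2 : φ x + φ y * Cfsg.sympForm n (ZMod 2) x v = 0 := by linear_combination h1
      rw [← z2_neg (φ y * _)]
      exact eq_neg_of_add_eq_zero_left h2
    rcases z2 (φ y) with h0 | h0
    · exfalso
      have : ((g : Matrix (Fin n ⊕ Fin n) (Fin n ⊕ Fin n) (ZMod 2)) - 1) = 0 := Matrix.ext_iff_mulVec.2 fun x => by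
        rw [sub_mulVec, one_mulVec, hφ, key, h0, zero_mul, zero_smul, add_zero, sub_self, zero_mulVec]
      rw [this, rank_zero] at h
      exact zero_ne_one h
    · exact ⟨v, hv', ext_mulVec fun x => by rw [hφ, key, h0, tv_mulVec]⟩
  · rintro ⟨v, hv, rfl⟩
    obtain ⟨y, hy⟩ := exists_form_ne_zero hv
    have hr : LinearMap.range (((tv v (1 : ZMod 2)) : Matrix (Fin n ⊕ Fin n) (Fin n ⊕ Fin n) (ZMod 2)) - 1).mulVecLin =
        Submodule.span (ZMod 2) {v} := by
      refine le_antisymm ?_ ((Submodule.span_singleton_le_iff_mem _ _).2 ⟨y, ?_⟩)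
      · rintro _ ⟨x, rfl⟩
        rw [mulVecLin_apply, sub_mulVec, one_mulVec, tv_mulVec, add_sub_cancel_left]
        exact Submodule.smul_mem _ _ (Submodule.mem_span_singleton_self v)
      · rw [mulVecLin_apply, sub_mulVec, one_mulVec, tv_mulVec, add_sub_cancel_left, one_mul, form_skew v y,
          (z2 _).resolve_left hy, z2_neg, one_smul]
    rw [Matrix.rank, hr]
    exact finrank_span hv


/-- In the symplectic group in dimension 2n ≥ 2 over the field with two elements, the elements g for which g - 1 has rank one (the symplectic transvections) form a conjugacy class of 3-transpositions generating the group. -/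
theorem result (n : ℕ) (hn : 1 ≤ n) : Cfsg.IsThreeTranspositionClass {g : Matrix.symplecticGroup (Fin n) (ZMod 2) | ((g : Matrix (Fin n ⊕ Fin n) (Fin n ⊕ Fin n) (ZMod 2)) - 1).rank = 1} := by
  classical
  have hD : {g : Matrix.symplecticGroup (Fin n) (ZMod 2) |
      ((g : Matrix (Fin n ⊕ Fin n) (Fin n ⊕ Fin n) (ZMod 2)) - 1).rank = 1} = {g | ∃ v, v ≠ 0 ∧ g = tv v 1} :=
    Set.ext rank_one_iff
  rw [hD]
  have hne : ∀ v : Fin n ⊕ Fin n → ZMod 2, v ≠ 0 → tv v (1 : ZMod 2) ≠ 1 := fun v hv e => by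
    obtain ⟨y, hy⟩ := exists_form_ne_zero hv
    have h := tv_mulVec v (1 : ZMod 2) y
    rw [e, coe_one', one_mulVec, one_mul, form_skew v y, z2_neg, (z2 _).resolve_left hy, one_smul] at h
    exact hv (left_eq_add.1 h)
  have hsq : ∀ v : Fin n ⊕ Fin n → ZMod 2, tv v (1 : ZMod 2) * tv v 1 = 1 := fun v => by
    rw [tv_mul, show (1 : ZMod 2) + 1 = 0 by decide, tv_zero]
  refine ⟨⟨?_, ?_⟩, ?_, ?_⟩
  · rintro _ ⟨v, hv, rfl⟩
    exact orderOf_eq_prime (by rw [pow_two, hsq]) (hne v hv)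
  · rintro _ ⟨v, hv, rfl⟩ _ ⟨w, hw, rfl⟩
    have hinv : ∀ u : Fin n ⊕ Fin n → ZMod 2, (tv u (1 : ZMod 2))⁻¹ = tv u 1 := fun u => inv_eq_of_mul_eq_one_right (hsq u)
    rcases z2 (Cfsg.sympForm n (ZMod 2) w v) with h | h
    · left
      have hc := tv_conj (tv v (1 : ZMod 2)) w (1 : ZMod 2)
      rw [tv_mulVec, h, mul_zero, zero_smul, add_zero, hinv] at hc
      rw [pow_two, ← mul_assoc, hc, hsq]
    · right
      have hf : Cfsg.sympForm n (ZMod 2) v w = 1 := by rw [form_skew w v, h, z2_neg]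
      have hc := tv_conj (tv v (1 : ZMod 2)) w (1 : ZMod 2)
      have hc' := tv_conj (tv w (1 : ZMod 2)) v (1 : ZMod 2)
      rw [tv_mulVec, h, mul_one, one_smul, hinv] at hc
      rw [tv_mulVec, hf, mul_one, one_smul, hinv, add_comm] at hc'
      have hb : tv v (1 : ZMod 2) * tv w 1 * tv v 1 = tv w 1 * tv v 1 * tv w 1 := hc.trans hc'.symm
      calc (tv v (1 : ZMod 2) * tv w 1) ^ 3 = tv v 1 * tv w 1 * tv v 1 * (tv w 1 * tv v 1 * tv w 1) := by
            simp [pow_succ, mul_assoc]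
        _ = tv v 1 * tv w 1 * tv v 1 * (tv v 1 * tv w 1 * tv v 1) := by rw [← hb]
        _ = 1 := by
          simp only [mul_assoc]
          rw [← mul_assoc (tv v (1 : ZMod 2)) (tv v 1) _, hsq, one_mul, ← mul_assoc (tv w (1 : ZMod 2)) (tv w 1) _, hsq,
            one_mul, hsq]
  · have hv0 : (Pi.single (Sum.inl ⟨0, hn⟩) 1 : Fin n ⊕ Fin n → ZMod 2) ≠ 0 := by
      intro e
      have := congrFun e (Sum.inl ⟨0, hn⟩)
      rw [Pi.single_eq_same] at this
      exact one_ne_zero this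
    refine ⟨tv (Pi.single (Sum.inl ⟨0, hn⟩) 1) 1, ⟨_, hv0, rfl⟩, Set.ext fun g => ?_⟩
    show _ ↔ IsConj _ g
    rw [isConj_iff]
    constructor
    · rintro ⟨v, hv, rfl⟩
      obtain ⟨A, hA⟩ := exists_mulVec_eq hv0 hv
      exact ⟨A, by rw [tv_conj, hA]⟩
    · rintro ⟨A, rfl⟩
      exact ⟨_, mulVec_ne_zero A hv0, tv_conj A _ _⟩
  · refine eq_top_of_tv _ fun w c => ?_
    rcases z2 c with rfl | rfl
    · rw [tv_zero]; exact one_mem _
    · by_cases hw : w = 0
      · subst hw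
        rw [show tv (0 : Fin n ⊕ Fin n → ZMod 2) (1 : ZMod 2) = 1 from ext_mulVec fun x => by
          rw [tv_mulVec, smul_zero, add_zero, coe_one', one_mulVec]]
        exact one_mem _
      · exact Subgroup.subset_closure ⟨w, hw, rfl⟩

end Cfsg.Agent.S0440
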