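import Cfsg.Statements.S0442
import Mathlib.Tactic.Group

set_option autoImplicit false
open Cfsg

namespace Cfsg.Agent.S0442

/-- A standard trick for producing elements of an involution centraliser: for an involution a and an element g, let b be the conjugate g⁻¹ * a * g. If a * b has odd order 2m + 1 then g * (a * b) ^ m commutes with a; if a * b has even order 2m then (a * b) ^ m and (a * (g * a * g⁻¹)) ^ m commute with a. -/
theorem result {G : Type*} [Group G] (a g : G) (ha : orderOf a = 2) : (∀ m : ℕ, orderOf (a * (g⁻¹ * a * g)) = 2 * m + 1 → Commute (g * (a * (g⁻¹ * a * g)) ^ m) a) ∧ (∀ m : ℕ, orderOf (a * (g⁻¹ * a * g)) = 2 * m → Commute ((a * (g⁻¹ * a * g)) ^ m) a ∧ Commute ((a * (g * a * g⁻¹)) ^ m) a) := by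
  have ha2 : a * a = 1 := by rw [← pow_two, ← ha]; exact pow_orderOf_eq_one a
  have hai : a⁻¹ = a := inv_eq_of_mul_eq_one_right ha2
  set b := g⁻¹ * a * g with hb
  have hb2 : b * b = 1 := by
    rw [hb, show g⁻¹ * a * g * (g⁻¹ * a * g) = g⁻¹ * (a * a) * g by group, ha2]; group
  have hbi : b⁻¹ = b := inv_eq_of_mul_eq_one_right hb2
  have hinvol : ∀ y z : G, z * z = 1 → z * y * z = y⁻¹ → ∀ m : ℕ, z * y ^ m * z = (y ^ m)⁻¹ := by
    intro y z hz h m
    have := conj_pow (i := m) (a := z) (b := y)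
    rw [inv_eq_of_mul_eq_one_right hz] at this
    rw [← this, h, inv_pow]
  have hax : a * (a * b) * a = (a * b)⁻¹ := by
    rw [mul_inv_rev, hbi, hai, ← mul_assoc, ha2, one_mul]
  refine ⟨fun m hm => ?_, fun m hm => ⟨?_, ?_⟩⟩
  · have hx : (a * b) ^ (2 * m + 1) = 1 := hm ▸ pow_orderOf_eq_one _
    have hbx : b * (a * b) * b = (a * b)⁻¹ := by
      rw [mul_inv_rev, hbi, hai, mul_assoc b, mul_assoc a, hb2, mul_one]
    have h1 := hinvol _ _ hb2 hbx m
    have h2 : ((a * b) ^ m)⁻¹ * (b * a) = (a * b) ^ m := by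
      rw [show b * a = (a * b)⁻¹ by rw [mul_inv_rev, hbi, hai], ← mul_inv_rev, inv_eq_iff_mul_eq_one,
        ← pow_succ', ← pow_add, show m + 1 + m = 2 * m + 1 by omega, hx]
    show g * (a * b) ^ m * a = a * (g * (a * b) ^ m)
    have h3 : b * (a * b) ^ m = ((a * b) ^ m)⁻¹ * b := by
      rw [← h1, mul_assoc _ b b, hb2, mul_one]
    calc g * (a * b) ^ m * a = g * (((a * b) ^ m)⁻¹ * (b * a)) * a := by rw [h2]
      _ = g * (((a * b) ^ m)⁻¹ * b) * (a * a) := by group
      _ = g * (b * (a * b) ^ m) := by rw [ha2, h3, mul_one]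
      _ = a * (g * (a * b) ^ m) := by rw [hb]; group
  all_goals
    have key : ∀ y : G, orderOf y = 2 * m → a * y * a = y⁻¹ → Commute (y ^ m) a := by
      intro y hy hya
      have h1 := hinvol y a ha2 hya m
      have h2 : (y ^ m)⁻¹ = y ^ m := by
        rw [inv_eq_iff_mul_eq_one, ← pow_add, ← two_mul, ← hy]; exact pow_orderOf_eq_one y
      rw [h2] at h1
      show y ^ m * a = a * y ^ m
      calc y ^ m * a = (a * y ^ m * a) * a := by rw [h1]
        _ = a * y ^ m := by rw [mul_assoc _ a a, ha2, mul_one]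
  · exact key _ hm hax
  · refine key _ ?_ ?_
    · have e1 : a * (g * a * g⁻¹) = g * (a * b)⁻¹ * g⁻¹ := by
        rw [mul_inv_rev, hbi, hai, hb]; group
      have e2 : orderOf (MulAut.conj g (a * b)⁻¹) = orderOf (a * b)⁻¹ := MulEquiv.orderOf_eq _ _
      rw [e1, ← MulAut.conj_apply, e2, orderOf_inv, hm]
    · rw [mul_inv_rev, hai, ← mul_assoc, ha2, one_mul,
        show (g * a * g⁻¹)⁻¹ = g * a⁻¹ * g⁻¹ by group, hai]


end Cfsg.Agent.S0442
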