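import Cfsg.Statements.S0443
-- helpers

set_option autoImplicit false
open Cfsg

namespace Cfsg.Agent.S0443

/-- Two definitions of a 2-central involution agree: an element t of order 2 of a finite group lies in the centre of some Sylow 2-subgroup if and only if its centraliser contains some Sylow 2-subgroup. -/
theorem result {G : Type*} [Group G] [Finite G] (t : G) (ht : orderOf t = 2) : Cfsg.IsTwoCentralInvolution t ↔ ∃ P : Sylow 2 G, (P : Subgroup G) ≤ Subgroup.centralizer ({t} : Set G) := by
  haveI : Fact (Nat.Prime 2) := ⟨Nat.prime_two⟩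
  constructor
  · rintro ⟨-, P, -, hc⟩
    exact ⟨P, fun x hx => Subgroup.mem_centralizer_singleton_iff.2 (hc x hx)⟩
  · rintro ⟨P, hP⟩
    have hc : ∀ x ∈ P, x * t = t * x := fun x hx => Subgroup.mem_centralizer_singleton_iff.1 (hP hx)
    refine ⟨ht, P, ?_, hc⟩
    have hT : IsPGroup 2 (Subgroup.zpowers t) :=
      IsPGroup.of_card (n := 1) (by rw [Nat.card_zpowers, ht, pow_one])
    have hn : t ∈ Subgroup.normalizer ((P : Subgroup G) : Set G) :=
      Subgroup.centralizer_le_normalizer _ (Subgroup.mem_centralizer_iff.2 fun x hx => hc x hx)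
    have h2 : t ∈ Subgroup.zpowers t ⊓ (P : Subgroup G) := by
      rw [← hT.inf_normalizer_sylow P]
      exact ⟨Subgroup.mem_zpowers t, hn⟩
    exact h2.2


end Cfsg.Agent.S0443
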