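import Cfsg.Statements.S0445
import Mathlib
import Cfsg.Agent.H29.TransvectionCard

set_option autoImplicit false
open Cfsg

namespace Cfsg.Agent.S0445

/-- In the special linear group of dimension 5 over the field with two elements, the centraliser of a transvection has order 21504 = 2 ^ 7 · 168 (it is an extension of an extraspecial group of order 2 ^ 7 by the simple group of order 168). -/
theorem result (s : Matrix.SpecialLinearGroup (Fin 5) (ZMod 2)) (hs : (s : Matrix (Fin 5) (Fin 5) (ZMod 2)) = Matrix.transvection 0 1 1) : Nat.card (Subgroup.centralizer ({s} : Set (Matrix.SpecialLinearGroup (Fin 5) (ZMod 2)))) = 21504 := by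
  have hdet1 : ∀ g : GL (Fin 5) (ZMod 2), (g : Matrix (Fin 5) (Fin 5) (ZMod 2)).det = 1 := fun g => by
    have : IsUnit (g : Matrix (Fin 5) (Fin 5) (ZMod 2)).det :=
      (Matrix.isUnit_iff_isUnit_det _).mp g.isUnit
    revert this
    generalize (g : Matrix (Fin 5) (Fin 5) (ZMod 2)).det = d
    intro hd; fin_cases d
    · exact absurd hd not_isUnit_zero
    · rfl
  have hsurj : Function.Surjective (Matrix.SpecialLinearGroup.toGL (n := Fin 5) (R := ZMod 2)) := by
    have key : ∀ {N : Type} [DecidableEq N] [Fintype N] {R : Type} [CommRing R],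
        (∀ g : GL N R, (g : Matrix N N R).det = 1) →
        Function.Surjective (Matrix.SpecialLinearGroup.toGL (n := N) (R := R)) :=
      fun h g => ⟨⟨g, h g⟩, Units.ext rfl⟩
    exact key hdet1
  let e : Matrix.SpecialLinearGroup (Fin 5) (ZMod 2) ≃* GL (Fin 5) (ZMod 2) :=
    MulEquiv.ofBijective Matrix.SpecialLinearGroup.toGL
      ⟨Matrix.SpecialLinearGroup.toGL_injective, hsurj⟩
  have hc : Nat.card (Subgroup.centralizer ({s} : Set (Matrix.SpecialLinearGroup (Fin 5) (ZMod 2)))) =
      Nat.card (Subgroup.centralizer ({e s} : Set (GL (Fin 5) (ZMod 2)))) := by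
    refine Nat.card_congr (Equiv.subtypeEquiv e.toEquiv fun u => ?_)
    simp only [MulEquiv.toEquiv_eq_coe, EquivLike.coe_coe, Subgroup.mem_centralizer_singleton_iff]
    rw [← map_mul, ← map_mul, e.injective.eq_iff]
  have ht : Cfsg.IsTransvection ((e s : GL (Fin 5) (ZMod 2)) : Matrix (Fin 5) (Fin 5) (ZMod 2)) := by
    show Cfsg.IsTransvection (s : Matrix (Fin 5) (Fin 5) (ZMod 2))
    rw [hs, Cfsg.IsTransvection, Matrix.transvection, add_sub_cancel_left]
    refine ⟨?_, by ext i j; simp [Matrix.mul_apply, Matrix.single_apply, Fin.sum_univ_five]⟩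
    refine le_antisymm ?_ ?_
    · rw [Matrix.single_eq_single_vecMulVec_single]; exact Matrix.rank_vecMulVec_le _ _
    · by_contra h
      have h0 : (Matrix.single (0 : Fin 5) (1 : Fin 5) (1 : ZMod 2)).rank = 0 := by omega
      rw [Matrix.rank, Submodule.finrank_eq_zero, LinearMap.range_eq_bot] at h0
      have := congrFun (LinearMap.congr_fun h0 (Pi.single 1 1)) 0
      simp at this
  rw [hc, H29.TransvectionCard.card_centralizer (m := 3) (e s) ht]
  simp [Fin.prod_univ_three]

end Cfsg.Agent.S0445
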