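import Cfsg.Statements.S0446
import Mathlib


set_option autoImplicit false
open Cfsg

namespace Cfsg.Agent.S0446

/-- Every finite group of even order contains a 2-central involution, i.e. an element of order 2 in the centre of some Sylow 2-subgroup. -/
theorem result {G : Type*} [Group G] [Finite G] (h : Even (Nat.card G)) : ∃ t : G, Cfsg.IsTwoCentralInvolution t := by
  haveI : Fact (Nat.Prime 2) := ⟨Nat.prime_two⟩
  obtain ⟨P⟩ : Nonempty (Sylow 2 G) := inferInstance
  have hcard : 2 ∣ Nat.card P := P.dvd_card_of_dvd_card (even_iff_two_dvd.1 h)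
  haveI : Nontrivial P := Finite.one_lt_card_iff_nontrivial.1 (Nat.le_of_dvd Nat.card_pos hcard)
  haveI := P.2.center_nontrivial
  obtain ⟨n, hn0, hn⟩ := (P.2.to_subgroup (Subgroup.center P)).exists_card_eq.imp fun n hn =>
    (⟨fun h0 => by
      rw [h0, pow_zero] at hn
      exact absurd hn (Finite.one_lt_card (α := Subgroup.center P)).ne', hn⟩ : n ≠ 0 ∧ _)
  obtain ⟨t, ht⟩ := exists_prime_orderOf_dvd_card' 2 (hn ▸ dvd_pow_self 2 hn0 : 2 ∣ Nat.card (Subgroup.center P))
  refine ⟨((t : P) : G), ?_, P, (t : P).2, fun x hx => ?_⟩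
  · rw [Subgroup.orderOf_coe, Subgroup.orderOf_coe, ht]
  · exact congrArg Subtype.val (Subgroup.mem_center_iff.1 t.2 ⟨x, hx⟩)

end Cfsg.Agent.S0446
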