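import Cfsg.Statements.S0462
import Cfsg.Agent.H29.CosetCert.He.SpIso
-- import your own Cfsg.Agent.* helpers here

set_option autoImplicit false
open Cfsg

namespace Cfsg.Agent.S0462

/-- The Held group exists as a transitive permutation group of degree 2058: simple of order 4030387200, with point stabiliser containing, with index 2, a copy of the 4-dimensional symplectic group over the field with four elements. -/
theorem result : ∃ H : Subgroup (Equiv.Perm (Fin 2058)), Cfsg.IsHe H ∧ MulAction.IsPretransitive H (Fin 2058) ∧ ∃ (F : Type) (_ : Field F) (_ : Fintype F), Fintype.card F = 4 ∧ ∃ N : Subgroup (MulAction.stabilizer H (0 : Fin 2058)), N.index = 2 ∧ Nonempty (N ≃* Matrix.symplecticGroup (Fin 2) F) := by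
  obtain ⟨hinj, hcard⟩ : Function.Injective H29.CosetCert.HeCert.ρ ∧ Nat.card Cfsg.Spor.He = 4030387200 :=
    H29.CosetCert.HeOrd.injective_card
  haveI := H29.CosetCert.HeOrd.finite_card.1
  let e : Cfsg.Spor.He ≃* H29.CosetCert.HeCert.ρ.range := MonoidHom.ofInjective hinj
  haveI hsimp : IsSimpleGroup H29.CosetCert.HeCert.ρ.range :=
    haveI := H29.CosetCert.HeOrd.simple
    haveI : Nontrivial H29.CosetCert.HeCert.ρ.range := e.symm.toEquiv.nontrivial
    IsSimpleGroup.isSimpleGroup_of_surjective e.toMonoidHom e.surjective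
  have hroot : ∀ c : Fin 2058, ∃ a, H29.CosetCert.HeCert.ρ a (0 : Fin 2058) = c := by
    intro c
    obtain ⟨q, hq⟩ := H29.CosetCert.HeCert.cert.toPt_surjective c
    induction q using QuotientGroup.induction_on with
    | _ a => exact ⟨a, hq⟩
  refine ⟨H29.CosetCert.HeCert.ρ.range, ⟨hsimp, ?_⟩, ⟨fun x y => ?_⟩, ?_⟩
  · rw [← Nat.card_congr e.toEquiv, hcard]
  · obtain ⟨a, ha⟩ := hroot x
    obtain ⟨b, hb⟩ := hroot y
    refine ⟨⟨H29.CosetCert.HeCert.ρ (b * a⁻¹), b * a⁻¹, rfl⟩, ?_⟩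
    show H29.CosetCert.HeCert.ρ (b * a⁻¹) x = y
    rw [← ha, map_mul, map_inv, Equiv.Perm.mul_apply, ← hb]
    exact congrArg _ (Equiv.symm_apply_apply _ _)
  obtain ⟨N, K, fK, ftK, -, hidx, hK, ⟨f⟩⟩ := H29.CosetCert.HeSp.result
  have hfix : ∀ a, e a ∈ MulAction.stabilizer H29.CosetCert.HeCert.ρ.range (0 : Fin 2058) ↔
      a ∈ H29.CosetCert.HeCert.H := by
    intro a
    rw [MulAction.mem_stabilizer_iff]
    show H29.CosetCert.HeCert.ρ a (0 : Fin 2058) = 0 ↔ _
    constructor
    · intro h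
      have h1 : H29.CosetCert.HeCert.cert.toPt ((a : Cfsg.Spor.He) : Cfsg.Spor.He ⧸ _) =
          H29.CosetCert.HeCert.cert.toPt ((1 : Cfsg.Spor.He) : Cfsg.Spor.He ⧸ _) := by
        rw [H29.CosetCert.Cert.toPt_mk, H29.CosetCert.Cert.toPt_mk, map_one, Equiv.Perm.one_apply]
        exact h
      have h2 := QuotientGroup.eq.1
        (Function.LeftInverse.injective H29.CosetCert.HeCert.cert.ofPt_toPt h1)
      simpa using h2
    · exact fun h => H29.CosetCert.HeCert.cert.fix_base h
  have hmap : (H29.CosetCert.HeCert.H).map e.toMonoidHom =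
      MulAction.stabilizer H29.CosetCert.HeCert.ρ.range (0 : Fin 2058) := by
    ext y
    obtain ⟨a, rfl⟩ := e.surjective y
    rw [hfix]
    exact ⟨fun ⟨b, hb, hbe⟩ => e.injective hbe ▸ hb, fun h => ⟨a, h, rfl⟩⟩
  let g : H29.CosetCert.HeCert.H ≃*
      MulAction.stabilizer H29.CosetCert.HeCert.ρ.range (0 : Fin 2058) :=
    (e.subgroupMap H29.CosetCert.HeCert.H).trans (MulEquiv.subgroupCongr hmap)
  refine ⟨K, fK, ftK, hK, N.map g.toMonoidHom, ?_, ⟨((g.subgroupMap N).symm).trans f⟩⟩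
  exact (Subgroup.index_map_equiv N g).trans hidx

end Cfsg.Agent.S0462
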