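import Cfsg.Statements.S0471
import Cfsg.Agent.FiTwoTwoU62.Transpositions
-- import your own Cfsg.Agent.* helpers here

set_option autoImplicit false
open Cfsg

namespace Cfsg.Agent.S0471

/-- The Fischer group of order 64561751654400 exists as a 3-transposition group: a simple group of that order generated by a conjugacy class of 3510 3-transpositions, the centraliser of each being a non-split double cover of PSU(6, 2). -/
theorem result : ∃ (G : Type) (_ : Group G) (_ : Finite G), Cfsg.IsFi22 G ∧ ∃ D : Set G, Cfsg.IsThreeTranspositionClass D ∧ Nat.card D = 3510 ∧ ∀ d ∈ D, ∃ (F : Type) (_ : Field F) (_ : Fintype F), Fintype.card F = 4 ∧ Cfsg.IsNonsplitDoubleCover (Subgroup.centralizer ({d} : Set G)) (Cfsg.PSU 6 F 2) := by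
  refine ⟨Cfsg.Spor.Fi22, inferInstance, H29.CosetCert.Fi22Ord.finite_card.1,
    ⟨H29.CosetCert.Fi22Ord.simple, H29.CosetCert.Fi22Ord.injective_card.2⟩,
    conjugatesOf CfsgLib.FiTwoTwoU62.ta, CfsgLib.FiTwoTwoU62.three_transpositions,
    CfsgLib.FiTwoTwoU62.card_class, fun d hd => ?_⟩
  exact ⟨CfsgLib.G2Four.Q, inferInstance, inferInstance, CfsgLib.G2Four.Q.card_eq,
    CfsgLib.FiTwoTwoU62.centralizer_double_cover hd⟩

end Cfsg.Agent.S0471
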