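import Cfsg.Statements.S0481
import Mathlib


set_option autoImplicit false
open Cfsg

namespace Cfsg.Agent.S0481

/-- Large extraspecial subgroups: let z be an involution of a finite group G whose centraliser C contains a normal 2-subgroup Q with centre of order 2 and all squares central, such that every element of G centralising Q lies in Q. Then C contains a Sylow 2-subgroup of G, and any involution of G whose centraliser contains a Sylow 2-subgroup of G is conjugate to z. -/
theorem result {G : Type*} [Group G] [Finite G] (z : G) (hz : orderOf z = 2) (Q : Subgroup G) (hQC : Q ≤ Subgroup.centralizer ({z} : Set G)) (hQn : ∀ g ∈ Subgroup.centralizer ({z} : Set G), ∀ q ∈ Q, g * q * g⁻¹ ∈ Q) (hQ2 : IsPGroup 2 Q) (hZ : Nat.card (Subgroup.center Q) = 2) (hsq : ∀ x : Q, x ^ 2 ∈ Subgroup.center Q) (hlarge : Subgroup.centralizer (Q : Set G) ≤ Q) : (∃ P : Sylow 2 G, (P : Subgroup G) ≤ Subgroup.centralizer ({z} : Set G)) ∧ ∀ u : G, orderOf u = 2 → (∃ P : Sylow 2 G, (P : Subgroup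 G) ≤ Subgroup.centralizer ({u} : Set G)) → IsConj z u := by
  haveI : Fact (Nat.Prime 2) := ⟨Nat.prime_two⟩
  obtain ⟨P, hP⟩ := hQ2.exists_le_sylow
  have hzQ : z ∈ Q := hlarge (Subgroup.mem_centralizer_iff.2 fun q hq => Subgroup.mem_centralizer_singleton_iff.1 (hQC hq))
  have hzc : (⟨z, hzQ⟩ : Q) ∈ Subgroup.center Q :=
    Subgroup.mem_center_iff.2 fun q => Subtype.ext (Subgroup.mem_centralizer_singleton_iff.1 (hQC q.2))
  have hz1 : z ≠ 1 := fun h => by simp [h] at hz
  -- a nontrivial element centralizing `P` is `z`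
  have key : ∀ t : G, t ≠ 1 → (∀ x ∈ P, x * t = t * x) → t = z := by
    intro t ht hc
    have htQ : t ∈ Q := hlarge (Subgroup.mem_centralizer_iff.2 fun q hq => hc q (hP hq))
    have htc : (⟨t, htQ⟩ : Q) ∈ Subgroup.center Q :=
      Subgroup.mem_center_iff.2 fun q => Subtype.ext (hc q (hP q.2))
    obtain ⟨a, b, hab, huniv⟩ := Nat.card_eq_two_iff.1 hZ
    have h1 := huniv ▸ Set.mem_univ (1 : Subgroup.center Q)
    have h2 := huniv ▸ Set.mem_univ (⟨_, htc⟩ : Subgroup.center Q)
    have h3 := huniv ▸ Set.mem_univ (⟨_, hzc⟩ : Subgroup.center Q)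
    have n2 : (⟨_, htc⟩ : Subgroup.center Q) ≠ 1 := fun e => ht (congrArg (fun y => ((y.1 : Q) : G)) e)
    have n3 : (⟨_, hzc⟩ : Subgroup.center Q) ≠ 1 := fun e => hz1 (congrArg (fun y => ((y.1 : Q) : G)) e)
    have h23 : (⟨_, htc⟩ : Subgroup.center Q) = ⟨_, hzc⟩ := by
      simp only [Set.mem_insert_iff, Set.mem_singleton_iff] at h1 h2 h3
      rcases h2 with h2 | h2 <;> rcases h3 with h3 | h3
      · exact h2.trans h3.symm
      · rcases h1 with h1 | h1
        · exact absurd (h2.trans h1.symm) n2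
        · exact absurd (h3.trans h1.symm) n3
      · rcases h1 with h1 | h1
        · exact absurd (h3.trans h1.symm) n3
        · exact absurd (h2.trans h1.symm) n2
      · exact h2.trans h3.symm
    exact congrArg (fun y => ((y.1 : Q) : G)) h23
  haveI : Nontrivial P := nontrivial_of_ne ⟨z, hP hzQ⟩ 1 fun e => hz1 (congrArg Subtype.val e)
  haveI := P.2.center_nontrivial
  obtain ⟨t, ht⟩ := exists_ne (1 : Subgroup.center P)
  have htz : ((t : P) : G) = z := key _ (fun e => ht (Subtype.ext (Subtype.ext e)))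
    (fun x hx => congrArg Subtype.val (Subgroup.mem_center_iff.1 t.2 ⟨x, hx⟩))
  refine ⟨⟨P, fun x hx => Subgroup.mem_centralizer_singleton_iff.2 ?_⟩, ?_⟩
  · rw [← htz]
    exact congrArg Subtype.val (Subgroup.mem_center_iff.1 t.2 ⟨x, hx⟩)
  · rintro u hu ⟨R, hR⟩
    obtain ⟨g, hg⟩ := MulAction.exists_smul_eq G R P
    refine isConj_comm.1 (isConj_iff.2 ⟨g, key _ ?_ fun x hx => ?_⟩)
    · simp only [ne_eq, conj_eq_one_iff]
      intro e; simp [e] at hu
    · rw [← hg] at hx
      obtain ⟨y, hy, rfl⟩ := hx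
      have := Subgroup.mem_centralizer_singleton_iff.1 (hR hy)
      show g * y * g⁻¹ * (g * u * g⁻¹) = g * u * g⁻¹ * (g * y * g⁻¹)
      calc g * y * g⁻¹ * (g * u * g⁻¹) = g * (y * u) * g⁻¹ := by group
        _ = g * (u * y) * g⁻¹ := by rw [this]
        _ = g * u * g⁻¹ * (g * y * g⁻¹) := by group

end Cfsg.Agent.S0481
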