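import Cfsg.Statements.S0499
import Cfsg.Agent.Transfer.SmallSylow

set_option autoImplicit false
open Cfsg
open scoped commutatorElement IsMulCommutative Pointwise

namespace Cfsg.Agent.S0499

/-- A non-abelian finite simple group of even order has order divisible by 12, 16 or 56. -/
theorem result {G : Type*} [Group G] [Finite G] [IsSimpleGroup G]
    (hG : ¬ IsMulCommutative G) (h2 : Even (Nat.card G)) :
    12 ∣ Nat.card G ∨ 16 ∣ Nat.card G ∨ 56 ∣ Nat.card G := by
  have : Fact (Nat.Prime 2) := ⟨Nat.prime_two⟩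
  have hG' : ∃ x y : G, x * y ≠ y * x := by
    by_contra h
    push Not at h
    exact hG ⟨⟨h⟩⟩
  obtain ⟨T⟩ : Nonempty (Sylow 2 G) := inferInstance
  by_contra hcon
  push Not at hcon
  refine CfsgLib.Transfer.not_hasNormalPComplement_of_simple hG' (p := 2) h2.two_dvd
    (CfsgLib.Transfer.hasNormalPComplement_of_no_aut T fun q hq hq2 hqd i k hik hk hdvd => ?_)
  have hkG : 2 ^ k ∣ Nat.card G := hk.trans (Subgroup.card_subgroup_dvd_card _)
  have hk3 : k ≤ 3 := by
    by_contra h
    exact hcon.2.1 ((pow_dvd_pow 2 (show 4 ≤ k by omega)).trans hkG)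
  have hq3 : 2 ≤ k → q ≠ 3 := fun h e => hcon.1
    (Nat.Coprime.mul_dvd_of_dvd_of_dvd (by norm_num : Nat.Coprime 4 3) ((pow_dvd_pow 2 h).trans hkG) (e ▸ hqd))
  have hq7 : k = 3 → q ≠ 7 := fun h e => hcon.2.2
    (Nat.Coprime.mul_dvd_of_dvd_of_dvd (by norm_num : Nat.Coprime 8 7) (by subst h; exact hkG) (e ▸ hqd))
  have h1 := hq.two_le
  interval_cases k <;> interval_cases i <;> norm_num at hdvd hq3 hq7
  all_goals first
    | omega
    | (have h6 := Nat.le_of_dvd (by norm_num) hdvd; interval_cases q <;> simp_all (config := { decide := true }))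

end Cfsg.Agent.S0499
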