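import Cfsg.Statements.S0502
import Cfsg.Agent.PReduced.Hom

set_option autoImplicit false
open Cfsg

namespace Cfsg.Agent.S0502

/-- Two distinct commuting involutions lie in a Klein four-subgroup. -/
theorem exists_four {P : Type*} [Group P] (a b : P) (ha : a * a = 1) (hb : b * b = 1) (ha1 : a ≠ 1)
    (hb1 : b ≠ 1) (hab : a ≠ b) (hc : a * b = b * a) :
    ∃ V : Subgroup P, IsKleinFour V ∧ a ∈ V ∧ b ∈ V ∧ ∀ x ∈ V, x = 1 ∨ x = a ∨ x = b ∨ x = a * b := by
  classical
  have h1 : a * (a * b) = b := by rw [← mul_assoc, ha, one_mul]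
  have h2 : b * (a * b) = a := by rw [← mul_assoc, ← hc, mul_assoc, hb, mul_one]
  have h3 : a * b * a = b := by rw [mul_assoc, ← hc, h1]
  have h4 : a * b * b = a := by rw [mul_assoc, hb, mul_one]
  have h5 : a * b * (a * b) = 1 := by rw [mul_assoc, h2, ha]
  have hai : a⁻¹ = a := inv_eq_of_mul_eq_one_right ha
  have hbi : b⁻¹ = b := inv_eq_of_mul_eq_one_right hb
  have habi : (a * b)⁻¹ = a * b := inv_eq_of_mul_eq_one_right h5
  let V : Subgroup P :=
    { carrier := {1, a, b, a * b}
      one_mem' := by simp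
      mul_mem' := by
        intro x y hx hy
        simp only [Set.mem_insert_iff, Set.mem_singleton_iff] at hx hy ⊢
        rcases hx with rfl | rfl | rfl | rfl <;> rcases hy with rfl | rfl | rfl | rfl <;>
          simp [ha, hb, h1, h2, h3, h4, h5, ← hc]
      inv_mem' := by
        intro x hx
        simp only [Set.mem_insert_iff, Set.mem_singleton_iff] at hx ⊢
        rcases hx with rfl | rfl | rfl | rfl
        · simp
        · simp [hai]
        · simp [hbi]
        · simp only [habi, or_true] }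
  have hab1 : a * b ≠ 1 := fun h => hab (by rw [← hai]; exact inv_eq_of_mul_eq_one_right h)
  have haba : a * b ≠ a := fun h => hb1 (mul_left_cancel (h.trans (mul_one a).symm))
  have habb : a * b ≠ b := fun h => ha1 (mul_right_cancel (h.trans (one_mul b).symm))
  have hmem : ∀ x ∈ V, x = 1 ∨ x = a ∨ x = b ∨ x = a * b := fun x hx => hx
  refine ⟨V, ⟨?_, ?_⟩, Or.inr (Or.inl rfl), Or.inr (Or.inr (Or.inl rfl)), hmem⟩
  · have hcard : (({1, a, b, a * b} : Finset P).card) = 4 := by
      rw [Finset.card_insert_of_notMem (by simp [Ne.symm ha1, Ne.symm hb1, Ne.symm hab1]),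
        Finset.card_insert_of_notMem (by simp [hab, Ne.symm haba]),
        Finset.card_insert_of_notMem (by simp [Ne.symm habb]), Finset.card_singleton]
    rw [← SetLike.coe_sort_coe, Nat.card_coe_set_eq, ← hcard, ← Set.ncard_coe_finset]
    congr 1
    ext x
    simp [V]
  · haveI : Nontrivial V := ⟨⟨⟨a, Or.inr (Or.inl rfl)⟩, 1, fun h => ha1 (congrArg Subtype.val h)⟩⟩
    refine (Monoid.exponent_eq_prime_iff Nat.prime_two).2 fun x hx => orderOf_eq_prime ?_ hx
    apply Subtype.ext
    rw [SubgroupClass.coe_pow, pow_two]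
    rcases hmem x x.2 with h | h | h | h <;> rw [h] <;> simp [ha, hb, h5]

theorem four_facts {P : Type*} [Group P] {U : Subgroup P} (hU : IsKleinFour U) :
    (∀ x ∈ U, x * x = 1) ∧ (∀ x ∈ U, ∀ y ∈ U, x * y = y * x) ∧ ∃ x ∈ U, x ≠ 1 := by
  refine ⟨fun x hx => congrArg Subtype.val (IsKleinFour.mul_self (⟨x, hx⟩ : U)), fun x hx y hy => ?_, ?_⟩
  · have h : ∀ w : U, w * w = 1 := IsKleinFour.mul_self
    have h2 : ∀ w : U, w⁻¹ = w := fun w => inv_eq_of_mul_eq_one_right (h w)
    have : (⟨x, hx⟩ : U) * ⟨y, hy⟩ = ⟨y, hy⟩ * ⟨x, hx⟩ := by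
      rw [← h2 (⟨x, hx⟩ * ⟨y, hy⟩), mul_inv_rev, h2, h2]
    exact congrArg Subtype.val this
  · haveI : Finite U := Nat.finite_of_card_ne_zero (by rw [hU.card_four]; norm_num)
    haveI : Nontrivial U := Finite.one_lt_card_iff_nontrivial.1 (by rw [hU.card_four]; norm_num)
    obtain ⟨x, hx⟩ := exists_ne (1 : U)
    exact ⟨x, x.2, fun h => hx (Subtype.ext h)⟩

/-- If a finite 2-group has a normal elementary abelian subgroup of order at least 8, then any two of its Klein
four-subgroups are joined by a chain of Klein four-subgroups with consecutive members commuting elementwise. -/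
theorem result {P : Type*} [Group P] [Finite P] (hP : IsPGroup 2 P)
    (E : Subgroup P) [E.Normal] (hE : IsMulCommutative E) (hE2 : ∀ e ∈ E, e ^ 2 = 1) (hE8 : 8 ≤ Nat.card E) :
    Cfsg.IsFourConnected P := by
  classical
  haveI : Fact (Nat.Prime 2) := ⟨Nat.prime_two⟩
  have hcomm : ∀ x ∈ E, ∀ y ∈ E, x * y = y * x := fun x hx y hy =>
    congrArg Subtype.val (hE.is_comm.comm ⟨x, hx⟩ ⟨y, hy⟩)
  have hsq : ∀ x ∈ E, x * x = 1 := fun x hx => by rw [← pow_two]; exact hE2 x hx
  have hEne : E ≠ ⊥ := by
    rintro rfl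
    simp at hE8
  obtain ⟨z, hz1, hzE, hzc⟩ : ∃ z : P, z ≠ 1 ∧ z ∈ E ∧ z ∈ Subgroup.center P := by
    have h := CfsgLib.PReduced.inf_center_ne_bot hP hEne
    by_contra hcon
    refine h ((Subgroup.eq_bot_iff_forall _).2 fun x hx => ?_)
    by_contra hx1
    exact hcon ⟨x, hx1, hx.1, hx.2⟩
  have hzz := hsq z hzE
  have hzcomm : ∀ x : P, x * z = z * x := fun x => Subgroup.mem_center_iff.1 hzc x
  -- every centralizer in E of an involution has order at least 3
  have hbig : ∀ u : P, u * u = 1 → ∃ e ∈ E, e ≠ 1 ∧ e ≠ z ∧ u * e = e * u := by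
    intro u hu
    have hui : u⁻¹ = u := inv_eq_of_mul_eq_one_right hu
    have hn : ∀ x ∈ E, u * x * u⁻¹ ∈ E := fun x hx => Subgroup.Normal.conj_mem inferInstance x hx u
    by_contra hcon
    push Not at hcon
    let f : E →* E := MonoidHom.mk' (fun e => ⟨(e : P) * (u * e * u⁻¹), E.mul_mem e.2 (hn e e.2)⟩) (by
      intro a b
      apply Subtype.ext
      show (a : P) * b * (u * (a * b) * u⁻¹) = a * (u * a * u⁻¹) * (b * (u * b * u⁻¹))
      calc (a : P) * b * (u * (a * b) * u⁻¹) = a * (b * (u * a * u⁻¹)) * (u * b * u⁻¹) := by group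
        _ = a * ((u * a * u⁻¹) * b) * (u * b * u⁻¹) := by rw [hcomm b b.2 _ (hn a a.2)]
        _ = _ := by group)
    have hfix : ∀ e : E, (e : P) = 1 ∨ (e : P) = z ∨ u * e ≠ e * u := by
      intro e
      by_cases h1 : (e : P) = 1
      · exact Or.inl h1
      by_cases h2 : (e : P) = z
      · exact Or.inr (Or.inl h2)
      exact Or.inr (Or.inr (hcon e e.2 h1 h2))
    let S : Set E := {1, ⟨z, hzE⟩}
    have hS2 : Nat.card S ≤ 2 := by
      rw [Nat.card_coe_set_eq]
      exact (Set.ncard_insert_le _ _).trans (by simp)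
    have hker : (f.ker : Set E) ⊆ S := by
      intro e he
      rcases hfix e with h | h | h
      · exact Or.inl (Subtype.ext h)
      · exact Or.inr (Subtype.ext h)
      · exfalso
        apply h
        have h0 : (e : P) * (u * e * u⁻¹) = 1 := congrArg Subtype.val he
        have : u * (e : P) * u⁻¹ = e := by
          rw [← inv_eq_of_mul_eq_one_right h0, inv_eq_of_mul_eq_one_right (hsq e e.2)]
        rwa [mul_inv_eq_iff_eq_mul] at this
    have hran : (f.range : Set E) ⊆ S := by
      rintro _ ⟨e, rfl⟩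
      rcases hfix (f e) with h | h | h
      · exact Or.inl (Subtype.ext h)
      · exact Or.inr (Subtype.ext h)
      · exfalso
        apply h
        show u * ((e : P) * (u * e * u⁻¹)) = (e : P) * (u * e * u⁻¹) * u
        rw [hui]
        have h' := hcomm (u * e * u⁻¹) (hn e e.2) e e.2
        rw [hui] at h'
        rw [← h']
        have : u * (u * (e : P) * u * e) = e * u * e := by
          simp only [← mul_assoc, hu, one_mul]
        rw [this, h']
        simp only [mul_assoc, hu, mul_one]
    have h1 : Nat.card f.ker ≤ 2 := (Nat.card_mono (Set.toFinite _) hker).trans hS2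
    have h2 : Nat.card f.range ≤ 2 := (Nat.card_mono (Set.toFinite _) hran).trans hS2
    have h3 := Subgroup.card_eq_card_quotient_mul_card_subgroup f.ker
    rw [Nat.card_congr (QuotientGroup.quotientKerEquivRange f).toEquiv] at h3
    have := Nat.mul_le_mul h2 h1
    omega
  -- every four-subgroup is linked to one inside E containing z
  let R := fun A B : Subgroup P => IsKleinFour A ∧ IsKleinFour B ∧ ∀ a ∈ A, ∀ b ∈ B, a * b = b * a
  have hRsymm : ∀ A B, R A B → R B A := fun A B ⟨h1, h2, h3⟩ => ⟨h2, h1, fun a ha b hb => (h3 b hb a ha).symm⟩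
  have key : ∀ U : Subgroup P, IsKleinFour U → ∃ W : Subgroup P, IsKleinFour W ∧ W ≤ E ∧
      Relation.ReflTransGen R U W ∧ Relation.ReflTransGen R W U := by
    intro U hU
    obtain ⟨hUsq, hUcomm, x, hxU, hx1⟩ := four_facts hU
    obtain ⟨u, huU, hu1, huz⟩ : ∃ u ∈ U, u ≠ 1 ∧ u ≠ z := by
      by_contra hcon
      push Not at hcon
      have hsub : (U : Set P) ⊆ {1, z} := by
        intro y hy
        by_cases hy1 : y = 1
        · exact Or.inl hy1
        · exact Or.inr (hcon y hy hy1)
      have := (Set.ncard_le_ncard hsub).trans ((Set.ncard_insert_le _ _).trans (by simp) : _ ≤ 2)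
      rw [← Nat.card_coe_set_eq, SetLike.coe_sort_coe, hU.card_four] at this
      omega
    obtain ⟨e, heE, he1, hez, hue⟩ := hbig u (hUsq u huU)
    obtain ⟨V, hV, -, -, hVm⟩ := exists_four u z (hUsq u huU) hzz hu1 hz1 huz (hzcomm u)
    obtain ⟨W, hW, heW, hzW, hWm⟩ := exists_four e z (hsq e heE) hzz he1 hz1 hez (hzcomm e)
    have hUV : R U V := by
      refine ⟨hU, hV, fun a ha b hb => ?_⟩
      have hau := hUcomm a ha u huU
      rcases hVm b hb with rfl | rfl | rfl | rfl
      · simp
      · exact hau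
      · exact hzcomm a
      · exact Commute.mul_right hau (hzcomm a)
    have hVW : R V W := by
      refine ⟨hV, hW, fun a ha b hb => ?_⟩
      have hcu : ∀ b ∈ W, Commute u b := by
        intro b hb
        rcases hWm b hb with rfl | rfl | rfl | rfl
        · exact Commute.one_right u
        · exact hue
        · exact hzcomm u
        · exact Commute.mul_right hue (hzcomm u)
      have hcz : ∀ b : P, Commute z b := fun b => (hzcomm b).symm
      rcases hVm a ha with rfl | rfl | rfl | rfl
      · simp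
      · exact hcu b hb
      · exact hcz b
      · exact Commute.mul_left (hcu b hb) (hcz b)
    refine ⟨W, hW, ?_, Relation.ReflTransGen.head hUV (Relation.ReflTransGen.single hVW),
      Relation.ReflTransGen.head (hRsymm _ _ hVW) (Relation.ReflTransGen.single (hRsymm _ _ hUV))⟩
    intro b hb
    rcases hWm b hb with rfl | rfl | rfl | rfl
    · exact E.one_mem
    · exact heE
    · exact hzE
    · exact E.mul_mem heE hzE
  intro U V hU hV
  obtain ⟨W, hW, hWE, hUW, -⟩ := key U hU
  obtain ⟨W', hW', hW'E, -, hW'V⟩ := key V hV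
  exact hUW.trans ((Relation.ReflTransGen.single
    ⟨hW, hW', fun a ha b hb => hcomm a (hWE ha) b (hW'E hb)⟩).trans hW'V)

end Cfsg.Agent.S0502
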