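import Cfsg.Statements.S0505
import Cfsg.Agent.Components.CharP
import Cfsg.Agent.PCore.PConstrained

set_option autoImplicit false
open Cfsg

namespace Cfsg.Agent.S0505

/-- Let G be a finite group of even order in which the centralizer of every involution is solvable and has trivial
core (no nontrivial normal subgroup of odd order). Then G is of characteristic 2 type. -/
theorem result {G : Type*} [Group G] [Finite G]
    (h2 : Even (Nat.card G))
    (hs : ∀ t : G, orderOf t = 2 → Group.IsSolvable (Subgroup.centralizer ({t} : Set G)))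
    (hc : ∀ t : G, orderOf t = 2 → Cfsg.oddCore (Subgroup.centralizer ({t} : Set G)) = ⊥) :
    Cfsg.IsCharacteristicTwoType G := by
  classical
  haveI : Fact (Nat.Prime 2) := ⟨Nat.prime_two⟩
  refine ⟨h2, fun T hT hTne => ?_⟩
  haveI : Nontrivial ↥T := (Subgroup.nontrivial_iff_ne_bot T).2 hTne
  haveI : Nontrivial ↥(Subgroup.center ↥T) := hT.center_nontrivial
  obtain ⟨z, hz⟩ := exists_prime_orderOf_dvd_card' (G := ↥(Subgroup.center ↥T)) 2 (by
    obtain ⟨n, hn⟩ := (hT.to_subgroup (Subgroup.center ↥T)).exists_card_eq
    have : 1 < Nat.card ↥(Subgroup.center ↥T) := Finite.one_lt_card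
    rw [hn] at this ⊢
    exact dvd_pow_self 2 (by rintro rfl; simp at this))
  set t : G := (((z : ↥T) : G)) with htdef
  have ht : orderOf t = 2 := by
    rw [htdef, Subgroup.orderOf_coe, Subgroup.orderOf_coe, hz]
  set X := Subgroup.centralizer ({t} : Set G) with hXdef
  have hTX : T ≤ X := by
    intro x hx
    rw [hXdef, Subgroup.mem_centralizer_singleton_iff]
    exact congrArg Subtype.val (Subgroup.mem_center_iff.1 z.2 ⟨x, hx⟩)
  have hCX : Subgroup.centralizer (T : Set G) ≤ X := by
    intro x hx
    rw [hXdef, Subgroup.mem_centralizer_singleton_iff]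
    exact (Subgroup.mem_centralizer_iff.1 hx t (z : ↥T).2).symm
  haveI := hs t ht
  have hX : CfsgLib.Components.IsCharP 2 X := by
    rw [CfsgLib.Components.isCharP_iff]
    exact (CfsgLib.PCore.isPConstrained_iff_of_core_eq_bot (hc t ht)).1
      CfsgLib.PCore.isPConstrained_of_isSolvable
  exact (CfsgLib.Components.isCharP_iff 2 _).1
    (CfsgLib.Components.isCharP_normalizer hX hTX hT hCX)


end Cfsg.Agent.S0505
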