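import Cfsg.Statements.S2953
import Cfsg.Agent.JComp.Final

set_option autoImplicit false
open Cfsg

namespace Cfsg.Agent.S2953

open CfsgLib.JComp

/-- Let G be a finite group of characteristic 2 type in which every 2-local subgroup is solvable and the centralizer of Ω₁(Z(S)) lies in N_G(S) for every Sylow 2-subgroup S; suppose O₂(G) = 1, fix a Sylow 2-subgroup S and a 2-local subgroup M containing N_G(J(S)) (J the Thompson subgroup generated by the elementary abelian 2-subgroups of largest order). Let T be maximal (for the order of a largest elementary abelian subgroup, then the order of J(T), then the order of T) among the nontrivial 2-subgroups of M lying in a 2-local subgroup not inside M. Then there are two distinct J(T)-components K₁, K₂ such that, with Pᵢ = ⟨Kᵢ, T⟩: C_G(O₂(Pᵢ)) ≤ O₂(Pᵢ), T is a Sylow 2-subgroup of Pᵢ, O₂(Pᵢ) has index 6 in Pᵢ with Pᵢ/O₂(Pᵢ) non-abelian,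 [Ω₁(Z(T)), Pᵢ] ≠ 1, O₂(⟨P₁, P₂⟩) = 1, and each Pᵢ lies in exactly one maximal 2-local subgroup Lᵢ of G, in which T is a Sylow 2-subgroup. -/
theorem result {G : Type*} [Group G] [Finite G] (hL : Cfsg.IsCharacteristicTwoType G) (hN : ∀ N : Subgroup G, Cfsg.IsTwoLocal N → Group.IsSolvable ↥N)
    (hZ : ∀ S : Sylow 2 G, Subgroup.centralizer (Cfsg.omegaCenterOf (S : Subgroup G) : Set G) ≤ Subgroup.normalizer ((S : Subgroup G) : Set G)) (hO : Cfsg.pCore 2 G = ⊥) (S : Sylow 2 G) (M : Subgroup G) (hM : Cfsg.IsTwoLocal M)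
    (hMJ : Subgroup.normalizer (Cfsg.thompsonSubgroupOf 2 (S : Subgroup G) : Set G) ≤ M) (T : Subgroup G) (hT : T ∈ Cfsg.maxStraddlingTwoSubgroups M) :
    ∃ K₁ K₂ : Subgroup G, K₁ ≠ K₂ ∧ Cfsg.IsJComponent T K₁ ∧ Cfsg.IsJComponent T K₂ ∧
      Cfsg.pCoreOf 2 ((K₁ ⊔ T) ⊔ (K₂ ⊔ T)) = ⊥ ∧
      ∀ P ∈ [K₁ ⊔ T, K₂ ⊔ T],
        Subgroup.centralizer (Cfsg.pCoreOf 2 P : Set G) ≤ Cfsg.pCoreOf 2 P ∧ Cfsg.IsSylowTwoIn T P ∧
        (Cfsg.pCoreOf 2 P).relIndex P = 6 ∧ ¬ ⁅P, P⁆ ≤ Cfsg.pCoreOf 2 P ∧ ⁅Cfsg.omegaCenterOf T, P⁆ ≠ ⊥ ∧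
        ∃ L : Subgroup G, Cfsg.IsMaximalTwoLocal L ∧ P ≤ L ∧ Cfsg.IsSylowTwoIn T L ∧
          ∀ L' : Subgroup G, Cfsg.IsMaximalTwoLocal L' → P ≤ L' → L' = L := by
  have c : StraddleCtx S M T := ⟨hL, hN, hZ, hMJ, hT⟩
  obtain ⟨K, hK⟩ := Cfsg.Agent.S2949.result hL hN hZ hO S M hM hMJ T hT
  have hnorm := Cfsg.Agent.S2952.result hL hN hZ hO S M hM hMJ T hT K hK
  have hTK : T ≤ Subgroup.normalizer (K : Set G) :=
    le_sup_right.trans ((Subgroup.normal_subgroupOf_iff_le_normalizer le_sup_left).1 hnorm)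
  obtain ⟨L, hLmax, hKL, hTL⟩ := c.exists_local hK
  obtain ⟨⟨hKc, -⟩, hKM, -⟩ := hK
  have hJT := thompson_le_self T
  have hX := sup_le hKL (hJT.trans hTL.1)
  obtain ⟨M', P', K₂, L₂, c₂, hK₂, hK₂M, hL₂, hTL₂, hK₂L₂, hTK₂, hne⟩ :
      ∃ (M' : Subgroup G) (P' : Sylow 2 G) (K₂ L₂ : Subgroup G), StraddleCtx P' M' T ∧
        Cfsg.IsJComponent T K₂ ∧ ¬ K₂ ≤ M' ∧ Cfsg.IsMaximalTwoLocal L₂ ∧ Cfsg.IsSylowTwoIn T L₂ ∧ K₂ ≤ L₂ ∧
        T ≤ Subgroup.normalizer (K₂ : Set G) ∧ L₂ ≠ L := by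
    rcases c.second hO hKc hKM hLmax hTL hKL with ⟨g, hg, hgL⟩ | ⟨P, K₂, L₂, h1, h2, h3, h4, h5, h6, h7, -, -⟩
    · have hgJ := normalizer_le_thompson T hg
      have hgM := c.normalizer_J_le hgJ
      have hTg : T.map (MulAut.conj g).toMonoidHom = T := Subgroup.mem_normalizer_iff_map_conj_eq.1 hg
      have hK₂ := c.conj_component hKc hgJ
      have hK₂M := c.conj_not_le hgM hKM
      obtain ⟨L₂, hL₂, hle⟩ := exists_maximalTwoLocal (isTwoLocal_map g hLmax.1)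
      have hKL₂ : K.map (MulAut.conj g).toMonoidHom ≤ L₂ := (Subgroup.map_mono hKL).trans hle
      have hTL₂ : T ≤ L₂ := hTg ▸ (Subgroup.map_mono hTL.1).trans hle
      have hTK₂ : T ≤ Subgroup.normalizer (K.map (MulAut.conj g).toMonoidHom : Set G) := by
        have h1 := Subgroup.map_mono (f := (MulAut.conj g).toMonoidHom) hTK
        rw [hTg] at h1
        exact h1.trans (Subgroup.le_normalizer_map _)
      refine ⟨M, S, _, L₂, c, hK₂, hK₂M, hL₂, c.sylow_of_le hK₂ hK₂M hL₂.1 hKL₂ hTL₂, hKL₂, hTK₂, fun e => hgL ?_⟩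
      exact normalizer_maximalTwoLocal hLmax (Subgroup.mem_normalizer_iff_map_conj_eq.2
        (c.conj_max_eq hKc hKM hLmax hX hgJ (e ▸ hKL₂)))
    · exact ⟨L, P, K₂, L₂, h1, h2, h3, h4, h5, h6, h7, fun e => h3 (e ▸ h6)⟩
  have hX₂ := sup_le hK₂L₂ (hJT.trans hTL₂.1)
  obtain ⟨a1, a2, -, a4, a5, -, -, -, -, a6⟩ := join_structure (c.ctx hLmax.1) c.T_ne_bot hKc hTL hKL hTK
  obtain ⟨b1, b2, -, b4, b5, -, -, -, -, b6⟩ :=
    join_structure (c.ctx hL₂.1) c.T_ne_bot hK₂ hTL₂ hK₂L₂ hTK₂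
  refine ⟨K, K₂, fun e => hne ?_, hKc, hK₂, ?_, ?_⟩
  · subst e
    exact c.eq_of_maximal hKc hKM hLmax hX hL₂ hX₂
  · by_contra hR
    set Q := (K ⊔ T) ⊔ (K₂ ⊔ T) with hQ
    have hQN : Q ≤ Subgroup.normalizer (Cfsg.pCoreOf 2 Q : Set G) := fun x hx =>
      Subgroup.mem_normalizer_fintype fun y hy =>
        conj_mem_pCoreOf (fun h hh => Q.mul_mem (Q.mul_mem hx hh) (Q.inv_mem hx)) hy
    obtain ⟨L₃, hL₃, hle⟩ := exists_maximalTwoLocal (G := G) ⟨_, isPGroup_pCoreOf Q, hR, rfl⟩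
    have h1 : K ⊔ T ≤ L₃ := le_sup_left.trans (hQN.trans hle)
    have h2 : K₂ ⊔ T ≤ L₃ := le_sup_right.trans (hQN.trans hle)
    have e1 : L₃ = L := c.eq_of_maximal hKc hKM hLmax hX hL₃
      (sup_le (le_sup_left.trans h1) (hJT.trans (le_sup_right.trans h1)))
    have e2 : L₃ = L₂ := c₂.eq_of_maximal hK₂ hK₂M hL₂ hX₂ hL₃
      (sup_le (le_sup_left.trans h2) (hJT.trans (le_sup_right.trans h2)))
    exact hne (e2.symm.trans e1)
  · intro P hP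
    simp only [List.mem_cons, List.not_mem_nil, or_false] at hP
    rcases hP with rfl | rfl
    · exact ⟨a1, a2, a4, a5, a6, L, hLmax, sup_le hKL hTL.1, hTL, fun L' hL' hle =>
        c.eq_of_maximal hKc hKM hLmax hX hL' ((sup_le_sup_left hJT K).trans hle)⟩
    · exact ⟨b1, b2, b4, b5, b6, L₂, hL₂, sup_le hK₂L₂ hTL₂.1, hTL₂, fun L' hL' hle =>
        c₂.eq_of_maximal hK₂ hK₂M hL₂ hX₂ hL' ((sup_le_sup_left hJT K₂).trans hle)⟩

end Cfsg.Agent.S2953
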