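import Cfsg.Statements.S2954
import Cfsg.Agent.S2953
import Cfsg.Agent.JComp.SylowPairs
import Cfsg.Agent.JComp.Pair2Small
import Cfsg.Agent.JComp.LocalSFour

set_option autoImplicit false
open Cfsg

namespace Cfsg.Agent.S2954

open CfsgLib.JComp

theorem isMaximalTwoLocal_map {G : Type*} [Group G] [Finite G] {L : Subgroup G}
    (h : Cfsg.IsMaximalTwoLocal L) (g : G) : Cfsg.IsMaximalTwoLocal (L.map (MulAut.conj g).toMonoidHom) := by
  refine ⟨isTwoLocal_map g h.1, fun L₁ hL₁ hle => ?_⟩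
  have e := h.2 _ (isTwoLocal_map g⁻¹ hL₁) fun y hy =>
    ⟨g * y * g⁻¹, hle ⟨y, hy, by simp⟩, by simp [mul_assoc]⟩
  rw [← e, Subgroup.map_map]
  convert (Subgroup.map_id L₁).symm using 2
  ext y
  simp [mul_assoc]

theorem both {G : Type*} [Group G] [Finite G] {T L L' : Subgroup G}
    (h : (Nat.card ↥T = 8 ∧ Nonempty (↥L ≃* Equiv.Perm (Fin 4))) ∨
      (Nat.card ↥T = 16 ∧ Nonempty (↥L ≃* Equiv.Perm (Fin 4) × Multiplicative (ZMod 2))))
    (h' : (Nat.card ↥T = 8 ∧ Nonempty (↥L' ≃* Equiv.Perm (Fin 4))) ∨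
      (Nat.card ↥T = 16 ∧ Nonempty (↥L' ≃* Equiv.Perm (Fin 4) × Multiplicative (ZMod 2)))) :
    (Nonempty (↥L ≃* Equiv.Perm (Fin 4)) ∧ Nonempty (↥L' ≃* Equiv.Perm (Fin 4))) ∨
      (Nonempty (↥L ≃* Equiv.Perm (Fin 4) × Multiplicative (ZMod 2)) ∧
        Nonempty (↥L' ≃* Equiv.Perm (Fin 4) × Multiplicative (ZMod 2))) := by
  rcases h with ⟨e, h⟩ | ⟨e, h⟩ <;> rcases h' with ⟨e', h'⟩ | ⟨e', h'⟩
  · exact Or.inl ⟨h, h'⟩
  · omega
  · omega
  · exact Or.inr ⟨h, h'⟩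
/-- Let G be a finite group of characteristic 2 type in which every 2-local subgroup is solvable and the centralizer of Ω₁(Z(S)) lies in N_G(S) for every Sylow 2-subgroup S; suppose O₂(G) = 1, fix a Sylow 2-subgroup S and a 2-local subgroup M containing N_G(J(S)) (J the Thompson subgroup generated by the elementary abelian 2-subgroups of largest order). If T is maximal (for the order of a largest elementary abelian subgroup, then the order of J(T), then the order of T) among the nontrivial 2-subgroups of M lying in a 2-local subgroup not inside M, then there are two distinct maximal 2-local subgroups P₁, P₂ of G, each having T as a Sylow 2-subgroup, that are both isomorphic to the symmetric group on four letters or both isomorphic to its direct product with a group of order 2. -/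
theorem result {G : Type*} [Group G] [Finite G] (hL : Cfsg.IsCharacteristicTwoType G) (hN : ∀ N : Subgroup G, Cfsg.IsTwoLocal N → Group.IsSolvable ↥N)
    (hZ : ∀ S : Sylow 2 G, Subgroup.centralizer (Cfsg.omegaCenterOf (S : Subgroup G) : Set G) ≤ Subgroup.normalizer ((S : Subgroup G) : Set G)) (hO : Cfsg.pCore 2 G = ⊥) (S : Sylow 2 G) (M : Subgroup G) (hM : Cfsg.IsTwoLocal M)
    (hMJ : Subgroup.normalizer (Cfsg.thompsonSubgroupOf 2 (S : Subgroup G) : Set G) ≤ M) (T : Subgroup G) (hT : T ∈ Cfsg.maxStraddlingTwoSubgroups M) :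
    ∃ P₁ P₂ : Subgroup G, P₁ ≠ P₂ ∧ Cfsg.IsMaximalTwoLocal P₁ ∧ Cfsg.IsMaximalTwoLocal P₂ ∧
      Cfsg.IsSylowTwoIn T P₁ ∧ Cfsg.IsSylowTwoIn T P₂ ∧
      ((Nonempty (↥P₁ ≃* Equiv.Perm (Fin 4)) ∧ Nonempty (↥P₂ ≃* Equiv.Perm (Fin 4))) ∨
        (Nonempty (↥P₁ ≃* Equiv.Perm (Fin 4) × Multiplicative (ZMod 2)) ∧
          Nonempty (↥P₂ ≃* Equiv.Perm (Fin 4) × Multiplicative (ZMod 2)))) := by
  haveI : Fact (Nat.Prime 2) := ⟨Nat.prime_two⟩
  have c : StraddleCtx S M T := ⟨hL, hN, hZ, hMJ, hT⟩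
  obtain ⟨K, hK⟩ := Cfsg.Agent.S2949.result hL hN hZ hO S M hM hMJ T hT
  have hnorm := Cfsg.Agent.S2952.result hL hN hZ hO S M hM hMJ T hT K hK
  have hTK : T ≤ Subgroup.normalizer (K : Set G) :=
    le_sup_right.trans ((Subgroup.normal_subgroupOf_iff_le_normalizer le_sup_left).1 hnorm)
  obtain ⟨L, hLmax, hKL, hTL⟩ := c.exists_local hK
  obtain ⟨⟨hKc, -⟩, hKM, -⟩ := hK
  have hbd : Nat.card ↥(z0Of T) ≤ 4 := (c.bound hO hKc hKM hLmax hTL hKL).2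
  obtain ⟨P, hTP, -, -⟩ := c.exists_sylow
  by_cases hPT : (P : Subgroup G) ≤ T
  swap
  · -- `T` is not a Sylow 2-subgroup
    obtain ⟨x, hx, hxT, hx2, hxn⟩ := exists_normalizing P.isPGroup' hTP hPT
    have hxL := c.not_mem_sylow hTL P.isPGroup' hTP hx hxT
    obtain ⟨pc, hb⟩ := c.pairCtx hKc hKM hLmax hTL hKL hxn hx2 hxL
    obtain ⟨u, hu, hu1, huT⟩ := pc.exists_fixed
    obtain ⟨-, hzero, -, hcardT, hC⟩ := pc.small hu hu1 huT hb
    obtain ⟨a₀, ha₀, b₀, hb₀, hne⟩ := pc.noncomm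
    have hinv : ∃ t₁ ∈ T, t₁ ∉ qOf T K ∧ t₁ * t₁ = 1 :=
      ⟨x * b₀ * x⁻¹, pc.xT _ (mem_qOf.1 (pc.W_le_Q hb₀)).1, fun h => hne ((mem_qOf.1 h).2 a₀ ha₀), by
        rw [show x * b₀ * x⁻¹ * (x * b₀ * x⁻¹) = x * (b₀ * b₀) * x⁻¹ by group, pc.W_sq hb₀]; group⟩
    have h := local_sym4 (c.ctx hLmax.1) ⟨c.two, hKc, hTK, pc.coreT⟩ c.T_ne_bot hTL hKL hzero hinv hcardT hC
    set φ := (MulAut.conj x).toMonoidHom with hφ
    have hTx : T.map φ = T :=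
      Subgroup.mem_normalizer_iff_map_conj_eq.1 (Subgroup.mem_normalizer_fintype fun y hy => hxn y hy)
    refine ⟨L, L.map φ, fun e => hxL (normalizer_maximalTwoLocal hLmax
      (Subgroup.mem_normalizer_iff_map_conj_eq.2 e.symm)), hLmax, isMaximalTwoLocal_map hLmax x, hTL, ?_, ?_⟩
    · have h1 := isSylowTwoIn_map (MulAut.conj x) hTL
      rwa [← hφ, hTx] at h1
    · have e : ↥L ≃* ↥(L.map φ) := Subgroup.equivMapOfInjective L φ (MulAut.conj x).injective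
      refine both h ?_
      rcases h with ⟨e8, ⟨i⟩⟩ | ⟨e16, ⟨i⟩⟩
      · exact Or.inl ⟨e8, ⟨e.symm.trans i⟩⟩
      · exact Or.inr ⟨e16, ⟨e.symm.trans i⟩⟩
  -- `T` is a Sylow 2-subgroup
  have hPeq : (P : Subgroup G) = T := le_antisymm hPT hTP
  have σ : SylCtx T := ⟨hL, hN, hZ, ⟨P, hPeq⟩, c.T_ne_bot, c.z0_central hO hKc hKM hLmax hTL hKL hTK⟩
  obtain ⟨K₁, K₂, -, hK₁, hK₂, hbot, hall⟩ := Cfsg.Agent.S2953.result hL hN hZ hO S M hM hMJ T hT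
  obtain ⟨-, -, -, -, -, L₁, hL₁, hP₁, hT₁, hu₁⟩ := hall (K₁ ⊔ T) (List.mem_cons_self ..)
  obtain ⟨-, -, -, -, -, L₂, hL₂, hP₂, hT₂, hu₂⟩ :=
    hall (K₂ ⊔ T) (List.mem_cons_of_mem _ (List.mem_cons_self ..))
  have hc₁ : Comp T K₁ L₁ := σ.mk_comp hK₁ hL₁ (le_sup_left.trans hP₁) hT₁
    fun L' hL' h1 h2 => hu₁ L' hL' (sup_le h1 h2)
  have hc₂ : Comp T K₂ L₂ := σ.mk_comp hK₂ hL₂ (le_sup_left.trans hP₂) hT₂
    fun L' hL' h1 h2 => hu₂ L' hL' (sup_le h1 h2)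
  have hne₁₂ : L₁ ≠ L₂ := by
    intro e
    subst e
    set Q := (K₁ ⊔ T) ⊔ (K₂ ⊔ T) with hQ
    have hTQ : T ≤ Q := le_sup_right.trans le_sup_left
    have hQL : Q ≤ L₁ := sup_le hP₁ hP₂
    have hO1 : Cfsg.pCoreOf 2 L₁ = ⊥ := eq_bot_iff.2 fun y hy => by
      have hyQ : y ∈ Q := hTQ (core_le_sylow hT₁ hy)
      have hn : ((Cfsg.pCoreOf 2 L₁).subgroupOf Q).Normal := ⟨fun z hz g => conj_mem_core (hQL g.2) hz⟩
      have h1 := CfsgLib.Components.le_pCore hn (p := 2) (isPGroup_pCoreOf L₁).comap_subtype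
      rw [← hbot]
      exact ⟨⟨y, hyQ⟩, h1 hy, rfl⟩
    refine c.T_ne_bot (eq_bot_iff.2 fun t _ => ?_)
    have h1 := (c.ctx hL₁.1).cent (Subgroup.mem_centralizer_iff.2 fun z hz => by
      rw [hO1] at hz
      rw [Subgroup.mem_bot.1 hz, one_mul, mul_one] : t ∈ Subgroup.centralizer (Cfsg.pCoreOf 2 L₁ : Set G))
    rw [hO1] at h1
    exact h1
  obtain ⟨A, LA, B, LB, u, hA, hB, hne, huA, huB, hu1, huT⟩ :
      ∃ A LA B LB u, Comp T A LA ∧ Comp T B LB ∧ LA ≠ LB ∧ u ∈ Cfsg.wOf A ∧ u ∈ Cfsg.wOf B ∧ u ≠ 1 ∧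
        ∀ t ∈ T, t * u = u * t := by
    obtain ⟨u₁, hu₁Z, hu₁W, hu₁1⟩ := σ.exists_u hK₁
    obtain ⟨u₂, hu₂Z, hu₂W, hu₂1⟩ := σ.exists_u hK₂
    have hp : IsPGroup 2 ↥(z0Of T) := isPGroup_of_sq fun y hy => (mem_omegaCenterOf.1 hy).2.2
    obtain ⟨m, hm⟩ := hp.exists_card_eq
    have hm2 : m ≤ 2 := (Nat.pow_le_pow_iff_right (by norm_num : 1 < 2)).1 (by rw [← hm]; simpa using hbd)
    have hm' : Nat.card ↥(z0Of T) ≤ 2 ∨ Nat.card ↥(z0Of T) = 4 := by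
      rw [hm]; interval_cases m <;> simp
    rcases hm' with h2 | h4
    · have e : u₂ = u₁ := two_of_card_le h2 hu₂Z hu₁Z hu₂1 hu₁1
      exact ⟨K₁, L₁, K₂, L₂, u₁, hc₁, hc₂, hne₁₂, hu₁W, e ▸ hu₂W, hu₁1, fun t ht => σ.z_comm hu₁Z ht⟩
    · refine σ.exists_pair h4 hc₁ hL₂ hT₂.1 hne₁₂.symm fun {K' L'} _ hfix g hg => hfix g ?_
      refine Subgroup.mem_normalizer_fintype fun t ht => ?_
      show g * t * g⁻¹ ∈ T
      have hcent : ∀ z ∈ z0Of T, g * t * g⁻¹ * z = z * (g * t * g⁻¹) := fun z hz => by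
        have hz' : g⁻¹ * z * g ∈ z0Of T := by
          have := conj_mem_omegaCenterOf (Subgroup.inv_mem _ hg) hz
          rwa [inv_inv] at this
        have := conj_comm g (σ.z_comm hz' ht)
        rwa [show g * (g⁻¹ * z * g) * g⁻¹ = z by group] at this
      obtain ⟨n, hn⟩ := c.two ⟨t, ht⟩
      refine σ.two_elem_mem (σ.cent_le hcent) (n := n) ?_
      rw [conj_pow, show t ^ 2 ^ n = 1 by simpa using congrArg Subtype.val hn]
      group
  have hp2 := SylCtx.pair2 σ.two hA hB hne huA hu1 huT huB hu1 huT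
  have hbo : Nat.card ↥(Cfsg.omegaCenterOf T) ≤ 4 := (Subgroup.card_le_of_le (omegaCenterOf_le T)).trans hbd
  obtain ⟨a1, a2, a3, a4⟩ := hp2.small rfl hbo false
  obtain ⟨b1, b2, b3, b4⟩ := hp2.small rfl hbo true
  exact ⟨LA, LB, hne, hA.maxi, hB.maxi, hA.syl, hB.syl,
    both (local_sym4 (c.ctx hA.maxi.1) (hp2.side false) c.T_ne_bot hA.syl hA.le a1 a2 a3 a4)
      (local_sym4 (c.ctx hB.maxi.1) (hp2.side true) c.T_ne_bot hB.syl hB.le b1 b2 b3 b4)⟩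

end Cfsg.Agent.S2954
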