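import Cfsg.Statements.S0518
import Cfsg.Agent.ZNEnd.Outside
import Cfsg.Agent.S2947
import Cfsg.Agent.S2952
import Cfsg.Agent.S2954
import Cfsg.Agent.JComp.Straddle

set_option autoImplicit false
open Cfsg

namespace Cfsg.Agent.S0518

/-- Let G be a finite group of characteristic 2 type with trivial 2-core in which every 2-local subgroup is solvable
and, for every Sylow 2-subgroup S, the centralizer of the set of central involutions of S lies in the normalizer of S.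
Then either G has a strongly embedded subgroup, or the subgroup generated by the elements of odd order has two distinct
maximal 2-local subgroups, each isomorphic to the symmetric group of degree 4, whose intersection has order 8. -/
theorem result {G : Type*} [Group G] [Finite G]
    (hL : Cfsg.IsCharacteristicTwoType G) (hO : Cfsg.pCore 2 G = ⊥)
    (hN : ∀ N : Subgroup G, Cfsg.IsTwoLocal N → Group.IsSolvable N)
    (hZ : ∀ S : Sylow 2 G,
      Subgroup.centralizer {z : G | z ∈ (S : Subgroup G) ∧ z ^ 2 = 1 ∧ ∀ s ∈ (S : Subgroup G), s * z = z * s} ≤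
        Subgroup.normalizer ((S : Subgroup G) : Set G))
    (H : Subgroup G) (hH : H = Subgroup.closure {g : G | Odd (orderOf g)}) :
    (∃ K : Subgroup G, Cfsg.IsStronglyEmbedded K) ∨
      ∃ M₁ M₂ : Subgroup H, M₁ ≠ M₂ ∧ Cfsg.IsMaximalTwoLocal M₁ ∧ Cfsg.IsMaximalTwoLocal M₂ ∧
        Nonempty (M₁ ≃* Equiv.Perm (Fin 4)) ∧ Nonempty (M₂ ≃* Equiv.Perm (Fin 4)) ∧ Nat.card ↥(M₁ ⊓ M₂) = 8 := by
  haveI : Fact (Nat.Prime 2) := ⟨Nat.prime_two⟩
  have hZ' : ∀ S : Sylow 2 G, Subgroup.centralizer (Cfsg.omegaCenterOf (S : Subgroup G) : Set G) ≤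
      Subgroup.normalizer ((S : Subgroup G) : Set G) := fun S g hg =>
    hZ S (Subgroup.mem_centralizer_iff.2 fun z hz => Subgroup.mem_centralizer_iff.1 hg z
      (CfsgLib.JComp.mem_omegaCenterOf.2 ⟨hz.1, hz.2.2, by rw [← pow_two]; exact hz.2.1⟩))
  obtain ⟨S⟩ := Sylow.nonempty (p := 2) (G := G)
  have hS1 : (S : Subgroup G) ≠ ⊥ := fun e => by
    have h2 := S.dvd_card_of_dvd_card (even_iff_two_dvd.1 hL.1)
    rw [e, Subgroup.card_bot] at h2
    omega
  set M := Subgroup.normalizer (Cfsg.thompsonSubgroupOf 2 (S : Subgroup G) : Set G) with hM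
  have hMl : Cfsg.IsTwoLocal M := ⟨_, CfsgLib.JComp.isPGroup_thompson S.isPGroup',
    CfsgLib.JComp.thompson_ne_bot_of_ne_bot S.isPGroup' hS1, rfl⟩
  by_cases hemp : Cfsg.straddlingTwoSubgroups M = ∅
  · exact Or.inl ⟨M, (Cfsg.Agent.S2947.result hL hN hZ' hO S M hMl le_rfl).2 hemp⟩
  obtain ⟨T, hT⟩ := Cfsg.Agent.S2952.exists_max (Set.nonempty_iff_ne_empty.2 hemp)
  obtain ⟨P₁, P₂, hne, hmax₁, hmax₂, hsyl₁, hsyl₂, ⟨⟨e₁⟩, ⟨e₂⟩⟩ | ⟨⟨e₁⟩, ⟨e₂⟩⟩⟩ :=
    Cfsg.Agent.S2954.result hL hN hZ' hO S M hMl le_rfl T hT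
  · have hp : CfsgLib.ZNEnd.Pair T (CfsgLib.ZNEnd.mdlOfS4 e₁) (CfsgLib.ZNEnd.mdlOfS4 e₂) :=
      ⟨hne, hmax₁, hmax₂, hsyl₁, hsyl₂⟩
    exact Or.inr (hp.conclusion H hH (fun _ => rfl) (fun _ => rfl))
  · have hcard : ∀ P : Subgroup G, (↥P ≃* Equiv.Perm (Fin 4) × Multiplicative (ZMod 2)) → Nat.card P = 48 := by
      intro P e
      rw [Nat.card_congr e.toEquiv, Nat.card_prod, Nat.card_perm, Nat.card_fin,
        Nat.card_congr Multiplicative.toAdd, Nat.card_zmod]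
      rfl
    have hc : ∀ (P : Subgroup G) (e : ↥P ≃* Equiv.Perm (Fin 4) × Multiplicative (ZMod 2)),
        (CfsgLib.ZNEnd.mdlOfS4C2 e).c ≠ 1 := by
      intro P e h
      have h1 : e.symm (1, Multiplicative.ofAdd 1) = 1 := Subtype.ext h
      have h2 := congrArg (fun p => (e p).2) h1
      simp at h2
    have hp : CfsgLib.ZNEnd.Pair48 T (CfsgLib.ZNEnd.mdlOfS4C2 e₁) (CfsgLib.ZNEnd.mdlOfS4C2 e₂) :=
      ⟨⟨hne, hmax₁, hmax₂, hsyl₁, hsyl₂⟩, hc _ _, hc _ _, hcard _ e₁, hcard _ e₂⟩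
    have hZ'' : ∀ S : Sylow 2 G, ∀ g : G, (∀ z ∈ (S : Subgroup G), z * z = 1 →
        (∀ s ∈ (S : Subgroup G), s * z = z * s) → z * g = g * z) →
        g ∈ Subgroup.normalizer ((S : Subgroup G) : Set G) := fun S g hg =>
      hZ S (Subgroup.mem_centralizer_iff.2 fun z hz => hg z hz.1 (by rw [← pow_two]; exact hz.2.1) hz.2.2)
    exact Or.inr (hp.toPair.conclusion H hH
      (fun h => absurd (hH.le h) (hp.c_notMem_oddGen hZ''))
      (fun h => absurd (hH.le h) (hp.symm.c_notMem_oddGen hZ'')))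

end Cfsg.Agent.S0518
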