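import Cfsg.Statements.S0520
import Cfsg.Agent.S0502

set_option autoImplicit false
open Cfsg

namespace Cfsg.Agent.S0520

theorem four_map {A B : Type*} [Group A] [Group B] (f : A →* B) (hf : Function.Injective f)
    {U : Subgroup A} (hU : IsKleinFour U) : IsKleinFour (U.map f) := by
  refine ⟨?_, ?_⟩
  · rw [← Nat.card_congr (U.equivMapOfInjective f hf).toEquiv]; exact hU.card_four
  · rw [← Monoid.exponent_eq_of_mulEquiv (U.equivMapOfInjective f hf)]; exact hU.exponent_two

theorem four_comap {A B : Type*} [Group A] [Group B] (f : A →* B) (hf : Function.Injective f)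
    {U : Subgroup A} (hU : IsKleinFour (U.map f)) : IsKleinFour U := by
  refine ⟨?_, ?_⟩
  · rw [Nat.card_congr (U.equivMapOfInjective f hf).toEquiv]; exact hU.card_four
  · rw [Monoid.exponent_eq_of_mulEquiv (U.equivMapOfInjective f hf)]; exact hU.exponent_two

/-- A group of 2-rank at least 2 contains a Klein four-subgroup. -/
theorem exists_four_of_rank {G : Type*} [Group G] [Finite G] {Q : Subgroup G} (hQ : ¬ Cfsg.PRankLE 2 1 Q) :
    ∃ A : Subgroup G, IsKleinFour A ∧ A ≤ Q := by
  classical
  simp only [Cfsg.PRankLE, not_forall, not_le] at hQ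
  obtain ⟨E, hE, hE2, hc⟩ := hQ
  rw [pow_one] at hc
  by_contra hcon
  have h2 : ∀ a b : E, a ≠ 1 → b ≠ 1 → a = b := by
    intro a b ha hb
    by_contra hab
    have hsq : ∀ x : E, ((x : ↥Q) : G) * ((x : ↥Q) : G) = 1 := fun x => by
      rw [← pow_two, ← SubgroupClass.coe_pow, hE2 x x.2]; rfl
    have hne : ∀ x : E, x ≠ 1 → ((x : ↥Q) : G) ≠ 1 := fun x hx h => hx (Subtype.ext (Subtype.ext h))
    obtain ⟨V, hV, -, -, hVm⟩ := Cfsg.Agent.S0502.exists_four ((a : ↥Q) : G) ((b : ↥Q) : G) (hsq a)
      (hsq b) (hne a ha) (hne b hb) (fun h => hab (Subtype.ext (Subtype.ext h)))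
      (congrArg (fun x : E => ((x : ↥Q) : G)) (hE.is_comm.comm a b))
    refine hcon ⟨V, hV, fun x hx => ?_⟩
    rcases hVm x hx with rfl | rfl | rfl | rfl
    · exact Q.one_mem
    · exact (a : ↥Q).2
    · exact (b : ↥Q).2
    · exact Q.mul_mem (a : ↥Q).2 (b : ↥Q).2
  obtain ⟨a, ha⟩ : ∃ a : E, a ≠ 1 := by
    haveI : Nontrivial E := Finite.one_lt_card_iff_nontrivial.1 (by omega)
    exact exists_ne 1
  have hsub : (Set.univ : Set E) ⊆ {1, a} := fun x _ => by
    by_cases hx : x = 1
    · exact Or.inl hx
    · exact Or.inr (h2 x a hx ha)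
  have := (Set.ncard_le_ncard hsub).trans ((Set.ncard_insert_le _ _).trans (by simp) : _ ≤ 2)
  rw [Set.ncard_univ] at this
  omega

theorem rank_of_four {G : Type*} [Group G] {A Q : Subgroup G} (hA : IsKleinFour A) (hAQ : A ≤ Q) :
    ¬ Cfsg.PRankLE 2 1 Q := by
  intro h
  obtain ⟨hsq, hcomm, -⟩ := Cfsg.Agent.S0502.four_facts hA
  have := h (A.subgroupOf Q) ⟨⟨fun a b => Subtype.ext (Subtype.ext (hcomm _ a.2 _ b.2))⟩⟩
    (fun a ha => Subtype.ext (by rw [SubgroupClass.coe_pow, pow_two]; exact hsq _ ha))
  rw [Nat.card_congr (Subgroup.subgroupOfEquivOfLe hAQ).toEquiv, hA.card_four] at this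
  norm_num at this

/-- Let G be a finite group of 2-rank at least 2 and S a Sylow 2-subgroup whose commuting graph of Klein four-subgroups is
connected. Then the commuting graph of Klein four-subgroups of G is disconnected if and only if the 2-generated core — the
subgroup generated by the normalizers N_G(Q) of the subgroups Q of S that contain a Klein four-group — is a proper
subgroup of G. -/
theorem result {G : Type*} [Group G] [Finite G] (h2 : ¬ Cfsg.PRankLE 2 1 G)
    (S : Sylow 2 G) (hS : Cfsg.IsFourConnected (S : Subgroup G)) :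
    ¬ Cfsg.IsFourConnected G ↔
      (⨆ Q : {Q : Subgroup G // Q ≤ (S : Subgroup G) ∧ ¬ Cfsg.PRankLE 2 1 Q},
          Subgroup.normalizer ((Q : Subgroup G) : Set G)) ≠ ⊤ := by
  classical
  haveI : Fact (Nat.Prime 2) := ⟨Nat.prime_two⟩
  set M : Subgroup G := ⨆ Q : {Q : Subgroup G // Q ≤ (S : Subgroup G) ∧ ¬ Cfsg.PRankLE 2 1 Q},
    Subgroup.normalizer ((Q : Subgroup G) : Set G) with hMdef
  have hNM : ∀ Q : Subgroup G, Q ≤ (S : Subgroup G) → ¬ Cfsg.PRankLE 2 1 Q →
      Subgroup.normalizer (Q : Set G) ≤ M := fun Q h1 h2 =>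
    le_iSup (fun Q : {Q : Subgroup G // Q ≤ (S : Subgroup G) ∧ ¬ Cfsg.PRankLE 2 1 Q} =>
      Subgroup.normalizer ((Q : Subgroup G) : Set G)) ⟨Q, h1, h2⟩
  -- every four-subgroup is conjugate into S
  have hsyl : ∀ A : Subgroup G, IsKleinFour A →
      ∃ g : G, A.map (MulAut.conj g).toMonoidHom ≤ (S : Subgroup G) := by
    intro A hA
    obtain ⟨P, hP⟩ := (IsPGroup.of_card (n := 2) (by rw [hA.card_four]; norm_num) : IsPGroup 2 A).exists_le_sylow
    obtain ⟨g, hg⟩ := MulAction.exists_smul_eq G P S
    refine ⟨g, ?_⟩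
    rintro _ ⟨a, ha, rfl⟩
    rw [← hg]
    exact Subgroup.smul_mem_pointwise_smul a (MulAut.conj g) _ (hP ha)
  have hGfour : ∃ A : Subgroup G, IsKleinFour A := by
    obtain ⟨A, hA, -⟩ := exists_four_of_rank (Q := (⊤ : Subgroup G)) (fun h => h2 (by
      intro E hE hE2
      have := h (E.map (Subgroup.topEquiv (G := G)).symm.toMonoidHom)
        (by haveI := hE; exact Subgroup.map_isMulCommutative E _)
        (by rintro _ ⟨a, ha, rfl⟩; rw [← map_pow, hE2 a ha, map_one])
      rwa [← Nat.card_congr (E.equivMapOfInjective _ (MulEquiv.injective _)).toEquiv] at this))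
    exact ⟨A, hA⟩
  have hSfour : ∃ A : Subgroup G, IsKleinFour A ∧ A ≤ (S : Subgroup G) := by
    obtain ⟨A, hA⟩ := hGfour
    obtain ⟨g, hg⟩ := hsyl A hA
    exact ⟨_, four_map _ (MulEquiv.injective _) hA, hg⟩
  obtain ⟨A0, hA0, hA0S⟩ := hSfour
  constructor
  · intro hdis hM
    apply hdis
    let R := fun A B : Subgroup G => IsKleinFour A ∧ IsKleinFour B ∧ ∀ a ∈ A, ∀ b ∈ B, a * b = b * a
    have hsymm : ∀ A B, Relation.ReflTransGen R A B → Relation.ReflTransGen R B A := by
      intro A B h
      induction h with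
      | refl => exact Relation.ReflTransGen.refl
      | tail _ h2 ih =>
        exact Relation.ReflTransGen.head ⟨h2.2.1, h2.1, fun a ha b hb => (h2.2.2 b hb a ha).symm⟩ ih
    let c : G → Subgroup G → Subgroup G := fun g A => A.map (MulAut.conj g).toMonoidHom
    have hc1 : ∀ (g : G) (A : Subgroup G), IsKleinFour A → IsKleinFour (c g A) := fun g A hA =>
      four_map _ (MulEquiv.injective _) hA
    have hconj : ∀ g A B, Relation.ReflTransGen R A B → Relation.ReflTransGen R (c g A) (c g B) := by
      intro g A B h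
      induction h with
      | refl => exact Relation.ReflTransGen.refl
      | tail _ h2 ih =>
        refine ih.tail ⟨hc1 g _ h2.1, hc1 g _ h2.2.1, ?_⟩
        rintro _ ⟨a, ha, rfl⟩ _ ⟨b, hb, rfl⟩
        rw [← map_mul, ← map_mul, h2.2.2 a ha b hb]
    -- S-connectivity transported to G
    have hSconn : ∀ A B : Subgroup G, IsKleinFour A → A ≤ (S : Subgroup G) → IsKleinFour B →
        B ≤ (S : Subgroup G) → Relation.ReflTransGen R A B := by
      intro A B hA hAS hB hBS
      have hA' : IsKleinFour (A.subgroupOf (S : Subgroup G)) :=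
        four_comap (S : Subgroup G).subtype Subtype.val_injective
          (by rw [Subgroup.map_subgroupOf_eq_of_le hAS]; exact hA)
      have hB' : IsKleinFour (B.subgroupOf (S : Subgroup G)) :=
        four_comap (S : Subgroup G).subtype Subtype.val_injective
          (by rw [Subgroup.map_subgroupOf_eq_of_le hBS]; exact hB)
      have key : ∀ X, Relation.ReflTransGen (fun A B : Subgroup (S : Subgroup G) =>
          IsKleinFour A ∧ IsKleinFour B ∧ ∀ a ∈ A, ∀ b ∈ B, a * b = b * a) (A.subgroupOf (S : Subgroup G)) X →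
          Relation.ReflTransGen R ((A.subgroupOf (S : Subgroup G)).map (S : Subgroup G).subtype)
            (X.map (S : Subgroup G).subtype) := by
        intro X hX
        induction hX with
        | refl => exact Relation.ReflTransGen.refl
        | tail _ hXY ih =>
          refine ih.tail ⟨four_map _ Subtype.val_injective hXY.1, four_map _ Subtype.val_injective hXY.2.1, ?_⟩
          rintro _ ⟨a, ha, rfl⟩ _ ⟨b, hb, rfl⟩
          rw [← map_mul, ← map_mul, hXY.2.2 a ha b hb]
      have h := key _ (hS _ _ hA' hB')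
      simpa [Subgroup.map_subgroupOf_eq_of_le hAS, Subgroup.map_subgroupOf_eq_of_le hBS] using h
    have hcomp : ∀ g h A, c g (c h A) = c (g * h) A := by
      intro g h A
      show (A.map _).map _ = A.map _
      rw [Subgroup.map_map]
      congr 1
      ext x
      simp [MulAut.conj_apply, mul_assoc]
    let H : Subgroup G :=
      { carrier := {g | Relation.ReflTransGen R A0 (c g A0)}
        one_mem' := by
          show Relation.ReflTransGen R A0 (c 1 A0)
          have : c 1 A0 = A0 := by
            show A0.map _ = A0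
            convert Subgroup.map_id A0
            ext x; simp
          rw [this]
        mul_mem' := by
          intro g h hg hh
          show Relation.ReflTransGen R A0 (c (g * h) A0)
          rw [← hcomp]
          exact Relation.ReflTransGen.trans hg (hconj g _ _ hh)
        inv_mem' := by
          intro g hg
          show Relation.ReflTransGen R A0 (c g⁻¹ A0)
          have h' := hsymm _ _ (hconj g⁻¹ _ _ hg)
          rw [hcomp, inv_mul_cancel] at h'
          have : c 1 A0 = A0 := by
            show A0.map _ = A0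
            convert Subgroup.map_id A0
            ext x; simp
          rwa [this] at h' }
    have hH : H = ⊤ := by
      refine top_le_iff.1 (hM ▸ iSup_le ?_)
      rintro ⟨Q, hQS, hQ⟩ g hg
      obtain ⟨A1, hA1, hA1Q⟩ := exists_four_of_rank hQ
      have hA1g : c g A1 ≤ Q := by
        rintro _ ⟨a, ha, rfl⟩
        exact (Subgroup.mem_normalizer_iff.1 hg a).1 (hA1Q ha)
      exact (hSconn A0 (c g A1) hA0 hA0S (hc1 g _ hA1) (hA1g.trans hQS)).trans
        (hconj g _ _ (hSconn A1 A0 hA1 (hA1Q.trans hQS) hA0 hA0S))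
    have key : ∀ A : Subgroup G, IsKleinFour A → Relation.ReflTransGen R A0 A := by
      intro A hA
      obtain ⟨g, hg⟩ := hsyl A hA
      have h1 : Relation.ReflTransGen R A0 (c g⁻¹ A0) := show g⁻¹ ∈ H by rw [hH]; trivial
      have h2 := hconj g⁻¹ _ _ (hSconn A0 (c g A) hA0 hA0S (hc1 g A hA) hg)
      rw [hcomp, inv_mul_cancel] at h2
      have : c 1 A = A := by
        show A.map _ = A
        convert Subgroup.map_id A
        ext x; simp
      rw [this] at h2
      exact h1.trans h2
    intro U V hU hV
    exact (hsymm _ _ (key U hU)).trans (key V hV)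
  · intro hM hconn
    apply hM
    have hSM : (S : Subgroup G) ≤ M :=
      Subgroup.le_normalizer.trans (hNM _ le_rfl (rank_of_four hA0 hA0S))
    have hCfour : ∀ A : Subgroup G, IsKleinFour A → A ≤ M → Subgroup.normalizer (A : Set G) ≤ M := by
      intro A hA hAM
      haveI : Fact (Nat.Prime 2) := ⟨Nat.prime_two⟩
      have hA' : IsKleinFour (A.subgroupOf M) :=
        four_comap M.subtype Subtype.val_injective (by rw [Subgroup.map_subgroupOf_eq_of_le hAM]; exact hA)
      obtain ⟨P, hP⟩ := (IsPGroup.of_card (n := 2) (by rw [hA'.card_four]; norm_num) :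
        IsPGroup 2 (A.subgroupOf M)).exists_le_sylow
      obtain ⟨m, hm⟩ := MulAction.exists_smul_eq M P (S.subtype hSM)
      have hAS : A.map (MulAut.conj (m : G)).toMonoidHom ≤ (S : Subgroup G) := by
        rintro _ ⟨a, ha, rfl⟩
        have := Subgroup.smul_mem_pointwise_smul (⟨a, hAM ha⟩ : M) (MulAut.conj m) _ (hP (show (⟨a, hAM ha⟩ : M) ∈ A.subgroupOf M from ha))
        have h' : (MulAut.conj m) • (⟨a, hAM ha⟩ : M) ∈ ((S.subtype hSM : Sylow 2 M) : Subgroup M) := by
          rw [← hm]; exact this
        rw [Sylow.coe_subtype] at h'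
        exact h'
      intro x hx
      have hx' : (m : G) * x * (m : G)⁻¹ ∈ M := by
        refine hNM _ hAS (rank_of_four (four_map _ (MulEquiv.injective _) hA) le_rfl) ?_
        rw [← Subgroup.map_equiv_normalizer_eq]
        exact ⟨x, hx, rfl⟩
      have := M.mul_mem (M.mul_mem (M.inv_mem m.2) hx') m.2
      simpa [mul_assoc] using this
    have hall : ∀ A : Subgroup G, IsKleinFour A → A ≤ M := by
      intro A hA
      have h := hconn A0 A hA0 hA
      induction h with
      | refl => exact hA0S.trans hSM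
      | tail _ h2 ih =>
        intro b hb
        exact hCfour _ h2.1 (ih h2.1) (Subgroup.centralizer_le_normalizer _
          (Subgroup.mem_centralizer_iff.2 fun a ha => h2.2.2 a ha b hb))
    let K : Subgroup G := ⨆ A : {A : Subgroup G // IsKleinFour A}, (A : Subgroup G)
    have hKM : K ≤ M := iSup_le fun A => hall A A.2
    haveI : K.Normal := by
      refine ⟨fun x hx g => ?_⟩
      have : K.map (MulAut.conj g).toMonoidHom ≤ K := by
        rw [Subgroup.map_iSup]
        exact iSup_le fun A => le_iSup (fun A : {A : Subgroup G // IsKleinFour A} => (A : Subgroup G))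
          ⟨_, four_map _ (MulEquiv.injective _) A.2⟩
      exact this ⟨x, hx, rfl⟩
    have hA0K : A0 ≤ K := le_iSup (fun A : {A : Subgroup G // IsKleinFour A} => (A : Subgroup G)) ⟨A0, hA0⟩
    let T : Subgroup K := (S : Subgroup G).subgroupOf K
    have hTsyl : ∃ P : Sylow 2 K, (P : Subgroup K) = T := by
      obtain ⟨P, hP⟩ := (show IsPGroup 2 T from
        S.2.comap_of_injective K.subtype Subtype.val_injective).exists_le_sylow
      obtain ⟨g, hg⟩ : ∃ g : G, (P : Subgroup K).map K.subtype ≤
          (S : Subgroup G).map (MulAut.conj g).toMonoidHom := by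
        obtain ⟨Q, hQ⟩ := (P.2.map K.subtype).exists_le_sylow
        obtain ⟨g, hg⟩ := MulAction.exists_smul_eq G S Q
        refine ⟨g, fun y hy => ?_⟩
        have h1 := hQ hy
        rw [← hg] at h1
        exact h1
      refine ⟨P, le_antisymm ?_ hP⟩
      intro y hy
      have hcard : Nat.card (P : Subgroup K) ≤ Nat.card T := by
        let f : ↥(P : Subgroup K) → T := fun z => ⟨⟨g⁻¹ * ((z : K) : G) * g, by
            simpa using (inferInstance : K.Normal).conj_mem _ (z : K).2 g⁻¹⟩, by
            obtain ⟨s, hs, hsz⟩ := hg ⟨(z : K), z.2, rfl⟩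
            show g⁻¹ * ((z : K) : G) * g ∈ (S : Subgroup G)
            rw [show ((z : K) : G) = g * s * g⁻¹ from hsz.symm]
            have e : g⁻¹ * (g * s * g⁻¹) * g = s := by group
            rw [e]
            exact hs⟩
        exact Nat.card_le_card_of_injective f fun z w hzw => by
          have := congrArg (fun t : T => ((t : K) : G)) hzw
          exact Subtype.ext (Subtype.ext (mul_left_cancel (mul_right_cancel this)))
      rw [Subgroup.eq_of_le_of_card_ge hP hcard]
      exact hy
    obtain ⟨P, hPT⟩ := hTsyl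
    have hfr := Sylow.normalizer_sup_eq_top (N := K) P
    rw [eq_top_iff, ← hfr]
    refine sup_le ?_ hKM
    have hPS : ((P : Subgroup K).map K.subtype) = (S : Subgroup G) ⊓ K := by
      rw [hPT]; exact Subgroup.subgroupOf_map_subtype _ _
    show Subgroup.normalizer (((P : Subgroup K).map K.subtype : Subgroup G) : Set G) ≤ M
    rw [hPS]
    exact hNM _ inf_le_left (rank_of_four hA0 (le_inf hA0S hA0K))

end Cfsg.Agent.S0520
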