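import Cfsg.Statements.S0521
import Cfsg.Agent.PLocalBasics.StableW
import Cfsg.Agent.S0626

set_option autoImplicit false
open Cfsg

namespace Cfsg.Agent.S0521

open scoped commutatorElement

/-- Let X be a finite solvable group of odd order, p a prime and S a Sylow p-subgroup of X whose commutator subgroup is
cyclic. Then the product of the largest normal subgroup of X of order prime to p with S is a normal subgroup of X. -/
theorem result {X : Type*} [Group X] [Finite X] [Group.IsSolvable X]
    (hX : Odd (Nat.card X)) (p : ℕ) [Fact p.Prime] (S : Sylow p X) (hS : IsCyclic (commutator (S : Subgroup X))) :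
    (Cfsg.pPrimeCore p X ⊔ (S : Subgroup X)).Normal := by
  classical
  by_cases hp : p = 2
  · subst hp
    have htop : (⊤ : Subgroup X) ≤ Cfsg.pPrimeCore 2 X := CfsgLib.PCore.le_pPrimeCore inferInstance (by
      rw [Subgroup.card_top]; exact hX.coprime_two_right)
    have : Cfsg.pPrimeCore 2 X ⊔ (S : Subgroup X) = ⊤ := top_le_iff.1 (htop.trans le_sup_left)
    rw [this]; infer_instance
  set N := Cfsg.pPrimeCore p X with hN
  set π := QuotientGroup.mk' N with hπ
  have hπs : Function.Surjective π := QuotientGroup.mk'_surjective N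
  let T : Sylow p (X ⧸ N) := S.mapSurjective hπs
  have hT : (T : Subgroup (X ⧸ N)) = (S : Subgroup X).map π := Sylow.coe_mapSurjective hπs S
  suffices hn : (T : Subgroup (X ⧸ N)).Normal by
    have h := hn.comap π
    rwa [hT, Subgroup.comap_map_eq, hπ, QuotientGroup.ker_mk', sup_comm] at h
  have hodd : Odd (Nat.card (X ⧸ N)) := Odd.of_dvd_nat hX (Subgroup.card_quotient_dvd_card N)
  have hc0 : Cfsg.pPrimeCore p (X ⧸ N) = ⊥ := CfsgLib.PCore.pPrimeCore_quotient
  have hc : Subgroup.centralizer (Cfsg.pCore p (X ⧸ N) : Set (X ⧸ N)) ≤ Cfsg.pCore p (X ⧸ N) :=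
    (CfsgLib.PCore.isPConstrained_iff_of_core_eq_bot hc0).1 CfsgLib.PCore.isPConstrained_of_isSolvable
  have hab : ∀ R : Sylow 2 (X ⧸ N), IsMulCommutative R := by
    intro R
    have : Nat.card R = 1 := by
      obtain ⟨n, hn⟩ := R.2.exists_card_eq
      rcases n with _ | n
      · simpa using hn
      · exfalso
        have h2 : 2 ∣ Nat.card (X ⧸ N) :=
          (dvd_pow_self 2 n.succ_ne_zero).trans (hn ▸ Subgroup.card_subgroup_dvd_card _)
        exact Nat.not_even_iff_odd.2 hodd (even_iff_two_dvd.2 h2)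
    haveI := (Nat.card_eq_one_iff_unique.1 this).1
    exact ⟨⟨fun a b => Subsingleton.elim _ _⟩⟩
  have hst := (Cfsg.Agent.S0626.result (p := p) hp hab).2.1
  set Y := X ⧸ N
  set K := Cfsg.pCore p Y with hK
  set Φ := (frattini ↥K).map K.subtype with hΦ
  have hKT : K ≤ (T : Subgroup Y) := CfsgLib.PCore.pCore_le_sylow T
  have hKp : IsPGroup p K := CfsgLib.PCore.isPGroup_pCore p Y
  haveI hTc : IsCyclic ↥⁅(T : Subgroup Y), (T : Subgroup Y)⁆ := by
    have e1 : (commutator ↥(S : Subgroup X)).map (S : Subgroup X).subtype = ⁅(S : Subgroup X), (S : Subgroup X)⁆ := by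
      rw [commutator_def, Subgroup.map_commutator, ← MonoidHom.range_eq_map, Subgroup.range_subtype]
    rw [hT, ← Subgroup.map_commutator, ← e1, Subgroup.map_map]
    exact isCyclic_of_surjective _ ((π.comp (S : Subgroup X).subtype).subgroupMap_surjective _)
  have hTK : (T : Subgroup Y) ≤ K := by
    intro s hs
    have hsT : Subgroup.zpowers s ≤ (T : Subgroup Y) := Subgroup.zpowers_le.2 hs
    have hKn : Subgroup.zpowers s ≤ Subgroup.normalizer (K : Set Y) := by
      haveI : K.Normal := Cfsg.pCore_normal p Y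
      rw [Subgroup.normalizer_eq_top]; exact le_top
    set D := ⁅K, Subgroup.zpowers s⁆ with hD
    have hDK : D ≤ K := CfsgLib.PCore.commutator_le_of_le_normalizer hKn
    have hDC : D ≤ ⁅(T : Subgroup Y), (T : Subgroup Y)⁆ := Subgroup.commutator_mono hKT hsT
    haveI : IsCyclic ↥D := isCyclic_of_injective _ (Subgroup.inclusion_injective hDC)
    have hDn : Subgroup.zpowers s ≤ Subgroup.normalizer (D : Set Y) :=
      CfsgLib.PCore.le_normalizer_commutator hKn Subgroup.le_normalizer
    have h2 : ⁅D, Subgroup.zpowers s⁆ ≤ Φ := by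
      by_cases hDb : D = ⊥
      · rw [hDb, Subgroup.commutator_bot_left]; exact bot_le
      have hlt : ⁅D, Subgroup.zpowers s⁆ ≠ D :=
        CfsgLib.PCore.commutator_ne_of_isPGroup (hKp.to_le hDK) (T.2.to_le hsT) hDn hDb
      have hle : ⁅D, Subgroup.zpowers s⁆ ≤ D := CfsgLib.PCore.commutator_le_of_le_normalizer hDn
      obtain ⟨d, hd⟩ := IsCyclic.exists_generator (α := ↥D)
      intro x hx
      obtain ⟨i, hi⟩ := Subgroup.mem_zpowers_iff.1 (hd ⟨x, hle hx⟩)
      have hxd : x = (d : Y) ^ i := by
        have := congrArg Subtype.val hi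
        simpa using this.symm
      by_cases hpi : (p : ℤ) ∣ i
      · obtain ⟨j, rfl⟩ := hpi
        refine ⟨(⟨(d : Y), hDK d.2⟩ : K) ^ ((p : ℤ) * j), ?_, by simp [hxd]⟩
        rw [zpow_mul, zpow_natCast]
        exact Subgroup.zpow_mem _ (CfsgLib.CoprimeAction.pow_mem_frattini hKp _) j
      · exfalso
        refine hlt (le_antisymm hle fun y hy => ?_)
        obtain ⟨n, hn⟩ := (hKp.to_le hDK).exists_card_eq
        have hord : ((d : Y)) ^ ((p : ℤ) ^ n) = 1 := by
          have h1 : d ^ (p ^ n) = 1 := by rw [← hn]; exact pow_card_eq_one'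
          have h2 := congrArg Subtype.val h1
          rw [SubgroupClass.coe_pow] at h2
          rw [← Nat.cast_pow, zpow_natCast]
          exact h2
        obtain ⟨a, b, hab'⟩ : ∃ a b : ℤ, a * i + b * (p : ℤ) ^ n = 1 := by
          have hco : IsCoprime i ((p : ℤ) ^ n) := by
            refine IsCoprime.pow_right ?_
            exact ((Nat.prime_iff_prime_int.1 Fact.out).coprime_iff_not_dvd.2 hpi).symm
          exact hco
        have hdmem : (d : Y) ∈ ⁅D, Subgroup.zpowers s⁆ := by
          have : (d : Y) = x ^ a := by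
            conv_lhs => rw [← zpow_one (d : Y), ← hab', zpow_add, mul_comm a i, zpow_mul, ← hxd,
              mul_comm b, zpow_mul, hord, one_zpow, mul_one]
          rw [this]
          exact Subgroup.zpow_mem _ hx a
        obtain ⟨k, hk⟩ := Subgroup.mem_zpowers_iff.1 (hd ⟨y, hy⟩)
        have hyd : y = (d : Y) ^ k := by
          have := congrArg Subtype.val hk
          simpa using this.symm
        rw [hyd]
        exact Subgroup.zpow_mem _ hdmem k
    obtain ⟨E, hEn, hCE, ⟨k, hk⟩, hsE⟩ := hst s h2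
    obtain ⟨j, hj⟩ := IsPGroup.iff_card.1 (CfsgLib.PLocalBasics.sectionKernel_frattini_isPGroup hc)
    refine CfsgLib.PCore.le_pCore hEn (IsPGroup.of_card (n := j + k) ?_) hsE
    rw [← Subgroup.relIndex_bot_left, ← Subgroup.relIndex_mul_relIndex _ _ _ bot_le hCE, hk,
      Subgroup.relIndex_bot_left, hj, pow_add]
  rw [le_antisymm hTK hKT]
  exact Cfsg.pCore_normal p Y


end Cfsg.Agent.S0521
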