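import Cfsg.Statements.S1480
import Mathlib.Tactic
import Cfsg.Agent.Signalizer.Transitivity

set_option autoImplicit false
open Cfsg
open scoped commutatorElement

namespace Cfsg.Agent.S1480

/-- Let G be a finite group and p a prime such that the normalizer of every nontrivial p-subgroup of G is p-constrained; if p = 2 assume also that the Sylow 2-subgroups of G have nilpotency class at most 2. Let E be an abelian p-subgroup containing an elementary abelian subgroup of order p ^ 3 and containing every element of p-power order of C_G(E). Then for every prime q ≠ p, any two maximal E-invariant q-subgroups of G are conjugate by an element of O_{p'}(C_G(E)). -/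
theorem result {G : Type*} [Group G] [Finite G] (p : ℕ) [Fact p.Prime]
    (hloc : ∀ T : Subgroup G, IsPGroup p T → T ≠ ⊥ → Cfsg.IsPConstrained p ↥(Subgroup.normalizer (T : Set G)))
    (h2 : p = 2 → ∀ S : Sylow p G, Group.IsNilpotent (S : Subgroup G) ∧ Group.nilpotencyClass (S : Subgroup G) ≤ 2)
    (E : Subgroup G) (hEp : IsPGroup p E) (hEc : IsMulCommutative E) (hE3 : ¬ Cfsg.PRankLE p 2 E)
    (hEfull : ∀ x ∈ Subgroup.centralizer (E : Set G), IsPGroup p (Subgroup.zpowers x) → x ∈ E)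
    (q : ℕ) [Fact q.Prime] (hqp : q ≠ p) :
    ∀ Q₁ ∈ Cfsg.maxInvSubgroups ⊤ E {q}, ∀ Q₂ ∈ Cfsg.maxInvSubgroups ⊤ E {q},
        ∃ k ∈ Cfsg.piCoreOf (Cfsg.primesNotDvd p) (Subgroup.centralizer (E : Set G)), Q₂ = Q₁.map (MulAut.conj k).toMonoidHom := by
  have hp : p.Prime := Fact.out
  have := hEc
  have hfull : ∀ x ∈ Subgroup.centralizer (E : Set G), ∀ k : ℕ, x ^ p ^ k = 1 → x ∈ E := by
    intro x hx k hk
    obtain ⟨j, -, hj⟩ := (Nat.dvd_prime_pow hp).1 (orderOf_dvd_of_pow_eq_one hk)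
    exact hEfull x hx (IsPGroup.of_card (n := j) (by rw [Nat.card_zpowers, hj]))
  have h2' : p = 2 → ∀ S : Subgroup G, IsPGroup p S → ⁅⁅S, S⁆, S⁆ = ⊥ := by
    intro hp2 S hS
    obtain ⟨T, hT⟩ := hS.exists_le_sylow
    obtain ⟨hn, hcl⟩ := h2 hp2 T
    have := hn
    rw [← le_bot_iff]
    refine (Subgroup.commutator_mono (Subgroup.commutator_mono hT hT) hT).trans ?_
    have h3 : (⊤ : Subgroup ↥(T : Subgroup G)).lowerCentralSeries 2 = ⊥ :=
      Subgroup.lowerCentralSeries_eq_bot_iff_nilpotencyClass_le.2 hcl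
    have h4 := congrArg (Subgroup.map (T : Subgroup G).subtype) h3
    simp only [Subgroup.lowerCentralSeries_succ, Subgroup.lowerCentralSeries_zero, Subgroup.map_commutator,
      Subgroup.map_bot, ← MonoidHom.range_eq_map, Subgroup.range_subtype] at h4
    exact le_of_eq h4
  obtain ⟨A, hAc, hAp, hAcard⟩ : ∃ A : Subgroup E, IsMulCommutative A ∧ (∀ a ∈ A, a ^ p = 1) ∧ p ^ 2 < Nat.card A := by
    by_contra hcon
    exact hE3 fun A hA hAp => not_lt.1 fun hlt => hcon ⟨A, hA, hAp, hlt⟩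
  have hA : Cfsg.IsElementaryAbelian p (A.map E.subtype) := by
    refine ⟨inferInstance, ?_⟩
    rintro _ ⟨a, ha, rfl⟩
    rw [← map_pow, hAp a ha, map_one]
  have hA3 : p ^ 3 ≤ Nat.card ↥(A.map E.subtype) := by
    rw [Subgroup.card_map_of_injective Subtype.val_injective]
    obtain ⟨n, hn⟩ := IsPGroup.iff_card.1 (hEp.to_subgroup A)
    rw [hn] at hAcard ⊢
    exact Nat.pow_le_pow_right hp.pos ((Nat.pow_lt_pow_iff_right hp.one_lt).1 hAcard)
  intro Q₁ h₁ Q₂ h₂
  obtain ⟨c, hc, hce⟩ := CfsgLib.Signalizer.transitivity hloc h2' hEp (Subgroup.map_subtype_le A) hA hA3 hfull hqp h₁ h₂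
  obtain ⟨e, he, k, hk, hck⟩ := CfsgLib.Signalizer.exists_factor_centralizer hEp hfull hc
  refine ⟨k, hk, ?_⟩
  rw [hce, hck, CfsgLib.Signalizer.conj_smul_mul,
    CfsgLib.Signalizer.conj_smul_eq_self ((CfsgLib.Signalizer.mem_invSubgroups_top_singleton.1 h₁.1).2 he)]
  rfl

end Cfsg.Agent.S1480
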