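import Cfsg.Statements.S0522
import Cfsg.Agent.S1480
import Cfsg.Agent.PReduced.Basic
import Cfsg.Agent.PCore.PConstrained

set_option autoImplicit false
open Cfsg

namespace Cfsg.Agent.S0522

/-- Transitivity Theorem (odd-order setting). Let X be a finite group of odd order in which the normalizer of every
nontrivial p-subgroup is solvable, P a Sylow p-subgroup, and B an abelian subgroup of P, normalized by P, with
C_P(B) = B and containing an elementary abelian subgroup of order p^3. Then for every prime q ≠ p, any two q-subgroups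
that are maximal among the q-subgroups normalized by B are conjugate by an element of the centralizer of B. -/
theorem result {X : Type*} [Group X] [Finite X] (hX : Odd (Nat.card X)) (p : ℕ)
    [Fact p.Prime] (hloc : ∀ T : Subgroup X, IsPGroup p T → T ≠ ⊥ → Group.IsSolvable (Subgroup.normalizer (T : Set X)))
    (P : Sylow p X) (B : Subgroup X) (hBP : B ≤ (P : Subgroup X))
    (hBn : ∀ x ∈ (P : Subgroup X), ∀ b ∈ B, x * b * x⁻¹ ∈ B) (hBa : IsMulCommutative B)
    (hBc : (P : Subgroup X) ⊓ Subgroup.centralizer (B : Set X) = B)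
    (hB3 : ∃ E : Subgroup X, E ≤ B ∧ (∀ e ∈ E, e ^ p = 1) ∧ p ^ 3 ≤ Nat.card E)
    (q : ℕ) [Fact q.Prime] (hqp : q ≠ p) (Q₁ Q₂ : Subgroup X)
    (h₁ : IsPGroup q Q₁ ∧ B ≤ Subgroup.normalizer (Q₁ : Set X) ∧
      ∀ R : Subgroup X, IsPGroup q R → B ≤ Subgroup.normalizer (R : Set X) → Q₁ ≤ R → R = Q₁)
    (h₂ : IsPGroup q Q₂ ∧ B ≤ Subgroup.normalizer (Q₂ : Set X) ∧
      ∀ R : Subgroup X, IsPGroup q R → B ≤ Subgroup.normalizer (R : Set X) → Q₂ ≤ R → R = Q₂) :
    ∃ c ∈ Subgroup.centralizer (B : Set X), Q₂ = Q₁.map (MulAut.conj c).toMonoidHom := by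
  classical
  obtain ⟨E, hEB, hEp, hEc⟩ := hB3
  have hp : p.Prime := Fact.out
  have hp2 : p ≠ 2 := by
    rintro rfl
    obtain ⟨n, hn⟩ := (P.2.to_le (hEB.trans hBP)).exists_card_eq
    have hdvd : 2 ∣ Nat.card X := by
      refine dvd_trans ?_ (Subgroup.card_subgroup_dvd_card E)
      rw [hn]
      rw [hn] at hEc
      exact dvd_pow_self 2 (by rintro rfl; simp at hEc)
    exact Nat.not_even_iff_odd.2 hX (even_iff_two_dvd.2 hdvd)
  have hBC : B ≤ Subgroup.centralizer (B : Set X) :=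
    fun b hb => Subgroup.mem_centralizer_iff.2 fun c hc =>
      congrArg Subtype.val (hBa.is_comm.comm ⟨c, hc⟩ ⟨b, hb⟩)
  have hfull : ∀ x ∈ Subgroup.centralizer (B : Set X), IsPGroup p (Subgroup.zpowers x) → x ∈ B := by
    intro x hx hxp
    have hPN : (P : Subgroup X) ≤ Subgroup.normalizer (B : Set X) := by
      intro g hg
      rw [Subgroup.mem_normalizer_iff]
      refine fun b => ⟨hBn g hg b, fun hb => ?_⟩
      have := hBn g⁻¹ ((P : Subgroup X).inv_mem hg) _ hb
      simpa [mul_assoc] using this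
    have hNC : Subgroup.normalizer (B : Set X) ≤
        Subgroup.normalizer ((Subgroup.centralizer (B : Set X) : Subgroup X) : Set X) :=
      fun g hg => CfsgLib.PReduced.normalizer_le_normalizer_centralizer _ hg
    obtain ⟨S, hS⟩ := CfsgLib.PReduced.exists_sylow_inf_of_le P hPN (Subgroup.centralizer_le_normalizer _) hNC
    rw [hBc] at hS
    haveI hBnC : (B.subgroupOf (Subgroup.centralizer (B : Set X))).Normal := by
      refine ⟨fun y hy g => ?_⟩
      show ((g : X) * (y : X) * (g : X)⁻¹) ∈ B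
      have := Subgroup.mem_centralizer_iff.1 g.2 (y : X) hy
      rw [← this, mul_inv_cancel_right]; exact hy
    have hxs : IsPGroup p ↥(Subgroup.zpowers x ⊔ B) :=
      hxp.to_sup_of_normal_right' (P.2.to_le hBP) (Subgroup.zpowers_le.2 (Subgroup.centralizer_le_normalizer _ hx))
    have hle : Subgroup.zpowers x ⊔ B ≤ Subgroup.centralizer (B : Set X) := sup_le (Subgroup.zpowers_le.2 hx) hBC
    have h3 := S.3 (hxs.of_equiv (Subgroup.subgroupOfEquivOfLe hle).symm)
      (by rw [hS]; exact fun y hy => (le_sup_right : B ≤ _) hy)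
    have : (⟨x, hx⟩ : Subgroup.centralizer (B : Set X)) ∈ (S : Subgroup (Subgroup.centralizer (B : Set X))) := by
      rw [← h3]
      exact (le_sup_left : Subgroup.zpowers x ≤ _) (Subgroup.mem_zpowers x)
    rw [hS] at this
    exact this
  have hB3' : ¬ Cfsg.PRankLE p 2 B := by
    intro h
    have := h (E.subgroupOf B) ⟨⟨fun a b => Subtype.ext (hBa.is_comm.comm (a : B) (b : B))⟩⟩
      (fun a ha => Subtype.ext (by rw [SubgroupClass.coe_pow]; exact hEp _ ha))
    rw [Nat.card_congr (Subgroup.subgroupOfEquivOfLe hEB).toEquiv] at this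
    have := (Nat.pow_le_pow_iff_right hp.one_lt).1 (hEc.trans this)
    omega
  have hmax : ∀ Q : Subgroup X, (IsPGroup q Q ∧ B ≤ Subgroup.normalizer (Q : Set X) ∧
      ∀ R : Subgroup X, IsPGroup q R → B ≤ Subgroup.normalizer (R : Set X) → Q ≤ R → R = Q) →
      Q ∈ Cfsg.maxInvSubgroups ⊤ B {q} := fun Q ⟨h1, h2, h3⟩ =>
    ⟨CfsgLib.Signalizer.mem_invSubgroups_top_singleton.2 ⟨h1, h2⟩, fun R hR hQR =>
      h3 R (CfsgLib.Signalizer.mem_invSubgroups_top_singleton.1 hR).1
        (CfsgLib.Signalizer.mem_invSubgroups_top_singleton.1 hR).2 hQR⟩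
  obtain ⟨k, hk, hQ⟩ := Cfsg.Agent.S1480.result p
    (fun T hT hne => haveI := hloc T hT hne; CfsgLib.PCore.isPConstrained_of_isSolvable)
    (fun h => absurd h hp2) B (P.2.to_le hBP) hBa hB3' hfull q hqp Q₁ (hmax Q₁ h₁) Q₂ (hmax Q₂ h₂)
  exact ⟨k, Subgroup.map_subtype_le _ hk, hQ⟩


end Cfsg.Agent.S0522
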