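import Cfsg.Statements.S0540
import Cfsg.Agent.Subnormal.Basic
import Cfsg.Agent.S0539
import Mathlib

set_option autoImplicit false
open Pointwise
open Cfsg

namespace Cfsg.Agent.S0540

/-- A uniqueness lemma of zipper type. Let A be a subgroup of a finite group G and U a nonempty family of subgroups. For V in U write S(V) for the set of conjugates of A that lie in V and are subnormal in V. Assume: A belongs to S(V) for every V in U; a member of some S(W) that lies in V belongs to S(V); and for all V, W in U the normalizer of the join of S(V) ∩ S(W) lies in some member of U. Then U has a greatest element. -/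
theorem result {G : Type*} [Group G] [Finite G] (A : Subgroup G) (U : Set (Subgroup G)) (hU : U.Nonempty) (S : Subgroup G → Set (Subgroup G)) (hS : ∀ V B : Subgroup G, B ∈ S V ↔ (∃ g : G, B = MulAut.conj g • A) ∧ B ≤ V ∧ (B.subgroupOf V).IsSubnormal) (h1 : ∀ V ∈ U, A ∈ S V) (h2 : ∀ V ∈ U, ∀ W ∈ U, ∀ B ∈ S W, B ≤ V → B ∈ S V) (h3 : ∀ V ∈ U, ∀ W ∈ U, ∃ X ∈ U, Subgroup.normalizer ((sSup (S V ∩ S W) : Subgroup G) : Set G) ≤ X) : ∃ M ∈ U, ∀ V ∈ U, V ≤ M := by
  classical
  have fam : ∀ V : Subgroup G, ∀ S₀ : Set (Subgroup G), S₀ ⊂ S V →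
      ∃ X ∈ S V, X ∉ S₀ ∧ X ≤ Subgroup.normalizer ((sSup S₀ : Subgroup G) : Set G) := by
    intro V S₀ h0
    let T : Set (Subgroup V) := {W | W.map V.subtype ∈ S V}
    let T0 : Set (Subgroup V) := {W | W.map V.subtype ∈ S₀}
    have hle : ∀ B ∈ S V, B ≤ V := fun B hB => ((hS V B).1 hB).2.1
    obtain ⟨X, hX, hX0, hXn⟩ := Cfsg.Agent.S0539.result T T0
      (fun W hW => by
        have := ((hS V _).1 hW).2.2
        rwa [Subgroup.subgroupOf, Subgroup.comap_map_eq_self_of_injective V.subtype_injective] at this)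
      (fun W hW g => by
        change Subgroup.map V.subtype (W.map (MulAut.conj g).toMonoidHom) ∈ S V
        obtain ⟨⟨k, hk⟩, hWV, hsn⟩ := (hS V _).1 hW
        rw [hS]
        have e : (W.map (MulAut.conj g).toMonoidHom).map V.subtype = MulAut.conj (g : G) • W.map V.subtype := by
          change _ = (W.map V.subtype).map (MulAut.conj (g : G)).toMonoidHom
          rw [Subgroup.map_map, Subgroup.map_map]
          congr 1
        refine ⟨⟨g * k, by rw [e, hk, map_mul, mul_smul]⟩, Subgroup.map_subtype_le _, ?_⟩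
        rw [Subgroup.subgroupOf, Subgroup.comap_map_eq_self_of_injective V.subtype_injective]
        rw [Subgroup.subgroupOf, Subgroup.comap_map_eq_self_of_injective V.subtype_injective] at hsn
        exact CfsgLib.Subnormal.isSubnormal_conj hsn g)
      (ssubset_iff_subset_ne.2 ⟨fun W hW => h0.subset hW, fun e => by
        obtain ⟨B, hB, hB0⟩ := Set.exists_of_ssubset h0
        have h1 : B.subgroupOf V ∈ T := by
          change _ ∈ S V; rw [Subgroup.map_subgroupOf_eq_of_le (hle B hB)]; exact hB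
        rw [← e] at h1
        change _ ∈ S₀ at h1
        rw [Subgroup.map_subgroupOf_eq_of_le (hle B hB)] at h1
        exact hB0 h1⟩)
    refine ⟨X.map V.subtype, hX, hX0, ?_⟩
    have e : (sSup T0 : Subgroup V).map V.subtype = sSup S₀ := by
      apply le_antisymm
      · rw [Subgroup.map_le_iff_le_comap]
        exact sSup_le fun W hW => Subgroup.map_le_iff_le_comap.1 (le_sSup hW)
      · refine sSup_le fun W hW => ?_
        rw [← Subgroup.map_subgroupOf_eq_of_le (hle W (h0.subset hW))]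
        exact Subgroup.map_mono (le_sSup (show W.subgroupOf V ∈ T0 by
          change _ ∈ S₀; rw [Subgroup.map_subgroupOf_eq_of_le (hle W (h0.subset hW))]; exact hW))
    rw [← e]
    exact (Subgroup.map_mono hXn).trans (Subgroup.le_normalizer_map _)
  let Mx : Subgroup G → Prop := fun V => V ∈ U ∧ ∀ W ∈ U, V ≤ W → W ≤ V
  have above : ∀ V ∈ U, ∃ M, Mx M ∧ V ≤ M := by
    intro V hV
    obtain ⟨M, hM, hmax⟩ := Set.Finite.exists_maximal (s := {W | W ∈ U ∧ V ≤ W}) (Set.toFinite _) ⟨V, hV, le_rfl⟩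
    exact ⟨M, ⟨hM.1, fun W hW hle => hmax ⟨hW, hM.2.trans hle⟩ hle⟩, hM.2⟩
  have uniq : ∀ V W, Mx V → Mx W → V = W := by
    by_contra hcon
    push Not at hcon
    obtain ⟨V₁, W₁, hV₁, hW₁, hne₁⟩ := hcon
    obtain ⟨⟨V, W⟩, ⟨hV, hW, hne⟩, hmax⟩ := Set.exists_max_image
      {q : Subgroup G × Subgroup G | Mx q.1 ∧ Mx q.2 ∧ q.1 ≠ q.2} (fun q => (S q.1 ∩ S q.2).ncard)
      (Set.toFinite _) ⟨(V₁, W₁), hV₁, hW₁, hne₁⟩
    set S0 := S V ∩ S W with hS0
    obtain ⟨X, hXU, hNX⟩ := h3 V hV.1 W hW.1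
    obtain ⟨M, hM, hXM⟩ := above X hXU
    have hN : Subgroup.normalizer ((sSup S0 : Subgroup G) : Set G) ≤ M := hNX.trans hXM
    have nrm : ∀ Y, Mx Y → S0 = S Y → Y ≤ M := by
      intro Y hY hEq
      refine le_trans ?_ hN
      rw [hEq]
      intro y hy
      have hle : ∀ z ∈ Y, (sSup (S Y) : Subgroup G).map (MulAut.conj z).toMonoidHom ≤ sSup (S Y) := by
        intro z hz
        rw [Subgroup.map_le_iff_le_comap]
        refine sSup_le fun B hB => ?_
        rw [← Subgroup.map_le_iff_le_comap]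
        refine le_sSup ?_
        obtain ⟨⟨k, hk⟩, hBY, hsn⟩ := (hS Y B).1 hB
        rw [hS]
        have hle' : B.map (MulAut.conj z).toMonoidHom ≤ Y := by
          rintro _ ⟨b, hb, rfl⟩
          exact mul_mem (mul_mem hz (hBY hb)) (inv_mem hz)
        refine ⟨⟨z * k, ?_⟩, hle', ?_⟩
        · rw [hk, map_mul, mul_smul]; rfl
        · have := CfsgLib.Subnormal.isSubnormal_conj hsn (⟨z, hz⟩ : Y)
          convert this using 1
          apply Subgroup.map_injective Y.subtype_injective
          rw [Subgroup.map_subgroupOf_eq_of_le hle', Subgroup.map_map,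
            show Y.subtype.comp (MulAut.conj (⟨z, hz⟩ : Y)).toMonoidHom = (MulAut.conj z).toMonoidHom.comp Y.subtype from by
              ext; simp, ← Subgroup.map_map, Subgroup.map_subgroupOf_eq_of_le hBY]
      refine CfsgLib.Subnormal.conj_eq_self_iff.1 (le_antisymm (hle y hy) ?_)
      rw [CfsgLib.Subnormal.le_conj_iff]
      exact hle _ (inv_mem hy)
    have grow : ∀ Y, Mx Y → Y ∈ ({V, W} : Set (Subgroup G)) → S0 ⊂ S Y → M = Y := by
      intro Y hY hYVW hss
      obtain ⟨B, hB, hB0, hBn⟩ := fam Y S0 hss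
      have hBM : B ∈ S M := h2 M hM.1 Y hY.1 B hB (hBn.trans hN)
      have hsub : insert B S0 ⊆ S Y ∩ S M := by
        rintro C (rfl | hC)
        · exact ⟨hB, hBM⟩
        · exact ⟨hss.subset hC, h2 M hM.1 Y hY.1 C (hss.subset hC)
            ((le_sSup hC).trans (Subgroup.le_normalizer.trans hN))⟩
      by_contra hne'
      have h5 := hmax (Y, M) ⟨hY, hM, Ne.symm hne'⟩
      have h6 := Set.ncard_le_ncard hsub (Set.toFinite _)
      rw [Set.ncard_insert_of_notMem hB0 (Set.toFinite _)] at h6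
      simp only [← hS0] at h5
      omega
    by_cases hV0 : S0 = S V
    · by_cases hW0 : S0 = S W
      · have e1 := le_antisymm (nrm V hV hV0) (hV.2 M hM.1 (nrm V hV hV0))
        have e2 := le_antisymm (nrm W hW hW0) (hW.2 M hM.1 (nrm W hW hW0))
        exact hne (e1.trans e2.symm)
      · have e1 := le_antisymm (nrm V hV hV0) (hV.2 M hM.1 (nrm V hV hV0))
        have e2 := grow W hW (Or.inr rfl) (ssubset_iff_subset_ne.2 ⟨Set.inter_subset_right, hW0⟩)
        exact hne (e1.trans e2)
    · have e1 := grow V hV (Or.inl rfl) (ssubset_iff_subset_ne.2 ⟨Set.inter_subset_left, hV0⟩)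
      by_cases hW0 : S0 = S W
      · have e2 := le_antisymm (nrm W hW hW0) (hW.2 M hM.1 (nrm W hW hW0))
        exact hne (e1.symm.trans e2.symm)
      · exact hne (e1.symm.trans (grow W hW (Or.inr rfl) (ssubset_iff_subset_ne.2 ⟨Set.inter_subset_right, hW0⟩)))
  obtain ⟨V0, hV0⟩ := hU
  obtain ⟨M, hM, -⟩ := above V0 hV0
  refine ⟨M, hM.1, fun V hV => ?_⟩
  obtain ⟨M', hM', hle⟩ := above V hV
  rwa [uniq M M' hM hM']

end Cfsg.Agent.S0540
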