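import Cfsg.Statements.S0574
import Cfsg.Agent.S0572
import Cfsg.Agent.KegelWielandt.Main

set_option autoImplicit false
open Cfsg

namespace Cfsg.Agent.S0574

open scoped commutatorElement

variable {G : Type*} [Group G]

/-- An element of `[B,B]` whose conjugates generate `G` over the abelian subgroup `A` is trivial. -/
theorem key [Group.IsSolvable G] (A B : Subgroup G) [IsMulCommutative A]
    (hz : ∀ x ∈ ⁅B, B⁆, ∀ d ∈ B, x * d = d * x) (w : G) (hw : w ∈ ⁅B, B⁆)
    (htop : A ⊔ Subgroup.zpowers w = ⊤) : w = 1 := by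
  set W := Subgroup.normalClosure ({w} : Set G) with hW
  have hwW : w ∈ W := Subgroup.subset_normalClosure rfl
  have hAW : A ⊔ W = ⊤ := top_le_iff.1 (htop ▸ sup_le_sup_left (Subgroup.zpowers_le.2 hwW) A)
  have hdec : ∀ x : G, ∃ v ∈ W, ∃ a ∈ A, x = v * a := by
    intro x
    have hx : x ∈ W ⊔ A := by rw [sup_comm, hAW]; trivial
    obtain ⟨v, hv, a, ha, e⟩ := Subgroup.mem_sup_of_normal_left.1 hx
    exact ⟨v, hv, a, ha, e.symm⟩
  set π := QuotientGroup.mk' ⁅W, W⁆ with hπ
  have hWc : ∀ u ∈ W, ∀ v ∈ W, Commute (π u) (π v) := by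
    intro u hu v hv
    rw [← commutatorElement_eq_one_iff_commute, ← map_commutatorElement]
    exact (QuotientGroup.eq_one_iff _).2 (Subgroup.commutator_mem_commutator hu hv)
  have hAc : ∀ u ∈ A, ∀ v ∈ A, Commute (π u) (π v) := fun u hu v hv =>
    Commute.map (setLike_mul_comm hu hv) π
  -- the `A`-part of an element of `B` is central modulo `[W,W]`
  have hcen : ∀ v ∈ W, ∀ a ∈ A, v * a ∈ B → ∀ u ∈ W, Commute (π a) (π u) := by
    intro v hv a ha hb u hu
    have h1 : Commute (π a) (π w) := by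
      have h2 : Commute (π (v * a)) (π w) := Commute.map (hz w hw _ hb).symm π
      have h3 : π a = (π v)⁻¹ * π (v * a) := by rw [map_mul, inv_mul_cancel_left]
      rw [h3]
      exact ((hWc v hv w hwW).inv_left).mul_left h2
    suffices hle : W ≤ (Subgroup.centralizer {π a}).comap π from
      (Subgroup.mem_centralizer_iff.1 (hle hu) (π a) rfl)
    refine (Subgroup.closure_le _).2 fun y hy => ?_
    obtain ⟨s', hs, hy⟩ := Group.mem_conjugatesOfSet_iff.1 hy
    rw [Set.mem_singleton_iff] at hs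
    rw [hs] at hy
    obtain ⟨c, hc⟩ := isConj_iff.1 hy
    obtain ⟨v', hv', a', ha', rfl⟩ := hdec c
    have hn : a' * w * a'⁻¹ ∈ W := (Subgroup.normalClosure_normal).conj_mem w hwW a'
    have e : π y = π (a' * w * a'⁻¹) := by
      rw [← hc, show v' * a' * w * (v' * a')⁻¹ = v' * (a' * w * a'⁻¹) * v'⁻¹ by group, map_mul, map_mul,
        map_inv, (hWc v' hv' _ hn).eq, mul_inv_cancel_right]
    have h4 : Commute (π a) (π y) := by
      rw [e, map_mul, map_mul, map_inv]
      exact (Commute.mul_right (hAc a ha a' ha') h1).mul_right (hAc a ha a' ha').inv_right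
    refine Subgroup.mem_centralizer_iff.2 fun t ht => ?_
    rw [Set.mem_singleton_iff] at ht
    subst ht
    exact h4.eq
  have hBB : ⁅B, B⁆ ≤ ⁅W, W⁆ := by
    refine Subgroup.commutator_le.2 fun b hb b' hb' => ?_
    obtain ⟨v, hv, a, ha, rfl⟩ := hdec b
    obtain ⟨v', hv', a', ha', rfl⟩ := hdec b'
    refine (QuotientGroup.eq_one_iff _).1 ?_
    rw [← QuotientGroup.mk'_apply, ← hπ, map_commutatorElement, commutatorElement_eq_one_iff_commute, map_mul, map_mul]
    exact Commute.mul_left ((hWc v hv v' hv').mul_right (hcen v' hv' a' ha' hb' v hv).symm)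
      ((hcen v hv a ha hb v' hv').mul_right (hAc a ha a' ha'))
  have hWW : W ≤ ⁅W, W⁆ := Subgroup.normalClosure_le_normal (Set.singleton_subset_iff.2 (hBB hw))
  obtain ⟨n, hn⟩ := (isSolvable_def (G := G)).1 inferInstance
  have hd : ∀ k, W ≤ derivedSeries G k := by
    intro k
    induction k with
    | zero => simp
    | succ k ih => rw [derivedSeries_succ]; exact hWW.trans (Subgroup.commutator_mono ih ih)
  have := hd n hwW
  rw [hn] at this
  exact this

theorem derived_le_map (X : Subgroup G) {m : ℕ} (h : derivedSeries G m ≤ X) (k : ℕ) :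
    derivedSeries G (m + k) ≤ (derivedSeries ↥X k).map X.subtype := by
  induction k with
  | zero => simpa [← MonoidHom.range_eq_map] using h
  | succ k ih =>
    rw [← Nat.add_assoc, derivedSeries_succ, derivedSeries_succ, Subgroup.map_commutator]
    exact Subgroup.commutator_mono ih ih

theorem length_lt {a b : ℕ} (ha : a ≠ 0) (hb : 1 < b) :
    a.primeFactorsList.length + 1 ≤ (a * b).primeFactorsList.length := by
  rw [(Nat.perm_primeFactorsList_mul ha (by omega)).length_eq, List.length_append]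
  have : b.primeFactorsList ≠ [] := by
    intro h
    have := ((Nat.primeFactorsList_eq_nil b).1 h).resolve_left (by omega)
    omega
  have := List.length_pos_iff.2 this
  omega

universe u

theorem main : ∀ (n : ℕ) {G : Type u} [Group G] [Finite G] (A B : Subgroup G) [IsMulCommutative A],
    (∀ x ∈ ⁅B, B⁆, ∀ d ∈ B, x * d = d * x) → (∀ g : G, ∃ a ∈ A, ∃ b ∈ B, g = a * b) →
    (Nat.card ↥⁅B, B⁆).primeFactorsList.length ≤ n → derivedSeries G (2 * (1 + n)) = ⊥ := by
  intro n
  induction n using Nat.strong_induction_on with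
  | _ n IH =>
    intro G _ _ A B _ hz hAB hlen
    classical
    by_cases hD : ⁅B, B⁆ = ⊥
    · haveI : IsMulCommutative B := ⟨⟨fun x y => Subtype.ext (by
        have hx : ⁅(x : G), (y : G)⁆ ∈ ⁅B, B⁆ := Subgroup.commutator_mem_commutator x.2 y.2
        rw [hD, Subgroup.mem_bot, commutatorElement_eq_one_iff_mul_comm] at hx
        exact hx)⟩⟩
      have h2 := Cfsg.Agent.S0572.result A B hAB
      exact eq_bot_iff.2 (h2 ▸ derivedSeries_antitone G (by omega))
    haveI : Group.IsSolvable G := by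
      haveI hAn : Group.IsNilpotent ↥A := ⟨⟨1, by rw [Subgroup.upperCentralSeries_one, eq_top_iff]; exact fun x _ => Subgroup.mem_center_iff.2 fun y => Subtype.ext (setLike_mul_comm (s := A) y.2 x.2)⟩⟩
      refine CfsgLib.KegelWielandt.kegel_wielandt (A := A) (B := B) hAn ?_ hAB
      refine ⟨⟨2, ?_⟩⟩
      rw [eq_top_iff]
      intro x _
      rw [Subgroup.mem_upperCentralSeries_succ_iff]
      intro y
      rw [Subgroup.upperCentralSeries_one, Subgroup.mem_center_iff]
      intro d
      have hm : ((x * y * x⁻¹ * y⁻¹ : ↥B) : G) ∈ ⁅B, B⁆ := Subgroup.commutator_mem_commutator x.2 y.2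
      exact Subtype.ext (hz _ hm _ d.2).symm
    obtain ⟨z₀, hz₀, hz₀1⟩ := (Subgroup.bot_or_exists_ne_one _).resolve_left hD
    haveI : Nonempty {z : G // z ∈ ⁅B, B⁆ ∧ z ≠ 1} := ⟨⟨z₀, hz₀, hz₀1⟩⟩
    obtain ⟨⟨z, hzB, hz1⟩, hmin⟩ := Finite.exists_min
      (fun z : {z : G // z ∈ ⁅B, B⁆ ∧ z ≠ 1} => Nat.card ↥(A ⊔ Subgroup.zpowers z.1))
    set X := A ⊔ Subgroup.zpowers z with hX
    have hAX : A ≤ X := le_sup_left
    have hle : ⁅B, B⁆ ≤ B := Subgroup.commutator_le_self B
    have hAB' : ∀ g : ↥X, ∃ a ∈ A.subgroupOf X, ∃ b ∈ B.subgroupOf X, g = a * b := by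
      intro g
      obtain ⟨a, ha, b, hb, e⟩ := hAB g
      have hbX : b ∈ X := by
        rw [show b = a⁻¹ * (g : G) by rw [e, inv_mul_cancel_left]]
        exact mul_mem (inv_mem (hAX ha)) g.2
      exact ⟨⟨a, hAX ha⟩, ha, ⟨b, hbX⟩, hb, Subtype.ext e⟩
    haveI hAc : IsMulCommutative (A.subgroupOf X) :=
      ⟨⟨fun x y => Subtype.ext (Subtype.ext (setLike_mul_comm (s := A) x.2 y.2))⟩⟩
    have hDB : (⁅B.subgroupOf X, B.subgroupOf X⁆).map X.subtype ≤ ⁅B, B⁆ := by
      rw [Subgroup.map_commutator]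
      exact Subgroup.commutator_mono (by rw [Subgroup.subgroupOf_map_subtype]; exact inf_le_left) (by rw [Subgroup.subgroupOf_map_subtype]; exact inf_le_left)
    have hXB : IsMulCommutative (B.subgroupOf X) := by
      refine ⟨⟨fun x y => Subtype.ext ?_⟩⟩
      show (x : ↥X) * y = y * x
      rw [← commutatorElement_eq_one_iff_mul_comm]
      by_contra hne
      set w : ↥X := ⁅(x : ↥X), (y : ↥X)⁆ with hw
      have hwD : w ∈ ⁅B.subgroupOf X, B.subgroupOf X⁆ := Subgroup.commutator_mem_commutator x.2 y.2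
      have hwB : (w : G) ∈ ⁅B, B⁆ := hDB ⟨w, hwD, rfl⟩
      have hle' : A ⊔ Subgroup.zpowers (w : G) ≤ X := sup_le hAX (Subgroup.zpowers_le.2 w.2)
      have heq : A ⊔ Subgroup.zpowers (w : G) = X :=
        Subgroup.eq_of_le_of_card_ge hle' (hmin ⟨(w : G), hwB, fun h => hne (Subtype.ext h)⟩)
      refine hne (key (A.subgroupOf X) (B.subgroupOf X) (fun t ht d hd => Subtype.ext ?_) w hwD ?_)
      · exact hz _ (hDB ⟨t, ht, rfl⟩) _ hd
      · apply Subgroup.map_injective X.subtype_injective
        rw [Subgroup.map_sup, MonoidHom.map_zpowers, Subgroup.subgroupOf_map_subtype, inf_eq_left.2 hAX,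
          ← MonoidHom.range_eq_map, Subgroup.range_subtype]
        exact heq
    have hX2 : derivedSeries ↥X 2 = ⊥ := Cfsg.Agent.S0572.result _ _ hAB'
    set N := Subgroup.normalClosure ({z} : Set G) with hN
    have hNX : N ≤ X := by
      rw [hN, Subgroup.normalClosure]
      refine (Subgroup.closure_le _).2 fun y hy => ?_
      obtain ⟨s', hs, hy⟩ := Group.mem_conjugatesOfSet_iff.1 hy
      rw [Set.mem_singleton_iff] at hs
      rw [hs] at hy
      obtain ⟨c, hc⟩ := isConj_iff.1 hy
      obtain ⟨a, ha, b, hb, rfl⟩ := hAB c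
      rw [← hc, show a * b * z * (a * b)⁻¹ = a * (b * z * b⁻¹) * a⁻¹ by group, ← hz z hzB b hb,
        mul_inv_cancel_right]
      exact mul_mem (mul_mem (hAX ha) (Subgroup.mem_sup_right (Subgroup.mem_zpowers z))) (inv_mem (hAX ha))
    set q := QuotientGroup.mk' N with hq
    set f := q.comp (⁅B, B⁆).subtype with hf
    have hmap : f.range = ⁅B.map q, B.map q⁆ := by
      rw [hf, MonoidHom.range_comp, Subgroup.range_subtype, Subgroup.map_commutator]
    have hzk : (⟨z, hzB⟩ : ↥⁅B, B⁆) ∈ f.ker :=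
      (QuotientGroup.eq_one_iff _).2 (Subgroup.subset_normalClosure rfl)
    have hk : 1 < Nat.card f.ker := by
      refine (Subgroup.one_lt_card_iff_ne_bot _).2 fun h => hz1 ?_
      rw [h, Subgroup.mem_bot] at hzk
      exact congrArg Subtype.val hzk
    have hcard : Nat.card ↥⁅B.map q, B.map q⁆ * Nat.card f.ker = Nat.card ↥⁅B, B⁆ := by
      rw [← hmap, ← Subgroup.index_ker, mul_comm, Subgroup.card_mul_index]
    have hlt := length_lt (a := Nat.card ↥⁅B.map q, B.map q⁆) (Nat.card_pos.ne') hk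
    rw [hcard] at hlt
    haveI : IsMulCommutative (A.map q) := Subgroup.map_isMulCommutative A q
    have hQ : derivedSeries (G ⧸ N) (2 * (1 + (Nat.card ↥⁅B.map q, B.map q⁆).primeFactorsList.length)) = ⊥ := by
      refine IH _ (by omega) (A.map q) (B.map q) ?_ ?_ le_rfl
      · rw [← Subgroup.map_commutator]
        rintro _ ⟨t, ht, rfl⟩ _ ⟨d, hd, rfl⟩
        rw [← map_mul, ← map_mul, hz t ht d hd]
      · intro g
        obtain ⟨g, rfl⟩ := QuotientGroup.mk'_surjective N g
        obtain ⟨a, ha, b, hb, rfl⟩ := hAB g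
        exact ⟨_, Subgroup.mem_map_of_mem q ha, _, Subgroup.mem_map_of_mem q hb, map_mul q a b⟩
    rw [← map_derivedSeries_eq (QuotientGroup.mk'_surjective N), Subgroup.map_eq_bot_iff, QuotientGroup.ker_mk'] at hQ
    have h2 := derived_le_map X (hQ.trans hNX) 2
    rw [hX2, Subgroup.map_bot] at h2
    exact eq_bot_iff.2 ((derivedSeries_antitone G (by omega)).trans h2)

/-- Let the finite group G be the product AB of an abelian subgroup A and a subgroup B of nilpotency class at most two, and let Ω be the number of prime factors, with multiplicity, of the order of the commutator subgroup of B. Then the term of index 2(1 + Ω) of the derived series of G is trivial. -/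
theorem result {G : Type*} [Group G] [Finite G] (A B : Subgroup G) [IsMulCommutative A] (hB : commutator ↥B ≤ Subgroup.center ↥B) (hAB : ∀ g : G, ∃ a ∈ A, ∃ b ∈ B, g = a * b) : derivedSeries G (2 * (1 + (Nat.card ↥(commutator ↥B)).primeFactorsList.length)) = ⊥ := by
  have hc : Nat.card ↥(commutator ↥B) = Nat.card ↥⁅B, B⁆ := by
    rw [← Subgroup.map_subtype_commutator, Subgroup.card_map_of_injective B.subtype_injective]
  rw [hc]
  refine main _ A B ?_ hAB le_rfl
  rw [← Subgroup.map_subtype_commutator]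
  rintro _ ⟨t, ht, rfl⟩ d hd
  exact (congrArg Subtype.val (Subgroup.mem_center_iff.1 (hB ht) ⟨d, hd⟩)).symm

end Cfsg.Agent.S0574
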