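import Cfsg.Statements.S0576
import Mathlib
import Cfsg.Agent.SolvStruct.FrattiniAux

set_option autoImplicit false
open Cfsg

namespace Cfsg.Agent.S0576

/-- Let H be a normal subgroup of a finite group G with H contained in the Frattini subgroup of G. Then the group of inner automorphisms of H is contained in the Frattini subgroup of the automorphism group of H. -/
theorem result {G : Type*} [Group G] [Finite G] (H : Subgroup G) [H.Normal] (hH : H ≤ frattini G) : (MulAut.conj : ↥H →* MulAut ↥H).range ≤ frattini (MulAut ↥H) := by
  let T : Subgroup (MulAut ↥H) := (MulAut.conjNormal : G →* MulAut ↥H).range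
  have himg : ∀ a : ↥H, (MulAut.conjNormal (a : G) : MulAut ↥H) = MulAut.conj a := by
    intro a
    ext b
    simp
  have hle : (MulAut.conj : ↥H →* MulAut ↥H).range ≤ T := by
    rintro _ ⟨a, rfl⟩
    exact ⟨a, himg a⟩
  haveI : (MulAut.conj : ↥H →* MulAut ↥H).range.Normal := by
    constructor
    rintro _ ⟨a, rfl⟩ φ
    refine ⟨φ a, ?_⟩
    ext b
    simp
  apply CfsgLib.SolvStruct.le_frattini_of_le_frattini _ T hle
  rintro x hx
  obtain ⟨a, ha⟩ := Subgroup.mem_subgroupOf.mp hx
  have hsurj : Function.Surjective (MulAut.conjNormal : G →* MulAut ↥H).rangeRestrict :=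
    MonoidHom.rangeRestrict_surjective _
  have := frattini_le_comap_frattini_of_surjective hsurj (hH a.2)
  rw [Subgroup.mem_comap] at this
  have he : (MulAut.conjNormal : G →* MulAut ↥H).rangeRestrict (a : G) = x :=
    Subtype.ext ((himg a).trans ha)
  exact he ▸ this

end Cfsg.Agent.S0576
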