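import Cfsg.Statements.S0578
import Cfsg.Agent.Hall.StructBatch
-- import your own Cfsg.Agent.* helpers here

set_option autoImplicit false
open Cfsg

namespace Cfsg.Agent.S0578

/-- If in a finite group the normalizer of each abelian subgroup coincides with its centralizer, then the group is abelian. -/
theorem result {G : Type*} [Group G] [Finite G] (h : ∀ A : Subgroup G, IsMulCommutative A → Subgroup.normalizer (A : Set G) = Subgroup.centralizer (A : Set G)) : IsMulCommutative G := by
  exact ⟨⟨CfsgLib.Hall.Struct.abelian_of_normalizer_eq_centralizer_aux _ rfl h⟩⟩

end Cfsg.Agent.S0578
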