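import Cfsg.Statements.S0586
import Mathlib
import Cfsg.Agent.SolvStruct.FrattiniAux

set_option autoImplicit false
open Cfsg
open scoped commutatorElement

namespace Cfsg.Agent.S0586

/-- If the Frattini subgroup of a finite group G is trivial, then the Fitting subgroup of G equals the join of all abelian minimal normal subgroups of G. -/
theorem result {G : Type*} [Group G] [Finite G] (hΦ : frattini G = ⊥) : Cfsg.fittingSubgroup G = sSup {N : Subgroup G | N.Normal ∧ N ≠ ⊥ ∧ IsMulCommutative N ∧ ∀ K : Subgroup G, K.Normal → K ≤ N → K = ⊥ ∨ K = N} := by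
  refine le_antisymm (sSup_le ?_) (sSup_le ?_)
  · rintro A ⟨hAn, hAnil⟩
    haveI := hAn
    haveI := hAnil
    have hab : IsMulCommutative A := by
      have h1 : (frattini ↥A).map A.subtype ≤ frattini G := by
        apply CfsgLib.SolvStruct.le_frattini_of_le_frattini _ A (Subgroup.map_subtype_le _)
        intro x hx
        obtain ⟨y, hy, hyx⟩ := Subgroup.mem_subgroupOf.mp hx
        rwa [← Subtype.ext hyx]
      rw [hΦ, le_bot_iff, Subgroup.map_eq_bot_iff_of_injective _ A.subtype_injective] at h1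
      refine ⟨⟨fun a b => ?_⟩⟩
      have h2 : ⁅a, b⁆ ∈ frattini ↥A := CfsgLib.SolvStruct.commutator_le_frattini
        (Subgroup.commutator_mem_commutator (Subgroup.mem_top a) (Subgroup.mem_top b))
      rw [h1, Subgroup.mem_bot] at h2
      exact commutatorElement_eq_one_iff_mul_comm.mp h2
    set 𝒮 : Set (Subgroup G) := {N | (N.Normal ∧ N ≠ ⊥ ∧ IsMulCommutative N ∧
      ∀ K : Subgroup G, K.Normal → K ≤ N → K = ⊥ ∨ K = N) ∧ N ≤ A} with h𝒮
    set S := sSup 𝒮 with hS
    have hSA : S ≤ A := sSup_le fun N hN => hN.2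
    haveI hSn : S.Normal := by
      rw [← Subgroup.normalizer_eq_top_iff, eq_top_iff]
      intro g _
      rw [Subgroup.mem_normalizer_iff]
      have key : ∀ g : G, ∀ x ∈ S, g * x * g⁻¹ ∈ S := by
        intro g x hx
        have : S ≤ S.comap (MulAut.conj g).toMonoidHom := sSup_le fun N hN y hy =>
          Subgroup.mem_comap.mpr (le_sSup hN (hN.1.1.conj_mem y hy g))
        exact this hx
      exact fun x => ⟨key g x, fun hx => by simpa [mul_assoc] using key g⁻¹ _ hx⟩
    haveI : IsMulCommutative S := ⟨⟨fun a b => Subtype.ext <| by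
      have := congrArg Subtype.val (mul_comm' (⟨a.1, hSA a.2⟩ : A) ⟨b.1, hSA b.2⟩)
      exact this⟩⟩
    obtain ⟨H, hH⟩ := CfsgLib.SolvStruct.exists_complement_of_frattini_eq_bot hΦ S
    have hsup : S ⊔ H = ⊤ := hH.sup_eq_top
    haveI hDn : (A ⊓ H).Normal := by
      constructor
      intro x hx g
      have hg : g ∈ S ⊔ H := hsup ▸ Subgroup.mem_top g
      obtain ⟨s, hs, h, hh, rfl⟩ := Subgroup.mem_sup_of_normal_left.mp hg
      have h1 : h * x * h⁻¹ ∈ A ⊓ H :=
        ⟨hAn.conj_mem x hx.1 h, H.mul_mem (H.mul_mem hh hx.2) (H.inv_mem hh)⟩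
      have h2 : s * (h * x * h⁻¹) = h * x * h⁻¹ * s := setLike_mul_comm (hSA hs) h1.1
      have h3 : s * h * x * (s * h)⁻¹ = h * x * h⁻¹ := by
        rw [mul_inv_rev, ← mul_assoc, show s * h * x * h⁻¹ = s * (h * x * h⁻¹) by group, h2]
        group
      exact h3 ▸ h1
    have hbot : A ⊓ H = ⊥ := by
      by_contra hne
      obtain ⟨N, hN, hNmin⟩ := (Set.toFinite {N : Subgroup G |
        N.Normal ∧ N ≠ ⊥ ∧ N ≤ A ⊓ H}).exists_minimal ⟨_, hDn, hne, le_rfl⟩
      have hNA : N ≤ A := hN.2.2.trans inf_le_left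
      have hNS : N ≤ S := by
        refine le_sSup ⟨⟨hN.1, hN.2.1, ⟨⟨fun a b => Subtype.ext ?_⟩⟩, fun K hK hKN => ?_⟩, hNA⟩
        · exact setLike_mul_comm (hNA a.2) (hNA b.2)
        · by_cases hK1 : K = ⊥
          · exact Or.inl hK1
          · exact Or.inr (le_antisymm hKN (hNmin ⟨hK, hK1, hKN.trans hN.2.2⟩ hKN))
      exact hN.2.1 (le_bot_iff.mp (hH.disjoint.le_bot.trans' (le_inf hNS (hN.2.2.trans inf_le_right))))
    have hAS : A ≤ S := by
      have := CfsgLib.SolvStruct.dedekind_normal S H A hSA (hsup ▸ le_top)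
      rw [inf_comm, hbot, sup_bot_eq] at this
      exact this.le
    exact hAS.trans (sSup_le fun N hN => le_sSup hN.1)
  · rintro N ⟨hN, -, hNab, -⟩
    haveI := hNab
    letI : CommGroup N := { (inferInstance : Group N) with mul_comm := mul_comm' }
    exact le_sSup ⟨hN, CommGroup.isNilpotent⟩

end Cfsg.Agent.S0586
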