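import Cfsg.Statements.S0588
import Mathlib

set_option autoImplicit false
open Cfsg

namespace Cfsg.Agent.S0588

/-- If a subgroup H of a finite group G contains the centralizer of every non-identity element of H, then the order of H is coprime to its index. -/
theorem result {G : Type*} [Group G] [Finite G] (H : Subgroup G) (h : ∀ x ∈ H, x ≠ 1 → Subgroup.centralizer ({x} : Set G) ≤ H) : (Nat.card H).Coprime H.index := by
  rw [Nat.coprime_iff_gcd_eq_one]
  by_contra hne
  obtain ⟨p, hp, hpdvd⟩ := Nat.exists_prime_and_dvd hne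
  haveI := Fact.mk hp
  have hpH : p ∣ Nat.card H := hpdvd.trans (Nat.gcd_dvd_left _ _)
  have hpI : p ∣ H.index := hpdvd.trans (Nat.gcd_dvd_right _ _)
  obtain ⟨P₀⟩ : Nonempty (Sylow p H) := inferInstance
  have hne0 : (P₀ : Subgroup H) ≠ ⊥ := P₀.ne_bot_of_dvd_card hpH
  obtain ⟨P, hP⟩ := (P₀.2.map H.subtype).exists_le_sylow
  haveI : Nontrivial (P : Subgroup G) := by
    rw [Subgroup.nontrivial_iff_ne_bot]
    intro hb
    apply hne0
    rw [hb, le_bot_iff] at hP
    exact (Subgroup.map_eq_bot_iff_of_injective _ H.subtype_injective).mp hP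
  obtain ⟨x, hx⟩ := Subgroup.nontrivial_iff_exists_ne_one (P₀ : Subgroup H) |>.mp
    ((Subgroup.nontrivial_iff_ne_bot _).mpr hne0)
  have hxP : (x : G) ∈ (P : Subgroup G) := hP ⟨x, hx.1, rfl⟩
  haveI := P.2.center_nontrivial
  obtain ⟨z, hz⟩ := exists_ne (1 : Subgroup.center (P : Subgroup G))
  have hzc : ∀ y ∈ (P : Subgroup G), y * (z : G) = (z : G) * y := fun y hy =>
    congrArg Subtype.val (Subgroup.mem_center_iff.mp z.2 ⟨y, hy⟩)
  have hzH : ((z : (P : Subgroup G)) : G) ∈ H := by
    apply h x x.2 (by simpa using hx.2)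
    rw [Subgroup.mem_centralizer_singleton_iff]
    exact (hzc x hxP).symm
  have hPH : (P : Subgroup G) ≤ H := by
    intro y hy
    apply h _ hzH (by simpa using hz)
    rw [Subgroup.mem_centralizer_singleton_iff]
    exact hzc y hy
  exact P.not_dvd_index (hpI.trans (Subgroup.index_dvd_of_le hPH))

end Cfsg.Agent.S0588
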