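import Cfsg.Statements.S0592
import Cfsg.Agent.PLocalBasics.QuadraticPair
import Cfsg.Agent.PCore.Descent

set_option autoImplicit false
open Cfsg

namespace Cfsg.Agent.S0592

/-- Two quadratically acting generators of a linear group that is not a p-group, with the p'-part of the order of their product dividing q - 1, give a homomorphism onto a subgroup of SL(2, q) that is not a p-group. -/
theorem result {K : Type*} [Field K] [Fintype K] {p : ℕ} [Fact p.Prime] [CharP K p] {W : Type*} [AddCommGroup W] [Module K W] [FiniteDimensional K W] [Finite W] [Nontrivial W] (H : Subgroup (W ≃ₗ[K] W)) (a b : W ≃ₗ[K] W) (hH : H = Subgroup.closure {a, b}) (ha : ∀ w : W, a (a w - w) = a w - w) (hb : ∀ w : W, b (b w - w) = b w - w) (hnp : ¬ IsPGroup p H) (hk : ∃ e k : ℕ, orderOf (a * b) = p ^ e * k ∧ k ∣ Fintype.card K - 1) : ∃ φ : H →* Matrix.SpecialLinearGroup (Fin 2) K, ¬ IsPGroup p φ.range := by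
  classical
  haveI : Finite (W ≃ₗ[K] W) := DFunLike.finite _
  subst hH
  obtain ⟨e, k, ho, c, hc⟩ := hk
  set H := Subgroup.closure ({a, b} : Set (W ≃ₗ[K] W))
  obtain ⟨x₀, hx₀H, hx₀, hx₀1⟩ : ∃ x ∈ H, (orderOf x).Coprime p ∧ x ≠ 1 := by
    by_contra hcon
    push Not at hcon
    exact hnp (CfsgLib.PCore.isPGroup_of_forall_coprime _ hcon)
  let ρ : H →* Module.End K W :=
    { toFun := fun x => ((x : W ≃ₗ[K] W) : W →ₗ[K] W)
      map_one' := rfl
      map_mul' := fun _ _ => rfl }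
  let a' : H := ⟨a, Subgroup.subset_closure (Set.mem_insert _ _)⟩
  let b' : H := ⟨b, Subgroup.subset_closure (Set.mem_insert_of_mem _ rfl)⟩
  have hgen : Subgroup.closure ({a', b'} : Set H) = ⊤ := by
    apply Subgroup.map_injective H.subtype_injective
    rw [MonoidHom.map_closure, Set.image_pair, ← MonoidHom.range_eq_map, Subgroup.range_subtype]
    rfl
  have hab : (ρ (a' * b')) ^ (p ^ e * (Fintype.card K - 1)) = 1 := by
    rw [← map_pow, show (a' * b') ^ (p ^ e * (Fintype.card K - 1)) = 1 from ?_, map_one]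
    rw [← orderOf_dvd_iff_pow_eq_one, ← Subgroup.orderOf_coe]
    show orderOf (a * b) ∣ _
    rw [ho]
    exact Nat.mul_dvd_mul_left _ ⟨c, hc⟩
  obtain ⟨φ, hφ⟩ := CfsgLib.PLocalBasics.quadratic_pair_rep (p := p) hgen _ W rfl ρ
    (LinearMap.ext fun w => by
      show a (a w - w) - (a w - w) = 0
      rw [ha, sub_self])
    (LinearMap.ext fun w => by
      show b (b w - w) - (b w - w) = 0
      rw [hb, sub_self])
    e hab ⟨x₀, hx₀H⟩ (by rwa [← Subgroup.orderOf_coe]) (fun h => hx₀1 (LinearEquiv.toLinearMap_injective h))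
  refine ⟨φ, fun hP => hφ ?_⟩
  obtain ⟨j, hj⟩ := hP ⟨φ ⟨x₀, hx₀H⟩, ⟨_, rfl⟩⟩
  rw [← orderOf_eq_one_iff]
  exact Nat.eq_one_of_dvd_coprimes (hx₀.pow_right j) ((orderOf_map_dvd φ _).trans (Subgroup.orderOf_coe (⟨x₀, hx₀H⟩ : H)).symm.dvd)
    (orderOf_dvd_of_pow_eq_one (congrArg Subtype.val hj))

end Cfsg.Agent.S0592
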