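import Cfsg.Statements.S0593
import Cfsg.Agent.PLocalBasics.ActionStable

set_option autoImplicit false
open Cfsg

namespace Cfsg.Agent.S0593

/-- For odd p, a faithful group on an elementary abelian p-group generated by two quadratically acting elements is a p-group or has non-abelian Sylow 2-subgroups. -/
theorem result {G : Type*} [Group G] [Finite G] {p : ℕ} [Fact p.Prime] (hp : p ≠ 2) (V H : Subgroup G) (hV : Cfsg.IsElementaryAbelian p V) (hHV : H ≤ Subgroup.normalizer (V : Set G)) (hf : H ⊓ Subgroup.centralizer (V : Set G) = ⊥) (a b : G) (hab : H = Subgroup.closure {a, b}) (ha : ⁅⁅V, Subgroup.zpowers a⁆, Subgroup.zpowers a⁆ = ⊥) (hb : ⁅⁅V, Subgroup.zpowers b⁆, Subgroup.zpowers b⁆ = ⊥) (hnp : ¬ IsPGroup p H) (T : Sylow 2 H) : ¬ IsMulCommutative T := by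
  have haH : a ∈ H := hab ▸ Subgroup.subset_closure (Set.mem_insert _ _)
  have hbH : b ∈ H := hab ▸ Subgroup.subset_closure (Set.mem_insert_of_mem _ rfl)
  by_cases h1 : a ∈ (Cfsg.pCore p H).map H.subtype
  · by_cases h2 : b ∈ (Cfsg.pCore p H).map H.subtype
    · exact absurd (((CfsgLib.PCore.isPGroup_pCore p H).map H.subtype).to_le (hab.trans_le
        ((Subgroup.closure_le _).2 (by rintro z (rfl | rfl) <;> assumption)))) hnp
    · exact CfsgLib.PLocalBasics.not_comm_of_involves hp
        (CfsgLib.PLocalBasics.involves_sl2_of_quadratic hp V H hV hHV hf b hbH hb h2) T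
  · exact CfsgLib.PLocalBasics.not_comm_of_involves hp
      (CfsgLib.PLocalBasics.involves_sl2_of_quadratic hp V H hV hHV hf a haH ha h1) T

end Cfsg.Agent.S0593
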