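import Cfsg.Statements.S0594
import Cfsg.Agent.PLocalBasics.ActionStable

set_option autoImplicit false
open Cfsg

namespace Cfsg.Agent.S0594

/-- For odd p, two quadratic generators of a faithful group that is not a p-group, one of which acts nontrivially on a normal subgroup of order prime to p, force p = 3 and a section isomorphic to SL(2,3). -/
theorem result {G : Type*} [Group G] [Finite G] {p : ℕ} [Fact p.Prime] (hp : p ≠ 2) (V H : Subgroup G) (hV : Cfsg.IsElementaryAbelian p V) (hHV : H ≤ Subgroup.normalizer (V : Set G)) (hf : H ⊓ Subgroup.centralizer (V : Set G) = ⊥) (a b : G) (hab : H = Subgroup.closure {a, b}) (ha : ⁅⁅V, Subgroup.zpowers a⁆, Subgroup.zpowers a⁆ = ⊥) (hb : ⁅⁅V, Subgroup.zpowers b⁆, Subgroup.zpowers b⁆ = ⊥) (hnp : ¬ IsPGroup p H) (Q : Subgroup G) (hQH : Q ≤ H) (hQn : H ≤ Subgroup.normalizer (Q : Set G)) (hQ : (Nat.card Q).Coprime p) (hQa : ⁅Q, Subgroup.zpowers a⁆ ≠ ⊥) : p = 3 ∧ ∃ (K L : Subgroup G) (hL : (L.subgroupOf K).Normal),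 K ≤ H ∧ Nonempty ((K ⧸ L.subgroupOf K) ≃* Matrix.SpecialLinearGroup (Fin 2) (ZMod 3)) := by
  have haH : a ∈ H := hab ▸ Subgroup.subset_closure (Set.mem_insert _ _)
  set M := Q ⊔ Subgroup.zpowers a with hM
  have hMH : M ≤ H := sup_le hQH (Subgroup.zpowers_le.2 haH)
  have hMN : M ≤ Subgroup.normalizer (Q : Set G) := hMH.trans hQn
  haveI : (Q.subgroupOf M).Normal := Subgroup.normal_subgroupOf_of_le_normalizer hMN
  have hap := CfsgLib.PLocalBasics.pow_prime_eq_one_of_quadratic hV hHV hf haH ha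
  have hsol : Cfsg.IsPSolvable p M := by
    refine CfsgLib.PCore.isPSolvable_of_normal (Q.subgroupOf M) ?_ (CfsgLib.PCore.isPSolvable_of_isPGroup ?_)
    · exact CfsgLib.PCore.isPSolvable_of_coprime
        (Nat.Coprime.coprime_dvd_left (CfsgLib.PCore.card_subgroupOf_dvd Q M) hQ)
    · intro q
      obtain ⟨⟨m, hm⟩, rfl⟩ := QuotientGroup.mk'_surjective (Q.subgroupOf M) q
      have hm' := hm
      rw [hM, sup_comm, ← SetLike.mem_coe, Subgroup.coe_mul_of_left_le_normalizer_right (Subgroup.zpowers a) Q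
        (Subgroup.zpowers_le.2 (hQn haH))] at hm'
      obtain ⟨w, hw, v, hv, hwv⟩ := hm'
      obtain ⟨i, rfl⟩ := Subgroup.mem_zpowers_iff.1 hw
      let a' : M := ⟨a, Subgroup.mem_sup_right (Subgroup.mem_zpowers a)⟩
      refine ⟨1, ?_⟩
      have e : QuotientGroup.mk' (Q.subgroupOf M) ⟨m, hm⟩ = QuotientGroup.mk' (Q.subgroupOf M) a' ^ i := by
        rw [← map_zpow]
        refine QuotientGroup.eq.2 (Subgroup.mem_subgroupOf.2 ?_)
        simp only [Subgroup.coe_mul, Subgroup.coe_inv, SubgroupClass.coe_zpow, a']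
        rw [← hwv]
        simpa [mul_assoc] using inv_mem hv
      rw [e, pow_one, ← zpow_natCast, zpow_comm, zpow_natCast, ← map_pow,
        show a' ^ p = 1 from Subtype.ext hap, map_one, one_zpow]
  have hna : a ∉ (Cfsg.pCore p M).map M.subtype := by
    rintro ⟨a₁, ha₁, heq⟩
    refine hQa (le_bot_iff.1 ?_)
    have hbot : Q.subgroupOf M ⊓ Cfsg.pCore p M = ⊥ := by
      rw [inf_comm]
      exact CfsgLib.PCore.inf_eq_bot_of_isPGroup_of_coprime (CfsgLib.PCore.isPGroup_pCore p M)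
        (Nat.Coprime.coprime_dvd_left (CfsgLib.PCore.card_subgroupOf_dvd Q M) hQ)
    have h1 := Subgroup.map_mono (f := M.subtype) ((Subgroup.commutator_mono (le_refl (Q.subgroupOf M))
      (Subgroup.zpowers_le.2 ha₁)).trans ((Subgroup.commutator_le_inf _ _).trans hbot.le))
    rwa [Subgroup.map_commutator, Subgroup.map_bot, Subgroup.map_subgroupOf_eq_of_le le_sup_left,
      MonoidHom.map_zpowers, heq] at h1
  obtain ⟨h3, K, L, hL, hK, hiso⟩ := CfsgLib.PLocalBasics.sl2_three_section_of_pSolvable hp V M hV (hMH.trans hHV)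
    (le_bot_iff.1 (le_trans (inf_le_inf_right _ hMH) hf.le)) hsol a (Subgroup.mem_sup_right (Subgroup.mem_zpowers a)) ha hna
  exact ⟨h3, K, L, hL, hK.trans hMH, hiso⟩

end Cfsg.Agent.S0594
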