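import Cfsg.Statements.S0599
import Mathlib
import Cfsg.Agent.Offender.Replacement

set_option autoImplicit false
open Cfsg
open scoped commutatorElement

namespace Cfsg.Agent.S0599

/-- The Timmesfeld replacement Theorem: replacing a best offender A by C_A([U, A]) gives a best offender with fixed points [U, A]C_V(A), still nontrivial on V if A was. -/
theorem result {G : Type*} [Group G] [Finite G] {p : ℕ} [Fact p.Prime] (V A : Subgroup G) (hV : Cfsg.IsElementaryAbelian p V) (hAV : A ≤ Subgroup.normalizer (V : Set G)) (hA : Cfsg.IsBestOffenderOn p V A) (U : Subgroup G) (hU : U ≤ V) : Cfsg.IsBestOffenderOn p V (A ⊓ Subgroup.centralizer ((⁅U, A⁆ : Subgroup G) : Set G)) ∧ V ⊓ Subgroup.centralizer ((A ⊓ Subgroup.centralizer ((⁅U, A⁆ : Subgroup G) : Set G) : Subgroup G) : Set G) = ⁅U, A⁆ ⊔ (V ⊓ Subgroup.centralizer (A : Set G)) ∧ (⁅V, A⁆ ≠ ⊥ → ⁅V, A ⊓ Subgroup.centralizer ((⁅U, A⁆ : Subgroup G) : Set G)⁆ ≠ ⊥) := by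
  classical
  obtain ⟨hmax, hab, hpow⟩ := hA
  obtain ⟨h1, h2⟩ := CfsgLib.Offender.replacement_subgroup hV.1 hAV hab hmax U hU
  set B := A ⊓ Subgroup.centralizer ((⁅U, A⁆ : Subgroup G) : Set G) with hB
  refine ⟨⟨fun B' hB' => ?_, (Subgroup.commutator_mono inf_le_left inf_le_left).trans hab,
    fun b hb => hpow b hb.1⟩, h2, fun hne hbot => hne ?_⟩
  · have := hmax B' (hB'.trans inf_le_left)
    change _ ≤ CfsgLib.Offender.measure V B
    rw [h1]
    exact this
  · have hVtop : V ≤ ⁅U, A⁆ ⊔ (V ⊓ Subgroup.centralizer (A : Set G)) := by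
      rw [← h2]
      exact le_inf le_rfl (Subgroup.commutator_eq_bot_iff_le_centralizer.mp hbot)
    have hVAle : ⁅V, A⁆ ≤ V := by
      rw [← CfsgLib.Offender.comSet_subgroup]
      exact CfsgLib.Offender.comSet_le hAV (subset_refl _)
    haveI := hV.1
    set Y := ⁅⁅V, A⁆, A⁆ with hY
    let D : Subgroup G :=
      { carrier := {v | v ∈ V ∧ ∀ a ∈ A, ⁅v, a⁆ ∈ Y}
        one_mem' := ⟨V.one_mem, fun a _ => by rw [commutatorElement_one_left]; exact Y.one_mem⟩
        mul_mem' := fun {v w} hv hw => ⟨V.mul_mem hv.1 hw.1, fun a ha => by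
          have hm : ⁅w, a⁆ ∈ V := hVAle (Subgroup.commutator_mem_commutator hw.1 ha)
          have : ⁅v * w, a⁆ = ⁅w, a⁆ * ⁅v, a⁆ := by
            calc ⁅v * w, a⁆ = v * ⁅w, a⁆ * v⁻¹ * ⁅v, a⁆ := by simp only [commutatorElement_def]; group
              _ = _ := by rw [setLike_mul_comm hv.1 hm]; group
          rw [this]
          exact Y.mul_mem (hw.2 a ha) (hv.2 a ha)⟩
        inv_mem' := fun {v} hv => ⟨V.inv_mem hv.1, fun a ha => by
          have hm : ⁅v, a⁆ ∈ V := hVAle (Subgroup.commutator_mem_commutator hv.1 ha)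
          have : ⁅v⁻¹, a⁆ = ⁅v, a⁆⁻¹ := by
            calc ⁅v⁻¹, a⁆ = v⁻¹ * ⁅v, a⁆⁻¹ * v := by simp only [commutatorElement_def]; group
              _ = _ := by rw [setLike_mul_comm (V.inv_mem hv.1) (V.inv_mem hm)]; group
          rw [this]
          exact Y.inv_mem (hv.2 a ha)⟩ }
    have hVD : V ≤ D := hVtop.trans (sup_le
      (fun x hx => ⟨hVAle (Subgroup.commutator_mono hU le_rfl hx), fun a ha =>
        Subgroup.commutator_mem_commutator (Subgroup.commutator_mono hU le_rfl hx) ha⟩)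
      (fun x hx => ⟨hx.1, fun a ha => by
        rw [commutatorElement_eq_one_iff_mul_comm.mpr (Subgroup.mem_centralizer_iff.mp hx.2 a ha).symm]
        exact Y.one_mem⟩))
    apply CfsgLib.Offender.eq_bot_of_le_commutator hV hAV hpow hVAle
    rw [Subgroup.commutator_le]
    intro v hv a ha
    exact (hVD hv).2 a ha

end Cfsg.Agent.S0599
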