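import Cfsg.Statements.S0603
import Cfsg.Agent.PLocalBasics.Thompson

set_option autoImplicit false
open Cfsg

namespace Cfsg.Agent.S0603

/-- The Thompson subgroup of any subgroup containing J(G) is J(G) itself. -/
theorem result {G : Type*} [Group G] [Finite G] {p : ℕ} [Fact p.Prime] (U : Subgroup G) (hU : Cfsg.thompsonSubgroup p G ≤ U) : Cfsg.thompsonSubgroupOf p U = Cfsg.thompsonSubgroup p G := by
  exact CfsgLib.PLocalBasics.thompsonOf_eq_of_le U hU

end Cfsg.Agent.S0603
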