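import Cfsg.Statements.S0607
import Mathlib
import Cfsg.Agent.Offender.MaxElem
import Cfsg.Agent.S0599

set_option autoImplicit false
open Cfsg
open scoped commutatorElement

namespace Cfsg.Agent.S0607

/-- The replacement Theorem for the Thompson subgroup: from A of maximal order among elementary abelian p-subgroups one obtains A₀ = [V, A] C_A([V, A]) of the same kind, quadratic on V and nontrivial on V when A is. -/
theorem result {G : Type*} [Group G] [Finite G] {p : ℕ} [Fact p.Prime] (V : Subgroup G) [V.Normal] (hV : Cfsg.IsElementaryAbelian p V) (A : Subgroup G) (hA : A ∈ Cfsg.maxElementaryAbelianSubgroups p G) : (⁅V, A⁆ ⊔ (A ⊓ Subgroup.centralizer ((⁅V, A⁆ : Subgroup G) : Set G))) ∈ Cfsg.maxElementaryAbelianSubgroups p G ∧ ⁅⁅V, ⁅V, A⁆ ⊔ (A ⊓ Subgroup.centralizer ((⁅V, A⁆ : Subgroup G) : Set G))⁆, ⁅V, A⁆ ⊔ (A ⊓ Subgroup.centralizer ((⁅V, A⁆ : Subgroup G) : Set G))⁆ = ⊥ ∧ (⁅V, A⁆ ≠ ⊥ → ⁅V, ⁅V, A⁆ ⊔ (A ⊓ Subgroup.centralizer ((⁅V, A⁆ : Subgroup G) : Set G))⁆ ≠ ⊥) := by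
  classical
  obtain ⟨hbest, hCeq, hnontriv⟩ := Cfsg.Agent.S0599.result V A hV
    (by rw [Subgroup.normalizer_eq_top_iff.mpr inferInstance]; exact le_top)
    (CfsgLib.Offender.isBestOffenderOn_of_max hV hA) V le_rfl
  set X := ⁅V, A⁆ with hX
  set B := A ⊓ Subgroup.centralizer (X : Set G) with hB
  have hXV : X ≤ V := Subgroup.commutator_le_left V A
  have hB0 : B ≤ Subgroup.centralizer (X : Set G) := inf_le_right
  have hel : Cfsg.IsElementaryAbelian p (X ⊔ B) := CfsgLib.Offender.isElementaryAbelian_sup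
    (CfsgLib.Offender.isElementaryAbelian_mono hV hXV)
    (CfsgLib.Offender.isElementaryAbelian_mono hA.1 inf_le_left)
    (Subgroup.le_centralizer_iff.mp hB0)
  have hCA := CfsgLib.Offender.inf_centralizer_eq hV hA
  have hcard : Nat.card A ≤ Nat.card ↥(X ⊔ B) := by
    have hbi : CfsgLib.Offender.measure V A ≤ CfsgLib.Offender.measure V B := by
      obtain ⟨h1, -⟩ := CfsgLib.Offender.replacement_subgroup hV.1
        (by rw [Subgroup.normalizer_eq_top_iff.mpr inferInstance]; exact le_top)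
        (CfsgLib.Offender.isBestOffenderOn_of_max hV hA).2.1
        (CfsgLib.Offender.isBestOffenderOn_of_max hV hA).1 V le_rfl
      exact h1.ge
    unfold CfsgLib.Offender.measure at hbi
    rw [hCeq, hCA] at hbi
    set Y := X ⊔ V ⊓ A with hY
    have hAVB : V ⊓ A ≤ B := le_inf inf_le_right (fun y hy =>
      Subgroup.mem_centralizer_iff.mpr fun x hx => haveI := hV.1; setLike_mul_comm (hXV hx) hy.1)
    have h3 : Nat.card B * Nat.card Y ≤ Nat.card ↥(V ⊓ A) * Nat.card ↥(X ⊔ B) := by
      rw [mul_comm (Nat.card B)]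
      refine (CfsgLib.Offender.card_mul_le Y B).trans (Nat.mul_le_mul (Subgroup.card_le_of_le ?_)
        (Subgroup.card_le_of_le ?_))
      · exact le_inf (inf_le_left.trans (sup_le hXV inf_le_left)) (inf_le_right.trans inf_le_left)
      · exact sup_le (sup_le le_sup_left (hAVB.trans le_sup_right)) le_sup_right
    have := hbi.trans h3
    rw [mul_comm (Nat.card A)] at this
    exact Nat.le_of_mul_le_mul_left this Nat.card_pos
  refine ⟨⟨hel, fun C hC => (hA.2 C hC).trans hcard⟩, ?_, fun hne hbot => hnontriv hne ?_⟩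
  · have h1 : ⁅V, X ⊔ B⁆ ≤ X := by
      rw [Subgroup.commutator_le]
      intro v hv g hg
      haveI := hV.1
      have hgA : g ∈ V ⊔ A := sup_le (hXV.trans le_sup_left) (inf_le_left.trans le_sup_right) hg
      obtain ⟨w, hw, a, ha, rfl⟩ := Subgroup.mem_sup_of_normal_left.mp hgA
      have hm : ⁅v, a⁆ ∈ X := Subgroup.commutator_mem_commutator hv ha
      have : ⁅v, w * a⁆ = ⁅v, a⁆ := by
        calc ⁅v, w * a⁆ = (v * w * v⁻¹ * w⁻¹) * (w * ⁅v, a⁆ * w⁻¹) := by
              simp only [commutatorElement_def]; group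
          _ = _ := by
              rw [setLike_mul_comm hv hw, setLike_mul_comm hw (hXV hm)]; group
      rw [this]
      exact hm
    rw [Subgroup.commutator_eq_bot_iff_le_centralizer]
    refine h1.trans ?_
    rw [Subgroup.le_centralizer_iff]
    exact sup_le (fun x hx => Subgroup.mem_centralizer_iff.mpr fun y hy =>
      haveI := hV.1; setLike_mul_comm (hXV hy) (hXV hx)) hB0
  · exact le_bot_iff.mp (hbot ▸ Subgroup.commutator_mono le_rfl le_sup_right)

end Cfsg.Agent.S0607
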