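import Cfsg.Statements.S0613
import Cfsg.Agent.PLocalBasics.FactorData

set_option autoImplicit false
open Cfsg

namespace Cfsg.Agent.S0613

/-- A minimal nontrivially-acting best offender and a conjugate of it under a non-centralizing element of the p'-core generate SL(2, p) acting naturally on a plane, and p is 2 or 3. -/
theorem result {G : Type*} [Group G] [Finite G] {p : ℕ} [Fact p.Prime] (V H : Subgroup G) (hV : Cfsg.IsElementaryAbelian p V) (hHV : H ≤ Subgroup.normalizer (V : Set G)) (hf : H ⊓ Subgroup.centralizer (V : Set G) = ⊥) (hS1 : Subgroup.centralizer (Cfsg.pPrimeCore p ↥H : Set ↥H) ≤ Cfsg.pPrimeCore p ↥H) (hS3 : H = ⨆ A : {A : Subgroup G // A ≤ H ∧ Cfsg.IsBestOffenderOn p V A}, (A : Subgroup G)) (hH1 : H ≠ ⊥) (A : Subgroup G) (hAH : A ≤ H) (hA : Cfsg.IsBestOffenderOn p V A) (hAV : ⁅V, A⁆ ≠ ⊥) (hmin : ∀ B : Subgroup G, B ≤ A → Cfsg.IsBestOffenderOn p V B → ⁅V, B⁆ ≠ ⊥ → B = A) (x : G)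 (hx : x ∈ ((Cfsg.pPrimeCore p ↥H).map H.subtype)) (hxA : x ∉ Subgroup.centralizer (A : Set G)) : (p = 2 ∨ p = 3) ∧ Nat.card ↥(⁅V, A ⊔ A.map (MulAut.conj x).toMonoidHom⁆) = p ^ 2 ∧ (A ⊔ A.map (MulAut.conj x).toMonoidHom) ⊓ Subgroup.centralizer ((⁅V, A ⊔ A.map (MulAut.conj x).toMonoidHom⁆ : Subgroup G) : Set G) = ⊥ ∧ Nonempty (↥(A ⊔ A.map (MulAut.conj x).toMonoidHom) ≃* Matrix.SpecialLinearGroup (Fin 2) (ZMod p)) := by
  have c : CfsgLib.PLocalBasics.FaithCtx p V H := ⟨hV, hHV, hf, hS1⟩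
  obtain ⟨a, u, rfl, -, ht⟩ := CfsgLib.PLocalBasics.MinOff.transv c ⟨hAH, hA, hAV, hmin⟩
  have haH : a ∈ H := hAH (Subgroup.mem_zpowers a)
  have hxa : x * a ≠ a * x := fun h => hxA (Subgroup.mem_centralizer_iff.2 fun z hz => by
    obtain ⟨i, rfl⟩ := Subgroup.mem_zpowers_iff.1 hz
    exact ((show Commute x a from h).zpow_right i).eq.symm)
  have hP := c.pair haH ht hx hxa
  have e : Subgroup.zpowers a ⊔ (Subgroup.zpowers a).map (MulAut.conj x).toMonoidHom =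
      Subgroup.closure ({a, x * a * x⁻¹} : Set G) := by
    rw [MonoidHom.map_zpowers, Subgroup.zpowers_eq_closure, Subgroup.zpowers_eq_closure, ← Subgroup.closure_union]
    rfl
  refine ⟨c.prime_le_three haH ht, ?_⟩
  rw [e, hP.commEq]
  exact ⟨hP.cardW, hP.faithW, hP.iso⟩

end Cfsg.Agent.S0613
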