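import Cfsg.Statements.S0617
import Cfsg.Agent.PLocalBasics.FactorStructure

set_option autoImplicit false
open Cfsg

namespace Cfsg.Agent.S0617

/-- Structure Theorem for failure of factorization: a faithful group generated by best offenders, with self-centralizing p'-core, is a direct product of copies of SL(2, p) (p = 2 or 3), each acting on its own plane in V, which is the direct product of these planes and C_V(H). -/
theorem result {G : Type*} [Group G] [Finite G] {p : ℕ} [Fact p.Prime] (V H : Subgroup G) (hV : Cfsg.IsElementaryAbelian p V) (hHV : H ≤ Subgroup.normalizer (V : Set G)) (hf : H ⊓ Subgroup.centralizer (V : Set G) = ⊥) (hS1 : Subgroup.centralizer (Cfsg.pPrimeCore p ↥H : Set ↥H) ≤ Cfsg.pPrimeCore p ↥H) (hS3 : H = ⨆ A : {A : Subgroup G // A ≤ H ∧ Cfsg.IsBestOffenderOn p V A}, (A : Subgroup G)) (hH1 : H ≠ ⊥) : (p = 2 ∨ p = 3) ∧ (∀ E : {E : Subgroup G // ∃ A : Subgroup G,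 A ≤ H ∧ Cfsg.IsBestOffenderOn p V A ∧ ⁅V, A⁆ ≠ ⊥ ∧ (∀ B : Subgroup G, B ≤ A → Cfsg.IsBestOffenderOn p V B → ⁅V, B⁆ ≠ ⊥ → B = A) ∧ E = ⁅((Cfsg.pPrimeCore p ↥H).map H.subtype), A⁆ ⊔ A}, H ≤ Subgroup.normalizer ((E : Subgroup G) : Set G) ∧ Nonempty (↥(E : Subgroup G) ≃* Matrix.SpecialLinearGroup (Fin 2) (ZMod p)) ∧ Nat.card ↥(⁅V, (E : Subgroup G)⁆) = p ^ 2) ∧ iSupIndep (fun E : {E : Subgroup G // ∃ A : Subgroup G, A ≤ H ∧ Cfsg.IsBestOffenderOn p V A ∧ ⁅V, A⁆ ≠ ⊥ ∧ (∀ B : Subgroup G, B ≤ A → Cfsg.IsBestOffenderOn p V B → ⁅V, B⁆ ≠ ⊥ → B = A) ∧ E = ⁅((Cfsg.pPrimeCore p ↥H).map H.subtype), A⁆ ⊔ A} => (E : Subgroup G)) ∧ (⨆ E : {E : Subgroup G // ∃ A : Subgroup G, A ≤ H ∧ Cfsg.IsBestOffenderOn p V A ∧ ⁅V, A⁆ ≠ ⊥ ∧ (∀ B : Subgroup G, B ≤ A → Cfsg.IsBestOffenderOn p V B → ⁅V, B⁆ ≠ ⊥ → B = A) ∧ E = ⁅((Cfsg.pPrimeCore p ↥H).map H.subtype), A⁆ ⊔ A}, (E : Subgroup G)) = H ∧ iSupIndep (fun o : Option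 {E : Subgroup G // ∃ A : Subgroup G, A ≤ H ∧ Cfsg.IsBestOffenderOn p V A ∧ ⁅V, A⁆ ≠ ⊥ ∧ (∀ B : Subgroup G, B ≤ A → Cfsg.IsBestOffenderOn p V B → ⁅V, B⁆ ≠ ⊥ → B = A) ∧ E = ⁅((Cfsg.pPrimeCore p ↥H).map H.subtype), A⁆ ⊔ A} => o.elim (V ⊓ Subgroup.centralizer (H : Set G)) (fun E => ⁅V, (E : Subgroup G)⁆)) ∧ (V ⊓ Subgroup.centralizer (H : Set G)) ⊔ (⨆ E : {E : Subgroup G // ∃ A : Subgroup G, A ≤ H ∧ Cfsg.IsBestOffenderOn p V A ∧ ⁅V, A⁆ ≠ ⊥ ∧ (∀ B : Subgroup G, B ≤ A → Cfsg.IsBestOffenderOn p V B → ⁅V, B⁆ ≠ ⊥ → B = A) ∧ E = ⁅((Cfsg.pPrimeCore p ↥H).map H.subtype), A⁆ ⊔ A}, ⁅V, (E : Subgroup G)⁆) = V := by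
  have c : CfsgLib.PLocalBasics.FaithCtx p V H := ⟨hV, hHV, hf, hS1⟩
  have hmin : ∃ A, CfsgLib.PLocalBasics.MinOff p V H A := by
    by_contra hne
    push Not at hne
    refine hH1 (le_bot_iff.1 ((CfsgLib.PLocalBasics.le_iSup_factE c hS3).trans ?_))
    exact iSup_le fun B => absurd B.2 (hne B)
  obtain ⟨A₀, hA₀⟩ := hmin
  obtain ⟨hdisj, hspan⟩ := CfsgLib.PLocalBasics.plane_decomposition c hS3
  set ι := {E : Subgroup G // ∃ A : Subgroup G, A ≤ H ∧ Cfsg.IsBestOffenderOn p V A ∧ ⁅V, A⁆ ≠ ⊥ ∧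
    (∀ B : Subgroup G, B ≤ A → Cfsg.IsBestOffenderOn p V B → ⁅V, B⁆ ≠ ⊥ → B = A) ∧
    E = ⁅((Cfsg.pPrimeCore p ↥H).map H.subtype), A⁆ ⊔ A}
  have hrep : ∀ E : ι, ∃ A, CfsgLib.PLocalBasics.MinOff p V H A ∧ (E : Subgroup G) = CfsgLib.PLocalBasics.factE p H A := by
    rintro ⟨E, A, h1, h2, h3, h4, h5⟩
    exact ⟨A, ⟨h1, h2, h3, h4⟩, h5⟩
  let mk : ∀ B, CfsgLib.PLocalBasics.MinOff p V H B → ι := fun B hB =>
    ⟨CfsgLib.PLocalBasics.factE p H B, B, hB.le, hB.best, hB.ne, hB.min, rfl⟩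
  have hsupE : (⨆ E : ι, (E : Subgroup G)) = H := by
    refine le_antisymm (iSup_le fun E => ?_) ((CfsgLib.PLocalBasics.le_iSup_factE c hS3).trans
      (iSup_le fun B => le_iSup (fun E : ι => (E : Subgroup G)) (mk B B.2)))
    obtain ⟨A, hA, hE⟩ := hrep E
    rw [hE]
    exact (hA.factData c).leH
  have hsupW : (⨆ E : ι, ⁅V, (E : Subgroup G)⁆) =
      ⨆ B : {B : Subgroup G // CfsgLib.PLocalBasics.MinOff p V H B}, CfsgLib.PLocalBasics.factW p V H (B : Subgroup G) := by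
    refine le_antisymm (iSup_le fun E => ?_) (iSup_le fun B => le_iSup (fun E : ι => ⁅V, (E : Subgroup G)⁆) (mk B B.2))
    obtain ⟨A, hA, hE⟩ := hrep E
    rw [hE]
    exact le_iSup (fun B : {B : Subgroup G // CfsgLib.PLocalBasics.MinOff p V H B} =>
      CfsgLib.PLocalBasics.factW p V H (B : Subgroup G)) ⟨A, hA⟩
  refine ⟨(hA₀.factData c).small, fun E => ?_, ?_, hsupE, ?_, ?_⟩
  · obtain ⟨A, hA, hE⟩ := hrep E
    rw [hE]
    exact ⟨CfsgLib.PLocalBasics.le_normalizer_factE c hS3 hA, (hA.factData c).data.iso, (hA.factData c).data.cardW⟩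
  · rw [iSupIndep_def]
    intro E
    obtain ⟨A, hA, hE⟩ := hrep E
    rw [disjoint_iff, eq_bot_iff, hE]
    refine (inf_le_inf_left _ ?_).trans (hA.factData c).data.faithW.le
    refine iSup₂_le fun E' hne => ?_
    obtain ⟨B, hB, hE'⟩ := hrep E'
    rw [hE']
    exact (CfsgLib.PLocalBasics.factE_le_orth c hA hB (fun h => hne (Subtype.ext (hE'.trans (h.trans hE.symm))))).trans
      (inf_le_left.trans inf_le_right)
  · rw [iSupIndep_def]
    intro o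
    rw [disjoint_iff, eq_bot_iff]
    cases o with
    | none =>
      refine (inf_le_inf_left _ ?_).trans hdisj.le
      refine iSup₂_le fun j hj => ?_
      cases j with
      | none => exact absurd rfl hj
      | some E' => exact (le_iSup (fun E : ι => ⁅V, (E : Subgroup G)⁆) E').trans hsupW.le
    | some E =>
      obtain ⟨A, hA, hE⟩ := hrep E
      simp only [Option.elim_some, hE]
      refine (inf_le_inf_left _ ?_).trans (hA.factData c).data.inf.le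
      refine iSup₂_le fun j hj => ?_
      cases j with
      | none =>
        exact inf_le_inf_left _ (Subgroup.centralizer_le
          (show (CfsgLib.PLocalBasics.factE p H A : Set G) ⊆ H from fun g hg => (hA.factData c).leH hg))
      | some E' =>
        obtain ⟨B, hB, hE'⟩ := hrep E'
        simp only [Option.elim_some, hE']
        exact ((CfsgLib.PLocalBasics.pair_cases c hA hB).resolve_left
          fun h => hj (congrArg some (Subtype.ext (hE'.trans (h.symm.trans hE.symm))))).2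
  · rw [hsupW]
    exact hspan

end Cfsg.Agent.S0617
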