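import Cfsg.Statements.S0618
import Cfsg.Agent.PLocalBasics.ActModel

set_option autoImplicit false
open Cfsg

namespace Cfsg.Agent.S0618

/-- A p-separable group with trivial p'-core in which the Thompson factorization fails has p = 2 or 3, and J(G) induces on the normal closure of Ω₁(Z(S)) a group containing a normal SL(2, p). -/
theorem result {G : Type*} [Group G] [Finite G] {p : ℕ} [Fact p.Prime] (hsep : Cfsg.IsPSolvable p G) (hO : Cfsg.pPrimeCore p G = ⊥) (hnf : ¬ Cfsg.IsThompsonFactorizable p G) : (p = 2 ∨ p = 3) ∧ ∃ E : Subgroup G, Subgroup.centralizer ((⨆ S : Sylow p G, Cfsg.omegaOne p ((S : Subgroup G) ⊓ Subgroup.centralizer ((S : Subgroup G) : Set G))) : Set G) ≤ E ∧ E ≤ Cfsg.thompsonSubgroup p G ⊔ Subgroup.centralizer ((⨆ S : Sylow p G, Cfsg.omegaOne p ((S : Subgroup G) ⊓ Subgroup.centralizer ((S : Subgroup G) : Set G))) : Set G) ∧ Cfsg.thompsonSubgroup p G ⊔ Subgroup.centralizer ((⨆ S : Sylow p G, Cfsg.omegaOne p ((S : Subgroup G) ⊓ Subgroup.centralizer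 ((S : Subgroup G) : Set G))) : Set G) ≤ Subgroup.normalizer (E : Set G) ∧ ∃ hn : ((Subgroup.centralizer ((⨆ S : Sylow p G, Cfsg.omegaOne p ((S : Subgroup G) ⊓ Subgroup.centralizer ((S : Subgroup G) : Set G))) : Set G)).subgroupOf E).Normal, Nonempty ((↥E ⧸ (Subgroup.centralizer ((⨆ S : Sylow p G, Cfsg.omegaOne p ((S : Subgroup G) ⊓ Subgroup.centralizer ((S : Subgroup G) : Set G))) : Set G)).subgroupOf E) ≃* Matrix.SpecialLinearGroup (Fin 2) (ZMod p)) := by
  obtain ⟨hn, hV, hOq⟩ := CfsgLib.PLocalBasics.omegaJoin_data hsep hO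
  set V := CfsgLib.PLocalBasics.omegaJoin p G with hVdef
  haveI := hn
  rw [show Subgroup.centralizer (⨆ S : Sylow p G, ((Cfsg.omegaOne p ((S : Subgroup G) ⊓
      Subgroup.centralizer ((S : Subgroup G) : Set G)) : Subgroup G) : Set G)) = Subgroup.centralizer (V : Set G) by
    rw [hVdef, CfsgLib.PLocalBasics.omegaJoin, Subgroup.iSup_eq_closure, Subgroup.centralizer_closure]; rfl]
  set C := Subgroup.centralizer (V : Set G) with hC
  set J := Cfsg.thompsonSubgroup p G with hJ
  set ι := CfsgLib.PLocalBasics.actι V with hι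
  obtain ⟨c, hgen⟩ := CfsgLib.PLocalBasics.model_faithCtx V ι (CfsgLib.PLocalBasics.actV V) hsep hV hOq
    (CfsgLib.PLocalBasics.actV_injective V) (CfsgLib.PLocalBasics.actι_conj V) (CfsgLib.PLocalBasics.actι_faith V)
  have hker : ι.ker = C := CfsgLib.PLocalBasics.ker_eq_centralizer V ι (CfsgLib.PLocalBasics.actV V)
    (CfsgLib.PLocalBasics.actV_injective V) (CfsgLib.PLocalBasics.actι_conj V) (CfsgLib.PLocalBasics.actι_faith V)
  have hH : J.map ι ≠ ⊥ := by
    rw [Ne, Subgroup.map_eq_bot_iff, hker]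
    exact fun h => hnf ((CfsgLib.PLocalBasics.factorizable_iff hO).2 h)
  obtain ⟨A, hA⟩ := CfsgLib.PLocalBasics.exists_minOff c hgen hH
  have d := hA.factData c
  set E' := CfsgLib.PLocalBasics.factE p (J.map ι) A with hE'
  refine ⟨d.small, E'.comap ι, ?_, ?_, ?_, ?_⟩
  · exact hker ▸ Subgroup.ker_le_comap ι E'
  · show E'.comap ι ≤ J ⊔ C
    rw [← hker, ← Subgroup.comap_map_eq]
    exact Subgroup.comap_mono d.leH
  · show J ⊔ C ≤ _
    rw [← hker, ← Subgroup.comap_map_eq]
    exact (Subgroup.comap_mono (CfsgLib.PLocalBasics.le_normalizer_factE c hgen hA)).trans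
      (Subgroup.le_normalizer_comap ι)
  · haveI : C.Normal := hker ▸ inferInstance
    refine ⟨inferInstance, ?_⟩
    obtain ⟨e⟩ := d.data.iso
    have hk : (ι.subgroupComap E').ker = C.subgroupOf (E'.comap ι) := by
      ext x
      rw [MonoidHom.mem_ker, Subtype.ext_iff, Subgroup.mem_subgroupOf, ← hker, MonoidHom.mem_ker]
      rfl
    have hsurj : Function.Surjective (ι.subgroupComap E') := by
      rintro ⟨y, hy⟩
      obtain ⟨g, -, rfl⟩ := d.leH hy
      exact ⟨⟨g, hy⟩, rfl⟩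
    exact ⟨((QuotientGroup.quotientMulEquivOfEq hk.symm).trans
      (QuotientGroup.quotientKerEquivOfSurjective (ι.subgroupComap E') hsurj)).trans e⟩

end Cfsg.Agent.S0618
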