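import Cfsg.Statements.S0620
import Cfsg.Agent.PLocalBasics.ThompsonAction

set_option autoImplicit false
open Cfsg

namespace Cfsg.Agent.S0620

/-- Under coprime action of an elementary abelian q-group X on a p-separable group K with trivial p'-core, K is generated by the normalizer of J(S), the centralizer of Ω₁(Z(S)) and the fixed points of X. -/
theorem result {G : Type*} [Group G] [Finite G] {p : ℕ} [Fact p.Prime] {q : ℕ} [Fact q.Prime] (K X : Subgroup G) (hXK : X ≤ Subgroup.normalizer (K : Set G)) (hX : Cfsg.IsElementaryAbelian q X) (hq : ¬ q ∣ Nat.card K) (hsep : Cfsg.IsPSolvable p ↥K) (hO : Cfsg.pPrimeCore p ↥K = ⊥) (S : Sylow p ↥K) : (Subgroup.normalizer (Cfsg.thompsonSubgroupOf p (S : Subgroup ↥K) : Set ↥K) ⊔ Subgroup.centralizer (Cfsg.omegaOne p ((S : Subgroup ↥K) ⊓ Subgroup.centralizer ((S : Subgroup ↥K) : Set ↥K)) : Set ↥K) ⊔ (Subgroup.centralizer (X : Set G)).subgroupOf K) = ⊤ := by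
  let φ : X →* MulAut K := CfsgLib.PLocalBasics.restrictAut ((MulAut.conj).comp X.subtype) K
    (fun x => Subgroup.mem_normalizer_iff_map_conj_eq.1 (hXK x.2))
  have hφ : ∀ (x : X) (k : K), (φ x k : G) = x * k * (x : G)⁻¹ := fun x k => rfl
  have hXq : IsPGroup q X := fun x => ⟨1, Subtype.ext (by simpa using hX.2 x x.2)⟩
  have hfix : ∀ k : K, (∀ x, φ x k = k) → (k : G) ∈ Subgroup.centralizer (X : Set G) := fun k hk =>
    Subgroup.mem_centralizer_iff.2 fun x hx => mul_inv_eq_iff_eq_mul.1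
      ((hφ ⟨x, hx⟩ k).symm.trans (congrArg Subtype.val (hk ⟨x, hx⟩)))
  exact CfsgLib.PLocalBasics.factorization_with_action φ hXq hq hsep hO S _ (le_sup_left.trans le_sup_left)
    (le_sup_right.trans le_sup_left) fun k hk => Subgroup.mem_sup_right (hfix k hk)

end Cfsg.Agent.S0620
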