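import Cfsg.Statements.S0621
import Cfsg.Agent.PLocalBasics.ThompsonAction

set_option autoImplicit false
open Cfsg

namespace Cfsg.Agent.S0621

/-- Let K be p-separable with O_p'(K) = 1, normalized by an elementary abelian q-group X for a prime q not dividing the order of K. If the Thompson factorization fails in K, then p is 2 or 3 and the fixed points of X contain a plane W of order p² and a subgroup inducing SL(2, p) on it. -/
theorem result {G : Type*} [Group G] [Finite G] {p : ℕ} [Fact p.Prime] {q : ℕ} [Fact q.Prime] (K X : Subgroup G) (hXK : X ≤ Subgroup.normalizer (K : Set G)) (hX : Cfsg.IsElementaryAbelian q X) (hq : ¬ q ∣ Nat.card K) (hsep : Cfsg.IsPSolvable p ↥K) (hO : Cfsg.pPrimeCore p ↥K = ⊥) (hnf : ¬ Cfsg.IsThompsonFactorizable p ↥K) : (p = 2 ∨ p = 3) ∧ ∃ W D : Subgroup G, W ≤ K ⊓ Subgroup.centralizer (X : Set G) ∧ D ≤ K ⊓ Subgroup.centralizer (X : Set G) ∧ Cfsg.IsElementaryAbelian p W ∧ Nat.card W = p ^ 2 ∧ D ≤ Subgroup.normalizer (W : Set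 G) ∧ ∃ hn : ((Subgroup.centralizer (W : Set G)).subgroupOf D).Normal, Nonempty ((↥D ⧸ (Subgroup.centralizer (W : Set G)).subgroupOf D) ≃* Matrix.SpecialLinearGroup (Fin 2) (ZMod p)) := by
  let φ : X →* MulAut K := CfsgLib.PLocalBasics.restrictAut ((MulAut.conj).comp X.subtype) K
    (fun x => Subgroup.mem_normalizer_iff_map_conj_eq.1 (hXK x.2))
  have hφ : ∀ (x : X) (k : K), (φ x k : G) = x * k * (x : G)⁻¹ := fun x k => rfl
  have hXq : IsPGroup q X := fun x => ⟨1, Subtype.ext (by simpa using hX.2 x x.2)⟩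
  have hfix : ∀ k : K, (∀ x, φ x k = k) → (k : G) ∈ Subgroup.centralizer (X : Set G) := fun k hk =>
    Subgroup.mem_centralizer_iff.2 fun x hx => mul_inv_eq_iff_eq_mul.1
      ((hφ ⟨x, hx⟩ k).symm.trans (congrArg Subtype.val (hk ⟨x, hx⟩)))
  obtain ⟨hp23, W₀, D₀, hW, hD, hWel, hWcard, hDN, f, hf, hker⟩ :=
    CfsgLib.PLocalBasics.fixed_plane φ hXq hq hsep hO hnf
  have hinj := K.subtype_injective
  refine ⟨hp23, W₀.map K.subtype, D₀.map K.subtype, ?_, ?_, ⟨⟨⟨fun a b => ?_⟩⟩, ?_⟩, ?_, ?_, ?_⟩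
  · rintro _ ⟨w, hw, rfl⟩
    exact ⟨w.2, hfix w (hW w hw)⟩
  · rintro _ ⟨k, hk, rfl⟩
    exact ⟨k.2, hfix k (hD k hk)⟩
  · obtain ⟨⟨_, a, ha, rfl⟩, ⟨_, b, hb, rfl⟩⟩ := a, b
    refine Subtype.ext (show (a : G) * b = b * a from ?_)
    exact congrArg Subtype.val (congrArg Subtype.val (hWel.1.is_comm.comm ⟨a, ha⟩ ⟨b, hb⟩) : a * b = b * a)
  · rintro _ ⟨w, hw, rfl⟩
    rw [← map_pow, hWel.2 w hw, map_one]
  · rw [Subgroup.card_map_of_injective hinj, hWcard]
  · rintro _ ⟨k, hk, rfl⟩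
    rw [Subgroup.mem_normalizer_iff_map_conj_eq, Subgroup.map_map]
    refine Eq.trans ?_ (congrArg (fun Z : Subgroup K => Z.map K.subtype)
      (Subgroup.mem_normalizer_iff_map_conj_eq.1 (hDN hk)))
    rw [Subgroup.map_map]
    rfl
  · let e := (D₀.equivMapOfInjective K.subtype hinj).symm
    set F := f.comp e.toMonoidHom
    have hk : F.ker = (Subgroup.centralizer ((W₀.map K.subtype : Subgroup G) : Set G)).subgroupOf (D₀.map K.subtype) := by
      ext d
      rw [MonoidHom.mem_ker, Subgroup.mem_subgroupOf]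
      show f (e d) = 1 ↔ _
      have hd : ((e d : K) : G) = d := congrArg Subtype.val ((D₀.equivMapOfInjective K.subtype hinj).apply_symm_apply d)
      rw [hker, Subgroup.mem_centralizer_iff, Subgroup.mem_centralizer_iff]
      constructor
      · rintro h _ ⟨w, hw, rfl⟩
        rw [← hd]
        exact congrArg Subtype.val (h w hw)
      · intro h w hw
        exact Subtype.ext (by
          show (w : G) * (e d : K) = (e d : K) * w
          rw [hd]; exact h w ⟨w, hw, rfl⟩)
    haveI : ((Subgroup.centralizer ((W₀.map K.subtype : Subgroup G) : Set G)).subgroupOf (D₀.map K.subtype)).Normal :=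
      hk ▸ F.normal_ker
    refine ⟨this, ?_⟩
    exact ⟨(QuotientGroup.quotientMulEquivOfEq hk.symm).trans
      (QuotientGroup.quotientKerEquivOfSurjective F (hf.comp e.surjective))⟩

end Cfsg.Agent.S0621
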