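import Cfsg.Statements.S0622
import Mathlib
import Cfsg.Agent.StableClosure.Basic

set_option autoImplicit false
universe u
open Cfsg

namespace Cfsg.Agent.S0622

/-- Basic properties of the stable normal closure W(S) of Ω₁(Z(S)) in a finite p-group: characteristic, squeezed between Ω₁(Z(S)) and Ω₁(Z(J(S))), nontrivial for S ≠ 1, and transported by group isomorphisms. -/
theorem result {S : Type u} [Group S] [Finite S] {p : ℕ} [Fact p.Prime] (hS : IsPGroup p S) : (Cfsg.stableNormalClosure p S).Characteristic ∧ Cfsg.omegaOne p (Subgroup.center S) ≤ Cfsg.stableNormalClosure p S ∧ Cfsg.stableNormalClosure p S ≤ Cfsg.omegaCenterThompson p S ∧ (Nontrivial S → Cfsg.stableNormalClosure p S ≠ ⊥) ∧ ∀ (S' : Type u) [Group S'] (η : S ≃* S'), (Cfsg.stableNormalClosure p S).map η.toMonoidHom = Cfsg.stableNormalClosure p S' := by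
  refine ⟨?_, CfsgLib.StableClosure.omegaOne_center_le_stable p,
    CfsgLib.StableClosure.le_omegaCenterThompson p, fun hn => ?_,
    fun S' _ η => CfsgLib.StableClosure.map_equiv p η⟩
  · rw [Subgroup.characteristic_iff_map_eq]
    exact fun φ => CfsgLib.StableClosure.map_equiv p φ
  · haveI := hS.center_nontrivial
    obtain ⟨k, hk⟩ := IsPGroup.iff_card.mp (hS.to_subgroup (Subgroup.center S))
    have hpk : p ∣ Nat.card (Subgroup.center S) := by
      rw [hk]
      refine dvd_pow_self p ?_
      rintro rfl
      have := Finite.one_lt_card (α := Subgroup.center S)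
      rw [pow_zero] at hk
      omega
    obtain ⟨z, hz⟩ := exists_prime_orderOf_dvd_card' p hpk
    have hzmem : (z : S) ∈ Cfsg.omegaOne p (Subgroup.center S) := by
      refine Subgroup.subset_closure ⟨z.2, ?_⟩
      rw [← SubmonoidClass.coe_pow, ← hz, pow_orderOf_eq_one]
      rfl
    intro hbot
    have := CfsgLib.StableClosure.omegaOne_center_le_stable p hzmem
    rw [hbot, Subgroup.mem_bot] at this
    rw [show z = 1 from Subtype.ext this, orderOf_one] at hz
    exact (Fact.out : p.Prime).one_lt.ne hz

end Cfsg.Agent.S0622
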