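import Cfsg.Statements.S0633
import Cfsg.Agent.HallHigmanB.Main
-- import your own Cfsg.Agent.* helpers here

set_option autoImplicit false
open Cfsg

namespace Cfsg.Agent.S0633

/-- Theorem B of Hall and Higman on the minimal polynomial of a p-element of order p^n in a p-solvable linear group on a nonzero vector space in characteristic p with no nontrivial normal p-subgroup: its degree is p^n, except when some p^n₀ - 1 (n₀ ≤ n) is a power of a prime q for which the Sylow q-subgroups are non-abelian, in which case the degree is at least p^(n-n₀)(p^n₀ - 1). -/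
theorem result {F : Type*} [Field F] {p : ℕ} [Fact p.Prime] [CharP F p] {V : Type*} [AddCommGroup V] [Module F V] [FiniteDimensional F V] [Nontrivial V] (H : Subgroup (V ≃ₗ[F] V)) [Finite H] (hsol : Cfsg.IsPSolvable p H) (hOp : Cfsg.pCore p H = ⊥) (x : V ≃ₗ[F] V) (hx : x ∈ H) (n : ℕ) (hn : orderOf x = p ^ n) (r : ℕ) (hr : minpoly F (x : Module.End F V) = (Polynomial.X - 1) ^ r) : r = p ^ n ∨ ∃ n₀ q m : ℕ, 1 ≤ n₀ ∧ n₀ ≤ n ∧ q.Prime ∧ 1 ≤ m ∧ p ^ n₀ - 1 = q ^ m ∧ (∀ Q : Sylow q H, ¬ IsMulCommutative Q) ∧ p ^ (n - n₀) * (p ^ n₀ - 1) ≤ r := by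
  classical
  let K := AlgebraicClosure F
  haveI : CharP K p := charP_of_injective_algebraMap (algebraMap F K).injective p
  let b := Module.finBasis F V
  let d := Module.finrank F V
  have hd : 0 < d := Module.finrank_pos
  haveI : Nonempty (Fin d) := ⟨⟨0, hd⟩⟩
  let φ : Module.End F V →+* Module.End K (Fin d → K) :=
    (Matrix.toLinAlgEquiv' (R := K) (n := Fin d)).toRingEquiv.toRingHom.comp
      ((algebraMap F K).mapMatrix.comp (LinearMap.toMatrixAlgEquiv b).toRingEquiv.toRingHom)
  have hφ : Function.Injective φ := (Matrix.toLinAlgEquiv' (R := K) (n := Fin d)).injective.comp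
    ((Matrix.map_injective (algebraMap F K).injective).comp (LinearMap.toMatrixAlgEquiv b).injective)
  let ι : H →* Module.End F V :=
    { toFun := fun a => ((a : V ≃ₗ[F] V) : Module.End F V)
      map_one' := rfl
      map_mul' := fun _ _ => rfl }
  have hι : Function.Injective ι := fun a c e => Subtype.ext (LinearEquiv.toLinearMap_injective e)
  set ρ : H →* Module.End K (Fin d → K) := φ.toMonoidHom.comp ι with hρdef
  have hρ : Function.Injective ρ := hφ.comp hι
  set xe : Module.End F V := (x : Module.End F V) with hxe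
  have hxH : ι ⟨x, hx⟩ = xe := rfl
  have h0 : (xe - 1) ^ r = 0 := by
    have := minpoly.aeval F xe
    rw [hr] at this
    simpa using this
  have hzero : ∀ j, (xe - 1) ^ j = 0 → r ≤ j := fun j hj => by
    have h1 := minpoly.dvd F xe (p := (Polynomial.X - 1) ^ j) (by simpa using hj)
    rw [hr] at h1
    have h2 := Polynomial.natDegree_le_of_dvd h1 (pow_ne_zero _ (by simpa using Polynomial.X_sub_C_ne_zero (1 : F)))
    rwa [← map_one Polynomial.C, Polynomial.natDegree_pow, Polynomial.natDegree_pow, Polynomial.natDegree_X_sub_C,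
      mul_one, mul_one] at h2
  have hord : orderOf (⟨x, hx⟩ : H) = p ^ n := by rw [Subgroup.orderOf_mk, hn]
  have hle : r ≤ p ^ n := hzero _ (by
    haveI : CharP (Module.End F V) p :=
      charP_of_injective_algebraMap (algebraMap F (Module.End F V)).injective p
    rw [sub_pow_char_pow_of_commute _ _ (Commute.one_right _), one_pow, ← hxH, ← map_pow, ← hord,
      pow_orderOf_eq_one, map_one, sub_self])
  have hR : (ρ ⟨x, hx⟩ - 1) ^ r = 0 := by
    show (φ xe - 1) ^ r = 0
    rw [← map_one φ, ← map_sub, ← map_pow, h0, map_zero]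
  rcases CfsgLib.HallHigmanB.theorem_B ρ hρ hsol hOp ⟨x, hx⟩ n hord r hR with h | h
  · exact Or.inl (le_antisymm hle h)
  · exact Or.inr h

end Cfsg.Agent.S0633
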