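import Cfsg.Statements.S0634
import Mathlib.Tactic
import Cfsg.Agent.PLocalBasics.PLength
import Cfsg.Agent.PCore.Descent

set_option autoImplicit false
open Cfsg
open scoped commutatorElement

namespace Cfsg.Agent.S0634

/-- In a p-soluble group each p-factor of the upper p-series contains its own centralizer in the corresponding quotient. -/
theorem result {G : Type*} [Group G] [Finite G] {p : ℕ} [Fact p.Prime] (hsol : Cfsg.IsPSolvable p G) (k : ℕ) : Subgroup.centralizer ((((Cfsg.upperPSeries p G (2 * k + 2)).1.map (QuotientGroup.mk' (Cfsg.upperPSeries p G (2 * k + 1)).1)) : Subgroup (G ⧸ (Cfsg.upperPSeries p G (2 * k + 1)).1)) : Set (G ⧸ (Cfsg.upperPSeries p G (2 * k + 1)).1)) ≤ (Cfsg.upperPSeries p G (2 * k + 2)).1.map (QuotientGroup.mk' (Cfsg.upperPSeries p G (2 * k + 1)).1) := by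
  set U := (Cfsg.upperPSeries p G (2 * k)).1 with hU
  set V := (Cfsg.upperPSeries p G (2 * k + 1)).1 with hV
  have hVe : V = (Cfsg.pPrimeCore p (G ⧸ U)).comap (QuotientGroup.mk' U) := by
    show ((Cfsg.upperPSeries p G (2 * k + 1)).1) = _
    rw [Cfsg.upperPSeries]
    simp [U]
  have hW : (Cfsg.upperPSeries p G (2 * k + 2)).1 =
      (Cfsg.pCore p (G ⧸ V)).comap (QuotientGroup.mk' V) := by
    show ((Cfsg.upperPSeries p G (2 * k + 1 + 1)).1) = _
    rw [Cfsg.upperPSeries]
    simp [Nat.not_even_bit1]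
    rfl
  rw [hW, Subgroup.map_comap_eq_self_of_surjective (QuotientGroup.mk'_surjective V)]
  refine CfsgLib.PCore.hall_higman (CfsgLib.PCore.isPSolvable_quotient hsol V) ?_
  set K := Cfsg.pPrimeCore p (G ⧸ V)
  set K' := K.comap (QuotientGroup.mk' V) with hK'
  have hUV : U ≤ V := by
    rw [hVe]; intro x hx
    rw [Subgroup.mem_comap, QuotientGroup.mk'_apply, (QuotientGroup.eq_one_iff x).2 hx]
    exact Subgroup.one_mem _
  have hcard : (Nat.card (K'.map (QuotientGroup.mk' U))).Coprime p := by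
    have h1 : Nat.card V * Nat.card K = Nat.card K' := (CfsgLib.PCore.card_comap_mk' V K).symm
    have h2 : Nat.card U * Nat.card (Cfsg.pPrimeCore p (G ⧸ U)) = Nat.card V := by
      rw [hVe]; exact (CfsgLib.PCore.card_comap_mk' U _).symm
    have hUK : U ≤ K' := hUV.trans fun x hx => by
      rw [hK', Subgroup.mem_comap, QuotientGroup.mk'_apply, (QuotientGroup.eq_one_iff x).2 hx]
      exact Subgroup.one_mem _
    have h4 : (K'.map (QuotientGroup.mk' U)).comap (QuotientGroup.mk' U) = K' := by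
      rw [Subgroup.comap_map_eq, QuotientGroup.ker_mk', sup_eq_left.2 hUK]
    have h3 : Nat.card U * Nat.card (K'.map (QuotientGroup.mk' U)) = Nat.card K' := by
      rw [← CfsgLib.PCore.card_comap_mk', h4]
    rw [← h1, ← h2, mul_assoc] at h3
    rw [Nat.eq_of_mul_eq_mul_left Nat.card_pos h3]
    exact (CfsgLib.PCore.pPrimeCore_coprime p _).mul_left (CfsgLib.PCore.pPrimeCore_coprime p _)
  have hn : (K'.map (QuotientGroup.mk' U)).Normal :=
    Subgroup.Normal.map inferInstance _ (QuotientGroup.mk'_surjective U)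
  rw [eq_bot_iff]
  intro x hx
  obtain ⟨g, rfl⟩ := QuotientGroup.mk'_surjective V x
  refine Subgroup.mem_bot.2 ((QuotientGroup.eq_one_iff g).2 ?_)
  rw [hVe]
  exact CfsgLib.PCore.le_pPrimeCore hn hcard (Subgroup.mem_map_of_mem _ (show g ∈ K' from hx))

end Cfsg.Agent.S0634
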