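import Cfsg.Statements.S0636
import Cfsg.Agent.RankOneP.Basic

set_option autoImplicit false
open Cfsg

namespace Cfsg.Agent.S0636

private theorem exists_central {X : Type*} [Group X] [Finite X] {p : ℕ} [Fact p.Prime] (hX : IsPGroup p X)
    (T : Subgroup X) [T.Normal] (hT : T ≠ ⊥) : ∃ z ∈ T, z ∈ Subgroup.center X ∧ orderOf z = p := by
  haveI : Nontrivial T := (Subgroup.nontrivial_iff_ne_bot T).2 hT
  obtain ⟨k, hk⟩ := IsPGroup.iff_card.1 (hX.to_subgroup T)
  have hdvd : p ∣ Nat.card T := by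
    rcases k with _ | k
    · have := Finite.one_lt_card (α := T); rw [hk, pow_zero] at this; omega
    · rw [hk, pow_succ]; exact dvd_mul_left _ _
  obtain ⟨b, hb1, hb2⟩ := (hX.of_equiv ConjAct.toConjAct).exists_fixed_point_of_prime_dvd_card_of_fixed_point T hdvd (a := 1)
    (fun g => Subtype.ext (by simp))
  have hbc : (b : X) ∈ Subgroup.center X := Subgroup.mem_center_iff.2 fun g => by
    have h := congrArg Subtype.val (hb1 (ConjAct.toConjAct g))
    simp only [ConjAct.Subgroup.val_conj_smul, ConjAct.smul_def, ConjAct.ofConjAct_toConjAct] at h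
    exact mul_inv_eq_iff_eq_mul.1 h
  obtain ⟨n, hn⟩ := IsPGroup.iff_orderOf.1 hX (b : X)
  rcases n with _ | n
  · exact absurd (Subtype.ext (orderOf_eq_one_iff.1 (by simpa using hn)).symm) hb2
  refine ⟨(b : X) ^ p ^ n, pow_mem b.2 _, pow_mem hbc _, ?_⟩
  rw [orderOf_pow' _ (pow_ne_zero _ (Fact.out : p.Prime).ne_zero), hn, Nat.gcd_eq_right ⟨p, pow_succ _ _⟩, pow_succ,
    Nat.mul_div_cancel_left _ (pow_pos (Fact.out : p.Prime).pos n)]

private theorem central_normal {X : Type*} [Group X] {z : X} (hz : z ∈ Subgroup.center X) :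
    (Subgroup.zpowers z).Normal := ⟨fun x hx g => by
  rw [Subgroup.mem_center_iff.1 (Subgroup.zpowers_le.2 hz hx) g, mul_inv_cancel_right]; exact hx⟩

/-- For odd p, every non-cyclic normal subgroup of a p-group contains a normal elementary abelian subgroup of the whole group of order p². -/
theorem result {R : Type*} [Group R] [Finite R] {p : ℕ} [Fact p.Prime] (hp : p ≠ 2) (hR : IsPGroup p R) (S : Subgroup R) [S.Normal] (hS : ¬ IsCyclic S) : ∃ A : Subgroup R, A ≤ S ∧ A.Normal ∧ Cfsg.IsElementaryAbelian p A ∧ Nat.card A = p ^ 2 := by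
  classical
  have hp1 := (Fact.out : p.Prime)
  -- the elementary abelian case: a normal abelian subgroup with many elements of order p
  have elem : ∀ T : Subgroup R, T.Normal → T ≤ S → Cfsg.IsElementaryAbelian p T → T ≠ ⊥ → ¬ IsCyclic T →
      ∃ A : Subgroup R, A ≤ S ∧ A.Normal ∧ Cfsg.IsElementaryAbelian p A ∧ Nat.card A = p ^ 2 := by
    intro T hTn hTS hTe hT0 hTc
    haveI := hTn
    obtain ⟨z, hzT, hzc, hzo⟩ := exists_central hR T hT0
    haveI := central_normal hzc
    have hzT' : Subgroup.zpowers z ≤ T := Subgroup.zpowers_le.2 hzT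
    haveI : (T.map (QuotientGroup.mk' (Subgroup.zpowers z))).Normal := hTn.map _ (QuotientGroup.mk'_surjective _)
    have hne : T.map (QuotientGroup.mk' (Subgroup.zpowers z)) ≠ ⊥ := by
      rw [Ne, Subgroup.map_eq_bot_iff, QuotientGroup.ker_mk']
      intro h
      apply hTc
      rw [le_antisymm h hzT']
      exact ⟨⟨⟨z, Subgroup.mem_zpowers z⟩, fun w => by
        obtain ⟨i, hi⟩ := w.2
        exact ⟨i, Subtype.ext hi⟩⟩⟩
    obtain ⟨q, hqT, hqc, hqo⟩ := exists_central (hR.to_quotient _) _ hne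
    haveI := central_normal hqc
    set A := (Subgroup.zpowers q).comap (QuotientGroup.mk' (Subgroup.zpowers z)) with hA
    have hAT : A ≤ T := by
      refine le_trans (Subgroup.comap_mono (Subgroup.zpowers_le.2 hqT)) ?_
      rw [Subgroup.comap_map_eq, QuotientGroup.ker_mk']
      exact sup_le le_rfl hzT'
    refine ⟨A, hAT.trans hTS, inferInstance, ⟨⟨⟨fun u v => Subtype.ext (congrArg Subtype.val
      (hTe.1.is_comm.comm (⟨u, hAT u.2⟩ : T) ⟨v, hAT v.2⟩) :)⟩⟩, fun a ha => hTe.2 a (hAT ha)⟩, ?_⟩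
    rw [← Subgroup.index_mul_card ((Subgroup.zpowers z).subgroupOf A)]
    have hle : Subgroup.zpowers z ≤ A := by
      intro w hw
      rw [hA, Subgroup.mem_comap, QuotientGroup.mk'_apply, (QuotientGroup.eq_one_iff w).2 hw]
      exact one_mem _
    rw [Nat.card_congr (Subgroup.subgroupOfEquivOfLe hle).toEquiv, Nat.card_zpowers, hzo]
    have e : ((Subgroup.zpowers z).subgroupOf A).index = p := by
      change (Subgroup.zpowers z).relIndex A = p
      rw [← hqo, ← Nat.card_zpowers, ← Subgroup.relIndex_bot_left (Subgroup.zpowers q), hA]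
      conv_lhs => arg 1; rw [← QuotientGroup.ker_mk' (Subgroup.zpowers z), ← MonoidHom.comap_bot]
      rw [Subgroup.relIndex_comap, Subgroup.map_comap_eq_self_of_surjective (QuotientGroup.mk'_surjective _)]
    rw [e, pow_two]
  obtain ⟨A, ⟨hAn, hAab, hAS⟩, hAmax⟩ := Set.Finite.exists_maximal
    (s := {A : Subgroup R | A.Normal ∧ IsMulCommutative A ∧ A ≤ S}) (Set.toFinite _) ⟨⊥, inferInstance, inferInstance, bot_le⟩
  haveI := hAn
  have hexpT : ∀ T : Subgroup R, T ≤ A → (∀ t, t ∈ T ↔ t ∈ A ∧ t ^ p = 1) → T.Normal := fun T hTA hT => ⟨fun t ht g => by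
    rw [hT] at ht ⊢
    exact ⟨hAn.conj_mem t ht.1 g, by rw [conj_pow, ht.2, mul_one, mul_inv_cancel]⟩⟩
  by_cases hAc : IsCyclic A
  swap
  · let T : Subgroup R :=
      { carrier := {t | t ∈ A ∧ t ^ p = 1}
        one_mem' := ⟨one_mem A, one_pow p⟩
        mul_mem' := fun {u v} hu hv => ⟨mul_mem hu.1 hv.1, by
          have hc : Commute u v := congrArg Subtype.val (hAab.is_comm.comm (⟨u, hu.1⟩ : A) ⟨v, hv.1⟩)
          rw [hc.mul_pow, hu.2, hv.2, one_mul]⟩
        inv_mem' := fun {u} hu => ⟨inv_mem hu.1, by rw [inv_pow, hu.2, inv_one]⟩ }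
    have hTA : T ≤ A := fun t ht => ht.1
    refine elem T (hexpT T hTA fun t => Iff.rfl) (hTA.trans hAS)
      ⟨⟨⟨fun u v => Subtype.ext (congrArg Subtype.val (hAab.is_comm.comm (⟨u, hTA u.2⟩ : A) ⟨v, hTA v.2⟩) :)⟩⟩, fun t ht => ht.2⟩ ?_ ?_
    · intro h0
      apply hAc
      refine CfsgLib.RankOneP.isCyclic_of_commute (hR.to_subgroup A) (fun x y hx _ hx1 => ?_) hAab.is_comm.comm
      exact absurd (Subtype.ext ((Subgroup.eq_bot_iff_forall T).1 h0 x ⟨x.2, congrArg Subtype.val hx⟩)) hx1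
    · intro hTc
      apply hAc
      refine CfsgLib.RankOneP.isCyclic_of_commute (hR.to_subgroup A) (fun x y hx hy hx1 => ?_) hAab.is_comm.comm
      have ox : orderOf (⟨x, x.2, congrArg Subtype.val hx⟩ : T) = p := by
        rw [← Subgroup.orderOf_coe]; exact (Subgroup.orderOf_coe x).trans (orderOf_eq_prime hx hx1)
      rcases eq_or_ne y 1 with rfl | hy1
      · exact one_mem _
      have oy : orderOf (⟨y, y.2, congrArg Subtype.val hy⟩ : T) = p := by
        rw [← Subgroup.orderOf_coe]; exact (Subgroup.orderOf_coe y).trans (orderOf_eq_prime hy hy1)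
      have e := CfsgLib.RankOneP.zpowers_eq_of_orderOf_eq (a := (⟨y, y.2, congrArg Subtype.val hy⟩ : T))
        (b := (⟨x, x.2, congrArg Subtype.val hx⟩ : T)) (oy.trans ox.symm)
      obtain ⟨i, hi⟩ : (⟨y, y.2, congrArg Subtype.val hy⟩ : T) ∈ Subgroup.zpowers (⟨x, x.2, congrArg Subtype.val hx⟩ : T) := e ▸ Subgroup.mem_zpowers _
      exact ⟨i, Subtype.ext (congrArg Subtype.val hi :)⟩
  obtain ⟨⟨a, haA⟩, hga⟩ := IsCyclic.exists_zpow_surjective (G := A)
  have hAz : A = Subgroup.zpowers a := by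
    refine le_antisymm (fun x hx => ?_) (Subgroup.zpowers_le.2 haA)
    obtain ⟨k, hk⟩ := hga ⟨x, hx⟩
    exact ⟨k, congrArg Subtype.val hk⟩
  subst hAz
  have hSA : ¬ S ≤ Subgroup.zpowers a := fun h => hS (by rw [le_antisymm h hAS]; exact hAc)
  have hne : S.map (QuotientGroup.mk' (Subgroup.zpowers a)) ≠ ⊥ := by
    rw [Ne, Subgroup.map_eq_bot_iff, QuotientGroup.ker_mk']
    exact hSA
  haveI : (S.map (QuotientGroup.mk' (Subgroup.zpowers a))).Normal :=
    (inferInstance : S.Normal).map _ (QuotientGroup.mk'_surjective _)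
  -- self-centralising inside S
  have hcent : ∀ x ∈ S, Commute x a → x ∈ Subgroup.zpowers a := by
    by_contra hcon
    push Not at hcon
    obtain ⟨x, hxS, hxc, hxA⟩ := hcon
    set C := S ⊓ Subgroup.centralizer (Subgroup.zpowers a : Set R) with hC
    have hCne : C.map (QuotientGroup.mk' (Subgroup.zpowers a)) ≠ ⊥ := by
      rw [Ne, Subgroup.map_eq_bot_iff, QuotientGroup.ker_mk']
      refine fun h => hxA (h ⟨hxS, Subgroup.mem_centralizer_iff.2 ?_⟩)
      rintro _ ⟨k, rfl⟩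
      exact (hxc.symm.zpow_left k).eq
    haveI : (C.map (QuotientGroup.mk' (Subgroup.zpowers a))).Normal :=
      (inferInstance : C.Normal).map _ (QuotientGroup.mk'_surjective _)
    obtain ⟨q, ⟨y, hyC, hyq⟩, hqc, hqo⟩ := exists_central (hR.to_quotient _) _ hCne
    haveI := central_normal hqc
    set B := (Subgroup.zpowers q).comap (QuotientGroup.mk' (Subgroup.zpowers a)) with hB
    have hBe : B = Subgroup.zpowers a ⊔ Subgroup.zpowers y := by
      rw [hB, ← hyq, ← MonoidHom.map_zpowers, Subgroup.comap_map_eq, QuotientGroup.ker_mk', sup_comm]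
    have hBab : IsMulCommutative B := by
      rw [hBe, Subgroup.zpowers_eq_closure, Subgroup.zpowers_eq_closure y, ← Subgroup.closure_union]
      apply Subgroup.isMulCommutative_closure
      have h1 := Subgroup.mem_centralizer_iff.1 hyC.2 a (Subgroup.mem_zpowers a)
      rintro u (rfl | rfl) v (rfl | rfl) <;> first | rfl | exact h1 | exact h1.symm
    have hBS : B ≤ S := by rw [hBe]; exact sup_le hAS (Subgroup.zpowers_le.2 hyC.1)
    have hBA := hAmax ⟨inferInstance, hBab, hBS⟩ (hBe ▸ le_sup_left)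
    have hyA : y ∈ Subgroup.zpowers a := hBA (hBe ▸ Subgroup.mem_sup_right (Subgroup.mem_zpowers y))
    have e1 : q = 1 := by
      rw [← hyq, QuotientGroup.mk'_apply]
      exact (QuotientGroup.eq_one_iff y).2 hyA
    rw [e1, orderOf_one] at hqo
    exact hp1.ne_one hqo.symm
  obtain ⟨q, ⟨y, hyS, hyq⟩, hqc, hqo⟩ := exists_central (hR.to_quotient _) _ hne
  haveI := central_normal hqc
  have hyA : y ∉ Subgroup.zpowers a := by
    intro h
    have e1 : q = 1 := by rw [← hyq, QuotientGroup.mk'_apply]; exact (QuotientGroup.eq_one_iff y).2 h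
    rw [e1, orderOf_one] at hqo
    exact hp1.ne_one hqo.symm
  have hyp : y ^ p ∈ Subgroup.zpowers a := by
    rw [← QuotientGroup.eq_one_iff, QuotientGroup.mk_pow, ← QuotientGroup.mk'_apply, hyq, ← hqo, pow_orderOf_eq_one]
  obtain ⟨r, hr⟩ := CfsgLib.RankOneP.exists_conj_zpow hAn y
  obtain ⟨n, hn⟩ := IsPGroup.iff_orderOf.1 hR a
  have hnc : ¬ Commute y a := fun h => hyA (hcent y hyS h)
  obtain ⟨i, hi⟩ := CfsgLib.RankOneP.exists_order_p_odd hp1 hp hn hr hyp hnc
  set w := a ^ i * y with hw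
  have hwq : (w : R ⧸ Subgroup.zpowers a) = q := by
    rw [hw, QuotientGroup.mk_mul, (QuotientGroup.eq_one_iff _).2 (zpow_mem (Subgroup.mem_zpowers a) i), one_mul,
      ← QuotientGroup.mk'_apply, hyq]
  have hwa : w * a * w⁻¹ = a ^ r := by
    rw [hw, mul_inv_rev]
    calc a ^ i * y * a * (y⁻¹ * (a ^ i)⁻¹) = a ^ i * (y * a * y⁻¹) * (a ^ i)⁻¹ := by simp only [mul_assoc]
      _ = a ^ r := by rw [hr, ← zpow_add, ← zpow_neg, ← zpow_add]; congr 1; ring
  have hn2 : 2 ≤ n := by
    by_contra hlt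
    apply hnc
    have h1 := CfsgLib.RankOneP.conj_zpow_pow hr p 1
    obtain ⟨j, hj⟩ := hyp
    rw [zpow_one, ← hj, mul_inv_eq_iff_eq_mul.2 ((Commute.refl a).zpow_left j).eq, mul_one] at h1
    have h2 : a ^ (r ^ p - 1) = 1 := by rw [zpow_sub, ← h1, zpow_one, mul_inv_cancel]
    rw [← orderOf_dvd_iff_zpow_eq_one, hn] at h2
    interval_cases n
    · rw [pow_zero, orderOf_eq_one_iff] at hn
      rw [hn]; exact Commute.one_right y
    · rw [pow_one, ← ZMod.intCast_zmod_eq_zero_iff_dvd] at h2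
      push_cast at h2
      rw [ZMod.pow_card] at h2
      have h3 : a ^ (r - 1) = 1 := by
        rw [← orderOf_dvd_iff_zpow_eq_one, hn, pow_one, ← ZMod.intCast_zmod_eq_zero_iff_dvd]
        push_cast; exact h2
      rw [zpow_sub, zpow_one, mul_inv_eq_one] at h3
      rw [h3, mul_inv_eq_iff_eq_mul] at hr
      exact hr
  obtain ⟨m, rfl⟩ : ∃ m, n = m + 1 := ⟨n - 1, by omega⟩
  set ω := a ^ p ^ m with hω
  have hωp : ω ^ p = 1 := by rw [hω, ← pow_mul, ← pow_succ, ← hn, pow_orderOf_eq_one]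
  have hωw : Commute ω w := by
    have h1 := CfsgLib.RankOneP.conj_zpow_pow hwa p 1
    rw [hi, one_mul, inv_one, mul_one, mul_one, zpow_eq_zpow_iff_modEq, hn, Int.modEq_iff_dvd, Nat.cast_pow] at h1
    have h2 : (p : ℤ) ∣ r - 1 := by
      have h3 : (p : ℤ) ∣ r ^ p - 1 := dvd_trans (dvd_pow_self _ (by omega)) h1
      rw [← ZMod.intCast_zmod_eq_zero_iff_dvd] at h3 ⊢
      push_cast at h3 ⊢
      rwa [ZMod.pow_card] at h3
    symm
    change w * ω = ω * w
    rw [← mul_inv_eq_iff_eq_mul, hω, ← conj_pow, hwa, ← zpow_natCast, ← zpow_mul, ← zpow_natCast,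
      zpow_eq_zpow_iff_modEq, hn, Int.modEq_iff_dvd]
    obtain ⟨c, hc⟩ := h2
    exact ⟨-c, by push_cast; rw [show r = 1 + p * c by linarith]; ring⟩
  set T := Subgroup.closure ({ω, w} : Set R) with hT
  have hTab : IsMulCommutative T := Subgroup.isMulCommutative_closure (by
    rintro u (rfl | rfl) v (rfl | rfl) <;> first | rfl | exact hωw.eq | exact hωw.eq.symm)
  have hTexp : ∀ t ∈ T, t ^ p = 1 := by
    intro t ht
    induction ht using Subgroup.closure_induction with
    | mem u hu =>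
      rcases hu with rfl | rfl
      · exact hωp
      · exact hi
    | one => exact one_pow _
    | mul u v hu hv ihu ihv =>
      have hc : Commute u v := congrArg Subtype.val (hTab.is_comm.comm (⟨u, hu⟩ : T) ⟨v, hv⟩)
      rw [hc.mul_pow, ihu, ihv, one_mul]
    | inv u _ ih => rw [inv_pow, ih, inv_one]
  set B := (Subgroup.zpowers q).comap (QuotientGroup.mk' (Subgroup.zpowers a)) with hB
  have hwB : w ∈ B := by rw [hB, Subgroup.mem_comap, QuotientGroup.mk'_apply, hwq]; exact Subgroup.mem_zpowers q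
  have haB : a ∈ B := by
    rw [hB, Subgroup.mem_comap, QuotientGroup.mk'_apply, (QuotientGroup.eq_one_iff a).2 (Subgroup.mem_zpowers a)]
    exact one_mem _
  have hTB : T ≤ B := by
    rw [hT, Subgroup.closure_le]
    rintro u (rfl | rfl)
    · exact pow_mem haB _
    · exact hwB
  have hchar : ∀ b ∈ B, b ^ p = 1 → b ∈ T := by
    intro b hb hbp
    obtain ⟨k, hk⟩ := hb
    obtain ⟨j, hj⟩ : ∃ j : ℕ, q ^ k = q ^ j := by
      obtain ⟨j, hj⟩ : q ^ k ∈ Submonoid.powers q := mem_powers_iff_mem_zpowers.2 ⟨k, rfl⟩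
      exact ⟨j, hj.symm⟩
    have hbA : b * (w ^ j)⁻¹ ∈ Subgroup.zpowers a := by
      rw [← QuotientGroup.eq_one_iff, QuotientGroup.mk_mul, QuotientGroup.mk_inv, QuotientGroup.mk_pow, hwq, mul_inv_eq_one,
        ← hj]
      exact hk.symm
    obtain ⟨l, hl⟩ := hbA
    have hl' : a ^ l = b * (w ^ j)⁻¹ := hl
    have hbe : b = a ^ l * w ^ j := by rw [hl', inv_mul_cancel_right]
    have hwT : w ^ j ∈ T := pow_mem (Subgroup.subset_closure (by simp)) _
    rw [hbe] at hbp ⊢
    refine mul_mem ?_ hwT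
    have hcj : w ^ j * a * (w ^ j)⁻¹ = a ^ (r ^ j) := by
      have := CfsgLib.RankOneP.conj_zpow_pow hwa j 1
      simpa using this
    have hrj : (p : ℤ) ^ (m + 1) ∣ (r ^ j) ^ p - 1 := by
      have h1 := CfsgLib.RankOneP.conj_zpow_pow hcj p 1
      rw [← pow_mul w, mul_comm j p, pow_mul, hi, one_pow, one_mul, inv_one, mul_one, mul_one, zpow_eq_zpow_iff_modEq, hn,
        Int.modEq_iff_dvd, Nat.cast_pow] at h1
      exact h1
    obtain ⟨c, hc⟩ := CfsgLib.RankOneP.odd_prime_key hp1 hp (by omega) hrj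
    rw [CfsgLib.RankOneP.mul_pow_formula hcj, hc, ← pow_mul w, mul_comm j p, pow_mul, hi, one_pow, mul_one,
      ← orderOf_dvd_iff_zpow_eq_one, hn, Nat.cast_pow] at hbp
    have hl2 : (p : ℤ) ^ m ∣ l := by
      have h1 : (p : ℤ) ^ (m + 1) ∣ l * p := by
        have := dvd_sub hbp (dvd_mul_of_dvd_right (dvd_mul_right ((p : ℤ) ^ (m + 1)) c) l)
        rwa [show l * (↑p + ↑p ^ (m + 1) * c) - l * ((↑p : ℤ) ^ (m + 1) * c) = l * ↑p by ring] at this
      rw [pow_succ] at h1
      exact Int.dvd_of_mul_dvd_mul_right (Nat.cast_ne_zero.2 hp1.ne_zero) h1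
    obtain ⟨d, rfl⟩ := hl2
    rw [zpow_mul, ← Nat.cast_pow, zpow_natCast]
    exact zpow_mem (Subgroup.subset_closure (by simp [hω])) _
  have hTn : T.Normal := ⟨fun t ht g => hchar _ ((inferInstance : B.Normal).conj_mem t (hTB ht) g) (by
    rw [conj_pow, hTexp t ht, mul_one, mul_inv_cancel])⟩
  refine elem T hTn ?_ ⟨hTab, hTexp⟩ ?_ ?_
  · rw [hT, Subgroup.closure_le]
    rintro u (rfl | rfl)
    · exact hAS (pow_mem (Subgroup.mem_zpowers a) _)
    · exact mul_mem (hAS (zpow_mem (Subgroup.mem_zpowers a) i)) hyS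
  · intro h0
    have hw1 : w = 1 := (Subgroup.eq_bot_iff_forall T).1 h0 w (Subgroup.subset_closure (by simp))
    apply hyA
    rw [hw, mul_eq_one_iff_inv_eq] at hw1
    rw [← hw1]
    exact inv_mem (zpow_mem (Subgroup.mem_zpowers a) i)
  · intro hTc
    have hwT : w ∈ T := Subgroup.subset_closure (by simp)
    have hωT : ω ∈ T := Subgroup.subset_closure (by simp)
    have hωo : orderOf ω = p := by
      rw [hω, orderOf_pow' _ (pow_ne_zero _ hp1.ne_zero), hn, Nat.gcd_eq_right ⟨p, pow_succ _ _⟩, pow_succ,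
        Nat.mul_div_cancel_left _ (pow_pos hp1.pos m)]
    have hwA : w ∉ Subgroup.zpowers a := fun h => hyA (by
      simpa [hw] using mul_mem (inv_mem (zpow_mem (Subgroup.mem_zpowers a) i)) h)
    have hw1 : w ≠ 1 := fun e => hwA (e ▸ one_mem _)
    have hwo : orderOf w = p := orderOf_eq_prime hi hw1
    have e := CfsgLib.RankOneP.zpowers_eq_of_orderOf_eq (a := (⟨w, hwT⟩ : T)) (b := (⟨ω, hωT⟩ : T))
      (by rw [Subgroup.orderOf_mk, Subgroup.orderOf_mk, hωo, hwo])
    obtain ⟨k, hk⟩ : (⟨w, hwT⟩ : T) ∈ Subgroup.zpowers (⟨ω, hωT⟩ : T) := e ▸ Subgroup.mem_zpowers _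
    apply hwA
    rw [show w = ω ^ k from (congrArg Subtype.val hk).symm]
    exact zpow_mem (pow_mem (Subgroup.mem_zpowers a) _) k

end Cfsg.Agent.S0636
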