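import Cfsg.Statements.S0657
import Cfsg.Agent.QdFree.Corollaries
-- import your own Cfsg.Agent.* helpers here

set_option autoImplicit false
open Cfsg

namespace Cfsg.Agent.S0657

/-- For odd p, a group that fails to be p-stable modulo its largest normal subgroup of order prime to p, and whose upper p-series does not stop there, has a section isomorphic to SL(2, p). -/
theorem result {G : Type*} [Group G] [Finite G] {p : ℕ} [Fact p.Prime] (hp : p ≠ 2) (hO : Cfsg.pPrimeCore p G < Cfsg.pPrimePCore p G) (hns : ¬ Cfsg.IsPStable p (G ⧸ Cfsg.pPrimeCore p G)) : ∃ (K L : Subgroup G) (hL : (L.subgroupOf K).Normal), K ≤ ⊤ ∧ Nonempty ((K ⧸ L.subgroupOf K) ≃* Matrix.SpecialLinearGroup (Fin 2) (ZMod p)) := by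
  set O := Cfsg.pPrimeCore p G
  have hne : Cfsg.pCore p (G ⧸ O) ≠ ⊥ := by
    intro e
    apply hO.ne
    show O = (Cfsg.pCore p (G ⧸ O)).comap (QuotientGroup.mk' O)
    rw [e, MonoidHom.comap_bot, QuotientGroup.ker_mk']
  have hsec : Cfsg.Involves (Matrix.SpecialLinearGroup (Fin 2) (ZMod p)) (G ⧸ O) := by
    by_contra h
    refine hns ⟨(Fact.out : p.Prime).odd_of_ne_two hp, hne, fun A P _ hP hAP _ _ hq => ?_⟩
    exact CfsgLib.QdFree.map_le_pCore_of_isNormalizerPStable (CfsgLib.QdFree.isNormalizerPStable_of_sl2Free hp h) hP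
      (fun a ha => Subgroup.mem_normalizer_fintype fun x hx => hAP a ha x hx) hq
  obtain ⟨K, L, hL, he⟩ := CfsgLib.ZJ.involves_quotient O hsec
  exact ⟨K, L, hL, le_top, he⟩

end Cfsg.Agent.S0657
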