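import Cfsg.Statements.S0661
import Mathlib.Tactic
import Cfsg.Agent.PCore.Descent

set_option autoImplicit false
open Cfsg
open scoped commutatorElement

namespace Cfsg.Agent.S0661

/-- If, modulo the largest normal subgroup of order prime to p, the largest normal p-subgroup contains its centralizer, then for every p-subgroup P the p'-core of N_G(P) is just O_p'(G) ∩ N_G(P). -/
theorem result {G : Type*} [Group G] [Finite G] {p : ℕ} [Fact p.Prime] (hc : Subgroup.centralizer (Cfsg.pCore p (G ⧸ Cfsg.pPrimeCore p G) : Set (G ⧸ Cfsg.pPrimeCore p G)) ≤ Cfsg.pCore p (G ⧸ Cfsg.pPrimeCore p G)) (P : Subgroup G) (hP : IsPGroup p P) : (Cfsg.pPrimeCore p ↥(Subgroup.normalizer (P : Set G))).map (Subgroup.normalizer (P : Set G)).subtype = Cfsg.pPrimeCore p G ⊓ Subgroup.normalizer (P : Set G) := by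
  set N := Subgroup.normalizer (P : Set G)
  refine le_antisymm (le_inf (CfsgLib.PCore.pPrimeCore_normalizer_le
    (CfsgLib.PCore.isPConstrained_iff.2 hc) hP) (Subgroup.map_subtype_le _)) fun x hx => ?_
  exact ⟨⟨x, hx.2⟩, CfsgLib.PCore.pPrimeCore_subgroupOf_le N hx.1, rfl⟩

end Cfsg.Agent.S0661
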