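import Cfsg.Statements.S0666
import Cfsg.Agent.Frob.Kernel

set_option autoImplicit false
open Cfsg

namespace Cfsg.Agent.S0666

/-- A Frobenius group acting on a nontrivial abelian group of order prime to that of its kernel, with the kernel acting without nontrivial fixed points, has a complement with a nontrivial fixed point. -/
theorem result {G : Type*} [Group G] [Finite G] (V F : Subgroup G) (hVab : IsMulCommutative V) (hV1 : V ≠ ⊥) (hFV : F ≤ Subgroup.normalizer (V : Set G)) (H : Subgroup ↥F) (hH : Cfsg.IsFrobeniusComplement H) (hcop : (Nat.card V).Coprime (Nat.card (Cfsg.frobeniusKernel H))) (hCK : V ⊓ Subgroup.centralizer (Subtype.val '' Cfsg.frobeniusKernel H : Set G) = ⊥) : V ⊓ Subgroup.centralizer ((H.map F.subtype : Subgroup G) : Set G) ≠ ⊥ := by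
  classical
  haveI := Fintype.ofFinite G
  haveI := CfsgLib.Frob.kernel_normal hH
  set K := CfsgLib.Frob.kernel hH with hK
  letI : CommGroup V := { mul_comm := fun a b => hVab.is_comm.comm a b }
  intro hbot
  apply hV1
  rw [Subgroup.eq_bot_iff_forall]
  intro v0 hv0
  have hnorm : ∀ (g : F) (v : V), (g : G) * v * (g : G)⁻¹ ∈ V := fun g v =>
    (Subgroup.mem_normalizer_iff.mp (hFV g.2) v).mp v.2
  let act : F → V →* V := fun g =>
    { toFun := fun v => ⟨(g : G) * v * (g : G)⁻¹, hnorm g v⟩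
      map_one' := Subtype.ext (by simp)
      map_mul' := fun a b => Subtype.ext (by simp [mul_assoc]) }
  have hmul : ∀ a b : F, ∀ v, act (a * b) v = act a (act b v) := fun a b v => Subtype.ext (by
    show ((a : G) * b) * v * ((a : G) * b)⁻¹ = (a : G) * ((b : G) * v * (b : G)⁻¹) * (a : G)⁻¹
    group)
  have hfix : ∀ (S : Subgroup F) (v : V), (∀ s ∈ S, act s v = v) →
      (v : G) ∈ V ⊓ Subgroup.centralizer ((S.map F.subtype : Subgroup G) : Set G) := fun S v h =>
    ⟨v.2, Subgroup.mem_centralizer_iff.mpr (by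
      rintro _ ⟨s, hs, rfl⟩
      exact mul_inv_eq_iff_eq_mul.mp (congrArg Subtype.val (h s hs)))⟩
  have hprod : ∀ (S : Subgroup F) (v : V), ∀ t ∈ S, act t (∏ s : S, act s v) = ∏ s : S, act s v := by
    intro S v t ht
    rw [map_prod]
    exact Fintype.prod_equiv (Equiv.mulLeft (⟨t, ht⟩ : S)) _ _ (fun s => (hmul t s v).symm)
  have hPK : ∀ v : V, ∏ s : K, act s v = 1 := by
    intro v
    have h1 := hfix K _ (hprod K v)
    rw [show ((K.map F.subtype : Subgroup G) : Set G) = Subtype.val '' Cfsg.frobeniusKernel H by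
      rw [Subgroup.coe_map, CfsgLib.Frob.coe_kernel hH]; rfl, hCK] at h1
    exact Subtype.ext (Subgroup.mem_bot.mp h1)
  have hPH : ∀ v : V, ∏ s : H, act s v = 1 := by
    intro v
    have h1 := hfix H _ (hprod H v)
    rw [hbot] at h1
    exact Subtype.ext (Subgroup.mem_bot.mp h1)
  set v : V := ⟨v0, hv0⟩ with hv
  -- the whole group
  have hPF : ∏ g : F, act g v = 1 := by
    have hc := CfsgLib.Frob.isComplement'_kernel hH
    rw [← Fintype.prod_equiv (hc.symm.equiv (S := (H : Set F)) (T := (K : Set F))).symm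
      (fun a => act ((a.1 : F) * (a.2 : F)) v) _ (fun a => rfl), Fintype.prod_prod_type]
    refine Finset.prod_eq_one fun h _ => ?_
    simp only [hmul]
    rw [← map_prod]
    exact (congrArg (act (h : F)) (hPK v)).trans (map_one _)
  -- the partition
  let φ : K × {h : H // h ≠ 1} → {x : F // x ∉ K} := fun a =>
    ⟨(a.1 : F) * (a.2.1 : F) * (a.1 : F)⁻¹, fun hm => a.2.2 (by
      have h1 := K.mul_mem (K.mul_mem (K.inv_mem a.1.2) hm) a.1.2
      have h2 : (a.2.1 : F) ∈ K := by simpa [mul_assoc] using h1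
      exact Subtype.ext (Subgroup.disjoint_def.mp (CfsgLib.Frob.isComplement'_kernel hH).disjoint h2 a.2.1.2))⟩
  have hinj : Function.Injective φ := by
    rintro ⟨a, ⟨h, h1⟩⟩ ⟨a', ⟨h', h1'⟩⟩ e
    have e' : (a : F) * h * (a : F)⁻¹ = (a' : F) * h' * (a' : F)⁻¹ := congrArg Subtype.val e
    have e1 : ((a' : F)⁻¹ * a) * h * ((a' : F)⁻¹ * a)⁻¹ = h' := by
      calc ((a' : F)⁻¹ * a) * h * ((a' : F)⁻¹ * a)⁻¹ = (a' : F)⁻¹ * ((a : F) * h * (a : F)⁻¹) * a' := by group
        _ = (a' : F)⁻¹ * ((a' : F) * h' * (a' : F)⁻¹) * a' := by rw [e']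
        _ = (h' : F) := by group
    have hmH : (a' : F)⁻¹ * a ∈ H :=
      CfsgLib.Frob.mem_of_conj_mem hH h.2 (fun e => h1 (Subtype.ext e)) (e1.symm ▸ h'.2)
    have hm1 : (a' : F)⁻¹ * a = 1 := Subgroup.disjoint_def.mp
      (CfsgLib.Frob.isComplement'_kernel hH).disjoint (K.mul_mem (K.inv_mem a'.2) a.2) hmH
    have ha : a' = a := Subtype.ext (inv_mul_eq_one.mp hm1)
    subst ha
    have hh : h = h' := Subtype.ext (by simpa using e')
    subst hh
    rfl
  have hbij : Function.Bijective φ := by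
    refine (Fintype.bijective_iff_injective_and_card φ).mpr ⟨hinj, ?_⟩
    rw [Fintype.card_prod, Fintype.card_subtype_compl, Fintype.card_subtype_compl,
      Fintype.card_subtype_eq, ← Nat.card_eq_fintype_card, ← Nat.card_eq_fintype_card,
      ← Nat.card_eq_fintype_card, Nat.mul_sub, mul_one,
      (CfsgLib.Frob.isComplement'_kernel hH).card_mul]
  have houter : ∏ x : {x : F // x ∉ K}, act x v = (v ^ Nat.card K)⁻¹ := by
    rw [← Fintype.prod_bijective φ hbij (fun a => act (φ a : F) v) _ (fun a => rfl), Fintype.prod_prod_type]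
    have h1 : ∀ a : K, ∏ h : {h : H // h ≠ 1}, act (φ (a, h) : F) v = v⁻¹ := by
      intro a
      show ∏ h : {h : H // h ≠ 1}, act ((a : F) * (h.1 : F) * (a : F)⁻¹) v = v⁻¹
      simp only [hmul]
      rw [← map_prod]
      set w := act (a : F)⁻¹ v with hw
      have h2 := hPH w
      rw [← Fintype.prod_subtype_mul_prod_subtype (fun h : H => h ≠ 1)] at h2
      haveI : Subsingleton {x : H // ¬ x ≠ 1} :=
        ⟨fun x y => Subtype.ext ((not_not.mp x.2).trans (not_not.mp y.2).symm)⟩
      rw [Fintype.prod_subsingleton _ (⟨1, fun h => h rfl⟩ : {x : H // ¬ x ≠ 1}), mul_eq_one_iff_eq_inv] at h2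
      rw [h2, map_inv, hw, ← hmul, ← hmul]
      congr 1
      refine Subtype.ext ?_
      show ((((a : F) * ((1 : H) : F) * (a : F)⁻¹) : F) : G) * v * ((((a : F) * ((1 : H) : F) * (a : F)⁻¹) : F) : G)⁻¹ = v
      simp
    rw [Finset.prod_congr rfl (fun a _ => h1 a), Finset.prod_const, Finset.card_univ,
      ← Nat.card_eq_fintype_card, inv_pow]
  rw [← Fintype.prod_subtype_mul_prod_subtype (fun x : F => x ∈ K), houter] at hPF
  have hK1 := hPK v
  have e : ∏ x : {x : F // x ∈ K}, act (x : F) v = 1 := hK1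
  rw [e, one_mul, inv_eq_one] at hPF
  have hcard : Nat.card K = Nat.card (Cfsg.frobeniusKernel H) := by
    rw [CfsgLib.Frob.card_kernel hH, CfsgLib.Frob.card_kernel_subgroup]
  have h1 : orderOf v ∣ Nat.gcd (Nat.card V) (Nat.card K) :=
    Nat.dvd_gcd (orderOf_dvd_natCard v) (orderOf_dvd_of_pow_eq_one hPF)
  rw [hcard, hcop.gcd_eq_one, Nat.dvd_one, orderOf_eq_one_iff] at h1
  exact congrArg Subtype.val h1

end Cfsg.Agent.S0666
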