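import Cfsg.Statements.S0668
import Mathlib


set_option autoImplicit false
open Cfsg

namespace Cfsg.Agent.S0668

/-- The equivariant linear maps between the permutation modules of two finite `G`-sets form a space whose dimension is the number of `G`-orbits on the product of the two sets. -/
theorem result {G : Type*} [Group G] {K : Type*} [Field K] {Ω₁ Ω₂ : Type*} [Fintype Ω₁] [Fintype Ω₂] [MulAction G Ω₁] [MulAction G Ω₂] : Module.finrank K ((Cfsg.permRep K G Ω₁).linHom (Cfsg.permRep K G Ω₂)).invariants = Nat.card (MulAction.orbitRel.Quotient G (Ω₁ × Ω₂)) := by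
  classical
  haveI := Fintype.ofFinite (MulAction.orbitRel.Quotient G (Ω₁ × Ω₂))
  let Q := MulAction.orbitRel.Quotient G (Ω₁ × Ω₂)
  let π : Ω₁ × Ω₂ → Q := fun p => Quotient.mk'' p
  have hπ : ∀ (g : G) (x : Ω₁) (y : Ω₂), π (g • x, g • y) = π (x, y) := fun g x y => Quotient.sound' ⟨g, rfl⟩
  have hsingle : ∀ (g : G) (x : Ω₁), Cfsg.permRep K G Ω₁ g (Pi.single x 1) = Pi.single (g • x) 1 := by
    intro g x
    funext y
    show (Pi.single x (1 : K) : Ω₁ → K) (g⁻¹ • y) = _
    rw [Pi.single_apply, Pi.single_apply]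
    exact if_congr inv_smul_eq_iff rfl rfl
  have hmem : ∀ f : (Ω₁ → K) →ₗ[K] (Ω₂ → K), f ∈ ((Cfsg.permRep K G Ω₁).linHom (Cfsg.permRep K G Ω₂)).invariants →
      ∀ (g : G) (x : Ω₁) (y : Ω₂), f (Pi.single (g • x) 1) (g • y) = f (Pi.single x 1) y := by
    intro f hf g x y
    have h := congrArg (fun F : (Ω₁ → K) →ₗ[K] (Ω₂ → K) => F (Pi.single (g • x) 1) (g • y)) (hf g)
    simp only [Representation.linHom_apply, LinearMap.comp_apply] at h
    rw [hsingle, inv_smul_smul] at h
    refine h.symm.trans ?_
    show f (Pi.single x 1) (g⁻¹ • g • y) = _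
    rw [inv_smul_smul]
  have hperm : ∀ (g : G) (v : Ω₁ → K) (x : Ω₁), Cfsg.permRep K G Ω₁ g v x = v (g⁻¹ • x) := fun _ _ _ => rfl
  let inv : (Q → K) → ((Ω₁ → K) →ₗ[K] (Ω₂ → K)) := fun c =>
    LinearMap.pi fun y => ∑ x : Ω₁, c (π (x, y)) • LinearMap.proj x
  have hinv : ∀ c v y, inv c v y = ∑ x : Ω₁, c (π (x, y)) * v x := fun c v y => by
    simp [inv, LinearMap.sum_apply]
  let e : ↥((Cfsg.permRep K G Ω₁).linHom (Cfsg.permRep K G Ω₂)).invariants ≃ₗ[K] (Q → K) :=
    { toFun := fun f q => Quotient.liftOn' q (fun p => f.1 (Pi.single p.1 1) p.2) fun p p' hp => by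
        exact (MulAction.orbitRel_apply.1 hp).elim fun g hg => by
          subst hg
          exact hmem f.1 f.2 g p'.1 p'.2
      map_add' := fun f f' => funext fun q => Quotient.inductionOn' q fun p => rfl
      map_smul' := fun c f => funext fun q => Quotient.inductionOn' q fun p => rfl
      invFun := fun c => ⟨inv c, fun g => LinearMap.ext fun v => funext fun y => by
        simp only [Representation.linHom_apply, LinearMap.comp_apply]
        show inv c _ (g⁻¹ • y) = _
        rw [hinv, hinv]
        refine Fintype.sum_equiv (MulAction.toPerm g) _ _ fun x => ?_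
        rw [hperm, inv_inv, MulAction.toPerm_apply, ← hπ g x (g⁻¹ • y), smul_inv_smul]⟩
      left_inv := fun f => Subtype.ext (LinearMap.ext fun v => funext fun y => by
        refine (hinv _ v y).trans ?_
        conv_rhs => rw [pi_eq_sum_univ' v]
        simp only [map_sum, map_smul, Finset.sum_apply, Pi.smul_apply, smul_eq_mul]
        exact Finset.sum_congr rfl fun x _ => mul_comm _ _)
      right_inv := fun c => funext fun q => Quotient.inductionOn' q fun p => by
        show inv c (Pi.single p.1 1) p.2 = c (π p)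
        rw [hinv, Finset.sum_eq_single p.1]
        · simp
        · intro x _ hx; simp [hx]
        · simp }
  rw [e.finrank_eq, Module.finrank_pi, Nat.card_eq_fintype_card]

end Cfsg.Agent.S0668
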