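import Cfsg.Statements.S0671
import Mathlib
import Cfsg.Agent.PermModule.PrimePower

set_option autoImplicit false
open Cfsg

namespace Cfsg.Agent.S0671

/-- If the heart of the permutation module in characteristic `p` of a transitive action of degree `p ^ f` has no trivial composition factor, the action is doubly transitive. The hypothesis is phrased without composition series: no invariant subspaces `W < W'` between the constants and the sum-zero functions with trivial action on the quotient. -/
theorem result {G : Type*} [Group G] [Finite G] {K : Type*} [Field K] {p f : ℕ} [Fact p.Prime] [CharP K p] {Ω : Type*} [Fintype Ω] [MulAction G Ω] [MulAction.IsPretransitive G Ω] (hf : 1 ≤ f) (hcard : Fintype.card Ω = p ^ f) (h : ∀ W W' : Subrepresentation (Cfsg.permRep K G Ω), (Cfsg.permConstants K G Ω).toSubmodule ≤ W.toSubmodule → W.toSubmodule < W'.toSubmodule → W'.toSubmodule ≤ (Cfsg.permSumZero K G Ω).toSubmodule → ∃ g : G, ∃ v ∈ W'.toSubmodule, Cfsg.permRep K G Ω g v - v ∉ W.toSubmodule) : MulAction.IsMultiplyPretransitive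 G Ω 2 := by
  classical
  rw [MulAction.is_two_pretransitive_iff]
  intro a b c d hab hcd
  obtain ⟨g₀, hg₀⟩ := MulAction.exists_smul_eq G a c
  suffices ∀ y y' : Ω, y ≠ c → y' ≠ c → ∃ g : G, g • c = c ∧ g • y = y' by
    obtain ⟨g, hg1, hg2⟩ := this (g₀ • b) d (by
      rw [← hg₀]; exact fun h' => hab (MulAction.injective g₀ h').symm) hcd.symm
    exact ⟨g * g₀, by rw [mul_smul, hg₀, hg1], by rw [mul_smul, hg2]⟩
  intro y y' hy hy'
  by_contra hno
  let R : Ω → Ω → Prop := fun x z => ∃ g : G, g • c = x ∧ g • y = z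
  have hRinv : ∀ (g : G) x z, R x z → R (g • x) (g • z) := by
    rintro g x z ⟨k, h1, h2⟩
    exact ⟨g * k, by rw [mul_smul, h1], by rw [mul_smul, h2]⟩
  have hRiff : ∀ (g : G) x z, R (g • x) (g • z) ↔ R x z := fun g x z =>
    ⟨fun hh => by simpa using hRinv g⁻¹ _ _ hh, hRinv g x z⟩
  have hrow : ∀ x : Ω, (Finset.univ.filter fun z => R x z).card =
      (Finset.univ.filter fun z => R c z).card := by
    intro x
    obtain ⟨g, rfl⟩ := MulAction.exists_smul_eq G c x
    exact Finset.card_equiv (MulAction.toPerm g⁻¹) (fun z => by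
      simp only [Finset.mem_filter, Finset.mem_univ, true_and, MulAction.toPerm_apply]
      rw [← hRiff g c (g⁻¹ • z), smul_inv_smul])
  set d₀ := (Finset.univ.filter fun z => R c z).card with hd₀
  have hcol : ∀ z : Ω, (Finset.univ.filter fun x => R x z).card = d₀ := by
    have hc' : ∀ z : Ω, (Finset.univ.filter fun x => R x z).card =
        (Finset.univ.filter fun x => R x c).card := by
      intro z
      obtain ⟨g, rfl⟩ := MulAction.exists_smul_eq G c z
      exact Finset.card_equiv (MulAction.toPerm g⁻¹) (fun x => by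
        simp only [Finset.mem_filter, Finset.mem_univ, true_and, MulAction.toPerm_apply]
        rw [← hRiff g (g⁻¹ • x) c, smul_inv_smul])
    intro z
    have h1 := Finset.sum_card_bipartiteAbove_eq_sum_card_bipartiteBelow R
      (s := (Finset.univ : Finset Ω)) (t := Finset.univ)
    simp only [Finset.bipartiteAbove, Finset.bipartiteBelow, hrow, hc', Finset.sum_const,
      smul_eq_mul, Finset.card_univ] at h1
    rw [hc' z]
    exact (Nat.eq_of_mul_eq_mul_left (Fintype.card_pos_iff.mpr ⟨c⟩) h1).symm
  let N : (Ω → K) →ₗ[K] (Ω → K) :=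
    { toFun := fun v x => (∑ z, if R x z then v z else 0) - (d₀ : K) * v x
      map_add' := fun u v => by
        funext x
        simp only [Pi.add_apply, mul_add]
        rw [show (∑ z, if R x z then u z + v z else (0 : K)) =
          (∑ z, if R x z then u z else 0) + ∑ z, if R x z then v z else 0 by
            rw [← Finset.sum_add_distrib]
            refine Finset.sum_congr rfl fun z _ => ?_
            split_ifs <;> simp]
        ring
      map_smul' := fun r v => by
        funext x
        simp only [Pi.smul_apply, smul_eq_mul, RingHom.id_apply, mul_sub, Finset.mul_sum, mul_ite,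
          mul_zero]
        ring }
  have hNg : ∀ (g : G) (v : Ω → K), N (fun x => v (g⁻¹ • x)) = fun x => N v (g⁻¹ • x) := by
    intro g v
    funext x
    show (∑ z, if R x z then v (g⁻¹ • z) else 0) - _ = (∑ z, if R (g⁻¹ • x) z then v z else 0) - _
    congr 1
    refine Fintype.sum_equiv (MulAction.toPerm g⁻¹) _ _ (fun z => ?_)
    simp only [MulAction.toPerm_apply, hRiff g⁻¹]
  have hNsum : ∀ v : Ω → K, ∑ x, N v x = 0 := by
    intro v
    show ∑ x, ((∑ z, if R x z then v z else 0) - (d₀ : K) * v x) = 0
    rw [Finset.sum_sub_distrib, Finset.sum_comm, sub_eq_zero]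
    refine Finset.sum_congr rfl fun z _ => ?_
    rw [← Finset.sum_filter, Finset.sum_const, hcol z, nsmul_eq_mul]
  have hentry : N (Pi.single y 1) c = 1 ∧ N (Pi.single y' 1) c = 0 := by
    constructor
    · show (∑ z, if R c z then (Pi.single y (1 : K) : Ω → K) z else 0) - _ = _
      rw [Finset.sum_eq_single y (fun z _ hz => by simp [Pi.single_eq_of_ne hz]) (by simp)]
      simp [R, Pi.single_eq_of_ne (Ne.symm hy), show ∃ g : G, g • c = c ∧ g • y = y from ⟨1, by simp, by simp⟩]
    · show (∑ z, if R c z then (Pi.single y' (1 : K) : Ω → K) z else 0) - _ = _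
      rw [Finset.sum_eq_single y' (fun z _ hz => by simp [Pi.single_eq_of_ne hz]) (by simp)]
      simp [R, Pi.single_eq_of_ne (Ne.symm hy'), hno]
  set M0 := (Cfsg.permSumZero K G Ω).toSubmodule with hM0
  have hmem0 : ∀ v : Ω → K, v ∈ M0 ↔ ∑ x, v x = 0 := fun v => Iff.rfl
  let Wt : Subrepresentation (Cfsg.permRep K G Ω) :=
    { toSubmodule := LinearMap.range N
      apply_mem_toSubmodule := fun g v hv => by
        obtain ⟨u, rfl⟩ := hv
        exact ⟨fun x => u (g⁻¹ • x), hNg g u⟩ }
  let W0 : Subrepresentation (Cfsg.permRep K G Ω) :=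
    { toSubmodule := M0.map N
      apply_mem_toSubmodule := fun g v hv => by
        obtain ⟨u, hu, rfl⟩ := hv
        exact ⟨fun x => u (g⁻¹ • x), (Cfsg.permSumZero K G Ω).apply_mem_toSubmodule g hu, hNg g u⟩ }
  have hcard' := hcard
  have hdiff : (Pi.single y (1 : K) : Ω → K) - Pi.single y' 1 ∈ M0 := by
    rw [hmem0]
    simp [Finset.sum_sub_distrib]
  have hne : M0.map N ≠ ⊥ := by
    intro hb
    have hm : N ((Pi.single y (1 : K) : Ω → K) - Pi.single y' 1) ∈ M0.map N := ⟨_, hdiff, rfl⟩
    rw [hb, Submodule.mem_bot] at hm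
    have := congrFun hm c
    rw [map_sub, Pi.sub_apply, hentry.1, hentry.2] at this
    simp at this
  have hc0 := Submodule.span_le.mpr (Set.singleton_subset_iff.mpr
    (CfsgLib.PermModule.const_mem_of_ne_bot hcard W0.toSubmodule
      (fun g w hw => W0.apply_mem_toSubmodule g hw) hne))
  have hlt : M0.map N < LinearMap.range N := by
    refine lt_of_le_of_ne (LinearMap.map_le_range) ?_
    intro heq
    have hker : LinearMap.ker N ≠ ⊤ := by
      intro ht
      have : N (Pi.single y 1) = 0 := LinearMap.mem_ker.mp (ht ▸ Submodule.mem_top)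
      have := congrFun this c
      rw [hentry.1] at this
      exact one_ne_zero this
    have hk := CfsgLib.PermModule.sum_eq_zero_of_ne_top (G := G) hcard (LinearMap.ker N)
      (fun g w hw => by
        rw [LinearMap.mem_ker] at hw ⊢
        rw [hNg, hw]
        rfl) hker
    have hm : N (Pi.single c 1) ∈ M0.map N := heq ▸ LinearMap.mem_range_self N _
    obtain ⟨u, hu, hNu⟩ := hm
    have := hk ((Pi.single c (1 : K) : Ω → K) - u) (by rw [LinearMap.mem_ker, map_sub, hNu, sub_self])
    rw [SetLike.mem_coe, hmem0] at hu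
    simp [Finset.sum_sub_distrib, hu] at this
  obtain ⟨g, v, hv, hnot⟩ := h W0 Wt hc0 hlt (by
    rintro _ ⟨u, rfl⟩
    exact hNsum u)
  obtain ⟨u, rfl⟩ := hv
  apply hnot
  refine ⟨(fun x => u (g⁻¹ • x)) - u, ?_, ?_⟩
  · rw [SetLike.mem_coe, hmem0]
    simp only [Pi.sub_apply, Finset.sum_sub_distrib, sub_eq_zero]
    exact Fintype.sum_equiv (MulAction.toPerm g⁻¹) _ _ (fun x => rfl)
  · rw [map_sub, hNg]
    rfl

end Cfsg.Agent.S0671
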