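import Cfsg.Statements.S0673
import Cfsg.Agent.PrimeDegree.Poly

set_option autoImplicit false
open Cfsg

namespace Cfsg.Agent.S0673

/-- In characteristic `p`, the translation-invariant subspaces of the space of functions on `ZMod p` are exactly the spaces of polynomial functions of degree less than `r`, one for each `r ≤ p`, of dimension `r`. -/
theorem result {p : ℕ} [Fact p.Prime] {K : Type*} [Field K] [CharP K p] (W : Submodule K (ZMod p → K)) (hW : ∀ f ∈ W, (fun j => f (j - 1)) ∈ W) : ∃ r : ℕ, r ≤ p ∧ Module.finrank K W = r ∧ ∀ f : ZMod p → K, f ∈ W ↔ ∃ P : Polynomial K, P.degree < r ∧ ∀ j : ZMod p, f j = P.eval (ZMod.cast j : K) := by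
  obtain ⟨hr, hW'⟩ := CfsgLib.PrimeDegree.eq_polyFun K hW
  refine ⟨_, hr, rfl, fun f => ?_⟩
  conv_lhs => rw [hW']
  exact CfsgLib.PrimeDegree.mem_polyFun K

end Cfsg.Agent.S0673
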