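import Cfsg.Statements.S0674
import Cfsg.Agent.PrimeDegree.Heart

set_option autoImplicit false
open Cfsg

namespace Cfsg.Agent.S0674

/-- Let `G` be a non-solvable transitive permutation group of prime degree `p` and `K` a field of characteristic `p`. Then the heart of the permutation module is irreducible: an invariant subspace containing the constants and contained in the sum-zero functions is one or the other. -/
theorem result {α : Type*} [Fintype α] [DecidableEq α] {p : ℕ} [Fact p.Prime] (hα : Fintype.card α = p) (G : Subgroup (Equiv.Perm α)) [MulAction.IsPretransitive G α] (hG : ¬ Group.IsSolvable G) {K : Type*} [Field K] [CharP K p] (W : Subrepresentation (Cfsg.permRep K G α)) (h₁ : (Cfsg.permConstants K G α).toSubmodule ≤ W.toSubmodule) (h₂ : W.toSubmodule ≤ (Cfsg.permSumZero K G α).toSubmodule) : W = Cfsg.permConstants K G α ∨ W = Cfsg.permSumZero K G α := by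
  have hinv : ∀ g ∈ G, ∀ f ∈ W.toSubmodule, (fun x => f (g x)) ∈ W.toSubmodule := by
    intro g hg f hf
    have h := W.apply_mem_toSubmodule (⟨g, hg⟩⁻¹ : G) hf
    convert h using 1
    funext x
    show f (g x) = f (((⟨g, hg⟩ : G)⁻¹)⁻¹ • x)
    rw [inv_inv]
    rfl
  rcases CfsgLib.PrimeDegree.heart (p := p) K hα G hG W.toSubmodule hinv with h | h
  · exact Or.inl (Subrepresentation.toSubmodule_injective (le_antisymm h h₁))
  · refine Or.inr (Subrepresentation.toSubmodule_injective (le_antisymm h₂ ?_))
    intro f hf
    refine h ?_
    rw [LinearMap.mem_ker, CfsgLib.PrimeDegree.sumVal_apply]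
    exact hf

end Cfsg.Agent.S0674
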