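import Cfsg.Statements.S0678
import Cfsg.Agent.PrimeDegree.Seven

set_option autoImplicit false
open Cfsg

namespace Cfsg.Agent.S0678

/-- A non-solvable transitive permutation group on 7 points that does not contain the alternating group is a simple group of order 168. -/
theorem result {α : Type*} [Fintype α] [DecidableEq α] (hα : Fintype.card α = 7) (G : Subgroup (Equiv.Perm α)) [MulAction.IsPretransitive G α] (hG : ¬ Group.IsSolvable G) (hA : ¬ alternatingGroup α ≤ G) : Nat.card G = 168 ∧ IsSimpleGroup G := by
  exact CfsgLib.PrimeDegree.simple_seven hα G hG hA

end Cfsg.Agent.S0678
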