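import Cfsg.Statements.S0679
import Cfsg.Agent.PrimeDegree.Eleven

set_option autoImplicit false
open Cfsg

namespace Cfsg.Agent.S0679

/-- A non-solvable transitive permutation group on 11 points that does not contain the alternating group is either sharply 4-transitive (of order 7920) or isomorphic to the projective special linear group of degree 2 over the field with 11 elements. -/
theorem result {α : Type*} [Fintype α] [DecidableEq α] (hα : Fintype.card α = 11) (G : Subgroup (Equiv.Perm α)) [MulAction.IsPretransitive G α] (hG : ¬ Group.IsSolvable G) (hA : ¬ alternatingGroup α ≤ G) : (MulAction.IsMultiplyPretransitive G α 4 ∧ ∀ x : Fin 4 ↪ α, MulAction.stabilizer G x = ⊥) ∨ Nonempty (G ≃* Matrix.ProjectiveSpecialLinearGroup (Fin 2) (ZMod 11)) := by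
  classical
  haveI : Fact (Nat.Prime 11) := ⟨by norm_num⟩
  obtain ⟨e, τ, hτG, hτ⟩ := CfsgLib.PrimeDegree.exists_model (p := 11) hα G
  let φ : Equiv.Perm α ≃* Equiv.Perm (ZMod 11) := Equiv.permCongrHom e.symm
  let G' : Subgroup (Equiv.Perm (ZMod 11)) := G.map φ.toMonoidHom
  let ψ : G ≃* G' := G.equivMapOfInjective φ.toMonoidHom φ.injective
  have hψ : ∀ (g : G) (j : ZMod 11), ((ψ g : G') : Equiv.Perm (ZMod 11)) j = e.symm ((g : Equiv.Perm α) (e j)) :=
    fun g j => rfl
  have hS : CfsgLib.PrimeDegree.Eleven.Std G' := by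
    refine ⟨⟨φ τ, Subgroup.mem_map_of_mem _ hτG, fun j => ?_⟩, fun h => ?_, fun h => hA ?_⟩
    · show e.symm (τ (e j)) = j + 1
      rw [hτ, e.symm_apply_apply]
    · haveI := h
      exact hG (Group.isSolvable_of_isSolvable_injective (f := ψ.toMonoidHom) ψ.injective)
    · intro x hx
      have hx' : φ x ∈ alternatingGroup (ZMod 11) := by
        rw [Equiv.Perm.mem_alternatingGroup] at hx ⊢
        rw [show φ x = e.symm.permCongr x from rfl, Equiv.Perm.sign_permCongr]
        exact hx
      obtain ⟨y, hy, hyx⟩ := Subgroup.mem_map.mp (h hx')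
      exact φ.injective hyx ▸ hy
  rcases CfsgLib.PrimeDegree.Eleven.classification hS with ⟨h4, hstab⟩ | ⟨⟨f⟩⟩
  · refine Or.inl ⟨⟨fun u v => ?_⟩, fun x => ?_⟩
    · obtain ⟨g', hg'⟩ := h4.exists_smul_eq (u.trans e.symm.toEmbedding) (v.trans e.symm.toEmbedding)
      obtain ⟨g, rfl⟩ := ψ.surjective g'
      refine ⟨g, Function.Embedding.ext fun i => e.symm.injective ?_⟩
      have hi : ((ψ g : G') : Equiv.Perm (ZMod 11)) (e.symm (u i)) = e.symm (v i) :=
        congrArg (fun f : Fin 4 ↪ ZMod 11 => f i) hg'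
      rw [hψ, e.apply_symm_apply] at hi
      exact hi
    · refine (Subgroup.eq_bot_iff_forall _).mpr fun g hg => ?_
      have hmem : ψ g ∈ MulAction.stabilizer G' (x.trans e.symm.toEmbedding) := by
        refine MulAction.mem_stabilizer_iff.mpr (Function.Embedding.ext fun i => ?_)
        show ((ψ g : G') : Equiv.Perm (ZMod 11)) (e.symm (x i)) = e.symm (x i)
        rw [hψ, e.apply_symm_apply]
        exact congrArg e.symm (congrArg (fun f : Fin 4 ↪ α => f i) (MulAction.mem_stabilizer_iff.mp hg))
      rw [hstab, Subgroup.mem_bot] at hmem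
      exact ψ.injective (hmem.trans ψ.map_one.symm)
  · exact Or.inr ⟨ψ.trans f⟩

end Cfsg.Agent.S0679
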