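import Cfsg.Statements.S0680
import Mathlib
import Cfsg.Agent.SharpTwo.Basic

set_option autoImplicit false
open Cfsg

namespace Cfsg.Agent.S0680

/-- A finite sharply doubly transitive permutation group has degree a prime power `p ^ j`; a Sylow `p`-subgroup is normal, elementary abelian and regular, and consists of the identity together with the elements without fixed points. (Frobenius' Theorem is not needed.) -/
theorem result {α : Type*} [Fintype α] [DecidableEq α] (G : Subgroup (Equiv.Perm α)) [MulAction.IsMultiplyPretransitive G α 2] (hsharp : ∀ x : Fin 2 ↪ α, MulAction.stabilizer G x = ⊥) (h2 : 2 ≤ Fintype.card α) : ∃ p j : ℕ, p.Prime ∧ 1 ≤ j ∧ Fintype.card α = p ^ j ∧ ∀ (hp : Fact p.Prime) (P : Sylow p G), (P : Subgroup G).Normal ∧ IsMulCommutative (P : Subgroup G) ∧ (∀ x ∈ (P : Subgroup G), x ^ p = 1) ∧ MulAction.IsPretransitive (P : Subgroup G) α ∧ (∀ a : α, MulAction.stabilizer (P : Subgroup G) a = ⊥) ∧ ∀ g : G, g ∈ (P : Subgroup G) ↔ g = 1 ∨ ∀ a : α, g • a ≠ a :=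 by
  classical
  obtain ⟨p, j, N, hp, hj, hcard, hNcard, hNn, hmem, hab, hpow, hsemi, htr⟩ :=
    CfsgLib.SharpTwo.exists_regular_normal (G := G) hsharp (by rwa [Nat.card_eq_fintype_card])
  rw [Nat.card_eq_fintype_card] at hcard
  refine ⟨p, j, hp, hj, hcard, fun hpf P => ?_⟩
  have hG : Nat.card G = p ^ j * (p ^ j - 1) := by
    rw [CfsgLib.SharpTwo.card_group hsharp (by rwa [Nat.card_eq_fintype_card]),
      Nat.card_eq_fintype_card, hcard]
  have hPN : (P : Subgroup G) = N := by
    have hNp : IsPGroup p N := IsPGroup.of_card hNcard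
    obtain ⟨Q, hQ⟩ := hNp.exists_le_sylow
    have hpos : 1 < p ^ j := Nat.one_lt_pow (by omega) hp.one_lt
    have hcardP : Nat.card (P : Subgroup G) = p ^ j := by
      rw [P.card_eq_multiplicity, hG]
      congr 1
      rw [Nat.factorization_mul (by positivity) (by omega), Finsupp.add_apply,
        Nat.Prime.factorization_pow hp, Finsupp.single_eq_same,
        Nat.factorization_eq_zero_of_not_dvd, add_zero]
      intro hdvd
      have h1 : p ∣ p ^ j := dvd_pow_self p (by omega)
      have h2 := Nat.dvd_sub h1 hdvd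
      rw [Nat.sub_sub_self hpos.le] at h2
      exact hp.one_lt.ne' (Nat.dvd_one.mp h2)
    have hQN : (Q : Subgroup G) = N := by
      refine (Subgroup.eq_of_le_of_card_ge hQ ?_).symm
      rw [Q.card_eq_multiplicity, ← P.card_eq_multiplicity, hcardP, hNcard]
    obtain ⟨g, hg⟩ := MulAction.exists_smul_eq G Q P
    rw [← hg, Sylow.coe_subgroup_smul, hQN]
    exact Subgroup.Normal.conjAct hNn (ConjAct.toConjAct g)
  refine ⟨hPN ▸ hNn, ⟨⟨fun a b => Subtype.ext (hab a (hPN ▸ a.2) b (hPN ▸ b.2))⟩⟩,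
    fun x hx => hpow x (hPN ▸ hx), ⟨fun a b => ?_⟩, fun a => ?_, fun g => by rw [hPN]; exact hmem g⟩
  · obtain ⟨g, hg, hga⟩ := htr a b
    exact ⟨⟨g, hPN.symm ▸ hg⟩, hga⟩
  · rw [Subgroup.eq_bot_iff_forall]
    intro g hg
    exact Subtype.ext (hsemi g (hPN ▸ g.2) a hg)

end Cfsg.Agent.S0680
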