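import Cfsg.Statements.S0681
import Mathlib

set_option autoImplicit false
open Cfsg

namespace Cfsg.Agent.S0681

/-- The affine maps `x ↦ x * a + b`, `a ≠ 0`, of a near-field form a sharply doubly transitive permutation group. -/
theorem result {F : Type*} [Cfsg.NearField F] : ∃ H : Subgroup (Equiv.Perm F), (∀ σ : Equiv.Perm F, σ ∈ H ↔ ∃ a b : F, a ≠ 0 ∧ ∀ x : F, σ x = x * a + b) ∧ MulAction.IsMultiplyPretransitive H F 2 ∧ ∀ x : Fin 2 ↪ F, MulAction.stabilizer H x = ⊥ := by
  classical
  have rd : ∀ a b c : F, (a + b) * c = a * c + b * c := NearField.right_distrib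
  have zm : ∀ c : F, (0 : F) * c = 0 := by
    intro c
    have h := rd 0 0 c
    rw [add_zero] at h
    exact add_eq_left.mp h.symm
  have hneg : ∀ x c : F, (-x) * c = -(x * c) := fun x c =>
    eq_neg_of_add_eq_zero_left (by rw [← rd, neg_add_cancel, zm])
  let H : Subgroup (Equiv.Perm F) :=
    { carrier := {σ | ∃ a b : F, a ≠ 0 ∧ ∀ x : F, σ x = x * a + b}
      one_mem' := ⟨1, 0, fun h => NearField.zero_ne_one h.symm, fun x => by simp⟩
      mul_mem' := by
        rintro σ τ ⟨a, b, ha, hσ⟩ ⟨c, d, hc, hτ⟩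
        refine ⟨c * a, d * a + b, ?_, fun x => ?_⟩
        · obtain ⟨a', ha', -⟩ := NearField.exists_inv a ha
          intro h
          apply hc
          calc c = c * (a * a') := by rw [ha', mul_one]
            _ = 0 := by rw [← mul_assoc, h, zm]
        · rw [Equiv.Perm.mul_apply, hσ, hτ, rd, mul_assoc, add_assoc]
      inv_mem' := by
        rintro σ ⟨a, b, ha, hσ⟩
        obtain ⟨a', ha', ha''⟩ := NearField.exists_inv a ha
        refine ⟨a', (-b) * a', ?_, fun x => ?_⟩
        · intro h
          rw [h, zm] at ha''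
          exact NearField.zero_ne_one ha''
        · apply σ.injective
          rw [Equiv.Perm.inv_def, Equiv.apply_symm_apply, hσ, ← rd, mul_assoc, ha'', mul_one,
            add_assoc, neg_add_cancel, add_zero] }
  refine ⟨H, fun σ => Iff.rfl, ?_, fun x => ?_⟩
  · have hbase : ∀ u v : F, u ≠ v → ∃ g : H, g • (0 : F) = u ∧ g • (1 : F) = v := by
      intro u v huv
      have ha : v + -u ≠ 0 := fun h => huv (by rw [← add_neg_eq_zero.mp h])
      obtain ⟨a', ha', ha''⟩ := NearField.exists_inv _ ha
      let σ : Equiv.Perm F :=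
        { toFun := fun x => x * (v + -u) + u
          invFun := fun x => (x + -u) * a'
          left_inv := fun x => by simp [add_assoc, mul_assoc, ha']
          right_inv := fun x => by simp only [mul_assoc, ha'', mul_one, add_assoc, neg_add_cancel, add_zero] }
      refine ⟨⟨σ, ⟨v + -u, u, ha, fun _ => rfl⟩⟩, ?_, ?_⟩
      · show (0 : F) * (v + -u) + u = u
        rw [zm, zero_add]
      · show (1 : F) * (v + -u) + u = v
        rw [one_mul, add_assoc, neg_add_cancel, add_zero]
    rw [MulAction.is_two_pretransitive_iff]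
    intro a b c d hab hcd
    obtain ⟨g, hg0, hg1⟩ := hbase a b hab
    obtain ⟨h, hh0, hh1⟩ := hbase c d hcd
    refine ⟨h * g⁻¹, ?_, ?_⟩
    · rw [mul_smul, ← hg0, inv_smul_smul, hh0]
    · rw [mul_smul, ← hg1, inv_smul_smul, hh1]
  · rw [Subgroup.eq_bot_iff_forall]
    intro g hg
    rw [MulAction.mem_stabilizer_iff] at hg
    have h0 : (g : Equiv.Perm F) (x 0) = x 0 := congrArg (fun y : Fin 2 ↪ F => y 0) hg
    have h1 : (g : Equiv.Perm F) (x 1) = x 1 := congrArg (fun y : Fin 2 ↪ F => y 1) hg
    obtain ⟨a, b, ha, hab⟩ := g.2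
    rw [hab] at h0 h1
    have hne : x 0 + -(x 1) ≠ 0 := by
      intro h
      exact absurd (x.injective (add_neg_eq_zero.mp h)) (by decide)
    have e : (x 0 + -(x 1)) * a = x 0 + -(x 1) := by
      rw [rd, hneg]
      calc x 0 * a + -(x 1 * a) = (x 0 * a + b) + -(x 1 * a + b) := by
            rw [neg_add_rev, add_assoc, ← add_assoc b, add_neg_cancel, zero_add]
        _ = _ := by rw [h0, h1]
    obtain ⟨c', -, hc'⟩ := NearField.exists_inv _ hne
    have ha1 : a = 1 := by
      calc a = c' * (x 0 + -(x 1)) * a := by rw [hc', one_mul]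
        _ = 1 := by rw [mul_assoc, e, hc']
    subst ha1
    have hb : b = 0 := by
      rw [mul_one] at h0
      exact add_eq_left.mp h0
    subst hb
    refine Subtype.ext (Equiv.ext fun y => ?_)
    rw [hab, mul_one, add_zero]
    rfl

end Cfsg.Agent.S0681
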