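import Cfsg.Statements.S0682
import Mathlib

set_option autoImplicit false
open Cfsg

namespace Cfsg.Agent.S0682

/-- A finite near-field has prime-power order; its additive group is commutative of prime exponent. -/
theorem result {F : Type*} [Cfsg.NearField F] [Finite F] : ∃ p j : ℕ, p.Prime ∧ 1 ≤ j ∧ Nat.card F = p ^ j ∧ (∀ x y : F, x + y = y + x) ∧ ∀ x : F, p • x = 0 := by
  classical
  have rd : ∀ a b c : F, (a + b) * c = a * c + b * c := NearField.right_distrib
  let R : F → (F →+ F) := fun c => AddMonoidHom.mk' (fun x => x * c) (fun x y => rd x y c)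
  have htr : ∀ x y : F, x ≠ 0 → ∃ c : F, x * c = y := by
    intro x y hx
    obtain ⟨x', hx', -⟩ := NearField.exists_inv x hx
    exact ⟨x' * y, by rw [← mul_assoc, hx', one_mul]⟩
  haveI : Fintype F := Fintype.ofFinite F
  have h01 : (1 : F) ≠ 0 := fun h => NearField.zero_ne_one h.symm
  set m := addOrderOf (1 : F) with hm
  have hmpos : 0 < m := addOrderOf_pos _
  have hm1 : m ≠ 1 := by rw [hm, Ne, AddMonoid.addOrderOf_eq_one_iff]; exact h01
  obtain ⟨p, hp, k, hk⟩ := Nat.exists_prime_and_dvd hm1
  set z := k • (1 : F) with hz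
  have hz0 : z ≠ 0 := by
    intro h
    have := addOrderOf_dvd_iff_nsmul_eq_zero.mpr h
    rw [← hm, hk] at this
    have hk0 : 0 < k := by
      rcases Nat.eq_zero_or_pos k with h0 | h0
      · subst h0; simp at hk; omega
      · exact h0
    have := Nat.le_of_dvd hk0 this
    have := hp.two_le
    nlinarith
  have hpz : p • z = 0 := by
    rw [hz, smul_smul, ← hk, hm, addOrderOf_nsmul_eq_zero]
  have hall : ∀ x : F, p • x = 0 := by
    intro x
    obtain ⟨c, rfl⟩ := htr z x hz0
    show p • R c z = 0
    rw [← map_nsmul, hpz, map_zero]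
  haveI : Fact p.Prime := ⟨hp⟩
  have hpg : IsPGroup p (Multiplicative F) := fun x => ⟨1, by
    rw [pow_one]; exact Multiplicative.toAdd.injective (by simpa using hall x.toAdd)⟩
  haveI : Nontrivial F := ⟨⟨0, 1, NearField.zero_ne_one⟩⟩
  haveI := hpg.center_nontrivial
  obtain ⟨w, hw⟩ := exists_ne (1 : Subgroup.center (Multiplicative F))
  have hcomm : ∀ x y : F, x + y = y + x := by
    intro x y
    have hwne : Multiplicative.toAdd (w : Multiplicative F) ≠ 0 := by
      intro h
      exact hw (Subtype.ext (Multiplicative.toAdd.injective h))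
    by_cases hx : x = 0
    · simp [hx]
    obtain ⟨c, hc⟩ := htr _ x hwne
    obtain ⟨c', hcc, hc'⟩ := NearField.exists_inv c (by
      intro h; rw [h, NearField.mul_zero] at hc; exact hx hc.symm)
    have hz := congrArg Multiplicative.toAdd (Subgroup.mem_center_iff.mp w.2 (Multiplicative.ofAdd (y * c')))
    simp only [toAdd_mul, toAdd_ofAdd] at hz
    have := congrArg (fun t => R c t) hz
    simp only [map_add] at this
    simpa [R, hc, mul_assoc, hc'] using this.symm
  obtain ⟨j, hj⟩ := IsPGroup.iff_card.mp hpg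
  have hcard : Nat.card F = p ^ j := by rw [← hj]; exact Nat.card_congr Multiplicative.ofAdd
  refine ⟨p, j, hp, ?_, hcard, hcomm, hall⟩
  rcases Nat.eq_zero_or_pos j with rfl | h
  · rw [pow_zero] at hcard
    have := Finite.one_lt_card (α := F)
    omega
  · exact h

end Cfsg.Agent.S0682
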