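import Cfsg.Statements.S0683
import Mathlib
import Cfsg.Agent.SharpTwo.Basic

set_option autoImplicit false
open Cfsg

namespace Cfsg.Agent.S0683

/-- A finite sharply doubly transitive permutation group is the affine group of a near-field: the permuted set carries a near-field structure for which the group consists exactly of the maps `x ↦ x * a + b` with `a ≠ 0`. -/
theorem result {α : Type*} [Fintype α] [DecidableEq α] (H : Subgroup (Equiv.Perm α)) [MulAction.IsMultiplyPretransitive H α 2] (hsharp : ∀ x : Fin 2 ↪ α, MulAction.stabilizer H x = ⊥) (h2 : 2 ≤ Fintype.card α) : ∃ _ : Cfsg.NearField α, ∀ σ : Equiv.Perm α, σ ∈ H ↔ ∃ a b : α, a ≠ 0 ∧ ∀ x : α, σ x = x * a + b := by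
  classical
  obtain ⟨p, j, N, hp, hj, hcard, hNcard, hNn, hmem, habel, hpow, hsemi, htr⟩ :=
    CfsgLib.SharpTwo.exists_regular_normal (G := H) hsharp (by rwa [Nat.card_eq_fintype_card])
  haveI : Nontrivial α := Fintype.one_lt_card_iff_nontrivial.mp h2
  obtain ⟨o, e, hoe⟩ := exists_pair_ne α
  choose t htN hto using fun x : α => htr o x
  have huniq : ∀ g ∈ N, ∀ x : α, g • o = x → g = t x := by
    intro g hg x hgx
    have := hsemi _ (N.mul_mem (N.inv_mem (htN x)) hg) o (by
      rw [mul_smul, hgx]; exact inv_smul_eq_iff.mpr (hto x).symm)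
    exact (inv_mul_eq_one.mp this).symm
  have h2' : ∀ {a b c d : α}, a ≠ b → c ≠ d → ∃ g : H, g • a = c ∧ g • b = d :=
    fun {a b c d} => MulAction.is_two_pretransitive_iff.mp inferInstance
  have hex : ∀ y : α, ∃ h : H, h • o = o ∧ (y ≠ o → h • e = y) := by
    intro y
    by_cases hy : y = o
    · exact ⟨1, one_smul _ _, fun h => absurd hy h⟩
    · obtain ⟨g, hg0, hg1⟩ := h2' hoe (Ne.symm hy)
      exact ⟨g, hg0, fun _ => hg1⟩
  choose s hso hse using hex
  have huniq2 : ∀ g : H, ∀ y : α, g • o = o → g • e = y → g = s y := by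
    intro g y hg0 hg1
    have hy : y ≠ o := by
      intro h; rw [h, ← hg0] at hg1; exact hoe (MulAction.injective g hg1).symm
    have : (s y)⁻¹ * g = 1 := CfsgLib.SharpTwo.eq_one_of_fix_two hsharp hoe
      (by rw [mul_smul, hg0]; exact inv_smul_eq_iff.mpr (hso y).symm)
      (by rw [mul_smul, hg1]; exact inv_smul_eq_iff.mpr (hse y hy).symm)
    exact (inv_mul_eq_one.mp this).symm
  have ht1 : t o = 1 := (huniq 1 N.one_mem o (one_smul _ _)).symm
  have hse1 : s e = 1 := (huniq2 1 e (one_smul _ _) (one_smul _ _)).symm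
  have htmul : ∀ x y : α, t x * t y = t (t x • y) := by
    intro x y
    exact huniq _ (N.mul_mem (htN x) (htN y)) _ (by rw [mul_smul, hto y])
  have hconj : ∀ g : H, g • o = o → ∀ x : α, g * t x * g⁻¹ = t (g • x) := by
    intro g hg x
    refine huniq _ (hNn.conj_mem _ (htN x) g) _ ?_
    rw [mul_smul, mul_smul, show g⁻¹ • o = o from inv_smul_eq_iff.mpr hg.symm, hto]
  let mulF : α → α → α := fun x y => if y = o then o else s y • x
  have hmulF : ∀ x y, y ≠ o → mulF x y = s y • x := fun x y h => if_neg h
  have hmulo : ∀ x, mulF x o = o := fun x => if_pos rfl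
  have hne0 : ∀ b c : α, b ≠ o → c ≠ o → s c • b ≠ o := by
    intro b c hb hc h
    rw [← hso c] at h
    exact hb (MulAction.injective _ h)
  letI iz : Zero α := ⟨o⟩
  letI ia : Add α := ⟨fun x y => t x • y⟩
  letI ineg : Neg α := ⟨fun x => (t x)⁻¹ • o⟩
  letI AG : AddGroup α := AddGroup.ofLeftAxioms
    (fun x y z => by
      show t (t x • y) • z = t x • (t y • z)
      rw [← htmul, mul_smul])
    (fun x => by show t o • x = x; rw [ht1, one_smul])
    (fun x => by
      show t ((t x)⁻¹ • o) • x = o
      rw [← huniq _ (N.inv_mem (htN x)) _ rfl]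
      exact inv_smul_eq_iff.mpr (hto x).symm)
  letI MO : Monoid α :=
    { mul := mulF
      one := e
      mul_assoc := fun x y z => by
        show mulF (mulF x y) z = mulF x (mulF y z)
        by_cases hz : z = o
        · rw [hz, hmulo, hmulo, hmulo]
        by_cases hy : y = o
        · rw [hy, hmulo, hmulF o z hz, hso, hmulo]
        rw [hmulF _ z hz, hmulF x y hy, hmulF y z hz, hmulF x _ (hne0 y z hy hz), ← mul_smul]
        congr 1
        exact huniq2 _ _ (by rw [mul_smul, hso, hso]) (by rw [mul_smul, hse y hy])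
      one_mul := fun x => by
        show mulF e x = x
        by_cases hx : x = o
        · rw [hx, hmulo]
        · rw [hmulF e x hx, hse x hx]
      mul_one := fun x => by show mulF x e = x; rw [hmulF x e hoe.symm, hse1, one_smul] }
  let NF : Cfsg.NearField α :=
    { AG, MO with
      right_distrib := fun a b c => by
        show mulF (t a • b) c = t (mulF a c) • mulF b c
        by_cases hc : c = o
        · rw [hc, hmulo, hmulo, hmulo, ht1, one_smul]
        · rw [hmulF _ c hc, hmulF a c hc, hmulF b c hc, ← hconj _ (hso c), mul_smul, mul_smul,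
            inv_smul_smul]
      mul_zero := fun a => hmulo a
      zero_ne_one := hoe
      exists_inv := fun a ha => by
        have ha' : a ≠ o := ha
        have hb0 : (s a)⁻¹ • o = o := inv_smul_eq_iff.mpr (hso a).symm
        have hbne : (s a)⁻¹ • e ≠ o := fun h => hoe (MulAction.injective _ (h.trans hb0.symm)).symm
        refine ⟨(s a)⁻¹ • e, ?_, ?_⟩
        · show mulF a _ = e
          rw [hmulF a _ hbne, ← huniq2 (s a)⁻¹ _ hb0 rfl]
          exact inv_smul_eq_iff.mpr (hse a ha').symm
        · show mulF _ a = e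
          rw [hmulF _ a ha', smul_inv_smul] }
  refine ⟨NF, fun σ => ⟨fun hσ => ?_, ?_⟩⟩
  · have hswap : ∀ x y : α, t x • y = t y • x := fun x y => by
      have e1 := htmul x y
      rw [habel _ (htN x) _ (htN y), htmul] at e1
      rw [← hto (t x • y), ← e1, hto]
    set g : H := ⟨σ, hσ⟩ with hg
    set b := σ o with hb
    set g' := (t b)⁻¹ * g with hg'
    have hg'o : g' • o = o := by
      rw [hg', mul_smul, show g • o = b from rfl]
      exact inv_smul_eq_iff.mpr (hto b).symm
    have ha : g' • e ≠ o := fun h => hoe (MulAction.injective _ (h.trans hg'o.symm)).symm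
    refine ⟨g' • e, b, ha, fun x => ?_⟩
    show σ x = t (mulF x (g' • e)) • b
    rw [hmulF x _ ha, ← huniq2 g' _ hg'o rfl, hswap, hg', mul_smul, smul_inv_smul]
    rfl
  · rintro ⟨a, b, ha, hσ⟩
    have hswap : ∀ x y : α, t x • y = t y • x := fun x y => by
      have e1 := htmul x y
      rw [habel _ (htN x) _ (htN y), htmul] at e1
      rw [← hto (t x • y), ← e1, hto]
    have : σ = ((t b * s a : H) : Equiv.Perm α) := by
      refine Equiv.ext fun x => ?_
      rw [hσ x]
      show t (mulF x a) • b = (t b * s a) • x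
      rw [hmulF x a ha, hswap, mul_smul]
    rw [this]
    exact (t b * s a).2

end Cfsg.Agent.S0683
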