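import Cfsg.Statements.S0687
import Cfsg.Agent.RegularLinear.TypeTwo

set_option autoImplicit false
open Cfsg

namespace Cfsg.Agent.S0687

/-- In a linear group over the prime field that is regular on non-zero vectors and has no irreducible cyclic normal subgroup, a normal subgroup `N` minimal among the non-abelian normal subgroups centralising a maximal normal abelian subgroup `A` is irreducible on `V`, and its centraliser is `A`. -/
theorem result {p : ℕ} [Fact p.Prime] {V : Type*} [AddCommGroup V] [Module (ZMod p) V] [Finite V] (H : Subgroup (V ≃ₗ[ZMod p] V)) (hreg : ∀ v w : V, v ≠ 0 → w ≠ 0 → ∃! h : H, (h : V ≃ₗ[ZMod p] V) v = w) (hI : ∀ A : Subgroup H, A.Normal → IsCyclic A → ∃ W : Submodule (ZMod p) V, W ≠ ⊥ ∧ W ≠ ⊤ ∧ ∀ a ∈ A, ∀ v ∈ W, ((a : H) : V ≃ₗ[ZMod p] V) v ∈ W) (A : Subgroup H) (hAn : A.Normal) (hAc : IsMulCommutative A) (hAmax : ∀ B : Subgroup H, B.Normal → IsMulCommutative B → A ≤ B → B = A) (N : Subgroup H) (hNn : N.Normal)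 (hNle : N ≤ Subgroup.centralizer (A : Set H)) (hNna : ¬ IsMulCommutative N) (hNmin : ∀ M : Subgroup H, M.Normal → M ≤ N → ¬ IsMulCommutative M → M = N) : (∀ W : Submodule (ZMod p) V, (∀ n ∈ N, ∀ v ∈ W, ((n : H) : V ≃ₗ[ZMod p] V) v ∈ W) → W = ⊥ ∨ W = ⊤) ∧ Subgroup.centralizer (N : Set H) = A := by
  classical
  haveI : Finite (V ≃ₗ[ZMod p] V) := Finite.of_injective _ DFunLike.coe_injective
  haveI : Nontrivial V := by
    obtain ⟨W, hW0, -, -⟩ := hI ⊥ inferInstance inferInstance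
    obtain ⟨v, -, hv⟩ := W.exists_mem_ne_zero_of_ne_bot hW0
    exact ⟨⟨v, 0, hv⟩⟩
  have hA : CfsgLib.RegularLinear.MaxAb A := ⟨hAn, hAc, hAmax⟩
  have hN : CfsgLib.RegularLinear.MinNA A N := ⟨hNn, hNle, hNna, hNmin⟩
  obtain ⟨h2, hC, -⟩ := CfsgLib.RegularLinear.degree_two hreg hI hA hN
  refine ⟨fun W hW => CfsgLib.RegularLinear.irreducible_of_notComm hreg hNna h2 W hW, ?_⟩
  have h := CfsgLib.RegularLinear.inf_centralizer_eq
    (CfsgLib.RegularLinear.latFpf_of_semiregular (CfsgLib.RegularLinear.semiregular_of_regular hreg)) hA hN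
  rwa [hC, top_inf_eq] at h

end Cfsg.Agent.S0687
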