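import Cfsg.Statements.S0688
import Cfsg.Agent.RegularLinear.TypeTwo
import Cfsg.Agent.S0685

set_option autoImplicit false
open Cfsg

namespace Cfsg.Agent.S0688

/-- Degrees of the soluble exceptional sharply doubly transitive groups: if a solvable linear group over the prime field is regular on the non-zero vectors of `V` and has no irreducible cyclic normal subgroup, then `V` has 25, 49, 121 or 529 elements. -/
theorem result {p : ℕ} [Fact p.Prime] {V : Type*} [AddCommGroup V] [Module (ZMod p) V] [Finite V] (H : Subgroup (V ≃ₗ[ZMod p] V)) (hreg : ∀ v w : V, v ≠ 0 → w ≠ 0 → ∃! h : H, (h : V ≃ₗ[ZMod p] V) v = w) (hI : ∀ A : Subgroup H, A.Normal → IsCyclic A → ∃ W : Submodule (ZMod p) V, W ≠ ⊥ ∧ W ≠ ⊤ ∧ ∀ a ∈ A, ∀ v ∈ W, ((a : H) : V ≃ₗ[ZMod p] V) v ∈ W) (hsolv : Group.IsSolvable H) : Nat.card V = 25 ∨ Nat.card V = 49 ∨ Nat.card V = 121 ∨ Nat.card V = 529 := by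
  classical
  haveI : Finite (V ≃ₗ[ZMod p] V) := Finite.of_injective _ DFunLike.coe_injective
  obtain ⟨A, ⟨hAn, hAc⟩, hAmax⟩ := (Set.toFinite {B : Subgroup H | B.Normal ∧ IsMulCommutative B}).exists_maximal
    ⟨⊥, inferInstance, inferInstance⟩
  have hA : CfsgLib.RegularLinear.MaxAb A := ⟨hAn, hAc, fun B h1 h2 h3 => le_antisymm (hAmax ⟨h1, h2⟩ h3) h3⟩
  haveI := hAn
  obtain ⟨-, hC⟩ := Cfsg.Agent.S0685.result H hreg hI A hA.normal hA.comm hA.max
  obtain ⟨N, hN, -⟩ := CfsgLib.RegularLinear.exists_minNA hA hC le_rfl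
  obtain ⟨h2, -, hp⟩ := CfsgLib.RegularLinear.degree_two hreg hI hA hN
  rw [Module.natCard_eq_pow_finrank (K := ZMod p), Nat.card_zmod, h2]
  rcases hp hsolv with e | e | e | e <;> simp [e]

end Cfsg.Agent.S0688
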