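import Cfsg.Statements.S0691
import Cfsg.Agent.RegularLinear.Examples

set_option autoImplicit false
open Cfsg

open CfsgLib.RegularLinear.Examples

namespace Cfsg.Agent.S0691

local instance factPrime : Fact (Nat.Prime 5) := ⟨by norm_num⟩

open CfsgLib.RegularLinear.Examples in
/-- The elements. -/
def elts : List (Q 5) := [(1, 0, 0, 1), (2, 0, 0, 3), (0, 4, 1, 0), (1, 2, 1, 3), (4, 0, 0, 4), (0, 3, 3, 0), (2, 4, 3, 4), (0, 2, 2, 0), (4, 2, 1, 2), (2, 1, 2, 4), (3, 3, 4, 1), (3, 0, 0, 2), (0, 1, 4, 0), (4, 3, 4, 2), (3, 4, 3, 1), (1, 1, 2, 3), (3, 1, 2, 1), (1, 4, 3, 3), (1, 3, 4, 3), (3, 2, 1, 1), (2, 2, 1, 4), (2, 3, 4, 4), (4, 4, 3, 2), (4, 1, 2, 2)]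

/-- The parents in a spanning tree. -/
def pars : List (ℕ × ℕ) := [(0, 0), (0, 0), (0, 1), (0, 2), (1, 0), (1, 1), (1, 2), (2, 0), (2, 2), (3, 0), (3, 2), (4, 0), (4, 1), (4, 2), (5, 2), (6, 2), (8, 0), (8, 2), (9, 1), (9, 2), (13, 2), (14, 2), (16, 2), (18, 2)]

open CfsgLib.RegularLinear.Examples in
/-- The generators. -/
def gens : List (Q 5) := [(2, 0, 0, 3), (0, 4, 1, 0), (1, 2, 1, 3)]

/-- An exceptional sharply doubly transitive group of degree 5^2: the listed matrices generate a subgroup of GL(2,5) of order 24 acting regularly on the non-zero vectors. -/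
theorem result (A : Matrix.GeneralLinearGroup (Fin 2) (ZMod 5)) (B : Matrix.GeneralLinearGroup (Fin 2) (ZMod 5)) (C : Matrix.GeneralLinearGroup (Fin 2) (ZMod 5)) (hA : (A : Matrix (Fin 2) (Fin 2) (ZMod 5)) = !![2, 0; 0, -2]) (hB : (B : Matrix (Fin 2) (Fin 2) (ZMod 5)) = !![0, -1; 1, 0]) (hC : (C : Matrix (Fin 2) (Fin 2) (ZMod 5)) = !![1, 2; 1, -2]) : Nat.card (Subgroup.closure ({A, B, C} : Set (Matrix.GeneralLinearGroup (Fin 2) (ZMod 5)))) = 24 ∧ ∀ v w : Fin 2 → ZMod 5, v ≠ 0 → w ≠ 0 → ∃! h : Subgroup.closure ({A, B, C} : Set (Matrix.GeneralLinearGroup (Fin 2) (ZMod 5))), Matrix.mulVec ((h : Matrix.GeneralLinearGroup (Fin 2) (ZMod 5)) : Matrix (Fin 2) (Fin 2) (ZMod 5)) v = w := by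
  have hS : ∀ x ∈ ({A, B, C} : Set (Matrix.GeneralLinearGroup (Fin 2) (ZMod 5))),
      ofMat (x : Matrix (Fin 2) (Fin 2) (ZMod 5)) ∈ gens := by
    rintro x (rfl | rfl | rfl)
    · rw [hA]; decide +kernel
    · rw [hB]; decide +kernel
    · rw [hC]; decide +kernel
  have hg : ∀ q ∈ gens, ∃ x ∈ ({A, B, C} : Set (Matrix.GeneralLinearGroup (Fin 2) (ZMod 5))),
      ofMat (x : Matrix (Fin 2) (Fin 2) (ZMod 5)) = q := by
    intro q hq
    simp only [gens, List.mem_cons, List.not_mem_nil, or_false] at hq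
    rcases hq with rfl | rfl | rfl
    · exact ⟨A, by simp, by rw [hA]; decide +kernel⟩
    · exact ⟨B, by simp, by rw [hB]; decide +kernel⟩
    · exact ⟨C, by simp, by rw [hC]; decide +kernel⟩
  obtain ⟨hcard, hmem⟩ := closure_spec _ gens hS hg elts pars (by decide +kernel) (by decide +kernel)
    (by decide +kernel) (by decide +kernel)
  have hc : Nat.card (Subgroup.closure ({A, B, C} : Set (Matrix.GeneralLinearGroup (Fin 2) (ZMod 5)))) = 24 :=
    hcard.trans (by decide +kernel)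
  refine ⟨hc, regular_of_card _ (hc.trans rfl) fun h hh hf => ?_⟩
  have hall : ∀ x ∈ elts, qfix x = 0 → x = qone := by decide +kernel
  exact Units.ext (ofMat_injective ((hall _ (hmem h hh) hf).trans ofMat_one.symm))

end Cfsg.Agent.S0691
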