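import Cfsg.Statements.S0692
import Cfsg.Agent.RegularLinear.Examples

set_option autoImplicit false
open Cfsg

open CfsgLib.RegularLinear.Examples

namespace Cfsg.Agent.S0692

local instance factPrime : Fact (Nat.Prime 11) := ⟨by norm_num⟩

open CfsgLib.RegularLinear.Examples in
/-- The elements. -/
def elts : List (Q 11) := [(1, 0, 0, 1), (0, 10, 1, 0), (2, 4, 1, 8), (10, 0, 0, 10), (10, 3, 2, 4), (4, 9, 8, 10), (8, 7, 10, 2), (0, 1, 10, 0), (9, 7, 10, 3), (3, 1, 4, 9), (1, 9, 8, 7), (6, 0, 4, 2), (7, 3, 2, 1), (1, 8, 9, 7), (7, 2, 3, 1), (3, 4, 1, 9), (7, 9, 6, 0), (9, 10, 7, 3), (0, 5, 2, 7), (1, 2, 10, 10), (6, 8, 5, 5), (8, 10, 7, 2), (10, 2, 3, 4), (5, 0, 7, 9), (4, 8, 9, 10), (9, 4, 0, 5), (1, 1, 1, 2), (6, 6, 6, 8), (5, 7, 0, 9), (2, 10, 10, 1), (8, 5, 5, 6), (9, 0, 4, 5), (4, 2, 5, 0), (2, 1, 4, 8), (0, 6, 9, 4), (10, 9, 1, 1), (5, 3, 6, 6), (0, 2, 5, 7),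 (1, 10, 2, 10), (6, 5, 8, 5), (7, 6, 9, 0), (6, 10, 9, 6), (3, 0, 10, 4), (10, 6, 5, 2), (2, 7, 0, 6), (10, 10, 10, 9), (5, 5, 5, 3), (6, 4, 0, 2), (9, 1, 1, 10), (3, 6, 6, 5), (2, 0, 7, 6), (2, 5, 6, 10), (1, 7, 3, 0), (6, 9, 10, 6), (10, 5, 6, 2), (0, 8, 4, 1), (6, 1, 2, 6), (4, 0, 1, 3), (0, 9, 6, 4), (10, 1, 9, 1), (5, 6, 3, 6), (4, 5, 2, 0), (5, 1, 2, 5), (8, 0, 1, 7), (1, 5, 6, 9), (5, 9, 10, 5), (7, 10, 0, 8), (9, 5, 6, 1), (10, 8, 4, 0), (3, 3, 3, 7), (8, 9, 9, 2), (0, 7, 3, 10), (9, 6, 5, 1), (10, 4, 8, 0), (5, 2, 1, 5), (1, 6, 5, 9), (0, 3, 7, 10), (5, 10, 9, 5), (7, 0, 10, 8), (8, 4, 3, 3), (2, 9, 8, 9), (8, 1, 0, 7), (3, 8, 7, 8), (9, 3, 2, 2), (3, 5, 9, 8), (7, 1, 5, 4), (6, 2, 1, 6), (4, 1, 0, 3), (2, 6, 5, 10), (1, 3, 7, 0), (8, 8, 8, 4), (3, 2, 2, 9), (0, 4, 8, 1), (4, 3, 3, 8), (9, 9, 9, 3), (2, 3, 3, 5), (6, 7, 7, 1), (3, 10, 0, 4), (5, 8, 8, 2),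 (1, 4, 4, 6), (3, 7, 8, 8), (9, 2, 3, 2), (8, 3, 4, 3), (2, 8, 9, 9), (8, 6, 2, 3), (4, 10, 6, 7), (3, 9, 5, 8), (7, 5, 1, 4), (5, 4, 4, 10), (7, 7, 7, 4), (6, 3, 3, 9), (7, 8, 8, 3), (2, 2, 2, 8), (9, 8, 8, 6), (10, 7, 7, 5), (4, 7, 7, 7), (8, 2, 6, 3), (4, 6, 10, 7), (7, 4, 4, 4), (4, 4, 4, 7)]

/-- The parents in a spanning tree. -/
def pars : List (ℕ × ℕ) := [(0, 0), (0, 0), (0, 1), (1, 0), (1, 1), (2, 0), (2, 1), (3, 0), (3, 1), (4, 0), (4, 1), (5, 1), (6, 0), (7, 1), (8, 0), (8, 1), (9, 1), (10, 0), (11, 0), (11, 1), (12, 1), (13, 0), (13, 1), (14, 1), (15, 0), (16, 0), (16, 1), (17, 1), (18, 1), (19, 0), (20, 0), (20, 1), (21, 1), (22, 0), (23, 0), (23, 1), (24, 1), (25, 1), (26, 0), (27, 0), (27, 1), (28, 1), (29, 1), (30, 1), (32, 0), (32, 1), (33, 1), (34, 1), (35, 0), (36, 0), (36, 1), (37, 1), (38, 1), (39, 1), (41, 0), (42, 0), (42, 1), (43, 1), (44, 1),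 (45, 0), (46, 0), (46, 1), (47, 1), (48, 1), (49, 1), (51, 0), (52, 0), (52, 1), (53, 1), (54, 1), (55, 1), (57, 0), (58, 1), (59, 1), (60, 1), (62, 0), (63, 0), (63, 1), (64, 1), (65, 1), (66, 1), (68, 0), (69, 0), (69, 1), (70, 1), (71, 1), (72, 0), (73, 0), (73, 1), (74, 1), (75, 1), (76, 1), (78, 0), (79, 0), (79, 1), (80, 1), (81, 1), (82, 1), (84, 0), (85, 0), (86, 1), (87, 1), (90, 0), (90, 1), (91, 1), (92, 1), (95, 0), (96, 0), (97, 1), (98, 1), (99, 1), (100, 0), (100, 1), (101, 1), (105, 0), (106, 1), (107, 1), (108, 0), (109, 0), (110, 1)]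

open CfsgLib.RegularLinear.Examples in
/-- The generators. -/
def gens : List (Q 11) := [(0, 10, 1, 0), (2, 4, 1, 8)]

/-- An exceptional sharply doubly transitive group of degree 11^2: the listed matrices generate a subgroup of GL(2,11) of order 120 acting regularly on the non-zero vectors. -/
theorem result (A : Matrix.GeneralLinearGroup (Fin 2) (ZMod 11)) (B : Matrix.GeneralLinearGroup (Fin 2) (ZMod 11)) (hA : (A : Matrix (Fin 2) (Fin 2) (ZMod 11)) = !![0, -1; 1, 0]) (hB : (B : Matrix (Fin 2) (Fin 2) (ZMod 11)) = !![2, 4; 1, -3]) : Nat.card (Subgroup.closure ({A, B} : Set (Matrix.GeneralLinearGroup (Fin 2) (ZMod 11)))) = 120 ∧ ∀ v w : Fin 2 → ZMod 11, v ≠ 0 → w ≠ 0 → ∃! h : Subgroup.closure ({A, B} : Set (Matrix.GeneralLinearGroup (Fin 2) (ZMod 11))), Matrix.mulVec ((h : Matrix.GeneralLinearGroup (Fin 2) (ZMod 11)) : Matrix (Fin 2) (Fin 2) (ZMod 11)) v = w := by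
  have hS : ∀ x ∈ ({A, B} : Set (Matrix.GeneralLinearGroup (Fin 2) (ZMod 11))),
      ofMat (x : Matrix (Fin 2) (Fin 2) (ZMod 11)) ∈ gens := by
    rintro x (rfl | rfl)
    · rw [hA]; decide +kernel
    · rw [hB]; decide +kernel
  have hg : ∀ q ∈ gens, ∃ x ∈ ({A, B} : Set (Matrix.GeneralLinearGroup (Fin 2) (ZMod 11))),
      ofMat (x : Matrix (Fin 2) (Fin 2) (ZMod 11)) = q := by
    intro q hq
    simp only [gens, List.mem_cons, List.not_mem_nil, or_false] at hq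
    rcases hq with rfl | rfl
    · exact ⟨A, by simp, by rw [hA]; decide +kernel⟩
    · exact ⟨B, by simp, by rw [hB]; decide +kernel⟩
  obtain ⟨hcard, hmem⟩ := closure_spec _ gens hS hg elts pars (by decide +kernel) (by decide +kernel)
    (by decide +kernel) (by decide +kernel)
  have hc : Nat.card (Subgroup.closure ({A, B} : Set (Matrix.GeneralLinearGroup (Fin 2) (ZMod 11)))) = 120 :=
    hcard.trans (by decide +kernel)
  refine ⟨hc, regular_of_card _ (hc.trans rfl) fun h hh hf => ?_⟩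
  have hall : ∀ x ∈ elts, qfix x = 0 → x = qone := by
    have hb : (elts.all fun x => decide (qfix x = 0 → x = qone)) = true := by decide +kernel
    intro x hx
    exact of_decide_eq_true (List.all_eq_true.mp hb x hx)
  exact Units.ext (ofMat_injective ((hall _ (hmem h hh) hf).trans ofMat_one.symm))

end Cfsg.Agent.S0692
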