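import Cfsg.Statements.S0693
import Cfsg.Agent.RegularLinear.Examples

set_option autoImplicit false
open Cfsg

open CfsgLib.RegularLinear.Examples

namespace Cfsg.Agent.S0693

local instance factPrime : Fact (Nat.Prime 59) := ⟨by norm_num⟩

open CfsgLib.RegularLinear.Examples in
/-- The elements. -/
def elts : List (Q 59) := [(1, 0, 0, 1), (0, 58, 1, 0), (9, 15, 49, 49), (58, 0, 0, 58), (10, 10, 9, 15), (15, 50, 49, 10), (49, 44, 10, 9), (0, 1, 58, 0), (50, 44, 10, 10), (10, 49, 15, 50), (49, 50, 49, 44), (48, 20, 46, 45), (44, 10, 9, 49), (49, 49, 50, 44), (44, 9, 10, 49), (10, 15, 49, 50), (13, 14, 48, 20), (50, 10, 44, 10), (20, 11, 45, 13), (55, 48, 23, 4), (1, 29, 4, 58), (49, 10, 44, 9), (10, 9, 10, 15), (11, 39, 13, 14), (15, 49, 50, 10), (14, 46, 20, 11), (36, 55, 55, 48), (55, 1, 1, 29), (11, 13, 39, 14), (48, 4, 4, 36), (29, 58, 58, 55), (14, 20, 46, 11), (46, 45, 11, 39), (9, 49, 15, 49), (39, 48, 14, 46), (4, 11,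 36, 55), (58, 30, 55, 1), (20, 45, 11, 13), (55, 23, 48, 4), (1, 4, 29, 58), (13, 48, 14, 20), (28, 35, 34, 32), (38, 31, 30, 54), (35, 32, 31, 25), (45, 13, 39, 48), (23, 4, 4, 11), (4, 58, 58, 30), (48, 46, 20, 45), (11, 55, 55, 23), (30, 1, 1, 4), (45, 39, 13, 48), (25, 27, 28, 35), (29, 5, 38, 31), (28, 34, 35, 32), (35, 31, 32, 25), (31, 21, 54, 29), (32, 24, 25, 28), (54, 28, 29, 38), (39, 14, 48, 46), (4, 36, 11, 55), (58, 55, 30, 1), (46, 11, 45, 39), (31, 24, 25, 27), (21, 28, 29, 5), (24, 27, 28, 34), (27, 34, 35, 31), (5, 30, 31, 21), (34, 31, 32, 24), (30, 21, 54, 28), (5, 38, 38, 53), (10, 19, 19, 48), (28, 5, 38, 30), (34, 32, 31, 24), (30, 54, 21, 28), (31, 25, 24, 27), (24, 28, 27, 34), (28, 38, 5, 30), (27, 35, 34, 31), (5, 31, 30, 21), (21, 6, 5, 38), (40, 11, 10, 19), (21, 29, 28, 5), (38, 54, 53, 21), (19, 49, 48, 40), (18, 19, 45, 41), (25, 16, 42, 34), (32, 25, 24, 28), (54, 29, 28, 38), (25, 28, 27, 35),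 (29, 38, 5, 31), (54, 21, 21, 6), (49, 40, 40, 11), (31, 54, 21, 29), (6, 38, 38, 54), (11, 19, 19, 49), (14, 18, 18, 19), (17, 25, 25, 16), (38, 30, 31, 54), (19, 41, 41, 14), (16, 34, 34, 17), (38, 53, 54, 21), (19, 48, 49, 40), (21, 5, 6, 38), (40, 10, 11, 19), (41, 40, 14, 18), (34, 43, 17, 25), (18, 45, 19, 41), (25, 42, 16, 34), (42, 34, 34, 43), (56, 52, 52, 3), (40, 18, 18, 45), (53, 21, 21, 5), (48, 40, 40, 10), (45, 41, 41, 40), (43, 25, 25, 42), (7, 56, 56, 52), (41, 14, 40, 18), (34, 17, 43, 25), (52, 3, 3, 7), (3, 7, 7, 56)]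

/-- The parents in a spanning tree. -/
def pars : List (ℕ × ℕ) := [(0, 0), (0, 0), (0, 1), (1, 0), (1, 1), (2, 0), (2, 1), (3, 0), (3, 1), (4, 0), (4, 1), (5, 1), (6, 0), (7, 1), (8, 0), (8, 1), (9, 1), (10, 0), (11, 0), (11, 1), (12, 1), (13, 0), (13, 1), (14, 1), (15, 0), (16, 0), (16, 1), (17, 1), (18, 1), (19, 0), (20, 0), (20, 1), (21, 1), (22, 0), (23, 0), (23, 1), (24, 1), (25, 1), (26, 0), (27, 0), (27, 1), (28, 1), (29, 1), (30, 1), (32, 0), (32, 1), (33, 1), (34, 1), (35, 0), (36, 0), (36, 1), (37, 1), (38, 1), (39, 1), (41, 0), (42, 0), (42, 1), (43, 1), (44, 1), (45, 0), (46, 0), (46, 1), (47, 1), (48, 1), (49, 1), (51, 0), (52, 0), (52, 1), (53, 1), (54, 1), (55, 1), (57, 0), (58, 1), (59, 1), (60, 1), (62, 0), (63, 0), (63, 1), (64, 1), (65, 1), (66, 1), (68, 0), (69, 0), (69, 1), (70, 1), (71, 1), (72, 0), (73, 0), (73, 1), (74, 1), (75, 1), (76, 1), (78, 0), (79, 0), (79, 1), (80, 1), (81, 1), (82, 1), (84,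 0), (85, 0), (86, 1), (87, 1), (90, 0), (90, 1), (91, 1), (92, 1), (95, 0), (96, 0), (97, 1), (98, 1), (99, 1), (100, 0), (100, 1), (101, 1), (105, 0), (106, 1), (107, 1), (108, 0), (109, 0), (110, 1)]

open CfsgLib.RegularLinear.Examples in
/-- The generators. -/
def gens : List (Q 59) := [(0, 58, 1, 0), (9, 15, 49, 49)]

/-- An exceptional sharply doubly transitive group of degree 59^2: the listed matrices generate a subgroup of GL(2,59) of order 3480 acting regularly on the non-zero vectors. -/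
theorem result (A : Matrix.GeneralLinearGroup (Fin 2) (ZMod 59)) (B : Matrix.GeneralLinearGroup (Fin 2) (ZMod 59)) (C : Matrix.GeneralLinearGroup (Fin 2) (ZMod 59)) (hA : (A : Matrix (Fin 2) (Fin 2) (ZMod 59)) = !![0, -1; 1, 0]) (hB : (B : Matrix (Fin 2) (Fin 2) (ZMod 59)) = !![9, 15; -10, -10]) (hC : (C : Matrix (Fin 2) (Fin 2) (ZMod 59)) = !![4, 0; 0, 4]) : Nat.card (Subgroup.closure ({A, B, C} : Set (Matrix.GeneralLinearGroup (Fin 2) (ZMod 59)))) = 3480 ∧ ∀ v w : Fin 2 → ZMod 59, v ≠ 0 → w ≠ 0 → ∃! h : Subgroup.closure ({A, B, C} : Set (Matrix.GeneralLinearGroup (Fin 2) (ZMod 59))), Matrix.mulVec ((h : Matrix.GeneralLinearGroup (Fin 2) (ZMod 59)) : Matrix (Fin 2) (Fin 2) (ZMod 59)) v = w := by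
  classical
  set K := Subgroup.closure ({A, B} : Set (Matrix.GeneralLinearGroup (Fin 2) (ZMod 59))) with hKdef
  have hS : ∀ x ∈ ({A, B} : Set (Matrix.GeneralLinearGroup (Fin 2) (ZMod 59))),
      ofMat (x : Matrix (Fin 2) (Fin 2) (ZMod 59)) ∈ gens := by
    rintro x (rfl | rfl)
    · rw [hA]; decide +kernel
    · rw [hB]; decide +kernel
  have hg : ∀ q ∈ gens, ∃ x ∈ ({A, B} : Set (Matrix.GeneralLinearGroup (Fin 2) (ZMod 59))),
      ofMat (x : Matrix (Fin 2) (Fin 2) (ZMod 59)) = q := by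
    intro q hq
    simp only [gens, List.mem_cons, List.not_mem_nil, or_false] at hq
    rcases hq with rfl | rfl
    · exact ⟨A, by simp, by rw [hA]; decide +kernel⟩
    · exact ⟨B, by simp, by rw [hB]; decide +kernel⟩
  obtain ⟨hcard, hmem⟩ := closure_spec _ gens hS hg elts pars (by decide +kernel) (by decide +kernel)
    (by decide +kernel) (by decide +kernel)
  have hK : Nat.card K = 120 := hcard.trans (by decide +kernel)
  have hC4 : ((C : Matrix.GeneralLinearGroup (Fin 2) (ZMod 59)) : Matrix (Fin 2) (Fin 2) (ZMod 59)) = (4 : ZMod 59) • 1 := by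
    rw [hC]; decide +kernel
  have hcomm : ∀ x : Matrix.GeneralLinearGroup (Fin 2) (ZMod 59), Commute x C := fun x => Units.ext (by
    rw [Units.val_mul, Units.val_mul, hC4, Matrix.mul_smul, Matrix.smul_mul, mul_one, one_mul])
  have hCk : ∀ k : ℕ, ((C ^ k : Matrix.GeneralLinearGroup (Fin 2) (ZMod 59)) : Matrix (Fin 2) (Fin 2) (ZMod 59)) =
      ((4 : ZMod 59) ^ k) • 1 := fun k => by
    rw [Units.val_pow_eq_pow_val, hC4, smul_pow, one_pow]
  have hord : orderOf C = 29 := by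
    haveI : Fact (Nat.Prime 29) := ⟨by norm_num⟩
    refine orderOf_eq_prime (Units.ext ?_) fun e => ?_
    · rw [hCk, show (4 : ZMod 59) ^ 29 = 1 by decide +kernel, one_smul, Units.val_one]
    · have e' := congrFun (congrFun (congrArg (fun u : Matrix.GeneralLinearGroup (Fin 2) (ZMod 59) =>
        (u : Matrix (Fin 2) (Fin 2) (ZMod 59))) e) 0) 0
      simp only [hC] at e'
      revert e'
      decide +kernel
  let ψ : K × Subgroup.zpowers C →* Matrix.GeneralLinearGroup (Fin 2) (ZMod 59) :=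
    { toFun := fun x => (x.1 : Matrix.GeneralLinearGroup (Fin 2) (ZMod 59)) * x.2
      map_one' := by simp
      map_mul' := fun x y => by
        obtain ⟨i, hi⟩ := Subgroup.mem_zpowers_iff.mp x.2.2
        refine Commute.mul_mul_mul_comm ?_ _ _
        rw [← hi]
        exact (hcomm _).zpow_right i }
  have hfix : ∀ x, qfix (ofMat ((ψ x : Matrix.GeneralLinearGroup (Fin 2) (ZMod 59)) : Matrix (Fin 2) (Fin 2) (ZMod 59))) = 0 →
      x = 1 := by
    rintro ⟨⟨t, ht⟩, ⟨c, hc⟩⟩ hf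
    obtain ⟨k, rfl⟩ := (isOfFinOrder_of_finite C).mem_powers_iff_mem_zpowers.mpr hc
    have hall : ∀ q ∈ elts, ∀ k : Fin 29,
        qfix (qmul q ((4 : ZMod 59) ^ (k : ℕ), 0, 0, (4 : ZMod 59) ^ (k : ℕ))) = 0 → q = qone ∧ k = 0 := by
      decide +kernel
    have hk : C ^ (k % 29) = C ^ k := by rw [← hord]; exact pow_mod_orderOf C k
    change qfix (ofMat ((t * C ^ k : Matrix.GeneralLinearGroup (Fin 2) (ZMod 59)) : Matrix (Fin 2) (Fin 2) (ZMod 59))) = 0 at hf
    rw [← hk, Units.val_mul, ofMat_mul, hCk, show ofMat (((4 : ZMod 59) ^ (k % 29)) • (1 : Matrix (Fin 2) (Fin 2) (ZMod 59))) =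
      ((4 : ZMod 59) ^ (k % 29), 0, 0, (4 : ZMod 59) ^ (k % 29)) by simp [ofMat]] at hf
    obtain ⟨h1, h2⟩ := hall _ (hmem t ht) ⟨k % 29, Nat.mod_lt _ (by norm_num)⟩ hf
    have h2' : k % 29 = 0 := congrArg Fin.val h2
    refine Prod.ext (Subtype.ext (Units.ext (ofMat_injective (h1.trans ofMat_one.symm)))) (Subtype.ext ?_)
    show C ^ k = 1
    rw [← hk, h2', pow_zero]
  have hinj : Function.Injective ψ := by
    rw [injective_iff_map_eq_one]
    intro x hx
    exact hfix x (by rw [hx, Units.val_one, ofMat_one]; decide +kernel)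
  have hrange : Subgroup.closure ({A, B, C} : Set (Matrix.GeneralLinearGroup (Fin 2) (ZMod 59))) = ψ.range := by
    refine le_antisymm ((Subgroup.closure_le _).mpr ?_) ?_
    · rintro x (rfl | rfl | rfl)
      · exact ⟨(⟨x, Subgroup.subset_closure (by simp)⟩, 1), mul_one _⟩
      · exact ⟨(⟨x, Subgroup.subset_closure (by simp)⟩, 1), mul_one _⟩
      · exact ⟨(1, ⟨x, Subgroup.mem_zpowers x⟩), one_mul _⟩
    · rintro _ ⟨⟨t, c⟩, rfl⟩
      refine mul_mem (Subgroup.closure_mono ?_ t.2) (Subgroup.zpowers_le.mpr (Subgroup.subset_closure (by simp)) c.2)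
      rintro x (rfl | rfl) <;> simp
  have hc : Nat.card (Subgroup.closure ({A, B, C} : Set (Matrix.GeneralLinearGroup (Fin 2) (ZMod 59)))) = 3480 := by
    rw [hrange, ← Nat.card_congr (MonoidHom.ofInjective hinj).toEquiv, Nat.card_prod, hK, Nat.card_zpowers, hord]
  refine ⟨hc, regular_of_card _ (hc.trans rfl) fun h hh hf => ?_⟩
  rw [hrange] at hh
  obtain ⟨x, rfl⟩ := hh
  rw [hfix x hf, map_one]

end Cfsg.Agent.S0693
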