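import Cfsg.Statements.S0694
import Mathlib

set_option autoImplicit false
open Cfsg

namespace Cfsg.Agent.S0694

/-- The geometric sum. -/
def G (Q i : ℕ) : ℕ := ∑ j ∈ Finset.range i, Q ^ j

theorem G_mul (Q x y : ℕ) : G Q (x * y) = G Q x * G (Q ^ x) y := by
  induction y with
  | zero => simp [G]
  | succ y ih =>
    simp only [G] at ih ⊢
    rw [Finset.sum_range_succ (fun j => (Q ^ x) ^ j), show x * (y + 1) = x * y + x by ring, mul_add, ← ih, Finset.sum_range_add,
      ← pow_mul, Finset.sum_mul]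
    congr 1
    exact Finset.sum_congr rfl fun j _ => by rw [pow_add, mul_comm]

theorem G_modEq {r Q : ℕ} (h : Q ≡ 1 [MOD r]) (i : ℕ) : G Q i ≡ i [MOD r] := by
  induction i with
  | zero => rfl
  | succ i ih =>
    simp only [G, Finset.sum_range_succ]
    exact ih.add (by simpa using h.pow i)

theorem G_spec {Q : ℕ} (hQ : 1 ≤ Q) (i : ℕ) : (Q - 1) * G Q i + 1 = Q ^ i := by
  obtain ⟨k, rfl⟩ := Nat.exists_eq_add_of_le hQ
  rw [Nat.add_sub_cancel_left]
  induction i with
  | zero => simp [G]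
  | succ i ih =>
    simp only [G, Finset.sum_range_succ] at ih ⊢
    rw [pow_succ]
    calc _ = (k * ∑ j ∈ Finset.range i, (1 + k) ^ j + 1) + k * (1 + k) ^ i := by ring
      _ = _ := by rw [ih]; ring

theorem modEq_one_of_dvd {r Q : ℕ} (hQ : 1 ≤ Q) (h : r ∣ Q - 1) : Q ≡ 1 [MOD r] :=
  ((Nat.modEq_iff_dvd' hQ).mpr h).symm

theorem G_prime {r Q : ℕ} (hr : r.Prime) (hQ : 1 ≤ Q) (h : r ∣ Q - 1) (hc : r ≠ 2 ∨ 4 ∣ Q - 1) :
    ∃ u, G Q r = r * u ∧ ¬ r ∣ u := by
  obtain ⟨k, hk⟩ := h
  have hQ' : Q = 1 + r * k := by omega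
  have key : ∀ i, 2 * G Q i + r * k * i ≡ 2 * i + r * k * i * i [MOD r * r] := by
    intro i
    induction i with
    | zero => simp [G]; rfl
    | succ i ih =>
      have hp : Q ^ i ≡ 1 + r * k * i [MOD r * r] := by
        clear ih
        induction i with
        | zero => simp; rfl
        | succ i ih =>
          rw [pow_succ, hQ']
          refine ((hQ' ▸ ih).mul_right _).trans ?_
          exact (Nat.modEq_iff_dvd).mpr ⟨-((k : ℤ) * k * i), by push_cast; ring⟩
      simp only [G, Finset.sum_range_succ] at ih ⊢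
      calc _ = (2 * ∑ j ∈ Finset.range i, Q ^ j + r * k * i) + (2 * Q ^ i + r * k) := by ring
        _ ≡ (2 * i + r * k * i * i) + (2 * (1 + r * k * i) + r * k) [MOD r * r] :=
          ih.add ((hp.mul_left 2).add_right _)
        _ = _ := by ring
  have hmod : G Q r ≡ r [MOD r * r] := by
    rcases eq_or_ne r 2 with rfl | hr2
    · have h4 : 4 ∣ Q - 1 := hc.resolve_left (by simp)
      simp only [G, Finset.sum_range_succ, Finset.sum_range_zero, Nat.ModEq, pow_zero, pow_one, zero_add]
      omega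
    · have h := key r
      have h1 : ∀ x, r * k * r + x ≡ x [MOD r * r] := fun x => (Nat.modEq_iff_dvd).mpr ⟨-(k : ℤ), by push_cast; ring⟩
      have h2 : r * k * r * r ≡ 0 [MOD r * r] := (Nat.modEq_iff_dvd).mpr ⟨-((k : ℤ) * r), by push_cast; ring⟩
      have h3 : 2 * G Q r ≡ 2 * r [MOD r * r] :=
        (((h1 _).symm.trans (by rw [add_comm]; exact h)).trans ((Nat.ModEq.refl _).add h2))
      exact Nat.ModEq.cancel_left_of_coprime (by
        rw [← Nat.coprime_iff_gcd_eq_one]
        exact ((Nat.coprime_primes hr Nat.prime_two).mpr hr2).mul_left ((Nat.coprime_primes hr Nat.prime_two).mpr hr2)) h3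
  obtain ⟨u, hu⟩ : r ∣ G Q r := Nat.modEq_zero_iff_dvd.mp ((hmod.of_mul_left r).trans (Nat.modEq_zero_iff_dvd.mpr dvd_rfl))
  refine ⟨u, hu, fun ⟨v, hv⟩ => ?_⟩
  have h0 : r * r ∣ r := Nat.modEq_zero_iff_dvd.mp (hmod.symm.trans
    (Nat.modEq_zero_iff_dvd.mpr ⟨v, by rw [hu, hv, mul_assoc]⟩))
  have := Nat.le_of_dvd hr.pos h0
  nlinarith [hr.two_le]

/-- Divisibility of a geometric sum by a power of a prime dividing `Q - 1`. -/
theorem dvd_of_dvd_G {r : ℕ} (hr : r.Prime) : ∀ (a i Q : ℕ), 1 ≤ Q → r ∣ Q - 1 → (a ≤ 1 ∨ r ≠ 2 ∨ 4 ∣ Q - 1) →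
    r ^ a ∣ G Q i → r ^ a ∣ i
  | 0, _, _, _, _, _, _ => one_dvd _
  | a + 1, i, Q, hQ, hd, hc, h => by
    have hmod := G_modEq (modEq_one_of_dvd hQ hd) i
    have hri : r ∣ i := Nat.modEq_zero_iff_dvd.mp (hmod.symm.trans
      (Nat.modEq_zero_iff_dvd.mpr ((dvd_pow_self r (Nat.succ_ne_zero a)).trans h)))
    rcases Nat.eq_zero_or_pos a with rfl | ha
    · simpa using hri
    have hc' : r ≠ 2 ∨ 4 ∣ Q - 1 := hc.resolve_left (by omega)
    obtain ⟨j, rfl⟩ := hri
    obtain ⟨u, hu, hru⟩ := G_prime hr hQ hd hc'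
    rw [G_mul, hu, mul_assoc, pow_succ'] at h
    have h' := (Nat.Coprime.pow_left a ((hr.coprime_iff_not_dvd).mpr hru)).dvd_of_dvd_mul_left
      (Nat.dvd_of_mul_dvd_mul_left hr.pos h)
    have hsub : Q - 1 ∣ Q ^ r - 1 := Nat.sub_one_dvd_pow_sub_one Q r
    have := dvd_of_dvd_G hr a j (Q ^ r) (Nat.one_le_pow _ _ hQ) (hd.trans hsub)
      (Or.inr (hc'.imp_right (·.trans hsub))) h'
    rw [pow_succ']
    exact mul_dvd_mul_left r this

theorem dvd_G_pow {r : ℕ} : ∀ (a t Q : ℕ), 1 ≤ Q → r ∣ Q - 1 → r ^ a ∣ G Q (r ^ a * t)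
  | 0, _, _, _, _ => by simp
  | a + 1, t, Q, hQ, hd => by
    rw [pow_succ', mul_assoc, G_mul]
    refine mul_dvd_mul (Nat.modEq_zero_iff_dvd.mp ((G_modEq (modEq_one_of_dvd hQ hd) r).trans
      (Nat.modEq_zero_iff_dvd.mpr dvd_rfl))) ?_
    exact dvd_G_pow a t (Q ^ r) (Nat.one_le_pow _ _ hQ) (hd.trans (Nat.sub_one_dvd_pow_sub_one Q r))

theorem modEq_iff {q n i : ℕ} (hq : 2 ≤ q) : q ^ i ≡ 1 [MOD n * (q - 1)] ↔ n ∣ G q i := by
  have h : q ^ i - 1 = (q - 1) * G q i := by rw [← G_spec (by omega : 1 ≤ q) i, Nat.add_sub_cancel]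
  refine ⟨fun hh => ?_, fun hh => ?_⟩
  · have h1 := (Nat.modEq_iff_dvd' (Nat.one_le_pow _ _ (by omega))).mp hh.symm
    rw [h, mul_comm n] at h1
    exact Nat.dvd_of_mul_dvd_mul_left (by omega) h1
  · refine ((Nat.modEq_iff_dvd' (Nat.one_le_pow _ _ (by omega))).mpr ?_).symm
    rw [h, mul_comm n]
    exact mul_dvd_mul_left _ hh

/-- The Dickson pair condition: for a prime power `q` and `n > 1`, (every prime factor of `n` divides `q - 1`, and `4 ∣ n → 4 ∣ q - 1`) holds exactly when `q ^ n ≡ 1` modulo `n * (q - 1)` but `q ^ i` is not, for `0 < i < n`. -/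
theorem result (q n : ℕ) (hq : IsPrimePow q) (hn : 1 < n) : ((∀ r : ℕ, r.Prime → r ∣ n → r ∣ q - 1) ∧ (4 ∣ n → 4 ∣ q - 1)) ↔ (q ^ n ≡ 1 [MOD n * (q - 1)] ∧ ∀ i : ℕ, 0 < i → i < n → ¬ q ^ i ≡ 1 [MOD n * (q - 1)]) := by
  have hq2 : 2 ≤ q := hq.two_le
  have hn0 : n ≠ 0 := by omega
  simp only [modEq_iff hq2]
  constructor
  · rintro ⟨hdiv, h4⟩
    have hiff : ∀ i, n ∣ G q i → n ∣ i := by
      intro i hi
      rw [Nat.dvd_iff_prime_pow_dvd_dvd]
      intro r a hr hra
      rcases Nat.eq_zero_or_pos a with rfl | ha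
      · exact one_dvd _
      refine dvd_of_dvd_G hr a i q (by omega) (hdiv r hr ((dvd_pow_self r ha.ne').trans hra)) ?_ (hra.trans hi)
      by_cases ha2 : a ≤ 1
      · exact Or.inl ha2
      · right
        by_cases hr2 : r = 2
        · subst hr2
          exact Or.inr (h4 ((pow_dvd_pow 2 (show 2 ≤ a by omega)).trans hra))
        · exact Or.inl hr2
    refine ⟨?_, fun i hi hin h => ?_⟩
    · rw [Nat.dvd_iff_prime_pow_dvd_dvd]
      intro r a hr hra
      rcases Nat.eq_zero_or_pos a with rfl | ha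
      · exact one_dvd _
      obtain ⟨t, ht⟩ := hra
      exact ht ▸ dvd_G_pow a t q (by omega) (hdiv r hr ((dvd_pow_self r ha.ne').trans ⟨t, ht⟩))
    · have := Nat.le_of_dvd hi (hiff i h)
      omega
  · rintro ⟨hn1, hmin⟩
    have hord : ∀ k, n ∣ G q k → n ∣ k := by
      intro k hk
      have h1 : n ∣ G q (k % n) := by
        have h2 : (q : ℕ) ^ k ≡ 1 [MOD n * (q - 1)] := (modEq_iff hq2).mpr hk
        have h3 : q ^ n ≡ 1 [MOD n * (q - 1)] := (modEq_iff hq2).mpr hn1
        rw [← Nat.mod_add_div k n, pow_add, pow_mul] at h2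
        have h4 := ((h3.pow (k / n)).mul_left (q ^ (k % n))).symm.trans h2
        rw [one_pow, mul_one] at h4
        exact (modEq_iff hq2).mp h4
      by_contra hc
      exact hmin _ (Nat.pos_of_ne_zero fun e => hc (Nat.dvd_of_mod_eq_zero e)) (Nat.mod_lt _ (by omega)) h1
    have hgood : ∀ r, r.Prime → r ∣ n → r ∣ q - 1 := by
      by_contra hc
      push Not at hc
      set bad := n.primeFactors.filter (fun r => ¬ r ∣ q - 1) with hbad
      have hne : bad.Nonempty := by
        obtain ⟨r, hr, hrn, hrq⟩ := hc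
        exact ⟨r, Finset.mem_filter.mpr ⟨Nat.mem_primeFactors.mpr ⟨hr, hrn, hn0⟩, hrq⟩⟩
      set r := bad.max' hne with hrdef
      obtain ⟨hrmem, hrq⟩ := Finset.mem_filter.mp (Finset.max'_mem bad hne)
      rw [← hrdef] at hrmem hrq
      obtain ⟨hr, hrn, -⟩ := Nat.mem_primeFactors.mp hrmem
      set c : ℕ → ℕ := fun s => if s ∣ q - 1 then s ^ n.factorization s else Nat.totient (s ^ n.factorization s) with hcdef
      set k := ∏ s ∈ n.primeFactors, c s with hk
      have hnk : n ∣ G q k := by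
        rw [Nat.dvd_iff_prime_pow_dvd_dvd]
        intro s a hs hsa
        rcases Nat.eq_zero_or_pos a with rfl | ha
        · exact one_dvd _
        have hsn : s ∈ n.primeFactors := Nat.mem_primeFactors.mpr ⟨hs, (dvd_pow_self s ha.ne').trans hsa, hn0⟩
        have hle : a ≤ n.factorization s := (hs.pow_dvd_iff_le_factorization hn0).mp hsa
        refine (pow_dvd_pow s hle).trans ?_
        have hck : c s ∣ k := Finset.dvd_prod_of_mem c hsn
        by_cases hsq : s ∣ q - 1
        · rw [hcdef] at hck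
          simp only [hsq, if_true] at hck
          obtain ⟨t, ht⟩ := hck
          exact ht ▸ dvd_G_pow _ t q (by omega) hsq
        · rw [hcdef] at hck
          simp only [hsq, if_false] at hck
          obtain ⟨t, ht⟩ := hck
          have hco : Nat.Coprime (s ^ n.factorization s) (q - 1) := (hs.coprime_iff_not_dvd.mpr hsq).pow_left _
          refine hco.dvd_of_dvd_mul_left ?_
          have hcq : Nat.Coprime q (s ^ n.factorization s) := by
            refine (Nat.Coprime.pow_left _ (hs.coprime_iff_not_dvd.mpr fun hsd => ?_)).symm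
            have h1 : s ∣ q ^ n - 1 := by
              rw [← G_spec (by omega : 1 ≤ q) n, Nat.add_sub_cancel]
              exact dvd_mul_of_dvd_right (((dvd_pow_self s ha.ne').trans hsa).trans hn1) _
            have h2 : s ∣ q ^ n := hsd.trans (dvd_pow_self q hn0)
            have h3 := Nat.dvd_sub h2 h1
            rw [Nat.sub_sub_self (Nat.one_le_pow _ _ (by omega)), Nat.dvd_one] at h3
            exact hs.ne_one h3
          have h1 : q ^ k ≡ 1 [MOD s ^ n.factorization s] := by
            rw [ht, pow_mul]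
            simpa using (Nat.ModEq.pow_totient hcq).pow t
          have h2 := (Nat.modEq_iff_dvd' (Nat.one_le_pow _ _ (by omega))).mp h1.symm
          rwa [← G_spec (by omega : 1 ≤ q) k, Nat.add_sub_cancel] at h2
      have hrk : r ^ n.factorization r ∣ k := (Nat.ordProj_dvd n r).trans (hord k hnk)
      rw [hk, ← Finset.mul_prod_erase _ c hrmem] at hrk
      have hco : Nat.Coprime (r ^ n.factorization r) (∏ s ∈ n.primeFactors.erase r, c s) := by
        refine Nat.Coprime.pow_left _ (Nat.Coprime.prod_right fun s hs => ?_)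
        obtain ⟨hsr, hsn⟩ := Finset.mem_erase.mp hs
        obtain ⟨hsp, -, -⟩ := Nat.mem_primeFactors.mp hsn
        have hrs : Nat.Coprime r s := (Nat.coprime_primes hr hsp).mpr (Ne.symm hsr)
        by_cases hsq : s ∣ q - 1
        · simp only [hcdef, hsq, if_true]
          exact hrs.pow_right _
        · have hlt : s < r := lt_of_le_of_ne (Finset.le_max' bad s (Finset.mem_filter.mpr ⟨hsn, hsq⟩)) hsr
          simp only [hcdef, hsq, if_false]
          rw [Nat.totient_prime_pow hsp (Nat.pos_of_ne_zero (Finsupp.mem_support_iff.mp hsn))]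
          refine (hrs.pow_right _).mul_right (hr.coprime_iff_not_dvd.mpr fun hd => ?_)
          have := Nat.le_of_dvd (by have := hsp.two_le; omega) hd
          omega
      have hrc := hco.dvd_of_dvd_mul_right hrk
      simp only [hcdef, hrq, if_false] at hrc
      have := Nat.le_of_dvd (Nat.totient_pos.mpr (pow_pos hr.pos _)) hrc
      have := Nat.totient_lt (r ^ n.factorization r) (Nat.one_lt_pow (Finsupp.mem_support_iff.mp hrmem) hr.one_lt)
      omega
    refine ⟨hgood, fun h4 => ?_⟩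
    by_contra hq4
    have hq1 : 2 ∣ q - 1 := hgood 2 Nat.prime_two (Dvd.dvd.trans (by norm_num) h4)
    obtain ⟨t, rfl⟩ := h4
    have h : 4 * t ∣ G q (2 * t) := by
      rw [Nat.dvd_iff_prime_pow_dvd_dvd]
      intro r a hr hra
      rcases Nat.eq_zero_or_pos a with rfl | ha
      · exact one_dvd _
      have hrq : r ∣ q - 1 := hgood r hr ((dvd_pow_self r ha.ne').trans hra)
      by_cases hr2 : r = 2
      · subst hr2
        rcases a with _ | _ | a
        · simp
        · rw [G_mul]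
          refine dvd_mul_of_dvd_left ?_ _
          simp only [G, Finset.sum_range_succ, Finset.sum_range_zero, zero_add, pow_zero, pow_one]
          omega
        · rw [G_mul]
          have h2 : 2 ^ a ∣ t := by
            have : 4 * 2 ^ a ∣ 4 * t := by
              rw [show 4 * 2 ^ a = 2 ^ (a + 1 + 1) by ring]; exact hra
            exact Nat.dvd_of_mul_dvd_mul_left (by norm_num) this
          obtain ⟨u, rfl⟩ := h2
          rw [show (2 : ℕ) ^ (a + 1 + 1) = 4 * 2 ^ a by ring]
          refine mul_dvd_mul ?_ (dvd_G_pow a u (q ^ 2) (Nat.one_le_pow _ _ (by omega))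
            (hq1.trans (Nat.sub_one_dvd_pow_sub_one q 2)))
          simp only [G, Finset.sum_range_succ, Finset.sum_range_zero, zero_add, pow_zero, pow_one]
          omega
      · have hco : Nat.Coprime (r ^ a) 2 := ((Nat.coprime_primes hr Nat.prime_two).mpr hr2).pow_left a
        have h2 : r ^ a ∣ 2 * t := by
          have : r ^ a ∣ 2 * (2 * t) := by rwa [← mul_assoc]
          exact hco.dvd_of_dvd_mul_left this
        obtain ⟨u, hu⟩ := h2
        rw [hu]
        exact dvd_G_pow a u q (by omega) hrq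
    have := Nat.le_of_dvd (by omega) (hord _ h)
    omega

end Cfsg.Agent.S0694
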