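import Cfsg.Statements.S0699
import Mathlib
import Cfsg.Agent.RegularNormal.Wagner

set_option autoImplicit false
open Cfsg

namespace Cfsg.Agent.S0699

/-- Wagner's Theorem: a non-trivial normal subgroup of a triply transitive permutation group of odd degree at least 5 is triply transitive. -/
theorem result {α : Type*} [Fintype α] [DecidableEq α] (G : Subgroup (Equiv.Perm α)) (hodd : Odd (Fintype.card α)) (h5 : 5 ≤ Fintype.card α) (hG : MulAction.IsMultiplyPretransitive G α 3) (N : Subgroup G) [N.Normal] (hN : N ≠ ⊥) : MulAction.IsMultiplyPretransitive N α 3 := by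
  have hcard : 3 < Nat.card α := by rw [Nat.card_eq_fintype_card]; omega
  have hodd' : Odd (Nat.card α) := by rwa [Nat.card_eq_fintype_card]
  refine CfsgLib.RegularNormal.wagner hodd' hG N ?_
  rcases CfsgLib.RegularNormal.normal_transitive 1 (α := α) hcard hG N inferInstance hN with h | ⟨-, hc, hsq⟩
  · exact h
  · exfalso
    haveI := hc
    haveI h2 : MulAction.IsMultiplyPretransitive G α 2 :=
      haveI := hG
      MulAction.isMultiplyPretransitive_of_le (n := 3) (by omega) hcard.le
    haveI := CfsgLib.RegularNormal.transitive_of_normal h2 N hN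
    obtain ⟨a⟩ : Nonempty α := Fintype.card_pos_iff.mp (by omega)
    have hsurj : Function.Surjective fun n : N => n • a := fun b => MulAction.exists_smul_eq N a b
    have hinj : Function.Injective fun n : N => n • a := by
      intro n m h
      refine FaithfulSMul.eq_of_smul_eq_smul (α := α) fun b => ?_
      obtain ⟨k, rfl⟩ := MulAction.exists_smul_eq N a b
      have h' : n • a = m • a := h
      rw [← mul_smul, ← mul_smul, mul_comm' n k, mul_comm' m k, mul_smul, mul_smul, h']
    have hcardN : Nat.card N = Nat.card α := Nat.card_congr (Equiv.ofBijective _ ⟨hinj, hsurj⟩)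
    obtain ⟨⟨g, hg⟩, hg1⟩ : ∃ g : N, g ≠ 1 := by
      by_contra h
      push Not at h
      exact hN ((Subgroup.eq_bot_iff_forall N).mpr fun n hn => congrArg Subtype.val (h ⟨n, hn⟩))
    have horder : orderOf (⟨g, hg⟩ : N) = 2 :=
      orderOf_eq_prime (Subtype.ext (hsq g hg)) hg1
    have hdvd : 2 ∣ Nat.card N := horder ▸ orderOf_dvd_natCard _
    rw [hcardN] at hdvd
    exact (Nat.not_even_iff_odd.mpr hodd') (even_iff_two_dvd.mpr hdvd)

end Cfsg.Agent.S0699
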