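import Cfsg.Statements.S0701
import Mathlib
import Cfsg.Agent.PermCentralizer.Basic

set_option autoImplicit false
open Cfsg

namespace Cfsg.Agent.S0701

/-- The centraliser in the full symmetric group of a transitive permutation group `G` is semiregular, and it is transitive if and only if `G` is regular. -/
theorem result {α : Type*} (G : Subgroup (Equiv.Perm α)) [MulAction.IsPretransitive G α] : (∀ c ∈ Subgroup.centralizer (G : Set (Equiv.Perm α)), ∀ a : α, c a = a → c = 1) ∧ (MulAction.IsPretransitive (Subgroup.centralizer (G : Set (Equiv.Perm α))) α ↔ ∀ a : α, MulAction.stabilizer G a = ⊥) := by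
  have hG : ∀ a b : α, ∃ h ∈ G, h a = b := fun a b => by
    obtain ⟨g, hg⟩ := MulAction.exists_smul_eq G a b
    exact ⟨g, g.2, hg⟩
  refine ⟨fun c hc a ha => CfsgLib.PermCentralizer.eq_one_of_fix hG hc ha, ⟨fun ht a => ?_, fun hs => ⟨fun a b => ?_⟩⟩⟩
  · rw [Subgroup.eq_bot_iff_forall]
    intro g hg
    refine Subtype.ext (Equiv.ext fun b => ?_)
    obtain ⟨c, rfl⟩ := ht.exists_smul_eq a b
    have := Equiv.ext_iff.mp (Subgroup.mem_centralizer_iff.mp c.2 g g.2) a
    simp only [Equiv.Perm.mul_apply] at this
    show (g : Equiv.Perm α) ((c : Equiv.Perm α) a) = (c : Equiv.Perm α) a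
    rw [this, show (g : Equiv.Perm α) a = a from hg]
  · have key : ∀ g h : G, g • a = h • a → g • b = h • b := by
      intro g h e
      have hmem : h⁻¹ * g ∈ MulAction.stabilizer G a := by
        rw [MulAction.mem_stabilizer_iff, mul_smul, e, inv_smul_smul]
      rw [hs a, Subgroup.mem_bot] at hmem
      rw [inv_mul_eq_one.mp hmem]
    have key' : ∀ g h : G, g • b = h • b → g • a = h • a := by
      intro g h e
      have hmem : h⁻¹ * g ∈ MulAction.stabilizer G b := by
        rw [MulAction.mem_stabilizer_iff, mul_smul, e, inv_smul_smul]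
      rw [hs b, Subgroup.mem_bot] at hmem
      rw [inv_mul_eq_one.mp hmem]
    choose f hf using fun x : α => MulAction.exists_smul_eq G a x
    choose f' hf' using fun x : α => MulAction.exists_smul_eq G b x
    let c : Equiv.Perm α :=
      { toFun := fun x => f x • b
        invFun := fun x => f' x • a
        left_inv := fun x => by
          show f' (f x • b) • a = x
          rw [key' _ (f x) (hf' _), hf]
        right_inv := fun x => by
          show f (f' x • a) • b = x
          rw [key _ (f' x) (hf _), hf'] }
    refine ⟨⟨c, Subgroup.mem_centralizer_iff.mpr fun g hg => Equiv.ext fun x => ?_⟩, ?_⟩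
    · show g (f x • b) = f (g x) • b
      rw [key (f (g x)) (⟨g, hg⟩ * f x) (by rw [hf, mul_smul, hf]; rfl), mul_smul]
      rfl
    · show f a • b = b
      rw [key (f a) 1 (by rw [hf, one_smul]), one_smul]

end Cfsg.Agent.S0701
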