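import Cfsg.Statements.S0702
import Mathlib


set_option autoImplicit false
open Cfsg

namespace Cfsg.Agent.S0702

/-- For a transitive permutation group `G` on a finite set, the centraliser of `G` in the symmetric group is isomorphic to `N_G(G_ω)/G_ω`, and its orbit of `ω` is the set of fixed points of `G_ω`. -/
theorem result {α : Type*} [Finite α] (G : Subgroup (Equiv.Perm α)) [MulAction.IsPretransitive G α] (a : α) : Nonempty (Subgroup.centralizer (G : Set (Equiv.Perm α)) ≃* Subgroup.normalizer ((MulAction.stabilizer G a : Subgroup G) : Set G) ⧸ (MulAction.stabilizer G a).subgroupOf (Subgroup.normalizer ((MulAction.stabilizer G a : Subgroup G) : Set G))) ∧ MulAction.orbit (Subgroup.centralizer (G : Set (Equiv.Perm α))) a = MulAction.fixedPoints (MulAction.stabilizer G a) α := by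
  classical
  let K := MulAction.stabilizer G a
  let N := Subgroup.normalizer ((K : Subgroup G) : Set G)
  choose gx hgx using fun x : α => MulAction.exists_smul_eq G a x
  have hwd : ∀ (n : N) (g h : G), g • a = h • a → (g * (n : G)⁻¹) • a = (h * (n : G)⁻¹) • a := by
    intro n g h e
    have hk : h⁻¹ * g ∈ K := by
      show (h⁻¹ * g) • a = a
      rw [mul_smul, e, inv_smul_smul]
    have h2 : ((n : G) * (h⁻¹ * g) * (n : G)⁻¹) • a = a :=
      (Subgroup.mem_normalizer_iff.1 n.2 _).1 hk
    calc (g * (n : G)⁻¹) • a = (h * (n : G)⁻¹) • (((n : G) * (h⁻¹ * g) * (n : G)⁻¹) • a) := by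
          rw [smul_smul]; congr 1; group
      _ = (h * (n : G)⁻¹) • a := by rw [h2]
  let F : N → α → α := fun n x => (gx x * (n : G)⁻¹) • a
  have hF : ∀ (n : N) (g : G), F n (g • a) = (g * (n : G)⁻¹) • a := fun n g => hwd n _ _ (hgx (g • a))
  have hFmul : ∀ (n m : N) (x : α), F (n * m) x = F n (F m x) := by
    intro n m x
    show _ = F n ((gx x * (m : G)⁻¹) • a)
    rw [hF, mul_assoc, ← mul_inv_rev]
    rfl
  have hF1 : ∀ x, F 1 x = x := fun x => by
    show (gx x * ((1 : N) : G)⁻¹) • a = x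
    rw [Subgroup.coe_one, inv_one, mul_one, hgx]
  let σ : N → Equiv.Perm α := fun n =>
    { toFun := F n, invFun := F n⁻¹
      left_inv := fun x => by rw [← hFmul, inv_mul_cancel, hF1]
      right_inv := fun x => by rw [← hFmul, mul_inv_cancel, hF1] }
  have hσmem : ∀ n, σ n ∈ Subgroup.centralizer (G : Set (Equiv.Perm α)) := by
    intro n
    rw [Subgroup.mem_centralizer_iff]
    intro g hg
    refine Equiv.ext fun x => ?_
    show g (F n x) = F n (g x)
    have e : g x = ((⟨g, hg⟩ : G) * gx x) • a := by rw [mul_smul, hgx]; rfl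
    rw [e, hF, mul_assoc, mul_smul]
    rfl
  let ψ : N →* Subgroup.centralizer (G : Set (Equiv.Perm α)) :=
    MonoidHom.mk' (fun n => ⟨σ n, hσmem n⟩) fun n m => Subtype.ext (Equiv.ext fun x => hFmul n m x)
  have hcc : ∀ (c : Subgroup.centralizer (G : Set (Equiv.Perm α))) (g : G) (x : α),
      (c : Equiv.Perm α) (g • x) = g • (c : Equiv.Perm α) x := fun c g x =>
    (Equiv.ext_iff.1 (Subgroup.mem_centralizer_iff.1 c.2 (g : Equiv.Perm α) g.2) x).symm
  have hnorm : ∀ x : α, (∀ k : K, (k : G) • x = x) → gx x ∈ N := by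
    intro x hx
    have hle : K.map (MulAut.conj (gx x)⁻¹).toMonoidHom ≤ K := by
      rintro _ ⟨k, hk, rfl⟩
      show ((gx x)⁻¹ * k * ((gx x)⁻¹)⁻¹) • a = a
      rw [inv_inv, mul_smul, mul_smul, hgx, hx ⟨k, hk⟩, inv_smul_eq_iff, hgx]
    have heq : K.map (MulAut.conj (gx x)⁻¹).toMonoidHom = K :=
      Subgroup.eq_of_le_of_card_ge hle (Subgroup.card_map_of_injective (MulAut.conj (gx x)⁻¹).injective).ge
    have h1 : (gx x)⁻¹ ∈ N := Subgroup.mem_normalizer_iff.2 fun k => by
      conv_rhs => rw [← heq]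
      exact (Subgroup.mem_map_iff_mem (MulAut.conj (gx x)⁻¹).injective).symm
    simpa using N.inv_mem h1
  have hsurj : Function.Surjective ψ := by
    intro c
    let x := (c : Equiv.Perm α) a
    have hx : ∀ k : K, (k : G) • x = x := fun k => by
      show (k : G) • (c : Equiv.Perm α) a = (c : Equiv.Perm α) a
      rw [← hcc, show (k : G) • a = a from k.2]
    refine ⟨⟨(gx x)⁻¹, N.inv_mem (hnorm x hx)⟩, Subtype.ext (Equiv.ext fun y => ?_)⟩
    show (gx y * ((gx x)⁻¹)⁻¹) • a = (c : Equiv.Perm α) y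
    rw [inv_inv, mul_smul, hgx]
    conv_rhs => rw [← hgx y, hcc]
  have hker : ψ.ker = K.subgroupOf N := by
    ext n
    constructor
    · intro h
      have h1 : F n a = a := Equiv.ext_iff.1 (congrArg Subtype.val (MonoidHom.mem_ker.1 h)) a
      have h2 := hF n 1
      rw [one_smul, h1, one_mul] at h2
      show (n : G) • a = a
      exact (eq_inv_smul_iff.1 h2)
    · intro h
      refine MonoidHom.mem_ker.2 (Subtype.ext (Equiv.ext fun y => ?_))
      show (gx y * (n : G)⁻¹) • a = y
      have h' : (n : G) • a = a := h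
      rw [mul_smul, inv_smul_eq_iff.2 h'.symm, hgx]
  refine ⟨⟨((QuotientGroup.quotientMulEquivOfEq hker.symm).trans
    (QuotientGroup.quotientKerEquivOfSurjective ψ hsurj)).symm⟩, ?_⟩
  ext x
  constructor
  · rintro ⟨c, rfl⟩ k
    show (k : G) • (c : Equiv.Perm α) a = (c : Equiv.Perm α) a
    rw [← hcc, show (k : G) • a = a from k.2]
  · intro hx
    refine ⟨ψ ⟨(gx x)⁻¹, N.inv_mem (hnorm x hx)⟩, ?_⟩
    show F ⟨(gx x)⁻¹, _⟩ a = x
    have := hF ⟨(gx x)⁻¹, N.inv_mem (hnorm x hx)⟩ 1
    rw [one_smul] at this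
    rw [this, one_mul, inv_inv, hgx]

end Cfsg.Agent.S0702
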