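import Cfsg.Statements.S0703
import Mathlib
import Cfsg.Agent.PermCentralizer.Basic

set_option autoImplicit false
open Cfsg

namespace Cfsg.Agent.S0703

/-- An abelian transitive minimal normal subgroup `M` of a permutation group on a finite set is self-centralising in the symmetric group, regular, elementary abelian, and is the unique minimal normal subgroup. -/
theorem result {α : Type*} [Finite α] (G : Subgroup (Equiv.Perm α)) (M : Subgroup G) [M.Normal] (hM : M ≠ ⊥) (hmin : ∀ L : Subgroup G, L.Normal → L ≤ M → L = ⊥ ∨ L = M) (hab : IsMulCommutative M) (htrans : MulAction.IsPretransitive M α) : Subgroup.centralizer ((M.map G.subtype : Subgroup (Equiv.Perm α)) : Set (Equiv.Perm α)) = M.map G.subtype ∧ (∀ a : α, MulAction.stabilizer M a = ⊥) ∧ (∃ p : ℕ, p.Prime ∧ ∀ m ∈ M, m ^ p = 1) ∧ ∀ L : Subgroup G, L.Normal → L ≠ ⊥ → (∀ L' : Subgroup G, L'.Normal → L' ≤ L → L' = ⊥ ∨ L' = L) → L = M := by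
  classical
  haveI : Finite (Equiv.Perm α) := inferInstance
  have hMt := CfsgLib.PermCentralizer.transitive_map htrans
  haveI : Nonempty α := by
    by_contra hα
    rw [not_nonempty_iff] at hα
    exact hM ((Subgroup.eq_bot_iff_forall _).mpr fun m _ => Subtype.ext (Subsingleton.elim _ _))
  have hcomm : ∀ x ∈ M, ∀ y ∈ M, x * y = y * x := fun x hx y hy => setLike_mul_comm hx hy
  have hle := CfsgLib.PermCentralizer.le_centralizer_map hcomm
  have hC := CfsgLib.PermCentralizer.eq_centralizer hMt hMt hle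
  refine ⟨hC, fun a => ?_, ?_, fun L hLn hL0 hLmin => ?_⟩
  · rw [Subgroup.eq_bot_iff_forall]
    intro m hm
    exact Subtype.ext (Subtype.ext (CfsgLib.PermCentralizer.eq_one_of_fix hMt
      (hle ⟨m, m.2, rfl⟩) hm))
  · haveI : Nontrivial M := (Subgroup.nontrivial_iff_ne_bot M).mpr hM
    obtain ⟨p, hp, hpdvd⟩ := Nat.exists_prime_and_dvd (Finite.one_lt_card (α := M)).ne'
    haveI := Fact.mk hp
    obtain ⟨y, hy⟩ := exists_prime_orderOf_dvd_card' p hpdvd
    let K : Subgroup G :=
      { carrier := {x | x ∈ M ∧ x ^ p = 1}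
        one_mem' := ⟨M.one_mem, one_pow p⟩
        mul_mem' := fun {a b} ha hb =>
          ⟨M.mul_mem ha.1 hb.1, by rw [(show Commute a b from hcomm a ha.1 b hb.1).mul_pow, ha.2, hb.2, one_mul]⟩
        inv_mem' := fun {a} ha => ⟨M.inv_mem ha.1, by rw [inv_pow, ha.2, inv_one]⟩ }
    have hKn : K.Normal := ⟨fun x hx g => ⟨(inferInstance : M.Normal).conj_mem x hx.1 g, by
      rw [conj_pow, hx.2, mul_one, mul_inv_cancel]⟩⟩
    have hyK : (y : G) ∈ K := ⟨y.2, by
      rw [← SubmonoidClass.coe_pow, ← hy, pow_orderOf_eq_one]; rfl⟩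
    refine ⟨p, hp, fun m hm => ?_⟩
    rcases hmin K hKn (fun x hx => hx.1) with h | h
    · rw [h, Subgroup.mem_bot] at hyK
      rw [show y = 1 from Subtype.ext hyK, orderOf_one] at hy
      exact absurd hy hp.one_lt.ne
    · exact (h.symm ▸ hm : m ∈ K).2
  · by_contra hne
    have hLC : L.map G.subtype ≤ M.map G.subtype := hC ▸ CfsgLib.PermCentralizer.le_centralizer_map
      (CfsgLib.PermCentralizer.commute_of_minimal inferInstance hLn hmin hLmin (Ne.symm hne))
    rcases hmin L hLn ((Subgroup.map_le_map_iff_of_injective G.subtype_injective).mp hLC) with h | h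
    · exact hL0 h
    · exact hne h

end Cfsg.Agent.S0703
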