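import Cfsg.Statements.S0704
import Mathlib
import Cfsg.Agent.PermCentralizer.Basic

set_option autoImplicit false
open Cfsg

namespace Cfsg.Agent.S0704

/-- Two distinct transitive minimal normal subgroups `M`, `N` of a permutation group are regular, non-abelian, isomorphic, each other's centraliser in the symmetric group, and the only minimal normal subgroups. -/
theorem result {α : Type*} (G : Subgroup (Equiv.Perm α)) (M N : Subgroup G) [M.Normal] [N.Normal] (hM : M ≠ ⊥) (hN : N ≠ ⊥) (hMmin : ∀ L : Subgroup G, L.Normal → L ≤ M → L = ⊥ ∨ L = M) (hNmin : ∀ L : Subgroup G, L.Normal → L ≤ N → L = ⊥ ∨ L = N) (hMN : M ≠ N) (hMt : MulAction.IsPretransitive M α) (hNt : MulAction.IsPretransitive N α) : (∀ a : α, MulAction.stabilizer M a = ⊥) ∧ (∀ a : α, MulAction.stabilizer N a = ⊥) ∧ ¬ IsMulCommutative M ∧ Nonempty (M ≃* N) ∧ Subgroup.centralizer ((M.map G.subtype : Subgroup (Equiv.Perm α)) : Set (Equiv.Perm α)) = N.map G.subtype ∧ Subgroup.centralizer ((N.map G.subtype : Subgroup (Equiv.Perm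 α)) : Set (Equiv.Perm α)) = M.map G.subtype ∧ ∀ L : Subgroup G, L.Normal → L ≠ ⊥ → (∀ L' : Subgroup G, L'.Normal → L' ≤ L → L' = ⊥ ∨ L' = L) → L = M ∨ L = N := by
  have hMt' := CfsgLib.PermCentralizer.transitive_map hMt
  have hNt' := CfsgLib.PermCentralizer.transitive_map hNt
  haveI : Nonempty α := by
    by_contra hα
    rw [not_nonempty_iff] at hα
    exact hM ((Subgroup.eq_bot_iff_forall _).mpr fun m _ => Subtype.ext (Subsingleton.elim _ _))
  have hcomm := CfsgLib.PermCentralizer.commute_of_minimal (M := M) (N := N) inferInstance inferInstance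
    hMmin hNmin hMN
  have hcomm' : ∀ x ∈ N, ∀ y ∈ M, x * y = y * x := fun x hx y hy => (hcomm y hy x hx).symm
  have hle1 := CfsgLib.PermCentralizer.le_centralizer_map hcomm
  have hle2 := CfsgLib.PermCentralizer.le_centralizer_map hcomm'
  have hCM := CfsgLib.PermCentralizer.eq_centralizer hMt' hNt' hle1
  have hCN := CfsgLib.PermCentralizer.eq_centralizer hNt' hMt' hle2
  have hMsemi : ∀ (m : M) (a : α), m • a = a → m = 1 := fun m a h =>
    Subtype.ext (Subtype.ext (CfsgLib.PermCentralizer.eq_one_of_fix hNt' (hle2 ⟨m, m.2, rfl⟩) h))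
  have hNsemi : ∀ (n : N) (a : α), n • a = a → n = 1 := fun n a h =>
    Subtype.ext (Subtype.ext (CfsgLib.PermCentralizer.eq_one_of_fix hMt' (hle1 ⟨n, n.2, rfl⟩) h))
  refine ⟨fun a => (Subgroup.eq_bot_iff_forall _).mpr fun m hm => hMsemi m a hm,
    fun a => (Subgroup.eq_bot_iff_forall _).mpr fun n hn => hNsemi n a hn, ?_, ?_, hCM, hCN,
    fun L hLn hL0 hLmin => ?_⟩
  · intro hab
    have hle : M.map G.subtype ≤ N.map G.subtype := hCM ▸ CfsgLib.PermCentralizer.le_centralizer_map
      (fun x hx y hy => setLike_mul_comm hx hy)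
    rcases hNmin M inferInstance ((Subgroup.map_le_map_iff_of_injective G.subtype_injective).mp hle) with h | h
    · exact hM h
    · exact hMN h
  · obtain ⟨a⟩ := ‹Nonempty α›
    choose φ hφ using fun m : M => hNt.exists_smul_eq a (m⁻¹ • a)
    have huniq : ∀ (n n' : N), n • a = n' • a → n = n' := fun n n' e => by
      have := hNsemi (n'⁻¹ * n) a (by rw [mul_smul, e, inv_smul_smul])
      exact (inv_mul_eq_one.mp this).symm
    have hsw : ∀ (m : M) (n : N) (x : α), n • (m • x) = m • (n • x) := fun m n x => by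
      show ((n : G) • ((m : G) • x)) = (m : G) • ((n : G) • x)
      rw [← mul_smul, ← mul_smul, hcomm m m.2 n n.2]
    let f : M →* N :=
      { toFun := φ
        map_one' := huniq _ _ (by rw [hφ, inv_one, one_smul, one_smul])
        map_mul' := fun m₁ m₂ => huniq _ _ (by
          rw [hφ, mul_inv_rev, mul_smul, mul_smul, hφ m₂, hsw, hφ m₁]) }
    refine ⟨MulEquiv.ofBijective f ⟨fun m₁ m₂ e => ?_, fun n => ?_⟩⟩
    · have e1 : m₁⁻¹ • a = m₂⁻¹ • a := by
        rw [← hφ m₁, ← hφ m₂]
        exact congrArg (· • a) e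
      have := hMsemi (m₂ * m₁⁻¹) a (by rw [mul_smul, e1, smul_inv_smul])
      exact (mul_inv_eq_one.mp this).symm
    · obtain ⟨m, hm⟩ := hMt.exists_smul_eq a (n • a)
      refine ⟨m⁻¹, huniq _ _ ?_⟩
      show φ m⁻¹ • a = n • a
      rw [hφ, inv_inv, hm]
  · by_contra h
    push Not at h
    obtain ⟨hLM, hLN⟩ := h
    have hle : L.map G.subtype ≤ N.map G.subtype := hCM ▸ CfsgLib.PermCentralizer.le_centralizer_map
      (CfsgLib.PermCentralizer.commute_of_minimal inferInstance hLn hMmin hLmin (Ne.symm hLM))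
    rcases hNmin L hLn ((Subgroup.map_le_map_iff_of_injective G.subtype_injective).mp hle) with h' | h'
    · exact hL0 h'
    · exact hLN h'

end Cfsg.Agent.S0704
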