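import Cfsg.Statements.S0705
import Mathlib


set_option autoImplicit false
open scoped Pointwise
open Cfsg
open scoped Pointwise

namespace Cfsg.Agent.S0705

/-- A generously `k`-transitive permutation group (every `(k+1)`-subset has its full symmetric group induced by the setwise stabiliser) of degree greater than `k` is `k`-transitive, and for a `k`-subset the setwise and pointwise stabilisers have the same orbits outside it. -/
theorem result {α : Type*} [Fintype α] [DecidableEq α] (G : Subgroup (Equiv.Perm α)) {k : ℕ} (hk : k < Fintype.card α) (hgen : ∀ s : Finset α, s.card = k + 1 → ∀ σ : Equiv.Perm ↥s, ∃ g ∈ G, ∀ x : ↥s, g (x : α) = σ x) : MulAction.IsMultiplyPretransitive G α k ∧ ∀ s : Finset α, s.card = k → ∀ a b : α, a ∉ s → b ∉ s → (∃ g ∈ G, g • s = s ∧ g a = b) → ∃ g ∈ G, (∀ x ∈ s, g x = x) ∧ g a = b := by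
  have hswap : ∀ (T : Finset α), T.card = k + 1 → ∀ x ∈ T, ∀ y ∈ T, ∃ g : G, ∀ z ∈ T, g • z = Equiv.swap x y z := by
    intro T hT x hx y hy
    obtain ⟨g, hg, hgz⟩ := hgen T hT (Equiv.swap ⟨x, hx⟩ ⟨y, hy⟩)
    refine ⟨⟨g, hg⟩, fun z hz => ?_⟩
    show g z = _
    rw [hgz ⟨z, hz⟩, Function.Injective.map_swap Subtype.val_injective]
  refine ⟨⟨fun f f' => ?_⟩, ?_⟩
  · suffices h : ∀ (d : ℕ) (f : Fin k ↪ α), (Finset.univ.filter fun i => f i ≠ f' i).card ≤ d → ∃ g : G, g • f = f' from
      h _ f le_rfl
    intro d
    induction d with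
    | zero =>
      intro f h
      refine ⟨1, DFunLike.ext _ _ fun i => ?_⟩
      show (1 : G) • f i = _
      rw [one_smul]
      by_contra hne
      have : i ∈ Finset.univ.filter fun i => f i ≠ f' i := Finset.mem_filter.2 ⟨Finset.mem_univ _, hne⟩
      rw [Finset.card_eq_zero.1 (Nat.le_zero.1 h)] at this
      exact Finset.notMem_empty _ this
    | succ d ih =>
      intro f h
      by_cases hall : ∀ i, f i = f' i
      · exact ⟨1, DFunLike.ext _ _ fun i => by show (1 : G) • f i = _; rw [one_smul, hall]⟩
      push Not at hall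
      obtain ⟨i, hi⟩ := hall
      obtain ⟨T, hsub, hTc⟩ : ∃ T : Finset α, Finset.univ.image f ∪ {f' i} ⊆ T ∧ T.card = k + 1 := by
        obtain ⟨T, h1, -, h2⟩ := Finset.exists_subsuperset_card_eq (Finset.subset_univ (Finset.univ.image f ∪ {f' i}))
          (n := k + 1) (by
            refine (Finset.card_union_le _ _).trans ?_
            rw [Finset.card_image_of_injective _ f.injective, Finset.card_univ, Fintype.card_fin, Finset.card_singleton])
          (by rw [Finset.card_univ]; omega)
        exact ⟨T, h1, h2⟩
      have hmem : ∀ j, f j ∈ T := fun j => hsub (Finset.mem_union_left _ (Finset.mem_image_of_mem _ (Finset.mem_univ j)))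
      obtain ⟨g, hg⟩ := hswap T hTc (f i) (hmem i) (f' i) (hsub (Finset.mem_union_right _ (Finset.mem_singleton_self _)))
      obtain ⟨g', hg'⟩ := ih (g • f) (by
        have hss : (Finset.univ.filter fun j => (g • f) j ≠ f' j) ⊆
            (Finset.univ.filter fun j => f j ≠ f' j).erase i := by
          intro j hj
          have hj' : g • f j ≠ f' j := (Finset.mem_filter.1 hj).2
          rw [hg _ (hmem j)] at hj'
          refine Finset.mem_erase.2 ⟨fun e => hj' (by rw [e, Equiv.swap_apply_left]), Finset.mem_filter.2 ⟨Finset.mem_univ _, fun e => ?_⟩⟩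
          refine hj' ?_
          rw [Equiv.swap_apply_of_ne_of_ne, e]
          · intro e'
            exact hi (f.injective e' ▸ e)
          · intro e'
            have hji : j = i := f'.injective (e.symm.trans e')
            exact hi (hji ▸ e)
        have := Finset.card_le_card hss
        have hi' : i ∈ Finset.univ.filter fun j => f j ≠ f' j := Finset.mem_filter.2 ⟨Finset.mem_univ _, hi⟩
        rw [Finset.card_erase_of_mem hi'] at this
        omega)
      exact ⟨g' * g, DFunLike.ext _ _ fun i => by
        show (g' * g : G) • f i = _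
        rw [mul_smul]
        exact DFunLike.congr_fun hg' i⟩
  · rintro s hs a b ha hb ⟨g, hg, hgs, hga⟩
    have hb' : ∀ x ∈ s, g x ∈ s := fun x hx => by
      have := Finset.smul_mem_smul_finset (a := g) hx
      rwa [hgs] at this
    have hcard : (insert b s).card = k + 1 := by rw [Finset.card_insert_of_notMem hb, hs]
    let φ : ↥(insert b s) → ↥(insert b s) := fun z => if hz : (z : α) ∈ s then ⟨g z, Finset.mem_insert_of_mem (hb' z hz)⟩ else z
    have hφ : Function.Bijective φ := by
      refine Finite.injective_iff_bijective.1 fun u v e => ?_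
      have e' : (φ u : α) = φ v := congrArg Subtype.val e
      simp only [φ] at e'
      split at e' <;> split at e'
      · exact Subtype.ext (g.injective e')
      · next hu hv => exact absurd (e' ▸ hb' _ hu) hv
      · next hu hv => exact absurd (e'.symm ▸ hb' _ hv) hu
      · exact Subtype.ext e'
    obtain ⟨h, hh, hz⟩ := hgen (insert b s) hcard (Equiv.ofBijective φ hφ).symm
    refine ⟨h * g, G.mul_mem hh hg, fun x hx => ?_, ?_⟩
    · have := hz ⟨g x, Finset.mem_insert_of_mem (hb' x hx)⟩
      show h (g x) = x
      rw [this]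
      have e : φ ⟨x, Finset.mem_insert_of_mem hx⟩ = ⟨g x, Finset.mem_insert_of_mem (hb' x hx)⟩ := by simp [φ, hx]
      rw [← e, ← Equiv.ofBijective_apply φ hφ, Equiv.symm_apply_apply]
    · show h (g a) = b
      rw [hga, hz ⟨b, Finset.mem_insert_self b s⟩]
      have e : φ ⟨b, Finset.mem_insert_self b s⟩ = ⟨b, Finset.mem_insert_self b s⟩ := by simp [φ, hb]
      conv_lhs => rw [← e, ← Equiv.ofBijective_apply φ hφ, Equiv.symm_apply_apply]

end Cfsg.Agent.S0705
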