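import Cfsg.Statements.S0706
import Mathlib
-- import your own Cfsg.Agent.* helpers here

set_option autoImplicit false
open Cfsg

namespace Cfsg.Agent.S0706

variable {α : Type*} [Fintype α] [DecidableEq α] {G : Subgroup (Equiv.Perm α)} {k : ℕ}

/-- A generously `k`-transitive group extends any permutation of a `(k+1)`-set. -/
theorem extend (hgen : ∀ s : Finset α, s.card = k + 1 → ∀ σ : Equiv.Perm ↥s, ∃ g ∈ G, ∀ x : ↥s, g (x : α) = σ x)
    (s : Finset α) (hs : s.card = k + 1) (τ : Equiv.Perm α) (hτ : ∀ x, τ x ∈ s ↔ x ∈ s) :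
    ∃ g ∈ G, ∀ x ∈ s, g x = τ x := by
  obtain ⟨g, hg, h⟩ := hgen s hs (τ.subtypePerm hτ)
  exact ⟨g, hg, fun x hx => h ⟨x, hx⟩⟩

theorem set_transitive (hgen : ∀ s : Finset α, s.card = k + 1 → ∀ σ : Equiv.Perm ↥s, ∃ g ∈ G, ∀ x : ↥s, g (x : α) = σ x) :
    ∀ (d : ℕ) (A B : Finset α), A.card = k → B.card = k → (A \ B).card = d → ∃ g ∈ G, A.image g = B := by
  intro d
  induction d with
  | zero =>
    intro A B hA hB hd
    refine ⟨1, one_mem _, ?_⟩
    rw [show A.image ⇑(1 : Equiv.Perm α) = A from Finset.image_id]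
    exact Finset.eq_of_subset_of_card_le (Finset.sdiff_eq_empty_iff_subset.1 (Finset.card_eq_zero.1 hd)) (by omega)
  | succ d ih =>
    intro A B hA hB hd
    obtain ⟨a, ha⟩ : (A \ B).Nonempty := Finset.card_pos.1 (by omega)
    obtain ⟨b, hb⟩ : (B \ A).Nonempty := by
      refine Finset.card_pos.1 ?_
      have h1 := Finset.card_sdiff_add_card_inter A B
      have h2 := Finset.card_sdiff_add_card_inter B A
      rw [Finset.inter_comm] at h2
      omega
    rw [Finset.mem_sdiff] at ha hb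
    obtain ⟨g, hg, hg'⟩ := extend hgen (insert b A) (by rw [Finset.card_insert_of_notMem hb.2, hA])
      (Equiv.swap a b) (fun x => by
        rcases eq_or_ne x a with rfl | hxa
        · simp [ha.1]
        rcases eq_or_ne x b with rfl | hxb
        · simp [ha.1]
        · rw [Equiv.swap_apply_of_ne_of_ne hxa hxb])
    have hA' : A.image g = insert b (A.erase a) := by
      refine Finset.eq_of_subset_of_card_le (fun y hy => ?_) ?_
      · obtain ⟨x, hx, rfl⟩ := Finset.mem_image.1 hy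
        rw [hg' x (Finset.mem_insert_of_mem hx)]
        rcases eq_or_ne x a with rfl | hxa
        · simp
        · rw [Equiv.swap_apply_of_ne_of_ne hxa (show x ≠ b from fun h => hb.2 (by rw [← h]; exact hx))]
          simp [hxa, hx]
      · rw [Finset.card_image_of_injective _ g.injective, Finset.card_insert_of_notMem (by simp [hb.2]),
          Finset.card_erase_of_mem ha.1]
        have := Finset.card_pos.2 ⟨a, ha.1⟩
        omega
    obtain ⟨g', hg₁, hg₂⟩ := ih (A.image g) B (by rw [Finset.card_image_of_injective _ g.injective, hA]) hB (by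
      rw [hA', Finset.insert_sdiff_of_mem _ hb.1, Finset.erase_sdiff_comm, Finset.card_erase_of_mem
        (Finset.mem_sdiff.2 ha)]
      omega)
    refine ⟨g' * g, mul_mem hg₁ hg, ?_⟩
    rw [← hg₂, Finset.image_image]
    rfl

end Cfsg.Agent.S0706

namespace Cfsg.Agent.S0706

/-- In a generously `k`-transitive permutation group, for a prime `p ≤ k` and a `k`-set `Γ`, there are no `p` points outside `Γ` lying in distinct orbits of the pointwise stabiliser of `Γ` all of length prime to `p` (at most `p - 1` such orbits). -/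
theorem result {α : Type*} [Fintype α] [DecidableEq α] (G : Subgroup (Equiv.Perm α)) {k : ℕ} (hk : k < Fintype.card α) (hgen : ∀ s : Finset α, s.card = k + 1 → ∀ σ : Equiv.Perm ↥s, ∃ g ∈ G, ∀ x : ↥s, g (x : α) = σ x) {p : ℕ} (hp : p.Prime) (hpk : p ≤ k) (Γ : Finset α) (hΓ : Γ.card = k) (f : Fin p → α) (hf : ∀ i, f i ∉ Γ) (hdist : ∀ i j, i ≠ j → f j ∉ MulAction.orbit (fixingSubgroup G (Γ : Set α)) (f i)) : ∃ i, p ∣ Nat.card (MulAction.orbit (fixingSubgroup G (Γ : Set α)) (f i)) := by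
  classical
  by_contra hcon
  push Not at hcon
  haveI : Fact p.Prime := ⟨hp⟩
  let K : Finset α → Subgroup G := fun s => fixingSubgroup G (s : Set α)
  have hmK : ∀ (s : Finset α) (g : G), g ∈ K s ↔ ∀ x ∈ s, (g : Equiv.Perm α) x = x := fun s g =>
    mem_fixingSubgroup_iff G
  obtain ⟨P₀⟩ := Sylow.nonempty (p := p) (G := K Γ)
  let P : Subgroup G := (P₀ : Subgroup (K Γ)).map (K Γ).subtype
  have hPK : P ≤ K Γ := Subgroup.map_subtype_le _
  have hPp : IsPGroup p P := P₀.isPGroup'.map _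
  -- the setwise stabilizer
  let W : Subgroup G :=
    { carrier := {g : G | ∀ x, (g : Equiv.Perm α) x ∈ Γ ↔ x ∈ Γ}
      one_mem' := fun x => Iff.rfl
      mul_mem' := fun {a b} ha hb x => (ha ((b : Equiv.Perm α) x)).trans (hb x)
      inv_mem' := fun {a} ha x => by
        rw [← ha ((a⁻¹ : G).1 x)]
        simp }
  have hnorm : ∀ w ∈ W, ∀ g ∈ K Γ, w * g * w⁻¹ ∈ K Γ := fun w hw g hg => (hmK _ _).2 fun x hx => by
    have h1 : (w : Equiv.Perm α).symm x ∈ Γ := (hw _).1 (by rwa [Equiv.apply_symm_apply])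
    show (w : Equiv.Perm α) ((g : Equiv.Perm α) ((w : Equiv.Perm α).symm x)) = x
    rw [(hmK _ _).1 hg _ h1, Equiv.apply_symm_apply]
  have hWinv : ∀ w ∈ W, ∀ g ∈ K Γ, w⁻¹ * g * w ∈ K Γ := fun w hw g hg => by
    simpa using hnorm w⁻¹ (W.inv_mem hw) g hg
  -- each orbit is invariant under the setwise stabilizer
  have horb : ∀ x, x ∉ Γ → ∀ w ∈ W, (w : Equiv.Perm α) x ∈ MulAction.orbit (K Γ) x := by
    intro x hx w hw
    let τ : Equiv.Perm α := Equiv.Perm.ofSubtype ((w : Equiv.Perm α).subtypePerm (p := fun y => y ∈ Γ) hw)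
    have hτΓ : ∀ y ∈ Γ, τ y = (w : Equiv.Perm α) y := fun y hy => by
      rw [Equiv.Perm.ofSubtype_apply_of_mem _ hy]; rfl
    have hτo : ∀ y, y ∉ Γ → τ y = y := fun y hy => Equiv.Perm.ofSubtype_apply_of_not_mem _ hy
    obtain ⟨g, hg, hg'⟩ := extend hgen (insert x Γ) (by rw [Finset.card_insert_of_notMem hx, hΓ]) τ (fun y => by
      by_cases hy : y ∈ Γ
      · rw [hτΓ y hy]; simp [hy, (hw y).2 hy]
      · rw [hτo y hy])
    have hmem : w * (⟨g, hg⟩ : G)⁻¹ ∈ K Γ := by
      refine (hmK _ _).2 fun y hy => ?_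
      have h1 : (w : Equiv.Perm α).symm y ∈ Γ := (hw _).1 (by rwa [Equiv.apply_symm_apply])
      have h2 : g ((w : Equiv.Perm α).symm y) = y := by
        rw [hg' _ (Finset.mem_insert_of_mem h1), hτΓ _ h1, Equiv.apply_symm_apply]
      show (w : Equiv.Perm α) (g.symm y) = y
      conv_lhs => rw [← h2, Equiv.symm_apply_apply]
      rw [Equiv.apply_symm_apply]
    refine ⟨⟨_, hmem⟩, ?_⟩
    show (w : Equiv.Perm α) (g.symm x) = (w : Equiv.Perm α) x
    congr 1
    rw [Equiv.symm_apply_eq, hg' _ (Finset.mem_insert_self _ _), hτo x hx]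
  -- a permutation of order p of Γ
  obtain ⟨Δ₀, hΔ₀, hΔ₀c⟩ := Finset.exists_subset_card_eq (s := Γ) (n := p) (by omega)
  let c : Equiv.Perm α := Equiv.Perm.ofSubtype (p := fun y => y ∈ Δ₀)
    (Equiv.permCongr (Fintype.equivOfCardEq (by rw [ZMod.card, Fintype.card_coe, hΔ₀c]) : ZMod p ≃ Δ₀) (Equiv.addRight 1))
  have hcfix : ∀ y, y ∉ Δ₀ → c y = y := fun y hy => Equiv.Perm.ofSubtype_apply_of_not_mem _ hy
  have hcΓ : ∀ y, c y ∈ Γ ↔ y ∈ Γ := fun y => by
    by_cases hy : y ∈ Δ₀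
    · have h1 : c y ∈ Δ₀ := by
        show Equiv.Perm.ofSubtype _ y ∈ Δ₀
        rw [Equiv.Perm.ofSubtype_apply_of_mem _ hy]
        exact Subtype.coe_prop _
      simp [hΔ₀ hy, hΔ₀ h1]
    · rw [hcfix y hy]
  have hc1 : c ≠ 1 := by
    intro h
    let e : ZMod p ≃ Δ₀ := Fintype.equivOfCardEq (by rw [ZMod.card, Fintype.card_coe, hΔ₀c])
    have h2 := Equiv.ext_iff.1 h (e 0 : α)
    simp only [c, Equiv.Perm.ofSubtype_apply_of_mem _ (e 0).2] at h2
    have h3 : Equiv.permCongr e (Equiv.addRight 1) (e 0) = e 0 := Subtype.ext h2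
    simp only [Equiv.permCongr_apply, Equiv.symm_apply_apply, EmbeddingLike.apply_eq_iff_eq] at h3
    simp at h3
  have hcp : c ^ p = 1 := by
    show Equiv.Perm.ofSubtype _ ^ p = 1
    rw [← map_pow, ← map_one (Equiv.Perm.ofSubtype (p := fun y => y ∈ Δ₀))]
    congr 1
    let e : ZMod p ≃ Δ₀ := Fintype.equivOfCardEq (by rw [ZMod.card, Fintype.card_coe, hΔ₀c])
    show (e.permCongrHom (Equiv.addRight (1 : ZMod p))) ^ p = 1
    rw [← map_pow, Equiv.nsmul_addRight, nsmul_one, ZMod.natCast_self, Equiv.addRight_zero]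
    exact map_one _
  -- lift to an element of W
  obtain ⟨x₀, hx₀⟩ : ∃ x₀, x₀ ∉ Γ := ⟨f ⟨0, hp.pos⟩, hf _⟩
  obtain ⟨w₁, hw₁, hw₁'⟩ := extend hgen (insert x₀ Γ) (by rw [Finset.card_insert_of_notMem hx₀, hΓ]) c (fun y => by
    rcases eq_or_ne y x₀ with rfl | hy
    · rw [hcfix y (fun h => hx₀ (hΔ₀ h))]
    · simp only [Finset.mem_insert, hy, false_or, hcΓ]
      constructor
      · rintro (h | h)
        · exact absurd (c.injective (h.trans (hcfix x₀ (fun h => hx₀ (hΔ₀ h))).symm)) hy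
        · exact h
      · exact Or.inr)
  have hw₁W : (⟨w₁, hw₁⟩ : G) ∈ W := fun y => by
    show w₁ y ∈ Γ ↔ y ∈ Γ
    constructor
    · intro h
      have h1 : c.symm (w₁ y) ∈ Γ := (hcΓ _).1 (by rwa [Equiv.apply_symm_apply])
      have h2 : w₁ (c.symm (w₁ y)) = w₁ y := by
        rw [hw₁' _ (Finset.mem_insert_of_mem h1), Equiv.apply_symm_apply]
      rw [← w₁.injective h2]
      exact h1
    · intro h
      rw [hw₁' _ (Finset.mem_insert_of_mem h), hcΓ]
      exact h
  -- Frattini argument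
  let φ : MulAut (K Γ) :=
    { toFun := fun g => ⟨⟨w₁, hw₁⟩ * g * (⟨w₁, hw₁⟩ : G)⁻¹, hnorm _ hw₁W g g.2⟩
      invFun := fun g => ⟨(⟨w₁, hw₁⟩ : G)⁻¹ * g * ⟨w₁, hw₁⟩, hWinv _ hw₁W g g.2⟩
      left_inv := fun g => Subtype.ext (by simp [mul_assoc])
      right_inv := fun g => Subtype.ext (by simp [mul_assoc])
      map_mul' := fun a b => Subtype.ext (by simp [mul_assoc]) }
  obtain ⟨u, hu⟩ := MulAction.exists_smul_eq (K Γ) (φ • P₀) P₀
  let w₂ : G := (u : G) * ⟨w₁, hw₁⟩
  have hw₂W : w₂ ∈ W := W.mul_mem (fun y => by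
    constructor
    · intro hy
      rwa [((u : G) : Equiv.Perm α).injective ((hmK Γ _).1 u.2 _ hy)] at hy
    · intro hy
      rw [(hmK Γ _).1 u.2 _ hy]
      exact hy) hw₁W
  have hw₂c : ∀ y ∈ Γ, (w₂ : Equiv.Perm α) y = c y := fun y hy => by
    show ((u : G) : Equiv.Perm α) (w₁ y) = c y
    rw [hw₁' _ (Finset.mem_insert_of_mem hy), (hmK Γ _).1 u.2 _ ((hcΓ y).2 hy)]
  have hw₂P : ∀ g ∈ P, w₂ * g * w₂⁻¹ ∈ P := by
    rintro _ ⟨g, hg, rfl⟩
    have h1 : MulAut.conj u (φ g) ∈ (P₀ : Subgroup (K Γ)) := by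
      have : MulAut.conj u (φ g) ∈ ((u • φ • P₀ : Sylow p (K Γ)) : Subgroup (K Γ)) :=
        ⟨φ g, ⟨g, hg, rfl⟩, rfl⟩
      rwa [hu] at this
    refine ⟨_, h1, ?_⟩
    show (u : G) * ((⟨w₁, hw₁⟩ : G) * (g : G) * (⟨w₁, hw₁⟩ : G)⁻¹) * (u : G)⁻¹ =
      ((u : G) * ⟨w₁, hw₁⟩) * (g : G) * ((u : G) * ⟨w₁, hw₁⟩)⁻¹
    group
  -- the p-part
  obtain ⟨a, m, hm, hord⟩ := Nat.exists_eq_pow_mul_and_not_dvd (orderOf_pos w₂).ne' p hp.ne_one
  let h : G := w₂ ^ m
  have hh : h ^ p ^ a = 1 := by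
    show (w₂ ^ m) ^ p ^ a = 1
    rw [← pow_mul, mul_comm, ← hord, pow_orderOf_eq_one]
  have hhW : h ∈ W := W.pow_mem hw₂W m
  have hpow : ∀ (j : ℕ), ∀ y ∈ Γ, ((w₂ ^ j : G) : Equiv.Perm α) y = (c ^ j) y := by
    intro j
    induction j with
    | zero => intro y _; rfl
    | succ j ihj =>
      intro y hy
      rw [pow_succ', pow_succ', Subgroup.coe_mul, Equiv.Perm.mul_apply, Equiv.Perm.mul_apply, ihj y hy, hw₂c]
      have : ∀ (j : ℕ) y, y ∈ Γ → (c ^ j) y ∈ Γ := by
        intro j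
        induction j with
        | zero => exact fun y hy => hy
        | succ j ihj => intro y hy; rw [pow_succ', Equiv.Perm.mul_apply, hcΓ]; exact ihj y hy
      exact this j y hy
  let N : Subgroup G := Subgroup.normalizer (P : Set G)
  have hw₂N : w₂ ∈ N := by
    rw [Subgroup.mem_normalizer_iff_map_conj_eq]
    refine Subgroup.eq_of_le_of_card_ge ?_ (Subgroup.card_map_of_injective (f := (MulAut.conj w₂).toMonoidHom) (MulAut.conj w₂).injective).ge
    rintro _ ⟨g, hg, rfl⟩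
    exact hw₂P g hg
  have hhN : h ∈ N := N.pow_mem hw₂N m
  let Q : Subgroup G := P ⊔ Subgroup.zpowers h
  have hQp : IsPGroup p Q := hPp.to_sup_of_normal_left' (fun x => ⟨a, by
      obtain ⟨z, hz⟩ := x.2
      apply Subtype.ext
      rw [SubmonoidClass.coe_pow, ← hz, ← zpow_natCast, ← zpow_mul, mul_comm, zpow_mul, zpow_natCast, hh, one_zpow]
      rfl⟩) (Subgroup.zpowers_le.2 hhN)
  -- a common fixed point in each orbit
  have hfix : ∀ i, ∃ y ∈ MulAction.orbit (K Γ) (f i), ∀ g ∈ Q, (g : Equiv.Perm α) y = y := by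
    intro i
    have hQW : Q ≤ W := sup_le (hPK.trans fun g hg y => by
        constructor
        · intro hy
          rwa [(g : Equiv.Perm α).injective ((hmK Γ g).1 hg _ hy)] at hy
        · intro hy
          rw [(hmK Γ g).1 hg _ hy]
          exact hy) (Subgroup.zpowers_le.2 hhW)
    have hinv : ∀ (g : Q) (y : MulAction.orbit (K Γ) (f i)),
        ((g : G) : Equiv.Perm α) y ∈ MulAction.orbit (K Γ) (f i) := by
      intro g y
      obtain ⟨⟨v, hv⟩, hvy⟩ := y.2
      obtain ⟨z, hz⟩ := horb (f i) (hf i) _ (W.mul_mem (hQW g.2) (fun y => by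
        constructor
        · intro hy
          rwa [(v : Equiv.Perm α).injective ((hmK Γ v).1 hv _ hy)] at hy
        · intro hy
          rw [(hmK Γ v).1 hv _ hy]
          exact hy))
      refine ⟨z, hz.trans ?_⟩
      rw [← hvy]
      rfl
    letI : MulAction Q (MulAction.orbit (K Γ) (f i)) :=
      { smul := fun g y => ⟨((g : G) : Equiv.Perm α) y, hinv g y⟩
        one_smul := fun y => Subtype.ext rfl
        mul_smul := fun g g' y => Subtype.ext rfl }
    obtain ⟨y, hy⟩ := hQp.nonempty_fixed_point_of_prime_not_dvd_card (MulAction.orbit (K Γ) (f i)) (hcon i)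
    exact ⟨y, y.2, fun g hg => congrArg Subtype.val (hy ⟨g, hg⟩)⟩
  choose y hy hyQ using hfix
  have hyinj : Function.Injective y := by
    intro i j hij
    by_contra hne
    refine hdist i j hne ?_
    rw [← MulAction.orbit_eq_iff]
    rw [← MulAction.orbit_eq_iff.2 (hy i), ← MulAction.orbit_eq_iff.2 (hy j), hij]
  have hyΓ : ∀ i, y i ∉ Γ := fun i hi => by
    obtain ⟨⟨v, hv⟩, hvy⟩ := hy i
    have h1 : (v : Equiv.Perm α) (f i) = y i := hvy
    refine hf i ?_
    rwa [(v : Equiv.Perm α).injective (h1.trans ((hmK Γ v).1 hv _ hi).symm)]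
  let Δ : Finset α := (Γ \ Δ₀) ∪ Finset.univ.image y
  have hΔ : Δ.card = k := by
    rw [Finset.card_union_of_disjoint, Finset.card_sdiff_of_subset hΔ₀, Finset.card_image_of_injective _ hyinj,
      Finset.card_univ, Fintype.card_fin, hΓ, hΔ₀c]
    · omega
    · rw [Finset.disjoint_right]
      rintro x hx hx'
      obtain ⟨i, -, rfl⟩ := Finset.mem_image.1 hx
      exact hyΓ i (Finset.mem_sdiff.1 hx').1
  have hQΔ : Q ≤ K Δ := by
    intro g hg
    rw [hmK]
    intro x hx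
    rcases Finset.mem_union.1 hx with hx | hx
    · rw [Finset.mem_sdiff] at hx
      have hle : Q ≤ fixingSubgroup G ({x} : Set α) := sup_le
        (fun g hg => (mem_fixingSubgroup_iff G).2 fun z hz => by
          rw [Set.mem_singleton_iff.1 hz]; exact (hmK Γ g).1 (hPK hg) x hx.1)
        (Subgroup.zpowers_le.2 ((mem_fixingSubgroup_iff G).2 fun z hz => by
          rw [Set.mem_singleton_iff.1 hz]
          show ((w₂ ^ m : G) : Equiv.Perm α) x = x
          rw [hpow m x hx.1]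
          exact Equiv.Perm.pow_apply_eq_self_of_apply_eq_self (hcfix x hx.2) m))
      exact (mem_fixingSubgroup_iff G).1 (hle hg) x rfl
    · obtain ⟨i, -, rfl⟩ := Finset.mem_image.1 hx
      exact hyQ i g hg
  obtain ⟨g₀, hg₀, hg₀'⟩ := set_transitive hgen _ Δ Γ hΔ hΓ rfl
  have hQconj : Q.map (MulAut.conj (⟨g₀, hg₀⟩ : G)).toMonoidHom ≤ K Γ := by
    rintro _ ⟨g, hg, rfl⟩
    refine (hmK _ _).2 fun x hx => ?_
    rw [← hg₀', Finset.mem_image] at hx
    obtain ⟨z, hz, rfl⟩ := hx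
    show g₀ ((g : Equiv.Perm α) (g₀.symm (g₀ z))) = g₀ z
    rw [Equiv.symm_apply_apply, (hmK Δ g).1 (hQΔ hg) z hz]
  obtain ⟨R, hR⟩ := (((hQp.map (MulAut.conj (⟨g₀, hg₀⟩ : G)).toMonoidHom).comap_of_injective (K Γ).subtype
    (K Γ).subtype_injective) : IsPGroup p ((Q.map (MulAut.conj (⟨g₀, hg₀⟩ : G)).toMonoidHom).subgroupOf (K Γ))).exists_le_sylow
  have hcard : Nat.card Q ≤ Nat.card P := by
    rw [← Subgroup.card_map_of_injective (K := Q) (f := (MulAut.conj (⟨g₀, hg₀⟩ : G)).toMonoidHom) (MulAut.conj (⟨g₀, hg₀⟩ : G)).injective,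
      ← Nat.card_congr (Subgroup.subgroupOfEquivOfLe hQconj).toEquiv,
      Subgroup.card_map_of_injective (K Γ).subtype_injective, P₀.card_eq_multiplicity, ← R.card_eq_multiplicity]
    exact Subgroup.card_le_of_le hR
  have hQP : P = Q := Subgroup.eq_of_le_of_card_ge le_sup_left hcard
  have hhP : h ∈ K Γ := hPK (hQP ▸ Subgroup.mem_sup_right (Subgroup.mem_zpowers h))
  have hcm : c ^ m = 1 := Equiv.ext fun x => by
    by_cases hx : x ∈ Γ
    · rw [← hpow m x hx]
      exact (hmK Γ _).1 hhP x hx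
    · exact Equiv.Perm.pow_apply_eq_self_of_apply_eq_self (hcfix x fun h => hx (hΔ₀ h)) m
  apply hc1
  rw [← orderOf_eq_one_iff]
  have h1 := orderOf_dvd_of_pow_eq_one hcm
  have h2 := orderOf_dvd_of_pow_eq_one hcp
  rcases (Nat.dvd_prime hp).1 h2 with h3 | h3
  · exact h3
  · exact absurd (h3 ▸ h1) hm

end Cfsg.Agent.S0706
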