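import Cfsg.Statements.S0707
import Mathlib


set_option autoImplicit false
open Cfsg

namespace Cfsg.Agent.S0707

/-- In a primitive permutation group, distinct points have distinct stabilisers unless the group is regular of prime degree. -/
theorem result {α : Type*} (G : Subgroup (Equiv.Perm α)) [MulAction.IsPreprimitive G α] (h : ¬ (Nat.card α).Prime ∨ ∃ a : α, MulAction.stabilizer G a ≠ ⊥) {a b : α} (hab : a ≠ b) : MulAction.stabilizer G a ≠ MulAction.stabilizer G b := by
  intro heq
  haveI : Nontrivial α := nontrivial_of_ne a b hab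
  let B : Set α := {x | MulAction.stabilizer G x = MulAction.stabilizer G a}
  have hB : MulAction.IsBlock G B := by
    rw [MulAction.isBlock_iff_smul_eq_of_nonempty]
    intro g hne
    obtain ⟨x, ⟨y, hy, hyx⟩, hx⟩ := hne
    have hxy : g • y = x := hyx
    have hgs : (MulAction.stabilizer G a).map (MulAut.conj g).toMonoidHom = MulAction.stabilizer G a := by
      have h1 := MulAction.stabilizer_smul_eq_stabilizer_map_conj g y
      rw [hxy, show MulAction.stabilizer G x = _ from hx, show MulAction.stabilizer G y = _ from hy] at h1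
      exact h1.symm
    ext z
    constructor
    · rintro ⟨w, hw, rfl⟩
      show MulAction.stabilizer G (g • w) = _
      rw [MulAction.stabilizer_smul_eq_stabilizer_map_conj, show MulAction.stabilizer G w = _ from hw, hgs]
    · intro hz
      refine ⟨g⁻¹ • z, ?_, smul_inv_smul g z⟩
      show MulAction.stabilizer G (g⁻¹ • z) = _
      have h1 := MulAction.stabilizer_smul_eq_stabilizer_map_conj g (g⁻¹ • z)
      rw [smul_inv_smul, show MulAction.stabilizer G z = _ from hz] at h1
      conv_rhs at h1 => skip
      exact Subgroup.map_injective (MulAut.conj g).injective (h1.symm.trans hgs.symm)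
  have huniv : B = Set.univ := by
    rcases MulAction.IsPreprimitive.isTrivialBlock_of_isBlock hB with h' | h'
    · exact absurd (h' (show a ∈ B from rfl) (show b ∈ B from heq.symm)) hab
    · exact h'
  have hbot : ∀ x : α, MulAction.stabilizer G x = ⊥ := by
    intro x
    rw [eq_bot_iff]
    intro g hg
    rw [Subgroup.mem_bot]
    refine Subtype.ext (Equiv.ext fun y => ?_)
    have hy : MulAction.stabilizer G y = MulAction.stabilizer G x :=
      (huniv ▸ Set.mem_univ y : y ∈ B).trans (huniv ▸ Set.mem_univ x : x ∈ B).symm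
    exact hy.ge hg
  rcases h with h | ⟨c, hc⟩
  swap
  · exact hc (hbot c)
  refine h ?_
  have hco := MulAction.IsPreprimitive.isCoatom_stabilizer_of_isPreprimitive (G := G) a
  rw [hbot a] at hco
  have htriv : ∀ K : Subgroup G, K = ⊥ ∨ K = ⊤ := fun K => by
    by_cases hK : K = ⊥
    · exact Or.inl hK
    · exact Or.inr (hco.2 K (bot_lt_iff_ne_bot.2 hK))
  haveI : Nontrivial G := by
    by_contra hn
    rw [not_nontrivial_iff_subsingleton] at hn
    exact hco.1 (Subsingleton.elim _ _)
  obtain ⟨g, hg⟩ := exists_ne (1 : G)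
  have hgtop : Subgroup.zpowers g = ⊤ := (htriv _).resolve_left fun e => hg (Subgroup.zpowers_eq_bot.1 e)
  have hfin : IsOfFinOrder g := by
    rcases htriv (Subgroup.zpowers (g ^ 2)) with e | e
    · exact isOfFinOrder_iff_pow_eq_one.2 ⟨2, two_pos, Subgroup.zpowers_eq_bot.1 e⟩
    · obtain ⟨k, hk⟩ := (e ▸ Subgroup.mem_top g : g ∈ Subgroup.zpowers (g ^ 2))
      by_contra hinf
      have : g ^ (2 * k) = g ^ (1 : ℤ) := by
        rw [zpow_one, zpow_mul]
        exact_mod_cast hk
      have := injective_zpow_iff_not_isOfFinOrder.2 hinf this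
      omega
  haveI : Finite (Subgroup.zpowers g) := hfin.finite_zpowers
  haveI : Finite G := Finite.of_surjective (fun x : Subgroup.zpowers g => (x : G))
    fun x => ⟨⟨x, hgtop ▸ Subgroup.mem_top x⟩, rfl⟩
  have hcardG : Nat.card α = Nat.card G := by
    rw [← MulAction.index_stabilizer_of_transitive G a, hbot a, Subgroup.index_bot]
  rw [hcardG, ← orderOf_eq_card_of_forall_mem_zpowers (g := g) fun x => hgtop ▸ Subgroup.mem_top x]
  refine Nat.prime_def.2 ⟨?_, fun m hm => ?_⟩
  · exact Nat.lt_of_le_of_ne hfin.orderOf_pos (fun e => hg (orderOf_eq_one_iff.1 e.symm))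
  · rcases htriv (Subgroup.zpowers (g ^ m)) with e | e
    · right
      exact Nat.dvd_antisymm hm (orderOf_dvd_of_pow_eq_one (Subgroup.zpowers_eq_bot.1 e))
    · left
      have h1 := congrArg (fun K : Subgroup G => Nat.card K) e
      simp only [Nat.card_zpowers, Subgroup.card_top] at h1
      rw [← orderOf_eq_card_of_forall_mem_zpowers (g := g) fun x => hgtop ▸ Subgroup.mem_top x,
        orderOf_pow, Nat.gcd_eq_right hm] at h1
      have hpos := hfin.orderOf_pos
      have h2 := Nat.div_mul_cancel hm
      rw [h1] at h2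
      exact Nat.eq_of_mul_eq_mul_left hpos (h2.trans (mul_one _).symm)

end Cfsg.Agent.S0707
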