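import Cfsg.Statements.S0710
import Mathlib

set_option autoImplicit false
open Cfsg

namespace Cfsg.Agent.S0710

/-- No transitive permutation group on 13 points has order `13 * 12 * 11 * 10 * 9 * 8`. -/
theorem result {α : Type*} [Fintype α] [DecidableEq α] (hα : Fintype.card α = 13) (G : Subgroup (Equiv.Perm α)) [MulAction.IsPretransitive G α] : Nat.card G ≠ 13 * 12 * 11 * 10 * 9 * 8 := by
  classical
  intro hcard
  haveI : Fact (Nat.Prime 13) := ⟨by norm_num⟩
  obtain ⟨P⟩ : Nonempty (Sylow 13 G) := inferInstance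
  have hP : Nat.card (P : Subgroup G) = 13 := by
    have h1 : 13 ∣ Nat.card (P : Subgroup G) := P.dvd_card_of_dvd_card (by rw [hcard]; norm_num)
    obtain ⟨k, hk⟩ := IsPGroup.iff_card.1 P.isPGroup'
    have h2 := Subgroup.card_subgroup_dvd_card (P : Subgroup G)
    rw [hcard, hk] at h2
    rw [hk] at h1 ⊢
    rcases Nat.lt_or_ge k 2 with hk2 | hk2
    · interval_cases k <;> simp_all
    · exfalso
      have h3 : 13 ^ 2 ∣ 13 * 12 * 11 * 10 * 9 * 8 := (pow_dvd_pow 13 hk2).trans h2
      norm_num at h3
  haveI : IsCyclic (P : Subgroup G) := isCyclic_of_prime_card hP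
  haveI : Nontrivial (P : Subgroup G) := Finite.one_lt_card_iff_nontrivial.1 (by rw [hP]; norm_num)
  obtain ⟨p0, hp0⟩ := exists_ne (1 : (P : Subgroup G))
  obtain ⟨α0, hα0⟩ : ∃ a : α, ((p0 : G) : Equiv.Perm α) a ≠ a := by
    by_contra hcon
    push Not at hcon
    exact hp0 (Subtype.ext (Subtype.ext (Equiv.ext hcon)))
  have horb : ∀ a : α, ∃ q : (P : Subgroup G), ((q : G) : Equiv.Perm α) α0 = a := by
    have h1 := MulAction.card_orbit_mul_card_stabilizer_eq_card_group (P : Subgroup G) α0
    rw [← Nat.card_eq_fintype_card, ← Nat.card_eq_fintype_card, ← Nat.card_eq_fintype_card, hP] at h1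
    have h2 : Nat.card (MulAction.orbit (P : Subgroup G) α0) = 13 := by
      rcases (Nat.dvd_prime (by norm_num)).1 (Dvd.intro _ h1) with h | h
      · exfalso
        haveI := (Nat.card_eq_one_iff_unique.1 h).1
        have : (⟨α0, MulAction.mem_orbit_self α0⟩ : MulAction.orbit (P : Subgroup G) α0) = ⟨p0 • α0, MulAction.mem_orbit α0 p0⟩ :=
          Subsingleton.elim _ _
        exact hα0 (congrArg Subtype.val this).symm
      · exact h
    intro a
    have h3 : MulAction.orbit (P : Subgroup G) α0 = Set.univ := by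
      refine Set.eq_univ_of_forall fun b => ?_
      by_contra hb
      have h4 := Set.ncard_lt_ncard (Set.ssubset_univ_iff.2 fun e => hb (e ▸ Set.mem_univ b) :
        MulAction.orbit (P : Subgroup G) α0 ⊂ Set.univ) (Set.toFinite _)
      rw [Set.ncard_univ, Nat.card_eq_fintype_card, hα, ← Nat.card_coe_set_eq, h2] at h4
      omega
    obtain ⟨q, hq⟩ : a ∈ MulAction.orbit (P : Subgroup G) α0 := h3 ▸ Set.mem_univ a
    exact ⟨q, hq⟩
  set N := Subgroup.normalizer ((P : Subgroup G) : Set G) with hN
  have htrans : Nat.card (MulAction.orbit N α0) = 13 := by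
    rw [show MulAction.orbit N α0 = Set.univ from Set.eq_univ_of_forall fun a => by
      obtain ⟨q, hq⟩ := horb a
      exact ⟨⟨q, Subgroup.le_normalizer q.2⟩, hq⟩, Nat.card_coe_set_eq, Set.ncard_univ, Nat.card_eq_fintype_card, hα]
  have h1 := MulAction.card_orbit_mul_card_stabilizer_eq_card_group N α0
  rw [← Nat.card_eq_fintype_card, ← Nat.card_eq_fintype_card, ← Nat.card_eq_fintype_card, htrans] at h1
  let φ : MulAction.stabilizer N α0 →* MulAut (P : Subgroup G) :=
    ((P : Subgroup G).normalizerMonoidHom).comp (MulAction.stabilizer N α0).subtype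
  have hφ : Function.Injective φ := by
    rw [← MonoidHom.ker_eq_bot_iff, eq_bot_iff]
    intro n hn
    rw [Subgroup.mem_bot]
    have hc : ∀ q : (P : Subgroup G), ((n : N) : G) * q = q * ((n : N) : G) := fun q => by
      have h := congrArg Subtype.val (DFunLike.congr_fun hn q)
      exact mul_inv_eq_iff_eq_mul.1 h
    have hfix : (((n : N) : G) : Equiv.Perm α) α0 = α0 := n.2
    refine Subtype.ext (Subtype.ext (Subtype.ext (Equiv.ext fun a => ?_)))
    obtain ⟨q, rfl⟩ := horb a
    have h := congrArg (fun g : G => (g : Equiv.Perm α) α0) (hc q)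
    simp only [Subgroup.coe_mul, Equiv.Perm.mul_apply, hfix] at h
    exact h
  have hs : Nat.card (MulAction.stabilizer N α0) ∣ 12 := by
    have h := Subgroup.card_dvd_of_injective φ hφ
    rwa [IsCyclic.card_mulAut, hP, show Nat.totient 13 = 12 from by decide] at h
  have hn := card_sylow_modEq_one 13 G
  have hidx : Nat.card (Sylow 13 G) * Nat.card N = Nat.card G := by
    rw [Sylow.card_eq_index_normalizer P, hN, ← Sylow.coe_coe, mul_comm]
    exact Subgroup.card_mul_index _
  rw [← h1, hcard] at hidx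
  obtain ⟨k, hk⟩ : ∃ k, Nat.card (Sylow 13 G) = 13 * k + 1 :=
    ⟨Nat.card (Sylow 13 G) / 13, by
      have := Nat.div_add_mod (Nat.card (Sylow 13 G)) 13
      have h' : Nat.card (Sylow 13 G) % 13 = 1 := by rw [hn]
      omega⟩
  rw [hk] at hidx
  have hle := Nat.le_of_dvd (by norm_num) hs
  interval_cases Nat.card (MulAction.stabilizer N α0) <;> omega


end Cfsg.Agent.S0710
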