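import Cfsg.Statements.S0712
import Mathlib

set_option autoImplicit false
open Cfsg

namespace Cfsg.Agent.S0712

/-- Jordan: a primitive group in which the pointwise stabiliser of a set `s` is doubly transitive on the complement of `s` (which has at least 2 points) is `(|s| + 2)`-transitive. -/
theorem result {α : Type*} [Fintype α] [DecidableEq α] (G : Subgroup (Equiv.Perm α)) (hG : MulAction.IsPreprimitive G α) (s : Set α) {m : ℕ} (hsm : s.ncard = m) (hm : m + 2 ≤ Fintype.card α) (h2 : MulAction.IsMultiplyPretransitive (fixingSubgroup G s) (SubMulAction.ofFixingSubgroup G s) 2) : MulAction.IsMultiplyPretransitive G α (m + 2) := by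
  classical
  have hcompl : 2 ≤ (sᶜ).ncard := by
    rw [Set.ncard_compl, hsm, Nat.card_eq_fintype_card]; omega
  obtain ⟨c, hc, d, hd, hcd⟩ := (Set.one_lt_ncard (Set.toFinite sᶜ)).mp hcompl
  have hm0 : MulAction.IsMultiplyPretransitive G α m := by
    cases m with
    | zero => exact MulAction.is_zero_pretransitive
    | succ n =>
      have hprim := MulAction.isPreprimitive_of_is_two_pretransitive h2
      haveI := hG.isMultiplyPreprimitive hsm (by rw [Nat.card_eq_fintype_card]; omega) hprim
      exact MulAction.isMultiplyPretransitive_of_le (n := n + 2) (by omega)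
        (by rw [Nat.card_eq_fintype_card]; omega)
  have e : Fin m ≃ s := (Finite.equivFinOfCardEq (by rw [Nat.card_coe_set_eq, hsm])).symm
  have key : ∀ x : Fin (m + 2) ↪ α, ∃ g : G, (∀ i : Fin m, g • x (Fin.castAdd 2 i) = (e i : α)) ∧
      g • x (Fin.natAdd m 0) = c ∧ g • x (Fin.natAdd m 1) = d := by
    intro x
    obtain ⟨g₁, hg₁⟩ := hm0.exists_smul_eq ((Fin.castAddEmb 2).trans x)
      (e.toEmbedding.trans (Function.Embedding.subtype _))
    have hg₁' : ∀ i : Fin m, g₁ • x (Fin.castAdd 2 i) = (e i : α) := fun i =>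
      congrArg (fun z : Fin m ↪ α => z i) hg₁
    have hout : ∀ j : Fin 2, g₁ • x (Fin.natAdd m j) ∉ s := by
      intro j hj
      have h1 := hg₁' (e.symm ⟨_, hj⟩)
      rw [Equiv.apply_symm_apply] at h1
      have h2 := congrArg Fin.val (x.injective (MulAction.injective g₁ h1))
      simp [Fin.natAdd, Fin.castAdd] at h2
      omega
    have hne : g₁ • x (Fin.natAdd m 0) ≠ g₁ • x (Fin.natAdd m 1) := fun h => by
      have := congrArg Fin.val (x.injective (MulAction.injective g₁ h))
      simp at this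
    have h2' : ∀ {a b c d : SubMulAction.ofFixingSubgroup G s}, a ≠ b → c ≠ d →
        ∃ g : fixingSubgroup G s, g • a = c ∧ g • b = d :=
      fun {a b c d} => MulAction.is_two_pretransitive_iff.mp h2
    obtain ⟨g₂, hp, hq⟩ := h2'
      (a := (⟨_, hout 0⟩ : SubMulAction.ofFixingSubgroup G s)) (b := ⟨_, hout 1⟩)
      (c := ⟨c, hc⟩) (d := ⟨d, hd⟩) (fun h => hne (congrArg Subtype.val h))
      (fun h => hcd (congrArg Subtype.val h))
    refine ⟨(g₂ : G) * g₁, fun i => ?_, ?_, ?_⟩
    · rw [mul_smul, hg₁' i]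
      exact (mem_fixingSubgroup_iff G).mp g₂.2 _ (e i).2
    · rw [mul_smul]; exact congrArg Subtype.val hp
    · rw [mul_smul]; exact congrArg Subtype.val hq
  refine ⟨fun x y => ?_⟩
  obtain ⟨g, hg1, hg2, hg3⟩ := key x
  obtain ⟨h, hh1, hh2, hh3⟩ := key y
  refine ⟨h⁻¹ * g, ?_⟩
  ext i
  show (h⁻¹ * g) • x i = y i
  rw [mul_smul, inv_smul_eq_iff]
  refine Fin.addCases (fun j => ?_) (fun j => ?_) i
  · rw [hg1, hh1]
  · fin_cases j
    · exact hg2.trans hh2.symm
    · exact hg3.trans hh3.symm

end Cfsg.Agent.S0712
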