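import Cfsg.Statements.S0714
import Mathlib

set_option autoImplicit false
open Cfsg

namespace Cfsg.Agent.S0714

/-- Over any field, the permutation module of the alternating group of degree at least 5 has exactly four invariant subspaces: zero, the constant functions, the functions with coordinate sum zero, and everything. -/
theorem result {α : Type*} [Fintype α] [DecidableEq α] (hα : 5 ≤ Fintype.card α) {K : Type*} [Field K] (W : Subrepresentation (Cfsg.permRep K (alternatingGroup α) α)) : W.toSubmodule = ⊥ ∨ W = Cfsg.permConstants K (alternatingGroup α) α ∨ W = Cfsg.permSumZero K (alternatingGroup α) α ∨ W.toSubmodule = ⊤ := by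
  classical
  by_cases hconst : ∀ v ∈ W.toSubmodule, ∀ a b : α, v a = v b
  · by_cases h0 : W.toSubmodule = ⊥
    · exact Or.inl h0
    refine Or.inr (Or.inl ?_)
    apply Subrepresentation.toSubmodule_injective
    refine le_antisymm ?_ ?_
    · intro v hv
      obtain ⟨a⟩ : Nonempty α := Fintype.card_pos_iff.mp (by omega)
      exact Submodule.mem_span_singleton.mpr ⟨v a, funext fun b => by simp [hconst v hv a b]⟩
    · obtain ⟨v, hv, hv0⟩ := W.toSubmodule.exists_mem_ne_zero_of_ne_bot h0
      obtain ⟨a, ha⟩ : ∃ a, v a ≠ 0 := by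
        by_contra h
        push Not at h
        exact hv0 (funext h)
      refine Submodule.span_le.mpr (Set.singleton_subset_iff.mpr ?_)
      have : (fun _ => (1 : K)) = (v a)⁻¹ • v := funext fun b => by
        rw [Pi.smul_apply, smul_eq_mul, hconst v hv b a, inv_mul_cancel₀ ha]
      rw [SetLike.mem_coe, this]
      exact W.toSubmodule.smul_mem _ hv
  push Not at hconst
  obtain ⟨f, hf, a, b, hab⟩ := hconst
  have habne : a ≠ b := fun h => hab (h ▸ rfl)
  have hWinv : ∀ σ : Equiv.Perm α, σ ∈ alternatingGroup α → ∀ v ∈ W.toSubmodule,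
      (fun x => v (σ.symm x)) ∈ W.toSubmodule := fun σ hσ v hv =>
    W.apply_mem_toSubmodule (⟨σ, hσ⟩ : alternatingGroup α) hv
  have pick : ∀ s : Finset α, s.card < Fintype.card α → ∃ x, x ∉ s := fun s hs => by
    obtain ⟨x, hx, hx'⟩ := Finset.exists_mem_notMem_of_card_lt_card (s := s) (t := Finset.univ)
      (by rwa [Finset.card_univ])
    exact ⟨x, hx'⟩
  obtain ⟨c, hc⟩ := pick {a, b} (lt_of_le_of_lt Finset.card_le_two (by omega))
  simp only [Finset.mem_insert, Finset.mem_singleton, not_or] at hc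
  obtain ⟨d, hd⟩ := pick {a, b, c} (lt_of_le_of_lt Finset.card_le_three (by omega))
  simp only [Finset.mem_insert, Finset.mem_singleton, not_or] at hd
  obtain ⟨e, he⟩ := pick {a, b, c, d} (lt_of_le_of_lt Finset.card_le_four (by omega))
  simp only [Finset.mem_insert, Finset.mem_singleton, not_or] at he
  set σ : Equiv.Perm α := Equiv.swap a b * Equiv.swap b c with hσ
  have hσmem : σ ∈ alternatingGroup α := by
    rw [Equiv.Perm.mem_alternatingGroup, hσ, map_mul, Equiv.Perm.sign_swap habne,
      Equiv.Perm.sign_swap (Ne.symm hc.2)]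
    rfl
  set g : α → K := (fun x => f (σ.symm x)) - f with hg
  have hgW : g ∈ W.toSubmodule := W.toSubmodule.sub_mem (hWinv σ hσmem f hf) hf
  set π : Equiv.Perm α := Equiv.swap b d * Equiv.swap d e with hπ
  have hπmem : π ∈ alternatingGroup α := by
    rw [Equiv.Perm.mem_alternatingGroup, hπ, map_mul, Equiv.Perm.sign_swap (Ne.symm hd.2.1),
      Equiv.Perm.sign_swap (Ne.symm he.2.2.2)]
    rfl
  have hσinv : σ.symm = Equiv.swap b c * Equiv.swap a b := by
    rw [← Equiv.Perm.inv_def, hσ, mul_inv_rev, Equiv.swap_inv, Equiv.swap_inv]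
  have hπinv : π.symm = Equiv.swap d e * Equiv.swap b d := by
    rw [← Equiv.Perm.inv_def, hπ, mul_inv_rev, Equiv.swap_inv, Equiv.swap_inv]
  have hgb : g b = f a - f b := by
    simp [hg, hσinv, Equiv.Perm.mul_apply, Equiv.swap_apply_of_ne_of_ne habne (Ne.symm hc.1)]
  have hgx : ∀ x, x ≠ a → x ≠ b → x ≠ c → g x = 0 := by
    intro x h1 h2 h3
    simp [hg, hσinv, Equiv.Perm.mul_apply, Equiv.swap_apply_of_ne_of_ne h1 h2,
      Equiv.swap_apply_of_ne_of_ne h2 h3]
  have hdiff : g - (fun x => g (π.symm x)) =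
      (f a - f b) • ((Pi.single b 1 : α → K) - Pi.single d 1) := by
    funext x
    simp only [Pi.sub_apply, Pi.smul_apply, smul_eq_mul]
    by_cases hxb : x = b
    · subst hxb
      rw [Pi.single_eq_same, Pi.single_eq_of_ne (Ne.symm hd.2.1), hgb, hπinv, Equiv.Perm.mul_apply,
        Equiv.swap_apply_left, Equiv.swap_apply_left, hgx e he.1 he.2.1 he.2.2.1]
      ring
    by_cases hxd : x = d
    · subst hxd
      rw [Pi.single_eq_same, Pi.single_eq_of_ne hxb, hgx x hd.1 hd.2.1 hd.2.2, hπinv,
        Equiv.Perm.mul_apply, Equiv.swap_apply_right,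
        Equiv.swap_apply_of_ne_of_ne (Ne.symm hxb) (Ne.symm he.2.1), hgb]
      ring
    rw [Pi.single_eq_of_ne hxb, Pi.single_eq_of_ne hxd, hπinv, Equiv.Perm.mul_apply,
      Equiv.swap_apply_of_ne_of_ne hxb hxd]
    by_cases hxe : x = e
    · subst hxe
      rw [Equiv.swap_apply_right, hgx x he.1 he.2.1 he.2.2.1, hgx d hd.1 hd.2.1 hd.2.2]
      ring
    rw [Equiv.swap_apply_of_ne_of_ne hxd hxe]
    ring
  have hbd : (Pi.single b 1 : α → K) - Pi.single d 1 ∈ W.toSubmodule := by
    have h1 := W.toSubmodule.sub_mem hgW (hWinv π hπmem g hgW)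
    rw [hdiff] at h1
    exact (W.toSubmodule.smul_mem_iff (sub_ne_zero.mpr hab)).mp h1
  have h2t : MulAction.IsMultiplyPretransitive (alternatingGroup α) α 2 := by
    have := alternatingGroup.isMultiplyPretransitive α
    exact MulAction.isMultiplyPretransitive_of_le (n := Nat.card α - 2)
      (by rw [Nat.card_eq_fintype_card]; omega) (Nat.sub_le _ _)
  have hall : ∀ x y : α, x ≠ y → (Pi.single x 1 : α → K) - Pi.single y 1 ∈ W.toSubmodule := by
    intro x y hxy
    obtain ⟨τ, h1, h2⟩ := MulAction.is_two_pretransitive_iff.mp h2t (Ne.symm hd.2.1) hxy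
    have h := hWinv τ τ.2 _ hbd
    convert h using 1
    funext z
    have h1' : (τ : Equiv.Perm α) b = x := h1
    have h2' : (τ : Equiv.Perm α) d = y := h2
    simp only [Pi.sub_apply, Pi.single_apply, Equiv.symm_apply_eq, h1', h2']
  have hsum0 : (Cfsg.permSumZero K (alternatingGroup α) α).toSubmodule ≤ W.toSubmodule := by
    intro v hv
    have hv' : ∑ x, v x = 0 := hv
    have e1 : v = ∑ x, v x • ((Pi.single x 1 : α → K) - Pi.single a 1) := by
      simp only [smul_sub, Finset.sum_sub_distrib, ← Finset.sum_smul, hv', zero_smul, sub_zero]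
      conv_lhs => rw [pi_eq_sum_univ' v]
    rw [e1]
    refine Submodule.sum_mem _ fun x _ => Submodule.smul_mem _ _ ?_
    by_cases hx : x = a
    · subst hx; simp
    · exact hall x a hx
  by_cases htop : W.toSubmodule ≤ (Cfsg.permSumZero K (alternatingGroup α) α).toSubmodule
  · exact Or.inr (Or.inr (Or.inl (Subrepresentation.toSubmodule_injective (le_antisymm htop hsum0))))
  · refine Or.inr (Or.inr (Or.inr (eq_top_iff.mpr fun u _ => ?_)))
    obtain ⟨v, hv, hv0⟩ := SetLike.not_le_iff_exists.mp htop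
    have hv0' : ∑ x, v x ≠ 0 := hv0
    have h1 : u - ((∑ x, u x) / (∑ x, v x)) • v ∈ W.toSubmodule := hsum0 (by
      show ∑ x, (u - ((∑ x, u x) / (∑ x, v x)) • v) x = 0
      simp [Finset.sum_sub_distrib, ← Finset.mul_sum, div_mul_cancel₀ _ hv0'])
    simpa using W.toSubmodule.add_mem h1 (W.toSubmodule.smul_mem ((∑ x, u x) / (∑ x, v x)) hv)

end Cfsg.Agent.S0714
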