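import Cfsg.Statements.S0716
import Cfsg.Agent.PermChar.Basic

set_option autoImplicit false
open Cfsg CfsgLib.CharBasics CfsgLib.PermChar

namespace Cfsg.Agent.S0716

/-- (a) If all non-principal irreducible constituents of the permutation character of a transitive group have the same degree `f`, the character is multiplicity-free and all non-trivial subdegrees equal `f`. (b) A transitive group of rank at most 5 has multiplicity-free permutation character. -/
theorem result {G : Type*} [Group G] [Fintype G] {Ω : Type*} [Fintype Ω] [MulAction G Ω] [MulAction.IsPretransitive G Ω] (a : Ω) : ((f : ℕ) → (∀ χ : G → ℂ, Cfsg.IsIrrCharacter G χ → χ ≠ (fun _ => 1) → Cfsg.classInner (fun g : G => (Nat.card (MulAction.fixedBy Ω g) : ℂ)) χ ≠ 0 → χ 1 = f) → (∀ χ : G → ℂ, Cfsg.IsIrrCharacter G χ → Cfsg.classInner (fun g : G => (Nat.card (MulAction.fixedBy Ω g) : ℂ)) χ = 0 ∨ Cfsg.classInner (fun g : G => (Nat.card (MulAction.fixedBy Ω g) : ℂ)) χ = 1) ∧ ∀ b : Ω, b ≠ a → Nat.card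 (MulAction.orbit (MulAction.stabilizer G a) b) = f) ∧ (Nat.card (MulAction.orbitRel.Quotient (MulAction.stabilizer G a) Ω) ≤ 5 → ∀ χ : G → ℂ, Cfsg.IsIrrCharacter G χ → Cfsg.classInner (fun g : G => (Nat.card (MulAction.fixedBy Ω g) : ℂ)) χ = 0 ∨ Cfsg.classInner (fun g : G => (Nat.card (MulAction.fixedBy Ω g) : ℂ)) χ = 1) := by
  classical
  haveI := Fintype.ofFinite (IrrCharacter G)
  haveI : Nonempty Ω := ⟨a⟩
  change ((f : ℕ) → (∀ χ : G → ℂ, IsIrrCharacter G χ → χ ≠ (fun _ => 1) → classInner (piChar G Ω) χ ≠ 0 → χ 1 = f) →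
      (∀ χ : G → ℂ, IsIrrCharacter G χ → classInner (piChar G Ω) χ = 0 ∨ classInner (piChar G Ω) χ = 1) ∧
      ∀ b : Ω, b ≠ a → Nat.card (MulAction.orbit (MulAction.stabilizer G a) b) = f) ∧
    (_ → ∀ χ : G → ℂ, IsIrrCharacter G χ → classInner (piChar G Ω) χ = 0 ∨ classInner (piChar G Ω) χ = 1)
  have hπ := isCharacter_piChar (G := G) (Ω := Ω)
  choose m hm using fun χ : IrrCharacter G => classInner_character_nat hπ χ
  have h1 : m oneChar = 1 := by
    have h : classInner (piChar G Ω) ((oneChar : IrrCharacter G) : G → ℂ) = 1 := by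
      show classInner (piChar G Ω) (fun _ => 1) = 1
      rw [classInner_one]
      simp only [piChar]
      rw [← Nat.cast_sum, CfsgLib.Derange.sum_fixedBy,
        show Nat.card (MulAction.orbitRel.Quotient G Ω) = 1 from Nat.card_eq_one_iff_unique.2
          ⟨MulAction.pretransitive_iff_subsingleton_quotient G Ω |>.1 inferInstance, ⟨Quotient.mk'' a⟩⟩,
        one_mul, inv_mul_cancel₀ (Nat.cast_ne_zero.mpr Nat.card_pos.ne')]
    exact_mod_cast (hm oneChar).symm.trans h
  let S : Finset (IrrCharacter G) := Finset.univ.erase oneChar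
  have hexp : piChar G Ω = ∑ χ : IrrCharacter G, (m χ : ℂ) • (χ : G → ℂ) := by
    conv_lhs => rw [classFun_expand (isClassFunction hπ)]
    exact Finset.sum_congr rfl fun χ _ => by rw [hm]
  set r := Nat.card (MulAction.orbitRel.Quotient (MulAction.stabilizer G a) Ω) with hr
  have hrank : 1 + ∑ χ ∈ S, m χ * m χ = r := by
    have h := inner_self_eq_rank (G := G) a
    nth_rw 1 [hexp] at h
    rw [classInner_sum_left, Finset.sum_congr rfl (g := fun χ => ((m χ * m χ : ℕ) : ℂ)) fun χ _ => by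
      rw [classInner_smul_left, classInner_comm, hm, Complex.conj_natCast, Nat.cast_mul],
      ← Finset.add_sum_erase _ _ (Finset.mem_univ oneChar), h1] at h
    exact_mod_cast h
  have hdeg : 1 + ∑ χ ∈ S, m χ * charDegree (χ : G → ℂ) = Nat.card Ω := by
    have h := congrFun hexp 1
    rw [Finset.sum_apply, Finset.sum_congr rfl (g := fun χ : IrrCharacter G => ((m χ * charDegree (χ : G → ℂ) : ℕ) : ℂ))
      fun χ _ => by rw [Pi.smul_apply, smul_eq_mul, apply_one (isCharacter_of_irr χ.2), Nat.cast_mul],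
      ← Finset.add_sum_erase _ _ (Finset.mem_univ oneChar), h1] at h
    have hfix : Nat.card (MulAction.fixedBy Ω (1 : G)) = Nat.card Ω :=
      Nat.card_congr (Equiv.subtypeUnivEquiv fun x => one_smul G x)
    simp only [piChar, hfix] at h
    have h1' : charDegree ((oneChar : IrrCharacter G) : G → ℂ) = 1 := by simp [charDegree, oneChar]
    rw [h1'] at h
    exact_mod_cast h.symm
  have part : ∀ f : ℕ, (∀ χ : G → ℂ, IsIrrCharacter G χ → χ ≠ (fun _ => 1) → classInner (piChar G Ω) χ ≠ 0 →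
      χ 1 = f) → (∀ χ : G → ℂ, IsIrrCharacter G χ → classInner (piChar G Ω) χ = 0 ∨ classInner (piChar G Ω) χ = 1) ∧
      ∀ b : Ω, b ≠ a → Nat.card (MulAction.orbit (MulAction.stabilizer G a) b) = f := by
    intro f hf
    have hdvd : ∀ b, b ≠ a → f ∣ Nat.card (MulAction.orbit (MulAction.stabilizer G a) b) :=
      fun b hb => dvd_subdegree f a b hb fun χ h1 h2 h3 => ⟨1, by rw [hf χ h1 h2 h3, Nat.cast_one, mul_one]⟩
    have hmd : ∀ χ ∈ S, m χ * charDegree (χ : G → ℂ) = m χ * f := by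
      intro χ hχ
      rcases Nat.eq_zero_or_pos (m χ) with h | h
      · simp [h]
      have : (χ : G → ℂ) 1 = f := hf _ χ.2 (fun e => (Finset.mem_erase.1 hχ).1 (Subtype.ext e))
        (by rw [hm]; exact Nat.cast_ne_zero.2 h.ne')
      rw [apply_one (isCharacter_of_irr χ.2)] at this
      rw [show charDegree (χ : G → ℂ) = f by exact_mod_cast this]
    rw [Finset.sum_congr rfl hmd, ← Finset.sum_mul] at hdeg
    -- orbits
    haveI := Fintype.ofFinite (MulAction.orbitRel.Quotient (MulAction.stabilizer G a) Ω)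
    let O := MulAction.orbitRel.Quotient (MulAction.stabilizer G a) Ω
    let sz : O → ℕ := fun ω => Nat.card ω.orbit
    have hsz : ∀ b : Ω, sz (Quotient.mk'' b) = Nat.card (MulAction.orbit (MulAction.stabilizer G a) b) := fun b => by
      simp only [sz, MulAction.orbitRel.Quotient.orbit_mk]
    have hsum : Nat.card Ω = ∑ ω : O, sz ω := by
      rw [Nat.card_congr (MulAction.selfEquivSigmaOrbits' (MulAction.stabilizer G a) Ω), Nat.card_sigma]
    have hsza : sz (Quotient.mk'' a) = 1 := by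
      rw [hsz, Nat.card_eq_one_iff_unique]
      refine ⟨⟨fun x y => Subtype.ext ?_⟩, ⟨⟨a, MulAction.mem_orbit_self a⟩⟩⟩
      obtain ⟨⟨g, hg⟩, hx⟩ := x.2
      obtain ⟨⟨g', hg'⟩, hy⟩ := y.2
      exact (hx.symm.trans hg).trans (hy.symm.trans hg').symm
    have hpos : ∀ ω : O, 0 < sz ω := by
      intro ω
      induction ω using Quotient.inductionOn' with | _ b =>
      rw [hsz]
      haveI : Nonempty (MulAction.orbit (MulAction.stabilizer G a) b) := ⟨⟨b, MulAction.mem_orbit_self b⟩⟩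
      exact Nat.card_pos
    have hdvd' : ∀ ω ∈ Finset.univ.erase (Quotient.mk'' a : O), f ≤ sz ω := by
      intro ω hω
      induction ω using Quotient.inductionOn' with | _ b =>
      have hb : b ≠ a := fun e => (Finset.mem_erase.1 hω).1 (e ▸ rfl)
      exact Nat.le_of_dvd (hpos _) (hsz b ▸ hdvd b hb)
    have hcount : (Finset.univ.erase (Quotient.mk'' a : O)).card = ∑ χ ∈ S, m χ * m χ := by
      rw [Finset.card_erase_of_mem (Finset.mem_univ _), Finset.card_univ, ← Nat.card_eq_fintype_card]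
      show r - 1 = _
      omega
    rw [hsum, ← Finset.add_sum_erase _ _ (Finset.mem_univ (Quotient.mk'' a : O)), hsza, add_right_inj] at hdeg
    have hsq : ∀ χ ∈ S, m χ * f ≤ m χ * m χ * f := fun χ _ => Nat.mul_le_mul_right _ (Nat.le_mul_self _)
    have hA : ∑ χ ∈ S, m χ * m χ * f ≤ ∑ ω ∈ Finset.univ.erase (Quotient.mk'' a : O), sz ω := by
      rw [← Finset.sum_mul, ← hcount, ← smul_eq_mul, ← Finset.sum_const]
      exact Finset.sum_le_sum hdvd'
    have hB : ∑ χ ∈ S, m χ * f = (∑ χ ∈ S, m χ) * f := Finset.sum_mul _ _ _ |>.symm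
    have hle := Finset.sum_le_sum hsq
    constructor
    · intro χ hχ
      rw [show classInner (piChar G Ω) χ = _ from hm ⟨χ, hχ⟩]
      by_cases he : (⟨χ, hχ⟩ : IrrCharacter G) = oneChar
      · rw [he, h1, Nat.cast_one]; exact Or.inr rfl
      have hS : (⟨χ, hχ⟩ : IrrCharacter G) ∈ S := Finset.mem_erase.2 ⟨he, Finset.mem_univ _⟩
      rcases Nat.eq_zero_or_pos (m ⟨χ, hχ⟩) with h | h
      · exact Or.inl (by rw [h, Nat.cast_zero])
      refine Or.inr ?_
      have heq := (Finset.sum_eq_sum_iff_of_le hsq).1 (le_antisymm hle (by omega)) _ hS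
      have hfp : 0 < f := by
        have : χ 1 = f := hf χ hχ (fun e => he (Subtype.ext e))
          (by rw [show classInner (piChar G Ω) χ = _ from hm ⟨χ, hχ⟩]; exact Nat.cast_ne_zero.2 h.ne')
        rcases Nat.eq_zero_or_pos f with rfl | hp
        · exact absurd (by simpa using this) (apply_one_ne_zero hχ)
        · exact hp
      have h2 := Nat.eq_of_mul_eq_mul_right hfp heq
      have : m ⟨χ, hχ⟩ = 1 := by
        refine Nat.eq_of_mul_eq_mul_left h ?_
        rw [← h2, mul_one]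
      rw [this, Nat.cast_one]
    · intro b hb
      have hmem : (Quotient.mk'' b : O) ∈ Finset.univ.erase (Quotient.mk'' a : O) := by
        refine Finset.mem_erase.2 ⟨fun e => hb ?_, Finset.mem_univ _⟩
        obtain ⟨⟨g, hg⟩, h⟩ := Quotient.exact' e
        exact h.symm.trans hg
      rw [← hsz]
      refine ((Finset.sum_eq_sum_iff_of_le hdvd').1 ?_ _ hmem).symm
      rw [Finset.sum_const, smul_eq_mul, hcount, Finset.sum_mul]
      omega
  refine ⟨part, fun h5 χ hχ => ?_⟩
  by_contra hcon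
  rw [not_or, show classInner (piChar G Ω) χ = _ from hm ⟨χ, hχ⟩, Nat.cast_eq_zero, Nat.cast_eq_one] at hcon
  have he : (⟨χ, hχ⟩ : IrrCharacter G) ≠ oneChar := fun e => hcon.2 (e ▸ h1)
  have hS : (⟨χ, hχ⟩ : IrrCharacter G) ∈ S := Finset.mem_erase.2 ⟨he, Finset.mem_univ _⟩
  have hsplit := Finset.add_sum_erase S (fun ψ => m ψ * m ψ) hS
  have h4 : 4 ≤ m ⟨χ, hχ⟩ * m ⟨χ, hχ⟩ := Nat.mul_le_mul (show 2 ≤ m ⟨χ, hχ⟩ by omega) (show 2 ≤ m ⟨χ, hχ⟩ by omega)
  have hrest : ∑ ψ ∈ S.erase ⟨χ, hχ⟩, m ψ * m ψ = 0 := by omega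
  have honly := (part (charDegree χ) fun ψ hψ hne hin => by
    have hψS : (⟨ψ, hψ⟩ : IrrCharacter G) ∈ S :=
      Finset.mem_erase.2 ⟨fun e => hne (congrArg Subtype.val e), Finset.mem_univ _⟩
    by_cases e : (⟨ψ, hψ⟩ : IrrCharacter G) = ⟨χ, hχ⟩
    · cases e
      exact apply_one (isCharacter_of_irr hψ)
    · have h0 := (Finset.sum_eq_zero_iff.1 hrest) _ (Finset.mem_erase.2 ⟨e, hψS⟩)
      exact absurd (by rw [show classInner (piChar G Ω) ψ = _ from hm ⟨ψ, hψ⟩, mul_self_eq_zero.1 h0, Nat.cast_zero]) hin).1 χ hχ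
  rw [show classInner (piChar G Ω) χ = _ from hm ⟨χ, hχ⟩, Nat.cast_eq_zero, Nat.cast_eq_one] at honly
  exact honly.elim hcon.1 hcon.2

end Cfsg.Agent.S0716
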