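import Cfsg.Statements.S0717
import Cfsg.Agent.BrauerInd.FSInd

set_option autoImplicit false
open Cfsg

namespace Cfsg.Agent.S0717

open scoped ComplexConjugate
open CfsgLib Matrix

/-- The average of a character over a subgroup is a natural number, and if it is one for a real
irreducible character then the indicator is one. -/
theorem avg_subgroup {G : Type*} [Group G] [Fintype G] (H : Subgroup G) [Fintype H] {χ : G → ℂ}
    (h : Cfsg.IsIrrCharacter G χ) :
    ∃ m : ℕ, (Nat.card H : ℂ)⁻¹ * ∑ y : H, χ y = (m : ℂ) ∧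
      (m = 1 → (∀ g, (χ g).im = 0) → BrauerInd.ind χ = 1) := by
  classical
  obtain ⟨n, ρ, hirr, rfl⟩ := id h
  let ρH : Representation ℂ H (Fin n → ℂ) := ρ.comp H.subtype
  haveI : Invertible (Nat.card H : ℂ) := invertibleOfNonzero (Nat.cast_ne_zero.mpr Nat.card_pos.ne')
  have hm := Representation.card_inv_mul_sum_char_eq_finrank ρH
  refine ⟨Module.finrank ℂ (Representation.invariants ρH), hm, fun h1 hreal => ?_⟩
  rcases BrauerInd.ind_real h hreal with h2 | h2
  · exact h2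
  exfalso
  have hf := (BrauerInd.finrank_invForms_irr ρ h).1 hreal
  obtain ⟨⟨M, hM⟩, hne, -⟩ := finrank_eq_one_iff'.1 hf
  have hne' : M ≠ 0 := fun h0 => hne (Subtype.ext h0)
  have hT := (BrauerInd.transpose_eq_ind _ hf hM).1
  rw [BrauerInd.trace_matHom, h2, neg_one_smul] at hT
  let Φ : (Fin n → ℂ) →ₗ[ℂ] (Fin n → ℂ) := Matrix.toLin' M
  have hinvf : ∀ (g : G) (x y : Fin n → ℂ),
      (ρ g x) ⬝ᵥ Φ (ρ g y) = x ⬝ᵥ Φ y := by
    intro g x y
    have hg := BrauerInd.mem_invForms.1 hM g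
    have e : ∀ v, ρ g v = BrauerInd.matHom ρ g *ᵥ v := fun v => by
      rw [← Matrix.toLin'_apply, BrauerInd.matHom_apply, Matrix.toLin'_toMatrix']
    simp only [Φ, Matrix.toLin'_apply, e]
    conv_rhs => rw [← hg]
    rw [← Matrix.mulVec_mulVec, ← Matrix.mulVec_mulVec, Matrix.dotProduct_mulVec x,
      Matrix.vecMul_transpose]
  -- the kernel of `M` is invariant, so trivial
  let W : Subrepresentation ρ :=
    { toSubmodule := LinearMap.ker Φ
      apply_mem_toSubmodule := fun g v hv => by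
        rw [LinearMap.mem_ker] at hv ⊢
        refine dotProduct_eq_zero _ fun x => ?_
        have := hinvf g (ρ g⁻¹ x) v
        rw [hv, dotProduct_zero, ← Module.End.mul_apply (ρ g) (ρ g⁻¹), ← map_mul, mul_inv_cancel,
          map_one, Module.End.one_apply] at this
        rw [dotProduct_comm]
        exact this }
  have hker : LinearMap.ker Φ = ⊥ := by
    rcases hirr.eq_bot_or_eq_top W with hW | hW
    · exact congrArg Subrepresentation.toSubmodule hW
    · exfalso
      apply hne'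
      have : LinearMap.ker Φ = ⊤ := congrArg Subrepresentation.toSubmodule hW
      exact Matrix.toLin'.injective (by rw [map_zero]; exact LinearMap.ker_eq_top.1 this)
  obtain ⟨⟨u, hu⟩, hune, huspan⟩ := finrank_eq_one_iff'.1 h1
  have hskew : u ⬝ᵥ Φ u = 0 := by
    have : u ⬝ᵥ (Mᵀ *ᵥ u) = u ⬝ᵥ (M *ᵥ u) := by
      rw [Matrix.mulVec_transpose, dotProduct_comm, Matrix.dotProduct_mulVec]
    rw [hT, Matrix.neg_mulVec, dotProduct_neg] at this
    show u ⬝ᵥ Matrix.toLin' M u = 0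
    rw [Matrix.toLin'_apply]
    linear_combination (-(1 : ℂ) / 2) * this
  have hzero : Φ u = 0 := by
    refine dotProduct_eq_zero _ fun x => ?_
    let S : Fin n → ℂ := ∑ y : H, ρ (y : G) x
    have hS : S ∈ Representation.invariants ρH := by
      intro a
      show ρ (a : G) (∑ y : H, ρ (y : G) x) = _
      rw [map_sum]
      refine Fintype.sum_equiv (Equiv.mulLeft a) _ _ fun y => ?_
      rw [Equiv.coe_mulLeft, Subgroup.coe_mul, map_mul, Module.End.mul_apply]
    obtain ⟨c, hc⟩ := huspan ⟨S, hS⟩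
    have hc' : c • u = S := congrArg Subtype.val hc
    have h3 : S ⬝ᵥ Φ u = (Nat.card H : ℂ) * (x ⬝ᵥ Φ u) := by
      simp only [S, sum_dotProduct]
      rw [Finset.sum_congr rfl fun (y : H) _ => ?_, Finset.sum_const, Finset.card_univ,
        ← Nat.card_eq_fintype_card, nsmul_eq_mul]
      rw [← hinvf (y : G) x u, show ρ (y : G) u = u from hu y]
    rw [← hc', smul_dotProduct, hskew, smul_zero] at h3
    rw [dotProduct_comm]
    exact (mul_eq_zero.1 h3.symm).resolve_left (Nat.cast_ne_zero.mpr Nat.card_pos.ne')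
  have : u ∈ LinearMap.ker Φ := LinearMap.mem_ker.2 hzero
  rw [hker, Submodule.mem_bot] at this
  exact hune (Subtype.ext this)

/-- All suborbits of a transitive group are self-paired (every pair of points is interchanged by some group element) if and only if the permutation character is multiplicity-free and each of its irreducible constituents is real-valued. -/
theorem result {G : Type*} [Group G] [Fintype G] {Ω : Type*} [Fintype Ω] [MulAction G Ω] [MulAction.IsPretransitive G Ω] : (∀ a b : Ω, ∃ g : G, g • a = b ∧ g • b = a) ↔ ∀ χ : G → ℂ, Cfsg.IsIrrCharacter G χ → Cfsg.classInner (fun g : G => (Nat.card (MulAction.fixedBy Ω g) : ℂ)) χ ≠ 0 → Cfsg.classInner (fun g : G => (Nat.card (MulAction.fixedBy Ω g) : ℂ)) χ = 1 ∧ ∀ g : G, (starRingEnd ℂ) (χ g) = χ g := by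
  classical
  haveI := Fintype.ofFinite (Cfsg.IrrCharacter G)
  let π : G → ℂ := fun g : G => (Nat.card (MulAction.fixedBy Ω g) : ℂ)
  have hπ : ∀ g, π g = ∑ a : Ω, if g • a = a then (1 : ℂ) else 0 := fun g => by
    rw [Finset.sum_boole]
    show (Nat.card (MulAction.fixedBy Ω g) : ℂ) = _
    rw [← Fintype.card_subtype, ← Nat.card_eq_fintype_card]
    rfl
  have hπc : Cfsg.IsClassFunction G π := fun g h => by
    rw [hπ, hπ]
    refine (Fintype.sum_equiv (MulAction.toPerm h) _ _ fun a => ?_).symm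
    refine if_congr ?_ rfl rfl
    simp [mul_smul]
  -- multiplicities
  have hm : ∀ χ : Cfsg.IrrCharacter G, ∃ m : ℕ, Cfsg.classInner π (χ : G → ℂ) = (m : ℂ) ∧
      (m = 1 → (∀ g, ((χ : G → ℂ) g).im = 0) → CfsgLib.BrauerInd.ind (χ : G → ℂ) = 1) := by
    intro χ
    rcases isEmpty_or_nonempty Ω with hΩ | ⟨⟨a₀⟩⟩
    · refine ⟨0, ?_, fun h => absurd h (by norm_num)⟩
      simp [Cfsg.classInner, hπ]
    haveI : Nonempty Ω := ⟨a₀⟩
    obtain ⟨m, hm, hm1⟩ := avg_subgroup (MulAction.stabilizer G a₀) χ.2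
    refine ⟨m, ?_, hm1⟩
    have hkey : ∀ a : Ω, ∑ g : G, (if g • a = a then (χ : G → ℂ) g else 0) =
        ∑ g : G, if g • a₀ = a₀ then (χ : G → ℂ) g else 0 := by
      intro a
      obtain ⟨x, rfl⟩ := MulAction.exists_smul_eq G a₀ a
      refine (Fintype.sum_equiv (MulAut.conj x).toEquiv _ _ fun g => ?_).symm
      show _ = if (x * g * x⁻¹) • x • a₀ = x • a₀ then (χ : G → ℂ) (x * g * x⁻¹) else 0
      rw [CharBasics.isClassFunction (CharBasics.isCharacter_of_irr χ.2) g x]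
      refine if_congr ?_ rfl rfl
      simp [mul_smul]
    have hcard : (Nat.card Ω : ℂ) * (Nat.card (MulAction.stabilizer G a₀) : ℂ) = (Nat.card G : ℂ) := by
      rw [← Nat.cast_mul, ← MulAction.index_stabilizer_of_transitive G a₀, Subgroup.index_mul_card]
    have h1 : Cfsg.classInner π (χ : G → ℂ) = conj ((Nat.card G : ℂ)⁻¹ *
        ∑ a : Ω, ∑ g : G, (if g • a = a then (χ : G → ℂ) g else 0)) := by
      rw [CharBasics.classInner_eq, Finset.sum_comm, map_mul, map_inv₀, Complex.conj_natCast, map_sum]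
      congr 1
      refine Finset.sum_congr rfl fun g _ => ?_
      rw [hπ, Finset.sum_mul, map_sum]
      exact Finset.sum_congr rfl fun a _ => by split <;> simp
    rw [h1, Finset.sum_congr rfl fun a _ => hkey a, Finset.sum_const, Finset.card_univ,
      ← Nat.card_eq_fintype_card, nsmul_eq_mul, ← Finset.sum_filter,
      Finset.sum_subtype (p := fun g => g ∈ MulAction.stabilizer G a₀) _
        (fun g => by simp [MulAction.mem_stabilizer_iff]), ← hcard, mul_inv, ← mul_assoc,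
      mul_comm (_)⁻¹ (_)⁻¹, mul_assoc (_)⁻¹ (_)⁻¹, inv_mul_cancel₀ (Nat.cast_ne_zero.mpr Nat.card_pos.ne'),
      mul_one, hm, Complex.conj_natCast]
  choose m hm hm1 using hm
  have hz : ∀ χ : Cfsg.IrrCharacter G, ∃ z : ℤ, CfsgLib.BrauerInd.ind (χ : G → ℂ) = (z : ℂ) ∧ z ≤ 1 := by
    intro χ
    rcases (BrauerInd.fs_trichotomy χ.2).1 with h | h | h
    · exact ⟨0, by simp [h], by norm_num⟩
    · exact ⟨1, by simp [h], le_refl _⟩
    · exact ⟨-1, by simp [h], by norm_num⟩
  choose z hz hz1 using hz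
  have hexp : π = ∑ χ : Cfsg.IrrCharacter G, (m χ : ℂ) • (χ : G → ℂ) := by
    conv_lhs => rw [CharBasics.classFun_expand hπc]
    exact Finset.sum_congr rfl fun χ _ => by rw [hm]
  -- the two counts
  let c1 : Ω × Ω → ℕ := fun p => (Finset.univ.filter fun g : G => g • p.1 = p.1 ∧ g • p.2 = p.2).card
  let c2 : Ω × Ω → ℕ := fun p => (Finset.univ.filter fun g : G => g • p.1 = p.2 ∧ g • p.2 = p.1).card
  have e1 : (Nat.card G : ℂ) * ∑ χ, (m χ : ℂ) * (m χ : ℂ) = ((∑ p, c1 p : ℕ) : ℂ) := by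
    have h2 : Cfsg.classInner π π = ∑ χ, (m χ : ℂ) * (m χ : ℂ) := by
      conv_lhs => arg 1; rw [hexp]
      rw [CharBasics.classInner_sum_left]
      refine Finset.sum_congr rfl fun χ _ => ?_
      rw [CharBasics.classInner_smul_left, CharBasics.classInner_comm, hm, Complex.conj_natCast]
    rw [← h2, CharBasics.classInner_eq, ← mul_assoc,
      mul_inv_cancel₀ (Nat.cast_ne_zero.mpr Nat.card_pos.ne'), one_mul, Nat.cast_sum]
    simp only [c1, Finset.natCast_card_filter]
    rw [Finset.sum_comm]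
    refine Finset.sum_congr rfl fun g _ => ?_
    rw [hπ, Fintype.sum_prod_type, map_sum, Finset.sum_mul]
    refine Finset.sum_congr rfl fun a _ => ?_
    rw [Finset.mul_sum]
    refine Finset.sum_congr rfl fun b _ => ?_
    by_cases ha : g • a = a <;> by_cases hb : g • b = b <;> simp [ha, hb]
  have e2 : (Nat.card G : ℂ) * ∑ χ, (m χ : ℂ) * (z χ : ℂ) = ((∑ p, c2 p : ℕ) : ℂ) := by
    have h2 : (Nat.card G : ℂ)⁻¹ * ∑ s : G, π (s * s) = ∑ χ, (m χ : ℂ) * (z χ : ℂ) := by
      rw [hexp]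
      simp only [Finset.sum_apply, Pi.smul_apply, smul_eq_mul, ← hz, CfsgLib.BrauerInd.ind,
        Finset.mul_sum]
      rw [Finset.sum_comm]
      exact Finset.sum_congr rfl fun χ _ => Finset.sum_congr rfl fun s _ => by ring
    rw [← h2, ← mul_assoc, mul_inv_cancel₀ (Nat.cast_ne_zero.mpr Nat.card_pos.ne'), one_mul,
      Nat.cast_sum]
    simp only [c2, Finset.natCast_card_filter]
    rw [Finset.sum_comm]
    refine Finset.sum_congr rfl fun g _ => ?_
    rw [hπ, Fintype.sum_prod_type]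
    refine Finset.sum_congr rfl fun a _ => ?_
    rw [Finset.sum_eq_single (g • a) (fun b _ hb => if_neg fun h => hb h.1.symm) (by simp)]
    refine if_congr ?_ rfl rfl
    simp [mul_smul]
  have hswap : ∀ a b : Ω, ∀ g₀ : G, g₀ • a = b → g₀ • b = a → c2 (a, b) = c1 (a, b) := by
    intro a b g₀ ha hb
    refine Finset.card_bij' (fun g _ => g₀⁻¹ * g) (fun g _ => g₀ * g) ?_ ?_ ?_ ?_
    · intro g hg
      simp only [Finset.mem_filter, Finset.mem_univ, true_and] at hg ⊢
      exact ⟨by rw [mul_smul, hg.1, ← ha, inv_smul_smul], by rw [mul_smul, hg.2, ← hb, inv_smul_smul]⟩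
    · intro g hg
      simp only [Finset.mem_filter, Finset.mem_univ, true_and] at hg ⊢
      exact ⟨by rw [mul_smul, hg.1, ha], by rw [mul_smul, hg.2, hb]⟩
    · intro g _; simp
    · intro g _; simp
  have hle : ∀ p, c2 p ≤ c1 p := by
    rintro ⟨a, b⟩
    by_cases h : ∃ g : G, g • a = b ∧ g • b = a
    · obtain ⟨g, h1, h2⟩ := h; rw [hswap a b g h1 h2]
    · have : c2 (a, b) = 0 := Finset.card_eq_zero.2 (Finset.filter_eq_empty_iff.2 fun g _ hg => h ⟨g, hg⟩)
      omega
  have hiff : (∀ a b : Ω, ∃ g : G, g • a = b ∧ g • b = a) ↔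
      ∑ χ, (m χ : ℤ) * z χ = ∑ χ, (m χ : ℤ) * m χ := by
    have hG : (Nat.card G : ℂ) ≠ 0 := Nat.cast_ne_zero.mpr Nat.card_pos.ne'
    have h3 : (∑ χ, (m χ : ℤ) * z χ = ∑ χ, (m χ : ℤ) * m χ) ↔ ∑ p, c2 p = ∑ p, c1 p := by
      rw [← Int.cast_inj (α := ℂ), ← Nat.cast_inj (R := ℂ), ← e1, ← e2, mul_right_inj' hG]
      simp
    rw [h3, Finset.sum_eq_sum_iff_of_le fun p _ => hle p]
    constructor
    · rintro h ⟨a, b⟩ -
      obtain ⟨g, h1, h2⟩ := h a b
      exact hswap a b g h1 h2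
    · intro h a b
      have h1 : 0 < c1 (a, b) := Finset.card_pos.2 ⟨1, by simp⟩
      rw [← h (a, b) (Finset.mem_univ _)] at h1
      obtain ⟨g, hg⟩ := Finset.card_pos.1 h1
      exact ⟨g, (Finset.mem_filter.1 hg).2⟩
  rw [hiff]
  have hterm : ∀ χ ∈ Finset.univ, (m χ : ℤ) * z χ ≤ (m χ : ℤ) * m χ := by
    intro χ _
    rcases Nat.eq_zero_or_pos (m χ) with h0 | h0
    · simp [h0]
    · exact mul_le_mul_of_nonneg_left (le_trans (hz1 χ) (by exact_mod_cast h0)) (Nat.cast_nonneg _)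
  rw [Finset.sum_eq_sum_iff_of_le hterm]
  constructor
  · intro h χ hχ hne
    have hmne : m ⟨χ, hχ⟩ ≠ 0 := fun h0 => hne (by
      show Cfsg.classInner π χ = 0
      rw [show Cfsg.classInner π χ = _ from hm ⟨χ, hχ⟩, h0, Nat.cast_zero])
    have h1 : z ⟨χ, hχ⟩ = (m ⟨χ, hχ⟩ : ℤ) := mul_left_cancel₀ (Nat.cast_ne_zero.2 hmne) (h _ (Finset.mem_univ _))
    have hm' : m ⟨χ, hχ⟩ = 1 := by
      have := hz1 ⟨χ, hχ⟩
      omega
    refine ⟨?_, fun g => ?_⟩
    · show Cfsg.classInner π χ = 1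
      rw [show Cfsg.classInner π χ = _ from hm ⟨χ, hχ⟩, hm', Nat.cast_one]
    · refine Complex.conj_eq_iff_im.2 ?_
      by_contra hg
      have h0 := BrauerInd.ind_nonreal hχ ⟨g, hg⟩
      rw [show BrauerInd.ind χ = _ from hz ⟨χ, hχ⟩, h1, hm'] at h0
      norm_num at h0
  · rintro h ⟨χ, hχ⟩ -
    by_cases hne : m ⟨χ, hχ⟩ = 0
    · simp [hne]
    have hne' : Cfsg.classInner π χ ≠ 0 := by
      rw [show Cfsg.classInner π χ = _ from hm ⟨χ, hχ⟩]; exact Nat.cast_ne_zero.2 hne
    obtain ⟨h1, h2⟩ := h χ hχ hne'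
    have hm' : m ⟨χ, hχ⟩ = 1 := by
      have h3 := (hm ⟨χ, hχ⟩).symm.trans h1
      exact_mod_cast h3
    have h4 := hm1 ⟨χ, hχ⟩ hm' fun g => Complex.conj_eq_iff_im.1 (h2 g)
    have h5 : z ⟨χ, hχ⟩ = 1 := by
      have h6 := (hz ⟨χ, hχ⟩).symm.trans h4
      exact_mod_cast h6
    rw [h5, hm', Nat.cast_one]

end Cfsg.Agent.S0717
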