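import Cfsg.Statements.S0718
import Cfsg.Agent.PermChar.Basic
import Cfsg.Agent.Clifford.CharEquiv
import Cfsg.Agent.Clifford.ScalarIndex

set_option autoImplicit false
open Cfsg CfsgLib CfsgLib.CharBasics CfsgLib.PermChar

namespace Cfsg.Agent.S0718

open Representation in
theorem multFree_iff_comm {G : Type*} [Group G] [Fintype G] (n : ℕ) (ρ : Representation ℂ G (Fin n → ℂ)) :
    (∀ χ : G → ℂ, IsIrrCharacter G χ → classInner ρ.character χ = 0 ∨ classInner ρ.character χ = 1) ↔
      ∀ S T : Module.End ℂ (Fin n → ℂ), (∀ g, S * ρ g = ρ g * S) → (∀ g, T * ρ g = ρ g * T) → S * T = T * S := by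
  classical
  constructor
  · induction n using Nat.strong_induction_on with
    | _ n ih =>
      intro h S T hS hT
      rcases Nat.eq_zero_or_pos n with rfl | hn
      · exact LinearMap.ext fun v => Subsingleton.elim _ _
      have h1 : ρ.character 1 ≠ 0 := by
        rw [Representation.char_one, Module.finrank_fin_fun]
        exact Nat.cast_ne_zero.mpr hn.ne'
      obtain ⟨ψ, j, hj, hje⟩ := exists_constituent (isCharacter_rep ρ) h1
      obtain ⟨m, τ, hτ, hτψ⟩ := ψ.2
      haveI := hτ
      have hne : classInner ρ.character τ.character ≠ 0 := by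
        rw [hτψ, hje]; exact Nat.cast_ne_zero.mpr hj.ne'
      have hτirr : IsIrrCharacter G τ.character := ⟨m, τ, hτ, rfl⟩
      have hone : classInner ρ.character τ.character = 1 := (h _ hτirr).resolve_left hne
      obtain ⟨f, hf⟩ := Clifford.exists_injective_intertwining τ ρ hne
      obtain ⟨k, ρ', e, hk, he⟩ := Clifford.exists_split τ ρ f hf
      have hm : 0 < m := by
        simpa using Clifford.finrank_pos_of_irreducible hτ
      have hchar : ρ.character = τ.character + ρ'.character := funext fun g => Clifford.character_split e he g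
      have h0 : classInner ρ'.character τ.character = 0 := by
        rw [hchar, classInner_add_left, classInner_self hτirr] at hone
        linear_combination hone
      have hfree : ∀ χ : G → ℂ, IsIrrCharacter G χ → classInner ρ'.character χ = 0 ∨ classInner ρ'.character χ = 1 := by
        intro χ hχ
        by_cases hx : χ = τ.character
        · subst hx; exact Or.inl h0
        · have := h χ hχ
          rwa [hchar, classInner_add_left, classInner_ne hτirr hχ (Ne.symm hx), zero_add] at this
      haveI : Invertible (Nat.card G : ℂ) := invertibleOfNonzero (Nat.cast_ne_zero.mpr Nat.card_pos.ne')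
      have hsub1 : Subsingleton (IntertwiningMap τ ρ') := by
        have h2 := card_inv_mul_sum_char_mul_char_eq_finrank τ ρ'
        rw [classInner_eq, Finset.sum_congr rfl (g := fun g => ρ'.character g * τ.character g⁻¹) fun g _ => by
          rw [apply_inv (isCharacter_rep τ) g]] at h0
        rw [h0] at h2
        exact Module.finrank_zero_iff.1 (by exact_mod_cast h2.symm)
      have hsub2 : Subsingleton (IntertwiningMap ρ' τ) := by
        have h2 := card_inv_mul_sum_char_mul_char_eq_finrank ρ' τ
        have h3 : classInner τ.character ρ'.character = 0 := by rw [classInner_comm, h0, map_zero]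
        rw [classInner_eq, Finset.sum_congr rfl (g := fun g => τ.character g * ρ'.character g⁻¹) fun g _ => by
          rw [apply_inv (isCharacter_rep ρ') g]] at h3
        rw [h3] at h2
        exact Module.finrank_zero_iff.1 (by exact_mod_cast h2.symm)
      -- block form of an endomorphism commuting with the group
      have hblock : ∀ S : Module.End ℂ (Fin n → ℂ), (∀ g, S * ρ g = ρ g * S) →
          ∃ (c : ℂ) (S' : Module.End ℂ (Fin k → ℂ)), (∀ g, S' * ρ' g = ρ' g * S') ∧
            ∀ x, S (e x) = e (c • x.1, S' x.2) := by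
        intro S hS
        let A : ((Fin m → ℂ) × (Fin k → ℂ)) →ₗ[ℂ] ((Fin m → ℂ) × (Fin k → ℂ)) :=
          e.symm.toLinearMap ∘ₗ S ∘ₗ e.toLinearMap
        have hA : ∀ g x, A (τ g x.1, ρ' g x.2) = (τ g (A x).1, ρ' g (A x).2) := fun g x => by
          apply e.injective
          simp only [A, LinearMap.comp_apply, LinearEquiv.coe_coe, LinearEquiv.apply_symm_apply]
          rw [he g x, he g (e.symm (S (e x))), LinearEquiv.apply_symm_apply]
          exact LinearMap.congr_fun (hS g) (e x)
        let A11 := (LinearMap.fst ℂ _ _) ∘ₗ A ∘ₗ (LinearMap.inl ℂ (Fin m → ℂ) (Fin k → ℂ))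
        let A22 := (LinearMap.snd ℂ _ _) ∘ₗ A ∘ₗ (LinearMap.inr ℂ (Fin m → ℂ) (Fin k → ℂ))
        let A21 : IntertwiningMap τ ρ' := LinearMap.intertwiningMap_of_isIntertwiningMap τ ρ'
          ((LinearMap.snd ℂ _ _) ∘ₗ A ∘ₗ (LinearMap.inl ℂ (Fin m → ℂ) (Fin k → ℂ))) fun g x => by
            have := congrArg Prod.snd (hA g (x, 0))
            simpa using this
        let A12 : IntertwiningMap ρ' τ := LinearMap.intertwiningMap_of_isIntertwiningMap ρ' τ
          ((LinearMap.fst ℂ _ _) ∘ₗ A ∘ₗ (LinearMap.inr ℂ (Fin m → ℂ) (Fin k → ℂ))) fun g x => by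
            have := congrArg Prod.fst (hA g (0, x))
            simpa using this
        obtain ⟨c, hc⟩ := Clifford.schur_scalar hτ A11 fun g => LinearMap.ext fun x => by
          have := congrArg Prod.fst (hA g (x, 0))
          simpa [A11, Module.End.mul_apply] using this
        refine ⟨c, A22, fun g => LinearMap.ext fun x => by
          have := congrArg Prod.snd (hA g (0, x))
          simpa [A22, Module.End.mul_apply] using this, ?_⟩
        rintro ⟨x, y⟩
        have hx : (A (x, 0)).2 = 0 := LinearMap.congr_fun (congrArg IntertwiningMap.toLinearMap (Subsingleton.elim A21 0)) x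
        have hy : (A (0, y)).1 = 0 := LinearMap.congr_fun (congrArg IntertwiningMap.toLinearMap (Subsingleton.elim A12 0)) y
        have hx' : (A (x, 0)).1 = c • x := LinearMap.congr_fun hc x
        have hs : A (x, y) = A (x, 0) + A (0, y) := by rw [← map_add]; simp
        have : A (x, y) = (c • x, A22 y) := by
          refine Prod.ext ?_ ?_
          · rw [hs, Prod.fst_add, hy, hx', add_zero]
          · rw [hs, Prod.snd_add, hx, zero_add]; rfl
        rw [← this]
        simp [A]
      obtain ⟨c, S', hS', hSe⟩ := hblock S hS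
      obtain ⟨d, T', hT', hTe⟩ := hblock T hT
      have hrec := ih k (by omega) ρ' hfree S' T' hS' hT'
      refine LinearMap.ext fun v => ?_
      obtain ⟨x, rfl⟩ := e.surjective v
      rw [Module.End.mul_apply, Module.End.mul_apply, hSe, hTe, hSe, hTe]
      exact congrArg e (Prod.ext (smul_comm c d x.1) (LinearMap.congr_fun hrec x.2))
  · intro h χ hχ
    by_contra hcon
    rw [not_or] at hcon
    obtain ⟨hn0, hn1⟩ := hcon
    obtain ⟨m, τ, hτ, rfl⟩ := id hχ
    haveI := hτ
    obtain ⟨f, hf⟩ := Clifford.exists_injective_intertwining τ ρ hn0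
    obtain ⟨k, ρ', e, hk, he⟩ := Clifford.exists_split τ ρ f hf
    have h0 : classInner ρ'.character τ.character ≠ 0 := fun h0 => hn1 (by
      rw [show ρ.character = τ.character + ρ'.character from funext fun g => Clifford.character_split e he g,
        classInner_add_left, classInner_self hχ, h0, add_zero])
    obtain ⟨f', hf'⟩ := Clifford.exists_injective_intertwining τ ρ' h0
    obtain ⟨k', ρ'', e', hk', he'⟩ := Clifford.exists_split τ ρ' f' hf'
    -- a projection of the second copy
    let π : (Fin k → ℂ) →ₗ[ℂ] (Fin m → ℂ) := LinearMap.fst ℂ _ _ ∘ₗ e'.symm.toLinearMap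
    have hπ : ∀ g y, π (ρ' g y) = τ g (π y) := fun g y => by
      obtain ⟨z, rfl⟩ := e'.surjective y
      rw [← he' g z]
      simp [π]
    let S : Module.End ℂ (Fin n → ℂ) := e.toLinearMap ∘ₗ (LinearMap.inl ℂ _ _ ∘ₗ π ∘ₗ LinearMap.snd ℂ _ _) ∘ₗ e.symm.toLinearMap
    let T : Module.End ℂ (Fin n → ℂ) := e.toLinearMap ∘ₗ (LinearMap.inl ℂ (Fin m → ℂ) (Fin k → ℂ) ∘ₗ LinearMap.fst ℂ _ _) ∘ₗ e.symm.toLinearMap
    have hS : ∀ g, S * ρ g = ρ g * S := fun g => LinearMap.ext fun v => by
      obtain ⟨x, rfl⟩ := e.surjective v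
      rw [Module.End.mul_apply, Module.End.mul_apply, ← he g x]
      simp only [S, LinearMap.comp_apply, LinearEquiv.coe_coe, LinearEquiv.symm_apply_apply, LinearMap.snd_apply,
        LinearMap.inl_apply]
      rw [hπ, ← he g (π x.2, 0)]
      simp
    have hT : ∀ g, T * ρ g = ρ g * T := fun g => LinearMap.ext fun v => by
      obtain ⟨x, rfl⟩ := e.surjective v
      rw [Module.End.mul_apply, Module.End.mul_apply, ← he g x]
      simp only [T, LinearMap.comp_apply, LinearEquiv.coe_coe, LinearEquiv.symm_apply_apply, LinearMap.fst_apply,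
        LinearMap.inl_apply]
      rw [← he g (x.1, 0)]
      simp
    have hm : 0 < m := by
      simpa using Clifford.finrank_pos_of_irreducible hτ
    let x0 : Fin m → ℂ := fun _ => 1
    have := LinearMap.congr_fun (h S T hS hT) (e (0, e' (x0, 0)))
    simp only [S, T, π, Module.End.mul_apply, LinearMap.comp_apply, LinearEquiv.coe_coe, LinearEquiv.symm_apply_apply,
      LinearMap.fst_apply, LinearMap.snd_apply, LinearMap.inl_apply, map_zero, Prod.fst_zero] at this
    have := congrFun (congrArg Prod.fst ((LinearEquiv.map_eq_zero_iff e).1 this.symm)) ⟨0, hm⟩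
    simp [x0] at this


/-- Multiplicity-freeness of the permutation character is equivalent to commutativity of the centraliser ring, i.e. of the algebra of `G`-equivariant endomorphisms of the complex permutation module. -/
theorem result {G : Type*} [Group G] [Fintype G] {Ω : Type*} [Fintype Ω] [MulAction G Ω] : (∀ χ : G → ℂ, Cfsg.IsIrrCharacter G χ → Cfsg.classInner (fun g : G => (Nat.card (MulAction.fixedBy Ω g) : ℂ)) χ = 0 ∨ Cfsg.classInner (fun g : G => (Nat.card (MulAction.fixedBy Ω g) : ℂ)) χ = 1) ↔ ∀ S T : (Ω → ℂ) →ₗ[ℂ] (Ω → ℂ), S ∈ ((Cfsg.permRep ℂ G Ω).linHom (Cfsg.permRep ℂ G Ω)).invariants → T ∈ ((Cfsg.permRep ℂ G Ω).linHom (Cfsg.permRep ℂ G Ω)).invariants → S ∘ₗ T = T ∘ₗ S := by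
  classical
  let n := Module.finrank ℂ (Ω → ℂ)
  let e : (Ω → ℂ) ≃ₗ[ℂ] (Fin n → ℂ) := (Module.finBasis ℂ (Ω → ℂ)).equivFun
  let ρ := CfsgLib.CharBasics.repConj e (permRep ℂ G Ω)
  have hchar : ρ.character = piChar G Ω := by
    rw [← character_permRep]; exact repConj_character e _
  have hcomm : ∀ (g : G) (S : Module.End ℂ (Ω → ℂ)) , e.conj S * ρ g = ρ g * e.conj S ↔ S * permRep ℂ G Ω g = permRep ℂ G Ω g * S := by
    intro g S
    have : ρ g = e.conj (permRep ℂ G Ω g) := LinearMap.ext fun v => by simp [ρ, repConj_apply]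
    rw [this, Module.End.mul_eq_comp, Module.End.mul_eq_comp, ← LinearEquiv.conj_comp, ← LinearEquiv.conj_comp,
      e.conj.injective.eq_iff]
    rfl
  have hinv : ∀ S : Module.End ℂ (Ω → ℂ), S ∈ ((permRep ℂ G Ω).linHom (permRep ℂ G Ω)).invariants ↔
      ∀ g, S * permRep ℂ G Ω g = permRep ℂ G Ω g * S := by
    intro S
    refine (Representation.mem_linHom_invariants_iff_isIntertwining S).trans ?_
    exact ⟨fun h g => LinearMap.ext fun v => h.isIntertwining g v, fun h => ⟨fun g v => LinearMap.congr_fun (h g) v⟩⟩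
  show (∀ χ : G → ℂ, IsIrrCharacter G χ → classInner (piChar G Ω) χ = 0 ∨ classInner (piChar G Ω) χ = 1) ↔ _
  rw [← hchar, multFree_iff_comm n ρ]
  constructor
  · intro h S T hS hT
    have := h (e.conj S) (e.conj T) (fun g => (hcomm g S).2 ((hinv S).1 hS g)) (fun g => (hcomm g T).2 ((hinv T).1 hT g))
    rw [Module.End.mul_eq_comp, Module.End.mul_eq_comp, ← LinearEquiv.conj_comp, ← LinearEquiv.conj_comp] at this
    exact e.conj.injective this
  · intro h S T hS hT
    have h' := h (e.symm.conj S) (e.symm.conj T)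
      ((hinv _).2 fun g => (hcomm g _).1 (by rw [show e.conj (e.symm.conj S) = S by ext; simp]; exact hS g))
      ((hinv _).2 fun g => (hcomm g _).1 (by rw [show e.conj (e.symm.conj T) = T by ext; simp]; exact hT g))
    rw [← LinearEquiv.conj_comp, ← LinearEquiv.conj_comp] at h'
    exact e.symm.conj.injective h'

end Cfsg.Agent.S0718
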