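import Cfsg.Statements.S0722
import Mathlib


set_option autoImplicit false
open Cfsg

namespace Cfsg.Agent.S0722

/-- In a primitive group `H`, with `N` a minimal normal subgroup and `K` a point stabiliser, `K ⊓ N` is maximal among proper `K`-invariant subgroups of `N`. -/
theorem result {α : Type*} [Finite α] (H : Subgroup (Equiv.Perm α)) [MulAction.IsPreprimitive H α] (N : Subgroup H) [N.Normal] (hN : N ≠ ⊥) (hmin : ∀ M : Subgroup H, M.Normal → M ≤ N → M = ⊥ ∨ M = N) (a : α) (X : Subgroup H) (hX : X ≤ N) (hKX : MulAction.stabilizer H a ⊓ N ≤ X) (hinv : MulAction.stabilizer H a ≤ Subgroup.normalizer (X : Set H)) : X = MulAction.stabilizer H a ⊓ N ∨ X = N := by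
  by_cases hne : Nontrivial α
  swap
  · haveI := not_nontrivial_iff_subsingleton.1 hne
    refine Or.inl (le_antisymm (le_inf (fun x _ => Subsingleton.elim _ _) hX) hKX)
  set K := MulAction.stabilizer H a with hK
  have hco := MulAction.IsPreprimitive.isCoatom_stabilizer_of_isPreprimitive (G := H) a
  by_cases hle : X ≤ K
  · exact Or.inl (le_antisymm (le_inf hle hX) hKX)
  right
  refine le_antisymm hX fun n hn => ?_
  have htop : K ⊔ X = ⊤ := hco.2 _ (lt_of_le_of_ne le_sup_left fun e => hle (le_sup_right.trans e.ge))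
  have hmem : (n : H) ∈ ((K ⊔ X : Subgroup H) : Set H) := htop ▸ Subgroup.mem_top n
  rw [Subgroup.coe_mul_of_left_le_normalizer_right K X hinv] at hmem
  obtain ⟨k, hk, x, hx, he⟩ := hmem
  have hkN : k ∈ N := by
    have : k = n * x⁻¹ := eq_mul_inv_of_mul_eq he
    rw [this]
    exact N.mul_mem hn (N.inv_mem (hX hx))
  rw [← he]
  exact X.mul_mem (hKX ⟨hk, hkN⟩) hx

end Cfsg.Agent.S0722
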