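import Cfsg.Statements.S0723
import Cfsg.Agent.MinNormal.Burnside

set_option autoImplicit false
open Cfsg

namespace Cfsg.Agent.S0723

open MulAction CfsgLib.MinNormal

/-- A subdirect product of non-abelian simple groups with pairwise different kernels separates coordinates. -/
theorem separate {D : Type*} [Group D] {ι : Type*} {T : ι → Type*} [∀ i, Group (T i)] [∀ i, IsSimpleGroup (T i)]
    (hna : ∀ i, Subgroup.center (T i) = ⊥) (f : ∀ i, D →* T i) (hf : ∀ i, Function.Surjective (f i))
    (hker : ∀ i j, i ≠ j → (f i).ker ≠ (f j).ker) (i : ι) (s : Finset ι) (hs : i ∉ s) :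
    ∃ n : D, f i n ≠ 1 ∧ ∀ j ∈ s, f j n = 1 := by
  classical
  induction s using Finset.induction with
  | empty =>
    obtain ⟨t, ht⟩ := exists_ne (1 : T i)
    obtain ⟨n, rfl⟩ := hf i t
    exact ⟨n, ht, by simp⟩
  | @insert j s hj ih =>
    rw [Finset.mem_insert, not_or] at hs
    obtain ⟨n, hn, hns⟩ := ih hs.2
    let M : Subgroup D := ⨅ (l : ι) (_ : l ∈ s), (f l).ker
    haveI : M.Normal := ⟨fun x hx g => by
      simp only [M, Subgroup.mem_iInf, MonoidHom.mem_ker] at hx ⊢
      intro l hl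
      simp [hx l hl]⟩
    have htop : M.map (f i) = ⊤ :=
      ((Subgroup.Normal.map ‹M.Normal› _ (hf i)).eq_bot_or_eq_top).resolve_left fun hb => hn (by
        have : f i n ∈ M.map (f i) := ⟨n, by simpa [M, Subgroup.mem_iInf, MonoidHom.mem_ker] using hns, rfl⟩
        simpa [hb] using this)
    obtain ⟨a, haj, hai⟩ : ∃ a, f j a = 1 ∧ f i a ≠ 1 := by
      by_contra hc
      push Not at hc
      have hle : (f j).ker ≤ (f i).ker := fun a ha => hc a ha
      rcases ((Subgroup.Normal.map (MonoidHom.normal_ker (f i)) _ (hf j)).eq_bot_or_eq_top) with h | h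
      · exact hker i j hs.1 (le_antisymm (fun a ha => by
          have : f j a ∈ (f i).ker.map (f j) := ⟨a, ha, rfl⟩
          simpa [h] using this) hle)
      · obtain ⟨t, ht⟩ := exists_ne (1 : T i)
        obtain ⟨x, rfl⟩ := hf i t
        have : f j x ∈ (f i).ker.map (f j) := h ▸ Subgroup.mem_top _
        obtain ⟨y, hy, hyx⟩ := this
        apply ht
        have : y⁻¹ * x ∈ (f i).ker := hle (by simp [MonoidHom.mem_ker, hyx])
        simpa [MonoidHom.mem_ker.1 hy, MonoidHom.mem_ker] using this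
    obtain ⟨t, ht⟩ : ∃ t, t * f i a ≠ f i a * t := by
      by_contra hc
      push Not at hc
      exact hai (by rw [← Subgroup.mem_bot, ← hna i]; exact Subgroup.mem_center_iff.2 hc)
    obtain ⟨y, hy, rfl⟩ : t ∈ M.map (f i) := htop ▸ Subgroup.mem_top t
    simp only [SetLike.mem_coe, M, Subgroup.mem_iInf, MonoidHom.mem_ker] at hy
    refine ⟨y * a * y⁻¹ * a⁻¹, ?_, ?_⟩
    · simp only [map_mul, map_inv]
      rw [ne_eq, mul_inv_eq_one, mul_inv_eq_iff_eq_mul]
      exact ht
    · intro l hl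
      rcases Finset.mem_insert.1 hl with rfl | hl
      · simp [haj]
      · simp [hy l hl]

variable {H : Type*} [Group H] [Finite H]

theorem center_eq_bot {T : Type*} [Group T] [IsSimpleGroup T] (h : ¬ IsMulCommutative T) :
    Subgroup.center T = ⊥ :=
  (IsSimpleGroup.eq_bot_or_eq_top_of_normal _ inferInstance).resolve_right fun ht =>
    h ⟨⟨fun a b => (Subgroup.mem_center_iff.1 (ht ▸ Subgroup.mem_top b) a)⟩⟩

/-- The group theoretic form. -/
theorem core (N K : Subgroup H) [N.Normal] (hN : N ≠ ⊥)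
    (hmin : ∀ M : Subgroup H, M.Normal → M ≤ N → M = ⊥ ∨ M = N) (hnab : ¬ IsMulCommutative N)
    (hK : IsCoatom K) (hNK : N ⊔ K = ⊤) :
    ∃ (T : Type) (_ : Group T) (m : ℕ) (e : N ≃* (Fin m → T)), IsSimpleGroup T ∧ ¬ IsMulCommutative T ∧ 0 < m ∧
      ((∃ Kf : Fin m → Subgroup T, (∀ i, Kf i ≠ ⊤) ∧ ∀ n : N, (n : H) ∈ K ↔ ∀ i, e n i ∈ Kf i) ∨
      (∃ (k : ℕ) (c : Fin m → Fin m), 2 ≤ k ∧
        (∀ j : Fin m, Nat.card {i : Fin m // c i = j} = k ∨ Nat.card {i : Fin m // c i = j} = 0) ∧
        ∀ n : N, (n : H) ∈ K ↔ ∀ i j : Fin m, c i = c j → e n i = e n j)) := by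
  classical
  obtain ⟨m, F, hm, hFN, hnorm, hsimple, hconj, hcomm, hind, hsup⟩ := exists_factors N hN hmin
  haveI : ∀ i, IsSimpleGroup (F i) := hsimple
  let φ : (∀ i, F i) ≃* N :=
    (MonoidHom.ofInjective (Subgroup.injective_noncommPiCoprod_of_iSupIndep (hcomm := hcomm) hind)).trans
      (MulEquiv.subgroupCongr (Subgroup.noncommPiCoprod_range.trans hsup))
  have hφ : ∀ j (t : F j), (φ (Pi.mulSingle j t) : H) = t := fun j t =>
    Subgroup.noncommPiCoprod_mulSingle (hcomm := hcomm) j t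
  let i0 : Fin m := ⟨0, hm⟩
  obtain ⟨T, hT, ⟨e'⟩⟩ := exists_small_equiv (F i0)
  have hequiv : ∀ i, Nonempty (F i ≃* T) := fun i => by
    obtain ⟨h, hh⟩ := hconj i i0
    exact ⟨(((F i).equivMapOfInjective _ (MulAut.conj h).injective).trans (MulEquiv.subgroupCongr hh)).trans e'⟩
  let f : ∀ i, F i ≃* T := fun i => (hequiv i).some
  have hTs : IsSimpleGroup T := e'.isSimpleGroup_congr.mp inferInstance
  have hTna : ¬ IsMulCommutative T := by
    intro hc
    apply hnab
    refine ⟨⟨fun a b => φ.symm.injective (funext fun i => (f i).injective ?_)⟩⟩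
    simp only [map_mul, Pi.mul_apply]
    exact hc.1.1 _ _
  have hFna : ∀ i, Subgroup.center (F i) = ⊥ := fun i => center_eq_bot fun hc => hTna
    ⟨⟨fun a b => (f i).symm.injective (by rw [map_mul, map_mul]; exact hc.1.1 _ _)⟩⟩
  -- the projections
  let π : ∀ i, N →* F i := fun i => (Pi.evalMonoidHom (fun j => F j) i).comp φ.symm.toMonoidHom
  have hπ : ∀ i n, π i n = φ.symm n i := fun _ _ => rfl
  -- K permutes the factors
  have hperm : ∀ (h : H) i, ∃ j, (F i).map (MulAut.conj h).toMonoidHom = F j := by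
    intro h i
    set M := (F i).map (MulAut.conj h).toMonoidHom with hM
    have hMN : M ≤ N := by
      rintro _ ⟨x, hx, rfl⟩
      exact ‹N.Normal›.conj_mem x (hFN i hx) h
    haveI : IsSimpleGroup M := ((F i).equivMapOfInjective _ (MulAut.conj h).injective).isSimpleGroup_congr.mp inferInstance
    have hMn : N ≤ Subgroup.normalizer (M : Set H) := le_normalizer_of_conj fun n hn x hx => by
      obtain ⟨y, hy, rfl⟩ := hx
      refine ⟨(h⁻¹ * n * h) * y * (h⁻¹ * n * h)⁻¹, ?_, by simp [mul_assoc]⟩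
      exact (Subgroup.mem_normalizer_iff.mp (hnorm i (by simpa using ‹N.Normal›.conj_mem n hn h⁻¹)) y).mp hy
    obtain ⟨j, hj⟩ : ∃ j, ¬ ∀ x ∈ M, ∀ y ∈ F j, Commute x y := by
      by_contra hc
      push Not at hc
      apply hnab
      obtain ⟨t, ht⟩ := exists_ne (1 : F i)
      exfalso
      refine ht (Subgroup.mem_bot.1 ((hFna i) ▸ Subgroup.mem_center_iff.2 fun s => Subtype.ext ?_))
      have h1 : M ≤ Subgroup.centralizer ((⨆ l, F l : Subgroup H) : Set H) := by
        rw [← Subgroup.le_centralizer_iff]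
        exact iSup_le fun l y hy => Subgroup.mem_centralizer_iff.2 fun x hx => (hc l x hx y hy).eq
      have h2 := Subgroup.mem_centralizer_iff.1 (h1 (⟨t, t.2, rfl⟩ : h * (t : H) * h⁻¹ ∈ M))
        (h * (s : H) * h⁻¹) (hsup.symm ▸ ‹N.Normal›.conj_mem _ (hFN i s.2) h)
      have h3 : h * ((s : H) * t) * h⁻¹ = h * ((t : H) * s) * h⁻¹ := by simpa [mul_assoc] using h2
      exact mul_left_cancel (mul_right_cancel h3)
    refine ⟨j, ?_⟩
    have hne : M ⊓ F j ≠ ⊥ := fun hb => hj fun x hx y hy => commute_of_disjoint'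
      ((hFN j).trans hMn) (hMN.trans (hnorm j)) hb hx hy
    have hIn : N ≤ Subgroup.normalizer ((M ⊓ F j : Subgroup H) : Set H) := le_normalizer_inf hMn (hnorm j)
    have key : ∀ A : Subgroup H, IsSimpleGroup A → A ≤ N → M ⊓ F j ≤ A → M ⊓ F j = A := by
      intro A hA hAN hle
      haveI : ((M ⊓ F j).subgroupOf A).Normal :=
        ⟨fun x hx a => (Subgroup.mem_normalizer_iff.1 (hIn (hAN a.2)) (x : H)).1 hx⟩
      rcases ((inferInstance : ((M ⊓ F j).subgroupOf A).Normal)).eq_bot_or_eq_top with h | h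
      · exact absurd (by rw [Subgroup.subgroupOf_eq_bot, disjoint_iff, inf_eq_left.2 hle] at h; exact h) hne
      · exact le_antisymm hle (Subgroup.subgroupOf_eq_top.1 h)
    rw [← key M inferInstance hMN inf_le_left, key (F j) (hsimple j) (hFN j) inf_le_right]
  choose σ hσ using hperm
  have hFinj : Function.Injective F := fun i j hij => by
    by_contra hne
    have := hind.pairwiseDisjoint hne
    simp only [Function.onFun, hij, disjoint_self] at this
    exact (Subgroup.nontrivial_iff_ne_bot _).1 inferInstance this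
  have hσinj : ∀ h, Function.Injective (σ h) := fun h i j hij =>
    hFinj (Subgroup.map_injective (MulAut.conj h).injective (by rw [hσ, hσ, hij]))
  have htrans : ∀ i j, ∃ k ∈ K, σ k i = j := by
    intro i j
    obtain ⟨h, hh⟩ := hconj i j
    obtain ⟨k, hk, n, hn, rfl⟩ : ∃ k ∈ K, ∃ n ∈ N, k * n = h := by
      have : h ∈ ((K ⊔ N : Subgroup H) : Set H) := by rw [sup_comm, hNK]; trivial
      rw [Subgroup.mul_normal] at this
      exact Set.mem_mul.1 this
    refine ⟨k, hk, hFinj ?_⟩
    rw [← hσ, ← hh, map_mul, show ((MulAut.conj k * MulAut.conj n).toMonoidHom : H →* H) =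
      (MulAut.conj k).toMonoidHom.comp (MulAut.conj n).toMonoidHom from rfl, ← Subgroup.map_map]
    congr 1
    refine le_antisymm (fun x hx => ?_) (map_conj_le (hnorm i) hn)
    exact ⟨n⁻¹ * x * n, by simpa using (Subgroup.mem_normalizer_iff.1 (hnorm i (N.inv_mem hn)) x).1 hx,
      by simp [mul_assoc]⟩
  let cN : H → N →* N := fun h => (MulAut.conjNormal h : MulAut N).toMonoidHom
  have hequi : ∀ h i (n : N), (π (σ h i) (cN h n) : H) = h * (π i n : H) * h⁻¹ := by
    intro h i
    have : ((F (σ h i)).subtype.comp ((π (σ h i)).comp ((cN h).comp φ.toMonoidHom))) =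
        ((MulAut.conj h).toMonoidHom.comp ((F i).subtype.comp (Pi.evalMonoidHom (fun j => F j) i))) := by
      refine MonoidHom.pi_ext fun j t => ?_
      have ht : h * (t : H) * h⁻¹ ∈ F (σ h j) := hσ h j ▸ ⟨t, t.2, rfl⟩
      have e1 : cN h (φ (Pi.mulSingle j t)) = φ (Pi.mulSingle (σ h j) ⟨_, ht⟩) := by
        refine Subtype.ext ?_
        rw [hφ]
        show ((MulAut.conjNormal h (φ (Pi.mulSingle j t)) : N) : H) = _
        rw [MulAut.conjNormal_apply, hφ]
      simp only [MonoidHom.comp_apply, MulEquiv.coe_toMonoidHom, Subgroup.coe_subtype, Pi.evalMonoidHom_apply, hπ, e1,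
        MulEquiv.symm_apply_apply, MulAut.conj_apply]
      by_cases hij : j = i
      · subst hij; simp
      · rw [Pi.mulSingle_eq_of_ne (fun e => hij (hσinj h e).symm), Pi.mulSingle_eq_of_ne (Ne.symm hij)]
        simp
    intro n
    have := DFunLike.congr_fun this (φ.symm n)
    simpa [MulAut.conj_apply, hπ] using this
  -- maximality
  let D : Subgroup N := K.subgroupOf N
  have hDne : D ≠ ⊤ := fun h => hK.1 (by
    rw [← hNK, eq_comm, sup_eq_right]; exact Subgroup.subgroupOf_eq_top.1 h)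
  have hmax : ∀ L : Subgroup N, D ≤ L → (∀ k ∈ K, ∀ n ∈ L, cN k n ∈ L) → L ≠ ⊤ → L = D := by
    intro L hDL hinv hne
    have hn : K ≤ Subgroup.normalizer ((L.map N.subtype : Subgroup H) : Set H) := le_normalizer_of_conj
      fun k hk x hx => by
        obtain ⟨n, hn, rfl⟩ := hx
        exact ⟨cN k n, hinv k hk n hn, MulAut.conjNormal_apply k n⟩
    refine le_antisymm ?_ hDL
    rcases hK.le_iff.1 (le_sup_right : K ≤ L.map N.subtype ⊔ K) with h | h
    · exfalso
      refine hne (eq_top_iff.2 fun n _ => ?_)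
      have h' : (n : H) ∈ ((K ⊔ L.map N.subtype : Subgroup H) : Set H) := by rw [sup_comm, h]; trivial
      rw [Subgroup.coe_mul_of_left_le_normalizer_right _ _ hn] at h'
      obtain ⟨k, hk, _, ⟨l, hl, rfl⟩, hkl⟩ := Set.mem_mul.1 h'
      have hkN : k ∈ N := by
        rw [show k = (n : H) * (l : H)⁻¹ by rw [← hkl, Subgroup.subtype_apply, mul_inv_cancel_right]]
        exact N.mul_mem n.2 (N.inv_mem l.2)
      have : n = ⟨k, hkN⟩ * l := Subtype.ext hkl.symm
      rw [this]
      exact L.mul_mem (hDL hk) hl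
    · intro n hn'
      show (n : H) ∈ K
      rw [← h]
      exact Subgroup.mem_sup_left ⟨n, hn', rfl⟩
  have hDinv : ∀ k ∈ K, ∀ n ∈ D, cN k n ∈ D := fun k hk n hn => by
    show ((MulAut.conjNormal k n : N) : H) ∈ K
    rw [MulAut.conjNormal_apply]
    exact K.mul_mem (K.mul_mem hk hn) (K.inv_mem hk)
  have hfull : ∀ i, D.map (π i) ≠ ⊤ → ∀ j, D.map (π j) ≠ ⊤ := by
    intro i hi j htop
    obtain ⟨k, hk, rfl⟩ := htrans j i
    refine hi (eq_top_iff.2 fun x _ => ?_)
    obtain ⟨y, hy, hyx⟩ : (x : H) ∈ (F j).map (MulAut.conj k).toMonoidHom := by rw [hσ k j]; exact x.2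
    obtain ⟨n, hn, hny⟩ : (⟨y, hy⟩ : F j) ∈ D.map (π j) := htop ▸ Subgroup.mem_top _
    refine ⟨cN k n, hDinv k hk n hn, Subtype.ext ?_⟩
    rw [hequi, hny]
    exact hyx
  by_cases hA : ∃ i, D.map (π i) ≠ ⊤
  · obtain ⟨i, hi⟩ := hA
    let L : Subgroup N := ⨅ j, (D.map (π j)).comap (π j)
    have hL : L = D := by
      refine hmax L (le_iInf fun j => Subgroup.le_comap_map _ _) ?_ ?_
      · intro k hk n hn
        simp only [L, Subgroup.mem_iInf, Subgroup.mem_comap] at hn ⊢
        intro j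
        obtain ⟨j, rfl⟩ := Finite.surjective_of_injective (hσinj k) j
        obtain ⟨d, hd, hdn⟩ := hn j
        refine ⟨cN k d, hDinv k hk d hd, Subtype.ext ?_⟩
        rw [hequi, hequi, hdn]
      · intro htop
        refine hi (eq_top_iff.2 fun x _ => ?_)
        have : φ (Pi.mulSingle i x) ∈ (⊤ : Subgroup N) := trivial
        rw [← htop] at this
        simp only [L, Subgroup.mem_iInf, Subgroup.mem_comap] at this
        simpa [hπ] using this i
    refine ⟨T, hT, m, φ.symm.trans (MulEquiv.piCongrRight f), hTs, hTna, hm, Or.inl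
      ⟨fun j => (D.map (π j)).map (f j).toMonoidHom, fun j hj => hfull i hi j ?_, fun n => ?_⟩⟩
    · apply Subgroup.map_injective (f := (f j).toMonoidHom) (f j).injective
      rw [Subgroup.map_top_of_surjective (f j).toMonoidHom (f j).surjective]
      exact hj
    · show n ∈ D ↔ _
      refine (SetLike.ext_iff.1 hL n).symm.trans ?_
      simp only [L, Subgroup.mem_iInf, Subgroup.mem_comap]
      refine forall_congr' fun j => ?_
      exact (Subgroup.mem_map_iff_mem (f := (f j).toMonoidHom) (f j).injective).symm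
  push Not at hA
  let ψ : ∀ i, D →* F i := fun i => (π i).comp D.subtype
  have hψ : ∀ i, Function.Surjective (ψ i) := fun i x => by
    obtain ⟨n, hn, rfl⟩ : x ∈ D.map (π i) := (hA i).symm ▸ Subgroup.mem_top x
    exact ⟨⟨n, hn⟩, rfl⟩
  let P : Fin m → Subgroup D := fun i => (ψ i).ker
  -- the partition
  have hex : ∀ i, ∃ j, P j = P i := fun i => ⟨i, rfl⟩
  let c : Fin m → Fin m := fun i => Fin.find (fun j => P j = P i) (hex i)
  have hcP : ∀ i, P (c i) = P i := fun i => Fin.find_spec (hex i)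
  have hceq : ∀ i j, c i = c j ↔ P i = P j := by
    intro i j
    refine ⟨fun h => by rw [← hcP i, h, hcP j], fun h => ?_⟩
    simp only [c, h]
  have hθ : ∀ i, ∃ θ : F i ≃* F (c i), ∀ d : D, θ (ψ i d) = ψ (c i) d := fun i => by
    refine ⟨((QuotientGroup.quotientKerEquivOfSurjective (ψ i) (hψ i)).symm.trans
      (QuotientGroup.quotientMulEquivOfEq (hcP i).symm)).trans
      (QuotientGroup.quotientKerEquivOfSurjective (ψ (c i)) (hψ (c i))), fun d => ?_⟩
    have : (QuotientGroup.quotientKerEquivOfSurjective (ψ i) (hψ i)).symm (ψ i d) = (d : D ⧸ (ψ i).ker) := by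
      rw [MulEquiv.symm_apply_eq]; rfl
    simp only [MulEquiv.trans_apply, this]
    rfl
  choose θ hθ using hθ
  let L : Subgroup N :=
    { carrier := {n | ∀ i j, P i = P j → ∃ d : D, ψ i d = π i n ∧ ψ j d = π j n}
      one_mem' := fun i j _ => ⟨1, by simp, by simp⟩
      mul_mem' := fun {a b} ha hb i j hij => by
        obtain ⟨d, h1, h2⟩ := ha i j hij
        obtain ⟨d', h1', h2'⟩ := hb i j hij
        exact ⟨d * d', by simp [h1, h1'], by simp [h2, h2']⟩
      inv_mem' := fun {a} ha i j hij => by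
        obtain ⟨d, h1, h2⟩ := ha i j hij
        exact ⟨d⁻¹, by simp [h1], by simp [h2]⟩ }
  have hPk : ∀ k (hk : k ∈ K) i (d : D), d ∈ P i ↔ (⟨cN k d, hDinv k hk d d.2⟩ : D) ∈ P (σ k i) := by
    intro k hk i d
    show π i (d : N) = 1 ↔ π (σ k i) (cN k d) = 1
    rw [Subtype.ext_iff, Subtype.ext_iff (a1 := π (σ k i) _), hequi]
    simp
  have hPσ : ∀ k ∈ K, ∀ i j, P (σ k i) = P (σ k j) ↔ P i = P j := by
    intro k hk i j
    constructor
    · intro h
      ext d
      rw [hPk k hk i, hPk k hk j, h]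
    · intro h
      ext d
      have hd' : (⟨cN k⁻¹ d, hDinv _ (K.inv_mem hk) d d.2⟩ : D) ∈ P i ↔ (⟨cN k⁻¹ d, hDinv _ (K.inv_mem hk) d d.2⟩ : D) ∈ P j := by rw [h]
      rw [hPk k hk i, hPk k hk j] at hd'
      have e : cN k (cN k⁻¹ (d : N)) = d := Subtype.ext (by
        show ((MulAut.conjNormal k (MulAut.conjNormal k⁻¹ (d : N)) : N) : H) = _
        simp [MulAut.conjNormal_apply, mul_assoc])
      simpa only [e, Subtype.coe_eta] using hd'
  have hLD : L = D := by
    refine hmax L (fun n hn i j _ => ⟨⟨n, hn⟩, rfl, rfl⟩) ?_ ?_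
    · intro k hk n hn i j hij
      obtain ⟨i, rfl⟩ := Finite.surjective_of_injective (hσinj k) i
      obtain ⟨j, rfl⟩ := Finite.surjective_of_injective (hσinj k) j
      obtain ⟨d, h1, h2⟩ := hn i j ((hPσ k hk i j).1 hij)
      refine ⟨⟨cN k d, hDinv k hk d d.2⟩, Subtype.ext ?_, Subtype.ext ?_⟩
      · show (π (σ k i) (cN k d) : H) = _
        rw [hequi, hequi]; exact congrArg (fun x : F i => k * (x : H) * k⁻¹) h1
      · show (π (σ k j) (cN k d) : H) = _
        rw [hequi, hequi]; exact congrArg (fun x : F j => k * (x : H) * k⁻¹) h2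
    · intro htop
      by_cases hP : ∀ i j, i ≠ j → P i ≠ P j
      · refine hDne (eq_top_iff.2 ?_)
        have hle : ∀ i (x : F i), φ (Pi.mulSingle i x) ∈ D := by
          intro i
          obtain ⟨d, hd, hd'⟩ := separate hFna ψ hψ hP i (Finset.univ.erase i) (by simp)
          let R : Subgroup (F i) := D.comap (φ.toMonoidHom.comp (MonoidHom.mulSingle (fun j => F j) i))
          have hde : φ (Pi.mulSingle i (ψ i d)) = (d : N) := φ.symm.injective (funext fun j => by
            rw [MulEquiv.symm_apply_apply]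
            by_cases hji : j = i
            · subst hji; rw [Pi.mulSingle_eq_same]; rfl
            · rw [Pi.mulSingle_eq_of_ne hji]; exact (hd' j (by simp [hji])).symm)
          haveI : R.Normal := ⟨fun x hx g => by
            obtain ⟨a, rfl⟩ := hψ i g
            show φ (Pi.mulSingle i (ψ i a * x * (ψ i a)⁻¹)) ∈ D
            have : φ (Pi.mulSingle i (ψ i a * x * (ψ i a)⁻¹)) = (a : N) * φ (Pi.mulSingle i x) * (a : N)⁻¹ := by
              apply φ.symm.injective
              simp only [map_mul, map_inv, MulEquiv.symm_apply_apply]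
              funext j
              by_cases hji : j = i
              · subst hji; simp [ψ, hπ]
              · simp [Pi.mulSingle_eq_of_ne hji]
            rw [this]
            exact D.mul_mem (D.mul_mem a.2 hx) (D.inv_mem a.2)⟩
          have hRt : R = ⊤ := (‹R.Normal›.eq_bot_or_eq_top).resolve_left fun hb => hd (by
            have : ψ i d ∈ R := show φ (Pi.mulSingle i (ψ i d)) ∈ D by rw [hde]; exact d.2
            simpa [hb] using this)
          exact fun x => (hRt ▸ Subgroup.mem_top x : x ∈ R)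
        intro n _
        have hcov : φ.symm n ∈ D.comap φ.toMonoidHom :=
          Subgroup.pi_mem_of_mulSingle_mem _ fun i => hle i _
        simpa using hcov
      · push Not at hP
        obtain ⟨i, j, hij, hPij⟩ := hP
        obtain ⟨x, hx⟩ := exists_ne (1 : F i)
        obtain ⟨d, h1, h2⟩ := (htop.symm ▸ Subgroup.mem_top (φ (Pi.mulSingle i x)) : φ (Pi.mulSingle i x) ∈ L) i j hPij
        simp only [hπ, MulEquiv.symm_apply_apply, Pi.mulSingle_eq_same, Pi.mulSingle_eq_of_ne hij.symm] at h1 h2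
        have hdj : d ∈ P j := h2
        rw [← hPij] at hdj
        exact hx (h1 ▸ hdj)
  refine ⟨T, hT, m, φ.symm.trans (MulEquiv.piCongrRight fun i => (θ i).trans (f (c i))), hTs, hTna, hm, Or.inr
    ⟨Nat.card {i // c i = c i0}, c, ?_, fun j => ?_, fun n => ?_⟩⟩
  · obtain ⟨i, j, hij, hPij⟩ : ∃ i j, i ≠ j ∧ P i = P j := by
      by_contra hc
      push Not at hc
      refine hDne (eq_top_iff.2 fun n _ => ?_)
      rw [← hLD]
      intro i j hij
      by_cases h : i = j
      · subst h
        obtain ⟨d, hd⟩ := hψ i (π i n)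
        exact ⟨d, hd, hd⟩
      · exact absurd hij (hc i j h)
    obtain ⟨k, hk, hki⟩ := htrans i i0
    haveI : Nontrivial {l // c l = c i0} := ⟨⟨⟨σ k i, by rw [hki]⟩, ⟨σ k j, by
      rw [hceq, ← hki, hPσ k hk]; exact hPij.symm⟩, fun e => hij (hσinj k (congrArg Subtype.val e))⟩⟩
    exact Finite.one_lt_card
  · by_cases hj : ∃ i, c i = j
    · left
      obtain ⟨i, rfl⟩ := hj
      obtain ⟨k, hk, hki⟩ := htrans i i0
      let σe : Fin m ≃ Fin m := Equiv.ofBijective (σ k) ⟨hσinj k, Finite.surjective_of_injective (hσinj k)⟩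
      refine Nat.card_congr (σe.subtypeEquiv fun l => ?_)
      show c l = c i ↔ c (σ k l) = c i0
      rw [hceq, hceq, ← hki, hPσ k hk]
    · right
      push Not at hj
      haveI : IsEmpty {i // c i = j} := ⟨fun i => hj i.1 i.2⟩
      exact Nat.card_of_isEmpty
  · show n ∈ D ↔ _
    constructor
    · intro hn i j hij
      show f (c i) (θ i (ψ i ⟨n, hn⟩)) = f (c j) (θ j (ψ j ⟨n, hn⟩))
      rw [hθ, hθ, hij]
    · intro hn
      rw [← hLD]
      intro i j hij
      obtain ⟨d, hd⟩ := hψ i (π i n)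
      refine ⟨d, hd, (θ j).injective ?_⟩
      have h1 : f (c i) (θ i (π i n)) = f (c j) (θ j (π j n)) := hn i j ((hceq i j).2 hij)
      rw [← hd, hθ] at h1
      apply (f (c j)).injective
      rw [← h1, hθ, (hceq i j).2 hij]
where
  commute_of_disjoint' {A B : Subgroup H} (hA : B ≤ Subgroup.normalizer (A : Set H))
      (hB : A ≤ Subgroup.normalizer (B : Set H)) (hd : A ⊓ B = ⊥) {x y : H} (hx : x ∈ A) (hy : y ∈ B) :
      Commute x y := CfsgLib.MinNormal.commute_of_disjoint hA hB hd hx hy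

/-- The core of the O'Nan–Scott Theorem. Let `H` be a primitive permutation group on a finite set whose unique minimal normal subgroup `N` is non-abelian, and `K` a point stabiliser. Then there are a non-abelian simple group `T` and an isomorphism `N ≃* T^m` (`m ≥ 1`) under which `K ⊓ N` becomes either a product `∏ K_i` of proper subgroups `K_i < T`, or the set of functions constant on each block of a partition of the index set into blocks of one common size `k ≥ 2`. -/
theorem result {α : Type*} [Finite α] (H : Subgroup (Equiv.Perm α)) [MulAction.IsPreprimitive H α] (N : Subgroup H) [N.Normal] (hN : N ≠ ⊥) (hmin : ∀ M : Subgroup H, M.Normal → M ≤ N → M = ⊥ ∨ M = N) (huniq : ∀ L : Subgroup H, L.Normal → L ≠ ⊥ → (∀ M : Subgroup H, M.Normal → M ≤ L → M = ⊥ ∨ M = L) → L = N) (hnab : ¬ IsMulCommutative N) (a : α) : ∃ (T : Type) (_ : Group T) (m : ℕ) (e : N ≃* (Fin m → T)), IsSimpleGroup T ∧ ¬ IsMulCommutative T ∧ 0 < m ∧ ((∃ K : Fin m → Subgroup T, (∀ i, K i ≠ ⊤) ∧ ∀ n : N, (n :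 H) ∈ MulAction.stabilizer H a ↔ ∀ i, e n i ∈ K i) ∨ (∃ (k : ℕ) (c : Fin m → Fin m), 2 ≤ k ∧ (∀ j : Fin m, Nat.card {i : Fin m // c i = j} = k ∨ Nat.card {i : Fin m // c i = j} = 0) ∧ ∀ n : N, (n : H) ∈ MulAction.stabilizer H a ↔ ∀ i j : Fin m, c i = c j → e n i = e n j)) := by
  classical
  haveI : Nontrivial α := by
    rw [← not_subsingleton_iff_nontrivial]
    intro hs
    exact hN (Subgroup.eq_bot_iff_forall _ |>.2 fun x _ => Subtype.ext (Equiv.ext fun z => Subsingleton.elim _ _))
  haveI : MulAction.IsPretransitive N α := by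
    refine MulAction.IsQuasiPreprimitive.isPretransitive_of_normal (G := H) ?_
    intro hfix
    refine hN ((Subgroup.eq_bot_iff_forall N).2 fun x hx => Subtype.ext (Equiv.ext fun z => ?_))
    exact (Set.eq_univ_iff_forall.1 hfix z) ⟨x, hx⟩
  refine core N (MulAction.stabilizer H a) hN hmin hnab
    (MulAction.IsPreprimitive.isCoatom_stabilizer_of_isPreprimitive (G := H) a) (eq_top_iff.2 fun h _ => ?_)
  obtain ⟨n, hn⟩ := MulAction.exists_smul_eq N a (h • a)
  have : h = (n : H) * ((n : H)⁻¹ * h) := by group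
  rw [this]
  refine Subgroup.mul_mem_sup n.2 (MulAction.mem_stabilizer_iff.2 ?_)
  rw [mul_smul, inv_smul_eq_iff]
  exact hn.symm

end Cfsg.Agent.S0723
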