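import Cfsg.Statements.S0724
import Mathlib


set_option autoImplicit false
open Cfsg

namespace Cfsg.Agent.S0724

/-- Blichfeldt's Theorem: if a finite set `L` of natural numbers contains the number of fixed points of every non-identity element of a permutation group `G` of degree `n`, then the order of `G` divides `∏ (n - l)` over `l ∈ L`. -/
theorem result {α : Type*} [Fintype α] [DecidableEq α] (G : Subgroup (Equiv.Perm α)) (L : Finset ℕ) (hL : ∀ g ∈ G, g ≠ 1 → Nat.card (MulAction.fixedBy α g) ∈ L) : Nat.card G ∣ ∏ l ∈ L, (Fintype.card α - l) := by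
  classical
  by_cases hbig : ∃ l ∈ L, Fintype.card α ≤ l
  · obtain ⟨l, hl, hle⟩ := hbig
    rw [Finset.prod_eq_zero hl (Nat.sub_eq_zero_of_le hle)]
    exact dvd_zero _
  push Not at hbig
  let Q : Polynomial ℤ := ∏ l ∈ L, (Polynomial.X - Polynomial.C (l : ℤ))
  let fx : G → ℕ := fun g => Nat.card (MulAction.fixedBy α g)
  have hpow : ∀ j : ℕ, (Nat.card G : ℤ) ∣ ∑ g : G, (fx g : ℤ) ^ j := by
    intro j
    have h := MulAction.sum_card_fixedBy_eq_card_orbits_mul_card_group G (Fin j → α)
    have he : ∀ g : G, Fintype.card (MulAction.fixedBy (Fin j → α) g) = fx g ^ j := by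
      intro g
      rw [← Nat.card_eq_fintype_card]
      have := Nat.card_congr
        ({ toFun := fun f i => ⟨f.1 i, congrFun f.2 i⟩
           invFun := fun f => ⟨fun i => (f i).1, funext fun i => (f i).2⟩
           left_inv := fun _ => rfl
           right_inv := fun _ => rfl } :
          MulAction.fixedBy (Fin j → α) g ≃ (Fin j → MulAction.fixedBy α g))
      rw [this, Nat.card_fun, Nat.card_fin]
    rw [Finset.sum_congr rfl (fun g _ => he g), ← Nat.card_eq_fintype_card (α := G)] at h
    have h' : ((∑ g : G, fx g ^ j : ℕ) : ℤ) = _ := congrArg Nat.cast h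
    push_cast at h'
    rw [h']
    exact dvd_mul_left _ _
  have hsum : (Nat.card G : ℤ) ∣ ∑ g : G, Q.eval (fx g : ℤ) := by
    simp only [Polynomial.eval_eq_sum_range]
    rw [Finset.sum_comm]
    refine Finset.dvd_sum fun j _ => ?_
    rw [← Finset.mul_sum]
    exact (hpow j).mul_left _
  have hQ : ∀ g : G, Q.eval (fx g : ℤ) = if g = 1 then ∏ l ∈ L, ((Fintype.card α : ℤ) - l) else 0 := by
    intro g
    simp only [Q, Polynomial.eval_prod, Polynomial.eval_sub, Polynomial.eval_X, Polynomial.eval_C]
    split
    · next h =>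
      subst h
      have : fx 1 = Fintype.card α := by
        simp only [fx]
        rw [← Nat.card_eq_fintype_card]
        exact Nat.card_congr ((Equiv.setCongr (MulAction.fixedBy_one_eq_univ α G)).trans (Equiv.Set.univ α))
      rw [this]
    · next h =>
      refine Finset.prod_eq_zero (hL g g.2 fun e => h (Subtype.ext e)) ?_
      exact sub_self _
  rw [Finset.sum_congr rfl (fun g _ => hQ g), Finset.sum_ite_eq' Finset.univ (1 : G), if_pos (Finset.mem_univ _)] at hsum
  rw [← Int.natCast_dvd_natCast, Nat.cast_prod]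
  rwa [Finset.prod_congr rfl (fun l hl => Nat.cast_sub (R := ℤ) (hbig l hl).le)]

end Cfsg.Agent.S0724
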