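import Cfsg.Statements.S0726
import Mathlib

set_option autoImplicit false
open Cfsg

namespace Cfsg.Agent.S0726

/-- The left and right regular permutation representations of a group are each other's centralisers in the symmetric group: the centraliser of the left regular image is the right regular image, and a transitive subgroup centralising the left regular image is the whole right regular image. -/
theorem result {G : Type*} [Group G] : Subgroup.centralizer ((MulAction.toPermHom G G).range : Set (Equiv.Perm G)) = (MulAction.toPermHom Gᵐᵒᵖ G).range ∧ ∀ H : Subgroup (Equiv.Perm G), H ≤ Subgroup.centralizer ((MulAction.toPermHom G G).range : Set (Equiv.Perm G)) → MulAction.IsPretransitive H G → H = (MulAction.toPermHom Gᵐᵒᵖ G).range := by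
  have key : ∀ c ∈ Subgroup.centralizer ((MulAction.toPermHom G G).range : Set (Equiv.Perm G)),
      ∀ x : G, c x = x * c 1 := by
    intro c hc x
    have := Equiv.ext_iff.mp (Subgroup.mem_centralizer_iff.mp hc _ ⟨x, rfl⟩) 1
    simpa using this.symm
  have h1 : Subgroup.centralizer ((MulAction.toPermHom G G).range : Set (Equiv.Perm G)) =
      (MulAction.toPermHom Gᵐᵒᵖ G).range := by
    apply le_antisymm
    · intro c hc
      refine ⟨MulOpposite.op (c 1), Equiv.ext fun x => ?_⟩
      simp [key c hc x]
    · rintro _ ⟨g, rfl⟩
      rw [Subgroup.mem_centralizer_iff]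
      rintro _ ⟨h, rfl⟩
      ext x
      simp [mul_assoc]
  refine ⟨h1, fun H hH ht => le_antisymm (h1 ▸ hH) ?_⟩
  rintro _ ⟨g, rfl⟩
  obtain ⟨h, hh⟩ := ht.exists_smul_eq (1 : G) g.unop
  have : MulAction.toPermHom Gᵐᵒᵖ G g = (h : Equiv.Perm G) := by
    refine Equiv.ext fun x => ?_
    rw [key _ (hH h.2) x, show (h : Equiv.Perm G) 1 = g.unop from hh]
    simp
  rw [this]
  exact h.2

end Cfsg.Agent.S0726
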