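import Cfsg.Statements.S0727
import Cfsg.Agent.CA.SharpThree
import Cfsg.Agent.CA.PSLTwo

set_option autoImplicit false
open Cfsg

namespace Cfsg.Agent.S0727

/-- A sharply triply transitive permutation group of degree `2^f + 1` is isomorphic to the projective general linear group of degree 2 over the field with `2^f` elements. -/
theorem result {α : Type*} [Fintype α] [DecidableEq α] {f : ℕ} (hf : 1 ≤ f) (hα : Fintype.card α = 2 ^ f + 1) (G : Subgroup (Equiv.Perm α)) (h3 : MulAction.IsMultiplyPretransitive G α 3) (hsharp : ∀ x : Fin 3 ↪ α, MulAction.stabilizer G x = ⊥) : ∃ (F : Type) (_ : Field F) (_ : Fintype F), Fintype.card F = 2 ^ f ∧ Nonempty (G ≃* Matrix.ProjGenLinGroup (Fin 2) F) := by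
  classical
  haveI := h3
  have hc : Nat.card α = 2 ^ f + 1 := by rw [Nat.card_eq_fintype_card, hα]
  by_cases hf2 : 2 ≤ f
  · obtain ⟨F, hF, hFf, hcard, ⟨φ⟩⟩ := CfsgLib.CA.iso_psl_of_sharp_three (G := G) hsharp hf2 hc
    have h2 : (2 : F) = 0 := by
      haveI : Fact (Nat.Prime 2) := ⟨Nat.prime_two⟩
      haveI : CharP F 2 := charP_of_card_eq_prime_pow hcard
      exact CharTwo.two_eq_zero
    obtain ⟨ψ⟩ := CfsgLib.H29.Dickson.PGL_iso_PSL (K := F) h2
    exact ⟨F, hF, hFf, hcard, ⟨φ.trans ψ.symm⟩⟩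
  · obtain rfl : f = 1 := by omega
    haveI : Fact (Nat.Prime 2) := ⟨Nat.prime_two⟩
    have hG := CfsgLib.CA.card_sharp_three (G := G) hsharp (q := 2) hc le_rfl
    have htop : G = ⊤ := Subgroup.eq_top_of_card_eq G (by
      rw [hG, Nat.card_eq_fintype_card, Fintype.card_perm, hα]; rfl)
    obtain ⟨ψ⟩ := CfsgLib.SLn.sl_iso_perm_of_card_two (ZMod 2) (ZMod.card 2)
    obtain ⟨χ⟩ := CfsgLib.H29.Dickson.PGL_iso_PSL (K := ZMod 2) CharTwo.two_eq_zero
    let e1 : G ≃* Equiv.Perm (Fin 3) := ((MulEquiv.subgroupCongr htop).trans Subgroup.topEquiv).trans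
      (Equiv.permCongrHom (Fintype.equivFinOfCardEq hα))
    let e2 : Matrix.SpecialLinearGroup (Fin 2) (ZMod 2) ≃*
        Matrix.ProjectiveSpecialLinearGroup (Fin 2) (ZMod 2) :=
      QuotientGroup.quotientBot.symm.trans
        (QuotientGroup.quotientMulEquivOfEq CfsgLib.CA.sl_center_eq_bot.symm)
    exact ⟨ZMod 2, inferInstance, inferInstance, ZMod.card 2, ⟨((e1.trans ψ.symm).trans e2).trans χ.symm⟩⟩

end Cfsg.Agent.S0727
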