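import Cfsg.Statements.S0728
import Mathlib
import Cfsg.Agent.CA.SharpThree
import Cfsg.Agent.SharpTwo.Basic

set_option autoImplicit false
open Cfsg

namespace Cfsg.Agent.S0728

/-- In a sharply triply transitive group of even degree at least 6 (degree `q + 1`, `q` odd), a two-point stabiliser has at most one subgroup of order 3. -/
theorem result {α : Type*} [Fintype α] [DecidableEq α] (heven : Even (Fintype.card α)) (h6 : 6 ≤ Fintype.card α) (G : Subgroup (Equiv.Perm α)) (h3 : MulAction.IsMultiplyPretransitive G α 3) (hsharp : ∀ x : Fin 3 ↪ α, MulAction.stabilizer G x = ⊥) {a b : α} (hab : a ≠ b) (A B : Subgroup G) (hA : A ≤ MulAction.stabilizer G a ⊓ MulAction.stabilizer G b) (hB : B ≤ MulAction.stabilizer G a ⊓ MulAction.stabilizer G b) (hA3 : Nat.card A = 3) (hB3 : Nat.card B = 3) : A = B := by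
  classical
  haveI := h3
  haveI : Fact (Nat.Prime 3) := ⟨Nat.prime_three⟩
  have hc5 : 6 ≤ Nat.card α := by rwa [Nat.card_eq_fintype_card]
  set K := MulAction.stabilizer G a ⊓ MulAction.stabilizer G b with hK
  have heq3 := fun {g : G} {p q r : α} => CfsgLib.CA.eq_one_of_fix_three (G := G) hsharp (g := g) (a := p) (b := q) (c := r)
  have hfixK : ∀ g ∈ K, g ≠ 1 → ∀ c : α, g • c = c → c = a ∨ c = b := by
    intro g hg hg1 c hc
    by_contra hne
    push Not at hne
    exact hg1 (heq3 hab (Ne.symm hne.1) (Ne.symm hne.2) hg.1 hg.2 hc)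
  obtain ⟨c, hca, hcb⟩ : ∃ c : α, c ≠ a ∧ c ≠ b := by
    by_contra hcon
    push Not at hcon
    have : Fintype.card α ≤ 2 := by
      refine (Finset.card_le_card (fun x _ => ?_ : (Finset.univ : Finset α) ⊆ {a, b})).trans Finset.card_le_two
      by_cases hx : x = a
      · simp [hx]
      · simp [hcon x hx]
    omega
  obtain ⟨w, hwa, hwb, hwc⟩ : ∃ w : G, w • a = b ∧ w • b = a ∧ w • c = c := by
    let u : Fin 3 ↪ α := ⟨![a, b, c], by
      intro i j h
      fin_cases i <;> fin_cases j <;> simp [hab, hca, hcb, hab.symm, hca.symm, hcb.symm] at h ⊢⟩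
    let v : Fin 3 ↪ α := ⟨![b, a, c], by
      intro i j h
      fin_cases i <;> fin_cases j <;> simp [hab, hca, hcb, hab.symm, hca.symm, hcb.symm] at h ⊢⟩
    obtain ⟨w, hw⟩ := MulAction.exists_smul_eq G u v
    exact ⟨w, congrArg (fun f : Fin 3 ↪ α => f 0) hw, congrArg (fun f : Fin 3 ↪ α => f 1) hw,
      congrArg (fun f : Fin 3 ↪ α => f 2) hw⟩
  -- every element of order three of `K` is inverted by `w`
  have hinv : ∀ x ∈ K, orderOf x = 3 → w * x * w⁻¹ = x⁻¹ := by
    intro x hx ho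
    have hx1 : x ≠ 1 := fun e => by rw [e, orderOf_one] at ho; omega
    have hx2 : x * x ≠ 1 := fun e => by
      have := orderOf_dvd_of_pow_eq_one (show x ^ 2 = 1 by rw [pow_two, e])
      rw [ho] at this; omega
    have hx3 : x * (x * x) = 1 := by
      have := pow_orderOf_eq_one x
      rw [ho] at this
      rwa [pow_succ', pow_two] at this
    have hxc : x • c ≠ c := fun e => (hfixK x hx hx1 c e).elim hca hcb
    have hxxc : (x * x) • c ≠ c := fun e => (hfixK _ (mul_mem hx hx) hx2 c e).elim hca hcb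
    have hxne : x • c ≠ (x * x) • c := fun e => by
      rw [mul_smul] at e
      exact hxc (MulAction.injective x e).symm
    let u : Fin 3 ↪ α := ⟨![c, x • c, (x * x) • c], by
      intro i j h
      fin_cases i <;> fin_cases j <;> simp [hxc, hxxc, hxne, hxc.symm, hxxc.symm, hxne.symm] at h ⊢⟩
    let v : Fin 3 ↪ α := ⟨![c, (x * x) • c, x • c], by
      intro i j h
      fin_cases i <;> fin_cases j <;> simp [hxc, hxxc, hxne, hxc.symm, hxxc.symm, hxne.symm] at h ⊢⟩
    obtain ⟨g, hg⟩ := MulAction.exists_smul_eq G u v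
    have hg0 : g • c = c := congrArg (fun f : Fin 3 ↪ α => f 0) hg
    have hg1 : g • (x • c) = (x * x) • c := congrArg (fun f : Fin 3 ↪ α => f 1) hg
    have hg2 : g • ((x * x) • c) = x • c := congrArg (fun f : Fin 3 ↪ α => f 2) hg
    have hgx : x * g * x * g⁻¹ = 1 := by
      refine heq3 hxc.symm hxxc.symm hxne ?_ ?_ ?_
      · have e : g⁻¹ • c = c := inv_smul_eq_iff.2 hg0.symm
        rw [mul_smul, mul_smul, mul_smul, e, hg1, ← mul_smul, hx3, one_smul]
      · have e : g⁻¹ • (x • c) = (x * x) • c := inv_smul_eq_iff.2 hg2.symm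
        rw [mul_smul, mul_smul, mul_smul, e, ← mul_smul x (x * x), hx3, one_smul, hg0]
      · have e : g⁻¹ • ((x * x) • c) = x • c := inv_smul_eq_iff.2 hg1.symm
        rw [mul_smul, mul_smul, mul_smul, e, ← mul_smul x x c, hg2, ← mul_smul]
    have hgconj : g * x * g⁻¹ = x⁻¹ := by
      rw [eq_inv_iff_mul_eq_one]
      calc g * x * g⁻¹ * x = x⁻¹ * (x * g * x * g⁻¹) * x := by group
        _ = 1 := by rw [hgx]; group
    have hgperm : ∀ d : α, (d = a ∨ d = b) → (g • d = a ∨ g • d = b) := by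
      intro d hd
      refine hfixK x hx hx1 _ ?_
      have hxd : x⁻¹ • d = d := by
        rw [inv_smul_eq_iff]
        rcases hd with rfl | rfl
        · exact hx.1.symm
        · exact hx.2.symm
      have e : x * g = g * x⁻¹ := by
        calc x * g = x * g * x * g⁻¹ * (g * x⁻¹) := by group
          _ = g * x⁻¹ := by rw [hgx, one_mul]
      rw [← mul_smul, e, mul_smul, hxd]
    have hga : g • a = b := by
      rcases hgperm a (Or.inl rfl) with h | h
      · exfalso
        have hgb : g • b = b := by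
          rcases hgperm b (Or.inr rfl) with h' | h'
          · exact absurd (MulAction.injective g (h'.trans h.symm)) hab.symm
          · exact h'
        have h1 := heq3 hab hca.symm hcb.symm h hgb hg0
        rw [h1, one_smul] at hg1
        exact hxne hg1
      · exact h
    have hgb : g • b = a := by
      rcases hgperm b (Or.inr rfl) with h | h
      · exact h
      · exact absurd (MulAction.injective g (h.trans hga.symm)) hab.symm
    have hgw : w⁻¹ * g = 1 := by
      refine heq3 hab hca.symm hcb.symm ?_ ?_ ?_ <;> rw [mul_smul, inv_smul_eq_iff]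
      · rw [hga, hwa]
      · rw [hgb, hwb]
      · rw [hg0, hwc]
    rw [inv_mul_eq_one] at hgw
    rw [hgw]; exact hgconj
  obtain ⟨⟨x, hxA⟩, hxo⟩ := exists_prime_orderOf_dvd_card' (G := A) 3 (by rw [hA3])
  obtain ⟨⟨y, hyB⟩, hyo⟩ := exists_prime_orderOf_dvd_card' (G := B) 3 (by rw [hB3])
  rw [Subgroup.orderOf_mk] at hxo hyo
  have hxK : x ∈ K := hA hxA
  have hyK : y ∈ K := hB hyB
  have hxA' : A = Subgroup.zpowers x :=
    (Subgroup.eq_of_le_of_card_ge (Subgroup.zpowers_le.2 hxA) (by rw [Nat.card_zpowers, hxo, hA3])).symm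
  have hyB' : B = Subgroup.zpowers y :=
    (Subgroup.eq_of_le_of_card_ge (Subgroup.zpowers_le.2 hyB) (by rw [Nat.card_zpowers, hyo, hB3])).symm
  have hx3 : x ^ 3 = 1 := hxo ▸ pow_orderOf_eq_one x
  have hy3 : y ^ 3 = 1 := hyo ▸ pow_orderOf_eq_one y
  have hcomm : Commute x y := by
    have hy' : x * y * x⁻¹ ∈ K := mul_mem (mul_mem hxK hyK) (inv_mem hxK)
    have h1 := hinv _ hy' ((MulEquiv.orderOf_eq (MulAut.conj x) y).trans hyo)
    have h2 : x⁻¹ * y⁻¹ * x = x * y⁻¹ * x⁻¹ := by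
      calc x⁻¹ * y⁻¹ * x = (w * x * w⁻¹) * (w * y * w⁻¹) * (w * x * w⁻¹)⁻¹ := by rw [hinv x hxK hxo, hinv y hyK hyo]; group
        _ = w * (x * y * x⁻¹) * w⁻¹ := by group
        _ = x * y⁻¹ * x⁻¹ := by rw [h1]; group
    have h4 : Commute (x * x) y⁻¹ := by
      show x * x * y⁻¹ = y⁻¹ * (x * x)
      calc x * x * y⁻¹ = x * (x * y⁻¹ * x⁻¹) * x := by group
        _ = x * (x⁻¹ * y⁻¹ * x) * x := by rw [h2]
        _ = y⁻¹ * (x * x) := by group
    have hxx : (x * x) * (x * x) = x := by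
      calc (x * x) * (x * x) = x ^ 3 * x := by simp only [pow_succ, pow_zero, one_mul, mul_assoc]
        _ = x := by rw [hx3, one_mul]
    exact hxx ▸ (Commute.inv_right_iff.1 (h4.mul_left h4))
  -- the action on the points other than `a`
  haveI : MulAction.IsPretransitive G α := MulAction.isPretransitive_of_is_two_pretransitive
    (h2 := MulAction.isMultiplyPretransitive_of_le (G := G) (α := α) (m := 2) (n := 3) (by norm_num) (by omega))
  let Ω := SubMulAction.ofStabilizer G a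
  haveI : MulAction.IsMultiplyPretransitive (MulAction.stabilizer G a) Ω 2 :=
    SubMulAction.ofStabilizer.isMultiplyPretransitive.1 inferInstance
  have hΩcard : Nat.card Ω = Nat.card α - 1 := SubMulAction.nat_card_ofStabilizer_eq G a
  have hsharp2 : ∀ u : Fin 2 ↪ Ω, MulAction.stabilizer (MulAction.stabilizer G a) u = ⊥ := by
    intro u
    refine eq_bot_iff.2 fun g hg => ?_
    rw [MulAction.mem_stabilizer_iff] at hg
    have h0 := congrArg (fun f : Fin 2 ↪ Ω => ((f 0 : Ω) : α)) hg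
    have h1 := congrArg (fun f : Fin 2 ↪ Ω => ((f 1 : Ω) : α)) hg
    exact Subgroup.mem_bot.2 (Subtype.ext (heq3 (g := (g : G)) (Ne.symm (u 0).2) (Ne.symm (u 1).2)
      (fun h => absurd (u.injective (Subtype.ext h)) (by decide)) g.2 h0 h1))
  obtain ⟨p, j, N, hp, hj, hpq, hNcard, hNn, hNmem, hNab, hNexp, hNfix, -⟩ :=
    CfsgLib.SharpTwo.exists_regular_normal hsharp2 (by omega)
  let b' : Ω := ⟨b, hab.symm⟩
  have hcjN : ∀ g : MulAction.stabilizer G a, ∀ n ∈ N, g * n * g⁻¹ ∈ N := fun g n hn => hNn.conj_mem n hn g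
  have hfpf : ∀ g : MulAction.stabilizer G a, g ≠ 1 → g • b' = b' → ∀ n ∈ N, g * n * g⁻¹ = n → n = 1 := by
    intro g hg hgb n hn e
    refine hNfix n hn b' ?_
    by_contra hne
    refine hg (CfsgLib.SharpTwo.eq_one_of_fix_two hsharp2 (Ne.symm hne) hgb ?_)
    rw [← mul_smul, mul_inv_eq_iff_eq_mul.1 e, mul_smul, hgb]
  by_contra hAB
  set X : MulAction.stabilizer G a := ⟨x, hxK.1⟩ with hXdef
  set Y : MulAction.stabilizer G a := ⟨y, hyK.1⟩ with hYdef
  have hXY : Commute X Y := Subtype.ext hcomm.eq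
  have hX3 : X ^ 3 = 1 := Subtype.ext hx3
  have hY3 : Y ^ 3 = 1 := Subtype.ext hy3
  have hyA : y ∉ Subgroup.zpowers x := by
    intro h
    refine hAB ?_
    rw [hxA', hyB']
    exact (Subgroup.eq_of_le_of_card_ge (Subgroup.zpowers_le.2 h) (by rw [Nat.card_zpowers, Nat.card_zpowers, hxo, hyo])).symm
  have hb' : ∀ g : MulAction.stabilizer G a, (g : G) ∈ K → g • b' = b' := fun g hg => Subtype.ext hg.2
  -- the norm map of an element of order three is trivial on `N`
  have hnorm : ∀ g : MulAction.stabilizer G a, (g : G) ∈ K → g ≠ 1 → g ^ 3 = 1 → ∀ n ∈ N,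
      n * (g * n * g⁻¹) * (g ^ 2 * n * (g ^ 2)⁻¹) = 1 := by
    intro g hg hg1 hg3 n hn
    refine hfpf g hg1 (hb' g hg) _ (mul_mem (mul_mem hn (hcjN g n hn)) (hcjN _ n hn)) ?_
    have e : g * (g ^ 2 * n * (g ^ 2)⁻¹) * g⁻¹ = n := by
      calc g * (g ^ 2 * n * (g ^ 2)⁻¹) * g⁻¹ = g ^ 3 * n * (g ^ 3)⁻¹ := by rw [pow_succ' g 2]; group
        _ = n := by rw [hg3]; group
    calc g * (n * (g * n * g⁻¹) * (g ^ 2 * n * (g ^ 2)⁻¹)) * g⁻¹
        = (g * n * g⁻¹) * (g ^ 2 * n * (g ^ 2)⁻¹) * (g * (g ^ 2 * n * (g ^ 2)⁻¹) * g⁻¹) := by rw [pow_two]; group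
      _ = (g * n * g⁻¹) * (g ^ 2 * n * (g ^ 2)⁻¹) * n := by rw [e]
      _ = n * (g * n * g⁻¹) * (g ^ 2 * n * (g ^ 2)⁻¹) := by
          rw [hNab _ (mul_mem (hcjN g n hn) (hcjN _ n hn)) n hn]; group
  haveI : IsMulCommutative N := ⟨⟨fun u v => Subtype.ext (hNab u u.2 v v.2)⟩⟩
  have h3n : ∀ n ∈ N, n ^ 3 = 1 := by
    intro n hn
    let φ : MulAction.stabilizer G a → N := fun g => ⟨g * n * g⁻¹, hcjN g n hn⟩
    have hcube : ∀ g : MulAction.stabilizer G a, (g : G) ∈ K → g ≠ 1 → g ^ 3 = 1 → φ 1 * φ g * φ (g ^ 2) = 1 :=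
      fun g hg hg1 hg3 => Subtype.ext (by
        show 1 * n * 1⁻¹ * (g * n * g⁻¹) * (g ^ 2 * n * (g ^ 2)⁻¹) = 1
        rw [one_mul, inv_one, mul_one]; exact hnorm g hg hg1 hg3 n hn)
    have hpowc : ∀ g : MulAction.stabilizer G a, (g : G) ∈ K → g ≠ 1 → g ^ 3 = 1 → ∀ h,
        φ h * φ (g * h) * φ (g ^ 2 * h) = 1 := fun g hg hg1 hg3 h => Subtype.ext (by
      show h * n * h⁻¹ * ((g * h) * n * (g * h)⁻¹) * ((g ^ 2 * h) * n * (g ^ 2 * h)⁻¹) = 1
      have := hnorm g hg hg1 hg3 _ (hcjN h n hn)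
      calc h * n * h⁻¹ * ((g * h) * n * (g * h)⁻¹) * ((g ^ 2 * h) * n * (g ^ 2 * h)⁻¹)
          = h * n * h⁻¹ * (g * (h * n * h⁻¹) * g⁻¹) * (g ^ 2 * (h * n * h⁻¹) * (g ^ 2)⁻¹) := by group
        _ = 1 := this)
    have hne : ∀ i : ℕ, X ^ i * Y ≠ 1 := fun i e => hyA (by
      have e1 : (Y : G) = ((X : G) ^ i)⁻¹ := by
        have := congrArg Subtype.val e
        exact eq_inv_of_mul_eq_one_right this
      show (Y : G) ∈ _
      rw [e1]; exact inv_mem (pow_mem (Subgroup.mem_zpowers _) _))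
    have hKm : ∀ i : ℕ, ((X ^ i * Y : MulAction.stabilizer G a) : G) ∈ K := fun i => mul_mem (pow_mem hxK i) hyK
    have hc3 : ∀ i : ℕ, (X ^ i * Y) ^ 3 = 1 := fun i => by
      rw [(hXY.pow_left i).mul_pow, ← pow_mul, mul_comm, pow_mul, hX3, one_pow, one_mul, hY3]
    have hX1 : X ≠ 1 := fun e => by
      have := congrArg Subtype.val e
      rw [show x = 1 from this, orderOf_one] at hxo; omega
    have sA := hcube X hxK hX1 hX3
    have sY := hpowc Y hyK (by simpa using hne 0) hY3 1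
    have sC := hcube (X ^ 1 * Y) (hKm 1) (hne 1) (hc3 1)
    have sD := hcube (X ^ 2 * Y) (hKm 2) (hne 2) (hc3 2)
    have t1 := hpowc Y hyK (by simpa using hne 0) hY3 X
    have t2 := hpowc Y hyK (by simpa using hne 0) hY3 (X ^ 2)
    have hX4 : X ^ 4 = X := by rw [pow_succ, hX3, one_mul]
    have eC : (X ^ 1 * Y) ^ 2 = Y ^ 2 * X ^ 2 := by
      rw [pow_one, hXY.mul_pow, (hXY.pow_pow 2 2).eq]
    have eD : (X ^ 2 * Y) ^ 2 = Y ^ 2 * X := by
      rw [(hXY.pow_left 2).mul_pow, ← pow_mul, show 2 * 2 = 4 from rfl, hX4, (hXY.pow_right 2).eq]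
    rw [eC, pow_one, hXY.eq] at sC
    rw [eD, (hXY.pow_left 2).eq] at sD
    rw [mul_one, mul_one] at sY
    have e3 : φ 1 ^ 3 = 1 := by
      have key : φ 1 ^ 3 * ((φ 1 * φ Y * φ (Y ^ 2)) * (φ X * φ (Y * X) * φ (Y ^ 2 * X)) *
          (φ (X ^ 2) * φ (Y * X ^ 2) * φ (Y ^ 2 * X ^ 2))) =
          (φ 1 * φ X * φ (X ^ 2)) * (φ 1 * φ Y * φ (Y ^ 2)) * (φ 1 * φ (Y * X) * φ (Y ^ 2 * X ^ 2)) *
          (φ 1 * φ (Y * X ^ 2) * φ (Y ^ 2 * X)) := by
        letI : CommGroup N := { (inferInstance : Group N) with mul_comm := fun u v => Subtype.ext (hNab u u.2 v v.2) }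
        rw [pow_three (φ 1)]
        ac_rfl
      rw [sY, t1, t2, sA, sC, sD] at key
      simpa using key
    have := congrArg Subtype.val e3
    rw [SubgroupClass.coe_pow] at this
    show n ^ 3 = 1
    simpa [φ] using this
  have hA' : IsPGroup 3 (Subgroup.zpowers X) := IsPGroup.of_card (n := 1) (by
    rw [Nat.card_zpowers, pow_one]
    exact (Subgroup.orderOf_mk x _).trans hxo)
  have hmod := hA'.card_modEq_card_fixedPoints Ω
  have hfix1 : Nat.card (MulAction.fixedPoints (Subgroup.zpowers X) Ω) = 1 := by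
    rw [Nat.card_eq_one_iff_exists]
    refine ⟨⟨b', fun g => ?_⟩, fun d => Subtype.ext ?_⟩
    · obtain ⟨i, hi⟩ := g.2
      show (g : MulAction.stabilizer G a) • b' = b'
      rw [← hi]
      exact hb' _ (by show ((X ^ i : MulAction.stabilizer G a) : G) ∈ K; rw [SubgroupClass.coe_zpow]; exact zpow_mem hxK i)
    · by_contra hne
      have h1 : X • (d : Ω) = d := d.2 ⟨X, Subgroup.mem_zpowers X⟩
      have h2 := CfsgLib.SharpTwo.eq_one_of_fix_two hsharp2 hne h1 (hb' X hxK)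
      rw [show x = 1 from congrArg Subtype.val h2, orderOf_one] at hxo
      omega
  rw [hfix1, hpq] at hmod
  have hp3 : p = 3 := by
    haveI := Fact.mk hp
    obtain ⟨⟨n, hn⟩, hno⟩ := exists_prime_orderOf_dvd_card' (G := N) p (by rw [hNcard]; exact dvd_pow_self p (by omega))
    have hd : p ∣ 3 := hno ▸ orderOf_dvd_of_pow_eq_one (Subtype.ext (h3n n hn))
    exact (Nat.prime_dvd_prime_iff_eq hp Nat.prime_three).1 hd
  rw [hp3, Nat.ModEq, Nat.pow_mod] at hmod
  simp [zero_pow (show j ≠ 0 by omega)] at hmod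


end Cfsg.Agent.S0728
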