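import Cfsg.Statements.S0729
import Cfsg.Agent.Zas.SharpThree
import Cfsg.Agent.Zas.Pair
import Cfsg.Agent.Zas.NotSimple

set_option autoImplicit false
open Cfsg

namespace Cfsg.Agent.S0729

/-- In a sharply triply transitive group of even degree at least 6, the two-point stabiliser `H = G_{a,b}` has a normal subgroup of index 2 that is normalised by the element `s` interchanging `a, b` and fixing a third point `c`. -/
theorem result {α : Type*} [Fintype α] [DecidableEq α] (heven : Even (Fintype.card α)) (h6 : 6 ≤ Fintype.card α) (G : Subgroup (Equiv.Perm α)) (h3 : MulAction.IsMultiplyPretransitive G α 3) (hsharp : ∀ x : Fin 3 ↪ α, MulAction.stabilizer G x = ⊥) {a b c : α} (hab : a ≠ b) (hac : a ≠ c) (hbc : b ≠ c) (s : G) (hsa : s • a = b) (hsb : s • b = a) (hsc : s • c = c) : ∃ N : Subgroup G, N ≤ MulAction.stabilizer G a ⊓ MulAction.stabilizer G b ∧ (N.subgroupOf (MulAction.stabilizer G a ⊓ MulAction.stabilizer G b)).Normal ∧ N.relIndex (MulAction.stabilizer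 G a ⊓ MulAction.stabilizer G b) = 2 ∧ ∀ n ∈ N, s * n * s⁻¹ ∈ N := by
  classical
  have hα : 3 ≤ Nat.card α := by rw [Nat.card_eq_fintype_card]; omega
  have hfree : ∀ g : G, ∀ a b c : α, a ≠ b → b ≠ c → a ≠ c → g • a = a → g • b = b → g • c = c → g = 1 := by
    intro g a b c hab hbc hac ha hb hc
    let t : Fin 3 ↪ α := ⟨![a, b, c], by
      intro i j hij
      fin_cases i <;> fin_cases j <;> simp [hab, hbc, hac, hab.symm, hbc.symm, hac.symm] at hij ⊢⟩
    have hg : g ∈ MulAction.stabilizer G t := by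
      rw [MulAction.mem_stabilizer_iff]
      refine Function.Embedding.ext fun i => ?_
      show g • t i = t i
      fin_cases i <;> assumption
    rwa [hsharp t, Subgroup.mem_bot] at hg
  obtain ⟨V, hV, hVfin, G', φ₀, e₀, hφ₀, hcard, hC, hd⟩ := CfsgLib.Zas.exists_coord_of_sharp h3 hα hfree
  obtain ⟨e, φ, hφ, hea, heb⟩ := hC.adapt e₀ φ₀ hφ₀ hab
  obtain ⟨v, hv⟩ : ∃ v, e c = some v := Option.ne_none_iff_exists'.mp fun h =>
    hac (e.injective (h.trans hea.symm)).symm
  have hv0 : v ≠ 0 := fun h => hbc (e.injective (heb.trans (h ▸ hv).symm))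
  have hodd : Odd (Nat.card V) := by
    rw [Nat.card_eq_fintype_card (α := α)] at hcard
    obtain ⟨k, hk⟩ := heven
    exact ⟨k - 1, by omega⟩
  have hS : CfsgLib.Zas.Swap G' ((φ s : G') : Equiv.Perm (Option V)) v :=
    ⟨hC, hd, hodd, (φ s).2, by rw [← hea, ← hφ, hsa, heb], by rw [← heb, ← hφ, hsb, hea],
      by rw [← hv, ← hφ, hsc, hv], hv0⟩
  obtain ⟨χ, ⟨a₀, ha₀⟩, hχ⟩ := hS.exists_sign
  obtain ⟨ι, hι, hrange, hιφ⟩ := hC.exists_pst e φ hφ hea heb
  rw [← hrange]
  refine ⟨χ.ker.map ι, Subgroup.map_le_range ι χ.ker, ?_, ?_, ?_⟩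
  · refine ⟨fun n hn g => ?_⟩
    obtain ⟨k, hk, hkn⟩ := hn
    obtain ⟨m, hm⟩ := g.2
    refine ⟨m * k * m⁻¹, (inferInstance : χ.ker.Normal).conj_mem k hk m, ?_⟩
    rw [map_mul, map_mul, map_inv, hm, hkn]
    rfl
  · rw [MonoidHom.range_eq_map, Subgroup.relIndex_map_map_of_injective _ _ hι, Subgroup.relIndex_top_right,
      Subgroup.index_ker, MonoidHom.range_eq_top.mpr (show Function.Surjective χ from fun u => by
        rcases Int.units_eq_one_or u with rfl | rfl
        · exact ⟨1, map_one χ⟩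
        · exact ⟨a₀, ha₀⟩), Subgroup.card_top]
    simp [Nat.card_eq_fintype_card]
  · rintro _ ⟨k, hk, rfl⟩
    refine ⟨hS.theta k, MonoidHom.mem_ker.mpr ((hχ k).trans hk), φ.injective (Subtype.ext ?_)⟩
    rw [hιφ, hS.sc_theta, map_mul, map_mul, map_inv, Subgroup.coe_mul, Subgroup.coe_mul, Subgroup.coe_inv, hιφ,
      inv_eq_of_mul_eq_one_right hS.sq]

end Cfsg.Agent.S0729
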