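import Cfsg.Statements.S0730
import Cfsg.Agent.Zas.SharpThree
import Cfsg.Agent.Zas.SharpOdd

set_option autoImplicit false
open Cfsg

namespace Cfsg.Agent.S0730

/-- A sharply triply transitive group of degree `p^f + 1`, `p` an odd prime and `f` odd, is isomorphic to the projective general linear group of degree 2 over the field with `p^f` elements (for even `f` there is a second, twisted, group). -/
theorem result {α : Type*} [Fintype α] [DecidableEq α] {p f : ℕ} (hp : p.Prime) (hp2 : p ≠ 2) (hfo : Odd f) (hα : Fintype.card α = p ^ f + 1) (G : Subgroup (Equiv.Perm α)) (h3 : MulAction.IsMultiplyPretransitive G α 3) (hsharp : ∀ x : Fin 3 ↪ α, MulAction.stabilizer G x = ⊥) : ∃ (F : Type) (_ : Field F) (_ : Fintype F), Fintype.card F = p ^ f ∧ Nonempty (G ≃* Matrix.ProjGenLinGroup (Fin 2) F) := by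
  classical
  have hp3 : 3 ≤ p := by have := hp.two_le; omega
  have hf0 : f ≠ 0 := by obtain ⟨k, hk⟩ := hfo; omega
  have hΩ : 3 ≤ Nat.card α := by
    have := Nat.le_self_pow hf0 p
    rw [Nat.card_eq_fintype_card, hα]; omega
  have hfree : ∀ g : G, ∀ a b c : α, a ≠ b → b ≠ c → a ≠ c → g • a = a → g • b = b → g • c = c → g = 1 := by
    intro g a b c hab hbc hac ha hb hc
    let t : Fin 3 ↪ α := ⟨![a, b, c], by
      intro i j hij
      fin_cases i <;> fin_cases j <;> simp [hab, hbc, hac, hab.symm, hbc.symm, hac.symm] at hij ⊢⟩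
    have hg : g ∈ MulAction.stabilizer G t := by
      rw [MulAction.mem_stabilizer_iff]
      refine Function.Embedding.ext fun i => ?_
      show g • t i = t i
      fin_cases i <;> assumption
    rwa [hsharp t, Subgroup.mem_bot] at hg
  obtain ⟨V, hV, hVfin, G', φ, -, -, hcard, hC, hd⟩ := CfsgLib.Zas.exists_coord_of_sharp h3 hΩ hfree
  rw [Nat.card_eq_fintype_card (α := α), hα] at hcard
  obtain ⟨K, hK, hKfin, hKcard, ⟨iso⟩⟩ := CfsgLib.Zas.iso_pgl_of_full hC hd hp hp2 (Nat.add_right_cancel hcard) hfo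
  exact ⟨K, hK, hKfin, hKcard, ⟨φ.trans iso⟩⟩

end Cfsg.Agent.S0730
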