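import Cfsg.Statements.S0731
import Cfsg.Agent.Zas.Transport
import Cfsg.Agent.Zas.Classify
import Cfsg.Agent.Zas.Half

set_option autoImplicit false
open Cfsg

namespace Cfsg.Agent.S0731

/-- A finite Zassenhaus group whose point stabiliser has an abelian regular normal subgroup on the remaining points is sharply triply transitive or isomorphic to `PSL(2, F)` for a finite field `F` of odd characteristic. -/
theorem result {G Ω : Type*} [Group G] [Finite G] [MulAction G Ω] [Finite Ω] (hZ : Cfsg.IsZassenhausGroup G Ω) (x : Ω) (F : Subgroup G) (hFle : F ≤ MulAction.stabilizer G x) (hFn : (F.subgroupOf (MulAction.stabilizer G x)).Normal) (hFab : IsMulCommutative F) (hreg : ∀ y z : Ω, y ≠ x → z ≠ x → ∃! u : F, (u : G) • y = z) : (MulAction.IsMultiplyPretransitive G Ω 3 ∧ ∀ t : Fin 3 ↪ Ω, MulAction.stabilizer G t = ⊥) ∨ ∃ (K : Type) (_ : Field K) (_ : Fintype K), ringChar K ≠ 2 ∧ Nonempty (G ≃* Matrix.ProjectiveSpecialLinearGroup (Fin 2) K) := by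
  classical
  obtain ⟨hfaith, h2, hfree, ⟨g₀, hg₀, a, b, hab, hga, hgb⟩, hlast⟩ := hZ
  haveI := hfaith
  haveI := hFab
  haveI := h2
  haveI : MulAction.IsPretransitive G Ω := MulAction.isPretransitive_of_is_two_pretransitive
  obtain ⟨y₀, hy₀⟩ : ∃ y, y ≠ x := by
    rcases eq_or_ne a x with h | h
    · exact ⟨b, fun e => hab (h.trans e.symm)⟩
    · exact ⟨a, h⟩
  obtain ⟨V, hV, hVfin, e, G', φ, hC, hφ⟩ := CfsgLib.Zas.exists_coord x y₀ hy₀ F hFle hFn hreg hfree
  have hR : ¬ CfsgLib.Zas.HasRegular G' := CfsgLib.Zas.Coord.hasNoRegular e φ hφ hlast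
  have hd : 1 < Nat.card (CfsgLib.Zas.scalars G') := by
    obtain ⟨t, ht, hta, htb⟩ := hC.exists_mem (e a) (e b) (e.injective.ne hab)
    have hga' : ((φ g₀ : G') : Equiv.Perm (Option V)) (e a) = e a := by rw [← hφ, hga]
    have hgb' : ((φ g₀ : G') : Equiv.Perm (Option V)) (e b) = e b := by rw [← hφ, hgb]
    obtain ⟨s, hs⟩ := hC.fix_two (G'.mul_mem (G'.mul_mem (G'.inv_mem ht) (φ g₀).2) ht)
      (by simp only [Equiv.Perm.mul_apply, hta, hga']; rw [← hta]; simp)
      (by simp only [Equiv.Perm.mul_apply, htb, hgb']; rw [← htb]; simp)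
    have hne : s ≠ 1 := fun e1 => hg₀ (φ.injective (Subtype.ext (by
      rw [e1, Subgroup.coe_one, map_one, mul_assoc, inv_mul_eq_one] at hs
      rw [map_one]
      exact mul_eq_right.mp hs.symm)))
    exact Finite.one_lt_card_iff_nontrivial.mpr ⟨⟨s, 1, hne⟩⟩
  rcases hC.classify hd hR with hc | ⟨hodd, h5, hc, hS⟩
  · left
    refine ⟨⟨fun f f' => ?_⟩, fun t => ?_⟩
    · have hV2 : 1 < Nat.card V := by omega
      haveI := Finite.one_lt_card_iff_nontrivial.mp hV2
      obtain ⟨v, hv⟩ := exists_ne (0 : V)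
      have key : ∀ f : Fin 3 ↪ Ω, ∃ g : G', (g : Equiv.Perm (Option V)) none = e (f 0) ∧
          (g : Equiv.Perm (Option V)) (some 0) = e (f 1) ∧ (g : Equiv.Perm (Option V)) (some v) = e (f 2) := by
        intro f
        obtain ⟨g, hg, h0, h1, h2⟩ := hC.three_transitive hc hv (e (f 0)) (e (f 1)) (e (f 2))
          (by simp [f.injective.eq_iff]) (by simp [f.injective.eq_iff]) (by simp [f.injective.eq_iff])
        exact ⟨⟨g, hg⟩, h0, h1, h2⟩
      obtain ⟨g, g0, g1, g2⟩ := key f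
      obtain ⟨g', g0', g1', g2'⟩ := key f'
      refine ⟨φ.symm (g' * g⁻¹), Function.Embedding.ext fun i => e.injective ?_⟩
      rw [Function.Embedding.smul_apply, hφ, φ.apply_symm_apply, Subgroup.coe_mul, Subgroup.coe_inv, Equiv.Perm.mul_apply]
      fin_cases i
      · simp [← g0, ← g0']
      · simp [← g1, ← g1']
      · simp [← g2, ← g2']
    · refine (Subgroup.eq_bot_iff_forall _).mpr fun g hg => ?_
      have hfix : ∀ i, g • t i = t i := fun i =>
        (Function.Embedding.smul_apply g t i).symm.trans (congrArg (fun u : Fin 3 ↪ Ω => u i) hg)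
      exact hfree g (t 0) (t 1) (t 2) (by simp [t.injective.eq_iff]) (by simp [t.injective.eq_iff])
        (by simp [t.injective.eq_iff]) (hfix 0) (hfix 1) (hfix 2)
  · right
    obtain ⟨K, hK, hKfin, hchar, -, ⟨iso⟩⟩ := CfsgLib.Zas.iso_psl_of_half hC hS hodd h5 hc
    exact ⟨K, hK, hKfin, hchar, ⟨φ.trans iso⟩⟩

end Cfsg.Agent.S0731
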