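import Cfsg.Statements.S0733
import Mathlib


set_option autoImplicit false
open Cfsg
open scoped Pointwise

namespace Cfsg.Agent.S0733

/-- A permutation group of affine type — generated by the translations of a finite vector space `V` over `ZMod p` together with a group `G₀` of linear automorphisms — is primitive on `V` if and only if `G₀` is irreducible on `V`. -/
theorem result {p : ℕ} [Fact p.Prime] {V : Type*} [AddCommGroup V] [Module (ZMod p) V] [Finite V] [Nontrivial V] (G₀ : Subgroup (V ≃ₗ[ZMod p] V)) (G : Subgroup (Equiv.Perm V)) (hG : ∀ σ : Equiv.Perm V, σ ∈ G ↔ ∃ g ∈ G₀, ∃ b : V, ∀ x : V, σ x = (g : V ≃ₗ[ZMod p] V) x + b) : MulAction.IsPreprimitive G V ↔ ∀ W : Submodule (ZMod p) V, (∀ g ∈ G₀, ∀ v ∈ W, (g : V ≃ₗ[ZMod p] V) v ∈ W) → W = ⊥ ∨ W = ⊤ := by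
  classical
  have hT : ∀ b : V, ∃ σ : G, ∀ x : V, σ • x = x + b := fun b =>
    ⟨⟨Equiv.addRight b, (hG _).2 ⟨1, G₀.one_mem, b, fun x => rfl⟩⟩, fun x => rfl⟩
  haveI : MulAction.IsPretransitive G V := ⟨fun x y => by
    obtain ⟨σ, hσ⟩ := hT (y - x)
    exact ⟨σ, by rw [hσ, add_sub_cancel]⟩⟩
  constructor
  · intro hp W hW
    have hstab : ∀ g ∈ G₀, ∀ v, (g : V ≃ₗ[ZMod p] V) v ∈ W ↔ v ∈ W := fun g hg v =>
      ⟨fun h => by
        have := hW g⁻¹ (G₀.inv_mem hg) _ h
        rwa [← LinearEquiv.mul_apply, inv_mul_cancel] at this, hW g hg v⟩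
    have hB : MulAction.IsBlock G (W : Set V) := by
      rw [MulAction.isBlock_iff_smul_eq_of_nonempty]
      intro σ hne
      obtain ⟨g, hg, b, hb⟩ := (hG σ.1).1 σ.2
      have hb' : ∀ x : V, σ • x = (g : V ≃ₗ[ZMod p] V) x + b := hb
      obtain ⟨_, ⟨y, hy, rfl⟩, hy'⟩ := hne
      have hbW : b ∈ W := by
        have h1 : (g : V ≃ₗ[ZMod p] V) y + b ∈ W := by rw [← hb']; exact hy'
        exact (W.add_mem_iff_right (hW g hg y hy)).1 h1
      ext z
      constructor
      · rintro ⟨w, hw, rfl⟩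
        show σ • w ∈ W
        rw [hb']
        exact W.add_mem (hW g hg w hw) hbW
      · intro hz
        refine ⟨σ⁻¹ • z, ?_, smul_inv_smul σ z⟩
        show σ⁻¹ • z ∈ W
        rw [← hstab g hg]
        have h1 := hb' (σ⁻¹ • z)
        rw [smul_inv_smul] at h1
        exact (W.add_mem_iff_left hbW).1 (h1 ▸ hz)
    rcases hp.isTrivialBlock_of_isBlock hB with h | h
    · exact Or.inl (Submodule.eq_bot_iff _ |>.2 fun x hx => h hx W.zero_mem)
    · exact Or.inr (SetLike.coe_injective (by rw [h]; rfl))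
  · intro h
    refine ⟨fun {B} hB => ?_⟩
    by_cases hne : B.Subsingleton
    · exact Or.inl hne
    right
    rw [Set.not_subsingleton_iff] at hne
    obtain ⟨u, hu, u', hu', huu⟩ := hne
    -- translate so that it contains `0`
    obtain ⟨τ, hτ⟩ := hT (-u)
    have hB' : MulAction.IsBlock G (τ • B) := hB.translate τ
    have h0 : (0 : V) ∈ τ • B := ⟨u, hu, by show τ • u = 0; rw [hτ, add_neg_cancel]⟩
    have hadd : ∀ b ∈ τ • B, ∀ x ∈ τ • B, x + b ∈ τ • B := by
      intro b hb x hx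
      obtain ⟨s, hs⟩ := hT b
      have := MulAction.IsBlock.smul_eq_of_nonempty hB' (g := s)
        ⟨b, ⟨0, h0, by show s • (0 : V) = b; rw [hs, zero_add]⟩, hb⟩
      rw [← this]
      exact ⟨x, hx, hs x⟩
    have hnsmul : ∀ (n : ℕ) b, b ∈ τ • B → n • b ∈ τ • B := by
      intro n b hb
      induction n with
      | zero => rw [zero_smul]; exact h0
      | succ n ih => rw [succ_nsmul]; exact hadd b hb _ ih
    let W : Submodule (ZMod p) V :=
      { carrier := τ • B
        zero_mem' := h0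
        add_mem' := fun {x y} hx hy => hadd y hy x hx
        smul_mem' := fun c x hx => by
          rw [← ZMod.natCast_zmod_val c, Nat.cast_smul_eq_nsmul]
          exact hnsmul _ x hx }
    have hWinv : ∀ g ∈ G₀, ∀ v ∈ W, (g : V ≃ₗ[ZMod p] V) v ∈ W := by
      intro g hg v hv
      let s : G := ⟨(g : V ≃ₗ[ZMod p] V).toEquiv, (hG _).2 ⟨g, hg, 0, fun x => (add_zero _).symm⟩⟩
      have := MulAction.IsBlock.smul_eq_of_nonempty hB' (g := s) ⟨0, ⟨0, h0, map_zero g⟩, h0⟩
      show _ ∈ τ • B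
      rw [← this]
      exact ⟨v, hv, rfl⟩
    rcases h W hWinv with hW | hW
    · exfalso
      have : τ • u' ∈ W := Set.smul_mem_smul_set hu'
      rw [hW, Submodule.mem_bot, hτ, ← sub_eq_add_neg, sub_eq_zero] at this
      exact huu this.symm
    · refine Set.eq_univ_of_forall fun z => ?_
      have : τ • z ∈ W := hW ▸ Submodule.mem_top
      exact Set.smul_mem_smul_set_iff.1 this

end Cfsg.Agent.S0733
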