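import Cfsg.Statements.S0734
import Mathlib


set_option autoImplicit false
open Cfsg
open scoped Pointwise

namespace Cfsg.Agent.S0734

/-- Higman's criterion for primitivity: a transitive action on a finite set is primitive if and only if every non-trivial orbital graph (edges = images of a fixed pair of distinct points) is connected. -/
theorem result {G : Type*} [Group G] {Ω : Type*} [Finite Ω] [MulAction G Ω] [MulAction.IsPretransitive G Ω] [Nontrivial Ω] : MulAction.IsPreprimitive G Ω ↔ ∀ a b : Ω, a ≠ b → (SimpleGraph.fromRel fun x y : Ω => ∃ g : G, g • a = x ∧ g • b = y).Connected := by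
  constructor
  · intro hp a b hab
    let R := SimpleGraph.fromRel fun x y : Ω => ∃ g : G, g • a = x ∧ g • b = y
    have hadj : ∀ (g : G) {x y : Ω}, R.Adj x y → R.Adj (g • x) (g • y) := by
      intro g x y h
      rw [SimpleGraph.fromRel_adj] at h ⊢
      obtain ⟨hne, ⟨h, h1, h2⟩ | ⟨h, h1, h2⟩⟩ := h
      · exact ⟨fun e => hne (smul_left_cancel g e), Or.inl ⟨g * h, by rw [mul_smul, h1], by rw [mul_smul, h2]⟩⟩
      · exact ⟨fun e => hne (smul_left_cancel g e), Or.inr ⟨g * h, by rw [mul_smul, h1], by rw [mul_smul, h2]⟩⟩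
    have hreach : ∀ (g : G) {x y : Ω}, R.Reachable x y → R.Reachable (g • x) (g • y) := fun g x y h =>
      h.map ⟨fun z => g • z, fun h => hadj g h⟩
    let B : Set Ω := {y | R.Reachable a y}
    have hB : MulAction.IsBlock G B := by
      rw [MulAction.isBlock_iff_smul_eq_of_nonempty]
      rintro g ⟨x, ⟨y, hy, hyx⟩, hx⟩
      obtain rfl : g • y = x := hyx
      have hga : R.Reachable a (g • a) := (hx : R.Reachable a (g • y)).trans (hreach g (hy : R.Reachable a y)).symm
      ext z
      constructor
      · rintro ⟨w, hw, rfl⟩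
        exact hga.trans (hreach g hw)
      · intro hz
        refine ⟨g⁻¹ • z, ?_, smul_inv_smul g z⟩
        have := hreach g⁻¹ (hga.symm.trans hz)
        rwa [inv_smul_smul] at this
    have hb : b ∈ B := by
      refine SimpleGraph.Adj.reachable ?_
      rw [SimpleGraph.fromRel_adj]
      exact ⟨hab, Or.inl ⟨1, one_smul _ _, one_smul _ _⟩⟩
    have huniv : B = Set.univ := (hp.isTrivialBlock_of_isBlock hB).resolve_left fun h => hab (h (show a ∈ B from SimpleGraph.Reachable.refl a) hb)
    refine (SimpleGraph.connected_iff_exists_forall_reachable _).2 ⟨a, fun w => ?_⟩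
    exact (huniv ▸ Set.mem_univ w : w ∈ B)
  · intro h
    refine ⟨fun {B} hB => ?_⟩
    by_cases hsub : B.Subsingleton
    · exact Or.inl hsub
    right
    rw [Set.not_subsingleton_iff] at hsub
    obtain ⟨a, ha, b, hb, hab⟩ := hsub
    refine Set.eq_univ_of_forall fun z => ?_
    obtain ⟨w⟩ := (h a b hab).preconnected a z
    let R := SimpleGraph.fromRel fun x y : Ω => ∃ g : G, g • a = x ∧ g • b = y
    suffices hstep : ∀ x y, R.Adj x y → x ∈ B → y ∈ B by
      have hwalk : ∀ (x y : Ω) (w : R.Walk x y), x ∈ B → y ∈ B := by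
        intro x y w
        induction w with
        | nil => exact id
        | cons h' _ ih => exact fun hx => ih (hstep _ _ h' hx)
      exact hwalk a z w ha
    intro x y hxy hx
    rw [SimpleGraph.fromRel_adj] at hxy
    obtain ⟨-, ⟨g, h1, h2⟩ | ⟨g, h1, h2⟩⟩ := hxy
    · have := MulAction.IsBlock.smul_eq_of_nonempty hB (g := g) ⟨x, ⟨a, ha, h1⟩, hx⟩
      rw [← this]; exact ⟨b, hb, h2⟩
    · have := MulAction.IsBlock.smul_eq_of_nonempty hB (g := g) ⟨x, ⟨b, hb, h2⟩, hx⟩
      rw [← this]; exact ⟨a, ha, h1⟩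

end Cfsg.Agent.S0734
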