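import Cfsg.Statements.S0735
import Mathlib


set_option autoImplicit false
open Cfsg
open scoped Pointwise

namespace Cfsg.Agent.S0735

/-- A 2-homogeneous permutation group (transitive on 2-subsets) of even order is doubly transitive; a non-trivial 2-homogeneous group is primitive. -/
theorem result {α : Type*} [Fintype α] [DecidableEq α] (G : Subgroup (Equiv.Perm α)) (h2 : MulAction.IsPretransitive G (Set.powersetCard α 2)) (hα : 3 ≤ Fintype.card α) : (Even (Nat.card G) → MulAction.IsMultiplyPretransitive G α 2) ∧ (G ≠ ⊥ → MulAction.IsPreprimitive G α) := by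
  have htr : ∀ x y a b : α, x ≠ y → a ≠ b → ∃ g : G, (g • x = a ∧ g • y = b) ∨ (g • x = b ∧ g • y = a) := by
    intro x y a b hxy hab
    haveI := h2
    obtain ⟨g, hg⟩ := MulAction.exists_smul_eq G
      (⟨{x, y}, Set.powersetCard.mem_iff.2 (Finset.card_pair hxy)⟩ : Set.powersetCard α 2) ⟨{a, b}, Set.powersetCard.mem_iff.2 (Finset.card_pair hab)⟩
    refine ⟨g, ?_⟩
    have hg' : g • ({x, y} : Finset α) = {a, b} := congrArg Subtype.val hg
    have hx : g • x ∈ ({a, b} : Finset α) := hg' ▸ Finset.smul_mem_smul_finset (Finset.mem_insert_self x {y})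
    have hy : g • y ∈ ({a, b} : Finset α) :=
      hg' ▸ Finset.smul_mem_smul_finset (Finset.mem_insert_of_mem (Finset.mem_singleton_self y))
    have hne : g • x ≠ g • y := fun e => hxy (smul_left_cancel g e)
    simp only [Finset.mem_insert, Finset.mem_singleton] at hx hy
    rcases hx with hx | hx <;> rcases hy with hy | hy
    · exact absurd (hx.trans hy.symm) hne
    · exact Or.inl ⟨hx, hy⟩
    · exact Or.inr ⟨hx, hy⟩
    · exact absurd (hx.trans hy.symm) hne
  refine ⟨fun heven => ?_, fun hne => ?_⟩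
  · haveI : Fact (Nat.Prime 2) := ⟨Nat.prime_two⟩
    obtain ⟨t, ht⟩ := exists_prime_orderOf_dvd_card' (G := G) 2 (even_iff_two_dvd.1 heven)
    have ht1 : t ≠ 1 := fun e => by simp [e] at ht
    obtain ⟨c, hc⟩ : ∃ c : α, t • c ≠ c := by
      by_contra hall
      push Not at hall
      exact ht1 (Subtype.ext (Equiv.ext hall))
    have hsw : ∀ a b : α, a ≠ b → ∃ g : G, g • a = b ∧ g • b = a := by
      intro a b hab
      have htt : t • t • c = c := by rw [smul_smul, ← sq, ← ht, pow_orderOf_eq_one, one_smul]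
      obtain ⟨g, h⟩ := htr c (t • c) a b hc.symm hab
      refine ⟨g * t * g⁻¹, ?_⟩
      rcases h with ⟨h1, h2⟩ | ⟨h1, h2⟩
      · subst h1; subst h2
        simp [mul_smul, htt]
      · subst h1; subst h2
        simp [mul_smul, htt]
    rw [MulAction.is_two_pretransitive_iff]
    intro a b c d hab hcd
    obtain ⟨g, h | h⟩ := htr a b c d hab hcd
    · exact ⟨g, h⟩
    · obtain ⟨s, hs1, hs2⟩ := hsw c d hcd
      exact ⟨s * g, by rw [mul_smul, h.1, hs2], by rw [mul_smul, h.2, hs1]⟩
  · -- transitive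
    obtain ⟨g0, hg0⟩ := (Subgroup.ne_bot_iff_exists_ne_one).1 hne
    obtain ⟨c, hc⟩ : ∃ c : α, g0 • c ≠ c := by
      by_contra hall
      push Not at hall
      exact hg0 (Subtype.ext (Equiv.ext hall))
    have horb : ∀ x : α, x ∈ MulAction.orbit G c := by
      intro x
      by_contra hx
      have hxc : x ≠ c := fun e => hx (e.symm ▸ MulAction.mem_orbit_self (M := G) c)
      obtain ⟨g, ⟨-, h⟩ | ⟨h, -⟩⟩ := htr c (g0 • c) c x hc.symm hxc.symm
      · exact hx ⟨g * g0, show (g * g0) • c = x by rw [mul_smul, h]⟩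
      · exact hx ⟨g, h⟩
    haveI : MulAction.IsPretransitive G α := ⟨fun x y => by
      obtain ⟨g, hg⟩ := horb x
      obtain ⟨g', hg'⟩ := horb y
      exact ⟨g' * g⁻¹, by rw [← hg, mul_smul]; simp [← hg']⟩⟩
    refine ⟨fun {B} hB => ?_⟩
    by_contra hnt
    simp only [MulAction.IsTrivialBlock, not_or, Set.not_subsingleton_iff] at hnt
    obtain ⟨⟨x, hx, y, hy, hxy⟩, huniv⟩ := hnt
    obtain ⟨z, hz⟩ := (Set.ne_univ_iff_exists_notMem B).1 huniv
    obtain ⟨g, h | h⟩ := htr x y x z hxy (fun e => hz (e ▸ hx))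
    · have := MulAction.IsBlock.smul_eq_of_nonempty hB (g := g) ⟨x, ⟨x, hx, h.1⟩, hx⟩
      exact hz (this ▸ ⟨y, hy, h.2⟩)
    · have := MulAction.IsBlock.smul_eq_of_nonempty hB (g := g) ⟨x, ⟨y, hy, h.2⟩, hx⟩
      exact hz (this ▸ ⟨x, hx, h.1⟩)

end Cfsg.Agent.S0735
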