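import Cfsg.Statements.S0742
import Cfsg.Agent.Zas.Transport
import Cfsg.Agent.Zas.Classify
import Cfsg.Agent.Zas.Half
import Cfsg.Agent.Zas.Kernel
import Cfsg.Agent.S0738
import Cfsg.Agent.S0741

set_option autoImplicit false
open Cfsg

namespace Cfsg.Agent.S0742

/-- A finite Zassenhaus group of degree `n + 1` with two-point stabilisers of even order `d` satisfying `2d ≤ n - 1` has `n = p^f` for an odd prime `p` and is isomorphic to `PSL(2, p^f)`. -/
theorem result {G Ω : Type*} [Group G] [Finite G] [MulAction G Ω] [Fintype Ω] (hZ : Cfsg.IsZassenhausGroup G Ω) {a b : Ω} (hab : a ≠ b) (heven : Even (Nat.card ↥(MulAction.stabilizer G a ⊓ MulAction.stabilizer G b))) (hd : 2 * Nat.card ↥(MulAction.stabilizer G a ⊓ MulAction.stabilizer G b) ≤ Fintype.card Ω - 2) : ∃ (p f : ℕ) (K : Type) (_ : Field K) (_ : Fintype K), p.Prime ∧ p ≠ 2 ∧ Fintype.card K = p ^ f ∧ Fintype.card Ω = p ^ f + 1 ∧ Nonempty (G ≃* Matrix.ProjectiveSpecialLinearGroup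 (Fin 2) K) := by
  classical
  have hlow := Cfsg.Agent.S0741.result hZ hab heven
  have h4 := CfsgLib.ZGrp.four_le_card hZ hab
  obtain ⟨F, hFle, hFn, hreg⟩ := CfsgLib.Zas.exists_kernel hZ hab
  obtain ⟨hFab, -⟩ := Cfsg.Agent.S0738.result hZ hab hlow F hFle hFn hreg
  obtain ⟨hfaith, h2, hfree, -, hlast⟩ := id hZ
  haveI := hfaith
  haveI := hFab
  haveI := h2
  haveI : MulAction.IsPretransitive G Ω := MulAction.isPretransitive_of_is_two_pretransitive
  obtain ⟨V, hV, hVfin, e, G', φ, hC, hφ⟩ := CfsgLib.Zas.exists_coord a b hab.symm F hFle hFn hreg hfree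
  have hcardV : Nat.card V + 1 = Fintype.card Ω := by
    rw [← Finite.card_option, ← Nat.card_eq_fintype_card, Nat.card_congr e]
  have hcardG : Nat.card G = Nat.card G' := Nat.card_congr φ.toEquiv
  rw [CfsgLib.ZGrp.card_group hZ hab, hC.card_eq, ← hcardV, Nat.add_sub_cancel, ← mul_assoc] at hcardG
  have hd' : Nat.card ↥(MulAction.stabilizer G a ⊓ MulAction.stabilizer G b) = Nat.card (CfsgLib.Zas.scalars G') :=
    Nat.eq_of_mul_eq_mul_left (Nat.mul_pos (Nat.succ_pos _) Nat.card_pos) hcardG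
  rw [hd'] at hd hlow
  have hR := CfsgLib.Zas.Coord.hasNoRegular e φ hφ hlast
  rcases hC.classify (hd'.symm ▸ CfsgLib.ZGrp.one_lt_card_pst hZ hab) hR with hc | ⟨hodd, h5, hc, hS⟩
  · exfalso; omega
  obtain ⟨K, hK, hKfin, hchar, hKV, ⟨iso⟩⟩ := CfsgLib.Zas.iso_psl_of_half hC hS hodd h5 hc
  letI := hK
  letI := hKfin
  obtain ⟨p, hp⟩ := CharP.exists K
  haveI := hp
  obtain ⟨n, hprime, hn⟩ := FiniteField.card K p
  refine ⟨p, n, K, hK, hKfin, hprime, ?_, hn, by omega, ⟨φ.trans iso⟩⟩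
  rwa [← ringChar.eq K p]

end Cfsg.Agent.S0742
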