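import Cfsg.Statements.S0754
import Cfsg.Agent.UGeom.Count

set_option autoImplicit false
open Cfsg

namespace Cfsg.Agent.S0754

/-- In a field F with q^2 elements, every non-zero μ with μ^q = μ (that is, μ in the subfield of order q) has exactly q + 1 solutions λ of λ^(q+1) = μ. -/
theorem result {F : Type*} [Field F] [Fintype F] {q : ℕ} (hF : Fintype.card F = q ^ 2) (μ : F) (hμ : μ ≠ 0) (hμq : μ ^ q = μ) : Nat.card {x : F // x ^ (q + 1) = μ} = q + 1 := by
  obtain ⟨C⟩ := CfsgLib.UGeom.nonempty_conj hF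
  obtain ⟨c, hc0, hc⟩ := CfsgLib.Hermitian.exists_norm C.ne_id C.invol hμ (by rw [C.pow, hμq])
  rw [C.pow, ← pow_succ] at hc
  have hne : ∀ x : F, x ^ (q + 1) = μ → x ≠ 0 := fun x hx h0 => hμ (by rw [← hx, h0, zero_pow (by omega)])
  let e : {x : F // x ^ (q + 1) = μ} ≃ {u : Fˣ // u ^ (q + 1) = 1} :=
    { toFun := fun x => ⟨Units.mk0 (x.1 / c) (div_ne_zero (hne x.1 x.2) hc0), Units.ext (by
        rw [Units.val_pow_eq_pow_val, Units.val_mk0, div_pow, x.2, hc, div_self hμ, Units.val_one])⟩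
      invFun := fun u => ⟨(u.1 : F) * c, by
        rw [mul_pow, ← Units.val_pow_eq_pow_val, u.2, hc, Units.val_one, one_mul]⟩
      left_inv := fun x => Subtype.ext (div_mul_cancel₀ _ hc0)
      right_inv := fun u => Subtype.ext (Units.ext (mul_div_cancel_right₀ _ hc0)) }
  exact (Nat.card_congr e).trans (CfsgLib.UGeom.card_norm_one C)

end Cfsg.Agent.S0754
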