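import Cfsg.Statements.S0756
import Mathlib
import Cfsg.Agent.Forms.Basic

set_option autoImplicit false
open Cfsg

namespace Cfsg.Agent.S0756

/-- Classification of symmetric bilinear forms over finite fields of odd characteristic: if B is non-degenerate symmetric on V of dimension n + 1 and α is a fixed non-square of F, there is an orthogonal basis b_0, ..., b_n with B(b_i, b_i) = 1 for i < n and B(b_n, b_n) ∈ {1, α}. -/
theorem result {F V : Type*} [Field F] [Finite F] [AddCommGroup V] [Module F V] [FiniteDimensional F V] (h2 : (2 : F) ≠ 0) (B : LinearMap.BilinForm F V) (hS : B.IsSymm) (hB : B.Nondegenerate) {n : ℕ} (hn : Module.finrank F V = n + 1) (α : F) (hα : ¬ IsSquare α) : ∃ b : Module.Basis (Fin (n + 1)) F V, (∀ i j, i ≠ j → B (b i) (b j) = 0) ∧ (∀ i, i ≠ Fin.last n → B (b i) (b i) = 1) ∧ (B (b (Fin.last n)) (b (Fin.last n)) = 1 ∨ B (b (Fin.last n)) (b (Fin.last n)) = α) := by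
  classical
  haveI := Fintype.ofFinite F
  have hsym : ∀ x y, B y x = B x y := fun x y => (hS.eq x y).symm
  let ONFam : ℕ → Prop := fun m => ∃ e : Fin m → V, ∀ i j, B (e i) (e j) = if i = j then 1 else 0
  have hli' : ∀ {m : ℕ} {e : Fin m → V}, (∀ i j, B (e i) (e j) = if i = j then 1 else 0) →
      LinearIndependent F e := by
    intro m e he
    rw [Fintype.linearIndependent_iff]
    intro c hc i
    have := congrArg (fun v => B (e i) v) hc
    simpa [map_sum, he] using this
  obtain ⟨m, ⟨e, he⟩, hmax⟩ : ∃ m, ONFam m ∧ ∀ m', ONFam m' → m' ≤ m := by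
    obtain ⟨m, hm, hmx⟩ := Set.exists_max_image {m | ONFam m} id
      ((Set.finite_Iic (Module.finrank F V)).subset fun m ⟨e, he⟩ => by
        simpa using (hli' he).fintype_card_le_finrank)
      ⟨0, Fin.elim0, fun i => i.elim0⟩
    exact ⟨m, hm, hmx⟩
  let P : Submodule F V := ⨅ i, LinearMap.ker (B (e i))
  have hmemP : ∀ x, x ∈ P ↔ ∀ i, B (e i) x = 0 := fun x => by simp [P]
  have hdec : ∀ v, v - ∑ i, B (e i) v • e i ∈ P := fun v => (hmemP _).mpr fun j => by
    simp [map_sum, map_sub, he]
  have hnd : ∀ x ∈ P, (∀ y ∈ P, B x y = 0) → x = 0 := by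
    intro x hx h
    refine hB.1 x fun v => ?_
    have := h _ (hdec v)
    have hx' : ∀ i, B x (e i) = 0 := fun i => by rw [hsym]; exact (hmemP x).mp hx i
    simpa [map_sum, map_sub, hx'] using this
  have hno : ∀ w ∈ P, B w w ≠ 1 := by
    intro w hw h1
    have hw' := (hmemP w).mp hw
    have : ONFam (m + 1) := by
      refine ⟨Fin.snoc e w, fun i j => ?_⟩
      refine Fin.lastCases ?_ (fun i => ?_) i <;> refine Fin.lastCases ?_ (fun j => ?_) j
      · simp [h1]
      · simp [hsym _ w, hw', Ne.symm (Fin.castSucc_ne_last j)]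
      · simp [hw']
      · simp [he]
    have := hmax _ this
    omega
  have hsub : ∀ W : Submodule F V, W ≤ P → (∀ w ∈ W, B w w = 0) → ∀ x ∈ W, ∀ y ∈ W, B x y = 0 := by
    intro W _ h x hx y hy
    have h3 := h (x + y) (W.add_mem hx hy)
    simp only [map_add, LinearMap.add_apply, h x hx, h y hy, hsym x y] at h3
    exact (mul_eq_zero.mp (show (2 : F) * B x y = 0 by linear_combination h3)).resolve_left h2
  have hone : P ≠ ⊥ → ∃ u : V, B u u = α ∧ P = Submodule.span F {u} := by
    intro hne
    obtain ⟨u, hu, hu0⟩ : ∃ u ∈ P, B u u ≠ 0 := by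
      by_contra h
      push Not at h
      exact hne ((Submodule.eq_bot_iff P).mpr fun x hx => hnd x hx (hsub P le_rfl h x hx))
    have hP1 : P = Submodule.span F {u} := by
      refine le_antisymm (fun x hx => ?_) (Submodule.span_le.mpr (by simpa using hu))
      set w := x - (B u x / B u u) • u with hw
      have hwP : w ∈ P := P.sub_mem hx (P.smul_mem _ hu)
      have huw : B u w = 0 := by simp [hw, map_sub, div_mul_cancel₀ _ hu0]
      have hzero : ∀ z ∈ P, B u z = 0 → B z z = 0 := by
        intro z hz huz
        by_contra hzz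
        obtain ⟨a, b, hab⟩ := CfsgLib.Forms.exists_two_squares hu0 hzz 1
        refine hno (a • u + b • z) (P.add_mem (P.smul_mem _ hu) (P.smul_mem _ hz)) ?_
        simp only [map_add, map_smul, LinearMap.add_apply, LinearMap.smul_apply, smul_eq_mul, huz,
          hsym u z]
        linear_combination hab
      have hw0 : w = 0 := by
        refine hnd w hwP fun y hy => ?_
        set y' := y - (B u y / B u u) • u with hy'
        have hy'P : y' ∈ P := P.sub_mem hy (P.smul_mem _ hu)
        have huy : B u y' = 0 := by simp [hy', map_sub, div_mul_cancel₀ _ hu0]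
        have h := hsub (P ⊓ LinearMap.ker (B u)) inf_le_left (fun z hz => hzero z hz.1 hz.2)
          w ⟨hwP, huw⟩ y' ⟨hy'P, huy⟩
        have hwu : B w u = 0 := by rw [hsym]; exact huw
        rw [show y = y' + (B u y / B u u) • u by simp [hy'], map_add, h, map_smul, hwu]
        simp
      rw [hw, sub_eq_zero] at hw0
      exact Submodule.mem_span_singleton.mpr ⟨_, hw0.symm⟩
    have hns : ¬ IsSquare (B u u) := by
      rintro ⟨r, hr⟩
      have hr0 : r ≠ 0 := fun h => hu0 (by rw [hr, h, zero_mul])
      refine hno (r⁻¹ • u) (P.smul_mem _ hu) ?_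
      simp only [map_smul, LinearMap.smul_apply, smul_eq_mul, hr]
      field_simp
    have hsq : IsSquare (α / B u u) := by
      have hα0 : α ≠ 0 := fun h => hα (h ▸ IsSquare.zero)
      rw [← quadraticChar_one_iff_isSquare (div_ne_zero hα0 hu0), div_eq_mul_inv, map_mul,
        quadraticChar_neg_one_iff_not_isSquare.mpr hα]
      have : quadraticChar F (B u u)⁻¹ = -1 := by
        rw [quadraticChar_neg_one_iff_not_isSquare]
        exact fun h => hns (inv_inv (B u u) ▸ h.inv)
      rw [this]; norm_num
    obtain ⟨r, hr⟩ := hsq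
    have hr0 : r ≠ 0 := by
      rintro rfl
      rw [zero_mul, div_eq_zero_iff] at hr
      rcases hr with h | h
      · exact hα (h ▸ IsSquare.zero)
      · exact hu0 h
    refine ⟨r • u, ?_, ?_⟩
    · simp only [map_smul, LinearMap.smul_apply, smul_eq_mul]
      rw [← mul_assoc, ← hr, div_mul_cancel₀ _ hu0]
    · rw [hP1, Submodule.span_singleton_smul_eq (isUnit_iff_ne_zero.mpr hr0)]
  by_cases hPbot : P = ⊥
  · have hspan : ⊤ ≤ Submodule.span F (Set.range e) := by
      intro v _
      have := hdec v
      rw [hPbot, Submodule.mem_bot, sub_eq_zero] at this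
      rw [this]
      exact Submodule.sum_mem _ fun i _ => Submodule.smul_mem _ _ (Submodule.subset_span ⟨i, rfl⟩)
    let b := Module.Basis.mk (hli' he) hspan
    have hm : m = n + 1 := (Fintype.card_fin m).symm.trans ((Module.finrank_eq_card_basis b).symm.trans hn)
    subst hm
    exact ⟨b, fun i j h => by simp [b, he, h], fun i _ => by simp [b, he], Or.inl (by simp [b, he])⟩
  · obtain ⟨u, huu, hPu⟩ := hone hPbot
    have huP : u ∈ P := hPu ▸ Submodule.mem_span_singleton_self u
    have hu' := (hmemP u).mp huP
    have hα0 : α ≠ 0 := fun h => hα (h ▸ IsSquare.zero)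
    let w : Fin (m + 1) → V := Fin.snoc e u
    have hw : ∀ i j, B (w i) (w j) = if i = j then (if i = Fin.last m then α else 1) else 0 := by
      intro i j
      refine Fin.lastCases ?_ (fun i => ?_) i <;> refine Fin.lastCases ?_ (fun j => ?_) j
      · simp [w, huu]
      · simp [w, hsym _ u, hu', Ne.symm (Fin.castSucc_ne_last j)]
      · simp [w, hu']
      · simp [w, he, Fin.castSucc_ne_last]
    have hli : LinearIndependent F w := by
      rw [Fintype.linearIndependent_iff]
      intro c hc i
      have := congrArg (fun v => B (w i) v) hc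
      by_cases hi : i = Fin.last m
      · simp [map_sum, hw, hi, hα0] at this
        rw [hi]; exact this
      · simpa [map_sum, hw, hi] using this
    have hspan : ⊤ ≤ Submodule.span F (Set.range w) := by
      intro v _
      have h := hdec v
      rw [hPu, Submodule.mem_span_singleton] at h
      obtain ⟨c, hc⟩ := h
      rw [← sub_add_cancel v (∑ i, B (e i) v • e i), ← hc]
      exact Submodule.add_mem _ (Submodule.smul_mem _ _ (Submodule.subset_span ⟨Fin.last m, by simp [w]⟩))
        (Submodule.sum_mem _ fun i _ => Submodule.smul_mem _ _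
          (Submodule.subset_span ⟨i.castSucc, by simp [w]⟩))
    let b := Module.Basis.mk hli hspan
    have hm : m = n := by
      have := (Fintype.card_fin (m + 1)).symm.trans ((Module.finrank_eq_card_basis b).symm.trans hn)
      omega
    subst hm
    exact ⟨b, fun i j h => by simp [b, hw, h], fun i hi => by simp [b, hw, hi],
      Or.inr (by simp [b, hw])⟩

end Cfsg.Agent.S0756
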