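import Cfsg.Statements.S0757
import Cfsg.Agent.Forms.Gram

set_option autoImplicit false
open Cfsg

namespace Cfsg.Agent.S0757

/-- The two diagonal forms Σ x_i^2 and Σ_(i<n) x_i^2 + α x_n^2 on F^(n+1), with α a non-square and 2 ≠ 0 in F, are inequivalent quadratic forms (so over a finite field of odd order there are exactly two classes of non-singular symmetric bilinear forms in each dimension). -/
theorem result {F : Type*} [Field F] (h2 : (2 : F) ≠ 0) (n : ℕ) (α : F) (hα : ¬ IsSquare α) : ¬ (QuadraticMap.weightedSumSquares F (fun _ : Fin (n + 1) => (1 : F))).Equivalent (QuadraticMap.weightedSumSquares F (fun i : Fin (n + 1) => if i = Fin.last n then α else (1 : F))) := by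
  rintro ⟨e⟩
  classical
  set w : Fin (n + 1) → F := fun i => if i = Fin.last n then α else (1 : F)
  set b := Pi.basisFun F (Fin (n + 1))
  have hg : ∀ w : Fin (n + 1) → F, (CfsgLib.Forms.gram ⇑(QuadraticMap.weightedSumSquares F w) ⇑b).det =
      2 ^ (n + 1) * ∏ i, w i := fun w => by
    rw [CfsgLib.Forms.det_gram_orth _ _ (fun i j hij => by
      simp [b, QuadraticMap.polar, QuadraticMap.weightedSumSquares_apply, Pi.single_apply, mul_add, add_mul,
        Finset.sum_add_distrib, hij, hij.symm]), Fintype.card_fin]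
    congr 1
    refine Finset.prod_congr rfl fun i _ => ?_
    simp [b, QuadraticMap.weightedSumSquares_apply, Pi.single_apply]
  have hcb : CfsgLib.Forms.gram ⇑(QuadraticMap.weightedSumSquares F w) ⇑(b.map e.toLinearEquiv) =
      CfsgLib.Forms.gram ⇑(QuadraticMap.weightedSumSquares F fun _ : Fin (n + 1) => (1 : F)) ⇑b := by
    ext i j
    simp only [CfsgLib.Forms.gram, Matrix.of_apply, QuadraticMap.polar, Module.Basis.map_apply]
    rw [← map_add, ← e.map_app, ← e.map_app, ← e.map_app]
    rfl
  have hdet := CfsgLib.Forms.det_gram_change (QuadraticMap.weightedSumSquares F w) b (b.map e.toLinearEquiv)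
  rw [hcb, hg, hg] at hdet
  have hw : ∏ i, w i = α := by simp [w]
  rw [hw, Finset.prod_const_one, mul_one] at hdet
  set D := (b.toMatrix ⇑(b.map e.toLinearEquiv)).det
  have h2n : (2 : F) ^ (n + 1) ≠ 0 := pow_ne_zero _ h2
  have h1 : D ^ 2 * α = 1 := mul_left_cancel₀ h2n (by linear_combination -hdet)
  have hD : D ≠ 0 := fun h => by simp [h] at h1
  exact hα ⟨D⁻¹, by field_simp; linear_combination h1⟩

end Cfsg.Agent.S0757
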