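import Cfsg.Statements.S0758
import Cfsg.Agent.Forms.Gram

set_option autoImplicit false
open Cfsg

namespace Cfsg.Agent.S0758

/-- For a finite field F of odd order q and a non-square α: the form x² + y² is isotropic iff q ≡ 1 mod 4, and the form x² + α y² is isotropic iff q ≡ 3 mod 4. -/
theorem result {F : Type*} [Field F] [Fintype F] (h2 : (2 : F) ≠ 0) (α : F) (hα : ¬ IsSquare α) : ((∃ x y : F, (x ≠ 0 ∨ y ≠ 0) ∧ x ^ 2 + y ^ 2 = 0) ↔ Fintype.card F % 4 = 1) ∧ ((∃ x y : F, (x ≠ 0 ∨ y ≠ 0) ∧ x ^ 2 + α * y ^ 2 = 0) ↔ Fintype.card F % 4 = 3) := by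
  classical
  have hodd : Fintype.card F % 2 = 1 := FiniteField.odd_card_of_char_ne_two fun h => h2 (by
    have := ringChar.eq_iff.1 h; exact CharTwo.two_eq_zero)
  have hα0 : α ≠ 0 := fun h => hα (h ▸ IsSquare.zero)
  have hneg : IsSquare (-1 : F) ↔ Fintype.card F % 4 = 1 := by
    rw [FiniteField.isSquare_neg_one_iff]; omega
  have hnegα : IsSquare (-α) ↔ Fintype.card F % 4 = 3 := by
    have hn1 : (-1 : F) ≠ 0 := by simp
    rw [← quadraticChar_one_iff_isSquare (neg_ne_zero.2 hα0), neg_eq_neg_one_mul, map_mul,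
      quadraticChar_neg_one_iff_not_isSquare.2 hα]
    by_cases h : IsSquare (-1 : F)
    · rw [(quadraticChar_one_iff_isSquare hn1).2 h]
      have := hneg.1 h; omega
    · rw [quadraticChar_neg_one_iff_not_isSquare.2 h]
      have := mt hneg.2 h; omega
  have iso : ∀ c : F, c ≠ 0 → ((∃ x y : F, (x ≠ 0 ∨ y ≠ 0) ∧ x ^ 2 + c * y ^ 2 = 0) ↔ IsSquare (-c)) := by
    intro c hc
    constructor
    · rintro ⟨x, y, hxy, h⟩
      rcases eq_or_ne y 0 with rfl | hy
      · simp_all
      · exact ⟨x / y, by field_simp; linear_combination -h⟩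
    · rintro ⟨r, hr⟩
      exact ⟨r, 1, Or.inr one_ne_zero, by linear_combination -hr⟩
  refine ⟨?_, (iso α hα0).trans hnegα⟩
  have := (iso 1 one_ne_zero).trans hneg
  simpa using this

end Cfsg.Agent.S0758
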