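import Cfsg.Statements.S0759
import Cfsg.Agent.Forms.EvenType
import Cfsg.Agent.Forms.Classify

set_option autoImplicit false
open Cfsg

namespace Cfsg.Agent.S0759

/-- Type of the orthonormal form: over a finite field of odd order q and for m ≥ 1, the quadratic form Σ_(i<2m) x_i² on F^(2m) admits an m-dimensional subspace on which it vanishes identically if and only if it is not the case that q ≡ 3 (mod 4) and m is odd. -/
theorem result {F : Type*} [Field F] [Fintype F] (h2 : (2 : F) ≠ 0) (m : ℕ) (hm : 1 ≤ m) : (∃ W : Submodule F (Fin (2 * m) → F), Module.finrank F W = m ∧ ∀ w ∈ W, ∑ i, w i ^ 2 = 0) ↔ ¬ (Fintype.card F % 4 = 3 ∧ Odd m) := by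
  classical
  have hodd : Odd (Fintype.card F) := Nat.odd_iff.2 (FiniteField.odd_card_of_char_ne_two fun h => h2 (by
    have := ringChar.eq_iff.1 h; exact CharTwo.two_eq_zero))
  set Q := QuadraticMap.weightedSumSquares F (fun _ : Fin (2 * m) => (1 : F))
  have hQa : ∀ w, Q w = ∑ i, w i ^ 2 := fun w => by
    simp [Q, QuadraticMap.weightedSumSquares_apply, sq]
  set b := Pi.basisFun F (Fin (2 * m))
  have horth : ∀ i j, i ≠ j → QuadraticMap.polar (⇑Q) (b i) (b j) = 0 := fun i j hij => by
    simp [Q, b, QuadraticMap.polar, QuadraticMap.weightedSumSquares_apply, Pi.single_apply, mul_add,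
      Finset.sum_add_distrib, hij, hij.symm]
  have hg : (CfsgLib.Forms.gram ⇑Q ⇑b).det = (2 ^ m) * (2 ^ m) := by
    rw [CfsgLib.Forms.det_gram_orth _ _ horth, Fintype.card_fin,
      show (2 : F) ^ (2 * m) = 2 ^ m * 2 ^ m by rw [← pow_add]; congr 1; omega]
    simp [Q, b, QuadraticMap.weightedSumSquares_apply, Pi.single_apply]
  have hQ : (QuadraticMap.polarBilin Q).Nondegenerate := CfsgLib.Forms.nondegenerate_iff.2 fun x hx => by
    funext i
    have := hx (Pi.single i 1)
    simp [Q, QuadraticMap.polar, QuadraticMap.weightedSumSquares_apply, Pi.single_apply, mul_add, add_mul,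
      Finset.sum_add_distrib] at this
    have h' : (2 : F) * x i = 0 := by linear_combination this
    simpa [h2] using h'
  have hiff : (¬ (Fintype.card F % 4 = 3 ∧ Odd m)) ↔ IsSquare ((-1 : F) ^ m) := by
    rw [CfsgLib.Forms.isSquare_neg_one_pow rfl hodd]
    have := Nat.odd_iff.1 hodd
    rcases Nat.even_or_odd m with ⟨k, rfl⟩ | ⟨k, rfl⟩
    · have he : ¬ Odd (k + k) := Nat.not_odd_iff_even.2 ⟨k, rfl⟩
      simp only [he, and_false, not_false_iff, true_iff]
      rw [← two_mul, pow_mul, Nat.pow_mod]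
      have : Fintype.card F ^ 2 % 4 = 1 := by
        rw [Nat.pow_mod]; rcases (by omega : Fintype.card F % 4 = 1 ∨ Fintype.card F % 4 = 3) with h | h <;> simp [h]
      simp [this]
    · have ho : Odd (2 * k + 1) := ⟨k, rfl⟩
      simp only [ho, and_true]
      rw [pow_add, pow_mul, Nat.mul_mod, Nat.pow_mod]
      have : Fintype.card F ^ 2 % 4 = 1 := by
        rw [Nat.pow_mod]; rcases (by omega : Fintype.card F % 4 = 1 ∨ Fintype.card F % 4 = 3) with h | h <;> simp [h]
      simp [this]; omega
  rw [hiff]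
  constructor
  · rintro ⟨W, hWd, hW⟩
    obtain ⟨g, hg'⟩ := CfsgLib.Forms.exists_isometry_plus (m := m) hm (by simp) hQ W
      (fun w hw => by rw [hQa]; exact hW w hw) hWd.ge
    set P := CfsgLib.Forms.quadPlus F m
    set p := Pi.basisFun F (Fin m ⊕ Fin m)
    have hp : (CfsgLib.Forms.gram ⇑P ⇑p).det = (-1) ^ m := by
      rw [← CfsgLib.Forms.det_gram_pairs (CfsgLib.Forms.standard_pairs (F := F) m)]
      congr 2; funext i; rcases i with i | i <;> simp [p]
    have hmap : CfsgLib.Forms.gram ⇑Q ⇑(p.map g.symm) = CfsgLib.Forms.gram ⇑P ⇑p := by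
      ext i j
      simp only [CfsgLib.Forms.gram, Matrix.of_apply, QuadraticMap.polar, Module.Basis.map_apply]
      rw [← map_add, ← hg' (g.symm (p i + p j)), ← hg' (g.symm (p i)), ← hg' (g.symm (p j))]
      simp [P]
    have := (CfsgLib.Forms.isSquare_det_gram_iff Q b (p.map g.symm)).1 (hg ▸ ⟨2 ^ m, rfl⟩)
    rwa [hmap, hp] at this
  · intro hsq
    let e : Fin (2 * m) ≃ Fin m ⊕ Fin m := (finCongr (two_mul m)).trans finSumFinEquiv.symm
    let L : (Fin (2 * m) → F) ≃ₗ[F] (Fin m ⊕ Fin m → F) := LinearEquiv.funCongrLeft F F e.symm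
    let P : QuadraticForm F (Fin (2 * m) → F) := (CfsgLib.Forms.quadPlus F m).comp L.toLinearMap
    have hP : (QuadraticMap.polarBilin P).Nondegenerate := CfsgLib.Forms.nondegenerate_iff.2 fun x hx =>
      L.injective <| by
        rw [map_zero]
        refine CfsgLib.Forms.polar_ext (CfsgLib.Forms.nondegenerate_quadPlus m) fun y => ?_
        have := hx (L.symm y)
        simpa [P, QuadraticMap.polar, map_add] using this
    have hp : (CfsgLib.Forms.gram ⇑P ⇑b).det = (-1) ^ m := by
      rw [← CfsgLib.Forms.det_gram_pairs (CfsgLib.Forms.standard_pairs (F := F) m),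
        ← CfsgLib.Forms.det_gram_reindex (CfsgLib.Forms.quadPlus F m) _ e]
      congr 1
      ext i j
      have hL : ∀ i, L (b i) = Sum.elim (fun i => Pi.single (Sum.inl i) (1 : F)) (fun i => Pi.single (Sum.inr i) 1) (e i) := by
        intro i
        funext z
        rcases h : e i with k | k <;>
          simp [L, b, LinearMap.funLeft_apply, Pi.single_apply, Equiv.symm_apply_eq, h]
      simp only [CfsgLib.Forms.gram, Matrix.of_apply, QuadraticMap.polar, P, QuadraticMap.comp_apply,
        LinearEquiv.coe_coe, map_add, hL, Function.comp_apply]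
    obtain ⟨g, hg'⟩ := CfsgLib.Forms.exists_isometry_of_isSquare h2 hP hQ b (by
      rw [hp, hg]; exact hsq.mul ⟨2 ^ m, rfl⟩)
    let U : Submodule F (Fin m ⊕ Fin m → F) := LinearMap.ker (LinearMap.funLeft F F (Sum.inr : Fin m → Fin m ⊕ Fin m))
    have hU : Module.finrank F U = m := by
      have hs : Function.Surjective (LinearMap.funLeft F F (Sum.inr : Fin m → Fin m ⊕ Fin m)) := fun w =>
        ⟨Sum.elim 0 w, funext fun i => rfl⟩
      have := LinearMap.finrank_range_add_finrank_ker (LinearMap.funLeft F F (Sum.inr : Fin m → Fin m ⊕ Fin m))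
      rw [LinearMap.range_eq_top.2 hs, finrank_top] at this
      simp at this
      change Module.finrank F (LinearMap.ker (LinearMap.funLeft F F (Sum.inr : Fin m → Fin m ⊕ Fin m))) = m
      omega
    refine ⟨U.map ((L.symm.trans g) : (Fin m ⊕ Fin m → F) →ₗ[F] (Fin (2 * m) → F)),
      by rw [LinearEquiv.finrank_map_eq]; exact hU, ?_⟩
    rintro _ ⟨u, hu, rfl⟩
    have hu0 : ∀ i, u (Sum.inr i) = 0 := fun i => congrFun (LinearMap.mem_ker.1 hu) i
    rw [← hQa, LinearEquiv.coe_coe, LinearEquiv.trans_apply, hg']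
    simp [P, Cfsg.quadFormPlus, hu0]

end Cfsg.Agent.S0759
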