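import Cfsg.Statements.S0760
import Cfsg.Agent.Forms.Standard
import Cfsg.Agent.Forms.Witt

set_option autoImplicit false
open Cfsg

namespace Cfsg.Agent.S0760

/-- Witt index is well defined: if Q is a quadratic form on a finite-dimensional space V over a finite field with non-degenerate polar form, and W₁, W₂ are subspaces on which Q vanishes that are maximal with this property, then W₁ and W₂ have the same dimension, and twice this dimension is at most dim V. -/
theorem result {F V : Type*} [Field F] [Finite F] [AddCommGroup V] [Module F V] [FiniteDimensional F V] (Q : QuadraticForm F V) (hQ : (QuadraticMap.polarBilin Q).Nondegenerate) (W₁ W₂ : Submodule F V) (h₁ : ∀ w ∈ W₁, Q w = 0) (h₂ : ∀ w ∈ W₂, Q w = 0) (hmax₁ : ∀ W : Submodule F V, W₁ ≤ W → (∀ w ∈ W, Q w = 0) → W = W₁) (hmax₂ : ∀ W : Submodule F V, W₂ ≤ W → (∀ w ∈ W, Q w = 0) → W = W₂) : Module.finrank F W₁ = Module.finrank F W₂ ∧ 2 * Module.finrank F W₁ ≤ Module.finrank F V := by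
  have key : ∀ {W W' : Submodule F V}, (∀ w ∈ W, Q w = 0) → (∀ w ∈ W', Q w = 0) →
      (∀ X : Submodule F V, W ≤ X → (∀ w ∈ X, Q w = 0) → X = W) →
      Module.finrank F W ≤ Module.finrank F W' → Module.finrank F W = Module.finrank F W' := by
    intro W W' hW hW' hmax hle
    obtain ⟨v, hv⟩ := exists_linearIndependent_of_le_finrank hle
    let f : W →ₗ[F] W' := (Fintype.linearCombination F v).comp (Module.finBasis F W).equivFun.toLinearMap
    have hf : Function.Injective f :=
      (linearIndependent_iff_injective_fintypeLinearCombination.1 hv).comp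
        (Module.finBasis F W).equivFun.injective
    obtain ⟨g, hg, hgf⟩ := CfsgLib.Forms.witt hQ W (W'.subtype.comp f) (Subtype.val_injective.comp hf)
      (fun x => by rw [hW x x.2]; exact hW' _ (f x).2)
    have h1 := hmax (W'.map (g.symm : V →ₗ[F] V)) (fun x hx => ⟨f ⟨x, hx⟩, (f ⟨x, hx⟩).2, by
        rw [LinearEquiv.coe_coe, LinearEquiv.symm_apply_eq]; exact (hgf ⟨x, hx⟩).symm⟩)
      (by rintro _ ⟨y, hy, rfl⟩; rw [LinearEquiv.coe_coe, ← hg, g.apply_symm_apply]; exact hW' y hy)
    rw [← h1, LinearEquiv.finrank_map_eq]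
  refine ⟨?_, CfsgLib.Forms.two_finrank_le_of_singular hQ h₁⟩
  rcases le_total (Module.finrank F W₁) (Module.finrank F W₂) with h | h
  · exact key h₁ h₂ hmax₁ h
  · exact (key h₂ h₁ hmax₂ h).symm

end Cfsg.Agent.S0760
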