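import Cfsg.Statements.S0761
import Cfsg.Agent.Forms.Basic

set_option autoImplicit false
open Cfsg

namespace Cfsg.Agent.S0761

/-- Hyperbolic partners: let B be a non-degenerate bilinear form on a finite-dimensional space, either alternating, or symmetric with 2 ≠ 0. If Z is a subspace on which B vanishes, x ∉ Z is isotropic and orthogonal to Z, then there is an isotropic y with B x y = 1 which is orthogonal to Z. -/
theorem result {F V : Type*} [Field F] [AddCommGroup V] [Module F V] [FiniteDimensional F V] (B : LinearMap.BilinForm F V) (hB : B.Nondegenerate) (hform : B.IsAlt ∨ (B.IsSymm ∧ (2 : F) ≠ 0)) (x : V) (Z : Submodule F V) (hxZ : x ∉ Z) (hx : B x x = 0) (hxz : ∀ z ∈ Z, B x z = 0) (hZ : ∀ z ∈ Z, ∀ z' ∈ Z, B z z' = 0) : ∃ y : V, B y y = 0 ∧ B x y = 1 ∧ ∀ z ∈ Z, B z y = 0 := by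
  obtain ⟨φ, hφx, hφZ⟩ := Submodule.exists_dual_map_eq_bot_of_notMem hxZ inferInstance
  have hφ0 : ∀ z ∈ Z, φ z = 0 := fun z hz => by
    have : φ z ∈ Z.map φ := ⟨z, hz, rfl⟩
    rwa [hφZ, Submodule.mem_bot] at this
  set y := (LinearMap.BilinForm.toDual B.flip hB.flip).symm ((φ x)⁻¹ • φ)
  have hy : ∀ v, B v y = (φ x)⁻¹ * φ v := fun v =>
    LinearMap.BilinForm.apply_toDual_symm_apply (B := B.flip) (hB := hB.flip) ((φ x)⁻¹ • φ) v
  have hxy : B x y = 1 := by rw [hy, inv_mul_cancel₀ hφx]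
  have hzy : ∀ z ∈ Z, B z y = 0 := fun z hz => by rw [hy, hφ0 z hz, mul_zero]
  rcases hform with ha | ⟨hs, h2⟩
  · exact ⟨y, ha y, hxy, hzy⟩
  · have hyx : B y x = 1 := (hs.eq y x).trans hxy
    refine ⟨y + (-(B y y) / 2) • x, ?_, ?_, fun z hz => ?_⟩
    · simp [hx, hxy, hyx]; field_simp; ring
    · simp [hx, hxy]
    · simp [hzy z hz, hs.eq z x, hxz z hz]

end Cfsg.Agent.S0761
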