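import Cfsg.Statements.S0763
import Mathlib

set_option autoImplicit false
open Cfsg

namespace Cfsg.Agent.S0763

/-- Binary quadratic forms in characteristic two over a finite field: if Q is a quadratic form on a 2-dimensional space whose polar form is non-degenerate, then either there are vectors v, w with Q v = Q w = 0 and polar value 1 (Q is xy in these coordinates), or there are v, w and μ with Q v = 1, Q w = μ, polar value 1 and x² + x + μ without roots in F (Q is x² + xy + μy²). -/
theorem result {F V : Type*} [Field F] [Finite F] [CharP F 2] [AddCommGroup V] [Module F V] (Q : QuadraticForm F V) (h2 : Module.finrank F V = 2) (hQ : (QuadraticMap.polarBilin Q).Nondegenerate) : (∃ v w : V, LinearIndependent F ![v, w] ∧ Q v = 0 ∧ Q w = 0 ∧ QuadraticMap.polar Q v w = 1) ∨ (∃ (v w : V) (μ : F), LinearIndependent F ![v, w] ∧ (∀ x : F, x ^ 2 + x + μ ≠ 0) ∧ Q v = 1 ∧ Q w = μ ∧ QuadraticMap.polar Q v w = 1) := by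
  classical
  haveI : FiniteDimensional F V := FiniteDimensional.of_finrank_eq_succ h2
  haveI := Fintype.ofFinite F
  haveI : Nontrivial V := Module.nontrivial_of_finrank_pos (R := F) (by omega)
  have hpart : ∀ v : V, v ≠ 0 → ∃ w, QuadraticMap.polar Q v w = 1 := by
    intro v hv
    obtain ⟨w, hw⟩ : ∃ w, QuadraticMap.polarBilin Q v w ≠ 0 := by
      by_contra h
      push Not at h
      exact hv (hQ.1 v h)
    rw [QuadraticMap.polarBilin_apply_apply] at hw
    exact ⟨(QuadraticMap.polar Q v w)⁻¹ • w, by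
      rw [QuadraticMap.polar_smul_right, smul_eq_mul, inv_mul_cancel₀ hw]⟩
  have hself : ∀ v : V, QuadraticMap.polar Q v v = 0 := fun v => by
    rw [QuadraticMap.polar_self, two_nsmul, CharTwo.add_self_eq_zero]
  have hadd : ∀ (x y : F) (v w : V), Q (x • v + y • w) =
      x * x * Q v + y * y * Q w + x * y * QuadraticMap.polar Q v w := by
    intro x y v w
    rw [QuadraticMap.map_add Q, QuadraticMap.map_smul, QuadraticMap.map_smul,
      QuadraticMap.polar_smul_left, QuadraticMap.polar_smul_right]
    simp [smul_eq_mul, mul_assoc]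
  have hind : ∀ v w : V, QuadraticMap.polar Q v w = 1 → LinearIndependent F ![v, w] := by
    intro v w h
    rw [LinearIndependent.pair_iff]
    intro s t hst
    have hs := congrArg (fun z => QuadraticMap.polar Q z w) hst
    have ht := congrArg (fun z => QuadraticMap.polar Q v z) hst
    simp [QuadraticMap.polar_add_left, QuadraticMap.polar_smul_left, hself, h] at hs
    simp [QuadraticMap.polar_add_right, QuadraticMap.polar_smul_right, hself, h] at ht
    exact ⟨hs, ht⟩
  by_cases hex : ∃ v : V, v ≠ 0 ∧ Q v = 0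
  · obtain ⟨v, hv, hQv⟩ := hex
    obtain ⟨w, hw⟩ := hpart v hv
    have hw' : QuadraticMap.polar Q v (w + (-(Q w)) • v) = 1 := by
      simp [QuadraticMap.polar_add_right, QuadraticMap.polar_smul_right, hself, hw]
    refine Or.inl ⟨v, w + (-(Q w)) • v, hind _ _ hw', hQv, ?_, hw'⟩
    rw [show w + (-(Q w)) • v = (-(Q w)) • v + (1 : F) • w by rw [one_smul, add_comm], hadd, hQv, hw]
    ring
  · push Not at hex
    obtain ⟨v₀, hv₀⟩ := exists_ne (0 : V)
    have hq0 : Q v₀ ≠ 0 := hex v₀ hv₀
    obtain ⟨r, hr⟩ := FiniteField.isSquare_of_char_two (ringChar.eq F 2) (Q v₀)⁻¹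
    have hr0 : r ≠ 0 := by
      rintro rfl
      rw [zero_mul] at hr
      exact hq0 (inv_eq_zero.mp hr)
    have hv1 : Q (r • v₀) = 1 := by
      rw [QuadraticMap.map_smul, smul_eq_mul, ← hr, inv_mul_cancel₀ hq0]
    obtain ⟨w, hw⟩ := hpart (r • v₀) (smul_ne_zero hr0 hv₀)
    refine Or.inr ⟨r • v₀, w, Q w, hind _ _ hw, fun x hx => ?_, hv1, rfl, hw⟩
    have h0 : Q (x • (r • v₀) + (1 : F) • w) = 0 := by
      rw [hadd, hv1, hw]; linear_combination hx
    by_cases hz : x • (r • v₀) + (1 : F) • w = 0
    · exact one_ne_zero ((LinearIndependent.pair_iff.mp (hind _ _ hw)) x 1 hz).2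
    · exact hex _ hz h0

end Cfsg.Agent.S0763
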