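import Cfsg.Statements.S0767
import Mathlib

set_option autoImplicit false
open Cfsg

namespace Cfsg.Agent.S0767

/-- The root group of a point: T_v(c) T_v(d) = T_v(c + d), and for A in the symplectic group with A v = a v, the conjugate A T_v(c) A⁻¹ is again some T_v(d). -/
theorem result {F : Type*} [Field F] (m : ℕ) (v : Fin m ⊕ Fin m → F) : (∀ c d : F, Cfsg.sympTransvection m v c * Cfsg.sympTransvection m v d = Cfsg.sympTransvection m v (c + d)) ∧ ∀ (A : Matrix (Fin m ⊕ Fin m) (Fin m ⊕ Fin m) F) (a : F), A ∈ Matrix.symplecticGroup (Fin m) F → A.mulVec v = a • v → ∀ c : F, ∃ d : F, A * Cfsg.sympTransvection m v c * A⁻¹ = Cfsg.sympTransvection m v d := by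
  set J := Matrix.J (Fin m) F with hJ
  refine ⟨fun c d => ?_, fun A a hA hv c => ?_⟩
  · have hz : dotProduct (Matrix.mulVec J v) v = 0 := by
      rw [hJ, Matrix.J, Matrix.fromBlocks_mulVec, dotProduct, Fintype.sum_sum_type]
      simp [Matrix.neg_mulVec, mul_comm]
    simp only [Cfsg.sympTransvection, mul_add, add_mul, one_mul, mul_one, smul_mul_assoc,
      mul_smul_comm, ← hJ, add_smul, Matrix.vecMulVec_mul_vecMulVec, hz, zero_smul,
      Matrix.vecMulVec_zero, smul_zero]
    abel
  · have hAi : A * A⁻¹ = 1 := Matrix.mul_nonsing_inv A (SymplecticGroup.symplectic_det hA)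
    have hAi' : A⁻¹ * A = 1 := Matrix.nonsing_inv_mul A (SymplecticGroup.symplectic_det hA)
    have hK : J * A⁻¹ = A.transpose * J := by
      have h := SymplecticGroup.mem_iff'.mp hA
      rw [hJ]
      calc _ = A.transpose * Matrix.J (Fin m) F * A * A⁻¹ := by rw [h]
        _ = _ := by rw [Matrix.mul_assoc, hAi, Matrix.mul_one]
    have hK' : Matrix.mulVec (A⁻¹).transpose (Matrix.mulVec J v) = Matrix.mulVec J (a • v) := by
      rw [← hv, Matrix.mulVec_mulVec, Matrix.mulVec_mulVec]
      congr 1
      have h := congrArg Matrix.transpose hK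
      rw [Matrix.transpose_mul, Matrix.transpose_mul, Matrix.transpose_transpose, hJ,
        Matrix.J_transpose] at h
      simpa using h
    refine ⟨c * (a * a), ?_⟩
    simp only [Cfsg.sympTransvection, mul_add, add_mul, mul_one, hAi, mul_smul_comm, smul_mul_assoc,
      Matrix.mul_vecMulVec, Matrix.vecMulVec_mul, hv, ← hJ]
    congr 1
    rw [← Matrix.mulVec_transpose, hK', Matrix.mulVec_smul]
    simp [Matrix.smul_vecMulVec, Matrix.vecMulVec_smul, smul_smul, mul_assoc]

end Cfsg.Agent.S0767
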