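import Cfsg.Statements.S0770
import Mathlib

set_option autoImplicit false
open Cfsg

namespace Cfsg.Agent.S0770

/-- For a field with at least 3 elements, an invertible matrix normalises the subgroup of invertible diagonal matrices of GL_n if and only if it is monomial (exactly one non-zero entry in each row). -/
theorem result {F : Type*} [Field F] (hF : ∃ a : F, a ≠ 0 ∧ a ≠ 1) (n : ℕ) (g : Matrix.GeneralLinearGroup (Fin n) F) : g ∈ Subgroup.normalizer ((Units.map (Matrix.diagonalRingHom (Fin n) F).toMonoidHom).range : Subgroup (Matrix.GeneralLinearGroup (Fin n) F)) ↔ ∀ i : Fin n, ∃! j : Fin n, (g : Matrix (Fin n) (Fin n) F) i j ≠ 0 := by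
  classical
  obtain ⟨a, ha0, ha1⟩ := hF
  set D : (Fin n → F)ˣ →* Matrix.GeneralLinearGroup (Fin n) F :=
    Units.map (Matrix.diagonalRingHom (Fin n) F).toMonoidHom with hD
  have hDval : ∀ d : (Fin n → F)ˣ, ((D d : Matrix.GeneralLinearGroup (Fin n) F) : Matrix (Fin n) (Fin n) F) =
      Matrix.diagonal (d : Fin n → F) := fun d => rfl
  set M := (g : Matrix (Fin n) (Fin n) F) with hM
  have hrow : ∀ i, ∃ j, M i j ≠ 0 := by
    intro i
    by_contra h
    push Not at h
    have e := congrArg (fun X : Matrix (Fin n) (Fin n) F => X i i) (Units.mul_inv g)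
    simp [Matrix.mul_apply, ← hM, h] at e
  have hcolumn : ∀ j, ∃ i, M i j ≠ 0 := by
    intro j
    by_contra h
    push Not at h
    have e := congrArg (fun X : Matrix (Fin n) (Fin n) F => X j j) (Units.inv_mul g)
    simp [Matrix.mul_apply, ← hM, h] at e
  rw [Subgroup.mem_normalizer_iff]
  constructor
  · intro hg i
    obtain ⟨j, hj⟩ := hrow i
    refine ⟨j, hj, fun k hk => ?_⟩
    by_contra hkj
    let d : (Fin n → F)ˣ := MulEquiv.piUnits.symm (fun l => if l = j then Units.mk0 a ha0 else 1)
    obtain ⟨e, he⟩ := (hg (D d)).mp ⟨d, rfl⟩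
    have he' : D e * g = g * D d := by rw [he]; group
    have he'' := congrArg (fun X : Matrix.GeneralLinearGroup (Fin n) F => (X : Matrix (Fin n) (Fin n) F)) he'
    simp only [Units.val_mul, hDval, ← hM] at he''
    have ej := congrFun (congrFun he'' i) j
    have ek := congrFun (congrFun he'' i) k
    rw [Matrix.diagonal_mul, Matrix.mul_diagonal] at ej ek
    have hdj : (d : Fin n → F) j = a := by simp [d]
    have hdk : (d : Fin n → F) k = 1 := by simp [d, hkj]
    rw [hdj, mul_comm] at ej
    rw [hdk, mul_comm] at ek
    exact ha1 ((mul_left_cancel₀ hj ej).symm.trans (mul_left_cancel₀ hk ek))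
  · intro hmon
    choose π hπ hπu using hmon
    have hsurj : Function.Surjective π := fun j => by
      obtain ⟨i, hi⟩ := hcolumn j
      exact ⟨i, (hπu i j hi).symm⟩
    let e : Fin n ≃ Fin n := Equiv.ofBijective π (Finite.surjective_iff_bijective.mp hsurj)
    have key : ∀ d : (Fin n → F)ˣ, D (MulEquiv.piUnits.symm fun i => MulEquiv.piUnits d (π i)) * g = g * D d := by
      intro d
      refine Units.ext ?_
      rw [Units.val_mul, Units.val_mul, hDval, hDval, ← hM]
      ext i j
      rw [Matrix.diagonal_mul, Matrix.mul_diagonal]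
      by_cases hj : j = π i
      · subst hj
        simp [mul_comm]
      · have : M i j = 0 := by
          by_contra h
          exact hj (hπu i j h)
        simp [this]
    intro h
    constructor
    · rintro ⟨d, rfl⟩
      exact ⟨_, eq_mul_inv_iff_mul_eq.mpr (key d)⟩
    · rintro ⟨d', hd'⟩
      refine ⟨MulEquiv.piUnits.symm (fun j => MulEquiv.piUnits d' (e.symm j)), ?_⟩
      have hk := key (MulEquiv.piUnits.symm (fun j => MulEquiv.piUnits d' (e.symm j)))
      have hd'' : (MulEquiv.piUnits.symm fun i => MulEquiv.piUnits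
          (MulEquiv.piUnits.symm (fun j => MulEquiv.piUnits d' (e.symm j))) (π i)) = d' := by
        apply MulEquiv.piUnits.injective
        funext i
        simp only [MulEquiv.apply_symm_apply]
        rw [show e.symm (π i) = i from e.symm_apply_apply i]
      rw [hd''] at hk
      have h2 : D d' * g = g * h := by rw [hd']; group
      exact (mul_left_cancel (hk.symm.trans h2))

end Cfsg.Agent.S0770
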