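import Cfsg.Statements.S0771
import Cfsg.Agent.Forms.GeoBridge

set_option autoImplicit false
open Cfsg

namespace Cfsg.Agent.S0771

/-- Maximal parabolic of GL_n(q): the stabiliser of the coordinate subspace spanned by the first k basis vectors has order q^(k(n-k)) · |GL_k(q)| · |GL_(n-k)(q)| (unipotent radical of order q^(k(n-k)) and Levi complement GL_k × GL_(n-k)). -/
theorem result {F : Type*} [Field F] [Fintype F] {q : ℕ} (hF : Fintype.card F = q) (n k : ℕ) (hk : k ≤ n) : Nat.card ↥(Cfsg.stabilizing (Cfsg.glToMat (Fin n) F) {v : Fin n → F | ∀ i : Fin n, k ≤ (i : ℕ) → v i = 0}) = q ^ (k * (n - k)) * (∏ i : Fin k, (q ^ k - q ^ (i : ℕ))) * ∏ i : Fin (n - k), (q ^ (n - k) - q ^ (i : ℕ)) := by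
  subst hF
  obtain ⟨l, rfl⟩ : ∃ l, n = k + l := ⟨n - k, by omega⟩
  rw [show k + l - k = l by omega]
  classical
  let σ : Matrix (Fin (k + l)) (Fin (k + l)) F ≃* Matrix (Fin k ⊕ Fin l) (Fin k ⊕ Fin l) F :=
    (Matrix.reindexAlgEquiv F F finSumFinEquiv.symm).toMulEquiv
  let S := Cfsg.stabilizing (Cfsg.glToMat (Fin (k + l)) F) {v : Fin (k + l) → F | ∀ i : Fin (k + l), k ≤ (i : ℕ) → v i = 0}
  have hσa : ∀ (M : Matrix (Fin (k + l)) (Fin (k + l)) F) a b, σ M a b = M (finSumFinEquiv a) (finSumFinEquiv b) :=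
    fun M a b => rfl
  have hiff : ∀ g : Matrix.GeneralLinearGroup (Fin (k + l)) F, g ∈ S ↔
      (σ (g : Matrix (Fin (k + l)) (Fin (k + l)) F)).toBlocks₂₁ = 0 := by
    intro g
    let W : Submodule F (Fin (k + l) → F) :=
      { carrier := {v | ∀ i : Fin (k + l), k ≤ (i : ℕ) → v i = 0}
        add_mem' := fun ha hb i hi => by rw [Pi.add_apply, ha i hi, hb i hi, add_zero]
        zero_mem' := fun i hi => rfl
        smul_mem' := fun c v hv i hi => by rw [Pi.smul_apply, hv i hi, smul_zero] }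
    constructor
    · intro hg
      ext a b
      have h1 : (Pi.single (finSumFinEquiv (Sum.inl b)) 1 : Fin (k + l) → F) ∈ W := fun i hi =>
        Pi.single_eq_of_ne (fun h => by rw [h] at hi; simp at hi; omega) _
      have h2 := (hg _).1 h1 (finSumFinEquiv (Sum.inr a)) (by simp)
      simpa [Matrix.toBlocks₂₁, hσa, Matrix.mulVec_single] using h2
    · intro h0
      refine CfsgLib.Forms.mem_subspaceStabilizer_of_le (W := W) fun v hv i hi => ?_
      obtain ⟨z, rfl⟩ := finSumFinEquiv.surjective i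
      rcases z with b | a
      · simp at hi; omega
      rw [Matrix.mulVec, dotProduct, ← Equiv.sum_comp finSumFinEquiv, Fintype.sum_sum_type]
      have e1 : ∀ b : Fin k, (g : Matrix (Fin (k + l)) (Fin (k + l)) F) (finSumFinEquiv (Sum.inr a)) (finSumFinEquiv (Sum.inl b)) = 0 :=
        fun b => congrFun (congrFun h0 a) b
      have e2 : ∀ c : Fin l, v (finSumFinEquiv (Sum.inr c)) = 0 := fun c => hv _ (by simp)
      simp only [e1, e2, zero_mul, mul_zero, Finset.sum_const_zero, add_zero]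
  let mkB : Matrix.GeneralLinearGroup (Fin k) F × Matrix (Fin k) (Fin l) F × Matrix.GeneralLinearGroup (Fin l) F →
      Matrix.GeneralLinearGroup (Fin (k + l)) F := fun p =>
    Matrix.GeneralLinearGroup.mkOfDetNeZero
      (σ.symm (Matrix.fromBlocks (p.1 : Matrix (Fin k) (Fin k) F) p.2.1 0 (p.2.2 : Matrix (Fin l) (Fin l) F))) (by
        show (Matrix.reindex finSumFinEquiv finSumFinEquiv
          (Matrix.fromBlocks (p.1 : Matrix (Fin k) (Fin k) F) p.2.1 0 (p.2.2 : Matrix (Fin l) (Fin l) F))).det ≠ 0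
        rw [Matrix.det_reindex_self, Matrix.det_fromBlocks_zero₂₁]
        exact mul_ne_zero ((Matrix.isUnit_iff_isUnit_det _).1 p.1.isUnit).ne_zero
          ((Matrix.isUnit_iff_isUnit_det _).1 p.2.2.isUnit).ne_zero)
  have hmkB : ∀ p, σ (mkB p : Matrix (Fin (k + l)) (Fin (k + l)) F) =
      Matrix.fromBlocks (p.1 : Matrix (Fin k) (Fin k) F) p.2.1 0 (p.2.2 : Matrix (Fin l) (Fin l) F) := fun p =>
    σ.apply_symm_apply _
  have hbij : Function.Bijective fun p => (⟨mkB p, (hiff _).2 (by rw [hmkB]; exact Matrix.toBlocks_fromBlocks₂₁ _ _ _ _)⟩ : S) := by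
    constructor
    · intro p p' h
      have h1 := congrArg σ (congrArg Units.val (congrArg Subtype.val h))
      rw [hmkB, hmkB, Matrix.fromBlocks_inj] at h1
      exact Prod.ext (Units.ext h1.1) (Prod.ext h1.2.1 (Units.ext h1.2.2.2))
    · rintro ⟨g, hg⟩
      set M := σ (g : Matrix (Fin (k + l)) (Fin (k + l)) F)
      have h0 := (hiff g).1 hg
      have hM : Matrix.fromBlocks M.toBlocks₁₁ M.toBlocks₁₂ 0 M.toBlocks₂₂ = M := by
        conv_rhs => rw [← M.fromBlocks_toBlocks, h0]
      have hdet : M.toBlocks₁₁.det * M.toBlocks₂₂.det ≠ 0 := by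
        rw [← Matrix.det_fromBlocks_zero₂₁ M.toBlocks₁₁ M.toBlocks₁₂, hM]
        show (Matrix.reindex finSumFinEquiv.symm finSumFinEquiv.symm (g : Matrix (Fin (k + l)) (Fin (k + l)) F)).det ≠ 0
        rw [Matrix.det_reindex_self]
        exact ((Matrix.isUnit_iff_isUnit_det _).1 g.isUnit).ne_zero
      refine ⟨(Matrix.GeneralLinearGroup.mkOfDetNeZero _ (left_ne_zero_of_mul hdet), M.toBlocks₁₂,
        Matrix.GeneralLinearGroup.mkOfDetNeZero _ (right_ne_zero_of_mul hdet)), Subtype.ext (Units.ext (σ.injective ?_))⟩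
      rw [hmkB]
      exact hM
  show Nat.card ↥S = _
  rw [← Nat.card_congr (Equiv.ofBijective _ hbij), Nat.card_prod, Nat.card_prod, Matrix.card_GL_field,
    Matrix.card_GL_field]
  have hm : Nat.card (Matrix (Fin k) (Fin l) F) = Fintype.card F ^ (k * l) := by
    rw [show Nat.card (Matrix (Fin k) (Fin l) F) = Nat.card (Fin k → Fin l → F) from rfl, Nat.card_fun, Nat.card_fun,
      Nat.card_fin, Nat.card_fin, Nat.card_eq_fintype_card, ← pow_mul, mul_comm l k]
  rw [hm]
  try simp only [Fintype.card_fin]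
  ring

end Cfsg.Agent.S0771
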