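import Cfsg.Statements.S0772
import Cfsg.Agent.GeoLib.Parabolic

set_option autoImplicit false
open Cfsg

namespace Cfsg.Agent.S0772

/-- Maximal parabolics are maximal: over a finite field, for 0 < k < n the stabiliser in GL_n of the span of the first k coordinate vectors is a maximal proper subgroup. -/
theorem result {F : Type*} [Field F] [Finite F] (n k : ℕ) (hk0 : 0 < k) (hkn : k < n) : IsCoatom (Cfsg.stabilizing (Cfsg.glToMat (Fin n) F) {v : Fin n → F | ∀ i : Fin n, k ≤ (i : ℕ) → v i = 0}) := by
  haveI : Nontrivial (Fin n) := Fin.nontrivial_iff_two_le.2 (by omega)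
  let W : Submodule F (Fin n → F) :=
    { carrier := {v | ∀ i : Fin n, k ≤ (i : ℕ) → v i = 0}
      add_mem' := fun ha hb i hi => by rw [Pi.add_apply, ha i hi, hb i hi, add_zero]
      zero_mem' := fun i hi => rfl
      smul_mem' := fun c v hv i hi => by rw [Pi.smul_apply, hv i hi, smul_zero] }
  show IsCoatom (Cfsg.Geo.subspaceStabilizer W)
  have hmem : ∀ v, v ∈ W ↔ ∀ i : Fin n, k ≤ (i : ℕ) → v i = 0 := fun v => Iff.rfl
  set e : Fin n → F := Pi.single ⟨0, by omega⟩ 1
  set f : Fin n → F := Pi.single ⟨k, hkn⟩ 1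
  have he : e ∈ W := (hmem _).2 fun i hi => Pi.single_eq_of_ne (fun h => by rw [h] at hi; simp at hi; omega) _
  have hf : f ∉ W := fun h => by simpa [f] using (hmem _).1 h ⟨k, hkn⟩ le_rfl
  constructor
  · intro htop
    obtain ⟨g, -, hg⟩ := CfsgLib.GeoTransvection.exists_transvection f (LinearMap.proj (⟨0, by omega⟩ : Fin n))
      (Pi.single_eq_of_ne (fun h => by simp [Fin.ext_iff] at h; omega) _)
    have hgm : g ∈ Cfsg.Geo.subspaceStabilizer W := by rw [htop]; trivial
    have := (hgm e).1 he
    change (g : Matrix (Fin n) (Fin n) F).mulVec e ∈ W at this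
    rw [hg] at this
    simp only [LinearMap.proj_apply, e, Pi.single_eq_same, one_smul] at this
    exact hf ((W.add_mem_iff_right he).1 this)
  · intro M hM
    obtain ⟨g, hg, hgW⟩ := SetLike.exists_of_lt hM
    have hS := CfsgLib.GeoParabolic.specialLinear_le_of_lt W M (inf_le_left.trans hM.le) hg hgW
    refine eq_top_iff.2 fun x _ => ?_
    have hd0 : (x : Matrix (Fin n) (Fin n) F).det ≠ 0 := fun h => by
      have hu := (Matrix.isUnit_iff_isUnit_det _).1 x.isUnit
      rw [h] at hu; exact not_isUnit_zero hu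
    let d : Fin n → F := Function.update 1 ⟨0, by omega⟩ (x : Matrix (Fin n) (Fin n) F).det
    let D : Matrix.GeneralLinearGroup (Fin n) F := Matrix.GeneralLinearGroup.mkOfDetNeZero (Matrix.diagonal d) (by
      rw [Matrix.det_diagonal, Finset.prod_update_of_mem (Finset.mem_univ _)]; simpa using hd0)
    have hD : D ∈ M := hM.le fun v => by
      show v ∈ W ↔ (Matrix.diagonal d).mulVec v ∈ W
      simp only [hmem, Matrix.mulVec_diagonal, mul_eq_zero]
      refine forall₂_congr fun i hi => ?_
      have : d i = 1 := Function.update_of_ne (fun h => by rw [h] at hi; simp at hi; omega) _ _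
      simp [this]
    have hx : D⁻¹ * x ∈ Cfsg.Geo.specialLinear (Fin n) F := by
      show Matrix.GeneralLinearGroup.det (D⁻¹ * x) = 1
      rw [map_mul, map_inv, inv_mul_eq_one]
      refine Units.ext ?_
      show (Matrix.diagonal d).det = (x : Matrix (Fin n) (Fin n) F).det
      rw [Matrix.det_diagonal, Finset.prod_update_of_mem (Finset.mem_univ _)]
      simp
    simpa using mul_mem hD (hS hx)

end Cfsg.Agent.S0772
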