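import Cfsg.Statements.S0773
import Cfsg.Agent.Forms.GeoBridge
import Cfsg.Agent.GeoLib.Transvection

set_option autoImplicit false
open Cfsg

namespace Cfsg.Agent.S0773

/-- The stabilisers in GL_n(F), F finite, of the coordinate subspaces of dimensions k and n − k are isomorphic groups, but when 2k ≠ n (and 0 < k < n) no element of GL_n conjugates one onto the other. -/
theorem result {F : Type*} [Field F] [Finite F] (n k : ℕ) (hk0 : 0 < k) (hkn : k < n) (h2 : 2 * k ≠ n) : Nonempty (↥(Cfsg.stabilizing (Cfsg.glToMat (Fin n) F) {v : Fin n → F | ∀ i : Fin n, k ≤ (i : ℕ) → v i = 0}) ≃* ↥(Cfsg.stabilizing (Cfsg.glToMat (Fin n) F) {v : Fin n → F | ∀ i : Fin n, n - k ≤ (i : ℕ) → v i = 0})) ∧ ∀ g : Matrix.GeneralLinearGroup (Fin n) F, (Cfsg.stabilizing (Cfsg.glToMat (Fin n) F) {v : Fin n → F | ∀ i : Fin n, k ≤ (i : ℕ) → v i = 0}).map (MulAut.conj g).toMonoidHom ≠ Cfsg.stabilizing (Cfsg.glToMat (Fin n) F) {v : Fin n → F | ∀ i : Fin n, n - k ≤ (i : ℕ) → v i = 0} := by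
  classical
  haveI : Nontrivial (Fin n) := Fin.nontrivial_iff_two_le.2 (by omega)
  let Wk : ℕ → Submodule F (Fin n → F) := fun j =>
    { carrier := {v | ∀ i : Fin n, j ≤ (i : ℕ) → v i = 0}
      add_mem' := fun ha hb i hi => by rw [Pi.add_apply, ha i hi, hb i hi, add_zero]
      zero_mem' := fun i hi => rfl
      smul_mem' := fun c v hv i hi => by rw [Pi.smul_apply, hv i hi, smul_zero] }
  have hmem : ∀ j v, v ∈ Wk j ↔ ∀ i : Fin n, j ≤ (i : ℕ) → v i = 0 := fun j v => Iff.rfl
  constructor
  · -- transpose inverse, then reverse the coordinates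
    let r : Fin n ≃ Fin n := Fin.revPerm
    let φ : Matrix.GeneralLinearGroup (Fin n) F →* Matrix.GeneralLinearGroup (Fin n) F :=
      MonoidHom.mk' (fun g => ⟨((g⁻¹ : Matrix.GeneralLinearGroup (Fin n) F) : Matrix (Fin n) (Fin n) F).transpose.submatrix r r,
          (g : Matrix (Fin n) (Fin n) F).transpose.submatrix r r,
          by rw [Matrix.submatrix_mul_equiv, ← Matrix.transpose_mul, ← Units.val_mul, mul_inv_cancel]; simp,
          by rw [Matrix.submatrix_mul_equiv, ← Matrix.transpose_mul, ← Units.val_mul, inv_mul_cancel]; simp⟩)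
        (fun g h => Units.ext (by
          show (((g * h)⁻¹ : Matrix.GeneralLinearGroup (Fin n) F) : Matrix (Fin n) (Fin n) F).transpose.submatrix r r = _ * _
          rw [mul_inv_rev, Units.val_mul, Matrix.transpose_mul, ← Matrix.submatrix_mul_equiv _ _ _ r _]))
    have hφφ : ∀ g, φ (φ g) = g := fun g => Units.ext (by
      show (((g : Matrix (Fin n) (Fin n) F).transpose.submatrix r r)).transpose.submatrix r r = _
      ext a b; simp [r])
    have hblock : ∀ (j : ℕ) (g : Matrix.GeneralLinearGroup (Fin n) F),
        g ∈ Cfsg.Geo.subspaceStabilizer (Wk j) ↔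
          ∀ a b : Fin n, j ≤ (a : ℕ) → (b : ℕ) < j → (g : Matrix (Fin n) (Fin n) F) a b = 0 := by
      intro j g
      constructor
      · intro hg a b ha hb
        have h1 : (Pi.single b 1 : Fin n → F) ∈ Wk j := fun i hi =>
          Pi.single_eq_of_ne (fun h => by rw [h] at hi; omega) _
        simpa [Matrix.mulVec_single] using (hg _).1 h1 a ha
      · intro h
        refine CfsgLib.Forms.mem_subspaceStabilizer_of_le fun v hv i hi => ?_
        rw [Matrix.mulVec, dotProduct]
        refine Finset.sum_eq_zero fun c _ => ?_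
        rcases lt_or_ge (c : ℕ) j with hc | hc
        · rw [h i c hi hc, zero_mul]
        · rw [hv c hc, mul_zero]
    have hmap : ∀ j, j ≤ n → ∀ g, g ∈ Cfsg.Geo.subspaceStabilizer (Wk j) →
        φ g ∈ Cfsg.Geo.subspaceStabilizer (Wk (n - j)) := by
      intro j hj g hg
      have hgi := (hblock j _).1 (inv_mem hg)
      rw [hblock]
      intro a b ha hb
      exact hgi (r b) (r a) (by simp [r, Fin.val_rev]; omega) (by simp [r, Fin.val_rev]; omega)
    refine ⟨{ toFun := fun g => ⟨φ g.1, hmap k hkn.le g.1 g.2⟩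
              invFun := fun g => ⟨φ g.1, by
                have := hmap (n - k) (by omega) g.1 g.2
                rwa [show n - (n - k) = k by omega] at this⟩
              left_inv := fun g => Subtype.ext (hφφ g.1)
              right_inv := fun g => Subtype.ext (hφφ g.1)
              map_mul' := fun g h => Subtype.ext (map_mul φ g.1 h.1) }⟩
  · intro g hg
    change (Cfsg.Geo.subspaceStabilizer (Wk k)).map (MulAut.conj g).toMonoidHom =
      Cfsg.Geo.subspaceStabilizer (Wk (n - k)) at hg
    set U := (Wk k).map (Matrix.toLin' (g : Matrix (Fin n) (Fin n) F))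
    have hinj : Function.Injective (Matrix.toLin' (g : Matrix (Fin n) (Fin n) F)) := fun a b h =>
      Matrix.mulVec_injective_of_isUnit g.isUnit (by simpa using h)
    have hstab : Cfsg.Geo.subspaceStabilizer (Wk (n - k)) ≤ Cfsg.Geo.subspaceStabilizer U := by
      intro x hx
      rw [← hg] at hx
      obtain ⟨y, hy, rfl⟩ := hx
      refine CfsgLib.Forms.mem_subspaceStabilizer_of_le ?_
      rintro _ ⟨v, hv, rfl⟩
      refine ⟨(y : Matrix (Fin n) (Fin n) F).mulVec v, (hy v).1 hv, ?_⟩
      simp only [Matrix.toLin'_apply, MulEquiv.coe_toMonoidHom, MulAut.conj_apply, Units.val_mul, Matrix.mulVec_mulVec]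
      rw [← Units.val_mul, ← Units.val_mul, ← Units.val_mul]
      congr 2
      group
    have hd : ∀ j, j ≤ n → Module.finrank F (Wk j) = j := by
      intro j hj
      have hsp : Wk j = Submodule.span F (Set.range fun i : Fin j => (Pi.single (Fin.castLE hj i) 1 : Fin n → F)) := by
        refine le_antisymm (fun v hv => ?_) (Submodule.span_le.2 ?_)
        · rw [pi_eq_sum_univ' v]
          refine Submodule.sum_mem _ fun i _ => ?_
          rcases lt_or_ge (i : ℕ) j with h | h
          · exact Submodule.smul_mem _ _ (Submodule.subset_span ⟨⟨i, h⟩, rfl⟩)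
          · rw [hv i h, zero_smul]; exact zero_mem _
        · rintro _ ⟨i, rfl⟩ a ha
          exact Pi.single_eq_of_ne (fun h => by rw [h] at ha; simp at ha; omega) _
      rw [hsp, finrank_span_eq_card, Fintype.card_fin]
      have := (Pi.basisFun F (Fin n)).linearIndependent.comp (Fin.castLE hj) (Fin.castLE_injective hj)
      convert this using 1
      funext i; simp
    have hUd : Module.finrank F U = k := by
      rw [← (Submodule.equivMapOfInjective _ hinj (Wk k)).finrank_eq, hd k hkn.le]
    obtain ⟨u, hu, hu0⟩ := U.exists_mem_ne_zero_of_ne_bot fun h => by rw [h, finrank_bot] at hUd; omega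
    obtain ⟨w, hw, hw0⟩ := (Wk (n - k)).exists_mem_ne_zero_of_ne_bot fun h => by
      have := hd (n - k) (by omega); rw [h, finrank_bot] at this; omega
    -- the stabiliser of `Wk (n - k)` moves every subspace of another dimension
    have key : ∀ t : Fin n → F, ∀ φ : Module.Dual F (Fin n → F), φ t = 0 →
        (t ∈ Wk (n - k) ∨ ∀ x ∈ Wk (n - k), φ x = 0) → ∀ z ∈ U, φ z ≠ 0 → t ∈ U := by
      intro t φ ht hor z hz hφz
      obtain ⟨s, -, hs⟩ := CfsgLib.GeoTransvection.exists_transvection t φ ht
      have hsW : s ∈ Cfsg.Geo.subspaceStabilizer (Wk (n - k)) := CfsgLib.Forms.mem_subspaceStabilizer_of_le fun v hv => by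
        rw [hs]
        rcases hor with h | h
        · exact add_mem hv (Submodule.smul_mem _ _ h)
        · rw [h v hv, zero_smul, add_zero]; exact hv
      have := (hstab hsW z).1 hz
      change (s : Matrix (Fin n) (Fin n) F).mulVec z ∈ U at this
      rw [hs, U.add_mem_iff_right hz] at this
      exact (U.smul_mem_iff hφz).1 this
    by_cases hle : U ≤ Wk (n - k)
    · -- some centre inside
      obtain ⟨t, ht, htU⟩ : ∃ t ∈ Wk (n - k), t ∉ U := by
        by_contra hall
        push Not at hall
        have := Submodule.finrank_mono (show Wk (n - k) ≤ U from hall)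
        have := Submodule.finrank_mono hle
        rw [hUd, hd (n - k) (by omega)] at *
        omega
      have hnot : u ∉ Submodule.span F {t} := by
        rw [Submodule.mem_span_singleton]
        rintro ⟨c, rfl⟩
        rcases eq_or_ne c 0 with rfl | hc
        · simp at hu0
        · exact htU ((U.smul_mem_iff hc).1 hu)
      obtain ⟨φ, hφu, hφ⟩ := Submodule.exists_dual_map_eq_bot_of_notMem hnot inferInstance
      exact htU (key t φ ((Submodule.mem_bot F).mp (hφ ▸ Submodule.mem_map_of_mem (Submodule.mem_span_singleton_self t)))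
        (Or.inl ht) u hu hφu)
    · obtain ⟨z, hz, hzW⟩ := SetLike.not_le_iff_exists.1 hle
      -- then `Wk (n - k) ≤ U`
      have hWU : Wk (n - k) ≤ U := by
        intro t ht
        obtain ⟨φ, hφz, hφ⟩ := Submodule.exists_dual_map_eq_bot_of_notMem hzW inferInstance
        exact key t φ ((Submodule.mem_bot F).mp (hφ ▸ Submodule.mem_map_of_mem ht)) (Or.inl ht) z hz hφz
      obtain ⟨t, htU⟩ : ∃ t, t ∉ U := by
        by_contra hall
        push Not at hall
        rw [show U = ⊤ from eq_top_iff.2 fun v _ => hall v, finrank_top, Module.finrank_fin_fun] at hUd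
        omega
      by_cases hz' : z ∈ Wk (n - k) ⊔ Submodule.span F {t}
      · obtain ⟨a, ha, b, hb, e⟩ := Submodule.mem_sup.1 hz'
        obtain ⟨c, rfl⟩ := Submodule.mem_span_singleton.1 hb
        have hct : c • t ∈ U := by rw [← U.add_mem_iff_right (hWU ha), e]; exact hz
        rcases eq_or_ne c 0 with rfl | hc
        · rw [zero_smul, add_zero] at e; exact hzW (e ▸ ha)
        · exact htU ((U.smul_mem_iff hc).1 hct)
      · obtain ⟨φ, hφz, hφ⟩ := Submodule.exists_dual_map_eq_bot_of_notMem hz' inferInstance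
        have h0 : ∀ x ∈ Wk (n - k) ⊔ Submodule.span F {t}, φ x = 0 := fun x hx =>
          (Submodule.mem_bot F).mp (hφ ▸ Submodule.mem_map_of_mem hx)
        exact htU (key t φ (h0 _ (Submodule.mem_sup_right (Submodule.mem_span_singleton_self t)))
          (Or.inr fun x hx => h0 x (Submodule.mem_sup_left hx)) z hz hφz)

end Cfsg.Agent.S0773
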