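import Cfsg.Statements.S0776
import Cfsg.Agent.Forms.SympEmbed
import Cfsg.Agent.Forms.SplitStab

set_option autoImplicit false
open Cfsg

namespace Cfsg.Agent.S0776

/-- If W ≤ F^(2m) is a 2k-dimensional subspace on which the symplectic form is non-degenerate, then the stabiliser of W in Sp_2m(F) is isomorphic to Sp_2k(F) × Sp_(2m−2k)(F). -/
theorem result {F : Type*} [Field F] (m k : ℕ) (hk : k ≤ m) (W : Submodule F (Fin m ⊕ Fin m → F)) (hWk : Module.finrank F W = 2 * k) (hW : ∀ u ∈ W, (∀ v ∈ W, Cfsg.sympForm m F u v = 0) → u = 0) : Nonempty (↥(Cfsg.stabilizing (Cfsg.spToMat m F) (W : Set (Fin m ⊕ Fin m → F))) ≃* Matrix.symplecticGroup (Fin k) F × Matrix.symplecticGroup (Fin (m - k)) F) := by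
  classical
  let B : LinearMap.BilinForm F (Fin m ⊕ Fin m → F) := LinearMap.mk₂ F (Cfsg.sympForm m F)
    (fun u u' v => CfsgLib.SpGeom.form_add_left u u' v) (fun c u v => CfsgLib.SpGeom.form_smul_left c u v)
    (fun u v v' => CfsgLib.SpGeom.form_add_right u v v') (fun c u v => CfsgLib.SpGeom.form_smul_right c u v)
  have hB : ∀ u v, B u v = Cfsg.sympForm m F u v := fun u v => rfl
  have halt : B.IsAlt := fun u => CfsgLib.SpGeom.form_self u
  have hrefl : B.IsRefl := halt.isRefl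
  have hnd : B.Nondegenerate := by
    refine (LinearMap.IsRefl.nondegenerate_iff_separatingLeft hrefl).2 fun u hu => ?_
    by_contra hne
    obtain ⟨w, hw⟩ := CfsgLib.SpGeom.exists_form_ne_zero hne
    exact hw (hu w)
  have hWnd : (B.restrict W).Nondegenerate := by
    have hr : (B.restrict W).IsRefl := fun a b h => hrefl a b h
    refine (LinearMap.IsRefl.nondegenerate_iff_separatingLeft hr).2 fun u hu => ?_
    exact Subtype.ext (hW u u.2 fun v hv => hu ⟨v, hv⟩)
  set P := B.orthogonal W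
  have hc : IsCompl W P := (LinearMap.BilinForm.restrict_nondegenerate_iff_isCompl_orthogonal hrefl).1 hWnd
  have hPd : Module.finrank F P = 2 * (m - k) := by
    have := Submodule.finrank_add_eq_of_isCompl hc
    rw [hWk] at this
    simp at this
    omega
  have hPnd : (B.restrict P).SeparatingLeft := by
    intro u hu
    refine Subtype.ext (hnd.1 u fun v => ?_)
    obtain ⟨w, hw, p, hp, rfl⟩ := Submodule.mem_sup.1 (show v ∈ W ⊔ P by rw [hc.sup_eq_top]; trivial)
    rw [map_add]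
    have h1 : B (u : Fin m ⊕ Fin m → F) w = 0 := hrefl w u (u.2 w hw)
    rw [h1, zero_add]
    exact hu ⟨p, hp⟩
  obtain ⟨g1, hg1⟩ := CfsgLib.Forms.exists_symp_coord hWk (B.restrict W) (fun u => halt u) hWnd.1
  obtain ⟨g2, hg2⟩ := CfsgLib.Forms.exists_symp_coord hPd (B.restrict P) (fun u => halt u) hPnd
  let e : ((Fin k ⊕ Fin k → F) × (Fin (m - k) ⊕ Fin (m - k) → F)) ≃ₗ[F] (Fin m ⊕ Fin m → F) :=
    (g1.symm.prodCongr g2.symm).trans (Submodule.prodEquivOfIsCompl W P hc)
  let toR : ∀ j : ℕ, ↥(Matrix.symplecticGroup (Fin j) F) →* ((Fin j ⊕ Fin j → F) ≃ₗ[F] (Fin j ⊕ Fin j → F)) :=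
    fun j => CfsgLib.Forms.glEquiv.toMonoidHom.comp (Cfsg.spToMat j F).toHomUnits
  have htoR : ∀ (j : ℕ) (A : ↥(Matrix.symplecticGroup (Fin j) F)) v, toR j A v =
      (A : Matrix (Fin j ⊕ Fin j) (Fin j ⊕ Fin j) F).mulVec v := fun j A v => by simp [toR]
  have hinj : ∀ j, Function.Injective (toR j) := fun j A A' h =>
    Subtype.ext (Matrix.ext_iff_mulVec.2 fun v => by rw [← htoR, h, htoR])
  have hform : ∀ (j : ℕ) (A : ↥(Matrix.symplecticGroup (Fin j) F)) u v,
      Cfsg.sympForm j F (toR j A u) (toR j A v) = Cfsg.sympForm j F u v := fun j A u v => by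
    rw [htoR, htoR]; exact CfsgLib.SpGeom.form_mulVec A u v
  have hsurj : ∀ (j : ℕ) (g : (Fin j ⊕ Fin j → F) ≃ₗ[F] (Fin j ⊕ Fin j → F)),
      (∀ u v, Cfsg.sympForm j F (g u) (g v) = Cfsg.sympForm j F u v) → ∃ A, toR j A = g := fun j g hg => by
    have hv : ∀ v, (LinearMap.toMatrix' g.toLinearMap).mulVec v = g v := fun v =>
      LinearMap.toMatrix'_mulVec g.toLinearMap v
    refine ⟨⟨LinearMap.toMatrix' g.toLinearMap, CfsgLib.SpGeom.mem_of_form fun u v => by rw [hv, hv, hg]⟩,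
      LinearEquiv.ext fun v => by rw [htoR]; exact hv v⟩
  refine CfsgLib.Forms.exists_stabilizer_prod (Cfsg.sympForm m F) (Cfsg.sympForm k F) (Cfsg.sympForm (m - k) F) e
    ?_ CfsgLib.SpGeom.form_zero_left CfsgLib.SpGeom.form_zero_right CfsgLib.SpGeom.form_zero_right ?_
    (toR m) (hinj m) (hform m) (hsurj m) (toR k) (hinj k) (hform k) (hsurj k)
    (toR (m - k)) (hinj _) (hform _) (hsurj _) W ?_ _ ?_
  · intro x y
    have hex : ∀ x : (Fin k ⊕ Fin k → F) × (Fin (m - k) ⊕ Fin (m - k) → F),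
        e x = ((g1.symm x.1 : W) : Fin m ⊕ Fin m → F) + ((g2.symm x.2 : P) : Fin m ⊕ Fin m → F) := fun x => by
      simp [e]
    have h12 : ∀ (a : W) (p : P), B (a : Fin m ⊕ Fin m → F) p = 0 ∧ B (p : Fin m ⊕ Fin m → F) a = 0 :=
      fun a p => ⟨p.2 a a.2, hrefl _ _ (p.2 a a.2)⟩
    rw [hex, hex, ← hB]
    simp only [map_add, LinearMap.add_apply, (h12 _ _).1, (h12 _ _).2, add_zero, zero_add]
    conv_rhs => rw [← g1.apply_symm_apply x.1, ← g1.apply_symm_apply y.1, hg1,
      ← g2.apply_symm_apply x.2, ← g2.apply_symm_apply y.2, hg2]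
    rfl
  · intro a ha
    by_contra hne
    obtain ⟨w, hw⟩ := CfsgLib.SpGeom.exists_form_ne_zero hne
    exact hw (ha w)
  · intro x
    show Submodule.prodEquivOfIsCompl W P hc (g1.symm x.1, g2.symm x.2) ∈ W ↔ _
    rw [Submodule.coe_prodEquivOfIsCompl', W.add_mem_iff_right (g1.symm x.1).2]
    constructor
    · intro h
      have h0 : g2.symm x.2 = 0 := Subtype.ext (Submodule.disjoint_def.1 hc.disjoint _ h (g2.symm x.2).2)
      simpa using h0
    · intro h; simp [h]
  · intro h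
    refine forall_congr' fun v => ?_
    rw [htoR]
    rfl

end Cfsg.Agent.S0776
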