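import Cfsg.Statements.S0777
import Cfsg.Agent.SpGeom.Basic

set_option autoImplicit false
open Cfsg Matrix

namespace Cfsg.Agent.S0777

/-- Weyl group of type C_m: for q ≥ 4 the diagonal matrices of Sp_2m(q) form a torus T ≅ (C_(q−1))^m (the elements stabilising every coordinate axis), and the normaliser of T in Sp_2m(q) has order 2^m · m! · (q − 1)^m. -/
theorem result {F : Type*} [Field F] [Fintype F] {q : ℕ} (hF : Fintype.card F = q) (hq : 4 ≤ q) (m : ℕ) : Nat.card ↥(Subgroup.normalizer (⨅ i : Fin m ⊕ Fin m, Cfsg.stabilizing (Cfsg.spToMat m F) ((Submodule.span F {(Pi.single i (1 : F) : Fin m ⊕ Fin m → F)} : Submodule F (Fin m ⊕ Fin m → F)) : Set (Fin m ⊕ Fin m → F)) : Set (Matrix.symplecticGroup (Fin m) F))) = 2 ^ m * Nat.factorial m * (q - 1) ^ m := by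
  classical
  subst hF
  simp only [Set.iInf_eq_iInter, ← Subgroup.coe_iInf]
  obtain ⟨a, ha0, ha1, ha2⟩ : ∃ a : F, a ≠ 0 ∧ a ≠ 1 ∧ a ≠ a⁻¹ := by
    have h : ({0, 1, -1} : Finset F).card < Fintype.card F := lt_of_le_of_lt Finset.card_le_three (by omega)
    obtain ⟨a, -, ha⟩ := Finset.exists_mem_notMem_of_card_lt_card (s := ({0, 1, -1} : Finset F)) (t := Finset.univ) h
    simp at ha
    refine ⟨a, ha.1, ha.2.1, fun e => ?_⟩
    have : a * a = 1 := by nth_rw 2 [e]; exact mul_inv_cancel₀ ha.1
    rcases mul_self_eq_one_iff.1 this with h' | h'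
    exacts [ha.2.1 h', ha.2.2 h']
  set T : Subgroup (Matrix.symplecticGroup (Fin m) F) := ⨅ i : Fin m ⊕ Fin m,
    Cfsg.stabilizing (Cfsg.spToMat m F) ((Submodule.span F {(Pi.single i (1 : F) : Fin m ⊕ Fin m → F)} :
      Submodule F (Fin m ⊕ Fin m → F)) : Set (Fin m ⊕ Fin m → F)) with hTdef
  let e : Fin m ⊕ Fin m → Fin m ⊕ Fin m → F := fun k => Pi.single k 1
  have he0 : ∀ k, e k ≠ 0 := fun k => by simp [e]
  have hT : ∀ t, t ∈ T ↔ ∀ k, ∃ c : F, t.1 *ᵥ e k = c • e k := by
    intro t
    rw [hTdef, Subgroup.mem_iInf]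
    refine forall_congr' fun k => ⟨fun h => ?_, fun ⟨c, hc⟩ v => ?_⟩
    · obtain ⟨c, hc⟩ := Submodule.mem_span_singleton.1 ((h (e k)).1 (Submodule.mem_span_singleton_self _))
      exact ⟨c, hc.symm⟩
    · have hinj : Function.Injective (t.1 *ᵥ ·) :=
        fun x y h => by rw [← CfsgLib.SpGeom.inv_mulVec t x, ← CfsgLib.SpGeom.inv_mulVec t y]; exact congrArg _ h
      have hc0 : c ≠ 0 := fun h0 => CfsgLib.SpGeom.mulVec_ne_zero t (he0 k) (by rw [hc, h0, zero_smul])
      simp only [SetLike.mem_coe, Submodule.mem_span_singleton]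
      constructor
      · rintro ⟨x, rfl⟩
        refine ⟨x * c, ?_⟩
        show _ = t.1 *ᵥ (x • e k)
        rw [Matrix.mulVec_smul, hc, smul_smul]
      · rintro ⟨x, hx⟩
        refine ⟨x / c, hinj ?_⟩
        show t.1 *ᵥ ((x / c) • e k) = _
        rw [Matrix.mulVec_smul, hc, smul_smul, div_mul_cancel₀ _ hc0]
        exact hx
  let L : Equiv.Perm (Fin m) → (Fin m → Bool) → (Fin m → Fˣ) → (Fin m ⊕ Fin m → F) →ₗ[F] (Fin m ⊕ Fin m → F) :=
    fun σ b c =>
    { toFun := fun v => Sum.elim
        (fun x => if b (σ.symm x) then -(c (σ.symm x) : F)⁻¹ * v (.inr (σ.symm x)) else (c (σ.symm x) : F) * v (.inl (σ.symm x)))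
        (fun x => if b (σ.symm x) then (c (σ.symm x) : F) * v (.inl (σ.symm x)) else (c (σ.symm x) : F)⁻¹ * v (.inr (σ.symm x)))
      map_add' := fun u v => by
        funext k; rcases k with x | x <;> simp only [Sum.elim_inl, Sum.elim_inr, Pi.add_apply] <;> split_ifs <;> ring
      map_smul' := fun r v => by
        funext k; rcases k with x | x <;>
          simp only [Sum.elim_inl, Sum.elim_inr, Pi.smul_apply, smul_eq_mul, RingHom.id_apply] <;> split_ifs <;> ring }
  have hLmem : ∀ σ b c, LinearMap.toMatrix' (L σ b c) ∈ Matrix.symplecticGroup (Fin m) F := by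
    intro σ b c
    refine CfsgLib.SpGeom.mem_of_form fun u v => ?_
    rw [LinearMap.toMatrix'_mulVec, LinearMap.toMatrix'_mulVec, CfsgLib.SpGeom.form_def, CfsgLib.SpGeom.form_def,
      ← Equiv.sum_comp σ]
    refine Finset.sum_congr rfl fun i _ => ?_
    simp only [L, LinearMap.coe_mk, AddHom.coe_mk, Sum.elim_inl, Sum.elim_inr, Equiv.symm_apply_apply]
    have hc := (c i).ne_zero
    split_ifs <;> field_simp <;> ring
  let side : Bool → Fin m → Fin m ⊕ Fin m := fun b x => if b then .inr x else .inl x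
  have hside : ∀ b b' x x', side b x = side b' x' ↔ b = b' ∧ x = x' := fun b b' x x' => by
    cases b <;> cases b' <;> simp [side]
  have hLl : ∀ σ b c j, L σ b c (e (.inl j)) = (c j : F) • e (side (b j) (σ j)) := by
    intro σ b c j
    funext k
    rcases k with x | x <;> rcases eq_or_ne x (σ j) with rfl | hx <;> cases hb : b j <;>
      simp_all [L, e, side, Equiv.symm_apply_eq, Pi.single_apply]
  have hLr : ∀ σ b c j, L σ b c (e (.inr j)) =
      (if b j then -(c j : F)⁻¹ else (c j : F)⁻¹) • e (side (!(b j)) (σ j)) := by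
    intro σ b c j
    funext k
    rcases k with x | x <;> rcases eq_or_ne x (σ j) with rfl | hx <;> cases hb : b j <;>
      simp_all [L, e, side, Equiv.symm_apply_eq, Pi.single_apply]
  let Φ : (Equiv.Perm (Fin m) × (Fin m → Bool) × (Fin m → Fˣ)) → Matrix.symplecticGroup (Fin m) F := fun p =>
    ⟨LinearMap.toMatrix' (L p.1 p.2.1 p.2.2), hLmem _ _ _⟩
  have hΦv : ∀ p v, (Φ p).1 *ᵥ v = L p.1 p.2.1 p.2.2 v := fun p v => LinearMap.toMatrix'_mulVec _ _
  have hΦinj : Function.Injective Φ := by
    rintro ⟨σ, b, c⟩ ⟨σ', b', c'⟩ h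
    have key : ∀ j, side (b j) (σ j) = side (b' j) (σ' j) ∧ (c j : F) = c' j := fun j => by
      have h1 := hΦv (σ, b, c) (e (.inl j))
      rw [h, hΦv, hLl, hLl] at h1
      have h2 := congrFun h1 (side (b j) (σ j))
      by_cases hs : side (b j) (σ j) = side (b' j) (σ' j)
      · refine ⟨hs, ?_⟩
        simpa [e, hs] using h2.symm
      · simp [e, Pi.single_apply, hs] at h2
        exact absurd h2.symm (c j).ne_zero
    have h1 := fun j => (hside _ _ _ _).1 (key j).1
    simp only [Prod.mk.injEq]
    exact ⟨Equiv.ext fun j => (h1 j).2, funext fun j => (h1 j).1, funext fun j => Units.ext (key j).2⟩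
  have hsep : ∀ k l : Fin m ⊕ Fin m, k ≠ l → ∃ t ∈ T, ∃ x y : F, x ≠ y ∧
      t.1 *ᵥ e k = x • e k ∧ t.1 *ᵥ e l = y • e l := by
    intro k l hkl
    let i : Fin m := Sum.elim id id k
    let c : Fin m → Fˣ := Function.update 1 i (Units.mk0 a ha0)
    let val : Fin m ⊕ Fin m → F := Sum.elim (fun j => (c j : F)) (fun j => (c j : F)⁻¹)
    have hval : ∀ z, (Φ (1, fun _ => false, c)).1 *ᵥ e z = val z • e z := fun z => by
      rw [hΦv]; rcases z with z | z
      · simpa [val, side] using hLl 1 (fun _ => false) c z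
      · simpa [val, side] using hLr 1 (fun _ => false) c z
    refine ⟨_, (hT _).2 fun z => ⟨_, hval z⟩, val k, val l, ?_, hval k, hval l⟩
    rcases k with k | k <;> rcases l with l | l <;>
      rcases eq_or_ne l k with rfl | hlk <;>
      simp_all [val, c, i, Function.update_apply, inv_eq_one]
    · exact fun h => ha2 h.symm
  have hN : ∀ g, g ∈ Subgroup.normalizer (T : Set (Matrix.symplecticGroup (Fin m) F)) ↔
      ∀ k, ∃ l, ∃ c : F, g.1 *ᵥ e k = c • e l := by
    intro g
    constructor
    · intro hg k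
      obtain ⟨l, hl⟩ := Function.ne_iff.1 (CfsgLib.SpGeom.mulVec_ne_zero g (he0 k))
      refine ⟨l, (g.1 *ᵥ e k) l, funext fun z => ?_⟩
      rcases eq_or_ne z l with rfl | hzl
      · simp [e]
      simp only [e, Pi.smul_apply, Pi.single_apply, hzl, if_false, smul_zero]
      by_contra hz
      obtain ⟨t, ht, x, y, hxy, htx, hty⟩ := hsep z l hzl
      have ht' : g⁻¹ * t * g ∈ T := by
        have := ((Subgroup.normalizer (T : Set (Matrix.symplecticGroup (Fin m) F))).inv_mem hg)
        have := (Subgroup.mem_normalizer_iff.1 this t).1 ht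
        simpa using this
      obtain ⟨μ, hμ⟩ := (hT _).1 ht' k
      have h1 : t.1 *ᵥ (g.1 *ᵥ e k) = μ • (g.1 *ᵥ e k) := by
        rw [← Matrix.mulVec_smul, ← hμ, Matrix.mulVec_mulVec, Matrix.mulVec_mulVec, ← CfsgLib.SpGeom.coe_mul',
          ← CfsgLib.SpGeom.coe_mul']
        congr 2
        group
      have hd : ∀ w r, t.1 *ᵥ e w = r • e w → (g.1 *ᵥ e k) w ≠ 0 → r = μ := by
        intro w r hr hw
        have h2 := congrFun h1 w
        rw [show (t.1 *ᵥ (g.1 *ᵥ e k)) w = r * (g.1 *ᵥ e k) w by
          rw [Matrix.mulVec, dotProduct, Finset.sum_eq_single w]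
          · rw [show t.1 w w = r by simpa [e] using congrFun hr w]
          · intro z' _ hz'
            obtain ⟨c', hc'⟩ := (hT t).1 ht z'
            rw [show t.1 w z' = 0 by simpa [e, Pi.single_apply, hz'.symm] using congrFun hc' w, zero_mul]
          · simp] at h2
        exact mul_right_cancel₀ hw h2
      exact hxy ((hd z x htx hz).trans (hd l y hty hl).symm)
    · intro hg
      choose π c hc using hg
      have hinj : Function.Injective π := by
        intro k k' h
        by_contra hne
        have h0 : g.1 *ᵥ (c k' • e k - c k • e k') = 0 := by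
          rw [Matrix.mulVec_sub, Matrix.mulVec_smul, Matrix.mulVec_smul, hc, hc, h, smul_comm, sub_self]
        have hck : c k' ≠ 0 := fun h' => CfsgLib.SpGeom.mulVec_ne_zero g (he0 k') (by rw [hc, h', zero_smul])
        by_cases hz : c k' • e k - c k • e k' = 0
        · simpa [e, Pi.single_apply, hne, hck] using congrFun hz k
        · exact CfsgLib.SpGeom.mulVec_ne_zero g hz h0
      have hsurj := Finite.surjective_of_injective hinj
      rw [Subgroup.mem_normalizer_iff]
      intro t
      constructor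
      · intro ht
        refine (hT _).2 fun l => ?_
        obtain ⟨k, rfl⟩ := hsurj l
        obtain ⟨μ, hμ⟩ := (hT t).1 ht k
        refine ⟨μ, ?_⟩
        have hck : c k ≠ 0 := fun h' => CfsgLib.SpGeom.mulVec_ne_zero g (he0 k) (by rw [hc, h', zero_smul])
        rw [show e (π k) = (c k)⁻¹ • (g.1 *ᵥ e k) by rw [hc, smul_smul, inv_mul_cancel₀ hck, one_smul],
          Matrix.mulVec_smul, CfsgLib.SpGeom.coe_mul', CfsgLib.SpGeom.coe_mul', ← Matrix.mulVec_mulVec,
          CfsgLib.SpGeom.inv_mulVec, ← Matrix.mulVec_mulVec, hμ, Matrix.mulVec_smul, smul_comm]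
      · intro ht
        refine (hT _).2 fun k => ?_
        obtain ⟨μ, hμ⟩ := (hT _).1 ht (π k)
        refine ⟨μ, ?_⟩
        have h1 := congrArg (c k • ·) hμ
        rw [← Matrix.mulVec_smul, smul_comm, ← hc, CfsgLib.SpGeom.coe_mul', CfsgLib.SpGeom.coe_mul',
          ← Matrix.mulVec_mulVec, CfsgLib.SpGeom.inv_mulVec, ← Matrix.mulVec_mulVec, ← Matrix.mulVec_smul] at h1
        rw [← CfsgLib.SpGeom.inv_mulVec g (t.1 *ᵥ e k), h1, CfsgLib.SpGeom.inv_mulVec]
  have hrange : Set.range Φ = (Subgroup.normalizer (T : Set (Matrix.symplecticGroup (Fin m) F)) :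
      Set (Matrix.symplecticGroup (Fin m) F)) := by
    ext g
    rw [SetLike.mem_coe, hN]
    constructor
    · rintro ⟨⟨σ, b, c⟩, rfl⟩ (j | j)
      · exact ⟨_, _, (hΦv _ _).trans (hLl σ b c j)⟩
      · exact ⟨_, _, (hΦv _ _).trans (hLr σ b c j)⟩
    · intro hg
      choose π c hc using hg
      have hc0 : ∀ k, c k ≠ 0 := fun k h' => CfsgLib.SpGeom.mulVec_ne_zero g (he0 k) (by rw [hc, h', zero_smul])
      let b : Fin m → Bool := fun j => (π (.inl j)).isRight
      let s : Fin m → Fin m := fun j => Sum.elim id id (π (.inl j))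
      have hπl : ∀ j, π (.inl j) = side (b j) (s j) := fun j => by
        simp only [b, s, side]; cases π (.inl j) <;> simp
      have hπr : ∀ j, π (.inr j) = side (!(b j)) (s j) ∧
          c (.inr j) = if b j then -(c (.inl j))⁻¹ else (c (.inl j))⁻¹ := fun j => by
        have h1 := CfsgLib.SpGeom.form_mulVec g (e (.inr j)) (e (.inl j))
        rw [hc, hc, CfsgLib.SpGeom.form_smul_left, CfsgLib.SpGeom.form_smul_right, hπl,
          show Cfsg.sympForm m F (e (.inr j)) (e (.inl j)) = 1 by
            show Cfsg.sympForm m F _ (Pi.single _ 1) = 1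
            rw [CfsgLib.SpGeom.form_single_inl_right]; simp [e]] at h1
        cases hb : b j
        · simp only [hb, side, Bool.not_false, if_false, if_true, Bool.false_eq_true] at h1 ⊢
          rw [show e (Sum.inl (s j)) = Pi.single (Sum.inl (s j)) 1 from rfl, CfsgLib.SpGeom.form_single_inl_right] at h1
          by_cases hp : π (.inr j) = .inr (s j)
          · refine ⟨hp, eq_inv_of_mul_eq_one_left ?_⟩
            simpa [e, hp] using h1
          · simp [e, Pi.single_apply, Ne.symm hp] at h1
        · simp only [hb, side, Bool.not_true, if_false, if_true, Bool.false_eq_true] at h1 ⊢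
          rw [show e (Sum.inr (s j)) = Pi.single (Sum.inr (s j)) 1 from rfl, CfsgLib.SpGeom.form_single_inr_right] at h1
          by_cases hp : π (.inr j) = .inl (s j)
          · refine ⟨hp, ?_⟩
            rw [← inv_neg]
            exact eq_inv_of_mul_eq_one_left (by simp [e, hp] at h1; linear_combination h1)
          · simp [e, Pi.single_apply, Ne.symm hp] at h1
      have hpinj : Function.Injective π := by
        intro k k' h
        by_contra hne
        have h0 : g.1 *ᵥ (c k' • e k - c k • e k') = 0 := by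
          rw [Matrix.mulVec_sub, Matrix.mulVec_smul, Matrix.mulVec_smul, hc, hc, h, smul_comm, sub_self]
        by_cases hz : c k' • e k - c k • e k' = 0
        · simpa [e, Pi.single_apply, hne, hc0 k'] using congrFun hz k
        · exact CfsgLib.SpGeom.mulVec_ne_zero g hz h0
      have hs : Function.Injective s := by
        intro i j h
        by_cases hb : b i = b j
        · exact Sum.inl_injective (hpinj (by rw [hπl, hπl, hb, h]))
        · exfalso
          have : π (.inl i) = π (.inr j) := by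
            rw [hπl, (hπr j).1, h]
            cases hbi : b i <;> cases hbj : b j <;> simp_all
          exact Sum.inl_ne_inr (hpinj this)
      refine ⟨(Equiv.ofBijective s (Finite.injective_iff_bijective.1 hs), b, fun j => Units.mk0 _ (hc0 (.inl j))),
        Subtype.ext (Matrix.ext_of_mulVec_single fun k => ?_)⟩
      show (Φ _).1 *ᵥ e k = _ *ᵥ e k
      rw [hΦv, hc]
      rcases k with j | j
      · rw [hLl, hπl]; rfl
      · rw [hLr, (hπr j).1, (hπr j).2]; rfl
  have hcard := Nat.card_range_of_injective hΦinj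
  rw [hrange] at hcard
  refine hcard.trans ?_
  rw [Nat.card_prod, Nat.card_prod, Nat.card_perm, Nat.card_fun, Nat.card_fun, Nat.card_units]
  simp only [Nat.card_eq_fintype_card, Fintype.card_bool, Fintype.card_fin]
  ring

end Cfsg.Agent.S0777
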