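import Cfsg.Statements.S0778
import Cfsg.Agent.Forms.GeoBridge

set_option autoImplicit false
open Cfsg

namespace Cfsg.Agent.S0778

/-- The elements of Sp_2m(F) stabilising both W = ⟨e_1..e_m⟩ and U = ⟨f_1..f_m⟩ form a subgroup isomorphic to GL_m(F) (block-diagonal matrices diag(X, X^(−ᵀ)) up to the sign convention of J), for m ≥ 1 or m = 0 alike. -/
theorem result {F : Type*} [Field F] (m : ℕ) : Nonempty (↥(Cfsg.stabilizing (Cfsg.spToMat m F) {v : Fin m ⊕ Fin m → F | ∀ i : Fin m, v (Sum.inr i) = 0} ⊓ Cfsg.stabilizing (Cfsg.spToMat m F) {v : Fin m ⊕ Fin m → F | ∀ i : Fin m, v (Sum.inl i) = 0}) ≃* Matrix.GeneralLinearGroup (Fin m) F) := by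
  classical
  let P : Subgroup (Matrix.symplecticGroup (Fin m) F) :=
    Cfsg.stabilizing (Cfsg.spToMat m F) {v : Fin m ⊕ Fin m → F | ∀ i : Fin m, v (Sum.inr i) = 0} ⊓
      Cfsg.stabilizing (Cfsg.spToMat m F) {v : Fin m ⊕ Fin m → F | ∀ i : Fin m, v (Sum.inl i) = 0}
  let mat : Matrix.GeneralLinearGroup (Fin m) F → Matrix (Fin m ⊕ Fin m) (Fin m ⊕ Fin m) F := fun g =>
    Matrix.fromBlocks (g : Matrix (Fin m) (Fin m) F) 0 0
      ((g⁻¹ : Matrix.GeneralLinearGroup (Fin m) F) : Matrix (Fin m) (Fin m) F).transpose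
  have hmat : ∀ g, mat g ∈ Matrix.symplecticGroup (Fin m) F := fun g => by
    rw [SymplecticGroup.mem_iff]
    simp [mat, Matrix.J, Matrix.fromBlocks_transpose, Matrix.fromBlocks_multiply, ← Matrix.transpose_mul,
      ← Units.val_mul]
  have hmem : ∀ g, (⟨mat g, hmat g⟩ : Matrix.symplecticGroup (Fin m) F) ∈ P := by
    intro g
    constructor
    · intro v
      show (∀ i, v (Sum.inr i) = 0) ↔ ∀ i, (mat g).mulVec v (Sum.inr i) = 0
      simp only [mat, Matrix.fromBlocks_mulVec, Sum.elim_inr, Matrix.zero_mulVec, zero_add]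
      constructor
      · intro h i
        rw [show v ∘ Sum.inr = 0 from funext h, Matrix.mulVec_zero]; rfl
      · intro h i
        have h' : v ∘ Sum.inr = 0 := Matrix.mulVec_injective_of_isUnit (Matrix.isUnit_transpose _ |>.2 (g⁻¹).isUnit)
          (by rw [Matrix.mulVec_zero]; exact funext h)
        exact congrFun h' i
    · intro v
      show (∀ i, v (Sum.inl i) = 0) ↔ ∀ i, (mat g).mulVec v (Sum.inl i) = 0
      simp only [mat, Matrix.fromBlocks_mulVec, Sum.elim_inl, Matrix.zero_mulVec, add_zero]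
      constructor
      · intro h i
        rw [show v ∘ Sum.inl = 0 from funext h, Matrix.mulVec_zero]; rfl
      · intro h i
        have h' : v ∘ Sum.inl = 0 := Matrix.mulVec_injective_of_isUnit g.isUnit
          (by rw [Matrix.mulVec_zero]; exact funext h)
        exact congrFun h' i
  let φ : Matrix.GeneralLinearGroup (Fin m) F →* P :=
    MonoidHom.mk' (fun g => ⟨⟨mat g, hmat g⟩, hmem g⟩) fun g h => Subtype.ext (Subtype.ext (by
      show mat (g * h) = mat g * mat h
      simp [mat, Matrix.fromBlocks_multiply, Matrix.mul_inv_rev, Matrix.transpose_mul]))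
  refine ⟨(MulEquiv.ofBijective φ ⟨fun g h e => ?_, fun ⟨A, hA⟩ => ?_⟩).symm⟩
  · have h1 : mat g = mat h := congrArg Subtype.val (congrArg Subtype.val e)
    exact Units.ext (Matrix.fromBlocks_inj.1 h1).1
  · set M := (A : Matrix (Fin m ⊕ Fin m) (Fin m ⊕ Fin m) F)
    have h21 : M.toBlocks₂₁ = 0 := by
      ext a b
      have := (hA.1 (Pi.single (Sum.inl b) 1)).1 (fun i => by simp) a
      change M.mulVec _ (Sum.inr a) = 0 at this
      simpa [Matrix.toBlocks₂₁, Matrix.mulVec_single] using this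
    have h12 : M.toBlocks₁₂ = 0 := by
      ext a b
      have := (hA.2 (Pi.single (Sum.inr b) 1)).1 (fun i => by simp) a
      change M.mulVec _ (Sum.inl a) = 0 at this
      simpa [Matrix.toBlocks₁₂, Matrix.mulVec_single] using this
    have hM : M = Matrix.fromBlocks M.toBlocks₁₁ 0 0 M.toBlocks₂₂ := by
      conv_lhs => rw [← M.fromBlocks_toBlocks, h21, h12]
    have hs := SymplecticGroup.mem_iff.1 A.2
    change M * Matrix.J (Fin m) F * M.transpose = Matrix.J (Fin m) F at hs
    rw [hM] at hs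
    simp [Matrix.J, Matrix.fromBlocks_transpose, Matrix.fromBlocks_multiply] at hs
    obtain ⟨h1, h2⟩ := hs
    have h1' : M.toBlocks₂₂.transpose * M.toBlocks₁₁ = 1 := by
      have : M.toBlocks₁₁ * M.toBlocks₂₂.transpose = 1 := h1
      exact mul_eq_one_comm.1 this
    refine ⟨⟨M.toBlocks₁₁, M.toBlocks₂₂.transpose, h1, h1'⟩, Subtype.ext (Subtype.ext ?_)⟩
    show mat _ = M
    conv_rhs => rw [hM]
    simp [mat, Matrix.inv_eq_right_inv h1]

end Cfsg.Agent.S0778
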