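import Cfsg.Statements.S0779
import Cfsg.Agent.UGeom.Count

set_option autoImplicit false
open Cfsg

namespace Cfsg.Agent.S0779

/-- Unitary transvections: let |F| = q², h the standard Hermitian form Σ x_i y_i^q and v ≠ 0 with h(v, v) = 0. The linear map x ↦ x + c h(x, v) v is an isometry of h if and only if c = 0 or c^(q−1) = −1. -/
theorem result {F : Type*} [Field F] [Fintype F] {q : ℕ} (hF : Fintype.card F = q ^ 2) (n : ℕ) (v : Fin n → F) (hv : v ≠ 0) (hv0 : Cfsg.hermForm n F q v v = 0) (c : F) : (∀ x y : Fin n → F, Cfsg.hermForm n F q ((Cfsg.unitaryTransvection n q v c).mulVec x) ((Cfsg.unitaryTransvection n q v c).mulVec y) = Cfsg.hermForm n F q x y) ↔ (c = 0 ∨ c ^ (q - 1) = -1) := by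
  obtain ⟨C⟩ := CfsgLib.UGeom.nonempty_conj hF
  have hq := C.two_le
  have hiff : (c = 0 ∨ c ^ (q - 1) = -1) ↔ c + C.σ c = 0 := by
    rw [C.pow]
    rcases eq_or_ne c 0 with rfl | hc
    · simp [zero_pow (by omega : q ≠ 0)]
    · have e : c ^ q = c * c ^ (q - 1) := by rw [← pow_succ', Nat.sub_add_cancel (by omega)]
      rw [e, or_iff_right hc]
      constructor
      · intro h; rw [h]; ring
      · intro h
        exact mul_left_cancel₀ hc (by linear_combination h)
  rw [hiff]
  have hmv : ∀ x, (Cfsg.unitaryTransvection n q v c).mulVec x = x + (c * Cfsg.hermForm n F q x v) • v :=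
    fun x => CfsgLib.UGeom.qrefl_mulVec v c x
  constructor
  · intro h
    obtain ⟨y, hy⟩ := CfsgLib.UGeom.exists_form_ne_zero C hv
    have h' := h y y
    simp only [hmv, CfsgLib.UGeom.form_add_left, CfsgLib.UGeom.form_add_right C, CfsgLib.UGeom.form_smul_left,
      CfsgLib.UGeom.form_smul_right C, hv0, map_mul, CfsgLib.UGeom.form_conj C] at h'
    have hy' : Cfsg.hermForm n F q y v ≠ 0 := fun h0 => hy (by
      rw [← CfsgLib.UGeom.form_conj C y v, h0, map_zero])
    have h2 : (c + C.σ c) * (Cfsg.hermForm n F q y v * Cfsg.hermForm n F q v y) = 0 := by linear_combination h'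
    exact (mul_eq_zero.1 h2).resolve_right (mul_ne_zero hy' hy)
  · intro h x y
    exact CfsgLib.UGeom.qrefl_form C v c (by rw [hv0, mul_zero, add_zero, h]) x y

end Cfsg.Agent.S0779
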