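import Cfsg.Statements.S0780
import Cfsg.Agent.UGeom.Simple
-- import your own Cfsg.Agent.* helpers here

set_option autoImplicit false
open Cfsg

namespace Cfsg.Agent.S0780

/-- Generation of SU_n(q), n ≥ 3, (n, q) ≠ (3, 2), by unitary transvections: the subgroup generated by the elements whose matrix is x ↦ x + c h(x, v) v with v isotropic is all of SU_n(q). -/
theorem result {F : Type*} [Field F] [Fintype F] {q : ℕ} (hF : Fintype.card F = q ^ 2) (n : ℕ) (hn : 3 ≤ n) (h32 : ¬ (n = 3 ∧ q = 2)) : Subgroup.closure {A : ↥(Cfsg.SU n F q) | ∃ (v : Fin n → F) (c : F), Cfsg.hermForm n F q v v = 0 ∧ ((A : Matrix.SpecialLinearGroup (Fin n) F) : Matrix (Fin n) (Fin n) F) = Cfsg.unitaryTransvection n q v c} = ⊤ := by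
  obtain ⟨C⟩ := CfsgLib.UGeom.nonempty_conj hF
  refine CfsgLib.UGeom.eq_top_of_utv C hn h32 _ fun v c hv hc => ?_
  exact Subgroup.subset_closure ⟨v, c, hv, rfl⟩

end Cfsg.Agent.S0780
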