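import Cfsg.Statements.S0781
import Cfsg.Agent.UGeom.Simple
-- import your own Cfsg.Agent.* helpers here

set_option autoImplicit false
open Cfsg

open scoped Matrix

namespace Cfsg.Agent.S0781

/-- In SU_n(q) with n ≥ 4, or n = 3 and q > 2, every element whose matrix is a unitary transvection x ↦ x + c h(x, v) v (v isotropic) is a commutator ⁅B, C⁆ of two elements of SU_n(q). -/
theorem result {F : Type*} [Field F] [Fintype F] {q : ℕ} (hF : Fintype.card F = q ^ 2) (n : ℕ) (hn : 4 ≤ n ∨ (n = 3 ∧ 3 ≤ q)) (A : ↥(Cfsg.SU n F q)) (v : Fin n → F) (c : F) (hv0 : Cfsg.hermForm n F q v v = 0) (hA : ((A : Matrix.SpecialLinearGroup (Fin n) F) : Matrix (Fin n) (Fin n) F) = Cfsg.unitaryTransvection n q v c) : A ∈ commutatorSet ↥(Cfsg.SU n F q) := by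
  obtain ⟨C⟩ := CfsgLib.UGeom.nonempty_conj hF
  rcases eq_or_ne v 0 with rfl | hv
  · have hA1 : A = 1 := by
      refine Subtype.ext (Subtype.ext ?_)
      rw [hA]
      simp [Cfsg.unitaryTransvection]
    exact ⟨1, 1, by rw [hA1]; simp [commutatorElement_def]⟩
  have hc : c + C.σ c = 0 := by
    obtain ⟨y, hy⟩ := CfsgLib.UGeom.exists_dual C hv
    have h := CfsgLib.UGeom.SU_form A y y
    have hvy : Cfsg.hermForm n F q v y = 1 := by
      rw [← CfsgLib.UGeom.form_conj C, hy, map_one]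
    rw [hA] at h
    change Cfsg.hermForm n F q (CfsgLib.UGeom.qrefl n q v c *ᵥ y)
      (CfsgLib.UGeom.qrefl n q v c *ᵥ y) = _ at h
    simp only [CfsgLib.UGeom.qrefl_mulVec, CfsgLib.UGeom.form_add_left,
      CfsgLib.UGeom.form_add_right C, CfsgLib.UGeom.form_smul_left,
      CfsgLib.UGeom.form_smul_right C, hy, hvy, hv0, mul_one] at h
    linear_combination h
  have hA' : A = CfsgLib.UGeom.utv C v c hv0 hc := Subtype.ext (Subtype.ext hA)
  rw [hA']
  exact CfsgLib.UGeom.utv_mem_commutatorSet C (by omega) v c hv0 hc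

end Cfsg.Agent.S0781
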