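import Cfsg.Statements.S0783
import Cfsg.Agent.AutPSU.Field
import Cfsg.Agent.UGeom.Center

set_option autoImplicit false
open Cfsg

namespace Cfsg.Agent.S0783

/-- PGU_n(q)/PSU_n(q) is cyclic of order (n, q+1): for n ≥ 2 and |F| = q² there is a surjective homomorphism from GU_n(q) onto the cyclic group of order gcd(n, q + 1) whose kernel is generated by the determinant-one elements together with the centre. -/
theorem result {F : Type*} [Field F] [Fintype F] {q : ℕ} (hF : Fintype.card F = q ^ 2) (n : ℕ) (hn : 2 ≤ n) : ∃ φ : ↥(Cfsg.GU n F q) →* Multiplicative (ZMod (Nat.gcd n (q + 1))), Function.Surjective φ ∧ φ.ker = (Matrix.GeneralLinearGroup.det : Matrix.GeneralLinearGroup (Fin n) F →* Fˣ).ker.subgroupOf (Cfsg.GU n F q) ⊔ Subgroup.center ↥(Cfsg.GU n F q) := by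
  classical
  obtain ⟨C⟩ := CfsgLib.UGeom.nonempty_conj hF
  haveI : NeZero (Nat.gcd n (q + 1)) := ⟨(Nat.gcd_pos_of_pos_right _ (by omega)).ne'⟩
  let P : Subgroup (CfsgLib.AutPSU.N1 F q) :=
    (powMonoidHom n : CfsgLib.AutPSU.N1 F q →* CfsgLib.AutPSU.N1 F q).range
  have hcard : Nat.card (CfsgLib.AutPSU.N1 F q ⧸ P) = Nat.gcd n (q + 1) := by
    rw [← Subgroup.index_eq_card, IsCyclic.index_powMonoidHom_range, CfsgLib.AutPSU.card_N1 C, Nat.gcd_comm]
  let e : CfsgLib.AutPSU.N1 F q ⧸ P ≃* Multiplicative (ZMod (Nat.gcd n (q + 1))) :=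
    mulEquivOfCyclicCardEq (by rw [hcard]; simp)
  let φ : ↥(Cfsg.GU n F q) →* Multiplicative (ZMod (Nat.gcd n (q + 1))) :=
    e.toMonoidHom.comp ((QuotientGroup.mk' P).comp (CfsgLib.AutPSU.detU C n))
  have hk : ∀ g, g ∈ φ.ker ↔ CfsgLib.AutPSU.detU C n g ∈ P := fun g => by
    simp [φ, MonoidHom.mem_ker]
  refine ⟨φ, e.surjective.comp ((QuotientGroup.mk'_surjective P).comp
    (CfsgLib.AutPSU.detU_surjective C (by omega))), le_antisymm (fun g hg => ?_) (sup_le (fun g hg => ?_) fun g hg => ?_)⟩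
  · obtain ⟨u, hu⟩ := (hk g).1 hg
    have hz : CfsgLib.AutPSU.scalarGU C n u ∈ Subgroup.center ↥(Cfsg.GU n F q) := by
      rw [Subgroup.mem_center_iff]
      intro x
      refine Subtype.ext (Units.ext ?_)
      show (x.1 : Matrix (Fin n) (Fin n) F) * _ = _ * (x.1 : Matrix (Fin n) (Fin n) F)
      rw [CfsgLib.AutPSU.scalarGU_val C u]
      simp
    have hd : g * (CfsgLib.AutPSU.scalarGU C n u)⁻¹ ∈
        (Matrix.GeneralLinearGroup.det : Matrix.GeneralLinearGroup (Fin n) F →* Fˣ).ker.subgroupOf (Cfsg.GU n F q) := by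
      have h1 : CfsgLib.AutPSU.detU C n (g * (CfsgLib.AutPSU.scalarGU C n u)⁻¹) = 1 := by
        rw [map_mul, map_inv, CfsgLib.AutPSU.detU_scalar, ← hu, powMonoidHom_apply, mul_inv_cancel]
      exact congrArg Subtype.val h1
    rw [show g = g * (CfsgLib.AutPSU.scalarGU C n u)⁻¹ * CfsgLib.AutPSU.scalarGU C n u by group]
    exact Subgroup.mul_mem_sup hd hz
  · rw [hk]
    rw [show CfsgLib.AutPSU.detU C n g = 1 from Subtype.ext hg]
    exact one_mem _
  · rw [hk]
    have hcomm : ∀ x : Cfsg.SU n F q, x.1.1 * (g.1 : Matrix (Fin n) (Fin n) F) = (g.1 : Matrix (Fin n) (Fin n) F) * x.1.1 :=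
      fun x => congrArg (fun y : ↥(Cfsg.GU n F q) => (y.1 : Matrix (Fin n) (Fin n) F))
        (Subgroup.mem_center_iff.1 hg (CfsgLib.UGeom.toGU n F q x))
    obtain ⟨c, hc⟩ : ∃ c : F, (g.1 : Matrix (Fin n) (Fin n) F) = c • (1 : Matrix (Fin n) (Fin n) F) := by
      rcases Nat.lt_or_ge n 3 with h | h
      · obtain rfl : n = 2 := by omega
        exact CfsgLib.UGeom.scalar_of_commute_two C _ hcomm
      · exact CfsgLib.Unitary.scalar_of_commute q C.card h _ hcomm
    obtain ⟨u, hu⟩ := CfsgLib.AutPSU.scalar_mem_N1 C (by omega) hc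
    rw [← hu, ← CfsgLib.AutPSU.scalarGU_val C u] at hc
    rw [show g = CfsgLib.AutPSU.scalarGU C n u from Subtype.ext (Units.ext hc), CfsgLib.AutPSU.detU_scalar]
    exact ⟨u, rfl⟩

end Cfsg.Agent.S0783
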