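import Cfsg.Statements.S0785
import Cfsg.Agent.Forms.OrthBasics

set_option autoImplicit false
open Cfsg

namespace Cfsg.Agent.S0785

/-- det(I) = {±1}: for a quadratic form on F^n whose polar form is non-degenerate, every element of the isometry group has determinant 1 or −1, and as soon as Q takes a non-zero value some isometry has determinant −1. -/
theorem result {F : Type*} [Field F] {n : ℕ} (Q : QuadraticForm F (Fin n → F)) (hQ : (QuadraticMap.polarBilin Q).Nondegenerate) : (∀ g : ↥(Cfsg.isometryGroup F ⇑Q), ((g : Matrix.GeneralLinearGroup (Fin n) F) : Matrix (Fin n) (Fin n) F).det = 1 ∨ ((g : Matrix.GeneralLinearGroup (Fin n) F) : Matrix (Fin n) (Fin n) F).det = -1) ∧ ((∃ v, Q v ≠ 0) → ∃ g : ↥(Cfsg.isometryGroup F ⇑Q), ((g : Matrix.GeneralLinearGroup (Fin n) F) : Matrix (Fin n) (Fin n) F).det = -1) := by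
  refine ⟨fun g => ?_, fun ⟨v, hv⟩ => ⟨CfsgLib.Forms.reflGL Q v hv, ?_⟩⟩
  · set M : Matrix (Fin n) (Fin n) F := ((g : Matrix.GeneralLinearGroup (Fin n) F) : Matrix (Fin n) (Fin n) F)
    set b := Pi.basisFun F (Fin n)
    have hM : IsUnit M := (g : Matrix.GeneralLinearGroup (Fin n) F).isUnit
    let c := b.map (CfsgLib.Forms.glEquiv (g : Matrix.GeneralLinearGroup (Fin n) F))
    have hgram : CfsgLib.Forms.gram ⇑Q ⇑c = CfsgLib.Forms.gram ⇑Q ⇑b := by
      ext i j
      simp only [CfsgLib.Forms.gram, Matrix.of_apply, c, Module.Basis.map_apply]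
      exact CfsgLib.Forms.isom_polar (CfsgLib.Forms.isoEquiv Q g).2 (b i) (b j)
    have hdet := CfsgLib.Forms.det_gram_change Q b c
    rw [hgram] at hdet
    have e : b.toMatrix ⇑c = M := by
      ext i j
      simp [b, c, Module.Basis.toMatrix_apply, M, Matrix.mulVec_single]
    rw [e] at hdet
    have h1 : M.det ^ 2 = 1 :=
      mul_right_cancel₀ (CfsgLib.Forms.det_gram_ne_zero hQ b) (by rw [one_mul]; exact hdet.symm)
    exact sq_eq_one_iff.1 h1
  · rw [← CfsgLib.Forms.det_glEquiv, ← CfsgLib.Forms.coe_isoEquiv, CfsgLib.Forms.reflGL,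
      MulEquiv.apply_symm_apply]
    exact CfsgLib.Forms.det_refl hv

end Cfsg.Agent.S0785
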