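import Cfsg.Statements.S0787
import Cfsg.Agent.Forms.OrthBasics

set_option autoImplicit false
open Cfsg

namespace Cfsg.Agent.S0787

/-- Existence and uniqueness of Ω: if F is finite, n ≥ 2, Q is a quadratic form on F^n with non-degenerate polar form and (|F|, n) ≠ (2, 4), then the group of isometries of determinant one has a unique subgroup of index 2. -/
theorem result {F : Type*} [Field F] [Fintype F] {n : ℕ} (hn : 2 ≤ n) (Q : QuadraticForm F (Fin n → F)) (hQ : (QuadraticMap.polarBilin Q).Nondegenerate) (h : Fintype.card F ≠ 2 ∨ n ≠ 4) : ∃! H : Subgroup ↥(Cfsg.specialIsometryGroup F ⇑Q), H.index = 2 := by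
  have hcd : Nat.card F ≠ 2 ∨ Fintype.card (Fin n) ≠ 4 := by simpa [Nat.card_eq_fintype_card] using h
  have hrel := CfsgLib.Forms.relIndex_Omega hQ hcd (by simpa using hn)
  set S := Cfsg.specialIsometryGroup F ⇑Q
  refine ⟨(Cfsg.Omega F ⇑Q).subgroupOf S, hrel, fun H hH => ?_⟩
  let K0 : Subgroup ↥(Cfsg.isometryGroup F ⇑Q) := Subgroup.closure {g | ∃ s ∈ S, g = s * s}
  haveI : S.Normal := MonoidHom.normal_ker _
  haveI : K0.Normal := by
    refine ⟨fun x hx g => ?_⟩
    induction hx using Subgroup.closure_induction with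
    | mem y hy =>
      obtain ⟨s, hs, rfl⟩ := hy
      exact Subgroup.subset_closure ⟨g * s * g⁻¹, ‹S.Normal›.conj_mem s hs g, by group⟩
    | one => simp
    | mul a b _ _ ha hb => rw [show g * (a * b) * g⁻¹ = (g * a * g⁻¹) * (g * b * g⁻¹) by group]; exact mul_mem ha hb
    | inv a _ ha => rw [show g * a⁻¹ * g⁻¹ = (g * a * g⁻¹)⁻¹ by group]; exact inv_mem ha
  have hO : Cfsg.Omega F ⇑Q ≤ K0 := CfsgLib.Forms.Omega_le_of_sq_mem hQ hcd K0 fun u w => by
    refine Subgroup.subset_closure ⟨_, ?_, rfl⟩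
    by_cases h2 : (2 : F) = 0
    · show _ ∈ Cfsg.specialIsometryGroup F ⇑Q
      rw [CfsgLib.Forms.special_eq_top h2 hQ hcd]; trivial
    · exact (CfsgLib.Forms.listGL_mem_special_iff h2 _).2 ⟨1, rfl⟩
  have hK : K0 ≤ H.map S.subtype := (Subgroup.closure_le _).2 (by
    rintro _ ⟨s, hs, rfl⟩
    exact ⟨⟨s, hs⟩ * ⟨s, hs⟩, Subgroup.mul_self_mem_of_index_two hH _, rfl⟩)
  have hle : (Cfsg.Omega F ⇑Q).subgroupOf S ≤ H := fun x hx => by
    obtain ⟨y, hy, e⟩ := hK (hO hx)
    exact (Subtype.ext e : y = x) ▸ hy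
  refine le_antisymm ?_ hle
  rw [← Subgroup.relIndex_eq_one]
  have h3 := Subgroup.relIndex_mul_index hle
  rw [show ((Cfsg.Omega F ⇑Q).subgroupOf S).index = 2 from hrel, hH] at h3
  omega

end Cfsg.Agent.S0787
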