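import Cfsg.Statements.S0792
import Cfsg.Agent.Forms.OrthBasics

set_option autoImplicit false
open Cfsg

namespace Cfsg.Agent.S0792

/-- For q odd and Q with non-degenerate polar form on F^n, the determinant-one isometries form the subgroup generated by all products r_u r_v of two reflections (Q(u), Q(v) ≠ 0). -/
theorem result {F : Type*} [Field F] [Fintype F] (h2 : (2 : F) ≠ 0) {n : ℕ} (Q : QuadraticForm F (Fin n → F)) (hQ : (QuadraticMap.polarBilin Q).Nondegenerate) : Cfsg.specialIsometryGroup F ⇑Q = Subgroup.closure {g : ↥(Cfsg.isometryGroup F ⇑Q) | ∃ u v : Fin n → F, Q u ≠ 0 ∧ Q v ≠ 0 ∧ ((g : Matrix.GeneralLinearGroup (Fin n) F) : Matrix (Fin n) (Fin n) F) = Cfsg.reflectionMatrix ⇑Q u * Cfsg.reflectionMatrix ⇑Q v} := by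
  have hcd : Nat.card F ≠ 2 ∨ Fintype.card (Fin n) ≠ 4 := Or.inl (CfsgLib.Forms.natCard_ne_two h2)
  refine le_antisymm ?_ ((Subgroup.closure_le _).2 ?_)
  · intro g hg
    obtain ⟨l, rfl⟩ := CfsgLib.Forms.exists_eq_listGL hQ hcd g
    have he := (CfsgLib.Forms.listGL_mem_special_iff h2 l).1 hg
    clear hg
    generalize hk : l.length = k at he
    induction k using Nat.strong_induction_on generalizing l with
    | h k ih =>
      rcases l with _ | ⟨u, _ | ⟨w, l⟩⟩
      · rw [show CfsgLib.Forms.listGL Q [] = 1 from (CfsgLib.Forms.isoEquiv Q).injective (by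
          rw [map_one, CfsgLib.Forms.isoEquiv_listGL]; rfl)]
        exact one_mem _
      · simp at hk; subst hk; simp at he
      · rw [show u :: w :: l = [u, w] ++ l from rfl, CfsgLib.Forms.listGL_append]
        simp only [List.length_cons] at hk
        refine mul_mem (Subgroup.subset_closure ⟨u, w, u.2, w.2, ?_⟩) (ih l.length (by omega) l rfl ?_)
        · rw [show CfsgLib.Forms.listGL Q [u, w] = CfsgLib.Forms.reflGL Q u.1 u.2 * CfsgLib.Forms.reflGL Q w.1 w.2 from
            (CfsgLib.Forms.isoEquiv Q).injective (by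
              rw [map_mul, CfsgLib.Forms.isoEquiv_listGL, CfsgLib.Forms.reflGL, CfsgLib.Forms.reflGL,
                MulEquiv.apply_symm_apply, MulEquiv.apply_symm_apply]; rfl),
            Subgroup.coe_mul, Units.val_mul, CfsgLib.Forms.coe_reflGL, CfsgLib.Forms.coe_reflGL]
        · rw [← hk, Nat.even_add_one, Nat.even_add_one, not_not] at he; exact he
  · rintro g ⟨u, w, hu, hw, hg⟩
    have he : g = CfsgLib.Forms.reflGL Q u hu * CfsgLib.Forms.reflGL Q w hw := Subtype.ext (Units.ext (by
      rw [Subgroup.coe_mul, Units.val_mul, CfsgLib.Forms.coe_reflGL, CfsgLib.Forms.coe_reflGL, hg]))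
    show g ∈ Cfsg.specialIsometryGroup F ⇑Q
    rw [he, show CfsgLib.Forms.reflGL Q u hu * CfsgLib.Forms.reflGL Q w hw =
      CfsgLib.Forms.listGL Q [⟨u, hu⟩, ⟨w, hw⟩] from (CfsgLib.Forms.isoEquiv Q).injective (by
        rw [map_mul, CfsgLib.Forms.isoEquiv_listGL, CfsgLib.Forms.reflGL, CfsgLib.Forms.reflGL,
          MulEquiv.apply_symm_apply, MulEquiv.apply_symm_apply]; rfl)]
    exact (CfsgLib.Forms.listGL_mem_special_iff h2 _).2 ⟨1, rfl⟩

end Cfsg.Agent.S0792
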