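import Cfsg.Statements.S0794
import Cfsg.Agent.Forms.Matrix

set_option autoImplicit false
open Cfsg

namespace Cfsg.Agent.S0794

/-- For q odd, n ≥ 5 and Q with non-degenerate polar form: an isometry whose matrix is a Siegel transformation T_(u,v)(c) (u, v singular and orthogonal) is a commutator in the isometry group, so lies in Ω. -/
theorem result {F : Type*} [Field F] [Fintype F] (h2 : (2 : F) ≠ 0) {n : ℕ} (hn : 5 ≤ n) (Q : QuadraticForm F (Fin n → F)) (hQ : (QuadraticMap.polarBilin Q).Nondegenerate) (u v : Fin n → F) (hu : Q u = 0) (hv : Q v = 0) (huv : QuadraticMap.polar ⇑Q u v = 0) (c : F) (g : ↥(Cfsg.isometryGroup F ⇑Q)) (hg : ((g : Matrix.GeneralLinearGroup (Fin n) F) : Matrix (Fin n) (Fin n) F) = Cfsg.siegelMatrix ⇑Q u v c) : g ∈ commutatorSet ↥(Cfsg.isometryGroup F ⇑Q) ∧ g ∈ Cfsg.Omega F ⇑Q := by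
  suffices hc : g ∈ commutatorSet ↥(Cfsg.isometryGroup F ⇑Q) from
    ⟨hc, by rw [Cfsg.Omega, commutator_eq_closure]; exact Subgroup.subset_closure hc⟩
  have happ : ∀ d x, (Cfsg.siegelMatrix ⇑Q u v d).mulVec x =
      x + (d * QuadraticMap.polar (⇑Q) u x) • v - (d * QuadraticMap.polar (⇑Q) v x) • u := fun d x => by
    rw [Cfsg.siegelMatrix, Matrix.add_mulVec, Matrix.one_mulVec, Matrix.smul_mulVec, Matrix.sub_mulVec,
      Matrix.vecMulVec_mulVec, Matrix.vecMulVec_mulVec, CfsgLib.Forms.polarVec_dot,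
      CfsgLib.Forms.polarVec_dot, op_smul_eq_smul, op_smul_eq_smul, smul_sub, smul_smul, smul_smul]
    abel
  by_cases hind : LinearIndependent F ![u, v]
  swap
  · have hg1 : g = 1 := by
      refine Subtype.ext (Units.ext (hg.trans (Matrix.ext_iff_mulVec.2 fun x => ?_)))
      simp only [Subgroup.coe_one, Units.val_one, Matrix.one_mulVec, happ]
      rw [linearIndependent_fin2] at hind
      simp only [Matrix.cons_val_one, Matrix.cons_val_fin_one, Matrix.cons_val_zero, not_and, not_forall,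
        not_not] at hind
      rcases eq_or_ne v 0 with rfl | hv0
      · simp
      · obtain ⟨a, rfl⟩ := hind hv0
        simp only [QuadraticMap.polar_smul_left, smul_eq_mul]
        match_scalars <;> ring
    exact ⟨1, 1, by simp [hg1]⟩
  have hq : ∃ l : F, l ≠ 0 ∧ l ≠ 1 := ⟨-1, by simp, fun h => h2 (by linear_combination -h)⟩
  obtain ⟨l, hl0, hl1⟩ := hq
  set U := Submodule.span F (Set.range ![u, v])
  let B := Module.Basis.span hind
  have hB : ∀ i, (B i : Fin n → F) = ![u, v] i := fun i => by simp [B, Module.Basis.span_apply]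
  have hU : ∀ x : U, ∃ a b : F, x = a • B 0 + b • B 1 := fun x =>
    ⟨B.repr x 0, B.repr x 1, by conv_lhs => rw [← B.sum_repr x, Fin.sum_univ_two]⟩
  let φ : U →ₗ[F] (Fin n → F) := B.constr F ![l • u, v]
  have hφQ : ∀ x : U, Q (φ x) = Q (x : Fin n → F) := fun x => by
    obtain ⟨a, b, rfl⟩ := hU x
    simp [φ, Module.Basis.constr_basis, hB, CfsgLib.Forms.map_add_smul, QuadraticMap.map_smul,
      QuadraticMap.polar_smul_left, hu, hv, huv]
  have hφinj : Function.Injective φ := LinearMap.ker_eq_bot.1 ((Submodule.eq_bot_iff _).2 fun x hx => by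
    obtain ⟨a, b, rfl⟩ := hU x
    have hx' : (a * l) • u + b • v = 0 := by
      simpa [φ, Module.Basis.constr_basis, smul_smul] using hx
    obtain ⟨h0, h1⟩ := (LinearIndependent.pair_iff.1 hind) _ _ hx'
    have ha : a = 0 := (mul_eq_zero.1 h0).resolve_right hl0
    simp [ha, h1])
  obtain ⟨h, hh, hh'⟩ := CfsgLib.Forms.witt hQ U φ hφinj hφQ
  have hhu : h u = l • u := by
    have := hh' (B 0); rw [hB] at this; simpa [φ, Module.Basis.constr_basis] using this
  have hhv : h v = v := by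
    have := hh' (B 1); rw [hB] at this; simpa [φ, Module.Basis.constr_basis] using this
  let H : ↥(Cfsg.isometryGroup F ⇑Q) := (CfsgLib.Forms.isoEquiv Q).symm ⟨h, hh⟩
  have hH : ∀ x, ((H : Matrix.GeneralLinearGroup (Fin n) F) : Matrix (Fin n) (Fin n) F).mulVec x = h x :=
    fun x => by
      rw [← CfsgLib.Forms.glEquiv_apply, ← CfsgLib.Forms.coe_isoEquiv, MulEquiv.apply_symm_apply]
  set d := c / (l - 1)
  have hl1' : l - 1 ≠ 0 := sub_ne_zero.2 hl1
  have hd : QuadraticMap.polar (⇑Q) (-d • v) u = 0 := by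
    rw [QuadraticMap.polar_smul_left, QuadraticMap.polar_comm, huv, smul_zero]
  let T : ↥(Cfsg.isometryGroup F ⇑Q) := (CfsgLib.Forms.isoEquiv Q).symm
    ⟨CfsgLib.Forms.siegel Q u (-d • v) hu hd, CfsgLib.Forms.siegel_mem_isom hu hd⟩
  have hT : ∀ x, ((T : Matrix.GeneralLinearGroup (Fin n) F) : Matrix (Fin n) (Fin n) F).mulVec x =
      x + (d * QuadraticMap.polar (⇑Q) u x) • v - (d * QuadraticMap.polar (⇑Q) v x) • u := fun x => by
    rw [← CfsgLib.Forms.glEquiv_apply, ← CfsgLib.Forms.coe_isoEquiv, MulEquiv.apply_symm_apply]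
    show CfsgLib.Forms.siegel Q u (-d • v) hu hd x = _
    rw [CfsgLib.Forms.siegel_apply, QuadraticMap.map_smul, hv, QuadraticMap.polar_smul_right,
      QuadraticMap.polar_comm Q x v, QuadraticMap.polar_comm Q x u]
    simp only [smul_eq_mul, mul_zero, zero_mul, sub_zero]
    match_scalars <;> ring
  refine ⟨H, T, eq_comm.1 ?_⟩
  -- `g * T * H = H * T`
  rw [commutatorElement_def, eq_mul_inv_iff_mul_eq, eq_mul_inv_iff_mul_eq]
  refine Subtype.ext (Units.ext (Matrix.ext_iff_mulVec.2 fun x => ?_))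
  simp only [Subgroup.coe_mul, Units.val_mul, ← Matrix.mulVec_mulVec, hg, happ, hT, hH,
    map_add, map_sub, map_smul, hhu, hhv]
  have e1 : QuadraticMap.polar (⇑Q) u (h x) = l⁻¹ * QuadraticMap.polar (⇑Q) u x := by
    rw [← CfsgLib.Forms.isom_polar hh u x, hhu, QuadraticMap.polar_smul_left, smul_eq_mul]; field_simp
  have e2 : QuadraticMap.polar (⇑Q) v (h x) = QuadraticMap.polar (⇑Q) v x := by
    conv_rhs => rw [← CfsgLib.Forms.isom_polar hh v x, hhv]
  have hvu : QuadraticMap.polar (⇑Q) v u = 0 := by rw [QuadraticMap.polar_comm]; exact huv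
  have huu : QuadraticMap.polar (⇑Q) u u = 0 := by rw [QuadraticMap.polar_self, hu]; simp
  have hvv : QuadraticMap.polar (⇑Q) v v = 0 := by rw [QuadraticMap.polar_self, hv]; simp
  simp only [QuadraticMap.polar_add_right, QuadraticMap.polar_sub_right, QuadraticMap.polar_smul_right,
    huv, hvu, huu, hvv, smul_zero, add_zero, sub_zero, e1, e2]
  simp only [d]
  match_scalars <;> field_simp <;> ring

end Cfsg.Agent.S0794
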