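import Cfsg.Statements.S0795
import Cfsg.Agent.Forms.RootGroup
import Cfsg.Agent.Forms.GeoBridge

set_option autoImplicit false
open Cfsg

namespace Cfsg.Agent.S0795

/-- Generation of Ω by root elements: for q odd, n ≥ 5 and Q with non-degenerate polar form on F^n, the commutator subgroup of the isometry group equals the subgroup generated by the isometries whose matrices are Siegel transformations T_(u,v)(c) with u, v singular and orthogonal. -/
theorem result {F : Type*} [Field F] [Fintype F] (h2 : (2 : F) ≠ 0) {n : ℕ} (hn : 5 ≤ n) (Q : QuadraticForm F (Fin n → F)) (hQ : (QuadraticMap.polarBilin Q).Nondegenerate) : Cfsg.Omega F ⇑Q = Subgroup.closure {g : ↥(Cfsg.isometryGroup F ⇑Q) | ∃ (u v : Fin n → F) (c : F), Q u = 0 ∧ Q v = 0 ∧ QuadraticMap.polar ⇑Q u v = 0 ∧ ((g : Matrix.GeneralLinearGroup (Fin n) F) : Matrix (Fin n) (Fin n) F) = Cfsg.siegelMatrix ⇑Q u v c} := by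
  have hn' : 5 ≤ Module.finrank F (Fin n → F) := by simpa using hn
  have hmat : ∀ (u v : Fin n → F) (c : F) (hu : Q u = 0) (hv : Q v = 0) (huv : QuadraticMap.polar (⇑Q) u v = 0)
      (g : ↥(Cfsg.isometryGroup F ⇑Q)),
      ((g : Matrix.GeneralLinearGroup (Fin n) F) : Matrix (Fin n) (Fin n) F) = Cfsg.siegelMatrix ⇑Q u v c →
      ∀ had : QuadraticMap.polar (⇑Q) (-c • v) u = 0,
        CfsgLib.Forms.isoEquiv Q g = ⟨CfsgLib.Forms.siegel Q u (-c • v) hu had, CfsgLib.Forms.siegel_mem_isom hu had⟩ := by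
    intro u v c hu hv huv g hg had
    refine Subtype.ext (LinearEquiv.ext fun x => ?_)
    rw [CfsgLib.Forms.coe_isoEquiv, CfsgLib.Forms.glEquiv_apply, hg, Cfsg.siegelMatrix, Matrix.add_mulVec,
      Matrix.one_mulVec, Matrix.smul_mulVec, Matrix.sub_mulVec,
      Matrix.vecMulVec_mulVec, Matrix.vecMulVec_mulVec, CfsgLib.Forms.polarVec_dot,
      CfsgLib.Forms.polarVec_dot, op_smul_eq_smul, op_smul_eq_smul, CfsgLib.Forms.siegel_apply,
      QuadraticMap.map_smul, hv, QuadraticMap.polar_smul_right, QuadraticMap.polar_comm Q x v,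
      QuadraticMap.polar_comm Q x u]
    simp only [smul_eq_mul, mul_zero, zero_mul, sub_zero]
    match_scalars <;> ring
  refine le_antisymm ?_ ((Subgroup.closure_le _).2 ?_)
  · intro g hg
    rw [CfsgLib.Forms.mem_Omega_iff] at hg
    have hg' := CfsgLib.Forms.commutator_le_rootGroup hQ hn' hg
    rw [Subgroup.mem_subgroupOf] at hg'
    suffices ∀ x, x ∈ CfsgLib.Forms.rootGroup Q → ∀ hx : x ∈ CfsgLib.Forms.isom Q,
        (CfsgLib.Forms.isoEquiv Q).symm ⟨x, hx⟩ ∈ Subgroup.closure {g : ↥(Cfsg.isometryGroup F ⇑Q) | ∃ (u v : Fin n → F) (c : F), Q u = 0 ∧ Q v = 0 ∧ QuadraticMap.polar ⇑Q u v = 0 ∧ ((g : Matrix.GeneralLinearGroup (Fin n) F) : Matrix (Fin n) (Fin n) F) = Cfsg.siegelMatrix ⇑Q u v c} by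
      have := this _ hg' (CfsgLib.Forms.isoEquiv Q g).2
      rwa [Subtype.coe_eta, MulEquiv.symm_apply_apply] at this
    intro x hx
    induction hx using Subgroup.closure_induction with
    | mem y hy =>
      obtain ⟨d, a, hd, had, ha, rfl⟩ := hy
      intro hx
      refine Subgroup.subset_closure ⟨d, a, -1, hd, ha, by rw [QuadraticMap.polar_comm]; exact had, ?_⟩
      refine Matrix.ext_iff_mulVec.2 fun v => ?_
      rw [← CfsgLib.Forms.glEquiv_apply, ← CfsgLib.Forms.coe_isoEquiv, MulEquiv.apply_symm_apply,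
        Cfsg.siegelMatrix, Matrix.add_mulVec, Matrix.one_mulVec, Matrix.smul_mulVec, Matrix.sub_mulVec,
        Matrix.vecMulVec_mulVec, Matrix.vecMulVec_mulVec, CfsgLib.Forms.polarVec_dot,
        CfsgLib.Forms.polarVec_dot, op_smul_eq_smul, op_smul_eq_smul]
      show CfsgLib.Forms.siegel Q d a hd had v = _
      rw [CfsgLib.Forms.siegel_apply, ha, QuadraticMap.polar_comm Q v a, QuadraticMap.polar_comm Q v d]
      match_scalars <;> ring
    | one =>
      intro hx
      rw [show (⟨1, hx⟩ : CfsgLib.Forms.isom Q) = 1 from rfl, map_one]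
      exact one_mem _
    | mul y z hy hz hY hZ =>
      intro hx
      rw [show (⟨y * z, hx⟩ : CfsgLib.Forms.isom Q) = ⟨y, CfsgLib.Forms.rootGroup_le_isom hy⟩ *
        ⟨z, CfsgLib.Forms.rootGroup_le_isom hz⟩ from rfl, map_mul]
      exact mul_mem (hY _) (hZ _)
    | inv y hy hY =>
      intro hx
      rw [show (⟨y⁻¹, hx⟩ : CfsgLib.Forms.isom Q) = (⟨y, CfsgLib.Forms.rootGroup_le_isom hy⟩ : CfsgLib.Forms.isom Q)⁻¹
        from rfl, map_inv]
      exact inv_mem (hY _)
  · rintro g ⟨u, v, c, hu, hv, huv, hg⟩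
    have had : QuadraticMap.polar (⇑Q) (-c • v) u = 0 := by
      rw [QuadraticMap.polar_smul_left, QuadraticMap.polar_comm, huv, smul_zero]
    rw [SetLike.mem_coe, CfsgLib.Forms.mem_Omega_iff, hmat u v c hu hv huv g hg had]
    exact CfsgLib.Forms.siegel_mem_commutator hQ (by simpa using hn) hu had

end Cfsg.Agent.S0795
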