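import Cfsg.Statements.S0796
-- import your own Cfsg.Agent.* helpers here

set_option autoImplicit false
open Cfsg

namespace Cfsg.Agent.S0796

/-- If G is finite and acts faithfully and primitively on X, H is the stabiliser of a point, A is a normal subgroup of H whose normal closure in G is G, then for every non-trivial normal subgroup K of G the quotient G ⧸ K is isomorphic to A ⧸ B for some normal subgroup B of A. -/
theorem result {G X : Type*} [Group G] [Finite G] [MulAction G X] [FaithfulSMul G X] (hprim : MulAction.IsPreprimitive G X) (x : X) (A : Subgroup G) (hA : A ≤ MulAction.stabilizer G x) (hAn : (A.subgroupOf (MulAction.stabilizer G x)).Normal) (hgen : Subgroup.normalClosure (A : Set G) = ⊤) (K : Subgroup G) [K.Normal] (hK : K ≠ ⊥) : ∃ (B : Subgroup A) (_ : B.Normal), Nonempty (G ⧸ K ≃* A ⧸ B) := by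
  have hK1 : MulAction.fixedPoints K X ≠ Set.univ := by
    intro h
    apply hK
    rw [Subgroup.eq_bot_iff_forall]
    intro k hk
    apply eq_of_smul_eq_smul (α := X)
    intro y
    rw [one_smul]
    exact Set.eq_univ_iff_forall.1 h y ⟨k, hk⟩
  have htr : MulAction.IsPretransitive K X :=
    MulAction.IsQuasiPreprimitive.isPretransitive_of_normal hK1
  have hAH : ∀ h ∈ MulAction.stabilizer G x, ∀ a ∈ A, h * a * h⁻¹ ∈ A := fun h hh a ha =>
    hAn.conj_mem ⟨a, hA ha⟩ ha ⟨h, hh⟩
  have hdec : ∀ g : G, ∃ k ∈ K, ∃ h ∈ MulAction.stabilizer G x, g = k * h := by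
    intro g
    obtain ⟨⟨k, hk⟩, hkx⟩ := MulAction.exists_smul_eq K x (g • x)
    refine ⟨k, hk, k⁻¹ * g, ?_, by group⟩
    rw [MulAction.mem_stabilizer_iff, mul_smul, ← hkx]
    exact inv_smul_smul k x
  have hnorm : (A ⊔ K).Normal := by
    refine ⟨fun n hn g => ?_⟩
    obtain ⟨k, hk, h, hh, rfl⟩ := hdec g
    rw [← SetLike.mem_coe, Subgroup.mul_normal, Set.mem_mul] at hn
    obtain ⟨a, ha, k1, hk1, rfl⟩ := hn
    have e1 : h * (a * k1) * h⁻¹ ∈ A ⊔ K := by
      rw [show h * (a * k1) * h⁻¹ = (h * a * h⁻¹) * (h * k1 * h⁻¹) by group]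
      exact mul_mem (Subgroup.mem_sup_left (hAH h hh a ha))
        (Subgroup.mem_sup_right (Subgroup.Normal.conj_mem inferInstance k1 hk1 h))
    rw [show k * h * (a * k1) * (k * h)⁻¹ = k * (h * (a * k1) * h⁻¹) * k⁻¹ by group]
    exact mul_mem (mul_mem (Subgroup.mem_sup_right hk) e1)
      (inv_mem (Subgroup.mem_sup_right hk))
  have htop : A ⊔ K = ⊤ := top_le_iff.1 (hgen ▸ Subgroup.normalClosure_le_normal (SetLike.coe_subset_coe.2 le_sup_left))
  have hsurj : Function.Surjective ((QuotientGroup.mk' K).comp A.subtype) := by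
    intro y
    obtain ⟨g, rfl⟩ := QuotientGroup.mk'_surjective K y
    have hg : g ∈ (↑(A ⊔ K) : Set G) := by rw [htop]; trivial
    rw [Subgroup.mul_normal, Set.mem_mul] at hg
    obtain ⟨a, ha, k, hk, rfl⟩ := hg
    refine ⟨⟨a, ha⟩, ?_⟩
    simpa using! (QuotientGroup.eq.2 (by simpa [← mul_assoc] using hk) :
      ((a : G) : G ⧸ K) = ((a * k : G) : G ⧸ K))
  exact ⟨_, inferInstance, ⟨(QuotientGroup.quotientKerEquivOfSurjective _ hsurj).symm⟩⟩

end Cfsg.Agent.S0796
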