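import Cfsg.Statements.S0797
import Cfsg.Agent.Forms.OrthBasics

set_option autoImplicit false
open Cfsg

namespace Cfsg.Agent.S0797

/-- O^ε_2m(q) ≅ Ω.2² for q odd: if F is finite of odd characteristic, n ≥ 2 is even and Q has non-degenerate polar form on F^n, the isometry group of Q has exactly three subgroups of index 2. -/
theorem result {F : Type*} [Field F] [Fintype F] (h2 : (2 : F) ≠ 0) {n : ℕ} (hn : 2 ≤ n) (heven : Even n) (Q : QuadraticForm F (Fin n → F)) (hQ : (QuadraticMap.polarBilin Q).Nondegenerate) : Nat.card {H : Subgroup ↥(Cfsg.isometryGroup F ⇑Q) // H.index = 2} = 3 := by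
  classical
  have hcd : Nat.card F ≠ 2 ∨ Fintype.card (Fin n) ≠ 4 := Or.inl (CfsgLib.Forms.natCard_ne_two h2)
  let φ : ↥(Cfsg.isometryGroup F ⇑Q) →* ℤˣ × ℤˣ :=
    ((CfsgLib.Forms.detSign h2 hQ).prod (CfsgLib.Forms.spin h2 hQ)).comp (CfsgLib.Forms.isoEquiv Q).toMonoidHom
  have hker : φ.ker = Cfsg.Omega F ⇑Q := by
    ext g
    rw [CfsgLib.Forms.mem_Omega_iff_kernels Q h2 hQ (by simpa using hn), MonoidHom.mem_ker]
    simp [φ, Prod.ext_iff]
  obtain ⟨ν, hν⟩ := FiniteField.exists_nonsquare (F := F) (fun h => h2 (by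
    have := ringChar.eq_iff.1 h; exact CharTwo.two_eq_zero))
  have hν0 : ν ≠ 0 := fun h => hν (h ▸ IsSquare.zero)
  obtain ⟨a, ha⟩ := CfsgLib.Forms.exists_value hQ (by simpa using hn) (one_ne_zero : (1 : F) ≠ 0)
  obtain ⟨b, hb⟩ := CfsgLib.Forms.exists_value hQ (by simpa using hn) hν0
  have ha' : Q a ≠ 0 := ha ▸ one_ne_zero
  have hb' : Q b ≠ 0 := by rw [hb]; exact hν0
  have h1 : φ (CfsgLib.Forms.reflGL Q a ha') = (-1, 1) := by
    simp [φ, CfsgLib.Forms.reflGL, CfsgLib.Forms.detSign_refl, CfsgLib.Forms.spin_refl, ha]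
  have h3 : φ (CfsgLib.Forms.reflGL Q b hb') = (-1, -1) := by
    simp [φ, CfsgLib.Forms.reflGL, CfsgLib.Forms.detSign_refl, CfsgLib.Forms.spin_refl, hb, hν]
  have hsurj : Function.Surjective φ := by
    rintro ⟨x, y⟩
    rcases Int.units_eq_one_or x with rfl | rfl <;> rcases Int.units_eq_one_or y with rfl | rfl
    · exact ⟨1, map_one _⟩
    · exact ⟨CfsgLib.Forms.reflGL Q a ha' * CfsgLib.Forms.reflGL Q b hb', by rw [map_mul, h1, h3]; rfl⟩
    · exact ⟨_, h1⟩
    · exact ⟨_, h3⟩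
  -- index-two subgroups contain the kernel
  have hle : ∀ H : Subgroup ↥(Cfsg.isometryGroup F ⇑Q), H.index = 2 → φ.ker ≤ H := by
    intro H hH
    rw [hker]
    show ⁅(⊤ : Subgroup ↥(Cfsg.isometryGroup F ⇑Q)), ⊤⁆ ≤ H
    refine Subgroup.commutator_le.2 fun g _ k _ => ?_
    rw [commutatorElement_def]
    simp only [Subgroup.mul_mem_iff_of_index_two hH, inv_mem_iff]
    tauto
  -- the three index-two subgroups of the Klein group
  let K : Fin 3 → Subgroup (ℤˣ × ℤˣ) := ![(MonoidHom.fst ℤˣ ℤˣ).ker, (MonoidHom.snd ℤˣ ℤˣ).ker,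
    (MonoidHom.fst ℤˣ ℤˣ * MonoidHom.snd ℤˣ ℤˣ).ker]
  have hK2 : ∀ i, (K i).index = 2 := by
    intro i
    fin_cases i <;> refine Subgroup.index_eq_two_iff.2 ?_
    · exact ⟨(-1, 1), fun x => by rcases Int.units_eq_one_or x.1 with h | h <;> simp [K, MonoidHom.mem_ker, Subgroup.mem_prod, h]⟩
    · exact ⟨(1, -1), fun x => by rcases Int.units_eq_one_or x.2 with h | h <;> simp [K, MonoidHom.mem_ker, Subgroup.mem_prod, h]⟩
    · exact ⟨(-1, 1), fun x => by
        rcases Int.units_eq_one_or x.1 with h | h <;> rcases Int.units_eq_one_or x.2 with h' | h' <;>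
          simp [K, MonoidHom.mem_ker, Subgroup.mem_prod, h, h']⟩
  refine (Nat.card_congr (Equiv.ofBijective (fun i : Fin 3 => (⟨(K i).comap φ, ?_⟩ :
    {H : Subgroup ↥(Cfsg.isometryGroup F ⇑Q) // H.index = 2})) ⟨?_, ?_⟩).symm).trans (Nat.card_fin 3)
  · rw [Subgroup.index_comap_of_surjective _ hsurj]; exact hK2 i
  · intro i j hij
    have e : K i = K j := Subgroup.comap_injective hsurj (congrArg Subtype.val hij)
    have e1 := SetLike.ext_iff.1 e (-1, 1)
    have e2 := SetLike.ext_iff.1 e (1, -1)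
    fin_cases i <;> fin_cases j <;> simp [K, MonoidHom.mem_ker, Subgroup.mem_prod] at e1 e2 ⊢
  · rintro ⟨H, hH⟩
    have hHK : (H.map φ).comap φ = H := by rw [Subgroup.comap_map_eq, sup_eq_left.2 (hle H hH)]
    have h2' : (H.map φ).index = 2 := by
      rw [← Subgroup.index_comap_of_surjective _ hsurj, hHK, hH]
    have key : ∃ i, K i = H.map φ := by
      have hmul : ∀ x y, (x * y ∈ H.map φ ↔ (x ∈ H.map φ ↔ y ∈ H.map φ)) := fun x y =>
        Subgroup.mul_mem_iff_of_index_two h2'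
      have hall : ∀ M : Subgroup (ℤˣ × ℤˣ), ((-1, 1) : ℤˣ × ℤˣ) ∈ M → ((1, -1) : ℤˣ × ℤˣ) ∈ M → M = ⊤ := by
        intro M p q
        refine eq_top_iff.2 fun x _ => ?_
        rcases Int.units_eq_one_or x.1 with h | h <;> rcases Int.units_eq_one_or x.2 with h' | h' <;>
          rw [show x = (x.1, x.2) from rfl, h, h']
        · exact one_mem _
        · exact q
        · exact p
        · simpa using mul_mem p q
      have hd := hmul (-1, 1) (1, -1)
      simp only [Prod.mk_mul_mk, mul_one, one_mul] at hd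
      by_cases hp : ((-1, 1) : ℤˣ × ℤˣ) ∈ H.map φ <;> by_cases hq : ((1, -1) : ℤˣ × ℤˣ) ∈ H.map φ
      · rw [hall _ hp hq, Subgroup.index_top] at h2'; omega
      · refine ⟨1, SetLike.ext fun x => ?_⟩
        rcases Int.units_eq_one_or x.1 with h | h <;> rcases Int.units_eq_one_or x.2 with h' | h' <;>
          rw [show x = (x.1, x.2) from rfl, h, h'] <;>
          simp [K, MonoidHom.mem_ker, Subgroup.mem_prod, hp, hq, hd, one_mem, ← Prod.one_eq_mk]
      · refine ⟨0, SetLike.ext fun x => ?_⟩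
        rcases Int.units_eq_one_or x.1 with h | h <;> rcases Int.units_eq_one_or x.2 with h' | h' <;>
          rw [show x = (x.1, x.2) from rfl, h, h'] <;>
          simp [K, MonoidHom.mem_ker, Subgroup.mem_prod, hp, hq, hd, one_mem, ← Prod.one_eq_mk]
      · refine ⟨2, SetLike.ext fun x => ?_⟩
        rcases Int.units_eq_one_or x.1 with h | h <;> rcases Int.units_eq_one_or x.2 with h' | h' <;>
          rw [show x = (x.1, x.2) from rfl, h, h'] <;>
          simp [K, MonoidHom.mem_ker, Subgroup.mem_prod, hp, hq, hd, one_mem, ← Prod.one_eq_mk]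
    obtain ⟨i, hi⟩ := key
    exact ⟨i, Subtype.ext (show (K i).comap φ = H by rw [hi, hHK])⟩

end Cfsg.Agent.S0797
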