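import Cfsg.Statements.S0798
import Cfsg.Agent.Forms.PlaneRefl

set_option autoImplicit false
open Cfsg

namespace Cfsg.Agent.S0798

/-- For q odd, n ≥ 2 even, Q with non-degenerate polar form (n, |F|) ≠ (4, 3), and a fixed c ≠ 0: the subgroup of the isometry group generated by the reflections r_v with Q(v) ∈ c·(F^×)² has index 2. -/
theorem result {F : Type*} [Field F] [Fintype F] (h2 : (2 : F) ≠ 0) {n : ℕ} (hn : 2 ≤ n) (heven : Even n) (Q : QuadraticForm F (Fin n → F)) (hQ : (QuadraticMap.polarBilin Q).Nondegenerate) (h43 : ¬ (n = 4 ∧ Fintype.card F = 3)) (c : F) (hc : c ≠ 0) : (Subgroup.closure {g : ↥(Cfsg.isometryGroup F ⇑Q) | ∃ (v : Fin n → F) (t : F), t ≠ 0 ∧ Q v = c * t ^ 2 ∧ ((g : Matrix.GeneralLinearGroup (Fin n) F) : Matrix (Fin n) (Fin n) F) = Cfsg.reflectionMatrix ⇑Q v}).index = 2 := by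
  classical
  set K : Subgroup ↥(Cfsg.isometryGroup F ⇑Q) := Subgroup.closure {g | ∃ (v : Fin n → F) (t : F), t ≠ 0 ∧ Q v = c * t ^ 2 ∧ ((g : Matrix.GeneralLinearGroup (Fin n) F) : Matrix (Fin n) (Fin n) F) = Cfsg.reflectionMatrix ⇑Q v}
  have hcd : Nat.card F ≠ 2 ∨ Fintype.card (Fin n) ≠ 4 := Or.inl (CfsgLib.Forms.natCard_ne_two h2)
  have hmk : ∀ (u : Fin n → F) (hu : Q u ≠ 0), CfsgLib.Forms.listGL Q [⟨u, hu⟩] = CfsgLib.Forms.reflGL Q u hu :=
    fun u hu => (CfsgLib.Forms.isoEquiv Q).injective (by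
      rw [CfsgLib.Forms.isoEquiv_listGL, CfsgLib.Forms.reflGL, MulEquiv.apply_symm_apply]; rfl)
  have hK : ∀ u : {u : Fin n → F // Q u ≠ 0}, IsSquare (c * Q u.1) → CfsgLib.Forms.listGL Q [u] ∈ K := by
    rintro ⟨u, hu⟩ ⟨r, hr⟩
    refine Subgroup.subset_closure ⟨u, r / c, div_ne_zero ?_ hc, ?_, ?_⟩
    · intro h0; rw [h0, mul_zero, mul_eq_zero] at hr; tauto
    · show Q u = c * (r / c) ^ 2; field_simp; linear_combination hr
    · rw [hmk, CfsgLib.Forms.coe_reflGL]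
  haveI : K.Normal := by
    refine ⟨fun x hx g => ?_⟩
    induction hx using Subgroup.closure_induction with
    | mem y hy =>
      obtain ⟨v, t, ht, hv, hy⟩ := hy
      refine Subgroup.subset_closure ⟨((g : Matrix.GeneralLinearGroup (Fin n) F) : Matrix (Fin n) (Fin n) F).mulVec v, t, ht, ?_, ?_⟩
      · rw [CfsgLib.Forms.mem_isometryGroup.1 g.2 v, hv]
      · refine Matrix.ext_iff_mulVec.2 fun x => ?_
        have hcancel : ((g : Matrix.GeneralLinearGroup (Fin n) F) : Matrix (Fin n) (Fin n) F).mulVec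
            (((g⁻¹ : ↥(Cfsg.isometryGroup F ⇑Q)) : Matrix.GeneralLinearGroup (Fin n) F).val.mulVec x) = x := by
          rw [Matrix.mulVec_mulVec, ← Units.val_mul, ← Subgroup.coe_mul, mul_inv_cancel]; simp
        rw [Subgroup.coe_mul, Subgroup.coe_mul, Units.val_mul, Units.val_mul, hy, ← Matrix.mulVec_mulVec,
          ← Matrix.mulVec_mulVec, CfsgLib.Forms.reflectionMatrix_mulVec, CfsgLib.Forms.reflectionMatrix_mulVec,
          Matrix.mulVec_sub, Matrix.mulVec_smul, CfsgLib.Forms.mem_isometryGroup.1 g.2 v]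
        conv_rhs => rw [← hcancel]
        rw [hcancel]
        congr 3
        conv_rhs => rw [← hcancel]
        exact (CfsgLib.Forms.isom_polar (CfsgLib.Forms.isoEquiv Q g).2 _ v).symm.trans (by simp)
    | one => simp
    | mul a b _ _ ha hb => rw [show g * (a * b) * g⁻¹ = (g * a * g⁻¹) * (g * b * g⁻¹) by group]; exact mul_mem ha hb
    | inv a _ ha => rw [show g * a⁻¹ * g⁻¹ = (g * a * g⁻¹)⁻¹ by group]; exact inv_mem ha
  have hn' : Fintype.card (Fin n) ≤ 2 ∨ Nat.card F ≠ 3 ∨ 5 ≤ Fintype.card (Fin n) := by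
    rw [Fintype.card_fin, Nat.card_eq_fintype_card]
    obtain ⟨k, rfl⟩ := heven
    by_cases h3 : Fintype.card F = 3
    · have : k + k ≠ 4 := fun h => h43 ⟨h, h3⟩
      omega
    · exact Or.inr (Or.inl h3)
  have hO : Cfsg.Omega F ⇑Q ≤ K := CfsgLib.Forms.Omega_le_of_sq_mem hQ hcd K fun u w => by
    let r : {u : Fin n → F // Q u ≠ 0} := ⟨CfsgLib.Forms.refl Q u.1 u.2 w.1, by
      rw [CfsgLib.Forms.refl_mem_isom u.2 w.1]; exact w.2⟩
    have e : CfsgLib.Forms.listGL Q [u, w] * CfsgLib.Forms.listGL Q [u, w] = CfsgLib.Forms.listGL Q [r, w] := by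
      rw [← CfsgLib.Forms.listGL_append]
      refine CfsgLib.Forms.listGL_inj fun v => ?_
      show CfsgLib.Forms.refl Q u.1 u.2 (CfsgLib.Forms.refl Q w.1 w.2 (CfsgLib.Forms.refl Q u.1 u.2 (CfsgLib.Forms.refl Q w.1 w.2 v))) =
        CfsgLib.Forms.refl Q r.1 r.2 (CfsgLib.Forms.refl Q w.1 w.2 v)
      generalize CfsgLib.Forms.refl Q w.1 w.2 v = y
      have h := CfsgLib.Forms.conj_refl (CfsgLib.Forms.refl_mem_isom u.2) w.2 y
      exact h.trans (CfsgLib.Forms.refl_apply r.2 y).symm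
    rw [e]
    exact CfsgLib.Forms.pair_mem h2 hQ hn' K hc hK (CfsgLib.Forms.refl_mem_isom u.2 w.1)
  have hdim : 2 ≤ Module.finrank F (Fin n → F) := by simpa using hn
  obtain ⟨ν, hν⟩ := FiniteField.exists_nonsquare (F := F) (fun h => h2 (by
    have := ringChar.eq_iff.1 h; exact CharTwo.two_eq_zero))
  have hν0 : ν ≠ 0 := fun h => hν (h ▸ IsSquare.zero)
  obtain ⟨a, ha⟩ := CfsgLib.Forms.exists_value hQ hdim hc
  obtain ⟨b, hb⟩ := CfsgLib.Forms.exists_value hQ hdim (mul_ne_zero hc hν0)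
  have ha' : Q a ≠ 0 := ha ▸ hc
  have hb' : Q b ≠ 0 := by rw [hb]; exact mul_ne_zero hc hν0
  -- the character cutting out the subgroup
  let d := CfsgLib.Forms.detSign h2 hQ
  let s := CfsgLib.Forms.spin h2 hQ
  let χ : ↥(Cfsg.isometryGroup F ⇑Q) →* ℤˣ :=
    (if IsSquare c then s else d * s).comp (CfsgLib.Forms.isoEquiv Q).toMonoidHom
  have hχ : ∀ u : {u : Fin n → F // Q u ≠ 0}, χ (CfsgLib.Forms.listGL Q [u]) = if IsSquare (c * Q u.1) then 1 else -1 := by
    intro u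
    have e : CfsgLib.Forms.isoEquiv Q (CfsgLib.Forms.listGL Q [u]) =
        ⟨CfsgLib.Forms.refl Q u.1 u.2, CfsgLib.Forms.refl_mem_isom u.2⟩ := by
      rw [CfsgLib.Forms.isoEquiv_listGL]; rfl
    have hm := CfsgLib.Forms.isSquare_mul_iff' hc u.2
    by_cases h1 : IsSquare c <;> by_cases h3 : IsSquare (Q u.1) <;>
      simp [χ, e, d, s, CfsgLib.Forms.detSign_refl, CfsgLib.Forms.spin_refl, hm, h1, h3]
  have hKle : K ≤ χ.ker := (Subgroup.closure_le _).2 (by
    rintro g ⟨v, t, ht, hv, hg⟩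
    have hv0 : Q v ≠ 0 := by rw [hv]; exact mul_ne_zero hc (pow_ne_zero _ ht)
    have : g = CfsgLib.Forms.listGL Q [⟨v, hv0⟩] := Subtype.ext (Units.ext (by rw [hmk, CfsgLib.Forms.coe_reflGL, hg]))
    rw [SetLike.mem_coe, MonoidHom.mem_ker, this, hχ, if_pos ⟨c * t, by show c * Q v = _; rw [hv]; ring⟩])
  have hνc : ¬ IsSquare (c * Q b) := by
    rw [hb]; rintro ⟨r, hr⟩
    exact hν ⟨r / c, by field_simp; linear_combination hr⟩
  have hKeq : K = χ.ker := by
    refine le_antisymm hKle fun g hg => ?_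
    rw [MonoidHom.mem_ker] at hg
    have hA : CfsgLib.Forms.listGL Q [⟨a, ha'⟩] ∈ K := hK _ ⟨c, by show c * Q a = _; rw [ha]⟩
    have hdg : ∀ g, g ∈ Cfsg.Omega F ⇑Q ↔ d (CfsgLib.Forms.isoEquiv Q g) = 1 ∧ s (CfsgLib.Forms.isoEquiv Q g) = 1 :=
      fun g => CfsgLib.Forms.mem_Omega_iff_kernels Q h2 hQ (by simpa using hn) g
    rcases Int.units_eq_one_or (d (CfsgLib.Forms.isoEquiv Q g)) with h | h
    · refine hO ((hdg g).2 ⟨h, ?_⟩)
      by_cases h1 : IsSquare c <;> simpa [χ, h1, h, d, s] using hg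
    · have : g * CfsgLib.Forms.listGL Q [⟨a, ha'⟩] ∈ Cfsg.Omega F ⇑Q := by
        have e : CfsgLib.Forms.isoEquiv Q (CfsgLib.Forms.listGL Q [⟨a, ha'⟩]) =
            ⟨CfsgLib.Forms.refl Q a ha', CfsgLib.Forms.refl_mem_isom ha'⟩ := by
          rw [CfsgLib.Forms.isoEquiv_listGL]; rfl
        rw [hdg]
        have hd : d (CfsgLib.Forms.isoEquiv Q g) = -1 := h
        rw [map_mul, map_mul, map_mul, e, hd]
        simp only [d, s, CfsgLib.Forms.detSign_refl, CfsgLib.Forms.spin_refl, ha]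
        by_cases h1 : IsSquare c
        · have hg' : s (CfsgLib.Forms.isoEquiv Q g) = 1 := by simpa [χ, h1] using hg
          simp [h1, s] at hg' ⊢; exact hg'
        · have hg' : d (CfsgLib.Forms.isoEquiv Q g) * s (CfsgLib.Forms.isoEquiv Q g) = 1 := by
            simpa [χ, h1, MonoidHom.mul_apply] using hg
          rw [hd] at hg'
          have hs' : s (CfsgLib.Forms.isoEquiv Q g) = -1 := by
            rcases Int.units_eq_one_or (s (CfsgLib.Forms.isoEquiv Q g)) with h3 | h3 <;> simp [h3] at hg' ⊢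
          simp [h1, s] at hs' ⊢; simp [hs']
      exact (mul_mem_cancel_right hA).1 (hO this)
  rw [hKeq, Subgroup.index_ker, MonoidHom.range_eq_top.2 (fun x => ?_)]
  · simp
  · rcases Int.units_eq_one_or x with rfl | rfl
    · exact ⟨1, map_one _⟩
    · exact ⟨CfsgLib.Forms.listGL Q [⟨b, hb'⟩], by rw [hχ, if_neg hνc]⟩

end Cfsg.Agent.S0798
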