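import Cfsg.Statements.S0800
import Cfsg.Agent.SL2.PSL
-- import your own Cfsg.Agent.* helpers here

set_option autoImplicit false
open Cfsg

namespace Cfsg.Agent.S0800

/-- Tori of SL_2(q): if g ∈ SL_2(q) has order coprime to the characteristic p, then the order of g divides q − 1 or q + 1. -/
theorem result {F : Type*} [Field F] [Fintype F] {q : ℕ} (hF : Fintype.card F = q) (p : ℕ) [Fact p.Prime] [CharP F p] (g : Matrix.SpecialLinearGroup (Fin 2) F) (hg : Nat.Coprime (orderOf g) p) : orderOf g ∣ q - 1 ∨ orderOf g ∣ q + 1 := by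
  subst hF
  rw [← Nat.card_eq_fintype_card]
  rcases CfsgLib.SL2.type_cases (g := g) with h | ⟨h4, r, hr⟩ | ⟨_, he⟩
  · left
    have h1 := CfsgLib.SL2.proj_pow_char p h
    rw [← map_pow] at h1
    have h2 : g ^ p ∈ Subgroup.center (Matrix.SpecialLinearGroup (Fin 2) F) :=
      (CfsgLib.SL2.mem_center_iff _).mpr (CfsgLib.SL2.proj_eq_one_iff.mp h1)
    set d := Nat.card (Subgroup.center (Matrix.SpecialLinearGroup (Fin 2) F)) with hd
    have h3 : (g ^ d) ^ p = 1 := by
      rw [← pow_mul, mul_comm, pow_mul]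
      exact (CfsgLib.SL2.pow_center_eq_one_iff _).mpr h2
    have h4' : orderOf g ∣ d := by
      refine (Nat.Coprime.dvd_of_dvd_mul_right hg ?_)
      apply orderOf_dvd_of_pow_eq_one
      rw [pow_mul]
      exact h3
    refine h4'.trans ?_
    rw [hd, CfsgLib.SL2.card_center_eq_gcd, ← Nat.card_eq_fintype_card]
    exact Nat.gcd_dvd_right _ _
  · exact Or.inl (orderOf_dvd_of_pow_eq_one (CfsgLib.SL2.pow_split h4 hr))
  · exact Or.inr (orderOf_dvd_of_pow_eq_one (CfsgLib.SL2.pow_elliptic he))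

end Cfsg.Agent.S0800
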