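import Cfsg.Statements.S0803
import Cfsg.Agent.H29.Dickson.Exists

set_option autoImplicit false
open Cfsg

namespace Cfsg.Agent.S0803

/-- PSL_2(q) has a subgroup isomorphic to S_4 iff q² ≡ 1 (mod 16). -/
theorem result {F : Type*} [Field F] [Fintype F] {q : ℕ} (hF : Fintype.card F = q) : (∃ H : Subgroup (Matrix.ProjectiveSpecialLinearGroup (Fin 2) F), Nonempty (H ≃* Equiv.Perm (Fin 4))) ↔ q ^ 2 % 16 = 1 := by
  classical
  subst hF
  obtain ⟨p, hp, hchar, -⟩ := CfsgLib.H29.Dickson.exists_p (F := F)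
  have := Fact.mk hp
  have hinj := Matrix.ProjectiveSpecialLinearGroup.toPGL_injective (n := Fin 2) (R := F)
  have key : Fintype.card F ^ 2 % 16 = 1 ↔ Fintype.card F % 8 = 1 ∨ Fintype.card F % 8 = 7 := by
    rw [Nat.pow_mod]
    have : Fintype.card F % 16 < 16 := Nat.mod_lt _ (by norm_num)
    interval_cases h : Fintype.card F % 16 <;> omega
  rw [key]
  constructor
  · rintro ⟨H, ⟨e⟩⟩
    have e' : Nonempty (H.map Matrix.ProjectiveSpecialLinearGroup.toPGL ≃* Equiv.Perm (Fin 4)) :=
      ⟨(H.equivMapOfInjective _ hinj).symm.trans e⟩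
    have hle : H.map Matrix.ProjectiveSpecialLinearGroup.toPGL ≤ CfsgLib.H29.Dickson.W F := by
      rw [CfsgLib.H29.Dickson.W_eq_map]; exact Subgroup.map_mono le_top
    by_cases h2 : (2 : F) = 0
    · exfalso
      have := CfsgLib.H29.Dickson.finite_P2 (F := F)
      obtain rfl : p = 2 := by
        by_contra hp2
        have h := CfsgLib.H29.Dickson.natCast_ne_zero (F := F) p (n := 2)
          (fun h => hp2 ((Nat.prime_dvd_prime_iff_eq hp Nat.prime_two).mp h))
        exact absurd h2 (by simpa using h)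
      obtain ⟨g, -, hg⟩ := CfsgLib.H29.Dickson.exists_orderOf e' (finRotate 4) (n := 4)
        (orderOf_eq_prime_pow (hp := ⟨Nat.prime_two⟩) (n := 1)
          (by decide +kernel) (by decide +kernel))
      have hg1 : g ≠ 1 := fun h => by rw [h, orderOf_one] at hg; omega
      have hg2 : g ^ 2 ≠ 1 := fun h => by
        have := orderOf_dvd_of_pow_eq_one h
        rw [hg] at this; omega
      obtain ⟨a, b, e, he, -, -, hd, -⟩ := CfsgLib.H29.Dickson.orderOf_cases 2 hg1 hg2
      rw [hg] at hd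
      have := Nat.even_iff.mp (CfsgLib.H29.Dickson.two_eq_zero_iff.mp h2)
      have := Fintype.one_lt_card (α := F)
      omega
    · have h := ((CfsgLib.H29.Dickson.conj_prime p h2).2 _ e').1.mp hle
      rw [FiniteField.isSquare_two_iff] at h
      have := Nat.odd_iff.mp (Nat.not_even_iff_odd.mp fun h' => h2 (CfsgLib.H29.Dickson.two_eq_zero_iff.mpr h'))
      omega
  · intro h
    have h2 : (2 : F) ≠ 0 := fun h' => by
      have := Nat.even_iff.mp (CfsgLib.H29.Dickson.two_eq_zero_iff.mp h'); omega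
    obtain ⟨⟨A, -, eA⟩, hA⟩ := CfsgLib.H29.Dickson.exists_A4_S4 (F := F) p h2
    obtain ⟨N, -, ⟨eN⟩⟩ := hA A eA
    have hNW := ((CfsgLib.H29.Dickson.conj_prime p h2).2 N ⟨eN⟩).1.mpr
      (FiniteField.isSquare_two_iff.mpr (by omega))
    refine ⟨N.comap Matrix.ProjectiveSpecialLinearGroup.toPGL,
      ⟨(((N.comap _).equivMapOfInjective _ hinj).trans (MulEquiv.subgroupCongr ?_)).trans eN⟩⟩
    rw [Subgroup.map_comap_eq, CfsgLib.H29.Dickson.range_toPGL]
    exact inf_eq_right.mpr hNW

end Cfsg.Agent.S0803
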