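import Cfsg.Statements.S0804
import Cfsg.Agent.H29.Dickson.Alt

set_option autoImplicit false
open Cfsg

namespace Cfsg.Agent.S0804

/-- PSL_2(q) has a subgroup isomorphic to A_5 iff 5 ∣ q(q² − 1). -/
theorem result {F : Type*} [Field F] [Fintype F] {q : ℕ} (hF : Fintype.card F = q) : (∃ H : Subgroup (Matrix.ProjectiveSpecialLinearGroup (Fin 2) F), Nonempty (H ≃* alternatingGroup (Fin 5))) ↔ 5 ∣ q * (q ^ 2 - 1) := by
  exact CfsgLib.H29.Dickson.A5_iff hF

end Cfsg.Agent.S0804
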