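import Cfsg.Statements.S0805
import Mathlib
import Cfsg.Agent.H29.Dickson.Exists

set_option autoImplicit false
open Cfsg

namespace Cfsg.Agent.S0805

/-- Subfield subgroups: let F be a finite field of odd order q and K a finite field with |K|^m = q, m ≥ 1. Then PSL_2(F) has a subgroup isomorphic to PSL_2(K), and has a subgroup isomorphic to PGL_2(K) if and only if m is even. -/
theorem result {F K : Type*} [Field F] [Fintype F] [Field K] [Fintype K] {q : ℕ} (hF : Fintype.card F = q) (hodd : Odd q) (m : ℕ) (hm : 1 ≤ m) (hK : Fintype.card K ^ m = q) : (∃ H : Subgroup (Matrix.ProjectiveSpecialLinearGroup (Fin 2) F), Nonempty (H ≃* Matrix.ProjectiveSpecialLinearGroup (Fin 2) K)) ∧ ((∃ H : Subgroup (Matrix.ProjectiveSpecialLinearGroup (Fin 2) F), Nonempty (H ≃* Matrix.ProjGenLinGroup (Fin 2) K)) ↔ Even m) := by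
  obtain ⟨p, a, hp, hc, ha, hq'⟩ :=
    CfsgLib.H29.Dickson.exists_common (F := F) (K := K) rfl (r := m) (hF.trans hK.symm)
  have := Fact.mk hp
  have hF' : Fintype.card F = (p ^ a) ^ m := by rw [hF, ← hK, hq']
  have h2 : (2 : F) ≠ 0 := fun h => Nat.not_even_iff_odd.mpr hodd (by
    rw [← hF]; exact CfsgLib.H29.Dickson.two_eq_zero_iff.mp h)
  set L := CfsgLib.H29.Dickson.fixF F p a
  have hL : Nat.card L = Fintype.card K := by
    rw [CfsgLib.H29.Dickson.card_fixF p ha hF', hq']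
  have pull : ∀ P : Subgroup (CfsgLib.H29.Dickson.P2 F), P ≤ CfsgLib.H29.Dickson.W F →
      ∃ H : Subgroup (Matrix.ProjectiveSpecialLinearGroup (Fin 2) F), Nonempty (H ≃* P) := by
    intro P hP
    refine ⟨P.comap Matrix.ProjectiveSpecialLinearGroup.toPGL,
      ⟨((P.comap _).equivMapOfInjective _
        Matrix.ProjectiveSpecialLinearGroup.toPGL_injective).trans (MulEquiv.subgroupCongr ?_)⟩⟩
    exact Subgroup.map_comap_eq_self (hP.trans CfsgLib.H29.Dickson.range_toPGL.ge)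
  refine ⟨?_, ?_, ?_⟩
  · obtain ⟨H, ⟨e⟩⟩ := pull _ (CfsgLib.H29.Dickson.PS_le_W L)
    obtain ⟨e'⟩ := CfsgLib.H29.Dickson.iso_PS L hL
    exact ⟨H, ⟨e.trans e'⟩⟩
  · rintro ⟨H, ⟨e⟩⟩
    by_contra hev
    rw [Nat.not_even_iff_odd] at hev
    have hd : Nat.card H ∣ Nat.card (Matrix.ProjectiveSpecialLinearGroup (Fin 2) F) :=
      Subgroup.card_subgroup_dvd_card _
    have hW : Nat.card (Matrix.ProjectiveSpecialLinearGroup (Fin 2) F) =
        Nat.card (CfsgLib.H29.Dickson.W F) := by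
      rw [← CfsgLib.H29.Dickson.range_toPGL]
      exact Nat.card_congr (MonoidHom.ofInjective
        Matrix.ProjectiveSpecialLinearGroup.toPGL_injective).toEquiv
    rw [Nat.card_congr e.toEquiv,
      show Nat.card (Matrix.ProjGenLinGroup (Fin 2) K) =
        Nat.card K * (Nat.card K ^ 2 - 1) from CfsgLib.H29.Dickson.card_P2 K,
      Nat.card_eq_fintype_card, hW] at hd
    have h := Nat.mul_dvd_mul_right hd 2
    rw [CfsgLib.H29.Dickson.card_W_two h2, hF, ← hK, mul_assoc] at h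
    set k := Fintype.card K
    have hk : Odd k := by
      rw [← hK] at hodd
      exact (Nat.odd_pow_iff (by omega)).mp hodd
    have hk2 : 2 ≤ k := Fintype.one_lt_card
    have hsum : (k ^ m) ^ 2 - 1 = (∑ i ∈ Finset.range m, (k ^ 2) ^ i) * (k ^ 2 - 1) := by
      rw [← pow_mul, mul_comm m 2, pow_mul]
      have := geom_sum_mul_add (k ^ 2 - 1) m
      rw [Nat.sub_add_cancel (Nat.one_le_pow _ _ (by omega))] at this
      omega
    rw [hsum, ← mul_assoc (k ^ m), mul_comm (k ^ 2 - 1) 2, ← mul_assoc k] at h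
    have hpos : 0 < k ^ 2 - 1 := by
      have : 2 ^ 2 ≤ k ^ 2 := Nat.pow_le_pow_left hk2 2
      omega
    have h' := Nat.dvd_of_mul_dvd_mul_right hpos h
    have hsodd : Odd (∑ i ∈ Finset.range m, (k ^ 2) ^ i) := by
      rw [Nat.odd_iff, Finset.sum_nat_mod]
      have : ∀ i, (k ^ 2) ^ i % 2 = 1 := fun i => Nat.odd_iff.mp (hk.pow.pow)
      simp [this, Nat.odd_iff.mp hev]
    have h2d : 2 ∣ k ^ m * ∑ i ∈ Finset.range m, (k ^ 2) ^ i :=
      (Dvd.intro_left k rfl).trans h'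
    exact (Nat.not_even_iff_odd.mpr (hk.pow.mul hsodd)) (even_iff_two_dvd.mpr h2d)
  · intro hev
    obtain ⟨H, ⟨e⟩⟩ := pull _ (CfsgLib.H29.Dickson.PL_le_W_of_even p h2 ha hF' hev)
    obtain ⟨e'⟩ := CfsgLib.H29.Dickson.iso_PL L hL
    exact ⟨H, ⟨e.trans e'⟩⟩

end Cfsg.Agent.S0805
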