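import Cfsg.Statements.S0807
import Cfsg.Agent.SL2.Involutions
-- import your own Cfsg.Agent.* helpers here

set_option autoImplicit false
open Cfsg

namespace Cfsg.Agent.S0807

/-- For q odd, twelve times the number of Klein four-subgroups of PSL_2(q) equals the order of PSL_2(q). -/
theorem result {F : Type*} [Field F] [Fintype F] {q : ℕ} (hF : Fintype.card F = q) (hodd : Odd q) : 12 * Nat.card {V : Subgroup (Matrix.ProjectiveSpecialLinearGroup (Fin 2) F) // IsKleinFour V} = Nat.card (Matrix.ProjectiveSpecialLinearGroup (Fin 2) F) := by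
  classical
  subst hF
  have h2 : (2 : F) ≠ 0 := Ring.two_ne_zero (fun h => by
    have := FiniteField.even_card_of_char_two h
    rw [Nat.odd_iff] at hodd
    omega)
  set P := {p : (Matrix.ProjectiveSpecialLinearGroup (Fin 2) F) × (Matrix.ProjectiveSpecialLinearGroup (Fin 2) F) // orderOf p.1 = 2 ∧ orderOf p.2 = 2 ∧ p.1 ≠ p.2 ∧ p.2 * p.1 = p.1 * p.2}
  have hcnt : 4 * Nat.card P = Nat.card (Matrix.SpecialLinearGroup (Fin 2) F) :=
    CfsgLib.SL2.card_commuting_involution_pairs h2
  have hcen : Nat.card (Subgroup.center (Matrix.SpecialLinearGroup (Fin 2) F)) = 2 := by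
    rw [CfsgLib.SL2.card_center, CfsgLib.SL2.card_sq_eq_one_odd h2]
  have hG : 2 * Nat.card (Matrix.ProjectiveSpecialLinearGroup (Fin 2) F) = Nat.card (Matrix.SpecialLinearGroup (Fin 2) F) := by
    rw [Subgroup.card_eq_card_quotient_mul_card_subgroup (Subgroup.center (Matrix.SpecialLinearGroup (Fin 2) F)), hcen,
      mul_comm]
  let T := fun V : {V : Subgroup (Matrix.ProjectiveSpecialLinearGroup (Fin 2) F) // IsKleinFour V} => {p : ↥V.1 × ↥V.1 // p.1 ≠ 1 ∧ p.2 ≠ 1 ∧ p.1 ≠ p.2}
  have hsix : ∀ V, Nat.card (T V) = 6 := by
    intro V
    have := V.2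
    have := Fintype.ofFinite ↥V.1
    have h4 : Fintype.card ↥V.1 = 4 := by rw [← Nat.card_eq_fintype_card]; exact IsKleinFour.card_four
    simp only [T]
    rw [Nat.card_eq_fintype_card, Fintype.card_subtype]
    have h3 : (Finset.univ.filter fun x : ↥V.1 => x ≠ 1).card = 3 := by
      rw [Finset.filter_ne', Finset.card_erase_of_mem (Finset.mem_univ _), Finset.card_univ, h4]
    calc _ = (Finset.univ.filter fun x : ↥V.1 => x ≠ 1).offDiag.card :=
          congrArg Finset.card (by ext p; simp [Finset.mem_offDiag])
      _ = 6 := by rw [Finset.offDiag_card, h3]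
  have hsq : ∀ (V : {V : Subgroup (Matrix.ProjectiveSpecialLinearGroup (Fin 2) F) // IsKleinFour V}) (v : (Matrix.ProjectiveSpecialLinearGroup (Fin 2) F)), v ∈ V.1 → v * v = 1 := by
    intro V v hv
    have := V.2
    exact congrArg Subtype.val (IsKleinFour.mul_self (⟨v, hv⟩ : ↥V.1))
  have hP : Nat.card P = Nat.card {V : Subgroup (Matrix.ProjectiveSpecialLinearGroup (Fin 2) F) // IsKleinFour V} * 6 := by
    rw [← Nat.card_congr (Equiv.refl P)]
    have hbij : Nat.card (Σ V, T V) = Nat.card P := by
      refine Nat.card_eq_of_bijective (fun s => (⟨(s.2.1.1.1, s.2.1.2.1), ?_, ?_, ?_, ?_⟩ : P)) ⟨?_, ?_⟩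
      · exact orderOf_eq_prime (by rw [pow_two]; exact hsq s.1 _ s.2.1.1.2) (fun h => s.2.2.1 (Subtype.ext h))
      · exact orderOf_eq_prime (by rw [pow_two]; exact hsq s.1 _ s.2.1.2.2) (fun h => s.2.2.2.1 (Subtype.ext h))
      · exact fun h => s.2.2.2.2 (Subtype.ext h)
      · have := s.1.2
        exact congrArg Subtype.val (mul_comm_of_exponent_two IsKleinFour.exponent_two s.2.1.2 s.2.1.1)
      · rintro ⟨V, p⟩ ⟨W, r⟩ h
        have h1 : p.1.1.1 = r.1.1.1 := congrArg (fun z : P => z.1.1) h
        have h2' : p.1.2.1 = r.1.2.1 := congrArg (fun z : P => z.1.2) h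
        have key : ∀ (U : {V : Subgroup (Matrix.ProjectiveSpecialLinearGroup (Fin 2) F) // IsKleinFour V}) (t : T U),
            (U.1 : Set (Matrix.ProjectiveSpecialLinearGroup (Fin 2) F)) = {1, t.1.1.1, t.1.2.1, t.1.1.1 * t.1.2.1} := by
          intro U t
          have := U.2
          have hu := IsKleinFour.eq_finset_univ t.2.1 t.2.2.1 t.2.2.2
          ext v
          constructor
          · intro hv
            have hm := Finset.mem_univ (⟨v, hv⟩ : ↥U.1)
            rw [← hu] at hm
            simp only [Finset.mem_insert, Finset.mem_singleton, Subtype.ext_iff] at hm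
            simp only [Set.mem_insert_iff, Set.mem_singleton_iff]
            simp at hm
            tauto
          · intro hv
            simp only [Set.mem_insert_iff, Set.mem_singleton_iff] at hv
            rcases hv with rfl | rfl | rfl | rfl
            · exact U.1.one_mem
            · exact t.1.1.2
            · exact t.1.2.2
            · exact U.1.mul_mem t.1.1.2 t.1.2.2
        obtain rfl : V = W := Subtype.ext (SetLike.coe_injective (by rw [key V p, key W r, h1, h2']))
        exact Sigma.ext rfl (heq_of_eq (Subtype.ext (Prod.ext (Subtype.ext h1) (Subtype.ext h2'))))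
      · rintro ⟨⟨x, y⟩, hx, hy, hne, hc⟩
        simp only at hx hy hne hc
        have hxx : x * x = 1 := by have h := pow_orderOf_eq_one x; rw [hx, pow_two] at h; exact h
        have hyy : y * y = 1 := by have h := pow_orderOf_eq_one y; rw [hy, pow_two] at h; exact h
        have hx1 : x ≠ 1 := fun h => by rw [h, orderOf_one] at hx; omega
        have hy1 : y ≠ 1 := fun h => by rw [h, orderOf_one] at hy; omega
        have hxy1 : x * y ≠ 1 := fun h => hne (by rw [mul_eq_one_iff_eq_inv] at h; rw [h]; exact inv_eq_of_mul_eq_one_right hyy)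
        have hxy : x * y * (x * y) = 1 := by rw [mul_assoc, ← mul_assoc y, hc, mul_assoc x y y, hyy, mul_one, hxx]
        let V : Subgroup (Matrix.ProjectiveSpecialLinearGroup (Fin 2) F) :=
          { carrier := {1, x, y, x * y}
            one_mem' := Or.inl rfl
            inv_mem' := by
              intro v hv
              have : v⁻¹ = v := by
                rcases hv with rfl | rfl | rfl | rfl
                · simp
                · exact inv_eq_of_mul_eq_one_right hxx
                · exact inv_eq_of_mul_eq_one_right hyy
                · exact inv_eq_of_mul_eq_one_right hxy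
              rw [this]; exact hv
            mul_mem' := by
              have e1 : x * (x * y) = y := by rw [← mul_assoc, hxx, one_mul]
              have e2 : y * (x * y) = x := by rw [← mul_assoc, hc, mul_assoc, hyy, mul_one]
              have e3 : x * y * x = y := by rw [mul_assoc, hc, e1]
              have e4 : x * y * y = x := by rw [mul_assoc, hyy, mul_one]
              intro u v hu hv
              rcases hu with rfl | rfl | rfl | rfl <;> rcases hv with rfl | rfl | rfl | rfl <;>
                simp [hxx, hyy, hxy, hc, e1, e2, e3, e4] }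
        have hxV : x ∈ V := Or.inr (Or.inl rfl)
        have hyV : y ∈ V := Or.inr (Or.inr (Or.inl rfl))
        have hV : IsKleinFour V := by
          have hc4 : Nat.card ↥V = 4 := by
            change Nat.card ↥({1, x, y, x * y} : Set (Matrix.ProjectiveSpecialLinearGroup (Fin 2) F)) = 4
            rw [Nat.card_coe_set_eq, Set.ncard_insert_of_notMem, Set.ncard_insert_of_notMem, Set.ncard_pair]
            · exact fun h => hx1 (by simpa using h.symm)
            · simp only [Set.mem_insert_iff, Set.mem_singleton_iff]
              rintro (h | h)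
              · exact hne h
              · exact hy1 (by simpa using h.symm)
            · simp only [Set.mem_insert_iff, Set.mem_singleton_iff]
              rintro (h | h | h)
              · exact hx1 h.symm
              · exact hy1 h.symm
              · exact hxy1 h.symm
          refine ⟨hc4, Nat.dvd_antisymm (Monoid.exponent_dvd_of_forall_pow_eq_one ?_) ?_⟩
          · rintro ⟨v, hv⟩
            apply Subtype.ext
            change v ^ 2 = 1
            rw [pow_two]
            rcases hv with rfl | rfl | rfl | rfl
            · simp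
            · exact hxx
            · exact hyy
            · exact hxy
          · have := Monoid.order_dvd_exponent (⟨x, hxV⟩ : ↥V)
            rwa [Subgroup.orderOf_mk, hx] at this
        exact ⟨⟨⟨V, hV⟩, ⟨(⟨x, hxV⟩, ⟨y, hyV⟩), fun h => hx1 (congrArg Subtype.val h),
          fun h => hy1 (congrArg Subtype.val h), fun h => hne (congrArg Subtype.val h)⟩⟩, rfl⟩
    rw [← hbij, Nat.card_sigma, Finset.sum_congr rfl (fun V _ => hsix V), Finset.sum_const, Finset.card_univ,
      smul_eq_mul, ← Nat.card_eq_fintype_card]
  omega

end Cfsg.Agent.S0807
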