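import Cfsg.Statements.S0808
import Cfsg.Agent.SL2.SylowTwo
import Cfsg.Agent.SL2.PSL
import Cfsg.Agent.S1256
-- import your own Cfsg.Agent.* helpers here

set_option autoImplicit false
open Cfsg

namespace Cfsg.Agent.S0808

/-- Conjugacy classes of four-groups in PSL_2(q), q odd: if q ≡ 3 or 5 (mod 8) all Klein four-subgroups are conjugate; if q ≡ 1 or 7 (mod 8) there are two Klein four-subgroups which are not conjugate, and every Klein four-subgroup is conjugate to one of them. -/
theorem result {F : Type*} [Field F] [Fintype F] {q : ℕ} (hF : Fintype.card F = q) (hodd : Odd q) : ((q % 8 = 3 ∨ q % 8 = 5) → ∀ V W : Subgroup (Matrix.ProjectiveSpecialLinearGroup (Fin 2) F), IsKleinFour V → IsKleinFour W → ∃ g : Matrix.ProjectiveSpecialLinearGroup (Fin 2) F, W = V.map (MulAut.conj g).toMonoidHom) ∧ ((q % 8 = 1 ∨ q % 8 = 7) → ∃ V₁ V₂ : Subgroup (Matrix.ProjectiveSpecialLinearGroup (Fin 2) F), IsKleinFour V₁ ∧ IsKleinFour V₂ ∧ (¬ ∃ g : Matrix.ProjectiveSpecialLinearGroup (Fin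 2) F, V₂ = V₁.map (MulAut.conj g).toMonoidHom) ∧ ∀ W : Subgroup (Matrix.ProjectiveSpecialLinearGroup (Fin 2) F), IsKleinFour W → (∃ g : Matrix.ProjectiveSpecialLinearGroup (Fin 2) F, W = V₁.map (MulAut.conj g).toMonoidHom) ∨ (∃ g : Matrix.ProjectiveSpecialLinearGroup (Fin 2) F, W = V₂.map (MulAut.conj g).toMonoidHom)) := by
  classical
  subst hF
  have h2 : (2 : F) ≠ 0 := by
    intro h
    have : CharP F 2 := CharTwo.of_one_ne_zero_of_two_eq_zero one_ne_zero h
    have := FiniteField.even_card_iff_char_two.mp (ringChar.eq F 2)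
    have := Nat.odd_iff.mp hodd
    omega
  obtain ⟨S⟩ := (inferInstance : Nonempty (Sylow 2 (Matrix.SpecialLinearGroup (Fin 2) F)))
  obtain ⟨d⟩ := CfsgLib.SL2.exists_sylowTwoData (by rwa [Nat.card_eq_fintype_card]) S
  obtain ⟨e⟩ := d.quat
  set n := 2 ^ d.k with hn
  haveI : NeZero n := ⟨by positivity⟩
  let ψ : QuaternionGroup n →* DihedralGroup n := MonoidHom.mk'
    (fun x => match x with
      | QuaternionGroup.a i => DihedralGroup.r (ZMod.castHom (dvd_mul_left n 2) (ZMod n) i)
      | QuaternionGroup.xa i => DihedralGroup.sr (ZMod.castHom (dvd_mul_left n 2) (ZMod n) i))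
    (by
      rintro (i | i) (j | j) <;> simp [DihedralGroup.r_mul_r, DihedralGroup.r_mul_sr, DihedralGroup.sr_mul_r,
        DihedralGroup.sr_mul_sr, map_add, map_sub])
  have hcast : ∀ i : ZMod n, ∃ j : ZMod (2 * n), ZMod.castHom (dvd_mul_left n 2) (ZMod n) j = i := fun i =>
    ⟨(i.val : ZMod (2 * n)), by rw [map_natCast, ZMod.natCast_zmod_val]⟩
  have hψs : Function.Surjective ψ := by
    rintro (i | i) <;> obtain ⟨j, rfl⟩ := hcast i
    · exact ⟨QuaternionGroup.a j, rfl⟩
    · exact ⟨QuaternionGroup.xa j, rfl⟩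
  have hψk : ∀ x, ψ x = 1 ↔ x * x = 1 := by
    rintro (i | i)
    · show DihedralGroup.r _ = DihedralGroup.r 0 ↔ QuaternionGroup.a i * QuaternionGroup.a i = QuaternionGroup.a 0
      rw [QuaternionGroup.a_mul_a, DihedralGroup.r.injEq, QuaternionGroup.a.injEq]
      haveI : NeZero (2 * n) := ⟨by have := NeZero.pos n; omega⟩
      obtain ⟨v, rfl⟩ : ∃ v : ℕ, (v : ZMod (2 * n)) = i := ⟨i.val, ZMod.natCast_zmod_val i⟩
      rw [map_natCast, ZMod.natCast_eq_zero_iff, ← two_mul,
        show (2 : ZMod (2 * n)) * v = ((2 * v : ℕ) : ZMod (2 * n)) by push_cast; rfl, ZMod.natCast_eq_zero_iff,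
        Nat.mul_dvd_mul_iff_left (by norm_num)]
    · constructor
      · intro h; exact nomatch (h : DihedralGroup.sr _ = DihedralGroup.r 0)
      · intro h
        exfalso
        have h' : QuaternionGroup.xa i * QuaternionGroup.xa i = QuaternionGroup.a 0 := h
        rw [QuaternionGroup.xa_mul_xa, QuaternionGroup.a.injEq, add_sub_cancel_right,
          ZMod.natCast_eq_zero_iff] at h'
        have := Nat.le_of_dvd (NeZero.pos n) h'
        have := NeZero.pos n
        omega
  let φ := ψ.comp e.toMonoidHom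
  let ρ := (CfsgLib.SL2.proj (F := F)).subgroupMap (S : Subgroup (Matrix.SpecialLinearGroup (Fin 2) F))
  have hρs : Function.Surjective ρ := MonoidHom.subgroupMap_surjective _ _
  have hker : φ.ker = ρ.ker := by
    ext x
    rw [MonoidHom.mem_ker, MonoidHom.mem_ker]
    show ψ (e x) = 1 ↔ ρ x = 1
    rw [hψk, ← map_mul, MulEquiv.map_eq_one_iff]
    constructor
    · intro h
      refine Subtype.ext ?_
      show CfsgLib.SL2.proj (x : Matrix.SpecialLinearGroup (Fin 2) F) = 1
      exact CfsgLib.SL2.proj_eq_one_iff.mpr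
        ((CfsgLib.SL2.mem_center_iff _).mp ((CfsgLib.SL2.isCentral_sq h2).mp (congrArg Subtype.val h)))
    · intro h
      refine Subtype.ext ?_
      show (x : Matrix.SpecialLinearGroup (Fin 2) F) * x = 1
      rcases CfsgLib.SL2.proj_eq_one_iff.mp (congrArg Subtype.val h) with h1 | h1 <;> rw [h1] <;> simp
  let T := S.mapSurjective (f := CfsgLib.SL2.proj (F := F)) CfsgLib.SL2.proj_surjective
  let eT : (T : Subgroup (Matrix.ProjectiveSpecialLinearGroup (Fin 2) F)) ≃* DihedralGroup n :=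
    ((QuotientGroup.quotientKerEquivOfSurjective ρ hρs).symm.trans
      ((QuotientGroup.quotientMulEquivOfEq hker.symm).trans
        (QuotientGroup.quotientKerEquivOfSurjective φ (hψs.comp e.surjective))))
  have hm : 2 ≤ n := Nat.le_self_pow (by have := d.k_pos; omega) 2
  have hcard : Nat.card T = 2 * n := by
    rw [← DihedralGroup.nat_card (n := n)]
    exact Nat.card_congr eT.toEquiv
  have key := Cfsg.Agent.S1256.result T n hm eT
  have hmod := d.card_mod
  rw [Nat.card_eq_fintype_card] at hmod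
  constructor
  · intro hq V W hV hW
    have hk : d.k = 1 := by
      have := d.k_pos
      by_contra hk
      have := hmod.mp (by omega)
      omega
    obtain ⟨x, hx⟩ := key.1 (by rw [hcard, hn, hk]; norm_num) V W hV hW
    exact ⟨x, hx.symm⟩
  · intro hq
    have h4 : 4 ≤ n := by
      rw [hn]
      calc 4 = 2 ^ 2 := by norm_num
        _ ≤ 2 ^ d.k := Nat.pow_le_pow_right (by norm_num) (hmod.mpr hq)
    obtain ⟨V₁, V₂, hV₁, hV₂, hne, hall⟩ := key.2 (by rw [hcard]; omega)
    refine ⟨V₁, V₂, hV₁, hV₂, fun ⟨g, hg⟩ => hne ⟨g, hg.symm⟩, fun W hW => ?_⟩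
    have hback : ∀ (U : Subgroup (Matrix.ProjectiveSpecialLinearGroup (Fin 2) F)) x,
        W.map (MulAut.conj x).toMonoidHom = U →
        W = U.map (MulAut.conj x⁻¹).toMonoidHom := by
      rintro U x rfl
      ext y
      simp [Subgroup.mem_map, mul_assoc]
    rcases hall W hW with ⟨x, hx⟩ | ⟨x, hx⟩
    · exact Or.inl ⟨x⁻¹, hback _ _ hx⟩
    · exact Or.inr ⟨x⁻¹, hback _ _ hx⟩

end Cfsg.Agent.S0808
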