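import Cfsg.Statements.S0809
import Cfsg.Agent.SL2.Tori
-- import your own Cfsg.Agent.* helpers here

set_option autoImplicit false
open Cfsg

namespace Cfsg.Agent.S0809

/-- In SL_2(q), q odd: any two subgroups of order 4 are conjugate, and the normaliser of a subgroup of order 4 has order 2(q − 1) if q ≡ 1 (mod 4) and 2(q + 1) if q ≡ 3 (mod 4); consequently all involutions of PSL_2(q) are conjugate. -/
theorem result {F : Type*} [Field F] [Fintype F] {q : ℕ} (hF : Fintype.card F = q) (hodd : Odd q) (A : Subgroup (Matrix.SpecialLinearGroup (Fin 2) F)) (hA : Nat.card A = 4) : (∀ B : Subgroup (Matrix.SpecialLinearGroup (Fin 2) F), Nat.card B = 4 → ∃ g : Matrix.SpecialLinearGroup (Fin 2) F, B = A.map (MulAut.conj g).toMonoidHom) ∧ (q % 4 = 1 → Nat.card ↥(Subgroup.normalizer (A : Set (Matrix.SpecialLinearGroup (Fin 2) F))) = 2 * (q - 1)) ∧ (q % 4 = 3 → Nat.card ↥(Subgroup.normalizer (A : Set (Matrix.SpecialLinearGroup (Fin 2) F))) = 2 * (q + 1)) ∧ (∀ x y : Matrix.ProjectiveSpecialLinearGroup (Fin 2) F, orderOf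 x = 2 → orderOf y = 2 → IsConj x y) := by
  classical
  subst hF
  have h2 : (2 : F) ≠ 0 := Ring.two_ne_zero (fun h => by
    have := FiniteField.even_card_of_char_two h
    rw [Nat.odd_iff] at hodd
    omega)
  have h4F : (0 : F) ^ 2 ≠ 4 := fun h => h2 (mul_self_eq_zero.mp (by linear_combination -h))
  have hgen : ∀ B : Subgroup (Matrix.SpecialLinearGroup (Fin 2) F), Nat.card B = 4 →
      ∃ a, CfsgLib.SL2.tr a = 0 ∧ B = Subgroup.zpowers a := by
    intro B hB
    obtain ⟨b, hb, hb2⟩ : ∃ b ∈ B, b * b ≠ 1 := by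
      by_contra h
      push Not at h
      have hle : B ≤ Subgroup.center (Matrix.SpecialLinearGroup (Fin 2) F) := fun b hb => (CfsgLib.SL2.isCentral_sq h2).mp (h b hb)
      have := Subgroup.card_le_of_le hle
      rw [hB, CfsgLib.SL2.card_center, CfsgLib.SL2.card_sq_eq_one_odd h2] at this
      omega
    have hb4 : b ^ 4 = 1 := by
      have := pow_card_eq_one' (x := (⟨b, hb⟩ : B))
      rw [hB] at this
      exact congrArg Subtype.val this
    have hord : orderOf b = 4 := by
      have := orderOf_eq_prime_pow (p := 2) (n := 1) (x := b) (by rw [pow_one, pow_two]; exact hb2) hb4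
      simpa using this
    refine ⟨b, ?_, (Subgroup.eq_of_le_of_card_ge (Subgroup.zpowers_le.mpr hb) (by rw [Nat.card_zpowers, hord, hB])).symm⟩
    have hbb : b * b = -1 := by
      rcases (CfsgLib.SL2.mem_center_iff (b * b)).mp ((CfsgLib.SL2.isCentral_sq h2).mp (by
        rw [← hb4]; simp only [pow_succ, pow_zero, one_mul, mul_assoc])) with h | h
      · exact absurd h hb2
      · exact h
    have hm := congrArg (fun x : Matrix.SpecialLinearGroup (Fin 2) F => (x : Matrix (Fin 2) (Fin 2) F)) hbb
    simp only [Matrix.SpecialLinearGroup.coe_mul, CfsgLib.SL2.sq_eq] at hm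
    have e00 := congrFun (congrFun hm 0) 0
    have e01 := congrFun (congrFun hm 0) 1
    have e10 := congrFun (congrFun hm 1) 0
    simp at e00 e01 e10
    by_contra h0
    have hdet := CfsgLib.SL2.det_eq b
    rw [e00.resolve_left h0, e01.resolve_left h0] at hdet
    simp at hdet
  obtain ⟨a, ha0, rfl⟩ := hgen A hA
  have hat : CfsgLib.SL2.tr a ^ 2 ≠ 4 := ha0 ▸ h4F
  refine ⟨fun B hB => ?_, ?_, ?_, ?_⟩
  · obtain ⟨b, hb0, rfl⟩ := hgen B hB
    obtain ⟨g, hg⟩ := isConj_iff.mp (CfsgLib.SL2.isConj_of_tr_eq' hat (ha0.trans hb0.symm))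
    exact ⟨g, by rw [MonoidHom.map_zpowers]; exact congrArg Subgroup.zpowers hg.symm⟩
  all_goals first
    | intro hq
      have hle : Subgroup.zpowers a ≤ Subgroup.centralizer ({a} : Set (Matrix.SpecialLinearGroup (Fin 2) F)) :=
        Subgroup.zpowers_le.mpr (Subgroup.mem_centralizer_singleton_iff.mpr rfl)
      rw [CfsgLib.SL2.card_normalizer_tori hat hle (Subgroup.mem_zpowers a) (CfsgLib.SL2.not_scalar_of_tr_sq_ne hat)]
      by_cases hm : Fintype.card F % 4 = 3
      · have he : CfsgLib.SL2.IsElliptic a := by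
          intro r hr
          rw [ha0] at hr
          exact (FiniteField.isSquare_neg_one_iff.mp ⟨r, by linear_combination -hr⟩) hm
        rw [CfsgLib.SL2.card_centralizer_elliptic he, Nat.card_eq_fintype_card] <;> omega
      · obtain ⟨r, hr⟩ := FiniteField.isSquare_neg_one_iff.mpr hm
        rw [CfsgLib.SL2.card_centralizer_split hat (r := r) (by rw [ha0]; linear_combination -hr), Nat.card_eq_fintype_card] <;> omega
    | intro x y hx hy
      have htr : ∀ g : Matrix.SpecialLinearGroup (Fin 2) F, orderOf (CfsgLib.SL2.proj g) = 2 → CfsgLib.SL2.tr g = 0 := by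
        intro g hg
        have h1 : CfsgLib.SL2.proj g ≠ 1 := fun h => by rw [h, orderOf_one] at hg; omega
        have hg2 : CfsgLib.SL2.proj (g * g) = 1 := by
          have h := pow_orderOf_eq_one (CfsgLib.SL2.proj g)
          rw [hg, pow_two, ← map_mul] at h
          exact h
        have hbb : g * g = -1 := by
          rcases CfsgLib.SL2.proj_eq_one_iff.mp hg2 with h | h
          · exact absurd ((CfsgLib.SL2.isCentral_sq h2).mp h) (CfsgLib.SL2.not_center_of_proj_ne_one h1)
          · exact h
        have hm := congrArg (fun x : Matrix.SpecialLinearGroup (Fin 2) F => (x : Matrix (Fin 2) (Fin 2) F)) hbb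
        simp only [Matrix.SpecialLinearGroup.coe_mul, CfsgLib.SL2.sq_eq] at hm
        have e00 := congrFun (congrFun hm 0) 0
        have e01 := congrFun (congrFun hm 0) 1
        simp at e00 e01
        by_contra h0
        have hdet := CfsgLib.SL2.det_eq g
        rw [e00.resolve_left h0, e01.resolve_left h0] at hdet
        simp at hdet
      obtain ⟨g, rfl⟩ := CfsgLib.SL2.proj_surjective x
      obtain ⟨h, rfl⟩ := CfsgLib.SL2.proj_surjective y
      have hg0 := htr g hx
      have hh0 := htr h hy
      obtain ⟨u, hu⟩ := isConj_iff.mp (CfsgLib.SL2.isConj_of_tr_eq' (hg0 ▸ h4F) (hg0.trans hh0.symm))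
      exact isConj_iff.mpr ⟨CfsgLib.SL2.proj u, by rw [← map_inv, ← map_mul, ← map_mul, hu]⟩

end Cfsg.Agent.S0809
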