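import Cfsg.Statements.S0810
import Cfsg.Agent.H29.Dickson.Solvable

set_option autoImplicit false
open Cfsg

namespace Cfsg.Agent.S0810

/-- PSL_2(q) is minimal simple iff q is 2^r (r prime), 3^r (r an odd prime), a prime greater than 5 congruent to 2 or 3 mod 5, or 5. -/
theorem result {F : Type*} [Field F] [Fintype F] {q : ℕ} (hF : Fintype.card F = q) : Cfsg.IsMinimalSimple (Matrix.ProjectiveSpecialLinearGroup (Fin 2) F) ↔ ((∃ r : ℕ, r.Prime ∧ q = 2 ^ r) ∨ (∃ r : ℕ, r.Prime ∧ r ≠ 2 ∧ q = 3 ^ r) ∨ (q.Prime ∧ 5 < q ∧ (q % 5 = 2 ∨ q % 5 = 3)) ∨ q = 5) := by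
  classical
  subst hF
  have hinj := Matrix.ProjectiveSpecialLinearGroup.toPGL_injective (n := Fin 2) (R := F)
  obtain ⟨p, hp, hchar, n, hn, hcard⟩ := CfsgLib.H29.Dickson.exists_p (F := F)
  have := Fact.mk hp
  have := CfsgLib.H29.Dickson.finite_P2 (F := F)
  have := Finite.of_injective _ hinj
  have hWc : Nat.card (CfsgLib.H29.Dickson.W F) =
      Nat.card (Matrix.ProjectiveSpecialLinearGroup (Fin 2) F) := by
    rw [← CfsgLib.H29.Dickson.range_toPGL]
    exact (Nat.card_congr (MonoidHom.ofInjective hinj).toEquiv).symm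
  constructor
  · intro hmin
    obtain ⟨hsimp, hncomm, hsolv⟩ := hmin
    have hq4 : 4 ≤ Fintype.card F := by
      by_contra hlt
      have h24 : Nat.card (Matrix.ProjectiveSpecialLinearGroup (Fin 2) F) ∣ 24 := by
        have h := CfsgLib.H29.Dickson.card_W_mul (F := F)
        rw [CfsgLib.H29.Dickson.card_P2, Nat.card_eq_fintype_card (α := F), hWc] at h
        have h1 := Fintype.one_lt_card (α := F)
        refine (Dvd.intro _ h).trans ?_
        rcases (show Fintype.card F = 2 ∨ Fintype.card F = 3 by omega) with h' | h' <;> rw [h'] <;> norm_num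
      have := CfsgLib.H29.Dickson.solvable_card_twentyfour h24
      exact hncomm ⟨⟨(IsSimpleGroup.comm_iff_isSolvable).mpr this⟩⟩
    have proper : ∀ N : Subgroup (CfsgLib.H29.Dickson.P2 F), N < CfsgLib.H29.Dickson.W F →
        Group.IsSolvable N := by
      intro N hN
      have hne : N.comap (Matrix.ProjectiveSpecialLinearGroup.toPGL (n := Fin 2) (R := F)) ≠ ⊤ := fun h =>
        hN.not_ge (by rw [CfsgLib.H29.Dickson.W_eq_map, Subgroup.map_le_iff_le_comap, h])
      have := hsolv _ hne
      refine CfsgLib.H29.Dickson.solvable_of_equiv (H := N.comap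
        (Matrix.ProjectiveSpecialLinearGroup.toPGL (n := Fin 2) (R := F))) ?_
      refine ((((N.comap _).equivMapOfInjective _ hinj).trans (MulEquiv.subgroupCongr ?_))).symm
      rw [Subgroup.map_comap_eq, CfsgLib.H29.Dickson.range_toPGL]
      exact inf_eq_right.mpr hN.le
    have sub : ∀ a r : ℕ, 0 < a → r.Prime → n = a * r → 4 ≤ p ^ a → False := by
      intro a r ha hr hnar h4
      have hF : Fintype.card F = (p ^ a) ^ r := by rw [hcard, hnar, pow_mul]
      have hlt : CfsgLib.H29.Dickson.PS (CfsgLib.H29.Dickson.fixF F p a) < CfsgLib.H29.Dickson.W F := by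
        refine lt_of_le_of_ne (CfsgLib.H29.Dickson.PS_le_W _) fun h => ?_
        refine CfsgLib.H29.Dickson.PL_inf_ne p (A := CfsgLib.H29.Dickson.W F) le_rfl ha hr.one_lt hF ?_
        exact inf_eq_right.mpr (h.ge.trans (CfsgLib.H29.Dickson.PS_le_PL _))
      have := proper _ hlt
      obtain ⟨K, _, _, hK⟩ := CfsgLib.H29.Dickson.exists_field_type p ha
      obtain ⟨e⟩ := CfsgLib.H29.Dickson.iso_PS (CfsgLib.H29.Dickson.fixF F p a) (K := K)
        (by rw [CfsgLib.H29.Dickson.card_fixF p ha hF, hK])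
      exact (CfsgLib.H29.Dickson.not_solvable_PSL (K := K) (by omega)).2.2
        (CfsgLib.H29.Dickson.solvable_of_equiv e.symm)
    have noA5 : (2 : F) ≠ 0 → (5 : F) ≠ 0 → (∃ r : F, r ^ 2 = r + 1) →
        Nat.card (CfsgLib.H29.Dickson.W F) ≠ 60 → False := by
      intro h2 h5 ⟨r, hr⟩ h60
      obtain ⟨N, ⟨eN⟩⟩ := CfsgLib.H29.Dickson.exists_A5 p h2 h5 hr
      have hlt : N < CfsgLib.H29.Dickson.W F := lt_of_le_of_ne (CfsgLib.H29.Dickson.le_W_of_A5 h2 ⟨eN⟩)
        fun h => h60 (h ▸ CfsgLib.H29.Dickson.card_A5 ⟨eN⟩)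
      have := proper _ hlt
      have h1 := CfsgLib.H29.Dickson.solvable_of_equiv eN.symm
      have hs : Group.IsSolvable (Equiv.Perm (Fin 5)) :=
        Group.isSolvable_of_ker_le_range (alternatingGroup (Fin 5)).subtype Equiv.Perm.sign (by
          rw [Subgroup.range_subtype]
          exact fun x hx => Equiv.Perm.mem_alternatingGroup.mpr hx)
      exact Equiv.Perm.not_isSolvable_fin_5 hs
    have hW := CfsgLib.H29.Dickson.card_W_mul (F := F)
    rw [CfsgLib.H29.Dickson.card_P2, Nat.card_eq_fintype_card (α := F)] at hW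
    rcases (show p = 2 ∨ p = 3 ∨ 5 ≤ p by
      have := hp.two_le
      rcases (show p = 2 ∨ p = 3 ∨ p = 4 ∨ 5 ≤ p by omega) with h | h | h | h
      · exact Or.inl h
      · exact Or.inr (Or.inl h)
      · subst h; norm_num at hp
      · exact Or.inr (Or.inr h)) with rfl | rfl | hp5
    · left
      refine ⟨n, ?_, hcard⟩
      have hn2 : 2 ≤ n := by
        by_contra h; rw [show n = 1 by omega] at hcard; omega
      by_contra hnp
      obtain ⟨a, ha, ha1, han⟩ := Nat.exists_dvd_of_not_prime2 hn2 hnp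
      obtain ⟨b, hb⟩ := ha
      have hb1 : 2 ≤ b := by
        rcases (show b = 0 ∨ b = 1 ∨ 2 ≤ b by omega) with h | h | h
        · subst h; omega
        · subst h; omega
        · exact h
      obtain ⟨r, hr, c, hc⟩ := Nat.exists_prime_and_dvd (show a ≠ 1 by omega)
      have hb0 : 2 ≤ b * c := le_trans hb1 (Nat.le_mul_of_pos_right _ (by
        rcases Nat.eq_zero_or_pos c with rfl | h
        · omega
        · exact h))
      exact sub (b * c) r (by omega) hr (by rw [hb, hc]; ring)
        (le_trans (by norm_num) (Nat.pow_le_pow_right two_pos hb0))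
    · right; left
      have hn2 : 2 ≤ n := by
        by_contra h; rw [show n = 1 by omega] at hcard; omega
      have h2 : (2 : F) ≠ 0 := by
        simpa using CfsgLib.H29.Dickson.natCast_ne_zero (F := F) 3 (n := 2) (by norm_num)
      have h5 : (5 : F) ≠ 0 := by
        simpa using CfsgLib.H29.Dickson.natCast_ne_zero (F := F) 3 (n := 5) (by norm_num)
      have hnp : n.Prime := by
        by_contra hnp
        obtain ⟨a, ha, ha1, han⟩ := Nat.exists_dvd_of_not_prime2 hn2 hnp
        obtain ⟨b, hb⟩ := ha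
        have hb1 : 2 ≤ b := by
          rcases (show b = 0 ∨ b = 1 ∨ 2 ≤ b by omega) with h | h | h
          · subst h; omega
          · subst h; omega
          · exact h
        obtain ⟨r, hr, c, hc⟩ := Nat.exists_prime_and_dvd (show a ≠ 1 by omega)
        have hb0 : 2 ≤ b * c := le_trans hb1 (Nat.le_mul_of_pos_right _ (by
          rcases Nat.eq_zero_or_pos c with rfl | h
          · omega
          · exact h))
        exact sub (b * c) r (by omega) hr (by rw [hb, hc]; ring)
          (le_trans (show 4 ≤ 3 ^ 2 by norm_num) (Nat.pow_le_pow_right (by norm_num) hb0))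
      refine ⟨n, hnp, fun hn2' => ?_, hcard⟩
      subst hn2'
      refine noA5 h2 h5 (CfsgLib.H29.Dickson.exists_r_sq 3 h2 hcard) fun h60 => ?_
      rw [hcard, h60] at hW
      have := Nat.gcd_le_left (m := 2) (3 ^ 2 - 1) two_pos
      norm_num at hW
    · have h2 : (2 : F) ≠ 0 := by
        simpa using CfsgLib.H29.Dickson.natCast_ne_zero (F := F) p (n := 2)
          (fun h => by have := Nat.le_of_dvd two_pos h; omega)
      rcases (show n = 1 ∨ 2 ≤ n by omega) with rfl | hn2
      · rw [pow_one] at hcard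
        by_cases hq5 : p = 5
        · right; right; right; omega
        · right; right; left
          refine ⟨hcard ▸ hp, by omega, ?_⟩
          rw [hcard]
          have hp0 : p % 5 ≠ 0 := fun h => hq5
            ((Nat.prime_dvd_prime_iff_eq (by norm_num) hp).mp (Nat.dvd_of_mod_eq_zero h)).symm
          by_contra h
          obtain ⟨r, hr, -⟩ := CfsgLib.H29.Dickson.exists_r_prime (F := F) p h2 (by omega)
          refine noA5 h2 ?_ ⟨r, hr⟩ fun h60 => ?_
          · simpa using CfsgLib.H29.Dickson.natCast_ne_zero (F := F) p (n := 5)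
              (fun h => hq5 ((Nat.prime_dvd_prime_iff_eq hp (by norm_num)).mp h))
          · rw [h60, CfsgLib.H29.Dickson.gcd_eq_two h2, hcard] at hW
            have : 6 * (6 ^ 2 - 1) ≤ p * (p ^ 2 - 1) := Nat.mul_le_mul (by omega)
              (Nat.sub_le_sub_right (Nat.pow_le_pow_left (by omega) 2) 1)
            omega
      · exfalso
        obtain ⟨r, hr, c, hc⟩ := Nat.exists_prime_and_dvd (show n ≠ 1 by omega)
        have hc0 : 0 < c := by
          rcases Nat.eq_zero_or_pos c with rfl | h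
          · omega
          · exact h
        exact sub c r hc0 hr (by rw [hc, mul_comm]) (le_trans (by omega) (Nat.le_self_pow hc0.ne' p))
  · intro hq
    have hq4 : 4 ≤ Fintype.card F := by
      rcases hq with ⟨r, hr, h⟩ | ⟨r, hr, -, h⟩ | ⟨-, h, -⟩ | h
      · rw [h]; exact le_trans (by norm_num) (Nat.pow_le_pow_right two_pos hr.two_le)
      · rw [h]; exact le_trans (show 4 ≤ 3 ^ 2 by norm_num) (Nat.pow_le_pow_right (by norm_num) hr.two_le)
      · omega
      · omega
    obtain ⟨hsimp, hncomm, -⟩ := CfsgLib.H29.Dickson.not_solvable_PSL (K := F) hq4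
    refine ⟨hsimp, hncomm, fun H hH => ?_⟩
    have hlt : H.map Matrix.ProjectiveSpecialLinearGroup.toPGL < CfsgLib.H29.Dickson.W F := by
      rw [CfsgLib.H29.Dickson.W_eq_map]
      exact lt_of_le_of_ne (Subgroup.map_mono le_top) fun h => hH (Subgroup.map_injective hinj h)
    obtain ⟨M, hM, hle⟩ := CfsgLib.H29.Dickson.exists_maxIn hlt
    suffices hsolM : Group.IsSolvable M by
      have := Group.isSolvable_of_isSolvable_injective (f := Subgroup.inclusion hle)
        (Subgroup.inclusion_injective hle)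
      exact CfsgLib.H29.Dickson.solvable_of_equiv (H.equivMapOfInjective _ hinj)
    rcases CfsgLib.H29.Dickson.maxKind p hq4 (Or.inl rfl) hM (fun h => hM.lt.not_ge h) with ⟨x, hx⟩ |
      ⟨a, b, e, D, he, hx⟩ | ⟨hp', ⟨e4⟩⟩ | ⟨hp', ⟨e4⟩⟩ | ⟨hp', ⟨e5⟩⟩ |
      ⟨γ, β, r, hβ, hr, hF, h⟩ | ⟨γ, β, r, hβ, hr, hF, h⟩
    · have := CfsgLib.H29.Dickson.solvable_stab x
      exact Group.isSolvable_of_isSolvable_injective
        (f := Subgroup.inclusion (show M ≤ MulAction.stabilizer (CfsgLib.H29.Dickson.P2 F) x from hx ▸ inf_le_left))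
        (Subgroup.inclusion_injective _)
    · obtain ⟨k, -, -, -, ⟨e'⟩, -⟩ := D.card_T2_inf (A := CfsgLib.H29.Dickson.W F) (Or.inl rfl)
      have := CfsgLib.H29.Dickson.solvable_dihedral k
      exact CfsgLib.H29.Dickson.solvable_of_equiv ((MulEquiv.subgroupCongr hx).trans e')
    · exact CfsgLib.H29.Dickson.solvable_card_twentyfour
        (by rw [CfsgLib.H29.Dickson.card_A4 (N := M) ⟨e4⟩]; norm_num)
    · exact CfsgLib.H29.Dickson.solvable_card_twentyfour
        (by rw [CfsgLib.H29.Dickson.card_S4 (N := M) ⟨e4⟩])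
    · exfalso
      have hp2 : p ≠ 2 := by
        rintro rfl; exact hp'.elim (fun h => h (by norm_num)) (by norm_num)
      have h2 : (2 : F) ≠ 0 := by
        simpa using CfsgLib.H29.Dickson.natCast_ne_zero (F := F) p (n := 2)
          (fun h => hp2 ((Nat.prime_dvd_prime_iff_eq hp Nat.prime_two).mp h))
      obtain ⟨h10, -⟩ := CfsgLib.H29.Dickson.a5_conditions p h2 hM hp' ⟨e5⟩
      rcases hq with ⟨r, hr, h⟩ | ⟨r, hr, hr2, h⟩ | ⟨-, -, h⟩ | h
      · exact hp2 (CfsgLib.H29.Dickson.p_of_small (F := F) Nat.prime_two h)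
      · obtain ⟨k, rfl⟩ := hr.odd_of_ne_two hr2
        rw [h, pow_succ, pow_mul, Nat.mul_mod, Nat.pow_mod] at h10
        norm_num at h10
        have : 9 ^ k % 10 = 1 ∨ 9 ^ k % 10 = 9 := by
          clear h10 h hr hr2
          induction k with
          | zero => simp
          | succ m ih => rw [pow_succ, Nat.mul_mod]; rcases ih with h | h <;> rw [h] <;> norm_num
        omega
      · omega
      · omega
    all_goals
      refine CfsgLib.H29.Dickson.solvable_card_twentyfour ?_
      rw [← Subgroup.card_map_of_injective (f := (MulAut.conj γ).toMonoidHom)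
        (MulAut.conj γ).injective, h]
      have h24 : p ^ β * ((p ^ β) ^ 2 - 1) ∣ 24 := by
        rcases hq with ⟨s, hs, hs'⟩ | ⟨s, hs, -, hs'⟩ | ⟨hs, -⟩ | hs
        · obtain rfl := CfsgLib.H29.Dickson.p_of_small (F := F) Nat.prime_two hs'
          obtain ⟨-, hbr⟩ := CfsgLib.H29.Dickson.eq_one_of_prime_card 2 hβ hr.one_lt hF hs'
          rcases hs.eq_one_or_self_of_dvd β (Dvd.intro r hbr) with rfl | rfl
          · norm_num
          · exact absurd ((Nat.mul_eq_left hs.ne_zero).mp hbr) hr.ne_one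
        · obtain rfl := CfsgLib.H29.Dickson.p_of_small (F := F) Nat.prime_three hs'
          obtain ⟨-, hbr⟩ := CfsgLib.H29.Dickson.eq_one_of_prime_card 3 hβ hr.one_lt hF hs'
          rcases hs.eq_one_or_self_of_dvd β (Dvd.intro r hbr) with rfl | rfl
          · norm_num
          · exact absurd ((Nat.mul_eq_left hs.ne_zero).mp hbr) hr.ne_one
        · rw [hF] at hs
          exact absurd hs (Nat.Prime.not_prime_pow hr.two_le)
        · rw [hF] at hs
          exact absurd (hs ▸ (by norm_num : Nat.Prime 5)) (Nat.Prime.not_prime_pow hr.two_le)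
      first
        | exact (dvd_of_eq (CfsgLib.H29.Dickson.card_PL_fixF p hβ hF)).trans h24
        | exact ((Dvd.intro _ (CfsgLib.H29.Dickson.PS_card_fixF p hβ hF))).trans h24

end Cfsg.Agent.S0810
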