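import Cfsg.Statements.S0811
import Cfsg.Agent.H29.Dickson.ExistsTorus

set_option autoImplicit false
open Cfsg

namespace Cfsg.Agent.S0811

/-- For q ∉ {2, 7, 9}, PSL_2(q) has a maximal subgroup isomorphic to the dihedral group of order 2(q + 1)/d, d = gcd(2, q − 1). -/
theorem result {F : Type*} [Field F] [Fintype F] {q : ℕ} (hF : Fintype.card F = q) (hq : q ∉ ({2, 7, 9} : Finset ℕ)) : ∃ H : Subgroup (Matrix.ProjectiveSpecialLinearGroup (Fin 2) F), IsCoatom H ∧ Nonempty (H ≃* DihedralGroup ((q + 1) / Nat.gcd 2 (q - 1))) := by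
  simp only [Finset.mem_insert, Finset.mem_singleton, not_or] at hq
  obtain ⟨a, b, D⟩ := CfsgLib.H29.Dickson.exists_torus_nonsplit (F := F)
  have hq1 := Fintype.one_lt_card (α := F)
  refine CfsgLib.H29.Dickson.exists_dihedral_max D (by rw [hF]) ?_
  by_cases h4 : 4 ≤ Fintype.card F
  · exact CfsgLib.H29.Dickson.torus_max D h4 (Or.inr rfl) (by omega) (by omega) (fun h => by omega)
  -- the field with three elements
  have h3 : Fintype.card F = 3 := by omega
  have h2 : (2 : F) ≠ 0 := fun h => by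
    have := Nat.even_iff.mp (CfsgLib.H29.Dickson.two_eq_zero_iff.mp h)
    omega
  have := CfsgLib.H29.Dickson.finite_P2 (F := F)
  obtain ⟨k, hN, -, -, -, -, hk⟩ := D.card_T2_inf (Or.inl rfl)
  have hk := hk rfl
  rw [CfsgLib.H29.Dickson.gcd_eq_two h2] at hk
  have hW := CfsgLib.H29.Dickson.card_W_two h2
  rw [h3] at hW hk
  norm_num at hk
  rw [show 3 * (3 ^ 2 - 1) = 24 from rfl] at hW
  have hk2 : k = 2 := by omega
  rw [hk2] at hN
  refine ⟨lt_of_le_of_ne inf_le_right fun h => by rw [h] at hN; omega, fun H h1 h2' => ?_⟩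
  have hd1 := Subgroup.card_dvd_of_le h1.le
  have hd2 := Subgroup.card_dvd_of_le h2'
  rw [hN] at hd1
  rw [show Nat.card (CfsgLib.H29.Dickson.W F) = 12 by omega] at hd2
  refine Subgroup.eq_of_le_of_card_ge h2' ?_
  rw [show Nat.card (CfsgLib.H29.Dickson.W F) = 12 by omega]
  have hlt : Nat.card H ≠ 4 := fun h => h1.ne (Subgroup.eq_of_le_of_card_ge h1.le (by omega))
  have := Nat.le_of_dvd (by norm_num) hd2
  interval_cases h : Nat.card H <;> omega

end Cfsg.Agent.S0811
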