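import Cfsg.Statements.S0812
import Cfsg.Agent.H29.Dickson.ExistsTorus

set_option autoImplicit false
open Cfsg

namespace Cfsg.Agent.S0812

/-- For q ∉ {2, 3, 5, 7, 9, 11}, PSL_2(q) has a maximal subgroup isomorphic to the dihedral group of order 2(q − 1)/d, d = gcd(2, q − 1). -/
theorem result {F : Type*} [Field F] [Fintype F] {q : ℕ} (hF : Fintype.card F = q) (hq : q ∉ ({2, 3, 5, 7, 9, 11} : Finset ℕ)) : ∃ H : Subgroup (Matrix.ProjectiveSpecialLinearGroup (Fin 2) F), IsCoatom H ∧ Nonempty (H ≃* DihedralGroup ((q - 1) / Nat.gcd 2 (q - 1))) := by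
  simp only [Finset.mem_insert, Finset.mem_singleton, not_or] at hq
  obtain ⟨a, b, D⟩ := CfsgLib.H29.Dickson.exists_torus_split (F := F)
  have hq1 := Fintype.one_lt_card (α := F)
  refine CfsgLib.H29.Dickson.exists_dihedral_max D (by rw [hF]) ?_
  exact CfsgLib.H29.Dickson.torus_max D (by omega) (Or.inl rfl) (by omega) (by omega) (fun _ => by omega)

end Cfsg.Agent.S0812
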