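import Cfsg.Statements.S0816
import Cfsg.Agent.AutPO.OddStd

set_option autoImplicit false
open Cfsg

namespace Cfsg.Agent.S0816

/-- |Aut(PΩ_(2m+1)(q))| = 2 f · |PΩ_(2m+1)(q)| for q = p^f odd and m ≥ 3 (for the form quadFormOdd). -/
theorem result {F : Type*} [Field F] [Fintype F] (p f : ℕ) [Fact p.Prime] (hf : 1 ≤ f) (hF : Fintype.card F = p ^ f) (hodd : Odd p) (m : ℕ) (hm : 3 ≤ m) : Nat.card (MulAut (Cfsg.POmega F (Cfsg.quadFormOdd m F))) = 2 * f * Nat.card (Cfsg.POmega F (Cfsg.quadFormOdd m F)) := by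
  haveI : NeZero f := ⟨by omega⟩
  have hq : Odd (Fintype.card F) := by rw [hF]; exact hodd.pow
  rw [← CfsgLib.Forms.coe_quadOdd]
  rw [CfsgLib.AutPO.card_aut (CfsgLib.AutPO.go_odd hq hm), CfsgLib.AutPO.card_so (CfsgLib.AutPO.go_odd hq hm),
    CfsgLib.AutPSL.card_ringAut F hF]
  ring

end Cfsg.Agent.S0816
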