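import Cfsg.Statements.S0817
import Cfsg.Agent.AutPE.OutOdd
import Cfsg.Agent.AutPE.Plus
import Cfsg.Agent.AutPE.Two
import Cfsg.Agent.AutPE.Eight

set_option autoImplicit false
open Cfsg

namespace Cfsg.Agent.S0817

/-- |Aut(PΩ⁺_2m(q))| for q = p^f, m ≥ 4: |PΩ⁺_2m(q)| times f, times 3 when m = 4, times 2 if p = 2, and times 8 or 4 if p is odd according as m(q−1)/2 is even or odd. -/
theorem result {F : Type*} [Field F] [Fintype F] (p f : ℕ) [Fact p.Prime] (hf : 1 ≤ f) (hF : Fintype.card F = p ^ f) (m : ℕ) (hm : 4 ≤ m) : Nat.card (MulAut (Cfsg.POmega F (Cfsg.quadFormPlus m F))) = (if m = 4 then 3 else 1) * (if p = 2 then 2 else (if Even (m * (p ^ f - 1) / 2) then 8 else 4)) * f * Nat.card (Cfsg.POmega F (Cfsg.quadFormPlus m F)) := by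
  haveI : CharP F p := charP_of_card_eq_prime_pow hF
  rcases Nat.eq_or_lt_of_le hm with rfl | h5
  · rw [CfsgLib.AutPE.Eight.card_mulAut hF, if_pos rfl]
    by_cases hp : p = 2
    · subst hp
      have hg : Nat.gcd (2 ^ f - 1) 2 = 1 := by
        obtain ⟨k, rfl⟩ := Nat.exists_eq_succ_of_ne_zero (show f ≠ 0 by omega)
        rw [Nat.gcd_comm, ← Nat.coprime_iff_gcd_eq_one, Nat.prime_two.coprime_iff_not_dvd, pow_succ]
        have := Nat.one_le_two_pow (n := k)
        omega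
      rw [hg, if_pos rfl]
      ring
    · obtain ⟨k, hk⟩ := ((Fact.out : p.Prime).odd_of_ne_two hp).pow (n := f)
      have hg : Nat.gcd (p ^ f - 1) 2 = 2 := Nat.gcd_eq_right (by omega)
      rw [hg, if_neg hp, if_pos (by rw [hk, Nat.even_iff]; omega)]
      ring
  rw [← CfsgLib.Forms.coe_quadPlus]
  have h := CfsgLib.AutPO.gh_plus (F := F) (m := m) h5
  rw [CfsgLib.AutPE.card_aut h hF (α := CfsgLib.AutPE.fieldP (m := m) (CfsgLib.AutPE.frob F p))
    (CfsgLib.AutPE.tau_fieldP h _), if_neg (show m ≠ 4 by omega), one_mul]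
  by_cases hp : p = 2
  · subst hp
    rw [CfsgLib.AutPE.card_outKer_two h CharTwo.two_eq_zero, if_pos rfl]
  · have hodd := CfsgLib.AutPE.odd_of_card hF hp
    have hneg := CfsgLib.Forms.Simil.negOne_plus (F := F) hodd (m := m) (by omega)
    rw [CfsgLib.AutPE.card_outKer h (CfsgLib.Forms.Simil.good_plus hodd (by omega)), if_neg hp]
    have hiff : Even (m * (p ^ f - 1) / 2) ↔ ¬ (Odd m ∧ Fintype.card F % 4 = 3) := by
      rw [hF]
      obtain ⟨k, hk⟩ := ((Fact.out : p.Prime).odd_of_ne_two hp).pow (n := f)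
      rw [hk, Nat.add_sub_cancel, ← mul_assoc, mul_comm m 2, mul_assoc, Nat.mul_div_cancel_left _ (by norm_num : 0 < 2),
        Nat.even_mul]
      have h3 : (2 * k + 1) % 4 = 3 ↔ ¬ Even k := by rw [Nat.even_iff]; omega
      rw [h3, ← Nat.not_even_iff_odd]
      tauto
    by_cases hc : Odd m ∧ Fintype.card F % 4 = 3
    · rw [if_neg fun e => hneg.1 e hc, if_neg fun e => hiff.1 e hc]
    · rw [if_pos (hneg.2 hc), if_pos (hiff.2 hc)]

end Cfsg.Agent.S0817
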