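import Cfsg.Statements.S0818
import Cfsg.Agent.AutPE.OutOdd

set_option autoImplicit false
open Cfsg CfsgLib.Forms CfsgLib.AutPE

namespace Cfsg.Agent.S0818

/-- |Aut(PΩ⁻_2m(q))| for q = p^f, m ≥ 4 (form quadFormMinus (m−1) with anisotropic binary part): |PΩ⁻_2m(q)| times f, times 2 if p = 2, and times 4 or 8 if p is odd according as m(q−1)/2 is even or odd. -/
theorem result {F : Type*} [Field F] [Fintype F] (p f : ℕ) [Fact p.Prime] (hf : 1 ≤ f) (hF : Fintype.card F = p ^ f) (m : ℕ) (hm : 4 ≤ m) (a b : F) (hab : ∀ z₁ z₂ : F, z₁ ^ 2 + a * z₁ * z₂ + b * z₂ ^ 2 = 0 → z₁ = 0 ∧ z₂ = 0) : Nat.card (MulAut (Cfsg.POmega F (Cfsg.quadFormMinus (m - 1) F a b))) = (if p = 2 then 2 else (if Even (m * (p ^ f - 1) / 2) then 4 else 8)) * f * Nat.card (Cfsg.POmega F (Cfsg.quadFormMinus (m - 1) F a b)) := by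
  obtain ⟨n, rfl⟩ : ∃ n, m = n + 1 := ⟨m - 1, by omega⟩
  rw [Nat.add_sub_cancel, ← coe_quadMinus]
  haveI : CharP F p := charP_of_card_eq_prime_pow hF
  have h := CfsgLib.AutPO.gh_minus (m := n) (by omega) hab
  by_cases hp : p = 2
  · subst hp
    rw [card_aut h hF (α := phiTwo hab) (tau_stdAut h (isSemi_frobTwo hab)),
      card_outKer_two h CharTwo.two_eq_zero, if_pos rfl]
  · have hodd := odd_of_card hF hp
    have h2 := (Simil.two_ne_of_odd (F := F) hodd).2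
    rw [card_aut h hF (α := phiOdd hab h2 hp) (tau_stdAut h (isSemi_frobOdd hab h2 hp)),
      card_outKer h (Simil.good_minus hodd (by omega) hab), if_neg hp]
    have hneg := Simil.negOne_minus (F := F) hodd (m := n) hab
    have hq : (p ^ f) % 2 = 1 := hF ▸ Nat.odd_iff.1 hodd
    have hiff : Even ((n + 1) * (p ^ f - 1) / 2) ↔ ¬ (Even n ∧ Fintype.card F % 4 = 3) := by
      rw [hF]
      obtain ⟨k, hk⟩ : ∃ k, p ^ f = 2 * k + 1 := ⟨p ^ f / 2, by omega⟩
      rw [hk, Nat.add_sub_cancel, ← mul_assoc, mul_comm _ 2, mul_assoc,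
        Nat.mul_div_cancel_left _ (by norm_num : 0 < 2), Nat.even_mul, Nat.even_add_one]
      have : (2 * k + 1) % 4 = 3 ↔ ¬ Even k := by rw [Nat.even_iff]; omega
      rw [this]
      tauto
    by_cases hc : Even n ∧ Fintype.card F % 4 = 3
    · rw [if_pos (hneg.2 hc), if_neg (fun e => hiff.1 e hc)]
    · rw [if_neg (fun e => hc (hneg.1 e)), if_pos (hiff.2 hc)]

end Cfsg.Agent.S0818
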