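import Cfsg.Statements.S2579
import Cfsg.Agent.SLn.PSLFusion
import Cfsg.Agent.S0839
-- import your own Cfsg.Agent.* helpers here

set_option autoImplicit false
open Cfsg

namespace Cfsg.Agent.S2579

/-- In SL_n(F) with n ≥ 3, over a finite field F, any two transvections (matrices t with t − 1 of rank one and square zero) are conjugate by an element of SL_n(F). -/
theorem result {F : Type*} [Field F] [Finite F] {n : ℕ} (hn : 3 ≤ n) (s t : Matrix.SpecialLinearGroup (Fin n) F) (hs : Cfsg.IsTransvection (s : Matrix (Fin n) (Fin n) F)) (ht : Cfsg.IsTransvection (t : Matrix (Fin n) (Fin n) F)) : IsConj s t := by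
  obtain ⟨m, rfl⟩ : ∃ m, n = m + 2 := ⟨n - 2, by omega⟩
  have key : ∀ t : Matrix.SpecialLinearGroup (Fin (m + 2)) F,
      Cfsg.IsTransvection (t : Matrix (Fin (m + 2)) (Fin (m + 2)) F) →
      IsConj t (Matrix.SpecialLinearGroup.transvection (show (1 : Fin (m + 2)) ≠ 0 by simp) (1 : F)) := by
    intro t ht
    obtain ⟨g, v, hv0, hg⟩ := Cfsg.Agent.S0839.result m t ht
    obtain ⟨k, hk⟩ : ∃ k, v k ≠ 0 := by
      by_contra hcon
      push Not at hcon
      have hv : v = 0 := funext hcon
      have : g⁻¹ * t * g = 1 := Subtype.ext (by rw [hg, hv]; simp)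
      have h1 : t = 1 := by
        have h2 := congrArg (fun x => g * x * g⁻¹) this
        simpa [mul_assoc] using h2
      have h3 := ht.1
      rw [h1] at h3
      simp at h3
    have hk0 : k ≠ 0 := fun h => hk (h ▸ hv0)
    set w : Fin (m + 2) → F := fun i => if i = k then 0 else -(v i / v k) with hw
    have hwk : w k = 0 := by simp [hw]
    have hw0 : w 0 = 0 := by simp [hw, hk0.symm, hv0]
    have hvw : v + v k • w = Pi.single k (v k) := by
      funext i
      by_cases hi : i = k
      · subst hi; simp [hwk]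
      · simp [hw, hi]; field_simp; ring
    let h : Matrix.SpecialLinearGroup (Fin (m + 2)) F := ⟨1 + Matrix.vecMulVec w (Pi.single k 1), by
      rw [Matrix.vecMulVec_eq Unit, Matrix.det_one_add_replicateCol_mul_replicateRow]
      simp [dotProduct, Pi.single_apply, hwk]⟩
    have hc : h * (g⁻¹ * t * g) * h⁻¹ = Matrix.SpecialLinearGroup.transvection hk0 (v k) := by
      rw [mul_inv_eq_iff_eq_mul]
      refine Subtype.ext ?_
      show (1 + Matrix.vecMulVec w (Pi.single k 1)) * (g⁻¹ * t * g).1 =
        (1 + Matrix.single k 0 (v k)) * (1 + Matrix.vecMulVec w (Pi.single k 1))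
      rw [show (g⁻¹ * t * g).1 = 1 + Matrix.vecMulVec v (Pi.single 0 1) from hg]
      ext i j
      have e1 : (Matrix.vecMulVec w (Pi.single k 1) * Matrix.vecMulVec v (Pi.single 0 1)) i j =
          v k * w i * (Pi.single 0 1 : Fin (m + 2) → F) j := by
        rw [Matrix.vecMulVec_mul_vecMulVec, Matrix.vecMulVec_apply, single_dotProduct, one_mul, Pi.smul_apply,
          smul_eq_mul]
        ring
      have e2 : (Matrix.single k (0 : Fin (m + 2)) (v k) * Matrix.vecMulVec w (Pi.single k 1)) i j = 0 := by
        by_cases hik : i = k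
        · rw [hik, Matrix.single_mul_apply_same, Matrix.vecMulVec_apply, hw0, zero_mul, mul_zero]
        · rw [Matrix.single_mul_apply_of_ne _ _ _ _ _ hik]
      simp only [add_mul, mul_add, one_mul, mul_one, Matrix.add_apply, e1, e2]
      have h3 : v i + v k * w i = (Pi.single k (v k) : Fin (m + 2) → F) i := congrFun hvw i
      have h4 : Matrix.single k (0 : Fin (m + 2)) (v k) i j =
          (Pi.single k (v k) : Fin (m + 2) → F) i * (Pi.single 0 1 : Fin (m + 2) → F) j := by
        rw [Matrix.single_apply, Pi.single_apply, Pi.single_apply]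
        by_cases hik : i = k <;> by_cases hj : j = 0 <;> simp [hik, hj, eq_comm (a := k), eq_comm (a := (0 : Fin (m + 2)))]
      simp only [Matrix.vecMulVec_apply]
      rw [h4, ← h3]
      ring
    obtain ⟨y, hy⟩ := CfsgLib.SLn.Unip.exists_conj_transvection hn hk0 (show (1 : Fin (m + 2)) ≠ 0 by simp) hk one_ne_zero
    refine isConj_iff.mpr ⟨y * h * g⁻¹, ?_⟩
    rw [← hy, ← hc]
    group
  exact (key s hs).trans (key t ht).symm

end Cfsg.Agent.S2579
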