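import Cfsg.Statements.S0820
import Mathlib
import Cfsg.Agent.H29.SLThreeFour
import Cfsg.Agent.S2579

set_option autoImplicit false
open Cfsg

namespace Cfsg.Agent.S0820

/-- Any two elements of order 2 of PSL_3(4) are conjugate. -/
theorem result {F : Type*} [Field F] [Fintype F] (hF : Fintype.card F = 4) (x y : Matrix.ProjectiveSpecialLinearGroup (Fin 3) F) (hx : orderOf x = 2) (hy : orderOf y = 2) : IsConj x y := by
  obtain ⟨g, rfl, hg⟩ := H29.SLThreeFour.lift_order_two hF x hx
  obtain ⟨h, rfl, hh⟩ := H29.SLThreeFour.lift_order_two hF y hy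
  exact (QuotientGroup.mk' _).map_isConj (Cfsg.Agent.S2579.result le_rfl g h hg hh)

end Cfsg.Agent.S0820
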