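import Cfsg.Statements.S0821
import Mathlib
import Cfsg.Agent.InvClass.Symplectic
import Cfsg.Agent.InvClass.Omega

set_option autoImplicit false
open Cfsg

namespace Cfsg.Agent.S0821

/-- PSp_2m(q) ≇ PΩ_(2m+1)(q) for q odd and m ≥ 3 (they have the same order). -/
theorem result {F : Type*} [Field F] [Fintype F] (hodd : Odd (Fintype.card F)) (m : ℕ) (hm : 3 ≤ m) : IsEmpty (Cfsg.PSp m F ≃* Cfsg.POmega F (Cfsg.quadFormOdd m F)) := by
  have h2 : (2 : F) ≠ 0 := CfsgLib.OrthOrder.two_ne_zero_of_odd hodd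
  rw [← CfsgLib.Forms.coe_quadOdd]
  refine ⟨fun φ => ?_⟩
  obtain ⟨x, hx, hsep⟩ := CfsgLib.InvClass.exists_involutions h2 hm
  have hcode : ∀ k, ∃ c ≤ m / 2, CfsgLib.InvClass.HasCode (φ.symm (x k)) c := fun k =>
    CfsgLib.InvClass.exists_code h2 (by omega)
      (by rw [← map_mul, (hx k).1, map_one]) (fun h => (hx k).2 (by simpa using congrArg φ h))
  choose c hc hc' using hcode
  have hinj : Function.Injective (fun k => (⟨c k, Nat.lt_succ_of_le (hc k)⟩ : Fin (m / 2 + 1))) := by
    intro k l h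
    have h1 : c k = c l := congrArg Fin.val h
    have h3 := φ.toMonoidHom.map_isConj (CfsgLib.InvClass.isConj_of_code h2 (hc' k) (h1 ▸ hc' l))
    simp only [MulEquiv.coe_toMonoidHom, MulEquiv.apply_symm_apply] at h3
    exact hsep k l h3
  have := Fintype.card_le_of_injective _ hinj
  simp only [Fintype.card_fin] at this
  omega

end Cfsg.Agent.S0821
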