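import Cfsg.Statements.S0823
import Mathlib
import Cfsg.Agent.H29.SOThreeThree.Model

set_option autoImplicit false
open Cfsg Matrix CfsgLib.H29.SOThreeThree

namespace Cfsg.Agent.S0823

/-- SO_3(3) ≅ S_4: the determinant-one isometries of the form x_0² + x_1y_1 over the field with 3 elements form a group isomorphic to the symmetric group on 4 letters. -/
theorem result {F : Type*} [Field F] [Fintype F] (hF : Fintype.card F = 3) : Nonempty (↥(Cfsg.specialIsometryGroup F (Cfsg.quadFormOdd 1 F)) ≃* Equiv.Perm (Fin 4)) := by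
  classical
  let φ : ZMod 3 ≃+* F := ZMod.ringEquivOfPrime F (by norm_num) hF
  let ι₀ : Fin 3 ≃ Unit ⊕ (Fin 1 ⊕ Fin 1) :=
    { toFun := ![.inl (), .inr (.inl 0), .inr (.inr 0)]
      invFun := Sum.elim (fun _ => 0) (Sum.elim (fun _ => 1) (fun _ => 2))
      left_inv := fun i => by fin_cases i <;> rfl
      right_inv := fun i => by
        rcases i with ⟨⟩ | i | i
        · rfl
        · simp [Subsingleton.elim i 0]
        · simp [Subsingleton.elim i 0] }
  let T : Matrix (Fin 3) (Fin 3) (ZMod 3) →* Matrix (Unit ⊕ (Fin 1 ⊕ Fin 1)) (Unit ⊕ (Fin 1 ⊕ Fin 1)) F :=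
    (Matrix.reindexAlgEquiv F F ι₀).toMonoidHom.comp φ.toRingHom.mapMatrix.toMonoidHom
  have hT : ∀ m i j, T m (ι₀ i) (ι₀ j) = φ (m i j) := fun m i j => by
    simp [T, Matrix.reindexAlgEquiv_apply]
  have hTv : ∀ (m : Matrix (Fin 3) (Fin 3) (ZMod 3)) (v : Unit ⊕ (Fin 1 ⊕ Fin 1) → F) (i : Fin 3),
      (T m *ᵥ v) (ι₀ i) = φ ((m *ᵥ fun k => φ.symm (v (ι₀ k))) i) := fun m v i => by
    simp only [Matrix.mulVec, dotProduct, map_sum, map_mul, RingEquiv.apply_symm_apply]
    rw [← Equiv.sum_comp ι₀]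
    simp only [hT]
  have hQF : ∀ v : Unit ⊕ (Fin 1 ⊕ Fin 1) → F,
      Cfsg.quadFormOdd 1 F v = φ (Q fun k => φ.symm (v (ι₀ k))) := fun v => by
    simp [Cfsg.quadFormOdd, Q, ι₀]
  let g₀ : Equiv.Perm (Fin 4) →* Matrix.GeneralLinearGroup (Unit ⊕ (Fin 1 ⊕ Fin 1)) F :=
    (T.comp { toFun := M, map_one' := by decide +kernel, map_mul' := M_mul }).toHomUnits
  have hg₀ : ∀ σ, (g₀ σ : Matrix (Unit ⊕ (Fin 1 ⊕ Fin 1)) (Unit ⊕ (Fin 1 ⊕ Fin 1)) F) = T (M σ) := fun σ => rfl
  have hmem : ∀ σ, g₀ σ ∈ Cfsg.isometryGroup F (Cfsg.quadFormOdd 1 F) := fun σ u v => by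
    change Cfsg.quadFormOdd 1 F (T (M σ) *ᵥ u) = Cfsg.quadFormOdd 1 F u
    rw [hQF, hQF]
    congr 1
    simp only [hTv, RingEquiv.symm_apply_apply]
    exact Q_M σ _
  have hdetT : ∀ m : Matrix (Fin 3) (Fin 3) (ZMod 3), (T m).det =
      φ (D (fun i => m i 0) (fun i => m i 1) (fun i => m i 2)) := fun m => by
    change (Matrix.reindex ι₀ ι₀ (φ.toRingHom.mapMatrix m)).det = _
    rw [Matrix.det_reindex_self, ← RingHom.map_det, Matrix.det_fin_three]
    simp only [RingEquiv.toRingHom_eq_coe, RingHom.coe_coe, D]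
    congr 1
    ring
  let g₁ : Equiv.Perm (Fin 4) →* ↥(Cfsg.specialIsometryGroup F (Cfsg.quadFormOdd 1 F)) :=
    (g₀.codRestrict _ hmem).codRestrict _ fun σ => by
      rw [Cfsg.specialIsometryGroup, MonoidHom.mem_ker]
      apply Units.ext
      change (T (M σ)).det = 1
      rw [hdetT, D_M, map_one]
  refine ⟨(MulEquiv.ofBijective g₁ ⟨fun σ τ h => M_inj σ τ ?_, fun x => ?_⟩).symm⟩
  · have h1 := congrArg Subtype.val (congrArg Subtype.val h)
    have h' : T (M σ) = T (M τ) := congrArg Units.val h1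
    ext i j
    exact φ.injective (by rw [← hT, ← hT, h'])
  · set X := ((x.1.1 : Matrix.GeneralLinearGroup _ F) : Matrix (Unit ⊕ (Fin 1 ⊕ Fin 1)) (Unit ⊕ (Fin 1 ⊕ Fin 1)) F) with hX
    set m : Matrix (Fin 3) (Fin 3) (ZMod 3) := Matrix.of fun i j => φ.symm (X (ι₀ i) (ι₀ j)) with hm
    have hTm : T m = X := by
      ext i j
      obtain ⟨i, rfl⟩ := ι₀.surjective i
      obtain ⟨j, rfl⟩ := ι₀.surjective j
      simp [hT, hm]
    have hiso : ∀ v : Fin 3 → ZMod 3, Q (m *ᵥ v) = Q v := fun v => by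
      have h := x.1.2 (fun k => φ (v (ι₀.symm k))) 0
      change Cfsg.quadFormOdd 1 F (X *ᵥ _) = _ at h
      simp only [← hTm, hQF, φ.injective.eq_iff] at h
      simpa only [hTv, RingEquiv.symm_apply_apply, Equiv.symm_apply_apply] using h
    have hdet : D (fun i => m i 0) (fun i => m i 1) (fun i => m i 2) = 1 := by
      have h := congrArg Units.val (MonoidHom.mem_ker.mp x.2)
      change X.det = 1 at h
      rw [← hTm, hdetT, ← map_one φ, φ.injective.eq_iff] at h
      exact h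
    have hcol : ∀ j, (fun i => m i j) = m *ᵥ Pi.single j 1 := fun j => by
      ext i; simp
    have hP : ∀ u v, P (m *ᵥ u) (m *ᵥ v) = P u v := fun u v => by
      rw [polar, polar, ← Matrix.mulVec_add, hiso, hiso, hiso]
    obtain ⟨σ, hσ⟩ := complete (fun i => m i 0) (by rw [hcol, hiso]; decide)
      (fun i => m i 1) (by rw [hcol, hiso]; decide) (by rw [hcol, hcol, hP]; decide)
      (fun i => m i 2) (by rw [hcol, hiso]; decide) (by rw [hcol, hcol, hP]; decide)
      (by rw [hcol, hcol, hP]; decide) hdet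
    refine ⟨σ, Subtype.ext (Subtype.ext (Units.ext ?_))⟩
    change T (M σ) = X
    rw [← hTm]
    congr 1
    ext i j
    fin_cases j
    · exact (hσ i).1
    · exact (hσ i).2.1
    · exact (hσ i).2.2

end Cfsg.Agent.S0823
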