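import Cfsg.Statements.S0824
import Mathlib
import Cfsg.Agent.OrthOrder.Orders
-- import your own Cfsg.Agent.* helpers here

set_option autoImplicit false
open Cfsg

namespace Cfsg.Agent.S0824

open Matrix

variable (F : Type*) [Field F]

/-- The singular points. -/
abbrev Sing : Type _ := {v : (Fin 1 ⊕ Fin 1) ⊕ Fin 2 → F // Cfsg.quadFormMinus 1 F 1 1 v = 0 ∧ v ≠ 0}

theorem smul_mem (g : ↥(Cfsg.isometryGroup F (Cfsg.quadFormMinus 1 F 1 1))) (v : Sing F) :
    Cfsg.quadFormMinus 1 F 1 1 (((g : GL ((Fin 1 ⊕ Fin 1) ⊕ Fin 2) F) : Matrix ((Fin 1 ⊕ Fin 1) ⊕ Fin 2) ((Fin 1 ⊕ Fin 1) ⊕ Fin 2) F) *ᵥ v.1) = 0 ∧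
      ((g : GL ((Fin 1 ⊕ Fin 1) ⊕ Fin 2) F) : Matrix ((Fin 1 ⊕ Fin 1) ⊕ Fin 2) ((Fin 1 ⊕ Fin 1) ⊕ Fin 2) F) *ᵥ v.1 ≠ 0 := by
  refine ⟨(CfsgLib.Forms.mem_isometryGroup.1 g.2 v.1).trans v.2.1, fun h => v.2.2 ?_⟩
  exact Matrix.mulVec_injective_of_isUnit (Units.isUnit _) (h.trans (Matrix.mulVec_zero _).symm)

instance : MulAction ↥(Cfsg.isometryGroup F (Cfsg.quadFormMinus 1 F 1 1)) (Sing F) where
  smul g v := ⟨_, smul_mem F g v⟩
  one_smul v := Subtype.ext (Matrix.one_mulVec v.1)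
  mul_smul g h v := Subtype.ext (Matrix.mulVec_mulVec v.1 _ _).symm

/-- O⁻_4(2) ≅ S_5: the isometry group of the form x y + z_1² + z_1 z_2 + z_2² over the field with 2 elements is isomorphic to the symmetric group on 5 letters. -/
theorem result {F : Type*} [Field F] [Fintype F] (hF : Fintype.card F = 2) : Nonempty (↥(Cfsg.isometryGroup F (Cfsg.quadFormMinus 1 F 1 1)) ≃* Equiv.Perm (Fin 5)) := by
  classical
  haveI : CharP F 2 := charP_of_card_eq_prime hF
  have hF2 : ∀ z : F, z = 0 ∨ z = 1 := by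
    intro z
    by_contra h
    push Not at h
    have h2 : ({0, 1, z} : Finset F).card ≤ 2 := hF ▸ Finset.card_le_univ _
    rw [Finset.card_insert_of_notMem (by simp [Ne.symm h.1]), Finset.card_insert_of_notMem (by simp [Ne.symm h.2]),
      Finset.card_singleton] at h2
    omega
  have h110 : (1 : F) + 1 = 0 := CharTwo.add_self_eq_zero 1
  have hab : ∀ z₁ z₂ : F, z₁ ^ 2 + 1 * z₁ * z₂ + 1 * z₂ ^ 2 = 0 → z₁ = 0 ∧ z₂ = 0 := by
    intro z₁ z₂
    rcases hF2 z₁ with rfl | rfl <;> rcases hF2 z₂ with rfl | rfl <;> simp [h110]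
  let Q := Cfsg.quadFormMinus 1 F 1 1
  let G := Cfsg.isometryGroup F Q
  let S := Sing F
  have hQ0 : Q 0 = 0 := by simp [Q, Cfsg.quadFormMinus]
  have hS : Fintype.card S = 5 := by
    have h := CfsgLib.OrthOrder.card_zero_minus (F := F) 1 hab
    rw [hF, Nat.card_eq_fintype_card, Fintype.card_subtype] at h
    norm_num at h
    rw [Fintype.card_subtype]
    have h2 : Finset.univ.filter (fun v => Q v = 0 ∧ v ≠ 0) = (Finset.univ.filter (fun v => Q v = 0)).erase 0 := by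
      ext v
      simp [and_comm]
    rw [h2, Finset.card_erase_of_mem (by simp [hQ0])]
    change (Finset.univ.filter (fun v => Q v = 0)).card = 6 at h
    omega
  have hinj : Function.Injective (MulAction.toPermHom G S) := by
    refine (injective_iff_map_eq_one _).2 fun g hg => ?_
    have hfix : ∀ v, Q v = 0 → ((g : GL ((Fin 1 ⊕ Fin 1) ⊕ Fin 2) F) : Matrix ((Fin 1 ⊕ Fin 1) ⊕ Fin 2) ((Fin 1 ⊕ Fin 1) ⊕ Fin 2) F) *ᵥ v = v := by
      intro v hv
      by_cases h0 : v = 0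
      · subst h0; exact Matrix.mulVec_zero _
      · exact congrArg Subtype.val (Equiv.ext_iff.1 hg (⟨v, hv, h0⟩ : S) : (MulAction.toPermHom G S g) ⟨v, hv, h0⟩ = _)
    let x : (Fin 1 ⊕ Fin 1) ⊕ Fin 2 → F := Sum.elim (Sum.elim 1 0) 0
    let y : (Fin 1 ⊕ Fin 1) ⊕ Fin 2 → F := Sum.elim (Sum.elim 0 1) 0
    have hx := hfix x (by simp [x, Q, Cfsg.quadFormMinus])
    have hy := hfix y (by simp [y, Q, Cfsg.quadFormMinus])
    have hz : ∀ i : Fin 2, ((g : GL ((Fin 1 ⊕ Fin 1) ⊕ Fin 2) F) : Matrix ((Fin 1 ⊕ Fin 1) ⊕ Fin 2) ((Fin 1 ⊕ Fin 1) ⊕ Fin 2) F) *ᵥ Pi.single (Sum.inr i) 1 = Pi.single (Sum.inr i) 1 := by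
      intro i
      have h : Q (x + y + Pi.single (Sum.inr i) 1) = 0 := by
        fin_cases i <;> simp [x, y, Q, Cfsg.quadFormMinus, h110]
      have h2 := hfix _ h
      rw [Matrix.mulVec_add, Matrix.mulVec_add, hx, hy] at h2
      exact add_left_cancel h2
    refine Subtype.ext (Units.ext (Matrix.ext_of_mulVec_single fun j => ?_))
    rw [Subgroup.coe_one, Units.val_one, Matrix.one_mulVec]
    rcases j with (j | j) | j
    · rw [show (Pi.single (Sum.inl (Sum.inl j)) (1 : F) : (Fin 1 ⊕ Fin 1) ⊕ Fin 2 → F) = x by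
        obtain rfl := Subsingleton.elim j 0
        funext k
        rcases k with (k | k) | k <;> simp [x, Pi.single_apply, Fin.fin_one_eq_zero]]
      exact hx
    · rw [show (Pi.single (Sum.inl (Sum.inr j)) (1 : F) : (Fin 1 ⊕ Fin 1) ⊕ Fin 2 → F) = y by
        obtain rfl := Subsingleton.elim j 0
        funext k
        rcases k with (k | k) | k <;> simp [y, Pi.single_apply, Fin.fin_one_eq_zero]]
      exact hy
    · exact hz j
  have hcard : Nat.card G = Nat.card (Equiv.Perm S) := by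
    rw [show Nat.card G = Nat.card (CfsgLib.Forms.isom (CfsgLib.Forms.quadMinus F 1 1 1)) from
      CfsgLib.OrthOrder.natCard_isometryGroup _ (CfsgLib.Forms.coe_quadMinus _ 1 1 1),
      CfsgLib.OrthOrder.card_isom_minus hab, hF, Nat.card_perm, Nat.card_eq_fintype_card, hS]
    rfl
  have hbij : Function.Bijective (MulAction.toPermHom G S) :=
    (Nat.bijective_iff_injective_and_card _).2 ⟨hinj, hcard⟩
  exact ⟨(MulEquiv.ofBijective _ hbij).trans (Equiv.permCongrHom (Fintype.equivFinOfCardEq hS))⟩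

end Cfsg.Agent.S0824
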