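import Cfsg.Statements.S0825
import Cfsg.Agent.Forms.EvenSubsets
import Cfsg.Agent.OrthOrder.Orders

set_option autoImplicit false
open Cfsg Matrix

namespace Cfsg.Agent.S0825

/-- Reed–Muller vectors of length eight. -/
def rmVec (x : Fin 3 → ZMod 2) : Fin 8 → ZMod 2 := fun i =>
  x 0 * (if i.val / 4 = 0 then 1 else 0) + x 1 * (if i.val / 2 % 2 = 0 then 1 else 0) +
    x 2 * (if i.val % 2 = 0 then 1 else 0)

theorem rm_sum : ∀ x : Fin 3 → ZMod 2, ∑ i, rmVec x i = 0 := by decide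

theorem rm_inj : ∀ x : Fin 3 → ZMod 2, (∃ c : ZMod 2, ∀ i, rmVec x i = 0 + c) → x = 0 := by decide

theorem rm_half : ∀ x : Fin 3 → ZMod 2, CfsgLib.Forms.EvenSubsets.half (rmVec x) = 0 := by decide

/-- O⁺_6(2) ≅ S_8: the isometry group of the hyperbolic form x_1y_1 + x_2y_2 + x_3y_3 over the field with 2 elements is isomorphic to the symmetric group on 8 letters. -/
theorem result {F : Type*} [Field F] [Fintype F] (hF : Fintype.card F = 2) : Nonempty (↥(Cfsg.isometryGroup F (Cfsg.quadFormPlus 3 F)) ≃* Equiv.Perm (Fin 8)) := by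
  classical
  haveI : Fact (Nat.Prime 2) := ⟨Nat.prime_two⟩
  let φ : ZMod 2 ≃+* F := ZMod.ringEquivOfPrime F Nat.prime_two hF
  have h4 : 4 ∣ Fintype.card (Fin 8) := by simp
  have hfin : Module.finrank (ZMod 2) (CfsgLib.Forms.EvenSubsets.V h4) = 2 * 3 := by
    have := CfsgLib.Forms.EvenSubsets.finrank_V h4
    rw [Fintype.card_fin] at this
    omega
  let L₀ : (Fin 3 → ZMod 2) →ₗ[ZMod 2] (Fin 8 → ZMod 2) :=
    { toFun := rmVec
      map_add' := fun x y => funext fun i => by simp only [rmVec, Pi.add_apply]; ring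
      map_smul' := fun c x => funext fun i => by simp only [rmVec, Pi.smul_apply, smul_eq_mul, RingHom.id_apply]; ring }
  have hL₀ : ∀ x, L₀ x ∈ CfsgLib.Forms.EvenSubsets.E (Fin 8) := fun x => LinearMap.mem_ker.2 (by
    show ∑ i, rmVec x i = 0
    exact rm_sum x)
  let L := (CfsgLib.Forms.EvenSubsets.mk h4).comp (L₀.codRestrict _ hL₀)
  have hL : Function.Injective L := by
    refine (injective_iff_map_eq_zero L).2 fun x hx => ?_
    obtain ⟨c, hc⟩ := (CfsgLib.Forms.EvenSubsets.mk_eq_mk h4).1 (hx.trans (map_zero (CfsgLib.Forms.EvenSubsets.mk h4)).symm)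
    exact rm_inj x ⟨c, hc⟩
  have hsing : ∀ v ∈ LinearMap.range L, CfsgLib.Forms.EvenSubsets.form h4 v = 0 := by
    rintro _ ⟨x, rfl⟩
    rw [show L x = CfsgLib.Forms.EvenSubsets.mk h4 ⟨L₀ x, hL₀ x⟩ from rfl, CfsgLib.Forms.EvenSubsets.form_mk]
    show CfsgLib.Forms.EvenSubsets.half (rmVec x) = 0
    exact rm_half x
  obtain ⟨g, hg⟩ := CfsgLib.Forms.exists_isometry_plus (m := 3) (by norm_num) hfin
    (CfsgLib.Forms.EvenSubsets.nondegenerate h4) (LinearMap.range L) hsing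
    (by rw [LinearMap.finrank_range_of_inj hL, Module.finrank_fin_fun])
  let ρ : Equiv.Perm (Fin 8) →* Matrix (Fin 3 ⊕ Fin 3) (Fin 3 ⊕ Fin 3) (ZMod 2) :=
    { toFun := fun σ => LinearMap.toMatrix' (g.toLinearMap.comp ((CfsgLib.Forms.EvenSubsets.act h4 σ).comp g.symm.toLinearMap))
      map_one' := Matrix.ext_of_mulVec_single fun i => by
        rw [LinearMap.toMatrix'_mulVec, Matrix.one_mulVec, map_one]
        simp
      map_mul' := fun σ τ => Matrix.ext_of_mulVec_single fun i => by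
        rw [LinearMap.toMatrix'_mulVec, ← Matrix.mulVec_mulVec, LinearMap.toMatrix'_mulVec, LinearMap.toMatrix'_mulVec, map_mul]
        simp }
  let T : Equiv.Perm (Fin 8) →* Matrix.GeneralLinearGroup (Fin 3 ⊕ Fin 3) F :=
    (φ.toRingHom.mapMatrix.toMonoidHom.comp ρ).toHomUnits
  have hT : ∀ σ v i, ((T σ).1 *ᵥ v) i = φ ((ρ σ *ᵥ fun k => φ.symm (v k)) i) := fun σ v i => by
    show ((ρ σ).map φ *ᵥ v) i = _
    simp [Matrix.mulVec, dotProduct]
  have hQ : ∀ v : Fin 3 ⊕ Fin 3 → F, Cfsg.quadFormPlus 3 F v = φ (Cfsg.quadFormPlus 3 (ZMod 2) fun k => φ.symm (v k)) := fun v => by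
    simp [Cfsg.quadFormPlus]
  have hmem : ∀ σ, T σ ∈ Cfsg.isometryGroup F (Cfsg.quadFormPlus 3 F) := fun σ u v => by
    show Cfsg.quadFormPlus 3 F ((T σ).1 *ᵥ u) = Cfsg.quadFormPlus 3 F u
    rw [hQ, hQ]
    congr 1
    rw [show (fun k => φ.symm (((T σ).1 *ᵥ u) k)) = ρ σ *ᵥ fun k => φ.symm (u k) from funext fun k => by
      rw [hT, RingEquiv.symm_apply_apply]]
    show Cfsg.quadFormPlus 3 (ZMod 2) (LinearMap.toMatrix' _ *ᵥ _) = _
    rw [LinearMap.toMatrix'_mulVec, LinearMap.comp_apply, LinearMap.comp_apply, LinearEquiv.coe_coe, hg,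
      CfsgLib.Forms.EvenSubsets.act_form, LinearEquiv.coe_coe, ← hg, LinearEquiv.apply_symm_apply]
  have hinj : Function.Injective (T.codRestrict _ hmem) := fun σ τ h => by
    have h' : (ρ σ).map φ = (ρ τ).map φ := congrArg (fun z : ↥(Cfsg.isometryGroup F (Cfsg.quadFormPlus 3 F)) => z.1.1) h
    have h'' := Matrix.map_injective φ.injective h'
    refine CfsgLib.Forms.EvenSubsets.act_injective h4 (by simp) (LinearMap.ext fun x => g.injective ?_)
    have e := congrArg (· *ᵥ g x) h''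
    simp only [ρ, MonoidHom.coe_mk, OneHom.coe_mk, LinearMap.toMatrix'_mulVec] at e
    simpa using e
  refine ⟨(MulEquiv.ofBijective _ ((Nat.bijective_iff_injective_and_card _).2 ⟨hinj, ?_⟩)).symm⟩
  rw [CfsgLib.OrthOrder.natCard_isometryGroup (CfsgLib.Forms.quadPlus F 3) (CfsgLib.Forms.coe_quadPlus F 3),
    CfsgLib.OrthOrder.card_isom_plus 2, hF, Nat.card_perm, Nat.card_fin]
  decide

end Cfsg.Agent.S0825
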