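import Cfsg.Statements.S0826
import Cfsg.Agent.Forms.SympEmbed

set_option autoImplicit false
open Cfsg

namespace Cfsg.Agent.S0826

/-- S_2n ≤ Sp_(2n−2)(2) for n ≥ 3: there is an injective homomorphism from the symmetric group on 2n letters into the symplectic group of degree 2n − 2 over the field with two elements. -/
theorem result (n : ℕ) (hn : 3 ≤ n) : ∃ f : Equiv.Perm (Fin (2 * n)) →* Matrix.symplecticGroup (Fin (n - 1)) (ZMod 2), Function.Injective f := by
  classical
  have hall : ∀ s : ZMod 2, s + s = 0 := by decide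
  let S : (Fin (2 * n) → ZMod 2) →ₗ[ZMod 2] ZMod 2 := Fintype.linearCombination (ZMod 2) (fun _ : Fin (2 * n) => (1 : ZMod 2))
  have hSa : ∀ v, S v = ∑ i, v i := fun v => by simp [S, Fintype.linearCombination_apply]
  set E := LinearMap.ker S
  have hone : (fun _ => 1 : Fin (2 * n) → ZMod 2) ∈ E := by
    rw [LinearMap.mem_ker, hSa]; simp [show (2 : ZMod 2) = 0 from rfl]
  set one : E := ⟨fun _ => 1, hone⟩
  set V := E ⧸ Submodule.span (ZMod 2) {one}
  have hone0 : one ≠ 0 := fun h => one_ne_zero (congrFun (congrArg Subtype.val h) ⟨0, by omega⟩)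
  have hV : Module.finrank (ZMod 2) V = 2 * (n - 1) := by
    have h1 := S.finrank_range_add_finrank_ker
    have hsurj : Function.Surjective S := fun c => ⟨Pi.single ⟨0, by omega⟩ c, by rw [hSa]; simp⟩
    rw [LinearMap.range_eq_top.2 hsurj, finrank_top, Module.finrank_self, Module.finrank_fin_fun] at h1
    change 1 + Module.finrank (ZMod 2) E = 2 * n at h1
    have h2 := Submodule.finrank_quotient_add_finrank (Submodule.span (ZMod 2) {one})
    rw [finrank_span_singleton hone0] at h2
    change Module.finrank (ZMod 2) V + 1 = _ at h2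
    omega
  let b0 : E →ₗ[ZMod 2] E →ₗ[ZMod 2] ZMod 2 := LinearMap.mk₂ (ZMod 2) (fun u v : E => ∑ i, u.1 i * v.1 i)
    (fun u u' v => by simp [add_mul, Finset.sum_add_distrib])
    (fun c u v => by simp [Finset.mul_sum, mul_assoc])
    (fun u v v' => by simp [mul_add, Finset.sum_add_distrib])
    (fun c u v => by simp [Finset.mul_sum, mul_left_comm])
  have hone1 : ∀ v : E, b0 one v = 0 := fun v => by
    show ∑ i, (1 : ZMod 2) * v.1 i = 0
    simp_rw [one_mul]; rw [← hSa]; exact v.2
  have hone2 : ∀ v : E, b0 v one = 0 := fun v => by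
    show ∑ i, v.1 i * (1 : ZMod 2) = 0
    simp_rw [mul_one]; rw [← hSa]; exact v.2
  have hle1 : Submodule.span (ZMod 2) {one} ≤ LinearMap.ker b0 :=
    (Submodule.span_singleton_le_iff_mem _ _).2 (LinearMap.ext hone1)
  let b1 : E →ₗ[ZMod 2] V →ₗ[ZMod 2] ZMod 2 :=
    { toFun := fun u => (Submodule.span (ZMod 2) {one}).liftQ (b0 u)
        ((Submodule.span_singleton_le_iff_mem _ _).2 (hone2 u))
      map_add' := fun u u' => Submodule.linearMap_qext _ (LinearMap.ext fun v => by simp)
      map_smul' := fun c u => Submodule.linearMap_qext _ (LinearMap.ext fun v => by simp) }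
  let B : LinearMap.BilinForm (ZMod 2) V := (Submodule.span (ZMod 2) {one}).liftQ b1
    ((Submodule.span_singleton_le_iff_mem _ _).2 (Submodule.linearMap_qext _ (LinearMap.ext hone1)))
  have hBa : ∀ u v : E, B (Submodule.Quotient.mk u) (Submodule.Quotient.mk v) = ∑ i, u.1 i * v.1 i :=
    fun u v => rfl
  have hA : B.IsAlt := by
    intro x
    obtain ⟨u, rfl⟩ := Submodule.Quotient.mk_surjective _ x
    rw [hBa]
    have : ∀ s : ZMod 2, s * s = s := by decide
    simp only [this]
    rw [← hSa]; exact u.2
  have hB : B.SeparatingLeft := by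
    intro x hx
    obtain ⟨u, rfl⟩ := Submodule.Quotient.mk_surjective _ x
    have hij : ∀ i, u.1 i = u.1 ⟨0, by omega⟩ := by
      intro i
      let v : E := ⟨Pi.single i 1 + Pi.single ⟨0, by omega⟩ 1, by
        rw [LinearMap.mem_ker, map_add, hSa, hSa]; simp [show (1 : ZMod 2) + 1 = 0 from rfl]⟩
      have h0 := hx (Submodule.Quotient.mk v)
      rw [hBa] at h0
      simp [v, mul_add, Finset.sum_add_distrib, Pi.single_apply] at h0
      calc u.1 i = u.1 i + (u.1 ⟨0, by omega⟩ + u.1 ⟨0, by omega⟩) := by rw [hall, add_zero]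
        _ = _ := by rw [← add_assoc, h0, zero_add]
    rw [Submodule.Quotient.mk_eq_zero, Submodule.mem_span_singleton]
    exact ⟨u.1 ⟨0, by omega⟩, Subtype.ext (funext fun i => by simp [one, hij i])⟩
  let P : Equiv.Perm (Fin (2 * n)) → (E →ₗ[ZMod 2] E) := fun σ =>
    LinearMap.codRestrict E ((LinearMap.funLeft (ZMod 2) (ZMod 2) σ.symm).comp E.subtype) fun v => by
      rw [LinearMap.mem_ker, hSa]
      have h := v.2
      rw [LinearMap.mem_ker, hSa] at h
      rw [← h]
      exact Equiv.sum_comp σ.symm v.1
  have hP : ∀ σ (v : E) i, (P σ v).1 i = v.1 (σ.symm i) := fun σ v i => rfl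
  have hPone : ∀ σ, Submodule.span (ZMod 2) {one} ≤ (Submodule.span (ZMod 2) {one}).comap (P σ) := fun σ =>
    (Submodule.span_singleton_le_iff_mem _ _).2 (by
      show P σ one ∈ _
      rw [show P σ one = one from Subtype.ext rfl]
      exact Submodule.mem_span_singleton_self one)
  let ρ : Equiv.Perm (Fin (2 * n)) →* Module.End (ZMod 2) V :=
    { toFun := fun σ => Submodule.mapQ _ _ (P σ) (hPone σ)
      map_one' := Submodule.linearMap_qext _ (LinearMap.ext fun v => by
        show Submodule.Quotient.mk (P 1 v) = Submodule.Quotient.mk v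
        rfl)
      map_mul' := fun σ τ => Submodule.linearMap_qext _ (LinearMap.ext fun v => by
        show Submodule.Quotient.mk (P (σ * τ) v) = Submodule.Quotient.mk (P σ (P τ v))
        rfl) }
  refine CfsgLib.Forms.exists_symp_hom hV B hA hB ρ (fun σ x y => ?_) ?_
  · obtain ⟨u, rfl⟩ := Submodule.Quotient.mk_surjective _ x
    obtain ⟨v, rfl⟩ := Submodule.Quotient.mk_surjective _ y
    show B (Submodule.Quotient.mk (P σ u)) (Submodule.Quotient.mk (P σ v)) = _
    rw [hBa, hBa]
    exact Equiv.sum_comp σ.symm fun i => u.1 i * v.1 i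
  · refine (injective_iff_map_eq_one ρ).2 fun σ hσ => Equiv.ext fun a => ?_
    by_contra hne
    change σ a ≠ a at hne
    obtain ⟨b, hb1, hb2⟩ : ∃ b, b ≠ a ∧ b ≠ σ a := by
      by_contra hall'
      push Not at hall'
      have : (Finset.univ : Finset (Fin (2 * n))) ⊆ {a, σ a} := fun b _ => by
        by_cases h : b = a
        · simp [h]
        · simp [hall' b h]
      have := (Finset.card_le_card this).trans Finset.card_le_two
      simp at this
      omega
    let v : E := ⟨Pi.single a 1 + Pi.single b 1, by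
      rw [LinearMap.mem_ker, map_add, hSa, hSa]; simp [show (1 : ZMod 2) + 1 = 0 from rfl]⟩
    have h1 : Submodule.Quotient.mk (P σ v) = (Submodule.Quotient.mk v : V) :=
      LinearMap.congr_fun hσ (Submodule.Quotient.mk v)
    rw [Submodule.Quotient.eq, Submodule.mem_span_singleton] at h1
    obtain ⟨c, hc⟩ := h1
    have hc' : ∀ i, c = v.1 (σ.symm i) - v.1 i := fun i => by
      have := congrFun (congrArg Subtype.val hc) i
      simpa [one, hP] using this
    have h2 := hc' (σ a)
    simp [v, Pi.single_apply, hne, hb1.symm, hb2.symm] at h2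
    -- a third point is fixed by the difference
    obtain ⟨i, hi1, hi2, hi3, hi4⟩ : ∃ i, i ≠ σ a ∧ i ≠ σ b ∧ i ≠ a ∧ i ≠ b := by
      by_contra hall'
      push Not at hall'
      have : (Finset.univ : Finset (Fin (2 * n))) ⊆ {σ a, σ b, a, b} := fun i _ => by
        simp only [Finset.mem_insert, Finset.mem_singleton]
        by_cases h1 : i = σ a
        · exact Or.inl h1
        by_cases h2 : i = σ b
        · exact Or.inr (Or.inl h2)
        by_cases h3 : i = a
        · exact Or.inr (Or.inr (Or.inl h3))
        exact Or.inr (Or.inr (Or.inr (hall' i h1 h2 h3)))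
      have := (Finset.card_le_card this).trans Finset.card_le_four
      simp at this
      omega
    have h3 := hc' i
    simp [v, Pi.single_apply, hi1, hi2, hi3, hi4, Equiv.symm_apply_eq] at h3
    rw [h3] at h2
    exact zero_ne_one h2

end Cfsg.Agent.S0826
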