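import Cfsg.Statements.S0830
import Cfsg.Agent.UGeom.Lines

set_option autoImplicit false
open Cfsg

namespace Cfsg.Agent.S0830

/-- The unitary quadrangle of PSU_5(q): with |F| = q², the number of 2-dimensional subspaces of F^5 on which the Hermitian form vanishes is (q³ + 1)(q⁵ + 1). -/
theorem result {F : Type*} [Field F] [Fintype F] {q : ℕ} (hF : Fintype.card F = q ^ 2) : Nat.card {W : Submodule F (Fin 5 → F) // Module.finrank F W = 2 ∧ ∀ u ∈ W, ∀ v ∈ W, Cfsg.hermForm 5 F q u v = 0} = (q ^ 3 + 1) * (q ^ 5 + 1) := by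
  obtain ⟨C⟩ := CfsgLib.UGeom.nonempty_conj hF
  have h := CfsgLib.UGeom.card_lines C 5
  have h0 := CfsgLib.UGeom.card_isotropic C 5
  rw [if_neg (by decide)] at h0
  have hq := C.two_le
  have h4 : 1 ≤ q ^ 4 := Nat.one_le_pow _ _ (by omega)
  rw [h0] at h
  push_cast [Nat.cast_sub h4] at h
  have hqz : (2 : ℤ) ≤ q := by exact_mod_cast hq
  have hne : (((q : ℤ) ^ 4 - 1) * ((q : ℤ) ^ 4 - (q : ℤ) ^ 2)) * q ≠ 0 := by
    have : (q : ℤ) ^ 2 < (q : ℤ) ^ 4 := by gcongr <;> omega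
    have : (1 : ℤ) < (q : ℤ) ^ 2 := by nlinarith
    refine mul_ne_zero (mul_ne_zero ?_ ?_) ?_ <;> omega
  apply Nat.cast_injective (R := ℤ)
  apply mul_right_cancel₀ hne
  push_cast
  linear_combination h

end Cfsg.Agent.S0830
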