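import Cfsg.Statements.S0831
import Cfsg.Agent.Forms.OmegaMatrix

set_option autoImplicit false
open Cfsg

namespace Cfsg.Agent.S0831

theorem std_max {F : Type*} [Field F] {m : ℕ} :
    CfsgLib.Forms.IsMaxSingular (CfsgLib.Forms.quadPlus F m)
      (LinearMap.ker (LinearMap.funLeft F F (Sum.inr : Fin m → Fin m ⊕ Fin m))) := by
  refine ⟨?_, fun u hu => ?_⟩
  · have hs : Function.Surjective (LinearMap.funLeft F F (Sum.inr : Fin m → Fin m ⊕ Fin m)) := fun w =>
      ⟨Sum.elim 0 w, funext fun i => rfl⟩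
    have := LinearMap.finrank_range_add_finrank_ker (LinearMap.funLeft F F (Sum.inr : Fin m → Fin m ⊕ Fin m))
    rw [LinearMap.range_eq_top.2 hs, finrank_top] at this
    simp at this ⊢
    omega
  · have : ∀ i, u (Sum.inr i) = 0 := fun i => congrFun (LinearMap.mem_ker.1 hu) i
    simp [Cfsg.quadFormPlus, this]

/-- The two families of maximal totally singular subspaces of the hyperbolic quadric: for the form Σ x_i y_i on F^(2m), m ≥ 1, and m-dimensional subspaces U, W, X on which it vanishes, the parities of m − dim(U ∩ W), m − dim(W ∩ X) and m − dim(U ∩ X) sum to an even number (so 'even codimension of the intersection' is an equivalence relation), and there exist two such subspaces meeting in codimension 1 (so there are exactly two classes). -/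
theorem result {F : Type*} [Field F] (m : ℕ) (hm : 1 ≤ m) : (∀ U W X : Submodule F (Fin m ⊕ Fin m → F), (Module.finrank F U = m ∧ ∀ w ∈ U, Cfsg.quadFormPlus m F w = 0) → (Module.finrank F W = m ∧ ∀ w ∈ W, Cfsg.quadFormPlus m F w = 0) → (Module.finrank F X = m ∧ ∀ w ∈ X, Cfsg.quadFormPlus m F w = 0) → Even ((m - Module.finrank F ↥(U ⊓ W)) + (m - Module.finrank F ↥(W ⊓ X)) + (m - Module.finrank F ↥(U ⊓ X)))) ∧ ∃ U W : Submodule F (Fin m ⊕ Fin m → F), (Module.finrank F U = m ∧ ∀ w ∈ U, Cfsg.quadFormPlus m F w = 0) ∧ (Module.finrank F W = m ∧ ∀ w ∈ W, Cfsg.quadFormPlus m F w = 0) ∧ Module.finrank F ↥(U ⊓ W) + 1 = m := by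
  refine ⟨fun U W X hU hW hX => ?_, ?_⟩
  · have hQ := CfsgLib.Forms.nondegenerate_quadPlus (F := F) m
    have hmax : ∀ {A : Submodule F (Fin m ⊕ Fin m → F)},
        (Module.finrank F A = m ∧ ∀ w ∈ A, Cfsg.quadFormPlus m F w = 0) →
          CfsgLib.Forms.IsMaxSingular (CfsgLib.Forms.quadPlus F m) A := fun {A} hA =>
      ⟨by simp [hA.1]; ring, by simpa using hA.2⟩
    have h1 : Module.finrank F ↥(W ⊓ X) ≤ m := (Submodule.finrank_mono inf_le_left).trans_eq hW.1
    have h2 : Module.finrank F ↥(U ⊓ W) ≤ m := (Submodule.finrank_mono inf_le_left).trans_eq hU.1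
    have h3 : Module.finrank F ↥(U ⊓ X) ≤ m := (Submodule.finrank_mono inf_le_left).trans_eq hU.1
    have := CfsgLib.Forms.finrank_inf_parity hQ (m - Module.finrank F ↥(W ⊓ X)) (hmax hU) (hmax hW) (hmax hX)
      (by rw [hW.1]; omega)
    rw [Nat.even_iff]
    omega
  · set W := LinearMap.ker (LinearMap.funLeft F F (Sum.inr : Fin m → Fin m ⊕ Fin m))
    have hW := std_max (F := F) (m := m)
    let u : Fin m ⊕ Fin m → F := Pi.single (Sum.inl ⟨0, hm⟩) 1 + Pi.single (Sum.inr ⟨0, hm⟩) 1
    have hu : CfsgLib.Forms.quadPlus F m u ≠ 0 := by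
      have : CfsgLib.Forms.quadPlus F m u = 1 := by
        simp [u, Cfsg.quadFormPlus, Pi.single_apply]
      rw [this]; exact one_ne_zero
    have hW' := CfsgLib.Forms.map_isMaxSingular (CfsgLib.Forms.refl_mem_isom hu) hW
    have hdim : ∀ {A : Submodule F (Fin m ⊕ Fin m → F)}, CfsgLib.Forms.IsMaxSingular (CfsgLib.Forms.quadPlus F m) A →
        Module.finrank F A = m ∧ ∀ w ∈ A, Cfsg.quadFormPlus m F w = 0 := fun {A} hA => by
      refine ⟨?_, by simpa using hA.2⟩
      have := hA.1; simp at this; omega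
    refine ⟨W, _, hdim hW, hdim hW', ?_⟩
    rw [CfsgLib.Forms.finrank_inf_map_refl (CfsgLib.Forms.nondegenerate_quadPlus m) hW hu]
    exact (hdim hW).1

end Cfsg.Agent.S0831
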