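import Cfsg.Statements.S0832
import Cfsg.Agent.Forms.Standard
import Cfsg.Agent.Forms.Witt

set_option autoImplicit false
open Cfsg

namespace Cfsg.Agent.S0832

/-- For the form Σ x_i y_i on F^(2m) over a finite field, m ≥ 1: an (m−1)-dimensional subspace on which the form vanishes is contained in exactly two m-dimensional subspaces on which it vanishes. -/
theorem result {F : Type*} [Field F] [Finite F] (m : ℕ) (hm : 1 ≤ m) (U : Submodule F (Fin m ⊕ Fin m → F)) (hU : Module.finrank F U + 1 = m ∧ ∀ u ∈ U, Cfsg.quadFormPlus m F u = 0) : Nat.card {W : Submodule F (Fin m ⊕ Fin m → F) // Module.finrank F W = m ∧ (∀ w ∈ W, Cfsg.quadFormPlus m F w = 0) ∧ U ≤ W} = 2 := by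
  revert hU
  rw [← CfsgLib.Forms.coe_quadPlus F m]
  intro hU
  obtain ⟨hUd, hU0⟩ := hU
  set Q := CfsgLib.Forms.quadPlus F m
  have hQ := CfsgLib.Forms.nondegenerate_quadPlus (F := F) m
  have hdim : Module.finrank F (Fin m ⊕ Fin m → F) = 2 * m := by simp; omega
  -- a singular vector of `Uᗮ` outside `U`
  obtain ⟨S, hS, hSd⟩ : ∃ S : Submodule F (Fin m ⊕ Fin m → F), (∀ v ∈ S, Q v = 0) ∧ Module.finrank F S = m := by
    have h := CfsgLib.Forms.standard_pairs (F := F) m
    have hl : LinearIndependent F (fun i : Fin m => (Pi.single (Sum.inl i) (1 : F) : Fin m ⊕ Fin m → F)) :=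
      h.li.comp Sum.inl Sum.inl_injective
    refine ⟨Submodule.span F (Set.range fun i : Fin m => (Pi.single (Sum.inl i) (1 : F) : Fin m ⊕ Fin m → F)), fun v hv => ?_, by
      rw [finrank_span_eq_card hl, Fintype.card_fin]⟩
    obtain ⟨c, rfl⟩ := (Submodule.mem_span_range_iff_exists_fun F).1 hv
    simp [Q, Cfsg.quadFormPlus, Finset.sum_apply, Pi.single_apply]
  obtain ⟨j, hj⟩ : ∃ j : U →ₗ[F] S, Function.Injective j := by
    obtain ⟨T, hTS, hTd⟩ : ∃ T : Submodule F (Fin m ⊕ Fin m → F), T ≤ S ∧ Module.finrank F T = Module.finrank F U := by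
      obtain ⟨t, ht⟩ := exists_linearIndependent_of_le_finrank (R := F) (M := S) (n := Module.finrank F U) (by omega)
      refine ⟨Submodule.span F (Set.range fun i => ((t i : S) : Fin m ⊕ Fin m → F)), Submodule.span_le.2 (Set.range_subset_iff.2 fun i => (t i).2), ?_⟩
      rw [show (fun i => ((t i : S) : Fin m ⊕ Fin m → F)) = ⇑S.subtype ∘ t from rfl, finrank_span_eq_card (ht.map' S.subtype S.ker_subtype), Fintype.card_fin]
    exact ⟨Submodule.inclusion hTS ∘ₗ (LinearEquiv.ofFinrankEq U T hTd.symm : U →ₗ[F] T),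
      (Submodule.inclusion_injective hTS).comp (LinearEquiv.injective _)⟩
  obtain ⟨g, hg, hgU⟩ := CfsgLib.Forms.witt hQ U (S.subtype ∘ₗ j) (Subtype.val_injective.comp hj)
    (fun x => by rw [hU0 x x.2]; exact hS _ (j x).2)
  set W₀ := S.map (g.symm : (Fin m ⊕ Fin m → F) →ₗ[F] (Fin m ⊕ Fin m → F))
  have hUW : U ≤ W₀ := fun u hu => ⟨g u, by rw [hgU ⟨u, hu⟩]; exact (j ⟨u, hu⟩).2, g.symm_apply_apply u⟩
  have hW₀0 : ∀ w ∈ W₀, Q w = 0 := by
    rintro _ ⟨s, hs, rfl⟩
    rw [LinearEquiv.coe_coe, ← hg, g.apply_symm_apply]; exact hS s hs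
  have hW₀d : Module.finrank F W₀ = m := by rw [LinearEquiv.finrank_map_eq, hSd]
  obtain ⟨d, hdW, hdU⟩ : ∃ d ∈ W₀, d ∉ U := Set.not_subset.1 fun h => by
    have := Submodule.finrank_mono h; omega
  have hd : d ∈ CfsgLib.Forms.perp Q U := CfsgLib.Forms.mem_perp.2 fun u hu => by
    rw [QuadraticMap.polar, hW₀0 _ (add_mem hdW (hUW hu)), hW₀0 d hdW, hU0 u hu]; simp
  obtain ⟨f, hf, hf0, hdf⟩ := CfsgLib.Forms.exists_partner hQ hd (hW₀0 d hdW) hdU
  have hd0 := hW₀0 d hdW
  have horth : ∀ a ∈ U, ∀ b ∈ U, QuadraticMap.polar Q a b = 0 := fun a ha b hb => by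
    rw [QuadraticMap.polar, hU0 _ (add_mem ha hb), hU0 a ha, hU0 b hb]; simp
  have hQval : ∀ u ∈ U, ∀ a b : F, Q (u + a • d + b • f) = a * b := by
    intro u hu a b
    rw [CfsgLib.Forms.map_add_smul, CfsgLib.Forms.map_add_smul, QuadraticMap.polar_add_left,
      QuadraticMap.polar_smul_left, hd0, hf0, hdf, hU0 u hu, QuadraticMap.polar_comm Q u d,
      QuadraticMap.polar_comm Q u f, CfsgLib.Forms.mem_perp.1 hd u hu, CfsgLib.Forms.mem_perp.1 hf u hu]
    simp [mul_comm]
  -- `Uᗮ` is spanned by `U`, `d`, `f`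
  have hfU : ∀ a : F, f + a • d ∉ U := fun a h => by
    have := CfsgLib.Forms.mem_perp.1 hd _ h
    rw [QuadraticMap.polar_add_right, QuadraticMap.polar_smul_right, hdf, QuadraticMap.polar_self, hd0] at this
    simp at this
  set W₁ := U ⊔ Submodule.span F {d}
  set W₂ := U ⊔ Submodule.span F {f}
  have hfd : ∀ {z : Fin m ⊕ Fin m → F}, z ∉ U → Module.finrank F ↥(U ⊔ Submodule.span F {z}) = m := by
    intro z hz
    rw [Submodule.finrank_sup_span_singleton hz, hUd]
  have hW₁ : Module.finrank F W₁ = m := hfd hdU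
  have hfU' : f ∉ U := by simpa using hfU 0
  have hW₂ : Module.finrank F W₂ = m := hfd hfU'
  have hspan : CfsgLib.Forms.perp Q U = W₁ ⊔ Submodule.span F {f} := by
    have hle : W₁ ⊔ Submodule.span F {f} ≤ CfsgLib.Forms.perp Q U :=
      sup_le (sup_le (fun u hu => CfsgLib.Forms.mem_perp.2 fun z hz => horth u hu z hz)
        (by simpa using hd)) (by simpa using hf)
    refine (Submodule.eq_of_le_of_finrank_le hle ?_).symm
    have hf1 : f ∉ W₁ := fun h => by
      obtain ⟨u, hu, z, hz, e⟩ := Submodule.mem_sup.1 h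
      obtain ⟨a, rfl⟩ := Submodule.mem_span_singleton.1 hz
      refine hfU (-a) ?_
      rw [← e, neg_smul, add_neg_cancel_right]; exact hu
    rw [CfsgLib.Forms.finrank_perp hQ, Submodule.finrank_sup_span_singleton hf1, hW₁, hdim]
    omega
  have key : {W : Submodule F (Fin m ⊕ Fin m → F) | Module.finrank F W = m ∧ (∀ w ∈ W, Q w = 0) ∧ U ≤ W} = {W₁, W₂} := by
    ext W
    constructor
    · rintro ⟨hWd, hW0, hle⟩
      obtain ⟨w, hwW, hwU⟩ : ∃ w ∈ W, w ∉ U := Set.not_subset.1 fun h => by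
        have := Submodule.finrank_mono h; omega
      have hw : w ∈ CfsgLib.Forms.perp Q U := CfsgLib.Forms.mem_perp.2 fun u hu => by
        rw [QuadraticMap.polar, hW0 _ (add_mem hwW (hle hu)), hW0 w hwW, hU0 u hu]; simp
      rw [hspan] at hw
      obtain ⟨p, hp, q, hq, rfl⟩ := Submodule.mem_sup.1 hw
      obtain ⟨u, hu, r, hr, rfl⟩ := Submodule.mem_sup.1 hp
      obtain ⟨a, rfl⟩ := Submodule.mem_span_singleton.1 hr
      obtain ⟨b, rfl⟩ := Submodule.mem_span_singleton.1 hq
      have h0 := hW0 _ hwW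
      rw [hQval u hu] at h0
      rcases mul_eq_zero.1 h0 with ha | hb
      · refine Or.inr (Submodule.eq_of_le_of_finrank_le (sup_le hle ?_) (by rw [hWd, hW₂])).symm
        subst ha
        simp only [zero_smul, add_zero] at hwW hwU
        have hb0 : b ≠ 0 := fun hb => hwU (by simpa [hb] using hu)
        have := W.smul_mem b⁻¹ (sub_mem hwW (hle hu))
        rw [add_sub_cancel_left, smul_smul, inv_mul_cancel₀ hb0, one_smul] at this
        simpa using this
      · refine Or.inl (Submodule.eq_of_le_of_finrank_le (sup_le hle ?_) (by rw [hWd, hW₁])).symm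
        subst hb
        simp only [zero_smul, add_zero] at hwW hwU
        have ha0 : a ≠ 0 := fun ha => hwU (by simpa [ha] using hu)
        have := W.smul_mem a⁻¹ (sub_mem hwW (hle hu))
        rw [add_sub_cancel_left, smul_smul, inv_mul_cancel₀ ha0, one_smul] at this
        simpa using this
    · rintro (rfl | rfl)
      · refine ⟨hW₁, fun w hw => ?_, le_sup_left⟩
        obtain ⟨u, hu, r, hr, rfl⟩ := Submodule.mem_sup.1 hw
        obtain ⟨a, rfl⟩ := Submodule.mem_span_singleton.1 hr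
        simpa using hQval u hu a 0
      · refine ⟨hW₂, fun w hw => ?_, le_sup_left⟩
        obtain ⟨u, hu, r, hr, rfl⟩ := Submodule.mem_sup.1 hw
        obtain ⟨a, rfl⟩ := Submodule.mem_span_singleton.1 hr
        simpa using hQval u hu 0 a
  have hne : W₁ ≠ W₂ := fun h => by
    have hdf' : f ∈ W₁ := h ▸ Submodule.mem_sup_right (Submodule.mem_span_singleton_self f)
    obtain ⟨u, hu, r, hr, e⟩ := Submodule.mem_sup.1 hdf'
    obtain ⟨a, rfl⟩ := Submodule.mem_span_singleton.1 hr
    refine hfU (-a) ?_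
    rw [← e, neg_smul, add_neg_cancel_right]; exact hu
  exact (congrArg (fun s : Set (Submodule F (Fin m ⊕ Fin m → F)) => Nat.card s) key).trans
    ((Nat.card_coe_set_eq _).trans (Set.ncard_pair hne))

end Cfsg.Agent.S0832
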