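import Cfsg.Statements.S0833
import Cfsg.Agent.Forms.SympEmbed

set_option autoImplicit false
open Cfsg
open scoped TensorProduct

namespace Cfsg.Agent.S0833

/-- If B₁, B₂ are non-degenerate alternating forms on U (dim 2k) and W (dim 2l), then B₁ ⊗ B₂ on U ⊗ W is symmetric, non-degenerate, and vanishes identically on some subspace of dimension 2kl (half of dim U ⊗ W). -/
theorem result {F U W : Type*} [Field F] [Fintype F] [AddCommGroup U] [Module F U] [FiniteDimensional F U] [AddCommGroup W] [Module F W] [FiniteDimensional F W] (B₁ : LinearMap.BilinForm F U) (B₂ : LinearMap.BilinForm F W) (h₁ : B₁.Nondegenerate) (h₂ : B₂.Nondegenerate) (hA₁ : B₁.IsAlt) (hA₂ : B₂.IsAlt) (k l : ℕ) (hU : Module.finrank F U = 2 * k) (hW : Module.finrank F W = 2 * l) : (B₁.tmul B₂).IsSymm ∧ (B₁.tmul B₂).Nondegenerate ∧ (∃ X : Submodule F (TensorProduct F U W), Module.finrank F X = 2 * k * l ∧ ∀ x ∈ X, ∀ y ∈ X, (B₁.tmul B₂) x y = 0) := by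
  have hsymm : (B₁.tmul B₂).IsSymm := by
    refine ⟨fun x y => ?_⟩
    have hflip : LinearMap.flip (B₁.tmul B₂) = B₁.tmul B₂ := by
      refine TensorProduct.ext' fun a b => TensorProduct.ext' fun c d => ?_
      simp only [LinearMap.flip_apply, LinearMap.BilinForm.tmul, LinearMap.BilinForm.tensorDistrib_tmul]
      rw [← LinearMap.IsAlt.neg hA₁ a c, ← LinearMap.IsAlt.neg hA₂ b d]
      simp
    conv_lhs => rw [← hflip]
    rfl
  classical
  let bU := Module.finBasisOfFinrankEq F U hU
  let bW := Module.finBasisOfFinrankEq F W hW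
  have hnd : (B₁.tmul B₂).Nondegenerate := by
    refine (LinearMap.BilinForm.nondegenerate_iff_det_ne_zero (bU.tensorProduct bW)).2 ?_
    have : LinearMap.BilinForm.toMatrix (bU.tensorProduct bW) (B₁.tmul B₂) =
        Matrix.kroneckerMap (· * ·) (LinearMap.BilinForm.toMatrix bU B₁) (LinearMap.BilinForm.toMatrix bW B₂) := by
      ext ⟨i, j⟩ ⟨i', j'⟩
      simp [LinearMap.BilinForm.tmul, mul_comm]
    rw [this, Matrix.det_kronecker]
    exact mul_ne_zero (pow_ne_zero _ ((LinearMap.BilinForm.nondegenerate_iff_det_ne_zero bU).1 h₁))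
      (pow_ne_zero _ ((LinearMap.BilinForm.nondegenerate_iff_det_ne_zero bW).1 h₂))
  refine ⟨hsymm, hnd, ?_⟩
  obtain ⟨g, hg⟩ := CfsgLib.Forms.exists_symp_coord hU B₁ hA₁ h₁.1
  let a : Fin k → U := fun i => g.symm (Pi.single (Sum.inl i) 1)
  have ha0 : ∀ i j, B₁ (a i) (a j) = 0 := fun i j => by
    rw [← hg, g.apply_symm_apply, g.apply_symm_apply, CfsgLib.SpGeom.form_single_inl_right]
    simp
  let bU' : Module.Basis (Fin k ⊕ Fin k) F U := (Pi.basisFun F (Fin k ⊕ Fin k)).map g.symm
  have haU : ∀ i, bU' (Sum.inl i) = a i := fun i => by simp [bU', a]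
  let z : Fin k × Fin (2 * l) → TensorProduct F U W := fun p => a p.1 ⊗ₜ[F] bW p.2
  have hli : LinearIndependent F z := by
    have := (bU'.tensorProduct bW).linearIndependent.comp (fun p : Fin k × Fin (2 * l) => (Sum.inl p.1, p.2))
      (fun p p' h => by simpa [Prod.ext_iff] using h)
    have hz : z = ⇑(bU'.tensorProduct bW) ∘ fun p => (Sum.inl p.1, p.2) := by
      funext p
      simp [z, ← haU]
    rw [hz]
    exact this
  refine ⟨Submodule.span F (Set.range z), ?_, fun x hx y hy => ?_⟩
  · rw [finrank_span_eq_card hli, Fintype.card_prod, Fintype.card_fin, Fintype.card_fin]; ring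
  · induction hx using Submodule.span_induction with
    | mem x hx =>
      induction hy using Submodule.span_induction with
      | mem y hy =>
        obtain ⟨p, rfl⟩ := hx
        obtain ⟨p', rfl⟩ := hy
        simp [z, LinearMap.BilinForm.tmul, ha0]
      | zero => simp
      | add _ _ _ _ h h' => rw [map_add, h, h', add_zero]
      | smul c _ _ h => rw [map_smul, h, smul_zero]
    | zero => simp
    | add _ _ _ _ h h' => rw [map_add, LinearMap.add_apply, h, h', add_zero]
    | smul c _ _ h => rw [map_smul, LinearMap.smul_apply, h, smul_zero]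

end Cfsg.Agent.S0833
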