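import Cfsg.Statements.S0834
import Cfsg.Agent.Forms.TypeDisc

set_option autoImplicit false
open Cfsg

namespace Cfsg.Agent.S0834

/-- Over a finite field with 2 ≠ 0: if B₁ on U (dim 2k, k ≥ 1) and B₂ on W (dim 2l, l ≥ 1) are non-degenerate symmetric forms admitting no totally isotropic subspaces of dimensions k, resp. l (minus type), then B₁ ⊗ B₂ admits a totally isotropic subspace of dimension 2kl (plus type). -/
theorem result {F U W : Type*} [Field F] [Fintype F] [AddCommGroup U] [Module F U] [FiniteDimensional F U] [AddCommGroup W] [Module F W] [FiniteDimensional F W] (h2 : (2 : F) ≠ 0) (B₁ : LinearMap.BilinForm F U) (B₂ : LinearMap.BilinForm F W) (h₁ : B₁.Nondegenerate) (h₂ : B₂.Nondegenerate) (hS₁ : B₁.IsSymm) (hS₂ : B₂.IsSymm) (k l : ℕ) (hk : 1 ≤ k) (hl : 1 ≤ l) (hU : Module.finrank F U = 2 * k) (hW : Module.finrank F W = 2 * l) (hm₁ : ¬ (∃ X : Submodule F (U), Module.finrank F X = k ∧ ∀ x ∈ X, ∀ y ∈ X, (B₁) x y = 0)) (hm₂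 : ¬ (∃ X : Submodule F (W), Module.finrank F X = l ∧ ∀ x ∈ X, ∀ y ∈ X, (B₂) x y = 0)) : (∃ X : Submodule F (TensorProduct F U W), Module.finrank F X = 2 * k * l ∧ ∀ x ∈ X, ∀ y ∈ X, (B₁.tmul B₂) x y = 0) := by
  classical
  let bU := Module.finBasisOfFinrankEq F U hU
  let bW := Module.finBasisOfFinrankEq F W hW
  have hd := CfsgLib.Forms.det_toMatrix_tmul bU bW B₁ B₂
  rw [Fintype.card_fin, Fintype.card_fin] at hd
  have hnd : (B₁.tmul B₂).Nondegenerate := by
    refine (LinearMap.BilinForm.nondegenerate_iff_det_ne_zero (bU.tensorProduct bW)).2 ?_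
    rw [hd]
    exact mul_ne_zero (pow_ne_zero _ ((LinearMap.BilinForm.nondegenerate_iff_det_ne_zero bU).1 h₁))
      (pow_ne_zero _ ((LinearMap.BilinForm.nondegenerate_iff_det_ne_zero bW).1 h₂))
  refine (CfsgLib.Forms.exists_isotropic_half_iff h2 (show LinearMap.BilinForm.IsSymm (B₁.tmul B₂) from ⟨(CfsgLib.Forms.isSymm_tmul hS₁ hS₂).eq⟩) hnd
    (Nat.one_le_iff_ne_zero.2 (by positivity)) (by rw [Module.finrank_tensorProduct, hU, hW]; ring)
    (bU.tensorProduct bW)).2 ?_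
  rw [hd]
  refine IsSquare.mul ?_ (IsSquare.mul ?_ ?_)
  · exact ⟨(-1) ^ (k * l), by rw [← pow_add]; congr 1; ring⟩
  · exact ⟨(LinearMap.BilinForm.toMatrix bU B₁).det ^ l, by rw [← pow_add]; congr 1; ring⟩
  · exact ⟨(LinearMap.BilinForm.toMatrix bW B₂).det ^ k, by rw [← pow_add]; congr 1; ring⟩

end Cfsg.Agent.S0834
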