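import Cfsg.Statements.S0837
import Cfsg.Agent.UGeom.Basic
import Cfsg.Agent.S0755
import Cfsg.Agent.Forms.SplitStab
import Cfsg.Agent.Forms.Matrix

set_option autoImplicit false
open Cfsg

namespace Cfsg.Agent.S0837

/-- If W ≤ F^n (|F| = q²) is a k-dimensional subspace on which the Hermitian form Σ x_i y_i^q is non-degenerate, then the stabiliser of W in GU_n(q) is isomorphic to GU_k(q) × GU_(n−k)(q). -/
theorem result {F : Type*} [Field F] [Fintype F] {q : ℕ} (hF : Fintype.card F = q ^ 2) (n k : ℕ) (hk : k ≤ n) (W : Submodule F (Fin n → F)) (hWk : Module.finrank F W = k) (hW : ∀ u ∈ W, (∀ v ∈ W, Cfsg.hermForm n F q u v = 0) → u = 0) : Nonempty (↥((Cfsg.stabilizing (Cfsg.glToMat (Fin n) F) (W : Set (Fin n → F))).subgroupOf (Cfsg.GU n F q)) ≃* ↥(Cfsg.GU k F q) × ↥(Cfsg.GU (n - k) F q)) := by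
  classical
  obtain ⟨C⟩ := CfsgLib.UGeom.nonempty_conj hF
  have hq : q ≠ 0 := by have := C.two_le; omega
  let B : (Fin n → F) →ₗ[F] (Fin n → F) →ₛₗ[C.σ] F := LinearMap.mk₂'ₛₗ (RingHom.id F) C.σ
    (Cfsg.hermForm n F q)
    (fun u u' v => CfsgLib.UGeom.form_add_left u u' v) (fun c u v => CfsgLib.UGeom.form_smul_left c u v)
    (fun u v v' => CfsgLib.UGeom.form_add_right C u v v') (fun c u v => CfsgLib.UGeom.form_smul_right C c u v)
  have hB : ∀ u v, B u v = Cfsg.hermForm n F q u v := fun u v => rfl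
  -- orthonormal bases
  have hon : ∀ X : Submodule F (Fin n → F), (∀ u ∈ X, (∀ v ∈ X, Cfsg.hermForm n F q u v = 0) → u = 0) →
      ∃ b : Module.Basis (Fin (Module.finrank F X)) F X, ∀ i j,
        Cfsg.hermForm n F q (b i : Fin n → F) (b j) = if i = j then 1 else 0 := by
    intro X hX
    let B' : X →ₛₗ[C.σ] X →ₗ[F] F := LinearMap.mk₂'ₛₗ C.σ (RingHom.id F)
      (fun u v : X => Cfsg.hermForm n F q (v : Fin n → F) u)
      (fun u u' v => CfsgLib.UGeom.form_add_right C _ _ _) (fun c u v => CfsgLib.UGeom.form_smul_right C _ _ _)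
      (fun u v v' => CfsgLib.UGeom.form_add_left _ _ _) (fun c u v => CfsgLib.UGeom.form_smul_left _ _ _)
    have hB' : ∀ u v : X, B' u v = Cfsg.hermForm n F q (v : Fin n → F) u := fun u v => rfl
    have hS : B'.IsSymm := ⟨fun u v => by rw [hB', hB']; exact CfsgLib.UGeom.form_conj C _ _⟩
    have hN : B'.Nondegenerate := by
      constructor
      · intro u hu
        refine Subtype.ext (hX u u.2 fun v hv => ?_)
        have := congrArg C.σ (hu ⟨v, hv⟩)
        rwa [hB', map_zero, CfsgLib.UGeom.form_conj C] at this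
      · intro u hu
        exact Subtype.ext (hX u u.2 fun v hv => hu ⟨v, hv⟩)
    obtain ⟨b, hb⟩ := Cfsg.Agent.S0755.result C.σ C.ne_id C.invol B' hS hN
    exact ⟨b, fun i j => by rw [← hB', hb]; simp only [eq_comm]⟩
  obtain ⟨bW, hbW⟩ := hon W hW
  let w : Fin k → (Fin n → F) := fun i => (bW.reindex (finCongr hWk) i : Fin n → F)
  have hw : ∀ i j, Cfsg.hermForm n F q (w i) (w j) = if i = j then 1 else 0 := fun i j => by
    simp [w, hbW]
  let L : (Fin n → F) →ₗ[F] (Fin k → F) := LinearMap.pi fun i => B.flip (w i)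
  have hL : ∀ v i, L v i = Cfsg.hermForm n F q v (w i) := fun v i => rfl
  let T : (Fin k → F) →ₗ[F] (Fin n → F) := Fintype.linearCombination F w
  have hT : ∀ a, T a = ∑ i, a i • w i := fun a => by simp [T, Fintype.linearCombination_apply]
  have hLT : ∀ a, L (T a) = a := fun a => by
    funext i
    rw [hL, hT, ← hB, map_sum, LinearMap.sum_apply]
    simp [hB, CfsgLib.UGeom.form_smul_left, hw]
  set K := LinearMap.ker L
  have hTW : ∀ a, T a ∈ W := fun a => by
    rw [hT]; exact Submodule.sum_mem _ fun i _ => W.smul_mem _ (bW.reindex (finCongr hWk) i).2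
  have hKdim : Module.finrank F K = n - k := by
    have := L.finrank_range_add_finrank_ker
    rw [LinearMap.range_eq_top.2 (fun a => ⟨T a, hLT a⟩), finrank_top, Module.finrank_fin_fun,
      Module.finrank_fin_fun] at this
    change k + Module.finrank F K = n at this
    omega
  have hTK : ∀ a z, z ∈ K → Cfsg.hermForm n F q (T a) z = 0 := fun a z hz => by
    have hz' : ∀ i, Cfsg.hermForm n F q z (w i) = 0 := fun i => congrFun (LinearMap.mem_ker.1 hz) i
    rw [hT, ← hB, map_sum, LinearMap.sum_apply]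
    refine Finset.sum_eq_zero fun i _ => ?_
    rw [hB, CfsgLib.UGeom.form_smul_left, ← CfsgLib.UGeom.form_conj C, hz']
    simp
  have hKnd : ∀ u ∈ K, (∀ v ∈ K, Cfsg.hermForm n F q u v = 0) → u = 0 := by
    intro u hu h0
    refine CfsgLib.UGeom.ext_form C fun x => ?_
    rw [CfsgLib.UGeom.form_zero_left]
    have hx : x - T (L x) ∈ K := LinearMap.mem_ker.2 (by rw [map_sub, hLT, sub_self])
    have := h0 _ hx
    rwa [CfsgLib.UGeom.form_sub_right C, ← CfsgLib.UGeom.form_conj C (T (L x)) u, hTK _ u hu, map_zero,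
      sub_zero] at this
  obtain ⟨bK, hbK⟩ := hon K hKnd
  let z : Fin (n - k) → (Fin n → F) := fun i => (bK.reindex (finCongr hKdim) i : Fin n → F)
  have hz : ∀ i j, Cfsg.hermForm n F q (z i) (z j) = if i = j then 1 else 0 := fun i j => by
    simp [z, hbK]
  have hzK : ∀ i, z i ∈ K := fun i => (bK.reindex (finCongr hKdim) i).2
  let U : (Fin (n - k) → F) →ₗ[F] (Fin n → F) := Fintype.linearCombination F z
  have hU : ∀ a, U a = ∑ i, a i • z i := fun a => by simp [U, Fintype.linearCombination_apply]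
  have hUK : ∀ a, U a ∈ K := fun a => by
    rw [hU]; exact Submodule.sum_mem _ fun i _ => K.smul_mem _ (hzK i)
  let M : ((Fin k → F) × (Fin (n - k) → F)) →ₗ[F] (Fin n → F) := T.coprod U
  have hMf : ∀ x y, Cfsg.hermForm n F q (M x) (M y) =
      Cfsg.hermForm k F q x.1 y.1 + Cfsg.hermForm (n - k) F q x.2 y.2 := by
    intro x y
    have e1 : ∀ {j : ℕ} (v : Fin j → Fin n → F), (∀ a b, Cfsg.hermForm n F q (v a) (v b) = if a = b then 1 else 0) →
        ∀ a b : Fin j → F, Cfsg.hermForm n F q (∑ i, a i • v i) (∑ i, b i • v i) = Cfsg.hermForm j F q a b := by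
      intro j v hv a b
      rw [← hB, map_sum B, LinearMap.sum_apply, CfsgLib.UGeom.form_eq C]
      refine Finset.sum_congr rfl fun i _ => ?_
      rw [map_sum, Finset.sum_eq_single i]
      · rw [hB, CfsgLib.UGeom.form_smul_left, CfsgLib.UGeom.form_smul_right C, hv, if_pos rfl, mul_one]
      · intro l _ hl
        rw [hB, CfsgLib.UGeom.form_smul_left, CfsgLib.UGeom.form_smul_right C, hv, if_neg (Ne.symm hl)]; simp
      · simp
    show Cfsg.hermForm n F q (T x.1 + U x.2) (T y.1 + U y.2) = _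
    rw [CfsgLib.UGeom.form_add_left, CfsgLib.UGeom.form_add_right C, CfsgLib.UGeom.form_add_right C,
      hTK _ _ (hUK _), ← CfsgLib.UGeom.form_conj C (T y.1) (U x.2), hTK _ _ (hUK _), map_zero, add_zero,
      zero_add, hT, hT, hU, hU, e1 w hw, e1 z hz]
  have hMinj : Function.Injective M := by
    refine (injective_iff_map_eq_zero M).2 fun x hx => Prod.ext ?_ ?_
    · refine CfsgLib.UGeom.ext_form C fun a => ?_
      have := hMf x (a, 0)
      rw [hx, CfsgLib.UGeom.form_zero_left] at this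
      simpa [CfsgLib.UGeom.form_zero_right C, CfsgLib.UGeom.form_zero_left] using this.symm
    · refine CfsgLib.UGeom.ext_form C fun a => ?_
      have := hMf x (0, a)
      rw [hx, CfsgLib.UGeom.form_zero_left] at this
      simpa [CfsgLib.UGeom.form_zero_right C, CfsgLib.UGeom.form_zero_left] using this.symm
  let e := LinearEquiv.ofBijective M ⟨hMinj,
    (LinearMap.injective_iff_surjective_of_finrank_eq_finrank (by simp; omega)).1 hMinj⟩
  have htoR : ∀ (j : ℕ) (g : Cfsg.GU j F q) v, CfsgLib.Forms.glEquiv (g : Matrix.GeneralLinearGroup (Fin j) F) v =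
      ((g : Matrix.GeneralLinearGroup (Fin j) F) : Matrix (Fin j) (Fin j) F).mulVec v := fun j g v => by simp
  let toR : ∀ j : ℕ, ↥(Cfsg.GU j F q) →* ((Fin j → F) ≃ₗ[F] (Fin j → F)) := fun j =>
    CfsgLib.Forms.glEquiv.toMonoidHom.comp (Cfsg.GU j F q).subtype
  have hinj : ∀ j, Function.Injective (toR j) := fun j => CfsgLib.Forms.glEquiv.injective.comp Subtype.val_injective
  have hform : ∀ j (g : ↥(Cfsg.GU j F q)) u v,
      Cfsg.hermForm j F q (toR j g u) (toR j g v) = Cfsg.hermForm j F q u v := fun j g u v => by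
    show Cfsg.hermForm j F q (CfsgLib.Forms.glEquiv (g : Matrix.GeneralLinearGroup (Fin j) F) u) _ = _
    rw [htoR]; show Cfsg.hermForm j F q _ (CfsgLib.Forms.glEquiv (g : Matrix.GeneralLinearGroup (Fin j) F) v) = _
    rw [htoR]; exact g.2 u v
  have hsurj : ∀ j (g : (Fin j → F) ≃ₗ[F] (Fin j → F)),
      (∀ u v, Cfsg.hermForm j F q (g u) (g v) = Cfsg.hermForm j F q u v) → ∃ A, toR j A = g := fun j g hg =>
    ⟨⟨CfsgLib.Forms.glEquiv.symm g, fun u v => by
      have : ∀ v, (((CfsgLib.Forms.glEquiv.symm g : Matrix.GeneralLinearGroup (Fin j) F)) : Matrix (Fin j) (Fin j) F).mulVec v = g v :=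
        fun v => by rw [← CfsgLib.Forms.glEquiv_apply, MulEquiv.apply_symm_apply]
      show Cfsg.hermForm j F q ((CfsgLib.Forms.glEquiv.symm g : Matrix.GeneralLinearGroup (Fin j) F).val.mulVec u)
        ((CfsgLib.Forms.glEquiv.symm g : Matrix.GeneralLinearGroup (Fin j) F).val.mulVec v) = _
      rw [this, this, hg]⟩, CfsgLib.Forms.glEquiv.apply_symm_apply g⟩
  let S := (Cfsg.stabilizing (Cfsg.glToMat (Fin n) F) (W : Set (Fin n → F))).subgroupOf (Cfsg.GU n F q)
  refine CfsgLib.Forms.exists_stabilizer_prod (Cfsg.hermForm n F q) (Cfsg.hermForm k F q)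
    (Cfsg.hermForm (n - k) F q) e hMf CfsgLib.UGeom.form_zero_left (CfsgLib.UGeom.form_zero_right C)
    (CfsgLib.UGeom.form_zero_right C) (fun a ha => CfsgLib.UGeom.ext_form C fun x => by
      rw [ha, CfsgLib.UGeom.form_zero_left])
    (toR n) (hinj n) (hform n) (hsurj n) (toR k) (hinj k) (hform k) (hsurj k)
    (toR (n - k)) (hinj _) (hform _) (hsurj _) W ?_ S ?_
  · intro x
    show T x.1 + U x.2 ∈ W ↔ _
    rw [W.add_mem_iff_right (hTW _)]
    constructor
    · intro h
      have h0 : U x.2 = 0 := hW _ h fun v hv => by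
        have hv' : v = T ((bW.reindex (finCongr hWk)).repr ⟨v, hv⟩) := by
          conv_lhs => rw [show v = ((⟨v, hv⟩ : W) : Fin n → F) from rfl, ← (bW.reindex (finCongr hWk)).sum_repr ⟨v, hv⟩]
          rw [hT, Submodule.coe_sum]; simp [w]
        rw [hv', ← CfsgLib.UGeom.form_conj C, hTK _ _ (hUK _), map_zero]
      have : M (0, x.2) = 0 := by show T 0 + U x.2 = 0; rw [h0, map_zero, add_zero]
      exact congrArg Prod.snd (hMinj (this.trans (map_zero M).symm))
    · intro h; simp [h]
  · intro h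
    refine forall_congr' fun v => ?_
    show _ ↔ (v ∈ W ↔ CfsgLib.Forms.glEquiv (h : Matrix.GeneralLinearGroup (Fin n) F) v ∈ W)
    rw [htoR]
    rfl

end Cfsg.Agent.S0837
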