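import Cfsg.Statements.S0838
import Cfsg.Agent.Forms.Classify

set_option autoImplicit false
open Cfsg

namespace Cfsg.Agent.S0838

/-- Over a finite field with 2 ≠ 0 and n odd: two quadratic forms Q₁, Q₂ on F^n with non-degenerate polar forms are similar — there are an invertible linear map g and a scalar c ≠ 0 with Q₂ (g v) = c · Q₁ v for all v. -/
theorem result {F : Type*} [Field F] [Fintype F] (h2 : (2 : F) ≠ 0) {n : ℕ} (hn : Odd n) (Q₁ Q₂ : QuadraticForm F (Fin n → F)) (h₁ : (QuadraticMap.polarBilin Q₁).Nondegenerate) (h₂ : (QuadraticMap.polarBilin Q₂).Nondegenerate) : ∃ (g : (Fin n → F) ≃ₗ[F] (Fin n → F)) (c : F), c ≠ 0 ∧ ∀ v, Q₂ (g v) = c * Q₁ v := by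
  classical
  set e := Pi.basisFun F (Fin n)
  set D₁ := (CfsgLib.Forms.gram ⇑Q₁ ⇑e).det
  set D₂ := (CfsgLib.Forms.gram ⇑Q₂ ⇑e).det
  have hD₁ : D₁ ≠ 0 := CfsgLib.Forms.det_gram_ne_zero h₁ e
  have hD₂ : D₂ ≠ 0 := CfsgLib.Forms.det_gram_ne_zero h₂ e
  have hc : D₁ * D₂ ≠ 0 := mul_ne_zero hD₁ hD₂
  have hnd : (QuadraticMap.polarBilin ((D₁ * D₂) • Q₁)).Nondegenerate := by
    refine CfsgLib.Forms.nondegenerate_iff.2 fun x hx => CfsgLib.Forms.polar_ext h₁ fun y => ?_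
    have := hx y
    rw [QuadraticMap.coeFn_smul, QuadraticMap.polar_smul, smul_eq_mul, mul_eq_zero] at this
    exact this.resolve_left hc
  have hgram : CfsgLib.Forms.gram ⇑((D₁ * D₂) • Q₁) ⇑e = (D₁ * D₂) • CfsgLib.Forms.gram ⇑Q₁ ⇑e := by
    ext i j
    simp [CfsgLib.Forms.gram, QuadraticMap.polar_smul]
  obtain ⟨g, hg⟩ := CfsgLib.Forms.exists_isometry_of_isSquare h2 hnd h₂ e (by
    obtain ⟨k, hk⟩ := hn
    rw [hgram, Matrix.det_smul, Fintype.card_fin]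
    refine ⟨(D₁ * D₂) ^ (k + 1), ?_⟩
    show (D₁ * D₂) ^ n * D₁ * D₂ = _
    rw [hk]; ring)
  exact ⟨g, D₁ * D₂, hc, fun v => by rw [hg v]; simp⟩

end Cfsg.Agent.S0838
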