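import Cfsg.Statements.S0841
import Mathlib
-- import your own Cfsg.Agent.* helpers here

set_option autoImplicit false
open Cfsg

namespace Cfsg.Agent.S0841

/-- If the commutator subgroup of G lies in the centre, then for all x, y in G and every natural number n one has (x * y) ^ n = x ^ n * y ^ n * c ^ (n * (n - 1) / 2) with c = y⁻¹ * x⁻¹ * y * x. -/
theorem result {G : Type*} [Group G] (hG : commutator G ≤ Subgroup.center G) (x y : G) (n : ℕ) : (x * y) ^ n = x ^ n * y ^ n * (y⁻¹ * x⁻¹ * y * x) ^ (n * (n - 1) / 2) := by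
  set c := y⁻¹ * x⁻¹ * y * x with hc
  have hcc : ∀ g : G, g * c = c * g := by
    refine Subgroup.mem_center_iff.mp (hG ?_)
    have h := Subgroup.commutator_mem_commutator (Subgroup.mem_top y⁻¹) (Subgroup.mem_top x⁻¹)
    rw [commutatorElement_def, inv_inv, inv_inv] at h
    simpa [commutator_def, hc] using h
  have hyx : y * x = x * y * c := by simp [hc, mul_assoc]
  have hcp : ∀ (g : G) (m : ℕ), g * c ^ m = c ^ m * g := fun g m => ((Commute.pow_right (hcc g) m)).eq
  have key : ∀ m : ℕ, y ^ m * x = x * y ^ m * c ^ m := by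
    intro m
    induction m with
    | zero => simp
    | succ m ih =>
      calc y ^ (m+1) * x = y ^ m * (y * x) := by rw [pow_succ, mul_assoc]
        _ = (y ^ m * x) * y * c := by rw [hyx]; group
        _ = x * y ^ m * (c ^ m * y) * c := by rw [ih]; group
        _ = x * y ^ m * (y * c ^ m) * c := by rw [hcp y m]
        _ = x * y ^ (m+1) * c ^ (m+1) := by rw [pow_succ y, pow_succ c]; simp only [mul_assoc]
  induction n with
  | zero => simp
  | succ n ih =>
    have hT : (n+1) * (n+1-1) / 2 = n + n * (n-1) / 2 := by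
      rw [← Nat.choose_two_right, ← Nat.choose_two_right, Nat.choose_succ_succ' n 1, Nat.choose_one_right]
    rw [pow_succ, ih, hT]
    generalize n * (n-1) / 2 = T
    calc x ^ n * y ^ n * c ^ T * (x * y) = x ^ n * y ^ n * ((x * y) * c ^ T) := by
          rw [hcp (x*y) T]; simp only [mul_assoc]
      _ = x ^ n * (y ^ n * x) * y * c ^ T := by simp only [mul_assoc]
      _ = x ^ n * x * y ^ n * (c ^ n * y) * c ^ T := by rw [key n]; simp only [mul_assoc]
      _ = x ^ n * x * y ^ n * (y * c ^ n) * c ^ T := by rw [hcp y n]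
      _ = x ^ (n+1) * y ^ (n+1) * c ^ (n + T) := by
          rw [pow_succ x, pow_succ y, pow_add]; simp only [mul_assoc]

end Cfsg.Agent.S0841
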