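import Cfsg.Statements.S0845
import Cfsg.Agent.Exceptional.QuatChar

set_option autoImplicit false
open Cfsg

namespace Cfsg.Agent.S0845

/-- Suppose a Sylow 2-subgroup S of the finite group G is generalized quaternion of order at least 16. Then G has a normal subgroup M of even order such that G / M is non-abelian, that is, M does not contain the commutator subgroup of G. -/
theorem result {G : Type*} [Group G] [Finite G] (S : Sylow 2 G) (n : ℕ) (e : (S : Subgroup G) ≃* QuaternionGroup (2 ^ (n + 2))) : ∃ M : Subgroup G, M.Normal ∧ Even (Nat.card M) ∧ ¬ commutator G ≤ M := by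
  haveI := Fintype.ofFinite G
  obtain ⟨Q⟩ := CfsgLib.Exceptional.exists_quatData S n e
  obtain ⟨M, hM, hu, -, hc⟩ := Q.exists_kernel
  refine ⟨M, hM, ?_, hc⟩
  have ho : orderOf (Q.a ^ 2 ^ (n + 2)) = 2 := by
    rw [orderOf_pow_of_dvd (by positivity) (by rw [Q.orderOf_a, pow_succ _ (n + 2)]; exact dvd_mul_right _ _),
      Q.orderOf_a, pow_succ _ (n + 2), Nat.mul_div_cancel_left _ (by positivity)]
  rw [even_iff_two_dvd, ← ho]
  exact Subgroup.orderOf_dvd_natCard M (hu _ ho)

end Cfsg.Agent.S0845
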