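import Cfsg.Statements.S0846
import Cfsg.Agent.Exceptional.QuatChar

set_option autoImplicit false
open Cfsg

namespace Cfsg.Agent.S0846

/-- Suppose a Sylow 2-subgroup S of the finite group G is generalized quaternion of order at least 16. Then every Sylow 2-subgroup of the subgroup generated by the involutions of G is cyclic. -/
theorem result {G : Type*} [Group G] [Finite G] (S : Sylow 2 G) (n : ℕ) (e : (S : Subgroup G) ≃* QuaternionGroup (2 ^ (n + 2))) (Q : Sylow 2 ↥(Subgroup.closure {g : G | orderOf g = 2})) : IsCyclic Q := by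
  haveI := Fintype.ofFinite G
  haveI : Fact (Nat.Prime 2) := ⟨Nat.prime_two⟩
  obtain ⟨W⟩ := CfsgLib.Exceptional.exists_quatData S n e
  obtain ⟨M, hM, hu, hsp, -⟩ := W.exists_kernel
  obtain ⟨J, hJ⟩ : ∃ J : Subgroup G, J = Subgroup.closure {g : G | orderOf g = 2} := ⟨_, rfl⟩
  have hJM : J ≤ M := hJ ▸ (Subgroup.closure_le M).2 fun u hu' => hu u hu'
  revert Q
  rw [← hJ]
  intro Q
  obtain ⟨g, -, hg⟩ := CfsgLib.SylowConj.exists_conj_mem ⊤ S le_top ((Q : Subgroup J).map J.subtype)
    (Q.2.map _) le_top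
  let f : (Q : Subgroup J) →* Subgroup.zpowers W.a :=
    ((MulAut.conj g).toMonoidHom.comp (J.subtype.comp (Q : Subgroup J).subtype)).codRestrict _ fun x =>
      W.zpowers_of_mem_kernel hM hsp (hg _ ⟨_, x.2, rfl⟩) (hM.conj_mem _ (hJM (x : J).2) g)
  exact isCyclic_of_injective f fun x y hxy =>
    Subtype.ext (Subtype.ext ((MulAut.conj g).injective (congrArg Subtype.val hxy)))

end Cfsg.Agent.S0846
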