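import Cfsg.Statements.S0847
import Cfsg.Agent.Exceptional.QuatChar

set_option autoImplicit false
open Cfsg

namespace Cfsg.Agent.S0847

/-- The Brauer–Suzuki Theorem in the case of order at least 16: if a Sylow 2-subgroup S of the finite group G is generalized quaternion of order at least 16 and G has no nontrivial normal subgroup of odd order, then the centre of G has order 2. -/
theorem result {G : Type*} [Group G] [Finite G] (S : Sylow 2 G) (n : ℕ) (e : (S : Subgroup G) ≃* QuaternionGroup (2 ^ (n + 2))) (hO : ∀ N : Subgroup G, N.Normal → Odd (Nat.card N) → N = ⊥) : Nat.card (Subgroup.center G) = 2 := by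
  haveI := Fintype.ofFinite G
  haveI : Fact (Nat.Prime 2) := ⟨Nat.prime_two⟩
  obtain ⟨W⟩ := CfsgLib.Exceptional.exists_quatData S n e
  obtain ⟨M, hM, hu, hsp, -⟩ := W.exists_kernel
  haveI := hM
  have hS : ∀ R : Subgroup G, R.Normal → IsPGroup 2 R → R ≤ (S : Subgroup G) := by
    intro R hR hp x hx
    obtain ⟨g, -, hg⟩ := CfsgLib.SylowConj.exists_conj_mem ⊤ S le_top R hp le_top
    have := hg _ (hR.conj_mem x hx g⁻¹)
    simpa [mul_assoc] using this
  -- `M` is a 2-group
  obtain ⟨P⟩ := (inferInstance : Nonempty (Sylow 2 M))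
  have hP : IsCyclic P := by
    obtain ⟨g, -, hg⟩ := CfsgLib.SylowConj.exists_conj_mem ⊤ S le_top ((P : Subgroup M).map M.subtype)
      (P.2.map _) le_top
    let f : (P : Subgroup M) →* Subgroup.zpowers W.a :=
      ((MulAut.conj g).toMonoidHom.comp (M.subtype.comp (P : Subgroup M).subtype)).codRestrict _ fun x =>
        W.zpowers_of_mem_kernel hM hsp (hg _ ⟨_, x.2, rfl⟩) (hM.conj_mem _ (x : M).2 g)
    exact isCyclic_of_injective f fun x y hxy =>
      Subtype.ext (Subtype.ext ((MulAut.conj g).injective (congrArg Subtype.val hxy)))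
  obtain ⟨hodd, hc⟩ := CfsgLib.Exceptional.two_residual_of_isCyclic P hP
  have hbot : Cfsg.pResidual 2 M = ⊥ := by
    haveI := CfsgLib.Transfer.pResidual_characteristic (p := 2) (G := M)
    have h := hO ((Cfsg.pResidual 2 M).map M.subtype) inferInstance
      (by rw [Subgroup.card_map_of_injective (Subgroup.subtype_injective _)]; exact hodd)
    exact (Subgroup.map_eq_bot_iff_of_injective _ (Subgroup.subtype_injective _)).1 h
  have hM2 : IsPGroup 2 M := by
    obtain ⟨j, hj⟩ := P.2.exists_card_eq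
    refine IsPGroup.of_card (n := j) ?_
    rw [← hc.card_mul, hbot, Subgroup.card_bot, one_mul, hj]
  have hMa : ∀ x ∈ M, x ∈ Subgroup.zpowers W.a := fun x hx =>
    W.zpowers_of_mem_kernel hM hsp (hS M hM hM2 hx) hx
  set z := W.a ^ 2 ^ (n + 2) with hz
  have ho : orderOf z = 2 := by
    rw [hz, orderOf_pow_of_dvd (by positivity) (by rw [W.orderOf_a, pow_succ _ (n + 2)]; exact dvd_mul_right _ _),
      W.orderOf_a, pow_succ _ (n + 2), Nat.mul_div_cancel_left _ (by positivity)]
  have hinv : ∀ x ∈ Subgroup.zpowers W.a, x * x = 1 → x ∈ Subgroup.zpowers z := by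
    intro x hx hxx
    obtain ⟨i, rfl⟩ := Subgroup.mem_zpowers_iff.1 hx
    rw [← zpow_add, W.eq_one_iff, ← two_mul] at hxx
    push_cast at hxx
    rw [pow_succ', mul_dvd_mul_iff_left two_ne_zero] at hxx
    obtain ⟨r, hr⟩ := hxx
    exact Subgroup.mem_zpowers_iff.2 ⟨r, by rw [hr, zpow_mul, hz]; norm_cast⟩
  have hzc : z ∈ Subgroup.center G := by
    refine Subgroup.mem_center_iff.2 fun g => ?_
    have h1 : g * z * g⁻¹ ∈ M := hM.conj_mem _ (hu z ho) g
    have ho' : orderOf (g * z * g⁻¹) = 2 := by rw [← MulAut.conj_apply, MulEquiv.orderOf_eq, ho]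
    have h2 := hinv _ (hMa _ h1) (by rw [← pow_two, ← ho', pow_orderOf_eq_one])
    obtain ⟨i, hi⟩ := Subgroup.mem_zpowers_iff.1 h2
    rw [← zpow_mod_orderOf, ho] at hi
    rcases Int.emod_two_eq i with h | h <;> rw [show ((2 : ℕ) : ℤ) = 2 from rfl, h] at hi
    · rw [zpow_zero] at hi
      rw [← hi, orderOf_one] at ho'
      omega
    · rw [zpow_one] at hi
      conv_rhs => rw [hi]
      group
  have hzle : Subgroup.zpowers z ≤ Subgroup.center G := Subgroup.zpowers_le.2 hzc
  have hpz : IsPGroup 2 (Subgroup.center G) := by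
    rw [IsPGroup.iff_orderOf]
    intro x
    obtain ⟨a, b, hab, -, ⟨j, hj⟩, hb, -, hbx⟩ := CfsgLib.Transfer.exists_pPart_mul (p := 2) (x : G)
    have hbc : b ∈ Subgroup.center G := Subgroup.zpowers_le.2 x.2 hbx
    have hN : (Subgroup.zpowers b).Normal := ⟨fun y hy g => by
      have hyc : y ∈ Subgroup.center G := Subgroup.zpowers_le.2 hbc hy
      rwa [Subgroup.mem_center_iff.1 hyc g, mul_inv_cancel_right]⟩
    have hb1 := hO _ hN (by
      rw [Nat.card_zpowers, ← Nat.not_even_iff_odd, even_iff_two_dvd, ← Nat.Prime.coprime_iff_not_dvd Nat.prime_two]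
      exact hb.symm)
    rw [Subgroup.zpowers_eq_bot] at hb1
    exact ⟨j, by rw [← hj, ← Subgroup.orderOf_coe, hab, hb1, mul_one]⟩
  have heq : Subgroup.center G = Subgroup.zpowers z := by
    refine le_antisymm (fun x hx => ?_) hzle
    have hxS : x ∈ (S : Subgroup G) := hS _ inferInstance hpz hx
    have hxC : x ∈ W.C := Subgroup.mem_centralizer_iff.2 fun d _ => Subgroup.mem_center_iff.1 hx d
    have hxa : x ∈ Subgroup.zpowers W.a := W.S_inf_C.le ⟨hxS, hxC⟩
    refine hinv x hxa ?_
    obtain ⟨i, rfl⟩ := Subgroup.mem_zpowers_iff.1 hxa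
    have h := W.conj_zpow i
    rw [Subgroup.mem_center_iff.1 hx W.b, mul_inv_cancel_right, zpow_neg] at h
    nth_rewrite 1 [h]
    exact inv_mul_cancel _
  rw [heq, Nat.card_zpowers, ho]

end Cfsg.Agent.S0847
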