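import Cfsg.Statements.S0849
import Cfsg.Agent.Exceptional.TI

set_option autoImplicit false
open Cfsg

namespace Cfsg.Agent.S0849

/-- Let H be a subgroup of a finite group G and S a subset of H that is mapped to itself under conjugation by H, is disjoint from its conjugate by any element outside H, and is closed under inverses. Let φ be a class function of H vanishing on H away from S, and let u, v be involutions of G. Then the sum of the induced function of φ over all products a * b with a conjugate to u and b conjugate to v equals the index of H times the sum of φ (a * b) over such pairs with a and b in H. -/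
theorem result {G : Type*} [Group G] [Fintype G] (H : Subgroup G) (S : Set G) (hSH : S ⊆ H) (hHS : ∀ h ∈ H, ∀ s ∈ S, h * s * h⁻¹ ∈ S) (hTI : ∀ g : G, g ∉ H → ∀ s ∈ S, g * s * g⁻¹ ∉ S) (hinv : ∀ s ∈ S, s⁻¹ ∈ S) (φ : H → ℂ) (hφ : Cfsg.IsClassFunction H φ) (hφS : ∀ x : H, (x : G) ∉ S → φ x = 0) (u v : G) (hu : orderOf u = 2) (hv : orderOf v = 2) : ∑ᶠ p ∈ {p : G × G | IsConj u p.1 ∧ IsConj v p.2}, Cfsg.indFun H φ (p.1 * p.2) = (H.index : ℂ) * ∑ᶠ p ∈ {p : H × H | IsConj u (p.1 : G) ∧ IsConj v (p.2 : G)}, φ (p.1 * p.2) := by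
  classical
  haveI := Fintype.ofFinite H
  set P := Finset.univ.filter fun p : G × G => IsConj u p.1 ∧ IsConj v p.2 with hP
  have h1 : ∀ f : G × G → ℂ, ∑ᶠ p ∈ {p : G × G | IsConj u p.1 ∧ IsConj v p.2}, f p = ∑ p ∈ P, f p := by
    intro f
    rw [← finsum_mem_coe_finset]
    simp [hP]
  have h2 : ∀ f : H × H → ℂ, ∑ᶠ p ∈ {p : H × H | IsConj u (p.1 : G) ∧ IsConj v (p.2 : G)}, f p
      = ∑ p ∈ Finset.univ.filter (fun p : H × H => IsConj u (p.1 : G) ∧ IsConj v (p.2 : G)), f p := by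
    intro f
    rw [← finsum_mem_coe_finset]
    simp
  rw [h1, h2]
  simp only [Cfsg.indFun]
  rw [← Finset.mul_sum, Finset.sum_comm]
  have key : ∀ x : G, ∑ p ∈ P, Cfsg.extendByZero H φ (x⁻¹ * (p.1 * p.2) * x)
      = ∑ p ∈ P, Cfsg.extendByZero H φ (p.1 * p.2) := by
    intro x
    have hiff : ∀ w a : G, IsConj w (x⁻¹ * a * x) ↔ IsConj w a := fun w a => by
      have hc : IsConj a (x⁻¹ * a * x) := isConj_iff.2 ⟨x⁻¹, by simp⟩
      exact ⟨fun h => h.trans hc.symm, fun h => h.trans hc⟩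
    refine Finset.sum_equiv (((MulAut.conj x⁻¹).toEquiv).prodCongr (MulAut.conj x⁻¹).toEquiv)
      (fun p => ?_) (fun p _ => ?_)
    · simp [hP, hiff, -isConj_iff]
    · simp [mul_assoc]
  rw [Finset.sum_congr rfl (fun x _ => key x), Finset.sum_const, Finset.card_univ, nsmul_eq_mul, ← mul_assoc]
  have hcoef : (Nat.card H : ℂ)⁻¹ * (Fintype.card G : ℂ) = (H.index : ℂ) := by
    rw [← Nat.card_eq_fintype_card, ← H.card_mul_index, Nat.cast_mul,
      inv_mul_cancel_left₀ (Nat.cast_ne_zero.mpr Nat.card_pos.ne')]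
  rw [hcoef]
  congr 1
  symm
  refine Finset.sum_bij_ne_zero (fun p _ _ => ((p.1 : G), (p.2 : G))) (fun p hp _ => by simpa [hP] using hp)
    (fun p _ _ q _ _ h => Prod.ext (Subtype.ext (congrArg Prod.fst h)) (Subtype.ext (congrArg Prod.snd h)))
    (fun p hp hne => ?_) (fun p _ _ => (CfsgLib.CharBasics.extendByZero_coe H φ (p.1 * p.2)).symm)
  have hS : p.1 * p.2 ∈ S := not_not.1 fun h =>
    hne (CfsgLib.Exceptional.extendByZero_eq_zero_of_not_mem_supp hφS h)
  simp only [hP, Finset.mem_filter, Finset.mem_univ, true_and] at hp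
  have inv1 : ∀ w a : G, orderOf w = 2 → IsConj w a → a * a = 1 := fun w a hw h => by
    obtain ⟨c, rfl⟩ := isConj_iff.1 h
    rw [← pow_two, conj_pow, ← hw, pow_orderOf_eq_one]; group
  have haa := inv1 u p.1 hu hp.1
  have hbb := inv1 v p.2 hv hp.2
  have haH : p.1 ∈ H := by
    by_contra hn
    refine hTI p.1 hn _ hS ?_
    convert hinv _ hS using 1
    rw [mul_inv_rev, inv_eq_of_mul_eq_one_right haa, inv_eq_of_mul_eq_one_right hbb, ← mul_assoc, haa, one_mul]
  have hbH : p.2 ∈ H := by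
    have := mul_mem haH (hSH hS)
    rwa [← mul_assoc, haa, one_mul] at this
  refine ⟨(⟨p.1, haH⟩, ⟨p.2, hbH⟩), by simpa using hp, ?_, rfl⟩
  rwa [← CfsgLib.CharBasics.extendByZero_coe H φ (⟨p.1, haH⟩ * ⟨p.2, hbH⟩)]

end Cfsg.Agent.S0849
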