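import Cfsg.Statements.S0850
import Mathlib
import Cfsg.Agent.IndFun.Basic

set_option autoImplicit false
open Cfsg

namespace Cfsg.Agent.S0850

/-- Let K be a subgroup of the finite group G that meets each conjugate by an element outside its normalizer N trivially, is properly contained in N, and contains the centralizer of each of its non-identity elements (a T.I. subgroup with Frobenius normalizer). Then no element of N outside K is conjugate in G to an element of K, and for every class function ϑ of N that vanishes on N away from K and at the identity, the function induced from ϑ to G agrees with ϑ on all of N. -/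
theorem result {G : Type*} [Group G] [Fintype G] (K : Subgroup G) (hTI : ∀ g : G, g ∉ Subgroup.normalizer (K : Set G) → ∀ k ∈ K, g * k * g⁻¹ ∈ K → k = 1) (hlt : K < Subgroup.normalizer (K : Set G)) (hC : ∀ k ∈ K, k ≠ 1 → Subgroup.centralizer ({k} : Set G) ≤ K) : (∀ x ∈ Subgroup.normalizer (K : Set G), x ∉ K → ∀ g : G, g * x * g⁻¹ ∉ K) ∧ ∀ (ϑ : Subgroup.normalizer (K : Set G) → ℂ), Cfsg.IsClassFunction (Subgroup.normalizer (K : Set G)) ϑ → (∀ x : Subgroup.normalizer (K : Set G), (x : G) ∉ K → ϑ x = 0) → ϑ 1 = 0 → ∀ x : Subgroup.normalizer (K : Set G), Cfsg.indFun (Subgroup.normalizer (K : Set G)) ϑ x = ϑ x := by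
  classical
  set N := Subgroup.normalizer (K : Set G) with hN
  have hKN : K ≤ N := Subgroup.le_normalizer
  have hpart : ∀ x ∈ N, x ∉ K → ∀ g : G, g * x * g⁻¹ ∉ K := by
    intro x hxN hxK g hgK
    have hord : orderOf x ∣ Nat.card K := by
      rw [← MulEquiv.orderOf_eq (MulAut.conj g) x, MulAut.conj_apply, ← Subgroup.orderOf_mk (g * x * g⁻¹) hgK]
      exact orderOf_dvd_natCard _
    have hcop : Nat.Coprime (Nat.card K) (K.subgroupOf N).index := by
      refine Nat.coprime_of_dvd fun r hr hrK hrI => ?_
      have := Fact.mk hr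
      obtain ⟨R⟩ : Nonempty (Sylow r N) := inferInstance
      have hKn : (K.subgroupOf N).Normal := Subgroup.normal_in_normalizer
      have hK' : r ∣ Nat.card (K.subgroupOf N) := by
        rwa [Nat.card_congr (Subgroup.subgroupOfEquivOfLe hKN).toEquiv]
      letI : MulAction (R : Subgroup N) (K.subgroupOf N) :=
        MulAction.compHom _ ((MulAut.conjNormal : N →* MulAut (K.subgroupOf N)).comp (R : Subgroup N).subtype)
      obtain ⟨k, hkfix, hk1⟩ := R.isPGroup'.exists_fixed_point_of_prime_dvd_card_of_fixed_point (K.subgroupOf N) hK'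
        (a := 1) (fun y => map_one (MulAut.conjNormal (y : N)))
      have hle : (R : Subgroup N) ≤ K.subgroupOf N := by
        intro y hy
        refine Subgroup.mem_subgroupOf.mpr (hC ((k : N) : G) k.2 ?_ ?_)
        · intro h
          exact hk1 (Subtype.ext (Subtype.ext h.symm))
        · rw [Subgroup.mem_centralizer_iff]
          simp only [Set.mem_singleton_iff, forall_eq]
          have h := congrArg (fun w : K.subgroupOf N => ((w : N) : G)) (hkfix ⟨y, hy⟩)
          exact (mul_inv_eq_iff_eq_mul.mp h).symm
      exact R.not_dvd_index (hrI.trans (Subgroup.index_dvd_of_le hle))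
    have hKn : (K.subgroupOf N).Normal := Subgroup.normal_in_normalizer
    have h2 : orderOf (QuotientGroup.mk' (K.subgroupOf N) (⟨x, hxN⟩ : N)) = 1 := by
      apply Nat.eq_one_of_dvd_coprimes hcop
      · refine dvd_trans (orderOf_map_dvd _ _) ?_
        rwa [Subgroup.orderOf_mk]
      · exact orderOf_dvd_natCard _
    rw [orderOf_eq_one_iff, QuotientGroup.mk'_apply, QuotientGroup.eq_one_iff] at h2
    exact hxK h2
  refine ⟨hpart, fun ϑ hcl hoff h1 x => ?_⟩
  by_cases hx1 : x = 1
  · subst hx1
    rw [Subgroup.coe_one, CfsgLib.IndFun.indFun_one_apply, h1, mul_zero]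
  rw [Cfsg.indFun]
  have key : ∀ y : G, Cfsg.extendByZero N ϑ (y⁻¹ * x * y) = if y ∈ N then ϑ x else 0 := by
    intro y
    by_cases hy : y ∈ N
    · rw [if_pos hy, CfsgLib.IndFun.extendByZero_mem ϑ (N.mul_mem (N.mul_mem (N.inv_mem hy) x.2) hy)]
      have := hcl x ⟨y⁻¹, N.inv_mem hy⟩
      rw [← this]
      congr 1
      ext; simp
    · rw [if_neg hy]
      by_cases hm : y⁻¹ * x * y ∈ N
      · rw [CfsgLib.IndFun.extendByZero_mem ϑ hm]
        refine hoff _ fun hk => ?_
        change y⁻¹ * x * y ∈ K at hk
        by_cases hxK : (x : G) ∈ K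
        · refine hx1 (Subtype.ext ?_)
          exact hTI y⁻¹ (fun h => hy (by simpa using N.inv_mem h)) x hxK (by simpa using hk)
        · exact hpart x x.2 hxK y⁻¹ (by simpa using hk)
      · exact CfsgLib.IndFun.extendByZero_not_mem ϑ hm
  rw [Finset.sum_congr rfl (fun y _ => key y), ← Finset.sum_filter, Finset.sum_const, nsmul_eq_mul]
  have hc : (Finset.univ.filter fun y : G => y ∈ N).card = Nat.card N := by
    rw [← Fintype.card_subtype, ← Nat.card_eq_fintype_card]
  rw [hc, inv_mul_cancel_left₀]
  exact Nat.cast_ne_zero.mpr Nat.card_pos.ne'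

end Cfsg.Agent.S0850
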