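import Cfsg.Statements.S0852
import Cfsg.Agent.Exceptional.CoherentTI
import Cfsg.Agent.Exceptional.Coherent

set_option autoImplicit false
open Cfsg

namespace Cfsg.Agent.S0852

/-- Let K be a subgroup of the finite group G that meets each conjugate by an element outside its normalizer N trivially, is properly contained in N, and contains the centralizer of each of its non-identity elements (a T.I. subgroup with Frobenius normalizer). Let S be the set of irreducible characters of N taking at some element of K a value different from their degree, suppose S has at least two members, and let star be a linear isometry on the integer span of S into the generalized characters of G that agrees with induction on the members vanishing at the identity (so S is coherent, with star as the extending isometry). Then an irreducible character ψ of G is of the form star χ or -star χ for some χ in S if and only if ψ is not constant on the non-identity elements of K. -/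
theorem result {G : Type*} [Group G] [Fintype G] (K : Subgroup G) (hTI : ∀ g : G, g ∉ Subgroup.normalizer (K : Set G) → ∀ k ∈ K, g * k * g⁻¹ ∈ K → k = 1) (hlt : K < Subgroup.normalizer (K : Set G)) (hC : ∀ k ∈ K, k ≠ 1 → Subgroup.centralizer ({k} : Set G) ≤ K) [Fintype ↥(Subgroup.normalizer (K : Set G))] (S : Set (↥(Subgroup.normalizer (K : Set G)) → ℂ)) (hS : S = {χ : ↥(Subgroup.normalizer (K : Set G)) → ℂ | Cfsg.IsIrrCharacter ↥(Subgroup.normalizer (K : Set G)) χ ∧ ∃ k : ↥(Subgroup.normalizer (K : Set G)), (k : G) ∈ K ∧ χ k ≠ χ 1}) (htwo : ∃ χ ∈ S, ∃ ξ ∈ S, χ ≠ ξ) (star : (↥(Subgroup.normalizer (K : Set G)) → ℂ) → (G → ℂ)) (hstar : Cfsg.IsLinearIsometryOn (Cfsg.zspan S) star) (hext : ∀ α ∈ Cfsg.zspanOn S ({1}ᶜ : Set ↥(Subgroup.normalizer (K : Set G))), star α = Cfsg.indFun (Subgroup.normalizer (K : Set G)) α) (ψ : G → ℂ) (hψ : Cfsg.IsIrrCharacter G ψ) : (∃ χ ∈ S, ψ = star χ ∨ ψ = -star χ) ↔ ∃ a ∈ K, ∃ b ∈ K, a ≠ 1 ∧ b ≠ 1 ∧ ψ a ≠ ψ b := by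
  classical
  haveI := CfsgLib.CharBasics.finite_irrCharacter (G := ↥(Subgroup.normalizer (K : Set G)))
  letI := Fintype.ofFinite (Cfsg.IrrCharacter ↥(Subgroup.normalizer (K : Set G)))
  have hC' := CfsgLib.Exceptional.centralizer_le_in_normalizer K hC
  have hmemS : ∀ χ, χ ∈ S ↔ Cfsg.IsIrrCharacter ↥(Subgroup.normalizer (K : Set G)) χ ∧
      CfsgLib.Exceptional.Rel (K.subgroupOf (Subgroup.normalizer (K : Set G))) χ := fun χ => by rw [hS]; rfl
  obtain ⟨ξ₀, hξ₀, η₀, hη₀, hne⟩ := htwo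
  have h0 : ∀ α ∈ Cfsg.zspan S, α 1 = 0 → star α 1 = 0 := fun α hα h1 => by
    rw [hext α (CfsgLib.Exceptional.mem_on_one.2 ⟨hα, h1⟩), CfsgLib.CharBasics.indFun_apply_one, h1, mul_zero]
  obtain ⟨ε, hε, hirrS, hinj⟩ := CfsgLib.Exceptional.exists_sign (fun χ h => ((hmemS χ).1 h).1)
    ⟨ξ₀, hξ₀, η₀, hη₀, hne⟩ star hstar h0
  obtain ⟨m, hm⟩ := CfsgLib.Exceptional.coherent_values K hTI hC S hS ⟨ξ₀, hξ₀⟩ star hstar hext
    (CfsgLib.Exceptional.gen_of_character (CfsgLib.CharBasics.isCharacter_of_irr hψ))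
  have hmem1 : ∀ a ∈ K, a ∈ Subgroup.normalizer (K : Set G) := fun a ha => Subgroup.le_normalizer ha
  constructor
  · rintro ⟨χ, hχ, hψχ⟩
    obtain ⟨δ, hδ0, hδψ⟩ : ∃ δ : ℂ, δ ≠ 0 ∧ ψ = δ • star χ := by
      rcases hψχ with h | h
      · exact ⟨1, one_ne_zero, by rw [h, one_smul]⟩
      · exact ⟨-1, by norm_num, by rw [h, neg_one_smul]⟩
    obtain ⟨hχirr, hχrel⟩ := (hmemS χ).1 hχ
    obtain ⟨ξ, hξ, hξχ⟩ : ∃ ξ ∈ S, χ ≠ ξ := by
      by_cases h : χ = ξ₀
      · exact ⟨η₀, hη₀, h ▸ hne⟩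
      · exact ⟨ξ₀, hξ₀, h⟩
    obtain ⟨a, ha, b, hb, ha1, hb1, hab⟩ := CfsgLib.Exceptional.rel_not_const _ hC' hχirr hχrel
      ((hmemS ξ).1 hξ).1 ((hmemS ξ).1 hξ).2 hξχ
    refine ⟨a, ha, b, hb, fun h => ha1 (Subtype.ext h), fun h => hb1 (Subtype.ext h), fun he => hab ?_⟩
    have hcoef : ∀ φ ∈ S, Cfsg.classInner ψ (star φ) = if φ = χ then δ else 0 := fun φ hφ => by
      rw [hδψ, CfsgLib.CharBasics.classInner_smul_left,
        hstar.2.2.1 χ (Submodule.subset_span hχ) φ (Submodule.subset_span hφ)]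
      split_ifs with h
      · rw [h, CfsgLib.CharBasics.classInner_self hχirr, mul_one]
      · rw [CfsgLib.CharBasics.classInner_ne hχirr ((hmemS φ).1 hφ).1 (Ne.symm h), mul_zero]
    have hval : ∀ k : ↥(Subgroup.normalizer (K : Set G)), (k : G) ∈ K → k ≠ 1 → ψ k = δ * χ k + m := by
      intro k hk hk1
      rw [hm k hk hk1, Finset.sum_eq_single (⟨χ, hχirr⟩ : Cfsg.IrrCharacter _)]
      · rw [hcoef χ hχ, if_pos rfl]
      · intro φ hφ hne'
        rw [hcoef φ ((hmemS _).2 ⟨φ.2, (Finset.mem_filter.1 hφ).2⟩), if_neg fun h => hne' (Subtype.ext h), zero_mul]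
      · intro hh; exact (hh (Finset.mem_filter.2 ⟨Finset.mem_univ _, hχrel⟩)).elim
    rw [hval a ha ha1, hval b hb hb1] at he
    exact mul_left_cancel₀ hδ0 (add_right_cancel he)
  · rintro ⟨a, ha, b, hb, ha1, hb1, hab⟩
    by_contra hcon
    push Not at hcon
    apply hab
    have hcoef : ∀ φ ∈ S, Cfsg.classInner ψ (star φ) = 0 := fun φ hφ => by
      obtain ⟨h1, h2⟩ := hcon φ hφ
      have hne' : ψ ≠ ε • star φ := by
        rcases hε with rfl | rfl
        · rw [one_smul]; exact h1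
        · rw [neg_one_smul]; exact h2
      have h3 := CfsgLib.CharBasics.classInner_ne hψ (hirrS φ hφ) hne'
      rw [CfsgLib.Exceptional.classInner_smul_right] at h3
      refine (mul_eq_zero.1 h3).resolve_left ?_
      rcases hε with rfl | rfl <;> norm_num
    have hval : ∀ k : G, ∀ hk : k ∈ K, k ≠ 1 → ψ k = (m : ℂ) := by
      intro k hk hk1
      have h := hm ⟨k, hmem1 k hk⟩ hk fun h => hk1 (congrArg Subtype.val h)
      rw [Finset.sum_eq_zero (fun φ hφ => by
        rw [hcoef _ ((hmemS _).2 ⟨φ.2, (Finset.mem_filter.1 hφ).2⟩), zero_mul]), zero_add] at h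
      exact h
    rw [hval a ha ha1, hval b hb hb1]

end Cfsg.Agent.S0852
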