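import Cfsg.Statements.S0853
import Cfsg.Agent.Exceptional.CoherentTI
import Cfsg.Agent.Exceptional.Coherent

set_option autoImplicit false
open Cfsg

namespace Cfsg.Agent.S0853

/-- Let K be a subgroup of the finite group G that meets each conjugate by an element outside its normalizer N trivially, is properly contained in N, and contains the centralizer of each of its non-identity elements (a T.I. subgroup with Frobenius normalizer). Let S be the set of irreducible characters of N taking at some element of K a value different from their degree, suppose S has at least two members, and let star be a linear isometry on the integer span of S into the generalized characters of G that agrees with induction on the members vanishing at the identity (so S is coherent, with star as the extending isometry). Then there is a single integer m such that star χ k - χ k = m * χ 1 / e for every χ in S and every non-identity element k of K, where e is the index of K in N.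 -/
theorem result {G : Type*} [Group G] [Fintype G] (K : Subgroup G) (hTI : ∀ g : G, g ∉ Subgroup.normalizer (K : Set G) → ∀ k ∈ K, g * k * g⁻¹ ∈ K → k = 1) (hlt : K < Subgroup.normalizer (K : Set G)) (hC : ∀ k ∈ K, k ≠ 1 → Subgroup.centralizer ({k} : Set G) ≤ K) [Fintype ↥(Subgroup.normalizer (K : Set G))] (S : Set (↥(Subgroup.normalizer (K : Set G)) → ℂ)) (hS : S = {χ : ↥(Subgroup.normalizer (K : Set G)) → ℂ | Cfsg.IsIrrCharacter ↥(Subgroup.normalizer (K : Set G)) χ ∧ ∃ k : ↥(Subgroup.normalizer (K : Set G)), (k : G) ∈ K ∧ χ k ≠ χ 1}) (htwo : ∃ χ ∈ S, ∃ ξ ∈ S, χ ≠ ξ) (star : (↥(Subgroup.normalizer (K : Set G)) → ℂ) → (G → ℂ)) (hstar : Cfsg.IsLinearIsometryOn (Cfsg.zspan S) star) (hext : ∀ α ∈ Cfsg.zspanOn S ({1}ᶜ : Set ↥(Subgroup.normalizer (K : Set G))), star α = Cfsg.indFun (Subgroup.normalizer (K : Set G)) α) : ∃ m : ℤ, ∀ χ ∈ S, ∀ k : ↥(Subgroup.normalizer (K : Set G)), (k : G) ∈ K → k ≠ 1 → star χ k - χ k = (m : ℂ) * χ 1 / ((K.subgroupOf (Subgroup.normalizer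 (K : Set G))).index : ℂ) := by
  classical
  haveI := CfsgLib.CharBasics.finite_irrCharacter (G := ↥(Subgroup.normalizer (K : Set G)))
  letI := Fintype.ofFinite (Cfsg.IrrCharacter ↥(Subgroup.normalizer (K : Set G)))
  have hC' := CfsgLib.Exceptional.centralizer_le_in_normalizer K hC
  have hmemS : ∀ χ, χ ∈ S ↔ Cfsg.IsIrrCharacter ↥(Subgroup.normalizer (K : Set G)) χ ∧
      CfsgLib.Exceptional.Rel (K.subgroupOf (Subgroup.normalizer (K : Set G))) χ := fun χ => by rw [hS]; rfl
  obtain ⟨ξ, hξ, -, -, -⟩ := htwo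
  have hval : ∀ χ, ∃ m : ℤ, χ ∈ S → ∀ k : ↥(Subgroup.normalizer (K : Set G)), (k : G) ∈ K → k ≠ 1 →
      star χ k = χ k + m := by
    intro χ
    by_cases hχ : χ ∈ S
    · obtain ⟨m, hm⟩ := CfsgLib.Exceptional.coherent_values K hTI hC S hS ⟨ξ, hξ⟩ star hstar hext
        (hstar.2.2.2 χ (Submodule.subset_span hχ))
      refine ⟨m, fun _ k hk hk1 => ?_⟩
      have hirr := ((hmemS χ).1 hχ).1
      rw [hm k hk hk1, Finset.sum_eq_single (⟨χ, hirr⟩ : Cfsg.IrrCharacter _)]
      · rw [hstar.2.2.1 χ (Submodule.subset_span hχ) χ (Submodule.subset_span hχ),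
          CfsgLib.CharBasics.classInner_self hirr, one_mul]
      · intro φ hφ hne'
        have hφS : (φ : ↥(Subgroup.normalizer (K : Set G)) → ℂ) ∈ S := (hmemS _).2 ⟨φ.2, (Finset.mem_filter.1 hφ).2⟩
        rw [hstar.2.2.1 χ (Submodule.subset_span hχ) _ (Submodule.subset_span hφS),
          CfsgLib.CharBasics.classInner_ne hirr φ.2 (fun h => hne' (Subtype.ext h.symm)), zero_mul]
      · intro hh; exact (hh (Finset.mem_filter.2 ⟨Finset.mem_univ _, ((hmemS χ).1 hχ).2⟩)).elim
    · exact ⟨0, fun h => absurd h hχ⟩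
  choose c hc using hval
  obtain ⟨k₀, hk₀, hk₀'⟩ := ((hmemS ξ).1 hξ).2
  have hk₀1 : k₀ ≠ 1 := fun h => hk₀' (by rw [h])
  have hK0 : K.subgroupOf (Subgroup.normalizer (K : Set G)) ≠ ⊥ := fun h => hk₀1 (by rwa [h, Subgroup.mem_bot] at hk₀)
  -- `c χ / χ 1` does not depend on `χ`
  have hprop : ∀ χ ∈ S, (c χ : ℂ) * ξ 1 = (c ξ : ℂ) * χ 1 := by
    intro χ hχ
    have hξc := CfsgLib.CharBasics.apply_one (CfsgLib.CharBasics.isCharacter_of_irr ((hmemS ξ).1 hξ).1)
    have hχc := CfsgLib.CharBasics.apply_one (CfsgLib.CharBasics.isCharacter_of_irr ((hmemS χ).1 hχ).1)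
    set p : ℤ := (Cfsg.charDegree ξ : ℤ)
    set q : ℤ := (Cfsg.charDegree χ : ℤ)
    have h1 : p • χ ∈ Submodule.span ℤ S := Submodule.smul_mem _ _ (Submodule.subset_span hχ)
    have h2 : q • ξ ∈ Submodule.span ℤ S := Submodule.smul_mem _ _ (Submodule.subset_span hξ)
    have hθ : p • χ - q • ξ ∈ Cfsg.zspanOn S ({1}ᶜ : Set ↥(Subgroup.normalizer (K : Set G))) :=
      CfsgLib.Exceptional.mem_on_one.2 ⟨sub_mem (S := Submodule ℤ (↥(Subgroup.normalizer (K : Set G)) → ℂ)) h1 h2,
        by simp [p, q, hξc, hχc, mul_comm]⟩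
    obtain ⟨hcl, hsupp⟩ := CfsgLib.Exceptional.rel_supp K hC (fun φ h => (hmemS φ).1 h) hθ
    have h3 := congrFun (hext _ hθ) (k₀ : G)
    have hstar' : Cfsg.IsLinearIsometryOn ((Submodule.span ℤ S :
      Submodule ℤ (↥(Subgroup.normalizer (K : Set G)) → ℂ)) : Set _) star := hstar
    rw [CfsgLib.Exceptional.indFun_apply_of_mem (CfsgLib.Exceptional.frobTI_setup K hTI) hcl hsupp k₀
        ⟨hk₀, fun h => hk₀1 (Subtype.ext h)⟩,
      CfsgLib.Exceptional.iso_sub hstar' h1 h2, CfsgLib.Exceptional.iso_zsmul hstar' (Submodule.subset_span hχ),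
      CfsgLib.Exceptional.iso_zsmul hstar' (Submodule.subset_span hξ)] at h3
    simp only [Pi.sub_apply, Pi.smul_apply] at h3
    simp only [zsmul_eq_mul, hc χ hχ k₀ hk₀ hk₀1, hc ξ hξ k₀ hk₀ hk₀1, p, q, Int.cast_natCast] at h3
    rw [hξc, hχc]
    linear_combination h3
  have hξ1 : ξ 1 ≠ 0 := CfsgLib.CharBasics.apply_one_ne_zero ((hmemS ξ).1 hξ).1
  have he : ((K.subgroupOf (Subgroup.normalizer (K : Set G))).index : ℂ) ≠ 0 :=
    Nat.cast_ne_zero.2 Subgroup.index_ne_zero_of_finite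
  have hpex : ∀ χ : Cfsg.IrrCharacter ↥(Subgroup.normalizer (K : Set G)), ∃ p : ℕ,
      CfsgLib.Exceptional.Rel (K.subgroupOf (Subgroup.normalizer (K : Set G))) χ.1 →
      p ∣ Nat.card (K.subgroupOf (Subgroup.normalizer (K : Set G))) ∧
        χ.1 1 = (((K.subgroupOf (Subgroup.normalizer (K : Set G))).index * p : ℕ) : ℂ) := fun χ => by
    by_cases h : CfsgLib.Exceptional.Rel (K.subgroupOf (Subgroup.normalizer (K : Set G))) χ.1
    · obtain ⟨-, p, -, h1, h2, -⟩ := CfsgLib.Exceptional.rel_induced _ hC' χ.2 h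
      exact ⟨p, fun _ => ⟨h1, h2⟩⟩
    · exact ⟨0, fun h' => absurd h' h⟩
  choose p hp using hpex
  obtain ⟨m, hm⟩ : ∃ m : ℤ, (c ξ : ℂ) * (K.subgroupOf (Subgroup.normalizer (K : Set G))).index / ξ 1 = m := by
    refine CfsgLib.Exceptional.int_of_mul_nat (Finset.univ.filter fun χ : Cfsg.IrrCharacter ↥(Subgroup.normalizer (K : Set G)) =>
      CfsgLib.Exceptional.Rel (K.subgroupOf (Subgroup.normalizer (K : Set G))) χ.1) p _ _ Nat.card_pos
      (fun χ h => (hp χ (Finset.mem_filter.1 h).2).1)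
      (CfsgLib.Exceptional.rel_degree_identity _ hC' hK0 p fun χ h => (hp χ h).2)
      ⟨⟨ξ, ((hmemS ξ).1 hξ).1⟩, Finset.mem_filter.2 ⟨Finset.mem_univ _, ((hmemS ξ).1 hξ).2⟩⟩ _ fun χ h => ?_
    have hr := (Finset.mem_filter.1 h).2
    refine ⟨c χ.1, ?_⟩
    have h5 := hprop χ.1 ((hmemS _).2 ⟨χ.2, hr⟩)
    rw [(hp χ hr).2] at h5
    push_cast at h5
    field_simp
    linear_combination -h5
  refine ⟨m, fun χ hχ k hk hk1 => ?_⟩
  rw [hc χ hχ k hk hk1, add_sub_cancel_left, ← hm]
  have h5 := hprop χ hχ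
  field_simp
  linear_combination h5

end Cfsg.Agent.S0853
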