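import Cfsg.Statements.S0857
import Cfsg.Agent.Clifford.ChiefFactor
import Cfsg.Agent.CharBasics.Extra

set_option autoImplicit false
open Cfsg

namespace Cfsg.Agent.S0857

open CfsgLib.Clifford CfsgLib.CharBasics

/-- Let L < K be normal subgroups of the finite group G with no normal subgroup of G strictly between them and with K / L abelian (the commutator subgroup of K lies in L). Let ϑ be an irreducible character of K invariant under conjugation by G. Then the restriction of ϑ to L is irreducible; or it equals e times an irreducible character of L with e ^ 2 equal to the index of L in K; or it is the sum of a family of pairwise distinct irreducible characters of L indexed by a set whose size is the index of L in K. -/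
theorem result {G : Type*} [Group G] [Fintype G] (K L : Subgroup G) [hK : K.Normal] [L.Normal] (hLK : L < K) (hchief : ∀ M : Subgroup G, M.Normal → L ≤ M → M ≤ K → M = L ∨ M = K) (hab : ⁅K, K⁆ ≤ L) (ϑ : K → ℂ) (hϑ : Cfsg.IsIrrCharacter K ϑ) (hinv : ∀ (g : G) (n : K), ϑ ⟨g * n * g⁻¹, hK.conj_mem (n : G) n.2 g⟩ = ϑ n) : Cfsg.IsIrrCharacter L (fun x : L => ϑ ⟨(x : G), hLK.le x.2⟩) ∨ (∃ (φ : L → ℂ) (e : ℕ), Cfsg.IsIrrCharacter L φ ∧ (fun x : L => ϑ ⟨(x : G), hLK.le x.2⟩) = (e : ℂ) • φ ∧ e ^ 2 = L.relIndex K) ∨ (∃ F : Finset (L → ℂ), (∀ φ ∈ F, Cfsg.IsIrrCharacter L φ) ∧ F.card = L.relIndex K ∧ (fun x : L => ϑ ⟨(x : G), hLK.le x.2⟩) = ∑ φ ∈ F, φ) := by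
  classical
  let := Fintype.ofFinite K
  let N : Subgroup K := L.subgroupOf K
  haveI : N.Normal := inferInstanceAs (L.subgroupOf K).Normal
  let := Fintype.ofFinite N
  let E : N ≃* L := Subgroup.subgroupOfEquivOfLe hLK.le
  have hEcoe : ∀ x : L, ((E.symm x : N) : K) = ⟨(x : G), hLK.le x.2⟩ := fun x => rfl
  have hcomm : ∀ x y : K, x * y * x⁻¹ * y⁻¹ ∈ N := by
    intro x y
    have := hab (Subgroup.commutator_mem_commutator x.2 y.2)
    rw [commutatorElement_def] at this
    exact this
  have hϑc := isCharacter_of_irr hϑ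
  obtain ⟨φ, hφne⟩ := exists_restrict_constituent N ⟨ϑ, hϑ⟩
  have hφ : Cfsg.IsIrrCharacter N φ.1 := φ.2
  have hne : Cfsg.classInner (fun n : N => ϑ n) φ.1 ≠ 0 := by
    rw [classInner_comm, Ne, map_eq_zero]
    exact hφne
  obtain ⟨e, he⟩ := classInner_characters_nat (CfsgLib.CharBasics.isCharacter_restrict hϑc N) (isCharacter_of_irr hφ)
  change Cfsg.classInner (fun n : N => ϑ n) φ.1 = (e : ℂ) at he
  -- the conjugates of the constituent by elements of `G`
  let cG : G → N → N := fun g n => ⟨⟨g * ((n : K) : G) * g⁻¹, hK.conj_mem _ (n : K).2 g⟩,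
    (inferInstance : L.Normal).conj_mem _ n.2 g⟩
  let hom : G → (N →* N) := fun g =>
    { toFun := cG g
      map_one' := Subtype.ext (Subtype.ext (by simp [cG]))
      map_mul' := fun a b => Subtype.ext (Subtype.ext (by simp [cG, mul_assoc])) }
  have hsurj : ∀ g, Function.Surjective (hom g) := fun g n =>
    ⟨cG g⁻¹ n, Subtype.ext (Subtype.ext (by simp [hom, cG, mul_assoc]))⟩
  have hψ : ∀ g, Cfsg.IsIrrCharacter N (fun n => φ.1 (cG g n)) := fun g =>
    CfsgLib.Clifford.isIrrCharacter_comp hφ (hom g) (hsurj g)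
  have hψne : ∀ g, Cfsg.classInner (fun n : N => ϑ n) (fun n => φ.1 (cG g n)) ≠ 0 := by
    intro g
    let ee : N ≃* N := MulEquiv.ofBijective (hom g) ⟨Finite.injective_iff_surjective.mpr (hsurj g), hsurj g⟩
    have := classInner_comp_equiv ee (fun n : N => ϑ n) φ.1
    have h2 : (fun n : N => ϑ (ee n : N)) = fun n : N => ϑ n := funext fun n => hinv g n
    rw [h2] at this
    rw [show (fun n => φ.1 (cG g n)) = (fun n => φ.1 (ee n)) from rfl, this]
    exact hne
  set T := inertia φ.1 with hT
  have hNT : N ≤ T := le_inertia (CfsgLib.CharBasics.isClassFunction (isCharacter_of_irr hφ))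
  have hTn : ∀ (k t : K), t ∈ T → k * t * k⁻¹ ∈ T := by
    intro k t ht
    have := T.mul_mem (hNT (hcomm k t)) ht
    simpa [mul_assoc] using this
  have hT'n : (T.map K.subtype).Normal := by
    refine ⟨fun x hx g => ?_⟩
    obtain ⟨t, ht, rfl⟩ := Subgroup.mem_map.mp hx
    refine Subgroup.mem_map.mpr ⟨⟨g * (t : G) * g⁻¹, hK.conj_mem _ t.2 g⟩, ?_, rfl⟩
    obtain ⟨k, hk⟩ := constituent_conj hϑ hφ (hψ g) hne (hψne g)
    refine mem_inertia.mpr (funext fun m => ?_)
    have hkt := mem_inertia.mp (hTn k t ht)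
    have h1 : ∀ n : N, φ.1 (cG g ⟨t * (n : K) * t⁻¹, (inferInstance : N.Normal).conj_mem _ n.2 t⟩) =
        φ.1 (cG g n) := by
      intro n
      have h2 := congrFun hk n
      have h3 := congrFun hk ⟨t * (n : K) * t⁻¹, (inferInstance : N.Normal).conj_mem _ n.2 t⟩
      rw [h2, h3, CfsgLib.Clifford.conjFun_apply, CfsgLib.Clifford.conjFun_apply]
      have h4 := congrFun hkt ⟨k * (n : K) * k⁻¹, (inferInstance : N.Normal).conj_mem _ n.2 k⟩
      rw [CfsgLib.Clifford.conjFun_apply] at h4
      refine Eq.trans ?_ h4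
      refine congrArg φ.1 (Subtype.ext (Subtype.ext ?_))
      simp [mul_assoc]
    have h5 := h1 (cG g⁻¹ m)
    rw [CfsgLib.Clifford.conjFun_apply]
    refine Eq.trans ?_ (h5.trans ?_)
    · refine congrArg φ.1 (Subtype.ext (Subtype.ext ?_))
      simp [cG, mul_assoc]
    · refine congrArg φ.1 (Subtype.ext (Subtype.ext ?_))
      simp [cG, mul_assoc]
  have hmap : ∀ V : Subgroup K, N ≤ V → (V.map K.subtype).Normal → V = N ∨ V = ⊤ := by
    intro V hNV hV
    have h1 : L ≤ V.map K.subtype := fun x hx =>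
      Subgroup.mem_map.mpr ⟨⟨x, hLK.le hx⟩, hNV (show (⟨x, hLK.le hx⟩ : K) ∈ N from hx), rfl⟩
    have hinjm := Subgroup.map_injective K.subtype_injective
    rcases hchief _ hV h1 (Subgroup.map_subtype_le V) with h | h
    · exact Or.inl (hinjm (h.trans (Subgroup.map_subgroupOf_eq_of_le hLK.le).symm))
    · refine Or.inr (hinjm (h.trans ?_))
      rw [← MonoidHom.range_eq_map, Subgroup.range_subtype]
  have hrel : L.relIndex K = N.index := rfl
  rcases hmap T hNT hT'n with h | h
  · -- the constituent has trivial inertia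
    right; right
    let := Fintype.ofFinite T
    obtain ⟨ψ, hψirr, -, hψinner, -⟩ := exists_inertia_correspondent hϑ hφ hne T rfl hNT
    have hψN : Cfsg.IsIrrCharacter N (fun n : N => ψ ⟨(n : K), hNT n.2⟩) :=
      CfsgLib.Clifford.isIrrCharacter_comp hψirr (Subgroup.inclusion hNT) fun t =>
        ⟨⟨(t : K), h ▸ t.2⟩, rfl⟩
    have hone : Cfsg.classInner (fun n : N => ϑ n) φ.1 = 1 := by
      have heq : (fun n : N => ψ ⟨(n : K), hNT n.2⟩) = φ.1 := by
        by_contra hh
        exact hne (hψinner ▸ classInner_ne hψN hφ hh)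
      rw [← hψinner, heq, classInner_self hφ]
    have hsum := restrict_eq_orbit_sum hϑ hφ hne
    rw [hone, one_smul] at hsum
    refine ⟨(Finset.univ.image fun k : K => CfsgLib.Clifford.conjFun k φ.1).image (fun χ => χ ∘ E.symm), ?_, ?_, ?_⟩
    · intro χ hχ
      obtain ⟨χ', hχ', rfl⟩ := Finset.mem_image.mp hχ
      obtain ⟨k, -, rfl⟩ := Finset.mem_image.mp hχ'
      exact CfsgLib.Clifford.isIrrCharacter_comp (isIrrCharacter_conjFun k hφ) E.symm.toMonoidHom E.symm.surjective
    · rw [Finset.card_image_of_injective _ E.symm.surjective.injective_comp_right, card_orbit, hrel, ← hT, h]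
    · rw [Finset.sum_image fun a _ b _ hh => E.symm.surjective.injective_comp_right hh]
      funext x
      have h2 := congrFun hsum (E.symm x)
      rw [Finset.sum_apply] at h2 ⊢
      rw [← hEcoe]
      exact h2
  · have hinvφ : ∀ k : K, CfsgLib.Clifford.conjFun k φ.1 = φ.1 := fun k =>
      mem_inertia.mp (show k ∈ T from h ▸ Subgroup.mem_top k)
    have hres := restrict_eq_smul_of_invariant hϑ hφ hinvφ hne
    rw [he] at hres
    have hnorm : Cfsg.classInner (fun n : N => ϑ n) (fun n : N => ϑ n) = (e : ℂ) ^ 2 := by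
      rw [hres, classInner_smul_left, classInner_comm, classInner_smul_left, classInner_self hφ,
        mul_one, Complex.conj_natCast, sq]
    -- the elements killed by all linear characters fixing the given one
    let U : Subgroup K :=
      { carrier := {k | ∀ l : (K ⧸ N) →* ℂˣ, (∀ j : K, (l j : ℂ) * ϑ j = ϑ j) → l k = 1}
        mul_mem' := fun {a b} ha hb l hl => by
          rw [QuotientGroup.mk_mul, map_mul, ha l hl, hb l hl, mul_one]
        one_mem' := fun l _ => by simp
        inv_mem' := fun {a} ha l hl => by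
          rw [QuotientGroup.mk_inv, map_inv, ha l hl, inv_one] }
    have hNU : N ≤ U := fun k hk l _ => by rw [(QuotientGroup.eq_one_iff k).mpr hk, map_one]
    have hU'n : (U.map K.subtype).Normal := by
      refine ⟨fun x hx g => ?_⟩
      obtain ⟨k, hk, rfl⟩ := Subgroup.mem_map.mp hx
      refine Subgroup.mem_map.mpr ⟨⟨g * (k : G) * g⁻¹, hK.conj_mem _ k.2 g⟩, ?_, rfl⟩
      intro l hl
      let c : K →* K :=
        { toFun := fun j => ⟨g * (j : G) * g⁻¹, hK.conj_mem _ j.2 g⟩
          map_one' := Subtype.ext (by simp)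
          map_mul' := fun a b => Subtype.ext (by simp [mul_assoc]) }
      let q : (K ⧸ N) →* (K ⧸ N) := QuotientGroup.map N N c fun n hn => (inferInstance : L.Normal).conj_mem _ hn g
      exact hk (l.comp q) fun j => by
        have h1 := hl (c j)
        have h2 : ϑ (c j) = ϑ j := hinv g j
        rw [h2] at h1
        exact h1
    rcases hmap U hNU hU'n with hU | hU
    · right; left
      refine ⟨φ.1 ∘ E.symm, e, CfsgLib.Clifford.isIrrCharacter_comp hφ E.symm.toMonoidHom E.symm.surjective, ?_, ?_⟩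
      · funext x
        have h2 := congrFun hres (E.symm x)
        rw [← hEcoe]
        exact h2
      · have hzero : ∀ k : K, k ∉ N → ϑ k = 0 := by
          intro k hk
          rw [← hU] at hk
          obtain ⟨l, hl, hlk⟩ : ∃ l : (K ⧸ N) →* ℂˣ, (∀ j : K, (l j : ℂ) * ϑ j = ϑ j) ∧ l k ≠ 1 := by
            by_contra hh
            push Not at hh
            exact hk hh
          by_contra h0
          exact hlk (Units.ext (mul_right_cancel₀ h0 ((hl k).trans (one_mul _).symm)))
        have h1 := (restrict_norm_eq_index_iff hϑ).mpr hzero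
        rw [hnorm] at h1
        rw [hrel]
        exact_mod_cast h1
    · left
      have hfree : ∀ l : (K ⧸ N) →* ℂˣ, (∀ k : K, (l k : ℂ) * ϑ k = ϑ k) → l = 1 := by
        intro l hl
        refine MonoidHom.ext fun q => ?_
        obtain ⟨k, rfl⟩ := QuotientGroup.mk_surjective q
        exact (show k ∈ U from hU ▸ Subgroup.mem_top k) l hl
      have h1 := restrict_norm_one_of_free N hcomm hϑ hfree
      have h2 := isIrr_of_norm_one (CfsgLib.CharBasics.isCharacter_restrict hϑc N) h1
      have h3 := CfsgLib.Clifford.isIrrCharacter_comp h2 E.symm.toMonoidHom E.symm.surjective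
      convert h3 using 1
      funext x
      exact congrArg ϑ (hEcoe x).symm

end Cfsg.Agent.S0857
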