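import Cfsg.Statements.S0858
import Cfsg.Agent.Clifford.ChiefFactor
import Cfsg.Agent.BrauerInd.IndAlgebra
import Cfsg.Agent.CharBasics.Extra

set_option autoImplicit false
open Cfsg CfsgLib CfsgLib.CharBasics
open scoped commutatorElement

namespace Cfsg.Agent.S0858

universe u

/-- The chief factors between `N` and subgroups above it have non-square order. -/
def NoSquare {G : Type u} [Group G] (N : Subgroup G) : Prop :=
  ∀ (H K L : Subgroup G), N ≤ L → L < K → K ≤ H → (∀ h ∈ H, ∀ k ∈ K, h * k * h⁻¹ ∈ K) → (∀ h ∈ H, ∀ l ∈ L, h * l * h⁻¹ ∈ L) → (∀ M : Subgroup G, L ≤ M → M ≤ K → (∀ h ∈ H, ∀ m ∈ M, h * m * h⁻¹ ∈ M) → M = L ∨ M = K) → ¬ IsSquare (L.relIndex K)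

theorem noSquare_subgroup {G : Type u} [Group G] {N : Subgroup G} (h : NoSquare N) (T : Subgroup G) (hNT : N ≤ T) :
    NoSquare (N.subgroupOf T) := by
  intro H K L hNL hLK hKH hK hL hmax
  have hinj := T.subtype_injective
  rw [← Subgroup.relIndex_map_map_of_injective L K hinj]
  refine h (H.map T.subtype) (K.map T.subtype) (L.map T.subtype) ?_ ((Subgroup.map_lt_map_iff_of_injective hinj).2 hLK)
    (Subgroup.map_mono hKH) ?_ ?_ ?_
  · intro x hx
    exact ⟨⟨x, hNT hx⟩, hNL hx, rfl⟩
  · rintro _ ⟨a, ha, rfl⟩ _ ⟨b, hb, rfl⟩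
    exact ⟨a * b * a⁻¹, hK a ha b hb, by simp⟩
  · rintro _ ⟨a, ha, rfl⟩ _ ⟨b, hb, rfl⟩
    exact ⟨a * b * a⁻¹, hL a ha b hb, by simp⟩
  · intro M hLM hMK hM
    have hMT : M ≤ T := hMK.trans (Subgroup.map_subtype_le K)
    have e : (M.subgroupOf T).map T.subtype = M := Subgroup.map_subgroupOf_eq_of_le hMT
    rw [← e] at hLM hMK ⊢
    rcases hmax (M.subgroupOf T) ((Subgroup.map_le_map_iff_of_injective hinj).1 hLM)
      ((Subgroup.map_le_map_iff_of_injective hinj).1 hMK) (fun a ha b hb => by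
        have := hM a ⟨a, ha, rfl⟩ b hb
        exact this) with h' | h'
    · exact Or.inl (by rw [h'])
    · exact Or.inr (by rw [h'])

theorem main : ∀ (m : ℕ) (G : Type u) [Group G] [Fintype G], Nat.card G = m → ∀ (N : Subgroup G) [N.Normal],
    (∃ n, derivedSeries G n ≤ N) → NoSquare N → ∀ χ : G → ℂ, IsIrrCharacter G χ →
    ∃ (H : Subgroup G) (hNH : N ≤ H) (ψ : H → ℂ), IsIrrCharacter H ψ ∧ indFun H ψ = χ ∧
      IsIrrCharacter N (fun n : N => ψ ⟨(n : G), hNH n.2⟩) := by
  intro m
  induction m using Nat.strong_induction_on with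
  | _ m ih =>
  intro G _ _ hm N hN hder hns χ hχ
  classical
  by_cases hirr : IsIrrCharacter N (fun n : N => χ n)
  · refine ⟨⊤, le_top, fun h => χ h, ?_, BrauerInd.indFun_top χ (isClassFunction (isCharacter_of_irr hχ)), hirr⟩
    exact Clifford.isIrrCharacter_comp hχ (⊤ : Subgroup G).subtype fun g => ⟨⟨g, Subgroup.mem_top g⟩, rfl⟩
  -- a minimal normal subgroup with irreducible restriction
  obtain ⟨K, ⟨hKn, hNK, hKirr⟩, hKmin⟩ := (Set.toFinite {K : Subgroup G | K.Normal ∧ N ≤ K ∧
      IsIrrCharacter K (fun k : K => χ k)}).exists_minimal ⟨⊤, inferInstance, le_top,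
        Clifford.isIrrCharacter_comp hχ (⊤ : Subgroup G).subtype fun g => ⟨⟨g, Subgroup.mem_top g⟩, rfl⟩⟩
  haveI := hKn
  have hlt : N < K := lt_of_le_of_ne hNK fun e => hirr (e ▸ hKirr)
  obtain ⟨L, ⟨hLn, hNL, hLK⟩, hLmax⟩ := (Set.toFinite {L : Subgroup G | L.Normal ∧ N ≤ L ∧ L < K}).exists_maximal
    ⟨N, hN, le_rfl, hlt⟩
  haveI := hLn
  have hchief : ∀ M : Subgroup G, M.Normal → L ≤ M → M ≤ K → M = L ∨ M = K := fun M hMn hLM hMK => by
    by_cases e : M = K
    · exact Or.inr e
    · exact Or.inl (le_antisymm (hLmax ⟨hMn, hNL.trans hLM, lt_of_le_of_ne hMK e⟩ hLM) hLM)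
  have hnotirr : ¬ IsIrrCharacter L (fun l : L => χ l) := fun h =>
    absurd (hKmin ⟨hLn, hNL, h⟩ hLK.le) (not_le_of_gt hLK)
  -- the chief factor is abelian
  have hab : ∀ x y : K, x * y * x⁻¹ * y⁻¹ ∈ L.subgroupOf K := by
    obtain ⟨n, hn⟩ := hder
    rcases hchief (⁅K, K⁆ ⊔ L) inferInstance le_sup_right (sup_le (Subgroup.commutator_le_right _ _) hLK.le) with h | h
    · intro x y
      rw [Subgroup.mem_subgroupOf]
      exact h.le (Subgroup.mem_sup_left (Subgroup.commutator_mem_commutator x.2 y.2))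
    · exfalso
      let π := QuotientGroup.mk' L
      have hperf : ⁅K.map π, K.map π⁆ = K.map π := by
        conv_rhs => rw [← h, Subgroup.map_sup, (Subgroup.map_eq_bot_iff L).2 (QuotientGroup.ker_mk' L).ge, sup_bot_eq]
        rw [Subgroup.map_commutator]
      have hser : ∀ i, K.map π ≤ derivedSeries (G ⧸ L) i := by
        intro i
        induction i with
        | zero => exact le_top
        | succ i ihi => rw [derivedSeries_succ, ← hperf]; exact Subgroup.commutator_mono ihi ihi
      have h0 : derivedSeries (G ⧸ L) n = ⊥ := le_bot_iff.1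
        ((derivedSeries_le_map_derivedSeries (QuotientGroup.mk'_surjective L) n).trans
          ((Subgroup.map_mono (hn.trans hNL)).trans ((Subgroup.map_eq_bot_iff L).2 (QuotientGroup.ker_mk' L).ge).le))
      have hb := (Subgroup.map_eq_bot_iff K).1 (le_bot_iff.1 ((hser n).trans h0.le))
      rw [QuotientGroup.ker_mk'] at hb
      exact absurd hb (not_le_of_gt hLK)
  obtain ⟨θ, hθ⟩ := exists_restrict_constituent L ⟨χ, hχ⟩
  have hne : classInner (fun n : L => χ n) (θ : L → ℂ) ≠ 0 := by
    rw [classInner_comm, Ne, map_eq_zero]; exact hθ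
  have hLT : L ≤ Clifford.inertia (θ : L → ℂ) := Clifford.le_inertia (isClassFunction (isCharacter_of_irr θ.2))
  by_cases hT : Clifford.inertia (θ : L → ℂ) = ⊤
  · exfalso
    obtain ⟨e, he⟩ := classInner_characters_nat
      (CfsgLib.CharBasics.isCharacter_restrict (isCharacter_of_irr hχ) L) (isCharacter_of_irr θ.2)
    change classInner (fun n : L => χ n) (θ : L → ℂ) = (e : ℂ) at he
    have hres : (fun l : L => χ l) = (e : ℂ) • (θ : L → ℂ) := by
      rw [← he]
      exact Clifford.restrict_eq_smul_of_invariant hχ θ.2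
        (fun g => Clifford.mem_inertia.1 (hT ▸ Subgroup.mem_top g)) hne
    let L' := L.subgroupOf K
    let η : K → ℂ := fun k => χ k
    have hn1 : classInner (fun l : L' => η l) (fun l : L' => η l) = (e : ℂ) * e := by
      have e1 : classInner (fun l : L' => η l) (fun l : L' => η l) = classInner (fun l : L => χ l) (fun l : L => χ l) :=
        Clifford.classInner_comp_equiv (Subgroup.subgroupOfEquivOfLe hLK.le) (fun l : L => χ l) (fun l : L => χ l)
      rw [e1, hres, classInner_smul_left, classInner_comm, classInner_smul_left, classInner_self θ.2]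
      simp
    by_cases hfree : ∀ l : (K ⧸ L') →* ℂˣ, (∀ k : K, (l k : ℂ) * η k = η k) → l = 1
    · have h1 := Clifford.restrict_norm_one_of_free L' hab hKirr hfree
      rw [hn1] at h1
      have he1 : e = 1 := Nat.eq_one_of_mul_eq_one_right (m := e) (by exact_mod_cast h1)
      exact hnotirr (by rw [hres, he1, Nat.cast_one, one_smul]; exact θ.2)
    -- the common kernel of the twists fixing the restriction
    let J : Subgroup G :=
      { carrier := {g | ∃ hg : g ∈ K, ∀ l : (K ⧸ L') →* ℂˣ, (∀ k : K, (l k : ℂ) * η k = η k) → l ((⟨g, hg⟩ : K) : K ⧸ L') = 1}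
        one_mem' := ⟨K.one_mem, fun l _ => map_one l⟩
        mul_mem' := by
          rintro a b ⟨ha, ha'⟩ ⟨hb, hb'⟩
          refine ⟨K.mul_mem ha hb, fun l hl => ?_⟩
          rw [show (⟨a * b, K.mul_mem ha hb⟩ : K) = ⟨a, ha⟩ * ⟨b, hb⟩ from rfl, QuotientGroup.mk_mul, map_mul,
            ha' l hl, hb' l hl, one_mul]
        inv_mem' := by
          rintro a ⟨ha, ha'⟩
          refine ⟨K.inv_mem ha, fun l hl => ?_⟩
          rw [show (⟨a⁻¹, K.inv_mem ha⟩ : K) = (⟨a, ha⟩)⁻¹ from rfl, QuotientGroup.mk_inv, map_inv, ha' l hl, inv_one] }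
    haveI hJn : J.Normal := by
      refine ⟨?_⟩
      rintro a ⟨ha, ha'⟩ g
      refine ⟨hKn.conj_mem a ha g, fun l hl => ?_⟩
      let c : K →* K := (MulAut.conjNormal g : MulAut K).toMonoidHom
      let lg : (K ⧸ L') →* ℂˣ := l.comp (QuotientGroup.map L' L' c fun x hx => by
        rw [Subgroup.mem_comap, Subgroup.mem_subgroupOf] at *
        show ((MulAut.conjNormal g x : K) : G) ∈ L
        rw [MulAut.conjNormal_apply]
        exact hLn.conj_mem _ hx g)
      have hlg : ∀ k : K, (lg k : ℂ) * η k = η k := fun k => by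
        have h1 := hl (c k)
        have h2 : η (c k) = η k := by
          show χ ((MulAut.conjNormal g k : K) : G) = χ k
          rw [MulAut.conjNormal_apply]
          exact isClassFunction (isCharacter_of_irr hχ) (k : G) g
        rw [h2] at h1
        exact h1
      have := ha' lg hlg
      have hc : c ⟨a, ha⟩ = ⟨g * a * g⁻¹, hKn.conj_mem a ha g⟩ := Subtype.ext (MulAut.conjNormal_apply g _)
      rw [← hc]
      exact this
    have hLJ : L ≤ J := fun x hx => ⟨hLK.le hx, fun l _ => by
      rw [(QuotientGroup.eq_one_iff (N := L') (⟨x, hLK.le hx⟩ : K)).2 hx, map_one]⟩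
    rcases hchief J hJn hLJ (fun x hx => hx.1) with hJ | hJ
    · have hvan : ∀ k : K, k ∉ L' → η k = 0 := by
        intro k hk
        have : (k : G) ∉ J := fun h => hk (hJ.le h)
        by_contra h0
        refine this ⟨k.2, fun l hl => Units.ext ?_⟩
        exact mul_right_cancel₀ h0 ((hl k).trans (one_mul _).symm)
      have hsq := (Clifford.restrict_norm_eq_index_iff (N := L') hKirr).2 hvan
      rw [hn1] at hsq
      refine hns ⊤ K L hNL hLK le_top (fun g _ k hk => hKn.conj_mem k hk g) (fun g _ l hl => hLn.conj_mem l hl g)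
        (fun M hLM hMK hM => hchief M ⟨fun x hx g => hM g (Subgroup.mem_top g) x hx⟩ hLM hMK) ⟨e, ?_⟩
      show L'.index = e * e
      exact_mod_cast hsq.symm
    · refine hfree fun l hl => MonoidHom.ext fun q => ?_
      obtain ⟨k, rfl⟩ := QuotientGroup.mk_surjective q
      obtain ⟨_, h⟩ := hJ.ge k.2
      exact h l hl
  · obtain ⟨ψ, hψ, hind, -, -⟩ := Clifford.exists_inertia_correspondent hχ θ.2 hne
      (Clifford.inertia (θ : L → ℂ)) rfl hLT
    let T := Clifford.inertia (θ : L → ℂ)
    have hNT : N ≤ T := hNL.trans hLT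
    have hlt' : Nat.card T < m := by
      rw [← hm]
      exact lt_of_le_of_ne (Subgroup.card_le_card_group T) fun h => hT (Subgroup.eq_top_of_card_eq _ h)
    obtain ⟨n, hn⟩ := hder
    obtain ⟨H, hH, φ, hφ, hφind, hφN⟩ := ih _ hlt' T rfl (N.subgroupOf T) ⟨n, fun x hx =>
      hn (map_derivedSeries_le_derivedSeries T.subtype n ⟨x, hx, rfl⟩)⟩ (noSquare_subgroup hns T hNT) ψ hψ
    refine ⟨H.map T.subtype, fun x hx => ⟨⟨x, hNT hx⟩, hH hx, rfl⟩, BrauerInd.mapFun H φ, ?_, ?_, ?_⟩
    · exact Clifford.isIrrCharacter_comp hφ (H.equivMapOfInjective T.subtype T.subtype_injective).symm.toMonoidHom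
        (H.equivMapOfInjective T.subtype T.subtype_injective).symm.surjective
    · rw [← hind, ← hφind, BrauerInd.indFun_trans]
    · let e : N ≃* N.subgroupOf T := (Subgroup.subgroupOfEquivOfLe hNT).symm
      have h2 := Clifford.isIrrCharacter_comp hφN e.toMonoidHom e.surjective
      convert h2 using 1
      funext x
      show φ _ = φ _
      congr 1
      apply (H.equivMapOfInjective T.subtype T.subtype_injective).injective
      rw [MulEquiv.apply_symm_apply]
      exact Subtype.ext rfl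

/-- Let N be a normal subgroup of the finite group G with G / N solvable, and suppose that for every subgroup H containing N and all subgroups L < K between N and H that are normal in H with no subgroup normal in H strictly between them, the index of L in K is not a perfect square. Then every irreducible character χ of G is induced from an irreducible character ψ of some subgroup H containing N such that the restriction of ψ to N is irreducible. -/
theorem result {G : Type*} [Group G] [Fintype G] (N : Subgroup G) [N.Normal] (hsolv : Group.IsSolvable (G ⧸ N)) (hchief : ∀ (H K L : Subgroup G), N ≤ L → L < K → K ≤ H → (∀ h ∈ H, ∀ k ∈ K, h * k * h⁻¹ ∈ K) → (∀ h ∈ H, ∀ l ∈ L, h * l * h⁻¹ ∈ L) → (∀ M : Subgroup G, L ≤ M → M ≤ K → (∀ h ∈ H, ∀ m ∈ M, h * m * h⁻¹ ∈ M) → M = L ∨ M = K) → ¬ IsSquare (L.relIndex K)) (χ : G → ℂ) (hχ : Cfsg.IsIrrCharacter G χ) : ∃ (H : Subgroup G) (hNH : N ≤ H) (ψ : H → ℂ), Cfsg.IsIrrCharacter H ψ ∧ Cfsg.indFun H ψ = χ ∧ Cfsg.IsIrrCharacter N (fun n : N => ψ ⟨(n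 : G), hNH n.2⟩) := by
  classical
  obtain ⟨n, hn⟩ := hsolv.solvable
  refine main _ G rfl N ⟨n, ?_⟩ hchief χ hχ
  have h := map_derivedSeries_le_derivedSeries (QuotientGroup.mk' N) n
  rw [hn, le_bot_iff, Subgroup.map_eq_bot_iff, QuotientGroup.ker_mk'] at h
  exact h

end Cfsg.Agent.S0858
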