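import Cfsg.Statements.S0861
import Cfsg.Agent.CharBasics.Avg
import Cfsg.Agent.CharBasics.Extra
import Cfsg.Agent.CharBasics.ModP
import Cfsg.Agent.Clifford.Ito
import Cfsg.Agent.GaloisDegree.Basic
import Cfsg.Agent.Blocks.Glauberman

set_option autoImplicit false
open Cfsg CfsgLib CfsgLib.CharBasics

namespace Cfsg.Agent.S0861

/-- Let P be a normal abelian Sylow p-subgroup of the finite group G and suppose some element g of P has centralizer exactly P. Then the number of irreducible characters of G is at most the order of P, and if equality holds then G / P is abelian (the commutator subgroup lies in P). -/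
theorem result {G : Type*} [Group G] [Finite G] (p : ℕ) [Fact p.Prime] (P : Sylow p G) [(P : Subgroup G).Normal] (hab : ∀ a ∈ P, ∀ b ∈ P, a * b = b * a) (g : G) (hg : g ∈ P) (hC : Subgroup.centralizer ({g} : Set G) = P) : Nat.card (Cfsg.IrrCharacter G) ≤ Nat.card P ∧ (Nat.card (Cfsg.IrrCharacter G) = Nat.card P → commutator G ≤ P) := by
  classical
  haveI := Fintype.ofFinite G
  haveI := finite_irrCharacter (G := G)
  haveI := Fintype.ofFinite (IrrCharacter G)
  have hp : p.Prime := Fact.out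
  haveI : IsMulCommutative (P : Subgroup G) := ⟨⟨fun a b => Subtype.ext (hab a a.2 b b.2)⟩⟩
  obtain ⟨M, hM⟩ := CfsgLib.Blocks.exists_modular hp
  obtain ⟨k, hk⟩ := P.2 ⟨g, hg⟩
  have hk' : g ^ p ^ k = 1 := congrArg Subtype.val hk
  have hnz : ∀ (χ : IrrCharacter G), (χ : G → ℂ) g ≠ 0 := fun χ =>
    apply_ne_zero_of_not_dvd hM (isCharacter_of_irr χ.2) hk' fun h =>
      P.not_dvd_index (h.trans (Clifford.ito_dvd χ.2 (P : Subgroup G)))
  let N := Nat.card G
  have hN : N ≠ 0 := Nat.card_pos.ne'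
  let S : Finset G := Finset.univ.filter fun x => ∃ j : ℕ, j.Coprime N ∧ g ^ j = x
  have hS : ∀ x ∈ S, ∀ j : ℕ, j.Coprime N → x ^ j ∈ S := by
    intro x hx j hj
    obtain ⟨i, hi, rfl⟩ := (Finset.mem_filter.1 hx).2
    exact Finset.mem_filter.2 ⟨Finset.mem_univ _, i * j, hi.mul_left hj, pow_mul g i j⟩
  have hgS : g ∈ S := Finset.mem_filter.2 ⟨Finset.mem_univ _, 1, Nat.coprime_one_left N, pow_one g⟩
  have hne : ∀ χ : IrrCharacter G, ∀ x ∈ S, (χ : G → ℂ) x ≠ 0 := by
    intro χ x hx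
    obtain ⟨i, hi, rfl⟩ := (Finset.mem_filter.1 hx).2
    exact (cycPoly_character (isCharacter_of_irr χ.2)).ne_zero hN hi (hnz χ)
  have hcen : ∀ x ∈ S, Nat.card (Subgroup.centralizer ({x} : Set G)) = Nat.card P := by
    intro x hx
    obtain ⟨i, hi, rfl⟩ := (Finset.mem_filter.1 hx).2
    rw [show Subgroup.centralizer ({g ^ i} : Set G) = (P : Subgroup G) from ?_]
    rw [← hC]
    refine le_antisymm (fun y hy => ?_) fun y hy => ?_
    · rw [Subgroup.mem_centralizer_singleton_iff] at hy ⊢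
      obtain ⟨a, ha⟩ : ∃ a : ℕ, (g ^ i) ^ a = g := by
        obtain ⟨a, ha⟩ := exists_pow_eq_self_of_coprime (x := g)
          (Nat.Coprime.coprime_dvd_right (orderOf_dvd_natCard g) hi)
        exact ⟨a, ha⟩
      rw [← ha]
      exact (Commute.pow_left (show Commute y (g ^ i) from hy).symm a).symm
    · rw [Subgroup.mem_centralizer_singleton_iff] at hy ⊢
      exact (Commute.pow_left (show Commute y g from hy).symm i).symm
  have hA : ∀ χ : IrrCharacter G, (S.card : ℝ) ≤ ∑ x ∈ S, ‖(χ : G → ℂ) x‖ ^ 2 := fun χ =>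
    card_le_sum_normSq hN dvd_rfl (cycPoly_character (isCharacter_of_irr χ.2)) S hS (hne χ)
  have htot : ∑ χ : IrrCharacter G, ∑ x ∈ S, ‖(χ : G → ℂ) x‖ ^ 2 = (S.card : ℝ) * Nat.card P := by
    rw [Finset.sum_comm, Finset.sum_congr rfl fun x hx => by rw [sum_normSq_col, hcen x hx],
      Finset.sum_const, nsmul_eq_mul]
  have hSpos : (0 : ℝ) < S.card := Nat.cast_pos.2 (Finset.card_pos.2 ⟨g, hgS⟩)
  have hsum := Finset.sum_le_sum (s := Finset.univ) fun χ _ => hA χ
  rw [htot, Finset.sum_const, Finset.card_univ, ← Nat.card_eq_fintype_card, nsmul_eq_mul, mul_comm] at hsum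
  have hle := le_of_mul_le_mul_left hsum hSpos
  refine ⟨Nat.cast_le.1 hle, fun heq => ?_⟩
  have hEq : ∀ χ : IrrCharacter G, ∑ x ∈ S, ‖(χ : G → ℂ) x‖ ^ 2 = (S.card : ℝ) := fun χ => by
    refine (((Finset.sum_eq_sum_iff_of_le fun χ _ => hA χ).1 ?_) χ (Finset.mem_univ _)).symm
    rw [htot, Finset.sum_const, Finset.card_univ, ← Nat.card_eq_fintype_card, nsmul_eq_mul, heq, mul_comm]
  have hone : ∀ χ : IrrCharacter G, ‖(χ : G → ℂ) g‖ = 1 := by
    intro χ
    have h1 := card_le_sum_norm hN dvd_rfl (cycPoly_character (isCharacter_of_irr χ.2)) S hS (hne χ)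
    have h2 : ∑ x ∈ S, (‖(χ : G → ℂ) x‖ - 1) ^ 2 ≤ 0 := by
      simp only [sub_sq, mul_one, one_pow, Finset.sum_add_distrib, Finset.sum_sub_distrib, ← Finset.mul_sum,
        Finset.sum_const, nsmul_eq_mul, hEq χ]
      linarith
    have h3 := (Finset.sum_eq_zero_iff_of_nonneg fun x _ => sq_nonneg _).1
      (le_antisymm h2 (Finset.sum_nonneg fun x _ => sq_nonneg _)) g hgS
    rwa [sq_eq_zero_iff, sub_eq_zero] at h3
  have hlin : ∀ ψ : IrrCharacter (G ⧸ (P : Subgroup G)), charDegree (ψ : G ⧸ (P : Subgroup G) → ℂ) = 1 := by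
    intro ψ
    let χ : IrrCharacter G := ⟨fun x => (ψ : G ⧸ (P : Subgroup G) → ℂ) (QuotientGroup.mk' (P : Subgroup G) x),
      Clifford.isIrrCharacter_comp ψ.2 _ (QuotientGroup.mk'_surjective _)⟩
    have h := hone χ
    simp only [χ] at h
    rw [show QuotientGroup.mk' (P : Subgroup G) g = 1 from (QuotientGroup.eq_one_iff g).2 hg,
      apply_one (isCharacter_of_irr ψ.2), Complex.norm_natCast] at h
    exact_mod_cast h
  intro x hx
  by_contra hxP
  have hx' : QuotientGroup.mk' (P : Subgroup G) x ≠ 1 := fun h => hxP ((QuotientGroup.eq_one_iff x).1 h)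
  obtain ⟨ψ, hψ⟩ := CfsgLib.GaloisDegree.exists_apply_ne hx'
  refine hψ (CfsgLib.GaloisDegree.apply_commutator_of_linear ψ.2 (hlin ψ) ?_)
  have : (commutator G).map (QuotientGroup.mk' (P : Subgroup G)) ≤ commutator (G ⧸ (P : Subgroup G)) := by
    rw [commutator_def, commutator_def, Subgroup.map_commutator]
    exact Subgroup.commutator_mono le_top le_top
  exact this ⟨x, hx, rfl⟩

end Cfsg.Agent.S0861
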