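import Cfsg.Statements.S0865
import Cfsg.Agent.Clifford.ExtCriteria

set_option autoImplicit false
open Cfsg

namespace Cfsg.Agent.S0865

/-- Let N be a normal subgroup of the finite group G and λ a character of N of degree 1, invariant under conjugation by G, whose order (under pointwise multiplication) is coprime to the index of N. Then there is a character μ of G of degree 1 restricting to λ with the same order as λ, and μ is the only degree-1 character of G restricting to λ whose order is coprime to the index of N. -/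
theorem result {G : Type*} [Group G] [Finite G] (N : Subgroup G) [hN : N.Normal] (lam : N → ℂ) (hlam : Cfsg.IsCharacter N lam ∧ lam 1 = 1) (hinv : ∀ (g : G) (n : N), lam ⟨g * n * g⁻¹, hN.conj_mem (n : G) n.2 g⟩ = lam n) (hcop : Nat.Coprime N.index (orderOf lam)) : ∃ μ : G → ℂ, (Cfsg.IsCharacter G μ ∧ μ 1 = 1 ∧ (∀ n : N, μ n = lam n) ∧ orderOf μ = orderOf lam) ∧ ∀ μ' : G → ℂ, Cfsg.IsCharacter G μ' ∧ μ' 1 = 1 → (∀ n : N, μ' n = lam n) → Nat.Coprime N.index (orderOf μ') → μ' = μ := by
  obtain ⟨lam', rfl⟩ := CfsgLib.Clifford.exists_hom_of_linear hlam.1 hlam.2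
  set o := orderOf fun n => lam' n with ho
  obtain ⟨f, hf, hfo⟩ := CfsgLib.Clifford.exists_coprime_linearExtension lam' hinv
    (o := o) (fun n => congrFun (pow_orderOf_eq_one fun n => lam' n) n) hcop
  have hord : orderOf (fun g => f g) = o := by
    refine Nat.dvd_antisymm (orderOf_dvd_of_pow_eq_one (funext hfo)) (orderOf_dvd_of_pow_eq_one (funext fun n => ?_))
    have h := congrFun (pow_orderOf_eq_one fun g => f g) (n : G)
    simp only [Pi.pow_apply, Pi.one_apply] at h ⊢
    rwa [hf] at h
  refine ⟨fun g => f g, ⟨CfsgLib.Clifford.isCharacter_of_hom f, map_one f, hf, hord⟩, fun μ' hμ' hres hcop' => ?_⟩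
  obtain ⟨f', rfl⟩ := CfsgLib.Clifford.exists_hom_of_linear hμ'.1 hμ'.2
  funext g
  have hne : f g ≠ 0 := fun h => by
    have := map_mul f g g⁻¹
    rw [mul_inv_cancel, map_one, h, zero_mul] at this
    exact one_ne_zero this
  have h1 : (f' g / f g) ^ N.index = 1 := by
    rw [div_pow, ← map_pow, ← map_pow, div_eq_one_iff_eq (by rw [map_pow]; exact pow_ne_zero _ hne)]
    exact (hres ⟨_, N.pow_index_mem g⟩).trans (hf ⟨_, N.pow_index_mem g⟩).symm
  have h2 : (f' g / f g) ^ (orderOf (fun g => f' g) * o) = 1 := by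
    have ha : f' g ^ orderOf (fun g => f' g) = 1 := congrFun (pow_orderOf_eq_one fun g => f' g) g
    rw [div_pow, pow_mul, ha, one_pow, mul_comm, pow_mul, hfo, one_pow, one_div_one]
  exact (div_eq_one_iff_eq hne).mp (CfsgLib.Clifford.eq_one_of_pow_coprime (Nat.Coprime.mul_right hcop' hcop) h1 h2)

end Cfsg.Agent.S0865
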