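import Cfsg.Statements.S0867
import Cfsg.Agent.Clifford.ExtCriteria

set_option autoImplicit false
open Cfsg

namespace Cfsg.Agent.S0867

/-- Let N be a normal subgroup of the finite group G and ϑ an irreducible character of N of degree d, invariant under conjugation by G, such that the index of N is coprime to the product of d and the determinantal order of ϑ. Then there is an irreducible character χ of G restricting to ϑ whose determinantal order equals that of ϑ, and χ is the only irreducible character of G restricting to ϑ whose determinantal order is coprime to the index of N. -/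
theorem result {G : Type*} [Group G] [Finite G] (N : Subgroup G) [hN : N.Normal] (ϑ : N → ℂ) (hϑ : Cfsg.IsIrrCharacter N ϑ) (hinv : ∀ (g : G) (n : N), ϑ ⟨g * n * g⁻¹, hN.conj_mem (n : G) n.2 g⟩ = ϑ n) (d : ℕ) (hd : ϑ 1 = d) (hcop : Nat.Coprime N.index (Cfsg.detOrder ϑ * d)) : ∃ χ : G → ℂ, (Cfsg.IsIrrCharacter G χ ∧ (∀ n : N, χ n = ϑ n) ∧ Cfsg.detOrder χ = Cfsg.detOrder ϑ) ∧ ∀ χ' : G → ℂ, Cfsg.IsIrrCharacter G χ' → (∀ n : N, χ' n = ϑ n) → Nat.Coprime N.index (Cfsg.detOrder χ') → χ' = χ := by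
  have hcd : Nat.Coprime N.index d := hcop.coprime_dvd_right (dvd_mul_left d _)
  have hco : Nat.Coprime N.index (Cfsg.detOrder ϑ) := hcop.coprime_dvd_right (dvd_mul_right _ d)
  obtain ⟨e, he⟩ := CfsgLib.Clifford.exists_detHom hϑ
  have ho : ∀ n, e n ^ Cfsg.detOrder ϑ = 1 := fun n => by
    have h := congrFun (pow_orderOf_eq_one (Cfsg.detChar ϑ)) n
    simp only [Pi.pow_apply, Pi.one_apply] at h
    rw [he] at h
    rw [Cfsg.detOrder, he]
    exact h
  have heinv : ∀ (g : G) (n : N), e ⟨g * n * g⁻¹, hN.conj_mem (n : G) n.2 g⟩ = e n := by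
    intro g n
    obtain ⟨k, σ, hσ, hσϑ⟩ := hϑ
    have h1 := CfsgLib.Clifford.detChar_eq ⟨k, σ, hσ, hσϑ⟩ σ hσϑ
    have h2 := CfsgLib.Clifford.detChar_eq ⟨k, σ, hσ, hσϑ⟩
      (σ.comp (MulAut.conjNormal g).toMonoidHom : Representation ℂ N (Fin k → ℂ)) (funext fun m => by
        change σ.character (MulAut.conjNormal g m) = ϑ m
        rw [hσϑ]
        exact (congrArg ϑ (Subtype.ext (MulAut.conjNormal_apply g m))).trans (hinv g m))
    have h3 := congrFun (h1.symm.trans h2) n
    rw [h1] at he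
    rw [← congrFun he n, ← congrFun he ⟨g * n * g⁻¹, hN.conj_mem (n : G) n.2 g⟩, h3]
    exact congrArg (fun m => LinearMap.det (σ m)) (Subtype.ext (MulAut.conjNormal_apply g n).symm)
  obtain ⟨f, hf, hfo⟩ := CfsgLib.Clifford.exists_coprime_linearExtension e heinv ho hco
  have hfN : ∀ n : N, f n = Cfsg.detChar ϑ n := fun n => by rw [hf, he]
  obtain ⟨η, hη, hηN⟩ := CfsgLib.Clifford.exists_charExtension_of_det hϑ hinv hd hcd f hfN
  obtain ⟨χ, hχ, hχN, hdet⟩ := CfsgLib.Clifford.exists_extension_with_det hϑ hd hcd hη hηN f hfN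
  have hord : Cfsg.detOrder χ = Cfsg.detOrder ϑ := by
    rw [Cfsg.detOrder, hdet]
    refine Nat.dvd_antisymm (orderOf_dvd_of_pow_eq_one (funext hfo)) (orderOf_dvd_of_pow_eq_one (funext fun n => ?_))
    have h := congrFun (pow_orderOf_eq_one fun g => f g) (n : G)
    simp only [Pi.pow_apply, Pi.one_apply] at h ⊢
    rwa [hfN] at h
  refine ⟨χ, ⟨hχ, hχN, hord⟩, fun χ' hχ' hχ'N hcop' => ?_⟩
  refine CfsgLib.Clifford.extension_unique_of_det hϑ hd hχ hχN hχ' hχ'N
    (a := Cfsg.detOrder χ * Cfsg.detOrder χ') ?_ fun g => ?_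
  · rw [hord]
    exact Nat.Coprime.mul_right hcd (Nat.Coprime.mul_right hco hcop')
  · have h1 : Cfsg.detChar χ g ^ Cfsg.detOrder χ = 1 := congrFun (pow_orderOf_eq_one (Cfsg.detChar χ)) g
    have h2 : Cfsg.detChar χ' g ^ Cfsg.detOrder χ' = 1 := congrFun (pow_orderOf_eq_one (Cfsg.detChar χ')) g
    rw [pow_mul, h1, one_pow, mul_comm, pow_mul, h2, one_pow]

end Cfsg.Agent.S0867
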