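import Cfsg.Statements.S0868
import Cfsg.Agent.Clifford.CosetAvg

set_option autoImplicit false
open scoped ComplexConjugate
open Cfsg

namespace Cfsg.Agent.S0868

/-- Let N be a normal subgroup of the finite group G, χ an irreducible character of G whose restriction ϑ to N is irreducible, and ψ an irreducible character of G. Define η on G by η g = (1 / order of N) * Σ over n in N of ψ (n * g) * conj (χ (n * g)). Then: if the restriction of ψ to N has nonzero inner product with ϑ, η is an irreducible character of G; if that inner product is zero, η vanishes identically; and if ψ = χ then η is identically 1. -/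
theorem result {G : Type*} [Group G] [Fintype G] (N : Subgroup G) [N.Normal] [Fintype N] (χ : G → ℂ) (hχ : Cfsg.IsIrrCharacter G χ) (hχN : Cfsg.IsIrrCharacter N (fun n : N => χ n)) (ψ : G → ℂ) (hψ : Cfsg.IsIrrCharacter G ψ) (η : G → ℂ) (hη : η = fun g => (Nat.card N : ℂ)⁻¹ * ∑ n : N, ψ ((n : G) * g) * conj (χ ((n : G) * g))) : (Cfsg.classInner (fun n : N => ψ n) (fun n : N => χ n) ≠ 0 → Cfsg.IsIrrCharacter G η) ∧ (Cfsg.classInner (fun n : N => ψ n) (fun n : N => χ n) = 0 → η = 0) ∧ (ψ = χ → η = fun _ => 1) := by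
  classical
  subst hη
  set θ : N → ℂ := fun n => χ n with hθdef
  have hχc := CfsgLib.CharBasics.isCharacter_of_irr hχ
  have hψc := CfsgLib.CharBasics.isCharacter_of_irr hψ
  have hone : Cfsg.IsIrrCharacter N ((fun _ => 1) * θ) := by
    have : ((fun _ => 1) * θ : N → ℂ) = θ := funext fun n => one_mul _
    rw [this]; exact hχN
  have hgal := CfsgLib.Clifford.gallagher_bijOn (G := G) (φ := fun _ : N => (1 : ℂ))
    CfsgLib.CharBasics.isIrrCharacter_one (fun g => rfl) hone hχc (fun n => rfl)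
  have h1θ : ((fun _ => 1) * θ : N → ℂ) = θ := funext fun n => one_mul _
  rw [h1θ] at hgal
  have hover : ∀ ρ : G → ℂ, Cfsg.IsIrrCharacter G ρ →
      (Cfsg.classInner (Cfsg.indFun N θ) ρ ≠ 0 ↔ Cfsg.classInner (fun n : N => ρ n) θ ≠ 0) := by
    intro ρ hρ
    rw [CfsgLib.CharBasics.classInner_indFun N θ
      (CfsgLib.CharBasics.isClassFunction (CfsgLib.CharBasics.isCharacter_of_irr hρ)),
      CfsgLib.CharBasics.classInner_comm, Ne, map_eq_zero]
  let X : G → ℂ := ψ * fun g => conj (χ g)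
  have hX : Cfsg.IsCharacter G X := CfsgLib.CharBasics.isCharacter_mul hψc (CfsgLib.CharBasics.isCharacter_star hχc)
  have := Fintype.ofFinite (Cfsg.IrrCharacter G)
  have hη : ∀ g : G, (Nat.card N : ℂ)⁻¹ * ∑ n : N, ψ ((n : G) * g) * conj (χ ((n : G) * g)) =
      ∑ β : Cfsg.IrrCharacter G, if (∀ n ∈ N, (β : G → ℂ) n = (β : G → ℂ) 1) then
        Cfsg.classInner ψ ((β : G → ℂ) * χ) * (β : G → ℂ) g else 0 := by
    intro g
    have h1 : ∀ x, ψ x * conj (χ x) = ∑ β : Cfsg.IrrCharacter G,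
        Cfsg.classInner X (β : G → ℂ) * (β : G → ℂ) x := by
      intro x
      have := congrFun (CfsgLib.CharBasics.classFun_expand (CfsgLib.CharBasics.isClassFunction hX)) x
      simpa [X, Finset.sum_apply] using this
    rw [Finset.sum_congr rfl (fun n _ => h1 _), Finset.sum_comm, Finset.mul_sum]
    refine Finset.sum_congr rfl fun β _ => ?_
    rw [← Finset.mul_sum]
    split_ifs with hk
    · have hin : Cfsg.classInner X (β : G → ℂ) = Cfsg.classInner ψ ((β : G → ℂ) * χ) := by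
        simp only [CfsgLib.CharBasics.classInner_eq, X, Pi.mul_apply, map_mul]
        congr 1
        exact Finset.sum_congr rfl fun x _ => by ring
      have hβn : ∀ n : N, (β : G → ℂ) ((n : G) * g) = (β : G → ℂ) g := fun n =>
        CfsgLib.CharBasics.apply_mul_of_apply_eq (CfsgLib.CharBasics.isCharacter_of_irr β.2) (hk n n.2) g
      rw [hin, Finset.sum_congr rfl (fun n _ => hβn n), Finset.sum_const, nsmul_eq_mul, Finset.card_univ,
        ← Nat.card_eq_fintype_card, mul_left_comm,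
        inv_mul_cancel_left₀ (Nat.cast_ne_zero.mpr Nat.card_pos.ne')]
    · rw [CfsgLib.Clifford.coset_sum_eq_zero β.2 hk, mul_zero, mul_zero]
  have hB : ∀ β : Cfsg.IrrCharacter G, (∀ n ∈ N, (β : G → ℂ) n = (β : G → ℂ) 1) →
      Cfsg.IsIrrCharacter G ((β : G → ℂ) * χ) ∧ Cfsg.classInner (fun n : N => ((β : G → ℂ) * χ) n) θ ≠ 0 := by
    intro β hk
    have h2 := hgal.mapsTo (⟨β.2, (CfsgLib.Clifford.mem_over_one_iff β.2).mpr hk⟩ :
      (β : G → ℂ) ∈ {b : G → ℂ | Cfsg.IsIrrCharacter G b ∧ Cfsg.classInner (Cfsg.indFun N fun _ => 1) b ≠ 0})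
    exact ⟨h2.1, (hover _ h2.1).mp h2.2⟩
  have hpos : ∀ β₀ : Cfsg.IrrCharacter G, (∀ n ∈ N, (β₀ : G → ℂ) n = (β₀ : G → ℂ) 1) → (β₀ : G → ℂ) * χ = ψ →
      (fun g => (Nat.card N : ℂ)⁻¹ * ∑ n : N, ψ ((n : G) * g) * conj (χ ((n : G) * g))) = (β₀ : G → ℂ) := by
    intro β₀ hk0 heq
    funext g
    rw [hη g, Finset.sum_eq_single β₀, if_pos hk0, heq, CfsgLib.CharBasics.classInner_self hψ, one_mul]
    · intro β _ hne
      split_ifs with hk
      · rw [CfsgLib.CharBasics.classInner_ne hψ (hB β hk).1, zero_mul]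
        intro h
        exact hne (Subtype.ext (hgal.injOn ⟨β.2, (CfsgLib.Clifford.mem_over_one_iff β.2).mpr hk⟩
          ⟨β₀.2, (CfsgLib.Clifford.mem_over_one_iff β₀.2).mpr hk0⟩ (h.symm.trans heq.symm)))
      · rfl
    · simp
  refine ⟨fun h => ?_, fun h => ?_, fun h => ?_⟩
  · obtain ⟨β, ⟨hβ, hβ1⟩, hβψ⟩ := hgal.surjOn (⟨hψ, (hover ψ hψ).mpr h⟩ :
      ψ ∈ {b : G → ℂ | Cfsg.IsIrrCharacter G b ∧ Cfsg.classInner (Cfsg.indFun N θ) b ≠ 0})
    rw [hpos ⟨β, hβ⟩ ((CfsgLib.Clifford.mem_over_one_iff hβ).mp hβ1) hβψ]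
    exact hβ
  · funext g
    rw [hη g]
    refine Finset.sum_eq_zero fun β _ => ?_
    split_ifs with hk
    · obtain ⟨hirr, hcon⟩ := hB β hk
      rw [CfsgLib.CharBasics.classInner_ne hψ hirr, zero_mul]
      intro e
      exact hcon (by rw [← e]; exact h)
    · rfl
  · exact hpos CfsgLib.CharBasics.oneChar (fun n _ => rfl) (by rw [h]; funext g; exact one_mul _)

end Cfsg.Agent.S0868
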