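import Cfsg.Statements.S0869
import Mathlib
-- import your own Cfsg.Agent.* helpers here

set_option autoImplicit false
open Cfsg

namespace Cfsg.Agent.S0869

/-- Let S be a nonempty finite type and R an additive subgroup of the integer-valued functions on S that is closed under pointwise multiplication. If the constant function 1 is not in R, then there exist a point x of S and a prime p such that p divides f x for every f in R. -/
theorem result {S : Type*} [Finite S] [Nonempty S] (R : AddSubgroup (S → ℤ)) (hmul : ∀ f ∈ R, ∀ g ∈ R, f * g ∈ R) (h1 : (1 : S → ℤ) ∉ R) : ∃ (x : S) (p : ℕ), p.Prime ∧ ∀ f ∈ R, (p : ℤ) ∣ f x := by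
  classical
  by_contra hcon
  push Not at hcon
  have key : ∀ x : S, ∃ f ∈ R, f x = 1 := by
    intro x
    obtain ⟨d, hd⟩ := Int.subgroup_cyclic (R.map (Pi.evalAddMonoidHom (fun _ : S => ℤ) x))
    have hu : d.natAbs = 1 := by
      by_contra hne
      obtain ⟨p, hp, hpd⟩ := Nat.exists_prime_and_dvd hne
      obtain ⟨f, hf, hfp⟩ := hcon x p hp
      apply hfp
      have : f x ∈ AddSubgroup.closure ({d} : Set ℤ) := hd ▸ ⟨f, hf, rfl⟩
      rw [AddSubgroup.mem_closure_singleton] at this
      obtain ⟨m, hm⟩ := this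
      rw [← hm, smul_eq_mul]
      exact Dvd.dvd.mul_left (Int.natCast_dvd.mpr hpd) m
    have : (1 : ℤ) ∈ R.map (Pi.evalAddMonoidHom (fun _ : S => ℤ) x) := by
      rw [hd, AddSubgroup.mem_closure_singleton]
      rcases Int.natAbs_eq_iff.mp hu with h | h <;> subst h
      · exact ⟨1, by simp⟩
      · exact ⟨-1, by simp⟩
    exact this
  have main : ∀ T : Finset S, ∃ g ∈ R, ∀ x ∈ T, g x = 1 := by
    intro T
    induction T using Finset.induction_on with
    | empty => exact ⟨0, R.zero_mem, by simp⟩
    | insert a T _ ih =>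
      obtain ⟨g, hg, hgT⟩ := ih
      obtain ⟨f, hf, hfa⟩ := key a
      refine ⟨g + f - g * f, R.sub_mem (R.add_mem hg hf) (hmul g hg f hf), ?_⟩
      intro x hx
      simp only [Pi.add_apply, Pi.sub_apply, Pi.mul_apply]
      rcases Finset.mem_insert.mp hx with rfl | hx
      · rw [hfa]; ring
      · rw [hgT x hx]; ring
  have := Fintype.ofFinite S
  obtain ⟨g, hg, hg1⟩ := main Finset.univ
  exact h1 (by convert hg using 1; funext x; exact (hg1 x (Finset.mem_univ x)).symm)

end Cfsg.Agent.S0869
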