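import Cfsg.Statements.S0870
import Mathlib
import Cfsg.Agent.IndFun.PermRing

set_option autoImplicit false
open Cfsg

namespace Cfsg.Agent.S0870

/-- For subgroups H and K of a finite group G, the pointwise product of the functions induced from the constant function 1 on H and on K is a sum, over subgroups U of H with natural-number coefficients, of the functions induced from the constant function 1 on U. -/
theorem result {G : Type*} [Group G] [Fintype G] (H K : Subgroup G) : ∃ a : Subgroup G → ℕ, (∀ U, a U ≠ 0 → U ≤ H) ∧ Cfsg.indFun H (fun _ => 1) * Cfsg.indFun K (fun _ => 1) = ∑ U : Subgroup G, (a U : ℂ) • Cfsg.indFun U (fun _ => 1) := by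
  classical
  obtain ⟨a, ha, hd⟩ := CfsgLib.IndFun.fixedBy_mul_decomp H K
  refine ⟨a, ha, ?_⟩
  funext g
  simp only [Pi.mul_apply, Finset.sum_apply, Pi.smul_apply, smul_eq_mul, CfsgLib.IndFun.indFun_const_one_eq_card_fixedBy,
    ← Nat.cast_mul, ← Nat.cast_sum]
  exact congrArg _ (hd g)

end Cfsg.Agent.S0870
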