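import Cfsg.Statements.S0871
import Mathlib
import Cfsg.Agent.IndFun.PermRing

set_option autoImplicit false
open Cfsg

namespace Cfsg.Agent.S0871

/-- Let x be an element of the finite group G and p a prime. Then there is a subgroup H having a cyclic normal subgroup C of order prime to p and p-power index in H, such that the value at x of the function induced from the constant function 1 on H is a natural number not divisible by p. -/
theorem result {G : Type*} [Group G] [Fintype G] (x : G) (p : ℕ) (hp : p.Prime) : ∃ H : Subgroup G, (∃ C : Subgroup G, C ≤ H ∧ H ≤ Subgroup.normalizer (C : Set G) ∧ IsCyclic C ∧ Nat.Coprime (Nat.card C) p ∧ ∃ k : ℕ, C.relIndex H = p ^ k) ∧ ∃ n : ℕ, Cfsg.indFun H (fun _ => 1) x = (n : ℂ) ∧ ¬ p ∣ n := by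
  classical
  have := Fact.mk hp
  have hfo : IsOfFinOrder x := isOfFinOrder_of_finite x
  set n := orderOf x with hn
  set P := ordProj[p] n with hPdef
  set m := ordCompl[p] n with hmdef
  have hn0 : n ≠ 0 := (orderOf_pos x).ne'
  have hcop : Nat.Coprime m P := Nat.Coprime.pow_right _ (Nat.coprime_ordCompl hp hn0).symm
  have hPm : P * m = n := Nat.ordProj_mul_ordCompl_eq_self n p
  obtain ⟨s, hs1, hs2⟩ : ∃ s, s ≡ 1 [MOD P] ∧ s ≡ 0 [MOD m] := ⟨_, (Nat.chineseRemainder hcop.symm 1 0).2⟩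
  obtain ⟨t, ht1, ht2⟩ : ∃ t, t ≡ 0 [MOD P] ∧ t ≡ 1 [MOD m] := ⟨_, (Nat.chineseRemainder hcop.symm 0 1).2⟩
  have hxuv : x ^ s * x ^ t = x := by
    rw [← pow_add]
    conv_rhs => rw [← pow_one x]
    rw [pow_eq_pow_iff_modEq, ← hn, ← hPm]
    exact (Nat.modEq_and_modEq_iff_modEq_mul hcop.symm).mp
      ⟨by simpa using hs1.add ht1, by simpa using hs2.add ht2⟩
  set u := x ^ s with hu
  set v := x ^ t with hv
  have hup : u ^ P = 1 := by
    rw [hu, ← pow_mul, ← orderOf_dvd_iff_pow_eq_one, ← hn, ← hPm, mul_comm s]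
    exact mul_dvd_mul_left P (Nat.modEq_zero_iff_dvd.mp hs2)
  have hvm : v ^ m = 1 := by
    rw [hv, ← pow_mul, ← orderOf_dvd_iff_pow_eq_one, ← hn, ← hPm, mul_comm P, mul_comm t]
    exact mul_dvd_mul_left m (Nat.modEq_zero_iff_dvd.mp ht1)
  set C := Subgroup.zpowers v with hC
  set N := Subgroup.normalizer (C : Set G) with hN
  have hCN : C ≤ N := Subgroup.le_normalizer
  set C' := C.subgroupOf N with hC'
  have hC'n : C'.Normal := Subgroup.normal_in_normalizer
  have huN : u ∈ N := by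
    refine Subgroup.centralizer_le_normalizer _ (Subgroup.mem_centralizer_iff.mpr ?_)
    intro c hc
    obtain ⟨k, rfl⟩ := Subgroup.mem_zpowers_iff.mp hc
    exact ((Commute.pow_pow_self x t s).zpow_left k).eq
  have hupg : IsPGroup p (Subgroup.zpowers (⟨u, huN⟩ : N)) := by
    obtain ⟨k, -, hk⟩ := (Nat.dvd_prime_pow hp).mp (orderOf_dvd_of_pow_eq_one hup)
    exact IsPGroup.of_card (n := k) (by rw [Nat.card_zpowers, Subgroup.orderOf_mk, hk])
  obtain ⟨S, hS⟩ := hupg.exists_le_sylow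
  set H' := C' ⊔ (S : Subgroup N) with hH'
  have hcoC : Nat.Coprime (Nat.card C) p := by
    rw [hC, Nat.card_zpowers]
    exact Nat.Coprime.of_dvd_left (orderOf_dvd_of_pow_eq_one hvm) (Nat.coprime_ordCompl hp hn0).symm
  obtain ⟨k, hk⟩ : ∃ k, C'.relIndex H' = p ^ k := by
    obtain ⟨j, hj⟩ := IsPGroup.iff_card.mp S.2
    have h : C'.relIndex H' ∣ p ^ j := by
      rw [hH', Subgroup.relIndex_sup_left, ← hj]
      exact Subgroup.relIndex_dvd_card _ _
    obtain ⟨k, -, hk⟩ := (Nat.dvd_prime_pow hp).mp h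
    exact ⟨k, hk⟩
  refine ⟨H'.map N.subtype, ⟨C, ?_, ?_, ?_, hcoC, k, ?_⟩, _, CfsgLib.IndFun.indFun_const_one_eq_card_fixedBy _ x, ?_⟩
  · intro c hc
    exact ⟨⟨c, hCN hc⟩, Subgroup.mem_sup_left hc, rfl⟩
  · exact Subgroup.map_subtype_le H'
  · exact Subgroup.isCyclic_zpowers v
  · rw [← Subgroup.map_subgroupOf_eq_of_le hCN, Subgroup.relIndex_map_map_of_injective _ _ N.subtype_injective]
    exact hk
  set H := H'.map N.subtype with hH
  have hCH : C ≤ H := fun c hc => ⟨⟨c, hCN hc⟩, Subgroup.mem_sup_left hc, rfl⟩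
  have hvC : ∀ w ∈ H, w ^ m = 1 → w ∈ C := by
    rintro w ⟨w', hw', rfl⟩ hwm
    have h1 : orderOf (QuotientGroup.mk' (C'.subgroupOf H') (⟨w', hw'⟩ : H')) = 1 := by
      apply Nat.eq_one_of_dvd_coprimes (a := p ^ k) (b := m)
      · exact Nat.Coprime.pow_left _ (Nat.coprime_ordCompl hp hn0)
      · rw [← hk]
        exact orderOf_dvd_natCard _
      · refine dvd_trans (orderOf_map_dvd _ _) (orderOf_dvd_of_pow_eq_one ?_)
        exact Subtype.ext (Subtype.ext (by simpa using hwm))
    rw [orderOf_eq_one_iff, QuotientGroup.mk'_apply, QuotientGroup.eq_one_iff] at h1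
    exact h1
  have hfv : ∀ g : G, (g : G ⧸ H) ∈ MulAction.fixedBy (G ⧸ H) v ↔ g ∈ N := by
    intro g
    rw [CfsgLib.IndFun.mk_mem_fixedBy_iff]
    constructor
    · intro h
      have h1 := hvC _ h (by
        have : g⁻¹ * v * g = g⁻¹ * v * (g⁻¹)⁻¹ := by rw [inv_inv]
        rw [this, conj_pow, hvm, mul_one, mul_inv_cancel])
      have hsub : C.map (MulAut.conj g⁻¹).toMonoidHom ≤ C := by
        rw [hC, MonoidHom.map_zpowers, Subgroup.zpowers_le]
        simpa using h1
      have heq : C.map (MulAut.conj g⁻¹).toMonoidHom = C :=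
        Subgroup.eq_of_le_of_card_ge hsub (Subgroup.card_map_of_injective (MulAut.conj g⁻¹).injective).ge
      have hg : g⁻¹ ∈ N := by
        rw [hN, Subgroup.mem_normalizer_iff_map_conj_eq]
        exact heq
      simpa using N.inv_mem hg
    · intro hg
      exact hCH (by simpa using (Subgroup.mem_normalizer_iff.mp (N.inv_mem hg) v).mp (Subgroup.mem_zpowers v))
  letI : MulAction (Subgroup.zpowers u) (MulAction.fixedBy (G ⧸ H) v) :=
    { smul := fun w q => ⟨(w : G) • q.1, by
        obtain ⟨j, hj⟩ := Subgroup.mem_zpowers_iff.mp w.2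
        have hc : v * (w : G) = (w : G) * v := by
          rw [← hj]; exact ((Commute.pow_pow_self x t s).zpow_right j).eq
        rw [MulAction.mem_fixedBy, ← mul_smul, hc, mul_smul, q.2]⟩
      one_smul := fun q => Subtype.ext (one_smul G q.1)
      mul_smul := fun a b q => Subtype.ext (mul_smul (a : G) (b : G) q.1) }
  have hzp : IsPGroup p (Subgroup.zpowers u) := by
    obtain ⟨k, -, hk⟩ := (Nat.dvd_prime_pow hp).mp (orderOf_dvd_of_pow_eq_one hup)
    exact IsPGroup.of_card (n := k) (by rw [Nat.card_zpowers, hk])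
  have hmod := hzp.card_modEq_card_fixedPoints (MulAction.fixedBy (G ⧸ H) v)
  have efix : MulAction.fixedPoints (Subgroup.zpowers u) (MulAction.fixedBy (G ⧸ H) v) ≃ MulAction.fixedBy (G ⧸ H) x :=
    { toFun := fun q => ⟨q.1.1, by
        have h1 := congrArg Subtype.val (q.2 ⟨u, Subgroup.mem_zpowers u⟩)
        rw [MulAction.mem_fixedBy, ← hxuv, mul_smul, q.1.2]
        exact h1⟩
      invFun := fun q => ⟨⟨q.1, MulAction.mem_fixedBy.mpr (MulAction.mem_stabilizer_iff.mp
          (pow_mem (MulAction.mem_stabilizer_iff.mpr q.2 : x ∈ MulAction.stabilizer G q.1) t))⟩, fun w => by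
        refine Subtype.ext ?_
        have hx : x ∈ MulAction.stabilizer G q.1 := q.2
        exact MulAction.mem_stabilizer_iff.mp ((Subgroup.zpowers_le.mpr (pow_mem hx s)) w.2)⟩
      left_inv := fun q => rfl
      right_inv := fun q => rfl }
  rw [Nat.card_congr efix] at hmod
  have hcv : Nat.card (MulAction.fixedBy (G ⧸ H) v) = H'.index := by
    refine (Nat.card_congr (Equiv.ofBijective (fun q : N ⧸ H' => (⟨Quotient.map' (fun g : N => (g : G))
      (fun a b h => by
        rw [QuotientGroup.leftRel_apply] at h ⊢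
        exact ⟨_, h, rfl⟩) q, ?_⟩ : MulAction.fixedBy (G ⧸ H) v)) ⟨?_, ?_⟩)).symm
    · obtain ⟨g, rfl⟩ := QuotientGroup.mk_surjective q
      exact (hfv g).mpr g.2
    · intro a b hab
      obtain ⟨g, rfl⟩ := QuotientGroup.mk_surjective a
      obtain ⟨g', rfl⟩ := QuotientGroup.mk_surjective b
      rw [Subtype.mk.injEq] at hab
      change ((g : G) : G ⧸ H) = ((g' : G) : G ⧸ H) at hab
      rw [QuotientGroup.eq, hH] at hab
      obtain ⟨w, hw, hw'⟩ := hab
      rw [QuotientGroup.eq]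
      have hw2 : g⁻¹ * g' = w := Subtype.ext hw'.symm
      rw [hw2]; exact hw
    · rintro ⟨q, hq⟩
      obtain ⟨g, rfl⟩ := QuotientGroup.mk_surjective q
      exact ⟨((⟨g, (hfv g).mp hq⟩ : N) : N ⧸ H'), rfl⟩
  intro hdvd
  have h1 : p ∣ H'.index := by
    rw [← hcv]
    exact Nat.modEq_zero_iff_dvd.mp (hmod.trans (Nat.modEq_zero_iff_dvd.mpr hdvd))
  exact S.not_dvd_index (h1.trans (Subgroup.index_dvd_of_le le_sup_right))

end Cfsg.Agent.S0871
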