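import Cfsg.Statements.S0872
import Mathlib
import Cfsg.Agent.IndFun.PermRing
import Cfsg.Agent.S0871

set_option autoImplicit false
open Cfsg

namespace Cfsg.Agent.S0872

/-- For a finite group G and a prime p there are an integer m not divisible by p and a ℤ-linear combination of functions induced from the constant function 1 on subgroups H, each having a cyclic normal subgroup of order prime to p and p-power index in H, that equals the constant function m. -/
theorem result {G : Type*} [Group G] [Fintype G] (p : ℕ) (hp : p.Prime) : ∃ (m : ℤ) (a : Subgroup G → ℤ), ¬ (p : ℤ) ∣ m ∧ (∀ H, a H ≠ 0 → (∃ C : Subgroup G, C ≤ H ∧ H ≤ Subgroup.normalizer (C : Set G) ∧ IsCyclic C ∧ Nat.Coprime (Nat.card C) p ∧ ∃ k : ℕ, C.relIndex H = p ^ k)) ∧ (fun _ : G => (m : ℂ)) = ∑ H : Subgroup G, (a H : ℂ) • Cfsg.indFun H (fun _ => 1) := by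
  classical
  let Q : Subgroup G → Prop := fun H => ∃ C : Subgroup G, C ≤ H ∧ H ≤ Subgroup.normalizer (C : Set G) ∧ IsCyclic C ∧
    Nat.Coprime (Nat.card C) p ∧ ∃ k : ℕ, C.relIndex H = p ^ k
  let π : Subgroup G → G → ℤ := fun H g => (Nat.card (MulAction.fixedBy (G ⧸ H) g) : ℤ)
  let M : Submodule ℤ (G → ℤ) := Submodule.span ℤ (π '' {H | Q H})
  have hQmono : ∀ H U, Q H → U ≤ H → Q U := by
    rintro H U ⟨C, hCH, hHN, hcyc, hco, k, hk⟩ hUH
    refine ⟨C ⊓ U, inf_le_right, ?_, ?_, hco.of_dvd_left (Subgroup.card_dvd_of_le inf_le_left), ?_⟩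
    · intro y hy
      rw [Subgroup.mem_normalizer_iff]
      intro z
      have h1 := Subgroup.mem_normalizer_iff.mp (hHN (hUH hy)) z
      constructor
      · rintro ⟨hzC, hzU⟩
        exact ⟨h1.mp hzC, U.mul_mem (U.mul_mem hy hzU) (U.inv_mem hy)⟩
      · rintro ⟨hzC, hzU⟩
        refine ⟨h1.mpr hzC, ?_⟩
        simpa [mul_assoc] using U.mul_mem (U.mul_mem (U.inv_mem hy) hzU) hy
    · exact isCyclic_of_injective (Subgroup.inclusion (inf_le_left : C ⊓ U ≤ C)) (Subgroup.inclusion_injective _)
    · rw [Subgroup.inf_relIndex_right]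
      have hd : C.relIndex U ∣ C.relIndex H := by
        have hn : (C.subgroupOf H).Normal := (Subgroup.normal_subgroupOf_iff_le_normalizer hCH).mpr hHN
        have h := Subgroup.relIndex_dvd_index_of_normal (C.subgroupOf H) (U.subgroupOf H)
        rwa [Subgroup.relIndex_subgroupOf hUH] at h
      rw [hk] at hd
      obtain ⟨j, -, hj⟩ := (Nat.dvd_prime_pow hp).mp hd
      exact ⟨j, hj⟩
  have hmul : ∀ f ∈ M, ∀ f' ∈ M, f * f' ∈ M := by
    intro f hf f' hf'
    induction hf using Submodule.span_induction with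
    | mem f hfm =>
      obtain ⟨H, hH, rfl⟩ := hfm
      induction hf' using Submodule.span_induction with
      | mem f' hfm' =>
        obtain ⟨K, hK, rfl⟩ := hfm'
        obtain ⟨a, ha, hd⟩ := CfsgLib.IndFun.fixedBy_mul_decomp H K
        have : π H * π K = ∑ U : Subgroup G, (a U : ℤ) • π U := by
          funext g
          simp only [Pi.mul_apply, Finset.sum_apply, Pi.smul_apply, smul_eq_mul, π]
          exact_mod_cast hd g
        rw [this]
        refine Submodule.sum_mem _ fun U _ => ?_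
        by_cases hU : a U = 0
        · simp [hU]
        · exact Submodule.smul_mem _ _ (Submodule.subset_span ⟨U, hQmono H U hH (ha U hU), rfl⟩)
      | zero => simp
      | add a b _ _ ha hb => rw [mul_add]; exact M.add_mem ha hb
      | smul c a _ ha => rw [mul_smul_comm]; exact M.smul_mem c ha
    | zero => simp
    | add a b _ _ ha hb => rw [add_mul]; exact M.add_mem ha hb
    | smul c a _ ha => rw [smul_mul_assoc]; exact M.smul_mem c ha
  have hpz : Prime (p : ℤ) := Nat.prime_iff_prime_int.mp hp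
  have key : ∀ x : G, ∃ f ∈ M, ¬ (p : ℤ) ∣ f x := by
    intro x
    obtain ⟨H, hH, n, hn, hnp⟩ := Cfsg.Agent.S0871.result x p hp
    refine ⟨π H, Submodule.subset_span ⟨H, hH, rfl⟩, ?_⟩
    rw [CfsgLib.IndFun.indFun_const_one_eq_card_fixedBy] at hn
    simp only [π]
    rw [Nat.cast_inj.mp hn]
    exact_mod_cast hnp
  have main : ∀ T : Finset G, ∃ (m : ℤ) (f : G → ℤ), f ∈ M ∧ ¬ (p : ℤ) ∣ m ∧ ∀ x ∈ T, f x = m := by
    intro T
    induction T using Finset.induction_on with
    | empty => exact ⟨1, 0, M.zero_mem, fun h => hpz.not_dvd_one h, by simp⟩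
    | insert a T _ ih =>
      obtain ⟨m, f, hf, hm, hT⟩ := ih
      obtain ⟨f', hf', hfa⟩ := key a
      refine ⟨f' a * m, f' a • f + m • f' - f * f', M.sub_mem (M.add_mem (M.smul_mem _ hf) (M.smul_mem _ hf'))
        (hmul f hf f' hf'), fun h => (hpz.dvd_or_dvd h).elim hfa hm, ?_⟩
      intro x hx
      simp only [Pi.add_apply, Pi.sub_apply, Pi.smul_apply, Pi.mul_apply, smul_eq_mul]
      rcases Finset.mem_insert.mp hx with rfl | hx
      · ring
      · rw [hT x hx]; ring
  obtain ⟨m, f, hf, hm, hT⟩ := main Finset.univ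
  rw [Finsupp.mem_span_image_iff_linearCombination] at hf
  obtain ⟨l, hl, hlf⟩ := hf
  refine ⟨m, l, hm, fun H hH => hl (Finsupp.mem_support_iff.mpr hH), ?_⟩
  funext g
  simp only [Finset.sum_apply, Pi.smul_apply, smul_eq_mul, CfsgLib.IndFun.indFun_const_one_eq_card_fixedBy]
  rw [← hT g (Finset.mem_univ g), ← hlf, Finsupp.linearCombination_apply,
    Finsupp.sum_fintype l (fun i a => a • π i) (fun i => zero_smul ℤ _)]
  simp [π]

end Cfsg.Agent.S0872
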