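import Cfsg.Statements.S0873
import Mathlib
import Cfsg.Agent.IndFun.Basic

set_option autoImplicit false
open Cfsg

namespace Cfsg.Agent.S0873

/-- Let C be a normal subgroup of the finite group G of order prime to p and P a p-subgroup with C ⊔ P = G. Let λ be a character of C of degree 1 invariant under conjugation by G and equal to 1 at every element of C centralized by P. Then λ is identically 1. -/
theorem result {G : Type*} [Group G] [Finite G] (p : ℕ) [Fact p.Prime] (C P : Subgroup G) [hC : C.Normal] (hP : IsPGroup p P) (hcop : Nat.Coprime (Nat.card C) p) (hCP : C ⊔ P = ⊤) (lam : C → ℂ) (hlam : Cfsg.IsCharacter C lam ∧ lam 1 = 1) (hinv : ∀ (g : G) (c : C), lam ⟨g * c * g⁻¹, hC.conj_mem (c : G) c.2 g⟩ = lam c) (hker : ∀ c : C, (c : G) ∈ Subgroup.centralizer (P : Set G) → lam c = 1) : lam = fun _ => 1 := by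
  classical
  have hp : p.Prime := Fact.out
  obtain ⟨hch, h1⟩ := hlam
  let μ := CfsgLib.IndFun.linHom hch h1
  let act : P → C → C := fun g c => ⟨(g : G) * c * (g : G)⁻¹, hC.conj_mem (c : G) c.2 g⟩
  let X := {d : C // lam d = 1}
  funext c
  let Y := {d : C // lam d = lam c}
  letI : MulAction P Y :=
    { smul := fun g d => ⟨act g d.1, (hinv g d.1).trans d.2⟩
      one_smul := fun d => Subtype.ext (Subtype.ext (show ((1 : P) : G) * (d.1 : G) * ((1 : P) : G)⁻¹ = (d.1 : G) by simp))
      mul_smul := fun g g' d => Subtype.ext (Subtype.ext (show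
        ((g * g' : P) : G) * (d.1 : G) * ((g * g' : P) : G)⁻¹ = (g : G) * ((g' : G) * (d.1 : G) * (g' : G)⁻¹) * (g : G)⁻¹ by
          simp [mul_assoc])) }
  have hY : Nat.card Y = Nat.card μ.ker := by
    refine Nat.card_congr ((Equiv.mulLeft c⁻¹).subtypeEquiv fun d => ?_)
    change lam d = lam c ↔ c⁻¹ * d ∈ μ.ker
    rw [MonoidHom.mem_ker, map_mul, map_inv, inv_mul_eq_one, Units.ext_iff, CfsgLib.IndFun.linHom_val,
      CfsgLib.IndFun.linHom_val, eq_comm]
  have hnd : ¬ p ∣ Nat.card Y := by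
    intro hd
    have : p ∣ 1 := by
      rw [← hcop.gcd_eq_one]
      exact Nat.dvd_gcd (hd.trans (hY ▸ Subgroup.card_subgroup_dvd_card _)) dvd_rfl
    exact hp.one_lt.ne' (Nat.dvd_one.mp this)
  obtain ⟨⟨d, hd⟩, hfix⟩ := hP.nonempty_fixed_point_of_prime_not_dvd_card Y hnd
  rw [← hd]
  refine hker d (Subgroup.mem_centralizer_iff.mpr fun g hg => ?_)
  have := congrArg (fun y : Y => (y.1 : G)) (hfix ⟨g, hg⟩)
  exact mul_inv_eq_iff_eq_mul.mp this

end Cfsg.Agent.S0873
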