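import Cfsg.Statements.S0874
import Cfsg.Agent.BrauerInd.Local

set_option autoImplicit false
open Cfsg CfsgLib.CharBasics

namespace Cfsg.Agent.S0874

/-- For a finite group G and a prime p there are an integer m not divisible by p and a list of triples (E, φ, c), with E a p-elementary subgroup, φ a character of E and c an integer, such that the constant function m on G equals the sum of the c • (function induced from φ). -/
theorem result {G : Type*} [Group G] [Fintype G] (p : ℕ) (hp : p.Prime) : ∃ (m : ℤ) (l : List ((E : Subgroup G) × ((E → ℂ) × ℤ))), ¬ (p : ℤ) ∣ m ∧ (∀ t ∈ l, Cfsg.IsElementary p t.1 ∧ Cfsg.IsCharacter t.1 t.2.1) ∧ (fun _ : G => (m : ℂ)) = (l.map fun t => (t.2.2 : ℂ) • Cfsg.indFun t.1 t.2.1).sum := by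
  haveI := Fact.mk hp
  obtain ⟨m, hm, hmem⟩ := CfsgLib.BrauerLocal.local_induction (G := G) p
  have key : ∀ f ∈ CfsgLib.BrauerLocal.localSpan p G,
      ∃ l : List ((E : Subgroup G) × ((E → ℂ) × ℤ)),
        (∀ t ∈ l, Cfsg.IsElementary p t.1 ∧ Cfsg.IsCharacter t.1 t.2.1) ∧
          f = (l.map fun t => (t.2.2 : ℂ) • Cfsg.indFun t.1 t.2.1).sum := by
    intro f hf
    induction hf using AddSubgroup.closure_induction with
    | mem f hf =>
      obtain ⟨E, φ, hE, hφ, rfl⟩ := hf
      exact ⟨[⟨E, φ, 1⟩], by simp [hE, hφ], by simp⟩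
    | zero => exact ⟨[], by simp, by simp⟩
    | add a b _ _ ha hb =>
      obtain ⟨la, hla, rfl⟩ := ha
      obtain ⟨lb, hlb, rfl⟩ := hb
      exact ⟨la ++ lb, fun t ht => (List.mem_append.1 ht).elim (hla t) (hlb t), by simp⟩
    | neg a _ ha =>
      obtain ⟨la, hla, rfl⟩ := ha
      refine ⟨la.map fun t => ⟨t.1, t.2.1, -t.2.2⟩, fun t ht => ?_, ?_⟩
      · obtain ⟨s, hs, rfl⟩ := List.mem_map.1 ht
        exact hla s hs
      · clear * - la
        induction la with
        | nil => simp
        | cons t la ih =>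
          simp only [List.map_cons, List.sum_cons, List.map_map] at ih ⊢
          rw [neg_add, ih, Int.cast_neg, neg_smul]
  obtain ⟨l, hl, hf⟩ := key _ hmem
  exact ⟨m, l, hm, hl, hf⟩

end Cfsg.Agent.S0874
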