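import Cfsg.Statements.S0875
import Cfsg.Agent.BrauerInd.IntSpan
import Cfsg.Agent.BrauerInd.Regular
import Cfsg.Agent.CharBasics.Extra

set_option autoImplicit false
open Cfsg

namespace Cfsg.Agent.S0875

open scoped ComplexConjugate
open CfsgLib

/-- The two parts of an element are powers of it. -/
theorem part_eq {G : Type*} [Group G] [Finite G] {m n : ℕ} (hmn : Nat.card G = m * n)
    (hcop : m.Coprime n) : ∃ e : ℕ, ∀ u v : G, Commute u v → (orderOf u).Coprime n →
      (orderOf v).Coprime m → (u * v) ^ e = v := by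
  obtain ⟨e, he0, he1⟩ := Nat.chineseRemainder hcop 0 1
  refine ⟨e, fun u v huv hu hv => ?_⟩
  have hdu : orderOf u ∣ m := hu.dvd_of_dvd_mul_right (hmn ▸ orderOf_dvd_natCard u)
  have hdv : orderOf v ∣ n := hv.dvd_of_dvd_mul_left (hmn ▸ orderOf_dvd_natCard v)
  rw [huv.mul_pow]
  have h1 : u ^ e = 1 := by
    rw [← pow_zero u]; exact pow_eq_pow_iff_modEq.2 (he0.of_dvd hdu)
  have h2 : v ^ e = v := by
    conv_rhs => rw [← pow_one v]
    exact pow_eq_pow_iff_modEq.2 (he1.of_dvd hdv)
  rw [h1, h2, one_mul]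

/-- Let G be a finite group of order m * n with m and n coprime, and g an element whose order is coprime to m. Every x in G factors uniquely as x = u * v with u, v commuting, the order of u coprime to n and the order of v coprime to m; let ϑ be the function on G equal to n at those x whose factor v is conjugate to g and equal to 0 elsewhere. Then ϑ is a linear combination of the irreducible characters of G with algebraic-integer coefficients. -/
theorem result {G : Type*} [Group G] [Fintype G] (m n : ℕ) (hmn : Nat.card G = m * n) (hcop : Nat.Coprime m n) (g : G) (hg : Nat.Coprime (orderOf g) m) (ϑ : G → ℂ) (hϑ1 : ∀ x : G, (∃ v : G, IsConj v g ∧ (∃ u : G, x = u * v ∧ Commute u v ∧ Nat.Coprime (orderOf u) n ∧ Nat.Coprime (orderOf v) m)) → ϑ x = n) (hϑ0 : ∀ x : G, (¬ ∃ v : G, IsConj v g ∧ (∃ u : G, x = u * v ∧ Commute u v ∧ Nat.Coprime (orderOf u) n ∧ Nat.Coprime (orderOf v) m)) → ϑ x = 0) : ∃ c : Cfsg.IrrCharacter G → ℂ, (∀ χ, c χ ∈ Cfsg.AlgInt) ∧ ϑ = ∑ᶠ χ : Cfsg.IrrCharacter G,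 c χ • (χ : G → ℂ) := by
  classical
  suffices h : ϑ ∈ BrauerInd.intSpan G by
    haveI := Fintype.ofFinite (Cfsg.IrrCharacter G)
    obtain ⟨hcf, hint⟩ := BrauerInd.intSpan_spec h
    refine ⟨fun χ => Cfsg.classInner ϑ (χ : G → ℂ), fun χ => hint χ, ?_⟩
    rw [finsum_eq_sum_of_fintype]
    exact CharBasics.classFun_expand hcf
  obtain ⟨e, hpart⟩ := part_eq hmn hcop
  let P : G → Prop := fun x =>
    ∃ v : G, IsConj v g ∧ (∃ u : G, x = u * v ∧ Commute u v ∧ Nat.Coprime (orderOf u) n ∧ Nat.Coprime (orderOf v) m)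
  have hϑ : ∀ x, ϑ x = if P x then (n : ℂ) else 0 := fun x => by
    by_cases h : P x
    · rw [if_pos h]; exact hϑ1 x h
    · rw [if_neg h]; exact hϑ0 x h
  have hP : ∀ x h : G, P x → P (h * x * h⁻¹) := by
    rintro x h ⟨v, hv, u, rfl, huv, hu, hv'⟩
    have ho : ∀ y : G, orderOf (h * y * h⁻¹) = orderOf y := fun y =>
      orderOf_injective (MulAut.conj h).toMonoidHom (MulAut.conj h).injective y
    refine ⟨h * v * h⁻¹, (isConj_iff.2 ⟨h, rfl⟩).symm.trans hv, h * u * h⁻¹, by group, ?_,
      by rw [ho]; exact hu, by rw [ho]; exact hv'⟩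
    show h * u * h⁻¹ * (h * v * h⁻¹) = h * v * h⁻¹ * (h * u * h⁻¹)
    have := huv.eq
    calc h * u * h⁻¹ * (h * v * h⁻¹) = h * (u * v) * h⁻¹ := by group
      _ = h * (v * u) * h⁻¹ := by rw [this]
      _ = _ := by group
  refine BrauerInd.mem_intSpan_of_elementary (fun x h => ?_) fun E hE => ?_
  · rw [hϑ, hϑ]
    refine if_congr ⟨fun hp => ?_, hP x h⟩ rfl rfl
    have := hP _ h⁻¹ hp
    simpa [mul_assoc] using this
  haveI := Fintype.ofFinite E
  obtain ⟨N, hN, hmem, ⟨c, hc⟩, hcomm⟩ := BrauerInd.exists_split hE m n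
    ((Subgroup.card_subgroup_dvd_card E).trans (dvd_of_eq hmn)) hcop
  haveI := hN
  haveI := Fintype.ofFinite N
  let S : Finset E := Finset.univ.filter fun v : E => IsConj (v : G) g
  have hSo : ∀ v ∈ S, (orderOf v).Coprime m := fun v hv => by
    obtain ⟨h, hh⟩ := isConj_iff.1 (Finset.mem_filter.1 hv).2
    rw [← Subgroup.orderOf_coe]
    rwa [← orderOf_injective (MulAut.conj h).toMonoidHom (MulAut.conj h).injective (v : G),
      show (MulAut.conj h).toMonoidHom (v : G) = g from hh]
  -- the restriction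
  have hres : ∀ x : E, ϑ x = ∑ v ∈ S, ∑ a : N, if x = (a : E) * v then (n : ℂ) else 0 := by
    intro x
    rw [hϑ]
    split_ifs with hp
    · obtain ⟨v, hv, u, hx, huv, hu, hv'⟩ := hp
      have hve : v = ((x ^ e : E) : G) := by rw [SubgroupClass.coe_pow, hx, hpart u v huv hu hv']
      have hvS : x ^ e ∈ S := Finset.mem_filter.2 ⟨Finset.mem_univ _, hve ▸ hv⟩
      have hu' : x * (x ^ e)⁻¹ ∈ N := by
        rw [hmem, ← Subgroup.orderOf_coe]
        convert hu using 2
        rw [Subgroup.coe_mul, Subgroup.coe_inv, ← hve, hx, mul_inv_cancel_right]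
      rw [Finset.sum_eq_single (x ^ e) (fun w hw hne => Finset.sum_eq_zero fun a _ => if_neg fun hxa => hne ?_)
        (fun h => absurd hvS h), Finset.sum_eq_single (⟨_, hu'⟩ : N) (fun a _ hne => if_neg fun hxa => hne ?_)
        (fun h => absurd (Finset.mem_univ _) h), if_pos (inv_mul_cancel_right x (x ^ e)).symm]
      · exact Subtype.ext (eq_mul_inv_of_mul_eq hxa.symm)
      · refine Subtype.ext ?_
        rw [SubgroupClass.coe_pow, hxa, Subgroup.coe_mul]
        refine (hpart _ _ ?_ ?_ ?_).symm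
        · have := hcomm a a.2 w (hSo w hw)
          exact congrArg Subtype.val this.eq
        · rw [Subgroup.orderOf_coe]; exact (hmem _).1 a.2
        · rw [Subgroup.orderOf_coe]; exact hSo w hw
    · refine (Finset.sum_eq_zero fun v hv => Finset.sum_eq_zero fun a _ => if_neg fun hxa => hp ?_).symm
      refine ⟨v, (Finset.mem_filter.1 hv).2, (a : E), ?_, ?_, ?_, ?_⟩
      · rw [hxa]; rfl
      · exact congrArg Subtype.val (hcomm a a.2 v (hSo v hv)).eq
      · rw [Subgroup.orderOf_coe]; exact (hmem _).1 a.2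
      · rw [Subgroup.orderOf_coe]; exact hSo v hv
  refine BrauerInd.mem_intSpan_of_inner (fun x h => ?_) fun ψ => ?_
  · show ϑ ((h * x * h⁻¹ : E) : G) = ϑ (x : G)
    rw [hϑ, hϑ, Subgroup.coe_mul, Subgroup.coe_mul, Subgroup.coe_inv]
    refine if_congr ⟨fun hp => ?_, hP _ _⟩ rfl rfl
    have := hP _ (h : G)⁻¹ hp
    simpa [mul_assoc] using this
  · have hcard : (Nat.card E : ℂ) = (N.index : ℂ) * (Nat.card N : ℂ) := by
      rw [← Nat.cast_mul, Subgroup.index_mul_card]
    have hi : (N.index : ℂ) ≠ 0 := Nat.cast_ne_zero.mpr Subgroup.index_ne_zero_of_finite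
    have hval : Cfsg.classInner (fun x : E => ϑ x) (ψ : E → ℂ) =
        (c : ℂ) * ∑ v ∈ S, conj ((Nat.card N : ℂ)⁻¹ * ∑ a : N, (ψ : E → ℂ) (v * a)) := by
      calc Cfsg.classInner (fun x : E => ϑ x) (ψ : E → ℂ)
          = (Nat.card E : ℂ)⁻¹ * ∑ v ∈ S, ∑ a : N, ∑ x : E,
              (if x = (a : E) * v then (n : ℂ) else 0) * conj ((ψ : E → ℂ) x) := by
            rw [CharBasics.classInner_eq]
            simp only [hres, Finset.sum_mul]
            rw [Finset.sum_comm]
            exact congrArg _ (Finset.sum_congr rfl fun v _ => Finset.sum_comm)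
        _ = (Nat.card E : ℂ)⁻¹ * ∑ v ∈ S, ∑ a : N, (n : ℂ) * conj ((ψ : E → ℂ) (v * a)) := by
            congr 1
            refine Finset.sum_congr rfl fun v hv => Finset.sum_congr rfl fun a _ => ?_
            rw [Finset.sum_eq_single ((a : E) * v) (fun x _ hx => by rw [if_neg hx, zero_mul]) (by simp),
              if_pos rfl, (hcomm a a.2 v (hSo v hv)).eq]
        _ = _ := by
            simp only [map_mul, map_inv₀, Complex.conj_natCast, map_sum, Finset.mul_sum]
            refine Finset.sum_congr rfl fun v _ => Finset.sum_congr rfl fun a _ => ?_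
            have hn : (n : ℂ) = (N.index : ℂ) * (c : ℂ) := by rw [hc, Nat.cast_mul]
            rw [hcard, hn]
            field_simp
    rw [hval]
    have hcint : IsIntegral ℤ (c : ℂ) := map_natCast (algebraMap ℤ ℂ) c ▸ isIntegral_algebraMap
    refine hcint.mul (IsIntegral.sum _ fun v _ => ?_)
    exact CharBasics.isIntegral_apply (CharBasics.isCharacter_star
      (CharBasics.isCharacter_cosetAvg N (CharBasics.isCharacter_of_irr ψ.2))) v

end Cfsg.Agent.S0875
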