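import Cfsg.Statements.S0876
import Cfsg.Agent.BrauerInd.RegularSep

set_option autoImplicit false
open Cfsg

namespace Cfsg.Agent.S0876

/-- Let G be a finite group, p a prime and M a maximal ideal of the ring of algebraic integers containing p. Let x, y be elements with p-parts a and b (so a⁻¹ * x and b⁻¹ * y are their p-regular parts). Then a⁻¹ * x and b⁻¹ * y are conjugate in G if and only if, for every irreducible character χ, the difference χ x - χ y lies in the local ideal at M. -/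
theorem result {G : Type*} [Group G] [Finite G] (p : ℕ) (M : Ideal Cfsg.AlgInt) (hM : Cfsg.IsPModular p M) (x y a b : G) (ha : Cfsg.IsPPart p x a) (hb : Cfsg.IsPPart p y b) : IsConj (a⁻¹ * x) (b⁻¹ * y) ↔ ∀ χ : Cfsg.IrrCharacter G, Cfsg.MemLocalIdeal M ((χ : G → ℂ) x - (χ : G → ℂ) y) := by
  obtain ⟨x', hx', hcx, hox, hrx⟩ := ha
  obtain ⟨y', hy', hcy, hoy, hry⟩ := hb
  rw [← hx', ← hy', inv_mul_cancel_left, inv_mul_cancel_left]
  have h1 : ∀ χ : Cfsg.IrrCharacter G, Cfsg.MemLocalIdeal M ((χ : G → ℂ) (a * x') - (χ : G → ℂ) x') := fun χ =>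
    CfsgLib.BrauerInd.apply_mul_sub_mem hM (CfsgLib.CharBasics.isCharacter_of_irr χ.2) hcx hox
  have h2 : ∀ χ : Cfsg.IrrCharacter G, Cfsg.MemLocalIdeal M ((χ : G → ℂ) (b * y') - (χ : G → ℂ) y') := fun χ =>
    CfsgLib.BrauerInd.apply_mul_sub_mem hM (CfsgLib.CharBasics.isCharacter_of_irr χ.2) hcy hoy
  constructor
  · intro h χ
    obtain ⟨c, hc⟩ := isConj_iff.1 h
    have e : (χ : G → ℂ) y' = (χ : G → ℂ) x' := by
      rw [← hc, CfsgLib.CharBasics.isClassFunction (CfsgLib.CharBasics.isCharacter_of_irr χ.2)]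
    have := CfsgLib.Blocks.memLocalIdeal_sub hM (h1 χ) (h2 χ)
    rwa [e, sub_sub_sub_cancel_right] at this
  · intro h
    by_contra hcon
    obtain ⟨χ, hχ⟩ := CfsgLib.BrauerInd.exists_sep hM hrx hry hcon
    refine hχ ?_
    have e : (χ : G → ℂ) x' - (χ : G → ℂ) y' = ((χ : G → ℂ) (a * x') - (χ : G → ℂ) (b * y'))
        - ((χ : G → ℂ) (a * x') - (χ : G → ℂ) x') + ((χ : G → ℂ) (b * y') - (χ : G → ℂ) y') := by ring
    rw [e]
    exact CfsgLib.Blocks.memLocalIdeal_add hM (CfsgLib.Blocks.memLocalIdeal_sub hM (h χ) (h1 χ)) (h2 χ)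

end Cfsg.Agent.S0876
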