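import Cfsg.Statements.S0878


set_option autoImplicit false
open Cfsg

namespace Cfsg.Agent.S0878

/-- Let G be a Zassenhaus group on the finite set Ω, a a point, and let H be the subgroup of the stabilizer of a consisting of the identity and the elements fixing no point other than a (given here as a subgroup of the stabilizer of order one less than the number of points whose non-identity elements fix only a; it is the Frobenius kernel of the stabilizer). Then an element outside the stabilizer of a conjugates no non-identity element of H into H, and the normalizer of H is exactly the stabilizer of a. -/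
theorem result {G Ω : Type*} [Group G] [Finite G] [MulAction G Ω] [Fintype Ω] (hZ : Cfsg.IsZassenhausGroup G Ω) (a : Ω) (H : Subgroup G) (hHa : H ≤ MulAction.stabilizer G a) (hHcard : Nat.card H + 1 = Fintype.card Ω) (hHfix : ∀ u ∈ H, u ≠ 1 → ∀ c : Ω, u • c = c → c = a) : (∀ g : G, g ∉ MulAction.stabilizer G a → ∀ u ∈ H, g * u * g⁻¹ ∈ H → u = 1) ∧ Subgroup.normalizer (H : Set G) = MulAction.stabilizer G a := by
  classical
  obtain ⟨hfaith, h2, h3, ⟨g₀, hg₀, p, q, hpq, hp, hq⟩, -⟩ := hZ
  haveI := hfaith
  haveI : Fintype G := Fintype.ofFinite G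
  have hTI : ∀ g : G, g ∉ MulAction.stabilizer G a → ∀ u ∈ H, g * u * g⁻¹ ∈ H → u = 1 := by
    intro g hg u hu hv
    by_contra h1
    refine hg (MulAction.mem_stabilizer_iff.2 (hHfix _ hv (fun h => h1 ?_) _ ?_))
    · exact conj_eq_one_iff.1 h
    · have hua : u • a = a := MulAction.mem_stabilizer_iff.1 (hHa hu)
      rw [mul_smul, mul_smul, inv_smul_smul, hua]
  have hcard3 : H ≠ ⊥ := by
    intro h
    rw [h, Subgroup.card_bot] at hHcard
    have hu : (Finset.univ : Finset Ω) = {p, q} := (Finset.eq_of_subset_of_card_le (Finset.subset_univ _)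
      (by rw [Finset.card_pair hpq, Finset.card_univ, ← hHcard])).symm
    refine hg₀ (eq_of_smul_eq_smul (α := Ω) fun c => ?_)
    rw [one_smul]
    have hc : c ∈ ({p, q} : Finset Ω) := hu ▸ Finset.mem_univ c
    simp only [Finset.mem_insert, Finset.mem_singleton] at hc
    rcases hc with rfl | rfl <;> assumption
  refine ⟨hTI, le_antisymm (fun g hg => ?_) (fun x hx => ?_)⟩
  · by_contra h
    obtain ⟨u, hu, hu1⟩ := H.bot_or_exists_ne_one.resolve_left hcard3
    exact hu1 (hTI g h u hu ((Subgroup.mem_normalizer_iff.1 hg u).1 hu))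
  have key : ∀ w : G, w • a = a → (∀ c, w • c = c → c = a) → w ∈ H := by
    intro w hwa hw
    obtain ⟨b, hb⟩ : ∃ b : Ω, b ≠ a := (em (p = a)).elim (fun h => ⟨q, fun h' => hpq (h.trans h'.symm)⟩) (fun h => ⟨p, h⟩)
    have htr : ∀ c : Ω, c ≠ a → ∃ h : H, (h : G) • b = c := by
      have hinj : Function.Injective fun h : H => (⟨(h : G) • b, fun e => hb (by
          have := congrArg ((h : G)⁻¹ • ·) e
          simp only [inv_smul_smul] at this
          rw [this]; exact MulAction.mem_stabilizer_iff.1 (hHa (H.inv_mem h.2)))⟩ : {c : Ω // c ≠ a}) := by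
        intro h k hk
        have hk' : (h : G) • b = (k : G) • b := congrArg Subtype.val hk
        by_contra hne
        refine hb (hHfix _ (H.mul_mem (H.inv_mem k.2) h.2) (fun e => hne (Subtype.ext (inv_mul_eq_one.1 e).symm)) b ?_)
        rw [mul_smul, hk', inv_smul_smul]
      have hcard : Fintype.card H = Fintype.card {c : Ω // c ≠ a} := by
        rw [Fintype.card_subtype_compl, Fintype.card_subtype_eq, ← hHcard, Nat.card_eq_fintype_card, Nat.add_sub_cancel]
      intro c hc
      obtain ⟨h, hh⟩ := ((Fintype.bijective_iff_injective_and_card _).2 ⟨hinj, hcard⟩).2 ⟨c, hc⟩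
      exact ⟨h, congrArg Subtype.val hh⟩
    let S : Finset G := Finset.univ.filter fun x => x • a = a
    let Ec : Ω → Finset G := fun c => S.filter fun x => x • c = c
    have hEc : ∀ c, c ≠ a → (Ec c).card = (Ec b).card := by
      intro c hc
      obtain ⟨h, rfl⟩ := htr c hc
      have ha' : (h : G) • a = a := MulAction.mem_stabilizer_iff.1 (hHa h.2)
      have ha'' : (h : G)⁻¹ • a = a := MulAction.mem_stabilizer_iff.1 (hHa (H.inv_mem h.2))
      refine Finset.card_bij' (fun x _ => (h : G)⁻¹ * x * h) (fun x _ => (h : G) * x * (h : G)⁻¹) (fun x hx => ?_)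
        (fun x hx => ?_) (fun x _ => by group) (fun x _ => by group)
      · simp only [Ec, S, Finset.mem_filter, Finset.mem_univ, true_and] at hx ⊢
        simp [mul_smul, ha', hx.1, ha'', hx.2]
      · simp only [Ec, S, Finset.mem_filter, Finset.mem_univ, true_and] at hx ⊢
        simp [mul_smul, ha', hx.1, ha'', hx.2]
    have hS : S.card = (Fintype.card Ω - 1) * (Ec b).card := by
      have hmaps : ∀ x ∈ S, x • b ∈ Finset.univ.erase a := fun x hx =>
        Finset.mem_erase.2 ⟨fun e => hb (MulAction.injective x (e.trans (Finset.mem_filter.1 hx).2.symm)), Finset.mem_univ _⟩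
      have hfib : ∀ c ∈ Finset.univ.erase a, (S.filter fun x => x • b = c).card = (Ec b).card := by
        intro c hc
        obtain ⟨h, rfl⟩ := htr c (Finset.mem_erase.1 hc).1
        have ha' : (h : G) • a = a := MulAction.mem_stabilizer_iff.1 (hHa h.2)
        have ha'' : (h : G)⁻¹ • a = a := MulAction.mem_stabilizer_iff.1 (hHa (H.inv_mem h.2))
        refine Finset.card_bij' (fun x _ => (h : G)⁻¹ * x) (fun x _ => (h : G) * x) (fun x hx => ?_)
          (fun x hx => ?_) (fun x _ => by group) (fun x _ => by group)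
        · simp only [Ec, S, Finset.mem_filter, Finset.mem_univ, true_and] at hx ⊢
          simp [mul_smul, ha'', hx.1, hx.2]
        · simp only [Ec, S, Finset.mem_filter, Finset.mem_univ, true_and] at hx ⊢
          simp [mul_smul, ha', hx.1, hx.2]
      rw [Finset.card_eq_sum_card_fiberwise hmaps, Finset.sum_congr rfl hfib, Finset.sum_const, smul_eq_mul,
        Finset.card_erase_of_mem (Finset.mem_univ _), Finset.card_univ]
    let B : Finset G := (Finset.univ.erase a).biUnion fun c => (Ec c).erase 1
    have hB : B.card = (Fintype.card Ω - 1) * ((Ec b).card - 1) := by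
      rw [Finset.card_biUnion, Finset.sum_congr rfl (g := fun _ => (Ec b).card - 1) (fun c hc => ?_), Finset.sum_const,
        smul_eq_mul, Finset.card_erase_of_mem (Finset.mem_univ _), Finset.card_univ]
      · rw [Finset.card_erase_of_mem (by simp [Ec, S]), hEc c (Finset.mem_erase.1 hc).1]
      · intro c hc d hd hcd
        rw [Function.onFun, Finset.disjoint_left]
        intro x hx hx'
        simp only [Ec, S, Finset.mem_erase, Finset.mem_filter, Finset.mem_univ, true_and] at hx hx'
        exact hx.1 (h3 x a c d (Finset.mem_erase.1 hc).1.symm hcd (Finset.mem_erase.1 hd).1.symm hx.2.1 hx.2.2 hx'.2.2)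
    let Hf : Finset G := Finset.univ.filter fun x => x ∈ H
    have hHf : Hf.card = Fintype.card Ω - 1 := by
      rw [← hHcard, Nat.add_sub_cancel, Nat.card_eq_fintype_card, Fintype.card_subtype]
    have hdisj : Disjoint Hf B := by
      rw [Finset.disjoint_left]
      intro x hx hx'
      simp only [Hf, B, Ec, S, Finset.mem_biUnion, Finset.mem_erase, Finset.mem_filter, Finset.mem_univ, true_and,
        and_true] at hx hx'
      obtain ⟨c, hc, hx1, -, hxc⟩ := hx'
      exact hc (hHfix x hx hx1 c hxc)
    have hall : Hf ∪ B = S := by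
      refine Finset.eq_of_subset_of_card_le (Finset.union_subset (fun x hx => ?_) (fun x hx => ?_)) ?_
      · exact Finset.mem_filter.2 ⟨Finset.mem_univ _, MulAction.mem_stabilizer_iff.1 (hHa (Finset.mem_filter.1 hx).2)⟩
      · obtain ⟨c, -, hc⟩ := Finset.mem_biUnion.1 hx
        exact (Finset.mem_filter.1 (Finset.mem_erase.1 hc).2).1
      · have he : 0 < (Ec b).card := Finset.card_pos.2 ⟨1, by simp [Ec, S]⟩
        obtain ⟨k, hk⟩ : ∃ k, (Ec b).card = k + 1 := ⟨_, (Nat.sub_add_cancel he).symm⟩
        rw [Finset.card_union_of_disjoint hdisj, hB, hHf, hS, hk, Nat.add_sub_cancel]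
        exact le_of_eq (by ring)
    have hwS : w ∈ Hf ∪ B := hall ▸ Finset.mem_filter.2 ⟨Finset.mem_univ _, hwa⟩
    rcases Finset.mem_union.1 hwS with h | h
    · exact (Finset.mem_filter.1 h).2
    · obtain ⟨c, hc, h⟩ := Finset.mem_biUnion.1 h
      exact absurd (hw c (Finset.mem_filter.1 (Finset.mem_erase.1 h).2).2) (Finset.mem_erase.1 hc).1
  have hxa : x • a = a := MulAction.mem_stabilizer_iff.1 hx
  have hconj : ∀ y : G, y • a = a → ∀ u ∈ H, y * u * y⁻¹ ∈ H := by
    intro y hy u hu
    by_cases hu1 : u = 1
    · simp [hu1]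
    have hy' : y⁻¹ • a = a := by rw [inv_smul_eq_iff, hy]
    refine key _ ?_ fun c hc => ?_
    · rw [mul_smul, mul_smul, hy', MulAction.mem_stabilizer_iff.1 (hHa hu), hy]
    · have : u • (y⁻¹ • c) = y⁻¹ • c := by
        rw [mul_smul, mul_smul] at hc
        rw [eq_inv_smul_iff, hc]
      have := hHfix u hu hu1 _ this
      rw [inv_smul_eq_iff, hy] at this
      exact this
  refine Subgroup.mem_normalizer_iff.2 fun u => ⟨hconj x hxa u, fun h => ?_⟩
  have := hconj x⁻¹ (by rw [inv_smul_eq_iff, hxa]) _ h
  simpa [mul_assoc] using this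

end Cfsg.Agent.S0878
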