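import Cfsg.Statements.S0879


set_option autoImplicit false
open Cfsg

namespace Cfsg.Agent.S0879

/-- Let G be a Zassenhaus group on the finite set Ω and E the stabilizer of two distinct points a, b. Then an element outside the normalizer of E conjugates no non-identity element of E into E, and E has index 2 in its normalizer. -/
theorem result {G Ω : Type*} [Group G] [Finite G] [MulAction G Ω] [Fintype Ω] (hZ : Cfsg.IsZassenhausGroup G Ω) {a b : Ω} (hab : a ≠ b) : (∀ g : G, g ∉ Subgroup.normalizer ((MulAction.stabilizer G a ⊓ MulAction.stabilizer G b : Subgroup G) : Set G) → ∀ x ∈ (MulAction.stabilizer G a ⊓ MulAction.stabilizer G b : Subgroup G), g * x * g⁻¹ ∈ (MulAction.stabilizer G a ⊓ MulAction.stabilizer G b : Subgroup G) → x = 1) ∧ ((MulAction.stabilizer G a ⊓ MulAction.stabilizer G b : Subgroup G).subgroupOf (Subgroup.normalizer ((MulAction.stabilizer G a ⊓ MulAction.stabilizer G b : Subgroup G) : Set G))).index = 2 :=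 by
  obtain ⟨hfaith, h2, h3, ⟨g₀, hg₀, p, q, hpq, hp, hq⟩, -⟩ := hZ
  set E : Subgroup G := MulAction.stabilizer G a ⊓ MulAction.stabilizer G b with hEdef
  have hmemE : ∀ x, x ∈ E ↔ x • a = a ∧ x • b = b := fun x => by simp [E, MulAction.mem_stabilizer_iff]
  have hmove : ∀ c d e f : Ω, c ≠ d → e ≠ f → ∃ g : G, g • c = e ∧ g • d = f := fun c d e f hcd hef =>
    (MulAction.is_two_pretransitive_iff).1 h2 hcd hef
  obtain ⟨x₀, hx₀, hx₀1⟩ : ∃ x ∈ E, x ≠ 1 := by
    obtain ⟨g, hga, hgb⟩ := hmove p q a b hpq hab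
    refine ⟨g * g₀ * g⁻¹, (hmemE _).2 ⟨?_, ?_⟩, fun h => hg₀ (conj_eq_one_iff.1 h)⟩
    · rw [← hga, mul_smul, mul_smul, inv_smul_smul, hp]
    · rw [← hgb, mul_smul, mul_smul, inv_smul_smul, hq]
  have hpair : ∀ g : G, ∀ x ∈ E, x ≠ 1 → g * x * g⁻¹ ∈ E →
      (g • a = a ∧ g • b = b) ∨ (g • a = b ∧ g • b = a) := by
    intro g x hx hx1 hy
    obtain ⟨hya, hyb⟩ := (hmemE _).1 hy
    obtain ⟨hxa, hxb⟩ := (hmemE _).1 hx
    have hy1 : g * x * g⁻¹ ≠ 1 := fun h => hx1 (conj_eq_one_iff.1 h)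
    have hfix : ∀ c, x • c = c → g • c = a ∨ g • c = b := fun c hc => by
      by_contra h
      push Not at h
      refine hy1 (h3 _ a b (g • c) hab h.2.symm h.1.symm hya hyb ?_)
      rw [mul_smul, mul_smul, inv_smul_smul, hc]
    have hne : g • a ≠ g • b := fun h => hab (MulAction.injective g h)
    rcases hfix a hxa with h | h <;> rcases hfix b hxb with h' | h'
    · exact absurd (h.trans h'.symm) hne
    · exact Or.inl ⟨h, h'⟩
    · exact Or.inr ⟨h, h'⟩
    · exact absurd (h.trans h'.symm) hne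
  have hnorm : ∀ g : G, ((g • a = a ∧ g • b = b) ∨ (g • a = b ∧ g • b = a)) →
      g ∈ Subgroup.normalizer (E : Set G) := by
    intro g hg
    refine Subgroup.mem_normalizer_iff.2 fun x => ?_
    simp only [hmemE, mul_smul, ← eq_inv_smul_iff (g := g)]
    rcases hg with ⟨h1, h2⟩ | ⟨h1, h2⟩
    · rw [inv_smul_eq_iff.2 h1.symm, inv_smul_eq_iff.2 h2.symm]
    · rw [inv_smul_eq_iff.2 h1.symm, inv_smul_eq_iff.2 h2.symm, and_comm]
  refine ⟨fun g hg x hx hy => ?_, ?_⟩
  · by_contra hx1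
    exact hg (hnorm g (hpair g x hx hx1 hy))
  obtain ⟨t, hta, htb⟩ := hmove a b b a hab hab.symm
  rw [Subgroup.index_eq_two_iff]
  refine ⟨⟨t, hnorm t (Or.inr ⟨hta, htb⟩)⟩, fun g => ?_⟩
  simp only [Subgroup.mem_subgroupOf, Subgroup.coe_mul, hmemE, mul_smul, hta, htb]
  rcases hpair g x₀ hx₀ hx₀1 ((Subgroup.mem_normalizer_iff.1 g.2 x₀).1 hx₀) with ⟨h1, h2⟩ | ⟨h1, h2⟩ <;>
    simp [h1, h2, hab, hab.symm, Xor', xor_def]

end Cfsg.Agent.S0879
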