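import Cfsg.Statements.S0880
import Cfsg.Agent.ZGrp.Counts

set_option autoImplicit false
open Cfsg

namespace Cfsg.Agent.S0880

/-- Let G be a finite simple Zassenhaus group on Ω with n points whose two-point stabilizer E has odd order less than n - 2. Then there are two elements of G, each fixing no point of Ω, that are not conjugate. -/
theorem result {G Ω : Type*} [Group G] [Finite G] [MulAction G Ω] [Fintype Ω] (hZ : Cfsg.IsZassenhausGroup G Ω) {a b : Ω} (hab : a ≠ b) [IsSimpleGroup G] (hodd : Odd (Nat.card ↥(MulAction.stabilizer G a ⊓ MulAction.stabilizer G b : Subgroup G))) (hlt : Nat.card ↥(MulAction.stabilizer G a ⊓ MulAction.stabilizer G b : Subgroup G) < Fintype.card Ω - 2) : ∃ x y : G, (∀ c : Ω, x • c ≠ c) ∧ (∀ c : Ω, y • c ≠ c) ∧ ¬ IsConj x y := by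
  classical
  haveI : Fintype G := Fintype.ofFinite G
  have hn := CfsgLib.ZGrp.four_le_card hZ hab
  have he3 := CfsgLib.ZGrp.three_le_card_pst hZ hab hodd
  have hG := CfsgLib.ZGrp.card_group hZ hab
  have hN := CfsgLib.ZGrp.two_mul_card_fpf hZ hab
  set e := Nat.card ↥(MulAction.stabilizer G a ⊓ MulAction.stabilizer G b : Subgroup G)
  set n := Fintype.card Ω
  set N := Nat.card {g : G // ∀ c : Ω, g • c ≠ c}
  obtain ⟨m, hm⟩ : ∃ m, n = m + 2 := ⟨n - 2, by omega⟩
  rw [hm, show m + 2 - 1 = m + 1 from rfl] at hG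
  rw [hm, Nat.add_sub_cancel, show m + 2 - 1 = m + 1 from rfl, hG] at hN
  have hem : e < m := by omega
  by_contra hc
  push Not at hc
  have hNpos : 0 < N := by
    rcases Nat.eq_zero_or_pos N with h | h
    · rw [h] at hN; nlinarith
    · exact h
  obtain ⟨x, hx⟩ : ∃ x : G, ∀ c : Ω, x • c ≠ c :=
    (Nat.card_pos_iff.1 hNpos).1.elim fun x => ⟨x.1, x.2⟩
  have hcl : Nat.card {y : G // IsConj x y} = N := by
    refine Nat.card_congr (Equiv.subtypeEquivRight fun y => ⟨fun h c hyc => ?_, fun h => hc x y hx h⟩)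
    obtain ⟨g, rfl⟩ := isConj_iff.1 h
    exact hx _ (CfsgLib.ZGrp.conj_smul_eq_iff.1 hyc)
  have hmul := CfsgLib.ZGrp.card_conjugates_mul x
  rw [hcl, hG] at hmul
  set k := Nat.card (Subgroup.centralizer ({x} : Set G))
  rcases (by omega : k = 0 ∨ k = 1 ∨ k = 2 ∨ 3 ≤ k) with h | h | h | h
  · rw [h] at hmul; nlinarith
  · rw [h] at hmul; nlinarith
  · rw [h] at hmul; nlinarith
  · have h3 : 3 * N ≤ k * N := Nat.mul_le_mul_right N h
    nlinarith

end Cfsg.Agent.S0880
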