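import Cfsg.Statements.S0881
import Cfsg.Agent.ZGrp.Invol
import Cfsg.Agent.CharBasics.Induced
import Cfsg.Agent.CharBasics.Ortho
import Cfsg.Agent.CharBasics.CyclicTI
import Cfsg.Agent.IndFun.Basic

set_option autoImplicit false
open Cfsg

namespace Cfsg.Agent.S0881

/-- Let G be a finite simple Zassenhaus group on Ω with n points, a ≠ b points with two-point stabilizer E of odd order less than n - 2, and let H be the subgroup of the stabilizer of a consisting of the identity and the elements fixing no point other than a (given here as a subgroup of the stabilizer of order one less than the number of points whose non-identity elements fix only a; it is the Frobenius kernel of the stabilizer). Let μ be a character of degree 1 of the stabilizer of a that is identically 1 on H but not identically 1. Then the function induced from μ to G is an irreducible character of G, and it takes the value 1 at every non-identity element of H. -/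
theorem result {G Ω : Type*} [Group G] [Fintype G] [MulAction G Ω] [Fintype Ω] (hZ : Cfsg.IsZassenhausGroup G Ω) {a b : Ω} (hab : a ≠ b) [IsSimpleGroup G] (hodd : Odd (Nat.card ↥(MulAction.stabilizer G a ⊓ MulAction.stabilizer G b : Subgroup G))) (hlt : Nat.card ↥(MulAction.stabilizer G a ⊓ MulAction.stabilizer G b : Subgroup G) < Fintype.card Ω - 2) (H : Subgroup G) (hHa : H ≤ MulAction.stabilizer G a) (hHcard : Nat.card H + 1 = Fintype.card Ω) (hHfix : ∀ u ∈ H, u ≠ 1 → ∀ c : Ω, u • c = c → c = a) (μ : MulAction.stabilizer G a → ℂ) (hμ : Cfsg.IsCharacter (MulAction.stabilizer G a) μ ∧ μ 1 = 1) (hμH : ∀ u : MulAction.stabilizer G a, (u : G) ∈ H → μ u = 1) (hμne : μ ≠ fun _ => 1) : Cfsg.IsIrrCharacter G (Cfsg.indFun (MulAction.stabilizer G a) μ) ∧ ∀ u ∈ H, u ≠ 1 → Cfsg.indFun (MulAction.stabilizer G a) μ u = 1 := by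
  classical
  obtain ⟨hμc, hμ1⟩ := hμ
  set f : (MulAction.stabilizer G a) →* ℂˣ := CfsgLib.IndFun.linHom hμc hμ1
  have hf : ∀ m : (MulAction.stabilizer G a), (f m : ℂ) = μ m := fun m => CfsgLib.IndFun.linHom_val hμc hμ1 m
  have hsw : ∀ c : Ω, ∃ x : G, x • a = c ∧ (c = a → x = 1) ∧ (c ≠ a → x • c = a) := by
    intro c
    by_cases h : c = a
    · exact ⟨1, by rw [one_smul, h], fun _ => rfl, fun h' => absurd h h'⟩
    · obtain ⟨x, h1, h2⟩ := CfsgLib.ZGrp.exists_move hZ (Ne.symm h) h
      exact ⟨x, h1, fun h' => absurd h' h, fun _ => h2⟩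
  choose x hx hxa hxc using hsw
  set F : G → Ω → ℂ := fun g c => extendByZero (MulAction.stabilizer G a) μ ((x c)⁻¹ * g * x c)
  have hconj : ∀ (g : G) (m : (MulAction.stabilizer G a)), extendByZero (MulAction.stabilizer G a) μ ((m : G)⁻¹ * g * m) = extendByZero (MulAction.stabilizer G a) μ g := by
    intro g m
    by_cases hg : g ∈ (MulAction.stabilizer G a)
    · have e1 := CfsgLib.CharBasics.extendByZero_coe (MulAction.stabilizer G a) μ (m⁻¹ * ⟨g, hg⟩ * m)
      simp only [Subgroup.coe_mul, Subgroup.coe_inv] at e1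
      rw [e1, CfsgLib.CharBasics.extendByZero_coe (MulAction.stabilizer G a) μ ⟨g, hg⟩, CfsgLib.IndFun.linChar_mul hμc hμ1,
        CfsgLib.IndFun.linChar_mul hμc hμ1, mul_right_comm, ← CfsgLib.IndFun.linChar_mul hμc hμ1, inv_mul_cancel,
        hμ1, one_mul]
    · rw [CfsgLib.CharBasics.extendByZero_of_not_mem (MulAction.stabilizer G a) μ hg, CfsgLib.CharBasics.extendByZero_of_not_mem (MulAction.stabilizer G a) μ
        (fun h => hg (by have := (MulAction.stabilizer G a).mul_mem ((MulAction.stabilizer G a).mul_mem m.2 h) ((MulAction.stabilizer G a).inv_mem m.2); simpa [mul_assoc] using this))]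
  have hform : ∀ g : G, indFun (MulAction.stabilizer G a) μ g = ∑ c : Ω, F g c := by
    intro g
    have hsum : ∑ y : G, extendByZero (MulAction.stabilizer G a) μ (y⁻¹ * g * y) = (Nat.card (MulAction.stabilizer G a) : ℂ) * ∑ c : Ω, F g c := by
      rw [Finset.mul_sum, ← Finset.sum_fiberwise Finset.univ (fun y : G => y • a)]
      refine Finset.sum_congr rfl fun c _ => ?_
      rw [Finset.sum_congr rfl (g := fun _ => F g c) (fun y hy => ?_), Finset.sum_const, nsmul_eq_mul]
      · congr 2
        rw [← Fintype.card_subtype, ← Nat.card_eq_fintype_card]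
        refine (Nat.card_congr ((Equiv.mulLeft (x c)).subtypeEquiv fun m => ?_)).symm
        show m • a = a ↔ (x c * m) • a = c
        constructor
        · intro h; rw [mul_smul, h, hx]
        · intro h; rw [mul_smul] at h; exact MulAction.injective (x c) (h.trans (hx c).symm)
      · have hy' : y • a = c := (Finset.mem_filter.1 hy).2
        have hm : (x c)⁻¹ * y ∈ (MulAction.stabilizer G a) := MulAction.mem_stabilizer_iff.2 (by rw [mul_smul, hy', inv_smul_eq_iff, hx])
        show _ = extendByZero (MulAction.stabilizer G a) μ ((x c)⁻¹ * g * x c)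
        rw [← hconj ((x c)⁻¹ * g * x c) ⟨_, hm⟩]
        congr 1
        dsimp only
        group
    have hM : (Nat.card (MulAction.stabilizer G a) : ℂ) ≠ 0 := Nat.cast_ne_zero.mpr Nat.card_pos.ne'
    rw [indFun, hsum, inv_mul_cancel_left₀ hM]
  have hFa : ∀ g : G, F g a = extendByZero (MulAction.stabilizer G a) μ g := fun g => by
    show extendByZero (MulAction.stabilizer G a) μ ((x a)⁻¹ * g * x a) = _
    rw [hxa a rfl, inv_one, one_mul, mul_one]
  have hF0 : ∀ (g : G) (c : Ω), g • c ≠ c → F g c = 0 := fun g c hg =>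
    CfsgLib.CharBasics.extendByZero_of_not_mem (MulAction.stabilizer G a) μ fun h => hg (by
      have := MulAction.mem_stabilizer_iff.1 h
      rw [mul_smul, mul_smul, hx, inv_smul_eq_iff, hx] at this
      exact this)
  -- `μ²` is non-trivial on the two-point stabilisers
  have hsum0 : ∀ c : Ω, c ≠ a → ∑ d : CfsgLib.ZGrp.pst G a c, μ ⟨d, d.2.1⟩ * μ ⟨d, d.2.1⟩ = 0 := by
    intro c hc
    let incl : CfsgLib.ZGrp.pst G a c →* (MulAction.stabilizer G a) := Subgroup.inclusion inf_le_left
    let ψ := f.comp incl * f.comp incl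
    have hψ : ψ ≠ 1 := by
      intro h1
      apply hμne
      funext m
      let φ : H × CfsgLib.ZGrp.pst G a c → (MulAction.stabilizer G a) := fun p => ⟨(p.1 : G) * p.2, (MulAction.stabilizer G a).mul_mem (hHa p.1.2) p.2.2.1⟩
      have hinj : Function.Injective φ := by
        rintro ⟨k, d⟩ ⟨k', d'⟩ he
        have he' : (k : G) * d = (k' : G) * d' := congrArg Subtype.val he
        have hz : (k' : G)⁻¹ * k = (d' : G) * (d : G)⁻¹ := by
          calc (k' : G)⁻¹ * k = (k' : G)⁻¹ * ((k : G) * d) * (d : G)⁻¹ := by group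
            _ = (d' : G) * (d : G)⁻¹ := by rw [he']; group
        have hz1 : (k' : G)⁻¹ * k = 1 := by
          by_contra hne
          refine hc (hHfix _ (H.mul_mem (H.inv_mem k'.2) k.2) hne c ?_)
          rw [hz]
          exact (CfsgLib.ZGrp.mem_pst.1 (Subgroup.mul_mem _ d'.2 (Subgroup.inv_mem _ d.2))).2
        exact Prod.ext (Subtype.ext (inv_mul_eq_one.1 hz1).symm)
          (Subtype.ext (mul_inv_eq_one.1 (hz.symm.trans hz1)).symm)
      have hcard : Nat.card (H × CfsgLib.ZGrp.pst G a c) = Nat.card (MulAction.stabilizer G a) := by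
        rw [Nat.card_prod, CfsgLib.ZGrp.card_stab hZ hc.symm, ← hHcard, Nat.add_sub_cancel]
      obtain ⟨⟨k, d⟩, rfl⟩ := ((Nat.bijective_iff_injective_and_card φ).2 ⟨hinj, hcard⟩).2 m
      have e : φ (k, d) = ⟨(k : G), hHa k.2⟩ * incl d := rfl
      rw [e, CfsgLib.IndFun.linChar_mul hμc hμ1, hμH _ k.2, one_mul]
      have hd2 : f (incl d) ^ 2 = 1 := by
        have := DFunLike.congr_fun h1 d
        rw [pow_two]; exact this
      obtain ⟨j, hj⟩ : Odd (orderOf d) :=
        ((CfsgLib.ZGrp.card_pst_eq hZ hab hc.symm).symm ▸ hodd : Odd (Nat.card (CfsgLib.ZGrp.pst G a c))).of_dvd_nat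
          (orderOf_dvd_natCard d)
      have hdo : f (incl d) ^ orderOf d = 1 := by rw [← map_pow, ← map_pow, pow_orderOf_eq_one, map_one, map_one]
      rw [hj, pow_succ, pow_mul, hd2, one_pow, one_mul] at hdo
      rw [← hf, hdo, Units.val_one]
    have := CfsgLib.CyclicTI.sum_hom ψ hψ
    rw [← this]
    refine Finset.sum_congr rfl fun d _ => ?_
    show _ = ((f (incl d) * f (incl d) : ℂˣ) : ℂ)
    rw [Units.val_mul, hf]
    rfl
  have hnorm : classInner (indFun (MulAction.stabilizer G a) μ) (indFun (MulAction.stabilizer G a) μ) = 1 := by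
    rw [CfsgLib.CharBasics.classInner_indFun (MulAction.stabilizer G a) μ (CfsgLib.CharBasics.isClassFunction_indFun (MulAction.stabilizer G a) μ), classInner]
    simp only [hform, map_sum, Finset.mul_sum]
    rw [Finset.sum_comm, ← Finset.add_sum_erase _ _ (Finset.mem_univ a), Finset.sum_eq_zero (s := Finset.univ.erase a)
      (fun c hc => ?_), add_zero, ← Finset.mul_sum]
    · have h1 : ∀ m : (MulAction.stabilizer G a), μ m * (starRingEnd ℂ) (F (m : G) a) = 1 := by
        intro m
        rw [hFa, CfsgLib.CharBasics.extendByZero_coe, ← hf, CfsgLib.CyclicTI.conj_hom, ← Units.val_mul, ← map_mul,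
          mul_inv_cancel, map_one, Units.val_one]
      simp only [h1, Finset.sum_const, Finset.card_univ, nsmul_eq_mul, mul_one, ← Nat.card_eq_fintype_card]
      exact inv_mul_cancel₀ (Nat.cast_ne_zero.mpr Nat.card_pos.ne')
    · rw [← Finset.mul_sum]
      refine mul_eq_zero_of_right _ ?_
      have hca : c ≠ a := (Finset.mem_erase.1 hc).1
      rw [← Finset.sum_subset (Finset.subset_univ (Finset.univ.filter fun m : (MulAction.stabilizer G a) => (m : G) • c = c))
        (fun m _ hm => by rw [hF0 _ _ (by simpa using hm), map_zero, mul_zero])]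
      refine Eq.trans ?_ (hsum0 c hca)
      refine Finset.sum_bij' (fun m hm => ⟨(m : G), CfsgLib.ZGrp.mem_pst.2 ⟨m.2, (Finset.mem_filter.1 hm).2⟩⟩)
        (fun d _ => ⟨(d : G), d.2.1⟩) (fun _ _ => Finset.mem_univ _)
        (fun d _ => Finset.mem_filter.2 ⟨Finset.mem_univ _, (CfsgLib.ZGrp.mem_pst.1 d.2).2⟩)
        (fun _ _ => rfl) (fun _ _ => rfl) (fun m hm => ?_)
      have hd : (m : G) ∈ CfsgLib.ZGrp.pst G a c := CfsgLib.ZGrp.mem_pst.2 ⟨m.2, (Finset.mem_filter.1 hm).2⟩
      have hinv : (x c)⁻¹ * m * ((x c)⁻¹)⁻¹ = (m : G)⁻¹ :=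
        CfsgLib.ZGrp.swap_inverts_simple hZ hab hodd hca.symm (inv_smul_eq_iff.2 (hxc c hca).symm)
          (inv_smul_eq_iff.2 (hx c).symm) hd
      rw [inv_inv] at hinv
      have hFm : F (m : G) c = μ m⁻¹ := by
        show extendByZero (MulAction.stabilizer G a) μ ((x c)⁻¹ * (m : G) * x c) = _
        rw [hinv]
        exact CfsgLib.CharBasics.extendByZero_coe (MulAction.stabilizer G a) μ m⁻¹
      rw [hFm, ← hf m⁻¹, CfsgLib.CyclicTI.conj_hom, inv_inv, hf]
  refine ⟨CfsgLib.CharBasics.isIrr_of_norm_one (CfsgLib.CharBasics.isCharacter_indFun (MulAction.stabilizer G a) hμc) hnorm,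
    fun u hu hu1 => ?_⟩
  rw [hform, Finset.sum_eq_single a (fun c _ hc => hF0 u c fun h => hc (hHfix u hu hu1 c h))
    (fun h => absurd (Finset.mem_univ a) h), hFa, CfsgLib.CharBasics.extendByZero_coe (MulAction.stabilizer G a) μ ⟨u, hHa hu⟩]
  exact hμH _ hu

end Cfsg.Agent.S0881
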