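import Cfsg.Statements.S0882
import Cfsg.Agent.ZGrp.Invol

set_option autoImplicit false
open Cfsg

namespace Cfsg.Agent.S0882

/-- Let G be a finite simple Zassenhaus group on Ω with n = h + 1 points whose two-point stabilizer E has odd order e with 2e < h - 1. Then any two involutions of G are conjugate, and the number of involutions is e * (h + 1) if h is even and e * h if h is odd. -/
theorem result {G Ω : Type*} [Group G] [Finite G] [MulAction G Ω] [Fintype Ω] (hZ : Cfsg.IsZassenhausGroup G Ω) {a b : Ω} (hab : a ≠ b) [IsSimpleGroup G] (h e : ℕ) (hh : Fintype.card Ω = h + 1) (he : Nat.card ↥(MulAction.stabilizer G a ⊓ MulAction.stabilizer G b : Subgroup G) = e) (hodd : Odd e) (hlt : 2 * e < h - 1) : (∀ x y : G, orderOf x = 2 → orderOf y = 2 → IsConj x y) ∧ Nat.card {x : G // orderOf x = 2} = (if Even h then e * (h + 1) else e * h) := by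
  have hodd' : Odd (Nat.card ↥(MulAction.stabilizer G a ⊓ MulAction.stabilizer G b : Subgroup G)) := he ▸ hodd
  refine ⟨fun x y hx hy => CfsgLib.ZGrp.isConj_involution hZ hab hodd' hx hy, ?_⟩
  rw [CfsgLib.ZGrp.card_involutions hZ hab hodd', hh, show h + 1 - 1 = h from rfl]
  simp only [CfsgLib.ZGrp.pst, he]
  by_cases hev : Even h
  · rw [if_pos hev, if_pos (Even.add_one hev), mul_comm]
  · rw [if_neg hev, if_neg (Nat.not_odd_iff_even.2 ((Nat.not_even_iff_odd.1 hev).add_one)), mul_comm]

end Cfsg.Agent.S0882
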