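import Cfsg.Statements.S0884
import Cfsg.Agent.ZGrp.Real

set_option autoImplicit false
open Cfsg

namespace Cfsg.Agent.S0884

/-- Let G be a finite simple Zassenhaus group on Ω with h + 1 points whose two-point stabilizer E has odd order e with 2e < h - 1, and let H be the subgroup of the stabilizer of a consisting of the identity and the elements fixing no point other than a (given here as a subgroup of the stabilizer of order one less than the number of points whose non-identity elements fix only a; it is the Frobenius kernel of the stabilizer). Then at least e conjugacy classes of G contain no element of H. -/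
theorem result {G Ω : Type*} [Group G] [Finite G] [MulAction G Ω] [Fintype Ω] (hZ : Cfsg.IsZassenhausGroup G Ω) {a b : Ω} (hab : a ≠ b) [IsSimpleGroup G] (h e : ℕ) (hh : Fintype.card Ω = h + 1) (he : Nat.card ↥(MulAction.stabilizer G a ⊓ MulAction.stabilizer G b : Subgroup G) = e) (hodd : Odd e) (hlt : 2 * e < h - 1) (H : Subgroup G) (hHa : H ≤ MulAction.stabilizer G a) (hHcard : Nat.card H + 1 = Fintype.card Ω) (hHfix : ∀ u ∈ H, u ≠ 1 → ∀ c : Ω, u • c = c → c = a) : e ≤ Nat.card {C : ConjClasses G // ∀ g : G, ConjClasses.mk g = C → g ∉ H} := by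
  classical
  haveI : Fintype G := Fintype.ofFinite G
  have hodd' : Odd (Nat.card ↥(MulAction.stabilizer G a ⊓ MulAction.stabilizer G b : Subgroup G)) := he ▸ hodd
  set P : ConjClasses G → Prop := fun C => ∀ g : G, ConjClasses.mk g = C → g ∉ H
  set Inv := Finset.univ.filter fun x : G => orderOf x = 2
  set T := (Inv ×ˢ Inv).filter fun p : G × G => P (ConjClasses.mk (p.1 * p.2))
  set B := (Inv ×ˢ Inv).filter fun p : G × G => ¬ P (ConjClasses.mk (p.1 * p.2))
  have hsplit : T.card + B.card = Inv.card * Inv.card := by
    rw [Finset.card_filter_add_card_filter_not, Finset.card_product]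
  have hI : Inv.card = Nat.card {x : G // orderOf x = 2} := by
    rw [Nat.card_eq_fintype_card, Fintype.card_subtype]
  have hT : T.card ≤ Nat.card {C : ConjClasses G // P C} * Nat.card G := by
    have hmaps : ∀ p ∈ T, ConjClasses.mk (p.1 * p.2) ∈ Finset.univ.filter P := fun p hp =>
      Finset.mem_filter.2 ⟨Finset.mem_univ _, (Finset.mem_filter.1 hp).2⟩
    refine (Finset.card_le_mul_card_image_of_maps_to hmaps (Nat.card G) fun C _ => ?_).trans (le_of_eq ?_)
    · induction C using Quotient.inductionOn with
      | h g₀ =>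
      set K := Finset.univ.filter fun g : G => IsConj g₀ g
      have h1 : (T.filter fun p => ConjClasses.mk (p.1 * p.2) = Quotient.mk _ g₀).card ≤
          Nat.card (Subgroup.centralizer ({g₀} : Set G)) * K.card := by
        refine Finset.card_le_mul_card_image_of_maps_to (f := fun p => p.1 * p.2) (fun p hp => ?_) _ fun g hg => ?_
        · simp only [K, Finset.mem_filter, Finset.mem_univ, true_and]
          exact ConjClasses.mk_eq_mk_iff_isConj.1 (Finset.mem_filter.1 hp).2.symm
        · simp only [K, Finset.mem_filter, Finset.mem_univ, true_and] at hg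
          have hgg : Nat.card (Subgroup.centralizer ({g} : Set G)) = Nat.card (Subgroup.centralizer ({g₀} : Set G)) := by
            have h1 := CfsgLib.ZGrp.card_conjugates_mul g
            have h2 := CfsgLib.ZGrp.card_conjugates_mul g₀
            rw [Nat.card_congr (Equiv.subtypeEquivRight fun x =>
              (⟨hg.trans, hg.symm.trans⟩ : IsConj g x ↔ IsConj g₀ x))] at h1
            refine Nat.eq_of_mul_eq_mul_left ?_ (h1.trans h2.symm)
            haveI : Nonempty {x : G // IsConj g₀ x} := ⟨⟨g₀, IsConj.refl _⟩⟩
            exact Nat.card_pos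
          refine le_trans ?_ ((CfsgLib.ZGrp.card_inverters_le g).trans (le_of_eq hgg))
          rw [Nat.card_eq_fintype_card, Fintype.card_subtype]
          exact Finset.card_le_card (fun p hp => by
              simp only [T, Inv, Finset.mem_filter, Finset.mem_product, Finset.mem_univ, true_and] at hp ⊢
              exact ⟨hp.1.1.1.1, hp.1.1.1.2, hp.2⟩)
      refine le_trans (le_of_eq ?_) (h1.trans (le_of_eq ?_))
      · congr! 2
      rw [← CfsgLib.ZGrp.card_conjugates_mul g₀, mul_comm, Nat.card_eq_fintype_card (α := {x : G // IsConj g₀ x}),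
        Fintype.card_subtype]
    · rw [Nat.card_eq_fintype_card (α := {C : ConjClasses G // P C}), Fintype.card_subtype, mul_comm]
  have hcase : ∀ p ∈ B, p.2 = p.1 ∨ (Odd (Fintype.card Ω) ∧ ∀ c : Ω, p.1 • c = c → p.2 • c = c) := by
    intro p hp
    simp only [B, Inv, P, Finset.mem_filter, Finset.mem_product, Finset.mem_univ, true_and, not_forall, not_not] at hp
    obtain ⟨⟨hx, hy⟩, u, hu, huH⟩ := hp
    obtain ⟨g, hg⟩ := isConj_iff.1 (ConjClasses.mk_eq_mk_iff_isConj.1 hu)
    exact CfsgLib.ZGrp.eq_or_of_product_conj hZ hab hodd' H hHa hHcard hHfix hx hy huH hg.symm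
  have hInv := CfsgLib.ZGrp.card_involutions hZ hab hodd'
  have hG := CfsgLib.ZGrp.card_group hZ hab
  simp only [CfsgLib.ZGrp.pst, he, hh, ← hI] at hInv hG
  rw [show h + 1 - 1 = h from rfl] at hInv hG
  have hh4 := CfsgLib.ZGrp.four_le_card hZ hab
  by_cases hn : Odd (Fintype.card Ω)
  · rw [hh] at hn
    rw [if_pos hn] at hInv
    have hB : B.card ≤ e * Inv.card := by
      refine Finset.card_le_mul_card_image_of_maps_to (f := Prod.fst)
        (fun p hp => (Finset.mem_product.1 (Finset.mem_filter.1 hp).1).1) e fun x hx => ?_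
      obtain ⟨c, hc⟩ := CfsgLib.ZGrp.exists_fixed_of_odd hZ hab hodd' (hh ▸ hn) (Finset.mem_filter.1 hx).2
      rw [← he, ← CfsgLib.ZGrp.card_involutions_fixing hZ hab hodd' (hh ▸ hn) c, Nat.card_eq_fintype_card,
        Fintype.card_subtype]
      refine Finset.card_le_card_of_injOn Prod.snd (fun p hp => ?_) (fun p hp q hq hpq => ?_)
      · rw [Finset.mem_coe, Finset.mem_filter] at hp
        have hpI := (Finset.mem_product.1 (Finset.mem_filter.1 hp.1).1).2
        simp only [Finset.coe_filter, Finset.mem_univ, true_and, Set.mem_ofPred_eq]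
        refine ⟨(Finset.mem_filter.1 hpI).2, ?_⟩
        rcases hcase p hp.1 with h' | h'
        · rw [h', hp.2]; exact hc
        · exact h'.2 c (by rw [hp.2]; exact hc)
      · rw [Finset.mem_coe, Finset.mem_filter] at hp hq
        exact Prod.ext (hp.2.trans hq.2.symm) hpq
    rw [hInv] at hsplit hB
    rw [hG] at hT
    by_contra hlt'
    push Not at hlt'
    have h1 : Nat.card {C : ConjClasses G // P C} + 1 ≤ e := hlt'
    have h2 := Nat.mul_le_mul_right ((h + 1) * (h * e)) h1
    nlinarith
  · rw [hh] at hn
    rw [if_neg hn] at hInv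
    have hB : B.card ≤ Inv.card := by
      refine Finset.card_le_card_of_injOn Prod.fst (fun p hp => ?_) (fun p hp q hq hpq => ?_)
      · exact (Finset.mem_product.1 (Finset.mem_filter.1 hp).1).1
      · have h1 := (hcase p hp).resolve_right fun h' => hn (hh ▸ h'.1)
        have h2 := (hcase q hq).resolve_right fun h' => hn (hh ▸ h'.1)
        exact Prod.ext hpq (h1.trans (hpq.trans h2.symm))
    rw [hInv] at hsplit hB
    rw [hG] at hT
    by_contra hlt'
    push Not at hlt'
    have h1 : Nat.card {C : ConjClasses G // P C} + 1 ≤ e := hlt'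
    have h2 := Nat.mul_le_mul_right ((h + 1) * (h * e)) h1
    have h2eh : 2 * e + 2 ≤ h := by omega
    have h3 : 0 < h * e := Nat.mul_pos (by omega) hodd.pos
    nlinarith

end Cfsg.Agent.S0884
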