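import Cfsg.Statements.S0892
import Cfsg.Agent.AltCover.Bound

set_option autoImplicit false
open Cfsg

namespace Cfsg.Agent.S0892

/-- Let n ≥ 4 with n ≠ 6 and n ≠ 7, and let Γ be a finite group with a subgroup Z contained in both the centre and the commutator subgroup of Γ such that Γ / Z is isomorphic to the alternating group on n letters. Then Z has order at most 2. -/
theorem result (n : ℕ) (hn : 4 ≤ n) (h6 : n ≠ 6) (h7 : n ≠ 7) {Γ : Type*} [Group Γ] [Finite Γ] (Z : Subgroup Γ) [Z.Normal] (hZc : Z ≤ Subgroup.center Γ) (hZd : Z ≤ commutator Γ) (e : Γ ⧸ Z ≃* alternatingGroup (Fin n)) : Nat.card Z ≤ 2 := by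
  let π : Γ →* alternatingGroup (Fin n) := e.toMonoidHom.comp (QuotientGroup.mk' Z)
  have hk : π.ker = Z := by
    rw [MonoidHom.ker_comp_of_injective _ _ e.injective, QuotientGroup.ker_mk']
  have hst : Cfsg.IsStemExtension π :=
    ⟨e.surjective.comp (QuotientGroup.mk'_surjective Z), hk.le.trans hZc, hk.le.trans hZd⟩
  rw [← hk]
  rcases Nat.lt_or_ge 4 n with h | h
  · exact CfsgLib.AltCover.card_ker_le_two_large (by omega) π hst
  · obtain rfl : n = 4 := le_antisymm h hn
    exact CfsgLib.AltCover.card_ker_le_two_four π hst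

end Cfsg.Agent.S0892
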