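import Cfsg.Statements.S0893
import Cfsg.Agent.PGroup.ExtraspecialChar
import Cfsg.Agent.CharBasics.Extra
import Cfsg.Agent.Clifford.LinChar

set_option autoImplicit false
open Cfsg

namespace Cfsg.Agent.S0893

/-- Let P be an extraspecial p-group of order p ^ (2 * n + 1), A an abelian subgroup of order p ^ (n + 1), and λ a character of A of degree 1 that is not identically 1 on the elements of A lying in the centre of P. Then the function induced from λ to P is an irreducible character of P and vanishes at every element outside the centre. -/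
theorem result {P : Type*} [Group P] [Fintype P] (p n : ℕ) [Fact p.Prime] (hP : Cfsg.IsExtraspecial p P) (hcard : Nat.card P = p ^ (2 * n + 1)) (A : Subgroup P) (hab : ∀ a ∈ A, ∀ b ∈ A, a * b = b * a) (hA : Nat.card A = p ^ (n + 1)) (lam : A → ℂ) (hlam : Cfsg.IsCharacter A lam ∧ lam 1 = 1) (hZ : ∃ a : A, (a : P) ∈ Subgroup.center P ∧ lam a ≠ 1) : Cfsg.IsIrrCharacter P (Cfsg.indFun A lam) ∧ ∀ x : P, x ∉ Subgroup.center P → Cfsg.indFun A lam x = 0 := by
  classical
  haveI := Fintype.ofFinite A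
  obtain ⟨a, ha, hla⟩ := hZ
  have hne : (a : P) ≠ 1 := fun e => hla (by rw [show a = 1 from Subtype.ext e]; exact hlam.2)
  have hle := CfsgLib.Extraspecial.center_le_of_mem hP ha a.2 hne
  obtain ⟨l, rfl⟩ := CfsgLib.Clifford.exists_hom_of_linear hlam.1 hlam.2
  have hl1 : ∀ (z : P) (hz : z ∈ Subgroup.center P), z ≠ 1 → l ⟨z, hle hz⟩ ≠ 1 := by
    intro z hz hz1 he
    let K : Subgroup A := l.ker
    have hK : (⟨z, hle hz⟩ : A) ∈ K := he
    have h2 := CfsgLib.Extraspecial.center_le_of_mem hP (A := K.map A.subtype) hz ⟨_, hK, rfl⟩ hz1 ha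
    obtain ⟨b, hb, hba⟩ := h2
    exact hla (by rw [← show b = a from Subtype.ext hba]; exact hb)
  set f := Cfsg.indFun A (fun b => l b) with hfdef
  have hcl : Cfsg.IsClassFunction P f := CfsgLib.CharBasics.isClassFunction_indFun A _
  have htw : ∀ z ∈ Subgroup.center P, ∀ hzA : z ∈ A, ∀ y, f (z * y) = l ⟨z, hzA⟩ * f y := by
    intro z hz hzA y
    simp only [hfdef, Cfsg.indFun, Finset.mul_sum]
    refine Finset.sum_congr rfl fun g _ => ?_
    have e : g⁻¹ * (z * y) * g = z * (g⁻¹ * y * g) := by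
      rw [← mul_assoc g⁻¹ z y, Subgroup.mem_center_iff.1 hz g⁻¹]; group
    rw [e]
    generalize g⁻¹ * y * g = w
    by_cases hy : w ∈ A
    · have h1 := CfsgLib.CharBasics.extendByZero_coe A (fun b => l b) (⟨z, hzA⟩ * ⟨w, hy⟩)
      rw [map_mul, Subgroup.coe_mul] at h1
      have h2 := CfsgLib.CharBasics.extendByZero_coe A (fun b => l b) ⟨w, hy⟩
      simp only at h1 h2
      rw [h1, h2]
      ring
    · rw [CfsgLib.CharBasics.extendByZero_of_not_mem _ _ hy,
        CfsgLib.CharBasics.extendByZero_of_not_mem _ _ (fun hm => hy ((A.mul_mem_cancel_left hzA).1 hm))]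
      ring
  have hv : ∀ x : P, x ∉ Subgroup.center P → f x = 0 := fun x hx =>
    CfsgLib.Extraspecial.vanish_of_twist hP hcl
      (fun z hz hz1 => ⟨_, hl1 z hz hz1, htw z hz (hle hz)⟩) hx
  refine ⟨CfsgLib.CharBasics.isIrr_of_norm_one (CfsgLib.CharBasics.isCharacter_indFun A hlam.1) ?_, hv⟩
  have hidx : A.index = p ^ n := by
    have h1 := Subgroup.card_mul_index A
    rw [hA, hcard, show 2 * n + 1 = (n + 1) + n by omega, pow_add p (n + 1) n] at h1
    exact Nat.eq_of_mul_eq_mul_left (pow_pos (Fact.out : p.Prime).pos _) h1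
  have hf1 : f 1 = (p : ℂ) ^ n := by
    rw [hfdef, CfsgLib.CharBasics.indFun_apply_one, map_one, mul_one, hidx, Nat.cast_pow]
  rw [CfsgLib.CharBasics.classInner_eq, Finset.sum_congr rfl
    (g := fun g => if g ∈ Subgroup.center P then (p : ℂ) ^ n * (p : ℂ) ^ n else 0) (fun g _ => ?_),
    ← Finset.sum_filter, Finset.sum_const, nsmul_eq_mul,
    show (Finset.univ.filter (fun g => g ∈ Subgroup.center P)).card = p by
      rw [← Fintype.card_subtype, ← Nat.card_eq_fintype_card]; exact hP.2, hcard]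
  · rw [inv_mul_eq_one₀ (Nat.cast_ne_zero.2 (pow_ne_zero _ (Fact.out : p.Prime).ne_zero)), Nat.cast_pow]
    ring
  · split_ifs with hg
    · have e := htw g hg (hle hg) 1
      rw [mul_one] at e
      have hn : ‖l ⟨g, hle hg⟩‖ = 1 := by
        refine Complex.norm_eq_one_of_pow_eq_one (n := orderOf (⟨g, hle hg⟩ : A)) ?_ (orderOf_pos _).ne'
        rw [← map_pow, pow_orderOf_eq_one, map_one]
      have hcj : l ⟨g, hle hg⟩ * (starRingEnd ℂ) (l ⟨g, hle hg⟩) = 1 := by
        rw [Complex.mul_conj, Complex.normSq_eq_norm_sq, hn]; norm_num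
      rw [show f g = l ⟨g, hle hg⟩ * (p : ℂ) ^ n from e.trans (by rw [hf1]), map_mul, map_pow, map_natCast]
      linear_combination ((p : ℂ) ^ n * (p : ℂ) ^ n) * hcj
    · rw [hv g hg, zero_mul]

end Cfsg.Agent.S0893
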