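import Cfsg.Statements.S0894
import Cfsg.Agent.PGroup.ExtraspecialChar

set_option autoImplicit false
open Cfsg

namespace Cfsg.Agent.S0894

/-- Let P be an extraspecial p-group of order p ^ (2 * n + 1). Then every irreducible character of P has degree 1 or p ^ n, and exactly p - 1 of them have degree p ^ n. -/
theorem result {P : Type*} [Group P] [Finite P] (p n : ℕ) [Fact p.Prime] (hP : Cfsg.IsExtraspecial p P) (hcard : Nat.card P = p ^ (2 * n + 1)) : (∀ χ : Cfsg.IrrCharacter P, (χ : P → ℂ) 1 = 1 ∨ (χ : P → ℂ) 1 = (p : ℂ) ^ n) ∧ Nat.card {χ : Cfsg.IrrCharacter P // (χ : P → ℂ) 1 = (p : ℂ) ^ n} = p - 1 := by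
  classical
  haveI := Fintype.ofFinite P
  haveI : Fintype (Cfsg.IrrCharacter P) := @Fintype.ofFinite _ CfsgLib.CharBasics.finite_irrCharacter
  have hdich := CfsgLib.Extraspecial.irr_dichotomy hP hcard
  refine ⟨fun χ => (hdich χ).elim (fun h => Or.inl h.2) (fun h => Or.inr h.1), ?_⟩
  have hp : p.Prime := Fact.out
  -- linear characters
  let Z := Subgroup.center P
  haveI : IsMulCommutative (P ⧸ Z) := ⟨⟨fun a b => by
    induction a using QuotientGroup.induction_on with
    | H a =>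
      induction b using QuotientGroup.induction_on with
      | H b =>
        rw [← QuotientGroup.mk_mul, ← QuotientGroup.mk_mul, QuotientGroup.eq]
        have hm := CfsgLib.Extraspecial.commutator_mem_center hP b⁻¹ a⁻¹
        rw [commutatorElement_def] at hm
        simpa [mul_assoc] using hm⟩⟩
  have hlin : Nat.card {χ : Cfsg.IrrCharacter P // (χ : P → ℂ) 1 = 1} = p ^ (2 * n) := by
    rw [← CfsgLib.Extraspecial.card_quotient_center hP hcard]
    letI : CommGroup (P ⧸ Z) := { (inferInstance : Group (P ⧸ Z)) with mul_comm := mul_comm' }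
    rw [← Nat.card_congr (ConjClasses.mkEquiv : (P ⧸ Z) ≃ ConjClasses (P ⧸ Z)).symm, ← CfsgLib.CharBasics.card_irr]
    have hone : ∀ ψ : Cfsg.IrrCharacter (P ⧸ Z), (ψ : P ⧸ Z → ℂ) ((1 : P) : P ⧸ Z) = 1 := fun ψ => by
      rw [QuotientGroup.mk_one, CfsgLib.CharBasics.apply_one (CfsgLib.CharBasics.isCharacter_of_irr ψ.2),
        CfsgLib.CharBasics.charDegree_comm ψ.2, Nat.cast_one]
    let F : Cfsg.IrrCharacter (P ⧸ Z) → {χ : Cfsg.IrrCharacter P // (χ : P → ℂ) 1 = 1} := fun ψ =>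
      ⟨⟨_, CfsgLib.CharBasics.irr_comp_of_surjective ψ.2 (QuotientGroup.mk' Z) (QuotientGroup.mk'_surjective Z)⟩,
        hone ψ⟩
    refine (Nat.card_congr (Equiv.ofBijective F ⟨fun ψ ψ' he => Subtype.ext (funext fun q => ?_), fun χ => ?_⟩)).symm
    · induction q using QuotientGroup.induction_on with
      | H g => exact congrFun (congrArg (fun z => ((z.1 : Cfsg.IrrCharacter P) : P → ℂ)) he) g
    · rcases hdich χ.1 with h | h
      · obtain ⟨ψ, hψ⟩ := CfsgLib.CharBasics.exists_quotient_irr χ.1 Z h.1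
        exact ⟨ψ, Subtype.ext (Subtype.ext (funext hψ))⟩
      · exact absurd χ.2 h.2
  have hsum := CfsgLib.CharBasics.sum_sq_degree (G := P)
  rw [← Finset.sum_filter_add_sum_filter_not Finset.univ (fun χ : Cfsg.IrrCharacter P => (χ : P → ℂ) 1 = 1)] at hsum
  have e1 : ∀ χ ∈ Finset.univ.filter (fun χ : Cfsg.IrrCharacter P => (χ : P → ℂ) 1 = 1),
      Cfsg.charDegree (χ : P → ℂ) ^ 2 = 1 := by
    intro χ hχ
    have h1 := (Finset.mem_filter.1 hχ).2
    rw [CfsgLib.CharBasics.apply_one (CfsgLib.CharBasics.isCharacter_of_irr χ.2)] at h1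
    rw [show Cfsg.charDegree (χ : P → ℂ) = 1 by exact_mod_cast h1, one_pow]
  have e2 : ∀ χ ∈ Finset.univ.filter (fun χ : Cfsg.IrrCharacter P => ¬ (χ : P → ℂ) 1 = 1),
      Cfsg.charDegree (χ : P → ℂ) ^ 2 = (p ^ n) ^ 2 := by
    intro χ hχ
    rcases hdich χ with h | h
    · exact absurd h.2 (Finset.mem_filter.1 hχ).2
    · have := h.1
      rw [CfsgLib.CharBasics.apply_one (CfsgLib.CharBasics.isCharacter_of_irr χ.2)] at this
      rw [show Cfsg.charDegree (χ : P → ℂ) = p ^ n by exact_mod_cast this]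
  rw [Finset.sum_congr rfl e1, Finset.sum_congr rfl e2, Finset.sum_const, Finset.sum_const, smul_eq_mul, smul_eq_mul,
    mul_one] at hsum
  rw [← Fintype.card_subtype, ← Fintype.card_subtype, ← Nat.card_eq_fintype_card, ← Nat.card_eq_fintype_card, hlin,
    hcard] at hsum
  have hiff : ∀ χ : Cfsg.IrrCharacter P, (χ : P → ℂ) 1 = (p : ℂ) ^ n ↔ ¬ (χ : P → ℂ) 1 = 1 := by
    intro χ
    rcases hdich χ with h | h
    · refine ⟨fun he => ?_, fun he => absurd h.2 he⟩
      rw [h.2] at he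
      have h4 : p ^ n = 1 := by exact_mod_cast he.symm
      have := CfsgLib.Extraspecial.one_le_width hP hcard
      have := Nat.one_lt_pow (a := p) (n := n) (by omega) hp.one_lt
      omega
    · exact ⟨fun _ => h.2, fun _ => h.1⟩
  rw [Nat.card_congr (Equiv.subtypeEquivRight hiff)]
  generalize Nat.card {χ : Cfsg.IrrCharacter P // ¬ (χ : P → ℂ) 1 = 1} = k at hsum ⊢
  rw [← pow_mul, mul_comm n 2, pow_succ, ← Nat.one_mul (p ^ (2 * n)), ← mul_assoc k, mul_one, ← add_mul,
    mul_comm (1 * p ^ (2 * n)) p, one_mul] at hsum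
  have := Nat.eq_of_mul_eq_mul_right (pow_pos hp.pos (2 * n)) hsum
  omega

end Cfsg.Agent.S0894
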