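import Cfsg.Statements.S0898
import Cfsg.Agent.CharBasics.Basic
import Cfsg.Agent.CharBasics.Ortho
import Cfsg.Agent.CharBasics.Central
import Cfsg.Agent.CharBasics.Extra

set_option autoImplicit false
open Cfsg CfsgLib.CharBasics
open scoped ComplexConjugate

namespace Cfsg.Agent.S0898

variable {G : Type*} [Group G] [Fintype G]

theorem norm_center {χ : G → ℂ} (hχ : IsIrrCharacter G χ) {z : G} (hz : z ∈ Subgroup.center G) :
    ‖χ z‖ = (charDegree χ : ℝ) := by
  have h := center_mul hχ hz z⁻¹
  rw [mul_inv_cancel, apply_inv (isCharacter_of_irr hχ), Complex.mul_conj',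
    apply_one (isCharacter_of_irr hχ)] at h
  have h' : ((charDegree χ : ℝ) * (charDegree χ : ℝ)) = ‖χ z‖ ^ 2 := by exact_mod_cast h
  nlinarith [norm_nonneg (χ z), Nat.cast_nonneg (α := ℝ) (charDegree χ)]

theorem sum_normSq_eq {A : Type*} [Group A] [Fintype A] (f : A → ℂ) :
    ((∑ a : A, ‖f a‖ ^ 2 : ℝ) : ℂ) = (Nat.card A : ℂ) * classInner f f := by
  rw [classInner_eq, mul_inv_cancel_left₀ (Nat.cast_ne_zero.mpr Nat.card_pos.ne')]
  push_cast
  simp only [Complex.mul_conj']

/-- The projection to the part with `H` in the kernel. -/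
noncomputable def avgH (H : Subgroup G) [Fintype H] (χ : G → ℂ) (x : G) : ℂ :=
  (Nat.card H : ℂ)⁻¹ * ∑ h : H, χ (x * h)

theorem key (H : Subgroup G) [Fintype H] (hab : ∀ a ∈ H, ∀ b ∈ H, a * b = b * a)
    (hZ : H ⊓ Subgroup.center G = ⊥)
    (hone : ∀ g : G, g ∉ Subgroup.center G → ∀ a b : G,
      Subgroup.centralizer ({g} : Set G) ⊓ H.map (MulAut.conj a).toMonoidHom ≠ ⊥ →
      Subgroup.centralizer ({g} : Set G) ⊓ H.map (MulAut.conj b).toMonoidHom ≠ ⊥ →
      H.map (MulAut.conj a).toMonoidHom = H.map (MulAut.conj b).toMonoidHom)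
    (χ : G → ℂ) (hχ : IsIrrCharacter G χ) (hker : ∃ h ∈ H, χ h ≠ χ 1) (m : ℕ)
    (hm : classInner (fun h : H => χ h) (fun _ => 1) = m) :
    (Nat.card H : ℝ) * (m : ℝ) ^ 2 < (charDegree χ : ℝ) ^ 2 := by
  classical
  have hc := isCharacter_of_irr hχ
  let N : Subgroup G := Subgroup.normalizer (H : Set G)
  letI : Fintype N := Fintype.ofFinite _
  have hHN : H ≤ N := Subgroup.le_normalizer
  have hmem : ∀ a b : G, H.map (MulAut.conj a).toMonoidHom = H.map (MulAut.conj b).toMonoidHom →
      ∀ h ∈ H, (b⁻¹ * a) * h * (b⁻¹ * a)⁻¹ ∈ H := by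
    intro a b he h hh
    have h1 : a * h * a⁻¹ ∈ H.map (MulAut.conj b).toMonoidHom := by
      rw [← he]; exact Subgroup.mem_map.mpr ⟨h, hh, by simp⟩
    obtain ⟨k, hk, hka⟩ := Subgroup.mem_map.mp h1
    simp only [MulEquiv.coe_toMonoidHom, MulAut.conj_apply] at hka
    have h2 : (b⁻¹ * a) * h * (b⁻¹ * a)⁻¹ = k :=
      calc (b⁻¹ * a) * h * (b⁻¹ * a)⁻¹ = b⁻¹ * (a * h * a⁻¹) * b := by group
        _ = k := by rw [← hka]; group
    rw [h2]; exact hk
  have hnorm : ∀ a b : G, H.map (MulAut.conj a).toMonoidHom = H.map (MulAut.conj b).toMonoidHom →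
      b⁻¹ * a ∈ N := by
    intro a b he
    rw [Subgroup.mem_normalizer_iff]
    intro h
    refine ⟨fun hh => hmem a b he h hh, fun hh => ?_⟩
    have := hmem b a he.symm _ hh
    simpa [mul_assoc] using this
  -- the elements in question
  let T : Finset G := Finset.univ.filter fun g => ∃ h ∈ H, h ≠ 1 ∧ h * g = g * h
  let S : Finset G := T.filter fun g => g ∉ Subgroup.center G
  let Zs : Finset G := Finset.univ.filter fun g => g ∈ Subgroup.center G
  have hne : ∃ h ∈ H, h ≠ 1 := by
    obtain ⟨h, hh, h'⟩ := hker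
    exact ⟨h, hh, fun e => h' (by rw [e])⟩
  have hconjne : ∀ (a g : G), (∃ h ∈ H, h ≠ 1 ∧ (a * h * a⁻¹) * g = g * (a * h * a⁻¹)) →
      Subgroup.centralizer ({g} : Set G) ⊓ H.map (MulAut.conj a).toMonoidHom ≠ ⊥ := by
    rintro a g ⟨h, hh, h1, hcm⟩ hbot
    have : a * h * a⁻¹ ∈ Subgroup.centralizer ({g} : Set G) ⊓ H.map (MulAut.conj a).toMonoidHom :=
      ⟨Subgroup.mem_centralizer_singleton_iff.mpr hcm, Subgroup.mem_map.mpr ⟨h, hh, by simp⟩⟩
    rw [hbot, Subgroup.mem_bot, conj_eq_one_iff] at this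
    exact h1 this
  have hsame : ∀ g ∈ S, ∀ x g', g' ∈ S → ∀ x', x * g * x⁻¹ = x' * g' * x'⁻¹ → x'⁻¹ * x ∈ N := by
    intro g hg x g' hg' x' he
    simp only [S, T, Finset.mem_filter, Finset.mem_univ, true_and] at hg hg'
    obtain ⟨⟨h, hh, h1, hcm⟩, hgz⟩ := hg
    obtain ⟨⟨h', hh', h1', hcm'⟩, -⟩ := hg'
    refine hnorm x x' (hone (x * g * x⁻¹) ?_ x x' (hconjne _ _ ⟨h, hh, h1, ?_⟩)
      (hconjne _ _ ⟨h', hh', h1', ?_⟩))
    · intro hz
      have := (Subgroup.center G).mul_mem hz ((Subgroup.center G).one_mem)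
      exact hgz (by simpa [mul_assoc] using Subgroup.Normal.conj_mem inferInstance _ hz x⁻¹)
    · calc x * h * x⁻¹ * (x * g * x⁻¹) = x * (h * g) * x⁻¹ := by group
        _ = x * (g * h) * x⁻¹ := by rw [hcm]
        _ = _ := by group
    · rw [he]
      calc x' * h' * x'⁻¹ * (x' * g' * x'⁻¹) = x' * (h' * g') * x'⁻¹ := by group
        _ = x' * (g' * h') * x'⁻¹ := by rw [hcm']
        _ = _ := by group
  have hSN : ∀ g ∈ T, g ∈ N := by
    intro g hg
    by_cases hz : g ∈ Subgroup.center G
    · rw [Subgroup.mem_normalizer_iff]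
      intro h
      rw [← Subgroup.mem_center_iff.mp hz h, mul_inv_cancel_right]
    · have hgS : g ∈ S := Finset.mem_filter.mpr ⟨hg, hz⟩
      simpa using hsame g hgS g g hgS 1 (by group)
  -- first inequality: the conjugates of `S` are almost disjoint
  let F : G → ℝ := fun g => ‖χ g‖ ^ 2
  have hF : ∀ g, 0 ≤ F g := fun g => sq_nonneg _
  have hS1 : (Nat.card G : ℝ) * ∑ g ∈ S, F g ≤ (Nat.card N : ℝ) * ∑ y ∈ Finset.univ \ Zs, F y := by
    have h1 : ∑ q ∈ (Finset.univ : Finset G) ×ˢ S, F (q.1 * q.2 * q.1⁻¹) =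
        (Nat.card G : ℝ) * ∑ g ∈ S, F g := by
      rw [Finset.sum_product]
      simp only [F, isClassFunction hc _ _]
      rw [Finset.sum_const, Finset.card_univ, nsmul_eq_mul, Nat.card_eq_fintype_card]
    have hmaps : ∀ q ∈ (Finset.univ : Finset G) ×ˢ S, q.1 * q.2 * q.1⁻¹ ∈ Finset.univ \ Zs := by
      intro q hq
      simp only [Finset.mem_product, Finset.mem_univ, true_and, S, Finset.mem_filter] at hq
      simp only [Zs, Finset.mem_sdiff, Finset.mem_univ, true_and, Finset.mem_filter]
      exact fun hz => hq.2 (by simpa [mul_assoc] using Subgroup.Normal.conj_mem inferInstance _ hz q.1⁻¹)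
    rw [← h1, ← Finset.sum_fiberwise_of_maps_to hmaps, Finset.mul_sum]
    refine Finset.sum_le_sum fun y _ => ?_
    rw [Finset.sum_congr rfl (fun q hq => by rw [(Finset.mem_filter.mp hq).2]), Finset.sum_const,
      nsmul_eq_mul]
    refine mul_le_mul_of_nonneg_right ?_ (hF y)
    rcases Finset.eq_empty_or_nonempty (((Finset.univ : Finset G) ×ˢ S).filter
      fun q => q.1 * q.2 * q.1⁻¹ = y) with he | ⟨q₀, hq₀⟩
    · rw [he]; simp
    rw [Nat.cast_le, Nat.card_eq_fintype_card, ← Finset.card_univ, ← Finset.card_map ⟨Subtype.val,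
      Subtype.val_injective⟩]
    refine Finset.card_le_card_of_injOn (fun q => q₀.1⁻¹ * q.1) ?_ ?_
    · intro q hq
      simp only [Finset.coe_filter, Finset.mem_product, Finset.mem_univ, true_and, Set.mem_ofPred_eq] at hq
      simp only [Finset.mem_filter, Finset.mem_product, Finset.mem_univ, true_and] at hq₀
      simpa using hsame q.2 hq.1 q.1 q₀.2 hq₀.1 q₀.1 (hq.2.trans hq₀.2.symm)
    · intro q hq q' hq' he
      simp only [Finset.coe_filter, Finset.mem_product, Finset.mem_univ, true_and, Set.mem_ofPred_eq] at hq hq'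
      have e1 : q.1 = q'.1 := mul_left_cancel he
      refine Prod.ext e1 ?_
      have := hq.2.trans hq'.2.symm
      rw [e1] at this
      exact mul_left_cancel (mul_right_cancel this)
  have htot : ∑ y ∈ Finset.univ \ Zs, F y + ∑ y ∈ Zs, F y = (Nat.card G : ℝ) := by
    rw [Finset.sum_sdiff (Finset.subset_univ _)]
    exact sum_normSq_irr ⟨χ, hχ⟩
  have hd : 0 < (charDegree χ : ℝ) := by exact_mod_cast charDegree_pos hχ
  have hZsum : ∑ y ∈ Zs, F y = (Zs.card : ℝ) * (charDegree χ : ℝ) ^ 2 := by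
    rw [Finset.sum_congr rfl (fun y hy => show F y = (charDegree χ : ℝ) ^ 2 by
      simp only [F]; rw [norm_center hχ (Finset.mem_filter.mp hy).2]), Finset.sum_const, nsmul_eq_mul]
  have hZpos : 0 < (Zs.card : ℝ) := by
    exact_mod_cast Finset.card_pos.mpr ⟨1, Finset.mem_filter.mpr ⟨Finset.mem_univ _, one_mem _⟩⟩
  have hG : 0 < (Nat.card G : ℝ) := by exact_mod_cast Nat.card_pos
  have hN : 0 < (Nat.card N : ℝ) := by exact_mod_cast Nat.card_pos
  have hSlt : ∑ g ∈ S, F g < (Nat.card N : ℝ) := by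
    have h2 : ∑ y ∈ Finset.univ \ Zs, F y < (Nat.card G : ℝ) := by
      nlinarith [mul_pos hZpos (pow_pos hd 2)]
    nlinarith
  -- second inequality: inside the normalizer
  let H' : Subgroup N := H.subgroupOf N
  haveI : H'.Normal := Subgroup.normal_in_normalizer
  letI : Fintype H' := Fintype.ofFinite _
  let ψ : G → ℂ := avgH H χ
  have hψc : IsCharacter N (fun n : N => ψ n) := by
    have := isCharacter_cosetAvg H' (isCharacter_restrict hc N)
    convert this using 1
    funext n
    simp only [ψ, avgH]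
    rw [Nat.card_congr (Subgroup.subgroupOfEquivOfLe hHN).toEquiv]
    congr 1
    exact (Fintype.sum_equiv (Subgroup.subgroupOfEquivOfLe hHN).toEquiv _ _ (fun k => by rfl)).symm
  have hψinv : ∀ (x : G) (h : H), ψ (x * h) = ψ x := by
    intro x h
    simp only [ψ, avgH]
    congr 1
    exact Fintype.sum_equiv (Equiv.mulLeft h) _ _ (fun k => by simp [mul_assoc])
  have hH0 : (Nat.card H : ℂ) ≠ 0 := Nat.cast_ne_zero.mpr Nat.card_pos.ne'
  have hout : ∀ n : N, (n : G) ∉ T → χ n = ψ n := by
    intro n hn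
    let f : H → H := fun a => ⟨(n : G)⁻¹ * (a : G)⁻¹ * n * a, H.mul_mem ((by
      simpa using (Subgroup.mem_normalizer_iff.mp (N.inv_mem n.2) _).mp (H.inv_mem a.2))) a.2⟩
    have hf : Function.Injective f := by
      intro a b he
      have he' : (n : G)⁻¹ * (a : G)⁻¹ * n * a = (n : G)⁻¹ * (b : G)⁻¹ * n * b := congrArg Subtype.val he
      simp only [mul_assoc] at he'
      have h2 : (a : G)⁻¹ * ((n : G) * a) = (b : G)⁻¹ * ((n : G) * b) := mul_left_cancel he'
      by_contra hab'
      apply hn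
      refine Finset.mem_filter.mpr ⟨Finset.mem_univ _, (b : G) * (a : G)⁻¹, H.mul_mem b.2 (H.inv_mem a.2), ?_, ?_⟩
      · intro e; exact hab' (Subtype.ext (mul_inv_eq_one.mp e).symm)
      · calc (b : G) * (a : G)⁻¹ * n = (b : G) * ((a : G)⁻¹ * (n * a)) * (a : G)⁻¹ := by group
          _ = (b : G) * ((b : G)⁻¹ * (n * b)) * (a : G)⁻¹ := by rw [h2]
          _ = _ := by group
    have hsum : ∑ a : H, χ (n * (f a : G)) = ∑ h : H, χ (n * h) :=
      Fintype.sum_bijective f (Finite.injective_iff_bijective.mp hf) _ _ (fun a => rfl)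
    have hconst : ∀ a : H, χ (n * (f a : G)) = χ n := by
      intro a
      rw [← apply_conj' hc (a : G) (n : G)]
      congr 1
      simp only [f]; group
    simp only [ψ, avgH]
    rw [← hsum, Finset.sum_congr rfl (fun a _ => hconst a), Finset.sum_const, Finset.card_univ,
      ← Nat.card_eq_fintype_card, nsmul_eq_mul, inv_mul_cancel_left₀ hH0]
  have horth : ∑ n : N, conj (ψ n) * χ n = ∑ n : N, conj (ψ n) * ψ n := by
    have h1 : ∀ h : H, ∑ n : N, conj (ψ n) * χ ((n : G) * h) = ∑ n : N, conj (ψ n) * χ n := by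
      intro h
      refine Fintype.sum_equiv (Equiv.mulRight (⟨(h : G), hHN h.2⟩ : N)) _ _ (fun n => ?_)
      simp [hψinv]
    have h2 : ∀ n : N, conj (ψ n) * ψ n = (Nat.card H : ℂ)⁻¹ * ∑ h : H, conj (ψ n) * χ ((n : G) * h) := by
      intro n
      rw [← Finset.mul_sum]
      simp only [ψ, avgH]
      ring
    rw [Finset.sum_congr rfl (fun n (_ : n ∈ Finset.univ) => h2 n), ← Finset.mul_sum, Finset.sum_comm,
      Finset.sum_congr rfl (fun h (_ : h ∈ Finset.univ) => h1 h), Finset.sum_const, Finset.card_univ,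
      ← Nat.card_eq_fintype_card, nsmul_eq_mul, inv_mul_cancel_left₀ hH0]
  have hsplit : ∑ n : N, ‖χ n - ψ n‖ ^ 2 = ∑ n : N, ‖χ n‖ ^ 2 - ∑ n : N, ‖ψ n‖ ^ 2 := by
    have horth' : ∑ n : N, χ n * conj (ψ n) = ∑ n : N, ψ n * conj (ψ n) := by
      simpa only [mul_comm] using horth
    have horth'' : ∑ n : N, ψ n * conj (χ n) = ∑ n : N, ψ n * conj (ψ n) := by
      have := congrArg conj horth'
      simpa only [map_sum, map_mul, Complex.conj_conj, mul_comm] using this
    rw [← Complex.ofReal_inj]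
    push_cast
    simp only [← Complex.mul_conj', map_sub, sub_mul, mul_sub, Finset.sum_sub_distrib]
    rw [horth', horth'']
    ring
  have hψ1 : χ 1 ≠ ψ 1 := by
    intro he
    obtain ⟨h, hh, hne'⟩ := hker
    simp only [ψ, avgH, one_mul] at he
    have h1 : ∑ h : H, (χ h).re = ∑ _h : H, (charDegree χ : ℝ) := by
      rw [← Complex.re_sum, show ∑ h : H, χ h = (Nat.card H : ℂ) * χ 1 by
        rw [he, mul_inv_cancel_left₀ hH0], apply_one hc]
      simp [Nat.card_eq_fintype_card]
    have h2 := (Finset.sum_eq_sum_iff_of_le (fun (k : H) _ =>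
      (Complex.re_le_norm (χ k)).trans (norm_le hc (k : G)))).mp h1 ⟨h, hh⟩ (Finset.mem_univ _)
    apply hne'
    rw [apply_one hc]
    have h3 : ‖χ h‖ ≤ (charDegree χ : ℝ) := norm_le hc h
    simp only at h2
    have h4 : (χ h).im = 0 := by
      have := Complex.sq_norm (χ h)
      rw [Complex.normSq_apply] at this
      nlinarith [norm_nonneg (χ h)]
    exact Complex.ext (by simpa using h2) (by simpa using h4)
  have hNsum : (Nat.card N : ℝ) ≤ ∑ n : N, ‖χ n - ψ n‖ ^ 2 := by
    obtain ⟨a, ha⟩ := classInner_characters_nat (isCharacter_restrict hc N) (isCharacter_restrict hc N)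
    obtain ⟨b, hb⟩ := classInner_characters_nat hψc hψc
    have e1 : ∑ n : N, ‖χ n‖ ^ 2 = (Nat.card N : ℝ) * a := by
      have := sum_normSq_eq (fun n : N => χ n)
      rw [ha] at this
      exact_mod_cast this
    have e2 : ∑ n : N, ‖ψ n‖ ^ 2 = (Nat.card N : ℝ) * b := by
      have := sum_normSq_eq (fun n : N => ψ n)
      rw [hb] at this
      exact_mod_cast this
    have hpos : 0 < ∑ n : N, ‖χ n - ψ n‖ ^ 2 :=
      lt_of_lt_of_le (pow_pos (norm_pos_iff.mpr (sub_ne_zero.mpr hψ1)) 2)
        (Finset.single_le_sum (f := fun n : N => ‖χ n - ψ n‖ ^ 2) (fun n _ => sq_nonneg _)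
          (Finset.mem_univ (1 : N)))
    rw [hsplit, e1, e2] at hpos ⊢
    have hba : b < a := by
      by_contra hle
      have : (a : ℝ) ≤ b := by exact_mod_cast not_lt.mp hle
      nlinarith
    have : (b : ℝ) + 1 ≤ a := by exact_mod_cast hba
    nlinarith
  have hTsum : ∑ g ∈ T, F g = ∑ n : N, ‖χ n - ψ n‖ ^ 2 + ∑ g ∈ T, ‖ψ g‖ ^ 2 := by
    rw [hsplit, ← Finset.sum_sub_distrib]
    have h1 : ∀ g ∈ Finset.univ.filter (fun g => g ∈ N), g ∉ T → F g - ‖ψ g‖ ^ 2 = 0 := by
      intro g hg hgT
      simp only [F, hout ⟨g, (Finset.mem_filter.mp hg).2⟩ hgT, sub_self]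
    rw [← Finset.sum_subtype (Finset.univ.filter fun g => g ∈ N) (by simp)
      (fun g => F g - ‖ψ g‖ ^ 2), ← Finset.sum_subset (fun g hg => Finset.mem_filter.mpr
        ⟨Finset.mem_univ _, hSN g hg⟩) h1, Finset.sum_sub_distrib]
    ring
  have hψz : ∀ (h : H) (z : G), z ∈ Zs → ‖ψ (z * h)‖ = (m : ℝ) := by
    intro h z hz
    have hzc := (Finset.mem_filter.mp hz).2
    rw [hψinv]
    have h1 : χ 1 * ψ z = χ z * m := by
      rw [← hm, classInner_one]
      simp only [ψ, avgH, Finset.mul_sum]
      refine Finset.sum_congr rfl fun k _ => ?_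
      linear_combination (Nat.card H : ℂ)⁻¹ * center_mul hχ hzc (k : G)
    have h2 := congrArg norm h1
    rw [norm_mul, norm_mul, norm_center hχ hzc, apply_one hc, Complex.norm_natCast, Complex.norm_natCast] at h2
    exact mul_left_cancel₀ hd.ne' h2
  have hψT : (Zs.card : ℝ) * Nat.card H * (m : ℝ) ^ 2 ≤ ∑ g ∈ T, ‖ψ g‖ ^ 2 := by
    have hinj : Set.InjOn (fun q : G × H => q.1 * (q.2 : G)) ↑(Zs ×ˢ (Finset.univ : Finset H)) := by
      rintro ⟨z, h⟩ hz ⟨z', h'⟩ hz' he
      simp only [Finset.coe_product, Set.mem_prod, Finset.mem_coe, Zs, Finset.mem_filter,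
        Finset.mem_univ, true_and, and_true] at hz hz'
      have h1 : (h : G) * (h' : G)⁻¹ = z⁻¹ * z' := by
        have := congrArg (fun w => z⁻¹ * w * (h' : G)⁻¹) he
        simpa [mul_assoc] using this
      have h2 : (h : G) * (h' : G)⁻¹ ∈ H ⊓ Subgroup.center G :=
        ⟨H.mul_mem h.2 (H.inv_mem h'.2), h1 ▸ (Subgroup.center G).mul_mem ((Subgroup.center G).inv_mem hz) hz'⟩
      rw [hZ, Subgroup.mem_bot, mul_inv_eq_one] at h2
      have h3 : h = h' := Subtype.ext h2
      subst h3
      exact Prod.ext (mul_right_cancel he) rfl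
    calc (Zs.card : ℝ) * Nat.card H * (m : ℝ) ^ 2
        = ∑ g ∈ (Zs ×ˢ (Finset.univ : Finset H)).image (fun q => q.1 * (q.2 : G)), ‖ψ g‖ ^ 2 := by
          rw [Finset.sum_image hinj, Finset.sum_congr rfl (fun q hq => by
            rw [hψz q.2 q.1 (Finset.mem_product.mp hq).1]), Finset.sum_const, Finset.card_product,
            nsmul_eq_mul, Nat.cast_mul, Nat.card_eq_fintype_card, Finset.card_univ]
      _ ≤ _ := Finset.sum_le_sum_of_subset_of_nonneg (by
          intro g hg
          obtain ⟨⟨z, h⟩, hq, rfl⟩ := Finset.mem_image.mp hg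
          simp only [Zs, Finset.mem_product, Finset.mem_filter, Finset.mem_univ, true_and, and_true] at hq
          obtain ⟨k, hk, hk1⟩ := hne
          refine Finset.mem_filter.mpr ⟨Finset.mem_univ _, k, hk, hk1, ?_⟩
          calc k * (z * h) = z * (k * h) := by rw [← mul_assoc, Subgroup.mem_center_iff.mp hq k, mul_assoc]
            _ = _ := by rw [hab k hk h h.2, mul_assoc]) (fun g _ _ => sq_nonneg _)
  have hTS : ∑ g ∈ T, F g = ∑ g ∈ S, F g + ∑ g ∈ Zs, F g := by
    rw [← Finset.sum_filter_add_sum_filter_not T (fun g => g ∉ Subgroup.center G) F]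
    congr 1
    refine Finset.sum_congr ?_ (fun _ _ => rfl)
    ext g
    simp only [T, Zs, Finset.mem_filter, Finset.mem_univ, true_and, not_not]
    refine ⟨fun h => h.2, fun hz => ⟨?_, hz⟩⟩
    obtain ⟨k, hk, hk1⟩ := hne
    exact ⟨k, hk, hk1, Subgroup.mem_center_iff.mp hz k⟩
  nlinarith [hTsum, hψT, hTS, hZsum, hSlt, hNsum, hZpos]

/-- Let H be an abelian subgroup of the finite group G meeting the centre of G trivially, such that for every non-central g the centralizer of g has nontrivial intersection with at most one conjugate of H. Let χ be an irreducible character of G with χ h ≠ χ 1 for some h in H, and let c be the inner product of the restriction of χ to H with the principal character. Then χ(1)² > (order of H)·c²; and if in addition χ 1 ≠ 1 and no proper normal subgroup of G contains H, then (1 + χ 1)² > order of H (both sides read as real numbers). -/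
theorem result {G : Type*} [Group G] [Fintype G] (H : Subgroup G) [Fintype H] (hab : ∀ a ∈ H, ∀ b ∈ H, a * b = b * a) (hZ : H ⊓ Subgroup.center G = ⊥) (hone : ∀ g : G, g ∉ Subgroup.center G → ∀ a b : G, Subgroup.centralizer ({g} : Set G) ⊓ H.map (MulAut.conj a).toMonoidHom ≠ ⊥ → Subgroup.centralizer ({g} : Set G) ⊓ H.map (MulAut.conj b).toMonoidHom ≠ ⊥ → H.map (MulAut.conj a).toMonoidHom = H.map (MulAut.conj b).toMonoidHom) (χ : G → ℂ) (hχ : Cfsg.IsIrrCharacter G χ) (hker : ∃ h ∈ H, χ h ≠ χ 1) : (χ 1).re ^ 2 > (Nat.card H : ℝ) * (Cfsg.classInner (fun h : H => χ h) (fun _ => 1)).re ^ 2 ∧ (χ 1 ≠ 1 → (∀ M : Subgroup G, M.Normal → H ≤ M → M = ⊤) → (1 + (χ 1).re) ^ 2 > (Nat.card H : ℝ)) := by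
  classical
  have hc := isCharacter_of_irr hχ
  obtain ⟨m, hm⟩ := classInner_character_nat (isCharacter_restrict hc H) oneChar
  have hre : (χ 1).re = (charDegree χ : ℝ) := by rw [apply_one hc]; exact Complex.natCast_re _
  refine ⟨?_, fun hnl hgen => ?_⟩
  · have hm' : (classInner (fun h : H => χ h) (fun _ => 1)).re = (m : ℝ) := by
      rw [show classInner (fun h : H => χ h) (fun _ => 1) = (m : ℂ) from hm]; exact Complex.natCast_re _
    rw [hre, hm']
    exact key H hab hZ hone χ hχ hker m hm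
  let φ : G → ℂ := fun g => χ g * χ g⁻¹
  have hφ : IsCharacter G φ := isCharacter_mul hc (isCharacter_inv hc)
  obtain ⟨r, f, hf, hfs⟩ := exists_decomp hφ
  have hfc := fun i => isCharacter_of_irr (hf i)
  choose k hk using fun i => classInner_character_nat (isCharacter_restrict (hfc i) H) oneChar
  -- degrees
  have hD : ∑ i, (charDegree (f i) : ℝ) = (charDegree χ : ℝ) ^ 2 := by
    have h1 : φ 1 = ∑ i, f i 1 := by rw [hfs, Finset.sum_apply]
    simp only [φ, inv_one, apply_one hc, Finset.sum_congr rfl (fun i _ => apply_one (hfc i))] at h1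
    rw [sq]; exact_mod_cast h1.symm
  -- multiplicities on `H`
  have hM : (charDegree χ : ℝ) ≤ ∑ i, (k i : ℝ) := by
    haveI : IsMulCommutative ↥H := ⟨⟨fun a b => Subtype.ext (hab a a.2 b b.2)⟩⟩
    obtain ⟨s, g, hg, hgs⟩ := exists_decomp (isCharacter_restrict hc H)
    have hs : s = charDegree χ := by
      have h1 : χ (1 : G) = ∑ i, g i 1 := by
        have := congrFun hgs (1 : H)
        simpa [Finset.sum_apply] using this
      rw [apply_one hc, Finset.sum_congr rfl (fun i _ => (irr_comm_hom (hg i)).1)] at h1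
      simpa using h1.symm
    have h2 : ∀ i, ∃ n : ℕ, 1 ≤ n ∧ classInner (g i) (fun h : H => χ h) = n := by
      intro i
      choose c hc' using fun j => classInner_character_nat (isCharacter_of_irr (hg j)) ⟨g i, hg i⟩
      refine ⟨∑ j, c j, ?_, ?_⟩
      · refine le_trans ?_ (Finset.single_le_sum (fun j _ => Nat.zero_le (c j)) (Finset.mem_univ i))
        have h3 := hc' i
        simp only [classInner_self (hg i)] at h3
        exact_mod_cast (Nat.cast_injective (R := ℂ) (by simpa using h3.symm) : c i = 1).ge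
      · rw [show (fun h : H => χ h) = ∑ j, g j from hgs, classInner_sum_right, Nat.cast_sum]
        refine Finset.sum_congr rfl fun j _ => ?_
        rw [classInner_comm (g j) (g i)]
        simp only at hc'
        rw [hc' j, Complex.conj_natCast]
    choose n hn1 hn using h2
    have h4 : classInner (fun h : H => χ h) (fun h : H => χ h) = ∑ i, (k i : ℂ) := by
      have h5 : classInner (fun h : H => χ h) (fun h : H => χ h) =
          classInner (fun h : H => φ h) (fun _ => 1) := by
        rw [classInner_one, classInner_eq]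
        simp only [φ, apply_inv hc]
      rw [h5, show (fun h : H => φ h) = ∑ i, (fun h : H => f i h) by
        funext h; rw [hfs, Finset.sum_apply, Finset.sum_apply], classInner_sum_left]
      exact Finset.sum_congr rfl fun i _ => hk i
    have h6 : classInner (fun h : H => χ h) (fun h : H => χ h) = ∑ i, (n i : ℂ) := by
      rw [← Finset.sum_congr rfl (fun i _ => hn i), ← classInner_sum_left, ← hgs]
    have h7 : ∑ i, k i = ∑ i, n i := by exact_mod_cast h4.symm.trans h6
    rw [← Nat.cast_sum, Nat.cast_le, h7, ← hs]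
    calc s = ∑ _i : Fin s, 1 := by simp
      _ ≤ _ := Finset.sum_le_sum fun i _ => hn1 i
  -- the principal constituent occurs once
  let one' : Finset (Fin r) := Finset.univ.filter fun i => f i = fun _ => 1
  have hone' : one'.card = 1 := by
    have h1 : classInner φ (fun _ => 1) = 1 := by
      rw [classInner_one]
      have := classInner_self hχ
      rw [classInner_eq] at this
      simpa only [φ, apply_inv hc] using this
    rw [hfs, classInner_sum_left] at h1
    have h2 : ∀ i, classInner (f i) (fun _ => 1) = if f i = (fun _ => 1) then 1 else 0 := by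
      intro i
      split
      · next h => rw [h]; exact classInner_self isIrrCharacter_one
      · next h => exact classInner_ne (hf i) isIrrCharacter_one h
    rw [Finset.sum_congr rfl (fun i _ => h2 i), ← Finset.sum_filter, Finset.sum_const, nsmul_eq_mul,
      mul_one] at h1
    exact_mod_cast h1
  obtain ⟨i0, hi0⟩ := Finset.card_eq_one.mp hone'
  have hfi0 : f i0 = fun _ => 1 := by
    have : i0 ∈ one' := by rw [hi0]; exact Finset.mem_singleton_self _
    exact (Finset.mem_filter.mp this).2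
  have hd0 : (charDegree (f i0) : ℝ) = 1 := by
    have := apply_one (hfc i0)
    rw [hfi0] at this ⊢
    simp only at this
    exact_mod_cast this.symm
  have hk0 : (k i0 : ℝ) = 1 := by
    have := hk i0
    rw [hfi0] at this
    exact_mod_cast this.symm.trans (classInner_self isIrrCharacter_one)
  have hs0 : 0 ≤ Real.sqrt (Nat.card H) := Real.sqrt_nonneg _
  have hsq := Real.sq_sqrt (Nat.cast_nonneg (α := ℝ) (Nat.card H))
  have hlt : ∀ i ∈ Finset.univ.erase i0, Real.sqrt (Nat.card H) * k i < (charDegree (f i) : ℝ) := by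
    intro i hi
    have hfi : f i ≠ fun _ => 1 := fun he =>
      by
      have h' : i ∈ one' := Finset.mem_filter.mpr ⟨Finset.mem_univ _, he⟩
      rw [hi0, Finset.mem_singleton] at h'
      exact (Finset.mem_erase.mp hi).1 h'
    have hker' : ∃ h ∈ H, f i h ≠ f i 1 := by
      by_contra hcon
      push Not at hcon
      have htop := hgen _ (charKer_normal (hfc i)) (fun h hh => (mem_charKer (hfc i) h).mpr (hcon h hh))
      have hval : ∀ g, f i g = (charDegree (f i) : ℂ) := fun g => by
        rw [(mem_charKer (hfc i) g).mp (htop ▸ Subgroup.mem_top g), apply_one (hfc i)]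
      apply hfi
      have h1 := classInner_self (hf i)
      rw [classInner_eq] at h1
      simp only [hval, Complex.conj_natCast, Finset.sum_const, Finset.card_univ,
        ← Nat.card_eq_fintype_card, nsmul_eq_mul,
        inv_mul_cancel_left₀ (Nat.cast_ne_zero.mpr Nat.card_pos.ne' : (Nat.card G : ℂ) ≠ 0)] at h1
      have h2 : charDegree (f i) * charDegree (f i) = 1 := by exact_mod_cast h1
      funext g
      rw [hval g, Nat.eq_one_of_mul_eq_one_right h2, Nat.cast_one]
    have := key H hab hZ hone (f i) (hf i) hker' (k i) (hk i)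
    refine lt_of_pow_lt_pow_left₀ 2 (Nat.cast_nonneg _) ?_
    rw [mul_pow, hsq]; exact this
  have hdχ : 2 ≤ (charDegree χ : ℝ) := by
    have := charDegree_pos hχ
    have h1 : charDegree χ ≠ 1 := fun he => hnl (by rw [apply_one hc, he, Nat.cast_one])
    exact_mod_cast (show 2 ≤ charDegree χ by omega)
  have hsplitD := Finset.add_sum_erase Finset.univ (fun i => (charDegree (f i) : ℝ)) (Finset.mem_univ i0)
  have hsplitM := Finset.add_sum_erase Finset.univ (fun i => (k i : ℝ)) (Finset.mem_univ i0)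
  simp only [hd0, hk0] at hsplitD hsplitM
  have hne : (Finset.univ.erase i0).Nonempty := by
    rw [Finset.nonempty_iff_ne_empty]
    intro he
    rw [he, Finset.sum_empty] at hsplitD
    nlinarith
  have hlt' := Finset.sum_lt_sum_of_nonempty hne hlt
  rw [← Finset.mul_sum] at hlt'
  rw [hre]
  have h5 : Real.sqrt (Nat.card H) * ((charDegree χ : ℝ) - 1) <
      ((charDegree χ : ℝ) + 1) * ((charDegree χ : ℝ) - 1) := by nlinarith
  have h6 := lt_of_mul_lt_mul_right h5 (by linarith)
  nlinarith

end Cfsg.Agent.S0898
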