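import Cfsg.Statements.S4465
import Cfsg.Agent.Blichfeldt.Pair
-- import your own Cfsg.Agent.* helpers here

set_option autoImplicit false
open Cfsg

namespace Cfsg.Agent.S4465

open scoped Pointwise
open CfsgLib CfsgLib.CharBasics CfsgLib.SchurRational CfsgLib.Blichfeldt

universe u

/-- A commutative subgroup generated by commuting elements. -/
theorem comm_of_sup {G : Type u} [Group G] {P Q : Subgroup G}
    (hP : ∀ a ∈ P, ∀ b ∈ P, a * b = b * a) (hQ : ∀ a ∈ Q, ∀ b ∈ Q, a * b = b * a)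
    (hPQ : ∀ a ∈ P, ∀ b ∈ Q, a * b = b * a) : ∀ a ∈ P ⊔ Q, ∀ b ∈ P ⊔ Q, a * b = b * a := by
  have h1 : ∀ {A B : Subgroup G}, (∀ a ∈ A, ∀ b ∈ B, a * b = b * a) → A ≤ Subgroup.centralizer (B : Set G) :=
    fun h a ha => Subgroup.mem_centralizer_iff.2 fun b hb => (h a ha b hb).symm
  have h2 : P ⊔ Q ≤ Subgroup.centralizer (P : Set G) :=
    sup_le (h1 hP) (h1 fun a ha b hb => (hPQ b hb a ha).symm)
  have h3 : P ⊔ Q ≤ Subgroup.centralizer (Q : Set G) := sup_le (h1 hPQ) (h1 hQ)
  have h4 : P ⊔ Q ≤ Subgroup.centralizer ((P ⊔ Q : Subgroup G) : Set G) := fun a ha => by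
    rw [Subgroup.mem_centralizer_iff]
    intro b hb
    have h5 : P ⊔ Q ≤ Subgroup.centralizer ({a} : Set G) := by
      refine sup_le (fun c hc => ?_) (fun c hc => ?_)
      · exact Subgroup.mem_centralizer_singleton_iff.2 (Subgroup.mem_centralizer_iff.1 (h2 ha) c hc)
      · exact Subgroup.mem_centralizer_singleton_iff.2 (Subgroup.mem_centralizer_iff.1 (h3 ha) c hc)
    exact Subgroup.mem_centralizer_singleton_iff.1 (h5 hb)
  exact fun a ha b hb => (Subgroup.mem_centralizer_iff.1 (h4 ha) b hb).symm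

/-- Large primes give abelian subgroups. -/
theorem comm_of_pgroup {G : Type u} [Group G] [Finite G] {χ : G → ℂ} (hχ : Cfsg.IsCharacter G χ)
    (hfaith : ∀ g : G, χ g = χ 1 → g = 1) {n : ℕ} (hn : Cfsg.charDegree χ ≤ n) {p : ℕ} [Fact p.Prime]
    (hpn : n + 1 < p) {P : Subgroup G} (hP : IsPGroup p P) : ∀ a ∈ P, ∀ b ∈ P, a * b = b * a := by
  classical
  intro a ha b hb
  haveI := Fintype.ofFinite P
  obtain ⟨r, ψ, hψ, hsum⟩ := exists_decomp (CharBasics.isCharacter_comp hχ P.subtype)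
  obtain ⟨c, hc⟩ := hP.exists_card_eq
  have h1 : χ 1 = ((∑ i, Cfsg.charDegree (ψ i) : ℕ) : ℂ) := by
    rw [← map_one P.subtype]
    refine (congrFun hsum 1).trans ?_
    rw [Finset.sum_apply, Nat.cast_sum]
    exact Finset.sum_congr rfl fun i _ => apply_one (isCharacter_of_irr (hψ i))
  rw [apply_one hχ, Nat.cast_inj] at h1
  have hlin : ∀ i, Cfsg.charDegree (ψ i) = 1 := by
    intro i
    have hdvd : Cfsg.charDegree (ψ i) ∣ p ^ c := hc ▸ degree_dvd (⟨ψ i, hψ i⟩ : Cfsg.IrrCharacter P)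
    obtain ⟨s, -, hs⟩ := (Nat.dvd_prime_pow (Fact.out : p.Prime)).1 hdvd
    rcases Nat.eq_zero_or_pos s with rfl | hs0
    · rw [hs, pow_zero]
    · exfalso
      have h2 : p ≤ Cfsg.charDegree (ψ i) := hs ▸ Nat.le_self_pow hs0.ne' p
      have h3 := Finset.single_le_sum (f := fun i => Cfsg.charDegree (ψ i)) (fun _ _ => Nat.zero_le _)
        (Finset.mem_univ i)
      omega
  set a' : P := ⟨a, ha⟩
  set b' : P := ⟨b, hb⟩
  have h2 : χ ((a' * b' * a'⁻¹ * b'⁻¹ : P) : G) = χ ((1 : P) : G) := by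
    show (fun y : P => χ (P.subtype y)) (a' * b' * a'⁻¹ * b'⁻¹) = (fun y : P => χ (P.subtype y)) 1
    rw [hsum, Finset.sum_apply, Finset.sum_apply]
    refine Finset.sum_congr rfl fun i _ => ?_
    obtain ⟨f, hf⟩ := CfsgLib.Clifford.exists_hom_of_linear (isCharacter_of_irr (hψ i))
      (by rw [apply_one (isCharacter_of_irr (hψ i)), hlin i, Nat.cast_one])
    rw [hf]
    show f _ = f 1
    have hx := map_mul f a' a'⁻¹
    have hy := map_mul f b' b'⁻¹
    rw [mul_inv_cancel, map_one] at hx hy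
    rw [map_mul, map_mul, map_mul, map_one]
    linear_combination -(f b' * f b'⁻¹) * hx - hy
  have h3 : a * b * a⁻¹ * b⁻¹ = 1 := hfaith _ h2
  rwa [mul_inv_eq_one, mul_inv_eq_iff_eq_mul] at h3

/-- A `q`-element of a subgroup is conjugate into any subgroup with full `q`-part. -/
theorem exists_conj_mem {G : Type u} [Group G] [Finite G] {q : ℕ} [Fact q.Prime] (A H : Subgroup G) (hAH : A ≤ H)
    (hA : (Nat.card A).factorization q = (Nat.card H).factorization q) {y : G} (hy : y ∈ H)
    (hyq : IsPGroup q (Subgroup.zpowers y)) : ∃ c ∈ H, c * y * c⁻¹ ∈ A := by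
  obtain ⟨B⟩ : Nonempty (Sylow q A) := inferInstance
  let B' : Subgroup H := ((B : Subgroup A).map (Subgroup.inclusion hAH))
  have hB' : Nat.card B' = q ^ (Nat.card H).factorization q := by
    rw [Subgroup.card_map_of_injective (Subgroup.inclusion_injective hAH), Sylow.card_eq_multiplicity, hA]
  let S : Sylow q H := Sylow.ofCard B' hB'
  have hyH : IsPGroup q (Subgroup.zpowers (⟨y, hy⟩ : H)) := by
    refine hyq.of_injective ((H.subtype.comp (Subgroup.zpowers (⟨y, hy⟩ : H)).subtype).codRestrict _ ?_) ?_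
    · rintro ⟨_, i, rfl⟩
      exact ⟨i, by simp⟩
    · intro u v huv
      exact Subtype.ext (Subtype.ext (congrArg (fun t : Subgroup.zpowers y => (t : G)) huv))
  obtain ⟨R, hR⟩ := hyH.exists_le_sylow
  obtain ⟨c, hc⟩ := MulAction.exists_smul_eq H R S
  refine ⟨(c : G), c.2, ?_⟩
  have h1 : c * ⟨y, hy⟩ * c⁻¹ ∈ (S : Subgroup H) := by
    rw [← hc]
    exact Subgroup.smul_mem_pointwise_smul _ (MulAut.conj c) _ (hR (Subgroup.mem_zpowers _))
  obtain ⟨w, -, hw⟩ := (h1 : c * ⟨y, hy⟩ * c⁻¹ ∈ B')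
  have h2 : (w : G) = (c : G) * y * (c : G)⁻¹ := congrArg Subtype.val hw
  exact h2 ▸ w.2

theorem fact_eq {G : Type u} [Group G] [Finite G] {q : ℕ} [hq : Fact q.Prime] (H : Subgroup G)
    (P : Sylow q G) (hP : (P : Subgroup G) ≤ H) :
    (Nat.card H).factorization q = (Nat.card G).factorization q := by
  refine le_antisymm ((Nat.factorization_le_iff_dvd Nat.card_pos.ne' Nat.card_pos.ne').2
    (Subgroup.card_subgroup_dvd_card H) q) ?_
  refine (hq.out.pow_dvd_iff_le_factorization Nat.card_pos.ne').1 ?_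
  rw [← Sylow.card_eq_multiplicity P]
  exact Subgroup.card_dvd_of_le hP

/-- A subgroup with full `q`-part gives the full part of a bigger subgroup. -/
theorem fact_mono {G : Type u} [Group G] [Finite G] {q : ℕ} {A H : Subgroup G} (hAH : A ≤ H)
    (hA : (Nat.card A).factorization q = (Nat.card G).factorization q) :
    (Nat.card H).factorization q = (Nat.card G).factorization q :=
  le_antisymm ((Nat.factorization_le_iff_dvd Nat.card_pos.ne' Nat.card_pos.ne').2
      (Subgroup.card_subgroup_dvd_card H) q)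
    (hA ▸ (Nat.factorization_le_iff_dvd Nat.card_pos.ne' Nat.card_pos.ne').2 (Subgroup.card_dvd_of_le hAH) q)

/-- An element noncentral has proper centralizer. -/
theorem centralizer_lt {G : Type u} [Group G] [Finite G] {y : G} (hy : y ∉ Subgroup.center G) :
    Nat.card (Subgroup.centralizer ({y} : Set G)) < Nat.card G := by
  refine lt_of_le_of_ne (Nat.le_of_dvd Nat.card_pos (Subgroup.card_subgroup_dvd_card _)) fun h => hy ?_
  have h1 := Subgroup.eq_top_of_card_eq _ h
  rw [Subgroup.mem_center_iff]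
  intro g
  exact Subgroup.mem_centralizer_singleton_iff.1 (h1 ▸ Subgroup.mem_top g)

theorem main (n : ℕ) : ∀ (N : ℕ) (G : Type u) [Group G] [Finite G], Nat.card G = N → ∀ χ : G → ℂ,
    Cfsg.IsCharacter G χ → (∀ g : G, χ g = χ 1 → g = 1) → Cfsg.charDegree χ ≤ n →
    ∃ A : Subgroup G, (∀ x ∈ A, ∀ y ∈ A, x * y = y * x) ∧ (∀ q : ℕ, q.Prime → q ∣ Nat.card A → n + 1 < q) ∧
      ∀ q : ℕ, q.Prime → n + 1 < q → (Nat.card A).factorization q = (Nat.card G).factorization q := by
  intro N
  induction N using Nat.strong_induction_on with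
  | _ N ih =>
  intro G _ _ hN χ hχ hf hn
  classical
  -- the subgroup case
  have hsub : ∀ H : Subgroup G, Nat.card H < N → ∃ A : Subgroup G, A ≤ H ∧ (∀ x ∈ A, ∀ y ∈ A, x * y = y * x) ∧
      (∀ q : ℕ, q.Prime → q ∣ Nat.card A → n + 1 < q) ∧
      ∀ q : ℕ, q.Prime → n + 1 < q → (Nat.card A).factorization q = (Nat.card H).factorization q := by
    intro H hH
    obtain ⟨A, hA1, hA2, hA3⟩ := ih _ hH H rfl (fun h : H => χ (H.subtype h))
      (CharBasics.isCharacter_comp hχ H.subtype)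
      (fun h hh => Subtype.ext (hf _ (by simpa using hh))) (by simpa [Cfsg.charDegree] using hn)
    refine ⟨A.map H.subtype, Subgroup.map_subtype_le _, ?_, ?_, ?_⟩
    · rintro _ ⟨x, hx, rfl⟩ _ ⟨y, hy, rfl⟩
      exact congrArg Subtype.val (hA1 x hx y hy)
    · rw [Subgroup.card_map_of_injective H.subtype_injective]; exact hA2
    · rw [Subgroup.card_map_of_injective H.subtype_injective]; exact hA3
  -- an element of a Sylow subgroup
  have hsyl : ∀ {q : ℕ} [Fact q.Prime], n + 1 < q → ∀ {y : G}, IsPGroup q (Subgroup.zpowers y) →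
      (Nat.card (Subgroup.centralizer ({y} : Set G))).factorization q = (Nat.card G).factorization q := by
    intro q _ hqn y hy
    obtain ⟨S, hS⟩ := hy.exists_le_sylow
    refine fact_eq _ S fun s hs => Subgroup.mem_centralizer_singleton_iff.2 ?_
    exact comm_of_pgroup hχ hf hn hqn S.2 s hs y (hS (Subgroup.mem_zpowers y))
  -- the pairs
  have hpair : ∀ {p q : ℕ} [Fact p.Prime] [Fact q.Prime], n + 1 < p → n + 1 < q →
      ∃ B : Subgroup G, (∀ x ∈ B, ∀ y ∈ B, x * y = y * x) ∧
        (Nat.card B).factorization p = (Nat.card G).factorization p ∧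
        (Nat.card B).factorization q = (Nat.card G).factorization q := by
    intro p q _ _ hp hq
    rcases parts_or_commute hχ hf hn hp hq with ⟨g, hgp, hgq⟩ | hc
    · set x := g ^ (Nat.card G / p ^ (Nat.card G).factorization p)
      set y := g ^ (Nat.card G / q ^ (Nat.card G).factorization q)
      have hxp : IsPGroup p (Subgroup.zpowers x) := by
        refine IsPGroup.of_card_dvd_pow (n := (Nat.card G).factorization p) ?_
        rw [Nat.card_zpowers]
        refine orderOf_dvd_of_pow_eq_one ?_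
        rw [← pow_mul, mul_comm, Nat.ordProj_mul_ordCompl_eq_self, pow_card_eq_one']
      have hyq : IsPGroup q (Subgroup.zpowers y) := by
        refine IsPGroup.of_card_dvd_pow (n := (Nat.card G).factorization q) ?_
        rw [Nat.card_zpowers]
        refine orderOf_dvd_of_pow_eq_one ?_
        rw [← pow_mul, mul_comm, Nat.ordProj_mul_ordCompl_eq_self, pow_card_eq_one']
      set Cx := Subgroup.centralizer ({x} : Set G)
      obtain ⟨A, hAC, hA1, -, hA3⟩ := hsub Cx (hN ▸ centralizer_lt hgp)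
      have hAp : (Nat.card A).factorization p = (Nat.card G).factorization p :=
        (hA3 p Fact.out hp).trans (hsyl hp hxp)
      have hyC : y ∈ Cx := Subgroup.mem_centralizer_singleton_iff.2 (Commute.pow_pow (Commute.refl g) _ _)
      obtain ⟨c, -, hcy⟩ := exists_conj_mem A Cx hAC (hA3 q Fact.out hq) hyC hyq
      set y' := c * y * c⁻¹
      have hy'c : y' ∉ Subgroup.center G := fun h => hgq (by
        have := Subgroup.Normal.conj_mem (inferInstance : (Subgroup.center G).Normal) _ h c⁻¹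
        simpa [y', mul_assoc] using this)
      have hy'q : IsPGroup q (Subgroup.zpowers y') := by
        have := hyq.map (MulAut.conj c).toMonoidHom
        rwa [MonoidHom.map_zpowers] at this
      set Cy := Subgroup.centralizer ({y'} : Set G)
      have hACy : A ≤ Cy := fun a ha => Subgroup.mem_centralizer_singleton_iff.2 (hA1 a ha y' hcy)
      obtain ⟨B, hBC, hB1, -, hB3⟩ := hsub Cy (hN ▸ centralizer_lt hy'c)
      exact ⟨B, hB1, (hB3 p Fact.out hp).trans (fact_mono hACy hAp), (hB3 q Fact.out hq).trans (hsyl hq hy'q)⟩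
    · obtain ⟨P⟩ : Nonempty (Sylow p G) := inferInstance
      obtain ⟨Q⟩ : Nonempty (Sylow q G) := inferInstance
      exact ⟨_, comm_of_sup (comm_of_pgroup hχ hf hn hp P.2) (comm_of_pgroup hχ hf hn hq Q.2) (hc _ _ P.2 Q.2),
        fact_eq _ P le_sup_left, fact_eq _ Q le_sup_right⟩
  by_cases hnc : ∃ (q : ℕ) (y : G), q.Prime ∧ n + 1 < q ∧ y ∉ Subgroup.center G ∧ IsPGroup q (Subgroup.zpowers y)
  · obtain ⟨q, y, hq, hqn, hy, hyq⟩ := hnc
    haveI : Fact q.Prime := ⟨hq⟩
    obtain ⟨A, -, hA1, hA2, hA3⟩ := hsub _ (hN ▸ centralizer_lt hy)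
    refine ⟨A, hA1, hA2, fun r hr hrn => (hA3 r hr hrn).trans ?_⟩
    haveI : Fact r.Prime := ⟨hr⟩
    obtain ⟨B, hB1, hBr, hBq⟩ := hpair (p := r) (q := q) hrn hqn
    obtain ⟨c, -, hcy⟩ := exists_conj_mem B ⊤ le_top (by rw [hBq, Subgroup.card_top]) (Subgroup.mem_top y) hyq
    refine fact_mono (A := B.map (MulAut.conj c⁻¹).toMonoidHom) ?_ ?_
    · rintro _ ⟨b, hb, rfl⟩
      rw [Subgroup.mem_centralizer_singleton_iff]
      have h1 := hB1 b hb _ hcy
      show c⁻¹ * b * c⁻¹⁻¹ * y = y * (c⁻¹ * b * c⁻¹⁻¹)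
      rw [inv_inv]
      calc c⁻¹ * b * c * y = c⁻¹ * (b * (c * y * c⁻¹)) * c := by group
        _ = c⁻¹ * ((c * y * c⁻¹) * b) * c := by rw [h1]
        _ = y * (c⁻¹ * b * c) := by group
    · rw [← hBr, ← Nat.card_congr (B.equivMapOfInjective _ (MulAut.conj c⁻¹).injective).toEquiv]
  · let W : Subgroup G :=
      { carrier := {z | z ∈ Subgroup.center G ∧ z ^ bigPart G n = 1}
        one_mem' := ⟨one_mem _, one_pow _⟩
        mul_mem' := fun {a b} ha hb => ⟨mul_mem ha.1 hb.1, by
          rw [(show Commute a b from (Subgroup.mem_center_iff.1 ha.1 b).symm).mul_pow, ha.2, hb.2, one_mul]⟩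
        inv_mem' := fun {a} ha => ⟨inv_mem ha.1, by rw [inv_pow, ha.2, inv_one]⟩ }
    refine ⟨W, fun x hx y _ => (Subgroup.mem_center_iff.1 hx.1 y).symm, fun q hq hqW => ?_, fun q hq hqn => ?_⟩
    · haveI : Fact q.Prime := ⟨hq⟩
      obtain ⟨z, hz⟩ := exists_prime_orderOf_dvd_card' q hqW
      refine prime_of_dvd_bigPart (G := G) hq ?_
      rw [← hz, ← Subgroup.orderOf_coe]
      exact orderOf_dvd_of_pow_eq_one z.2.2
    · haveI : Fact q.Prime := ⟨hq⟩
      obtain ⟨S⟩ : Nonempty (Sylow q G) := inferInstance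
      refine fact_eq _ S fun s hs => ?_
      have hsq : IsPGroup q (Subgroup.zpowers s) := S.2.to_le (Subgroup.zpowers_le.2 hs)
      refine ⟨by_contra fun h => hnc ⟨q, s, hq, hqn, h, hsq⟩, ?_⟩
      refine orderOf_dvd_iff_pow_eq_one.1 (dvd_trans ?_ (pow_dvd_bigPart hq hqn))
      have := Subgroup.orderOf_dvd_natCard _ hs
      rwa [Sylow.card_eq_multiplicity] at this

/-- Let the finite group G have a faithful character χ of degree n (G is a linear group of degree n), and let π be the set of primes greater than n + 1. Then G has an abelian Hall π-subgroup: an abelian subgroup A whose order is divisible only by primes greater than n + 1 and whose index is divisible by no prime greater than n + 1. -/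
theorem result {G : Type*} [Group G] [Finite G] (χ : G → ℂ) (hχ : Cfsg.IsCharacter G χ) (hfaith : ∀ g : G, χ g = χ 1 → g = 1) (n : ℕ) (hn : Cfsg.charDegree χ = n) : ∃ A : Subgroup G, (∀ x ∈ A, ∀ y ∈ A, x * y = y * x) ∧ (∀ q : ℕ, q.Prime → q ∣ Nat.card A → n + 1 < q) ∧ ∀ q : ℕ, q.Prime → q ∣ A.index → q ≤ n + 1 := by
  obtain ⟨A, hA1, hA2, hA3⟩ := main n _ G rfl χ hχ hfaith hn.le
  refine ⟨A, hA1, hA2, fun q hq hqA => ?_⟩
  by_contra hlt
  have h1 := congrArg (fun f : ℕ →₀ ℕ => f q) (Nat.factorization_mul (Nat.card_pos (α := A)).ne'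
    (Subgroup.index_ne_zero_of_finite (H := A)))
  simp only [Subgroup.card_mul_index, Finsupp.add_apply] at h1
  have h2 := hq.factorization_pos_of_dvd Subgroup.index_ne_zero_of_finite hqA
  have h3 := hA3 q hq (by omega)
  omega

end Cfsg.Agent.S4465
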