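import Cfsg.Statements.S4472
import Cfsg.Agent.SchurRational.Extend
import Cfsg.Agent.PLocalBasics.DualCore
import Cfsg.Agent.CoprimeAction.Conjugacy
-- import your own Cfsg.Agent.* helpers here

set_option autoImplicit false
open Cfsg

namespace Cfsg.Agent.S4472

open scoped Pointwise
open CfsgLib CfsgLib.CharBasics CfsgLib.Clifford CfsgLib.SchurRational

universe u

/-- The bound for a p-group normalizing a faithful p'-group. -/
theorem linear_bound {G : Type u} [Group G] [Finite G] {p : ℕ} [Fact p.Prime] {χ : G → ℂ}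
    (hχ : Cfsg.IsCharacter G χ) (hf : ∀ g : G, χ g = χ 1 → g = 1) (K P : Subgroup G)
    (hPK : P ≤ Subgroup.normalizer (K : Set G)) (hP : IsPGroup p P) (hK : (Nat.card K).Coprime p) :
    ∃ D : Subgroup P, D.index ≤ p ^ T p (charDegree χ) ∧ ∀ d ∈ D, ∀ k ∈ K, (d : G) * k = k * d := by
  classical
  set H : Subgroup G := K ⊔ P
  have hKH : K ≤ H := le_sup_left
  have hPH : P ≤ H := le_sup_right
  haveI hn : (K.subgroupOf H).Normal := Subgroup.normal_subgroupOf_iff_le_normalizer hKH |>.2
    (sup_le Subgroup.le_normalizer hPK)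
  set N := K.subgroupOf H
  have hcK : Nat.card N = Nat.card K := Nat.card_congr (Subgroup.subgroupOfEquivOfLe hKH).toEquiv
  let f : P →* H ⧸ N := (QuotientGroup.mk' N).comp (Subgroup.inclusion hPH)
  have hfs : Function.Surjective f := by
    intro x
    obtain ⟨⟨h, hh⟩, rfl⟩ := QuotientGroup.mk'_surjective N x
    have hh' : h ∈ ((K : Set G) * (P : Set G)) := by
      rw [← Subgroup.coe_mul_of_right_le_normalizer_left K P hPK]; exact hh
    obtain ⟨k, hk, q, hq, rfl⟩ := hh'
    refine ⟨⟨q, hq⟩, QuotientGroup.eq.2 ?_⟩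
    show ((⟨q, hPH hq⟩ : H)⁻¹ * ⟨k * q, hh⟩ : H).1 ∈ K
    show q⁻¹ * (k * q) ∈ K
    have := (Subgroup.mem_normalizer_iff.1 (inv_mem (hPK hq)) k).1 hk
    rwa [inv_inv, mul_assoc] at this
  obtain ⟨b, hb⟩ := (hP.of_surjective f hfs).exists_card_eq
  have hidx : N.index = p ^ b := by rw [Subgroup.index_eq_card, hb]
  have hcop : N.index.Coprime (Nat.card N) := by rw [hidx, hcK]; exact hK.symm.pow_left b
  haveI := Fintype.ofFinite H
  haveI := Fintype.ofFinite N
  have hψ : Cfsg.IsCharacter N (fun m : N => χ ((m : H) : G)) :=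
    CharBasics.isCharacter_comp hχ (H.subtype.comp N.subtype)
  have hinv : ∀ g : H, conjFun g (fun m : N => χ ((m : H) : G)) = fun m : N => χ ((m : H) : G) := fun g =>
    funext fun m => CharBasics.isClassFunction hχ ((m : H) : G) (g : G)
  obtain ⟨Φ, hΦ, hres, hfix⟩ := exists_fixed_ext N hcop _ _ hψ rfl hinv
  have hdeg : charDegree (fun x : P => Φ (Subgroup.inclusion hPH x)) = charDegree χ := by
    simp only [Cfsg.charDegree, map_one]
    rw [← Subgroup.coe_one N, hres]
    rfl
  obtain ⟨a, ha⟩ := hP.exists_card_eq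
  obtain ⟨D, hD, hDi⟩ := schur _ P hP _ (CharBasics.isCharacter_comp hΦ (Subgroup.inclusion hPH)) hdeg
    (fun k hk x => by
      have hcop2 : (Nat.card P).Coprime (Nat.card N) := by rw [ha, hcK]; exact hK.symm.pow_left a
      obtain ⟨k', hk'1, hk'2⟩ := Nat.chineseRemainder hcop2 k 1
      have hk'c : k'.Coprime (Nat.card H) := by
        rw [← Subgroup.index_mul_card N, hidx]
        refine Nat.Coprime.mul_right ?_ ?_
        · rcases Nat.eq_zero_or_pos b with rfl | hb0
          · rw [pow_zero]; exact Nat.coprime_one_right _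
          · refine Nat.Coprime.pow_right _ ?_
            have ha0 : a ≠ 0 := by
              rintro rfl
              haveI : Subsingleton P := (Nat.card_eq_one_iff_unique.1 (by rw [ha, pow_zero])).1
              haveI : Subsingleton (H ⧸ N) := hfs.subsingleton
              rw [Nat.card_eq_one_iff_unique.2 ⟨inferInstance, inferInstance⟩] at hb
              exact absurd hb (Nat.one_lt_pow hb0.ne' (Fact.out : p.Prime).one_lt).ne
            have hkk : k'.gcd (Nat.card P) = 1 := by rw [hk'1.gcd_eq]; exact hk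
            exact Nat.Coprime.coprime_dvd_right (ha ▸ dvd_pow_self p ha0) hkk
        · show k'.gcd _ = 1
          rw [hk'2.gcd_eq, Nat.gcd_one_left]
      have := hfix k' hk'c hk'2 (Subgroup.inclusion hPH x)
      rw [← map_pow] at this
      rw [← this]
      congr 2
      exact (pow_eq_pow_iff_modEq.2 (hk'1.of_dvd (orderOf_dvd_natCard x))).symm)
  refine ⟨D, hDi, fun d hd k hk => ?_⟩
  set d' : H := Subgroup.inclusion hPH d
  have h1 : Φ d' = Φ 1 := by
    have := hD d hd
    rwa [map_one] at this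
  haveI := charKer_normal hΦ
  set k' : H := ⟨k, hKH hk⟩
  have hk' : k' ∈ N := hk
  have h2 : d' * k' * d'⁻¹ * k'⁻¹ ∈ charKer Φ hΦ := by
    rw [mul_assoc, mul_assoc]
    refine (charKer Φ hΦ).mul_mem h1 ?_
    rw [← mul_assoc]
    exact (charKer_normal hΦ).conj_mem _ ((charKer Φ hΦ).inv_mem h1) k'
  have h3 : d' * k' * d'⁻¹ * k'⁻¹ ∈ N := N.mul_mem (hn.conj_mem _ hk' d') (N.inv_mem hk')
  have h4 : χ ((d' * k' * d'⁻¹ * k'⁻¹ : H) : G) = χ 1 := by
    have e1 := hres ⟨_, h3⟩
    have e2 := hres 1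
    simp only [Subgroup.coe_one] at e1 e2
    rw [← e1, ← e2]
    exact h2
  have h5 : (d : G) * k * (d : G)⁻¹ * k⁻¹ = 1 := hf _ h4
  rwa [mul_inv_eq_one, mul_inv_eq_iff_eq_mul] at h5

/-- The bound. -/
theorem main_bound {G : Type u} [Group G] [Finite G] {p : ℕ} [Fact p.Prime] {χ : G → ℂ}
    (hχ : Cfsg.IsCharacter G χ) (hf : ∀ g : G, χ g = χ 1 → g = 1) (hs : Cfsg.IsPSolvable p G) :
    ((Cfsg.pCore p G).index).factorization p ≤ T p (charDegree χ) := by
  classical
  have hp : p.Prime := Fact.out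
  haveI := CfsgLib.PCore.pCore_characteristic p G
  set C := Cfsg.pCore p G with hC
  set π := QuotientGroup.mk' C with hπ
  haveI := CfsgLib.PCore.pPrimeCore_characteristic p (G ⧸ C)
  set Kb := Cfsg.pPrimeCore p (G ⧸ C) with hKb
  set L : Subgroup G := Kb.comap π with hL
  have hCL : C ≤ L := fun x hx => by
    rw [hL, Subgroup.mem_comap, hπ, QuotientGroup.mk'_apply, (QuotientGroup.eq_one_iff x).2 hx]
    exact Kb.one_mem
  haveI hLn : L.Normal := Subgroup.Normal.comap inferInstance π
  set Z := C.subgroupOf L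
  obtain ⟨c, hc⟩ := (CfsgLib.PCore.isPGroup_pCore p G).exists_card_eq
  have hZc : Nat.card Z = p ^ c := by
    rw [Nat.card_congr (Subgroup.subgroupOfEquivOfLe hCL).toEquiv, hC, hc]
  have hcardL : Nat.card L = Nat.card C * Nat.card Kb := CfsgLib.PCore.card_comap_mk' C Kb
  have hZi : Z.index = Nat.card Kb := by
    have h1 := Subgroup.card_mul_index Z
    rw [Nat.card_congr (Subgroup.subgroupOfEquivOfLe hCL).toEquiv, hcardL] at h1
    exact Nat.eq_of_mul_eq_mul_left Nat.card_pos h1
  have hKbc : (Nat.card Kb).Coprime p := CfsgLib.PCore.pPrimeCore_coprime p _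
  have hcop : (Nat.card Z).Coprime Z.index := by rw [hZc, hZi]; exact hKbc.symm.pow_left c
  obtain ⟨K0, hK0⟩ := Subgroup.exists_right_complement'_of_coprime hcop
  have hK0c : Nat.card K0 = Nat.card Kb := hZi ▸ (hK0.symm.index_eq_card).symm
  have hsol : Group.IsSolvable Z ∨ Group.IsSolvable (L ⧸ Z) := by
    have hZp : IsPGroup p Z := IsPGroup.of_card hZc
    haveI : Group.IsNilpotent Z := hZp.isNilpotent
    exact Or.inl inferInstance
  set K : Subgroup G := K0.map L.subtype with hK
  have hKc : (Nat.card K).Coprime p := by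
    rw [hK, Subgroup.card_map_of_injective L.subtype_injective, hK0c]; exact hKbc
  have hmap : K.map π = Kb := by
    apply le_antisymm
    · rintro _ ⟨x, ⟨y, -, rfl⟩, rfl⟩
      exact y.2
    · intro x hx
      obtain ⟨g, rfl⟩ := QuotientGroup.mk'_surjective C x
      have : (⟨g, hx⟩ : L) ∈ ((Z : Set L) * (K0 : Set L)) := by rw [hK0.mul_eq]; exact Set.mem_univ _
      obtain ⟨z, hz, k, hk, hzk⟩ := this
      refine ⟨(k : G), ⟨k, hk, rfl⟩, ?_⟩
      have e : g = (z : G) * (k : G) := (congrArg Subtype.val hzk).symm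
      show π k = π g
      rw [e, map_mul, show π (z : G) = 1 from (QuotientGroup.eq_one_iff _).2 hz, one_mul]
  have hfr : ∀ g : G, ∃ a ∈ C, a * g ∈ Subgroup.normalizer (K : Set G) := by
    intro g
    set e : MulAut L := MulAut.conjNormal g with he
    have hK1 : Subgroup.IsComplement' Z (K0.map e.toMonoidHom) := by
      refine Subgroup.isComplement'_of_coprime ?_ ?_
      · rw [← Nat.card_congr (K0.equivMapOfInjective e.toMonoidHom e.injective).toEquiv, hK0c, ← hZi,
          Subgroup.card_mul_index]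
      · rw [← Nat.card_congr (K0.equivMapOfInjective e.toMonoidHom e.injective).toEquiv, hK0c, ← hZi]
        exact hcop
    obtain ⟨a, ha, hae⟩ := CfsgLib.CoprimeAction.complement_conj' Z hcop hsol hK1 hK0
    refine ⟨(a : G), ha, ?_⟩
    have key : ∀ x ∈ K, ((a : G) * g) * x * ((a : G) * g)⁻¹ ∈ K := by
      rintro _ ⟨y, hy, rfl⟩
      have h1 : a * e y * a⁻¹ ∈ K0 := by
        rw [← hae]
        exact Subgroup.smul_mem_pointwise_smul _ (MulAut.conj a) _ ⟨y, hy, rfl⟩
      refine ⟨a * e y * a⁻¹, h1, ?_⟩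
      simp [he, MulAut.conjNormal_apply, mul_assoc]
    have hle : K.map (MulAut.conj ((a : G) * g)).toMonoidHom ≤ K := by
      rintro _ ⟨x, hx, rfl⟩
      exact key x hx
    have heq : K.map (MulAut.conj ((a : G) * g)).toMonoidHom = K := Subgroup.eq_of_le_of_card_ge hle
      (Nat.card_congr (K.equivMapOfInjective _ (MulAut.conj ((a : G) * g)).injective).toEquiv).le
    refine Subgroup.mem_normalizer_iff.2 fun x => ⟨key x, fun hx => ?_⟩
    rw [← heq] at hx
    obtain ⟨y, hy, hye⟩ := hx
    exact (MulAut.conj ((a : G) * g)).injective hye ▸ hy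
  set Nk := Subgroup.normalizer (K : Set G)
  let f : Nk →* G ⧸ C := π.comp Nk.subtype
  have hfs : Function.Surjective f := by
    intro x
    obtain ⟨g, rfl⟩ := QuotientGroup.mk'_surjective C x
    obtain ⟨a, ha, hag⟩ := hfr g
    refine ⟨⟨a * g, hag⟩, ?_⟩
    show π (a * g) = π g
    rw [map_mul, show π a = 1 from (QuotientGroup.eq_one_iff _).2 ha, one_mul]
  obtain ⟨S⟩ : Nonempty (Sylow p Nk) := inferInstance
  set P : Subgroup G := (S : Subgroup Nk).map Nk.subtype with hP
  have hPn : P ≤ Nk := Subgroup.map_subtype_le _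
  obtain ⟨D, hDi, hD⟩ := linear_bound hχ hf K P hPn (S.2.map _) hKc
  set π' : P →* G ⧸ C := π.comp P.subtype
  have hDker : D ≤ π'.ker := by
    intro d hd
    rw [MonoidHom.mem_ker]
    have h1 : π' d ∈ Subgroup.centralizer (Kb : Set (G ⧸ C)) := by
      rw [Subgroup.mem_centralizer_iff]
      intro x hx
      rw [SetLike.mem_coe, ← hmap] at hx
      obtain ⟨k, hk, rfl⟩ := hx
      show π k * π (d : G) = π (d : G) * π k
      rw [← map_mul, ← map_mul, hD d hd k hk]
    have h2 := CfsgLib.PLocalBasics.centralizer_pPrimeCore_le p (CfsgLib.PCore.isPSolvable_quotient hs C)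
      CfsgLib.PCore.pCore_quotient h1
    obtain ⟨j, hj⟩ := (S.2.map Nk.subtype) d
    have h3 : orderOf (π' d) ∣ p ^ j := orderOf_dvd_of_pow_eq_one (by rw [← map_pow, hj, map_one])
    have h4 : orderOf (π' d) ∣ Nat.card Kb := Subgroup.orderOf_dvd_natCard _ h2
    exact orderOf_eq_one_iff.1 (Nat.eq_one_of_dvd_coprimes (hKbc.symm.pow_left j) h3 h4)
  have hrange : π'.range = ((S.mapSurjective hfs : Sylow p (G ⧸ C)) : Subgroup (G ⧸ C)) := by
    rw [Sylow.coe_mapSurjective, MonoidHom.range_eq_map, ← Subgroup.map_map, ← MonoidHom.range_eq_map,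
      Subgroup.range_subtype, hP, Subgroup.map_map]
  have h5 : p ^ (C.index).factorization p ≤ p ^ T p (charDegree χ) := by
    refine le_trans (le_of_eq ?_) (le_trans (Nat.le_of_dvd (Nat.pos_of_ne_zero Subgroup.index_ne_zero_of_finite)
      (Subgroup.index_dvd_of_le hDker)) hDi)
    rw [Subgroup.index_ker, hrange, Sylow.card_eq_multiplicity, Subgroup.index_eq_card]
  exact (Nat.pow_le_pow_iff_right hp.one_lt).1 h5

/-- Let the finite p-solvable group G have a faithful character of degree n, and let p^a be the index of O_p(G) in a Sylow p-subgroup of G (the p-part of [G : O_p(G)]). Then a ≤ Σ_{i ≥ 0} ⌊n / ((p − 1) p^i)⌋ (a finite sum; the terms vanish for p^i > n). -/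
theorem result {G : Type*} [Group G] [Finite G] (χ : G → ℂ) (hχ : Cfsg.IsCharacter G χ) (hfaith : ∀ g : G, χ g = χ 1 → g = 1) (n : ℕ) (hn : Cfsg.charDegree χ = n) (p : ℕ) (hp : p.Prime) (hsolv : Cfsg.IsPSolvable p G) : ((Cfsg.pCore p G).index).factorization p ≤ ∑ i ∈ Finset.range (n + 1), n / ((p - 1) * p ^ i) := by
  haveI : Fact p.Prime := ⟨hp⟩
  rw [← hn]
  exact main_bound hχ hfaith hsolv

end Cfsg.Agent.S4472
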