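import Cfsg.Statements.S0899
import Cfsg.Agent.S0898
import Cfsg.Agent.S4465
import Cfsg.Agent.S4472
-- import your own Cfsg.Agent.* helpers here

set_option autoImplicit false
open Cfsg

namespace Cfsg.Agent.S0899

open scoped Pointwise commutatorElement
open CfsgLib CfsgLib.CharBasics CfsgLib.SchurRational CfsgLib.Blichfeldt

universe u

/-- The hypothesis on the prime, inherited by subgroups. -/
def Cond (G : Type u) [Group G] (n p : ℕ) : Prop :=
  (n + 1) ^ 2 ≤ p ∨ (n + 1 < p ∧ ∀ K : Subgroup G, ¬ p ^ 2 ∣ Nat.card K → ∀ Q : Sylow p K, (Q : Subgroup K).Normal)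

theorem main {p : ℕ} [hp : Fact p.Prime] (n : ℕ) : ∀ (N : ℕ) (G : Type u) [Group G] [Finite G], Nat.card G = N →
    ∀ χ : G → ℂ, Cfsg.IsCharacter G χ → (∀ g : G, χ g = χ 1 → g = 1) → Cfsg.charDegree χ ≤ n → Cond G n p →
      ∀ P : Sylow p G, (P : Subgroup G).Normal := by
  intro N
  induction N using Nat.strong_induction_on with
  | _ N ih =>
  intro G _ _ hN χ hχ hf hn hcond P
  classical
  haveI := Fintype.ofFinite G
  rcases Nat.eq_zero_or_pos n with hn0 | hn0
  · have hsub : Subsingleton G := ⟨fun a b => by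
      have h0 : χ = 0 := Clifford.eq_zero_of_apply_one hχ (by
        rw [apply_one hχ, show Cfsg.charDegree χ = 0 by omega, Nat.cast_zero])
      rw [hf a (by rw [h0]; rfl), hf b (by rw [h0]; rfl)]⟩
    exact ⟨fun x hx g => by rw [Subsingleton.elim (g * x * g⁻¹) x]; exact hx⟩
  have hp1 : n + 1 < p := by
    rcases hcond with h | h
    · nlinarith
    · exact h.1
  by_cases hpG : p ∣ Nat.card G
  case neg =>
    have h1 : Nat.card (P : Subgroup G) = 1 := by
      rw [Sylow.card_eq_multiplicity, Nat.factorization_eq_zero_of_not_dvd hpG, pow_zero]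
    rw [Subgroup.card_eq_one.1 h1]; infer_instance
  by_contra hP
  have hPcard : (n + 1) ^ 2 ≤ Nat.card (P : Subgroup G) := by
    have hdvd := P.dvd_card_of_dvd_card hpG
    rcases hcond with h | h
    · exact h.trans (Nat.le_of_dvd Nat.card_pos hdvd)
    · by_cases hp2 : p ^ 2 ∣ Nat.card G
      · have h1 : p ^ 2 ∣ Nat.card (P : Subgroup G) := by
          rw [Sylow.card_eq_multiplicity]
          exact pow_dvd_pow p ((hp.out.pow_dvd_iff_le_factorization Nat.card_pos.ne').1 hp2)
        exact (Nat.pow_le_pow_left hp1.le 2).trans (Nat.le_of_dvd Nat.card_pos h1)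
      · exfalso
        refine hP ?_
        have hm : IsPGroup p ((P : Subgroup G).comap (⊤ : Subgroup G).subtype) := P.2.comap_subtype
        have h1 := h.2 ⊤ (by rwa [Subgroup.card_top]) (P.subtype (le_top : (P : Subgroup G) ≤ ⊤))
        refine ⟨fun x hx g => ?_⟩
        exact h1.conj_mem ⟨x, Subgroup.mem_top x⟩ hx ⟨g, Subgroup.mem_top g⟩
  -- proper subgroups have normal Sylow subgroups
  have hsub : ∀ H : Subgroup G, H ≠ ⊤ → ∀ Q : Sylow p H, (Q : Subgroup H).Normal := by
    intro H hH Q
    refine ih _ (hN ▸ ?_) H rfl (fun h : H => χ (H.subtype h)) (CharBasics.isCharacter_comp hχ H.subtype)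
      (fun h hh => Subtype.ext (hf _ (by simpa using hh))) (by simpa [Cfsg.charDegree] using hn) ?_ Q
    · exact lt_of_le_of_ne (Nat.le_of_dvd Nat.card_pos (Subgroup.card_subgroup_dvd_card H))
        (fun h => hH (Subgroup.eq_top_of_card_eq H h))
    · rcases hcond with h | h
      · exact Or.inl h
      · refine Or.inr ⟨h.1, fun K hK R => ?_⟩
        let e : K ≃* K.map H.subtype := K.equivMapOfInjective H.subtype H.subtype_injective
        have h1 := h.2 (K.map H.subtype) (by rwa [← Nat.card_congr e.toEquiv])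
          (R.mapSurjective (f := e.toMonoidHom) e.surjective)
        have h2 := h1.comap e.toMonoidHom
        have e2 : ((R : Subgroup K).map e.toMonoidHom).comap e.toMonoidHom = (R : Subgroup K) :=
          Subgroup.comap_map_eq_self_of_injective e.injective _
        exact e2 ▸ h2
  -- in a proper subgroup the p-subgroups lie in a common Sylow subgroup
  have hle : ∀ H : Subgroup G, H ≠ ⊤ → ∀ A B : Subgroup G, IsPGroup p A → IsPGroup p B → A ≤ H → B ≤ H →
      IsPGroup p (A ⊔ B : Subgroup G) := by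
    intro H hH A B hA hB hAH hBH
    obtain ⟨R⟩ : Nonempty (Sylow p H) := inferInstance
    haveI := hsub H hH R
    haveI := R.unique_of_normal inferInstance
    have key : ∀ C : Subgroup G, IsPGroup p C → C ≤ H → C ≤ (R : Subgroup H).map H.subtype := by
      intro C hC hCH c hc
      obtain ⟨R', hR'⟩ := (hC.comap_subtype (K := H)).exists_le_sylow
      rw [Subsingleton.elim R' R] at hR'
      exact ⟨⟨c, hCH hc⟩, hR' hc, rfl⟩
    exact (R.2.map H.subtype).to_le (sup_le (key A hA hAH) (key B hB hBH))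
  -- the normal closure of P is everything
  have hncl : ∀ M : Subgroup G, M.Normal → (P : Subgroup G) ≤ M → M = ⊤ := by
    intro M hM hPM
    by_contra hne
    refine hP ⟨fun x hx g => ?_⟩
    have h1 := hle M hne (P : Subgroup G) ((P : Subgroup G).map (MulAut.conj g).toMonoidHom) P.2 (P.2.map _) hPM
      (by rintro _ ⟨y, hy, rfl⟩; exact hM.conj_mem y (hPM hy) g)
    rw [← P.3 h1 le_sup_left]
    exact le_sup_right (α := Subgroup G) ⟨x, hx, rfl⟩
  -- central p-elements of the derived group are trivial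
  have hZ : ∀ z ∈ Subgroup.center G, z ∈ commutator G → z ∈ (P : Subgroup G) → z = 1 := by
    intro z hz hz' hzP
    obtain ⟨r, ψ, hψ, hsum⟩ := exists_decomp hχ
    refine hf z ?_
    rw [hsum, Finset.sum_apply, Finset.sum_apply]
    refine Finset.sum_congr rfl fun i _ => ?_
    obtain ⟨e, he⟩ := CfsgLib.Clifford.exists_detHom (hψ i)
    have hdi : Cfsg.charDegree (ψ i) ≤ n := by
      refine le_trans ?_ hn
      have h1 : χ 1 = ((∑ i, Cfsg.charDegree (ψ i) : ℕ) : ℂ) := by
        rw [hsum, Finset.sum_apply, Nat.cast_sum]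
        exact Finset.sum_congr rfl fun i _ => apply_one (isCharacter_of_irr (hψ i))
      rw [apply_one hχ, Nat.cast_inj] at h1
      rw [h1]
      exact Finset.single_le_sum (f := fun i => Cfsg.charDegree (ψ i)) (fun _ _ => Nat.zero_le _) (Finset.mem_univ i)
    have hd0 := charDegree_pos (hψ i)
    set d := Cfsg.charDegree (ψ i)
    have hψ1 : ψ i 1 ≠ 0 := apply_one_ne_zero (hψ i)
    set ω := ψ i z / ψ i 1 with hω
    have hpow : ∀ k : ℕ, ψ i (z ^ k) = ω ^ k * d := by
      intro k
      induction k with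
      | zero => rw [pow_zero, pow_zero, one_mul, apply_one (isCharacter_of_irr (hψ i))]
      | succ k ihk =>
        have := center_mul (hψ i) hz (z ^ k)
        rw [← pow_succ', ihk] at this
        rw [pow_succ' ω, mul_assoc, hω, div_mul_eq_mul_div, eq_div_iff hψ1, mul_comm, this]
    have hez : e z = ω ^ d := by
      rw [← congrFun he z, DetTwist.detChar_eq_prod (hψ i) (fun _ => ω) fun k => by
        rw [hpow, Finset.sum_const, Finset.card_univ, Fintype.card_fin, nsmul_eq_mul, mul_comm]]
      rw [Finset.prod_const, Finset.card_univ, Fintype.card_fin]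
    have he1 : e z = 1 :=
      congrArg Units.val (MonoidHom.mem_ker.1 (Abelianization.commutator_subset_ker e.toHomUnits hz'))
    rw [hez] at he1
    obtain ⟨j, hj⟩ := P.2 ⟨z, hzP⟩
    have hz0 : z ^ p ^ j = 1 := congrArg Subtype.val hj
    have hωp : ω ^ p ^ j = 1 := by
      have h1 := hpow (p ^ j)
      rw [hz0, apply_one (isCharacter_of_irr (hψ i))] at h1
      exact (mul_eq_right₀ (Nat.cast_ne_zero.2 hd0.ne')).1 h1.symm
    have hω1 : ω = 1 := CfsgLib.Clifford.eq_one_of_pow_coprime
      ((hp.out.coprime_iff_not_dvd.2 fun h => by have := Nat.le_of_dvd hd0 h; omega).pow_left j) hωp he1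
    rw [hω, div_eq_one_iff_eq hψ1] at hω1
    exact hω1
  have hPab := Cfsg.Agent.S4465.comm_of_pgroup hχ hf hn hp1 P.2
  -- the group is perfect
  have hperf : commutator G = ⊤ := by
    by_contra hne
    set M := commutator G
    obtain ⟨S⟩ : Nonempty (Sylow p M) := inferInstance
    haveI := hsub M hne S
    haveI := Sylow.characteristic_of_normal S inferInstance
    set R := (S : Subgroup M).map M.subtype
    haveI hR : R.Normal := ConjAct.normal_of_characteristic_of_normal
    have hRp : IsPGroup p R := S.2.map _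
    have hRP : R ≤ (P : Subgroup G) := by
      rw [← P.3 (P.2.to_sup_of_normal_right hRp) le_sup_left]
      exact le_sup_right
    have hRc : R ≤ Subgroup.center G := by
      have h1 : (P : Subgroup G) ≤ Subgroup.centralizer (R : Set G) := fun a ha =>
        Subgroup.mem_centralizer_iff.2 fun b hb => hPab b (hRP hb) a ha
      have h2 := hncl _ (Subgroup.normal_centralizer (H := R)) h1
      intro b hb
      rw [Subgroup.mem_center_iff]
      intro a
      exact (Subgroup.mem_centralizer_iff.1 (h2 ▸ Subgroup.mem_top a) b hb).symm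
    have hR1 : R = ⊥ := (Subgroup.eq_bot_iff_forall _).2 fun z hz =>
      hZ z (hRc hz) (Subgroup.map_subtype_le _ hz) (hRP hz)
    have hMc : (Nat.card M).Coprime p := by
      refine (hp.out.coprime_iff_not_dvd.2 fun h => ?_).symm
      have h1 := S.dvd_card_of_dvd_card h
      rw [(Subgroup.map_eq_bot_iff_of_injective _ M.subtype_injective).1 hR1, Subgroup.card_bot, Nat.dvd_one] at h1
      exact hp.out.one_lt.ne h1.symm
    obtain ⟨D, hDi, hD⟩ := Cfsg.Agent.S4472.linear_bound hχ hf M (P : Subgroup G)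
      (fun a _ => by rw [Subgroup.normalizer_eq_top_iff.2 (inferInstance : M.Normal)]; exact Subgroup.mem_top a)
      P.2 hMc
    have hT : T p (Cfsg.charDegree χ) = 0 := Finset.sum_eq_zero fun i _ => Nat.div_eq_of_lt (by
      calc Cfsg.charDegree χ < p - 1 := by omega
        _ ≤ (p - 1) * p ^ i := Nat.le_mul_of_pos_right _ (pow_pos hp.out.pos i))
    rw [hT, pow_zero] at hDi
    have hDtop : D = ⊤ := Subgroup.index_eq_one.1 (le_antisymm hDi (Nat.pos_of_ne_zero Subgroup.index_ne_zero_of_finite))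
    -- G = M P
    have hMP : M ⊔ (P : Subgroup G) = ⊤ := by
      refine hncl _ ⟨fun x hx g => ?_⟩ le_sup_right
      have : g * x * g⁻¹ = ⁅g, x⁆ * x := by rw [commutatorElement_def]; group
      rw [this]
      exact Subgroup.mul_mem _ (le_sup_left (α := Subgroup G) (by
        show ⁅g, x⁆ ∈ commutator G
        rw [commutator_def]
        exact Subgroup.commutator_mem_commutator (Subgroup.mem_top g) (Subgroup.mem_top x))) hx
    refine hP ?_
    rw [← Subgroup.normalizer_eq_top_iff, ← top_le_iff, ← hMP, sup_le_iff]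
    refine ⟨fun m hm => ?_, Subgroup.le_normalizer⟩
    have hcm : ∀ a ∈ (P : Subgroup G), a * m = m * a := fun a ha => hD ⟨a, ha⟩ (hDtop ▸ Subgroup.mem_top _) m hm
    refine Subgroup.mem_normalizer_iff.2 fun a => ⟨fun ha => ?_, fun ha => ?_⟩
    · rwa [← hcm a ha, mul_inv_cancel_right]
    · have h1 := hcm _ ha
      rw [inv_mul_cancel_right] at h1
      rwa [← mul_left_cancel h1] at ha
  have hfree : ∀ z ∈ Subgroup.center G, z ∈ (P : Subgroup G) → z = 1 := fun z hz hzP =>
    hZ z hz (hperf ▸ Subgroup.mem_top z) hzP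
  haveI : Fintype (P : Subgroup G) := Fintype.ofFinite _
  -- a constituent nontrivial on P
  obtain ⟨x0, hx0, hx01⟩ : ∃ x ∈ (P : Subgroup G), x ≠ 1 := by
    by_contra h
    push Not at h
    exact hP (by rw [(Subgroup.eq_bot_iff_forall _).2 h]; infer_instance)
  obtain ⟨r, ψ, hψ, hsum⟩ := exists_decomp hχ
  obtain ⟨i, hi⟩ : ∃ i, ψ i x0 ≠ ψ i 1 := by
    by_contra h
    push Not at h
    refine hx01 (hf x0 ?_)
    rw [hsum, Finset.sum_apply, Finset.sum_apply]
    exact Finset.sum_congr rfl fun i _ => h i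
  have hone : ∀ g : G, g ∉ Subgroup.center G → ∀ a b : G,
      Subgroup.centralizer ({g} : Set G) ⊓ (P : Subgroup G).map (MulAut.conj a).toMonoidHom ≠ ⊥ →
      Subgroup.centralizer ({g} : Set G) ⊓ (P : Subgroup G).map (MulAut.conj b).toMonoidHom ≠ ⊥ →
      (P : Subgroup G).map (MulAut.conj a).toMonoidHom = (P : Subgroup G).map (MulAut.conj b).toMonoidHom := by
    intro g hg a b ha hb
    set C := Subgroup.centralizer ({g} : Set G)
    set A := (P : Subgroup G).map (MulAut.conj a).toMonoidHom
    set B := (P : Subgroup G).map (MulAut.conj b).toMonoidHom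
    have hCne : C ≠ ⊤ := fun h => hg (Subgroup.mem_center_iff.2 fun c => by
      have h1 : c ∈ C := h ▸ Subgroup.mem_top c
      exact Subgroup.mem_centralizer_singleton_iff.1 h1)
    haveI := (Subgroup.nontrivial_iff_ne_bot _).2 ha
    haveI := (Subgroup.nontrivial_iff_ne_bot _).2 hb
    obtain ⟨⟨x, hxC, hxA⟩, hx1⟩ := exists_ne (1 : ↥(C ⊓ A))
    obtain ⟨⟨y, hyC, hyB⟩, hy1⟩ := exists_ne (1 : ↥(C ⊓ B))
    have hx1' : x ≠ 1 := fun h => hx1 (Subtype.ext h)
    have hy1' : y ≠ 1 := fun h => hy1 (Subtype.ext h)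
    have hxy : IsPGroup p (Subgroup.zpowers x ⊔ Subgroup.zpowers y : Subgroup G) :=
      hle C hCne _ _ ((P.2.map _).to_le (Subgroup.zpowers_le.2 hxA)) ((P.2.map _).to_le (Subgroup.zpowers_le.2 hyB))
        (Subgroup.zpowers_le.2 hxC) (Subgroup.zpowers_le.2 hyC)
    have hnc : ∀ (c w : G), w ∈ (P : Subgroup G).map (MulAut.conj c).toMonoidHom → w ≠ 1 →
        Subgroup.centralizer ({w} : Set G) ≠ ⊤ := by
      rintro c _ ⟨u, hu, rfl⟩ hw1 h
      have hu1 : u ≠ 1 := fun h1 => hw1 (by rw [h1, map_one])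
      have h1 : (MulAut.conj c) u ∈ Subgroup.center G := Subgroup.mem_center_iff.2 fun t =>
        Subgroup.mem_centralizer_singleton_iff.1 (h ▸ Subgroup.mem_top t)
      have h2 := (inferInstance : (Subgroup.center G).Normal).conj_mem _ h1 c⁻¹
      simp only [MulAut.conj_apply] at h2
      rw [show c⁻¹ * (c * u * c⁻¹) * c⁻¹⁻¹ = u by group] at h2
      exact hu1 (hfree u h2 hu)
    have hcent : ∀ (c w : G), w ∈ (P : Subgroup G).map (MulAut.conj c).toMonoidHom →
        (P : Subgroup G).map (MulAut.conj c).toMonoidHom ≤ Subgroup.centralizer ({w} : Set G) := by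
      rintro c _ ⟨u, hu, rfl⟩ _ ⟨v, hv, rfl⟩
      rw [Subgroup.mem_centralizer_singleton_iff]
      show (MulAut.conj c) v * (MulAut.conj c) u = (MulAut.conj c) u * (MulAut.conj c) v
      rw [← map_mul, ← map_mul, hPab v hv u hu]
    have hxy' : (Subgroup.zpowers x ⊔ Subgroup.zpowers y : Subgroup G) ≤ Subgroup.centralizer ({x} : Set G) := by
      intro w hw
      exact Subgroup.mem_centralizer_singleton_iff.2
        (Cfsg.Agent.S4465.comm_of_pgroup hχ hf hn hp1 hxy w hw x
          (le_sup_left (α := Subgroup G) (Subgroup.mem_zpowers x)))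
    have hmax : ∀ (c w : G) (U : Subgroup G), w ∈ (P : Subgroup G).map (MulAut.conj c).toMonoidHom → w ≠ 1 →
        IsPGroup p U → U ≤ Subgroup.centralizer ({w} : Set G) → U ≤ (P : Subgroup G).map (MulAut.conj c).toMonoidHom := by
      intro c w U hw hw1 hU hUle
      have h1 := hle _ (hnc c w hw hw1) _ U (P.2.map _) hU (hcent c w hw) hUle
      have h2 : Nat.card ↥((P : Subgroup G).map (MulAut.conj c).toMonoidHom ⊔ U) ≤
          Nat.card ↥((P : Subgroup G).map (MulAut.conj c).toMonoidHom) := by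
        obtain ⟨S, hS⟩ := h1.exists_le_sylow
        refine (Nat.le_of_dvd Nat.card_pos (Subgroup.card_dvd_of_le hS)).trans (le_of_eq ?_)
        rw [← Nat.card_congr ((P : Subgroup G).equivMapOfInjective _ (MulAut.conj c).injective).toEquiv,
          Sylow.card_eq_multiplicity, Sylow.card_eq_multiplicity]
      rw [Subgroup.eq_of_le_of_card_ge le_sup_left h2]
      exact le_sup_right
    have hyA : y ∈ A := hmax a x _ hxA hx1' hxy hxy' (le_sup_right (α := Subgroup G) (Subgroup.mem_zpowers y))
    exact le_antisymm (hmax b y A hyB hy1' (P.2.map _) (hcent a y hyA))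
      (hmax a y B hyA hy1' (P.2.map _) (hcent b y hyB))
  have hres := Cfsg.Agent.S0898.result (P : Subgroup G) hPab
    ((Subgroup.eq_bot_iff_forall _).2 fun z hz => hfree z hz.2 hz.1) hone (ψ i) (hψ i) ⟨x0, hx0, hi⟩
  have hψ1 : ψ i 1 ≠ 1 := by
    intro h1
    obtain ⟨f, hf'⟩ := CfsgLib.Clifford.exists_hom_of_linear (isCharacter_of_irr (hψ i)) h1
    refine hi ?_
    rw [hf']
    show f x0 = f 1
    rw [map_one]
    have hx0' : x0 ∈ commutator G := hperf ▸ Subgroup.mem_top x0
    exact congrArg Units.val (MonoidHom.mem_ker.1 (Abelianization.commutator_subset_ker f.toHomUnits hx0'))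
  have hbig := hres.2 hψ1 (fun M hM hPM => hncl M hM hPM)
  have hdi : Cfsg.charDegree (ψ i) ≤ n := by
    refine le_trans ?_ hn
    have h1 : χ 1 = ((∑ j, Cfsg.charDegree (ψ j) : ℕ) : ℂ) := by
      rw [hsum, Finset.sum_apply, Nat.cast_sum]
      exact Finset.sum_congr rfl fun j _ => apply_one (isCharacter_of_irr (hψ j))
    rw [apply_one hχ, Nat.cast_inj] at h1
    rw [h1]
    exact Finset.single_le_sum (f := fun j => Cfsg.charDegree (ψ j)) (fun _ _ => Nat.zero_le _) (Finset.mem_univ i)
  rw [apply_one (isCharacter_of_irr (hψ i)), Complex.natCast_re] at hbig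
  have h2 : Nat.card (P : Subgroup G) < (1 + Cfsg.charDegree (ψ i)) ^ 2 := by exact_mod_cast hbig
  have h3 : (1 + Cfsg.charDegree (ψ i)) ^ 2 ≤ (n + 1) ^ 2 := Nat.pow_le_pow_left (by omega) 2
  omega

/-- Let G be a finite group with a faithful complex representation of degree n (on Fin n → ℂ) and p a prime. Suppose either that (n + 1) ^ 2 ≤ p, or that n + 1 < p and every subgroup of G whose order is not divisible by p ^ 2 has a normal Sylow p-subgroup. Then every Sylow p-subgroup of G is normal. -/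
theorem result {G : Type*} [Group G] [Finite G] (n : ℕ) (ρ : Representation ℂ G (Fin n → ℂ)) (hρ : Function.Injective ρ) (p : ℕ) [Fact p.Prime] (h : (n + 1) ^ 2 ≤ p ∨ (n + 1 < p ∧ ∀ K : Subgroup G, ¬ p ^ 2 ∣ Nat.card K → ∀ Q : Sylow p K, (Q : Subgroup K).Normal)) (P : Sylow p G) : (P : Subgroup G).Normal := by
  refine main n _ G rfl ρ.character ⟨n, ρ, rfl⟩ (fun g hg => hρ ?_) (le_of_eq ?_) h P
  · rw [map_one]
    exact eq_id_of_character_eq ρ g hg
  · simp [Cfsg.charDegree]

end Cfsg.Agent.S0899
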