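import Cfsg.Statements.S0900
import Cfsg.Agent.Clifford.CosetAvg

set_option autoImplicit false
open Cfsg

namespace Cfsg.Agent.S0900

/-- Let N be a normal subgroup of the finite group G, χ an irreducible character of G and ϑ an irreducible character of N having nonzero inner product with the restriction of χ. Consider: (a) the restriction of χ to N is e • ϑ for a natural number e with e ^ 2 equal to the index of N; (b) χ vanishes outside N and ϑ is invariant under conjugation by G; (c) ϑ is invariant and every irreducible character of G having nonzero inner product with the function induced from ϑ equals χ. Then (a) ↔ (b) and (a) ↔ (c). -/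
theorem result {G : Type*} [Group G] [Fintype G] (N : Subgroup G) [hN : N.Normal] [Fintype N] (χ : G → ℂ) (hχ : Cfsg.IsIrrCharacter G χ) (ϑ : N → ℂ) (hϑ : Cfsg.IsIrrCharacter N ϑ) (hcon : Cfsg.classInner (fun n : N => χ n) ϑ ≠ 0) : ((∃ e : ℕ, (fun n : N => χ n) = (e : ℂ) • ϑ ∧ e ^ 2 = N.index) ↔ ((∀ g : G, g ∉ N → χ g = 0) ∧ ∀ (g : G) (n : N), ϑ ⟨g * n * g⁻¹, hN.conj_mem (n : G) n.2 g⟩ = ϑ n)) ∧ ((∃ e : ℕ, (fun n : N => χ n) = (e : ℂ) • ϑ ∧ e ^ 2 = N.index) ↔ (∀ (g : G) (n : N), ϑ ⟨g * n * g⁻¹, hN.conj_mem (n : G) n.2 g⟩ = ϑ n ∧ ∀ ψ : G → ℂ, Cfsg.IsIrrCharacter G ψ → Cfsg.classInner (Cfsg.indFun N ϑ) ψ ≠ 0 → ψ = χ)) := by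
  classical
  have hχc := CfsgLib.CharBasics.isCharacter_of_irr hχ
  have hθc := CfsgLib.CharBasics.isCharacter_of_irr hϑ
  obtain ⟨a, ha⟩ := CfsgLib.CharBasics.classInner_characters_nat
    (CfsgLib.CharBasics.isCharacter_restrict hχc N) hθc
  have hsmul : ∀ e : ℕ, (fun n : N => χ n) = (e : ℂ) • ϑ → e = a := by
    intro e he
    have := ha
    rw [he, CfsgLib.CharBasics.classInner_smul_left, CfsgLib.CharBasics.classInner_self hϑ, mul_one] at this
    exact_mod_cast this
  have ha0 : a ≠ 0 := by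
    rintro rfl
    exact hcon (by rw [ha, Nat.cast_zero])
  have hinv_of : ∀ e : ℕ, (fun n : N => χ n) = (e : ℂ) • ϑ →
      ∀ (g : G) (n : N), ϑ ⟨g * n * g⁻¹, hN.conj_mem (n : G) n.2 g⟩ = ϑ n := by
    intro e he g n
    have h0 := hsmul e he
    subst h0
    have h1 := congrFun he ⟨g * n * g⁻¹, hN.conj_mem (n : G) n.2 g⟩
    have h2 := congrFun he n
    simp only [Pi.smul_apply, smul_eq_mul] at h1 h2
    rw [CfsgLib.CharBasics.isClassFunction hχc (n : G) g, h2] at h1
    exact (mul_left_cancel₀ (Nat.cast_ne_zero.mpr ha0) h1).symm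
  have hnorm : ∀ e : ℕ, (fun n : N => χ n) = (e : ℂ) • ϑ →
      Cfsg.classInner (fun n : N => χ n) (fun n : N => χ n) = ((e ^ 2 : ℕ) : ℂ) := by
    intro e he
    rw [he, CfsgLib.CharBasics.classInner_smul_left, CfsgLib.CharBasics.classInner_comm ((e : ℂ) • ϑ) ϑ,
      CfsgLib.CharBasics.classInner_smul_left, CfsgLib.CharBasics.classInner_self hϑ, mul_one, Complex.conj_natCast]
    push_cast; ring
  have hres : (∀ (g : G) (n : N), ϑ ⟨g * n * g⁻¹, hN.conj_mem (n : G) n.2 g⟩ = ϑ n) →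
      (fun n : N => χ n) = (a : ℂ) • ϑ := fun h => by
    have := CfsgLib.Clifford.restrict_eq_smul_of_invariant hχ hϑ (fun g => funext fun n => h g n) hcon
    rwa [ha] at this
  have := Fintype.ofFinite (Cfsg.IrrCharacter G)
  choose m hm using fun β : Cfsg.IrrCharacter G =>
    CfsgLib.CharBasics.classInner_character_nat (CfsgLib.CharBasics.isCharacter_indFun N hθc) β
  have hmχ : m ⟨χ, hχ⟩ = a := by
    have h1 := hm ⟨χ, hχ⟩
    rw [CfsgLib.CharBasics.classInner_indFun N ϑ (CfsgLib.CharBasics.isClassFunction hχc),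
      CfsgLib.CharBasics.classInner_comm, ha, Complex.conj_natCast] at h1
    exact_mod_cast h1.symm
  have hsum : (∀ (g : G) (n : N), ϑ ⟨g * n * g⁻¹, hN.conj_mem (n : G) n.2 g⟩ = ϑ n) →
      ∑ β : Cfsg.IrrCharacter G, m β ^ 2 = N.index := by
    intro h
    have h1 := CfsgLib.Clifford.classInner_indFun_self_of_invariant (G := G) hϑ (fun g => funext fun n => h g n)
    have h0 := congrArg (fun f => Cfsg.classInner f (Cfsg.indFun N ϑ))
      (CfsgLib.CharBasics.classFun_expand (CfsgLib.CharBasics.isClassFunction_indFun N ϑ))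
    rw [h0] at h1
    simp only [CfsgLib.CharBasics.classInner_sum_left, CfsgLib.CharBasics.classInner_smul_left] at h1
    simp only [CfsgLib.CharBasics.classInner_comm (Cfsg.indFun N ϑ), hm, Complex.conj_natCast] at h1
    simp only [pow_two]
    exact_mod_cast h1
  refine ⟨⟨?_, ?_⟩, ⟨?_, ?_⟩⟩
  · rintro ⟨e, he, he2⟩
    refine ⟨(CfsgLib.Clifford.restrict_norm_eq_index_iff hχ).mp ?_, hinv_of e he⟩
    rw [hnorm e he, he2]
  · rintro ⟨hv, hinv⟩
    refine ⟨a, hres hinv, ?_⟩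
    have := (CfsgLib.Clifford.restrict_norm_eq_index_iff (N := N) hχ).mpr hv
    rw [hnorm a (hres hinv)] at this
    exact_mod_cast this
  · rintro ⟨e, he, he2⟩ g n
    have h := hinv_of e he
    refine ⟨h g n, fun ψ hψ hne => ?_⟩
    by_contra hd
    have hs := hsum h
    have h0 := hsmul e he
    subst h0
    rw [← Finset.add_sum_erase _ _ (Finset.mem_univ (⟨χ, hχ⟩ : Cfsg.IrrCharacter G)), hmχ, he2] at hs
    have hzero : ∑ β ∈ Finset.univ.erase (⟨χ, hχ⟩ : Cfsg.IrrCharacter G), m β ^ 2 = 0 := by omega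
    have := Finset.sum_eq_zero_iff.mp hzero ⟨ψ, hψ⟩
      (Finset.mem_erase.mpr ⟨fun e => hd (congrArg Subtype.val e), Finset.mem_univ _⟩)
    exact hne (by rw [hm ⟨ψ, hψ⟩, pow_eq_zero_iff (by norm_num) |>.mp this, Nat.cast_zero])
  · intro h
    have hinv : ∀ (g : G) (n : N), ϑ ⟨g * n * g⁻¹, hN.conj_mem (n : G) n.2 g⟩ = ϑ n := fun g n => (h g n).1
    refine ⟨a, hres hinv, ?_⟩
    have hs := hsum hinv
    rw [Finset.sum_eq_single (⟨χ, hχ⟩ : Cfsg.IrrCharacter G), hmχ] at hs
    · exact hs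
    · intro β _ hne
      by_contra h0
      exact hne (Subtype.ext ((h 1 1).2 β β.2 (by rw [hm β, Nat.cast_ne_zero]; intro h2; rw [h2] at h0; exact h0 rfl)))
    · simp

end Cfsg.Agent.S0900
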