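import Cfsg.Statements.S0901
import Cfsg.Agent.Blocks.Local
import Mathlib.RingTheory.IntegralClosure.IsIntegral.Basic
import Mathlib.GroupTheory.Finiteness
import Mathlib.RingTheory.RootsOfUnity.Complex
import Mathlib.Algebra.CharP.Lemmas


set_option autoImplicit false
open Cfsg

namespace Cfsg.Agent.S0901

open CfsgLib.Blocks

/-- Let M be a maximal ideal of the ring of algebraic integers containing the prime p, and let U be the set of complex roots of unity of order prime to p. Then reduction modulo M is injective on U, and every algebraic integer not in M is congruent modulo M to an element of U (so U maps bijectively onto the nonzero residues). -/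
theorem result (p : ℕ) [Fact p.Prime] (M : Ideal Cfsg.AlgInt) (hM : Cfsg.IsPModular p M) : (∀ ε₁ ε₂ : Cfsg.AlgInt, (∃ m : ℕ, ¬ p ∣ m ∧ (ε₁ : ℂ) ^ m = 1) → (∃ m : ℕ, ¬ p ∣ m ∧ (ε₂ : ℂ) ^ m = 1) → ε₁ - ε₂ ∈ M → ε₁ = ε₂) ∧ (∀ a : Cfsg.AlgInt, a ∉ M → ∃ ε : Cfsg.AlgInt, (∃ m : ℕ, ¬ p ∣ m ∧ (ε : ℂ) ^ m = 1) ∧ a - ε ∈ M) := by
  classical
  have hp : p.Prime := Fact.out
  haveI := hM.2.1
  letI := Ideal.Quotient.field M
  have hone : ∀ ζ : AlgInt, ∀ n : ℕ, ¬ p ∣ n → ζ ^ n = 1 → ζ - 1 ∈ M → ζ = 1 := by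
    intro ζ n hn hζ hm
    by_contra hne
    have h := geom_sum_mul ζ n
    rw [hζ, sub_self] at h
    have h0 := (mul_eq_zero.1 h).resolve_right (sub_ne_zero.2 hne)
    have h1 : Ideal.Quotient.mk M ζ = 1 := by rw [← map_one (Ideal.Quotient.mk M), Ideal.Quotient.eq]; exact hm
    have h2 := congrArg (Ideal.Quotient.mk M) h0
    simp only [map_sum, map_pow, h1, one_pow, Finset.sum_const, Finset.card_range, nsmul_one, map_zero] at h2
    rw [← map_natCast (Ideal.Quotient.mk M), Ideal.Quotient.eq_zero_iff_mem] at h2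
    have h3 := (intCast_mem_iff hM (n : ℤ)).1 (by simpa using h2)
    exact hn (Int.natCast_dvd_natCast.1 h3)
  have hinj : ∀ ε₁ ε₂ : AlgInt, (∃ m : ℕ, ¬ p ∣ m ∧ (ε₁ : ℂ) ^ m = 1) → (∃ m : ℕ, ¬ p ∣ m ∧ (ε₂ : ℂ) ^ m = 1) →
      ε₁ - ε₂ ∈ M → ε₁ = ε₂ := by
    rintro ε₁ ε₂ ⟨m₁, hm₁, h₁⟩ ⟨m₂, hm₂, h₂⟩ h
    have h₁' : ε₁ ^ m₁ = 1 := Subtype.ext (by push_cast; exact h₁)
    have h₂' : ε₂ ^ m₂ = 1 := Subtype.ext (by push_cast; exact h₂)
    obtain ⟨k, rfl⟩ : ∃ k, m₂ = k + 1 := ⟨m₂ - 1, by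
      have : m₂ ≠ 0 := fun h0 => hm₂ (h0 ▸ dvd_zero p)
      omega⟩
    have hinv : ε₂ * ε₂ ^ k = 1 := by rw [← pow_succ']; exact h₂'
    have h3 := hone (ε₁ * ε₂ ^ k) (m₁ * (k + 1)) (fun hd => (hp.dvd_mul.1 hd).elim hm₁ hm₂)
      (by rw [mul_pow, pow_mul, h₁', one_pow, one_mul, ← pow_mul, mul_comm m₁, ← mul_assoc, mul_comm k,
        mul_assoc, pow_mul, h₂', one_pow]) (by
      rw [show ε₁ * ε₂ ^ k - 1 = (ε₁ - ε₂) * ε₂ ^ k by rw [sub_mul, hinv]]
      exact M.mul_mem_right _ h)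
    calc ε₁ = ε₁ * (ε₂ * ε₂ ^ k) := by rw [hinv, mul_one]
      _ = (ε₁ * ε₂ ^ k) * ε₂ := by ring
      _ = ε₂ := by rw [h3, one_mul]
  refine ⟨hinj, fun a ha => ?_⟩
  haveI : CharP (AlgInt ⧸ M) p := ⟨fun n => by
    rw [← map_natCast (Ideal.Quotient.mk M), Ideal.Quotient.eq_zero_iff_mem, ← Int.natCast_dvd_natCast,
      ← intCast_mem_iff hM (n : ℤ), Int.cast_natCast]⟩
  set b := Ideal.Quotient.mk M a with hb
  have hb0 : b ≠ 0 := fun h => ha (Ideal.Quotient.eq_zero_iff_mem.1 h)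
  have hbint : IsIntegral ℤ b := by
    have h1 : IsIntegral ℤ a := (isIntegral_algHom_iff (AlgInt.toSubring.subtype.toIntAlgHom) Subtype.val_injective).1 a.2
    exact h1.map (Ideal.Quotient.mk M).toIntAlgHom
  have hfin : Finite (Algebra.adjoin ℤ ({b} : Set (AlgInt ⧸ M))) := by
    haveI : Module.Finite ℤ (Algebra.adjoin ℤ ({b} : Set (AlgInt ⧸ M))) :=
      Module.Finite.iff_fg.2 hbint.fg_adjoin_singleton
    haveI : AddGroup.FG (Algebra.adjoin ℤ ({b} : Set (AlgInt ⧸ M))) := Module.Finite.iff_addGroup_fg.1 inferInstance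
    refine AddCommGroup.finite_of_fg_torsion _ fun x => ?_
    refine isOfFinAddOrder_iff_nsmul_eq_zero.2 ⟨p, hp.pos, Subtype.ext ?_⟩
    rw [AddSubmonoidClass.coe_nsmul, nsmul_eq_mul, CharP.cast_eq_zero, zero_mul]
    rfl
  obtain ⟨m, hm0, hbm, hmmin⟩ : ∃ m, 0 < m ∧ b ^ m = 1 ∧ m = orderOf b := by
    have hfo : IsOfFinOrder b := by
      let f : ℕ → Algebra.adjoin ℤ ({b} : Set (AlgInt ⧸ M)) := fun i =>
        ⟨b ^ i, Subalgebra.pow_mem _ (Algebra.subset_adjoin (Set.mem_singleton b)) i⟩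
      obtain ⟨i, j, hij, hfij⟩ := Finite.exists_ne_map_eq_of_infinite f
      have he : b ^ i = b ^ j := congrArg Subtype.val hfij
      wlog hlt : i < j generalizing i j
      · exact this j i hij.symm hfij.symm he.symm (by omega)
      refine isOfFinOrder_iff_pow_eq_one.2 ⟨j - i, by omega, ?_⟩
      refine mul_left_cancel₀ (pow_ne_zero i hb0) ?_
      rw [← pow_add, mul_one, he, show i + (j - i) = j by omega]
    exact ⟨orderOf b, hfo.orderOf_pos, pow_orderOf_eq_one b, rfl⟩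
  have hpm : ¬ p ∣ m := by
    rintro ⟨k, hk⟩
    have hk0 : 0 < k := Nat.pos_of_ne_zero (fun h => by rw [h, mul_zero] at hk; omega)
    have h1 : (b ^ k - 1) ^ p = 0 := by
      rw [sub_pow_char, one_pow, ← pow_mul, mul_comm, ← hk, hbm, sub_self]
    have h2 := Nat.le_of_dvd hk0 (hmmin ▸ orderOf_dvd_of_pow_eq_one (sub_eq_zero.1 (pow_eq_zero_iff hp.ne_zero |>.1 h1)))
    have := Nat.mul_le_mul_right k hp.two_le
    omega
  have hz := Complex.isPrimitiveRoot_exp m hm0.ne'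
  set z := Complex.exp (2 * Real.pi * Complex.I / m) with hzdef
  let ζ : AlgInt := ⟨z, IsIntegral.of_pow hm0 (by rw [hz.pow_eq_one]; exact isIntegral_one)⟩
  have hζm : ζ ^ m = 1 := Subtype.ext (by push_cast; exact hz.pow_eq_one)
  have hzbar : IsPrimitiveRoot (Ideal.Quotient.mk M ζ) m := by
    refine ⟨by rw [← map_pow, hζm, map_one], fun i hi => ?_⟩
    rw [← map_pow, ← map_one (Ideal.Quotient.mk M), Ideal.Quotient.eq] at hi
    have h1 := hone (ζ ^ i) m hpm (by rw [← pow_mul, mul_comm, pow_mul, hζm, one_pow]) hi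
    exact hz.dvd_of_pow_eq_one i (by simpa [ζ] using congrArg Subtype.val h1)
  haveI : NeZero m := ⟨hm0.ne'⟩
  obtain ⟨i, -, hi⟩ := hzbar.eq_pow_of_pow_eq_one hbm
  refine ⟨ζ ^ i, ⟨m, hpm, ?_⟩, ?_⟩
  · push_cast
    rw [← pow_mul, mul_comm, pow_mul]
    show (z ^ m) ^ i = 1
    rw [hz.pow_eq_one, one_pow]
  · rw [← Ideal.Quotient.eq, map_pow, hi]

end Cfsg.Agent.S0901
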