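import Cfsg.Statements.S0903
import Mathlib.GroupTheory.PGroup
import Mathlib.Tactic.Group


set_option autoImplicit false
open Cfsg

namespace Cfsg.Agent.S0903

/-- Let P be a p-subgroup of the finite group G, let c centralize P and let g, h ∈ G. The number of pairs (x, y) with x conjugate to g, y conjugate to h and x * y = c is congruent modulo p to the number of such pairs in which x and y both centralize P. (This is why the Brauer map on class sums is multiplicative.) -/
theorem result {G : Type*} [Group G] [Finite G] (p : ℕ) [Fact p.Prime] (P : Subgroup G) (hP : IsPGroup p P) (c : G) (hc : c ∈ Subgroup.centralizer (P : Set G)) (g h : G) : Nat.card {xy : G × G // IsConj g xy.1 ∧ IsConj h xy.2 ∧ xy.1 * xy.2 = c} ≡ Nat.card {xy : G × G // IsConj g xy.1 ∧ IsConj h xy.2 ∧ xy.1 * xy.2 = c ∧ xy.1 ∈ Subgroup.centralizer (P : Set G) ∧ xy.2 ∈ Subgroup.centralizer (P : Set G)} [MOD p] := by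
  classical
  set A := {xy : G × G // IsConj g xy.1 ∧ IsConj h xy.2 ∧ xy.1 * xy.2 = c}
  have hcP : ∀ u : P, (u : G) * c * (u : G)⁻¹ = c := fun u => by
    rw [Subgroup.mem_centralizer_iff.1 hc _ u.2, mul_inv_cancel_right]
  letI : MulAction P A :=
    { smul := fun u a => ⟨((u : G) * a.1.1 * (u : G)⁻¹, (u : G) * a.1.2 * (u : G)⁻¹),
        a.2.1.trans (isConj_iff.2 ⟨u, rfl⟩), a.2.2.1.trans (isConj_iff.2 ⟨u, rfl⟩), by
          have e : (u : G) * a.1.1 * (u : G)⁻¹ * ((u : G) * a.1.2 * (u : G)⁻¹) = (u : G) * (a.1.1 * a.1.2) * (u : G)⁻¹ := by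
            group
          show _ * _ = c
          rw [e, a.2.2.2, hcP u]⟩
      one_smul := fun a => Subtype.ext (Prod.ext
        (show ((1 : P) : G) * a.1.1 * ((1 : P) : G)⁻¹ = a.1.1 by simp)
        (show ((1 : P) : G) * a.1.2 * ((1 : P) : G)⁻¹ = a.1.2 by simp))
      mul_smul := fun u v a => Subtype.ext (Prod.ext
        (show ((u * v : P) : G) * a.1.1 * ((u * v : P) : G)⁻¹ =
          (u : G) * ((v : G) * a.1.1 * (v : G)⁻¹) * (u : G)⁻¹ by simp [mul_assoc])
        (show ((u * v : P) : G) * a.1.2 * ((u * v : P) : G)⁻¹ =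
          (u : G) * ((v : G) * a.1.2 * (v : G)⁻¹) * (u : G)⁻¹ by simp [mul_assoc])) }
  refine (hP.card_modEq_card_fixedPoints A).trans ?_
  refine congrArg (fun n => n % p) (Nat.card_congr
    { toFun := fun a => ⟨a.1.1, a.1.2.1, a.1.2.2.1, a.1.2.2.2,
        Subgroup.mem_centralizer_iff.2 fun u hu =>
          mul_inv_eq_iff_eq_mul.1 (congrArg (fun z : A => z.1.1) (a.2 ⟨u, hu⟩)),
        Subgroup.mem_centralizer_iff.2 fun u hu =>
          mul_inv_eq_iff_eq_mul.1 (congrArg (fun z : A => z.1.2) (a.2 ⟨u, hu⟩))⟩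
      invFun := fun b => ⟨⟨b.1, b.2.1, b.2.2.1, b.2.2.2.1⟩, fun u => Subtype.ext (Prod.ext
        (mul_inv_eq_iff_eq_mul.2 (Subgroup.mem_centralizer_iff.1 b.2.2.2.2.1 _ u.2))
        (mul_inv_eq_iff_eq_mul.2 (Subgroup.mem_centralizer_iff.1 b.2.2.2.2.2 _ u.2)))⟩
      left_inv := fun a => rfl
      right_inv := fun b => rfl })

end Cfsg.Agent.S0903
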