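import Cfsg.Statements.S0905
import Cfsg.Agent.Blocks.Residue
import Cfsg.Agent.PCore.Basic

set_option autoImplicit false
open Cfsg CfsgLib.CharBasics CfsgLib.Blocks
open scoped ComplexConjugate

namespace Cfsg.Agent.S0905

/-- Let F be a field of characteristic p and let g be an element of the finite group G no conjugate of which centralizes O_p(G). Then the class sum of g is a nilpotent element of the group algebra F[G]. -/
theorem result {G : Type*} [Group G] [Finite G] (p : ℕ) [Fact p.Prime] (F : Type*) [Field F] [CharP F p] (g : G) (hg : ∀ x : G, IsConj g x → x ∉ Subgroup.centralizer (Cfsg.pCore p G : Set G)) : IsNilpotent (∑ᶠ x ∈ ConjClasses.carrier (ConjClasses.mk g), MonoidAlgebra.single x (1 : F) : MonoidAlgebra F G) := by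
  classical
  haveI := Fintype.ofFinite G
  set Q := Cfsg.pCore p G
  haveI : Q.Normal := by
    rw [show Q = pCore p G from rfl]
    infer_instance
  have hQ : IsPGroup p Q := CfsgLib.PCore.isPGroup_pCore p G
  haveI := Fintype.ofFinite Q
  set f : G → F := fun x => if IsConj g x then 1 else 0 with hf
  set z : MonoidAlgebra F G := ∑ᶠ x ∈ ConjClasses.carrier (ConjClasses.mk g), MonoidAlgebra.single x (1 : F)
  have hz : z = ∑ x : G, MonoidAlgebra.single x (f x) := by
    simp only [z, finsum_mem_eq_toFinset_sum, hf]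
    rw [show (ConjClasses.mk g).carrier.toFinset = Finset.univ.filter (fun x => IsConj g x) by
      ext x; rw [Set.mem_toFinset, ConjClasses.mem_carrier_iff_mk_eq, ConjClasses.mk_eq_mk_iff_isConj]; simp only [Finset.mem_filter, Finset.mem_univ, true_and]; exact ⟨fun h => h.symm, fun h => h.symm⟩, Finset.sum_filter]
    exact Finset.sum_congr rfl fun x _ => by split_ifs <;> simp
  have hsum : ∀ h : G, ∑ u : Q, f (h * (u : G)) = 0 := by
    intro h
    let X := {u : Q // IsConj g (h * (u : G))}
    have key : ∀ (v u : Q), ∃ w : Q, (v : G) * (h * u) * (v : G)⁻¹ = h * w := by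
      intro v u
      refine ⟨⟨h⁻¹ * v * h * u * (v : G)⁻¹, Q.mul_mem (Q.mul_mem ?_ u.2) (Q.inv_mem v.2)⟩, by group⟩
      simpa using Subgroup.Normal.conj_mem ‹Q.Normal› (v : G) v.2 h⁻¹
    choose w hw using key
    letI : MulAction Q X :=
      { smul := fun v u => ⟨w v u.1, by rw [← hw]; exact u.2.trans (isConj_iff.2 ⟨v, rfl⟩)⟩
        one_smul := fun u => Subtype.ext (Subtype.ext (mul_left_cancel (a := h) (by
          show h * (w 1 u.1 : G) = h * u.1
          rw [← hw]; simp)))
        mul_smul := fun a b u => Subtype.ext (Subtype.ext (mul_left_cancel (a := h) (by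
          show h * (w (a * b) u.1 : G) = h * (w a (w b u.1) : G)
          rw [← hw, ← hw, ← hw]; simp [mul_assoc]))) }
    have hfix : IsEmpty (MulAction.fixedPoints Q X) := ⟨fun u => hg (h * (u.1.1 : G)) u.1.2 (by
      rw [Subgroup.mem_centralizer_iff]
      intro v hv
      have e := congrArg (fun t : X => h * (t.1 : G)) (u.2 ⟨v, hv⟩)
      change h * (w ⟨v, hv⟩ u.1.1 : G) = h * u.1.1 at e
      rw [← hw] at e
      exact mul_inv_eq_iff_eq_mul.1 e)⟩
    have hmod := hQ.card_modEq_card_fixedPoints X
    rw [Nat.card_of_isEmpty (α := MulAction.fixedPoints Q X), Nat.modEq_zero_iff_dvd, Nat.card_eq_fintype_card,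
      Fintype.card_subtype] at hmod
    simp only [hf, Finset.sum_boole]
    exact (CharP.cast_eq_zero_iff F p _).2 hmod
  obtain ⟨N, hN⟩ := conv_nilpotent p Q hQ f hsum
  refine ⟨N, ?_⟩
  have hL : ∀ (n : ℕ) (x : G), ((conv f) ^ n) (fun x => if x = 1 then 1 else 0) x = (z ^ n).coeff x := by
    intro n
    induction n with
    | zero => intro x; simp [MonoidAlgebra.one_def, Finsupp.single_apply, eq_comm]
    | succ n ih =>
      intro x
      rw [pow_succ', Module.End.mul_apply, pow_succ', hz, Finset.sum_mul]
      show ∑ a, f a * _ = _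
      simp only [ih, MonoidAlgebra.coeff_sum, Finset.sum_apply', MonoidAlgebra.coeff_single_mul_apply, ← hz]
  ext x
  rw [← hL, hN]
  simp

end Cfsg.Agent.S0905
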