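import Cfsg.Statements.S0911
import Cfsg.Agent.Blocks.DefectGroup


set_option autoImplicit false
open Cfsg

namespace Cfsg.Agent.S0911

open CfsgLib.Blocks CfsgLib.CharBasics

/-- The min–max Theorem for defect classes. Let B be a block of the finite group G relative to a maximal ideal M of the algebraic integers containing the prime p, let g represent a defect class of B and let D be a Sylow p-subgroup of the centralizer of g (viewed in G). For any h: (a) if the idempotent coefficient of B at h is a local integer outside the local ideal, then some conjugate of D contains a Sylow p-subgroup of the centralizer of h; (b) if the central character of some member of B at h is outside the local ideal, then some conjugate of D is contained in a Sylow p-subgroup of the centralizer of h. -/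
theorem result {G : Type*} [Group G] [Finite G] (p : ℕ) [Fact p.Prime] (M : Ideal Cfsg.AlgInt) (hM : Cfsg.IsPModular p M) (B : Set (Cfsg.IrrCharacter G)) (hB : Cfsg.IsPBlock M B) (g : G) (hg : Cfsg.IsDefectClass M B g) (D : Sylow p (Subgroup.centralizer ({g} : Set G))) (h : G) : (Cfsg.MemLocalRing M (Cfsg.blockCoeff B h) → ¬ Cfsg.MemLocalIdeal M (Cfsg.blockCoeff B h) → ∃ (x : G) (Q : Sylow p (Subgroup.centralizer ({h} : Set G))), (Q : Subgroup (Subgroup.centralizer ({h} : Set G))).map (Subgroup.centralizer ({h} : Set G)).subtype ≤ ((D : Subgroup (Subgroup.centralizer ({g} : Set G))).map (Subgroup.centralizer ({g} : Set G)).subtype).map (MulAut.conj x).toMonoidHom) ∧ ((∃ χ ∈ B, ¬ Cfsg.MemLocalIdeal M (Cfsg.centralChar (χ : G → ℂ) h)) → ∃ (x : G) (Q : Sylow p (Subgroup.centralizer ({h} : Set G))), ((D : Subgroup (Subgroup.centralizer ({g} : Set G))).map (Subgroup.centralizer ({g} : Set G)).subtype).map (MulAut.conj x).toMonoidHom ≤ (Q : Subgroup (Subgroup.centralizer ({h} : Set G))).map (Subgroup.centralizer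 ({h} : Set G)).subtype) := by
  classical
  haveI := Fintype.ofFinite G
  have hD : IsDefectGroup p M B ((D : Subgroup (Subgroup.centralizer ({g} : Set G))).map
      (Subgroup.centralizer ({g} : Set G)).subtype) := ⟨g, hg, D, rfl⟩
  refine ⟨fun _ hu => ?_, ?_⟩
  · obtain ⟨Q⟩ : Nonempty (Sylow p (Subgroup.centralizer ({h} : Set G))) := inferInstance
    obtain ⟨e, he⟩ := exists_conj_mem_defectGroup hM hB hu (Q.2.map _)
      (fun q hq => Subgroup.mem_centralizer_singleton_iff.1 (Subgroup.map_subtype_le _ hq)) hD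
    refine ⟨e⁻¹, Q, fun q hq => ⟨e * q * e⁻¹, he q hq, ?_⟩⟩
    show e⁻¹ * (e * q * e⁻¹) * e⁻¹⁻¹ = q
    group
  · rintro ⟨χ, hχ, hu⟩
    obtain ⟨h', hh', hcent⟩ := exists_conj_centralizing hM hB hχ hg.2.1 hu (D.2.map _)
      (fun q hq => Subgroup.mem_centralizer_singleton_iff.1 (Subgroup.map_subtype_le _ hq))
    obtain ⟨c, hc⟩ := isConj_iff.1 hh'
    have hle : ((D : Subgroup (Subgroup.centralizer ({g} : Set G))).map (Subgroup.centralizer ({g} : Set G)).subtype).map
        (MulAut.conj c⁻¹).toMonoidHom ≤ Subgroup.centralizer ({h} : Set G) := by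
      rintro _ ⟨q, hq, rfl⟩
      refine Subgroup.mem_centralizer_singleton_iff.2 ?_
      have h1 := hcent q hq
      rw [← hc] at h1
      show c⁻¹ * q * c⁻¹⁻¹ * h = h * (c⁻¹ * q * c⁻¹⁻¹)
      calc c⁻¹ * q * c⁻¹⁻¹ * h = c⁻¹ * (q * (c * h * c⁻¹)) * c := by group
        _ = c⁻¹ * (c * h * c⁻¹ * q) * c := by rw [h1]
        _ = _ := by group
    obtain ⟨Q, hQ⟩ := (((D.2.map _).map _).of_equiv (Subgroup.subgroupOfEquivOfLe hle).symm).exists_le_sylow
    exact ⟨c⁻¹, Q, fun q hq => ⟨⟨q, hle hq⟩, hQ hq, rfl⟩⟩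

end Cfsg.Agent.S0911
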