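import Cfsg.Statements.S0915
import Cfsg.Agent.S4653
import Cfsg.Agent.PCore.PConstrained


set_option autoImplicit false
open Cfsg

namespace Cfsg.Agent.S0915

open CfsgLib.Blocks CfsgLib.CharBasics

/-- Let G be a finite p-solvable group with trivial largest normal subgroup of order prime to p. Then any two irreducible characters of G lie in the same block relative to every maximal ideal M of the algebraic integers containing p: G has a single p-block. -/
theorem result {G : Type*} [Group G] [Finite G] (p : ℕ) [Fact p.Prime] (M : Ideal Cfsg.AlgInt) (hM : Cfsg.IsPModular p M) (hsolv : Cfsg.IsPSolvable p G) (hcore : Cfsg.pPrimeCore p G = ⊥) (χ ψ : Cfsg.IrrCharacter G) : Cfsg.SameBlock M (χ : G → ℂ) (ψ : G → ℂ) := by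
  classical
  haveI := Fintype.ofFinite G
  have hHH := CfsgLib.PCore.hall_higman hsolv hcore
  have hB := isPBlock_blockOf M χ
  haveI := Cfsg.pCore_normal p G
  have hzero : ∀ g : G, g ≠ 1 → blockCoeff (blockOf M (χ : G → ℂ)) g = 0 := by
    intro g hg
    by_cases hp : p ∣ orderOf g
    · exact blockCoeff_eq_zero hM hB hp
    refine Cfsg.Agent.S4653.result p M hM (Cfsg.pCore p G) (CfsgLib.PCore.isPGroup_pCore p G) _ hB g fun h => hg ?_
    obtain ⟨k, hk⟩ := CfsgLib.PCore.isPGroup_pCore p G ⟨g, hHH h⟩
    have hk' : g ^ p ^ k = 1 := congrArg Subtype.val hk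
    obtain ⟨j, -, hj⟩ := (Nat.dvd_prime_pow hM.1).1 (orderOf_dvd_of_pow_eq_one hk')
    cases j with
    | zero => exact orderOf_eq_one_iff.1 (by rw [hj, pow_zero])
    | succ j => exact absurd (hj ▸ dvd_pow_self p (Nat.succ_ne_zero j)) hp
  have hω : ∀ φ : IrrCharacter G,
      omega (φ : G → ℂ) (blockElt (blockOf M (χ : G → ℂ))) = blockCoeff (blockOf M (χ : G → ℂ)) 1 := by
    intro φ
    rw [omega, Finset.sum_eq_single (1 : G) (fun g _ hg => by rw [coeff_blockElt, hzero g hg, zero_mul]) (by simp),
      coeff_blockElt, mul_div_assoc, div_self (apply_one_ne_zero φ.2), mul_one]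
  have h1 := (hω ψ).trans (hω χ).symm
  rw [omega_blockElt, omega_blockElt, if_pos (mem_blockOf_self hM χ)] at h1
  by_contra hne
  rw [if_neg (show ψ ∉ blockOf M (χ : G → ℂ) from hne)] at h1
  exact zero_ne_one h1

end Cfsg.Agent.S0915
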