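import Cfsg.Statements.S0916
import Mathlib


set_option autoImplicit false
open Cfsg

namespace Cfsg.Agent.S0916

/-- Let P be a p-subgroup of the finite group G, C its centralizer and N its normalizer. Say that a conjugacy class (of G, or of N) has defect group P when P is a Sylow p-subgroup of the centralizer (in G, respectively in N) of some element of the class. Then: (i) if the class of g in G has defect group P, the elements of that class lying in C form a single N-class, again with defect group P; (ii) every N-class with defect group P arises this way from exactly one G-class with defect group P. -/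
theorem result {G : Type*} [Group G] [Finite G] (p : ℕ) [Fact p.Prime] (P : Subgroup G) (hP : IsPGroup p P) : (∀ g : G, (∃ S : Sylow p (Subgroup.centralizer ({g} : Set G)), (S : Subgroup (Subgroup.centralizer ({g} : Set G))).map (Subgroup.centralizer ({g} : Set G)).subtype = P) → (∃ c : G, IsConj g c ∧ c ∈ Subgroup.centralizer (P : Set G)) ∧ (∀ c₁ c₂ : G, IsConj g c₁ → IsConj g c₂ → c₁ ∈ Subgroup.centralizer (P : Set G) → c₂ ∈ Subgroup.centralizer (P : Set G) → ∃ n ∈ Subgroup.normalizer (P : Set G), n * c₁ * n⁻¹ = c₂)) ∧ (∀ c : G, c ∈ Subgroup.centralizer (P : Set G) → (∃ S : Sylow p (Subgroup.centralizer ({c} : Set G) ⊓ Subgroup.normalizer (P : Set G) : Subgroup G), (S : Subgroup ↥(Subgroup.centralizer ({c} : Set G) ⊓ Subgroup.normalizer (P : Set G))).map (Subgroup.centralizer ({c} : Set G) ⊓ Subgroup.normalizer (P : Set G)).subtype = P) → ∃ S : Sylow p (Subgroup.centralizer ({c} : Set G)), (S : Subgroup (Subgroup.centralizer ({c} : Set G))).map (Subgroup.centralizer ({c} : Set G)).subtype = P) := by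
  classical
  have hp : p.Prime := Fact.out
  have card_of : ∀ g : G, (∃ S : Sylow p (Subgroup.centralizer ({g} : Set G)),
      (S : Subgroup (Subgroup.centralizer ({g} : Set G))).map (Subgroup.centralizer ({g} : Set G)).subtype = P) →
      Nat.card P = p ^ (Nat.card (Subgroup.centralizer ({g} : Set G))).factorization p := by
    rintro g ⟨S, rfl⟩
    rw [Subgroup.card_map_of_injective (Subgroup.centralizer ({g} : Set G)).subtype_injective, S.card_eq_multiplicity]
  refine ⟨fun g hg => ⟨⟨g, IsConj.refl g, ?_⟩, fun c₁ c₂ h1 h2 hc1 hc2 => ?_⟩, fun c hc hS => ?_⟩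
  · obtain ⟨S, rfl⟩ := hg
    rw [Subgroup.mem_centralizer_iff]
    rintro _ ⟨u, -, rfl⟩
    exact Subgroup.mem_centralizer_singleton_iff.1 u.2
  · have hcard := card_of g hg
    obtain ⟨x, hx⟩ := isConj_iff.1 (h1.symm.trans h2)
    obtain ⟨y, hy⟩ := isConj_iff.1 h2
    set C2 := Subgroup.centralizer ({c₂} : Set G)
    have hcc : Nat.card C2 = Nat.card (Subgroup.centralizer ({g} : Set G)) := by
      have e : C2 = (Subgroup.centralizer ({g} : Set G)).map (MulAut.conj y).toMonoidHom := by
        ext u
        simp only [C2, Subgroup.mem_map_equiv, MulAut.conj_symm_apply, Subgroup.mem_centralizer_singleton_iff, ← hy]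
        constructor
        · intro h
          calc y⁻¹ * u * y * g = y⁻¹ * (u * (y * g * y⁻¹)) * y := by group
            _ = y⁻¹ * (y * g * y⁻¹ * u) * y := by rw [h]
            _ = g * (y⁻¹ * u * y) := by group
        · intro h
          calc u * (y * g * y⁻¹) = y * (y⁻¹ * u * y * g) * y⁻¹ := by group
            _ = y * (g * (y⁻¹ * u * y)) * y⁻¹ := by rw [h]
            _ = y * g * y⁻¹ * u := by group
      rw [e, Subgroup.card_map_of_injective (MulAut.conj y).injective]
    have hP2 : P ≤ C2 := fun u hu => Subgroup.mem_centralizer_singleton_iff.2 (Subgroup.mem_centralizer_iff.1 hc2 u hu)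
    set Px := P.map (MulAut.conj x).toMonoidHom
    have hPx : Px ≤ C2 := by
      rintro _ ⟨u, hu, rfl⟩
      refine Subgroup.mem_centralizer_singleton_iff.2 ?_
      have h := Subgroup.mem_centralizer_iff.1 hc1 u hu
      show x * u * x⁻¹ * c₂ = c₂ * (x * u * x⁻¹)
      rw [← hx]
      calc x * u * x⁻¹ * (x * c₁ * x⁻¹) = x * (u * c₁) * x⁻¹ := by group
        _ = x * (c₁ * u) * x⁻¹ := by rw [h]
        _ = _ := by group
    let S1 : Sylow p C2 := Sylow.ofCard (P.subgroupOf C2) (by
      rw [Nat.card_congr (Subgroup.subgroupOfEquivOfLe hP2).toEquiv, hcard, hcc])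
    let S2 : Sylow p C2 := Sylow.ofCard (Px.subgroupOf C2) (by
      rw [Nat.card_congr (Subgroup.subgroupOfEquivOfLe hPx).toEquiv,
        Subgroup.card_map_of_injective (MulAut.conj x).injective, hcard, hcc])
    obtain ⟨m, hm⟩ := MulAction.exists_smul_eq C2 S2 S1
    refine ⟨(m : G) * x, ?_, ?_⟩
    · have hsub : ∀ u ∈ P, (m : G) * x * u * ((m : G) * x)⁻¹ ∈ P := by
        intro u hu
        have h2 : (⟨x * u * x⁻¹, hPx ⟨u, hu, rfl⟩⟩ : C2) ∈ (S2 : Subgroup C2) := ⟨u, hu, rfl⟩
        have h3 : m * ⟨x * u * x⁻¹, hPx ⟨u, hu, rfl⟩⟩ * m⁻¹ ∈ (S1 : Subgroup C2) := by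
          rw [← hm, Sylow.coe_subgroup_smul]
          exact Subgroup.smul_mem_pointwise_smul _ _ _ h2
        have h4 : (m : G) * (x * u * x⁻¹) * (m : G)⁻¹ ∈ P := h3
        simpa [mul_assoc] using h4
      haveI := Fintype.ofFinite P
      refine Subgroup.mem_normalizer_iff.2 fun u => ⟨hsub u, fun hu => ?_⟩
      let f : P → P := fun v => ⟨_, hsub v v.2⟩
      have hf : Function.Injective f := fun a b h => Subtype.ext (by simpa [f] using congrArg Subtype.val h)
      obtain ⟨v, hv⟩ := (Finite.injective_iff_surjective.1 hf) ⟨_, hu⟩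
      have : (v : G) = u := by simpa [f] using congrArg Subtype.val hv
      exact this ▸ v.2
    · calc (m : G) * x * c₁ * ((m : G) * x)⁻¹ = (m : G) * (x * c₁ * x⁻¹) * (m : G)⁻¹ := by group
        _ = (m : G) * c₂ * (m : G)⁻¹ := by rw [hx]
        _ = c₂ := by rw [Subgroup.mem_centralizer_singleton_iff.1 m.2, mul_inv_cancel_right]
  · set C := Subgroup.centralizer ({c} : Set G)
    set K := C ⊓ Subgroup.normalizer (P : Set G)
    obtain ⟨T, hT⟩ := hS
    have hPC : P ≤ C := fun u hu => Subgroup.mem_centralizer_singleton_iff.2 (Subgroup.mem_centralizer_iff.1 hc u hu)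
    obtain ⟨S, hS⟩ := (hP.of_equiv (Subgroup.subgroupOfEquivOfLe hPC).symm).exists_le_sylow
    refine ⟨S, ?_⟩
    set Pm := (S : Subgroup C).map C.subtype
    have hle : P ≤ Pm := fun u hu => ⟨⟨u, hPC hu⟩, hS hu, rfl⟩
    rcases hle.eq_or_lt with h | h
    · exact h.symm
    exfalso
    -- normalizers grow
    haveI : Group.IsNilpotent Pm := (S.2.map C.subtype).isNilpotent
    have hlt : P.subgroupOf Pm < Subgroup.normalizer ((P.subgroupOf Pm : Subgroup Pm) : Set Pm) := by
      refine Group.normalizerCondition_of_isNilpotent _ (lt_top_iff_ne_top.2 fun e => h.ne ?_)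
      exact le_antisymm hle (Subgroup.subgroupOf_eq_top.1 e)
    obtain ⟨w, hw, hwP⟩ := SetLike.exists_of_lt hlt
    set W := Pm ⊓ Subgroup.normalizer (P : Set G)
    have hwN : (w : G) ∈ Subgroup.normalizer (P : Set G) := by
      refine Subgroup.mem_normalizer_iff.2 fun u => ⟨fun hu => ?_, fun hu => ?_⟩
      · exact (Subgroup.mem_normalizer_iff.1 hw ⟨u, hle hu⟩).1 hu
      · have hu' : u ∈ Pm := by
          have := Pm.mul_mem (Pm.mul_mem (Pm.inv_mem w.2) (hle hu)) w.2
          simpa [mul_assoc] using this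
        exact (Subgroup.mem_normalizer_iff.1 hw ⟨u, hu'⟩).2 hu
    have hWK : W ≤ K := inf_le_inf_right _ (Subgroup.map_subtype_le _)
    have hWp : IsPGroup p W := (S.2.map C.subtype).to_le inf_le_left
    obtain ⟨T', hT'⟩ := (hWp.of_equiv (Subgroup.subgroupOfEquivOfLe hWK).symm).exists_le_sylow
    have h1 := Subgroup.card_le_of_le hT'
    rw [Nat.card_congr (Subgroup.subgroupOfEquivOfLe hWK).toEquiv, T'.card_eq_multiplicity,
      ← T.card_eq_multiplicity, ← Subgroup.card_map_of_injective K.subtype_injective, hT] at h1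
    have h2 : P < W := by
      refine lt_of_le_of_ne (le_inf hle Subgroup.le_normalizer) fun e => hwP ?_
      have : (w : G) ∈ W := ⟨w.2, hwN⟩
      rw [← e] at this
      exact this
    exact absurd h1 (not_le.2 (by
      rcases Nat.lt_or_ge (Nat.card P) (Nat.card W) with hc | hc
      · exact hc
      · exact absurd (Subgroup.eq_of_le_of_card_ge h2.le hc) h2.ne))

end Cfsg.Agent.S0916
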