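import Cfsg.Statements.S0919
import Cfsg.Agent.Blocks.NormalPSub
import Cfsg.Agent.ZStar.Second
import Cfsg.Agent.Blocks.Subsection


set_option autoImplicit false
open Cfsg

namespace Cfsg.Agent.S0919

open CfsgLib.Blocks CfsgLib.CharBasics CfsgLib

/-- Let P be a p-subgroup of the finite group G and H a subgroup with P·C_G(P) ≤ H ≤ N_G(P). Then for every block b of H relative to a maximal ideal M of the algebraic integers containing p, the induced block of b in G is defined: some block B of G has its central character congruent modulo M, at every element, to the central character of b induced to G. -/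
theorem result {G : Type*} [Group G] [Finite G] (p : ℕ) [Fact p.Prime] (M : Ideal Cfsg.AlgInt) (hM : Cfsg.IsPModular p M) (P H : Subgroup G) (hP : IsPGroup p P) (hPH : P ≤ H) (hCH : Subgroup.centralizer (P : Set G) ≤ H) (hHN : H ≤ Subgroup.normalizer (P : Set G)) (b : Set (Cfsg.IrrCharacter H)) (hb : Cfsg.IsPBlock M b) : Cfsg.InducedBlockDefined M H b := by
  classical
  haveI := Fintype.ofFinite G
  haveI := Fintype.ofFinite H
  haveI : Fintype (IrrCharacter G) := @Fintype.ofFinite _ finite_irrCharacter
  haveI : Fintype (ConjClasses H) := Fintype.ofFinite _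
  haveI : (P.subgroupOf H).Normal := (Subgroup.normal_subgroupOf_iff_le_normalizer hPH).2 hHN
  haveI := Fintype.ofFinite (P.subgroupOf H)
  set C := Subgroup.centralizer (P : Set G) with hCdef
  haveI := Fintype.ofFinite C
  have hCmem : ∀ g, g ∈ C ↔ ∀ q ∈ P, q * g = g * q := fun g => Subgroup.mem_centralizer_iff
  have hQ : IsPGroup p (P.subgroupOf H) := hP.of_equiv (Subgroup.subgroupOfEquivOfLe hPH).symm
  have hmem : ∀ h : H, h ∈ Subgroup.centralizer ((P.subgroupOf H : Subgroup H) : Set H) ↔ (h : G) ∈ C := by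
    intro h
    simp only [hCdef, Subgroup.mem_centralizer_iff, SetLike.mem_coe, Subgroup.mem_subgroupOf]
    exact ⟨fun k u hu => congrArg Subtype.val (k ⟨u, hPH hu⟩ hu), fun k u hu => Subtype.ext (k u hu)⟩
  obtain ⟨ξ, hξ⟩ := IsPBlock.nonempty hM hb
  -- truncation to the centralizer
  let r : MonoidAlgebra ℂ G → MonoidAlgebra ℂ H := fun z =>
    ofFun fun h : H => if (h : G) ∈ C then z.coeff (h : G) else 0
  have hrc : ∀ z, IsClassElt z → IsClassElt (r z) := by
    intro z hz x h
    simp only [r, coeff_ofFun, ← hmem]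
    have hn := (inferInstance : (Subgroup.centralizer ((P.subgroupOf H : Subgroup H) : Set H)).Normal)
    refine if_congr ⟨fun k => by
      have := hn.conj_mem _ k h⁻¹
      simpa [mul_assoc] using this, fun k => hn.conj_mem _ k h⟩ ?_ rfl
    simpa using coeff_conj hz (x : G) (h : G)
  have hri : ∀ z, IsIntegralElt M z → IsIntegralElt M (r z) := by
    intro z hz h
    simp only [r, coeff_ofFun]
    split_ifs
    · exact hz _
    · exact memLocalRing_zero hM
  have htrunc : ∀ z, IsClassElt z → IsIntegralElt M z →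
      MemLocalIdeal M (omega (ξ : H → ℂ) (ZStar.res H z) - omega (ξ : H → ℂ) (r z)) := by
    intro z hz hzi
    rw [← omega_sub, omega_eq_sum_classes ξ ((ZStar.isClassElt_res hz H).sub (hrc z hz))]
    refine memLocalIdeal_sum hM _ fun K _ => ?_
    simp only [MonoidAlgebra.coeff_sub, Finsupp.sub_apply, ZStar.coeff_res, r, coeff_ofFun]
    split_ifs with hK
    · rw [sub_self, zero_mul]; exact memLocalIdeal_zero hM
    · rw [sub_zero]
      exact memLocalIdeal_mul_left hM (hzi _) (centralChar_mem_of_notMem_centralizer hM (P.subgroupOf H) hQ ξ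
        (fun k => hK ((hmem _).1 k)))
  let e : C → H := fun c => ⟨c, hCH c.2⟩
  have hmulr : ∀ z w, IsClassElt z → IsClassElt w → IsIntegralElt M z → IsIntegralElt M w →
      ∀ h : H, MemLocalIdeal M ((r (z * w)).coeff h - (r z * r w).coeff h) := by
    intro z w hz hw hzi hwi h
    rw [ZStar.coeff_mul_eq (r z) (r w)]
    simp only [r, coeff_ofFun, Subgroup.coe_mul, Subgroup.coe_inv]
    by_cases hh : (h : G) ∈ C
    · have h1 := ZStar.res_mul_congr hM hP (H := C) hCmem hzi hwi (ZStar.IsClassElt.conjInv hz P)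
        (ZStar.IsClassElt.conjInv hw P) ⟨h, hh⟩
      rw [ZStar.coeff_res, ZStar.coeff_mul_eq (ZStar.res C z)] at h1
      simp only [ZStar.coeff_res, Subgroup.coe_mul, Subgroup.coe_inv] at h1
      rw [if_pos hh]
      have hs : ∑ x : H, (if (x : G) ∈ C then z.coeff (x : G) else 0) *
            (if (x : G)⁻¹ * (h : G) ∈ C then w.coeff ((x : G)⁻¹ * (h : G)) else 0)
          = ∑ c : C, z.coeff (c : G) * w.coeff ((c : G)⁻¹ * (h : G)) := by
        rw [← Finset.sum_subset (Finset.subset_univ (Finset.univ.image e))]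
        · rw [Finset.sum_image (fun a _ b _ hab => Subtype.ext (by simpa [e] using hab))]
          exact Finset.sum_congr rfl fun c _ => by
            simp only [e]
            rw [if_pos c.2, if_pos (C.mul_mem (C.inv_mem c.2) hh)]
        · intro x _ hx
          rw [if_neg (fun k => hx (Finset.mem_image.2 ⟨⟨x, k⟩, Finset.mem_univ _, rfl⟩)), zero_mul]
      rw [hs]
      exact h1
    · rw [if_neg hh, Finset.sum_eq_zero, sub_self]
      · exact memLocalIdeal_zero hM
      · intro x _
        by_cases hx : (x : G) ∈ C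
        · rw [if_pos hx, if_neg (fun k => hh (by simpa using C.mul_mem hx k)), mul_zero]
        · rw [if_neg hx, zero_mul]
  let L : MonoidAlgebra ℂ G → ℂ := fun z => omega (ξ : H → ℂ) (ZStar.res H z)
  have hLR : ∀ z, IsClassElt z → IsIntegralElt M z → MemLocalRing M (L z) := fun z hz hzi =>
    memLocalRing_omega hM ξ (ZStar.isClassElt_res hz H) (ZStar.isIntegralElt_res hzi H)
  have hLmul : ∀ z w, IsClassElt z → IsClassElt w → IsIntegralElt M z → IsIntegralElt M w →
      MemLocalIdeal M (L (z * w) - L z * L w) := by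
    intro z w hz hw hzi hwi
    have h1 := htrunc (z * w) (hz.mul hw) (hzi.mul hM hwi)
    have h2 := omega_congr hM ξ (hrc _ (hz.mul hw)) ((hrc z hz).mul (hrc w hw)) (hmulr z w hz hw hzi hwi)
    rw [omega_mul ξ.2 (hrc z hz)] at h2
    have h3 := htrunc z hz hzi
    have h4 := htrunc w hw hwi
    have e : L (z * w) - L z * L w = (L (z * w) - omega (ξ : H → ℂ) (r (z * w)))
        + (omega (ξ : H → ℂ) (r (z * w)) - omega (ξ : H → ℂ) (r z) * omega (ξ : H → ℂ) (r w))
        - ((L z - omega (ξ : H → ℂ) (r z)) * L w + omega (ξ : H → ℂ) (r z) * (L w - omega (ξ : H → ℂ) (r w))) := by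
      ring
    rw [e]
    exact memLocalIdeal_sub hM (memLocalIdeal_add hM h1 h2) (memLocalIdeal_add hM
      (memLocalIdeal_mul_right hM h3 (hLR w hw hwi))
      (memLocalIdeal_mul_left hM (memLocalRing_omega hM ξ (hrc z hz) (hri z hzi)) h4))
  have hLsmall : ∀ z, IsClassElt z → IsIntegralElt M z →
      (∀ χ : IrrCharacter G, MemLocalIdeal M (omega (χ : G → ℂ) z)) → MemLocalIdeal M (L z) := by
    intro z hz hzi hall
    obtain ⟨N, -, hN⟩ := ZStar.exists_pow_isSmall hM hz hall
    refine ZStar.memLocalIdeal_of_pow hM (hLR z hz hzi) N ?_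
    have h1 : MemLocalIdeal M (L (z ^ N)) :=
      ZStar.memLocalIdeal_omega hM ξ (ZStar.isClassElt_res (hz.pow N) H) fun c => by rw [ZStar.coeff_res]; exact hN _
    have hp : ∀ n, MemLocalIdeal M (L (z ^ n) - L z ^ n) := by
      intro n
      induction n with
      | zero =>
        simp only [L, pow_zero, ZStar.res_one, omega_one ξ.2, sub_self]
        exact memLocalIdeal_zero hM
      | succ n ih =>
        rw [pow_succ, pow_succ]
        have e : L (z ^ n * z) - L z ^ n * L z = (L (z ^ n * z) - L (z ^ n) * L z) + (L (z ^ n) - L z ^ n) * L z := by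
          ring
        rw [e]
        exact memLocalIdeal_add hM (hLmul _ _ (hz.pow n) hz (hzi.pow hM n) hzi)
          (memLocalIdeal_mul_right hM ih (hLR z hz hzi))
    simpa using memLocalIdeal_sub hM h1 (hp N)
  -- some block idempotent survives
  obtain ⟨B, hB, hns⟩ : ∃ B, IsPBlock M B ∧ ¬ MemLocalIdeal M (L (blockElt B)) := by
    by_contra hcon
    push Not at hcon
    refine not_memLocalIdeal_one hM ?_
    have hone : (1 : MonoidAlgebra ℂ G) = ∑ B ∈ blockFinset M G, blockElt B := by
      refine eq_of_omega_eq isClassElt_one (fun g h => ?_) fun φ => ?_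
      · simp only [MonoidAlgebra.coeff_sum, Finsupp.finsetSum_apply]
        exact Finset.sum_congr rfl fun B _ => isClassElt_blockElt B g h
      rw [omega_one φ.2, ZStar.omega_sum, Finset.sum_eq_single (blockOf M (φ : G → ℂ))]
      · rw [omega_blockElt, if_pos (mem_blockOf_self hM φ)]
      · intro B hB hne
        rw [omega_blockElt, if_neg fun h => hne (IsPBlock.eq_blockOf hM (mem_blockFinset.1 hB) h)]
      · exact fun h => absurd (mem_blockFinset.2 (isPBlock_blockOf M φ)) h
    have h1 : L 1 = 1 := by simp only [L, ZStar.res_one, omega_one ξ.2]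
    rw [← h1, hone]
    simp only [L, ZStar.res_sum, ZStar.omega_sum]
    exact memLocalIdeal_sum hM _ fun B hB => hcon B (mem_blockFinset.1 hB)
  refine ⟨B, hb, hB, fun η hη χ hχ g => ?_⟩
  set E := blockElt B with hE
  have hec : IsClassElt E := isClassElt_blockElt _
  have hei : IsIntegralElt M E := isIntegralElt_blockElt hM hB
  set z := classElt g with hz
  have hzc : IsClassElt z := isClassElt_classElt g
  have hzi : IsIntegralElt M z := isIntegralElt_classElt hM g
  set a := omega (χ : G → ℂ) z with ha
  have haR : MemLocalRing M a := memLocalRing_omega hM χ hzc hzi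
  have hdc : IsClassElt (z - a • (1 : MonoidAlgebra ℂ G)) := hzc.sub (isClassElt_one.smul _)
  have hdi : IsIntegralElt M (z - a • (1 : MonoidAlgebra ℂ G)) :=
    hzi.sub hM (IsIntegralElt.smul hM haR (isIntegralElt_one hM))
  have hsmall : ∀ φ : IrrCharacter G, MemLocalIdeal M (omega (φ : G → ℂ) (E * (z - a • 1))) := by
    intro φ
    rw [omega_mul φ.2 hec, hE, omega_blockElt]
    split_ifs with hφ
    · rw [one_mul, omega_sub, omega_smul, omega_one φ.2, mul_one, ha]
      exact ZStar.omega_sameBlock hM ((IsPBlock.mem_iff hM hB hφ).1 hχ) hzc hzi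
    · rw [zero_mul]; exact memLocalIdeal_zero hM
  have h1 := memLocalIdeal_sub hM (hLsmall _ (hec.mul hdc) (hei.mul hM hdi) hsmall) (hLmul E _ hec hdc hei hdi)
  rw [sub_sub_cancel] at h1
  have h2 := (memLocalIdeal_of_mul hM (hLR E hec hei) (hLR _ hdc hdi) h1).resolve_left hns
  simp only [L, ZStar.res_sub, ZStar.res_smul, ZStar.res_one, omega_sub, omega_smul, omega_one ξ.2, mul_one] at h2
  rw [ha, omega_classElt χ.2] at h2
  have h3 := ZStar.omega_sameBlock hM ((IsPBlock.mem_iff hM hb hη).1 hξ) (ZStar.isClassElt_res hzc H)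
    (ZStar.isIntegralElt_res hzi H)
  rw [← ZStar.omega_res_classElt]
  simpa using memLocalIdeal_add hM h3 h2

end Cfsg.Agent.S0919
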