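import Cfsg.Statements.S0922
import Cfsg.Agent.ZStar.Second
-- import your own Cfsg.Agent.* helpers here

set_option autoImplicit false
open Cfsg

namespace Cfsg.Agent.S0922

/-- Let H be a subgroup of the finite group G and let the block b of H induce the block B of G (relative to a maximal ideal M of the algebraic integers containing the prime p). Let h ∈ H be such that the centralizer in G of the p-part of h lies in H, and let χ be an irreducible character of G not in B. Then the sum over k ∈ H of (the idempotent coefficient of b at k) times χ (k * h) vanishes; that is, χ annihilates f_b h where f_b is the sum of the central idempotents of the members of b. -/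
theorem result {G : Type*} [Group G] [Finite G] (p : ℕ) [Fact p.Prime] (M : Ideal Cfsg.AlgInt) (hM : Cfsg.IsPModular p M) (H : Subgroup G) (b : Set (Cfsg.IrrCharacter H)) (B : Set (Cfsg.IrrCharacter G)) (hind : Cfsg.IsInducedBlock M H b B) (h : H) (hC : ∀ z : G, Cfsg.IsPPart p (h : G) z → Subgroup.centralizer ({z} : Set G) ≤ H) (χ : Cfsg.IrrCharacter G) (hχ : χ ∉ B) : ∑ᶠ k : H, Cfsg.blockCoeff b k * (χ : G → ℂ) ((k : G) * (h : G)) = 0 := by
  classical
  haveI := Fintype.ofFinite G
  haveI := Fintype.ofFinite H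
  obtain ⟨z, y, hzy, hcomm, hz, hy, -, -⟩ := CfsgLib.ZStar.exists_pPart hM.1 (h : G)
  rw [finsum_eq_sum_of_fintype]
  have hzH := hC z ⟨y, hzy, hcomm, hz, hy⟩
  obtain ⟨χ₀, hχ₀⟩ := CfsgLib.Blocks.IsPBlock.nonempty hM hind.2.1
  have hne : χ₀ ∉ Cfsg.blockOf M (χ : G → ℂ) := by
    intro h0
    have := CfsgLib.Blocks.IsPBlock.eq_of_mem hM hind.2.1 (CfsgLib.Blocks.isPBlock_blockOf M χ) hχ₀ h0
    exact hχ (this ▸ CfsgLib.Blocks.mem_blockOf_self hM χ)
  have key := CfsgLib.ZStar.second_main hM hz hzH (f := CfsgLib.Blocks.blockElt b)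
    (CfsgLib.Blocks.isIdempotentElem_blockElt b) (CfsgLib.Blocks.isClassElt_blockElt b)
    (CfsgLib.Blocks.isIntegralElt_blockElt hM hind.1) (CfsgLib.Blocks.isPBlock_blockOf M χ)
    (CfsgLib.Blocks.mem_blockOf_self hM χ) (fun ξ => by
      by_cases hξ : ξ ∈ b
      · right
        have h1 := CfsgLib.ZStar.omega_res_induced hM hind hξ hχ₀
          (CfsgLib.Blocks.isClassElt_blockElt (Cfsg.blockOf M (χ : G → ℂ)))
          (CfsgLib.Blocks.isIntegralElt_blockElt hM (CfsgLib.Blocks.isPBlock_blockOf M χ))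
        rwa [CfsgLib.Blocks.omega_blockElt, if_neg hne, sub_zero] at h1
      · left
        rw [CfsgLib.Blocks.omega_blockElt, if_neg hξ])
    hy hcomm
  rw [← key]
  refine Finset.sum_congr rfl fun k _ => ?_
  rw [CfsgLib.Blocks.coeff_blockElt, hzy]

end Cfsg.Agent.S0922
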