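import Cfsg.Statements.S0923
import Cfsg.Agent.ZStar.Second
-- import your own Cfsg.Agent.* helpers here

set_option autoImplicit false
open Cfsg

namespace Cfsg.Agent.S0923

/-- Brauer's Second Main Theorem, in terms of ordinary characters. Let x be a p-element of the finite group G with centralizer C, let χ lie in the block B of G and let b be a block of C that does not induce B (relative to a maximal ideal M of the algebraic integers containing p). Form the class function ϑ(c) = χ(x c) on C and its b-part (the sum over ψ ∈ b of the inner product of ϑ with ψ, times ψ). Then the b-part of ϑ vanishes at every p-regular element of C. (Equivalently, the generalized decomposition numbers of χ with respect to b are zero.) -/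
theorem result {G : Type*} [Group G] [Finite G] (p : ℕ) [Fact p.Prime] (M : Ideal Cfsg.AlgInt) (hM : Cfsg.IsPModular p M) (x : G) (hx : ∃ k : ℕ, orderOf x = p ^ k) (B : Set (Cfsg.IrrCharacter G)) (hB : Cfsg.IsPBlock M B) (χ : Cfsg.IrrCharacter G) (hχ : χ ∈ B) (b : Set (Cfsg.IrrCharacter (Subgroup.centralizer ({x} : Set G)))) (hb : Cfsg.IsPBlock M b) (hnot : ¬ Cfsg.IsInducedBlock M (Subgroup.centralizer ({x} : Set G)) b B) (y : Subgroup.centralizer ({x} : Set G)) (hy : ¬ p ∣ orderOf y) : Cfsg.blockPart b (fun c : Subgroup.centralizer ({x} : Set G) => (χ : G → ℂ) (x * (c : G))) y = 0 := by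
  classical
  haveI := Fintype.ofFinite G
  haveI := Fintype.ofFinite (Subgroup.centralizer ({x} : Set G))
  have hcomm : ∀ k : Subgroup.centralizer ({x} : Set G), (k : G) * x = x * k :=
    fun k => Subgroup.mem_centralizer_singleton_iff.1 k.2
  have hθ : Cfsg.IsClassFunction (Subgroup.centralizer ({x} : Set G))
      (fun c : Subgroup.centralizer ({x} : Set G) => (χ : G → ℂ) (x * (c : G))) := by
    intro g k
    show (χ : G → ℂ) (x * ((k : G) * g * (k : G)⁻¹)) = (χ : G → ℂ) (x * g)
    rw [← CfsgLib.CharBasics.isClassFunction (CfsgLib.CharBasics.isCharacter_of_irr χ.2) (x * g) k,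
      ← mul_assoc, ← mul_assoc, ← mul_assoc, hcomm k]
  rw [← CfsgLib.ZStar.sum_blockCoeff_mul b hθ y]
  have h := CfsgLib.ZStar.second_main hM hx (le_refl _) (f := CfsgLib.Blocks.blockElt b)
    (CfsgLib.Blocks.isIdempotentElem_blockElt b) (CfsgLib.Blocks.isClassElt_blockElt b)
    (CfsgLib.Blocks.isIntegralElt_blockElt hM hb) hB hχ (fun ξ => by
      by_cases hξ : ξ ∈ b
      · right
        by_contra hns
        exact hnot (CfsgLib.ZStar.isInducedBlock_of_not_small hM (CfsgLib.ZStar.isPGroup_zpowers hM.1 hx)
          (CfsgLib.ZStar.mem_centralizer_zpowers x) hb hB hξ hns)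
      · left
        rw [CfsgLib.Blocks.omega_blockElt, if_neg hξ])
    (y := (y : G)) (by rw [Subgroup.orderOf_coe]; exact hy) (hcomm y).symm
  rw [← h]
  refine Finset.sum_congr rfl fun k _ => ?_
  rw [CfsgLib.Blocks.coeff_blockElt, Subgroup.coe_mul, ← mul_assoc, ← mul_assoc, hcomm k]

end Cfsg.Agent.S0923
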