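import Cfsg.Statements.S0926
import Cfsg.Agent.Blocks.Section

set_option autoImplicit false
open Cfsg

namespace Cfsg.Agent.S0926

/-- Let B be a block of the finite group G with defect group D (relative to a maximal ideal M of the algebraic integers containing p), let χ ∈ B have height zero, and let x be a p-element. Then some conjugate of x lies in D if and only if χ does not vanish on the whole p-section of x (the elements whose p-part is conjugate to x). -/
theorem result {G : Type*} [Group G] [Finite G] (p : ℕ) [Fact p.Prime] (M : Ideal Cfsg.AlgInt) (hM : Cfsg.IsPModular p M) (B : Set (Cfsg.IrrCharacter G)) (hB : Cfsg.IsPBlock M B) (D : Subgroup G) (hD : Cfsg.IsDefectGroup p M B D) (χ : Cfsg.IrrCharacter G) (hχ : χ ∈ B) (h0 : Cfsg.blockHeight p B (χ : G → ℂ) = 0) (x : G) (hx : ∃ k : ℕ, orderOf x = p ^ k) : (∃ g : G, g * x * g⁻¹ ∈ D) ↔ ∃ u : G, (∃ z : G, Cfsg.IsPPart p u z ∧ IsConj x z) ∧ (χ : G → ℂ) u ≠ 0 := by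
  haveI := Fintype.ofFinite G
  obtain ⟨φ, hφ, hminφ, hs⟩ := CfsgLib.Blocks.exists_min_degExp hM hB
  rw [CfsgLib.Blocks.blockHeight_eq hs] at h0
  have hmin : ∀ ρ ∈ B, CfsgLib.Blocks.degExp p χ ≤ CfsgLib.Blocks.degExp p ρ := fun ρ hρ => by
    have := hminφ ρ hρ
    have := hminφ χ hχ
    omega
  constructor
  · rintro ⟨g, hg⟩
    obtain ⟨u, hu, hne⟩ := CfsgLib.Blocks.exists_apply_ne_zero_of_mem hM hB hχ hmin hD hg
    exact ⟨u, ⟨_, hu, isConj_iff.2 ⟨g, rfl⟩⟩, hne⟩
  · rintro ⟨u, ⟨z, huz, hxz⟩, hne⟩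
    obtain ⟨c, rfl⟩ := isConj_iff.1 hxz
    obtain ⟨e, he⟩ := (CfsgLib.Blocks.exists_defectGroup_of_apply_ne_zero hM hB hχ huz hne).2 D hD
    refine ⟨e * c, ?_⟩
    simpa [mul_assoc] using he

end Cfsg.Agent.S0926
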