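import Cfsg.Statements.S0928
import Cfsg.Agent.Blocks.CentralSupport
import Cfsg.Agent.Blocks.Glauberman


set_option autoImplicit false
open Cfsg

namespace Cfsg.Agent.S0928

open CfsgLib.Blocks CfsgLib.CharBasics

/-- Let χ be an irreducible character of the finite group G and p a prime. If χ g = 0 for every element g of order p, then the exponent of p in the degree χ(1) equals the exponent of p in the order of G (χ has p-defect zero). -/
theorem result {G : Type*} [Group G] [Finite G] (p : ℕ) [Fact p.Prime] (χ : Cfsg.IrrCharacter G) (hvan : ∀ g : G, orderOf g = p → (χ : G → ℂ) g = 0) : (Cfsg.charDegree (χ : G → ℂ)).factorization p = (Nat.card G).factorization p := by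
  classical
  haveI := Fintype.ofFinite G
  haveI : Fintype (ConjClasses G) := Fintype.ofFinite _
  have hp : p.Prime := Fact.out
  obtain ⟨M, hM⟩ := exists_modular hp
  by_contra hdeg
  have hlt : degExp p χ < (Nat.card G).factorization p :=
    lt_of_le_of_ne (degExp_le (p := p) hp χ) hdeg
  let f : G → ℂ := fun x => if x ^ p = 1 then 1 else 0
  let z : MonoidAlgebra ℂ G := ofFun f
  have hzc : IsClassElt z := by
    intro x h
    simp only [z, f, coeff_ofFun, conj_pow]
    refine if_congr ⟨fun e => ?_, fun e => by rw [e]; group⟩ rfl rfl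
    have e' := congrArg (fun t => h⁻¹ * t * h) e
    simpa [mul_assoc] using e'
  have hfR : ∀ x, MemLocalRing M (f x) := fun x => by
    simp only [f]; split_ifs
    · exact memLocalRing_one hM
    · exact memLocalRing_zero hM
  have hzi : IsIntegralElt M z := fun x => by simp only [z, coeff_ofFun]; exact hfR x
  have hω : omega (χ : G → ℂ) z = 1 := by
    rw [omega, Finset.sum_eq_single (1 : G)]
    · simp only [z, f, coeff_ofFun, one_pow, if_true, one_mul]
      exact div_self (apply_one_ne_zero χ.2)
    · intro x _ hx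
      simp only [z, f, coeff_ofFun]
      split_ifs with hxp
      · rw [hvan x (orderOf_eq_prime hxp hx), mul_zero]
      · rw [zero_mul]
    · simp
  -- the square is supported modulo `M` on classes of defect zero
  have hsupp : ∀ y : G, p ∣ Nat.card (Subgroup.centralizer ({y} : Set G)) → MemLocalIdeal M ((z * z).coeff y) := by
    intro y hy
    obtain ⟨c, hc⟩ := exists_prime_orderOf_dvd_card' p hy
    set u : G := (c : G) with hu
    have huo : orderOf u = p := by rw [hu, Subgroup.orderOf_coe, hc]
    have huy : Commute u y := Subgroup.mem_centralizer_singleton_iff.1 c.2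
    have hu1 : u ^ p = 1 := huo ▸ pow_orderOf_eq_one u
    set Q := Subgroup.zpowers u with hQ
    have hQp : IsPGroup p Q := IsPGroup.of_card (n := 1) (by rw [pow_one, Nat.card_zpowers, huo])
    rw [coeff_mul_eq]
    simp only [z, coeff_ofFun]
    let F : G → ℂ := fun h => f h * f (h⁻¹ * y)
    have hFR : ∀ h, MemLocalRing M (F h) := fun h => memLocalRing_mul hM (hfR _) (hfR _)
    letI : MulAction Q G := MulAction.compHom G ((MulAut.conj).comp Q.subtype)
    have hsm : ∀ (v : Q) (h : G), v • h = (v : G) * h * (v : G)⁻¹ := fun v h => rfl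
    have hvy : ∀ v : Q, Commute (v : G) y := fun v => by
      obtain ⟨i, hi⟩ := Subgroup.mem_zpowers_iff.1 v.2
      rw [← hi]; exact huy.zpow_left i
    have hFinv : ∀ (v : Q) (h : G), F (v • h) = F h := by
      intro v h
      have e2 : ((v : G) * h * (v : G)⁻¹)⁻¹ * y = (v : G) * (h⁻¹ * y) * (v : G)⁻¹ := by
        rw [mul_inv_rev, mul_inv_rev, inv_inv, mul_assoc, mul_assoc, (hvy v).inv_left.eq]
        group
      simp only [F, f, hsm, e2, conj_pow]
      congr 1 <;>
      · refine if_congr ⟨fun e => ?_, fun e => by rw [e]; group⟩ rfl rfl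
        have e' := congrArg (fun t => (v : G)⁻¹ * t * v) e
        simpa [mul_assoc] using e'
    have h1 := sum_sub_fixed_mem hM hQp F hFinv hFR
    suffices h2 : MemLocalIdeal M (∑ h : G, if (∀ v : Q, v • h = h) then F h else 0) by
      have h3 := memLocalIdeal_add hM h1 h2
      rwa [sub_add_cancel] at h3
    set C := {h : G // ∀ v : Q, v • h = h}
    have hcomm : ∀ (h : C) (v : Q), Commute h.1 (v : G) := fun h v => by
      have e := h.2 v
      rw [hsm] at e
      exact (mul_inv_eq_iff_eq_mul.1 e).symm
    rw [← Finset.sum_filter, Finset.sum_subtype (p := fun h : G => ∀ v : Q, v • h = h)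
      (Finset.univ.filter fun h : G => ∀ v : Q, v • h = h) (by simp) F]
    letI : MulAction Q C :=
      { smul := fun v h => ⟨(v : G) * h.1, fun w => by
          have e := h.2 w
          rw [hsm] at e ⊢
          have hvw : Commute (w : G) (v : G) := by
            obtain ⟨i, hi⟩ := Subgroup.mem_zpowers_iff.1 w.2
            obtain ⟨j, hj⟩ := Subgroup.mem_zpowers_iff.1 v.2
            rw [← hi, ← hj]; exact Commute.zpow_zpow_self u i j
          rw [← mul_assoc, hvw.eq, mul_assoc, mul_assoc, ← mul_assoc (w : G), e]⟩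
        one_smul := fun h => Subtype.ext (one_mul _)
        mul_smul := fun v w h => Subtype.ext (mul_assoc _ _ _) }
    have hsm2 : ∀ (v : Q) (h : C), (v • h).1 = (v : G) * h.1 := fun v h => rfl
    have hvp : ∀ v : Q, (v : G) ^ p = 1 := fun v => by
      obtain ⟨i, hi⟩ := Subgroup.mem_zpowers_iff.1 v.2
      rw [← hi, ← zpow_natCast, ← zpow_mul, mul_comm, zpow_mul, zpow_natCast, hu1, one_zpow]
    have h2 := sum_sub_fixed_mem hM hQp (fun h : C => F h.1) (fun v h => by
      have e1 : ((v : G) * h.1) ^ p = h.1 ^ p := by rw [(hcomm h v).symm.mul_pow, hvp, one_mul]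
      have hc2 : Commute (h.1⁻¹ * y) (v : G)⁻¹ := ((hcomm h v).inv_left.mul_left (hvy v).symm).inv_right
      have e2 : (((v : G) * h.1)⁻¹ * y) ^ p = (h.1⁻¹ * y) ^ p := by
        rw [mul_inv_rev, show h.1⁻¹ * (v : G)⁻¹ * y = (h.1⁻¹ * y) * (v : G)⁻¹ by
          rw [mul_assoc, mul_assoc, (hvy v).inv_left.eq], hc2.mul_pow, inv_pow, hvp, inv_one, mul_one]
      simp only [F, f, hsm2, e1, e2]) (fun h => hFR _)
    rw [Finset.sum_eq_zero (f := fun h : C => if (∀ v : Q, v • h = h) then F h.1 else 0), sub_zero] at h2
    · exact h2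
    · intro h _
      rw [if_neg]
      intro hfix
      have e := congrArg Subtype.val (hfix ⟨u, Subgroup.mem_zpowers u⟩)
      rw [hsm2] at e
      exact hp.one_lt.ne' (huo ▸ orderOf_eq_one_iff.2 (mul_eq_right.1 e))
  have hmem : MemLocalIdeal M (omega (χ : G → ℂ) (z * z)) := by
    rw [omega_eq_sum_classes χ (hzc.mul hzc)]
    refine memLocalIdeal_sum hM _ fun C _ => ?_
    by_cases h : MemLocalIdeal M (centralChar (χ : G → ℂ) C.out)
    · exact memLocalIdeal_mul_left hM ((hzi.mul hM hzi) _) h
    · refine memLocalIdeal_mul_right hM (hsupp _ ?_) (memLocalRing_centralChar hM χ _)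
      refine (hp.dvd_iff_one_le_factorization Nat.card_pos.ne').2 ?_
      have := le_centExp hM χ h
      rw [centExp] at this
      omega
  rw [omega_mul χ.2 hzc, hω, one_mul] at hmem
  exact not_memLocalIdeal_one hM hmem

end Cfsg.Agent.S0928
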