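import Cfsg.Statements.S0930
import Cfsg.Agent.Blocks.CentralSupport


set_option autoImplicit false
open Cfsg

namespace Cfsg.Agent.S0930

open CfsgLib.Blocks CfsgLib.CharBasics

/-- Let H be a subgroup of the finite group G and fix a maximal ideal M of the algebraic integers containing the prime p. If the block b of H with defect group D induces the block B of G with defect group P, then every element of the centre of P is conjugate in G to an element of the centre of D. -/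
theorem result {G : Type*} [Group G] [Finite G] (p : ℕ) [Fact p.Prime] (M : Ideal Cfsg.AlgInt) (hM : Cfsg.IsPModular p M) (H : Subgroup G) (b : Set (Cfsg.IrrCharacter H)) (B : Set (Cfsg.IrrCharacter G)) (hind : Cfsg.IsInducedBlock M H b B) (D : Subgroup H) (hD : Cfsg.IsDefectGroup p M b D) (P : Subgroup G) (hP : Cfsg.IsDefectGroup p M B P) (x : G) (hx : x ∈ P) (hxc : ∀ w ∈ P, x * w = w * x) : ∃ g : G, g * x * g⁻¹ ∈ D.map H.subtype ∧ ∀ w ∈ D.map H.subtype, (g * x * g⁻¹) * w = w * (g * x * g⁻¹) := by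
  classical
  haveI := Fintype.ofFinite G
  haveI := Fintype.ofFinite H
  haveI : Fintype (ConjClasses H) := Fintype.ofFinite _
  obtain ⟨χ, hχ⟩ := IsPBlock.nonempty hM hind.2.1
  obtain ⟨ξ, hξ⟩ := IsPBlock.nonempty hM hind.1
  obtain ⟨y, hy, S, rfl⟩ := hP
  obtain ⟨x₀, hx₀, rfl⟩ := hx
  have hyreg : ¬ p ∣ orderOf y := fun h =>
    hy.2.1 (by rw [blockCoeff_eq_zero hM hind.2.1 h]; exact memLocalIdeal_zero hM)
  have hxy : Commute (x₀ : G) y := Subgroup.mem_centralizer_singleton_iff.1 x₀.2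
  have hxo : ∃ k : ℕ, orderOf (x₀ : G) = p ^ k := by
    obtain ⟨k, hk⟩ := IsPGroup.iff_orderOf.1 S.2 ⟨x₀, hx₀⟩
    exact ⟨k, by simpa [Subgroup.orderOf_mk] using hk⟩
  have hpp : IsPPart p ((x₀ : G) * y) (x₀ : G) := ⟨y, rfl, hxy, hxo, hyreg⟩
  have hunit := centralChar_mul_center hM hind.2.1 hy S hx₀
    (fun w hw => Subtype.ext (hxc (w : G) ⟨w, hw, rfl⟩)) hχ
  have h1 := CfsgLib.ZStar.omega_res_induced hM hind hξ hχ (isClassElt_classElt ((x₀ : G) * y))
    (isIntegralElt_classElt hM _)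
  rw [omega_classElt χ.2, omega_eq_sum_classes ξ (CfsgLib.ZStar.isClassElt_res (isClassElt_classElt _) H)] at h1
  obtain ⟨K, hK1, hK2⟩ : ∃ K : ConjClasses H, IsConj ((x₀ : G) * y) ((K.out : H) : G) ∧
      ¬ MemLocalIdeal M (centralChar (ξ : H → ℂ) K.out) := by
    by_contra hcon
    push Not at hcon
    refine hunit ?_
    have h2 := memLocalIdeal_sub hM (memLocalIdeal_sum hM Finset.univ (f := fun K : ConjClasses H =>
      (CfsgLib.ZStar.res H (classElt ((x₀ : G) * y))).coeff K.out * centralChar (ξ : H → ℂ) K.out) fun K _ => ?_) h1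
    · rwa [sub_sub_cancel] at h2
    rw [CfsgLib.ZStar.coeff_res, coeff_classElt]
    split_ifs with hc
    · rw [one_mul]; exact hcon K hc
    · rw [zero_mul]; exact memLocalIdeal_zero hM
  obtain ⟨h', hh', -, hpart⟩ := exists_conj_ppart_center hM hind.1 hD hξ hK2
  have hconj : IsConj ((x₀ : G) * y) (h' : G) := hK1.trans (by
    obtain ⟨c, hc⟩ := isConj_iff.1 hh'
    exact isConj_iff.2 ⟨(c : G), by rw [← hc]; simp⟩)
  obtain ⟨e, he⟩ := isConj_iff.1 hconj
  have hpp' : IsPPart p (h' : G) (e * (x₀ : G) * e⁻¹) := he ▸ isPPart_conj hpp e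
  obtain ⟨-, -, -, -, hmem⟩ := eq_one_of_isPPart hpp' hM.1
  have hzH : e * (x₀ : G) * e⁻¹ ∈ H := (Subgroup.zpowers_le.2 h'.2) hmem
  have hyH : e * y * e⁻¹ ∈ H := by
    have : e * y * e⁻¹ = (e * (x₀ : G) * e⁻¹)⁻¹ * (h' : G) := by rw [← he]; group
    rw [this]
    exact H.mul_mem (H.inv_mem hzH) h'.2
  have hinj := (MulAut.conj e).injective
  have hord : ∀ u : G, orderOf (e * u * e⁻¹) = orderOf u := fun u =>
    orderOf_injective (MulAut.conj e).toMonoidHom hinj u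
  obtain ⟨hzD, hzc⟩ := hpart ⟨_, hzH⟩ ⟨⟨_, hyH⟩, Subtype.ext (by
      show e * (x₀ : G) * e⁻¹ * (e * y * e⁻¹) = (h' : G)
      rw [← he]; group), Subtype.ext (by
      show e * (x₀ : G) * e⁻¹ * (e * y * e⁻¹) = e * y * e⁻¹ * (e * (x₀ : G) * e⁻¹)
      calc _ = e * ((x₀ : G) * y) * e⁻¹ := by group
        _ = e * (y * (x₀ : G)) * e⁻¹ := by rw [hxy.eq]
        _ = _ := by group), by
      obtain ⟨k, hk⟩ := hxo
      exact ⟨k, by rw [Subgroup.orderOf_mk, hord, hk]⟩, by rwa [Subgroup.orderOf_mk, hord]⟩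
  refine ⟨e, ⟨⟨_, hzH⟩, hzD, rfl⟩, ?_⟩
  rintro _ ⟨w, hw, rfl⟩
  exact congrArg Subtype.val (hzc w hw)

end Cfsg.Agent.S0930
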