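import Cfsg.Statements.S0931
import Cfsg.Agent.Blocks.CentralSupport
import Cfsg.Agent.S0930
import Cfsg.Agent.S0917


set_option autoImplicit false
open Cfsg

namespace Cfsg.Agent.S0931

open CfsgLib.Blocks CfsgLib.CharBasics

/-- Let H be a subgroup of the finite group G and fix a maximal ideal M of the algebraic integers containing the prime p. If the block b of H induces the block B of G, then b has defect 0 if and only if B has defect 0. -/
theorem result {G : Type*} [Group G] [Finite G] (p : ℕ) [Fact p.Prime] (M : Ideal Cfsg.AlgInt) (hM : Cfsg.IsPModular p M) (H : Subgroup G) (b : Set (Cfsg.IrrCharacter H)) (B : Set (Cfsg.IrrCharacter G)) (hind : Cfsg.IsInducedBlock M H b B) : Cfsg.blockDefect p b = 0 ↔ Cfsg.blockDefect p B = 0 := by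
  classical
  haveI := Fintype.ofFinite G
  haveI := Fintype.ofFinite H
  have hp : p.Prime := Fact.out
  obtain ⟨gb, hgb⟩ := exists_defectClass hM hind.1
  obtain ⟨R⟩ : Nonempty (Sylow p (Subgroup.centralizer ({gb} : Set H))) := inferInstance
  have hD : IsDefectGroup p M b ((R : Subgroup _).map (Subgroup.centralizer ({gb} : Set H)).subtype) := ⟨gb, hgb, R, rfl⟩
  have hDcard := card_defectGroup hM hind.1 hD
  generalize (R : Subgroup _).map (Subgroup.centralizer ({gb} : Set H)).subtype = D at hD hDcard
  constructor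
  · intro h0
    rw [h0, pow_zero] at hDcard
    obtain ⟨gB, hgB⟩ := exists_defectClass hM hind.2.1
    obtain ⟨S⟩ : Nonempty (Sylow p (Subgroup.centralizer ({gB} : Set G))) := inferInstance
    have hP : IsDefectGroup p M B ((S : Subgroup _).map (Subgroup.centralizer ({gB} : Set G)).subtype) := ⟨gB, hgB, S, rfl⟩
    have hPcard := card_defectGroup hM hind.2.1 hP
    have hPp : IsPGroup p ((S : Subgroup _).map (Subgroup.centralizer ({gB} : Set G)).subtype) := S.2.map _
    generalize (S : Subgroup _).map (Subgroup.centralizer ({gB} : Set G)).subtype = P at hP hPcard hPp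
    by_contra hne
    have hnt : Nontrivial P := Finite.one_lt_card_iff_nontrivial.1 (hPcard ▸ Nat.one_lt_pow hne hp.one_lt)
    obtain ⟨⟨z, hz⟩, hz1⟩ := (nontrivial_iff_exists_ne 1).1 hPp.center_nontrivial
    obtain ⟨e, he, -⟩ := Cfsg.Agent.S0930.result p M hM H b B hind D hD P hP (z : G) z.2 (fun w hw =>
      (congrArg Subtype.val (Subgroup.mem_center_iff.1 hz ⟨w, hw⟩)).symm)
    obtain ⟨d, hd, hde⟩ := he
    rw [Subgroup.card_eq_one.1 hDcard] at hd
    refine hz1 (Subtype.ext (Subtype.ext ?_))
    have : e * (z : G) * e⁻¹ = 1 := by rw [← hde, Subgroup.mem_bot.1 hd]; rfl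
    simpa using this
  · intro h0
    obtain ⟨E, hE, hle⟩ := Cfsg.Agent.S0917.result p M hM H b hind.1 B hind.2.1 hind D hD
    have h1 := Subgroup.card_dvd_of_le hle
    rw [card_defectGroup hM hind.2.1 hE, h0, pow_zero, Subgroup.card_map_of_injective H.subtype_injective,
      hDcard, Nat.dvd_one] at h1
    exact (Nat.pow_eq_one.1 h1).resolve_left hp.ne_one

end Cfsg.Agent.S0931
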