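import Cfsg.Statements.S0933
import Cfsg.Agent.Blocks.DefectGroup
import Cfsg.Agent.S0932

set_option autoImplicit false
open Cfsg CfsgLib.CharBasics CfsgLib.Blocks
open scoped ComplexConjugate

namespace Cfsg.Agent.S0933

/-- Let H be a subgroup of the finite group G and ξ an irreducible character of H such that the induced function ξ^G is an irreducible character of G. Then, relative to any maximal ideal M of the algebraic integers containing the prime p, the block of ξ induces the block of ξ^G. -/
theorem result {G : Type*} [Group G] [Fintype G] (p : ℕ) [Fact p.Prime] (M : Ideal Cfsg.AlgInt) (hM : Cfsg.IsPModular p M) (H : Subgroup G) (ξ : Cfsg.IrrCharacter H) (hind : Cfsg.IsIrrCharacter G (Cfsg.indFun H (ξ : H → ℂ))) : Cfsg.IsInducedBlock M H (Cfsg.blockOf M (ξ : H → ℂ)) (Cfsg.blockOf M (Cfsg.indFun H (ξ : H → ℂ))) := by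
  classical
  haveI := Fintype.ofFinite H
  refine ⟨isPBlock_blockOf M ξ, isPBlock_blockOf M ⟨_, hind⟩, fun η hη χ hχ g => ?_⟩
  let z : MonoidAlgebra ℂ H := ofFun fun h : H => if IsConj g (h : G) then 1 else 0
  have hz : IsClassElt z := fun h k => by
    simp only [z, coeff_ofFun]
    have e : IsConj (h : G) (((k * h * k⁻¹ : H)) : G) := isConj_iff.2 ⟨k, by simp⟩
    exact if_congr ⟨fun h1 => h1.trans e.symm, fun h1 => h1.trans e⟩ rfl rfl
  have hzi : IsIntegralElt M z := fun h => by
    simp only [z, coeff_ofFun]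
    split_ifs
    · exact memLocalRing_one hM
    · exact memLocalRing_zero hM
  have he : ∀ φ : IrrCharacter H, inducedCentralChar H (φ : H → ℂ) g = omega (φ : H → ℂ) z := by
    intro φ
    rw [inducedCentralChar, omega, finsum_mem_eq_toFinset_sum, Finset.sum_div]
    simp only [z, coeff_ofFun, ite_mul, one_mul, zero_mul, ite_div, zero_div, ← Finset.sum_filter]
    exact Finset.sum_congr (by ext h; simp) fun _ _ => rfl
  have h1 := omega_sub_mem_of_sameBlock hM (sameBlock_symm hη) hz hzi
  have h2 : MemLocalIdeal M (centralChar (indFun H (ξ : H → ℂ)) g - centralChar (χ : G → ℂ) g) := hχ g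
  rw [← Cfsg.Agent.S0932.result H (ξ : H → ℂ) (isCharacter_of_irr ξ.2) g] at h2
  have h3 := memLocalIdeal_add hM h1 h2
  rw [he ξ] at h3
  rw [he η]
  simpa using h3

end Cfsg.Agent.S0933
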