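import Cfsg.Statements.S0934
import Cfsg.Agent.ZStar.Second
import Cfsg.Agent.Blocks.DefectGroup


set_option autoImplicit false
open Cfsg

namespace Cfsg.Agent.S0934

open CfsgLib.Blocks CfsgLib.CharBasics

/-- Let H be a subgroup of the finite group G and fix a maximal ideal M of the algebraic integers containing the prime p. If the block b of H induces the block B of G and ξ ∈ b, then there is χ ∈ B whose restriction to H has nonzero inner product with ξ. -/
theorem result {G : Type*} [Group G] [Fintype G] (p : ℕ) [Fact p.Prime] (M : Ideal Cfsg.AlgInt) (hM : Cfsg.IsPModular p M) (H : Subgroup G) [Fintype H] (b : Set (Cfsg.IrrCharacter H)) (B : Set (Cfsg.IrrCharacter G)) (hind : Cfsg.IsInducedBlock M H b B) (ξ : Cfsg.IrrCharacter H) (hξ : ξ ∈ b) : ∃ χ ∈ B, Cfsg.classInner (fun h : H => (χ : G → ℂ) h) (ξ : H → ℂ) ≠ 0 := by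
  classical
  haveI : Fintype (IrrCharacter G) := @Fintype.ofFinite _ finite_irrCharacter
  by_contra hcon
  push Not at hcon
  obtain ⟨χ, hχ⟩ := IsPBlock.nonempty hM hind.2.1
  have h1 := CfsgLib.ZStar.omega_res_induced hM hind hξ hχ (isClassElt_blockElt B) (isIntegralElt_blockElt hM hind.2.1)
  rw [omega_blockElt, if_pos hχ, CfsgLib.ZStar.omega_res] at h1
  have h0 : ∑ h : H, (blockElt B).coeff (h : G) * (ξ : H → ℂ) h = 0 := by
    simp only [coeff_blockElt, blockCoeff_eq, mul_assoc, Finset.sum_mul, ← Finset.mul_sum]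
    rw [Finset.sum_comm, Finset.sum_eq_zero, mul_zero]
    intro φ _
    by_cases hφ : φ ∈ B
    · simp only [if_pos hφ, mul_assoc, ← Finset.mul_sum]
      have h := hcon φ hφ
      rw [classInner_eq, mul_eq_zero, inv_eq_zero] at h
      have h2 := h.resolve_left (Nat.cast_ne_zero.2 Nat.card_pos.ne')
      have h3 := congrArg (starRingEnd ℂ) h2
      simp only [map_sum, map_mul, Complex.conj_conj, map_zero] at h3
      exact mul_eq_zero_of_right _ h3
    · simp only [if_neg hφ, zero_mul, Finset.sum_const_zero]
  rw [h0, zero_div, zero_sub] at h1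
  exact not_memLocalIdeal_one hM (by simpa using memLocalIdeal_neg h1)

end Cfsg.Agent.S0934
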