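import Cfsg.Statements.S0935
import Cfsg.Agent.Blocks.HeightZero
import Cfsg.Agent.Blocks.InducedDefect
import Cfsg.Agent.ZStar.Second
-- import your own Cfsg.Agent.* helpers here

set_option autoImplicit false
open Cfsg

namespace Cfsg.Agent.S0935

open CfsgLib.Blocks CfsgLib.CharBasics CfsgLib.ZStar

/-- Let H be a subgroup of the finite group G and χ an irreducible character of G whose restriction to H is irreducible; fix a maximal ideal M of the algebraic integers containing the prime p and suppose χ and its restriction have height zero in their blocks B and b. If e is a block of H whose induced block is defined, then e induces B if and only if e = b. -/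
theorem result {G : Type*} [Group G] [Finite G] (p : ℕ) [Fact p.Prime] (M : Ideal Cfsg.AlgInt) (hM : Cfsg.IsPModular p M) (H : Subgroup G) (χ : Cfsg.IrrCharacter G) (hres : Cfsg.IsIrrCharacter H (fun h : H => (χ : G → ℂ) h)) (hχ0 : Cfsg.blockHeight p (Cfsg.blockOf M (χ : G → ℂ)) (χ : G → ℂ) = 0) (hψ0 : Cfsg.blockHeight p (Cfsg.blockOf M (fun h : H => (χ : G → ℂ) h)) (fun h : H => (χ : G → ℂ) h) = 0) (e : Set (Cfsg.IrrCharacter H)) (he : Cfsg.InducedBlockDefined M H e) : Cfsg.IsInducedBlock M H e (Cfsg.blockOf M (χ : G → ℂ)) ↔ e = Cfsg.blockOf M (fun h : H => (χ : G → ℂ) h) := by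
  classical
  haveI := Fintype.ofFinite G
  haveI := Fintype.ofFinite H
  set ψ : Cfsg.IrrCharacter H := ⟨_, hres⟩ with hψdef
  set B := Cfsg.blockOf M (χ : G → ℂ) with hBdef
  set b := Cfsg.blockOf M (fun h : H => (χ : G → ℂ) h) with hbdef
  have hB : Cfsg.IsPBlock M B := isPBlock_blockOf M χ
  have hb : Cfsg.IsPBlock M b := isPBlock_blockOf M ψ
  have hχB : χ ∈ B := mem_blockOf_self hM χ
  have hψb : ψ ∈ b := mem_blockOf_self hM ψ
  obtain ⟨χm, hχm, hmin, hsB⟩ := exists_min_degExp hM hB
  obtain ⟨ψm, hψm, hmin', hsb⟩ := exists_min_degExp hM hb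
  rw [blockHeight_eq hsB] at hχ0
  have hψ0' : Cfsg.blockHeight p b (ψ : H → ℂ) = 0 := hψ0
  rw [blockHeight_eq hsb] at hψ0'
  have huχ : ¬ Cfsg.MemLocalIdeal M
      (omega (χ : G → ℂ) (regElt p (χ : G → ℂ))) := fun h =>
    regInt_self_not_dvd hM hB hχB (fun ρ hρ => by have := hmin ρ hρ; omega)
      ((omega_regElt_mem_iff hM χ χ).1 h)
  have huψ : ¬ Cfsg.MemLocalIdeal M
      (omega (ψ : H → ℂ) (regElt p (ψ : H → ℂ))) := fun h =>
    regInt_self_not_dvd hM hb hψb (fun ρ hρ => by have := hmin' ρ hρ; omega)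
      ((omega_regElt_mem_iff hM ψ ψ).1 h)
  have hreg : res H (regElt p (χ : G → ℂ)) = regElt p (ψ : H → ℂ) := by
    ext h
    rw [coeff_res, regElt, regElt, coeff_ofFun,
      coeff_ofFun, Subgroup.orderOf_coe]
  have hcong : ∀ (B₀ : Set (Cfsg.IrrCharacter G)), Cfsg.IsInducedBlock M H e B₀ → ∀ θ ∈ e, ∀ η ∈ B₀,
      Cfsg.MemLocalIdeal M (omega (θ : H → ℂ) (regElt p (ψ : H → ℂ)) -
        omega (η : G → ℂ) (regElt p (χ : G → ℂ))) := by
    intro B₀ hind θ hθ η hη
    rw [← hreg]
    exact omega_res_induced hM hind hθ hη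
      (isClassElt_regElt (isCharacter_of_irr χ.2))
      (isIntegralElt_regElt hM (isCharacter_of_irr χ.2))
  constructor
  · intro hind
    obtain ⟨θ, hθ⟩ := IsPBlock.nonempty hM hind.1
    have hθb : θ ∈ b := by
      by_contra hn
      have h0 : Cfsg.MemLocalIdeal M
          (omega (θ : H → ℂ) (regElt p (ψ : H → ℂ))) := by
        rw [omega_regElt_mem_iff hM, regInt_comm hM.1,
          regInt_eq_zero_of_notMem hM hb hψb hn]
        exact dvd_zero _
      have := memLocalIdeal_sub hM h0 (hcong B hind θ hθ χ hχB)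
      rw [sub_sub_cancel] at this
      exact huχ this
    exact IsPBlock.eq_of_mem hM hind.1 hb hθ hθb
  · rintro rfl
    obtain ⟨B₀, hind⟩ := he
    obtain ⟨η, hη⟩ := IsPBlock.nonempty hM hind.2.1
    have hηB : η ∈ B := by
      by_contra hn
      have h0 : Cfsg.MemLocalIdeal M
          (omega (η : G → ℂ) (regElt p (χ : G → ℂ))) := by
        rw [omega_regElt_mem_iff hM, regInt_comm hM.1,
          regInt_eq_zero_of_notMem hM hB hχB hn]
        exact dvd_zero _
      have := memLocalIdeal_add hM (hcong B₀ hind ψ hψb η hη) h0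
      rw [sub_add_cancel] at this
      exact huψ this
    rwa [← IsPBlock.eq_of_mem hM hind.2.1 hB hη hηB]

end Cfsg.Agent.S0935
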