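import Cfsg.Statements.S0937
import Cfsg.Agent.Blocks.HeightZero
import Cfsg.Agent.ZStar.Congr


set_option autoImplicit false
open Cfsg

namespace Cfsg.Agent.S0937

open CfsgLib.Blocks CfsgLib.CharBasics CfsgLib.ZStar

/-- Let H be a subgroup of the finite group G and fix a maximal ideal M of the algebraic integers containing the prime p. If the block b of H induces the block B of G and χ ∈ B has height zero, then there is ξ ∈ b of height zero whose multiplicity in the restriction of χ to H is a natural number not divisible by p. -/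
theorem result {G : Type*} [Group G] [Fintype G] (p : ℕ) [Fact p.Prime] (M : Ideal Cfsg.AlgInt) (hM : Cfsg.IsPModular p M) (H : Subgroup G) [Fintype H] (b : Set (Cfsg.IrrCharacter H)) (B : Set (Cfsg.IrrCharacter G)) (hind : Cfsg.IsInducedBlock M H b B) (χ : Cfsg.IrrCharacter G) (hχ : χ ∈ B) (h0 : Cfsg.blockHeight p B (χ : G → ℂ) = 0) : ∃ ξ ∈ b, Cfsg.blockHeight p b (ξ : H → ℂ) = 0 ∧ ∃ n : ℕ, Cfsg.classInner (fun h : H => (χ : G → ℂ) h) (ξ : H → ℂ) = (n : ℂ) ∧ ¬ p ∣ n := by

  classical
  haveI : Fintype (IrrCharacter H) := @Fintype.ofFinite _ finite_irrCharacter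
  have hb := hind.1
  have hB := hind.2.1
  obtain ⟨χ₀, hχ₀, hmin, hsI⟩ := exists_min_degExp hM hB
  rw [blockHeight_eq hsI] at h0
  have hχmin : ∀ ρ ∈ B, degExp p χ ≤ degExp p ρ := fun ρ hρ => by
    have := hmin ρ hρ
    omega
  obtain ⟨θ, hθ, hθmin, hθI⟩ := exists_min_degExp hM hb
  have hres : res H (regElt p (χ : G → ℂ)) = regElt p (fun h : H => (χ : G → ℂ) h) := by
    ext h
    rw [coeff_res, regElt, regElt, coeff_ofFun, coeff_ofFun, Subgroup.orderOf_coe]
  have hnat : ∀ ξ : IrrCharacter H, ∃ n : ℕ, classInner (fun h : H => (χ : G → ℂ) h) (ξ : H → ℂ) = n :=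
    fun ξ => classInner_character_nat (isCharacter_restrict (isCharacter_of_irr χ.2) H) ξ
  choose n hn using hnat
  have hexp : omega (θ : H → ℂ) (regElt p (fun h : H => (χ : G → ℂ) h)) =
      ∑ ξ : IrrCharacter H, (n ξ : ℂ) * omega (θ : H → ℂ) (regElt p (ξ : H → ℂ)) := by
    simp only [CfsgLib.Blocks.omega_regElt, ← mul_div_assoc]
    rw [← Finset.sum_div]
    congr 1
    simp only [CfsgLib.Blocks.regSum, Finset.mul_sum]
    rw [Finset.sum_comm]
    refine Finset.sum_congr rfl fun h _ => ?_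
    split_ifs
    · simp
    · have := congrFun (classFun_expand (isClassFunction (isCharacter_restrict (isCharacter_of_irr χ.2) H))) h
      rw [show (χ : G → ℂ) h = _ from this, Finset.sum_apply, map_sum, Finset.mul_sum]
      refine Finset.sum_congr rfl fun ξ _ => ?_
      rw [Pi.smul_apply, smul_eq_mul, hn, map_mul, Complex.conj_natCast]
      ring
  have hu : ¬ MemLocalIdeal M (omega (χ : G → ℂ) (regElt p (χ : G → ℂ))) := fun h =>
    regInt_self_not_dvd hM hB hχ hχmin ((omega_regElt_mem_iff hM χ χ).1 h)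
  have hcong := omega_res_induced hM hind hθ hχ (isClassElt_regElt (p := p) (isCharacter_of_irr χ.2))
    (isIntegralElt_regElt hM (isCharacter_of_irr χ.2))
  rw [hres, hexp] at hcong
  obtain ⟨ξ, hξ⟩ : ∃ ξ : IrrCharacter H, ¬ MemLocalIdeal M ((n ξ : ℂ) * omega (θ : H → ℂ) (regElt p (ξ : H → ℂ))) := by
    by_contra hcon
    push Not at hcon
    refine hu ?_
    simpa using memLocalIdeal_sub hM (memLocalIdeal_sum hM Finset.univ fun ξ _ => hcon ξ) hcong
  have hpn : ¬ p ∣ n ξ := fun h => hξ (memLocalIdeal_mul_right hM ((memLocalIdeal_natCast_iff hM _).2 h)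
    (memLocalRing_omega hM θ (isClassElt_regElt (isCharacter_of_irr ξ.2))
      (isIntegralElt_regElt hM (isCharacter_of_irr ξ.2))))
  have hω : ¬ MemLocalIdeal M (omega (θ : H → ℂ) (regElt p (ξ : H → ℂ))) := fun h =>
    hξ (memLocalIdeal_mul_left hM (memLocalRing_natCast hM _) h)
  rw [omega_regElt_mem_iff hM] at hω
  have hξb : ξ ∈ b := by
    by_contra hc
    exact hω (by rw [regInt_eq_zero_of_notMem hM hb hθ hc]; exact dvd_zero _)
  refine ⟨ξ, hξb, ?_, n ξ, hn ξ, hpn⟩
  have h1 := pow_dvd_regInt hM ξ θ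
  rw [regInt_comm hM.1] at h1
  have h2 : degExp p ξ ≤ degExp p θ := by
    by_contra hlt
    exact hω ((pow_dvd_pow _ (by omega : degExp p θ + 1 ≤ degExp p ξ)).trans h1)
  rw [blockHeight_eq hθI]
  omega

end Cfsg.Agent.S0937
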