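import Cfsg.Statements.S0938
import Cfsg.Agent.Blocks.Covering


set_option autoImplicit false
open Cfsg

namespace Cfsg.Agent.S0938

open CfsgLib.Blocks CfsgLib.CharBasics

/-- Let B be a block of the finite group G relative to a maximal ideal M of the algebraic integers containing the prime p, and let χ ∈ B. Then the kernel of B (the set of g with ψ g = ψ 1 for all ψ ∈ B) is a normal subgroup of order prime to p contained in the kernel of χ, and it contains every normal subgroup of order prime to p on which χ takes the value χ(1); that is, it is O_p' of the kernel of χ. -/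
theorem result {G : Type*} [Group G] [Finite G] (p : ℕ) [Fact p.Prime] (M : Ideal Cfsg.AlgInt) (hM : Cfsg.IsPModular p M) (B : Set (Cfsg.IrrCharacter G)) (hB : Cfsg.IsPBlock M B) (χ : Cfsg.IrrCharacter G) (hχ : χ ∈ B) : ∃ K : Subgroup G, K.Normal ∧ (K : Set G) = Cfsg.blockKer B ∧ ¬ p ∣ Nat.card K ∧ (∀ g ∈ K, (χ : G → ℂ) g = (χ : G → ℂ) 1) ∧ ∀ N : Subgroup G, N.Normal → ¬ p ∣ Nat.card N → (∀ g ∈ N, (χ : G → ℂ) g = (χ : G → ℂ) 1) → N ≤ K := by
  classical
  haveI := Fintype.ofFinite G
  haveI : Fintype (IrrCharacter G) := @Fintype.ofFinite _ finite_irrCharacter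
  have hp : p.Prime := Fact.out
  let K : Subgroup G :=
    { carrier := blockKer B
      one_mem' := fun _ _ => rfl
      mul_mem' := fun {a b} ha hb ψ hψ => (charKer _ (isCharacter_of_irr ψ.2)).mul_mem (ha ψ hψ) (hb ψ hψ)
      inv_mem' := fun {a} ha ψ hψ => (charKer _ (isCharacter_of_irr ψ.2)).inv_mem (ha ψ hψ) }
  have hKn : K.Normal := ⟨fun a ha g ψ hψ => by
    rw [isClassFunction (isCharacter_of_irr ψ.2) a g]; exact ha ψ hψ⟩
  refine ⟨K, hKn, rfl, fun hd => ?_, fun g hg => hg χ hχ, fun N hN hNp hNker g hg ψ hψ => ?_⟩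
  · obtain ⟨u, hu⟩ := exists_prime_orderOf_dvd_card' p hd
    have h1 : ¬ p ∣ orderOf (1 : G) := by rw [orderOf_one]; exact hp.not_dvd_one
    have h2 : p ∣ orderOf (u : G) := by rw [Subgroup.orderOf_coe, hu]
    have h3 := weak_block_orth hM hB h1 h2
    rw [finsum_mem_def, finsum_eq_sum_of_fintype] at h3
    have h4 : ∑ ψ : IrrCharacter G, (if ψ ∈ B then charDegree (ψ : G → ℂ) ^ 2 else 0) = 0 := by
      have h5 : ((∑ ψ : IrrCharacter G, (if ψ ∈ B then charDegree (ψ : G → ℂ) ^ 2 else 0) : ℕ) : ℂ) = 0 := by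
        rw [← h3, Nat.cast_sum]
        refine Finset.sum_congr rfl fun ψ _ => ?_
        rw [Set.indicator_apply]
        split_ifs with hψ
        · rw [show (ψ : G → ℂ) (u : G) = (ψ : G → ℂ) 1 from u.2 ψ hψ, apply_one (isCharacter_of_irr ψ.2),
            Complex.conj_natCast, Nat.cast_pow, sq]
        · rw [Nat.cast_zero]
      exact_mod_cast h5
    have h6 := (Finset.sum_eq_zero_iff.1 h4) χ (Finset.mem_univ _)
    rw [if_pos hχ] at h6
    exact (pow_ne_zero 2 (charDegree_pos χ.2).ne') h6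
  · haveI := Fintype.ofFinite N
    haveI := hN
    have hone : classInner (fun n : N => (χ : G → ℂ) n) (fun _ : N => (1 : ℂ)) ≠ 0 := by
      rw [show (fun n : N => (χ : G → ℂ) n) = fun n : N => (χ : G → ℂ) 1 from funext fun n => hNker n n.2, classInner_eq]
      simp [apply_one_ne_zero χ.2]
    exact eq_one_of_constituent_one
      (constituent_of_sameBlock hM hNp ((IsPBlock.mem_iff hM hB hχ).1 hψ) (θ := ⟨_, isIrrCharacter_one⟩) hone) hg

end Cfsg.Agent.S0938
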