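import Cfsg.Statements.S4718
import Cfsg.Agent.BrauerInd.Regular
import Cfsg.Agent.BrauerInd.Landau
import Cfsg.Agent.CharBasics.Central
import Cfsg.Agent.Blocks.Local

set_option autoImplicit false
universe u
open Cfsg

namespace Cfsg.Agent.S4718

theorem not_dvd_card_regular {G : Type*} [Group G] [Finite G] (p : ℕ) [Fact p.Prime] :
    ¬ p ∣ Nat.card {x : G // ¬ p ∣ orderOf x} := by
  classical
  have hp : p.Prime := Fact.out
  obtain ⟨P⟩ : Nonempty (Sylow p G) := inferInstance
  set C := Subgroup.centralizer ((P : Subgroup G) : Set G) with hC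
  obtain ⟨S⟩ : Nonempty (Sylow p C) := inferInstance
  have hSP : ∀ s ∈ (S : Subgroup C), (s : G) ∈ (P : Subgroup G) := by
    intro s hs
    have hSG : IsPGroup p ((S : Subgroup C).map C.subtype) := S.2.map _
    have hle : (S : Subgroup C).map C.subtype ≤ Subgroup.normalizer ((P : Subgroup G) : Set G) :=
      (Subgroup.map_subtype_le _).trans (Subgroup.le_normalizer_iff_commutator_le_left.2 (by
        have h0 : ⁅(P : Subgroup G), C⁆ = ⊥ := by
          rw [Subgroup.commutator_comm, Subgroup.commutator_eq_bot_iff_le_centralizer]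
        rw [h0]; exact bot_le))
    have hP := P.3 (IsPGroup.to_sup_of_normal_left' P.2 hSG hle) le_sup_left
    rw [← hP]
    exact Subgroup.mem_sup_right ⟨s, hs, rfl⟩
  have hScen : (S : Subgroup C) ≤ Subgroup.center C := by
    intro s hs
    refine Subgroup.mem_center_iff.2 fun c => Subtype.ext ?_
    exact (Subgroup.mem_centralizer_iff.1 c.2 (s : G) (hSP s hs)).symm
  have hSn : (S : Subgroup C).Normal := ⟨fun s hs b => by
    rwa [Subgroup.mem_center_iff.1 (hScen hs) b, mul_inv_cancel_right]⟩
  set i := (S : Subgroup C).index with hi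
  obtain ⟨d, hd⟩ : (Subgroup.center C).index ∣ i := Subgroup.index_dvd_of_le hScen
  have hpi : ¬ p ∣ i := S.not_dvd_index
  have hmul : ∀ a b : C, (a * b) ^ i = a ^ i * b ^ i := by
    intro a b
    have h : ∀ c : C, c ^ i = ((MonoidHom.transferCenterPow C c) ^ d : Subgroup.center C) := by
      intro c
      rw [Subgroup.coe_pow, MonoidHom.transferCenterPow_apply, ← pow_mul, ← hd]
    rw [h, h, h, map_mul, Commute.mul_pow, Subgroup.coe_mul]
    exact Subtype.ext (Subgroup.mem_center_iff.1 (MonoidHom.transferCenterPow C b).2 _)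
  let K : Subgroup C :=
    { carrier := {c | c ^ i = 1}
      one_mem' := one_pow _
      mul_mem' := fun {a b} (ha : a ^ i = 1) (hb : b ^ i = 1) => by
        show (a * b) ^ i = 1
        rw [hmul, ha, hb, one_mul]
      inv_mem' := fun {a} (ha : a ^ i = 1) => by
        show a⁻¹ ^ i = 1
        rw [inv_pow, ha, inv_one] }
  have hK : ∀ c : C, c ∈ K ↔ ¬ p ∣ orderOf (c : G) := by
    intro c
    rw [Subgroup.orderOf_coe]
    constructor
    · intro hc h
      exact hpi (h.trans (orderOf_dvd_of_pow_eq_one hc))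
    · intro hc
      have hm : c ^ i ∈ (S : Subgroup C) := Subgroup.pow_index_mem _ c
      obtain ⟨j, hj⟩ := IsPGroup.iff_orderOf.1 S.2 ⟨_, hm⟩
      rw [Subgroup.orderOf_mk] at hj
      rcases Nat.eq_zero_or_pos j with h0 | h0
      · rw [h0, pow_zero, orderOf_eq_one_iff] at hj; exact hj
      · exact absurd ((dvd_pow_self p h0.ne').trans (hj ▸ orderOf_pow_dvd (x := c) i)) hc
  have hKp : ¬ p ∣ Nat.card K := by
    intro h
    obtain ⟨k, hk⟩ := exists_prime_orderOf_dvd_card' p h
    have h1 := (hK k).1 k.2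
    rw [Subgroup.orderOf_coe, Subgroup.orderOf_coe] at h1
    exact h1 (hk ▸ dvd_rfl)
  let R := {x : G // ¬ p ∣ orderOf x}
  have hord : ∀ g x : G, orderOf (g * x * g⁻¹) = orderOf x := fun g x =>
    orderOf_injective (MulAut.conj g).toMonoidHom (MulAut.conj g).injective x
  letI : MulAction (P : Subgroup G) R :=
    { smul := fun g x => ⟨(g : G) * x.1 * (g : G)⁻¹, by rw [hord]; exact x.2⟩
      one_smul := fun x => Subtype.ext (by
        show ((1 : (P : Subgroup G)) : G) * x.1 * ((1 : (P : Subgroup G)) : G)⁻¹ = x.1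
        simp)
      mul_smul := fun g h x => Subtype.ext (by
        show ((g * h : (P : Subgroup G)) : G) * x.1 * ((g * h : (P : Subgroup G)) : G)⁻¹ =
          (g : G) * ((h : G) * x.1 * (h : G)⁻¹) * (g : G)⁻¹
        simp [mul_assoc]) }
  have hmod := P.2.card_modEq_card_fixedPoints R
  have hfix : Nat.card (MulAction.fixedPoints (P : Subgroup G) R) = Nat.card K := by
    refine Nat.card_congr
      { toFun := fun x => ⟨⟨x.1.1, Subgroup.mem_centralizer_iff.2 fun g hg => ?_⟩, (hK _).2 x.1.2⟩
        invFun := fun k => ⟨⟨(k.1 : G), (hK _).1 k.2⟩, fun g => Subtype.ext ?_⟩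
        left_inv := fun _ => rfl
        right_inv := fun _ => rfl }
    · have h := congrArg Subtype.val (x.2 ⟨g, hg⟩)
      exact mul_inv_eq_iff_eq_mul.1 h
    · show (g : G) * (k.1 : G) * (g : G)⁻¹ = (k.1 : G)
      rw [Subgroup.mem_centralizer_iff.1 k.1.2 g g.2, mul_inv_cancel_right]
  rw [hfix] at hmod
  exact fun h => hKp ((hmod.dvd_iff dvd_rfl).1 h)


/-- Let p be a prime and a a natural number. There is a bound N such that every finite group whose Sylow p-subgroups have order p^a and whose only p-block (relative to a maximal ideal of the algebraic integers containing p) is the principal block has order at most N. -/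
theorem result (p : ℕ) [Fact p.Prime] (a : ℕ) : ∃ N : ℕ, ∀ (G : Type u) [Group G] [Finite G] (M : Ideal Cfsg.AlgInt), Cfsg.IsPModular p M → (Nat.card G).factorization p = a → (∀ B : Set (Cfsg.IrrCharacter G), Cfsg.IsPBlock M B → B = Cfsg.principalBlock M G) → Nat.card G ≤ N := by
  obtain ⟨B, hB⟩ := CfsgLib.BrauerInd.landau.{u} ((p ^ a) ^ 2)
  refine ⟨B, fun G _ _ M hM ha hblock => hB G ?_⟩
  classical
  haveI := Fintype.ofFinite G
  haveI := Fintype.ofFinite (Cfsg.IrrCharacter G)
  haveI := Fintype.ofFinite (ConjClasses G)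
  have hmemB : ∀ χ : Cfsg.IrrCharacter G, Cfsg.SameBlock M (fun _ : G => (1 : ℂ)) (χ : G → ℂ) := by
    intro χ
    have hself : χ ∈ Cfsg.blockOf M (χ : G → ℂ) := fun g => by
      rw [sub_self]; exact CfsgLib.Blocks.memLocalIdeal_zero hM
    rw [hblock _ ⟨χ, rfl⟩] at hself
    exact hself
  set f : G → ℂ := fun x => if p ∣ orderOf x then (0 : ℂ) else
    ((p ^ (Nat.card G).factorization p : ℕ) : ℂ) with hf
  have hfg : f ∈ CfsgLib.BrauerInd.genChar G := CfsgLib.BrauerInd.pRegular_indicator_mem_genChar p
  choose z hz using fun χ : Cfsg.IrrCharacter G =>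
    CfsgLib.BrauerInd.classInner_genChar hfg (CfsgLib.CharBasics.isCharacter_of_irr χ.2)
  have hfclass : Cfsg.IsClassFunction G f := by
    intro g h
    simp only [hf]
    rw [show orderOf (h * g * h⁻¹) = orderOf g from
      orderOf_injective (MulAut.conj h).toMonoidHom (MulAut.conj h).injective g]
  -- every coefficient is non-zero
  have hne : ∀ χ : Cfsg.IrrCharacter G, z χ ≠ 0 := by
    intro χ h0
    have h1 := hz χ
    rw [h0, Int.cast_zero, Cfsg.classInner] at h1
    have hsum : ∑ x ∈ Finset.univ.filter (fun x : G => ¬ p ∣ orderOf x), (χ : G → ℂ) x = 0 := by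
      rcases mul_eq_zero.1 h1 with h | h
      · simp at h
      · have h2 : ∑ x : G, f x * starRingEnd ℂ ((χ : G → ℂ) x) =
            ((p ^ (Nat.card G).factorization p : ℕ) : ℂ) * starRingEnd ℂ
              (∑ x ∈ Finset.univ.filter (fun x : G => ¬ p ∣ orderOf x), (χ : G → ℂ) x) := by
          rw [map_sum, Finset.mul_sum, Finset.sum_filter]
          exact Finset.sum_congr rfl fun x _ => by simp only [hf]; split_ifs <;> simp
        rw [h2] at h
        rcases mul_eq_zero.1 h with h3 | h3
        · exact absurd h3 (Nat.cast_ne_zero.2 (pow_ne_zero _ (Fact.out : p.Prime).ne_zero))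
        · exact (map_eq_zero (starRingEnd ℂ)).1 h3
    apply not_dvd_card_regular (G := G) p
    rw [← CfsgLib.Blocks.memLocalIdeal_natCast_iff hM]
    have hclass : ∀ (F : G → ℂ), (∀ x y, IsConj x y → F x = F y) →
        ∑ x ∈ Finset.univ.filter (fun x : G => ¬ p ∣ orderOf x), F x =
          ∑ c ∈ Finset.univ.filter (fun c : ConjClasses G => ¬ p ∣ orderOf c.out),
            ((Subgroup.centralizer ({c.out} : Set G)).index : ℂ) * F c.out := by
      intro F hF
      have hcc : ∀ x : G, IsConj x (ConjClasses.mk x).out := fun x =>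
        (ConjClasses.mk_eq_mk_iff_isConj.1 (Quotient.out_eq (ConjClasses.mk x))).symm
      have hord : ∀ x y : G, IsConj x y → orderOf x = orderOf y := by
        intro x y hxy
        obtain ⟨g, rfl⟩ := isConj_iff.1 hxy
        exact (orderOf_injective (MulAut.conj g).toMonoidHom (MulAut.conj g).injective x).symm
      rw [← Finset.sum_fiberwise_of_maps_to (g := ConjClasses.mk)
        (t := Finset.univ.filter (fun c : ConjClasses G => ¬ p ∣ orderOf c.out))
        (fun x hx => by
          rw [Finset.mem_filter] at hx ⊢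
          exact ⟨Finset.mem_univ _, by rw [← hord x _ (hcc x)]; exact hx.2⟩)]
      refine Finset.sum_congr rfl fun c hc => ?_
      rw [Finset.sum_congr rfl (g := fun _ => F c.out) (fun x hx => by
        obtain rfl := (Finset.mem_filter.1 hx).2; exact hF _ _ (hcc x)),
        Finset.sum_const, nsmul_eq_mul]
      congr 1
      rw [← CfsgLib.CharBasics.card_conjClass, Nat.card_eq_fintype_card, Fintype.card_subtype,
        Finset.filter_filter]
      congr 1
      refine congrArg Finset.card (Finset.filter_congr fun x _ => ?_)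
      constructor
      · rintro ⟨-, rfl⟩; exact (hcc x).symm
      · intro h
        have hm : ConjClasses.mk x = c := by
          rw [← ConjClasses.mk_eq_mk_iff_isConj] at h
          exact h.symm.trans (Quotient.out_eq c)
        refine ⟨?_, hm⟩
        rw [← hord _ _ h]
        exact (Finset.mem_filter.1 hc).2
    have e1 := hclass (fun _ => 1) (fun _ _ _ => rfl)
    simp only [mul_one, Finset.sum_const, nsmul_eq_mul] at e1
    have e2 := hclass (χ : G → ℂ) (fun x y h =>
      CfsgLib.CharBasics.apply_isConj (CfsgLib.CharBasics.isCharacter_of_irr χ.2) h)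
    rw [hsum] at e2
    rw [Nat.card_eq_fintype_card, Fintype.card_subtype, e1]
    have key : ∀ c : ConjClasses G, Cfsg.centralChar (fun _ : G => (1 : ℂ)) c.out =
        ((Subgroup.centralizer ({c.out} : Set G)).index : ℂ) := fun c => by
      simp [Cfsg.centralChar]
    have e3 : ∑ c ∈ Finset.univ.filter (fun c : ConjClasses G => ¬ p ∣ orderOf c.out),
        Cfsg.centralChar (χ : G → ℂ) c.out = 0 := by
      simp only [Cfsg.centralChar]
      rw [← Finset.sum_div, ← e2, zero_div]
    have h4 := CfsgLib.Blocks.memLocalIdeal_sum hM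
      (Finset.univ.filter (fun c : ConjClasses G => ¬ p ∣ orderOf c.out))
      (f := fun c => Cfsg.centralChar (fun _ : G => (1 : ℂ)) c.out -
        Cfsg.centralChar (χ : G → ℂ) c.out) (fun c _ => hmemB χ c.out)
    rw [Finset.sum_sub_distrib, e3, sub_zero, Finset.sum_congr rfl fun c _ => key c] at h4
    exact h4
  -- Bessel
  have hnorm : ∑ χ : Cfsg.IrrCharacter G, Cfsg.classInner f (χ : G → ℂ) *
      starRingEnd ℂ (Cfsg.classInner f (χ : G → ℂ)) = Cfsg.classInner f f := by
    conv_rhs => arg 1; rw [CfsgLib.CharBasics.classFun_expand hfclass]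
    rw [CfsgLib.CharBasics.classInner_sum_left]
    refine Finset.sum_congr rfl fun χ _ => ?_
    rw [CfsgLib.CharBasics.classInner_smul_left, CfsgLib.CharBasics.classInner_comm f (χ : G → ℂ)]
  simp only [hz, map_intCast] at hnorm
  rw [← CfsgLib.CharBasics.card_irr, Nat.card_eq_fintype_card]
  have hle : ((∑ χ : Cfsg.IrrCharacter G, z χ * z χ : ℤ) : ℝ) ≤ (((p ^ a) ^ 2 : ℕ) : ℝ) := by
    have e : ((∑ χ : Cfsg.IrrCharacter G, z χ * z χ : ℤ) : ℝ) = (Cfsg.classInner f f).re := by
      rw [← hnorm]
      push_cast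
      simp [Complex.mul_re]
    rw [e, Cfsg.classInner, ← Complex.ofReal_natCast, ← Complex.ofReal_inv, Complex.re_ofReal_mul,
      Complex.re_sum, inv_mul_le_iff₀ (by exact_mod_cast Nat.card_pos)]
    refine (Finset.sum_le_card_nsmul _ _ (((p ^ a) ^ 2 : ℕ) : ℝ) fun x _ => ?_).trans ?_
    · simp only [hf, ha]
      split_ifs
      · simp
      · have hc : ((p : ℂ) ^ a) = (((p : ℝ) ^ a : ℝ) : ℂ) := by push_cast; rfl
        rw [Nat.cast_pow, hc, Complex.conj_ofReal, ← Complex.ofReal_mul, Complex.ofReal_re]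
        push_cast; exact le_of_eq (by ring)
    · rw [Finset.card_univ, nsmul_eq_mul, Nat.card_eq_fintype_card]
  have hk : ((Fintype.card (Cfsg.IrrCharacter G) : ℤ) : ℝ) ≤ (((p ^ a) ^ 2 : ℕ) : ℝ) := by
    refine le_trans ?_ hle
    apply Int.cast_le.2
    rw [← Finset.card_univ, Finset.card_eq_sum_ones, Nat.cast_sum]
    refine Finset.sum_le_sum fun χ _ => ?_
    rcases lt_trichotomy (z χ) 0 with h | h | h
    · push_cast; nlinarith
    · exact absurd h (hne χ)
    · push_cast; nlinarith
  exact_mod_cast hk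

end Cfsg.Agent.S4718
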