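import Cfsg.Statements.S0940
import Cfsg.Agent.Blocks.HeightZero
import Cfsg.Agent.Blocks.PElementTrace
import Cfsg.Agent.ZStar.Congr
import Cfsg.Agent.ZStar.Principal
import Cfsg.Agent.S4718


set_option autoImplicit false
open Cfsg

namespace Cfsg.Agent.S0940

open CfsgLib.Blocks CfsgLib.CharBasics CfsgLib.ZStar
open scoped ComplexConjugate

set_option maxHeartbeats 1600000 in
/-- Let G be a finite group and M a maximal ideal of the algebraic integers containing the prime p. For every p-regular g, the idempotent coefficient of the principal block at g (the inverse of the group order times the sum over χ in the principal block of χ 1 * conj (χ g)) is congruent modulo the local ideal at M to N / R, where N is the number of pairs (x, y) with x of p-power order, y of order prime to p and x * y = g, and R is the number of elements of G of order prime to p. -/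
theorem result {G : Type*} [Group G] [Finite G] (p : ℕ) [Fact p.Prime] (M : Ideal Cfsg.AlgInt) (hM : Cfsg.IsPModular p M) (g : G) (hg : ¬ p ∣ orderOf g) : Cfsg.MemLocalIdeal M (Cfsg.blockCoeff (Cfsg.principalBlock M G) g - (Nat.card {xy : G × G // (∃ k : ℕ, orderOf xy.1 = p ^ k) ∧ ¬ p ∣ orderOf xy.2 ∧ xy.1 * xy.2 = g} : ℂ) / (Nat.card {y : G // ¬ p ∣ orderOf y} : ℂ)) := by

  classical
  haveI : Fintype G := Fintype.ofFinite G
  have hp : p.Prime := Fact.out
  obtain ⟨m, hm⟩ : ∃ m, m = Nat.card {y : G // ¬ p ∣ orderOf y} := ⟨_, rfl⟩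
  have hpm : ¬ p ∣ m := hm ▸ Cfsg.Agent.S4718.not_dvd_card_regular (G := G) p
  set e := blockElt (principalBlock M G) with he
  have hB : IsPBlock M (principalBlock M G) := isPBlock_principal
  have hei := isIntegralElt_blockElt hM hB
  set u := CfsgLib.Blocks.regElt p ((oneChar : IrrCharacter G) : G → ℂ) with hu
  have hucoeff : ∀ x, u.coeff x = if p ∣ orderOf x then 0 else 1 := fun x => by
    rw [hu, CfsgLib.Blocks.regElt, coeff_ofFun]
    rw [show ((oneChar : IrrCharacter G) : G → ℂ) = fun _ => 1 from rfl, map_one]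
  have huc : IsClassElt u := isClassElt_regElt (isCharacter_of_irr (oneChar : IrrCharacter G).2)
  have hui : IsIntegralElt M u := isIntegralElt_regElt hM (isCharacter_of_irr (oneChar : IrrCharacter G).2)
  have hωu : ∀ χ : IrrCharacter G, omega (χ : G → ℂ) u =
      (∑ g, if p ∣ orderOf g then 0 else (χ : G → ℂ) g) / (χ : G → ℂ) 1 := fun χ => by
    rw [omega]
    congr 1
    refine Finset.sum_congr rfl fun g _ => ?_
    rw [hucoeff]
    split_ifs <;> simp
  have hω1 : omega ((oneChar : IrrCharacter G) : G → ℂ) u = (m : ℂ) := by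
    rw [hωu]
    rw [show ((oneChar : IrrCharacter G) : G → ℂ) = fun _ => 1 from rfl, div_one, hm, Nat.card_eq_fintype_card, Fintype.card_subtype, Finset.sum_ite, Finset.sum_const_zero, zero_add,
      Finset.sum_const, nsmul_eq_mul, mul_one]
  set z := u - (m : ℂ) • e with hz
  have hzc : IsClassElt z := huc.sub ((isClassElt_blockElt _).smul _)
  have hzi : IsIntegralElt M z := hui.sub hM (hei.smul hM (memLocalRing_natCast hM _))
  have hz0 : ∀ χ : IrrCharacter G, MemLocalIdeal M (omega (χ : G → ℂ) z) := fun χ => by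
    rw [hz, CfsgLib.Blocks.omega_sub, CfsgLib.Blocks.omega_smul, he, omega_blockElt]
    split_ifs with h
    · rw [mul_one, ← hω1]
      have h' : SameBlock M ((oneChar : IrrCharacter G) : G → ℂ) (χ : G → ℂ) := h
      exact omega_sub_mem_of_sameBlock hM (sameBlock_symm h') huc hui
    · rw [hωu, sum_regular_eq_zero hM h, zero_div, mul_zero, sub_zero]
      exact memLocalIdeal_zero hM
  obtain ⟨N₁, hN₁, hsmall⟩ := exists_pow_isSmall hM hzc hz0
  set g' := g with hg'
  obtain ⟨n, hnN, hgn⟩ : ∃ n : ℕ, N₁ + Nat.card G ≤ n ∧ g ^ p ^ n = g := by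
    refine ⟨(orderOf g).totient * (N₁ + Nat.card G), Nat.le_mul_of_pos_left _ (Nat.totient_pos.2 (orderOf_pos g)), ?_⟩
    conv_rhs => rw [← pow_one g]
    rw [pow_eq_pow_iff_modEq, pow_mul]
    have := (Nat.ModEq.pow_totient ((hp.coprime_iff_not_dvd).2 hg)).pow (N₁ + Nat.card G)
    rwa [one_pow] at this
  set N := p ^ n with hN
  have hNgt : N₁ + Nat.card G < N := lt_of_le_of_lt hnN (Nat.lt_pow_self hp.one_lt)
  -- the power of `u`
  have huN : MemLocalIdeal M ((u ^ N).coeff g - (m : ℂ) * blockCoeff (principalBlock M G) g) := by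
    have hme : ((m : ℂ) • e) ^ N = ((m : ℂ) ^ N) • e := by
      rw [smul_pow]
      congr 1
      obtain ⟨N', hN'⟩ : ∃ N', N = N' + 1 := ⟨N - 1, by omega⟩
      rw [hN', (isIdempotentElem_blockElt _).pow_succ_eq]
    have hcomm : Commute z ((m : ℂ) • e) := (Commute.smul_right (hzc.commute e) _)
    have hsum : u ^ N = ∑ j ∈ Finset.range (N + 1), z ^ j * ((m : ℂ) • e) ^ (N - j) * (N.choose j : MonoidAlgebra ℂ G) := by
      rw [← hcomm.add_pow, hz, sub_add_cancel]
    rw [hsum, MonoidAlgebra.coeff_sum, Finset.sum_apply', Finset.sum_range_succ']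
    have h0 : ((z ^ 0 * ((m : ℂ) • e) ^ (N - 0) * (N.choose 0 : MonoidAlgebra ℂ G))).coeff g =
        (m : ℂ) ^ N * blockCoeff (principalBlock M G) g := by
      rw [pow_zero, one_mul, Nat.sub_zero, Nat.choose_zero_right, Nat.cast_one, mul_one, hme,
        MonoidAlgebra.coeff_smul, Finsupp.smul_apply, smul_eq_mul, he, coeff_blockElt]
    rw [h0, add_sub_assoc, ← sub_mul]
    refine memLocalIdeal_add hM (memLocalIdeal_sum hM _ fun j hj => ?_)
      (memLocalIdeal_mul_right hM ?_ (memLocalRing_blockCoeff hM hB g))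
    · have hpow : IsIntegralElt M (((m : ℂ) • e) ^ (N - (j + 1))) :=
        (hei.smul hM (memLocalRing_natCast hM _)).pow hM _
      rw [show (N.choose (j + 1) : MonoidAlgebra ℂ G) = ((N.choose (j + 1) : ℂ)) • 1 by
        rw [Nat.cast_smul_eq_nsmul, nsmul_one], Algebra.mul_smul_comm, mul_one, MonoidAlgebra.coeff_smul,
        Finsupp.smul_apply, smul_eq_mul]
      by_cases hjN : j + 1 = N
      · refine memLocalIdeal_mul_left hM (memLocalRing_natCast hM _) (IsSmall.mul_right hM ?_ hpow g)
        rw [hjN, show N = N₁ + (N - N₁) by omega, pow_add]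
        exact IsSmall.mul_right hM hsmall (hzi.pow hM _)
      · refine memLocalIdeal_mul_right hM ((memLocalIdeal_natCast_iff hM _).2 ?_) (((hzi.pow hM _).mul hM hpow) g)
        exact hp.dvd_choose_pow (Nat.succ_ne_zero _) hjN
    · rw [← Nat.cast_pow]
      have h : ((m ^ N : ℕ) : ℤ) ≡ (m : ℤ) [ZMOD p] := by
        rw [Int.natCast_modEq_iff, ← ZMod.natCast_eq_natCast_iff, Nat.cast_pow, hN]
        exact ZMod.pow_card_pow _
      rw [show ((m ^ N : ℕ) : ℂ) - (m : ℂ) = (((m ^ N : ℕ) : ℤ) - (m : ℤ) : ℤ) by push_cast; ring,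
        memLocalIdeal_intCast_iff hM]
      exact h.symm.dvd
  -- the rotation congruence
  set a := MonoidAlgebra.single g⁻¹ (1 : ℂ) * u with ha
  have hacoeff : ∀ x, a.coeff x = if p ∣ orderOf (g * x) then 0 else 1 := fun x => by
    rw [ha, MonoidAlgebra.coeff_single_mul_apply, one_mul, inv_inv, hucoeff]
  have hai : IsIntegralElt M a := fun x => by
    rw [hacoeff]; split_ifs
    · exact memLocalRing_zero hM
    · exact memLocalRing_one hM
  have hrot := coeff_one_pow_congr hM hai n
  have haN : (a ^ N).coeff 1 = (u ^ N).coeff g := by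
    rw [ha, (huc.commute _).symm.mul_pow, MonoidAlgebra.single_pow, MonoidAlgebra.coeff_single_mul_apply, one_pow,
      one_mul, mul_one, inv_pow, inv_inv, hN, hgn]
  rw [← hN, haN] at hrot
  have hcnt : (∑ x : G, if x ^ N = 1 then a.coeff x ^ N else 0) =
      (Nat.card {xy : G × G // (∃ k : ℕ, orderOf xy.1 = p ^ k) ∧ ¬ p ∣ orderOf xy.2 ∧ xy.1 * xy.2 = g} : ℂ) := by
    have hpow : ∀ x : G, x ^ N = 1 ↔ ∃ k : ℕ, orderOf x = p ^ k := fun x => by
      rw [hN, ← orderOf_dvd_iff_pow_eq_one, Nat.dvd_prime_pow hp]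
      refine ⟨fun ⟨k, _, hk⟩ => ⟨k, hk⟩, fun ⟨k, hk⟩ => ⟨k, ?_, hk⟩⟩
      have h1 := (Nat.le_of_dvd Nat.card_pos (orderOf_dvd_natCard x))
      rw [hk] at h1
      have h2 := Nat.lt_pow_self (n := k) hp.one_lt
      omega
    have hconj : ∀ x : G, orderOf (g * x⁻¹ * g⁻¹) = orderOf x := fun x =>
      ((MulAut.conj g).orderOf_eq x⁻¹).trans (orderOf_inv x)
    calc (∑ x : G, if x ^ N = 1 then a.coeff x ^ N else 0)
        = ∑ x : G, (if x ^ N = 1 ∧ ¬ p ∣ orderOf (g * x) then (1 : ℂ) else 0) := by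
          refine Finset.sum_congr rfl fun x _ => ?_
          by_cases h : x ^ N = 1
          · simp only [h, if_true, true_and, hacoeff]
            split_ifs with h'
            · rw [zero_pow (by omega)]
            · rw [one_pow]
          · simp [h]
      _ = (Nat.card {x : G // x ^ N = 1 ∧ ¬ p ∣ orderOf (g * x)} : ℂ) := by
          rw [Finset.sum_boole, Nat.card_eq_fintype_card, Fintype.card_subtype]
      _ = _ := by
          congr 1
          refine Nat.card_congr
            { toFun := fun x => ⟨(g * x.1⁻¹ * g⁻¹, g * x.1), (hconj x.1).symm ▸ (hpow _).1 x.2.1, x.2.2, by simp [mul_assoc]⟩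
              invFun := fun xy => ⟨g⁻¹ * xy.1.2, ?_, by rw [mul_inv_cancel_left]; exact xy.2.2.1⟩
              left_inv := fun x => Subtype.ext (inv_mul_cancel_left _ _)
              right_inv := fun xy => Subtype.ext (Prod.ext ?_ (mul_inv_cancel_left _ _)) }
          · obtain ⟨k, hk⟩ := xy.2.1
            refine (hpow _).2 ⟨k, ?_⟩
            rw [← hconj, ← hk]
            congr 1
            rw [show g * (g⁻¹ * xy.1.2)⁻¹ * g⁻¹ = g * xy.1.2⁻¹ by group]
            exact (eq_mul_inv_of_mul_eq xy.2.2.2).symm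
          · show g * (g⁻¹ * xy.1.2)⁻¹ * g⁻¹ = xy.1.1
            rw [show g * (g⁻¹ * xy.1.2)⁻¹ * g⁻¹ = g * xy.1.2⁻¹ by group]
            exact (eq_mul_inv_of_mul_eq xy.2.2.2).symm
  rw [hcnt] at hrot
  rw [← hm]
  generalize (Nat.card {xy : G × G // (∃ k : ℕ, orderOf xy.1 = p ^ k) ∧ ¬ p ∣ orderOf xy.2 ∧ xy.1 * xy.2 = g} : ℂ) = c at hrot ⊢
  have hm0 : (m : ℂ) ≠ 0 := Nat.cast_ne_zero.2 fun h => hpm (h ▸ dvd_zero p)
  have := memLocalIdeal_mul_left hM (memLocalRing_natCast_inv hM hpm) (memLocalIdeal_sub hM hrot huN)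
  convert this using 1
  field_simp
  ring

end Cfsg.Agent.S0940
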