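import Cfsg.Statements.S0943
import Mathlib

set_option autoImplicit false
open Cfsg

namespace Cfsg.Agent.S0943

/-- Let χ be an irreducible character of the finite group G and u, v ∈ G. If χ (x * y) = χ (u * v) whenever x is conjugate to u and y is conjugate to v, then χ u * χ v = χ 1 * χ (u * v). (Multiply the class sums of u and v and apply the central character of χ.) -/
theorem result {G : Type*} [Group G] [Finite G] (χ : Cfsg.IrrCharacter G) (u v : G) (hc : ∀ x y : G, IsConj u x → IsConj v y → (χ : G → ℂ) (x * y) = (χ : G → ℂ) (u * v)) : (χ : G → ℂ) u * (χ : G → ℂ) v = (χ : G → ℂ) 1 * (χ : G → ℂ) (u * v) := by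
  classical
  have := Fintype.ofFinite G
  obtain ⟨χ, hχ⟩ := χ
  obtain ⟨n, ρ, hirr, rfl⟩ := hχ
  simp only at hc ⊢
  set K := Finset.univ.filter (fun x : G => IsConj u x) with hK
  set L := Finset.univ.filter (fun x : G => IsConj v x) with hL
  have hconj : ∀ (a b : G), IsConj a b → ρ.character b = ρ.character a := by
    intro a b hab
    obtain ⟨c, rfl⟩ := isConj_iff.mp hab
    exact ρ.char_conj a c
  have hcomm : ∀ g : G, ρ g * (∑ x ∈ K, ρ x) = (∑ x ∈ K, ρ x) * ρ g := by
    intro g
    rw [Finset.mul_sum, Finset.sum_mul]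
    refine Finset.sum_bij' (fun x _ => g * x * g⁻¹) (fun x _ => g⁻¹ * x * g) ?_ ?_ ?_ ?_ ?_
    · intro x hx
      exact Finset.mem_filter.mpr ⟨Finset.mem_univ _, (Finset.mem_filter.mp hx).2.trans (isConj_iff.mpr ⟨g, rfl⟩)⟩
    · intro x hx
      exact Finset.mem_filter.mpr ⟨Finset.mem_univ _, (Finset.mem_filter.mp hx).2.trans (isConj_iff.mpr ⟨g⁻¹, by rw [inv_inv]⟩)⟩
    · intro x _; group
    · intro x _; group
    · intro x _
      rw [← map_mul, ← map_mul]; congr 1; group
  let f : Representation.IntertwiningMap ρ ρ := LinearMap.intertwiningMap_of_isIntertwiningMap ρ ρ (∑ x ∈ K, ρ x)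
    (fun g w => (LinearMap.congr_fun (hcomm g) w).symm)
  haveI := hirr
  obtain ⟨a, ha⟩ := (Representation.IsIrreducible.algebraMap_intertwiningMap_bijective_of_isAlgClosed (ρ := ρ)).2 f
  have hA : ∀ y : G, ∑ x ∈ K, ρ.character (x * y) = a * ρ.character y := by
    intro y
    have hs : (∑ x ∈ K, ρ x) = a • (1 : Module.End ℂ (Fin n → ℂ)) := by
      rw [← Algebra.algebraMap_eq_smul_one]
      exact (congrArg Representation.IntertwiningMap.toLinearMap ha).symm
    simp only [Representation.character, map_mul, ← map_sum, ← Finset.sum_mul, hs, smul_mul_assoc, one_mul,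
      map_smul, smul_eq_mul]
  have hKu : (K.card : ℂ) * ρ.character u = a * ρ.character 1 := by
    rw [← hA 1, Finset.sum_congr rfl (fun x hx => by rw [mul_one, hconj u x (Finset.mem_filter.mp hx).2]),
      Finset.sum_const, nsmul_eq_mul]
  have hsum : (L.card : ℂ) * ((K.card : ℂ) * ρ.character (u * v)) = a * ((L.card : ℂ) * ρ.character v) := by
    have h2 : ∀ y ∈ L, (K.card : ℂ) * ρ.character (u * v) = a * ρ.character v := by
      intro y hy
      rw [← hconj v y (Finset.mem_filter.mp hy).2, ← hA y,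
        Finset.sum_congr rfl (fun x hx => hc x y (Finset.mem_filter.mp hx).2 (Finset.mem_filter.mp hy).2),
        Finset.sum_const, nsmul_eq_mul]
    rw [← mul_assoc a, mul_comm a (L.card : ℂ), mul_assoc, h2 v (Finset.mem_filter.mpr ⟨Finset.mem_univ _, IsConj.refl v⟩)]
  have hK0 : (K.card : ℂ) ≠ 0 := Nat.cast_ne_zero.mpr (Finset.card_pos.mpr ⟨u, Finset.mem_filter.mpr ⟨Finset.mem_univ _, IsConj.refl u⟩⟩).ne'
  have hL0 : (L.card : ℂ) ≠ 0 := Nat.cast_ne_zero.mpr (Finset.card_pos.mpr ⟨v, Finset.mem_filter.mpr ⟨Finset.mem_univ _, IsConj.refl v⟩⟩).ne'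
  apply mul_left_cancel₀ (mul_ne_zero hL0 hK0)
  linear_combination ((L.card : ℂ) * ρ.character v) * hKu - ρ.character 1 * hsum

end Cfsg.Agent.S0943
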