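import Cfsg.Statements.S0944
import Mathlib

set_option autoImplicit false
open Cfsg

namespace Cfsg.Agent.S0944

/-- Let χ be an irreducible character of the finite group G and u an involution. Then χ u is a rational integer n with n ≡ χ 1 (mod 2). -/
theorem result {G : Type*} [Group G] [Finite G] (χ : Cfsg.IrrCharacter G) (u : G) (hu : orderOf u = 2) : ∃ n : ℤ, (χ : G → ℂ) u = (n : ℂ) ∧ (2 : ℤ) ∣ (Cfsg.charDegree (χ : G → ℂ) : ℤ) - n := by
  obtain ⟨χ, hχ⟩ := χ
  obtain ⟨n, ρ, hirr, rfl⟩ := hχ
  have hT : ρ u * ρ u = 1 := by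
    rw [← map_mul, ← pow_two, ← hu, pow_orderOf_eq_one, map_one]
  set P : Module.End ℂ (Fin n → ℂ) := (2 : ℂ)⁻¹ • (1 + ρ u) with hP
  have hPP : IsIdempotentElem P := by
    unfold IsIdempotentElem
    rw [hP]
    simp only [smul_mul_assoc, mul_smul_comm, smul_smul, mul_add, add_mul, one_mul, mul_one, hT]
    module
  have htr : LinearMap.trace ℂ (Fin n → ℂ) P = (Module.finrank ℂ (LinearMap.range P) : ℂ) :=
    (LinearMap.IsProj.trace ((LinearMap.isProj_range_iff_isIdempotentElem P).mpr hPP))
  have hdeg : Cfsg.charDegree ρ.character = n := by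
    rw [Cfsg.charDegree, Representation.char_one]
    simp
  refine ⟨2 * (Module.finrank ℂ (LinearMap.range P) : ℤ) - n, ?_, ?_⟩
  · change ρ.character u = _
    rw [hP, map_smul, map_add, LinearMap.trace_one, Module.finrank_fin_fun, smul_eq_mul] at htr
    rw [← hP] at htr
    push_cast
    rw [← htr, Representation.character]
    ring
  · rw [hdeg]
    exact ⟨(n : ℤ) - Module.finrank ℂ (LinearMap.range P), by ring⟩

end Cfsg.Agent.S0944
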