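import Cfsg.Statements.S0945


set_option autoImplicit false
open Cfsg

namespace Cfsg.Agent.S0945

section

variable {G : Type*} [Group G] [Finite G]

/-- At most three involutions. -/
theorem card_involutions_le {P : Subgroup G} (m : ℕ) (e : P ≃* Multiplicative (ZMod (2 ^ m) × ZMod (2 ^ m))) :
    Nat.card {x : G // x ∈ P ∧ x ^ 2 = 1} ≤ 4 := by
  classical
  haveI : NeZero (2 ^ m) := ⟨by positivity⟩
  let f : {x : G // x ∈ P ∧ x ^ 2 = 1} → {a : ZMod (2 ^ m) // 2 • a = 0} × {a : ZMod (2 ^ m) // 2 • a = 0} := fun x =>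
    (⟨(Multiplicative.toAdd (e ⟨x.1, x.2.1⟩)).1, by
      have h : e (⟨x.1, x.2.1⟩ ^ 2) = 1 := by
        rw [show (⟨x.1, x.2.1⟩ : P) ^ 2 = 1 from Subtype.ext x.2.2, map_one]
      rw [map_pow] at h
      exact congrArg Prod.fst (congrArg Multiplicative.toAdd h)⟩,
     ⟨(Multiplicative.toAdd (e ⟨x.1, x.2.1⟩)).2, by
      have h : e (⟨x.1, x.2.1⟩ ^ 2) = 1 := by
        rw [show (⟨x.1, x.2.1⟩ : P) ^ 2 = 1 from Subtype.ext x.2.2, map_one]
      rw [map_pow] at h
      exact congrArg Prod.snd (congrArg Multiplicative.toAdd h)⟩)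
  have hf : Function.Injective f := fun x y h => by
    simp only [f, Prod.mk.injEq, Subtype.mk.injEq] at h
    exact Subtype.ext (Subtype.mk.inj (e.injective (Multiplicative.toAdd.injective (Prod.ext h.1 h.2))))
  refine (Nat.card_le_card_of_injective f hf).trans ?_
  rw [Nat.card_prod]
  have h2 : Nat.card {a : ZMod (2 ^ m) // 2 • a = 0} ≤ 2 := by
    rw [Nat.card_eq_fintype_card, Fintype.card_subtype]
    exact IsAddCyclic.card_nsmul_eq_zero_le two_pos
  exact (Nat.mul_le_mul h2 h2).trans le_rfl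

variable (P : Sylow 2 G) (m : ℕ) (e : (P : Subgroup G) ≃* Multiplicative (ZMod (2 ^ m) × ZMod (2 ^ m)))

include e in
theorem comm_of_equiv {a b : G} (ha : a ∈ (P : Subgroup G)) (hb : b ∈ (P : Subgroup G)) : a * b = b * a := by
  have h : (⟨a, ha⟩ : (P : Subgroup G)) * ⟨b, hb⟩ = ⟨b, hb⟩ * ⟨a, ha⟩ :=
    e.injective (by rw [map_mul, map_mul, mul_comm])
  exact congrArg Subtype.val h

include e in
/-- Some odd power of an element of the normalizer centralizes the Sylow subgroup. -/
theorem exists_odd_pow_mem {g : G} (hg : g ∈ Subgroup.normalizer ((P : Subgroup G) : Set G)) :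
    ∃ j : ℕ, Odd j ∧ g ^ j ∈ Subgroup.centralizer ((P : Subgroup G) : Set G) := by
  let N := Subgroup.normalizer ((P : Subgroup G) : Set G)
  haveI : ((P : Subgroup G).subgroupOf N).Normal := Subgroup.normal_in_normalizer
  refine ⟨((P : Subgroup G).subgroupOf N).index, ?_, ?_⟩
  · rw [← Nat.not_even_iff_odd, even_iff_two_dvd]
    intro h
    exact P.not_dvd_index (h.trans (Subgroup.relIndex_dvd_index_of_le Subgroup.le_normalizer))
  · have := ((P : Subgroup G).subgroupOf N).pow_index_mem ⟨g, hg⟩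
    rw [Subgroup.mem_subgroupOf, SubmonoidClass.coe_pow] at this
    exact Subgroup.mem_centralizer_iff.2 fun y hy => comm_of_equiv P m e hy this

include e in
/-- Centralizing the involutions of the Sylow subgroup suffices. -/
theorem mem_centralizer_of_fix {g : G} (hg : g ∈ Subgroup.normalizer ((P : Subgroup G) : Set G))
    (h : ∀ t ∈ (P : Subgroup G), t ^ 2 = 1 → g * t * g⁻¹ = t) :
    g ∈ Subgroup.centralizer ((P : Subgroup G) : Set G) := by
  obtain ⟨j, hj, hgj⟩ := exists_odd_pow_mem P m e hg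
  have key : ∀ k, ∀ x ∈ (P : Subgroup G), x ^ 2 ^ k = 1 → g * x * g⁻¹ = x := by
    intro k
    induction k with
    | zero => intro x _ hx; rw [pow_zero, pow_one] at hx; simp [hx]
    | succ k ih =>
      intro x hxP hx
      have h2 : g * x ^ 2 * g⁻¹ = x ^ 2 := ih _ (pow_mem hxP 2) (by rw [← pow_mul, ← pow_succ']; exact hx)
      have hgx : g * x * g⁻¹ ∈ (P : Subgroup G) := (Subgroup.mem_normalizer_iff.1 hg x).1 hxP
      let t := x⁻¹ * (g * x * g⁻¹)
      have htP : t ∈ (P : Subgroup G) := mul_mem (inv_mem hxP) hgx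
      have ht2 : t ^ 2 = 1 := by
        have hc : Commute x⁻¹ (g * x * g⁻¹) := comm_of_equiv P m e (inv_mem hxP) hgx
        simp only [t]
        rw [hc.mul_pow, conj_pow, h2, inv_pow, inv_mul_cancel]
      have htg : g * t * g⁻¹ = t := h t htP ht2
      have hit : ∀ i : ℕ, g ^ i * x * (g ^ i)⁻¹ = x * t ^ i := by
        intro i
        induction i with
        | zero => simp
        | succ i ihi =>
          have htgi : g * t ^ i * g⁻¹ = t ^ i := by rw [← conj_pow, htg]
          calc g ^ (i + 1) * x * (g ^ (i + 1))⁻¹ = g * (g ^ i * x * (g ^ i)⁻¹) * g⁻¹ := by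
                rw [pow_succ']; group
            _ = g * x * g⁻¹ * (g * t ^ i * g⁻¹) := by rw [ihi]; group
            _ = x * t ^ (i + 1) := by rw [htgi, pow_succ']; simp [t, mul_assoc]
      have hj' := hit j
      rw [← Subgroup.mem_centralizer_iff.1 hgj x hxP, mul_inv_cancel_right] at hj'
      have htj : t ^ j = 1 := mul_left_cancel (hj'.symm.trans (mul_one x).symm)
      obtain ⟨c, rfl⟩ := hj
      rw [pow_succ, pow_mul, ht2, one_pow, one_mul] at htj
      calc g * x * g⁻¹ = x * t := by simp [t]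
        _ = x := by rw [htj, mul_one]
  refine Subgroup.mem_centralizer_iff.2 fun x hx => ?_
  obtain ⟨k, hk⟩ := P.2 ⟨x, hx⟩
  have := key k x hx (congrArg Subtype.val hk)
  calc x * g = g * x * g⁻¹ * g := by rw [this]
    _ = g * x := inv_mul_cancel_right _ _

include e in
theorem mem_centralizer_of_fix_one {g : G} (hg : g ∈ Subgroup.normalizer ((P : Subgroup G) : Set G))
    {t : G} (ht : t ∈ (P : Subgroup G)) (ht2 : t ^ 2 = 1) (ht1 : t ≠ 1) (hfix : g * t * g⁻¹ = t) :
    g ∈ Subgroup.centralizer ((P : Subgroup G) : Set G) := by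
  classical
  haveI := Fintype.ofFinite G
  refine mem_centralizer_of_fix P m e hg fun u hu hu2 => ?_
  by_contra hne
  have hgu : ∀ v ∈ (P : Subgroup G), g * v * g⁻¹ ∈ (P : Subgroup G) := fun v hv =>
    (Subgroup.mem_normalizer_iff.1 hg v).1 hv
  have hu1 : u ≠ 1 := fun e => hne (by rw [e]; simp)
  have hut : u ≠ t := fun e => hne (by rw [e, hfix])
  let u' := g * u * g⁻¹
  have hu'2 : u' ^ 2 = 1 := by simp only [u']; rw [conj_pow, hu2]; group
  have hu'1 : u' ≠ 1 := fun e => hu1 (conj_eq_one_iff.1 e)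
  have hu't : u' ≠ t := fun e => hut ((MulAut.conj g).injective (e.trans hfix.symm))
  -- the four elements of exponent two
  have hall : ∀ w ∈ (P : Subgroup G), w ^ 2 = 1 → w = 1 ∨ w = t ∨ w = u ∨ w = u' := by
    intro w hw hw2
    by_contra hc
    push Not at hc
    have hsub : ({1, t, u, u', w} : Finset G) ⊆ Finset.univ.filter (fun x => x ∈ (P : Subgroup G) ∧ x ^ 2 = 1) := by
      intro x hx
      simp only [Finset.mem_insert, Finset.mem_singleton] at hx
      rw [Finset.mem_filter]
      rcases hx with rfl | rfl | rfl | rfl | rfl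
      · exact ⟨Finset.mem_univ _, one_mem _, one_pow 2⟩
      · exact ⟨Finset.mem_univ _, ht, ht2⟩
      · exact ⟨Finset.mem_univ _, hu, hu2⟩
      · exact ⟨Finset.mem_univ _, hgu u hu, hu'2⟩
      · exact ⟨Finset.mem_univ _, hw, hw2⟩
    have hcard := (Finset.card_le_card hsub).trans_eq
      ((Fintype.card_subtype _).symm.trans Nat.card_eq_fintype_card.symm)
    have h5 : ({1, t, u, u', w} : Finset G).card = 5 := by
      rw [Finset.card_insert_of_notMem, Finset.card_insert_of_notMem, Finset.card_insert_of_notMem,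
        Finset.card_insert_of_notMem, Finset.card_singleton]
      · simp [Ne.symm hc.2.2.2]
      · simp [Ne.symm hc.2.2.1, Ne.symm hne]
        exact fun e => hne e.symm
      · simp [Ne.symm hut, Ne.symm hu't, Ne.symm hc.2.1]
      · simp [Ne.symm ht1, Ne.symm hu1, Ne.symm hu'1, Ne.symm hc.1]
    have := card_involutions_le m e
    omega
  have hswap : g * u' * g⁻¹ = u := by
    rcases hall _ (hgu _ (hgu u hu)) (by rw [conj_pow, hu'2]; group) with h | h | h | h
    · exact absurd (conj_eq_one_iff.1 h) hu'1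
    · exact absurd ((MulAut.conj g).injective (h.trans hfix.symm)) hu't
    · exact h
    · exact absurd ((MulAut.conj g).injective (h.trans rfl)) hne
  have hsq : g ^ 2 * u * (g ^ 2)⁻¹ = u := by
    calc g ^ 2 * u * (g ^ 2)⁻¹ = g * (g * u * g⁻¹) * g⁻¹ := by simp [pow_two, mul_assoc]
      _ = u := hswap
  obtain ⟨j, hj, hgj⟩ := exists_odd_pow_mem P m e hg
  obtain ⟨c, rfl⟩ := hj
  apply hne
  have hC : ∀ i : ℕ, g ^ (2 * i) * u * (g ^ (2 * i))⁻¹ = u := by
    intro i
    induction i with
    | zero => simp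
    | succ i ih =>
      calc g ^ (2 * (i + 1)) * u * (g ^ (2 * (i + 1)))⁻¹ = g ^ 2 * (g ^ (2 * i) * u * (g ^ (2 * i))⁻¹) * (g ^ 2)⁻¹ := by
            rw [show 2 * (i + 1) = 2 + 2 * i by ring, pow_add]; group
        _ = u := by rw [ih, hsq]
  calc g * u * g⁻¹ = g * (g ^ (2 * c) * u * (g ^ (2 * c))⁻¹) * g⁻¹ := by rw [hC]
    _ = g ^ (2 * c + 1) * u * (g ^ (2 * c + 1))⁻¹ := by rw [pow_succ']; group
    _ = u := by rw [← Subgroup.mem_centralizer_iff.1 hgj u hu, mul_inv_cancel_right]

include e in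
theorem centralizer_inf_normalizer (z : G) (hz : z ∈ (P : Subgroup G)) (hz1 : z ≠ 1) :
    Subgroup.centralizer ({z} : Set G) ⊓ Subgroup.normalizer (P : Set G) = Subgroup.centralizer (P : Set G) := by
  refine le_antisymm ?_ (le_inf (Subgroup.centralizer_le (Set.singleton_subset_iff.2 hz)) (fun x hx => ?_))
  · intro g hg
    obtain ⟨hgz, hgN⟩ := Subgroup.mem_inf.1 hg
    obtain ⟨k, hk⟩ := P.2 ⟨z, hz⟩
    have hk' : z ^ 2 ^ k = 1 := congrArg Subtype.val hk
    clear hk hg
    induction k generalizing z with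
    | zero => rw [pow_zero, pow_one] at hk'; exact absurd hk' hz1
    | succ k ih =>
      by_cases h2 : z ^ 2 = 1
      · exact mem_centralizer_of_fix_one P m e hgN hz h2 hz1 (by
          rw [(Subgroup.mem_centralizer_singleton_iff.1 hgz), mul_inv_cancel_right])
      · refine ih (z ^ 2) (pow_mem hz 2) h2 ?_ (by rw [← pow_mul, ← pow_succ']; exact hk')
        rw [Subgroup.mem_centralizer_singleton_iff]
        exact ((show Commute g z from Subgroup.mem_centralizer_singleton_iff.1 hgz).pow_right 2).eq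
  · change x ∈ Subgroup.normalizer ((P : Subgroup G) : Set G)
    rw [Subgroup.mem_normalizer_iff]
    intro y
    constructor
    · intro hy; rwa [← Subgroup.mem_centralizer_iff.1 hx y hy, mul_inv_cancel_right]
    · intro hy
      have := Subgroup.mem_centralizer_iff.1 hx _ hy
      rw [inv_mul_cancel_right] at this
      rwa [← mul_left_cancel this] at hy

/-- Points of the orbit of an involution under the normalizer. -/
theorem orbit_data (hne : (Subgroup.centralizer (P : Set G)).relIndex (Subgroup.normalizer (P : Set G)) ≠ 1)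
    (hm : 1 ≤ m) (e : (P : Subgroup G) ≃* Multiplicative (ZMod (2 ^ m) × ZMod (2 ^ m))) :
    (Subgroup.centralizer (P : Set G)).relIndex (Subgroup.normalizer (P : Set G)) = 3 ∧
      ∀ s t : G, s ∈ (P : Subgroup G) → t ∈ (P : Subgroup G) → orderOf s = 2 → orderOf t = 2 → IsConj s t := by
  classical
  haveI := Fintype.ofFinite G
  let N := Subgroup.normalizer ((P : Subgroup G) : Set G)
  let C := Subgroup.centralizer ((P : Subgroup G) : Set G)
  haveI : Nonempty ((P : Subgroup G)) := ⟨1⟩
  -- an involution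
  haveI : Fact (1 < 2 ^ m) := ⟨Nat.one_lt_two_pow (by omega)⟩
  haveI : NeZero (2 ^ m) := ⟨by positivity⟩
  have hP2 : 2 ∣ Nat.card (P : Subgroup G) := by
    rw [Nat.card_congr e.toEquiv, Nat.card_congr Multiplicative.toAdd, Nat.card_prod, Nat.card_zmod]
    exact Dvd.dvd.mul_left (dvd_pow_self 2 (by omega)) _
  obtain ⟨⟨t, htP⟩, ht⟩ := exists_prime_orderOf_dvd_card' 2 hP2
  rw [Subgroup.orderOf_mk] at ht
  have ht2 : t ^ 2 = 1 := ht ▸ pow_orderOf_eq_one t
  have ht1 : t ≠ 1 := fun h => by rw [h, orderOf_one] at ht; omega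
  letI : MulAction N G :=
    { smul := fun g x => (g : G) * x * (g : G)⁻¹
      one_smul := fun x => show (1 : G) * x * (1 : G)⁻¹ = x by simp
      mul_smul := fun g h x => show ((g * h : N) : G) * x * ((g * h : N) : G)⁻¹ = (g : G) * ((h : G) * x * (h : G)⁻¹) * (g : G)⁻¹ by
        simp [mul_assoc] }
  have hstab : MulAction.stabilizer N t = C.subgroupOf N := by
    ext g
    rw [MulAction.mem_stabilizer_iff, Subgroup.mem_subgroupOf]
    exact ⟨fun h => mem_centralizer_of_fix_one P m e g.2 htP ht2 ht1 h, fun h => by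
      show (g : G) * t * (g : G)⁻¹ = t
      rw [← Subgroup.mem_centralizer_iff.1 h t htP, mul_inv_cancel_right]⟩
  have hidx : C.relIndex N = Nat.card (MulAction.orbit N t) := by
    rw [Subgroup.relIndex, ← hstab, MulAction.index_stabilizer, Nat.card_coe_set_eq]
  have hsub : ∀ x ∈ MulAction.orbit N t, x ∈ (P : Subgroup G) ∧ x ^ 2 = 1 ∧ x ≠ 1 := by
    rintro x ⟨g, rfl⟩
    refine ⟨(Subgroup.mem_normalizer_iff.1 g.2 t).1 htP, ?_, fun h => ht1 (conj_eq_one_iff.1 h)⟩
    show ((g : G) * t * (g : G)⁻¹) ^ 2 = 1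
    rw [conj_pow, ht2]; group
  let S := Finset.univ.filter (fun x => x ∈ (P : Subgroup G) ∧ x ^ 2 = 1 ∧ x ≠ 1)
  have hS : S.card ≤ 3 := by
    have h4 := card_involutions_le m e
    rw [Nat.card_eq_fintype_card, Fintype.card_subtype] at h4
    have : (insert 1 S).card ≤ 4 := le_trans (Finset.card_le_card (fun x hx => by
      rw [Finset.mem_insert] at hx
      rw [Finset.mem_filter]
      rcases hx with rfl | hx
      · exact ⟨Finset.mem_univ _, one_mem _, one_pow 2⟩
      · exact ⟨Finset.mem_univ _, (Finset.mem_filter.1 hx).2.1, (Finset.mem_filter.1 hx).2.2.1⟩)) h4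
    rw [Finset.card_insert_of_notMem (by simp [S])] at this
    omega
  have hOS : (MulAction.orbit N t).toFinset ⊆ S := fun x hx => by
    rw [Set.mem_toFinset] at hx
    exact Finset.mem_filter.2 ⟨Finset.mem_univ _, hsub x hx⟩
  have hOcard : (MulAction.orbit N t).toFinset.card = C.relIndex N := by
    rw [hidx, Set.toFinset_card, Nat.card_eq_fintype_card]
  have hodd : ¬ 2 ∣ C.relIndex N := by
    intro h
    have hPC : (P : Subgroup G) ≤ C := fun x hx => Subgroup.mem_centralizer_iff.2 fun y hy => comm_of_equiv P m e hy hx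
    exact P.not_dvd_index (h.trans ((Subgroup.relIndex_dvd_of_le_left N hPC).trans
      (Subgroup.relIndex_dvd_index_of_le Subgroup.le_normalizer)))
  have h3 : C.relIndex N = 3 := by
    have := (hOcard ▸ Finset.card_le_card hOS).trans hS
    have : C.relIndex N ≠ 0 := Subgroup.index_ne_zero_of_finite
    have : C.relIndex N ≠ 1 := hne
    omega
  refine ⟨h3, fun s u hs hu hs2 hu2 => ?_⟩
  have heq := Finset.eq_of_subset_of_card_le hOS (by omega)
  have hmem : ∀ x ∈ (P : Subgroup G), orderOf x = 2 → x ∈ MulAction.orbit N t := fun x hx hx2 => by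
    rw [← Set.mem_toFinset, heq, Finset.mem_filter]
    exact ⟨Finset.mem_univ _, hx, hx2 ▸ pow_orderOf_eq_one x, fun h => by rw [h, orderOf_one] at hx2; omega⟩
  obtain ⟨a, ha⟩ := hmem s hs hs2
  obtain ⟨b, hb⟩ := hmem u hu hu2
  exact (isConj_iff.2 ⟨(a : G), ha⟩).symm.trans (isConj_iff.2 ⟨(b : G), hb⟩)

theorem index_one_or_three (hm : 1 ≤ m) (e : (P : Subgroup G) ≃* Multiplicative (ZMod (2 ^ m) × ZMod (2 ^ m))) :
    (Subgroup.centralizer (P : Set G)).relIndex (Subgroup.normalizer (P : Set G)) = 1 ∨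
      (Subgroup.centralizer (P : Set G)).relIndex (Subgroup.normalizer (P : Set G)) = 3 :=
  or_iff_not_imp_left.2 fun h => (orbit_data P m h hm e).1

end

/-- Let P be a Sylow 2-subgroup of the finite group G isomorphic to Z/2^m × Z/2^m with m ≥ 1. Then (i) the index of C_G(P) in N_G(P) is 1 or 3, and (ii) if it is not 1, then for every z ≠ 1 in P, C_G(z) ∩ N_G(P) = C_G(P). -/
theorem result {G : Type*} [Group G] [Finite G] (P : Sylow 2 G) (m : ℕ) (hm : 1 ≤ m) (e : (P : Subgroup G) ≃* Multiplicative (ZMod (2 ^ m) × ZMod (2 ^ m))) : ((Subgroup.centralizer (P : Set G)).relIndex (Subgroup.normalizer (P : Set G)) = 1 ∨ (Subgroup.centralizer (P : Set G)).relIndex (Subgroup.normalizer (P : Set G)) = 3) ∧ ((Subgroup.centralizer (P : Set G)).relIndex (Subgroup.normalizer (P : Set G)) ≠ 1 → ∀ z ∈ (P : Subgroup G), z ≠ 1 → Subgroup.centralizer ({z} : Set G) ⊓ Subgroup.normalizer (P : Set G) = Subgroup.centralizer (P : Set G)) := by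
  exact ⟨index_one_or_three P m hm e, fun _ => centralizer_inf_normalizer P m e⟩

end Cfsg.Agent.S0945
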