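import Cfsg.Statements.S0946
import Mathlib.GroupTheory.Transfer
import Cfsg.Agent.S0945

set_option autoImplicit false
open Cfsg

namespace Cfsg.Agent.S0946

/-- Let P be a Sylow 2-subgroup of the finite group G isomorphic to Z/2^m × Z/2^m with m ≥ 1. Then either P has a normal complement in G, or all involutions of G are conjugate. -/
theorem result {G : Type*} [Group G] [Finite G] (P : Sylow 2 G) (m : ℕ) (hm : 1 ≤ m) (e : (P : Subgroup G) ≃* Multiplicative (ZMod (2 ^ m) × ZMod (2 ^ m))) : (∃ N : Subgroup G, N.Normal ∧ Subgroup.IsComplement' N (P : Subgroup G)) ∨ ∀ s t : G, orderOf s = 2 → orderOf t = 2 → IsConj s t := by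
  classical
  by_cases hne : (Subgroup.centralizer (P : Set G)).relIndex (Subgroup.normalizer (P : Set G)) = 1
  · left
    rw [Subgroup.relIndex_eq_one] at hne
    exact ⟨(MonoidHom.transferSylow P hne).ker, inferInstance, MonoidHom.ker_transferSylow_isComplement' P hne⟩
  · right
    intro s t hs ht
    have hconj : ∀ x : G, orderOf x = 2 → ∃ y ∈ (P : Subgroup G), orderOf y = 2 ∧ IsConj x y := by
      intro x hx
      obtain ⟨Q, hQ⟩ := IsPGroup.exists_le_sylow (IsPGroup.of_card (p := 2) (n := 1) (G := Subgroup.zpowers x) (by rw [Nat.card_zpowers, hx, pow_one]))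
      obtain ⟨g, hg⟩ := MulAction.exists_smul_eq G Q P
      refine ⟨g * x * g⁻¹, ?_, ?_, isConj_iff.2 ⟨g, rfl⟩⟩
      · rw [← hg]
        exact ⟨x, hQ (Subgroup.mem_zpowers x), rfl⟩
      · rw [← MulAut.conj_apply, MulEquiv.orderOf_eq, hx]
    obtain ⟨y, hy, hy2, hxy⟩ := hconj s hs
    obtain ⟨w, hw, hw2, htw⟩ := hconj t ht
    exact (hxy.trans ((Cfsg.Agent.S0945.orbit_data P m hne hm e).2 y w hy hw hy2 hw2)).trans htw.symm

end Cfsg.Agent.S0946
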