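import Cfsg.Statements.S0949
import Cfsg.Agent.ZStar.HomocyclicHyp
import Cfsg.Agent.Blocks.Glauberman
import Cfsg.Agent.Clifford.ExtCriteria

set_option autoImplicit false
open Cfsg

namespace Cfsg.Agent.S0949

/-- Let the finite group G have a Sylow 2-subgroup P isomorphic to Z/2^m × Z/2^m with m ≥ 2, and suppose G has no nontrivial normal subgroup of odd order. Then P is normal in G, C_G(P) = P, and the index of P is 1 or 3. -/
theorem result {G : Type*} [Group G] [Finite G] (P : Sylow 2 G) (m : ℕ) (hm : 2 ≤ m) (e : (P : Subgroup G) ≃* Multiplicative (ZMod (2 ^ m) × ZMod (2 ^ m))) (hO : ∀ N : Subgroup G, N.Normal → Odd (Nat.card N) → N = ⊥) : (P : Subgroup G).Normal ∧ Subgroup.centralizer (P : Set G) = (P : Subgroup G) ∧ ((P : Subgroup G).index = 1 ∨ (P : Subgroup G).index = 3) := by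
  classical
  haveI : Fintype G := Fintype.ofFinite G
  haveI : Fact (Nat.Prime 2) := ⟨Nat.prime_two⟩
  haveI : NeZero (2 ^ m) := ⟨by positivity⟩
  have hab : ∀ y ∈ (P : Subgroup G), ∀ z ∈ (P : Subgroup G), y * z = z * y := fun y hy z hz =>
    congrArg Subtype.val (e.injective (by rw [map_mul, map_mul, mul_comm]) :
      (⟨y, hy⟩ : (P : Subgroup G)) * ⟨z, hz⟩ = ⟨z, hz⟩ * ⟨y, hy⟩)
  obtain ⟨t, htinj, ht2, htall⟩ := CfsgLib.ZStar.Homocyclic.three_involutions (by omega : 1 ≤ m) e
  rcases CfsgLib.ZStar.Homocyclic.exists_setup P hab t htinj ht2 htall with hNC | ⟨n, D⟩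
  · have hK := MonoidHom.ker_transferSylow_isComplement' P hNC
    have hKodd : Odd (Nat.card (MonoidHom.transferSylow P hNC).ker) := by
      rw [← Nat.not_even_iff_odd, even_iff_two_dvd, hK.index_eq_card.symm]
      exact P.not_dvd_index
    have htop : (P : Subgroup G) = ⊤ := by
      rw [← Subgroup.index_eq_one, hK.index_eq_card, hO _ (MonoidHom.normal_ker _) hKodd, Subgroup.card_bot]
    refine ⟨htop ▸ inferInstance, ?_, Or.inl (by rw [htop, Subgroup.index_top])⟩
    refine le_antisymm (htop ▸ le_top) fun y hy => Subgroup.mem_centralizer_iff.2 fun z hz => hab z hz y hy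
  obtain ⟨M, hM⟩ := CfsgLib.Blocks.exists_modular Nat.prime_two
  have hcard : Nat.card (P : Subgroup G) = 2 ^ m * 2 ^ m := by
    rw [Nat.card_congr e.toEquiv, Nat.card_congr Multiplicative.toAdd, Nat.card_prod, Nat.card_zmod]
  have h16 : 16 ≤ Nat.card (P : Subgroup G) := by
    have := Nat.pow_le_pow_right two_pos hm
    rw [hcard]; nlinarith
  let f : (P : Subgroup G) →* ℂ :=
    { toFun := fun y => ZMod.stdAddChar (2 * (Multiplicative.toAdd (e y)).1)
      map_one' := by simp
      map_mul' := fun a b => by simp [mul_add, AddChar.map_add_eq_mul] }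
  have hlam : (⟨fun y => f y, CfsgLib.Clifford.isIrrCharacter_of_hom f⟩ : IrrCharacter (P : Subgroup G)) ≠ CfsgLib.CharBasics.oneChar := by
    intro h
    have h1 : (2 : ZMod (2 ^ m)) = 0 := by
      refine ZMod.injective_stdAddChar ?_
      have := congrFun (congrArg Subtype.val h) (e.symm (Multiplicative.ofAdd (1, 0)))
      simpa [f, CfsgLib.CharBasics.oneChar_apply] using this
    rw [show (2 : ZMod (2 ^ m)) = ((2 : ℕ) : ZMod (2 ^ m)) by norm_num, ZMod.natCast_eq_zero_iff] at h1
    have := Nat.le_of_dvd two_pos h1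
    have := Nat.pow_le_pow_right two_pos hm
    omega
  have hN := CfsgLib.ZStar.Homocyclic.sylow_normal D hM h16 _ hlam (fun y hy => ?_) hO
  · obtain ⟨Q, hQn, hQodd, hQmem⟩ := CfsgLib.Blocks.exists_regular_part_centralizer Nat.prime_two P.2 P.not_dvd_index
    have hQ := hO Q hQn (by rw [← Nat.not_even_iff_odd, even_iff_two_dvd]; exact hQodd)
    have hC : Subgroup.centralizer (P : Set G) = (P : Subgroup G) := by
      refine le_antisymm (fun x hx => ?_) fun y hy => Subgroup.mem_centralizer_iff.2 fun z hz => hab z hz y hy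
      obtain ⟨h1, -, ⟨k, hk⟩, h4, hp, hr⟩ := CfsgLib.ZStar.part_spec (p := 2) x
      have hrQ : CfsgLib.ZStar.prest 2 x ∈ Q := (hQmem _).2 ⟨h4, Subgroup.zpowers_le.2 hx hr⟩
      rw [hQ, Subgroup.mem_bot] at hrQ
      rw [hrQ, mul_one] at h1
      rw [← h1]
      exact CfsgLib.ZJ.mem_sylow_of_pow_eq_one P (Subgroup.normalizer_eq_top (P : Subgroup G) ▸ Subgroup.mem_top _) k
        (by rw [← hk, pow_orderOf_eq_one])
    refine ⟨hN, hC, ?_⟩
    have hrep : ∀ x : G, ∃ i : Fin 3, (QuotientGroup.mk x : G ⧸ (P : Subgroup G)) = QuotientGroup.mk (n ^ (i : ℕ)) := by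
      intro x
      obtain ⟨i, hi, hx⟩ := D.hnorm x (Subgroup.normalizer_eq_top (P : Subgroup G) ▸ Subgroup.mem_top _)
      refine ⟨⟨i, hi⟩, (QuotientGroup.eq.2 ?_).symm⟩
      rw [← hC, Subgroup.mem_centralizer_iff]
      intro y hy
      have e := hx y hy
      calc y * ((n ^ i)⁻¹ * x) = (n ^ i)⁻¹ * (n ^ i * y * (n ^ i)⁻¹) * x := by group
        _ = (n ^ i)⁻¹ * x * y := by rw [← e]; group
    have hle : (P : Subgroup G).index ≤ 3 := by
      rw [Subgroup.index]
      refine (Nat.card_le_card_of_surjective (fun i : Fin 3 => (QuotientGroup.mk (n ^ (i : ℕ)) : G ⧸ (P : Subgroup G)))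
        fun q => ?_).trans (Nat.card_fin 3).le
      obtain ⟨x, rfl⟩ := QuotientGroup.mk_surjective q
      obtain ⟨i, hi⟩ := hrep x
      exact ⟨i, hi.symm⟩
    have h2 := P.not_dvd_index
    have hpos := Nat.pos_of_ne_zero (P : Subgroup G).index_ne_zero_of_finite
    rcases (show (P : Subgroup G).index = 1 ∨ (P : Subgroup G).index = 2 ∨ (P : Subgroup G).index = 3 by omega) with h | h | h
    · exact Or.inl h
    · exact absurd h.symm.dvd h2
    · exact Or.inr h
  · have h1 : y ^ 2 = 1 := by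
      rw [← orderOf_dvd_iff_pow_eq_one, ← Subgroup.orderOf_coe, hy]
    have h2 := congrArg (fun z => (Multiplicative.toAdd (e z)).1) h1
    show ZMod.stdAddChar (2 * (Multiplicative.toAdd (e y)).1) = 1
    simp only [map_pow, map_one, toAdd_pow, toAdd_one, Prod.smul_fst, Prod.fst_zero, nsmul_eq_mul, Nat.cast_ofNat] at h2
    rw [show 2 * (Multiplicative.toAdd (e y)).1 = 0 by simpa using h2, AddChar.map_zero_eq_one]

end Cfsg.Agent.S0949
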