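import Cfsg.Statements.S0950
import Cfsg.Agent.ZStar.Q8Block
-- import your own Cfsg.Agent.* helpers here

set_option autoImplicit false
open Cfsg

namespace Cfsg.Agent.S0950

/-- Let S be a Sylow 2-subgroup of the finite group G that is isomorphic to the quaternion group of order 8, and suppose S has no normal complement in G. Then any two subgroups of order 4 of S are conjugate by an element of the normalizer of S. -/
theorem result {G : Type*} [Group G] [Finite G] (S : Sylow 2 G) (e : (S : Subgroup G) ≃* QuaternionGroup 2) (hnc : ∀ N : Subgroup G, N.Normal → ¬ Subgroup.IsComplement' N (S : Subgroup G)) (A B : Subgroup G) (hA : A ≤ S) (hB : B ≤ S) (hA4 : Nat.card A = 4) (hB4 : Nat.card B = 4) : ∃ n ∈ Subgroup.normalizer ((S : Subgroup G) : Set G), B = A.map (MulAut.conj n).toMonoidHom := by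
  haveI := Fact.mk Nat.prime_two
  have hgen : ∀ K : Subgroup G, K ≤ S → Nat.card K = 4 →
      ∃ y : (S : Subgroup G), y * y ≠ 1 ∧ Subgroup.zpowers (y : G) = K := by
    intro K hK h4
    have hex : ∃ k : K, (⟨k, hK k.2⟩ : (S : Subgroup G)) * ⟨k, hK k.2⟩ ≠ 1 := by
      by_contra hno
      push Not at hno
      classical
      haveI := Fintype.ofFinite K
      let f : K → QuaternionGroup 2 := fun k => e ⟨k, hK k.2⟩
      have hf : Function.Injective f := fun a b h => Subtype.ext (Subtype.mk.inj (e.injective h))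
      have hsub : Finset.univ.image f ⊆ {1, QuaternionGroup.a 2} := by
        intro q hq
        obtain ⟨k, -, rfl⟩ := Finset.mem_image.1 hq
        rw [Finset.mem_insert, Finset.mem_singleton]
        exact CfsgLib.ZStar.q8_sq_one _ (by show e _ * e _ = 1; rw [← map_mul, hno, map_one])
      have := Finset.card_le_card hsub
      rw [Finset.card_image_of_injective _ hf, Finset.card_univ, ← Nat.card_eq_fintype_card, h4] at this
      have h2 := this.trans Finset.card_le_two
      omega
    obtain ⟨k, hk⟩ := hex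
    refine ⟨⟨k, hK k.2⟩, hk, Subgroup.eq_of_le_of_card_ge (Subgroup.zpowers_le.2 k.2) ?_⟩
    rw [h4, Nat.card_zpowers]
    have h2 : ¬ orderOf (k : G) ∣ 2 := fun h => hk (Subtype.ext (by
      show (k : G) * k = 1
      rw [← pow_two]; exact orderOf_dvd_iff_pow_eq_one.1 h))
    have h3 : orderOf (k : G) ∣ 4 := by rw [← h4, Subgroup.orderOf_coe]; exact orderOf_dvd_natCard k
    have hmem : orderOf (k : G) ∈ Nat.divisors 4 := Nat.mem_divisors.2 ⟨h3, by norm_num⟩
    rw [show Nat.divisors 4 = {1, 2, 4} from rfl] at hmem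
    simp only [Finset.mem_insert, Finset.mem_singleton] at hmem
    rcases hmem with h | h | h
    · exact absurd (h ▸ (one_dvd 2)) h2
    · exact absurd (h ▸ dvd_rfl) h2
    · exact h.ge
  obtain ⟨y, hy, rfl⟩ := hgen A hA hA4
  obtain ⟨z, hz, rfl⟩ := hgen B hB hB4
  obtain ⟨n, hn, h⟩ := CfsgLib.ZStar.exists_normalizer_conj S e hnc y z hy hz
  refine ⟨n, hn, ?_⟩
  rw [MonoidHom.map_zpowers]
  have h' : (MulAut.conj n).toMonoidHom (y : G) = z ∨ (MulAut.conj n).toMonoidHom (y : G) = (z : G)⁻¹ := h
  rcases h' with h | h <;> rw [h]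
  rw [Subgroup.zpowers_inv]

end Cfsg.Agent.S0950
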