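import Cfsg.Statements.S0956
import Cfsg.Agent.Blocks.Green
import Cfsg.Agent.Blocks.DefectGroup


set_option autoImplicit false
open Cfsg

namespace Cfsg.Agent.S0956

open CfsgLib.Blocks CfsgLib.CharBasics

/-- Let D be a defect group of a block of the finite group G (relative to a maximal ideal M of the algebraic integers containing the prime p) and P a Sylow p-subgroup containing D. Then there is an element x of order prime to p such that D is a Sylow p-subgroup of the centralizer of x and D = P ∩ x P x⁻¹. -/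
theorem result {G : Type*} [Group G] [Finite G] (p : ℕ) [Fact p.Prime] (M : Ideal Cfsg.AlgInt) (hM : Cfsg.IsPModular p M) (B : Set (Cfsg.IrrCharacter G)) (hB : Cfsg.IsPBlock M B) (D : Subgroup G) (hD : Cfsg.IsDefectGroup p M B D) (P : Sylow p G) (hDP : D ≤ P) : ∃ x : G, ¬ p ∣ orderOf x ∧ (∃ S : Sylow p (Subgroup.centralizer ({x} : Set G)), (S : Subgroup (Subgroup.centralizer ({x} : Set G))).map (Subgroup.centralizer ({x} : Set G)).subtype = D) ∧ (P : Subgroup G) ⊓ (P : Subgroup G).map (MulAut.conj x).toMonoidHom = D := by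
  classical
  haveI := Fintype.ofFinite G
  have hp : p.Prime := hM.1
  obtain ⟨y, hy, S₀, hDe⟩ := id hD
  have hDp : IsPGroup p D := P.isPGroup'.to_le hDP
  have hDy : y ∈ Subgroup.centralizer (D : Set G) := by
    rw [Subgroup.mem_centralizer_iff]
    intro d hd
    obtain ⟨c, -, rfl⟩ : d ∈ (S₀ : Subgroup _).map (Subgroup.centralizer ({y} : Set G)).subtype := hDe ▸ hd
    exact Subgroup.mem_centralizer_singleton_iff.1 c.2
  set N := Subgroup.normalizer (D : Set G) with hN
  haveI := Fintype.ofFinite N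
  haveI : Fintype (ConjClasses N) := Fintype.ofFinite _
  have hDN : D ≤ N := Subgroup.le_normalizer
  obtain ⟨ξ, hξ⟩ := exists_not_small hM hB hDp hDN (Subgroup.centralizer_le_normalizer _) le_rfl hDy hy.2.1
  set D' := D.subgroupOf N with hD'
  haveI hD'n : D'.Normal := (Subgroup.normal_subgroupOf_iff_le_normalizer hDN).2 le_rfl
  haveI := Fintype.ofFinite D'
  haveI : Fintype (N ⧸ D') := Fintype.ofFinite _
  have hD'p : IsPGroup p D' := hDp.of_equiv (Subgroup.subgroupOfEquivOfLe hDN).symm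
  have hD'c : Nat.card D' = Nat.card D := Nat.card_congr (Subgroup.subgroupOfEquivOfLe hDN).toEquiv
  -- a character of the quotient nonzero on the idempotent
  obtain ⟨χ, θ, hθb, hθe⟩ := exists_inflated_mem hM D' hD'p (isPBlock_blockOf M ξ)
  have hθ : ¬ MemLocalIdeal M (omega (θ : N → ℂ) (CfsgLib.ZStar.res N (blockElt B))) := fun h => hξ (by
    have h1 := omega_sub_mem_of_sameBlock hM hθb (CfsgLib.ZStar.isClassElt_res (isClassElt_blockElt B) N)
      (CfsgLib.ZStar.isIntegralElt_res (isIntegralElt_blockElt hM hB) N)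
    simpa using memLocalIdeal_add hM h1 h)
  rw [omega_eq_sum_classes θ (CfsgLib.ZStar.isClassElt_res (isClassElt_blockElt B) N)] at hθ
  obtain ⟨K, hK1, hK2⟩ : ∃ K : ConjClasses N, ¬ MemLocalIdeal M (blockCoeff B ((K.out : N) : G)) ∧
      ¬ MemLocalIdeal M (centralChar (θ : N → ℂ) K.out) := by
    by_contra hcon
    push Not at hcon
    refine hθ (memLocalIdeal_sum hM _ fun K _ => ?_)
    rw [CfsgLib.ZStar.coeff_res, coeff_blockElt]
    by_cases h3 : MemLocalIdeal M (blockCoeff B ((K.out : N) : G))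
    · exact memLocalIdeal_mul_right hM h3 (memLocalRing_centralChar hM θ _)
    · exact memLocalIdeal_mul_left hM (memLocalRing_blockCoeff hM hB _) (hcon _ h3)
  set w : N := K.out with hw
  have hwD' : w ∈ Subgroup.centralizer (D' : Set N) :=
    by_contra fun h => hK2 (centralChar_mem_of_notMem_centralizer hM D' hD'p θ h)
  have hwreg : ¬ p ∣ orderOf w := fun h => hK1 (by
    rw [blockCoeff_eq_zero hM hB (by rwa [Subgroup.orderOf_coe])]
    exact memLocalIdeal_zero hM)
  have hwD : ∀ d ∈ D, d * (w : G) = (w : G) * d := fun d hd =>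
    congrArg Subtype.val (Subgroup.mem_centralizer_iff.1 hwD' ⟨d, hDN hd⟩ hd)
  set d := blockDefect p B with hd
  have hDc : Nat.card D = p ^ d := card_defectGroup hM hB hD
  -- `D` is a Sylow subgroup of the centralizer of `w`
  set C := Subgroup.centralizer ({(w : G)} : Set G) with hC
  have hDC : D ≤ C := fun q hq => Subgroup.mem_centralizer_singleton_iff.2 (hwD q hq)
  obtain ⟨T, hT⟩ := (hDp.of_equiv (Subgroup.subgroupOfEquivOfLe hDC).symm).exists_le_sylow
  have hTle : Nat.card ((T : Subgroup C).map C.subtype) ≤ p ^ d := by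
    obtain ⟨e, he⟩ := exists_conj_mem_defectGroup hM hB hK1 (T.isPGroup'.map C.subtype)
      (fun q hq => by
        obtain ⟨c, -, rfl⟩ := hq
        exact Subgroup.mem_centralizer_singleton_iff.1 c.2) hD
    rw [← hDc]
    exact Nat.card_le_card_of_injective (fun q => (⟨e * (q : G) * e⁻¹, he q q.2⟩ : D)) fun q q' h =>
      Subtype.ext (mul_left_cancel (mul_right_cancel (congrArg Subtype.val h)))
  have hTeq : (T : Subgroup C).map C.subtype = D := by
    refine (Subgroup.eq_of_le_of_card_ge (show D ≤ (T : Subgroup C).map C.subtype from fun q hq => ⟨⟨q, hDC hq⟩, hT hq, rfl⟩) ?_).symm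
    rw [hDc]
    exact hTle
  have hCd : (Nat.card C).factorization p = d := by
    have h := congrArg (fun H : Subgroup G => Nat.card H) hTeq
    simp only [Subgroup.card_map_of_injective C.subtype_injective, T.card_eq_multiplicity, hDc] at h
    exact Nat.pow_right_injective hp.two_le h
  -- the quotient
  have hwbar : (Subgroup.centralizer ({(w : N ⧸ D')} : Set (N ⧸ D'))).comap (QuotientGroup.mk' D') =
      Subgroup.centralizer ({w} : Set N) := by
    ext x
    rw [Subgroup.mem_comap, Subgroup.mem_centralizer_singleton_iff, Subgroup.mem_centralizer_singleton_iff]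
    refine ⟨fun h => ?_, fun h => congrArg (QuotientGroup.mk' D') h⟩
    have hu : w⁻¹ * (x * w * x⁻¹) ∈ D' := by
      rw [← QuotientGroup.eq]
      change (w : N ⧸ D') = QuotientGroup.mk' D' (x * w * x⁻¹)
      rw [map_mul, map_mul, map_inv]
      exact eq_mul_inv_of_mul_eq h.symm
    have hcm : Commute w (w⁻¹ * (x * w * x⁻¹)) := (Subgroup.mem_centralizer_iff.1 hwD' _ hu).symm
    have hord : orderOf (x * w * x⁻¹) = orderOf w :=
      orderOf_injective (MulAut.conj x).toMonoidHom (MulAut.conj x).injective w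
    obtain ⟨k, hk⟩ := hD'p ⟨_, hu⟩
    have hk' : (w⁻¹ * (x * w * x⁻¹)) ^ p ^ k = 1 := congrArg Subtype.val hk
    have hn : (w⁻¹ * (x * w * x⁻¹)) ^ orderOf w = 1 := by
      have h1 : (w * (w⁻¹ * (x * w * x⁻¹))) ^ orderOf w = 1 := by
        rw [mul_inv_cancel_left, ← hord, pow_orderOf_eq_one]
      rwa [hcm.mul_pow, pow_orderOf_eq_one, one_mul] at h1
    have h1 : w⁻¹ * (x * w * x⁻¹) = 1 := by
      refine orderOf_eq_one_iff.1 (Nat.dvd_one.1 ?_)
      rw [← ((hp.coprime_iff_not_dvd.2 hwreg).pow_left k).gcd_eq_one]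
      exact Nat.dvd_gcd (orderOf_dvd_of_pow_eq_one hk') (orderOf_dvd_of_pow_eq_one hn)
    exact mul_inv_eq_iff_eq_mul.1 (inv_mul_eq_one.1 h1).symm
  have hindex : (Subgroup.centralizer ({(w : N ⧸ D')} : Set (N ⧸ D'))).index =
      (Subgroup.centralizer ({w} : Set N)).index := by
    rw [← hwbar, Subgroup.index_comap_of_surjective _ (QuotientGroup.mk'_surjective D')]
  have hcardeq : Nat.card (Subgroup.centralizer ({w} : Set N)) =
      p ^ d * Nat.card (Subgroup.centralizer ({(w : N ⧸ D')} : Set (N ⧸ D'))) := by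
    refine mul_right_cancel₀ (Subgroup.index_ne_zero_of_finite (H := Subgroup.centralizer ({w} : Set N))) ?_
    rw [Subgroup.card_mul_index]
    conv_rhs => rw [mul_assoc, ← hindex, Subgroup.card_mul_index, ← hDc, ← hD'c, mul_comm]
    exact Subgroup.card_eq_card_quotient_mul_card_subgroup D'
  have hCN : centExp p w ≤ d := by
    rw [← hCd, centExp]
    refine (Nat.factorization_le_iff_dvd Nat.card_pos.ne' Nat.card_pos.ne').2 ?_ p
    rw [← Subgroup.card_map_of_injective N.subtype_injective]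
    refine Subgroup.card_dvd_of_le ?_
    rintro _ ⟨x, hx, rfl⟩
    exact Subgroup.mem_centralizer_singleton_iff.2
      (congrArg Subtype.val (Subgroup.mem_centralizer_singleton_iff.1 hx))
  have hC0 : ¬ p ∣ Nat.card (Subgroup.centralizer ({(w : N ⧸ D')} : Set (N ⧸ D'))) := by
    intro h
    have h1 := (hp.pow_dvd_iff_le_factorization (k := d + 1) Nat.card_pos.ne').1
      (show p ^ (d + 1) ∣ Nat.card (Subgroup.centralizer ({w} : Set N)) by
        rw [hcardeq, pow_succ]; exact mul_dvd_mul_left _ h)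
    have h2 : (Nat.card (Subgroup.centralizer ({w} : Set N))).factorization p ≤ d := hCN
    omega
  have hdeg : charDegree (θ : N → ℂ) = charDegree (χ : N ⧸ D' → ℂ) := by
    have h : (charDegree (θ : N → ℂ) : ℂ) = (charDegree (χ : N ⧸ D' → ℂ) : ℂ) := by
      rw [← apply_one (isCharacter_of_irr θ.2), ← apply_one (isCharacter_of_irr χ.2), hθe]; rfl
    exact_mod_cast h
  have hNc : (Nat.card N).factorization p = (Nat.card (N ⧸ D')).factorization p + d := by
    rw [Subgroup.card_eq_card_quotient_mul_card_subgroup D', hD'c, hDc,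
      Nat.factorization_mul Nat.card_pos.ne' (pow_ne_zero _ hp.ne_zero), Finsupp.add_apply, hp.factorization_pow,
      Finsupp.single_eq_same]
  have hfull : (Nat.card (N ⧸ D')).factorization p ≤ degExp p χ := by
    have h1 := le_centExp hM θ hK2
    have h2 : degExp p θ = degExp p χ := by rw [degExp, degExp, hdeg]
    omega
  have hcc : ¬ MemLocalIdeal M (centralChar (χ : N ⧸ D' → ℂ) (w : N ⧸ D')) := fun h => hK2 (by
    convert h using 1
    simp only [centralChar, hθe, Function.comp_apply, hindex, QuotientGroup.mk_one])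
  -- a Sylow subgroup of the quotient above the image of `P ∩ N`
  set R := ((P : Subgroup G).subgroupOf N).map (QuotientGroup.mk' D') with hR
  have hRp : IsPGroup p R := by
    refine IsPGroup.map ?_ _
    exact P.isPGroup'.comap_of_injective N.subtype N.subtype_injective
  obtain ⟨S, hS⟩ := hRp.exists_le_sylow
  obtain ⟨g, hg⟩ := exists_conj_inter_eq_bot hM hfull hC0 hcc S
  obtain ⟨n, rfl⟩ := QuotientGroup.mk_surjective g
  set x : G := (n : G) * (w : G) * (n : G)⁻¹ with hx
  have hnD : ∀ q : G, q ∈ D ↔ (n : G) * q * (n : G)⁻¹ ∈ D := fun q => Subgroup.mem_normalizer_iff.1 n.2 q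
  have hxD : ∀ q ∈ D, q * x = x * q := by
    intro q hq
    have h1 := hwD ((n : G)⁻¹ * q * n) ((hnD _).2 (by simpa [mul_assoc] using hq))
    have h2 := congrArg (fun t => (n : G) * t * (n : G)⁻¹) h1
    simpa [hx, mul_assoc] using h2
  refine ⟨x, ?_, ?_, ?_⟩
  · rw [hx, show orderOf ((n : G) * (w : G) * (n : G)⁻¹) = orderOf (w : G) from
      orderOf_injective (MulAut.conj (n : G)).toMonoidHom (MulAut.conj (n : G)).injective _, Subgroup.orderOf_coe]
    exact hwreg
  · have hDCx : D ≤ Subgroup.centralizer ({x} : Set G) := fun q hq => Subgroup.mem_centralizer_singleton_iff.2 (hxD q hq)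
    obtain ⟨T', hT'⟩ := (hDp.of_equiv (Subgroup.subgroupOfEquivOfLe hDCx).symm).exists_le_sylow
    refine ⟨T', (Subgroup.eq_of_le_of_card_ge (show D ≤ (T' : Subgroup (Subgroup.centralizer ({x} : Set G))).map (Subgroup.centralizer ({x} : Set G)).subtype from fun q hq => ⟨⟨q, hDCx hq⟩, hT' hq, rfl⟩) ?_).symm⟩
    rw [Subgroup.card_map_of_injective (Subgroup.centralizer ({x} : Set G)).subtype_injective, T'.card_eq_multiplicity,
      ← card_centralizer_eq (isConj_iff.2 ⟨(n : G), rfl⟩ : IsConj (w : G) x), ← hC, hCd, hDc]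
  · set Q := (P : Subgroup G) ⊓ (P : Subgroup G).map (MulAut.conj x).toMonoidHom with hQ
    have hmem : ∀ q, q ∈ Q ↔ q ∈ (P : Subgroup G) ∧ x⁻¹ * q * x ∈ (P : Subgroup G) := by
      intro q
      rw [hQ, Subgroup.mem_inf, Subgroup.mem_map_equiv, MulAut.conj_symm_apply]
    have hDQ : D ≤ Q := fun q hq => (hmem q).2 ⟨hDP hq, by rw [mul_assoc, hxD q hq, inv_mul_cancel_left]; exact hDP hq⟩
    have hkey : ∀ q ∈ Q, q ∈ N → q ∈ D := by
      intro q hq hqN
      have hxN : x⁻¹ * q * x ∈ N := Subgroup.mul_mem _ (Subgroup.mul_mem _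
        (Subgroup.inv_mem _ (Subgroup.mul_mem _ (Subgroup.mul_mem _ n.2 w.2) (Subgroup.inv_mem _ n.2))) hqN)
        (Subgroup.mul_mem _ (Subgroup.mul_mem _ n.2 w.2) (Subgroup.inv_mem _ n.2))
      have h1 : ((⟨q, hqN⟩ : N) : N ⧸ D') ∈ (S : Subgroup (N ⧸ D')) :=
        hS ⟨⟨q, hqN⟩, ((hmem q).1 hq).1, rfl⟩
      have h2 : ((⟨x⁻¹ * q * x, hxN⟩ : N) : N ⧸ D') ∈ (S : Subgroup (N ⧸ D')) :=
        hS ⟨⟨x⁻¹ * q * x, hxN⟩, ((hmem q).1 hq).2, rfl⟩
      have h3 : ((⟨q, hqN⟩ : N) : N ⧸ D') = 1 := by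
        refine hg _ h1 ?_
        convert h2 using 1
        rw [← QuotientGroup.mk_inv, ← QuotientGroup.mk_mul, ← QuotientGroup.mk_mul, ← QuotientGroup.mk_inv,
          ← QuotientGroup.mk_mul, ← QuotientGroup.mk_mul]
        exact congrArg _ (Subtype.ext (by simp [hx, mul_assoc]))
      exact Subgroup.mem_subgroupOf.1 ((QuotientGroup.eq_one_iff _).1 h3)
    refine le_antisymm ?_ hDQ
    by_contra hne
    have hQp : IsPGroup p Q := P.isPGroup'.to_le inf_le_left
    haveI : Group.IsNilpotent Q := hQp.isNilpotent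
    have hlt : D.subgroupOf Q < ⊤ := lt_top_iff_ne_top.2 fun h => hne (Subgroup.subgroupOf_eq_top.1 h)
    obtain ⟨q, hq1, hq2⟩ := SetLike.exists_of_lt (Group.normalizerCondition_of_isNilpotent (G := Q) _ hlt)
    refine hq2 (Subgroup.mem_subgroupOf.2 (hkey q q.2 (Subgroup.mem_normalizer_iff.2 fun c => ?_)))
    constructor
    · intro hc
      exact (Subgroup.mem_normalizer_iff.1 hq1 ⟨c, hDQ hc⟩).1 hc
    · intro hc
      have hcQ : c ∈ Q := by
        have := Q.mul_mem (Q.mul_mem (Q.inv_mem q.2) (hDQ hc)) q.2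
        simpa [mul_assoc] using this
      exact (Subgroup.mem_normalizer_iff.1 hq1 ⟨c, hcQ⟩).2 hc

end Cfsg.Agent.S0956
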