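import Cfsg.Statements.S0957
import Mathlib


set_option autoImplicit false
open Cfsg

namespace Cfsg.Agent.S0957

/-- Let P be a Sylow p-subgroup of the finite group G, let g, h ∈ G and let p ^ d be the order of a Sylow p-subgroup of the centralizer of g. Then the number of pairs (y, z) with y conjugate to g, z conjugate to h and z * y⁻¹ ∈ P is divisible by the order of P divided by p ^ d. -/
theorem result {G : Type*} [Group G] [Finite G] (p : ℕ) [Fact p.Prime] (P : Sylow p G) (g h : G) (S : Sylow p (Subgroup.centralizer ({g} : Set G))) : Nat.card P / Nat.card S ∣ Nat.card {yz : G × G // IsConj g yz.1 ∧ IsConj h yz.2 ∧ yz.2 * yz.1⁻¹ ∈ (P : Subgroup G)} := by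
  classical
  have hp : p.Prime := Fact.out
  set A := {yz : G × G // IsConj g yz.1 ∧ IsConj h yz.2 ∧ yz.2 * yz.1⁻¹ ∈ (P : Subgroup G)}
  letI : MulAction (P : Subgroup G) A :=
    { smul := fun u a => ⟨((u : G) * a.1.1 * (u : G)⁻¹, (u : G) * a.1.2 * (u : G)⁻¹),
        a.2.1.trans (isConj_iff.2 ⟨u, rfl⟩), a.2.2.1.trans (isConj_iff.2 ⟨u, rfl⟩), by
          have e : (u : G) * a.1.2 * (u : G)⁻¹ * ((u : G) * a.1.1 * (u : G)⁻¹)⁻¹ = (u : G) * (a.1.2 * a.1.1⁻¹) * (u : G)⁻¹ := by
            group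
          show _ * _ ∈ _
          rw [e]
          exact Subgroup.mul_mem _ (Subgroup.mul_mem _ u.2 a.2.2.2) (Subgroup.inv_mem _ u.2)⟩
      one_smul := fun a => Subtype.ext (Prod.ext
        (show ((1 : (P : Subgroup G)) : G) * a.1.1 * ((1 : (P : Subgroup G)) : G)⁻¹ = a.1.1 by simp)
        (show ((1 : (P : Subgroup G)) : G) * a.1.2 * ((1 : (P : Subgroup G)) : G)⁻¹ = a.1.2 by simp))
      mul_smul := fun u v a => Subtype.ext (Prod.ext
        (show ((u * v : (P : Subgroup G)) : G) * a.1.1 * ((u * v : (P : Subgroup G)) : G)⁻¹ =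
          (u : G) * ((v : G) * a.1.1 * (v : G)⁻¹) * (u : G)⁻¹ by simp [mul_assoc])
        (show ((u * v : (P : Subgroup G)) : G) * a.1.2 * ((u * v : (P : Subgroup G)) : G)⁻¹ =
          (u : G) * ((v : G) * a.1.2 * (v : G)⁻¹) * (u : G)⁻¹ by simp [mul_assoc])) }
  haveI : Fintype (MulAction.orbitRel.Quotient (P : Subgroup G) A) := Fintype.ofFinite _
  rw [Nat.card_congr (MulAction.selfEquivSigmaOrbits' (P : Subgroup G) A), Nat.card_sigma]
  refine Finset.dvd_sum fun q _ => ?_
  induction q using Quotient.inductionOn' with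
  | h a =>
    rw [MulAction.orbitRel.Quotient.orbit_mk, Nat.card_coe_set_eq, ← MulAction.index_stabilizer]
    set T := MulAction.stabilizer (P : Subgroup G) a
    obtain ⟨c, hc⟩ := isConj_iff.1 a.2.1
    -- centralizer of g
    -- the stabilizer embeds into the centralizer of `g`
    let f : (P : Subgroup G) →* G := (MulAut.conj c⁻¹).toMonoidHom.comp (P : Subgroup G).subtype
    have hf : Function.Injective f := (MulAut.conj c⁻¹).injective.comp (P : Subgroup G).subtype_injective
    have hle : T.map f ≤ Subgroup.centralizer ({g} : Set G) := by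
      rintro _ ⟨u, hu, rfl⟩
      have h1 : (u : G) * a.1.1 * (u : G)⁻¹ = a.1.1 := congrArg (fun z : A => z.1.1) hu
      rw [← hc] at h1
      have h2 := congrArg (fun z => c⁻¹ * z * c) h1
      refine Subgroup.mem_centralizer_singleton_iff.2 ?_
      show c⁻¹ * (u : G) * c⁻¹⁻¹ * g = g * (c⁻¹ * (u : G) * c⁻¹⁻¹)
      rw [inv_inv, ← mul_inv_eq_iff_eq_mul]
      calc c⁻¹ * (u : G) * c * g * (c⁻¹ * (u : G) * c)⁻¹ = c⁻¹ * ((u : G) * (c * g * c⁻¹) * (u : G)⁻¹) * c := by group
        _ = g := by rw [h2]; group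
    have hTp : IsPGroup p T := P.2.to_subgroup T
    obtain ⟨Q, hQ⟩ := ((hTp.map f).of_equiv (Subgroup.subgroupOfEquivOfLe hle).symm).exists_le_sylow
    have hd : Nat.card T ∣ Nat.card S := by
      have h1 := Subgroup.card_dvd_of_le hQ
      rw [Nat.card_congr (Subgroup.subgroupOfEquivOfLe hle).toEquiv, Subgroup.card_map_of_injective hf,
        Q.card_eq_multiplicity, ← S.card_eq_multiplicity] at h1
      exact h1
    have hSP : Nat.card S ∣ Nat.card P := by
      rw [S.card_eq_multiplicity, P.card_eq_multiplicity]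
      exact pow_dvd_pow p ((Nat.factorization_le_iff_dvd Nat.card_pos.ne' Nat.card_pos.ne').2
        (Subgroup.card_subgroup_dvd_card (Subgroup.centralizer ({g} : Set G))) p)
    obtain ⟨k, hk⟩ := hd
    obtain ⟨l, hl⟩ := hSP
    have hidx : Nat.card (P : Subgroup G) = Nat.card T * T.index := (Subgroup.card_mul_index T).symm
    rw [show Nat.card P / Nat.card S = l by rw [hl, Nat.mul_div_cancel_left _ Nat.card_pos]]
    refine ⟨k, Nat.eq_of_mul_eq_mul_left (Nat.card_pos (α := T)) ?_⟩
    rw [← hidx, show Nat.card (P : Subgroup G) = Nat.card S * l from hl, hk]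
    ring

end Cfsg.Agent.S0957
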