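import Cfsg.Statements.S0958
import Cfsg.Agent.Blocks.Covering
import Cfsg.Agent.S0919


set_option autoImplicit false
open Cfsg

namespace Cfsg.Agent.S0958

open CfsgLib.Blocks CfsgLib.CharBasics

/-- Let P be a p-subgroup of the finite group G and H a subgroup with P ⊔ C_G(P) ≤ H ≤ N_G(P); fix a maximal ideal M of the algebraic integers containing p. Then a block B of G is induced by some block of H if and only if some conjugate of P is contained in a defect group of B. -/
theorem result {G : Type*} [Group G] [Finite G] (p : ℕ) [Fact p.Prime] (M : Ideal Cfsg.AlgInt) (hM : Cfsg.IsPModular p M) (P H : Subgroup G) (hP : IsPGroup p P) (hPH : P ⊔ Subgroup.centralizer (P : Set G) ≤ H) (hHN : H ≤ Subgroup.normalizer (P : Set G)) (B : Set (Cfsg.IrrCharacter G)) (hB : Cfsg.IsPBlock M B) : (∃ b : Set (Cfsg.IrrCharacter H), Cfsg.IsInducedBlock M H b B) ↔ ∃ D : Subgroup G, Cfsg.IsDefectGroup p M B D ∧ ∃ x : G, P.map (MulAut.conj x).toMonoidHom ≤ D := by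
  classical
  haveI := Fintype.ofFinite G
  haveI := Fintype.ofFinite H
  have hPH' : P ≤ H := le_sup_left.trans hPH
  have hCH : Subgroup.centralizer (P : Set G) ≤ H := le_sup_right.trans hPH
  constructor
  · rintro ⟨b, hind⟩
    obtain ⟨ξ, hξ⟩ := IsPBlock.nonempty hM hind.1
    obtain ⟨χ, hχ⟩ := IsPBlock.nonempty hM hB
    haveI : (P.subgroupOf H).Normal := (Subgroup.normal_subgroupOf_iff_le_normalizer hPH').2 hHN
    have h1 := CfsgLib.ZStar.omega_res_induced hM hind hξ hχ (isClassElt_blockElt B) (isIntegralElt_blockElt hM hB)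
    rw [omega_blockElt, if_pos hχ] at h1
    obtain ⟨E, hE, hle⟩ := le_defectGroup_of_not_small hM hB (P.subgroupOf H)
      (hP.of_equiv (Subgroup.subgroupOfEquivOfLe hPH').symm) ξ
      (fun h => not_memLocalIdeal_one hM (by simpa using memLocalIdeal_sub hM h h1))
    refine ⟨E, hE, 1, ?_⟩
    rintro _ ⟨q, hq, rfl⟩
    simpa using hle ⟨⟨q, hPH' hq⟩, hq, rfl⟩
  · rintro ⟨D, hD, x, hx⟩
    obtain ⟨y, hy, S, rfl⟩ := hD
    have hy' : x⁻¹ * y * x ∈ Subgroup.centralizer (P : Set G) := by
      refine Subgroup.mem_centralizer_iff.2 fun q hq => ?_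
      have h1 : x * q * x⁻¹ * y = y * (x * q * x⁻¹) :=
        Subgroup.mem_centralizer_singleton_iff.1 (Subgroup.map_subtype_le _ (hx ⟨q, hq, rfl⟩))
      calc q * (x⁻¹ * y * x) = x⁻¹ * (x * q * x⁻¹ * y) * x := by group
        _ = x⁻¹ * (y * (x * q * x⁻¹)) * x := by rw [h1]
        _ = _ := by group
    have hunit : ¬ MemLocalIdeal M (blockCoeff B (x⁻¹ * y * x)) := by
      have := coeff_conj (isClassElt_blockElt B) y x⁻¹
      rw [inv_inv] at this
      rw [← coeff_blockElt, this, coeff_blockElt]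
      exact hy.2.1
    obtain ⟨ξ, hξ⟩ := exists_not_small hM hB hP hPH' hCH hHN hy' hunit
    obtain ⟨B', hind⟩ := Cfsg.Agent.S0919.result p M hM P H hP hPH' hCH hHN _ (isPBlock_blockOf M ξ)
    obtain ⟨χ', hχ'⟩ := IsPBlock.nonempty hM hind.2.1
    have h1 := CfsgLib.ZStar.omega_res_induced hM hind (mem_blockOf_self hM ξ) hχ' (isClassElt_blockElt B)
      (isIntegralElt_blockElt hM hB)
    rw [omega_blockElt] at h1
    have hmem : χ' ∈ B := by
      by_contra h
      rw [if_neg h, sub_zero] at h1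
      exact hξ h1
    exact ⟨_, IsPBlock.eq_of_mem hM hind.2.1 hB hχ' hmem ▸ hind⟩

end Cfsg.Agent.S0958
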