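import Cfsg.Statements.S0959
import Cfsg.Agent.Blocks.DefectGroup


set_option autoImplicit false
open Cfsg

namespace Cfsg.Agent.S0959

open CfsgLib.Blocks CfsgLib.CharBasics

/-- Let B be a block of the finite group G with defect group D (relative to a maximal ideal M of the algebraic integers containing the prime p), and let P be a p-subgroup. Then there is an element g whose idempotent coefficient for B is a local integer outside the local ideal at M and which has a conjugate centralizing P, if and only if some conjugate of P is contained in D. -/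
theorem result {G : Type*} [Group G] [Finite G] (p : ℕ) [Fact p.Prime] (M : Ideal Cfsg.AlgInt) (hM : Cfsg.IsPModular p M) (B : Set (Cfsg.IrrCharacter G)) (hB : Cfsg.IsPBlock M B) (D : Subgroup G) (hD : Cfsg.IsDefectGroup p M B D) (P : Subgroup G) (hP : IsPGroup p P) : (∃ g : G, Cfsg.MemLocalRing M (Cfsg.blockCoeff B g) ∧ ¬ Cfsg.MemLocalIdeal M (Cfsg.blockCoeff B g) ∧ ∃ c : G, IsConj g c ∧ c ∈ Subgroup.centralizer (P : Set G)) ↔ ∃ x : G, P.map (MulAut.conj x).toMonoidHom ≤ D := by
  classical
  haveI := Fintype.ofFinite G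
  constructor
  · rintro ⟨g, -, hg, c, hc, hcP⟩
    obtain ⟨e, rfl⟩ := isConj_iff.1 hc
    have hu : ¬ MemLocalIdeal M (blockCoeff B (e * g * e⁻¹)) := by
      rw [← coeff_blockElt, coeff_conj (isClassElt_blockElt B), coeff_blockElt]; exact hg
    obtain ⟨x, hx⟩ := exists_conj_mem_defectGroup hM hB hu hP
      (fun q hq => Subgroup.mem_centralizer_iff.1 hcP q hq) hD
    exact ⟨x, by rintro _ ⟨q, hq, rfl⟩; exact hx q hq⟩
  · rintro ⟨x, hx⟩
    obtain ⟨y, hy, S, rfl⟩ := hD
    refine ⟨y, hy.1, hy.2.1, x⁻¹ * y * x, isConj_iff.2 ⟨x⁻¹, by group⟩, Subgroup.mem_centralizer_iff.2 fun q hq => ?_⟩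
    have h1 : x * q * x⁻¹ * y = y * (x * q * x⁻¹) :=
      Subgroup.mem_centralizer_singleton_iff.1 (Subgroup.map_subtype_le _ (hx ⟨q, hq, rfl⟩))
    calc q * (x⁻¹ * y * x) = x⁻¹ * (x * q * x⁻¹ * y) * x := by group
      _ = x⁻¹ * (y * (x * q * x⁻¹)) * x := by rw [h1]
      _ = _ := by group

end Cfsg.Agent.S0959
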