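import Cfsg.Statements.S0965
import Cfsg.Agent.Blocks.PIndex


set_option autoImplicit false
open Cfsg

namespace Cfsg.Agent.S0965

open CfsgLib.Blocks CfsgLib.CharBasics

/-- Let N be a normal subgroup of the finite group G and let B, b be blocks of G and of N relative to a maximal ideal M of the algebraic integers containing the prime p. Then some χ ∈ B has a constituent in b on restriction to N if and only if, for all χ ∈ B, θ ∈ b and n ∈ N, the central character of χ at n is congruent modulo the local ideal at M to the sum of θ m / θ 1 over the elements m ∈ N conjugate in G to n. -/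
theorem result {G : Type*} [Group G] [Fintype G] (p : ℕ) [Fact p.Prime] (M : Ideal Cfsg.AlgInt) (hM : Cfsg.IsPModular p M) (N : Subgroup G) [N.Normal] [Fintype N] (B : Set (Cfsg.IrrCharacter G)) (hB : Cfsg.IsPBlock M B) (b : Set (Cfsg.IrrCharacter N)) (hb : Cfsg.IsPBlock M b) : (∃ χ ∈ B, ∃ θ ∈ b, Cfsg.classInner (fun n : N => (χ : G → ℂ) n) (θ : N → ℂ) ≠ 0) ↔ ∀ χ ∈ B, ∀ θ ∈ b, ∀ n : N, Cfsg.MemLocalIdeal M (Cfsg.centralChar (χ : G → ℂ) (n : G) - Cfsg.inducedCentralChar N (θ : N → ℂ) (n : G)) := by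
  classical
  constructor
  · rintro ⟨χ₀, hχ₀, θ₀, hθ₀, hne⟩ χ hχ θ hθ n
    have h1 := (IsPBlock.mem_iff hM hB hχ₀).1 hχ (n : G)
    have h2 := omega_sub_mem_of_sameBlock hM ((IsPBlock.mem_iff hM hb hθ₀).1 hθ)
      (CfsgLib.ZStar.isClassElt_res (isClassElt_classElt (n : G)) N)
      (CfsgLib.ZStar.isIntegralElt_res (isIntegralElt_classElt hM (n : G)) N)
    rw [omega_res_classElt, omega_res_classElt, ← (Cfsg.Agent.S0963.result N χ₀ θ₀).1 hne n] at h2
    have h3 := memLocalIdeal_sub hM h2 h1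
    rw [sub_sub_sub_cancel_left] at h3
    exact h3
  · intro h
    haveI : Fintype (ConjClasses G) := Fintype.ofFinite _
    obtain ⟨χ, hχ⟩ := IsPBlock.nonempty hM hB
    obtain ⟨θ, hθ⟩ := IsPBlock.nonempty hM hb
    obtain ⟨φ, hφ⟩ := exists_constituent_restrict N χ
    obtain ⟨ψ, hψ⟩ := exists_over_character (G := G) θ
    obtain ⟨g, φ', hφ', he⟩ := exists_conj_mem_blockOf hM θ φ fun z hz hzi hsupp => by
      rw [← omega_eq_res_constituent hz hsupp ψ θ hψ, ← omega_eq_res_constituent hz hsupp χ φ hφ,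
        omega_eq_sum_classes ψ hz, omega_eq_sum_classes χ hz, ← Finset.sum_sub_distrib]
      refine memLocalIdeal_sum hM _ fun C _ => ?_
      rw [← mul_sub]
      by_cases hC : C.out ∈ N
      · refine memLocalIdeal_mul_left hM (hzi _) ?_
        rw [(Cfsg.Agent.S0963.result N ψ θ).1 hψ ⟨C.out, hC⟩, ← neg_sub]
        exact memLocalIdeal_neg (h χ hχ θ hθ ⟨C.out, hC⟩)
      · rw [hsupp _ hC, zero_mul]; exact memLocalIdeal_zero hM
    refine ⟨χ, hχ, φ', (IsPBlock.mem_iff hM hb hθ).2 hφ', ?_⟩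
    rw [he, ← CfsgLib.Clifford.conjFun_restrict (isClassFunction (isCharacter_of_irr χ.2)) g,
      CfsgLib.Clifford.classInner_conjFun]
    exact hφ

end Cfsg.Agent.S0965
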