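import Cfsg.Statements.S0967
import Cfsg.Agent.Blocks.Covering


set_option autoImplicit false
open Cfsg

namespace Cfsg.Agent.S0967

open CfsgLib.Blocks CfsgLib.CharBasics

/-- Let N be a normal subgroup of the finite group G of order prime to p and fix a maximal ideal M of the algebraic integers containing p. If χ is an irreducible character of G ⧸ N and ψ lies in the block of its inflation χ ∘ (quotient map), then ψ is itself inflated from an irreducible character ψ' of G ⧸ N lying in the block of χ. (Over a normal p'-subgroup, blocks of the quotient are whole blocks of G.) -/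
theorem result {G : Type*} [Group G] [Finite G] (p : ℕ) [Fact p.Prime] (M : Ideal Cfsg.AlgInt) (hM : Cfsg.IsPModular p M) (N : Subgroup G) [N.Normal] (hN : ¬ p ∣ Nat.card N) (χ : Cfsg.IrrCharacter (G ⧸ N)) (ψ : Cfsg.IrrCharacter G) (hψ : ψ ∈ Cfsg.blockOf M ((χ : G ⧸ N → ℂ) ∘ QuotientGroup.mk)) : ∃ ψ' : Cfsg.IrrCharacter (G ⧸ N), (ψ : G → ℂ) = (ψ' : G ⧸ N → ℂ) ∘ QuotientGroup.mk ∧ Cfsg.SameBlock M (χ : G ⧸ N → ℂ) (ψ' : G ⧸ N → ℂ) := by
  classical
  haveI := Fintype.ofFinite G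
  haveI := Fintype.ofFinite N
  let χ' : IrrCharacter G := ⟨_, irr_comp_of_surjective χ.2 (QuotientGroup.mk' N) (QuotientGroup.mk'_surjective N)⟩
  have hone : classInner (fun n : N => (χ' : G → ℂ) n) (fun _ : N => (1 : ℂ)) ≠ 0 := by
    have e : (fun n : N => (χ' : G → ℂ) n) = fun n : N => (χ : G ⧸ N → ℂ) 1 := funext fun n => by
      show (χ : G ⧸ N → ℂ) (QuotientGroup.mk' N n) = _
      rw [QuotientGroup.mk'_apply, (QuotientGroup.eq_one_iff (n : G)).2 n.2]
    rw [e, classInner_eq]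
    simp [apply_one_ne_zero χ.2]
  have h1 := constituent_of_sameBlock hM hN (χ := χ') hψ (θ := ⟨_, isIrrCharacter_one⟩) hone
  obtain ⟨ψ', hψ'⟩ := exists_quotient_irr ψ N fun g hg => eq_one_of_constituent_one h1 hg
  have he : (ψ : G → ℂ) = (ψ' : G ⧸ N → ℂ) ∘ QuotientGroup.mk := funext fun g => (hψ' g).symm
  have hs : SameBlock M ((χ : G ⧸ N → ℂ) ∘ QuotientGroup.mk) ((ψ' : G ⧸ N → ℂ) ∘ QuotientGroup.mk) := he ▸ hψ
  exact ⟨ψ', he, sameBlock_of_inflate hM hN hs⟩

end Cfsg.Agent.S0967
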