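import Cfsg.Statements.S0968
import Cfsg.Agent.Blocks.CentralDefect


set_option autoImplicit false
open Cfsg

namespace Cfsg.Agent.S0968

open CfsgLib.Blocks CfsgLib.CharBasics

/-- Let P be a p-subgroup of the finite group G with P ⊔ C_G(P) = G, and let B be a block with defect group P relative to a maximal ideal M of the algebraic integers containing p. Then there is exactly one θ ∈ B with θ x = θ 1 for all x ∈ P; for this θ the exponent of p in θ(1) equals the exponent of p in the index of P; and the number of members of B equals the number of conjugacy classes of P. -/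
theorem result {G : Type*} [Group G] [Finite G] (p : ℕ) [Fact p.Prime] (M : Ideal Cfsg.AlgInt) (hM : Cfsg.IsPModular p M) (P : Subgroup G) (hP : IsPGroup p P) (hG : P ⊔ Subgroup.centralizer (P : Set G) = ⊤) (B : Set (Cfsg.IrrCharacter G)) (hB : Cfsg.IsPBlock M B) (hD : Cfsg.IsDefectGroup p M B P) : (∃! θ : Cfsg.IrrCharacter G, θ ∈ B ∧ ∀ x ∈ P, (θ : G → ℂ) x = (θ : G → ℂ) 1) ∧ (∀ θ ∈ B, (∀ x ∈ P, (θ : G → ℂ) x = (θ : G → ℂ) 1) → (Cfsg.charDegree (θ : G → ℂ)).factorization p = P.index.factorization p) ∧ Nat.card B = Nat.card (ConjClasses P) := by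
  classical
  haveI := Fintype.ofFinite G
  haveI := Fintype.ofFinite P
  obtain ⟨θ, hθ, hθP, hθd, hmin⟩ := exists_trivial_member hM hP hG hB hD
  obtain ⟨hex, hall⟩ := block_structure hM hP hG hB hθ hθP hθd hmin
  have hp : p.Prime := hM.1
  have h1reg : ¬ p ∣ orderOf (1 : G) := by rw [orderOf_one]; exact hp.not_dvd_one
  have hval : ∀ (ζ : IrrCharacter P) (y : P),
      prodFun p P (ζ : P → ℂ) (θ : G → ℂ) (y : G) = (ζ : P → ℂ) y * (θ : G → ℂ) 1 := fun ζ y => by
    simpa using prodFun_apply hM hP hG (ζ : P → ℂ) (θ : G → ℂ) y h1reg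
  have hone : ∀ ρ ∈ B, (∀ y ∈ P, (ρ : G → ℂ) y = (ρ : G → ℂ) 1) →
      (ρ : G → ℂ) = prodFun p P (fun _ => 1) (θ : G → ℂ) := by
    intro ρ hρ hρP
    obtain ⟨ζ, he⟩ := hall ρ hρ
    have hconst : ∀ y : P, (ζ : P → ℂ) y = (ζ : P → ℂ) 1 := fun y => by
      have h := hρP y y.2
      rw [he, hval ζ y, show ((1 : G)) = ((1 : P) : G) from rfl, hval ζ 1] at h
      exact mul_right_cancel₀ (apply_one_ne_zero θ.2) h
    have h2 := classInner_self ζ.2
    rw [classInner_eq, Finset.sum_congr rfl (g := fun _ => (ζ : P → ℂ) 1 * starRingEnd ℂ ((ζ : P → ℂ) 1))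
      (fun y _ => by rw [hconst y]), Finset.sum_const, Finset.card_univ, ← Nat.card_eq_fintype_card, nsmul_eq_mul,
      inv_mul_cancel_left₀ (Nat.cast_ne_zero.2 Nat.card_pos.ne'), apply_one (isCharacter_of_irr ζ.2),
      Complex.conj_natCast] at h2
    have h3 : charDegree (ζ : P → ℂ) * charDegree (ζ : P → ℂ) = 1 := by exact_mod_cast h2
    rw [he]
    congr 1
    funext y
    rw [hconst y, apply_one (isCharacter_of_irr ζ.2), Nat.eq_one_of_mul_eq_one_right h3, Nat.cast_one]
  refine ⟨⟨θ, ⟨hθ, hθP⟩, fun ρ hρ => Subtype.ext ((hone ρ hρ.1 hρ.2).trans (hone θ hθ hθP).symm)⟩,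
    fun ρ hρ hρP => ?_, ?_⟩
  · rw [show ρ = θ from Subtype.ext ((hone ρ hρ hρP).trans (hone θ hθ hθP).symm)]
    exact hθd
  · choose f hfB hf using hex
    rw [← card_irr]
    refine (Nat.card_eq_of_bijective (fun ζ => (⟨f ζ, hfB ζ⟩ : B)) ⟨fun ζ ζ' h => ?_, fun ρ => ?_⟩).symm
    · refine Subtype.ext (funext fun y => ?_)
      have h' : (f ζ : G → ℂ) y = (f ζ' : G → ℂ) y := by
        have := congrArg (fun q : B => ((q : IrrCharacter G) : G → ℂ) y) h
        exact this
      rw [hf, hf, hval, hval] at h'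
      exact mul_right_cancel₀ (apply_one_ne_zero θ.2) h'
    · obtain ⟨ζ, he⟩ := hall ρ ρ.2
      exact ⟨ζ, Subtype.ext (Subtype.ext ((hf ζ).trans he.symm))⟩

end Cfsg.Agent.S0968
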