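import Cfsg.Statements.S0969
import Cfsg.Agent.Blocks.DefectGroup
import Cfsg.Agent.Blocks.Section


set_option autoImplicit false
open Cfsg

namespace Cfsg.Agent.S0969

open CfsgLib.Blocks CfsgLib.CharBasics

open scoped ComplexConjugate

universe u

variable {G : Type u} [Group G] [Fintype G]

private theorem isClassElt_single_center {d : G} (hd : d ∈ Subgroup.center G) :
    IsClassElt (MonoidAlgebra.single d (1 : ℂ)) := by
  classical
  intro g h
  simp only [MonoidAlgebra.coeff_single, Finsupp.single_apply]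
  refine if_congr ?_ rfl rfl
  constructor
  · intro e
    have h1 : h⁻¹ * d * h = g := by rw [e]; group
    rw [← h1, mul_assoc, ← Subgroup.mem_center_iff.1 hd h, inv_mul_cancel_left]
  · rintro rfl
    rw [Subgroup.mem_center_iff.1 hd h, mul_inv_cancel_right]

private theorem normSq_center_mul (ψ : IrrCharacter G) {d : G} (hd : d ∈ Subgroup.center G) (u : G) :
    Complex.normSq ((ψ : G → ℂ) (d * u)) = Complex.normSq ((ψ : G → ℂ) u) := by
  classical
  have h1 := apply_one_ne_zero ψ.2
  have hm : ∀ v : G, (ψ : G → ℂ) (d * v) * (ψ : G → ℂ) 1 = (ψ : G → ℂ) d * (ψ : G → ℂ) v := by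
    intro v
    have h := omega_mul ψ.2 (isClassElt_single_center hd) (MonoidAlgebra.single v (1 : ℂ))
    rw [MonoidAlgebra.single_mul_single, omega_single, omega_single, omega_single, mul_one, one_mul, one_mul,
      one_mul, div_mul_div_comm, div_eq_div_iff h1 (mul_ne_zero h1 h1)] at h
    exact mul_right_cancel₀ h1 (by linear_combination h)
  have hd1 : Complex.normSq ((ψ : G → ℂ) d) = Complex.normSq ((ψ : G → ℂ) 1) := by
    have h := hm d⁻¹
    rw [mul_inv_cancel, apply_inv (isCharacter_of_irr ψ.2) d] at h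
    have h' := congrArg (fun z : ℂ => ‖z‖) h
    simp only [norm_mul, Complex.norm_conj] at h'
    rw [Complex.normSq_eq_norm_sq, Complex.normSq_eq_norm_sq, sq, sq, h']
  have h := congrArg Complex.normSq (hm u)
  rw [Complex.normSq_mul, Complex.normSq_mul, hd1, mul_comm] at h
  exact mul_left_cancel₀ (fun e => h1 (Complex.normSq_eq_zero.1 e)) h

private theorem eq_of_regular {p : ℕ} (hp : p.Prime) {D : Subgroup G} (hD : IsPGroup p D)
    (hDZ : D ≤ Subgroup.center G) {d d' u u' : G} (hd : d ∈ D) (hd' : d' ∈ D) (hu : ¬ p ∣ orderOf u)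
    (hu' : ¬ p ∣ orderOf u') (h : d * u = d' * u') : d = d' ∧ u = u' := by
  haveI := Fact.mk hp
  have hpart : ∀ x ∈ D, ∀ v : G, ¬ p ∣ orderOf v → IsPPart p (x * v) x := by
    intro x hx v hv
    obtain ⟨k, hk⟩ := IsPGroup.iff_orderOf.1 hD ⟨x, hx⟩
    exact ⟨v, rfl, (Subgroup.mem_center_iff.1 (hDZ hx) v).symm, ⟨k, by rwa [← Subgroup.orderOf_coe] at hk⟩, hv⟩
  have h1 := hpart d hd u hu
  rw [h] at h1
  have hdd := isPPart_unique hp h1 (hpart d' hd' u' hu')
  exact ⟨hdd, mul_left_cancel (hdd ▸ h)⟩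

/-- Let D be a central p-subgroup of the finite group G and χ an irreducible character with the exponent of p in χ(1) equal to the exponent of p in the index of D; fix a maximal ideal M of the algebraic integers containing p. Then D is a defect group of the block of χ, and χ g = 0 whenever the p-part of g does not lie in D. -/
theorem result {G : Type*} [Group G] [Finite G] (p : ℕ) [Fact p.Prime] (M : Ideal Cfsg.AlgInt) (hM : Cfsg.IsPModular p M) (D : Subgroup G) (hD : IsPGroup p D) (hDZ : D ≤ Subgroup.center G) (χ : Cfsg.IrrCharacter G) (hdeg : (Cfsg.charDegree (χ : G → ℂ)).factorization p = D.index.factorization p) : Cfsg.IsDefectGroup p M (Cfsg.blockOf M (χ : G → ℂ)) D ∧ ∀ g x : G, Cfsg.IsPPart p g x → x ∉ D → (χ : G → ℂ) g = 0 := by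
  classical
  haveI := Fintype.ofFinite G
  haveI := Fintype.ofFinite D
  have hp : p.Prime := hM.1
  set a := (Nat.card G).factorization p with ha
  set b := D.index.factorization p with hb
  set m := Nat.card G / p ^ a with hm
  obtain ⟨e, he⟩ := IsPGroup.iff_card.1 hD
  have hae : a = e + b := by
    rw [ha, hb, ← Subgroup.card_mul_index D, Nat.factorization_mul Nat.card_pos.ne' Subgroup.index_ne_zero_of_finite,
      Finsupp.add_apply, he, hp.factorization_pow, Finsupp.single_eq_same]
  have hGc : (Nat.card G : ℝ) = (p : ℝ) ^ e * ((p : ℝ) ^ b * m) := by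
    rw [← mul_assoc, ← pow_add, ← hae, ← Nat.cast_pow, ← Nat.cast_mul, hm, ha, Nat.ordProj_mul_ordCompl_eq_self]
  have hm0 : (0 : ℝ) < m := by exact_mod_cast Nat.ordCompl_pos p Nat.card_pos.ne'
  have hp0 : (0 : ℝ) < p := by exact_mod_cast hp.pos
  let R : IrrCharacter G → IrrCharacter G → ℝ := fun φ ρ => (regSum p (φ : G → ℂ) (ρ : G → ℂ)).re
  have hR : ∀ φ ρ : IrrCharacter G, R φ ρ = (regInt p (φ : G → ℂ) (ρ : G → ℂ) : ℝ) * m := by
    intro φ ρ
    simp only [R, regSum_eq_regInt hp (isCharacter_of_irr φ.2) (isCharacter_of_irr ρ.2), hm, ha]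
    simp
  have htot : ∀ φ : IrrCharacter G, ∑ g : G, Complex.normSq ((φ : G → ℂ) g) = (Nat.card G : ℝ) := by
    intro φ
    have h := classInner_self φ.2
    rw [classInner_eq, inv_mul_eq_iff_eq_mul₀ (Nat.cast_ne_zero.2 Nat.card_pos.ne'), mul_one] at h
    have h' : ((∑ g : G, Complex.normSq ((φ : G → ℂ) g) : ℝ) : ℂ) = ((Nat.card G : ℝ) : ℂ) := by
      push_cast
      rw [← h]
      exact Finset.sum_congr rfl fun g _ => (Complex.mul_conj _).symm
    exact_mod_cast h'
  let S : Finset G := ((Finset.univ : Finset D) ×ˢ Finset.univ.filter (fun u : G => ¬ p ∣ orderOf u)).image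
    (fun q => (q.1 : G) * q.2)
  have hS : ∀ φ : IrrCharacter G, ∑ g ∈ S, Complex.normSq ((φ : G → ℂ) g) = (p : ℝ) ^ e * R φ φ := by
    intro φ
    rw [Finset.sum_image, Finset.sum_product]
    · rw [Finset.sum_congr rfl (fun d _ => Finset.sum_congr rfl (fun u _ => normSq_center_mul φ (hDZ d.2) u)),
        Finset.sum_const, Finset.card_univ, ← Nat.card_eq_fintype_card, he, nsmul_eq_mul, Nat.cast_pow]
      congr 1
      simp only [R, regSum, Complex.re_sum, Finset.sum_filter]
      refine Finset.sum_congr rfl fun g _ => ?_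
      split_ifs <;> simp [Complex.mul_conj]
    · intro q hq q' hq' h
      simp only [Finset.coe_product, Set.mem_prod, Finset.mem_coe, Finset.mem_filter, Finset.mem_univ, true_and] at hq hq'
      obtain ⟨h1, h2⟩ := eq_of_regular hp hD hDZ q.1.2 q'.1.2 hq hq' h
      exact Prod.ext (Subtype.ext h1) h2
  have hle : ∀ φ : IrrCharacter G, R φ φ ≤ (p : ℝ) ^ b * m := by
    intro φ
    refine le_of_mul_le_mul_left ?_ (pow_pos hp0 e)
    rw [← hS, ← hGc, ← htot φ]
    exact Finset.sum_le_univ_sum_of_nonneg fun g => Complex.normSq_nonneg _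
  have hdvd : ∀ ρ : IrrCharacter G, (p : ℤ) ^ b ∣ regInt p (χ : G → ℂ) (ρ : G → ℂ) := fun ρ => by
    have := pow_dvd_regInt hM χ ρ
    rwa [show degExp p χ = b from hdeg] at this
  have hTz : regInt p (χ : G → ℂ) (χ : G → ℂ) = (p : ℤ) ^ b := by
    have h1 := (regInt_self_bounds hp χ).1
    have h2 := hle χ
    rw [hR] at h2
    have h3 := le_of_mul_le_mul_right h2 hm0
    exact le_antisymm (by exact_mod_cast h3) (Int.le_of_dvd h1 (hdvd χ))
  refine ⟨?_, fun g x hx hxD => ?_⟩
  · set B := blockOf M (χ : G → ℂ) with hBdef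
    have hB := isPBlock_blockOf M χ
    obtain ⟨ψ, hψ, hmin, hs⟩ := exists_min_degExp hM hB
    have hd : degExp p ψ = b := by
      obtain ⟨k, hk⟩ : (p : ℤ) ^ b ∣ regInt p (ψ : G → ℂ) (χ : G → ℂ) := by
        rw [regInt_comm hp]; exact hdvd ψ
      have hk0 : k ≠ 0 := by
        rintro rfl
        exact regInt_not_dvd hM hB hψ hmin (mem_blockOf_self hM χ) (by rw [hk, mul_zero]; exact dvd_zero _)
      obtain ⟨s, hs2, hsk⟩ : ∃ s : ℝ, s * s = 1 ∧ 1 ≤ s * (k : ℝ) := by
        rcases lt_or_gt_of_ne hk0 with h | h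
        · refine ⟨-1, by norm_num, ?_⟩
          have : (k : ℝ) ≤ -1 := by exact_mod_cast Int.le_sub_one_of_lt h
          linarith
        · refine ⟨1, one_mul 1, ?_⟩
          have : (1 : ℝ) ≤ k := by exact_mod_cast h
          linarith
      have hexp : ∑ g ∈ Finset.univ.filter (fun u : G => ¬ p ∣ orderOf u),
          Complex.normSq ((ψ : G → ℂ) g - (s : ℂ) * (χ : G → ℂ) g) = R ψ ψ + R χ χ - 2 * s * R ψ χ := by
        simp only [R, regSum, Complex.re_sum, Finset.mul_sum, ← Finset.sum_add_distrib, ← Finset.sum_sub_distrib,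
          Finset.sum_filter]
        refine Finset.sum_congr rfl fun g _ => ?_
        split_ifs with h
        · simp
        · simp only [Complex.normSq_apply, Complex.mul_re, Complex.mul_im, Complex.sub_re, Complex.sub_im,
            Complex.ofReal_re, Complex.ofReal_im, Complex.conj_re, Complex.conj_im]
          linear_combination ((χ : G → ℂ) g).re * ((χ : G → ℂ) g).re * hs2
            + ((χ : G → ℂ) g).im * ((χ : G → ℂ) g).im * hs2
      have hle0 : R ψ ψ + R χ χ - 2 * s * R ψ χ ≤ 0 := by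
        have h1 := hle ψ
        have h2 := hle χ
        have h3 : (p : ℝ) ^ b * m ≤ s * R ψ χ := by
          rw [hR, hk]
          push_cast
          calc (p : ℝ) ^ b * m = (p : ℝ) ^ b * m * 1 := (mul_one _).symm
            _ ≤ (p : ℝ) ^ b * m * (s * k) := mul_le_mul_of_nonneg_left hsk (by positivity)
            _ = _ := by ring
        linarith
      rw [← hexp] at hle0
      have h1 := (Finset.sum_eq_zero_iff_of_nonneg (fun g _ => Complex.normSq_nonneg _)).1
        (le_antisymm hle0 (Finset.sum_nonneg fun g _ => Complex.normSq_nonneg _)) 1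
        (Finset.mem_filter.2 ⟨Finset.mem_univ _, by rw [orderOf_one]; exact hp.not_dvd_one⟩)
      rw [Complex.normSq_eq_zero, sub_eq_zero, apply_one (isCharacter_of_irr ψ.2), apply_one (isCharacter_of_irr χ.2)] at h1
      have h2 := congrArg Complex.normSq h1
      rw [Complex.normSq_mul, Complex.normSq_ofReal, hs2, one_mul, Complex.normSq_natCast, Complex.normSq_natCast] at h2
      have h3 : charDegree (ψ : G → ℂ) * charDegree (ψ : G → ℂ) = charDegree (χ : G → ℂ) * charDegree (χ : G → ℂ) := by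
        exact_mod_cast h2
      rw [degExp, Nat.mul_self_inj.1 h3]
      exact hdeg
    have hdef : blockDefect p B = e := by rw [blockDefect_eq hs, hd, ← ha, hae, Nat.add_sub_cancel]
    obtain ⟨y, hy⟩ := exists_defectClass hM hB
    set C := Subgroup.centralizer ({y} : Set G) with hC
    have hDC : D ≤ C := fun d hd => Subgroup.mem_centralizer_singleton_iff.2
      (Subgroup.mem_center_iff.1 (hDZ hd) y).symm
    obtain ⟨P, hP⟩ := (hD.of_equiv (Subgroup.subgroupOfEquivOfLe hDC).symm).exists_le_sylow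
    refine ⟨y, hy, P, ?_⟩
    have hle' : D ≤ (P : Subgroup C).map C.subtype := fun d hd => ⟨⟨d, hDC hd⟩, hP hd, rfl⟩
    refine Subgroup.eq_of_le_of_card_ge hle' ?_
    rw [card_defectGroup hM hB ⟨y, hy, P, rfl⟩, hdef, he]
  · have h1 : ∑ g ∈ S, Complex.normSq ((χ : G → ℂ) g) = ∑ g : G, Complex.normSq ((χ : G → ℂ) g) := by
      rw [hS, htot, hR, hTz, hGc]
      push_cast
      ring
    have hgS : g ∉ S := by
      intro hg
      simp only [S, Finset.mem_image, Finset.mem_product, Finset.mem_filter, Finset.mem_univ, true_and] at hg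
      obtain ⟨⟨d, u⟩, hu, rfl⟩ := hg
      obtain ⟨k, hk⟩ := IsPGroup.iff_orderOf.1 hD d
      have hd : IsPPart p ((d : G) * u) (d : G) :=
        ⟨u, rfl, (Subgroup.mem_center_iff.1 (hDZ d.2) u).symm, ⟨k, by rw [Subgroup.orderOf_coe, hk]⟩, hu⟩
      exact hxD (isPPart_unique hp hx hd ▸ d.2)
    rw [← Finset.sum_add_sum_compl S (fun g => Complex.normSq ((χ : G → ℂ) g)), left_eq_add] at h1
    exact Complex.normSq_eq_zero.1
      ((Finset.sum_eq_zero_iff_of_nonneg (fun g _ => Complex.normSq_nonneg _)).1 h1 g (Finset.mem_compl.2 hgS))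

end Cfsg.Agent.S0969
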