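import Cfsg.Statements.S0973
import Cfsg.Agent.Blocks.InertialIndex
import Cfsg.Agent.S0958
-- import your own Cfsg.Agent.* helpers here

set_option autoImplicit false
open Cfsg

namespace Cfsg.Agent.S0973

/-- Let B be a block of the finite group G with defect group P (relative to a maximal ideal M of the algebraic integers containing p), and let L = P ⊔ C_G(P). Then (i) some block b of L with defect group P (viewed in L) induces B, and (ii) if b and b' are blocks of L both inducing B, there is n ∈ N_G(P) carrying b to b': for every θ ∈ b there is θ' ∈ b' with θ' x = θ (n x n⁻¹) for all x ∈ L. -/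
theorem result {G : Type*} [Group G] [Finite G] (p : ℕ) [Fact p.Prime] (M : Ideal Cfsg.AlgInt) (hM : Cfsg.IsPModular p M) (B : Set (Cfsg.IrrCharacter G)) (hB : Cfsg.IsPBlock M B) (P : Subgroup G) (hP : Cfsg.IsDefectGroup p M B P) : (∃ b : Set (Cfsg.IrrCharacter ↥(P ⊔ Subgroup.centralizer (P : Set G))), Cfsg.IsDefectGroup p M b (P.subgroupOf (P ⊔ Subgroup.centralizer (P : Set G))) ∧ Cfsg.IsInducedBlock M (P ⊔ Subgroup.centralizer (P : Set G)) b B) ∧ ∀ b b' : Set (Cfsg.IrrCharacter ↥(P ⊔ Subgroup.centralizer (P : Set G))), Cfsg.IsInducedBlock M (P ⊔ Subgroup.centralizer (P : Set G)) b B → Cfsg.IsInducedBlock M (P ⊔ Subgroup.centralizer (P : Set G)) b' B → ∃ n ∈ Subgroup.normalizer (P : Set G), ∀ θ ∈ b, ∃ θ' ∈ b', ∀ x : ↥(P ⊔ Subgroup.centralizer (P : Set G)), ∀ hx : n * (x : G) * n⁻¹ ∈ P ⊔ Subgroup.centralizer (P : Set G), (θ' : ↥(P ⊔ Subgroup.centralizer (P : Set G)) → ℂ) x = (θ : ↥(P ⊔ Subgroup.centralizer (P : Set G)) → ℂ) ⟨n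 * (x : G) * n⁻¹, hx⟩ := by
  classical
  haveI := Fintype.ofFinite G
  set L := P ⊔ Subgroup.centralizer (P : Set G) with hL
  haveI := Fintype.ofFinite L
  have hP' := CfsgLib.Blocks.isPGroup_of_isDefectGroup hP
  have hCH : Subgroup.centralizer (P : Set G) ≤ L := le_sup_right
  have hNL := CfsgLib.Blocks.normalizer_le_normalizer_sup P
  refine ⟨?_, fun b b' hb hb' => ?_⟩
  · obtain ⟨b, hind⟩ := (Cfsg.Agent.S0958.result p M hM P L hP' le_rfl
      (sup_le Subgroup.le_normalizer (Subgroup.centralizer_le_normalizer _)) B hB).2 ⟨P, hP, 1, by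
        rintro _ ⟨q, hq, rfl⟩; simpa using hq⟩
    exact ⟨b, CfsgLib.Blocks.isDefectGroup_of_induced hL hCH hM hP' hind hP, hind⟩
  · obtain ⟨ξ, hξ⟩ := CfsgLib.Blocks.IsPBlock.nonempty hM hb.1
    obtain ⟨ξ', hξ'⟩ := CfsgLib.Blocks.IsPBlock.nonempty hM hb'.1
    obtain ⟨θ, hl⟩ := CfsgLib.Blocks.exists_liesOver hL hCH ξ
    obtain ⟨θ', hl'⟩ := CfsgLib.Blocks.exists_liesOver hL hCH ξ'
    have hpair := CfsgLib.Blocks.isBrauerPairOf_of_induced hL hCH hM hP' hb hξ hl
    have hpair' := CfsgLib.Blocks.isBrauerPairOf_of_induced hL hCH hM hP' hb' hξ' hl'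
    have hmax := CfsgLib.Blocks.isMaximal_of_defectGroup hM hP hpair
    obtain ⟨x, hx, he⟩ := (CfsgLib.Blocks.mem_orbitFinset hpair.1.2).1
      ((CfsgLib.Blocks.maximal_key hM hmax).1 _ hpair')
    have hxL : x ∈ Subgroup.normalizer (L : Set G) := hNL hx
    have hmem : CfsgLib.Blocks.pushChar (CfsgLib.Blocks.conjK (CfsgLib.Blocks.le_normalizer_centralizer P hx)) θ ∈
        Cfsg.blockOf M (θ' : Subgroup.centralizer (P : Set G) → ℂ) :=
      he ▸ Set.mem_image_of_mem _ (CfsgLib.Blocks.mem_blockOf_self hM θ)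
    have hsb := (CfsgLib.Blocks.sameBlock_liesOver hL hCH hM hP' hl'
      (CfsgLib.Blocks.liesOver_push hL hCH hx hxL hl)).2 hmem
    have hpb : CfsgLib.Blocks.pushBlock (CfsgLib.Blocks.conjK hxL) b = b' :=
      CfsgLib.Blocks.IsPBlock.eq_of_mem hM (CfsgLib.Blocks.isPBlock_pushBlock _ hb.1) hb'.1
        (Set.mem_image_of_mem _ hξ) ((CfsgLib.Blocks.IsPBlock.mem_iff hM hb'.1 hξ').2 hsb)
    refine ⟨x⁻¹, inv_mem hx, fun η hη => ⟨CfsgLib.Blocks.pushChar (CfsgLib.Blocks.conjK hxL) η,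
      hpb ▸ Set.mem_image_of_mem _ hη, fun z hz => ?_⟩⟩
    rw [CfsgLib.Blocks.pushChar_apply]
    refine congrArg _ ((MulEquiv.symm_apply_eq _).2 (Subtype.ext ?_))
    rw [CfsgLib.Blocks.coe_conjK]
    group

end Cfsg.Agent.S0973
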