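import Cfsg.Statements.S0986
import Mathlib

set_option autoImplicit false
open Cfsg

namespace Cfsg.Agent.S0986

/-- Let P and Q be distinct Sylow p-subgroups of a finite group G chosen so that the order of P ∩ Q is as large as possible among intersections of two distinct Sylow p-subgroups, and let N be the normalizer of P ∩ Q. Then N has more than one Sylow p-subgroup, any two distinct Sylow p-subgroups of N intersect exactly in P ∩ Q, and each Sylow p-subgroup of N lies in exactly one Sylow p-subgroup of G. -/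
theorem result {G : Type*} [Group G] [Finite G] (p : ℕ) [Fact p.Prime] (P Q : Sylow p G) (hPQ : P ≠ Q) (hmax : ∀ P' Q' : Sylow p G, P' ≠ Q' → Nat.card ↥((P' : Subgroup G) ⊓ (Q' : Subgroup G)) ≤ Nat.card ↥((P : Subgroup G) ⊓ (Q : Subgroup G))) : 1 < Nat.card (Sylow p ↥(Subgroup.normalizer (((P : Subgroup G) ⊓ (Q : Subgroup G) : Subgroup G) : Set G))) ∧ (∀ S T : Sylow p ↥(Subgroup.normalizer (((P : Subgroup G) ⊓ (Q : Subgroup G) : Subgroup G) : Set G)), S ≠ T → (S : Subgroup _) ⊓ (T : Subgroup _) = ((P : Subgroup G) ⊓ (Q : Subgroup G)).subgroupOf (Subgroup.normalizer (((P : Subgroup G) ⊓ (Q : Subgroup G) : Subgroup G) : Set G))) ∧ ∀ S : Sylow p ↥(Subgroup.normalizer (((P : Subgroup G) ⊓ (Q : Subgroup G) : Subgroup G) : Set G)), ∃! T : Sylow p G, (S : Subgroup _).map (Subgroup.normalizer (((P : Subgroup G) ⊓ (Q : Subgroup G) : Subgroup G) : Set G)).subtype ≤ (T : Subgroup G) := by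
  classical
  set D : Subgroup G := (P : Subgroup G) ⊓ (Q : Subgroup G) with hD
  set N := Subgroup.normalizer (D : Set G) with hN
  have hDN : D ≤ N := Subgroup.le_normalizer
  have huniq : ∀ X : Subgroup G, Nat.card D < Nat.card X → ∀ T T' : Sylow p G,
      X ≤ (T : Subgroup G) → X ≤ (T' : Subgroup G) → T = T' := by
    intro X hX T T' h h'
    by_contra hne
    have h1 := Nat.le_of_dvd Nat.card_pos (Subgroup.card_dvd_of_le (le_inf h h'))
    have h2 := hmax T T' hne
    omega
  have grow : ∀ R : Sylow p G, D < (R : Subgroup G) → Nat.card D < Nat.card ↥((R : Subgroup G) ⊓ N) := by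
    intro R hlt
    have hnil : Group.IsNilpotent ↥(R : Subgroup G) := R.isPGroup'.isNilpotent
    have hlt' : D.subgroupOf (R : Subgroup G) < ⊤ :=
      lt_top_iff_ne_top.mpr fun h => hlt.not_ge (Subgroup.subgroupOf_eq_top.mp h)
    obtain ⟨y, hy, hyD⟩ := SetLike.exists_of_lt (Group.normalizerCondition_of_isNilpotent _ hlt')
    rw [Subgroup.mem_subgroupOf] at hyD
    have hyN : (y : G) ∈ N := by
      refine Subgroup.mem_normalizer_iff.mpr fun d => ?_
      constructor
      · intro hd
        exact (Subgroup.mem_normalizer_iff.mp hy ⟨d, hlt.le hd⟩).mp hd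
      · intro hd
        have hdR : d ∈ (R : Subgroup G) := by
          have := Subgroup.mul_mem _ (Subgroup.mul_mem _ (Subgroup.inv_mem _ y.2) (hlt.le hd)) y.2
          simpa [mul_assoc] using this
        exact (Subgroup.mem_normalizer_iff.mp hy ⟨d, hdR⟩).mpr hd
    by_contra hle
    have heq : D = (R : Subgroup G) ⊓ N :=
      Subgroup.eq_of_le_of_card_ge (le_inf hlt.le hDN) (by omega)
    exact hyD (heq ▸ ⟨y.2, hyN⟩)
  have hDP : D < (P : Subgroup G) := lt_of_le_of_ne inf_le_left fun h =>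
    hPQ (Sylow.ext (Subgroup.eq_of_le_of_card_ge (inf_eq_left.mp h)
      (le_of_eq (by rw [P.card_eq_multiplicity, Q.card_eq_multiplicity]))))
  have hDQ : D < (Q : Subgroup G) := lt_of_le_of_ne inf_le_right fun h =>
    hPQ (Sylow.ext (Subgroup.eq_of_le_of_card_ge (inf_eq_right.mp h)
      (le_of_eq (by rw [P.card_eq_multiplicity, Q.card_eq_multiplicity]))).symm)
  have hDn : (D.subgroupOf N).Normal := Subgroup.normal_in_normalizer
  have hDp : IsPGroup p (D.subgroupOf N) := by
    refine (P.isPGroup'.to_le inf_le_left).of_equiv (Subgroup.subgroupOfEquivOfLe hDN).symm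
  -- every Sylow subgroup of the normaliser contains `D` and is larger
  have hDS : ∀ S : Sylow p N, D.subgroupOf N ≤ (S : Subgroup N) := fun S => by
    have h := (hDp.to_sup_of_normal_left S.isPGroup')
    exact (S.is_maximal' h le_sup_right) ▸ le_sup_left
  have hbig : ∀ S : Sylow p N, Nat.card D < Nat.card ↥((S : Subgroup N).map N.subtype) := by
    intro S
    rw [Subgroup.card_map_of_injective N.subtype_injective]
    have hp' : IsPGroup p (((P : Subgroup G) ⊓ N).subgroupOf N) :=
      (P.isPGroup'.to_le inf_le_left).of_equiv (Subgroup.subgroupOfEquivOfLe inf_le_right).symm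
    obtain ⟨S', hS'⟩ := hp'.exists_le_sylow
    have h1 := Nat.le_of_dvd Nat.card_pos (Subgroup.card_dvd_of_le hS')
    rw [Nat.card_congr (Subgroup.subgroupOfEquivOfLe (inf_le_right : (P : Subgroup G) ⊓ N ≤ N)).toEquiv,
      S'.card_eq_multiplicity, ← S.card_eq_multiplicity] at h1
    exact lt_of_lt_of_le (grow P hDP) h1
  have hex : ∀ S : Sylow p N, ∃ T : Sylow p G, (S : Subgroup N).map N.subtype ≤ (T : Subgroup G) :=
    fun S => (S.isPGroup'.map _).exists_le_sylow
  refine ⟨?_, fun S S' hne => ?_, fun S => ?_⟩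
  · rw [Finite.one_lt_card_iff_nontrivial]
    obtain ⟨S, hS⟩ := ((P.isPGroup'.to_le (inf_le_left : (P : Subgroup G) ⊓ N ≤ _)).of_equiv
      (Subgroup.subgroupOfEquivOfLe inf_le_right).symm :
        IsPGroup p (((P : Subgroup G) ⊓ N).subgroupOf N)).exists_le_sylow
    obtain ⟨S', hS'⟩ := ((Q.isPGroup'.to_le (inf_le_left : (Q : Subgroup G) ⊓ N ≤ _)).of_equiv
      (Subgroup.subgroupOfEquivOfLe inf_le_right).symm :
        IsPGroup p (((Q : Subgroup G) ⊓ N).subgroupOf N)).exists_le_sylow
    refine ⟨⟨S, S', fun h => hPQ ?_⟩⟩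
    subst h
    obtain ⟨T, hT⟩ := hex S
    have e1 : (P : Subgroup G) ⊓ N ≤ (T : Subgroup G) := fun x hx =>
      hT ⟨⟨x, hx.2⟩, hS hx, rfl⟩
    have e2 : (Q : Subgroup G) ⊓ N ≤ (T : Subgroup G) := fun x hx =>
      hT ⟨⟨x, hx.2⟩, hS' hx, rfl⟩
    exact (huniq _ (grow P hDP) P T inf_le_left e1).trans
      (huniq _ (grow Q hDQ) Q T inf_le_left e2).symm
  · refine le_antisymm ?_ (le_inf (hDS S) (hDS S'))
    obtain ⟨T, hT⟩ := hex S
    obtain ⟨T', hT'⟩ := hex S'
    have hTne : T ≠ T' := by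
      rintro rfl
      apply hne
      have hp' : IsPGroup p ((T : Subgroup G).comap N.subtype) :=
        T.isPGroup'.comap_of_injective _ N.subtype_injective
      refine Sylow.ext ((S.is_maximal' hp' (Subgroup.map_le_iff_le_comap.mp hT)).symm.trans
        (S'.is_maximal' hp' (Subgroup.map_le_iff_le_comap.mp hT')))
    have hle : ((S : Subgroup N) ⊓ (S' : Subgroup N)).map N.subtype ≤
        (T : Subgroup G) ⊓ (T' : Subgroup G) :=
      le_inf ((Subgroup.map_mono inf_le_left).trans hT) ((Subgroup.map_mono inf_le_right).trans hT')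
    have hD' : D ≤ ((S : Subgroup N) ⊓ (S' : Subgroup N)).map N.subtype := fun d hd =>
      ⟨⟨d, hDN hd⟩, ⟨hDS S hd, hDS S' hd⟩, rfl⟩
    have heq := Subgroup.eq_of_le_of_card_ge hD'
      ((Nat.le_of_dvd Nat.card_pos (Subgroup.card_dvd_of_le hle)).trans (hmax T T' hTne))
    intro x hx
    rw [Subgroup.mem_subgroupOf, heq]
    exact ⟨x, hx, rfl⟩
  · obtain ⟨T, hT⟩ := hex S
    exact ⟨T, hT, fun T' hT' => huniq _ (hbig S) T' T hT' hT⟩

end Cfsg.Agent.S0986
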