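import Cfsg.Statements.S0987
-- import your own Cfsg.Agent.* helpers here

set_option autoImplicit false
open Cfsg

namespace Cfsg.Agent.S0987

theorem card_orderOf_eq {G : Type*} [Group G] [Finite G] (r : ℕ) [hr : Fact r.Prime]
    (hS : ∀ S : Sylow r G, Nat.card (S : Subgroup G) = r) :
    Nat.card (Sylow r G) * (r - 1) ≤ Nat.card {g : G // orderOf g = r} := by
  classical
  have hc : ∀ S : Sylow r G, Nat.card {g : (S : Subgroup G) // g ≠ 1} = r - 1 := by
    intro S
    have := Fintype.ofFinite (S : Subgroup G)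
    rw [Nat.card_eq_fintype_card, Fintype.card_subtype_compl, Fintype.card_subtype_eq, ← Nat.card_eq_fintype_card, hS]
  have := Fintype.ofFinite (Sylow r G)
  have hsum : Nat.card (Σ S : Sylow r G, {g : (S : Subgroup G) // g ≠ 1}) = Nat.card (Sylow r G) * (r - 1) := by
    rw [Nat.card_sigma, Finset.sum_congr rfl (fun S _ => hc S), Finset.sum_const, Finset.card_univ, smul_eq_mul,
      Nat.card_eq_fintype_card]
  rw [← hsum]
  have hgen : ∀ (S : Sylow r G) (g : (S : Subgroup G)), g ≠ 1 → orderOf (g : G) = r := by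
    intro S g hg
    rcases hr.out.eq_one_or_self_of_dvd (orderOf g) ((orderOf_dvd_natCard g).trans (hS S).dvd) with h | h
    · exact absurd (orderOf_eq_one_iff.mp h) hg
    · simpa using h
  refine Nat.card_le_card_of_injective
    (fun s => (⟨((s.2.1 : (s.1 : Subgroup G)) : G), hgen s.1 s.2.1 s.2.2⟩ : {g : G // orderOf g = r})) ?_
  rintro ⟨S, g, hg⟩ ⟨T, g', hg'⟩ hgg
  simp only [Subtype.mk.injEq] at hgg
  have hz : ∀ (U : Sylow r G) (u : (U : Subgroup G)), u ≠ 1 → Subgroup.zpowers (u : G) = U := fun U u hu =>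
    Subgroup.eq_of_le_of_card_ge (Subgroup.zpowers_le.mpr u.2) (by rw [hS U, Nat.card_zpowers, hgen U u hu])
  obtain rfl : S = T := Sylow.ext (by rw [← hz S g hg, ← hz T g' hg', hgg])
  obtain rfl : g = g' := Subtype.ext hgg
  rfl

/-- If a finite group has order pqr for primes p < q < r, then its Sylow r-subgroups are normal. -/
theorem result {G : Type*} [Group G] [Finite G] (p q r : ℕ) (hp : p.Prime) (hq : q.Prime) [Fact r.Prime] (hpq : p < q) (hqr : q < r) (hG : Nat.card G = p * q * r) (R : Sylow r G) : (R : Subgroup G).Normal := by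
  have hr : r.Prime := Fact.out
  have := Fact.mk hq
  have hcop_r : ¬ r ∣ p * q := fun h => by
    rcases hr.dvd_mul.mp h with h | h
    · exact absurd (Nat.le_of_dvd hp.pos h) (by omega)
    · exact absurd (Nat.le_of_dvd hq.pos h) (by omega)
  have hRcard : Nat.card (R : Subgroup G) = r := by
    rw [R.card_eq_multiplicity, hG, Nat.factorization_mul (Nat.mul_ne_zero hp.ne_zero hq.ne_zero) hr.ne_zero, Finsupp.add_apply,
      Nat.factorization_eq_zero_of_not_dvd hcop_r, hr.factorization_self]
    simp
  have hRidx : (R : Subgroup G).index = p * q := by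
    have := (R : Subgroup G).index_mul_card
    rw [hRcard, hG] at this
    exact Nat.eq_of_mul_eq_mul_right hr.pos this
  obtain ⟨Q⟩ : Nonempty (Sylow q G) := inferInstance
  have hcop_q : ¬ q ∣ p * r := fun h => by
    rcases hq.dvd_mul.mp h with h | h
    · exact absurd (Nat.le_of_dvd hp.pos h) (by omega)
    · exact absurd ((Nat.prime_dvd_prime_iff_eq hq hr).mp h) (by omega)
  have hG' : Nat.card G = (p * r) * q := by rw [hG]; ring
  have hQcard : Nat.card (Q : Subgroup G) = q := by
    rw [Q.card_eq_multiplicity, hG', Nat.factorization_mul (Nat.mul_ne_zero hp.ne_zero hr.ne_zero) hq.ne_zero, Finsupp.add_apply,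
      Nat.factorization_eq_zero_of_not_dvd hcop_q, hq.factorization_self]
    simp
  have hQidx : (Q : Subgroup G).index = p * r := by
    have := (Q : Subgroup G).index_mul_card
    rw [hQcard, hG'] at this
    exact Nat.eq_of_mul_eq_mul_right hq.pos this
  by_contra hR
  have hnr1 : Nat.card (Sylow r G) ≠ 1 := fun h =>
    hR (by have := (Nat.card_eq_one_iff_unique.mp h).1; exact R.normal_of_subsingleton)
  have hnr : Nat.card (Sylow r G) = p * q := by
    have hd : Nat.card (Sylow r G) ∣ p * q := hRidx ▸ R.card_dvd_index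
    obtain ⟨a, b, ha, hb, hab⟩ := Nat.dvd_mul.mp hd
    have hm := card_sylow_modEq_one r G
    rcases hp.eq_one_or_self_of_dvd a ha with rfl | rfl <;> rcases hq.eq_one_or_self_of_dvd b hb with rfl | rfl
    · simp at hab; omega
    · simp at hab
      rw [← hab] at hm
      have := Nat.ModEq.eq_of_lt_of_lt hm hqr hr.one_lt
      omega
    · simp at hab
      rw [← hab] at hm
      have := Nat.ModEq.eq_of_lt_of_lt hm (hpq.trans hqr) hr.one_lt
      omega
    · exact hab.symm
  have hcountr := card_orderOf_eq r (fun S => (S.card_eq_multiplicity.trans R.card_eq_multiplicity.symm).trans hRcard)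
  have hcountq := card_orderOf_eq q (fun S => (S.card_eq_multiplicity.trans Q.card_eq_multiplicity.symm).trans hQcard)
  have htot : Nat.card {g : G // orderOf g = r} + Nat.card {g : G // orderOf g = q} ≤ Nat.card G := by
    rw [← Nat.card_sum]
    refine Nat.card_le_card_of_injective (Sum.elim Subtype.val Subtype.val) ?_
    rintro (⟨a, ha⟩ | ⟨a, ha⟩) (⟨b, hb⟩ | ⟨b, hb⟩) hab <;> simp at hab <;> subst hab
    · rfl
    · omega
    · omega
    · rfl
  rw [hnr] at hcountr
  have hnq : Nat.card (Sylow q G) = 1 := by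
    by_contra hne
    have hd : Nat.card (Sylow q G) ∣ p * r := hQidx ▸ Q.card_dvd_index
    have hrle : r ≤ Nat.card (Sylow q G) := by
      obtain ⟨a, b, ha, hb, hab⟩ := Nat.dvd_mul.mp hd
      have hm := card_sylow_modEq_one q G
      rcases hp.eq_one_or_self_of_dvd a ha with rfl | rfl <;> rcases hr.eq_one_or_self_of_dvd b hb with rfl | rfl
      · simp at hab; omega
      · simp at hab; omega
      · simp at hab
        rw [← hab] at hm
        have := Nat.ModEq.eq_of_lt_of_lt hm hpq hq.one_lt
        omega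
      · rw [← hab]; exact Nat.le_mul_of_pos_left _ hp.pos
    rw [hG] at htot
    have h1 := hr.two_le
    have h2 := hq.two_le
    obtain ⟨r', rfl⟩ : ∃ r', r = r' + 1 := ⟨r - 1, by omega⟩
    obtain ⟨q', rfl⟩ : ∃ q', q = q' + 1 := ⟨q - 1, by omega⟩
    simp only [Nat.add_sub_cancel] at hcountr hcountq
    have h3 : (r' + 1) * q' ≤ Nat.card (Sylow (q' + 1) G) * q' := Nat.mul_le_mul_right _ hrle
    nlinarith
  have : (Q : Subgroup G).Normal := by
    have := (Nat.card_eq_one_iff_unique.mp hnq).1
    exact Q.normal_of_subsingleton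
  let R' := R.mapSurjective (QuotientGroup.mk'_surjective (Q : Subgroup G))
  have hR'n : Nat.card (Sylow r (G ⧸ (Q : Subgroup G))) = 1 := by
    have hc : Nat.card (G ⧸ (Q : Subgroup G)) = p * r := hQidx
    have hd : (R' : Subgroup (G ⧸ (Q : Subgroup G))).index ∣ p := by
      have h1 : r ∣ Nat.card (R' : Subgroup (G ⧸ (Q : Subgroup G))) :=
        R'.dvd_card_of_dvd_card (hc ▸ dvd_mul_left r p)
      obtain ⟨m, hm⟩ := h1
      have := (R' : Subgroup (G ⧸ (Q : Subgroup G))).index_mul_card
      rw [hc, hm] at this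
      refine ⟨m, Nat.eq_of_mul_eq_mul_right hr.pos ?_⟩
      linarith
    rcases hp.eq_one_or_self_of_dvd _ (R'.card_dvd_index.trans hd) with h | h
    · exact h
    · have hm := card_sylow_modEq_one r (G ⧸ (Q : Subgroup G))
      rw [h] at hm
      have := Nat.ModEq.eq_of_lt_of_lt hm (hpq.trans hqr) hr.one_lt
      have := hp.one_lt
      omega
  have : (R' : Subgroup (G ⧸ (Q : Subgroup G))).Normal := by
    have := (Nat.card_eq_one_iff_unique.mp hR'n).1
    exact R'.normal_of_subsingleton
  set M := ((R' : Subgroup (G ⧸ (Q : Subgroup G))).comap (QuotientGroup.mk' (Q : Subgroup G))) with hM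
  have hRM : (R : Subgroup G) ≤ M := Subgroup.le_comap_map _ _
  have hMQ : M = (R : Subgroup G) ⊔ (Q : Subgroup G) := by
    rw [hM, Sylow.coe_mapSurjective, Subgroup.comap_map_eq, QuotientGroup.ker_mk']
  have hfr := Sylow.normalizer_sup_eq_top' R hRM
  have hle : Subgroup.normalizer ((R : Subgroup G) : Set G) ⊔ (Q : Subgroup G) = ⊤ := by
    rw [eq_top_iff, ← hfr, hMQ]
    exact sup_le le_sup_left (sup_le (le_sup_of_le_left Subgroup.le_normalizer) le_sup_right)
  have hdv : (Subgroup.normalizer ((R : Subgroup G) : Set G)).index ∣ q := by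
    have h1 : p * r ∣ Nat.card (Subgroup.normalizer ((R : Subgroup G) : Set G)) := by
      rw [← hQidx, ← Subgroup.relIndex_top_right, ← hle, Subgroup.relIndex_sup_right]
      exact Subgroup.relIndex_dvd_card _ _
    obtain ⟨m, hm⟩ := h1
    have h2 := (Subgroup.normalizer ((R : Subgroup G) : Set G)).index_mul_card
    rw [hm, hG'] at h2
    refine ⟨m, Nat.eq_of_mul_eq_mul_right (Nat.mul_pos hp.pos hr.pos) ?_⟩
    linarith
  have hEq := Sylow.card_eq_index_normalizer R
  rw [hnr] at hEq
  replace hdv := hEq ▸ hdv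
  have := Nat.le_of_dvd hq.pos hdv
  have h2 := hp.two_le
  nlinarith

end Cfsg.Agent.S0987
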