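import Cfsg.Statements.S0995
import Mathlib

set_option autoImplicit false
open Cfsg

namespace Cfsg.Agent.S0995

/-- Let G be a finite perfect group containing an element z of prime order p whose centralizer is the cyclic group it generates. Let t be the number of conjugacy classes of elements of order p. Then t divides p - 1, the number of Sylow p-subgroups has the form 1 + n * p, and |G| * t = (p - 1) * p * (1 + n * p). -/
theorem result {G : Type*} [Group G] [Finite G] (hperf : commutator G = ⊤) (p : ℕ) [Fact p.Prime] (z : G) (hz : orderOf z = p) (hC : Subgroup.centralizer ({z} : Set G) = Subgroup.zpowers z) : ∃ n t : ℕ, t = Nat.card {c : ConjClasses G // ∃ g : G, ConjClasses.mk g = c ∧ orderOf g = p} ∧ t ∣ p - 1 ∧ Nat.card (Sylow p G) = 1 + n * p ∧ Nat.card G * t = (p - 1) * p * (1 + n * p) := by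
  classical
  have hp := (Fact.out : p.Prime)
  obtain ⟨P, hP⟩ : ∃ P : Sylow p G, (P : Subgroup G) = Subgroup.zpowers z := by
    have hz' : IsPGroup p (Subgroup.zpowers z) := IsPGroup.of_card (n := 1) (by rw [Nat.card_zpowers, hz, pow_one])
    obtain ⟨Q, hQ⟩ := hz'.exists_le_sylow
    refine ⟨Q, le_antisymm ?_ hQ⟩
    have hzQ : z ∈ (Q : Subgroup G) := hQ (Subgroup.mem_zpowers z)
    haveI : Nontrivial ↥(Q : Subgroup G) := ⟨⟨⟨z, hzQ⟩, 1, fun h => by
      have h' : z = 1 := congrArg Subtype.val h
      rw [h', orderOf_one] at hz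
      exact hp.ne_one hz.symm⟩⟩
    haveI := Q.isPGroup'.center_nontrivial
    obtain ⟨⟨c, hc⟩, hc1⟩ := exists_ne (1 : Subgroup.center ↥(Q : Subgroup G))
    -- a central element lies in `⟨z⟩`, so it generates it
    have hcz : (c : G) ∈ Subgroup.zpowers z := by
      rw [← hC, Subgroup.mem_centralizer_singleton_iff]
      exact congrArg Subtype.val (Subgroup.mem_center_iff.mp hc ⟨z, hzQ⟩).symm
    have hco : orderOf (c : G) = p := by
      have hd : orderOf (c : G) ∣ p := by
        have h := Subgroup.orderOf_dvd_natCard _ hcz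
        rw [Nat.card_zpowers, hz] at h
        exact h
      refine ((Nat.dvd_prime hp).mp hd).resolve_left fun h => hc1 ?_
      exact Subtype.ext (Subtype.ext (orderOf_eq_one_iff.mp h))
    have heq : Subgroup.zpowers (c : G) = Subgroup.zpowers z := Subgroup.eq_of_le_of_card_ge
      (Subgroup.zpowers_le.mpr hcz) (by rw [Nat.card_zpowers, Nat.card_zpowers, hco, hz])
    intro q hq
    rw [← hC, Subgroup.mem_centralizer_singleton_iff]
    have hcq : Commute q (c : G) := congrArg Subtype.val (Subgroup.mem_center_iff.mp hc ⟨q, hq⟩)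
    have : z ∈ Subgroup.zpowers (c : G) := heq.symm ▸ Subgroup.mem_zpowers z
    obtain ⟨i, hi⟩ := Subgroup.mem_zpowers_iff.mp this
    rw [← hi]
    exact (hcq.zpow_right i).eq
  have hPc : Nat.card ↥(P : Subgroup G) = p := by rw [hP, Nat.card_zpowers, hz]
  have hSc : ∀ R : Sylow p G, Nat.card ↥(R : Subgroup G) = p := fun R => by
    rw [R.card_eq_multiplicity, ← P.card_eq_multiplicity, hPc]
  have huniq : ∀ y : G, orderOf y = p → ∀ R : Sylow p G, y ∈ (R : Subgroup G) →
      Subgroup.zpowers y = R := fun y hy R hyR => Subgroup.eq_of_le_of_card_ge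
    (Subgroup.zpowers_le.mpr hyR) (by rw [Nat.card_zpowers, hy, hSc])
  have hmem : ∀ y : G, orderOf y = p → ∃ R : Sylow p G, y ∈ (R : Subgroup G) := fun y hy => by
    obtain ⟨R, hR⟩ := (IsPGroup.of_card (n := 1) (by rw [Nat.card_zpowers, hy, pow_one]) :
      IsPGroup p (Subgroup.zpowers y)).exists_le_sylow
    exact ⟨R, hR (Subgroup.mem_zpowers y)⟩
  -- centralisers of the elements of order `p`
  have hcent : ∀ y : G, orderOf y = p → Nat.card (Subgroup.centralizer ({y} : Set G)) = p := by
    intro y hy
    obtain ⟨R, hR⟩ := hmem y hy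
    obtain ⟨g, hg⟩ := MulAction.exists_smul_eq G P R
    rw [← hg, Sylow.coe_subgroup_smul, hP] at hR
    obtain ⟨w, hw, rfl⟩ := hR
    have hwo : orderOf w = p := by rw [← hy]; exact ((MulAut.conj g).orderOf_eq w).symm
    have heq : Subgroup.zpowers w = Subgroup.zpowers z := Subgroup.eq_of_le_of_card_ge
      (Subgroup.zpowers_le.mpr hw) (by rw [Nat.card_zpowers, Nat.card_zpowers, hwo, hz])
    have hCw : Subgroup.centralizer ({w} : Set G) = Subgroup.zpowers z := by
      refine le_antisymm (fun c hc => ?_) (fun c hc => ?_)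
      · rw [← hC, Subgroup.mem_centralizer_singleton_iff]
        obtain ⟨i, hi⟩ := Subgroup.mem_zpowers_iff.mp (heq.symm ▸ Subgroup.mem_zpowers z : z ∈ Subgroup.zpowers w)
        rw [← hi]
        exact (Commute.zpow_right (Subgroup.mem_centralizer_singleton_iff.mp hc) i).eq
      · rw [Subgroup.mem_centralizer_singleton_iff]
        obtain ⟨i, rfl⟩ := Subgroup.mem_zpowers_iff.mp hc
        obtain ⟨j, rfl⟩ := Subgroup.mem_zpowers_iff.mp hw
        exact ((Commute.refl z).zpow_zpow i j).eq
    rw [← hz, ← Nat.card_zpowers, ← hCw]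
    refine Nat.card_congr ((MulAut.conj g).toEquiv.subtypeEquiv fun c => ?_).symm
    rw [Subgroup.mem_centralizer_singleton_iff, Subgroup.mem_centralizer_singleton_iff]
    show c * w = w * c ↔ (g * c * g⁻¹) * (g * w * g⁻¹) = (g * w * g⁻¹) * (g * c * g⁻¹)
    constructor
    · intro h
      calc (g * c * g⁻¹) * (g * w * g⁻¹) = g * (c * w) * g⁻¹ := by group
        _ = g * (w * c) * g⁻¹ := by rw [h]
        _ = (g * w * g⁻¹) * (g * c * g⁻¹) := by group
    · intro h
      have := congrArg (fun x => g⁻¹ * x * g) h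
      simpa [mul_assoc] using this
  -- elements of order `p`
  have e1 : {y : G // orderOf y = p} ≃ Σ R : Sylow p G, {u : ↥(R : Subgroup G) // u ≠ 1} :=
    (Equiv.ofBijective (fun s : Σ R : Sylow p G, {u : ↥(R : Subgroup G) // u ≠ 1} =>
      (⟨(s.2.1 : G), by
        rw [Subgroup.orderOf_coe]
        have hd : orderOf s.2.1 ∣ p := by
          have h := orderOf_dvd_natCard s.2.1
          rw [hSc] at h
          exact h
        exact ((Nat.dvd_prime hp).mp hd).resolve_left fun h => s.2.2 (orderOf_eq_one_iff.mp h)⟩ :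
        {y : G // orderOf y = p})) (by
      constructor
      · rintro ⟨R, u, hu⟩ ⟨R', u', hu'⟩ h
        have h' : (u : G) = (u' : G) := congrArg Subtype.val h
        have ho : orderOf (u : G) = p := by
          rw [Subgroup.orderOf_coe]
          have hd : orderOf u ∣ p := by
            have h := orderOf_dvd_natCard u
            rw [hSc] at h
            exact h
          exact ((Nat.dvd_prime hp).mp hd).resolve_left fun h => hu (orderOf_eq_one_iff.mp h)
        obtain rfl : R = R' := Sylow.ext ((huniq _ ho R u.2).symm.trans (huniq _ ho R' (h' ▸ u'.2)))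
        obtain rfl : u = u' := Subtype.ext h'
        rfl
      · rintro ⟨y, hy⟩
        obtain ⟨R, hR⟩ := hmem y hy
        exact ⟨⟨R, ⟨y, hR⟩, fun h => by
          have h' : y = 1 := congrArg Subtype.val h
          rw [h', orderOf_one] at hy
          exact hp.ne_one hy.symm⟩, rfl⟩)).symm
  have hcount : Nat.card {y : G // orderOf y = p} = Nat.card (Sylow p G) * (p - 1) := by
    haveI := Fintype.ofFinite (Sylow p G)
    have hR : ∀ R : Sylow p G, Nat.card {u : ↥(R : Subgroup G) // u ≠ 1} = p - 1 := fun R => by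
      haveI := Fintype.ofFinite ↥(R : Subgroup G)
      rw [Nat.card_eq_fintype_card, Fintype.card_subtype_compl, Fintype.card_subtype_eq,
        ← Nat.card_eq_fintype_card]
      exact congrArg (· - 1) (hSc R)
    rw [Nat.card_congr e1, Nat.card_sigma]
    simp only [hR, Finset.sum_const, smul_eq_mul, Finset.card_univ]
    rw [Nat.card_eq_fintype_card]
  -- classes
  let T := {c : ConjClasses G // ∃ g : G, ConjClasses.mk g = c ∧ orderOf g = p}
  let f : {y : G // orderOf y = p} → T := fun y => ⟨ConjClasses.mk y.1, y.1, rfl, y.2⟩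
  have hfib : ∀ c : T, Nat.card {y // f y = c} * p = Nat.card G := by
    rintro ⟨_, y, rfl, hy⟩
    have horb : Nat.card {v : {y : G // orderOf y = p} // f v = ⟨ConjClasses.mk y, y, rfl, hy⟩} =
        Nat.card (MulAction.orbit (ConjAct G) y) := by
      refine Nat.card_congr ⟨fun v => ⟨v.1.1, ?_⟩, fun v => ⟨⟨v.1, ?_⟩, ?_⟩, fun v => rfl, fun v => rfl⟩
      · rw [ConjAct.orbit_eq_carrier_conjClasses, ConjClasses.mem_carrier_iff_mk_eq]
        exact congrArg Subtype.val v.2
      · obtain ⟨c, hc⟩ := v.2
        rw [← hc, ← hy]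
        exact (MulAut.conj (ConjAct.ofConjAct c)).orderOf_eq y
      · obtain ⟨w, hw⟩ := v
        refine Subtype.ext ?_
        rw [ConjAct.orbit_eq_carrier_conjClasses, ConjClasses.mem_carrier_iff_mk_eq] at hw
        exact hw
    rw [horb, ← hcent y hy]
    have h := (MulAction.stabilizer (ConjAct G) y).index_mul_card
    rw [MulAction.index_stabilizer, ← Nat.card_coe_set_eq] at h
    refine Eq.trans ?_ (h.trans (Nat.card_congr ConjAct.ofConjAct.toEquiv))
    congr 1
    refine Nat.card_congr (ConjAct.toConjAct.toEquiv.subtypeEquiv fun c => ?_)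
    rw [Subgroup.mem_centralizer_singleton_iff]
    show c * y = y * c ↔ c * y * c⁻¹ = y
    rw [mul_inv_eq_iff_eq_mul]
  have htot : Nat.card G * Nat.card T = Nat.card (Sylow p G) * (p - 1) * p := by
    haveI := Fintype.ofFinite T
    rw [← hcount, ← Nat.card_congr (Equiv.sigmaFiberEquiv f), Nat.card_sigma, Finset.sum_mul,
      Finset.sum_congr rfl (fun c _ => hfib c), Finset.sum_const, Finset.card_univ, smul_eq_mul,
      Nat.card_eq_fintype_card (α := T), mul_comm]
  have hmod : Nat.card (Sylow p G) % p = 1 % p := card_sylow_modEq_one p G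
  rw [Nat.mod_eq_of_lt hp.one_lt] at hmod
  obtain ⟨n, hn⟩ : ∃ n, Nat.card (Sylow p G) = 1 + n * p :=
    ⟨Nat.card (Sylow p G) / p, by
      have := Nat.div_add_mod (Nat.card (Sylow p G)) p
      rw [hmod, mul_comm] at this
      omega⟩
  refine ⟨n, Nat.card T, rfl, ?_, hn, by rw [htot, hn]; ring⟩
  set N := Subgroup.normalizer ((P : Subgroup G) : Set G) with hN
  have h1 : Nat.card N * Nat.card (Sylow p G) = Nat.card G := by
    rw [P.card_eq_index_normalizer]; exact N.card_mul_index
  obtain ⟨e, he⟩ : p ∣ Nat.card N := hPc ▸ Subgroup.card_dvd_of_le Subgroup.le_normalizer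
  rw [← h1, he] at htot
  refine Dvd.intro_left e ?_
  have hpos : 0 < Nat.card (Sylow p G) * p := Nat.mul_pos Nat.card_pos hp.pos
  refine Nat.eq_of_mul_eq_mul_left hpos ?_
  linarith

end Cfsg.Agent.S0995
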