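import Cfsg.Statements.S1003
import Cfsg.Agent.L168.Transfer

set_option autoImplicit false
open Cfsg CfsgLib.L168

namespace Cfsg.Agent.S1003

/-- A simple group of order 168 has exactly 21 Sylow 2-subgroups, 28 Sylow 3-subgroups and 8 Sylow 7-subgroups. -/
theorem result {G : Type*} [Group G] [Finite G] [IsSimpleGroup G] (h : Nat.card G = 168) : Nat.card (Sylow 2 G) = 21 ∧ Nat.card (Sylow 3 G) = 28 ∧ Nat.card (Sylow 7 G) = 8 := by
  haveI : Fact (Nat.Prime 3) := ⟨Nat.prime_three⟩
  haveI : Fact (Nat.Prime 7) := ⟨by norm_num⟩
  exact ⟨sylow_count_two h,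
    sylow_count_of_element h r3 [1, r3, r3 * r3] 28 (by decide +kernel)
      (fun x => by
        constructor
        · intro hx
          simp only [List.mem_cons, List.not_mem_nil, or_false] at hx
          rcases hx with rfl | rfl | rfl
          · exact ⟨0, by norm_num, pow_zero _⟩
          · exact ⟨1, by norm_num, pow_one _⟩
          · exact ⟨2, by norm_num, pow_two _⟩
        · rintro ⟨i, hi, rfl⟩
          interval_cases i <;> decide +kernel)
      (by norm_num) (by decide +kernel),
    sylow_count_of_element h p7 ((List.range 7).map (p7 ^ ·)) 8 (by decide +kernel)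
      (fun x => by simp [List.mem_map, List.mem_range]) (by norm_num) (by decide +kernel)⟩

end Cfsg.Agent.S1003
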