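import Cfsg.Statements.S1004
import Cfsg.Agent.L168.Transfer

set_option autoImplicit false
open Cfsg CfsgLib.L168

namespace Cfsg.Agent.S1004

/-- Let G be a simple group of order 168 and T a Sylow 2-subgroup. Then T is dihedral of order 8, T is its own normalizer, and T is the centralizer of any non-identity element of T that commutes with every element of T. -/
theorem result {G : Type*} [Group G] [Finite G] [IsSimpleGroup G] (h : Nat.card G = 168) (T : Sylow 2 G) : Nonempty (↥(T : Subgroup G) ≃* DihedralGroup 4) ∧ Subgroup.normalizer ((T : Subgroup G) : Set G) = T ∧ ∀ z : G, z ∈ (T : Subgroup G) → z ≠ 1 → (∀ t ∈ (T : Subgroup G), t * z = z * t) → Subgroup.centralizer ({z} : Set G) = T := by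
  obtain ⟨φ, hφ⟩ := exists_iso_sylow h T
  rw [← hφ]
  refine ⟨⟨(S0.equivMapOfInjective _ φ.injective).symm.trans dihedral_S0.some⟩, ?_, fun z hz hz1 hc => ?_⟩
  · rw [← map_normalizer, normalizer_S0]
  · obtain ⟨w, hw, rfl⟩ := hz
    have h1 : w ≠ 1 := fun e => hz1 (by rw [e, map_one])
    have h2 := center_S0 h1 fun t ht => φ.injective (by
      rw [map_mul, map_mul]; exact hc _ ⟨t, ht, rfl⟩)
    rw [← h2]
    ext g
    obtain ⟨x, rfl⟩ := φ.surjective g
    rw [show φ x = φ.toMonoidHom x from rfl, Subgroup.mem_map_iff_mem φ.injective]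
    simp only [Subgroup.mem_centralizer_singleton_iff, MulEquiv.coe_toMonoidHom, ← map_mul, φ.injective.eq_iff]

end Cfsg.Agent.S1004
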