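import Cfsg.Statements.S1005
import Cfsg.Agent.L168.Transfer

set_option autoImplicit false
open Cfsg CfsgLib.L168

namespace Cfsg.Agent.S1005

/-- In a simple group of order 168 every element has order 1, 2, 3, 4 or 7; there are exactly 21 elements of order 2, and any two of them are conjugate. -/
theorem result {G : Type*} [Group G] [Finite G] [IsSimpleGroup G] (h : Nat.card G = 168) : (∀ g : G, orderOf g = 1 ∨ orderOf g = 2 ∨ orderOf g = 3 ∨ orderOf g = 4 ∨ orderOf g = 7) ∧ Nat.card {g : G // orderOf g = 2} = 21 ∧ ∀ s t : G, orderOf s = 2 → orderOf t = 2 → IsConj s t := by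
  obtain ⟨φ⟩ := nonempty_iso h
  refine ⟨fun g => ?_, ?_, fun s t hs ht => ?_⟩
  · obtain ⟨x, rfl⟩ := φ.surjective g
    simp only [orderOf_iff φ]
    by_cases hx : x = 1
    · exact Or.inl (orderOf_eq_one_iff.2 hx)
    by_cases h2 : x * x = 1
    · exact Or.inr (Or.inl ((orderOf_two x).2 ⟨hx, h2⟩))
    rcases orders x with h1 | h1 | h1 | h1 | h1
    · exact absurd h1 hx
    · exact absurd h1 h2
    · exact Or.inr (Or.inr (Or.inl ((orderOf_three x).2 ⟨hx, h1⟩)))
    · exact Or.inr (Or.inr (Or.inr (Or.inl ((orderOf_four x).2 ⟨h2, h1⟩))))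
    · exact Or.inr (Or.inr (Or.inr (Or.inr ((orderOf_seven x).2 ⟨hx, h1⟩))))
  · rw [card_class φ (fun x => x ≠ 1 ∧ x * x = 1) fun x => (orderOf_iff φ x 2).trans (orderOf_two x)]
    decide +kernel
  · obtain ⟨x, rfl⟩ := φ.surjective s
    obtain ⟨y, rfl⟩ := φ.surjective t
    rw [orderOf_iff φ, orderOf_two] at hs ht
    exact (isConj_of (invol_conj x hs.1 hs.2)).symm.trans (isConj_of (invol_conj y ht.1 ht.2))

end Cfsg.Agent.S1005
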