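import Cfsg.Statements.S1006
import Cfsg.Agent.L168.Transfer

set_option autoImplicit false
open Cfsg CfsgLib.L168

namespace Cfsg.Agent.S1006

/-- In a simple group of order 168 there are 56 elements of order 3, all conjugate; 42 elements of order 4, all conjugate; and 48 elements of order 7 falling into two conjugacy classes of size 24, an element of order 7 not being conjugate to its inverse. -/
theorem result {G : Type*} [Group G] [Finite G] [IsSimpleGroup G] (h : Nat.card G = 168) : Nat.card {g : G // orderOf g = 3} = 56 ∧ (∀ s t : G, orderOf s = 3 → orderOf t = 3 → IsConj s t) ∧ Nat.card {g : G // orderOf g = 4} = 42 ∧ (∀ s t : G, orderOf s = 4 → orderOf t = 4 → IsConj s t) ∧ Nat.card {g : G // orderOf g = 7} = 48 ∧ ∀ x : G, orderOf x = 7 → Nat.card {g : G // IsConj x g} = 24 ∧ ¬ IsConj x x⁻¹ := by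
  obtain ⟨φ⟩ := nonempty_iso h
  refine ⟨?_, fun s t hs ht => ?_, ?_, fun s t hs ht => ?_, ?_, fun g hg => ?_⟩
  · rw [card_class φ (fun x => x ≠ 1 ∧ x * x * x = 1) fun x => (orderOf_iff φ x 3).trans (orderOf_three x)]
    decide +kernel
  · obtain ⟨x, rfl⟩ := φ.surjective s
    obtain ⟨y, rfl⟩ := φ.surjective t
    rw [orderOf_iff φ, orderOf_three] at hs ht
    exact (isConj_of (three_conj x hs.1 hs.2)).symm.trans (isConj_of (three_conj y ht.1 ht.2))
  · rw [card_class φ (fun x => x * x ≠ 1 ∧ x * x * (x * x) = 1) fun x => (orderOf_iff φ x 4).trans (orderOf_four x)]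
    decide +kernel
  · obtain ⟨x, rfl⟩ := φ.surjective s
    obtain ⟨y, rfl⟩ := φ.surjective t
    rw [orderOf_iff φ, orderOf_four] at hs ht
    exact (isConj_of (four_conj x hs.1 hs.2)).symm.trans (isConj_of (four_conj y ht.1 ht.2))
  · rw [card_class φ (fun x => x ≠ 1 ∧ x * x * x * (x * x * x) * x = 1)
      fun x => (orderOf_iff φ x 7).trans (orderOf_seven x)]
    decide +kernel
  · obtain ⟨x, rfl⟩ := φ.surjective g
    rw [orderOf_iff φ, orderOf_seven] at hg
    have key : ∀ r : T, IsConj (φ r) (φ x) →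
        (allT.filter fun y => ∃ z : T, z * r * z⁻¹ = y).length = 24 → (∀ z : T, z * r * z⁻¹ ≠ r⁻¹) →
        Nat.card {w : G // IsConj (φ x) w} = 24 ∧ ¬ IsConj (φ x) (φ x)⁻¹ := by
      intro r hr hlen hne
      refine ⟨?_, fun hc => ?_⟩
      · rw [card_class φ (fun y => ∃ z : T, z * r * z⁻¹ = y) fun y => ?_, hlen]
        refine ⟨fun hc => ?_, fun hc => hr.symm.trans (isConj_of hc)⟩
        obtain ⟨w, hw⟩ := isConj_iff.1 (hr.trans hc)
        obtain ⟨z, rfl⟩ := φ.surjective w
        rw [← map_inv, ← map_mul, ← map_mul] at hw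
        exact ⟨z, φ.injective hw⟩
      · have h2 : IsConj (φ r)⁻¹ (φ x)⁻¹ := by
          obtain ⟨w, hw⟩ := isConj_iff.1 hr
          exact isConj_iff.2 ⟨w, by rw [← hw]; group⟩
        obtain ⟨w, hw⟩ := isConj_iff.1 ((hr.trans hc).trans h2.symm)
        obtain ⟨z, rfl⟩ := φ.surjective w
        rw [← map_inv, ← map_inv, ← map_mul, ← map_mul] at hw
        exact hne z (φ.injective hw)
    obtain ⟨z, hz | hz⟩ := seven_conj x hg.1 hg.2
    · exact key p7 (isConj_of ⟨z, hz⟩) (by decide +kernel) p7_not_real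
    · refine key p7⁻¹ (isConj_of ⟨z, hz⟩) (by decide +kernel) fun w hw => p7_not_real w ?_
      have := congrArg (fun v : T => v⁻¹) hw
      simp only [mul_inv_rev, inv_inv] at this
      simpa [mul_assoc] using this

end Cfsg.Agent.S1006
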