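import Cfsg.Statements.S1007
import Cfsg.Agent.L168.Subgroups

set_option autoImplicit false
open Cfsg CfsgLib.L168

namespace Cfsg.Agent.S1007

/-- Let G be a simple group of order 168 and T a Sylow 2-subgroup. Then T contains exactly two subgroups that are Klein four-groups; they are not conjugate in G; and the normalizer of every Klein four-subgroup of G is isomorphic to the symmetric group of degree 4. -/
theorem result {G : Type*} [Group G] [Finite G] [IsSimpleGroup G] (h : Nat.card G = 168) (T : Sylow 2 G) : Nat.card {U : Subgroup G // U ≤ (T : Subgroup G) ∧ IsKleinFour ↥U} = 2 ∧ (∀ U W : Subgroup G, U ≤ (T : Subgroup G) → W ≤ (T : Subgroup G) → IsKleinFour ↥U → IsKleinFour ↥W → U ≠ W → ∀ g : G, U.map (MulAut.conj g).toMonoidHom ≠ W) ∧ ∀ U : Subgroup G, IsKleinFour ↥U → Nonempty (↥(Subgroup.normalizer (U : Set G)) ≃* Equiv.Perm (Fin 4)) := by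
  classical
  obtain ⟨φ, hφ⟩ := exists_iso_sylow h T
  have hsurj : ∀ U : Subgroup G, ∃ V : Subgroup CfsgLib.L168.T, V.map φ.toMonoidHom = U := fun U =>
    ⟨U.comap φ.toMonoidHom, Subgroup.map_comap_eq_self_of_surjective φ.surjective U⟩
  have hkl : ∀ V : Subgroup CfsgLib.L168.T, IsKleinFour (V.map φ.toMonoidHom) ↔ IsKleinFour V := fun V => by
    have e := Subgroup.equivMapOfInjective V φ.toMonoidHom φ.injective
    exact ⟨fun hK => ⟨by rw [Nat.card_congr e.toEquiv]; exact hK.card_four,
        by rw [Monoid.exponent_eq_of_mulEquiv e]; exact hK.exponent_two⟩,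
      fun hK => ⟨by rw [← Nat.card_congr e.toEquiv]; exact hK.card_four,
        by rw [← Monoid.exponent_eq_of_mulEquiv e]; exact hK.exponent_two⟩⟩
  set B := L2.map (MulAut.conj g2).toMonoidHom with hB
  have hBk : IsKleinFour B := kleinFour_of
    (by rw [hB, Subgroup.card_map_of_injective (MulAut.conj g2).injective, card_L2])
    (by rintro _ ⟨x, hx, rfl⟩; rw [← map_mul, (l2_closed.2.1 x hx).1, map_one])
  have hne : L1 ≠ B := fun e => L_not_conj g2⁻¹ (by
    rw [e, hB, Subgroup.map_map, show (MulAut.conj g2⁻¹).toMonoidHom.comp (MulAut.conj g2).toMonoidHom =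
      MonoidHom.id _ from MonoidHom.ext fun x => by simp [mul_assoc], Subgroup.map_id])
  have hconj : ∀ (V : Subgroup CfsgLib.L168.T) (a : CfsgLib.L168.T),
      (V.map (MulAut.conj a).toMonoidHom).map φ.toMonoidHom =
        (V.map φ.toMonoidHom).map (MulAut.conj (φ a)).toMonoidHom := fun V a => by
    rw [Subgroup.map_map, Subgroup.map_map]
    congr 1
    exact MonoidHom.ext fun x => by simp
  have hclass : ∀ U : Subgroup G, U ≤ (T : Subgroup G) → IsKleinFour U →
      U = L1.map φ.toMonoidHom ∨ U = B.map φ.toMonoidHom := by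
    intro U hU hK
    obtain ⟨V, rfl⟩ := hsurj U
    rw [← hφ, Subgroup.map_le_map_iff_of_injective φ.injective] at hU
    exact (klein_S0 ((hkl V).1 hK) hU).imp (congrArg _) (congrArg _)
  refine ⟨?_, fun U W hU hW hUk hWk hUW g => ?_, fun U hUk => ?_⟩
  · have hset : {U : Subgroup G | U ≤ (T : Subgroup G) ∧ IsKleinFour U} = {L1.map φ.toMonoidHom, B.map φ.toMonoidHom} := by
      ext U
      refine ⟨fun hU => hclass U hU.1 hU.2, ?_⟩
      rintro (rfl | rfl)
      · exact ⟨hφ ▸ Subgroup.map_mono L1_le_S0, (hkl _).2 klein_L1⟩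
      · exact ⟨hφ ▸ Subgroup.map_mono L2_le_S0, (hkl _).2 hBk⟩
    show Nat.card {U : Subgroup G | U ≤ (T : Subgroup G) ∧ IsKleinFour U} = 2
    rw [Nat.card_coe_set_eq, hset, Set.ncard_pair fun e => hne (Subgroup.map_injective φ.injective e)]
  · obtain ⟨a, rfl⟩ := φ.surjective g
    have key : ∀ b : CfsgLib.L168.T, L1.map (MulAut.conj b).toMonoidHom ≠ B := fun b e => L_not_conj (g2⁻¹ * b) (by
      rw [show (MulAut.conj (g2⁻¹ * b)).toMonoidHom = (MulAut.conj g2⁻¹).toMonoidHom.comp (MulAut.conj b).toMonoidHom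
        from MonoidHom.ext fun x => by simp, ← Subgroup.map_map, e, hB, Subgroup.map_map,
        show (MulAut.conj g2⁻¹).toMonoidHom.comp (MulAut.conj g2).toMonoidHom = MonoidHom.id _
          from MonoidHom.ext fun x => by simp [mul_assoc], Subgroup.map_id])
    rcases hclass U hU hUk with rfl | rfl <;> rcases hclass W hW hWk with rfl | rfl
    · exact absurd rfl hUW
    · intro e
      rw [← hconj] at e
      exact key a (Subgroup.map_injective φ.injective e)
    · intro e
      rw [← hconj] at e
      refine key a⁻¹ ?_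
      rw [← Subgroup.map_injective φ.injective e, Subgroup.map_map,
        show (MulAut.conj a⁻¹).toMonoidHom.comp (MulAut.conj a).toMonoidHom = MonoidHom.id _
          from MonoidHom.ext fun x => by simp [mul_assoc], Subgroup.map_id]
    · exact absurd rfl hUW
  · obtain ⟨V, rfl⟩ := hsurj U
    rw [← map_normalizer]
    refine ⟨((Subgroup.normalizer (V : Set CfsgLib.L168.T)).equivMapOfInjective _ φ.injective).symm.trans ?_⟩
    refine Classical.choice ?_
    obtain ⟨a, ha⟩ := klein_conj ((hkl V).1 hUk)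
    have e := (Subgroup.normalizer (V : Set CfsgLib.L168.T)).equivMapOfInjective (MulAut.conj a).toMonoidHom (MulAut.conj a).injective
    rw [Subgroup.map_equiv_normalizer_eq] at e
    rcases ha with ha | ha
    · rw [ha, normalizer_L1] at e
      exact ⟨e.trans iso_N1.some⟩
    · rw [ha, normalizer_L2] at e
      exact ⟨e.trans iso_N2.some⟩

end Cfsg.Agent.S1007
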