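import Cfsg.Statements.S1008
import Cfsg.Agent.L168.Subgroups

set_option autoImplicit false
open Cfsg CfsgLib.L168

namespace Cfsg.Agent.S1008

/-- In a simple group of order 168 every maximal subgroup is either isomorphic to the symmetric group of degree 4 or non-abelian of order 21; the maximal subgroups of order 21 form one conjugacy class and those isomorphic to the symmetric group of degree 4 form exactly two conjugacy classes. -/
theorem result {G : Type*} [Group G] [Finite G] [IsSimpleGroup G] (h : Nat.card G = 168) : (∀ M : Subgroup G, IsCoatom M → Nonempty (↥M ≃* Equiv.Perm (Fin 4)) ∨ (Nat.card ↥M = 21 ∧ ¬ IsMulCommutative ↥M)) ∧ (∀ M M' : Subgroup G, IsCoatom M → IsCoatom M' → Nat.card ↥M = 21 → Nat.card ↥M' = 21 → ∃ g : G, M' = M.map (MulAut.conj g).toMonoidHom) ∧ ∃ M₁ M₂ : Subgroup G, IsCoatom M₁ ∧ IsCoatom M₂ ∧ Nonempty (↥M₁ ≃* Equiv.Perm (Fin 4)) ∧ Nonempty (↥M₂ ≃* Equiv.Perm (Fin 4)) ∧ (∀ g : G, M₂ ≠ M₁.map (MulAut.conj g).toMonoidHom) ∧ ∀ M : Subgroup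 G, IsCoatom M → Nonempty (↥M ≃* Equiv.Perm (Fin 4)) → ∃ g : G, M = M₁.map (MulAut.conj g).toMonoidHom ∨ M = M₂.map (MulAut.conj g).toMonoidHom := by
  obtain ⟨φ⟩ := nonempty_iso h
  let F := φ.mapSubgroup
  have hF : ∀ V, F V = V.map φ.toMonoidHom := fun V => rfl
  have hco : ∀ V, IsCoatom (F V) ↔ IsCoatom V := fun V => F.isCoatom_iff V
  have hconj : ∀ (V : Subgroup CfsgLib.L168.T) (a : CfsgLib.L168.T),
      F (V.map (MulAut.conj a).toMonoidHom) = (F V).map (MulAut.conj (φ a)).toMonoidHom := fun V a => by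
    rw [hF, hF, Subgroup.map_map, Subgroup.map_map]
    congr 1
    exact MonoidHom.ext fun x => by simp
  have hback : ∀ (H : Subgroup CfsgLib.L168.T) (a : CfsgLib.L168.T),
      (H.map (MulAut.conj a).toMonoidHom).map (MulAut.conj a⁻¹).toMonoidHom = H := fun H a => by
    rw [Subgroup.map_map, show (MulAut.conj a⁻¹).toMonoidHom.comp (MulAut.conj a).toMonoidHom = MonoidHom.id _
      from MonoidHom.ext fun x => by simp [mul_assoc], Subgroup.map_id]
  have hne : ∀ V : Subgroup CfsgLib.L168.T, Nat.card V ≠ 168 → V ≠ ⊤ := fun V hV e => hV (by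
    rw [e, Subgroup.card_top, card_T])
  have hclass : ∀ M : Subgroup CfsgLib.L168.T, IsCoatom M → ∃ a, M = N1.map (MulAut.conj a).toMonoidHom ∨
      M = N2.map (MulAut.conj a).toMonoidHom ∨ M = N7.map (MulAut.conj a).toMonoidHom := by
    intro M hM
    obtain ⟨a, ha⟩ := le_maximal M hM.1
    have key : ∀ N : Subgroup CfsgLib.L168.T, Nat.card N ≠ 168 → M.map (MulAut.conj a).toMonoidHom ≤ N →
        M = N.map (MulAut.conj a⁻¹).toMonoidHom := by
      intro N hN hle
      have hle' : M ≤ N.map (MulAut.conj a⁻¹).toMonoidHom := by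
        have := Subgroup.map_mono (f := (MulAut.conj a⁻¹).toMonoidHom) hle
        rwa [hback] at this
      refine (hM.le_iff.1 hle').resolve_left (hne _ ?_) |>.symm
      rwa [Subgroup.card_map_of_injective (MulAut.conj a⁻¹).injective]
    refine ⟨a⁻¹, ha.imp (key N1 (by rw [card_N1]; norm_num)) (Or.imp (key N2 (by rw [card_N2]; norm_num))
      (key N7 (by rw [card_N7]; norm_num)))⟩
  have hmax : ∀ N : Subgroup CfsgLib.L168.T, Nat.card N = 24 → IsCoatom N := by
    intro N hN
    refine ⟨hne N (by rw [hN]; norm_num), fun K hK => ?_⟩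
    by_contra hKt
    obtain ⟨a, ha⟩ := le_maximal K hKt
    have h1 : Nat.card N < Nat.card K := lt_of_le_of_ne (Subgroup.card_le_of_le hK.le)
      fun e => hK.ne (Subgroup.eq_of_le_of_card_ge hK.le e.ge)
    have h2 : Nat.card K ≤ 24 := by
      rw [← Subgroup.card_map_of_injective (f := (MulAut.conj a).toMonoidHom) (K := K) (MulAut.conj a).injective]
      rcases ha with ha | ha | ha
      · exact card_N1 ▸ Subgroup.card_le_of_le ha
      · exact card_N2 ▸ Subgroup.card_le_of_le ha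
      · exact (Subgroup.card_le_of_le ha).trans (card_N7.le.trans (by norm_num))
    omega
  have iso : ∀ (V : Subgroup CfsgLib.L168.T) (a : CfsgLib.L168.T),
      Nonempty (V ≃* F (V.map (MulAut.conj a).toMonoidHom)) := fun V a =>
    ⟨(V.equivMapOfInjective _ (MulAut.conj a).injective).trans
      ((V.map (MulAut.conj a).toMonoidHom).equivMapOfInjective _ φ.injective)⟩
  have hsurj : ∀ M : Subgroup G, IsCoatom M → ∃ a, M = F (N1.map (MulAut.conj a).toMonoidHom) ∨
      M = F (N2.map (MulAut.conj a).toMonoidHom) ∨ M = F (N7.map (MulAut.conj a).toMonoidHom) := by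
    intro M hM
    obtain ⟨V, rfl⟩ := F.surjective M
    obtain ⟨a, ha⟩ := hclass V ((hco V).1 hM)
    exact ⟨a, ha.imp (congrArg F) (Or.imp (congrArg F) (congrArg F))⟩
  have hc7 : ∀ a, Nat.card (F (N7.map (MulAut.conj a).toMonoidHom)) = 21 := fun a => by
    rw [← Nat.card_congr (iso N7 a).some.toEquiv, card_N7]
  refine ⟨fun M hM => ?_, fun M M' hM hM' hc hc' => ?_, F N1, F N2, (hco _).2 (hmax _ card_N1),
    (hco _).2 (hmax _ card_N2), ⟨(N1.equivMapOfInjective _ φ.injective).symm.trans iso_N1.some⟩,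
    ⟨(N2.equivMapOfInjective _ φ.injective).symm.trans iso_N2.some⟩, fun g => ?_, fun M hM hiso => ?_⟩
  · obtain ⟨a, rfl | rfl | rfl⟩ := hsurj M hM
    · exact Or.inl ⟨(iso N1 a).some.symm.trans iso_N1.some⟩
    · exact Or.inl ⟨(iso N2 a).some.symm.trans iso_N2.some⟩
    · refine Or.inr ⟨hc7 a, fun hcomm => N7_noncomm ⟨⟨fun u v => (iso N7 a).some.injective ?_⟩⟩⟩
      rw [map_mul, map_mul]
      exact hcomm.is_comm.comm _ _
  · have hseven : ∀ K : Subgroup G, IsCoatom K → Nat.card K = 21 → ∃ a, K = F (N7.map (MulAut.conj a).toMonoidHom) := by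
      intro K hK hK'
      obtain ⟨a, rfl | rfl | rfl⟩ := hsurj K hK
      · rw [← Nat.card_congr (iso N1 a).some.toEquiv, card_N1] at hK'; norm_num at hK'
      · rw [← Nat.card_congr (iso N2 a).some.toEquiv, card_N2] at hK'; norm_num at hK'
      · exact ⟨a, rfl⟩
    obtain ⟨a, rfl⟩ := hseven M hM hc
    obtain ⟨b, rfl⟩ := hseven M' hM' hc'
    refine ⟨φ (b * a⁻¹), ?_⟩
    rw [← hconj, Subgroup.map_map, show (MulAut.conj (b * a⁻¹)).toMonoidHom.comp (MulAut.conj a).toMonoidHom =
      (MulAut.conj b).toMonoidHom from MonoidHom.ext fun x => by simp [mul_assoc]]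
  · obtain ⟨a, rfl⟩ := φ.surjective g
    rw [← hconj]
    exact fun e => N_not_conj a (F.injective e).symm
  · obtain ⟨a, rfl | rfl | rfl⟩ := hsurj M hM
    · exact ⟨φ a, Or.inl (hconj N1 a)⟩
    · exact ⟨φ a, Or.inr (hconj N2 a)⟩
    · have := Nat.card_congr hiso.some.toEquiv
      rw [hc7 a, Nat.card_perm, Nat.card_fin] at this
      norm_num [Nat.factorial] at this

end Cfsg.Agent.S1008
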