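import Cfsg.Statements.S1009
import Mathlib

set_option autoImplicit false
open Cfsg
open scoped Pointwise

namespace Cfsg.Agent.S1009

/-- Brodkey's Theorem: if a finite group has abelian Sylow p-subgroups, then there are two Sylow p-subgroups whose intersection equals the intersection of all Sylow p-subgroups. -/
theorem result {G : Type*} [Group G] [Finite G] (p : ℕ) [Fact p.Prime] (hab : ∀ P : Sylow p G, IsMulCommutative ↥(P : Subgroup G)) : ∃ P Q : Sylow p G, (P : Subgroup G) ⊓ (Q : Subgroup G) = ⨅ R : Sylow p G, (R : Subgroup G) := by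
  classical
  obtain ⟨S⟩ : Nonempty (Sylow p G) := inferInstance
  haveI := hab S
  haveI := Fintype.ofFinite G
  obtain ⟨g, -, hgmin⟩ := Finset.exists_min_image (Finset.univ : Finset G)
    (fun g => Nat.card ((S : Subgroup G) ⊓ MulAut.conj g • (S : Subgroup G) : Subgroup G)) ⟨1, Finset.mem_univ _⟩
  refine ⟨S, g • S, ?_⟩
  rw [Sylow.coe_subgroup_smul]
  set D : Subgroup G := (S : Subgroup G) ⊓ MulAut.conj g • (S : Subgroup G) with hD
  set N : Subgroup G := Subgroup.normalizer (D : Set G) with hN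
  have hmem : ∀ (a : G) (X : Subgroup G) (y : G), y ∈ MulAut.conj a • X ↔ a⁻¹ * y * a ∈ X := by
    intro a X y
    rw [Subgroup.mem_pointwise_smul_iff_inv_smul_mem]
    simp [MulAut.smul_def]
  have habel : ∀ a : G, MulAut.conj a • (S : Subgroup G) ≥ D → MulAut.conj a • (S : Subgroup G) ≤ N := by
    intro a ha
    have key : ∀ y ∈ MulAut.conj a • (S : Subgroup G), ∀ d ∈ D, y * d * y⁻¹ = d := by
      intro y hy d hd
      have hy' := (hmem a _ y).1 hy
      have hd' := (hmem a _ d).1 (ha hd)
      have := congrArg Subtype.val (mul_comm' (⟨_, hy'⟩ : (S : Subgroup G)) ⟨_, hd'⟩)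
      have h3 : y * d = d * y := by
        have h4 : a⁻¹ * (y * d) * a = a⁻¹ * (d * y) * a := by simpa [mul_assoc] using this
        simpa using h4
      rw [h3, mul_inv_cancel_right]
    intro y hy
    rw [hN, Subgroup.mem_normalizer_iff]
    intro d
    refine ⟨fun hd => (key y hy d hd).symm ▸ hd, fun hd => ?_⟩
    have h4 := key y⁻¹ (inv_mem hy) _ hd
    have h5 : d = y * d * y⁻¹ := by simpa [mul_assoc] using h4
    rwa [← h5] at hd
  have hSN : (S : Subgroup G) ≤ N := by
    have := habel 1 (by rw [map_one, one_smul]; exact inf_le_left)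
    rwa [map_one, one_smul] at this
  have hQN : MulAut.conj g • (S : Subgroup G) ≤ N := habel g inf_le_right
  suffices hall : ∀ h : G, D ≤ MulAut.conj h • (S : Subgroup G) by
    refine le_antisymm (le_iInf fun R => ?_) (le_inf (iInf_le _ S) ?_)
    · obtain ⟨h, rfl⟩ := MulAction.exists_smul_eq G S R
      rw [Sylow.coe_subgroup_smul]
      exact hall h
    · have := iInf_le (fun R : Sylow p G => (R : Subgroup G)) (g • S)
      rw [Sylow.coe_subgroup_smul] at this
      exact this
  intro h
  set R : Subgroup G := MulAut.conj h • (S : Subgroup G) with hR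
  have hRp : IsPGroup p R := S.isPGroup'.map _
  obtain ⟨T, hT⟩ := (hRp.comap_of_injective N.subtype Subtype.val_injective).exists_le_sylow
  obtain ⟨x, hx⟩ := MulAction.exists_smul_eq N (S.subtype hSN) T
  have hRN : ∀ y ∈ R, y ∈ N → (x : G)⁻¹ * y * x ∈ (S : Subgroup G) := by
    intro y hy hyN
    have h1 : (⟨y, hyN⟩ : N) ∈ (T : Subgroup N) := hT hy
    rw [← hx, Sylow.smul_def] at h1
    change (⟨y, hyN⟩ : N) ∈ MulAut.conj x • (S.subtype hSN : Subgroup N) at h1
    rw [Subgroup.mem_pointwise_smul_iff_inv_smul_mem] at h1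
    simpa [MulAut.smul_def, Sylow.coe_subtype, Subgroup.mem_subgroupOf] using h1
  set E : Subgroup G := R ⊓ MulAut.conj (x : G) • MulAut.conj g • (S : Subgroup G) with hE
  have hED : E ≤ D := by
    rintro y ⟨hyR, hyQ⟩
    have h1 := (hmem _ _ y).1 hyQ
    have hyN : y ∈ N := by
      have h2 : (x : G)⁻¹ * y * x ∈ N := hQN h1
      have := mul_mem (mul_mem x.2 h2) (inv_mem x.2)
      simpa [mul_assoc] using this
    have h3 : (x : G)⁻¹ * y * x ∈ D := ⟨hRN y hyR hyN, h1⟩
    have h4 := (Subgroup.mem_normalizer_iff.1 x.2 _).1 h3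
    simpa [mul_assoc] using h4
  have hcard : Nat.card D ≤ Nat.card E := by
    have h1 : E = MulAut.conj h • ((S : Subgroup G) ⊓ MulAut.conj (h⁻¹ * (x * g)) • (S : Subgroup G)) := by
      rw [hE, hR, Subgroup.smul_inf, smul_smul, smul_smul, ← map_mul, ← map_mul, mul_inv_cancel_left]
    rw [h1]
    refine le_trans (hgmin (h⁻¹ * (x * g)) (Finset.mem_univ _)) (le_of_eq ?_)
    exact (Subgroup.equivSMul (MulAut.conj h) _).toEquiv |> Nat.card_congr
  exact (Subgroup.eq_of_le_of_card_ge hED hcard).ge.trans inf_le_left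

end Cfsg.Agent.S1009
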