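import Cfsg.Statements.S1012
import Mathlib

set_option autoImplicit false
open Cfsg

namespace Cfsg.Agent.S1012

/-- A group of order 24 containing no element of order 6 is isomorphic to the symmetric group of degree 4. -/
theorem result {G : Type*} [Group G] [Finite G] (h : Nat.card G = 24) (h6 : ∀ g : G, orderOf g ≠ 6) : Nonempty (G ≃* Equiv.Perm (Fin 4)) := by
  classical
  have : Fact (Nat.Prime 3) := ⟨Nat.prime_three⟩
  have : Fact (Nat.Prime 2) := ⟨Nat.prime_two⟩
  obtain ⟨P⟩ : Nonempty (Sylow 3 G) := inferInstance
  have hPc : Nat.card ↥(P : Subgroup G) = 3 := by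
    rw [P.card_eq_multiplicity, h]
    have : (24 : ℕ).factorization 3 = 1 := by
      rw [show (24 : ℕ) = 3 * 8 from rfl, Nat.factorization_mul (by norm_num) (by norm_num),
        Finsupp.add_apply, Nat.prime_three.factorization_self,
        Nat.factorization_eq_zero_of_not_dvd (by norm_num)]
    rw [this, pow_one]
  -- an involution never centralises an element of order three
  have hno : ∀ a b : G, orderOf a = 2 → orderOf b = 3 → a * b ≠ b * a := fun a b ha hb hab =>
    h6 (a * b) (by rw [Commute.orderOf_mul_eq_mul_orderOf_of_coprime hab (by rw [ha, hb]; norm_num), ha, hb])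
  obtain ⟨b, hb⟩ : ∃ b : ↥(P : Subgroup G), orderOf b = 3 :=
    exists_prime_orderOf_dvd_card' 3 (by rw [hPc])
  have hb' : orderOf (b : G) = 3 := by rw [Subgroup.orderOf_coe, hb]
  have hPn : ¬ (P : Subgroup G).Normal := fun hn => by
    obtain ⟨a, ha⟩ := exists_prime_orderOf_dvd_card' (G := G) 2 (by rw [h]; norm_num)
    have hz : Subgroup.zpowers (b : G) = P := Subgroup.eq_of_le_of_card_ge
      (Subgroup.zpowers_le.mpr b.2) (by rw [Nat.card_zpowers, hb', hPc])
    -- an element of order four or two in the centraliser
    have hmem : a * (b : G) * a⁻¹ ∈ Subgroup.zpowers (b : G) := by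
      rw [hz]; exact hn.conj_mem _ b.2 a
    rw [mem_zpowers_iff_mem_range_orderOf, hb'] at hmem
    simp only [Finset.mem_image, Finset.mem_range] at hmem
    obtain ⟨i, hi, he⟩ := hmem
    interval_cases i
    · rw [pow_zero, eq_comm, conj_eq_one_iff] at he
      rw [he, orderOf_one] at hb'
      omega
    · rw [pow_one, eq_comm, mul_inv_eq_iff_eq_mul] at he
      exact hno a b ha hb' he
    · -- a inverts b; the centraliser of b has index at most two
      set C := Subgroup.centralizer ({(b : G)} : Set G) with hC
      have h2C : ¬ 2 ∣ Nat.card C := fun hd => by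
        obtain ⟨c, hc⟩ := exists_prime_orderOf_dvd_card' (G := C) 2 hd
        exact hno c b (by rw [Subgroup.orderOf_coe, hc]) hb' (Subgroup.mem_centralizer_singleton_iff.mp c.2)
      have hconj : ∀ g : G, g * b * g⁻¹ = b ∨ g * b * g⁻¹ = a * b * a⁻¹ := by
        intro g
        have hg : g * (b : G) * g⁻¹ ∈ Subgroup.zpowers (b : G) := by
          rw [hz]; exact hn.conj_mem _ b.2 g
        rw [mem_zpowers_iff_mem_range_orderOf, hb'] at hg
        simp only [Finset.mem_image, Finset.mem_range] at hg
        obtain ⟨j, hj, hje⟩ := hg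
        interval_cases j
        · rw [pow_zero, eq_comm, conj_eq_one_iff] at hje
          rw [hje, orderOf_one] at hb'
          omega
        · left; rw [← hje, pow_one]
        · right; rw [← hje, he]
      have hidx : C.index ≤ 2 := by
        have hsurj : Function.Surjective (fun i : Fin 2 => (QuotientGroup.mk (if i = 0 then 1 else a) : G ⧸ C)) := by
          rintro ⟨g⟩
          rcases hconj g with hg | hg
          · refine ⟨0, QuotientGroup.eq.mpr ?_⟩
            rw [if_pos rfl, inv_one, one_mul, hC, Subgroup.mem_centralizer_singleton_iff]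
            exact mul_inv_eq_iff_eq_mul.mp hg
          · refine ⟨1, QuotientGroup.eq.mpr ?_⟩
            rw [if_neg (by decide), hC, Subgroup.mem_centralizer_singleton_iff]
            calc a⁻¹ * g * b = a⁻¹ * (g * b * g⁻¹) * g := by group
              _ = a⁻¹ * (a * b * a⁻¹) * g := by rw [hg]
              _ = b * (a⁻¹ * g) := by group
        have := Nat.card_le_card_of_surjective _ hsurj
        simpa [Subgroup.index] using this
      have hm := C.card_mul_index
      rw [h] at hm
      have h0 : C.index ≠ 0 := Subgroup.index_ne_zero_of_finite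
      interval_cases C.index <;> omega
  have hn3 : Nat.card (Sylow 3 G) = 4 := by
    have hd := P.card_dvd_index
    have hidx : (P : Subgroup G).index = 8 := by
      have := (P : Subgroup G).card_mul_index
      rw [hPc, h] at this
      omega
    rw [hidx] at hd
    have hm : Nat.card (Sylow 3 G) % 3 = 1 % 3 := card_sylow_modEq_one 3 G
    have h1 : Nat.card (Sylow 3 G) ≠ 1 := fun h1 => by
      rw [Nat.card_eq_one_iff_unique] at h1
      obtain ⟨hs, -⟩ := h1
      exact hPn P.normal_of_subsingleton
    have := Nat.le_of_dvd (by norm_num) hd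
    interval_cases hk : Nat.card (Sylow 3 G) <;> omega
  let φ : G →* Equiv.Perm (Sylow 3 G) := MulAction.toPermHom G (Sylow 3 G)
  have hker : φ.ker = ⊥ := by
    set K := φ.ker with hK
    have hKN : K ≤ Subgroup.normalizer ((P : Subgroup G) : Set G) := fun k hk => by
      exact Sylow.smul_eq_iff_mem_normalizer.mp (Equiv.congr_fun (MonoidHom.mem_ker.mp hk) P)
    have hNc : Nat.card ↥(Subgroup.normalizer ((P : Subgroup G) : Set G)) = 6 := by
      have := (Subgroup.normalizer ((P : Subgroup G) : Set G)).card_mul_index
      rw [show (Subgroup.normalizer ((P : Subgroup G) : Set G)).index = 4 from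
        P.card_eq_index_normalizer.symm.trans hn3, h] at this
      omega
    have hdvd : Nat.card K ∣ 6 := hNc ▸ Subgroup.card_dvd_of_le hKN
    have h3K : ¬ 3 ∣ Nat.card K := fun hd => by
      obtain ⟨c, hc⟩ := exists_prime_orderOf_dvd_card' (G := K) 3 hd
      have hall : ∀ R : Sylow 3 G, (c : G) ∈ (R : Subgroup G) := by
        intro R
        have hN : (c : G) ∈ Subgroup.normalizer ((R : Subgroup G) : Set G) := by
          exact Sylow.smul_eq_iff_mem_normalizer.mp (Equiv.congr_fun (MonoidHom.mem_ker.mp c.2) R)
        have hp : IsPGroup 3 (Subgroup.zpowers (c : G)) := IsPGroup.of_card (n := 1)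
          (by rw [Nat.card_zpowers, Subgroup.orderOf_coe, hc, pow_one])
        have h' := (IsPGroup.inf_normalizer_sylow hp R).le
          (⟨Subgroup.mem_zpowers _, hN⟩ : (c : G) ∈ Subgroup.zpowers (c : G) ⊓ Subgroup.normalizer ((R : Subgroup G) : Set G))
        exact h'.2
      have hzR : ∀ R : Sylow 3 G, Subgroup.zpowers (c : G) = R := fun R =>
        Subgroup.eq_of_le_of_card_ge (Subgroup.zpowers_le.mpr (hall R))
          (by rw [R.card_eq_multiplicity, ← P.card_eq_multiplicity, hPc, Nat.card_zpowers,
            Subgroup.orderOf_coe, hc])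
      have : Subsingleton (Sylow 3 G) := ⟨fun R R' => Sylow.ext ((hzR R).symm.trans (hzR R'))⟩
      exact hPn P.normal_of_subsingleton
    have h2K : ¬ 2 ∣ Nat.card K := fun hd => by
      obtain ⟨c, hc⟩ := exists_prime_orderOf_dvd_card' (G := K) 2 hd
      have hK2 : Nat.card K = 2 := by
        have := Nat.le_of_dvd (by norm_num) hdvd
        interval_cases hk : Nat.card K <;> omega
      have hzc : Subgroup.zpowers c = ⊤ :=
        Subgroup.eq_top_of_card_eq _ (by rw [Nat.card_zpowers, hc, hK2])
      have hmem : (b : G) * c * (b : G)⁻¹ ∈ K := (MonoidHom.normal_ker φ).conj_mem _ c.2 _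
      have h' : (⟨_, hmem⟩ : K) ∈ Subgroup.zpowers c := hzc ▸ Subgroup.mem_top _
      rw [mem_zpowers_iff_mem_range_orderOf, hc] at h'
      simp only [Finset.mem_image, Finset.mem_range] at h'
      obtain ⟨i, hi, he⟩ := h'
      have he' : (c : G) ^ i = (b : G) * c * (b : G)⁻¹ := congrArg Subtype.val he
      interval_cases i
      · rw [pow_zero, eq_comm, conj_eq_one_iff] at he'
        rw [← Subgroup.orderOf_coe, he', orderOf_one] at hc
        omega
      · rw [pow_one, eq_mul_inv_iff_mul_eq] at he'
        exact hno c b (by rw [Subgroup.orderOf_coe, hc]) hb' he'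
    refine Subgroup.card_eq_one.mp ?_
    have := Nat.le_of_dvd (by norm_num) hdvd
    have := Nat.card_pos (α := K)
    interval_cases hk : Nat.card K <;> omega
  have hbij : Function.Bijective φ := by
    rw [Nat.bijective_iff_injective_and_card]
    exact ⟨(MonoidHom.ker_eq_bot_iff φ).mp hker, by rw [h, Nat.card_perm, hn3]; rfl⟩
  exact ⟨(MulEquiv.ofBijective φ hbij).trans
    ((Finite.equivFinOfCardEq hn3).permCongrHom)⟩

end Cfsg.Agent.S1012
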