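import Cfsg.Statements.S1013
import Mathlib

set_option autoImplicit false
open Cfsg

namespace Cfsg.Agent.S1013

/-- Let G be a transitive permutation group of prime degree p having more than one Sylow p-subgroup, and suppose a Sylow p-subgroup P has prime index in its normalizer. Then G is simple. -/
theorem result {α : Type*} [Fintype α] [DecidableEq α] {p : ℕ} [Fact p.Prime] (hα : Fintype.card α = p) (G : Subgroup (Equiv.Perm α)) [MulAction.IsPretransitive ↥G α] (P : Sylow p ↥G) (hn : 1 < Nat.card (Sylow p ↥G)) (ht : (((P : Subgroup ↥G).subgroupOf (Subgroup.normalizer ((P : Subgroup ↥G) : Set ↥G))).index).Prime) : IsSimpleGroup ↥G := by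
  classical
  have hp := (Fact.out : p.Prime)
  have hcard : Nat.card α = p := by rw [Nat.card_eq_fintype_card, hα]
  -- transitive of prime degree: non-trivial normal subgroups are transitive
  have hprim : MulAction.IsPreprimitive ↥G α :=
    MulAction.IsPreprimitive.of_prime_card (by rw [hcard]; exact hp)
  have htr : ∀ N : Subgroup ↥G, N.Normal → N ≠ ⊥ → MulAction.IsPretransitive ↥N α := fun N hN hne => by
    refine MulAction.IsQuasiPreprimitive.isPretransitive_of_normal fun h => hne ?_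
    rw [Subgroup.eq_bot_iff_forall]
    intro m hm
    refine FaithfulSMul.eq_of_smul_eq_smul (α := α) fun a => ?_
    rw [one_smul]
    have hma : a ∈ MulAction.fixedPoints N α := h ▸ Set.mem_univ a
    exact hma ⟨m, hm⟩
  have hdvd : ∀ N : Subgroup ↥G, MulAction.IsPretransitive ↥N α → p ∣ Nat.card N := fun N hN => by
    obtain ⟨a⟩ : Nonempty α := Fintype.card_pos_iff.mp (hα ▸ hp.pos)
    rw [← hcard, ← (MulAction.stabilizer ↥N a).card_mul_index,
      MulAction.index_stabilizer_of_transitive]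
    exact Dvd.intro_left _ rfl
  have hPc : Nat.card ↥(P : Subgroup ↥G) = p := by
    obtain ⟨n, hn⟩ := P.isPGroup'.exists_card_eq
    have h1 : p ^ n ∣ p.factorial := by
      rw [← hn]
      refine (Subgroup.card_subgroup_dvd_card _).trans ((Subgroup.card_subgroup_dvd_card G).trans ?_)
      rw [Nat.card_perm, hcard]
    have h2 : p ∣ Nat.card ↥(⊤ : Subgroup ↥G) := hdvd ⊤ ⟨fun a b =>
      let ⟨g, hg⟩ := MulAction.exists_smul_eq ↥G a b; ⟨⟨g, trivial⟩, hg⟩⟩
    rw [Subgroup.card_top] at h2
    have hn0 : n ≠ 0 := fun h0 => by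
      rw [h0, pow_zero] at hn
      have hd := P.not_dvd_index
      rw [← (P : Subgroup ↥G).card_mul_index, hn, one_mul] at h2
      exact hd h2
    have hn1 : n ≤ 1 := by
      by_contra h
      have h3 : p * p ∣ p.factorial := (pow_two p ▸ Nat.pow_dvd_pow p (show 2 ≤ n by omega)).trans h1
      rw [← Nat.mul_factorial_pred hp.ne_zero, Nat.mul_dvd_mul_iff_left hp.pos, hp.dvd_factorial] at h3
      have := hp.two_le
      omega
    rw [hn, show n = 1 by omega, pow_one]
  have hnontriv : Nontrivial ↥G := by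
    rw [← Finite.one_lt_card_iff_nontrivial]
    exact lt_of_lt_of_le (hPc ▸ hp.one_lt) (Nat.le_of_dvd Nat.card_pos (Subgroup.card_subgroup_dvd_card _))
  refine ⟨fun N hN => ?_⟩
  haveI := hN
  by_cases hNb : N = ⊥
  · exact Or.inl hNb
  right
  -- every Sylow subgroup lies in `N`
  have hpN := hdvd N (htr N hN hNb)
  have hPN : (P : Subgroup ↥G) ≤ N := by
    obtain ⟨Q⟩ : Nonempty (Sylow p ↥N) := inferInstance
    have hQc : p ∣ Nat.card ↥(Q : Subgroup ↥N) := Q.dvd_card_of_dvd_card hpN
    obtain ⟨R, hR⟩ := (Q.isPGroup'.map N.subtype).exists_le_sylow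
    have hRc : Nat.card ↥(R : Subgroup ↥G) = p := by rw [R.card_eq_multiplicity, ← P.card_eq_multiplicity, hPc]
    have heq : (Q : Subgroup ↥N).map N.subtype = R := Subgroup.eq_of_le_of_card_ge hR (by
      rw [hRc, Subgroup.card_map_of_injective N.subtype_injective]
      exact Nat.le_of_dvd Nat.card_pos hQc)
    obtain ⟨g, hg⟩ := MulAction.exists_smul_eq ↥G R P
    intro x hx
    rw [← hg, Sylow.coe_subgroup_smul] at hx
    obtain ⟨y, hy, rfl⟩ := hx
    rw [← heq] at hy
    obtain ⟨z, -, rfl⟩ := hy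
    exact hN.conj_mem z z.2 g
  set NP := Subgroup.normalizer ((P : Subgroup ↥G) : Set ↥G) with hNP
  have hfrat : NP ⊔ N = ⊤ := P.normalizer_sup_eq_top' hPN
  have hle : (P : Subgroup ↥G) ≤ N ⊓ NP := le_inf hPN Subgroup.le_normalizer
  have hmul : (P : Subgroup ↥G).relIndex (N ⊓ NP) * (N ⊓ NP).relIndex NP = (P : Subgroup ↥G).relIndex NP :=
    Subgroup.relIndex_mul_relIndex _ _ _ hle inf_le_right
  have hq : ((P : Subgroup ↥G).relIndex NP).Prime := ht
  rcases (Nat.dvd_prime hq).mp (Dvd.intro_left _ hmul) with h1 | h1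
  · -- the normaliser is inside `N`
    have : NP ≤ N := (Subgroup.relIndex_eq_one.mp h1).trans inf_le_left
    rw [eq_top_iff, ← hfrat]
    exact sup_le this le_rfl
  -- Burnside transfer inside `N`
  exfalso
  have h2 : (P : Subgroup ↥G).relIndex (N ⊓ NP) = 1 := by
    have := hq.pos
    rw [h1] at hmul
    exact (Nat.mul_eq_right this.ne').mp hmul
  have hNPle : N ⊓ NP ≤ P := Subgroup.relIndex_eq_one.mp h2
  let P' : Sylow p ↥N := P.subtype hPN
  have hP'c : Nat.card ↥(P' : Subgroup ↥N) = p := by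
    rw [Sylow.coe_subtype, Nat.card_congr (Subgroup.subgroupOfEquivOfLe hPN).toEquiv, hPc]
  have hcen : Subgroup.normalizer ((P' : Subgroup ↥N) : Set ↥N) ≤ Subgroup.centralizer ((P' : Subgroup ↥N) : Set ↥N) := by
    have : IsCyclic ↥(P' : Subgroup ↥N) := isCyclic_of_prime_card hP'c
    letI := IsCyclic.commGroup (α := ↥(P' : Subgroup ↥N))
    intro g hg
    have hgP : g ∈ (P' : Subgroup ↥N) := by
      rw [Sylow.coe_subtype, Subgroup.mem_subgroupOf]
      refine hNPle ⟨g.2, Subgroup.mem_normalizer_iff.mpr fun x => ⟨fun hx => ?_, fun hx => ?_⟩⟩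
      · exact (Subgroup.mem_normalizer_iff.mp hg ⟨x, hPN hx⟩).mp hx
      · have hxN : x ∈ N := by
          have := hN.conj_mem _ (hPN hx) (g : ↥G)⁻¹
          simpa [mul_assoc] using this
        exact (Subgroup.mem_normalizer_iff.mp hg ⟨x, hxN⟩).mpr hx
    exact Subgroup.mem_centralizer_iff.mpr fun x hx =>
      congrArg Subtype.val (mul_comm (⟨x, hx⟩ : ↥(P' : Subgroup ↥N)) ⟨g, hgP⟩)
  set f := MonoidHom.transferSylow P' hcen with hf
  have hcompl := MonoidHom.ker_transferSylow_isComplement' P' hcen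
  have hnd := MonoidHom.not_dvd_card_ker_transferSylow P' hcen
  have hidx : f.ker.index = p := by rw [hcompl.symm.index_eq_card, hP'c]
  have hchar : ∀ n : ↥N, n ∈ f.ker ↔ ¬ p ∣ orderOf n := by
    intro n
    refine ⟨fun h hd => hnd (hd.trans (Subgroup.orderOf_dvd_natCard _ h)), fun h => ?_⟩
    have h1 : f n ^ orderOf n = 1 := by rw [← map_pow, pow_orderOf_eq_one, map_one]
    rw [MonoidHom.mem_ker, ← orderOf_eq_one_iff]
    refine Nat.eq_one_of_dvd_coprimes ((hp.coprime_iff_not_dvd).mpr h) ?_ (orderOf_dvd_of_pow_eq_one h1)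
    have h2 := orderOf_dvd_natCard (f n)
    rw [hP'c] at h2
    exact h2
  have hKn : (f.ker.map N.subtype).Normal := by
    refine ⟨fun x hx g => ?_⟩
    obtain ⟨n, hn, rfl⟩ := hx
    refine ⟨⟨g * (n : ↥G) * g⁻¹, hN.conj_mem n n.2 g⟩, (hchar _).mpr ?_, rfl⟩
    have := (hchar n).mp hn
    rw [← Subgroup.orderOf_coe] at this ⊢
    show ¬ p ∣ orderOf (MulAut.conj g (n : ↥G))
    rwa [MulEquiv.orderOf_eq]
  have hKb : f.ker.map N.subtype = ⊥ := by
    by_contra h
    have := hdvd _ (htr _ hKn h)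
    rw [Subgroup.card_map_of_injective N.subtype_injective] at this
    exact hnd this
  rw [Subgroup.map_eq_bot_iff_of_injective _ N.subtype_injective] at hKb
  rw [hKb, Subgroup.index_bot] at hidx
  have hPeq : (P : Subgroup ↥G) = N :=
    Subgroup.eq_of_le_of_card_ge hPN (by rw [hPc, hidx])
  have hPn : (P : Subgroup ↥G).Normal := hPeq ▸ hN
  letI := Sylow.unique_of_normal P hPn
  have : Subsingleton (Sylow p ↥G) := inferInstance
  rw [Finite.one_lt_card_iff_nontrivial] at hn
  exact not_nontrivial _ hn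

end Cfsg.Agent.S1013
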