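import Cfsg.Statements.S1014
import Cfsg.Agent.SmallOrders.Basic

set_option autoImplicit false
open Cfsg

namespace Cfsg.Agent.S1014

/-- No finite simple group has order 1104 = 2^4 * 3 * 23. -/
theorem result {G : Type*} [Group G] [Finite G] [IsSimpleGroup G] : Nat.card G ≠ 1104 := by
  intro h
  haveI : Fact (23 : ℕ).Prime := ⟨by norm_num⟩
  have hG : ¬ IsMulCommutative G := CfsgLib.SmallOrd.not_comm (by rw [h]; norm_num)
  obtain ⟨P⟩ : Nonempty (Sylow 23 G) := inferInstance
  have hPc : Nat.card (P : Subgroup G) = 23 ^ 1 :=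
    CfsgLib.SmallOrd.sylow_card (m := 48) (by rw [h]; norm_num) (by norm_num) P
  have h0 : (P : Subgroup G) ≠ ⊥ := fun e => by rw [e, Subgroup.card_bot] at hPc; norm_num at hPc
  have ht : (P : Subgroup G) ≠ ⊤ := fun e => by rw [e, Subgroup.card_top, h] at hPc; norm_num at hPc
  obtain ⟨hNt, hn1, hn, hidx, hmul⟩ := CfsgLib.SmallOrd.sylow_data P h0 ht
  rw [h] at hmul
  have hdvd : Nat.card (Sylow 23 G) ∣ 48 := by
    have := P.card_dvd_index
    rw [show (P : Subgroup G).index = 48 from Nat.eq_of_mul_eq_mul_left (show 0 < 23 ^ 1 by norm_num)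
      (by rw [← hPc, Subgroup.card_mul_index, h, hPc]; norm_num)] at this
    exact this
  have hmem := CfsgLib.SmallOrd.mem_divisors_filter (by norm_num) hdvd hn
  have hs : (Nat.divisors 48).filter (fun d => d % 23 = 1) = {1, 24} := by decide
  rw [hs] at hmem
  simp only [Finset.mem_insert, Finset.mem_singleton] at hmem
  rcases hmem with e | e
  · exact hn1 e
  · rw [e] at hmul
    have := CfsgLib.SmallOrd.card_normalizer_dvd_of_succ (by norm_num) hG P (by rw [hPc, pow_one]) (by rw [e])
    rw [show Nat.card (Subgroup.normalizer ((P : Subgroup G) : Set G)) = 46 by omega] at this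
    norm_num at this

end Cfsg.Agent.S1014
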