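import Cfsg.Statements.S1015
import Cfsg.Agent.SmallOrders.Basic
import Cfsg.Agent.S0985

set_option autoImplicit false
open Cfsg

namespace Cfsg.Agent.S1015

/-- No finite simple group has order 1200 = 2^4 * 3 * 5^2. -/
theorem result {G : Type*} [Group G] [Finite G] [IsSimpleGroup G] : Nat.card G ≠ 1200 := by
  intro h
  haveI : Fact (5 : ℕ).Prime := ⟨by norm_num⟩
  have hG : ¬ IsMulCommutative G := CfsgLib.SmallOrd.not_comm (by rw [h]; norm_num)
  obtain ⟨P⟩ : Nonempty (Sylow 5 G) := inferInstance
  have hPc : Nat.card (P : Subgroup G) = 5 ^ 2 :=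
    CfsgLib.SmallOrd.sylow_card (m := 48) (by rw [h]; norm_num) (by norm_num) P
  have h0 : (P : Subgroup G) ≠ ⊥ := fun e => by rw [e, Subgroup.card_bot] at hPc; norm_num at hPc
  have ht : (P : Subgroup G) ≠ ⊤ := fun e => by rw [e, Subgroup.card_top, h] at hPc; norm_num at hPc
  obtain ⟨hNt, hn1, hn, hidx, hmul⟩ := CfsgLib.SmallOrd.sylow_data P h0 ht
  rw [h] at hmul
  have hdvd : Nat.card (Sylow 5 G) ∣ 48 := by
    have := P.card_dvd_index
    rw [show (P : Subgroup G).index = 48 from Nat.eq_of_mul_eq_mul_left (show 0 < 5 ^ 2 by norm_num)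
      (by rw [← hPc, Subgroup.card_mul_index, h, hPc]; norm_num)] at this
    exact this
  have hmem := CfsgLib.SmallOrd.mem_divisors_filter (by norm_num) hdvd hn
  have hs : (Nat.divisors 48).filter (fun d => d % 5 = 1) = {1, 6, 16} := by decide
  rw [hs] at hmem
  simp only [Finset.mem_insert, Finset.mem_singleton] at hmem
  rcases hmem with e | e | e
  · exact hn1 e
  · have := CfsgLib.SmallOrd.two_mul_card_dvd_factorial hG _ hNt
    rw [← hidx, e, h] at this
    norm_num [Nat.factorial] at this
  · obtain ⟨P', R, hPR, hle⟩ := Cfsg.Agent.S0985.result (G := G) 5 2 (by rw [e]; decide)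
    have hP' : Nat.card (P' : Subgroup G) = 5 ^ 2 :=
      CfsgLib.SmallOrd.sylow_card (m := 48) (by rw [h]; norm_num) (by norm_num) P'
    have hR : Nat.card (R : Subgroup G) = 5 ^ 2 :=
      CfsgLib.SmallOrd.sylow_card (m := 48) (by rw [h]; norm_num) (by norm_num) R
    set D : Subgroup G := (R : Subgroup G) ⊓ (P' : Subgroup G) with hD
    have hD0 : D ≠ ⊥ := by
      intro hbot
      have h1 := ((R : Subgroup G).subgroupOf (P' : Subgroup G)).card_mul_index
      have h2 : Nat.card ((R : Subgroup G).subgroupOf (P' : Subgroup G)) = 1 := by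
        rw [← Subgroup.inf_subgroupOf_right, ← hD, hbot, Subgroup.bot_subgroupOf, Subgroup.card_bot]
      rw [h2, one_mul, hP'] at h1
      rw [h1] at hle
      norm_num at hle
    set K := Subgroup.normalizer (D : Set G)
    have hcl : ∀ Q : Sylow 5 G, Nat.card (Q : Subgroup G) = 5 ^ 2 → D ≤ Q → (Q : Subgroup G) ≤ K := by
      intro Q hQ hDQ
      haveI := IsPGroup.isMulCommutative_of_card_eq_prime_sq hQ
      intro q hq
      rw [Subgroup.mem_normalizer_iff]
      intro d
      constructor
      · intro hd
        have hc : q * d = d * q :=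
          congrArg Subtype.val (mul_comm' (⟨q, hq⟩ : (Q : Subgroup G)) ⟨d, hDQ hd⟩)
        rw [hc, mul_inv_cancel_right]
        exact hd
      · intro hd
        have hd' : d ∈ (Q : Subgroup G) := by
          have := (Q : Subgroup G).mul_mem ((Q : Subgroup G).mul_mem ((Q : Subgroup G).inv_mem hq) (hDQ hd)) hq
          have e2 : q⁻¹ * (q * d * q⁻¹) * q = d := by group
          rwa [e2] at this
        have hc : q * d = d * q := congrArg Subtype.val (mul_comm' (⟨q, hq⟩ : (Q : Subgroup G)) ⟨d, hd'⟩)
        rw [hc, mul_inv_cancel_right] at hd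
        exact hd
    have hPK : (P' : Subgroup G) ≤ K := hcl P' hP' inf_le_right
    have hRK : (R : Subgroup G) ≤ K := hcl R hR inf_le_left
    have hKt : K ≠ ⊤ := fun ht' => by
      haveI := Subgroup.normalizer_eq_top_iff.mp ht'
      rcases Subgroup.Normal.eq_bot_or_eq_top this with hb | hb
      · exact hD0 hb
      · have h3 : (⊤ : Subgroup G) ≤ (P' : Subgroup G) := hb ▸ inf_le_right
        have h4 := Nat.le_of_dvd Nat.card_pos (Subgroup.card_dvd_of_le h3)
        rw [Subgroup.card_top, h, hP'] at h4
        norm_num at h4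
    have hn5 : Nat.card (Sylow 5 K) ≠ 1 := by
      intro h1
      haveI := (Nat.card_eq_one_iff_unique.mp h1).1
      apply hPR
      have := congrArg (fun S : Sylow 5 K => (S : Subgroup K))
        (Subsingleton.elim (P'.subtype hPK) (R.subtype hRK))
      simp only [Sylow.coe_subtype] at this
      have := congrArg (Subgroup.map K.subtype) this
      rw [Subgroup.map_subgroupOf_eq_of_le hPK, Subgroup.map_subgroupOf_eq_of_le hRK] at this
      exact Sylow.ext this
    have hmod := card_sylow_modEq_one 5 K
    rw [Nat.ModEq] at hmod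
    have hd1 := (P'.subtype hPK).card_dvd_index
    rw [Sylow.coe_subtype] at hd1
    have h25 : Nat.card ((P' : Subgroup G).subgroupOf K) = 25 := by
      rw [Nat.card_congr (Subgroup.subgroupOfEquivOfLe hPK).toEquiv, hP']; norm_num
    have hcm := ((P' : Subgroup G).subgroupOf K).card_mul_index
    rw [h25] at hcm
    have hKi := K.index_mul_card
    rw [h, ← hcm] at hKi
    have hpos : 0 < ((P' : Subgroup G).subgroupOf K).index :=
      Nat.pos_of_ne_zero Subgroup.index_ne_zero_of_finite
    have h6 : 6 ≤ ((P' : Subgroup G).subgroupOf K).index := by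
      have := Nat.le_of_dvd hpos hd1
      have := Nat.card_pos (α := Sylow 5 K)
      omega
    have hi8 : K.index ≤ 8 := by
      by_contra hh
      nlinarith
    have hi2 : 2 ≤ K.index := K.one_lt_index_of_ne_top hKt
    have := CfsgLib.SmallOrd.two_mul_card_dvd_factorial hG K hKt
    rw [h] at this
    interval_cases K.index <;> norm_num [Nat.factorial] at this

end Cfsg.Agent.S1015
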