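import Cfsg.Statements.S1017
import Cfsg.Agent.SmallOrders.Basic
import Cfsg.Agent.PReduced.Hom

set_option autoImplicit false
open Cfsg

namespace Cfsg.Agent.S1017

open CfsgLib.SmallOrd

/-- the case of 36 Sylow 7-subgroups is impossible. -/
theorem not_36 {G : Type*} [Group G] [Finite G] [IsSimpleGroup G] [Fact (Nat.Prime 7)]
    (h : Nat.card G = 2016) (P : Sylow 7 G) (hPc : Nat.card (P : Subgroup G) = 7)
    (hn : Nat.card (Sylow 7 G) = 36) : False := by
  haveI : Fact (Nat.Prime 2) := ⟨Nat.prime_two⟩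
  have hG : ¬ IsMulCommutative G := not_comm (by rw [h]; norm_num)
  set N := Subgroup.normalizer ((P : Subgroup G) : Set G) with hNdef
  have hNi : N.index = 36 := P.card_eq_index_normalizer.symm.trans hn
  have hNc : Nat.card N = 56 := by
    have := N.index_mul_card
    rw [hNi, h] at this
    omega
  have hPN : (P : Subgroup G) ≤ N := Subgroup.le_normalizer
  set C := Subgroup.centralizer ((P : Subgroup G) : Set G) with hCdef
  -- `[N : C] ≤ 2`
  have hCi : (C.subgroupOf N).index ∣ 2 := by
    haveI : IsCyclic (P : Subgroup G) := isCyclic_of_prime_card hPc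
    have h1 : (C.subgroupOf N).index ∣ Nat.card (MulAut (P : Subgroup G)) := by
      have := Subgroup.normalizerMonoidHom_ker (P : Subgroup G)
      rw [show C.subgroupOf N = (P : Subgroup G).normalizerMonoidHom.ker from this.symm,
        Subgroup.index_ker]
      exact Subgroup.card_subgroup_dvd_card _
    rw [IsCyclic.card_mulAut, hPc, Nat.totient_prime (by norm_num)] at h1
    have h2 := (C.subgroupOf N).index_dvd_card
    rw [hNc] at h2
    exact (Nat.dvd_gcd h1 h2).trans (by norm_num)
  -- a Sylow 2-subgroup of `N`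
  obtain ⟨T0⟩ : Nonempty (Sylow 2 N) := inferInstance
  have hT0 : Nat.card (T0 : Subgroup N) = 8 := by
    rw [sylow_card (k := 3) (m := 7) (by rw [hNc]; norm_num) (by norm_num) T0]; norm_num
  set T : Subgroup G := (T0 : Subgroup N).map N.subtype with hTdef
  have hTc : Nat.card T = 8 := by
    rw [Subgroup.card_map_of_injective N.subtype_injective, hT0]
  have hTN : T ≤ N := Subgroup.map_subtype_le _
  have hTp : IsPGroup 2 T := IsPGroup.of_card (n := 3) (by rw [hTc]; norm_num)
  -- an element of the normalizer of `T` outside `N`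
  obtain ⟨g, hgT, hgN⟩ : ∃ g ∈ Subgroup.normalizer (T : Set G), g ∉ N := by
    by_contra hcon
    push Not at hcon
    have h1 : 2 ^ (3 + 1) ∣ Nat.card (Subgroup.normalizer (T : Set G)) :=
      Sylow.prime_pow_dvd_card_normalizer (by rw [h]; norm_num) (by rw [hTc]; norm_num)
    have := h1.trans (Subgroup.card_dvd_of_le hcon)
    rw [hNc] at this
    norm_num at this
  have hgT' : ∀ t, t ∈ T ↔ g * t * g⁻¹ ∈ T := Subgroup.mem_normalizer_iff.mp hgT
  have hgTi : ∀ t ∈ T, g⁻¹ * t * g ∈ T := fun t ht => by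
    rw [hgT' (g⁻¹ * t * g)]
    have : g * (g⁻¹ * t * g) * g⁻¹ = t := by group
    rwa [this]
  have hCconj : ∀ n ∈ N, ∀ c ∈ C, n * c * n⁻¹ ∈ C := by
    intro n hn' c hc
    rw [hCdef, Subgroup.mem_centralizer_iff] at hc ⊢
    intro x hx
    have hx' : n⁻¹ * x * n ∈ (P : Subgroup G) := by
      have := (Subgroup.mem_normalizer_iff.mp (N.inv_mem hn') x).mp hx
      rwa [inv_inv] at this
    have := hc _ hx'
    calc x * (n * c * n⁻¹) = n * ((n⁻¹ * x * n) * c) * n⁻¹ := by group
      _ = n * (c * (n⁻¹ * x * n)) * n⁻¹ := by rw [this]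
      _ = n * c * n⁻¹ * x := by group
  -- the two normal subgroups of `T`
  let conj' : T →* G := (MulAut.conj g⁻¹).toMonoidHom.comp T.subtype
  set A : Subgroup T := C.subgroupOf T with hA
  set B : Subgroup T := C.comap conj' with hB
  have hAn : A.Normal := ⟨fun a ha t => hCconj t (hTN t.2) a ha⟩
  have hBn : B.Normal := ⟨fun a ha t => by
    rw [hB, Subgroup.mem_comap, map_mul, map_mul, map_inv] at *
    refine hCconj _ ?_ _ ha
    show MulAut.conj g⁻¹ (t : G) ∈ N
    rw [MulAut.conj_apply, inv_inv]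
    exact hTN (hgTi t t.2)⟩
  have hAi : A.index ≤ 2 := by
    have : A.index = C.relIndex T := rfl
    rw [this]
    have h2 : C.relIndex N ≤ 2 := Nat.le_of_dvd two_pos hCi
    exact (Subgroup.relIndex_le_of_le_right hTN
      (Subgroup.index_ne_zero_of_finite (H := C.subgroupOf N))).trans h2
  have hBi : B.index ≤ 2 := by
    have hrange : conj'.range = T := by
      ext x
      simp only [MonoidHom.mem_range, conj', MonoidHom.coe_comp, Function.comp_apply,
        Subgroup.coe_subtype, MulEquiv.coe_toMonoidHom, MulAut.conj_apply, inv_inv]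
      constructor
      · rintro ⟨t, rfl⟩
        exact hgTi t t.2
      · intro hx
        exact ⟨⟨g * x * g⁻¹, (hgT' x).mp hx⟩, by group⟩
    rw [hB, Subgroup.index_comap, hrange]
    exact hAi
  have hne : A ⊓ B ≠ ⊥ := fun e => by
    have h1 := Subgroup.index_inf_le (H := A) (K := B)
    rw [e, Subgroup.index_bot, hTc] at h1
    have := Nat.mul_le_mul hAi hBi
    omega
  haveI : (A ⊓ B).Normal := Subgroup.normal_inf_normal A B
  obtain ⟨⟨⟨y, hyT⟩, ⟨hyA, hyB⟩, hyZ⟩, hy1⟩ :=
    Subgroup.ne_bot_iff_exists_ne_one.mp (CfsgLib.PReduced.inf_center_ne_bot hTp hne)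
  have hyC : y ∈ C := hyA
  have hyC' : g⁻¹ * y * g ∈ C := by
    have : MulAut.conj g⁻¹ y ∈ C := hyB
    rwa [MulAut.conj_apply, inv_inv] at this
  have hyne : y ≠ 1 := fun e => hy1 (Subtype.ext (Subtype.ext e))
  set K := Subgroup.centralizer ({y} : Set G) with hK
  have hKt : K ≠ ⊤ := by
    intro e
    rcases (inferInstance : (Subgroup.center G).Normal).eq_bot_or_eq_top with hb | hb
    · apply hyne
      rw [← Subgroup.mem_bot, ← hb, Subgroup.mem_center_iff]
      intro x
      have : x ∈ K := by rw [e]; trivial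
      exact Subgroup.mem_centralizer_singleton_iff.mp this
    · exact hG ⟨⟨fun a b => (Subgroup.mem_center_iff.mp (by rw [hb]; trivial : b ∈ Subgroup.center G) a)⟩⟩
  have hPK : (P : Subgroup G) ≤ K := fun x hx => by
    rw [hK, Subgroup.mem_centralizer_singleton_iff]
    exact Subgroup.mem_centralizer_iff.mp hyC x hx
  have hTK : T ≤ K := fun t ht => by
    rw [hK, Subgroup.mem_centralizer_singleton_iff]
    exact congrArg Subtype.val (Subgroup.mem_center_iff.mp hyZ ⟨t, ht⟩)
  have hNK : N ≤ K := by
    have h1 : Nat.card (N ⊓ K : Subgroup G) = 56 := by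
      have h7 : 7 ∣ Nat.card (N ⊓ K : Subgroup G) := hPc ▸ Subgroup.card_dvd_of_le (le_inf hPN hPK)
      have h8 : 8 ∣ Nat.card (N ⊓ K : Subgroup G) := hTc ▸ Subgroup.card_dvd_of_le (le_inf hTN hTK)
      have h56 := hNc ▸ Subgroup.card_dvd_of_le (inf_le_left : N ⊓ K ≤ N)
      exact Nat.dvd_antisymm h56 (Nat.Coprime.mul_dvd_of_dvd_of_dvd (by norm_num) h7 h8)
    exact (Subgroup.eq_of_le_of_card_ge inf_le_left (by rw [hNc, h1])).ge.trans inf_le_right
  -- `K` has a single Sylow 7-subgroup
  have hnorm : Subgroup.normalizer (((P.subtype hPK : Sylow 7 K) : Subgroup K) : Set K) =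
      N.subgroupOf K := by
    rw [Sylow.coe_subtype, hNdef, Subgroup.subgroupOf_normalizer_eq hPK]
  have hk : Nat.card (Sylow 7 K) = N.relIndex K := by
    rw [(P.subtype hPK).card_eq_index_normalizer]
    exact congrArg Subgroup.index hnorm
  have hk36 : N.relIndex K * K.index = 36 := by rw [Subgroup.relIndex_mul_index hNK, hNi]
  have hk1 : N.relIndex K = 1 := by
    have hm := card_sylow_modEq_one 7 K
    rw [Nat.ModEq, hk] at hm
    have hd : N.relIndex K ∣ 36 := Dvd.intro _ hk36
    have hs : (Nat.divisors 36).filter (fun d => d % 7 = 1) = {1, 36} := by decide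
    have := mem_divisors_filter (p := 7) (by norm_num) hd hm
    rw [hs] at this
    simp only [Finset.mem_insert, Finset.mem_singleton] at this
    rcases this with e | e
    · exact e
    · rw [e] at hk36
      exact absurd (Subgroup.index_eq_one.mp (by omega)) hKt
  have hKN : K ≤ N := Subgroup.relIndex_eq_one.mp hk1
  -- so `g • P = P`
  have hPK' : ((g • P : Sylow 7 G) : Subgroup G) ≤ K := by
    rintro x ⟨p, hp, rfl⟩
    show MulAut.conj g p ∈ K
    rw [MulAut.conj_apply, hK, Subgroup.mem_centralizer_singleton_iff]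
    have := Subgroup.mem_centralizer_iff.mp hyC' p hp
    calc g * p * g⁻¹ * y = g * (p * (g⁻¹ * y * g)) * g⁻¹ := by group
      _ = g * ((g⁻¹ * y * g) * p) * g⁻¹ := by rw [this]
      _ = y * (g * p * g⁻¹) := by group
  haveI : Subsingleton (Sylow 7 K) := (Nat.card_eq_one_iff_unique.mp (hk.trans hk1)).1
  have := congrArg (fun S : Sylow 7 K => (S : Subgroup K))
    (Subsingleton.elim ((g • P).subtype hPK') (P.subtype hPK))
  simp only [Sylow.coe_subtype] at this
  have := congrArg (Subgroup.map K.subtype) this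
  rw [Subgroup.map_subgroupOf_eq_of_le hPK', Subgroup.map_subgroupOf_eq_of_le hPK] at this
  exact hgN (Sylow.smul_eq_iff_mem_normalizer.mp (Sylow.ext this))

/-- No finite simple group has order 2016 = 2^5 * 3^2 * 7. -/
theorem result {G : Type*} [Group G] [Finite G] [IsSimpleGroup G] : Nat.card G ≠ 2016 := by
  intro h
  haveI : Fact (7 : ℕ).Prime := ⟨by norm_num⟩
  have hG : ¬ IsMulCommutative G := not_comm (by rw [h]; norm_num)
  obtain ⟨P⟩ : Nonempty (Sylow 7 G) := inferInstance
  have hPc : Nat.card (P : Subgroup G) = 7 := by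
    rw [sylow_card (k := 1) (m := 288) (by rw [h]; norm_num) (by norm_num) P, pow_one]
  have h0 : (P : Subgroup G) ≠ ⊥ := fun e => by rw [e, Subgroup.card_bot] at hPc; norm_num at hPc
  have ht : (P : Subgroup G) ≠ ⊤ := fun e => by rw [e, Subgroup.card_top, h] at hPc; norm_num at hPc
  obtain ⟨hNt, hn1, hn, hidx, hmul⟩ := sylow_data P h0 ht
  rw [h] at hmul
  have hdvd : Nat.card (Sylow 7 G) ∣ 288 := by
    have := P.card_dvd_index
    have hc := (P : Subgroup G).card_mul_index
    rw [hPc, h] at hc
    rwa [show (P : Subgroup G).index = 288 by omega] at this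
  have hmem := mem_divisors_filter (by norm_num) hdvd hn
  have hs : (Nat.divisors 288).filter (fun d => d % 7 = 1) = {1, 8, 36, 288} := by decide +kernel
  rw [hs] at hmem
  simp only [Finset.mem_insert, Finset.mem_singleton] at hmem
  rcases hmem with e | e | e | e
  · exact hn1 e
  · rw [e] at hmul
    have := card_normalizer_dvd_of_succ (by norm_num) hG P hPc (by rw [e])
    rw [show Nat.card (Subgroup.normalizer ((P : Subgroup G) : Set G)) = 252 by omega] at this
    norm_num at this
  · exact not_36 h P hPc e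
  · rw [e] at hmul
    refine not_normalizer_le_centralizer P h0 ht ?_
    haveI : IsCyclic (P : Subgroup G) := isCyclic_of_prime_card hPc
    have hN7 : Nat.card (Subgroup.normalizer ((P : Subgroup G) : Set G)) = 7 := by omega
    have hNP : (P : Subgroup G) = Subgroup.normalizer ((P : Subgroup G) : Set G) :=
      Subgroup.eq_of_le_of_card_ge Subgroup.le_normalizer (by rw [hN7, hPc])
    rw [← hNP]
    intro x hx
    rw [Subgroup.mem_centralizer_iff]
    intro z hz
    exact congrArg Subtype.val (mul_comm' (⟨z, hz⟩ : (P : Subgroup G)) ⟨x, hx⟩)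

end Cfsg.Agent.S1017
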