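import Cfsg.Statements.S1018
import Mathlib

set_option autoImplicit false
open Cfsg

namespace Cfsg.Agent.S1018

/-- Let P be a Sylow p-subgroup of order p of a finite group G, and consider the action of G on the left cosets of the normalizer N of P. Then every element of order p fixes exactly one coset, and an element of N that does not centralize P fixes at most as many cosets as there are orbits of P. -/
theorem result {G : Type*} [Group G] [Finite G] (p : ℕ) [Fact p.Prime] (P : Sylow p G) (hP : Nat.card ↥(P : Subgroup G) = p) : (∀ y : G, orderOf y = p → Nat.card (MulAction.fixedBy (G ⧸ Subgroup.normalizer ((P : Subgroup G) : Set G)) y) = 1) ∧ ∀ x : G, x ∈ Subgroup.normalizer ((P : Subgroup G) : Set G) → x ∉ Subgroup.centralizer ((P : Subgroup G) : Set G) → Nat.card (MulAction.fixedBy (G ⧸ Subgroup.normalizer ((P : Subgroup G) : Set G)) x) ≤ Nat.card (MulAction.orbitRel.Quotient ↥(P : Subgroup G) (G ⧸ Subgroup.normalizer ((P : Subgroup G) : Set G))) := by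
  classical
  have hp := (Fact.out : p.Prime)
  set N := Subgroup.normalizer ((P : Subgroup G) : Set G) with hN
  -- `P` is the only subgroup of order `p` in its normaliser
  have hin : ∀ y ∈ N, orderOf y = p → Subgroup.zpowers y = P := by
    intro y hy hyo
    have hp' : IsPGroup p (Subgroup.zpowers y) :=
      IsPGroup.of_card (n := 1) (by rw [Nat.card_zpowers, hyo, pow_one])
    have h := (IsPGroup.inf_normalizer_sylow hp' P).le
      (⟨Subgroup.mem_zpowers y, hy⟩ : y ∈ Subgroup.zpowers y ⊓ N)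
    exact Subgroup.eq_of_le_of_card_ge (Subgroup.zpowers_le.mpr h.2) (by rw [hP, Nat.card_zpowers, hyo])
  have hfix : ∀ (y g : G), (y • (g : G ⧸ N) = (g : G ⧸ N)) ↔ g⁻¹ * y * g ∈ N := by
    intro y g
    rw [eq_comm, show y • (g : G ⧸ N) = ((y * g : G) : G ⧸ N) from rfl, QuotientGroup.eq, mul_assoc]
  have huniq : ∀ y : G, orderOf y = p → ∀ q q' : G ⧸ N, y • q = q → y • q' = q' → q = q' := by
    intro y hyo q q' hq hq'
    induction q using QuotientGroup.induction_on with
    | H g =>
      induction q' using QuotientGroup.induction_on with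
      | H g' =>
        rw [hfix] at hq hq'
        rw [QuotientGroup.eq]
        have ho : ∀ c : G, orderOf (c⁻¹ * y * c) = p := fun c => by
          have := (MulAut.conj c⁻¹).orderOf_eq y
          rw [MulAut.conj_apply, inv_inv, hyo] at this
          exact this
        have h1 := hin _ hq (ho g)
        have h2 := hin _ hq' (ho g')
        have hmap : (P : Subgroup G).map (MulAut.conj (g⁻¹ * g')).toMonoidHom = P := by
          conv_lhs => rw [← h2, MonoidHom.map_zpowers]
          show Subgroup.zpowers ((g⁻¹ * g') * (g'⁻¹ * y * g') * (g⁻¹ * g')⁻¹) = _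
          rw [show (g⁻¹ * g') * (g'⁻¹ * y * g') * (g⁻¹ * g')⁻¹ = g⁻¹ * y * g by group, h1]
        refine Subgroup.mem_normalizer_iff.mpr fun x => ⟨fun hx => ?_, fun hx => ?_⟩
        · have := Subgroup.mem_map_of_mem (MulAut.conj (g⁻¹ * g')).toMonoidHom hx
          rw [hmap] at this
          exact this
        · have hx' : (g⁻¹ * g') * x * (g⁻¹ * g')⁻¹ ∈ (P : Subgroup G).map (MulAut.conj (g⁻¹ * g')).toMonoidHom := by
            rw [hmap]; exact hx
          obtain ⟨z, hz, hzx⟩ := hx'
          rwa [show x = z from (MulAut.conj (g⁻¹ * g')).injective hzx.symm]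
  have hPfix : ∀ u ∈ (P : Subgroup G), u • ((1 : G) : G ⧸ N) = ((1 : G) : G ⧸ N) := fun u hu => by
    rw [hfix, inv_one, one_mul, mul_one]
    exact Subgroup.le_normalizer hu
  have hord : ∀ u ∈ (P : Subgroup G), u ≠ 1 → orderOf u = p := by
    intro u hu hu1
    have hd : orderOf u ∣ p := hP ▸ Subgroup.orderOf_dvd_natCard _ hu
    exact ((Nat.dvd_prime hp).mp hd).resolve_left fun h => hu1 (orderOf_eq_one_iff.mp h)
  refine ⟨fun y hy => ?_, fun x hx hxC => ?_⟩
  · rw [Nat.card_eq_one_iff_unique]
    refine ⟨⟨fun a b => Subtype.ext (huniq y hy _ _ a.2 b.2)⟩, ?_⟩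
    obtain ⟨R, hR⟩ := (IsPGroup.of_card (n := 1) (by rw [Nat.card_zpowers, hy, pow_one]) :
      IsPGroup p (Subgroup.zpowers y)).exists_le_sylow
    obtain ⟨g, hg⟩ := MulAction.exists_smul_eq G P R
    refine ⟨⟨(g : G ⧸ N), (hfix y g).mpr (Subgroup.le_normalizer ?_)⟩⟩
    have hyR : y ∈ (R : Subgroup G) := hR (Subgroup.mem_zpowers y)
    rw [← hg, Sylow.coe_subgroup_smul] at hyR
    obtain ⟨z, hz, rfl⟩ := hyR
    show g⁻¹ * (g * z * g⁻¹) * g ∈ (P : Subgroup G)
    rw [show g⁻¹ * (g * z * g⁻¹) * g = z by group]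
    exact hz
  · refine Nat.card_le_card_of_injective (fun q => Quotient.mk'' q.1) ?_
    rintro ⟨q, hq⟩ ⟨q', hq'⟩ he
    obtain ⟨u, hu⟩ := Quotient.exact' he
    refine Subtype.ext ?_
    show q = q'
    have hu' : (u : G) • q' = q := hu
    by_cases hu1 : (u : G) = 1
    · rw [← hu', hu1, one_smul]
    have hw : (u : G)⁻¹ * (x * u * x⁻¹) ∈ (P : Subgroup G) :=
      Subgroup.mul_mem _ (Subgroup.inv_mem _ u.2) ((Subgroup.mem_normalizer_iff.mp hx _).mp u.2)
    by_cases hw1 : (u : G)⁻¹ * (x * u * x⁻¹) = 1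
    · exfalso
      apply hxC
      have hc : Commute x (u : G) := by
        rw [inv_mul_eq_one] at hw1
        exact (eq_mul_inv_iff_mul_eq.mp hw1).symm
      have hz : Subgroup.zpowers (u : G) = P := hin _ (Subgroup.le_normalizer u.2) (hord _ u.2 hu1)
      refine Subgroup.mem_centralizer_iff.mpr fun v hv => ?_
      rw [SetLike.mem_coe, ← hz] at hv
      obtain ⟨i, rfl⟩ := Subgroup.mem_zpowers_iff.mp hv
      exact (hc.zpow_right i).eq.symm
    have hwq : ((u : G)⁻¹ * (x * u * x⁻¹)) • q' = q' := by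
      have hxq' : x⁻¹ • q' = q' := inv_smul_eq_iff.mpr (hq' : x • q' = q').symm
      have hxq : x • q = q := hq
      rw [mul_smul, mul_smul, mul_smul, hxq', hu', hxq, ← hu', inv_smul_smul]
    have h1 := huniq _ (hord _ hw hw1) q' _ hwq (hPfix _ hw)
    rw [← hu', h1, hPfix _ u.2]

end Cfsg.Agent.S1018
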