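import Cfsg.Statements.S1019
-- import your own Cfsg.Agent.* helpers here

set_option autoImplicit false
open Cfsg

namespace Cfsg.Agent.S1019

/-- Let H be a subgroup of a finite group G and x an element of H. In the action of G on the left cosets of H, the number of cosets fixed by x, multiplied by the size of the conjugacy class of x, equals the index of H multiplied by the number of conjugates of x that lie in H. -/
theorem result {G : Type*} [Group G] [Finite G] (H : Subgroup G) (x : G) (hx : x ∈ H) : Nat.card (MulAction.fixedBy (G ⧸ H) x) * Nat.card {g : G // IsConj x g} = H.index * Nat.card {g : G // IsConj x g ∧ g ∈ H} := by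
  classical
  have e1 : {p : (G ⧸ H) × G // IsConj x p.2 ∧ p.2 • p.1 = p.1} ≃
      Σ y : {g : G // IsConj x g}, MulAction.fixedBy (G ⧸ H) (y : G) :=
    { toFun := fun p => ⟨⟨p.1.2, p.2.1⟩, ⟨p.1.1, p.2.2⟩⟩
      invFun := fun s => ⟨(s.2.1, s.1.1), s.1.2, s.2.2⟩
      left_inv := fun p => rfl
      right_inv := fun s => rfl }
  have e2 : {p : (G ⧸ H) × G // IsConj x p.2 ∧ p.2 • p.1 = p.1} ≃
      Σ q : G ⧸ H, {y : G // IsConj x y ∧ y • q = q} :=
    { toFun := fun p => ⟨p.1.1, p.1.2, p.2⟩
      invFun := fun s => ⟨(s.1, s.2.1), s.2.2⟩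
      left_inv := fun p => rfl
      right_inv := fun s => rfl }
  have hf : ∀ y : {g : G // IsConj x g}, Nonempty (MulAction.fixedBy (G ⧸ H) (y : G) ≃ MulAction.fixedBy (G ⧸ H) x) := by
    rintro ⟨y, hy⟩
    obtain ⟨c, hc⟩ := isConj_iff.mp hy
    refine ⟨(MulAction.toPerm c⁻¹).subtypeEquiv fun q => ?_⟩
    subst hc
    simp only [MulAction.mem_fixedBy, MulAction.toPerm_apply, mul_smul]
    constructor
    · intro h
      calc x • c⁻¹ • q = c⁻¹ • c • x • c⁻¹ • q := by rw [inv_smul_smul]
        _ = c⁻¹ • q := by rw [h]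
    · intro h; rw [h, smul_inv_smul]
  have hg : ∀ q : G ⧸ H, Nonempty ({y : G // IsConj x y ∧ y • q = q} ≃ {g : G // IsConj x g ∧ g ∈ H}) := by
    intro q
    obtain ⟨c, rfl⟩ := QuotientGroup.mk_surjective q
    refine ⟨(MulAut.conj c⁻¹).toEquiv.subtypeEquiv fun y => ?_⟩
    refine and_congr ?_ ?_
    · have hy : IsConj y (MulAut.conj c⁻¹ y) := isConj_iff.mpr ⟨c⁻¹, by simp⟩
      exact ⟨fun h => h.trans hy, fun h => h.trans hy.symm⟩
    · change ((y • c : G) : G ⧸ H) = (c : G ⧸ H) ↔ _
      rw [eq_comm, QuotientGroup.eq]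
      simp [mul_assoc]
  have h1 := Nat.card_congr (e1.trans (Equiv.sigmaEquivProdOfEquiv fun y => (hf y).some))
  have h2 := Nat.card_congr (e2.trans (Equiv.sigmaEquivProdOfEquiv fun q => (hg q).some))
  rw [Nat.card_prod] at h1 h2
  rw [mul_comm, ← h1, h2, Subgroup.index]

end Cfsg.Agent.S1019
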