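import Cfsg.Statements.S1024
import Mathlib

set_option autoImplicit false
open Cfsg

namespace Cfsg.Agent.S1024

/-- `x_r(0) = 1`, and `x_r(t) = 1` forces `t = 0`: the map `t ↦ x_r(t)` is injective. -/
theorem result {F : Type*} [Field F] (D : Cfsg.Lie.ChevalleyDatum) (hD : D ∈ [Cfsg.Lie.chevG2, Cfsg.Lie.chevB2, Cfsg.Lie.chevD4, Cfsg.Lie.chevF4, Cfsg.Lie.chevE6, Cfsg.Lie.chevE7, Cfsg.Lie.chevE8]) (r : ℕ) (hr : r < D.nroots) (t : F) :
    D.x F r t = 1 ↔ t = 0 := by
  have key : ∀ s < D.nroots, D.negIdx.getD s 0 < D.nroots ∧ D.negIdx.getD s 0 ≠ s := by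
    simp only [List.mem_cons, List.not_mem_nil, or_false] at hD
    rcases hD with rfl | rfl | rfl | rfl | rfl | rfl | rfl <;> decide +kernel
  have hpow : ∀ s u, ∀ km ∈ D.chainCoeff r s u, km.1 ≠ 0 := by
    intro s u km hkm
    simp only [Cfsg.Lie.ChevalleyDatum.chainCoeff, List.mem_flatMap, List.mem_map] at hkm
    obtain ⟨e, _, q, _, rfl⟩ := hkm
    exact Nat.succ_ne_zero _
  constructor
  · intro h
    obtain ⟨hn, hne⟩ := key r hr
    have h' := congrFun (congrFun h (Sum.inr ⟨r, hr⟩)) (Sum.inr ⟨D.negIdx.getD r 0, hn⟩)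
    simp only [Cfsg.Lie.ChevalleyDatum.x, dif_pos hr, Cfsg.Lie.ChevalleyDatum.xMat, Matrix.of_apply, if_true,
      Matrix.one_apply, Fin.ext_iff, Sum.inr.injEq, hne, hne.symm, if_false] at h'
    simpa [pow_eq_zero_iff] using h'
  · rintro rfl
    have hz : ∀ s u, ((D.chainCoeff r s u).map fun km => ((km.2 : ℤ) : F) * (0 : F) ^ km.1).sum = 0 := by
      intro s u
      refine List.sum_eq_zero fun z hz => ?_
      obtain ⟨km, hkm, rfl⟩ := List.mem_map.mp hz
      simp [zero_pow (hpow s u km hkm)]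
    ext row col
    simp only [Cfsg.Lie.ChevalleyDatum.x, dif_pos hr, Cfsg.Lie.ChevalleyDatum.xMat, Matrix.of_apply, hz,
      Matrix.one_apply, Fin.ext_iff]
    rcases col with i | s <;> rcases row with i' | u <;>
      simp only [Sum.inl.injEq, Sum.inr.injEq, reduceCtorEq, Fin.ext_iff] <;> split_ifs <;> simp_all

end Cfsg.Agent.S1024
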