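import Cfsg.Statements.S1025
import Cfsg.Agent.Chev.Inst
import Cfsg.Agent.Chev.Longest

set_option autoImplicit false
open Cfsg

namespace Cfsg.Agent.S1025

/-- Chevalley's commutator formula: for roots `s ≠ ±r`, `x_s(u) x_r(t) = x_r(t) x_s(u) · ∏_{i,j>0} x_{ir+js}(C_{ijrs} (-t)^i u^j)`, the product (in order of increasing `i + j`) and the constants being those of `commWord`. -/
theorem result {F : Type*} [Field F] (D : Cfsg.Lie.ChevalleyDatum) (hD : D ∈ [Cfsg.Lie.chevG2, Cfsg.Lie.chevB2, Cfsg.Lie.chevD4, Cfsg.Lie.chevF4, Cfsg.Lie.chevE6, Cfsg.Lie.chevE7, Cfsg.Lie.chevE8]) (r s : ℕ) (hr : r < D.nroots) (hs : s < D.nroots)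
    (hrs : s ≠ r) (hneg : s ≠ D.neg r) (t u : F) :
    D.x F s u * D.x F r t = D.x F r t * D.x F s u * D.wordMat F (D.commWord F r s t u) := by
  obtain ⟨S⟩ := CfsgLib.Chev.exists_sys hD
  exact S.comm r s hr hs hrs hneg t u

end Cfsg.Agent.S1025
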