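import Cfsg.Statements.S1026
import Cfsg.Agent.Chev.Inst
import Cfsg.Agent.Chev.Longest

set_option autoImplicit false
open Cfsg

namespace Cfsg.Agent.S1026

/-- Every element of `U` has a unique expression `∏_{r ∈ Φ⁺} x_r(t_r)`, the product over the positive roots in increasing index order (the coefficient family `t`, supported on the positive roots, exists and is unique); and conversely every such ordered product is the matrix of an element of `U`. -/
theorem result {F : Type*} [Field F] (D : Cfsg.Lie.ChevalleyDatum) (hD : D ∈ [Cfsg.Lie.chevG2, Cfsg.Lie.chevB2, Cfsg.Lie.chevD4, Cfsg.Lie.chevF4, Cfsg.Lie.chevE6, Cfsg.Lie.chevE7, Cfsg.Lie.chevE8]) :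
    (∀ g : GL D.Idx F, g ∈ D.posUnipotent F →
      ∃! t : ℕ → F, (∀ r, ¬ D.IsPosRoot r → t r = 0) ∧
        (g : Matrix D.Idx D.Idx F) = D.wordMat F (D.posRoots.map fun r => (r, t r))) ∧
    (∀ t : ℕ → F, ∃ g : GL D.Idx F, g ∈ D.posUnipotent F ∧
      (g : Matrix D.Idx D.Idx F) = D.wordMat F (D.posRoots.map fun r => (r, t r))) := by
  obtain ⟨S⟩ := CfsgLib.Chev.exists_sys hD
  constructor
  · intro g hg
    rw [S.posUnipotent_eq] at hg
    obtain ⟨t, ht0, e⟩ := S.exists_prodFrom le_rfl hg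
    have hl : ∀ t : ℕ → F, D.wordMat F (D.posRoots.map fun r => (r, t r)) =
        ((S.prodFrom t (D.nroots / 2) : GL D.Idx F) : Matrix D.Idx D.Idx F) := by
      intro t
      rw [CfsgLib.Chev.Sys.prodFrom, S.coe_wU, S.posRoots_eq,
        show D.nroots - D.nroots / 2 = D.nroots / 2 by have := S.even_nroots; omega]
    refine ⟨t, ⟨fun r hr => ht0 r fun h => hr ((S.isPos_iff r).2 h), by rw [hl, ← e]⟩, ?_⟩
    rintro t' ⟨h0, he⟩
    rw [hl] at he
    funext r
    by_cases hr : D.nroots / 2 ≤ r ∧ r < D.nroots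
    · exact S.prodFrom_inj le_rfl ((Units.ext he).symm.trans e) r hr.1 hr.2
    · rw [h0 r fun h => hr ((S.isPos_iff r).1 h), ht0 r hr]
  · intro t
    refine ⟨S.prodFrom t (D.nroots / 2), by rw [S.posUnipotent_eq]; exact S.prodFrom_mem t _, ?_⟩
    rw [CfsgLib.Chev.Sys.prodFrom, S.coe_wU, S.posRoots_eq,
      show D.nroots - D.nroots / 2 = D.nroots / 2 by have := S.even_nroots; omega]

end Cfsg.Agent.S1026
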