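import Cfsg.Statements.S1028
import Cfsg.Agent.Chev.Inst
import Cfsg.Agent.Chev.Longest

set_option autoImplicit false
open Cfsg

namespace Cfsg.Agent.S1028

/-- Elements of `U` (the subgroup generated by the root elements of the positive roots) are unipotent linear maps: `(u - 1)^n = 0` with `n = rank + nroots` the dimension of the module. -/
theorem result {F : Type*} [Field F] (D : Cfsg.Lie.ChevalleyDatum) (hD : D ∈ [Cfsg.Lie.chevG2, Cfsg.Lie.chevB2, Cfsg.Lie.chevD4, Cfsg.Lie.chevF4, Cfsg.Lie.chevE6, Cfsg.Lie.chevE7, Cfsg.Lie.chevE8]) (g : GL D.Idx F) (hg : g ∈ D.posUnipotent F) :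
    ((g : Matrix D.Idx D.Idx F) - 1) ^ (D.rank + D.nroots) = 0 := by
  obtain ⟨S⟩ := CfsgLib.Chev.exists_sys hD
  ext a b
  rw [Matrix.zero_apply]
  refine CfsgLib.Chev.Sys.uni_pow_sub_one (S.uni_of_mem_pos hg) _ a b ?_
  have hb : ∀ c : D.Idx, CfsgLib.Chev.Sys.ht c ≤ D.nroots := by
    rintro (c | c)
    · simp only [CfsgLib.Chev.Sys.ht, Sum.elim_inl]; omega
    · have := c.2
      simp only [CfsgLib.Chev.Sys.ht, Sum.elim_inr]; split_ifs <;> omega
  have hl : 0 < D.rank := by
    simp only [List.mem_cons, List.not_mem_nil, or_false] at hD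
    rcases hD with rfl | rfl | rfl | rfl | rfl | rfl | rfl <;> decide +kernel
  have := hb a
  omega

end Cfsg.Agent.S1028
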