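import Cfsg.Statements.S1034
import Cfsg.Agent.Chev.Inst
import Cfsg.Agent.Chev.Longest

set_option autoImplicit false
open Cfsg

namespace Cfsg.Agent.S1034

/-- Every element of `H` is a product `h_{p_1}(c_1) ⋯ h_{p_l}(c_l)` over the fundamental roots, with non-zero `c_i`. -/
theorem result {F : Type*} [Field F] (D : Cfsg.Lie.ChevalleyDatum) (hD : D ∈ [Cfsg.Lie.chevG2, Cfsg.Lie.chevB2, Cfsg.Lie.chevD4, Cfsg.Lie.chevF4, Cfsg.Lie.chevE6, Cfsg.Lie.chevE7, Cfsg.Lie.chevE8]) (g : GL D.Idx F) (hg : g ∈ D.diagonalSubgroup F) :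
    ∃ c : ℕ → F, (∀ i < D.rank, c i ≠ 0) ∧
      (g : Matrix D.Idx D.Idx F) = D.wordMat F ((List.range D.rank).flatMap fun i => D.hWord (D.simple i) (c i)) := by
  obtain ⟨S⟩ := CfsgLib.Chev.exists_sys hD
  rw [S.diagonalSubgroup_eq] at hg
  obtain ⟨c, rfl⟩ := hg
  refine ⟨fun i => if h : i < D.rank then ((c ⟨i, h⟩ : Fˣ) : F) else 1,
    fun i hi => by simp [hi], ?_⟩
  rw [← S.coe_wU]
  congr 1
  have key : ∀ m ≤ D.rank, S.wU ((List.range m).flatMap fun i => D.hWord (D.simple i)
      (if h : i < D.rank then ((c ⟨i, h⟩ : Fˣ) : F) else 1)) =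
      S.dg fun k => ∏ j : Fin D.rank, if (j : ℕ) < m then
        c j ^ D.cartan (j : ℕ) (D.simple k) else 1 := by
    intro m
    induction m with
    | zero =>
      intro _
      simp only [Nat.not_lt_zero, if_false, Finset.prod_const_one, List.range_zero,
        List.flatMap_nil]
      exact (map_one S.dgHom).symm
    | succ m ih =>
      intro hm
      have hm' : m < D.rank := hm
      rw [List.range_succ, List.flatMap_append, List.flatMap_cons, List.flatMap_nil,
        List.append_nil, S.wU_append, ih hm'.le, dif_pos hm']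
      change _ * S.hU (D.simple m) _ = _
      rw [S.hU_eq_dg (S.simple_lt hm'), ← S.dg_mul]
      refine S.dg_congr fun k hk => ?_
      simp only [Pi.mul_apply, CfsgLib.Chev.hz, S.cr_simple hm']
      rw [show (c ⟨m, hm'⟩) ^ D.cartan m (D.simple k) = ∏ j : Fin D.rank,
          if (j : ℕ) = m then c j ^ D.cartan (j : ℕ) (D.simple k) else 1 by
        rw [Finset.prod_eq_single (⟨m, hm'⟩ : Fin D.rank) ?_ (by simp)]
        · simp
        · intro b _ hb
          rw [if_neg]
          intro e; exact hb (Fin.ext e), ← Finset.prod_mul_distrib]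
      refine Finset.prod_congr rfl fun j _ => ?_
      by_cases h1 : (j : ℕ) < m
      · rw [if_pos h1, if_neg (by omega), mul_one, if_pos (by omega)]
      · by_cases h2 : (j : ℕ) = m
        · rw [if_neg h1, one_mul, if_pos h2, if_pos (by omega)]
        · rw [if_neg h1, if_neg h2, one_mul, if_neg (by omega)]
  refine ((key D.rank le_rfl).trans ?_).symm
  refine S.dg_congr fun k _ => ?_
  exact Finset.prod_congr rfl fun j _ => if_pos j.2

end Cfsg.Agent.S1034
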