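import Cfsg.Statements.S1035
import Cfsg.Agent.Chev.Inst
import Cfsg.Agent.Chev.Longest
import Cfsg.Agent.Chev.TorusCert

set_option autoImplicit false
open Cfsg

namespace Cfsg.Agent.S1035

/-- `d · |H| = (q - 1)^rank` over a field with `q` elements, with `d = 1` (G₂, F₄, E₈), `gcd(3, q-1)` (E₆), `gcd(2, q-1)` (E₇, B₂), `gcd(2, q-1)²` (D₄). -/
theorem result {F : Type*} [Field F] [Fintype F] {q : ℕ} (hq : Fintype.card F = q)
    (p : Cfsg.Lie.ChevalleyDatum × ℕ)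
    (hp : p ∈ [(Cfsg.Lie.chevG2, 1), (Cfsg.Lie.chevF4, 1), (Cfsg.Lie.chevE8, 1), (Cfsg.Lie.chevE6, Nat.gcd 3 (q - 1)),
      (Cfsg.Lie.chevE7, Nat.gcd 2 (q - 1)), (Cfsg.Lie.chevB2, Nat.gcd 2 (q - 1)), (Cfsg.Lie.chevD4, Nat.gcd 2 (q - 1) ^ 2)]) :
    p.2 * Nat.card (p.1.diagonalSubgroup F) = (q - 1) ^ p.1.rank := by
  haveI : Finite F := inferInstance
  subst hq
  rw [← Nat.card_eq_fintype_card] at hp ⊢
  simp only [List.mem_cons, List.not_mem_nil, or_false] at hp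
  rcases hp with rfl | rfl | rfl | rfl | rfl | rfl | rfl
  · have h := CfsgLib.Chev.torG2.card_diagonal CfsgLib.Chev.sysG2 F
    convert h using 2
    show 1 = ∏ i : Fin 2, (Nat.card F - 1).gcd (([1, 1] : List ℕ).getD i 0)
    simp [Fin.prod_univ_two]
  · have h := CfsgLib.Chev.torF4.card_diagonal CfsgLib.Chev.sysF4 F
    convert h using 2
    show 1 = ∏ i : Fin 4, (Nat.card F - 1).gcd (([1, 1, 1, 1] : List ℕ).getD i 0)
    simp [Fin.prod_univ_four]
  · have h := CfsgLib.Chev.torE8.card_diagonal CfsgLib.Chev.sysE8 F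
    convert h using 2
    show 1 = ∏ i : Fin 8, (Nat.card F - 1).gcd (([1, 1, 1, 1, 1, 1, 1, 1] : List ℕ).getD i 0)
    simp [Fin.prod_univ_eight]
  · have h := CfsgLib.Chev.torE6.card_diagonal CfsgLib.Chev.sysE6 F
    convert h using 2
    show Nat.gcd 3 (Nat.card F - 1) =
      ∏ i : Fin 6, (Nat.card F - 1).gcd (([1, 1, 1, 1, 1, 3] : List ℕ).getD i 0)
    simp [Fin.prod_univ_six, Nat.gcd_comm]
  · have h := CfsgLib.Chev.torE7.card_diagonal CfsgLib.Chev.sysE7 F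
    convert h using 2
    show Nat.gcd 2 (Nat.card F - 1) =
      ∏ i : Fin 7, (Nat.card F - 1).gcd (([1, 1, 1, 1, 1, 1, 2] : List ℕ).getD i 0)
    simp [Fin.prod_univ_seven, Nat.gcd_comm]
  · have h := CfsgLib.Chev.torB2.card_diagonal CfsgLib.Chev.sysB2 F
    convert h using 2
    show Nat.gcd 2 (Nat.card F - 1) =
      ∏ i : Fin 2, (Nat.card F - 1).gcd (([1, 2] : List ℕ).getD i 0)
    simp [Fin.prod_univ_two, Nat.gcd_comm]
  · have h := CfsgLib.Chev.torD4.card_diagonal CfsgLib.Chev.sysD4 F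
    convert h using 2
    show Nat.gcd 2 (Nat.card F - 1) ^ 2 =
      ∏ i : Fin 4, (Nat.card F - 1).gcd (([1, 1, 2, 2] : List ℕ).getD i 0)
    simp [Fin.prod_univ_four, Nat.gcd_comm, sq]

end Cfsg.Agent.S1035
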