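import Cfsg.Statements.S1044
import Cfsg.Agent.Chev.Inst
import Cfsg.Agent.Chev.Longest

set_option autoImplicit false
open Cfsg

namespace Cfsg.Agent.S1044

/-- For a fundamental root `p` the set `B ∪ B n_p B` is (the carrier of) a subgroup of the general linear group. -/
theorem result {F : Type*} [Field F] (D : Cfsg.Lie.ChevalleyDatum) (hD : D ∈ [Cfsg.Lie.chevG2, Cfsg.Lie.chevB2, Cfsg.Lie.chevD4, Cfsg.Lie.chevF4, Cfsg.Lie.chevE6, Cfsg.Lie.chevE7, Cfsg.Lie.chevE8]) (i : ℕ) (hi : i < D.rank) (n : GL D.Idx F)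
    (hn : (n : Matrix D.Idx D.Idx F) = D.nMat F (D.simple i) 1) :
    ∃ P : Subgroup (GL D.Idx F), (P : Set (GL D.Idx F)) =
      (D.borelSubgroup F : Set (GL D.Idx F)) ∪ DoubleCoset.doubleCoset n (D.borelSubgroup F : Set (GL D.Idx F)) (D.borelSubgroup F) := by
  obtain ⟨S⟩ := CfsgLib.Chev.exists_sys hD
  have hn' : n = S.nU (D.simple i) 1 := Units.ext (hn.trans (S.coe_nU _ _).symm)
  subst hn'
  set s := S.nU (D.simple i) (1 : F)
  set B := D.borelSubgroup F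
  have hs : s ∈ D.monomialSubgroup F := S.nU_mem_mono (S.simple_lt hi) (1 : Fˣ)
  have hss : s * s ∈ B := Subgroup.mem_sup_right
    (by rw [S.nU_sq hi]; exact S.dg_mem_diag (S.simple_lt hi) _)
  let T : Set (GL D.Idx F) := (B : Set (GL D.Idx F)) ∪ DoubleCoset.doubleCoset s B B
  have hd : ∀ {x}, x ∈ DoubleCoset.doubleCoset s (B : Set (GL D.Idx F)) B ↔
      ∃ a ∈ B, ∃ b ∈ B, x = a * s * b := DoubleCoset.mem_doubleCoset
  have hinvs : s⁻¹ = (s * s)⁻¹ * s := by group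
  refine ⟨{ carrier := T, mul_mem' := ?_, one_mem' := Or.inl B.one_mem, inv_mem' := ?_ }, rfl⟩
  · rintro x y (hx | hx) (hy | hy)
    · exact Or.inl (mul_mem hx hy)
    · obtain ⟨a, ha, b, hb, rfl⟩ := hd.1 hy
      exact Or.inr (hd.2 ⟨x * a, mul_mem hx ha, b, hb, by group⟩)
    · obtain ⟨a, ha, b, hb, rfl⟩ := hd.1 hx
      exact Or.inr (hd.2 ⟨a, ha, b * y, mul_mem hb hy, by group⟩)
    · obtain ⟨a, ha, b, hb, rfl⟩ := hd.1 hx
      obtain ⟨a', ha', b', hb', rfl⟩ := hd.1 hy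
      have e : a * s * b * (a' * s * b') = a * (s * (b * a') * s) * b' := by group
      rw [e]
      rcases S.mul_mem_union hi (mul_mem hb ha') hs with
        ⟨c, hc, c', hc', e'⟩ | ⟨c, hc, c', hc', e'⟩
      · rw [e']
        exact Or.inl (mul_mem (mul_mem ha (mul_mem (mul_mem hc hss) hc')) hb')
      · rw [e']
        exact Or.inr (hd.2 ⟨a * c, mul_mem ha hc, c' * b', mul_mem hc' hb', by group⟩)
  · rintro x (hx | hx)
    · exact Or.inl (inv_mem hx)
    · obtain ⟨a, ha, b, hb, rfl⟩ := hd.1 hx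
      refine Or.inr (hd.2 ⟨b⁻¹ * (s * s)⁻¹, mul_mem (inv_mem hb) (inv_mem hss), a⁻¹, inv_mem ha, ?_⟩)
      group

end Cfsg.Agent.S1044
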