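import Cfsg.Statements.S1045
import Cfsg.Agent.Chev.Inst
import Cfsg.Agent.Chev.Longest

set_option autoImplicit false
open Cfsg

namespace Cfsg.Agent.S1045

/-- For a fundamental root `p`, the subgroup `U_p` generated by the `X_s`, `s` positive and `s ≠ p`, is normalised by `X_p` and `X_{-p}`, and `U = U_p ⊔ X_p`. -/
theorem result {F : Type*} [Field F] (D : Cfsg.Lie.ChevalleyDatum) (hD : D ∈ [Cfsg.Lie.chevG2, Cfsg.Lie.chevB2, Cfsg.Lie.chevD4, Cfsg.Lie.chevF4, Cfsg.Lie.chevE6, Cfsg.Lie.chevE7, Cfsg.Lie.chevE8]) (i : ℕ) (hi : i < D.rank) :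
    D.rootSubgroup F (D.simple i) ⊔ D.rootSubgroup F (D.neg (D.simple i)) ≤
        Subgroup.normalizer (Subgroup.closure {g : GL D.Idx F | ∃ (s : ℕ) (t : F), D.IsPosRoot s ∧ s ≠ D.simple i ∧
          (g : Matrix D.Idx D.Idx F) = D.x F s t} : Set (GL D.Idx F)) ∧
      Subgroup.closure {g : GL D.Idx F | ∃ (s : ℕ) (t : F), D.IsPosRoot s ∧ s ≠ D.simple i ∧
          (g : Matrix D.Idx D.Idx F) = D.x F s t} ⊔ D.rootSubgroup F (D.simple i) = D.posUnipotent F := by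
  obtain ⟨S⟩ := CfsgLib.Chev.exists_sys hD
  have hset : Subgroup.closure {g : GL D.Idx F | ∃ (s : ℕ) (t : F), D.IsPosRoot s ∧
      s ≠ D.simple i ∧ (g : Matrix D.Idx D.Idx F) = D.x F s t} = S.upSub F i := by
    rw [CfsgLib.Chev.Sys.upSub, CfsgLib.Chev.Sys.genBy]
    congr 1
    ext g
    constructor
    · rintro ⟨s, t, hs, hne, hg⟩
      exact ⟨s, t, ((S.isPos_iff s).1 hs).1, ((S.isPos_iff s).1 hs).2, hne, S.eq_xU hg⟩
    · rintro ⟨s, t, h1, h2, hne, rfl⟩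
      exact ⟨s, t, (S.isPos_iff s).2 ⟨h1, h2⟩, hne, rfl⟩
  rw [hset]
  refine ⟨sup_le ?_ ?_, le_antisymm (sup_le (S.genBy_le_pos _) ?_) ?_⟩
  · rw [Cfsg.Lie.ChevalleyDatum.rootSubgroup, Subgroup.closure_le]
    rintro g ⟨t, hg⟩
    rw [S.eq_xU hg, SetLike.mem_coe, Subgroup.mem_normalizer_iff]
    intro n
    refine ⟨S.xU_conj_upSub hi t, fun hn => ?_⟩
    have := S.xU_conj_upSub hi (-t) hn
    rw [← S.xU_inv] at this
    rwa [show ∀ x : GL D.Idx F, x⁻¹ * (x * n * x⁻¹) * x⁻¹⁻¹ = n from fun x => by group] at this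
  · rw [Cfsg.Lie.ChevalleyDatum.rootSubgroup, Subgroup.closure_le]
    rintro g ⟨t, hg⟩
    rw [S.eq_xU hg, SetLike.mem_coe, Subgroup.mem_normalizer_iff]
    intro n
    refine ⟨S.xU_neg_conj_upSub hi t, fun hn => ?_⟩
    have := S.xU_neg_conj_upSub hi (-t) hn
    rw [← S.xU_inv] at this
    rwa [show ∀ x : GL D.Idx F, x⁻¹ * (x * n * x⁻¹) * x⁻¹⁻¹ = n from fun x => by group] at this
  · rw [Cfsg.Lie.ChevalleyDatum.rootSubgroup, Subgroup.closure_le]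
    rintro g ⟨t, hg⟩
    rw [S.eq_xU hg]
    exact S.xU_mem_posUnipotent (S.simple_pos i hi).1 (S.simple_lt hi) t
  · intro g hg
    obtain ⟨a, ha, t, rfl⟩ := S.exists_up_split hi hg
    exact Subgroup.mul_mem_sup ha (Subgroup.subset_closure ⟨t, rfl⟩)

end Cfsg.Agent.S1045
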