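import Cfsg.Statements.S1046
import Cfsg.Agent.Chev.Inst
import Cfsg.Agent.Chev.Longest

set_option autoImplicit false
open Cfsg

namespace Cfsg.Agent.S1046

/-- Two elements of `H` conjugate in the Chevalley group are conjugate by an element of `N`. -/
theorem result {F : Type*} [Field F] (D : Cfsg.Lie.ChevalleyDatum) (hD : D ∈ [Cfsg.Lie.chevG2, Cfsg.Lie.chevB2, Cfsg.Lie.chevD4, Cfsg.Lie.chevF4, Cfsg.Lie.chevE6, Cfsg.Lie.chevE7, Cfsg.Lie.chevE8]) (h₁ h₂ g : GL D.Idx F) (h1 : h₁ ∈ D.diagonalSubgroup F) (h2 : h₂ ∈ D.diagonalSubgroup F)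
    (hg : g ∈ D.group F) (hc : g * h₁ * g⁻¹ = h₂) :
    ∃ n ∈ D.monomialSubgroup F, n * h₁ * n⁻¹ = h₂ := by
  obtain ⟨S⟩ := CfsgLib.Chev.exists_sys hD
  obtain ⟨b, hb, n, hn, w, -, hw, u, hu, rfl⟩ := S.exists_normal_form hg
  refine ⟨n, hn, ?_⟩
  have hx := S.diag_conj_genBy _ (Subgroup.inv_mem _ h1) hu
  rw [inv_inv] at hx
  have hn1 := S.mono_conj_diag hn h1
  have e : h₂ * b * n * u = b * (n * h₁ * n⁻¹) * n * (h₁⁻¹ * u * h₁) := by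
    rw [← hc]; group
  obtain ⟨e1, -⟩ := S.normal_form_unique hw (mul_mem (Subgroup.mem_sup_right h2) hb)
    (mul_mem hb (Subgroup.mem_sup_right hn1)) hu hx e
  obtain ⟨v, hv, h, hh, rfl⟩ := S.mem_borel_iff.1 hb
  obtain ⟨z, rfl⟩ := S.exists_dg hh
  obtain ⟨z₂, rfl⟩ := S.exists_dg h2
  obtain ⟨z₁, e₁⟩ := S.exists_dg hn1
  rw [e₁] at e1 ⊢
  have e2 : v⁻¹ * (S.dg z₂ * v * (S.dg z₂)⁻¹) = S.dg z₁ * (S.dg z₂)⁻¹ := by
    have : S.dg z₂ * v * S.dg z = v * (S.dg z * S.dg z₁) := by rw [← mul_assoc] at e1; rw [e1]; group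
    have hc12 : S.dg z * S.dg z₁ = S.dg z₁ * S.dg z := by rw [← S.dg_mul, ← S.dg_mul, mul_comm]
    rw [hc12, ← mul_assoc, mul_left_inj] at this
    rw [this]; group
  have h3 : S.dg z₁ * (S.dg z₂)⁻¹ ∈ D.posUnipotent F ⊓ D.diagonalSubgroup F :=
    Subgroup.mem_inf.2 ⟨e2 ▸ mul_mem (inv_mem hv) (S.dg_conj_pos z₂ hv),
      mul_mem (e₁ ▸ hn1) (inv_mem h2)⟩
  rw [S.pos_inf_diag, Subgroup.mem_bot, mul_inv_eq_one] at h3
  exact h3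

end Cfsg.Agent.S1046
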