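import Cfsg.Statements.S1051
import Cfsg.Agent.Chev.Inst
import Cfsg.Agent.Chev.Longest

set_option autoImplicit false
open Cfsg

namespace Cfsg.Agent.S1051

/-- `⋂_g g B g⁻¹ = 1`: the normal core of `B` in the Chevalley group is trivial. -/
theorem result {F : Type*} [Field F] (D : Cfsg.Lie.ChevalleyDatum) (hD : D ∈ [Cfsg.Lie.chevG2, Cfsg.Lie.chevB2, Cfsg.Lie.chevD4, Cfsg.Lie.chevF4, Cfsg.Lie.chevE6, Cfsg.Lie.chevE7, Cfsg.Lie.chevE8]) : ((D.borelSubgroup F).subgroupOf (D.group F)).normalCore = ⊥ := by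
  obtain ⟨S⟩ := CfsgLib.Chev.exists_sys hD
  set C := ((D.borelSubgroup F).subgroupOf (D.group F)).normalCore with hC
  have h0 : C.map (D.group F).subtype = ⊥ := by
    refine S.eq_bot_of_le_borel (fun x hx => ?_) (fun g hg x hx => ?_)
    · obtain ⟨y, hy, rfl⟩ := Subgroup.mem_map.1 hx
      exact Subgroup.mem_subgroupOf.1 (Subgroup.normalCore_le _ hy)
    · obtain ⟨y, hy, rfl⟩ := Subgroup.mem_map.1 hx
      refine Subgroup.mem_map.2 ⟨⟨g, hg⟩ * y * ⟨g, hg⟩⁻¹, ?_, ?_⟩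
      · exact (Subgroup.normalCore_normal ((D.borelSubgroup F).subgroupOf (D.group F))).conj_mem
          y hy ⟨g, hg⟩
      · simp only [map_mul, map_inv, Subgroup.coe_subtype]
  exact (Subgroup.map_eq_bot_iff_of_injective _ (D.group F).subtype_injective).1 h0

end Cfsg.Agent.S1051
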