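import Cfsg.Statements.S1062
import Cfsg.Agent.Chev.GroupOrder
import Cfsg.Agent.Chev.PoincareF4
import Cfsg.Agent.Chev.Inst
-- import your own Cfsg.Agent.* helpers here

set_option autoImplicit false
open Cfsg

namespace Cfsg.Agent.S1062

/-- `|F₄(q)| = q²⁴ (q² - 1)(q⁶ - 1)(q⁸ - 1)(q¹² - 1)`. -/
theorem result {F : Type*} [Field F] [Fintype F] {q : ℕ} (hq : Fintype.card F = q) : Nat.card ↥(Cfsg.Lie.chevF4.group F) = q ^ 24 * (q ^ 2 - 1) * (q ^ 6 - 1) * (q ^ 8 - 1) * (q ^ 12 - 1) := by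
  subst hq
  have hr : Cfsg.Lie.chevF4.rank = 4 := by decide +kernel
  have hn : Cfsg.Lie.chevF4.nroots / 2 = 24 := by decide +kernel
  have h := CfsgLib.Chev.sysF4.card_group_formula (F := F) CfsgLib.Chev.torF4
    (degs := CfsgLib.Chev.PoincareF4.degs)
    (fun y => by
      have := CfsgLib.Chev.PoincareF4.poincare CfsgLib.Chev.sysF4 y
      rwa [show (y - 1) ^ 4 = (y - 1) ^ Cfsg.Lie.chevF4.rank by rw [hr]] at this)
  rw [hn, ← Fin.prod_congr' _ hr.symm] at h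
  simp [CfsgLib.Chev.PoincareF4.degs, CfsgLib.Chev.torF4, Fin.prod_univ_succ, Nat.card_eq_fintype_card,
    Nat.gcd_comm] at h ⊢
  first
    | linarith [h]
    | (ring_nf at h ⊢; linarith [h])

end Cfsg.Agent.S1062
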