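import Cfsg.Statements.S1064
import Cfsg.Agent.Chev.GroupOrder
import Cfsg.Agent.Chev.PoincareE7
import Cfsg.Agent.Chev.Inst
-- import your own Cfsg.Agent.* helpers here

set_option autoImplicit false
open Cfsg

namespace Cfsg.Agent.S1064

/-- `gcd(2, q-1) · |E₇(q)| = q⁶³ ∏_{d ∈ {2,6,8,10,12,14,18}} (q^d - 1)`. -/
theorem result {F : Type*} [Field F] [Fintype F] {q : ℕ} (hq : Fintype.card F = q) : Nat.gcd 2 (q - 1) * Nat.card ↥(Cfsg.Lie.chevE7.group F) = q ^ 63 * (q ^ 2 - 1) * (q ^ 6 - 1) * (q ^ 8 - 1) * (q ^ 10 - 1) * (q ^ 12 - 1) * (q ^ 14 - 1) * (q ^ 18 - 1) := by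
  subst hq
  have hr : Cfsg.Lie.chevE7.rank = 7 := by decide +kernel
  have hn : Cfsg.Lie.chevE7.nroots / 2 = 63 := by decide +kernel
  have h := CfsgLib.Chev.sysE7.card_group_formula (F := F) CfsgLib.Chev.torE7
    (degs := CfsgLib.Chev.PoincareE7.degs)
    (fun y => by
      have := CfsgLib.Chev.PoincareE7.poincare CfsgLib.Chev.sysE7 y
      rwa [show (y - 1) ^ 7 = (y - 1) ^ Cfsg.Lie.chevE7.rank by rw [hr]] at this)
  rw [hn, ← Fin.prod_congr' _ hr.symm] at h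
  simp [CfsgLib.Chev.PoincareE7.degs, CfsgLib.Chev.torE7, Fin.prod_univ_succ, Nat.card_eq_fintype_card,
    Nat.gcd_comm] at h ⊢
  first
    | linarith [h]
    | (ring_nf at h ⊢; linarith [h])

end Cfsg.Agent.S1064
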