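import Cfsg.Statements.S1092
import Cfsg.Agent.Chev.CoxeterIso
import Cfsg.Agent.Chev.Inst
import Cfsg.Agent.Chev.PoincareB2
import Cfsg.Agent.Chev.PoincareG2
import Cfsg.Agent.Chev.PoincareD4
import Cfsg.Agent.Chev.PoincareF4
-- import your own Cfsg.Agent.* helpers here

set_option autoImplicit false
open Cfsg

namespace Cfsg.Agent.S1092

/-- `|W(B₂)| = 8`, `|W(G₂)| = 12`, `|W(D₄)| = 192`, `|W(F₄)| = 1152` for the groups presented by the Coxeter matrices (the product of the degrees of the basic invariants). -/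
theorem result (p : (Σ n : ℕ, CoxeterMatrix (Fin n)) × ℕ)
    (hp : p ∈ [(⟨2, CoxeterMatrix.B 2⟩, 8), (⟨2, CoxeterMatrix.G₂⟩, 12), (⟨4, Cfsg.Lie.coxeterD4⟩, 192), (⟨4, CoxeterMatrix.F₄⟩, 1152)]) :
    Nat.card p.1.2.Group = p.2 := by
  simp only [List.mem_cons, List.not_mem_nil, or_false] at hp
  rcases hp with rfl | rfl | rfl | rfl
  · refine (CfsgLib.Chev.sysB2.card_coxeter_group CfsgLib.Chev.PoincareB2.rank_eq CfsgLib.Chev.PoincareB2.cart_ok (CoxeterMatrix.B 2)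
      (Mf := fun i j => if h : i < 2 ∧ j < 2 then ((CoxeterMatrix.B 2) ⟨i, h.1⟩ ⟨j, h.2⟩) else 0)
      (fun i j => by rw [dif_pos ⟨i.2, j.2⟩]) (by decide +kernel)
      (orbs := CfsgLib.Chev.PoincareB2.orbs) ?_).trans (by decide +kernel)
    intro k hk
    rw [CfsgLib.Chev.PoincareB2.rank_eq] at hk ⊢
    match k, hk with
    | 0, _ => exact CfsgLib.Chev.PoincareB2.orb0_ok
    | 1, _ => exact CfsgLib.Chev.PoincareB2.orb1_ok
    | k + 2, hk => exact absurd hk (Nat.not_lt.2 (Nat.le_add_left 2 k))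
  · refine (CfsgLib.Chev.sysG2.card_coxeter_group CfsgLib.Chev.PoincareG2.rank_eq CfsgLib.Chev.PoincareG2.cart_ok CoxeterMatrix.G₂
      (Mf := fun i j => if h : i < 2 ∧ j < 2 then (CoxeterMatrix.G₂ ⟨i, h.1⟩ ⟨j, h.2⟩) else 0)
      (fun i j => by rw [dif_pos ⟨i.2, j.2⟩]) (by decide +kernel)
      (orbs := CfsgLib.Chev.PoincareG2.orbs) ?_).trans (by decide +kernel)
    intro k hk
    rw [CfsgLib.Chev.PoincareG2.rank_eq] at hk ⊢
    match k, hk with
    | 0, _ => exact CfsgLib.Chev.PoincareG2.orb0_ok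
    | 1, _ => exact CfsgLib.Chev.PoincareG2.orb1_ok
    | k + 2, hk => exact absurd hk (Nat.not_lt.2 (Nat.le_add_left 2 k))
  · refine (CfsgLib.Chev.sysD4.card_coxeter_group CfsgLib.Chev.PoincareD4.rank_eq CfsgLib.Chev.PoincareD4.cart_ok Cfsg.Lie.coxeterD4
      (Mf := fun i j => if h : i < 4 ∧ j < 4 then (Cfsg.Lie.coxeterD4 ⟨i, h.1⟩ ⟨j, h.2⟩) else 0)
      (fun i j => by rw [dif_pos ⟨i.2, j.2⟩]) (by decide +kernel)
      (orbs := CfsgLib.Chev.PoincareD4.orbs) ?_).trans (by decide +kernel)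
    intro k hk
    rw [CfsgLib.Chev.PoincareD4.rank_eq] at hk ⊢
    match k, hk with
    | 0, _ => exact CfsgLib.Chev.PoincareD4.orb0_ok
    | 1, _ => exact CfsgLib.Chev.PoincareD4.orb1_ok
    | 2, _ => exact CfsgLib.Chev.PoincareD4.orb2_ok
    | 3, _ => exact CfsgLib.Chev.PoincareD4.orb3_ok
    | k + 4, hk => exact absurd hk (Nat.not_lt.2 (Nat.le_add_left 4 k))
  · refine (CfsgLib.Chev.sysF4.card_coxeter_group CfsgLib.Chev.PoincareF4.rank_eq CfsgLib.Chev.PoincareF4.cart_ok CoxeterMatrix.F₄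
      (Mf := fun i j => if h : i < 4 ∧ j < 4 then (CoxeterMatrix.F₄ ⟨i, h.1⟩ ⟨j, h.2⟩) else 0)
      (fun i j => by rw [dif_pos ⟨i.2, j.2⟩]) (by decide +kernel)
      (orbs := CfsgLib.Chev.PoincareF4.orbs) ?_).trans (by decide +kernel)
    intro k hk
    rw [CfsgLib.Chev.PoincareF4.rank_eq] at hk ⊢
    match k, hk with
    | 0, _ => exact CfsgLib.Chev.PoincareF4.orb0_ok
    | 1, _ => exact CfsgLib.Chev.PoincareF4.orb1_ok
    | 2, _ => exact CfsgLib.Chev.PoincareF4.orb2_ok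
    | 3, _ => exact CfsgLib.Chev.PoincareF4.orb3_ok
    | k + 4, hk => exact absurd hk (Nat.not_lt.2 (Nat.le_add_left 4 k))

end Cfsg.Agent.S1092
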