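import Cfsg.Statements.S1093
import Cfsg.Agent.Chev.CoxeterIso
import Cfsg.Agent.Chev.Inst
import Cfsg.Agent.Chev.PoincareE6
import Cfsg.Agent.Chev.PoincareE7
import Cfsg.Agent.Chev.PoincareE8
-- import your own Cfsg.Agent.* helpers here

set_option autoImplicit false
open Cfsg

namespace Cfsg.Agent.S1093

/-- `|W(E₆)| = 51840`, `|W(E₇)| = 2903040`, `|W(E₈)| = 696729600` for Mathlib's presented Coxeter groups. -/
theorem result (p : (Σ n : ℕ, CoxeterMatrix (Fin n)) × ℕ)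
    (hp : p ∈ [(⟨6, CoxeterMatrix.E₆⟩, 51840), (⟨7, CoxeterMatrix.E₇⟩, 2903040), (⟨8, CoxeterMatrix.E₈⟩, 696729600)]) :
    Nat.card p.1.2.Group = p.2 := by
  simp only [List.mem_cons, List.not_mem_nil, or_false] at hp
  rcases hp with rfl | rfl | rfl
  · refine (CfsgLib.Chev.sysE6.card_coxeter_group CfsgLib.Chev.PoincareE6.rank_eq CfsgLib.Chev.PoincareE6.cart_ok CoxeterMatrix.E₆
      (Mf := fun i j => if h : i < 6 ∧ j < 6 then (CoxeterMatrix.E₆ ⟨i, h.1⟩ ⟨j, h.2⟩) else 0)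
      (fun i j => by rw [dif_pos ⟨i.2, j.2⟩]) (by decide +kernel)
      (orbs := CfsgLib.Chev.PoincareE6.orbs) ?_).trans (by decide +kernel)
    intro k hk
    rw [CfsgLib.Chev.PoincareE6.rank_eq] at hk ⊢
    match k, hk with
    | 0, _ => exact CfsgLib.Chev.PoincareE6.orb0_ok
    | 1, _ => exact CfsgLib.Chev.PoincareE6.orb1_ok
    | 2, _ => exact CfsgLib.Chev.PoincareE6.orb2_ok
    | 3, _ => exact CfsgLib.Chev.PoincareE6.orb3_ok
    | 4, _ => exact CfsgLib.Chev.PoincareE6.orb4_ok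
    | 5, _ => exact CfsgLib.Chev.PoincareE6.orb5_ok
    | k + 6, hk => exact absurd hk (Nat.not_lt.2 (Nat.le_add_left 6 k))
  · refine (CfsgLib.Chev.sysE7.card_coxeter_group CfsgLib.Chev.PoincareE7.rank_eq CfsgLib.Chev.PoincareE7.cart_ok CoxeterMatrix.E₇
      (Mf := fun i j => if h : i < 7 ∧ j < 7 then (CoxeterMatrix.E₇ ⟨i, h.1⟩ ⟨j, h.2⟩) else 0)
      (fun i j => by rw [dif_pos ⟨i.2, j.2⟩]) (by decide +kernel)
      (orbs := CfsgLib.Chev.PoincareE7.orbs) ?_).trans (by decide +kernel)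
    intro k hk
    rw [CfsgLib.Chev.PoincareE7.rank_eq] at hk ⊢
    match k, hk with
    | 0, _ => exact CfsgLib.Chev.PoincareE7.orb0_ok
    | 1, _ => exact CfsgLib.Chev.PoincareE7.orb1_ok
    | 2, _ => exact CfsgLib.Chev.PoincareE7.orb2_ok
    | 3, _ => exact CfsgLib.Chev.PoincareE7.orb3_ok
    | 4, _ => exact CfsgLib.Chev.PoincareE7.orb4_ok
    | 5, _ => exact CfsgLib.Chev.PoincareE7.orb5_ok
    | 6, _ => exact CfsgLib.Chev.PoincareE7.orb6_ok
    | k + 7, hk => exact absurd hk (Nat.not_lt.2 (Nat.le_add_left 7 k))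
  · refine (CfsgLib.Chev.sysE8.card_coxeter_group CfsgLib.Chev.PoincareE8.rank_eq CfsgLib.Chev.PoincareE8.cart_ok CoxeterMatrix.E₈
      (Mf := fun i j => if h : i < 8 ∧ j < 8 then (CoxeterMatrix.E₈ ⟨i, h.1⟩ ⟨j, h.2⟩) else 0)
      (fun i j => by rw [dif_pos ⟨i.2, j.2⟩]) (by decide +kernel)
      (orbs := CfsgLib.Chev.PoincareE8.orbs) ?_).trans (by decide +kernel)
    intro k hk
    rw [CfsgLib.Chev.PoincareE8.rank_eq] at hk ⊢
    match k, hk with
    | 0, _ => exact CfsgLib.Chev.PoincareE8.orb0_ok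
    | 1, _ => exact CfsgLib.Chev.PoincareE8.orb1_ok
    | 2, _ => exact CfsgLib.Chev.PoincareE8.orb2_ok
    | 3, _ => exact CfsgLib.Chev.PoincareE8.orb3_ok
    | 4, _ => exact CfsgLib.Chev.PoincareE8.orb4_ok
    | 5, _ => exact CfsgLib.Chev.PoincareE8.orb5_ok
    | 6, _ => exact CfsgLib.Chev.PoincareE8.orb6_ok
    | 7, _ => exact CfsgLib.Chev.PoincareE8.orb7_ok
    | k + 8, hk => exact absurd hk (Nat.not_lt.2 (Nat.le_add_left 8 k))

end Cfsg.Agent.S1093
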