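import Cfsg.Statements.S1095
import Cfsg.Agent.Chev.Inst
import Cfsg.Agent.Chev.Longest

set_option autoImplicit false
open Cfsg

namespace Cfsg.Agent.S1095

/-- `n_p` (p = p_{i+1} fundamental) is the signed monomial matrix `h_{p_j} ↦ h_{p_j} - A_{p_j,p} h_p`, `e_s ↦ η_s e_{w_p(s)}`, with `η_s = ±1`, `η_p = η_{-p} = -1`, `η_s η_{w_p(s)} = (-1)^{A_{p,s}}`, `η_s η_{-s} = 1`. -/
theorem result {F : Type*} [Field F] (D : Cfsg.Lie.ChevalleyDatum) (hD : D ∈ [Cfsg.Lie.chevG2, Cfsg.Lie.chevB2, Cfsg.Lie.chevD4, Cfsg.Lie.chevF4, Cfsg.Lie.chevE6, Cfsg.Lie.chevE7, Cfsg.Lie.chevE8]) (i : ℕ) (hi : i < D.rank) :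
    ∃ η : ℕ → ℤ, (∀ s < D.nroots, η s = 1 ∨ η s = -1) ∧ η (D.simple i) = -1 ∧ η (D.neg (D.simple i)) = -1 ∧
      (∀ s < D.nroots, η s * η (D.reflectRoot i s) = (-1) ^ (D.cartan i s).natAbs ∧ η s * η (D.neg s) = 1) ∧
      D.nMat F (D.simple i) 1 = Matrix.of (fun (row col : D.Idx) =>
        Sum.elim
          (fun j' : Fin D.rank => Sum.elim
            (fun j : Fin D.rank => (if j' = j then (1 : F) else 0) - (if (j' : ℕ) = i then ((D.cartan j (D.simple i) : ℤ) : F) else 0))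
            (fun _ => (0 : F)) col)
          (fun s' : Fin D.nroots => Sum.elim
            (fun _ => (0 : F))
            (fun s : Fin D.nroots => if (s' : ℕ) = D.reflectRoot i s then ((η s : ℤ) : F) else 0) col)
          row) := by
  obtain ⟨S⟩ := CfsgLib.Chev.exists_sys hD
  refine ⟨S.eta i, S.eta_unit i hi, S.eta_simple i hi, ?_, ?_, ?_⟩
  · rw [S.eta_neg i hi _ (S.simple_lt hi)]; exact S.eta_simple i hi
  · intro s hs
    rw [← S.pi_reflect i hi s hs]
    exact ⟨S.eta_pi i hi s hs, by rw [S.eta_neg i hi s hs]; exact S.eta_sq hi hs⟩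
  refine CfsgLib.Chev.ext_basis (fun j hj => ?_) (fun s hs => ?_)
  · rw [S.n_hv i hi j hj]
    funext row
    rw [CfsgLib.Chev.hv_eq hj, CfsgLib.Chev.mulVec_single_col, ← CfsgLib.Chev.hv_eq hj]
    rcases row with a | a
    · simp only [Matrix.of_apply, Sum.elim_inl, Pi.sub_apply, Pi.smul_apply,
        CfsgLib.Chev.hv_inl, smul_eq_mul, Fin.ext_iff, mul_ite, mul_one, mul_zero]
    · simp [CfsgLib.Chev.hv_inr]
  · rw [S.n_ev i hi s hs, S.pi_reflect i hi s hs]
    funext row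
    rw [CfsgLib.Chev.ev_eq (D := D) (F := F) hs, CfsgLib.Chev.mulVec_single_col]
    rcases row with a | a
    · simp [CfsgLib.Chev.ev_inl]
    · simp only [Matrix.of_apply, Sum.elim_inr, Pi.smul_apply, CfsgLib.Chev.ev_inr, smul_eq_mul,
        mul_ite, mul_one, mul_zero]

end Cfsg.Agent.S1095
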