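import Cfsg.Statements.S1097
import Cfsg.Agent.Chev.Cover.Cert
-- import your own Cfsg.Agent.* helpers here

set_option autoImplicit false
open Cfsg

namespace Cfsg.Agent.S1097

/-- Any homomorphism from the presented group to the Chevalley group with `x̄_r(t) ↦ x_r(t)` has kernel contained in `H̄ = ⟨h̄_p(t) : p fundamental, t ≠ 0⟩`. -/
theorem result {K : Type*} [Field K] (D : Cfsg.Lie.ChevalleyDatum) (hD : D ∈ [Cfsg.Lie.chevG2, Cfsg.Lie.chevB2, Cfsg.Lie.chevD4, Cfsg.Lie.chevF4, Cfsg.Lie.chevE6, Cfsg.Lie.chevE7, Cfsg.Lie.chevE8]) (θ : D.SteinbergGroup K →* ↥(D.group K))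
    (hθ : ∀ (r : ℕ) (t : K), r < D.nroots → ((θ (D.stGen K r t) : GL D.Idx K) : Matrix D.Idx D.Idx K) = D.x K r t) :
    θ.ker ≤ Subgroup.closure {h | ∃ (i : ℕ) (t : K), i < D.rank ∧ t ≠ 0 ∧ h = PresentedGroup.mk (D.steinbergRels K) (D.stH (D.simple i) t)} := by
  obtain ⟨S⟩ := CfsgLib.Chev.exists_sys hD
  have e : θ = (S.stLift K).θ := (S.stLift K).eq_θ hθ
  subst e
  rw [CfsgLib.Chev.Lift.θ_ker]
  refine ((S.stLift K).ker_le_HB (CfsgLib.Chev.genOK_of_mem hD)).trans (Subgroup.closure_mono ?_)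
  rintro g ⟨i, t, hi, ht, rfl⟩
  exact ⟨i, t, hi, ht, S.stLift_h _ _⟩

end Cfsg.Agent.S1097
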