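import Cfsg.Statements.S1098
import Cfsg.Agent.Chev.Special.SpecB2
import Cfsg.Agent.Chev.ValidB2
import Cfsg.Agent.Chev.Special.SpecF4
import Cfsg.Agent.Chev.ValidF4
import Cfsg.Agent.Chev.Special.Iso

set_option autoImplicit false
open Cfsg

namespace Cfsg.Agent.S1098

open CfsgLib.Chev in
/-- The image of a root element under the exceptional isogeny. -/
private theorem key {T : Tbl} {D : Cfsg.Lie.ChevalleyDatum} {P : Special.Spec} {K : Type*} [Field K]
    (hV : T.Valid D) (hP : P.Valid T) (hp : CharP K P.p) (hperf : ∀ x : K, ∃ y : K, y ^ P.p = x)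
    (g : ↥(D.group K)) {r r' e : ℕ} (t : K) (hr : r < T.n) (h1 : P.rbar T r = r') (h2 : P.lam T r = e)
    (hg : ((g : GL D.Idx K) : Matrix D.Idx D.Idx K) = D.x K r t) :
    ((Special.isoEquiv hV hP hp hperf g : GL D.Idx K) : Matrix D.Idx D.Idx K) = D.x K r' (t ^ e) := by
  have e1 : g = ⟨(Special.sv hV).xU r t, (Special.sv hV).xU_mem_group r t⟩ :=
    Subtype.ext ((Special.sv hV).eq_xU hg)
  rw [e1, Special.isoEquiv_apply, Special.iso_xU hV hP hp hr, Sys.coe_xU, h1, h2]

/-- Graph automorphisms in characteristic 2 (K perfect): for B₂ (a short, b long) `x_a(t) ↦ x_b(t²)`, `x_b(t) ↦ x_a(t)`, and for F₄ (p₁, p₂ short, p₃, p₄ long) `x_{p₁}(t) ↦ x_{p₄}(t²)`, `x_{p₂}(t) ↦ x_{p₃}(t²)`, `x_{p₃}(t) ↦ x_{p₂}(t)`, `x_{p₄}(t) ↦ x_{p₁}(t)`, likewise on the negatives, extend to an automorphism of the group. -/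
theorem result {K : Type*} [Field K] [CharP K 2] (hperf : ∀ x : K, ∃ y : K, y ^ 2 = x)
    (p : Cfsg.Lie.ChevalleyDatum × List (ℕ × ℕ))
    (hp : p ∈ [(Cfsg.Lie.chevB2, [(1, 2), (0, 1)]), (Cfsg.Lie.chevF4, [(3, 2), (2, 2), (1, 1), (0, 1)])]) :
    ∃ α : ↥(p.1.group K) ≃* ↥(p.1.group K), ∀ (g : ↥(p.1.group K)) (i : ℕ) (t : K), i < p.1.rank →
      (((g : GL p.1.Idx K) : Matrix p.1.Idx p.1.Idx K) = p.1.x K (p.1.simple i) t →
        ((α g : GL p.1.Idx K) : Matrix p.1.Idx p.1.Idx K) = p.1.x K (p.1.simple (p.2.getD i (0, 1)).1) (t ^ (p.2.getD i (0, 1)).2)) ∧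
      (((g : GL p.1.Idx K) : Matrix p.1.Idx p.1.Idx K) = p.1.x K (p.1.neg (p.1.simple i)) t →
        ((α g : GL p.1.Idx K) : Matrix p.1.Idx p.1.Idx K) = p.1.x K (p.1.neg (p.1.simple (p.2.getD i (0, 1)).1)) (t ^ (p.2.getD i (0, 1)).2)) := by
  simp only [List.mem_cons, List.not_mem_nil, or_false] at hp
  rcases hp with rfl | rfl
  · refine ⟨CfsgLib.Chev.Special.isoEquiv CfsgLib.Chev.DataB2.valid CfsgLib.Chev.Special.specB2_valid
      (inferInstance : CharP K 2) hperf, fun g i t hi => ⟨fun h => ?_, fun h => ?_⟩⟩ <;>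
    · match i, hi with
      | 0, _ => exact key _ _ _ hperf g t (by decide +kernel) (by decide +kernel) (by decide +kernel) h
      | 1, _ => exact key _ _ _ hperf g t (by decide +kernel) (by decide +kernel) (by decide +kernel) h
  · refine ⟨CfsgLib.Chev.Special.isoEquiv CfsgLib.Chev.DataF4.valid CfsgLib.Chev.Special.specF4_valid
      (inferInstance : CharP K 2) hperf, fun g i t hi => ⟨fun h => ?_, fun h => ?_⟩⟩ <;>
    · match i, hi with
      | 0, _ => exact key _ _ _ hperf g t (by decide +kernel) (by decide +kernel) (by decide +kernel) h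
      | 1, _ => exact key _ _ _ hperf g t (by decide +kernel) (by decide +kernel) (by decide +kernel) h
      | 2, _ => exact key _ _ _ hperf g t (by decide +kernel) (by decide +kernel) (by decide +kernel) h
      | 3, _ => exact key _ _ _ hperf g t (by decide +kernel) (by decide +kernel) (by decide +kernel) h

end Cfsg.Agent.S1098
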