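import Cfsg.Statements.S1100
import Cfsg.Agent.Chev.Inst
import Cfsg.Agent.Chev.Longest

set_option autoImplicit false
open Cfsg

namespace Cfsg.Agent.S1100

/-- Canonical form `g = b n_w u` (`b ∈ B`, `u ∈ U_w⁻ = ⟨X_r : r > 0, n_w X_r n_w⁻¹ ≤ V⟩`): such a decomposition exists for every element of the group; the coset `n_w H` is determined by `g`; and for a fixed representative `n_w` the factors `b`, `u` are unique. -/
theorem result {F : Type*} [Field F] (D : Cfsg.Lie.ChevalleyDatum) (hD : D ∈ [Cfsg.Lie.chevG2, Cfsg.Lie.chevB2, Cfsg.Lie.chevD4, Cfsg.Lie.chevF4, Cfsg.Lie.chevE6, Cfsg.Lie.chevE7, Cfsg.Lie.chevE8]) :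
    (∀ g ∈ D.group F, ∃ b ∈ D.borelSubgroup F, ∃ n ∈ D.monomialSubgroup F,
      ∃ u ∈ Subgroup.closure {x : GL D.Idx F | ∃ (r : ℕ) (t : F), D.IsPosRoot r ∧
            (D.rootSubgroup F r).map (MulAut.conj n).toMonoidHom ≤ D.negUnipotent F ∧ (x : Matrix D.Idx D.Idx F) = D.x F r t},
        g = b * n * u) ∧
    (∀ (b b' n n' u u' : GL D.Idx F), b ∈ D.borelSubgroup F → b' ∈ D.borelSubgroup F →
      n ∈ D.monomialSubgroup F → n' ∈ D.monomialSubgroup F →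
      u ∈ Subgroup.closure {x : GL D.Idx F | ∃ (r : ℕ) (t : F), D.IsPosRoot r ∧
            (D.rootSubgroup F r).map (MulAut.conj n).toMonoidHom ≤ D.negUnipotent F ∧ (x : Matrix D.Idx D.Idx F) = D.x F r t} →
      u' ∈ Subgroup.closure {x : GL D.Idx F | ∃ (r : ℕ) (t : F), D.IsPosRoot r ∧
            (D.rootSubgroup F r).map (MulAut.conj n').toMonoidHom ≤ D.negUnipotent F ∧ (x : Matrix D.Idx D.Idx F) = D.x F r t} →
      b * n * u = b' * n' * u' → n⁻¹ * n' ∈ D.diagonalSubgroup F ∧ (n = n' → b = b' ∧ u = u')) := by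
  obtain ⟨S⟩ := CfsgLib.Chev.exists_sys hD
  have hset : ∀ n ∈ D.monomialSubgroup F, ∀ w, S.Acts n w →
      Subgroup.closure {x : GL D.Idx F | ∃ (r : ℕ) (t : F), D.IsPosRoot r ∧
        (D.rootSubgroup F r).map (MulAut.conj n).toMonoidHom ≤ D.negUnipotent F ∧
        (x : Matrix D.Idx D.Idx F) = D.x F r t} = S.uminus F w := by
    intro n hn w hw
    rw [CfsgLib.Chev.Sys.uminus, CfsgLib.Chev.Sys.genBy]
    congr 1
    ext x
    constructor
    · rintro ⟨r, t, hr, hle, hx⟩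
      obtain ⟨h1, h2⟩ := (S.isPos_iff r).1 hr
      refine ⟨r, t, h1, h2, ⟨h2, ?_⟩, S.eq_xU hx⟩
      obtain ⟨c, hc⟩ := hw ⟨r, h2⟩
      have hm : n * S.xU r (1 : F) * n⁻¹ ∈ D.negUnipotent F :=
        hle ⟨S.xU r 1, Subgroup.subset_closure ⟨1, rfl⟩, rfl⟩
      rw [hc, mul_one] at hm
      exact S.neg_of_xU_mem (w ⟨r, h2⟩).2 c.ne_zero hm
    · rintro ⟨r, t, h1, h2, ⟨h3, hneg⟩, rfl⟩
      refine ⟨r, t, (S.isPos_iff r).2 ⟨h1, h2⟩, ?_, rfl⟩
      rw [Subgroup.map_le_iff_le_comap, Cfsg.Lie.ChevalleyDatum.rootSubgroup, Subgroup.closure_le]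
      rintro y ⟨v, hy⟩
      show n * y * n⁻¹ ∈ D.negUnipotent F
      obtain ⟨c, hc⟩ := hw ⟨r, h2⟩
      rw [S.eq_xU hy, hc]
      exact Subgroup.subset_closure ⟨_, _, (S.isNeg_iff _).2 hneg, rfl⟩
  constructor
  · intro g hg
    obtain ⟨b, hb, n, hn, w, -, hw, u, hu, rfl⟩ := S.exists_normal_form hg
    exact ⟨b, hb, n, hn, u, by rw [hset n hn w hw]; exact hu, rfl⟩
  · intro b b' n n' u u' hb hb' hn hn' hu hu' e
    obtain ⟨w, -, hw⟩ := S.exists_acts hn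
    obtain ⟨w', -, hw'⟩ := S.exists_acts hn'
    rw [hset n hn w hw] at hu
    rw [hset n' hn' w' hw'] at hu'
    refine ⟨S.cell_unique hn hn' hb (Subgroup.mem_sup_left (S.genBy_le_pos _ hu)) hb'
      (Subgroup.mem_sup_left (S.genBy_le_pos _ hu')) e, ?_⟩
    rintro rfl
    obtain rfl := S.acts_unique hw hw'
    exact S.normal_form_unique hw hb hb' hu hu' e

end Cfsg.Agent.S1100
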