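import Cfsg.Statements.S1115
import Cfsg.Agent.Chev.Ree.Results

set_option autoImplicit false
set_option maxHeartbeats 1000000
open Cfsg

namespace Cfsg.Agent.S1115

/-- `N¹/H¹ ≅ W¹`: a surjective homomorphism from `N¹ = G¹ ∩ N` onto the group of order 2 with kernel `H¹`. -/
theorem result {K : Type*} [Field K] [Fintype K] {m : ℕ} (hK : Fintype.card K = 3 ^ (2 * m + 1)) :
    ∃ φ : ↥(Cfsg.Lie.chevG2.monomialSubgroup K ⊓ Cfsg.Lie.twistedG2 K (3 ^ m)) →* Multiplicative (ZMod 2), Function.Surjective φ ∧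
      φ.ker = (Cfsg.Lie.chevG2.diagonalSubgroup K ⊓ Cfsg.Lie.twistedG2 K (3 ^ m)).subgroupOf (Cfsg.Lie.chevG2.monomialSubgroup K ⊓ Cfsg.Lie.twistedG2 K (3 ^ m)) := by
  haveI := CfsgLib.Chev.Ree.charP_three hK
  have hK' : Nat.card K = 3 ^ (2 * m + 1) := by rw [Nat.card_eq_fintype_card, hK]
  classical
  have hdec : ∀ n : ↥(Cfsg.Lie.chevG2.monomialSubgroup K ⊓ Cfsg.Lie.twistedG2 K (3 ^ m)),
      (n : GL Cfsg.Lie.chevG2.Idx K) ∈ Cfsg.Lie.chevG2.diagonalSubgroup K ∨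
        CfsgLib.Chev.Ree.SG.Acts (n : GL Cfsg.Lie.chevG2.Idx K) (CfsgLib.Chev.Ree.wdata.wJ 0) := by
    intro n
    have hn : (n : GL Cfsg.Lie.chevG2.Idx K) ∈ (CfsgLib.Chev.Ree.gdata K m hK').N1 := by
      rw [← (CfsgLib.Chev.Ree.gdata K m hK').mono_inf_G1]; exact n.2
    obtain ⟨w, hwg, hw⟩ := (CfsgLib.Chev.Ree.gdata K m hK').N1_acts hn
    rcases CfsgLib.Chev.Ree.good_cases hwg with rfl | rfl
    · exact Or.inl (CfsgLib.Chev.Ree.SG.mem_diag_of_pos (Subgroup.mem_inf.1 n.2).1 hw fun r hr => hr)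
    · exact Or.inr hw
  set H := (Cfsg.Lie.chevG2.diagonalSubgroup K ⊓ Cfsg.Lie.twistedG2 K (3 ^ m)).subgroupOf
    (Cfsg.Lie.chevG2.monomialSubgroup K ⊓ Cfsg.Lie.twistedG2 K (3 ^ m)) with hH
  obtain ⟨nJ', hnJ'⟩ : ∃ n : ↥(Cfsg.Lie.chevG2.monomialSubgroup K ⊓ Cfsg.Lie.twistedG2 K (3 ^ m)),
      (n : GL Cfsg.Lie.chevG2.Idx K) = CfsgLib.Chev.Ree.nJ K :=
    ⟨⟨CfsgLib.Chev.Ree.nJ K, CfsgLib.Chev.Ree.nJ_mono, CfsgLib.Chev.Ree.nJ_mem m⟩, rfl⟩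
  have hmem : ∀ n : ↥(Cfsg.Lie.chevG2.monomialSubgroup K ⊓ Cfsg.Lie.twistedG2 K (3 ^ m)),
      n ∈ H ↔ (n : GL Cfsg.Lie.chevG2.Idx K) ∈ Cfsg.Lie.chevG2.diagonalSubgroup K := fun n => by
    rw [hH, Subgroup.mem_subgroupOf, Subgroup.mem_inf]
    exact ⟨fun h => h.1, fun h => ⟨h, (Subgroup.mem_inf.1 n.2).2⟩⟩
  have hacts1 : ∀ {g : GL Cfsg.Lie.chevG2.Idx K}, g ∈ Cfsg.Lie.chevG2.diagonalSubgroup K →
      ¬ CfsgLib.Chev.Ree.SG.Acts g (CfsgLib.Chev.Ree.wdata.wJ 0) := by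
    intro g hg hw
    have h := CfsgLib.Chev.Ree.SG.acts_unique (CfsgLib.Chev.Ree.SG.acts_diag hg) hw
    have h1 := (CfsgLib.Chev.Ree.wdata.mem_inJ.1 (CfsgLib.Chev.Ree.wdata.sr_mem_inJ ⟨0, by decide⟩)).2
    exact h1 (show CfsgLib.Chev.Ree.SG.Pos (CfsgLib.Chev.Ree.wdata.wJ 0 _) by rw [← h]; exact CfsgLib.Chev.Ree.SG.sr_pos _)
  have hmul : ∀ a b, a * b ∈ H ↔ (a ∈ H ↔ b ∈ H) := by
    intro a b
    rw [hmem, hmem, hmem, Subgroup.coe_mul]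
    rcases hdec a with ha | ha
    · rw [Subgroup.mul_mem_cancel_left _ ha]
      exact ⟨fun h => ⟨fun _ => h, fun _ => ha⟩, fun h => h.1 ha⟩
    · rcases hdec b with hb | hb
      · rw [Subgroup.mul_mem_cancel_right _ hb]
        exact ⟨fun h => absurd ha (hacts1 h), fun h => absurd ha (hacts1 (h.2 hb))⟩
      · have hd : (a : GL Cfsg.Lie.chevG2.Idx K) * b ∈ Cfsg.Lie.chevG2.diagonalSubgroup K :=
          CfsgLib.Chev.Ree.SG.mem_diag_of_pos (mul_mem (Subgroup.mem_inf.1 a.2).1 (Subgroup.mem_inf.1 b.2).1)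
            (CfsgLib.Chev.Ree.SG.acts_mul ha hb) fun r hr => by
              rw [CfsgLib.Chev.Ree.wdata.wJ_wJ]; exact hr
        exact ⟨fun _ => ⟨fun h => absurd ha (hacts1 h), fun h => absurd hb (hacts1 h)⟩, fun _ => hd⟩
  let φ : ↥(Cfsg.Lie.chevG2.monomialSubgroup K ⊓ Cfsg.Lie.twistedG2 K (3 ^ m)) →* Multiplicative (ZMod 2) :=
    { toFun := fun n => if n ∈ H then 1 else Multiplicative.ofAdd 1
      map_one' := if_pos (one_mem H)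
      map_mul' := fun a b => by
        have h2 : Multiplicative.ofAdd (1 : ZMod 2) * Multiplicative.ofAdd 1 = 1 := by decide
        by_cases ha : a ∈ H <;> by_cases hb : b ∈ H <;> simp [hmul a b, ha, hb, h2] }
  refine ⟨φ, fun x => ?_, ?_⟩
  · by_cases hx : x = 1
    · exact ⟨1, by rw [map_one, hx]⟩
    · refine ⟨nJ', ?_⟩
      show (if nJ' ∈ H then 1 else Multiplicative.ofAdd 1) = x
      have hnot : nJ' ∉ H := fun h => hacts1 ((hmem nJ').1 h) (hnJ'.symm ▸ CfsgLib.Chev.Ree.acts_nJ (K := K))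
      rw [if_neg hnot]
      revert x; decide
  · ext n
    rw [MonoidHom.mem_ker]
    show (if n ∈ H then 1 else Multiplicative.ofAdd (1 : ZMod 2)) = 1 ↔ n ∈ H
    refine ⟨fun h => ?_, fun h => if_pos h⟩
    by_contra hn
    rw [if_neg hn] at h
    exact absurd h (by decide)

end Cfsg.Agent.S1115
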