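import Cfsg.Statements.S1118
import Cfsg.Agent.RankOneSetup.Pairs

set_option autoImplicit false
open Cfsg

namespace Cfsg.Agent.S1118

/-- In the rank-one set-up (`G` finite and doubly transitive on `Ω`, `t` an involution moving `a`, `Q` normal in `G_a` with `G_a = Q D`, `Q ⊓ D = 1` for the two-point stabiliser `D = G_a ⊓ G_{t • a}`, `|Q|` even, `|D|` odd), the normaliser of a subset of `Q` containing a non-identity element lies in `G_a`; consequently `N_G(Q) = N_G(G_a) = G_a`. -/
theorem result {G Ω : Type*} [Group G] [Finite G] [MulAction G Ω] {a : Ω} {t : G} {Q : Subgroup G}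
    (hS : Cfsg.IsRankOneSetup G Ω a t Q) :
    (∀ X : Set G, X ⊆ (Q : Set G) → (∃ x ∈ X, x ≠ 1) → Subgroup.normalizer X ≤ MulAction.stabilizer G a) ∧
      Subgroup.normalizer (Q : Set G) = MulAction.stabilizer G a ∧
      Subgroup.normalizer (MulAction.stabilizer G a : Set G) = MulAction.stabilizer G a := by
  have hone := CfsgLib.RankOneSetup.one_lt_card_Q hS
  have h1 : ∀ X : Set G, X ⊆ (Q : Set G) → (∃ x ∈ X, x ≠ 1) → Subgroup.normalizer X ≤ MulAction.stabilizer G a := by
    rintro X hX ⟨x, hx, hx1⟩ n hn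
    have hnx : n * x * n⁻¹ ∈ X := (Subgroup.mem_set_normalizer_iff.1 hn x).1 hx
    refine CfsgLib.RankOneSetup.eq_base_of_fixed hS (hX hnx) (fun h => hx1 (conj_eq_one_iff.1 h)) ?_
    rw [mul_smul, mul_smul, inv_smul_smul, CfsgLib.RankOneSetup.smul_Q hS (hX hx)]
  have hQne : ∃ x ∈ (Q : Set G), x ≠ 1 := by
    by_contra h
    push Not at h
    haveI : Subsingleton Q := ⟨fun x y => Subtype.ext ((h x x.2).trans (h y y.2).symm)⟩
    rw [Nat.card_of_subsingleton (1 : Q)] at hone
    omega
  have hnQ : Subgroup.normalizer (Q : Set G) = MulAction.stabilizer G a := by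
    refine le_antisymm (h1 _ subset_rfl hQne) fun g hg => ?_
    rw [Subgroup.mem_normalizer_iff]
    intro x
    refine ⟨fun hx => hS.conj_mem g hg x hx, fun hx => ?_⟩
    have := hS.conj_mem g⁻¹ (inv_mem hg) _ hx
    simpa [mul_assoc] using this
  refine ⟨h1, hnQ, le_antisymm (fun n hn => ?_) Subgroup.le_normalizer⟩
  by_contra hna
  obtain ⟨x, hx, hx1⟩ := hQne
  apply hx1
  have hx' : n⁻¹ * x * n ∈ MulAction.stabilizer G a := by
    have := (Subgroup.mem_normalizer_iff.1 hn (n⁻¹ * x * n)).2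
    refine this ?_
    rw [show n * (n⁻¹ * x * n) * n⁻¹ = x by group]
    exact hS.le hx
  rw [MulAction.mem_stabilizer_iff, mul_smul, mul_smul, inv_smul_eq_iff] at hx'
  by_contra hx1'
  exact hna (CfsgLib.RankOneSetup.eq_base_of_fixed hS hx hx1' hx')

end Cfsg.Agent.S1118
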