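import Cfsg.Statements.S1119
import Cfsg.Agent.RankOneSetup.Pairs

set_option autoImplicit false
open Cfsg

namespace Cfsg.Agent.S1119

/-- In the rank-one set-up (`G` finite and doubly transitive on `Ω`, `t` an involution moving `a`, `Q` normal in `G_a` with `G_a = Q D`, `Q ⊓ D = 1` for the two-point stabiliser `D = G_a ⊓ G_{t • a}`, `|Q|` even, `|D|` odd): `Q` acts regularly on `Ω` minus `a`; hence `|Ω| = |Q| + 1`, `|G| = |Q| |D| (|Q| + 1)`, some Sylow 2-subgroup of `G` lies in `Q`, and each `g ∉ G_a` is uniquely `x t y` with `x ∈ G_a`, `y ∈ Q` (canonical form). -/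
theorem result {G Ω : Type*} [Group G] [Finite G] [MulAction G Ω] {a : Ω} {t : G} {Q : Subgroup G}
    (hS : Cfsg.IsRankOneSetup G Ω a t Q) :
    (∀ b c : Ω, b ≠ a → c ≠ a → ∃! x : Q, (x : G) • b = c) ∧
      Nat.card Ω = Nat.card Q + 1 ∧
      Nat.card G = Nat.card Q * Nat.card ↥(MulAction.stabilizer G a ⊓ MulAction.stabilizer G (t • a)) * (Nat.card Q + 1) ∧
      (∃ P : Sylow 2 G, (P : Subgroup G) ≤ Q) ∧
      ∀ g : G, g ∉ MulAction.stabilizer G a → ∃! p : G × G, p.1 ∈ MulAction.stabilizer G a ∧ p.2 ∈ Q ∧ g = p.1 * t * p.2 := by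
  refine ⟨fun b c hb hc => ?_, CfsgLib.RankOneSetup.card_points hS, CfsgLib.RankOneSetup.card_group hS, ?_, fun g hg => ?_⟩
  · obtain ⟨y, hy, rfl⟩ := CfsgLib.RankOneSetup.exists_reg hS hb
    obtain ⟨z, hz, rfl⟩ := CfsgLib.RankOneSetup.exists_reg hS hc
    refine ⟨⟨z * y⁻¹, Q.mul_mem hz (Q.inv_mem hy)⟩, ?_, fun x hx => Subtype.ext ?_⟩
    · show (z * y⁻¹) • y • t • a = z • t • a
      rw [mul_smul, inv_smul_smul]
    · have h1 : (x : G) • y • t • a = z • t • a := hx
      rw [← mul_smul] at h1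
      have := CfsgLib.RankOneSetup.reg_unique hS (Q.mul_mem x.2 hy) hz h1
      show (x : G) = z * y⁻¹
      rw [← this]; group
  · haveI : Fact (Nat.Prime 2) := ⟨Nat.prime_two⟩
    obtain ⟨P⟩ : Nonempty (Sylow 2 Q) := inferInstance
    have hodd : ¬ 2 ∣ Nat.card ↥(MulAction.stabilizer G a ⊓ MulAction.stabilizer G (t • a)) * (Nat.card Q + 1) := by
      rw [← even_iff_two_dvd, Nat.even_mul, Nat.even_add_one]
      rintro (h | h)
      · exact Nat.not_even_iff_odd.2 hS.odd_card h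
      · exact h hS.even_card
    have hcard : Nat.card ((P : Subgroup Q).map Q.subtype) = 2 ^ (Nat.card G).factorization 2 := by
      rw [Subgroup.card_map_of_injective Q.subtype_injective, P.card_eq_multiplicity, CfsgLib.RankOneSetup.card_group hS,
        mul_assoc, Nat.factorization_mul Nat.card_pos.ne' (fun h => hodd (by rw [h]; exact dvd_zero 2)), Finsupp.add_apply,
        Nat.factorization_eq_zero_of_not_dvd hodd, add_zero]
    refine ⟨Sylow.ofCard _ hcard, ?_⟩
    rw [Sylow.coe_ofCard]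
    exact Subgroup.map_subtype_le _
  · have hga : g⁻¹ • a ≠ a := fun h => hg (by
      rw [MulAction.mem_stabilizer_iff]
      exact (inv_smul_eq_iff.1 h).symm)
    obtain ⟨r, hr, hra⟩ := CfsgLib.RankOneSetup.exists_reg hS hga
    refine ⟨(g * r * t, r⁻¹), ⟨?_, Q.inv_mem hr, ?_⟩, ?_⟩
    · show (g * r * t) • a = a
      rw [mul_smul, mul_smul, hra, smul_inv_smul]
    · show g = g * r * t * t * r⁻¹
      rw [mul_assoc (g * r), hS.mul_self, mul_one, mul_inv_cancel_right]
    · rintro ⟨x, y⟩ ⟨hx, hy, rfl⟩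
      have hry : r = y⁻¹ := by
        refine CfsgLib.RankOneSetup.reg_unique hS hr (Q.inv_mem hy) ?_
        rw [hra, mul_inv_rev, mul_inv_rev, mul_smul, mul_smul, CfsgLib.RankOneSetup.inv_t hS,
          show x⁻¹ • a = a from inv_mem hx]
      subst hry
      refine Prod.ext ?_ (inv_inv y).symm
      show x = x * t * y * y⁻¹ * t
      rw [mul_inv_cancel_right, mul_assoc, hS.mul_self, mul_one]

end Cfsg.Agent.S1119
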