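import Cfsg.Statements.S1120
import Cfsg.Agent.RankOneSetup.Pairs
import Cfsg.Agent.CoprimeAction.Invariant
import Cfsg.Agent.PCore.Basic

set_option autoImplicit false
open Cfsg

namespace Cfsg.Agent.S1120

/-- In the rank-one set-up (`G` finite and doubly transitive on `Ω`, `t` an involution moving `a`, `Q` normal in `G_a` with `G_a = Q D`, `Q ⊓ D = 1` for the two-point stabiliser `D = G_a ⊓ G_{t • a}`, `|Q|` even, `|D|` odd), if `G` has 2-rank at least 2 then `O_{2'}(G)` equals the normal core of `G_a`. -/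
theorem result {G Ω : Type*} [Group G] [Finite G] [MulAction G Ω] {a : Ω} {t : G} {Q : Subgroup G}
    (hS : Cfsg.IsRankOneSetup G Ω a t Q)
    (h2 : ∃ x y : G, x ≠ 1 ∧ y ≠ 1 ∧ x ≠ y ∧ x * x = 1 ∧ y * y = 1 ∧ x * y = y * x) :
    Cfsg.pPrimeCore 2 G = (MulAction.stabilizer G a).normalCore := by
  classical
  obtain ⟨x, y, hx1, hy1, hxy, hx2, hy2, hc⟩ := h2
  haveI := CfsgLib.RankOneSetup.pretrans hS
  refine le_antisymm ?_ ?_
  · obtain ⟨b, hb, -⟩ := CfsgLib.RankOneSetup.existsUnique_fixed hS hx1 hx2
    obtain ⟨g, hg⟩ := MulAction.exists_smul_eq G b a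
    set u := g * x * g⁻¹ with hu
    set v := g * y * g⁻¹ with hv
    have hu1 : u ≠ 1 := fun h => hx1 (conj_eq_one_iff.1 h)
    have hv1 : v ≠ 1 := fun h => hy1 (conj_eq_one_iff.1 h)
    have huv : u ≠ v := fun h => hxy ((MulAut.conj g).injective h)
    have hu2 : u * u = 1 := by rw [hu, show g * x * g⁻¹ * (g * x * g⁻¹) = g * (x * x) * g⁻¹ by group, hx2]; group
    have hv2 : v * v = 1 := by rw [hv, show g * y * g⁻¹ * (g * y * g⁻¹) = g * (y * y) * g⁻¹ by group, hy2]; group
    have huvc : u * v = v * u := by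
      rw [hu, hv]
      calc g * x * g⁻¹ * (g * y * g⁻¹) = g * (x * y) * g⁻¹ := by group
        _ = g * (y * x) * g⁻¹ := by rw [hc]
        _ = g * y * g⁻¹ * (g * x * g⁻¹) := by group
    have hua : u • a = a := by
      rw [hu, ← hg, mul_smul, mul_smul, inv_smul_smul, hb]
    have hva : v • a = a := CfsgLib.RankOneSetup.involution_fixed_unique hS hua hu1 hu2
      (by rw [← mul_smul, huvc, mul_smul, hua])
    let A : Subgroup G := Subgroup.closure {u, v}
    haveI hAc : IsMulCommutative A := Subgroup.isMulCommutative_closure (by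
      rintro p (rfl | rfl) q (rfl | rfl)
      all_goals first | rfl | exact huvc | exact huvc.symm)
    have hAel : ∀ z ∈ A, z * z = 1 := by
      intro z hz
      induction hz using Subgroup.closure_induction with
      | mem z hz => rcases hz with rfl | rfl <;> assumption
      | one => exact mul_one 1
      | mul p q hp hq h1 h2 =>
        have : q * p = p * q := congrArg Subtype.val (mul_comm' (⟨q, hq⟩ : A) ⟨p, hp⟩)
        rw [mul_assoc, ← mul_assoc q, this, mul_assoc p q q, h2, mul_one, h1]
      | inv p hp h1 => rw [← mul_inv_rev, h1, inv_one]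
    have hAa : A ≤ MulAction.stabilizer G a := by
      rw [Subgroup.closure_le]
      rintro p (rfl | rfl) <;> assumption
    have hnc : ¬ IsCyclic A := by
      intro hcy
      obtain ⟨⟨w, hwA⟩, hw⟩ := hcy.exists_generator
      have hel : ∀ z ∈ A, z = 1 ∨ z = w := by
        intro z hz
        obtain ⟨i, hi⟩ := Subgroup.mem_zpowers_iff.1 (hw ⟨z, hz⟩)
        have hi' : w ^ i = z := congrArg Subtype.val hi
        have hw2 : w ^ (2 : ℤ) = 1 := by rw [zpow_two]; exact hAel w hwA
        rcases Int.even_or_odd i with ⟨m, rfl⟩ | ⟨m, rfl⟩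
        · left; rw [← hi', ← two_mul, zpow_mul, hw2, one_zpow]
        · right; rw [← hi', zpow_add, zpow_mul, hw2, one_zpow, one_mul, zpow_one]
      rcases hel u (Subgroup.subset_closure (by simp)) with h | h
      · exact hu1 h
      rcases hel v (Subgroup.subset_closure (by simp)) with h' | h'
      · exact hv1 h'
      · exact huv (h.trans h'.symm)
    obtain ⟨hN, hcop⟩ := CfsgLib.PCore.pPrimeCore_mem 2 G
    haveI := hN
    rw [Subgroup.normalCore]
    intro z hz h
    show h * z * h⁻¹ ∈ MulAction.stabilizer G a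
    have hle : Cfsg.pPrimeCore 2 G ≤ MulAction.stabilizer G a := by
      refine CfsgLib.CoprimeAction.le_of_centralizers_le hnc (Subgroup.le_normalizer_of_normal) ?_ ?_
      · haveI : Fact (Nat.Prime 2) := ⟨Nat.prime_two⟩
        obtain ⟨k, hk⟩ := (show IsPGroup 2 A from fun z => ⟨1, Subtype.ext (by
          rw [pow_one, pow_two]; exact hAel z z.2)⟩).exists_card_eq
        rw [hk]
        exact (Nat.Coprime.pow_right k hcop).symm
      · intro p hp hp1 q hq
        obtain ⟨-, hqc⟩ := Subgroup.mem_inf.1 hq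
        rw [Subgroup.mem_centralizer_singleton_iff] at hqc
        exact CfsgLib.RankOneSetup.involution_fixed_unique hS (hAa hp) hp1 (hAel p hp)
          (by rw [← mul_smul, ← hqc, mul_smul, show p • a = a from hAa hp])
    exact hle (hN.conj_mem z hz h)
  · refine CfsgLib.PCore.le_pPrimeCore inferInstance ?_
    have hfix : ∀ z ∈ (MulAction.stabilizer G a).normalCore, ∀ b : Ω, z • b = b := by
      intro z hz b
      obtain ⟨g, rfl⟩ := MulAction.exists_smul_eq G a b
      have h : (g⁻¹ * z * g⁻¹⁻¹) • a = a := hz g⁻¹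
      rw [inv_inv, mul_smul, mul_smul, inv_smul_eq_iff] at h
      exact h
    have hdvd : Nat.card (MulAction.stabilizer G a).normalCore ∣
        Nat.card ↥(MulAction.stabilizer G a ⊓ MulAction.stabilizer G (t • a)) :=
      Subgroup.card_dvd_of_le fun z hz => Subgroup.mem_inf.2 ⟨hfix z hz a, hfix z hz (t • a)⟩
    exact Nat.Coprime.coprime_dvd_left hdvd (Nat.coprime_two_right.2 hS.odd_card)

end Cfsg.Agent.S1120
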