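import Cfsg.Statements.S1124
import Cfsg.Agent.RankOneSetup.Inverted

set_option autoImplicit false
open scoped Pointwise
open Cfsg
open scoped Pointwise

namespace Cfsg.Agent.S1124

/-- Let `t` be an element of order 2 of a finite group normalising a subgroup `X` of odd order, `Y = C_X(t)` and `Z` the set of elements of `X` inverted by `t`. Then `(y, z) ↦ y z` is a bijection `Y × Z → X`, so `|X| = |Y| |Z|`, and the subgroup generated by `Z` is normal in `X`. -/
theorem result {M : Type*} [Group M] [Finite M]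
    (t : M) (ht : orderOf t = 2) (X : Subgroup M) (hodd : Odd (Nat.card X))
    (hnorm : ∀ x ∈ X, t * x * t⁻¹ ∈ X) :
    (∀ x ∈ X, ∃! p : M × M, p.1 ∈ X ⊓ Subgroup.centralizer {t} ∧ p.2 ∈ Cfsg.invertedBy X t ∧ x = p.1 * p.2) ∧
      Nat.card X = Nat.card ↥(X ⊓ Subgroup.centralizer {t}) * Nat.card (Cfsg.invertedBy X t) ∧
      ∀ x ∈ X, MulAut.conj x • Subgroup.closure (Cfsg.invertedBy X t) = Subgroup.closure (Cfsg.invertedBy X t) := by
  have htt : t * t = 1 := by rw [← pow_two, ← ht]; exact pow_orderOf_eq_one t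
  refine ⟨fun x hx => ?_, CfsgLib.RankOneSetup.card_split htt hodd hnorm, fun x hx => ?_⟩
  · obtain ⟨y, z, hy, hyt, hz, rfl⟩ := CfsgLib.RankOneSetup.exists_split htt hodd hnorm hx
    refine ⟨(y, z), ⟨Subgroup.mem_inf.2 ⟨hy, Subgroup.mem_centralizer_singleton_iff.2 hyt⟩, hz, rfl⟩, ?_⟩
    rintro ⟨y', z'⟩ ⟨hy', hz', h⟩
    obtain ⟨h1, h2⟩ := CfsgLib.RankOneSetup.split_unique hodd
      (Subgroup.mem_centralizer_singleton_iff.1 (Subgroup.mem_inf.1 hy').2) hyt hz' hz h.symm
    exact Prod.ext h1 h2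
  · have hgen : ∀ x ∈ X, ∀ c ∈ Subgroup.closure (Cfsg.invertedBy X t), x * c * x⁻¹ ∈ Subgroup.closure (Cfsg.invertedBy X t) := by
      intro x hx c hc
      obtain ⟨y, z, hy, hyt, hz, rfl⟩ := CfsgLib.RankOneSetup.exists_split htt hodd hnorm hx
      have hzc : z * c * z⁻¹ ∈ Subgroup.closure (Cfsg.invertedBy X t) :=
        mul_mem (mul_mem (Subgroup.subset_closure hz) hc) (inv_mem (Subgroup.subset_closure hz))
      have hstep : ∀ d ∈ Subgroup.closure (Cfsg.invertedBy X t), y * d * y⁻¹ ∈ Subgroup.closure (Cfsg.invertedBy X t) := by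
        intro d hd
        induction hd using Subgroup.closure_induction with
        | mem d hd =>
          refine Subgroup.subset_closure ⟨X.mul_mem (X.mul_mem hy hd.1) (X.inv_mem hy), ?_⟩
          have hyc : t * y * t⁻¹ = y := mul_inv_eq_iff_eq_mul.2 hyt.symm
          calc t * (y * d * y⁻¹) * t⁻¹ = (t * y * t⁻¹) * (t * d * t⁻¹) * (t * y * t⁻¹)⁻¹ := by group
            _ = y * d⁻¹ * y⁻¹ := by rw [hyc, hd.2]
            _ = (y * d * y⁻¹)⁻¹ := by group
        | one => simp
        | mul p q _ _ h1 h2 => simpa [mul_assoc] using mul_mem h1 h2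
        | inv p _ h1 => simpa [mul_assoc] using inv_mem h1
      simpa [mul_assoc] using hstep _ hzc
    ext w
    rw [Subgroup.mem_smul_pointwise_iff_exists]
    constructor
    · rintro ⟨c, hc, rfl⟩
      exact hgen x hx c hc
    · intro hw
      refine ⟨x⁻¹ * w * x, ?_, ?_⟩
      · simpa using hgen x⁻¹ (X.inv_mem hx) w hw
      · show x * (x⁻¹ * w * x) * x⁻¹ = w
        group

end Cfsg.Agent.S1124
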