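import Cfsg.Statements.S1125
import Cfsg.Agent.RankOneSetup.Pairs

set_option autoImplicit false
open Cfsg

namespace Cfsg.Agent.S1125

/-- In the rank-one set-up (`G` finite and doubly transitive on `Ω`, `t` an involution moving `a`, `Q` normal in `G_a` with `G_a = Q D`, `Q ⊓ D = 1` for the two-point stabiliser `D = G_a ⊓ G_{t • a}`, `|Q|` even, `|D|` odd), let `X ⊆ D` fix at least three points of `Ω`. Then `C_G(X)` is doubly transitive on the fixed-point set of `X`, `|C_Q(X)|` is even, and `C_{G_a}(X) = C_Q(X) C_D(X)`. -/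
theorem result {G Ω : Type*} [Group G] [Finite G] [MulAction G Ω] {a : Ω} {t : G} {Q : Subgroup G}
    (hS : Cfsg.IsRankOneSetup G Ω a t Q)
    (X : Set G) (hX : X ⊆ ((MulAction.stabilizer G a ⊓ MulAction.stabilizer G (t • a)) : Set G))
    (h3 : ∃ b c d : Ω, b ≠ c ∧ b ≠ d ∧ c ≠ d ∧ ∀ x ∈ X, x • b = b ∧ x • c = c ∧ x • d = d) :
    (∀ b₁ b₂ c₁ c₂ : Ω, (∀ x ∈ X, x • b₁ = b₁ ∧ x • b₂ = b₂ ∧ x • c₁ = c₁ ∧ x • c₂ = c₂) →
        b₁ ≠ b₂ → c₁ ≠ c₂ → ∃ g ∈ Subgroup.centralizer X, g • b₁ = c₁ ∧ g • b₂ = c₂) ∧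
      Even (Nat.card ↥(Subgroup.centralizer X ⊓ Q)) ∧
      (Subgroup.centralizer X ⊓ Q) ⊔ (Subgroup.centralizer X ⊓ (MulAction.stabilizer G a ⊓ MulAction.stabilizer G (t • a))) = Subgroup.centralizer X ⊓ MulAction.stabilizer G a := by
  refine ⟨fun b₁ b₂ c₁ c₂ hf hb hc => CfsgLib.RankOneSetup.centralizer_two_trans hS h3 hf hb hc, ?_, ?_⟩
  · obtain ⟨w, hwX, hw2, hwa, -⟩ := CfsgLib.RankOneSetup.exists_swap hS hX h3
    have hw1 : w ≠ 1 := fun h => CfsgLib.RankOneSetup.ne_base hS (by rw [← hwa, h, one_smul])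
    obtain ⟨p, hp, hpu⟩ := CfsgLib.RankOneSetup.existsUnique_fixed hS hw1 hw2
    have hXp : ∀ x ∈ X, x • p = p := fun x hx => hpu _ (by
      show w • x • p = x • p
      rw [← mul_smul, ← Subgroup.mem_centralizer_iff.1 hwX x hx, mul_smul, hp])
    have hap : a ≠ p := fun h => CfsgLib.RankOneSetup.ne_base hS (by rw [← hwa, h]; exact hp)
    have hXat : ∀ x ∈ X, x • a = a ∧ x • t • a = t • a := fun x hx => Subgroup.mem_inf.1 (hX hx)
    obtain ⟨g, hg, hgp, -⟩ := CfsgLib.RankOneSetup.centralizer_two_trans hS h3 (b₁ := p) (b₂ := a) (c₁ := a) (c₂ := p)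
      (fun x hx => ⟨hXp x hx, (hXat x hx).1, (hXat x hx).1, hXp x hx⟩) hap.symm hap
    have hua : (g * w * g⁻¹) • a = a := by rw [← hgp, mul_smul, mul_smul, inv_smul_smul, hp]
    have hu2 : g * w * g⁻¹ * (g * w * g⁻¹) = 1 := by
      rw [show g * w * g⁻¹ * (g * w * g⁻¹) = g * (w * w) * g⁻¹ by group, hw2]; group
    have hmem : g * w * g⁻¹ ∈ Subgroup.centralizer X ⊓ Q :=
      Subgroup.mem_inf.2 ⟨mul_mem (mul_mem hg hwX) (inv_mem hg), CfsgLib.RankOneSetup.involution_mem_Q hS hua hu2⟩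
    have hord : orderOf (g * w * g⁻¹) = 2 :=
      CfsgLib.Invol.orderOf_eq_two hu2 (fun h => hw1 (conj_eq_one_iff.1 h))
    rw [even_iff_two_dvd, ← hord]
    exact Subgroup.orderOf_dvd_natCard _ hmem
  · refine le_antisymm (sup_le (le_inf inf_le_left (inf_le_right.trans hS.le)) (inf_le_inf_left _ inf_le_left)) ?_
    intro g hg
    obtain ⟨hgX, hga⟩ := Subgroup.mem_inf.1 hg
    obtain ⟨q, hq, d, hd, rfl⟩ := CfsgLib.RankOneSetup.exists_decomp hS hga
    have hXat : ∀ x ∈ X, x • a = a ∧ x • t • a = t • a := fun x hx => Subgroup.mem_inf.1 (hX hx)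
    obtain ⟨y, hy, hyX, hyq⟩ := CfsgLib.RankOneSetup.exists_fixed_move hS (X := X) (fun x hx => (hXat x hx).1)
      (CfsgLib.RankOneSetup.ne_base hS) (c := (q * d) • t • a)
      (fun h => CfsgLib.RankOneSetup.ne_base hS (MulAction.injective (q * d) (h.trans hga.symm)))
      (fun x hx => (hXat x hx).2)
      (fun x hx => by rw [← mul_smul, Subgroup.mem_centralizer_iff.1 hgX x hx, mul_smul, (hXat x hx).2])
    rw [mul_smul, show d • t • a = t • a from (Subgroup.mem_inf.1 hd).2] at hyq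
    obtain rfl := CfsgLib.RankOneSetup.reg_unique hS hy hq hyq
    refine Subgroup.mul_mem_sup (Subgroup.mem_inf.2 ⟨hyX, hy⟩) (Subgroup.mem_inf.2 ⟨?_, hd⟩)
    exact (Subgroup.mul_mem_cancel_left _ hyX).1 hgX

end Cfsg.Agent.S1125
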