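import Cfsg.Statements.S1126
import Cfsg.Agent.RankOneSetup.Pairs

set_option autoImplicit false
open Cfsg

namespace Cfsg.Agent.S1126

/-- In the rank-one set-up (`G` finite and doubly transitive on `Ω`, `t` an involution moving `a`, `Q` normal in `G_a` with `G_a = Q D`, `Q ⊓ D = 1` for the two-point stabiliser `D = G_a ⊓ G_{t • a}`, `|Q|` even, `|D|` odd), a subset `X ⊆ D` fixing at least three points of `Ω` is conjugate by an element of `D` into `V = C_D(t)`. -/
theorem result {G Ω : Type*} [Group G] [Finite G] [MulAction G Ω] {a : Ω} {t : G} {Q : Subgroup G}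
    (hS : Cfsg.IsRankOneSetup G Ω a t Q)
    (X : Set G) (hX : X ⊆ ((MulAction.stabilizer G a ⊓ MulAction.stabilizer G (t • a)) : Set G))
    (h3 : ∃ b c d : Ω, b ≠ c ∧ b ≠ d ∧ c ≠ d ∧ ∀ x ∈ X, x • b = b ∧ x • c = c ∧ x • d = d) :
    ∃ k ∈ (MulAction.stabilizer G a ⊓ MulAction.stabilizer G (t • a)), ∀ x ∈ X, (k * x * k⁻¹) * t = t * (k * x * k⁻¹) := by
  obtain ⟨w, hwX, hw2, hwa, hwt⟩ := CfsgLib.RankOneSetup.exists_swap hS hX h3
  have htw : t * w ∈ Cfsg.invertedBy (MulAction.stabilizer G a ⊓ MulAction.stabilizer G (t • a)) t := by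
    refine ⟨Subgroup.mem_inf.2 ⟨?_, ?_⟩, ?_⟩
    · show (t * w) • a = a
      rw [mul_smul, hwa, CfsgLib.RankOneSetup.swap_smul hS]
    · show (t * w) • t • a = t • a
      rw [mul_smul, hwt]
    · rw [CfsgLib.RankOneSetup.inv_t hS, mul_inv_rev, inv_eq_of_mul_eq_one_left hw2, CfsgLib.RankOneSetup.inv_t hS,
        ← mul_assoc, hS.mul_self, one_mul]
  set c := (t * w) ^ ((Nat.card ↥(MulAction.stabilizer G a ⊓ MulAction.stabilizer G (t • a)) + 1) / 2) with hc
  have hci := CfsgLib.RankOneSetup.inverted_pow htw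
    ((Nat.card ↥(MulAction.stabilizer G a ⊓ MulAction.stabilizer G (t • a)) + 1) / 2)
  rw [← hc] at hci
  have hcc : c * c = t * w := CfsgLib.RankOneSetup.pow_half_sq hS.odd_card htw.1
  have hw : w = c⁻¹ * t * c := by
    calc w = t * (t * w) := by rw [CfsgLib.RankOneSetup.tt_cancel hS]
      _ = t * (c * c) := by rw [hcc]
      _ = (t * c * t⁻¹) * t * c := by group
      _ = c⁻¹ * t * c := by rw [hci.2]
  refine ⟨c, hci.1, fun x hx => ?_⟩
  have h := Subgroup.mem_centralizer_iff.1 hwX x hx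
  rw [hw] at h
  calc c * x * c⁻¹ * t = c * (x * (c⁻¹ * t * c)) * c⁻¹ := by group
    _ = c * (c⁻¹ * t * c * x) * c⁻¹ := by rw [h]
    _ = t * (c * x * c⁻¹) := by group

end Cfsg.Agent.S1126
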