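import Cfsg.Statements.S1127
import Cfsg.Agent.RankOneSetup.Pairs

set_option autoImplicit false
open Cfsg

namespace Cfsg.Agent.S1127

/-- In the rank-one set-up (`G` finite and doubly transitive on `Ω`, `t` an involution moving `a`, `Q` normal in `G_a` with `G_a = Q D`, `Q ⊓ D = 1` for the two-point stabiliser `D = G_a ⊓ G_{t • a}`, `|Q|` even, `|D|` odd): if `s` is an involution of `G_a` and `r ∈ Q` satisfy `t s t = r⁻¹ t r`, then `C_D(t) = C_D(s)`; moreover `C_D(t) ⊓ C_D(K) = C_D(I ∩ G_a)`, where `K` is the set of elements of `D` inverted by `t` and `I ∩ G_a` the set of involutions of `G_a`. -/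
theorem result {G Ω : Type*} [Group G] [Finite G] [MulAction G Ω] {a : Ω} {t : G} {Q : Subgroup G}
    (hS : Cfsg.IsRankOneSetup G Ω a t Q) :
    (∀ s r : G, s ∈ Cfsg.involutionsIn (MulAction.stabilizer G a : Set G) → r ∈ Q → t * s * t = r⁻¹ * t * r →
        (MulAction.stabilizer G a ⊓ MulAction.stabilizer G (t • a)) ⊓ Subgroup.centralizer {t} = (MulAction.stabilizer G a ⊓ MulAction.stabilizer G (t • a)) ⊓ Subgroup.centralizer {s}) ∧
      (MulAction.stabilizer G a ⊓ MulAction.stabilizer G (t • a)) ⊓ Subgroup.centralizer {t} ⊓ Subgroup.centralizer (Cfsg.invertedBy (MulAction.stabilizer G a ⊓ MulAction.stabilizer G (t • a)) t) =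
        (MulAction.stabilizer G a ⊓ MulAction.stabilizer G (t • a)) ⊓ Subgroup.centralizer (Cfsg.involutionsIn (MulAction.stabilizer G a : Set G)) := by
  refine ⟨fun s r hs hr h => ?_, ?_⟩
  · ext d
    simp only [Subgroup.mem_inf, Subgroup.mem_centralizer_singleton_iff]
    constructor
    · rintro ⟨hd, hdt⟩
      exact ⟨hd, (CfsgLib.RankOneSetup.commute_t_iff hS hs hr h (Subgroup.mem_inf.2 hd)).1 hdt⟩
    · rintro ⟨hd, hds⟩
      exact ⟨hd, (CfsgLib.RankOneSetup.commute_t_iff hS hs hr h (Subgroup.mem_inf.2 hd)).2 hds⟩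
  · obtain ⟨s, r, hs, hr, h⟩ := CfsgLib.RankOneSetup.exists_pair hS
    ext d
    constructor
    · intro hd
      obtain ⟨hd1, hdK⟩ := Subgroup.mem_inf.1 hd
      obtain ⟨hdD, hdt⟩ := Subgroup.mem_inf.1 hd1
      rw [Subgroup.mem_centralizer_singleton_iff] at hdt
      refine Subgroup.mem_inf.2 ⟨hdD, Subgroup.mem_centralizer_iff.2 fun u hu => ?_⟩
      obtain ⟨k, hk⟩ := (CfsgLib.RankOneSetup.inverted_bijective hS hs).2 ⟨u, hu⟩
      have hk' : (k : G)⁻¹ * s * k = u := congrArg Subtype.val hk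
      have h1 : Commute d s := (CfsgLib.RankOneSetup.commute_t_iff hS hs hr h hdD).1 hdt
      have h2 : Commute d (k : G) := (Subgroup.mem_centralizer_iff.1 hdK k k.2).symm
      rw [← hk']
      exact ((h2.inv_right.mul_right h1).mul_right h2).eq.symm
    · intro hd
      obtain ⟨hdD, hdI⟩ := Subgroup.mem_inf.1 hd
      have hds : d * s = s * d := (Subgroup.mem_centralizer_iff.1 hdI s hs).symm
      have hdt : Commute d t := (CfsgLib.RankOneSetup.commute_t_iff hS hs hr h hdD).2 hds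
      refine Subgroup.mem_inf.2 ⟨Subgroup.mem_inf.2 ⟨hdD, Subgroup.mem_centralizer_singleton_iff.2 hdt.eq⟩,
        Subgroup.mem_centralizer_iff.2 fun k hk => ?_⟩
      have hu := Subgroup.mem_centralizer_iff.1 hdI _ (CfsgLib.RankOneSetup.conj_mem_Inv hS hs hk.1)
      have hkd : (k * d * k⁻¹) * t = t * (k * d * k⁻¹) := by
        refine (CfsgLib.RankOneSetup.commute_t_iff hS hs hr h (mul_mem (mul_mem hk.1 hdD) (inv_mem hk.1))).2 ?_
        calc k * d * k⁻¹ * s = k * (d * (k⁻¹ * s * k)) * k⁻¹ := by group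
          _ = k * (k⁻¹ * s * k * d) * k⁻¹ := by rw [hu]
          _ = s * (k * d * k⁻¹) := by group
      have htd : t * d * t⁻¹ = d := mul_inv_eq_iff_eq_mul.2 hdt.eq.symm
      have h3 : k⁻¹ * d * k = k * d * k⁻¹ := by
        calc k⁻¹ * d * k = (t * k * t⁻¹) * (t * d * t⁻¹) * (t * k * t⁻¹)⁻¹ := by rw [hk.2, htd, inv_inv]
          _ = t * (k * d * k⁻¹) * t⁻¹ := by group
          _ = k * d * k⁻¹ := by rw [← hkd]; group
      have h4 : Commute d (k * k) := by
        calc d * (k * k) = k * (k⁻¹ * d * k) * k := by group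
          _ = k * k * d := by rw [h3]; group
      have h5 := h4.pow_right ((Nat.card ↥(MulAction.stabilizer G a ⊓ MulAction.stabilizer G (t • a)) + 1) / 2)
      rw [(Commute.refl k).mul_pow, CfsgLib.RankOneSetup.pow_half_sq hS.odd_card hk.1] at h5
      exact h5.eq.symm

end Cfsg.Agent.S1127
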