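import Cfsg.Statements.S1129
import Cfsg.Agent.RankOneSetup.Central
import Cfsg.Agent.S0033

set_option autoImplicit false
open Cfsg

namespace Cfsg.Agent.S1129

/-- In the rank-one set-up (`G` finite and doubly transitive on `Ω`, `t` an involution moving `a`, `Q` normal in `G_a` with `G_a = Q D`, `Q ⊓ D = 1` for the two-point stabiliser `D = G_a ⊓ G_{t • a}`, `|Q|` even, `|D|` odd), with the action faithful and `G` containing two distinct commuting involutions: `Q` is nilpotent. -/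
theorem result {G Ω : Type*} [Group G] [Finite G] [MulAction G Ω] [FaithfulSMul G Ω] {a : Ω} {t : G} {Q : Subgroup G}
    (hS : Cfsg.IsRankOneSetup G Ω a t Q)
    (h2 : ∃ x y : G, x ≠ 1 ∧ y ≠ 1 ∧ x ≠ y ∧ x * x = 1 ∧ y * y = 1 ∧ x * y = y * x) :
    Group.IsNilpotent Q := by
  classical
  haveI : Finite Ω := CfsgLib.RankOneSetup.finite_points hS
  haveI := Fintype.ofFinite Ω
  haveI := CfsgLib.RankOneSetup.pretrans hS
  obtain ⟨x, y, hx1, hy1, hxy, hx2, hy2, hc⟩ := h2
  obtain ⟨p, hp, hpu⟩ := CfsgLib.RankOneSetup.existsUnique_fixed hS hx1 hx2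
  have hyp : y • p = p := hpu _ (show x • y • p = y • p by rw [smul_smul, hc, mul_smul, show x • p = p from hp])
  obtain ⟨g, rfl⟩ := MulAction.exists_smul_eq G a p
  have hmem : ∀ u : G, u ≠ 1 → u * u = 1 → u • g • a = g • a →
      g⁻¹ * u * g ∈ Cfsg.involutionsIn (MulAction.stabilizer G a : Set G) := by
    intro u hu1 hu2 hu
    refine ⟨?_, fun h => hu1 ?_, ?_⟩
    · show (g⁻¹ * u * g) • a = a
      rw [mul_smul, mul_smul, hu, inv_smul_smul]
    · calc u = g * (g⁻¹ * u * g) * g⁻¹ := by group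
        _ = 1 := by rw [h]; group
    · rw [show g⁻¹ * u * g * (g⁻¹ * u * g) = g⁻¹ * (u * u) * g by group, hu2]; group
  have hne : g⁻¹ * x * g ≠ g⁻¹ * y * g := fun h => hxy (mul_left_cancel (mul_right_cancel h))
  have hcard := CfsgLib.RankOneSetup.card_inverted hS
  have htwo : 1 < Nat.card (Cfsg.invertedBy (MulAction.stabilizer G a ⊓ MulAction.stabilizer G (t • a)) t) := by
    rw [hcard]
    refine Finite.one_lt_card_iff_nontrivial.2 ⟨⟨⟨_, hmem x hx1 hx2 hp⟩, ⟨_, hmem y hy1 hy2 hyp⟩, ?_⟩⟩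
    exact fun h => hne (congrArg Subtype.val h)
  obtain ⟨q, hq, hqd⟩ := Nat.exists_prime_and_dvd htwo.ne'
  haveI := Fact.mk hq
  obtain ⟨k, hk, hord⟩ := CfsgLib.RankOneSetup.exists_inverted_prime hS hqd
  have hk1 : k ≠ 1 := fun h => hq.one_lt.ne' (by rw [← hord, h, orderOf_one])
  have hka : k ∈ MulAction.stabilizer G a := (Subgroup.mem_inf.1 hk.1).1
  let φ : MulAut Q :=
    { toFun := fun u => ⟨k * u * k⁻¹, hS.conj_mem k hka u u.2⟩
      invFun := fun u => ⟨k⁻¹ * u * k⁻¹⁻¹, hS.conj_mem k⁻¹ (inv_mem hka) u u.2⟩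
      left_inv := fun u => Subtype.ext (by simp; group)
      right_inv := fun u => Subtype.ext (by simp; group)
      map_mul' := fun u v => Subtype.ext (by simp [mul_assoc]) }
  have hfix : ∀ u : Q, φ u = u → u = 1 := fun u hu => Subtype.ext
    (CfsgLib.RankOneSetup.inverted_centralizer hS hk hk1 u.2
      (mul_inv_eq_iff_eq_mul.1 (congrArg Subtype.val hu)).symm)
  have hpow : ∀ (n : ℕ) (u : Q), (((φ ^ n) u : Q) : G) = k ^ n * u * (k ^ n)⁻¹ := by
    intro n
    induction n with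
    | zero => intro u; simp
    | succ n ih =>
      intro u
      rw [pow_succ', MulAut.mul_apply]
      show k * (((φ ^ n) u : Q) : G) * k⁻¹ = _
      rw [ih, pow_succ']; group
  have hφ : φ ^ q = 1 := by
    refine MulEquiv.ext fun u => Subtype.ext ?_
    rw [hpow, ← hord, pow_orderOf_eq_one]
    simp
  have hφ1 : φ ≠ 1 := by
    intro h
    have h1 := CfsgLib.RankOneSetup.one_lt_card_Q hS
    haveI := Finite.one_lt_card_iff_nontrivial.1 h1
    obtain ⟨u, hu⟩ := exists_ne (1 : Q)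
    exact hu (hfix u (by rw [h]; rfl))
  exact Cfsg.Agent.S0033.result (φ : Q ≃* Q) (fun u hu => hfix u hu) q hq (orderOf_eq_prime hφ hφ1)

end Cfsg.Agent.S1129
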