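import Cfsg.Statements.S1134
import Cfsg.Agent.RankOneSetup.Central

set_option autoImplicit false
open Cfsg

namespace Cfsg.Agent.S1134

/-- In the rank-one set-up (`G` finite and doubly transitive on `Ω`, `t` an involution moving `a`, `Q` normal in `G_a` with `G_a = Q D`, `Q ⊓ D = 1` for the two-point stabiliser `D = G_a ⊓ G_{t • a}`, `|Q|` even, `|D|` odd), with the action faithful and `G` containing two distinct commuting involutions, with `V = C_D(t)`: subsets of `V` conjugate in `G` are conjugate in `V`. -/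
theorem result {G Ω : Type*} [Group G] [Finite G] [MulAction G Ω] [FaithfulSMul G Ω] {a : Ω} {t : G} {Q : Subgroup G}
    (hS : Cfsg.IsRankOneSetup G Ω a t Q)
    (h2 : ∃ x y : G, x ≠ 1 ∧ y ≠ 1 ∧ x ≠ y ∧ x * x = 1 ∧ y * y = 1 ∧ x * y = y * x)
    (X : Set G) (hX : X ⊆ (((MulAction.stabilizer G a ⊓ MulAction.stabilizer G (t • a)) ⊓ Subgroup.centralizer {t} : Subgroup G) : Set G)) (g : G)
    (hY : (fun x => g * x * g⁻¹) '' X ⊆ (((MulAction.stabilizer G a ⊓ MulAction.stabilizer G (t • a)) ⊓ Subgroup.centralizer {t} : Subgroup G) : Set G)) :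
    ∃ v ∈ (MulAction.stabilizer G a ⊓ MulAction.stabilizer G (t • a)) ⊓ Subgroup.centralizer {t}, (fun x => v * x * v⁻¹) '' X = (fun x => g * x * g⁻¹) '' X := by
  have hV : ∀ x ∈ X, x ∈ (MulAction.stabilizer G a ⊓ MulAction.stabilizer G (t • a)) ∧ x * t = t * x := fun x hx => by
    obtain ⟨h1, h2⟩ := Subgroup.mem_inf.1 (hX hx)
    exact ⟨h1, Subgroup.mem_centralizer_singleton_iff.1 h2⟩
  have hV' : ∀ x ∈ X, g * x * g⁻¹ ∈ (MulAction.stabilizer G a ⊓ MulAction.stabilizer G (t • a)) ∧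
      (g * x * g⁻¹) * t = t * (g * x * g⁻¹) := fun x hx => by
    obtain ⟨h1, h2⟩ := Subgroup.mem_inf.1 (hY ⟨x, hx, rfl⟩)
    exact ⟨h1, Subgroup.mem_centralizer_singleton_iff.1 h2⟩
  obtain ⟨c, hc, huniq⟩ := CfsgLib.RankOneSetup.existsUnique_fixed hS hS.ne_one hS.mul_self
  have hca : c ≠ a := fun h => CfsgLib.RankOneSetup.ne_base hS (h ▸ hc)
  have hct : c ≠ t • a := fun h => CfsgLib.RankOneSetup.ne_base hS (by
    have h1 : t • c = c := hc
    rw [h, CfsgLib.RankOneSetup.swap_smul hS] at h1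
    exact h1.symm)
  have hfix : ∀ x : G, x ∈ (MulAction.stabilizer G a ⊓ MulAction.stabilizer G (t • a)) → x * t = t * x →
      x • a = a ∧ x • t • a = t • a ∧ x • c = c := fun x hx hxt =>
    ⟨(Subgroup.mem_inf.1 hx).1, (Subgroup.mem_inf.1 hx).2, huniq _ (by
      show t • x • c = x • c
      rw [← mul_smul, ← hxt, mul_smul, show t • c = c from hc])⟩
  -- move the base points back
  obtain ⟨y, hy, hy1, hy2⟩ := CfsgLib.RankOneSetup.centralizer_two_trans hS (X := (fun x => g * x * g⁻¹) '' X)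
    ⟨a, t • a, c, (CfsgLib.RankOneSetup.ne_base hS).symm, hca.symm, hct.symm, by
      rintro _ ⟨x, hx, rfl⟩; exact hfix _ (hV' x hx).1 (hV' x hx).2⟩
    (b₁ := g • a) (b₂ := g • t • a) (c₁ := a) (c₂ := t • a) (by
      rintro _ ⟨x, hx, rfl⟩
      obtain ⟨h1, h2, -⟩ := hfix x (hV x hx).1 (hV x hx).2
      obtain ⟨h3, h4, -⟩ := hfix _ (hV' x hx).1 (hV' x hx).2
      exact ⟨by rw [mul_smul, mul_smul, inv_smul_smul, h1], by rw [mul_smul, mul_smul, inv_smul_smul, h2], h3, h4⟩)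
    (fun h => CfsgLib.RankOneSetup.ne_base hS (MulAction.injective g h).symm) (CfsgLib.RankOneSetup.ne_base hS).symm
  have hd : y * g ∈ (MulAction.stabilizer G a ⊓ MulAction.stabilizer G (t • a)) := Subgroup.mem_inf.2
    ⟨by rw [MulAction.mem_stabilizer_iff, mul_smul, hy1], by rw [MulAction.mem_stabilizer_iff, mul_smul, hy2]⟩
  obtain ⟨v, k, hv, hvt, hk, hvk⟩ :=
    CfsgLib.RankOneSetup.exists_split hS.mul_self hS.odd_card (fun x hx => CfsgLib.RankOneSetup.t_conj_mem_D hS hx) hd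
  refine ⟨v, Subgroup.mem_inf.2 ⟨hv, Subgroup.mem_centralizer_singleton_iff.2 hvt⟩, ?_⟩
  refine Set.image_congr fun x hx => ?_
  have hyx : y * g * x * (y * g)⁻¹ = g * x * g⁻¹ := by
    calc y * g * x * (y * g)⁻¹ = y * (g * x * g⁻¹) * y⁻¹ := by group
      _ = g * x * g⁻¹ := by rw [← Subgroup.mem_centralizer_iff.1 hy _ ⟨x, hx, rfl⟩, mul_inv_cancel_right]
  rw [hvk] at hyx
  have htx : t * x * t⁻¹ = x := mul_inv_eq_iff_eq_mul.2 (hV x hx).2.symm
  have htv : t * v * t⁻¹ = v := mul_inv_eq_iff_eq_mul.2 hvt.symm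
  have htg : t * (g * x * g⁻¹) * t⁻¹ = g * x * g⁻¹ := mul_inv_eq_iff_eq_mul.2 (hV' x hx).2.symm
  have h3 : k⁻¹ * x * k = k * x * k⁻¹ := by
    calc k⁻¹ * x * k = (t * k * t⁻¹) * (t * x * t⁻¹) * (t * k * t⁻¹)⁻¹ := by rw [hk.2, htx, inv_inv]
      _ = t * (v⁻¹ * (v * k * x * (v * k)⁻¹) * v) * t⁻¹ := by group
      _ = (t * v * t⁻¹)⁻¹ * (t * (g * x * g⁻¹) * t⁻¹) * (t * v * t⁻¹) := by rw [hyx]; group
      _ = v⁻¹ * (v * k * x * (v * k)⁻¹) * v := by rw [htv, htg, hyx]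
      _ = k * x * k⁻¹ := by group
  have h4 : Commute x (k * k) := by
    calc x * (k * k) = k * (k⁻¹ * x * k) * k := by group
      _ = k * k * x := by rw [h3]; group
  have h5 := h4.pow_right ((Nat.card ↥(MulAction.stabilizer G a ⊓ MulAction.stabilizer G (t • a)) + 1) / 2)
  rw [(Commute.refl k).mul_pow, CfsgLib.RankOneSetup.pow_half_sq hS.odd_card hk.1] at h5
  show v * x * v⁻¹ = g * x * g⁻¹
  rw [← hyx]
  calc v * x * v⁻¹ = v * (x * k * k⁻¹) * v⁻¹ := by group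
    _ = v * (k * x * k⁻¹) * v⁻¹ := by rw [h5.eq]
    _ = v * k * x * (v * k)⁻¹ := by group

end Cfsg.Agent.S1134
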