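import Cfsg.Statements.S1135
import Cfsg.Agent.RankOneSetup.Central

set_option autoImplicit false
open Cfsg

namespace Cfsg.Agent.S1135

/-- In the rank-one set-up (`G` finite and doubly transitive on `Ω`, `t` an involution moving `a`, `Q` normal in `G_a` with `G_a = Q D`, `Q ⊓ D = 1` for the two-point stabiliser `D = G_a ⊓ G_{t • a}`, `|Q|` even, `|D|` odd), with the action faithful and `G` containing two distinct commuting involutions: if `x = u v` with `u, v` involutions and `x² ≠ 1`, then `x` is conjugate to `u' t` for some involution `u'` of `G_a`, and `|C_G(x)|` is odd. -/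
theorem result {G Ω : Type*} [Group G] [Finite G] [MulAction G Ω] [FaithfulSMul G Ω] {a : Ω} {t : G} {Q : Subgroup G}
    (hS : Cfsg.IsRankOneSetup G Ω a t Q)
    (h2 : ∃ x y : G, x ≠ 1 ∧ y ≠ 1 ∧ x ≠ y ∧ x * x = 1 ∧ y * y = 1 ∧ x * y = y * x)
    (u v : G) (hu1 : u ≠ 1) (hu2 : u * u = 1) (hv1 : v ≠ 1) (hv2 : v * v = 1) (hx : (u * v) * (u * v) ≠ 1) :
    (∃ g : G, ∃ u' ∈ Cfsg.involutionsIn (MulAction.stabilizer G a : Set G), g * (u * v) * g⁻¹ = u' * t) ∧
      Odd (Nat.card ↥(Subgroup.centralizer {u * v})) := by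
  obtain ⟨p, hp, -⟩ := CfsgLib.RankOneSetup.existsUnique_fixed hS hu1 hu2
  obtain ⟨g, hg⟩ := isConj_iff.1 (CfsgLib.RankOneSetup.isConj_t hS hv1 hv2).symm
  obtain ⟨c, hc, -⟩ := CfsgLib.RankOneSetup.existsUnique_fixed hS hS.ne_one hS.mul_self
  set u₁ := g * u * g⁻¹ with hu₁
  have hu₁1 : u₁ ≠ 1 := fun h => hu1 (conj_eq_one_iff.1 h)
  have hu₁2 : u₁ * u₁ = 1 := by rw [hu₁, show g * u * g⁻¹ * (g * u * g⁻¹) = g * (u * u) * g⁻¹ by group, hu2]; group
  have hu₁p : u₁ • g • p = g • p := by rw [hu₁, mul_smul, mul_smul, inv_smul_smul, hp]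
  have hx₁ : (u₁ * t) * (u₁ * t) ≠ 1 := by
    rw [← hg, hu₁, show g * u * g⁻¹ * (g * v * g⁻¹) * (g * u * g⁻¹ * (g * v * g⁻¹)) = g * (u * v * (u * v)) * g⁻¹ by group]
    exact fun h => hx (conj_eq_one_iff.1 h)
  have hgp : g • p ≠ c := by
    intro he
    apply hx₁
    haveI := CfsgLib.RankOneSetup.pretrans hS
    obtain ⟨h, hh⟩ := MulAction.exists_smul_eq G c a
    have hmem : ∀ w : G, w ≠ 1 → w * w = 1 → w • c = c → h * w * h⁻¹ ∈ Cfsg.involutionsIn (MulAction.stabilizer G a : Set G) := by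
      intro w hw1 hw2 hwc
      refine ⟨?_, fun e => hw1 (conj_eq_one_iff.1 e), ?_⟩
      · show (h * w * h⁻¹) • a = a
        rw [← hh, mul_smul, mul_smul, inv_smul_smul, hwc]
      · rw [show h * w * h⁻¹ * (h * w * h⁻¹) = h * (w * w) * h⁻¹ by group, hw2]; group
    have hcomm : u₁ * t = t * u₁ := (MulAut.conj h).injective (by
      have := CfsgLib.RankOneSetup.Inv_commute hS (hmem u₁ hu₁1 hu₁2 (he ▸ hu₁p)) (hmem t hS.ne_one hS.mul_self hc)
      simpa [mul_assoc] using this)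
    rw [mul_assoc, ← mul_assoc t, ← hcomm, mul_assoc u₁ t t, hS.mul_self, mul_one, hu₁2]
  have hca : a ≠ c := fun h => CfsgLib.RankOneSetup.ne_base hS (h ▸ hc)
  obtain ⟨y, hy, hyp⟩ := CfsgLib.RankOneSetup.exists_centralizer_move hS hS.ne_one hS.mul_self hc hgp hca
  set u' := y * u₁ * y⁻¹ with hu'
  have hu'mem : u' ∈ Cfsg.involutionsIn (MulAction.stabilizer G a : Set G) := by
    refine ⟨?_, fun e => hu₁1 (conj_eq_one_iff.1 e), ?_⟩
    · show u' • a = a
      rw [hu', ← hyp, mul_smul, mul_smul, inv_smul_smul, hu₁p]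
    · rw [hu', show y * u₁ * y⁻¹ * (y * u₁ * y⁻¹) = y * (u₁ * u₁) * y⁻¹ by group, hu₁2]; group
  have hconj : (y * g) * (u * v) * (y * g)⁻¹ = u' * t := by
    calc (y * g) * (u * v) * (y * g)⁻¹ = y * (g * u * g⁻¹) * y⁻¹ * (y * (g * v * g⁻¹) * y⁻¹) := by group
      _ = u' * t := by rw [hg, hy, mul_inv_cancel_right]
  refine ⟨⟨y * g, u', hu'mem, hconj⟩, ?_⟩
  by_contra hodd
  haveI : Fact (Nat.Prime 2) := ⟨Nat.prime_two⟩
  obtain ⟨⟨i, hi⟩, hio⟩ := exists_prime_orderOf_dvd_card' (G := ↥(Subgroup.centralizer {u * v})) 2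
    (even_iff_two_dvd.1 (Nat.not_odd_iff_even.1 hodd))
  rw [Subgroup.orderOf_mk] at hio
  rw [Subgroup.mem_centralizer_singleton_iff] at hi
  -- an involution `j` centralising `x = u' t`
  set x := u' * t with hxdef
  set j := (y * g) * i * (y * g)⁻¹ with hjdef
  have hjx : j * x = x * j := by
    rw [← hconj, hjdef]
    calc y * g * i * (y * g)⁻¹ * (y * g * (u * v) * (y * g)⁻¹) = y * g * (i * (u * v)) * (y * g)⁻¹ := by group
      _ = y * g * ((u * v) * i) * (y * g)⁻¹ := by rw [hi]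
      _ = y * g * (u * v) * (y * g)⁻¹ * (y * g * i * (y * g)⁻¹) := by group
  have hj1 : j ≠ 1 := fun h => CfsgLib.Invol.ne_one_of_orderOf hio (conj_eq_one_iff.1 h)
  have hj2 : j * j = 1 := by
    rw [hjdef, show y * g * i * (y * g)⁻¹ * (y * g * i * (y * g)⁻¹) = y * g * (i * i) * (y * g)⁻¹ by group,
      CfsgLib.Invol.mul_self_of_orderOf hio]
    group
  obtain ⟨q, hq, hquniq⟩ := CfsgLib.RankOneSetup.existsUnique_fixed hS hj1 hj2
  have hxq : x • q = q := hquniq _ (by show j • x • q = x • q; rw [← mul_smul, hjx, mul_smul, hq])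
  have hu'a : u' • a = a := hu'mem.1
  have hu'2 : u' * u' = 1 := hu'mem.2.2
  set q' := u' • q with hq'
  have hu'x : u' * x⁻¹ = x * u' := by
    rw [hxdef, mul_inv_rev, inv_eq_of_mul_eq_one_left hu'2, CfsgLib.RankOneSetup.inv_t hS, ← mul_assoc]
  have hxq' : x • q' = q' := by
    rw [hq', ← mul_smul, ← hu'x, mul_smul, inv_smul_eq_iff.2 hxq.symm]
  have hqq' : q' ≠ q := by
    intro he
    have hqa : q = a := CfsgLib.RankOneSetup.involution_fixed_unique hS hu'a hu'mem.2.1 hu'2 he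
    rw [hqa, hxdef, mul_smul] at hxq
    exact CfsgLib.RankOneSetup.ne_base hS (MulAction.injective u' (hxq.trans hu'a.symm))
  have hjq' : j • q' ≠ q' := fun he => hqq' (hquniq _ he)
  have hxjq' : x • j • q' = j • q' := by rw [← mul_smul, ← hjx, mul_smul, hxq']
  have hjqq : j • q' ≠ q := fun he => hqq' (MulAction.injective j (he.trans hq.symm))
  obtain ⟨h, hha, hht⟩ := CfsgLib.RankOneSetup.two_trans hS (b' := a) (c' := t • a) hqq'.symm (CfsgLib.RankOneSetup.ne_base hS).symm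
  set x' := h * x * h⁻¹ with hx'
  set w := h * u' * h⁻¹ with hw
  have hu'q' : u' • q' = q := by rw [hq', smul_smul, hu'2, one_smul]
  have hwa : w • a = t • a := by rw [hw, ← hha, mul_smul, mul_smul, inv_smul_smul, hha, ← hq', hht]
  have hwt : w • t • a = a := by rw [hw, ← hht, mul_smul, mul_smul, inv_smul_smul, hu'q', hha]
  have hww : w * w = 1 := by rw [hw, show h * u' * h⁻¹ * (h * u' * h⁻¹) = h * (u' * u') * h⁻¹ by group, hu'2]; group
  have hwx : w * x' * w⁻¹ = x'⁻¹ := by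
    rw [hw, hx']
    calc h * u' * h⁻¹ * (h * x * h⁻¹) * (h * u' * h⁻¹)⁻¹ = h * (u' * x * u'⁻¹) * h⁻¹ := by group
      _ = h * x⁻¹ * h⁻¹ := by
        rw [hxdef, inv_eq_of_mul_eq_one_left hu'2, mul_inv_rev, inv_eq_of_mul_eq_one_left hu'2,
          CfsgLib.RankOneSetup.inv_t hS, ← mul_assoc u' u' t, hu'2, one_mul]
      _ = (h * x * h⁻¹)⁻¹ := by group
  have hx'D : x' ∈ MulAction.stabilizer G a ⊓ MulAction.stabilizer G (t • a) := Subgroup.mem_inf.2
    ⟨by rw [MulAction.mem_stabilizer_iff, hx', ← hha, mul_smul, mul_smul, inv_smul_smul, hxq],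
     by rw [MulAction.mem_stabilizer_iff, hx', ← hht, mul_smul, mul_smul, inv_smul_smul, hxq']⟩
  have htw : t * w ∈ Cfsg.invertedBy (MulAction.stabilizer G a ⊓ MulAction.stabilizer G (t • a)) t := by
    refine ⟨Subgroup.mem_inf.2 ⟨?_, ?_⟩, ?_⟩
    · show (t * w) • a = a
      rw [mul_smul, hwa, CfsgLib.RankOneSetup.swap_smul hS]
    · show (t * w) • t • a = t • a
      rw [mul_smul, hwt]
    · rw [CfsgLib.RankOneSetup.inv_t hS, mul_inv_rev, inv_eq_of_mul_eq_one_left hww, CfsgLib.RankOneSetup.inv_t hS,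
        ← mul_assoc, hS.mul_self, one_mul]
  set e := (t * w) ^ ((Nat.card ↥(MulAction.stabilizer G a ⊓ MulAction.stabilizer G (t • a)) + 1) / 2) with hedef
  have hei := CfsgLib.RankOneSetup.inverted_pow htw
    ((Nat.card ↥(MulAction.stabilizer G a ⊓ MulAction.stabilizer G (t • a)) + 1) / 2)
  rw [← hedef] at hei
  have hee : e * e = t * w := CfsgLib.RankOneSetup.pow_half_sq hS.odd_card htw.1
  have hwe : e * w * e⁻¹ = t := by
    calc e * w * e⁻¹ = e * (t * (t * w)) * e⁻¹ := by rw [CfsgLib.RankOneSetup.tt_cancel hS]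
      _ = e * (t * (e * e)) * e⁻¹ := by rw [hee]
      _ = e * (t * e * t⁻¹) * t := by group
      _ = t := by rw [hei.2, mul_inv_cancel, one_mul]
  obtain ⟨hea, het⟩ := Subgroup.mem_inf.1 hei.1
  have hk : e * x' * e⁻¹ ∈ Cfsg.invertedBy (MulAction.stabilizer G a ⊓ MulAction.stabilizer G (t • a)) t := by
    refine ⟨mul_mem (mul_mem hei.1 hx'D) (inv_mem hei.1), ?_⟩
    calc t * (e * x' * e⁻¹) * t⁻¹ = (e * w * e⁻¹) * (e * x' * e⁻¹) * (e * w * e⁻¹)⁻¹ := by rw [hwe]
      _ = e * (w * x' * w⁻¹) * e⁻¹ := by group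
      _ = (e * x' * e⁻¹)⁻¹ := by rw [hwx]; group
  have hk1 : e * x' * e⁻¹ ≠ 1 := by
    intro e1
    have h2 : x = 1 := conj_eq_one_iff.1 (conj_eq_one_iff.1 e1)
    apply hx
    have h3 : u * v = 1 := conj_eq_one_iff.1 (hconj.trans h2)
    rw [h3, mul_one]
  have hkfix : (e * x' * e⁻¹) • e • h • j • q' = e • h • j • q' := by
    rw [hx', mul_smul, mul_smul, inv_smul_smul, mul_smul, mul_smul, inv_smul_smul, hxjq']
  rcases CfsgLib.RankOneSetup.inverted_fixed hS hk hk1 hkfix with hcase | hcase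
  · rw [← show e • a = a from hea] at hcase
    exact hjqq (MulAction.injective h ((MulAction.injective e hcase).trans hha.symm))
  · rw [← show e • t • a = t • a from het] at hcase
    exact hjq' (MulAction.injective h ((MulAction.injective e hcase).trans hht.symm))

end Cfsg.Agent.S1135
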