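import Cfsg.Statements.S1137
import Cfsg.Agent.SuzukiTwo.Higman

set_option autoImplicit false
open Cfsg

namespace Cfsg.Agent.S1137

/-- In a Suzuki 2-group `P` (a finite non-abelian 2-group with more than one involution admitting a cyclic group of automorphisms regular on its involutions) the involutions are exactly the non-identity central elements, and `Z(P)` is elementary abelian. -/
theorem result {P : Type*} [Group P] (hP : Cfsg.IsSuzukiTwoGroup P) :
    (∀ x : P, (x ≠ 1 ∧ x * x = 1) ↔ (x ∈ Subgroup.center P ∧ x ≠ 1)) ∧
      ∀ z ∈ Subgroup.center P, z * z = 1 := by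
  obtain ⟨D⟩ := CfsgLib.SuzukiTwo.exists_sdata hP
  constructor
  · intro x
    constructor
    · rintro ⟨hx, hx2⟩
      exact ⟨D.mem_center_of_sq (by rw [pow_two]; exact hx2), hx⟩
    · rintro ⟨hx, hx1⟩
      exact ⟨hx1, by rw [← pow_two]; exact D.center_sq hx⟩
  · intro z hz
    rw [← pow_two]
    exact D.center_sq hz

end Cfsg.Agent.S1137
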