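import Cfsg.Statements.S1140
import Mathlib

set_option autoImplicit false
open Cfsg

namespace Cfsg.Agent.S1140

/-- For a finite field `F` of characteristic 2, the automorphisms of `F`, viewed as additive maps `F → F`, are linearly independent over `F` (acting on values) every additive endomorphism of `F` is an `F`-linear combination of them, and every biadditive map `F → F → F` is an `F`-combination of the maps `(x, y) ↦ σ(x) τ(y)`. -/
theorem result {F : Type*} [Field F] [Fintype F] [CharP F 2] :
    LinearIndependent F (fun σ : F ≃+* F => ((σ : F →+* F) : F → F)) ∧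
      (∀ f : F →+ F, ∃ (s : Finset (F ≃+* F)) (c : (F ≃+* F) → F), ∀ x : F, f x = ∑ σ ∈ s, c σ * σ x) ∧
      ∀ B : F →+ F →+ F, ∃ (s : Finset ((F ≃+* F) × (F ≃+* F))) (c : (F ≃+* F) × (F ≃+* F) → F),
        ∀ x y : F, B x y = ∑ p ∈ s, c p * (p.1 x * p.2 y) := by
  classical
  letI : Algebra (ZMod 2) F := ZMod.algebra F 2
  haveI : Fact (Nat.Prime 2) := ⟨Nat.prime_two⟩
  letI : Fintype (F ≃+* F) := Fintype.ofInjective (fun σ => (σ : F → F)) DFunLike.coe_injective
  have htr : ∀ x : F, algebraMap (ZMod 2) F (Algebra.trace (ZMod 2) F x) = ∑ σ : F ≃+* F, σ x := by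
    intro x
    rw [trace_eq_sum_automorphisms]
    refine Fintype.sum_bijective (fun σ : F ≃ₐ[ZMod 2] F => σ.toRingEquiv) ⟨?_, ?_⟩ _ _ fun σ => rfl
    · intro a b h
      exact AlgEquiv.ext fun y => RingEquiv.congr_fun h y
    · intro σ
      exact ⟨AlgEquiv.ofRingEquiv (f := σ) fun r =>
        RingHom.congr_fun (Subsingleton.elim ((σ : F →+* F).comp (algebraMap (ZMod 2) F)) (algebraMap (ZMod 2) F)) r,
        RingEquiv.ext fun y => rfl⟩
  set B := Algebra.traceForm (ZMod 2) F
  have hB : B.Nondegenerate := traceForm_nondegenerate (ZMod 2) F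
  let bas := Module.finBasis (ZMod 2) F
  let cc : Fin (Module.finrank (ZMod 2) F) → F := fun j => (B.toDual hB).symm (bas.coord j)
  have hcoord : ∀ j x, algebraMap (ZMod 2) F (bas.repr x j) = ∑ σ : F ≃+* F, σ (cc j) * σ x := by
    intro j x
    have h1 : B (cc j) x = bas.coord j x := LinearMap.BilinForm.apply_toDual_symm_apply (hB := hB) (bas.coord j) x
    rw [Module.Basis.coord_apply] at h1
    rw [← h1, show B (cc j) x = Algebra.trace (ZMod 2) F (cc j * x) from Algebra.traceForm_apply (ZMod 2) (cc j) x, htr]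
    exact Finset.sum_congr rfl fun σ _ => map_mul σ _ _
  have hone : ∀ f : F →+ F, ∀ x : F, f x = ∑ σ : F ≃+* F, (∑ j, f (bas j) * σ (cc j)) * σ x := by
    intro f x
    conv_lhs => rw [← bas.sum_repr x]
    have hf : ∀ (r : ZMod 2) (y : F), f (r • y) = r • f y := fun r y => ZMod.map_smul f r y
    simp only [map_sum, hf]
    simp only [Algebra.smul_def, hcoord, Finset.sum_mul]
    rw [Finset.sum_comm]
    exact Finset.sum_congr rfl fun σ _ => Finset.sum_congr rfl fun j _ => by ring
  refine ⟨?_, fun f => ⟨Finset.univ, fun σ => ∑ j, f (bas j) * σ (cc j), hone f⟩, fun C => ?_⟩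
  · exact (linearIndependent_monoidHom F F).comp (fun σ : F ≃+* F => ((σ : F →+* F) : F →* F))
      fun a b h => RingEquiv.ext fun y => DFunLike.congr_fun h y
  · refine ⟨Finset.univ, fun q => ∑ j, (∑ i, C (bas i) (bas j) * q.1 (cc i)) * q.2 (cc j), fun x y => ?_⟩
    rw [hone (C x) y, Fintype.sum_prod_type, Finset.sum_comm]
    refine Finset.sum_congr rfl fun τ _ => ?_
    simp only [Finset.sum_mul]
    rw [Finset.sum_comm]
    refine Finset.sum_congr rfl fun j _ => ?_
    rw [show C x (bas j) = ∑ σ : F ≃+* F, (∑ i, C (bas i) (bas j) * σ (cc i)) * σ x from hone (C.flip (bas j)) x]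
    simp only [Finset.sum_mul]
    refine Finset.sum_congr rfl fun σ _ => Finset.sum_congr rfl fun i _ => by ring


end Cfsg.Agent.S1140
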