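import Cfsg.Statements.S1142
-- import your own Cfsg.Agent.* helpers here
import Cfsg.Agent.FeitHigman.Hecke

set_option autoImplicit false
open Cfsg

namespace Cfsg.Agent.S1142

/-- Feit–Higman: if a finite group has a (B,N)-pair of rank 2, its Weyl group `N/(B ⊓ N)` has order 4, 6, 8, 12 or 16. -/
theorem result {G : Type*} [Group G] [Finite G] (P : Cfsg.BNPair G)
    (h2 : P.rank = 2) :
    ((P.B ⊓ P.N).subgroupOf P.N).index ∈ ({4, 6, 8, 12, 16} : Set ℕ) := by
  exact CfsgLib.FeitHigman.index_of_rank_two P h2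

end Cfsg.Agent.S1142
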