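import Cfsg.Statements.S1151
import Cfsg.Agent.Chev.Ree.Results

set_option autoImplicit false
open Cfsg

namespace Cfsg.Agent.S1151

/-- In the small Ree group ²G₂(q), q = 3^(2m+1), realised as G¹ inside the Chevalley group G₂ over the field with q elements (θ the 3^m-th power map), with H¹ = G¹ ∩ H and U¹ = G¹ ∩ U the intersections with the ambient diagonal and positive unipotent subgroups: `H¹` has exactly `(q - 1)/2` elements of odd order, and each non-identity one centralises no non-identity element of `U¹`. -/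
theorem result {K : Type*} [Field K] [Fintype K] {m : ℕ} (hK : Fintype.card K = 3 ^ (2 * m + 1)) :
    2 * Nat.card {h : ↥(Cfsg.Lie.chevG2.diagonalSubgroup K ⊓ Cfsg.Lie.twistedG2 K (3 ^ m)) // Odd (orderOf h)} = 3 ^ (2 * m + 1) - 1 ∧
      ∀ h ∈ (Cfsg.Lie.chevG2.diagonalSubgroup K ⊓ Cfsg.Lie.twistedG2 K (3 ^ m)), h ≠ 1 → Odd (orderOf h) →
        (Cfsg.Lie.chevG2.posUnipotent K ⊓ Cfsg.Lie.twistedG2 K (3 ^ m)) ⊓ Subgroup.centralizer {h} = ⊥ := by
  haveI := CfsgLib.Chev.Ree.charP_three hK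
  have hK' : Nat.card K = 3 ^ (2 * m + 1) := by rw [Nat.card_eq_fintype_card, hK]
  rw [CfsgLib.Chev.Ree.diag_inf_eq m hK']
  set e := CfsgLib.Chev.Ree.torus K m hK' with he
  set k := (3 ^ (2 * m + 1) - 1) / 2 with hk
  have hc9 : 3 ^ (2 * m + 1) % 4 = 3 := by rw [pow_succ, pow_mul]; norm_num [Nat.mul_mod, Nat.pow_mod]
  have hk2 : 3 ^ (2 * m + 1) - 1 = 2 * k := by omega
  have hkodd : Odd k := Nat.odd_iff.2 (by omega)
  have hpow : ∀ c : Kˣ, Odd (orderOf c) ↔ c ^ k = 1 := by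
    intro c
    constructor
    · intro h
      have hd : orderOf c ∣ 2 * k := by
        rw [← hk2, ← hK', ← Nat.card_units]; exact orderOf_dvd_natCard c
      exact orderOf_dvd_iff_pow_eq_one.1 ((Nat.coprime_two_right.2 h).dvd_of_dvd_mul_left hd)
    · exact fun h => hkodd.of_dvd_nat (orderOf_dvd_of_pow_eq_one h)
  refine ⟨?_, fun h hh hne hodd => ?_⟩
  · have hcard : Nat.card {h : ↥(CfsgLib.Chev.Ree.H1 K m) // Odd (orderOf h)} =
        Nat.card (powMonoidHom k : Kˣ →* Kˣ).ker := by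
      refine Nat.card_congr (e.symm.toEquiv.subtypeEquiv fun x => ?_)
      rw [MonoidHom.mem_ker, powMonoidHom_apply, MulEquiv.toEquiv_eq_coe, MulEquiv.coe_toEquiv, ← hpow,
        MulEquiv.orderOf_eq]
    rw [hcard, IsCyclic.card_powMonoidHom_ker, Nat.card_units, hK', hk2, Nat.gcd_eq_right (dvd_mul_left k 2)]
  · obtain ⟨z, rfl⟩ := CfsgLib.Chev.Ree.SG.exists_dg (Subgroup.mem_inf.1 hh).1
    have hz1 := CfsgLib.Chev.Ree.coord_eq m hK' hh
    have hz0 : (z 0) ^ k = 1 := by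
      refine (hpow _).1 ?_
      have hez : e (z 0) = ⟨CfsgLib.Chev.Ree.SG.dg z, hh⟩ := Subtype.ext
        (CfsgLib.Chev.Ree.dg_eq_of_coord m hK' (CfsgLib.Chev.Ree.exists_coord m hK' (z 0)).choose_spec.2.1 hh
          (CfsgLib.Chev.Ree.exists_coord m hK' (z 0)).choose_spec.1)
      rw [← MulEquiv.orderOf_eq e, hez, Subgroup.orderOf_mk]
      exact hodd
    have hne0 : z 0 ≠ 1 := fun h => hne (by
      rw [CfsgLib.Chev.Ree.dg_eq_of_coord m hK' hh (z' := 1) (by rw [show CfsgLib.Chev.Ree.SG.dg (1 : ℕ → Kˣ) = 1 from map_one CfsgLib.Chev.Ree.SG.dgHom]; exact one_mem _) h]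
      exact map_one CfsgLib.Chev.Ree.SG.dgHom)
    have hq : (z 0) ^ (3 * 3 ^ m * 3 ^ m) = z 0 := by
      rw [show 3 * 3 ^ m * 3 ^ m = 3 ^ (2 * m + 1) by ring, ← hK']
      conv_lhs => rw [show Nat.card K = Nat.card Kˣ + 1 by rw [Nat.card_units]; have := Nat.card_pos (α := K); omega]
      rw [pow_succ, pow_card_eq_one', one_mul]
    have hsq : z 0 ^ 2 ≠ 1 := fun h => hne0 (by
      obtain ⟨j, hj⟩ := hkodd
      rw [hj, pow_succ, pow_mul, h, one_pow, one_mul] at hz0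
      exact hz0)
    set c := z 0 with hc
    set P := c ^ (3 * 3 ^ m) with hP
    have hPθ : P ^ (3 ^ m) = c := by rw [hP, ← pow_mul]; exact hq
    have h3 : (c ^ 3) ^ (3 ^ m) = P := by rw [hP, ← pow_mul]
    have hz1' : z 1 = P := Units.ext (by rw [hP, Units.val_pow_eq_pow_val]; exact hz1)
    have hχ6 : P ≠ 1 := fun h => hne0 (by rw [← hPθ, h, one_pow])
    have hχ10 : c ^ 3 * P ≠ 1 := fun h => hsq (by
      have h2 : P * c = 1 := by rw [← h3]; nth_rw 2 [← hPθ]; rw [← mul_pow, h, one_pow]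
      rw [pow_succ, mul_assoc, mul_comm c P, h2, mul_one] at h
      exact h)
    have hχ11 : c ^ 3 * P ^ 2 ≠ 1 := fun h => hne0 (by
      have h2 : P * c ^ 2 = 1 := by
        have h6 := congrArg (fun x => x ^ (3 ^ m)) h
        simp only [mul_pow, one_pow] at h6
        rwa [h3, pow_right_comm, hPθ] at h6
      have h4 : P = (c ^ 2)⁻¹ := eq_inv_of_mul_eq_one_left h2
      rw [h4] at h
      have h5 : c ^ 3 * ((c ^ 2)⁻¹) ^ 2 = c⁻¹ := by group
      rwa [h5, inv_eq_one] at h)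
    refine (Subgroup.eq_bot_iff_forall _).2 fun x hx => ?_
    obtain ⟨hx1, hx2⟩ := Subgroup.mem_inf.1 hx
    obtain ⟨t, u, v, rfl⟩ := (CfsgLib.Chev.Ree.mem_pos_inf m hK').1 hx1
    have hcom : CfsgLib.Chev.Ree.SG.dg z * CfsgLib.Chev.Ree.WR m t u v * (CfsgLib.Chev.Ree.SG.dg z)⁻¹ =
        CfsgLib.Chev.Ree.WR m t u v := by
      rw [← Subgroup.mem_centralizer_singleton_iff.1 hx2, mul_inv_cancel_right]
    rw [CfsgLib.Chev.Ree.torus_conj_WR m hK' hh, CfsgLib.Chev.Ree.chi6, CfsgLib.Chev.Ree.chi10,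
      CfsgLib.Chev.Ree.chi11, hz1'] at hcom
    obtain ⟨e1, e2, e3⟩ := CfsgLib.Chev.Ree.WR_inj m hcom
    have key : ∀ (a : Kˣ) (x : K), a ≠ 1 → (a : K) * x = x → x = 0 := fun a x ha hx => by
      by_contra hx0
      exact ha (Units.ext (mul_eq_right₀ hx0 |>.1 hx))
    rw [key _ t hχ6 e1, key _ u hχ10 e2, key _ v hχ11 e3, CfsgLib.Chev.Ree.WR_zero]

end Cfsg.Agent.S1151
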