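import Cfsg.Statements.S1160
import Cfsg.Agent.S0126
import Cfsg.Agent.PReduced.Hom
import Cfsg.Agent.QDWr.LocalIndex

set_option autoImplicit false
open Cfsg

namespace Cfsg.Agent.S1160

variable {P E : Type*} [Group P] [AddCommGroup E] [DistribMulAction P E]

/-- The sum over the powers of `b`. -/
def tsum (p : ℕ) (b : P) (x : E) : E := ∑ i ∈ Finset.range p, (b ^ i) • x

theorem tsum_add (p : ℕ) (b : P) (x y : E) : tsum p b (x + y) = tsum p b x + tsum p b y := by
  simp [tsum, smul_add, Finset.sum_add_distrib]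

theorem tsum_of_fixed (p : ℕ) {b : P} {x : E} (h : b • x = x) : tsum p b x = p • x := by
  have key : ∀ i : ℕ, b ^ i • x = x := by
    intro i
    induction i with
    | zero => rw [pow_zero, one_smul]
    | succ i ih => rw [pow_succ, mul_smul, h, ih]
  simp [tsum, key]

theorem smul_tsum {p : ℕ} {b : P} (hb : b ^ p = 1) (x : E) : b • tsum p b x = tsum p b x := by
  have h1 := Finset.sum_range_succ (fun i => (b ^ i) • x) p
  have h2 := Finset.sum_range_succ' (fun i => (b ^ i) • x) p
  rw [hb, one_smul] at h1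
  rw [pow_zero, one_smul, h1] at h2
  calc b • tsum p b x = ∑ i ∈ Finset.range p, b ^ (i + 1) • x := by
        rw [tsum, Finset.smul_sum]; exact Finset.sum_congr rfl fun i _ => by rw [pow_succ', mul_smul]
    _ = tsum p b x := (add_right_cancel h2).symm

theorem smul_tsum_of_commute {p : ℕ} {b h : P} (hc : Commute h b) (x : E) :
    h • tsum p b x = tsum p b (h • x) := by
  rw [tsum, tsum, Finset.smul_sum]
  exact Finset.sum_congr rfl fun i _ => by rw [← mul_smul, ← mul_smul, (hc.pow_right i).eq]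

theorem smul_nsmul' (h : P) (n : ℕ) (x : E) : h • (n • x) = n • (h • x) :=
  map_nsmul (DistribSMul.toAddMonoidHom E h) n x

theorem eq_zero_of_nsmul {p q : ℕ} (hpq : p.Coprime q) (hE : ∀ e : E, q • e = 0) {x : E} (h : p • x = 0) :
    x = 0 := by
  rw [← AddMonoid.addOrderOf_eq_one_iff, ← Nat.dvd_one]
  rw [← hpq.gcd_eq_one]
  exact Nat.dvd_gcd (addOrderOf_dvd_of_nsmul_eq_zero h) (addOrderOf_dvd_of_nsmul_eq_zero (hE x))

theorem fix_zpowers [Finite P] {p : ℕ} [hp : Fact p.Prime] (hP : IsPGroup p P) {y h : P} (hy : orderOf y = p)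
    (hh : h * y * h⁻¹ ∈ Subgroup.zpowers y) : h * y * h⁻¹ = y := by
  set A := Subgroup.zpowers y with hA
  have hn : h ∈ Subgroup.normalizer (A : Set P) := CfsgLib.QDWr.conj_mem_normalizer fun u hu => by
    obtain ⟨i, rfl⟩ := Subgroup.mem_zpowers_iff.1 hu
    rw [← conj_zpow]
    exact A.zpow_mem hh i
  set φ := A.normalizerMonoidHom ⟨h, hn⟩
  obtain ⟨k, hk⟩ := IsPGroup.iff_orderOf.1 hP h
  have h1 : orderOf φ ∣ p ^ k := by
    rw [← hk]
    have := orderOf_map_dvd A.normalizerMonoidHom (⟨h, hn⟩ : Subgroup.normalizer (A : Set P))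
    rwa [Subgroup.orderOf_mk] at this
  have h2 : orderOf φ ∣ p - 1 := by
    refine (orderOf_dvd_natCard φ).trans ?_
    rw [IsCyclic.card_mulAut, hA, Nat.card_zpowers, hy, Nat.totient_prime hp.out]
  have hcop : (p ^ k).Coprime (p - 1) := Nat.Coprime.pow_left k ((Nat.Prime.coprime_iff_not_dvd hp.out).2 fun hd => by
    have h3 := Nat.le_of_dvd (Nat.sub_pos_of_lt hp.out.one_lt) hd
    have h4 := hp.out.two_le
    omega)
  have h3 : φ = 1 := orderOf_eq_one_iff.1 (Nat.eq_one_of_dvd_coprimes hcop h1 h2)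
  have h4 : φ ⟨y, Subgroup.mem_zpowers y⟩ = ⟨y, Subgroup.mem_zpowers y⟩ := by rw [h3]; rfl
  exact congrArg Subtype.val h4


/-- Let `p ≠ 2` be prime and `P` a finite `p`-group acting faithfully by additive automorphisms on a finite elementary abelian `q`-group `E` (`q` prime), such that `|P_a|` is the same for all `a ≠ 0`. Then `P` is cyclic and every non-identity element of `P` fixes only `0`. -/
theorem result {P E : Type*} [Group P] [Finite P]
    [AddCommGroup E] [Finite E] [DistribMulAction P E] [FaithfulSMul P E]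
    {p q : ℕ} [Fact p.Prime] (hp2 : p ≠ 2) (hP : IsPGroup p P) (hq : q.Prime) (hE : ∀ e : E, q • e = 0)
    (hconst : ∀ a b : E, a ≠ 0 → b ≠ 0 →
      Nat.card (MulAction.stabilizer P a) = Nat.card (MulAction.stabilizer P b)) :
    IsCyclic P ∧ ∀ g : P, g ≠ 1 → ∀ a : E, g • a = a → a = 0 := by
  classical
  have hpp := (Fact.out : p.Prime)
  haveI := Fintype.ofFinite E
  by_cases htriv : Subsingleton P
  · exact ⟨inferInstance, fun g hg => absurd (Subsingleton.elim g 1) hg⟩
  have hnz : ∃ e : E, e ≠ 0 := by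
    by_contra h
    push Not at h
    exact htriv ⟨fun g g' => eq_of_smul_eq_smul fun e : E => by rw [h e, smul_zero, smul_zero]⟩
  have hpq : p ≠ q := by
    intro e
    subst e
    obtain ⟨x, hx⟩ := hnz
    have hd : p ∣ Nat.card E := by
      have h1 : addOrderOf x = p := addOrderOf_eq_prime (hE x) hx
      rw [← h1]; exact addOrderOf_dvd_natCard x
    obtain ⟨c, hc, hc0⟩ := hP.exists_fixed_point_of_prime_dvd_card_of_fixed_point E hd (a := (0 : E))
      (fun g => smul_zero g)
    have hall : ∀ (a : E) (g : P), g • a = a := fun a g => by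
      by_cases ha : a = 0
      · rw [ha, smul_zero]
      have h1 : MulAction.stabilizer P c = ⊤ := (Subgroup.eq_top_iff' _).2 fun g => hc g
      have h2 : MulAction.stabilizer P a = ⊤ := Subgroup.eq_top_of_card_eq _ (by
        rw [hconst a c ha hc0.symm, h1, Subgroup.card_top])
      exact MulAction.mem_stabilizer_iff.1 (h2 ▸ Subgroup.mem_top g)
    exact htriv ⟨fun g g' => eq_of_smul_eq_smul fun e : E => by rw [hall e g, hall e g']⟩
  have hcop : p.Coprime q := (Nat.coprime_primes hpp hq).2 hpq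
  have hcancel : ∀ x : E, p • x = 0 → x = 0 := fun x hx => eq_zero_of_nsmul hcop hE hx
  -- if stabilisers of `x + y` fix `x`, they are equal
  have hstab : ∀ x y : E, x ≠ 0 → x + y ≠ 0 → (∀ h : P, h • (x + y) = x + y → h • x = x) →
      ∀ h : P, h • x = x → h • y = y := by
    intro x y hx hxy himp h hh
    have h1 : MulAction.stabilizer P (x + y) = MulAction.stabilizer P x :=
      Subgroup.eq_of_le_of_card_ge (fun g hg => himp g hg) (hconst x (x + y) hx hxy).le
    have h2 : h • (x + y) = x + y := MulAction.mem_stabilizer_iff.1 (h1.symm ▸ MulAction.mem_stabilizer_iff.2 hh)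
    rw [smul_add, hh] at h2
    exact add_left_cancel h2
  -- central elements of order `p` fix nothing
  have hzfpf : ∀ z : P, z ∈ Subgroup.center P → orderOf z = p → ∀ a : E, z • a = a → a = 0 := by
    intro z hzc hz c hc
    by_contra hc0
    have hzp : z ^ p = 1 := hz ▸ pow_orderOf_eq_one z
    have hcm : ∀ h : P, Commute h z := fun h => Subgroup.mem_center_iff.1 hzc h
    have hD : ∀ d : E, tsum p z d = 0 → d = 0 := by
      intro d hd
      have hsum : tsum p z (c + d) = p • c := by rw [tsum_add, tsum_of_fixed p hc, hd, add_zero]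
      refine hcancel d ?_
      rw [← hd, tsum_of_fixed p (hstab c d hc0 (fun e => hc0 (hcancel c (by
        rw [← hsum, e]; simp [tsum]))) (fun h hh => ?_) z hc)]
      have h1 := congrArg (tsum p z) hh
      rw [← smul_tsum_of_commute (hcm h), hsum, smul_nsmul'] at h1
      exact sub_eq_zero.1 (hcancel _ (by rw [nsmul_sub, h1, sub_self]))
    have hall : ∀ e : E, z • e = e := fun e => by
      have h1 : p • e - tsum p z e = 0 := hD _ (by
        have h2 : tsum p z (p • e - tsum p z e) + tsum p z (tsum p z e) = tsum p z (p • e) := by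
          rw [← tsum_add, sub_add_cancel]
        rw [tsum_of_fixed p (smul_tsum hzp e)] at h2
        have h3 : tsum p z (p • e) = p • tsum p z e := by
          simp only [tsum, smul_nsmul', Finset.smul_sum]
        rw [h3] at h2
        exact add_eq_right.1 h2)
      have h4 : z • (p • e) = p • e := by rw [sub_eq_zero.1 h1]; exact smul_tsum hzp e
      rw [smul_nsmul'] at h4
      exact sub_eq_zero.1 (hcancel _ (by rw [nsmul_sub, h4, sub_self]))
    have hz1 : z = 1 := eq_of_smul_eq_smul fun e : E => by rw [hall e, one_smul]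
    rw [hz1, orderOf_one] at hz
    exact hpp.ne_one hz.symm
  -- `P` is cyclic
  have hcyc : IsCyclic P := by
    by_contra hnc
    obtain ⟨A, hAn, ⟨hAc, hAp⟩, hA2⟩ := Cfsg.Agent.S0126.result hp2 hP hnc
    haveI := hAn
    haveI := hAc
    have hAne : A ≠ ⊥ := fun e => by
      rw [e, Subgroup.card_bot] at hA2
      exact Nat.ne_of_lt (Nat.one_lt_pow two_ne_zero hpp.one_lt) hA2
    obtain ⟨⟨z, hzA, hzc⟩, hz1⟩ := Subgroup.ne_bot_iff_exists_ne_one.1 (CfsgLib.PReduced.inf_center_ne_bot hP hAne)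
    have hz1' : z ≠ 1 := fun e => hz1 (Subtype.ext e)
    have hordA : ∀ a ∈ A, a ≠ 1 → orderOf a = p := fun a ha h1 => orderOf_eq_prime (hAp a ha) h1
    have hcomm : ∀ a ∈ A, ∀ b ∈ A, Commute a b := fun a ha b hb =>
      congrArg Subtype.val (mul_comm' (⟨a, ha⟩ : A) ⟨b, hb⟩)
    have hpair : ∀ b ∈ A, ∀ b' ∈ A, b ≠ 1 → b' ∉ Subgroup.zpowers b → ∀ x : E, b • x = x → b' • x = x → x = 0 := by
      intro b hb b' hb' hb1 hnot x hx hx'
      refine hzfpf z hzc (hordA z hzA hz1') x ?_
      have hle : Subgroup.zpowers b ⊔ Subgroup.zpowers b' ≤ MulAction.stabilizer P x :=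
        sup_le (Subgroup.zpowers_le.2 hx) (Subgroup.zpowers_le.2 hx')
      have hA' : Subgroup.zpowers b ⊔ Subgroup.zpowers b' = A := by
        refine Subgroup.eq_of_le_of_card_ge (sup_le (Subgroup.zpowers_le.2 hb) (Subgroup.zpowers_le.2 hb')) ?_
        obtain ⟨k, hk, hkc⟩ := (Nat.dvd_prime_pow hpp).1 (hA2 ▸ Subgroup.card_dvd_of_le
          (sup_le (Subgroup.zpowers_le.2 hb) (Subgroup.zpowers_le.2 hb') : Subgroup.zpowers b ⊔ Subgroup.zpowers b' ≤ A))
        have hlt : Nat.card (Subgroup.zpowers b) < Nat.card ↥(Subgroup.zpowers b ⊔ Subgroup.zpowers b') := by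
          refine lt_of_le_of_ne (Subgroup.card_le_of_le le_sup_left) fun e => hnot ?_
          rw [Subgroup.eq_of_le_of_card_ge le_sup_left e.ge]
          exact Subgroup.mem_sup_right (Subgroup.mem_zpowers b')
        rw [Nat.card_zpowers, hordA b hb hb1, hkc] at hlt
        rw [hA2, hkc]
        refine Nat.pow_le_pow_right hpp.pos ?_
        by_contra hk2
        have : p ^ k ≤ p ^ 1 := Nat.pow_le_pow_right hpp.pos (by omega)
        rw [pow_one] at this
        omega
      exact MulAction.mem_stabilizer_iff.1 (hle (hA' ▸ hzA))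
    have hkill : ∀ b ∈ A, ∀ b' ∈ A, b ≠ 1 → b' ∉ Subgroup.zpowers b → ∀ x : E, b' • x = x → tsum p b x = 0 :=
      fun b hb b' hb' hb1 hnot x hx => hpair b hb b' hb' hb1 hnot _ (smul_tsum (hAp b hb) x) (by
        rw [smul_tsum_of_commute (hcomm b' hb' b hb), hx])
    obtain ⟨b₀, hb₀A, hb₀z⟩ : ∃ b ∈ A, b ∉ Subgroup.zpowers z := by
      by_contra h
      push Not at h
      have h1 := Subgroup.card_le_of_le (show A ≤ Subgroup.zpowers z from h)
      rw [hA2, Nat.card_zpowers, hordA z hzA hz1'] at h1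
      have : p < p ^ 2 := lt_self_pow₀ hpp.one_lt (by norm_num)
      omega
    obtain ⟨v₀, hv₀⟩ := hnz
    obtain ⟨b, hbA, hbz, v, hv, hbv⟩ : ∃ b ∈ A, b ∉ Subgroup.zpowers z ∧ ∃ v : E, v ≠ 0 ∧ b • v = v := by
      by_contra hno
      push Not at hno
      have hsum : ∑ j ∈ Finset.range p, tsum p (b₀ * z ^ j) v₀ = p • v₀ := by
        simp only [tsum]
        rw [Finset.sum_comm, Finset.sum_eq_single 0]
        · simp
        · intro i hi hi0
          have hzi : z ^ i ≠ 1 := fun e => by
            have := Nat.le_of_dvd (Nat.pos_of_ne_zero hi0) (orderOf_dvd_of_pow_eq_one e)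
            rw [hordA z hzA hz1'] at this
            exact absurd (Finset.mem_range.1 hi) (by omega)
          have h1 : tsum p (z ^ i) v₀ = 0 := hzfpf (z ^ i) ((Subgroup.center P).pow_mem hzc i)
            (hordA _ (A.pow_mem hzA i) hzi) _ (smul_tsum (hAp _ (A.pow_mem hzA i)) v₀)
          calc ∑ j ∈ Finset.range p, (b₀ * z ^ j) ^ i • v₀ = b₀ ^ i • tsum p (z ^ i) v₀ := by
                rw [tsum, Finset.smul_sum]
                refine Finset.sum_congr rfl fun j _ => ?_
                rw [← mul_smul, ((hcomm b₀ hb₀A z hzA).pow_right j).mul_pow, ← pow_mul, ← pow_mul, mul_comm j i]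
            _ = 0 := by rw [h1, smul_zero]
        · intro h0; exact absurd (Finset.mem_range.2 hpp.pos) h0
      refine hv₀ (hcancel v₀ ?_)
      rw [← hsum]
      refine Finset.sum_eq_zero fun j _ => ?_
      have hmem : b₀ * z ^ j ∈ A := A.mul_mem hb₀A (A.pow_mem hzA j)
      by_contra hne
      refine hno _ hmem (fun h => hb₀z ?_) _ hne (smul_tsum (hAp _ hmem) v₀)
      exact (Subgroup.mul_mem_cancel_right _ ((Subgroup.zpowers z).pow_mem (Subgroup.mem_zpowers z) j)).1 h
    have hb1 : b ≠ 1 := fun e => hbz (e ▸ Subgroup.one_mem _)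
    have hbo := hordA b hbA hb1
    obtain ⟨g, hg⟩ : ∃ g : P, g * b * g⁻¹ ≠ b := by
      by_contra h
      push Not at h
      exact hv (hzfpf b (Subgroup.mem_center_iff.2 fun g => mul_inv_eq_iff_eq_mul.1 (h g)) hbo v hbv)
    set b' := g * b * g⁻¹ with hb'
    have hb'A : b' ∈ A := hAn.conj_mem b hbA g
    have hb'n : b' ∉ Subgroup.zpowers b := fun h => hg (fix_zpowers hP hbo h)
    have hb'1 : b' ≠ 1 := fun e => hb'n (e ▸ Subgroup.one_mem _)
    have hb'v : b' • (g • v) = g • v := by rw [← mul_smul, hb', inv_mul_cancel_right, mul_smul, hbv]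
    have hT : tsum p b (v + g • v) = p • v := by
      rw [tsum_add, tsum_of_fixed p hbv, hkill b hbA b' hb'A hb1 hb'n _ hb'v, add_zero]
    have hne : v + g • v ≠ 0 := fun e => hv (hcancel v (by rw [← hT, e]; simp [tsum]))
    have hfix : ∀ h : P, h • (v + g • v) = v + g • v → h • v = v := by
      intro h hh
      have hconjA : h * b * h⁻¹ ∈ A := hAn.conj_mem b hbA h
      have hconjA' : h * b' * h⁻¹ ∈ A := hAn.conj_mem b' hb'A h
      have h1 : (h * b * h⁻¹) • (h • v) = h • v := by rw [← mul_smul, inv_mul_cancel_right, mul_smul, hbv]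
      have h2 : (h * b' * h⁻¹) • (h • g • v) = h • g • v := by
        rw [← mul_smul, inv_mul_cancel_right, mul_smul, hb'v]
      have h3 := congrArg (tsum p b) hh
      rw [smul_add, tsum_add, hT] at h3
      by_cases c1 : h * b * h⁻¹ ∈ Subgroup.zpowers b
      · have c1' := fix_zpowers hP hbo c1
        have c2 : h * b' * h⁻¹ ∉ Subgroup.zpowers b := fun c => hb'n (by
          obtain ⟨i, hi⟩ := Subgroup.mem_zpowers_iff.1 c
          refine Subgroup.mem_zpowers_iff.2 ⟨i, mul_left_cancel (a := h) (mul_right_cancel (b := h⁻¹) ?_)⟩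
          rw [← conj_zpow, c1', hi])
        rw [hkill b hbA _ hconjA' hb1 c2 _ h2, add_zero, tsum_of_fixed p (by rw [c1'] at h1; exact h1)] at h3
        exact sub_eq_zero.1 (hcancel _ (by rw [nsmul_sub, h3, sub_self]))
      · rw [hkill b hbA _ hconjA hb1 c1 _ h1, zero_add] at h3
        by_cases c2 : h * b' * h⁻¹ ∈ Subgroup.zpowers b
        · exfalso
          have c2' : h * b' * h⁻¹ = b := by
            have h5 : h * b' * h⁻¹ = h * g * b * (h * g)⁻¹ := by rw [hb', mul_inv_rev]; simp only [mul_assoc]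
            rw [h5] at c2 ⊢
            exact fix_zpowers hP hbo c2
          rw [c2'] at h2
          rw [tsum_of_fixed p h2] at h3
          have h4 : h • g • v = v := sub_eq_zero.1 (hcancel _ (by rw [nsmul_sub, h3, sub_self]))
          rw [smul_add, h4, add_comm (h • v), add_left_cancel_iff] at hh
          rw [hh] at h1
          have c3 : h * b * h⁻¹ ∈ Subgroup.zpowers b' := by
            by_contra c
            have := hpair b' hb'A _ hconjA hb'1 c _ hb'v h1
            exact hv (by rwa [smul_eq_zero_iff_eq] at this)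
          obtain ⟨i, hi⟩ := Subgroup.mem_zpowers_iff.1 c3
          have h6 : h ^ 2 * b * (h ^ 2)⁻¹ ∈ Subgroup.zpowers b := by
            rw [show h ^ 2 * b * (h ^ 2)⁻¹ = h * (h * b * h⁻¹) * h⁻¹ by rw [pow_two, mul_inv_rev]; simp only [mul_assoc],
              ← hi, ← conj_zpow, c2']
            exact (Subgroup.zpowers b).zpow_mem (Subgroup.mem_zpowers b) i
          obtain ⟨k, hk⟩ := IsPGroup.iff_orderOf.1 hP h
          obtain ⟨m, hm⟩ := exists_pow_eq_self_of_coprime (x := h) (n := 2)
            (by rw [hk]; exact Nat.Coprime.pow_right k ((Nat.coprime_primes Nat.prime_two hpp).2 (Ne.symm hp2)))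
          have h7 := (show Commute (h ^ 2) b from mul_inv_eq_iff_eq_mul.1 (fix_zpowers hP hbo h6)).pow_left m
          rw [hm] at h7
          apply c1
          rw [mul_inv_eq_iff_eq_mul.2 h7.eq]
          exact Subgroup.mem_zpowers b
        · exact absurd (hcancel v (by rw [← h3, hkill b hbA _ hconjA' hb1 c2 _ h2])) hv
    have h8 := hstab v (g • v) hv hne hfix b hbv
    have h9 := hkill b hbA b' hb'A hb1 hb'n _ hb'v
    rw [tsum_of_fixed p h8] at h9
    exact hv (by have := hcancel _ h9; rwa [smul_eq_zero_iff_eq] at this)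
  refine ⟨hcyc, fun g hg a ha => ?_⟩
  obtain ⟨k, hk⟩ := IsPGroup.iff_orderOf.1 hP g
  have hk0 : k ≠ 0 := fun e => hg (orderOf_eq_one_iff.1 (by rw [hk, e, pow_zero]))
  obtain ⟨z, hzm, hzo⟩ : ∃ z ∈ Subgroup.zpowers g, orderOf z = p := by
    refine ⟨g ^ p ^ (k - 1), Subgroup.pow_mem _ (Subgroup.mem_zpowers g) _, ?_⟩
    rw [orderOf_pow_of_dvd (pow_ne_zero _ hpp.ne_zero) (by rw [hk]; exact pow_dvd_pow _ (by omega)), hk,
      Nat.pow_div (by omega) hpp.pos, show k - (k - 1) = 1 by omega, pow_one]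
  refine hzfpf z (Subgroup.mem_center_iff.2 fun h => ?_) hzo a
    (MulAction.mem_stabilizer_iff.1 (Subgroup.zpowers_le.2 (MulAction.mem_stabilizer_iff.2 ha) hzm))
  haveI := hcyc
  obtain ⟨c, hc⟩ := IsCyclic.exists_generator (α := P)
  obtain ⟨i, rfl⟩ := Subgroup.mem_zpowers_iff.1 (hc h)
  obtain ⟨j, rfl⟩ := Subgroup.mem_zpowers_iff.1 (hc z)
  exact ((Commute.refl c).zpow_zpow i j).eq

end Cfsg.Agent.S1160
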