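import Cfsg.Statements.S1167
import Cfsg.Agent.Zas.Transport
import Cfsg.Agent.Zas.Classify
import Cfsg.Agent.Zas.Half
import Cfsg.Agent.LargeEx.Basic

set_option autoImplicit false
open Cfsg

namespace Cfsg.Agent.S1167

/-- Let `G` be a finite simple Zassenhaus group on `Ω`, `U` a normal subgroup of `G_a` regular on `Ω` minus `a` which is an abelian 2-group, and `v` an involution with `v • a ≠ a`. Then there is a unique `u₀ ∈ U`, `u₀ ≠ 1`, with `v u₀ v = u₀ v u₀`. -/
theorem result {G Ω : Type*} [Group G] [Finite G] [MulAction G Ω] [Finite Ω]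
    (hZ : Cfsg.IsZassenhausGroup G Ω) [IsSimpleGroup G] {a : Ω}
    (U : Subgroup G) (hUle : U ≤ MulAction.stabilizer G a)
    (hUn : ∀ h ∈ MulAction.stabilizer G a, ∀ u ∈ U, h * u * h⁻¹ ∈ U)
    (hreg : ∀ c d : Ω, c ≠ a → d ≠ a → ∃! u : U, (u : G) • c = d)
    (hU2 : IsPGroup 2 U) (hUab : ∀ u ∈ U, ∀ u' ∈ U, u * u' = u' * u)
    (v : G) (hv1 : v ≠ 1) (hv2 : v * v = 1) (hva : v • a ≠ a) :
    ∃! u₀ : G, u₀ ∈ U ∧ u₀ ≠ 1 ∧ v * u₀ * v = u₀ * v * u₀ := by
  classical
  haveI hfaith := hZ.1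
  haveI : MulAction.IsMultiplyPretransitive G Ω 2 := hZ.2.1
  haveI : MulAction.IsPretransitive G Ω := MulAction.isPretransitive_of_is_two_pretransitive
  have hreg3 := hZ.2.2.1
  set b := v • a with hb
  have hba : b ≠ a := hva
  have hvb : v • b = a := by rw [hb, smul_smul, hv2, one_smul]
  have hvinv : v⁻¹ = v := inv_eq_of_mul_eq_one_right hv2
  haveI : IsMulCommutative U := ⟨⟨fun x y => Subtype.ext (hUab x x.2 y y.2)⟩⟩
  have hUn' : (U.subgroupOf (MulAction.stabilizer G a)).Normal :=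
    ⟨fun x hx h => hUn h h.2 x hx⟩
  obtain ⟨V, _, _, e, G', φ, hcoord, hφ⟩ :=
    CfsgLib.Zas.exists_coord a b hba U hUle hUn' hreg hreg3
  have hnoreg := CfsgLib.Zas.Coord.hasNoRegular e φ hφ hZ.2.2.2.2
  -- U is regular on the other points
  have hUa : ∀ u ∈ U, u • a = a := fun u hu => hUle hu
  have hUne : ∀ u ∈ U, ∀ c : Ω, c ≠ a → u • c ≠ a := fun u hu c hc h =>
    hc (MulAction.injective u (h.trans (hUa u hu).symm))
  have huniq : ∀ u ∈ U, ∀ u' ∈ U, u • b = u' • b → u = u' := fun u hu u' hu' h => congrArg Subtype.val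
    ((hreg b (u • b) hba (hUne u hu b hba)).unique (y₁ := ⟨u, hu⟩) (y₂ := ⟨u', hu'⟩) rfl h.symm)
  obtain ⟨g₀, hg₀, p, q, hpq, hp, hq⟩ := hZ.2.2.2.1
  -- the number of scalars
  have hd : 1 < Nat.card (CfsgLib.Zas.scalars G') := by
    obtain ⟨t, ht, htp, htq⟩ := hcoord.exists_mem (e p) (e q) (fun h => hpq (e.injective h))
    set g' : Equiv.Perm (Option V) := t⁻¹ * ((φ g₀ : G') : Equiv.Perm (Option V)) * t with hg'
    have h0 : g' none = none := by
      rw [hg', Equiv.Perm.mul_apply, Equiv.Perm.mul_apply, htp, ← hφ, hp, ← htp]; simp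
    have h1 : g' (some 0) = some 0 := by
      rw [hg', Equiv.Perm.mul_apply, Equiv.Perm.mul_apply, htq, ← hφ, hq, ← htq]; simp
    obtain ⟨s, hs⟩ := hcoord.fix_two (G'.mul_mem (G'.mul_mem (G'.inv_mem ht) (φ g₀).2) ht) h0 h1
    have hs1 : s ≠ 1 := by
      intro hs1
      apply hg₀
      rw [hs1, Subgroup.coe_one, map_one] at hs
      have h2 : ((φ g₀ : G') : Equiv.Perm (Option V)) = 1 := by
        have := congrArg (fun x => t * x * t⁻¹) hs
        simpa [mul_assoc] using this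
      exact φ.injective (by rw [map_one]; exact Subtype.ext h2)
    exact Finite.one_lt_card_iff_nontrivial.2 ⟨⟨s, 1, hs1⟩⟩
  have hΩU : Nat.card V = Nat.card U := by
    have h1 : Function.Bijective (fun o : Option U => o.elim a fun u => (u : G) • b) := by
      refine ⟨?_, fun c => ?_⟩
      · rintro (_ | x) (_ | y) h
        · rfl
        · exact absurd h.symm (hUne y y.2 b hba)
        · exact absurd h (hUne x x.2 b hba)
        · exact congrArg some (Subtype.ext (huniq x x.2 y y.2 h))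
      · by_cases hc : c = a
        · exact ⟨none, hc.symm⟩
        · obtain ⟨u, hu, -⟩ := hreg b c hba hc
          exact ⟨some u, hu⟩
    have h2 := (Nat.card_eq_of_bijective _ h1).trans (Nat.card_congr e)
    rw [Finite.card_option, Finite.card_option] at h2
    omega
  have hVeven : Even (Nat.card V) := by
    obtain ⟨n, hn⟩ := hU2.exists_card_eq
    rcases Nat.eq_zero_or_pos n with rfl | hn0
    · exfalso
      rw [pow_zero] at hn
      obtain ⟨g, hg, hga⟩ : ∃ g : G, g ≠ 1 ∧ g • a = a := by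
        obtain ⟨h, hh⟩ := MulAction.exists_smul_eq G p a
        refine ⟨h * g₀ * h⁻¹, fun h' => hg₀ (conj_eq_one_iff.1 h'), ?_⟩
        rw [← hh, mul_smul, mul_smul, inv_smul_smul, hp]
      apply hg
      refine FaithfulSMul.eq_of_smul_eq_smul fun c : Ω => ?_
      have hall : ∀ c : Ω, c ≠ a → c = b := by
        intro c hc
        obtain ⟨u, hu, -⟩ := hreg b c hba hc
        rw [show u = 1 from (Nat.card_eq_one_iff_unique.1 hn).1.elim _ _] at hu
        simpa using hu.symm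
      rw [one_smul]
      by_cases hc : c = a
      · rw [hc, hga]
      · rw [hall c hc]
        exact hall _ fun h' => hba (MulAction.injective g (h'.trans hga.symm))
    · rw [hΩU, hn]
      exact (Nat.even_pow).2 ⟨even_two, by omega⟩
  have hfull : Nat.card (CfsgLib.Zas.scalars G') = Nat.card V - 1 :=
    (hcoord.classify hd hnoreg).resolve_right fun h => (Nat.not_even_iff_odd.2 h.1) hVeven
  haveI : Finite Ω := inferInstance
  obtain ⟨w0, hw0⟩ : ∃ w0 : V, w0 ≠ 0 := by
    haveI : Nontrivial V := Finite.one_lt_card_iff_nontrivial.1 (by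
      have := Nat.card_pos (α := V); obtain ⟨k, hk⟩ := hVeven; omega)
    exact exists_ne 0
  have h3t : ∀ c d : Ω, c ≠ a → c ≠ b → d ≠ a → d ≠ b →
      ∃ m : G, m • a = a ∧ m • b = b ∧ m • c = d := by
    intro c d hca hcb hda hdb
    obtain ⟨g1, hg1, k1, k2, k3⟩ := hcoord.three_transitive hfull hw0 (e a) (e b) (e c)
      (fun h => hba (e.injective h).symm) (fun h => hca (e.injective h).symm)
      (fun h => hcb (e.injective h).symm)
    obtain ⟨g2, hg2, l1, l2, l3⟩ := hcoord.three_transitive hfull hw0 (e a) (e b) (e d)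
      (fun h => hba (e.injective h).symm) (fun h => hda (e.injective h).symm)
      (fun h => hdb (e.injective h).symm)
    set m := φ.symm ⟨g2 * g1⁻¹, G'.mul_mem hg2 (G'.inv_mem hg1)⟩ with hm
    have hact : ∀ y : Ω, e (m • y) = g2 (g1⁻¹ (e y)) := fun y => by
      rw [hφ, hm, MulEquiv.apply_symm_apply]; rfl
    refine ⟨m, e.injective ?_, e.injective ?_, e.injective ?_⟩
    · rw [hact, ← k1]; simp [l1]; exact k1.symm
    · rw [hact, ← k2]; simp [l2]; exact k2.symm
    · rw [hact, ← k3]; simp [l3]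
  -- conjugation transitive on the non-identity elements of U
  have hne_b : ∀ u ∈ U, u ≠ 1 → u • b ≠ b := fun u hu h1 h =>
    h1 (huniq u hu 1 U.one_mem (by rw [h, one_smul]))
  have htrans : ∀ u ∈ U, u ≠ 1 → ∀ u' ∈ U, u' ≠ 1 → ∃ m : G, m • a = a ∧ m • b = b ∧ m * u * m⁻¹ = u' := by
    intro u hu h1 u' hu' h1'
    obtain ⟨m, ma, mb, mc⟩ := h3t (u • b) (u' • b) (hUne u hu b hba) (hne_b u hu h1)
      (hUne u' hu' b hba) (hne_b u' hu' h1')
    refine ⟨m, ma, mb, huniq _ (hUn m ma u hu) u' hu' ?_⟩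
    rw [mul_smul, mul_smul, inv_smul_eq_iff.2 mb.symm, mc]
  obtain ⟨n, hn⟩ := hU2.exists_card_eq
  have hUnt : ∃ u ∈ U, u ≠ 1 := by
    have hne : U ≠ ⊥ := by
      intro h
      rw [h, Subgroup.card_bot] at hΩU
      rw [hΩU] at hVeven
      exact absurd hVeven (by decide)
    obtain ⟨⟨x, hx⟩, h⟩ := (Subgroup.ne_bot_iff_exists_ne_one).1 hne
    exact ⟨x, hx, fun h' => h (Subtype.ext h')⟩
  have helem : ∀ u ∈ U, u * u = 1 := by
    haveI : Fact (Nat.Prime 2) := ⟨Nat.prime_two⟩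
    have h2 : 2 ∣ Nat.card U := hΩU ▸ even_iff_two_dvd.1 hVeven
    obtain ⟨⟨i, hi⟩, hio⟩ := exists_prime_orderOf_dvd_card' (G := U) 2 h2
    have hii : i * i = 1 := by
      have := pow_orderOf_eq_one (⟨i, hi⟩ : U)
      rw [hio, pow_two] at this
      exact congrArg Subtype.val this
    have hi1 : i ≠ 1 := by
      intro h
      have : (⟨i, hi⟩ : U) = 1 := Subtype.ext h
      rw [this, orderOf_one] at hio
      exact absurd hio (by norm_num)
    intro u hu
    by_cases h1 : u = 1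
    · rw [h1, one_mul]
    · obtain ⟨m, -, -, hm⟩ := htrans i hi hi1 u hu h1
      rw [← hm]
      calc m * i * m⁻¹ * (m * i * m⁻¹) = m * (i * i) * m⁻¹ := by group
        _ = 1 := by rw [hii]; group
  -- the two point stabiliser has odd order and is inverted by v
  set H : Subgroup G := MulAction.stabilizer G a ⊓ MulAction.stabilizer G b with hH
  have hmemH : ∀ x : G, x ∈ H ↔ x • a = a ∧ x • b = b := fun x => by
    simp [hH, MulAction.mem_stabilizer_iff]
  have hHfix : ∀ m ∈ H, ∀ c : Ω, c ≠ a → c ≠ b → m • c = c → m = 1 := fun m hm c hca hcb h =>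
    hreg3 m a b c hba.symm hcb.symm hca.symm ((hmemH m).1 hm).1 ((hmemH m).1 hm).2 h
  obtain ⟨u₁, hu₁, hu₁1⟩ := hUnt
  have hoddH : Odd (Nat.card H) := by
    have hbij : Function.Bijective (fun m : H => (⟨(m : G) • u₁ • b, fun h =>
        hUne u₁ hu₁ b hba (MulAction.injective (m : G) (h.trans ((hmemH _).1 m.2).1.symm)),
        fun h => hne_b u₁ hu₁ hu₁1 (MulAction.injective (m : G) (h.trans ((hmemH _).1 m.2).2.symm))⟩ :
          {c : Ω // c ≠ a ∧ c ≠ b})) := by
      refine ⟨fun m m' h => ?_, fun ⟨c, hca, hcb⟩ => ?_⟩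
      · have h' : ((m : G)⁻¹ * m') • u₁ • b = u₁ • b := by
          rw [mul_smul, inv_smul_eq_iff]; exact (congrArg Subtype.val h).symm
        exact Subtype.ext (inv_mul_eq_one.1 (hHfix _ (mul_mem (inv_mem m.2) m'.2) _
          (hUne u₁ hu₁ b hba) (hne_b u₁ hu₁ hu₁1) h'))
      · obtain ⟨m, ma, mb, mc⟩ := h3t (u₁ • b) c (hUne u₁ hu₁ b hba) (hne_b u₁ hu₁ hu₁1) hca hcb
        exact ⟨⟨m, (hmemH m).2 ⟨ma, mb⟩⟩, Subtype.ext mc⟩
    rw [Nat.card_eq_of_bijective _ hbij]
    haveI := Fintype.ofFinite Ω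
    have hc : ({a, b}ᶜ : Finset Ω).card = Nat.card {c : Ω // c ≠ a ∧ c ≠ b} := by
      rw [Nat.card_eq_fintype_card]
      exact (Fintype.card_of_subtype _ fun c => by simp).symm
    rw [← hc, Finset.card_compl, Finset.card_pair hba.symm, ← Nat.card_eq_fintype_card,
      Nat.card_congr e, Finite.card_option]
    obtain ⟨k, hk⟩ := hVeven
    have := Nat.card_pos (α := V)
    exact ⟨k - 1, by omega⟩
  have hsq : ∀ k ∈ H, ∃ m ∈ H, m * m = k := by
    intro k hk
    obtain ⟨j, hj⟩ : Odd (orderOf k) := hoddH.of_dvd_nat (Subgroup.orderOf_dvd_natCard H hk)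
    refine ⟨k ^ (j + 1), pow_mem hk _, ?_⟩
    rw [← pow_add, show j + 1 + (j + 1) = orderOf k + 1 by omega, pow_succ, pow_orderOf_eq_one, one_mul]
  have hsq1 : ∀ m ∈ H, m * m = 1 → m = 1 := fun m hm h =>
    CfsgLib.LargeEx.eq_one_of_sq_eq_one hoddH hm h
  have hvH : ∀ m ∈ H, v * m * v ∈ H := by
    intro m hm
    obtain ⟨ma, mb⟩ := (hmemH m).1 hm
    rw [hmemH]
    refine ⟨?_, ?_⟩
    · rw [mul_smul, mul_smul, ← hb, mb, hvb]
    · rw [mul_smul, mul_smul, hvb, ma]
  obtain ⟨c₀, hc₀⟩ : ∃ c : Ω, v • c = c := by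
    by_contra h
    push Not at h
    haveI : Fact (Nat.Prime 2) := ⟨Nat.prime_two⟩
    have hP : IsPGroup 2 (Subgroup.zpowers v) :=
      IsPGroup.of_card (n := 1) (by rw [Nat.card_zpowers, pow_one,
        orderOf_eq_prime (by rw [pow_two, hv2]) hv1])
    have h2 : 2 ∣ Nat.card Ω := by
      have hmod := hP.card_modEq_card_fixedPoints Ω
      have h0 : IsEmpty (MulAction.fixedPoints (Subgroup.zpowers v) Ω) :=
        ⟨fun ⟨c, hc⟩ => h c (hc ⟨v, Subgroup.mem_zpowers v⟩)⟩
      rw [Nat.card_of_isEmpty (α := MulAction.fixedPoints (Subgroup.zpowers v) Ω)] at hmod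
      exact Nat.modEq_zero_iff_dvd.1 hmod
    rw [Nat.card_congr e, Finite.card_option] at h2
    obtain ⟨k, hk⟩ := hVeven
    omega
  have hc₀u : ∀ c : Ω, v • c = c → c = c₀ := by
    intro c hc
    by_contra hne
    obtain ⟨g, g1, g2⟩ := MulAction.is_two_pretransitive_iff.1 hZ.2.1 hne hba.symm
    have hgH : g * v * g⁻¹ ∈ H := by
      rw [hmemH, ← g1, ← g2]
      exact ⟨by rw [mul_smul, mul_smul, inv_smul_smul, hc],
        by rw [mul_smul, mul_smul, inv_smul_smul, hc₀]⟩
    have := hsq1 _ hgH (by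
      calc g * v * g⁻¹ * (g * v * g⁻¹) = g * (v * v) * g⁻¹ := by group
        _ = 1 := by rw [hv2]; group)
    exact hv1 (conj_eq_one_iff.1 this)
  have hfpf : ∀ m ∈ H, v * m * v = m → m = 1 := by
    intro m hm h
    refine hHfix m hm c₀ ?_ ?_ (hc₀u _ ?_)
    · rintro rfl; exact hva hc₀
    · rintro rfl; rw [hvb] at hc₀; exact hba hc₀.symm
    · calc v • m • c₀ = (v * m) • c₀ := (mul_smul _ _ _).symm
        _ = (v * m * (v * v)) • c₀ := by rw [hv2, mul_one]
        _ = (v * m * v) • v • c₀ := by rw [← mul_assoc, mul_smul]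
        _ = m • c₀ := by rw [h, hc₀]
  have hinv : ∀ m ∈ H, v * m = m⁻¹ * v := by
    have hinj : Function.Injective (fun m : H =>
        (⟨(m : G)⁻¹ * (v * m * v), mul_mem (inv_mem m.2) (hvH m m.2)⟩ : H)) := by
      intro m l h
      have h' : (m : G)⁻¹ * (v * m * v) = (l : G)⁻¹ * (v * l * v) := congrArg Subtype.val h
      have hd' : v * ((l : G) * (m : G)⁻¹) * v = (l : G) * (m : G)⁻¹ := by
        have h2 : v * l * v * (v * m * v)⁻¹ = (l : G) * (m : G)⁻¹ := by
          calc v * l * v * (v * m * v)⁻¹ = l * ((l : G)⁻¹ * (v * l * v)) * (v * m * v)⁻¹ := by group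
            _ = l * ((m : G)⁻¹ * (v * m * v)) * (v * m * v)⁻¹ := by rw [h']
            _ = _ := by group
        rw [← h2, mul_inv_rev, mul_inv_rev, hvinv]
        calc v * (v * l * v * (v * ((m : G)⁻¹ * v))) * v
            = (v * v) * l * (v * v) * (m : G)⁻¹ * (v * v) := by group
          _ = (l : G) * (m : G)⁻¹ := by rw [hv2]; simp
          _ = _ := by rw [← h2, mul_inv_rev, mul_inv_rev, hvinv]
      exact Subtype.ext (mul_inv_eq_one.1 (hfpf _ (mul_mem l.2 (inv_mem m.2)) hd')).symm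
    intro k hk
    obtain ⟨m, hm⟩ := Finite.injective_iff_surjective.1 hinj ⟨k, hk⟩
    have hm' : (m : G)⁻¹ * (v * m * v) = k := congrArg Subtype.val hm
    rw [← hm']
    calc v * ((m : G)⁻¹ * (v * m * v)) = v⁻¹ * (m : G)⁻¹ * v * m * v := by rw [hvinv]; group
      _ = ((m : G)⁻¹ * (v * m * v))⁻¹ * v := by
        rw [mul_inv_rev, mul_inv_rev, mul_inv_rev, inv_inv, hvinv]; group
  have hconj : ∀ m ∈ H, ∀ x : G, v * (m * x * m⁻¹) * v = m⁻¹ * (v * x * v) * m := by
    intro m hm x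
    calc v * (m * x * m⁻¹) * v = (v * m) * x * (v * m)⁻¹ * (v * v) := by group
      _ = (m⁻¹ * v) * x * (m⁻¹ * v)⁻¹ := by rw [hinv m hm, hv2, mul_one]
      _ = m⁻¹ * (v * x * v⁻¹) * m := by group
      _ = m⁻¹ * (v * x * v) * m := by rw [hvinv]
  have hHU : ∀ m ∈ H, ∀ x ∈ U, m⁻¹ * x * m ∈ U := by
    intro m hm x hx
    have := hUn m⁻¹ (((hmemH _).1 (inv_mem hm)).1) x hx
    rwa [inv_inv] at this
  -- existence
  set g := v * u₁ * v with hg
  set c := g • a with hc
  have hgb : g • b = b := by rw [hg, mul_smul, mul_smul, hvb, hUa u₁ hu₁]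
  have hca : c ≠ a := by
    intro h
    rw [hc, hg, mul_smul, mul_smul, ← hb, smul_eq_iff_eq_inv_smul, hvinv, ← hb] at h
    exact hne_b u₁ hu₁ hu₁1 h
  obtain ⟨⟨f, hf⟩, hfc, -⟩ := hreg b c hba hca
  change f • b = c at hfc
  have hff : f * f = 1 := helem f hf
  have hgg : g * g = 1 := by
    rw [hg]
    calc v * u₁ * v * (v * u₁ * v) = v * u₁ * (v * v) * u₁ * v := by group
      _ = v * (u₁ * u₁) * v := by rw [hv2]; group
      _ = 1 := by rw [helem u₁ hu₁, mul_one, hv2]
  set k := f * g * f * v with hk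
  have hfcb : f • c = b := by rw [← hfc, smul_smul, hff, one_smul]
  have hkH : k ∈ H := by
    rw [hmemH, hk]
    constructor
    · rw [mul_smul, mul_smul, mul_smul, ← hb, hfc, hc, smul_smul g g, hgg, one_smul, hUa f hf]
    · rw [mul_smul, mul_smul, mul_smul, hvb, hUa f hf, ← hc, hfcb]
  obtain ⟨m, hm, hmk⟩ := hsq k hkH
  have hgfk : g = f * k * v * f := by
    rw [hk]
    calc g = (f * f) * g * (f * (v * v) * f) := by rw [hv2, mul_one, hff, one_mul, mul_one]
      _ = f * (f * g * f * v) * v * f := by group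
  set u := m * u₁ * m⁻¹ with hu
  set f' := m⁻¹ * f * m with hf'
  have huU : u ∈ U := hUn m ((hmemH m).1 hm).1 u₁ hu₁
  have hf'U : f' ∈ U := hHU m hm f hf
  have hu1 : u ≠ 1 := fun h => hu₁1 (conj_eq_one_iff.1 h)
  have heq : v * u * v = f' * v * f' := by
    rw [hu, hconj m hm, ← hg, hgfk, hf']
    have hkv : m⁻¹ * k * v * m = v := by
      rw [← hmk]
      calc m⁻¹ * (m * m) * v * m = m * (v * m) := by group
        _ = v := by rw [hinv m hm]; group
    calc m⁻¹ * (f * k * v * f) * m = (m⁻¹ * f * m) * (m⁻¹ * k * v * m) * (m⁻¹ * f * m) := by group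
      _ = _ := by rw [hkv]
  have hfu : f' = u := by
    have hf'f : f' * f' = 1 := helem f' hf'U
    have h1 : v * f' * v = u * v * f' := by
      calc v * f' * v = v * (f' * v * f') * f' := by
            rw [show v * (f' * v * f') * f' = v * f' * v * (f' * f') by group, hf'f, mul_one]
        _ = v * (v * u * v) * f' := by rw [heq]
        _ = (v * v) * u * v * f' := by group
        _ = u * v * f' := by rw [hv2, one_mul]
    have h2 : (v * f' * v) * (v * f' * v) = 1 := by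
      calc v * f' * v * (v * f' * v) = v * f' * (v * v) * f' * v := by group
        _ = v * (f' * f') * v := by rw [hv2]; group
        _ = 1 := by rw [hf'f, mul_one, hv2]
    have h3 : (v * f' * v) • u • b = a := by
      have hfirst : (v * f' * v) • a = u • b := by
        rw [h1, mul_smul, mul_smul, hUa f' hf'U]
      rw [← hfirst, smul_smul, h2, one_smul]
    rw [h1, mul_smul, mul_smul, smul_eq_iff_eq_inv_smul,
      inv_smul_eq_iff.2 (hUa u huU).symm, smul_eq_iff_eq_inv_smul, hvinv, ← hb] at h3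
    have := huniq (f' * u) (mul_mem hf'U huU) 1 U.one_mem (by rw [mul_smul, h3, one_smul])
    rw [eq_inv_of_mul_eq_one_left this, inv_eq_of_mul_eq_one_left (helem u huU)]
  rw [hfu] at heq
  refine ⟨u, ⟨huU, hu1, heq⟩, ?_⟩
  rintro u' ⟨hu', hu'1, heq'⟩
  obtain ⟨l, la, lb, hl⟩ := htrans u huU hu1 u' hu' hu'1
  have hlH : l ∈ H := (hmemH l).2 ⟨la, lb⟩
  have he : v * u' * v = (l⁻¹ * u * l) * (l⁻¹ * v * l) * (l⁻¹ * u * l) := by
    rw [← hl, hconj l hlH, heq]; group
  have hat : u' • b = (l⁻¹ * u * l) • b := by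
    have h1 : (v * u' * v) • a = u' • b := by
      rw [heq', mul_smul, mul_smul, hUa u' hu', ← hb]
    have h2 : (v * u' * v) • a = (l⁻¹ * u * l) • b := by
      have hmid : (l⁻¹ * v * l) • a = b := by
        rw [mul_smul, la, mul_smul, ← hb, inv_smul_eq_iff.2 lb.symm]
      rw [he, mul_smul, mul_smul, hUa _ (hHU l hlH u huU), hmid]
    exact h1.symm.trans h2
  have h3 := huniq u' hu' _ (hHU l hlH u huU) hat
  have hcomm : (l * l) * u * (l * l)⁻¹ = u := by
    calc (l * l) * u * (l * l)⁻¹ = l * (l * u * l⁻¹) * l⁻¹ := by group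
      _ = l * (l⁻¹ * u * l) * l⁻¹ := by rw [hl, h3]
      _ = u := by group
  have hll : l * l = 1 := by
    refine hHfix _ (mul_mem hlH hlH) (u • b) (hUne u huU b hba) (hne_b u huU hu1) ?_
    have hbb : (l * l)⁻¹ • b = b := ((hmemH _).1 (inv_mem (mul_mem hlH hlH))).2
    calc (l * l) • u • b = (l * l) • u • (l * l)⁻¹ • b := by rw [hbb]
      _ = ((l * l) * u * (l * l)⁻¹) • b := by simp only [mul_smul]
      _ = u • b := by rw [hcomm]
  rw [← hl, hsq1 l hlH hll, one_mul, inv_one, mul_one]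

end Cfsg.Agent.S1167
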