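import Cfsg.Statements.S1168
import Mathlib

set_option autoImplicit false
open Cfsg

namespace Cfsg.Agent.S1168

/-- For a finite field `F` of characteristic 2: if `q : F → F` is quadratic over the prime field, i.e. `(x, y) ↦ q (x + y) + q x + q y` is additive in each variable, then `q x = Σ c_{σ,τ} σ(x) τ(x)` for some coefficients indexed by pairs of field automorphisms. -/
theorem result {F : Type*} [Field F] [Fintype F] [CharP F 2]
    (q : F → F)
    (hq : ∀ x y z : F, q (x + y + z) + q (x + y) + q (x + z) + q (y + z) + q x + q y + q z = 0) :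
    ∃ (s : Finset ((F ≃+* F) × (F ≃+* F))) (c : (F ≃+* F) × (F ≃+* F) → F),
      ∀ x : F, q x = ∑ p ∈ s, c p * (p.1 x * p.2 x) := by
  classical
  letI : Algebra (ZMod 2) F := ZMod.algebra F 2
  set B : F → F → F := fun x y => q (x + y) + q x + q y with hBdef
  have h2 : (2 : F) = 0 := CharTwo.two_eq_zero
  have q0 : q 0 = 0 := by
    have := hq 0 0 0
    simp only [add_zero] at this
    linear_combination this - 3 * q 0 * h2
  have hB : ∀ x y z, B x (y + z) = B x y + B x z := fun x y z => by
    simp only [hBdef, ← add_assoc]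
    linear_combination hq x y z - (q (x + y) + q (x + z) + q x + q y + q z) * h2
  have hB0 : ∀ x, B x 0 = 0 := fun x => by
    simp only [hBdef, add_zero, q0]
    linear_combination (q x) * h2
  have hadd : ∀ x y, q (x + y) = q x + q y + B x y := fun x y => by
    simp only [hBdef]
    linear_combination -(q x + q y) * h2
  let e := Module.finBasis (ZMod 2) F
  let n := Module.finrank (ZMod 2) F
  let c : Fin n → Fin n → F := fun i j => if i < j then B (e i) (e j) else 0
  have hc : ∀ i j, i ≠ j → c i j + c j i = B (e i) (e j) := fun i j h => by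
    rcases lt_or_gt_of_ne h with h' | h'
    · simp [c, h', not_lt.mpr h'.le]
    · simp [c, h', not_lt.mpr h'.le, hBdef, add_comm (e i), add_comm (q (e j)), add_left_comm, add_assoc]
  have hBs : ∀ (a : F) (s : Finset (Fin n)), B a (∑ j ∈ s, e j) = ∑ j ∈ s, B a (e j) := fun a s => by
    induction s using Finset.induction with
    | empty => simpa using hB0 a
    | @insert j s hj ih => rw [Finset.sum_insert hj, Finset.sum_insert hj, hB, ih]
  have hsum : ∀ s : Finset (Fin n), q (∑ i ∈ s, e i) = ∑ i ∈ s, q (e i) + ∑ i ∈ s, ∑ j ∈ s, c i j := fun s => by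
    induction s using Finset.induction with
    | empty => simpa using q0
    | @insert a s ha ih =>
      rw [Finset.sum_insert ha, hadd, ih, hBs]
      simp only [Finset.sum_insert ha, Finset.sum_add_distrib]
      have e1 : ∑ j ∈ s, B (e a) (e j) = ∑ j ∈ s, c a j + ∑ j ∈ s, c j a := by
        rw [← Finset.sum_add_distrib]
        exact Finset.sum_congr rfl fun j hj => (hc a j (fun h => ha (h ▸ hj))).symm
      rw [e1, show c a a = 0 by simp [c]]
      ring
  -- the coordinates, as linearised maps
  let A := F ≃ₐ[ZMod 2] F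
  have hd : ∀ i, ∃ d : F, ∀ x, algebraMap (ZMod 2) F (e.repr x i) = ∑ σ : A, σ d * σ x := by
    intro i
    have hnd : (Algebra.traceForm (ZMod 2) F).Nondegenerate := traceForm_nondegenerate _ _
    refine ⟨(LinearMap.BilinForm.toDual (Algebra.traceForm (ZMod 2) F) hnd).symm (e.coord i), fun x => ?_⟩
    have h := LinearMap.BilinForm.apply_toDual_symm_apply (B := Algebra.traceForm (ZMod 2) F)
      (hB := hnd) (e.coord i) x
    rw [← Module.Basis.coord_apply, ← h, Algebra.traceForm_apply, trace_eq_sum_automorphisms]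
    simp [A]
  choose d hd using hd
  let r : A × A ↪ (F ≃+* F) × (F ≃+* F) :=
    ⟨fun p => (p.1.toRingEquiv, p.2.toRingEquiv), fun p p' h => by
      obtain ⟨h1, h2⟩ := Prod.mk.inj h
      exact Prod.ext (AlgEquiv.ext fun x => RingEquiv.congr_fun h1 x)
        (AlgEquiv.ext fun x => RingEquiv.congr_fun h2 x)⟩
  refine ⟨Finset.univ.map r, fun p => ∑ i, p.1 (d i) * p.2 (d i) * q (e i) +
    ∑ i, ∑ j, p.1 (d i) * p.2 (d j) * c i j, fun x => ?_⟩
  set u : Fin n → F := fun i => algebraMap (ZMod 2) F (e.repr x i) with hu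
  set s := Finset.univ.filter fun i => e.repr x i = 1 with hs
  have h01 : ∀ z : ZMod 2, z = 0 ∨ z = 1 := by decide
  have hind : ∀ i, u i = if i ∈ s then 1 else 0 := fun i => by
    rcases h01 (e.repr x i) with h | h <;> simp [hu, hs, h]
  have hx : x = ∑ i ∈ s, e i := by
    conv_lhs => rw [← e.sum_repr x]
    rw [hs, Finset.sum_filter]
    refine Finset.sum_congr rfl fun i _ => ?_
    rcases h01 (e.repr x i) with h | h <;> simp [h]
  have key : q x = ∑ i, u i * u i * q (e i) + ∑ i, ∑ j, u i * u j * c i j := by
    rw [hx, hsum]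
    simp only [hind, ite_mul, mul_ite, one_mul, mul_one, zero_mul, mul_zero, Finset.sum_ite_irrel,
      Finset.sum_const_zero, Finset.sum_ite_mem, Finset.univ_inter, Finset.inter_self]
  rw [key, Finset.sum_map]
  simp only [hu, hd, Finset.sum_mul_sum, Finset.sum_mul, Finset.mul_sum, add_mul, Finset.sum_add_distrib]
  rw [Fintype.sum_prod_type, Fintype.sum_prod_type]
  congr 1
  · rw [Finset.sum_comm]
    refine Finset.sum_congr rfl fun σ _ => ?_
    rw [Finset.sum_comm]
    exact Finset.sum_congr rfl fun τ _ => Finset.sum_congr rfl fun i _ => by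
      change _ = σ (d i) * τ (d i) * q (e i) * (σ x * τ x); ring
  · conv_rhs => rw [Finset.sum_comm]
    rw [Finset.sum_comm_cycle]
    refine Finset.sum_congr rfl fun τ _ => ?_
    rw [Finset.sum_comm_cycle]
    exact Finset.sum_congr rfl fun σ _ => Finset.sum_congr rfl fun i _ => Finset.sum_congr rfl fun j _ => by
      change _ = σ (d i) * τ (d j) * c i j * (σ x * τ x); ring

end Cfsg.Agent.S1168
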