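import Cfsg.Statements.S1176
import Cfsg.Agent.Isolated.Basic

set_option autoImplicit false
open Cfsg
open scoped commutatorElement

namespace Cfsg.Agent.S1176

/-- Let x₀ be an involution of the finite group G and D its conjugacy class. Assume (a) for each x ∈ D the subgroup W(x) generated by the members of D commuting with x is a 2-group of nilpotency class at most 2, and (b) the product of two distinct commuting members of D again lies in D. Then for all x, y ∈ D, if xy has even order greater than 2, its order is 4. -/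
theorem result {G : Type*} [Group G] [Finite G] (x₀ : G) (hx₀ : orderOf x₀ = 2) (ha : ∀ x : G, IsConj x₀ x → IsPGroup 2 ↥(Subgroup.closure {y : G | IsConj x₀ y ∧ Commute y x}) ∧ ⁅⁅Subgroup.closure {y : G | IsConj x₀ y ∧ Commute y x}, Subgroup.closure {y : G | IsConj x₀ y ∧ Commute y x}⁆, Subgroup.closure {y : G | IsConj x₀ y ∧ Commute y x}⁆ = ⊥) (hb : ∀ x y : G, IsConj x₀ x → IsConj x₀ y → x ≠ y → Commute x y → IsConj x₀ (x * y)) (x y : G) (hx : IsConj x₀ x) (hy : IsConj x₀ y) (heven : Even (orderOf (x * y))) (hgt : 2 < orderOf (x * y)) : orderOf (x * y) = 4 := by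
  have hconj2 : ∀ w, IsConj x₀ w → w * w = 1 := by
    intro w hw
    obtain ⟨c, hc⟩ := isConj_iff.1 hw
    rw [← hc]
    exact CfsgLib.Isolated.conj_sq c (CfsgLib.Isolated.mul_self_of_orderOf_two hx₀)
  have hx2 := hconj2 x hx
  have hy2 := hconj2 y hy
  obtain ⟨m, hm⟩ := heven
  have hm' : orderOf (x * y) = 2 * m := by omega
  obtain ⟨hne, hi2, hix, hiy⟩ := CfsgLib.Isolated.central_half hx2 hy2 hm' (by omega)
  set i := (x * y) ^ m with hi
  have hiD : IsConj x₀ (i * x) := by
    rcases CfsgLib.Isolated.pow_mul_conj hx2 hy2 m with ⟨w, -, hw, -⟩ | ⟨w, hw, -⟩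
    · rw [← hi] at hw; exact hx.trans (isConj_iff.2 ⟨w, hw⟩)
    · rw [← hi] at hw; exact hy.trans (isConj_iff.2 ⟨w, hw⟩)
  have hiD' : IsConj x₀ i := by
    have := hb x (i * x) hx hiD (fun h => hne (mul_eq_right.1 h.symm)) (hix.symm.mul_right (Commute.refl x))
    rwa [← mul_assoc, ← hix.eq, mul_assoc, hx2, mul_one] at this
  obtain ⟨hp, hcl⟩ := ha i hiD'
  set W := Subgroup.closure {w : G | IsConj x₀ w ∧ Commute w i} with hW
  have hxW : x ∈ W := Subgroup.subset_closure ⟨hx, hix.symm⟩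
  have hyW : y ∈ W := Subgroup.subset_closure ⟨hy, hiy.symm⟩
  have hcomm : ⁅⁅x, y⁆, x⁆ = 1 := by
    have := Subgroup.commutator_mem_commutator (Subgroup.commutator_mem_commutator hxW hyW) hxW
    rw [hcl] at this
    exact Subgroup.mem_bot.1 this
  have hxi : x⁻¹ = x := inv_eq_of_mul_eq_one_left hx2
  have hyi : y⁻¹ = y := inv_eq_of_mul_eq_one_left hy2
  have h4 : (x * y) ^ 4 = 1 := by
    have hxy : ⁅x, y⁆ = (x * y) ^ 2 := by rw [commutatorElement_def, hxi, hyi, pow_two, mul_assoc (x * y)]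
    rw [hxy, commutatorElement_def, hxi] at hcomm
    have hinv := CfsgLib.Isolated.inv_pow_of_mul hx2 hy2 2
    have hinv' : x * ((x * y) ^ 2)⁻¹ * x = (x * y) ^ 2 := by
      rw [← hinv]
      calc x * (x * (x * y) ^ 2 * x) * x = (x * x) * (x * y) ^ 2 * (x * x) := by simp only [mul_assoc]
        _ = (x * y) ^ 2 := by rw [hx2, one_mul, mul_one]
    rw [show (4 : ℕ) = 2 + 2 by norm_num, pow_add]
    calc (x * y) ^ 2 * (x * y) ^ 2 = (x * y) ^ 2 * (x * ((x * y) ^ 2)⁻¹ * x) := by rw [hinv']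
      _ = 1 := by rw [← hcomm]; simp only [mul_assoc]
  have hd : orderOf (x * y) ∣ 2 ^ 2 := orderOf_dvd_of_pow_eq_one h4
  obtain ⟨k, hk, hk'⟩ := (Nat.dvd_prime_pow Nat.prime_two).1 hd
  interval_cases k <;> rw [hk'] at hgt ⊢ <;> simp_all

end Cfsg.Agent.S1176
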