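import Cfsg.Statements.S1177
import Cfsg.Agent.Isolated.Basic

set_option autoImplicit false
open Cfsg

namespace Cfsg.Agent.S1177

/-- Let A be a nontrivial elementary abelian 2-subgroup of a finite group G which is a T.I. set (each conjugate of A meets A trivially or equals A) and which does not commute elementwise with any conjugate of A other than A itself. Then for every a ∈ A, a ≠ 1, every conjugate of A contained in C_G(a) is equal to A (A is weakly closed in C_G(a)). -/
theorem result {G : Type*} [Group G] [Finite G] (A : Subgroup G) (hA : Cfsg.IsElementaryAbelian 2 A) (hA1 : A ≠ ⊥) (hTI : ∀ g : G, A.map (MulAut.conj g).toMonoidHom ⊓ A = ⊥ ∨ A.map (MulAut.conj g).toMonoidHom = A) (hb : ∀ g : G, (∀ a ∈ A, ∀ b ∈ A.map (MulAut.conj g).toMonoidHom, a * b = b * a) → A.map (MulAut.conj g).toMonoidHom = A) (a : G) (ha : a ∈ A) (ha1 : a ≠ 1) (g : G) (hg : A.map (MulAut.conj g).toMonoidHom ≤ Subgroup.centralizer ({a} : Set G)) : A.map (MulAut.conj g).toMonoidHom = A := by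
  set B := A.map (MulAut.conj g).toMonoidHom with hB
  rcases hTI g with hdis | heq
  swap
  · exact heq
  have hAc : ∀ x ∈ A, ∀ y ∈ A, x * y = y * x := fun x hx y hy =>
    congrArg Subtype.val (hA.1.is_comm.comm (⟨x, hx⟩ : A) ⟨y, hy⟩)
  have hA2 : ∀ x ∈ A, x * x = 1 := fun x hx => by rw [← pow_two]; exact hA.2 x hx
  have hB2 : ∀ b ∈ B, b * b = 1 := by
    rintro _ ⟨x, hx, rfl⟩
    rw [← map_mul, hA2 x hx, map_one]
  -- every element of `B` normalizes `A`
  have hBN : ∀ b ∈ B, ∀ x ∈ A, b * x * b⁻¹ ∈ A := by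
    intro b hb x hx
    rcases hTI b with h | h
    · exfalso
      apply ha1
      have hab : a * b = b * a := Subgroup.mem_centralizer_iff.1 (hg hb) a rfl
      have : a ∈ A.map (MulAut.conj b).toMonoidHom ⊓ A := ⟨⟨a, ha, by simp [← hab]⟩, ha⟩
      rw [h] at this
      exact Subgroup.mem_bot.1 this
    · rw [← h]; exact ⟨x, hx, rfl⟩
  -- if some non-identity element of `B` commutes with `x ∈ A`, then all of `B` does
  have hC : ∀ x ∈ A, ∀ b ∈ B, b ≠ 1 → b * x = x * b → ∀ b' ∈ B, b' * x = x * b' := by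
    intro x hx b hb hb1 hbx b' hb'
    have hxB : B.map (MulAut.conj x).toMonoidHom = B := by
      obtain ⟨b₀, hb₀, hb₀'⟩ := hb
      have e : B.map (MulAut.conj x).toMonoidHom = A.map (MulAut.conj (x * g)).toMonoidHom := by
        rw [hB, Subgroup.map_map]; congr 1; ext y; simp [mul_assoc]
      rcases hTI (g⁻¹ * x * g) with h | h
      · exfalso
        apply hb1
        have hb0 : g * b₀ * g⁻¹ = b := hb₀'
        have : b₀ ∈ A.map (MulAut.conj (g⁻¹ * x * g)).toMonoidHom ⊓ A := by
          refine ⟨⟨b₀, hb₀, ?_⟩, hb₀⟩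
          show g⁻¹ * x * g * b₀ * (g⁻¹ * x * g)⁻¹ = b₀
          calc g⁻¹ * x * g * b₀ * (g⁻¹ * x * g)⁻¹ = g⁻¹ * (x * (g * b₀ * g⁻¹)) * x⁻¹ * g := by group
            _ = g⁻¹ * ((g * b₀ * g⁻¹) * x) * x⁻¹ * g := by rw [hb0, hbx]
            _ = b₀ := by group
        rw [h] at this
        rw [← hb0, Subgroup.mem_bot.1 this]; group
      · conv_rhs => rw [hB, ← h, Subgroup.map_map]
        rw [e]; congr 1; ext y; simp [mul_assoc]
    have h1 : x * b' * x⁻¹ * b'⁻¹ ∈ B := mul_mem (hxB.le ⟨b', hb', rfl⟩) (inv_mem hb')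
    have h2 : x * b' * x⁻¹ * b'⁻¹ ∈ A := by
      have := mul_mem hx (hBN b' hb' _ (inv_mem hx))
      simpa [mul_assoc] using this
    have h3 : x * b' * x⁻¹ * b'⁻¹ = 1 := by
      rw [← Subgroup.mem_bot, ← hdis]; exact ⟨h1, h2⟩
    calc b' * x = (x * b' * x⁻¹ * b'⁻¹) * (b' * x) := by rw [h3, one_mul]
      _ = x * b' := by group
  refine hb g fun x hx b hbB => ?_
  by_contra hne
  -- `b ↦ x⁻¹ (b x b⁻¹)` maps `B` injectively into the proper subset of `A` centralized by `B`
  let f : B → {y : A // ∀ b ∈ B, b * (y : G) = (y : G) * b} := fun c =>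
    ⟨⟨x⁻¹ * (c * x * (c : G)⁻¹), mul_mem (inv_mem hx) (hBN c c.2 x hx)⟩, by
      rcases eq_or_ne (c : G) 1 with h | h
      · intro b' _; simp [h]
      · refine hC _ (mul_mem (inv_mem hx) (hBN c c.2 x hx)) c c.2 h ?_
        have hci : (c : G)⁻¹ = c := inv_eq_of_mul_eq_one_left (hB2 c c.2)
        have hxi : x⁻¹ = x := inv_eq_of_mul_eq_one_left (hA2 x hx)
        set d := (c : G) * x * (c : G)⁻¹ with hd
        have hcd : (c : G) * d * (c : G) = x := by
          rw [hd, hci]
          calc (c : G) * ((c : G) * x * (c : G)) * (c : G) = (c * c) * x * (c * c : G) := by simp only [mul_assoc]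
            _ = x := by rw [hB2 c c.2, one_mul, mul_one]
        have hcx : (c : G) * x * (c : G) = d := by rw [hd, hci]
        calc (c : G) * (x⁻¹ * d) = (c * x * c : G) * (c * d * c : G) * c := by
              rw [hxi]
              calc (c : G) * (x * d) = c * x * (c * c) * d * (c * c) := by rw [hB2 c c.2, mul_one, mul_one, mul_assoc]
                _ = _ := by simp only [mul_assoc]
          _ = d * x * c := by rw [hcx, hcd]
          _ = x⁻¹ * d * c := by
              rw [hxi, hAc d (hBN c c.2 x hx) x hx]⟩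
  have hf : Function.Injective f := by
    intro c c' h
    have h' : x⁻¹ * (c * x * (c : G)⁻¹) = x⁻¹ * (c' * x * (c' : G)⁻¹) :=
      congrArg (fun y => ((y.1 : A) : G)) h
    have h2 := mul_left_cancel h'
    by_contra hcc
    apply hne
    refine (hC x hx ((c' : G)⁻¹ * c) (mul_mem (inv_mem c'.2) c.2) ?_ ?_ b hbB).symm
    · intro h1; exact hcc (Subtype.ext (inv_mul_eq_one.1 h1).symm)
    · calc (c' : G)⁻¹ * c * x = (c' : G)⁻¹ * (c * x * (c : G)⁻¹) * c := by group
        _ = x * ((c' : G)⁻¹ * c) := by rw [h2]; group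
  have hlt : Nat.card {y : A // ∀ b ∈ B, b * (y : G) = (y : G) * b} < Nat.card A :=
    Finite.card_subtype_lt (x := (⟨x, hx⟩ : A)) (fun h => hne (h b hbB).symm)
  have hcard : Nat.card B = Nat.card A :=
    Nat.card_congr (A.equivMapOfInjective _ (MulAut.conj g).injective).toEquiv.symm
  have := Nat.card_le_card_of_injective f hf
  omega

end Cfsg.Agent.S1177
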