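import Cfsg.Statements.S1178
import Mathlib

set_option autoImplicit false
open Cfsg

namespace Cfsg.Agent.S1178

/-- Let A be a subgroup of a Sylow 2-subgroup S of the finite group G which is weakly closed in S. If a conjugate g A g⁻¹ commutes elementwise with A, then g A g⁻¹ = A. -/
theorem result {G : Type*} [Group G] [Finite G] (S : Sylow 2 G) (A : Subgroup G) (hW : Cfsg.IsWeaklyClosed A (S : Subgroup G)) (g : G) (hc : ∀ a ∈ A, ∀ b ∈ A.map (MulAut.conj g).toMonoidHom, a * b = b * a) : A.map (MulAut.conj g).toMonoidHom = A := by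
  have hA : IsPGroup 2 A := S.isPGroup'.to_le hW.1
  set B := A.map (MulAut.conj g).toMonoidHom with hB
  have hB2 : IsPGroup 2 B := hA.map _
  have hnorm : A ≤ Subgroup.normalizer (B : Set G) := by
    intro a ha
    rw [Subgroup.mem_normalizer_iff]
    intro b
    constructor
    · intro hb
      rwa [hc a ha b hb, mul_assoc, mul_inv_cancel, mul_one]
    · intro hb
      have h := hc a ha _ hb
      rw [show a * b * a⁻¹ * a = a * b by group] at h
      have h2 : a * b * a⁻¹ = b := mul_left_cancel h
      rwa [← h2]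
  have hQ : IsPGroup 2 (A ⊔ B : Subgroup G) := hA.to_sup_of_normal_right' hB2 hnorm
  obtain ⟨P, hP⟩ := hQ.exists_le_sylow
  obtain ⟨y, rfl⟩ := MulAction.exists_smul_eq G S P
  have key : ∀ x : G, A.map (MulAut.conj x).toMonoidHom ≤ ((y • S : Sylow 2 G) : Subgroup G) →
      A.map (MulAut.conj x).toMonoidHom = A.map (MulAut.conj y).toMonoidHom := by
    intro x hx
    have h1 : A.map (MulAut.conj (y⁻¹ * x)).toMonoidHom ≤ (S : Subgroup G) := by
      rw [Subgroup.map_le_iff_le_comap]
      intro a ha
      have h2 := hx ⟨a, ha, rfl⟩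
      rw [Sylow.coe_subgroup_smul, Subgroup.mem_pointwise_smul_iff_inv_smul_mem] at h2
      simpa [MulAut.smul_def, mul_assoc] using h2
    have h3 := hW.2 _ h1
    conv_rhs => rw [← h3, Subgroup.map_map]
    congr 1
    ext a
    simp [mul_assoc]
  have e1 : A.map (MulAut.conj (1 : G)).toMonoidHom = A := by
    ext a; simp
  have h1 := key 1 (e1.le.trans (le_sup_left.trans hP))
  have h2 := key g (le_sup_right.trans hP)
  rw [hB, h2, ← h1, e1]

end Cfsg.Agent.S1178
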