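import Cfsg.Statements.S1181
import Cfsg.Agent.Isolated.Basic

set_option autoImplicit false
open Cfsg

namespace Cfsg.Agent.S1181

/-- Let z be an isolated involution of the finite group G and N a normal subgroup with z ∉ N. Then the centralizer of zN in G/N is the image of C_G(z), and zN is an isolated involution of G/N. -/
theorem result {G : Type*} [Group G] [Finite G] (z : G) (hz : Cfsg.IsIsolatedInvolution z) (N : Subgroup G) [N.Normal] (hzN : z ∉ N) : Subgroup.centralizer ({(QuotientGroup.mk z : G ⧸ N)} : Set (G ⧸ N)) = (Subgroup.centralizer ({z} : Set G)).map (QuotientGroup.mk' N) ∧ Cfsg.IsIsolatedInvolution (QuotientGroup.mk z : G ⧸ N) := by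
  constructor
  · ext q
    obtain ⟨g, rfl⟩ := QuotientGroup.mk'_surjective N q
    constructor
    · intro hq
      rw [Subgroup.mem_centralizer_singleton_iff] at hq
      obtain ⟨-, -, -, -, hc⟩ := CfsgLib.Isolated.rep_spec hz g
      have hu : g * z * g⁻¹ * z ∈ N := by
        rw [← QuotientGroup.eq_one_iff, QuotientGroup.mk_mul, QuotientGroup.mk_mul, QuotientGroup.mk_mul,
          QuotientGroup.mk_inv]
        rw [QuotientGroup.mk'_apply] at hq
        rw [hq, mul_inv_cancel_right, ← QuotientGroup.mk_mul, CfsgLib.Isolated.zpow_sq hz, QuotientGroup.mk_one]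
      refine ⟨_, hc, ?_⟩
      rw [QuotientGroup.mk'_apply, QuotientGroup.mk'_apply, QuotientGroup.mk_mul, QuotientGroup.mk_inv,
        (QuotientGroup.eq_one_iff _).2 (CfsgLib.Isolated.rep_mem hu), inv_one, one_mul]
    · rintro ⟨c, hc, hcg⟩
      rw [← hcg, Subgroup.mem_centralizer_singleton_iff, QuotientGroup.mk'_apply, ← QuotientGroup.mk_mul,
        ← QuotientGroup.mk_mul]
      rw [Subgroup.mem_centralizer_singleton_iff.1 hc]
  · have hz2 := CfsgLib.Isolated.zpow_sq hz
    have hzq : (QuotientGroup.mk z : G ⧸ N) * QuotientGroup.mk z = 1 := by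
      rw [← QuotientGroup.mk_mul, hz2, QuotientGroup.mk_one]
    refine ⟨orderOf_eq_prime (by rw [pow_two]; exact hzq) (fun h => hzN ((QuotientGroup.eq_one_iff z).1 h)), ?_⟩
    intro q hc
    obtain ⟨g, rfl⟩ := QuotientGroup.mk'_surjective N q
    simp only [QuotientGroup.mk'_apply, ← QuotientGroup.mk_mul, ← QuotientGroup.mk_inv] at hc ⊢
    set y := g * z * g⁻¹ with hy
    have hy2 : y * y = 1 := CfsgLib.Isolated.conj_sq g hz2
    have hyq : (QuotientGroup.mk y : G ⧸ N) * QuotientGroup.mk y = 1 := by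
      rw [← QuotientGroup.mk_mul, hy2, QuotientGroup.mk_one]
    have hodd : Odd (orderOf (QuotientGroup.mk (z * y) : G ⧸ N)) :=
      Odd.of_dvd_nat (CfsgLib.Isolated.odd_orderOf_mul hz g) (orderOf_map_dvd (QuotientGroup.mk' N) _)
    have hsq : (QuotientGroup.mk (z * y) : G ⧸ N) ^ 2 = 1 := by
      rw [QuotientGroup.mk_mul, hc.mul_pow, pow_two, pow_two, hzq, hyq, one_mul]
    rcases (Nat.dvd_prime Nat.prime_two).1 (orderOf_dvd_of_pow_eq_one hsq) with h1 | h1
    · rw [orderOf_eq_one_iff, QuotientGroup.mk_mul] at h1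
      rw [mul_eq_one_iff_eq_inv.1 h1, inv_eq_of_mul_eq_one_left hyq]
    · rw [h1] at hodd; exact absurd hodd (by decide)

end Cfsg.Agent.S1181
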