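import Cfsg.Statements.S1183
import Cfsg.Agent.Isolated.Basic

set_option autoImplicit false
open Cfsg

namespace Cfsg.Agent.S1183

/-- Let z be an isolated involution of the finite group G and C = C_G(z). Then the subgroup of G generated by its elements of odd order is all of G if and only if the subgroup of C generated by its elements of odd order is all of C. -/
theorem result {G : Type*} [Group G] [Finite G] (z : G) (hz : Cfsg.IsIsolatedInvolution z) : Cfsg.pResidual 2 G = ⊤ ↔ Cfsg.pResidual 2 ↥(Subgroup.centralizer ({z} : Set G)) = ⊤ := by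
  constructor
  · intro hG
    set C := Subgroup.centralizer ({z} : Set G) with hC
    set R := Cfsg.pResidual 2 ↥C with hR
    by_contra hne
    have hle : ∀ g, R.map (MulAut.conj g).toMonoidHom ≤ R := fun g => by
      rw [hR, Cfsg.pResidual, MonoidHom.map_closure, Subgroup.closure_le]
      rintro _ ⟨x, hx, rfl⟩
      apply Subgroup.subset_closure
      show Nat.Coprime (orderOf (MulAut.conj g x)) 2
      rw [MulEquiv.orderOf_eq]; exact hx
    have hRn : R.Normal := ⟨fun n hn g => hle g ⟨n, hn, rfl⟩⟩
    have hp : IsPGroup 2 (↥C ⧸ R) := by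
      intro q
      obtain ⟨x, rfl⟩ := QuotientGroup.mk'_surjective R q
      obtain ⟨e, m, hm, he⟩ := Nat.exists_eq_pow_mul_and_not_dvd (orderOf_pos x).ne' 2 (by norm_num)
      refine ⟨e, ?_⟩
      rw [← map_pow, QuotientGroup.mk'_apply, QuotientGroup.eq_one_iff]
      apply Subgroup.subset_closure
      show Nat.Coprime (orderOf (x ^ 2 ^ e)) 2
      have hd : orderOf (x ^ 2 ^ e) ∣ m := orderOf_dvd_of_pow_eq_one (by rw [← pow_mul, ← he, pow_orderOf_eq_one])
      exact Nat.Coprime.coprime_dvd_left hd (((Nat.prime_two.coprime_iff_not_dvd).2 hm).symm)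
    have hnt : Nontrivial (↥C ⧸ R) := QuotientGroup.nontrivial_iff.2 hne
    have : Finite (↥C ⧸ R) := inferInstance
    have hnil : Group.IsNilpotent (↥C ⧸ R) := hp.isNilpotent
    let π : ↥C →* Abelianization (↥C ⧸ R) := Abelianization.of.comp (QuotientGroup.mk' R)
    have hπ : Function.Surjective π :=
      (Quotient.mk_surjective).comp (QuotientGroup.mk'_surjective R)
    have hA : IsPGroup 2 (Abelianization (↥C ⧸ R)) := hp.of_surjective Abelianization.of Quotient.mk_surjective
    have hNT : Nontrivial (Abelianization (↥C ⧸ R)) := by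
      apply QuotientGroup.nontrivial_iff.2
      exact (IsSolvable.commutator_lt_top_of_nontrivial (↥C ⧸ R)).ne
    -- transfer kills every element of odd order, hence is trivial
    have htriv : ∀ x : G, MonoidHom.transfer π x = 1 := by
      have hle : (⊤ : Subgroup G) ≤ (MonoidHom.transfer π).ker := by
        rw [← hG, Cfsg.pResidual, Subgroup.closure_le]
        intro g hg
        obtain ⟨e, he⟩ := hA (MonoidHom.transfer π g)
        have h1 : orderOf (MonoidHom.transfer π g) ∣ 2 ^ e := orderOf_dvd_of_pow_eq_one he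
        have h2 : orderOf (MonoidHom.transfer π g) ∣ orderOf g := orderOf_map_dvd _ g
        rw [SetLike.mem_coe, MonoidHom.mem_ker, ← orderOf_eq_one_iff]
        exact Nat.eq_one_of_dvd_coprimes (Nat.Coprime.pow_right e hg) h2 h1
      exact fun x => MonoidHom.mem_ker.1 (hle (Subgroup.mem_top x))
    have hindex : Odd C.index := by
      rw [← Nat.not_even_iff_odd, even_iff_two_dvd]
      intro hdvd
      have hcz : z ∈ C := Subgroup.mem_centralizer_singleton_iff.2 rfl
      have hz2 : IsPGroup 2 (Subgroup.zpowers z) := IsPGroup.of_card (n := 1) (by rw [Nat.card_zpowers, hz.1, pow_one])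
      obtain ⟨P, hP⟩ := hz2.exists_le_sylow
      have hPC : (P : Subgroup G) ≤ C := by
        intro s hs
        have hzP : z ∈ (P : Subgroup G) := hP (Subgroup.mem_zpowers z)
        have hu : z * (s * z * s⁻¹) ∈ (P : Subgroup G) :=
          mul_mem hzP (mul_mem (mul_mem hs hzP) (inv_mem hs))
        obtain ⟨e, he⟩ := P.isPGroup' ⟨_, hu⟩
        have hd : orderOf (z * (s * z * s⁻¹)) ∣ 2 ^ e := orderOf_dvd_of_pow_eq_one (by simpa using congrArg Subtype.val he)
        have h1 : orderOf (z * (s * z * s⁻¹)) = 1 :=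
          Nat.eq_one_of_dvd_coprimes (Nat.Coprime.pow_right e
            (Nat.coprime_two_right.2 (CfsgLib.Isolated.odd_orderOf_mul hz s))) dvd_rfl hd
        rw [orderOf_eq_one_iff, mul_eq_one_iff_inv_eq, inv_eq_of_mul_eq_one_left (CfsgLib.Isolated.zpow_sq hz)] at h1
        rw [hC, Subgroup.mem_centralizer_singleton_iff]
        nth_rw 2 [h1]; group
      exact P.not_dvd_index (hdvd.trans (Subgroup.index_dvd_of_le hPC))
    obtain ⟨a, ha⟩ := exists_ne (1 : Abelianization (↥C ⧸ R))
    obtain ⟨x, rfl⟩ := hπ a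
    apply ha
    classical
    let := C.fintypeQuotientOfFiniteIndex
    have hpow : MonoidHom.transfer π (x : G) = π x ^ C.index := by
      rw [MonoidHom.transfer_eq_prod_quotient_orbitRel_zpowers_quot,
        Subgroup.index_eq_sum_minimalPeriod C (x : G), ← Finset.prod_pow_eq_pow_sum]
      refine Finset.prod_congr rfl fun q _ => ?_
      set n := Function.minimalPeriod ((x : G) • ·) q.out
      set g₀ := q.out.out
      have hmem : g₀⁻¹ * (x : G) ^ n * g₀ ∈ C := QuotientGroup.out_conj_pow_minimalPeriod_mem C (x : G) q.out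
      obtain ⟨hcC, -, hconj⟩ := CfsgLib.Isolated.fusion_control hz
        (x := (x : G) ^ n) (y := g₀⁻¹ * (x : G) ^ n * g₀) (h := g₀⁻¹)
        (Commute.pow_left (Subgroup.mem_centralizer_singleton_iff.1 x.2) n)
        (Subgroup.mem_centralizer_singleton_iff.1 hmem) (by rw [inv_inv]) ⊤ (Subgroup.mem_top _)
        (fun a _ => Subgroup.mem_top _)
      have hc : (CfsgLib.Isolated.rep z g₀⁻¹)⁻¹ * g₀⁻¹ ∈ C := (CfsgLib.Isolated.rep_spec hz g₀⁻¹).2.2.2.2
      have heq : (⟨g₀⁻¹ * (x : G) ^ n * g₀, hmem⟩ : C) = (⟨_, hc⟩ : C) * x ^ n * (⟨_, hc⟩ : C)⁻¹ := by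
        ext; push_cast; exact hconj.symm
      rw [heq, map_mul, map_mul, map_inv, mul_comm (π _), mul_inv_cancel_right, map_pow]
    have h1 : π x ^ C.index = 1 := by rw [← hpow]; exact htriv _
    obtain ⟨e, he⟩ := hA (π x)
    rw [← orderOf_eq_one_iff]
    exact Nat.eq_one_of_dvd_coprimes (Nat.Coprime.pow_right e (Nat.coprime_two_right.2 hindex))
      (orderOf_dvd_of_pow_eq_one h1) (orderOf_dvd_of_pow_eq_one he)
  · intro hC
    rw [eq_top_iff]
    intro g _
    obtain ⟨h1, -, -, h4, -⟩ := CfsgLib.Isolated.rep_spec hz g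
    have hle : Subgroup.centralizer ({z} : Set G) ≤ Cfsg.pResidual 2 G := by
      intro c hc
      have hmap : (Cfsg.pResidual 2 ↥(Subgroup.centralizer ({z} : Set G))).map
          (Subgroup.centralizer ({z} : Set G)).subtype ≤ Cfsg.pResidual 2 G := by
        rw [Cfsg.pResidual, MonoidHom.map_closure, Subgroup.closure_le]
        rintro _ ⟨x, hx, rfl⟩
        apply Subgroup.subset_closure
        show Nat.Coprime (orderOf (x : G)) 2
        rw [Subgroup.orderOf_coe]; exact hx
      exact hmap ⟨⟨c, hc⟩, by rw [hC]; exact Subgroup.mem_top _, rfl⟩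
    have hk : CfsgLib.Isolated.rep z g ∈ Cfsg.pResidual 2 G :=
      Subgroup.subset_closure (Nat.coprime_two_right.2 h1)
    have := mul_mem hk (inv_mem (hle h4))
    simpa [mul_assoc] using this

end Cfsg.Agent.S1183
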