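import Cfsg.Statements.S1186
import Cfsg.Agent.Isolated.Basic

set_option autoImplicit false
open Cfsg

namespace Cfsg.Agent.S1186

/-- Let z be an isolated involution of the finite group G, C = C_G(z), K the set of elements of odd order inverted by z, and s an involution of C. Then |G| = |C| · |C_K(sz)| · |C_K(s)|. -/
theorem result {G : Type*} [Group G] [Finite G] (z : G) (hz : Cfsg.IsIsolatedInvolution z) (s : G) (hs : orderOf s = 2) (hsz : Commute s z) : Nat.card G = Nat.card (Subgroup.centralizer ({z} : Set G)) * Nat.card {k : G // Odd (orderOf k) ∧ z * k * z⁻¹ = k⁻¹ ∧ Commute k (s * z)} * Nat.card {k : G // Odd (orderOf k) ∧ z * k * z⁻¹ = k⁻¹ ∧ Commute k s} := by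
  have hz2 := CfsgLib.Isolated.zpow_sq hz
  have hs2 := CfsgLib.Isolated.mul_self_of_orderOf_two hs
  have hzi : z⁻¹ = z := inv_eq_of_mul_eq_one_left hz2
  have hsz2 : (s * z) * (s * z) = 1 := by
    rw [mul_assoc, ← mul_assoc z s z, ← hsz.eq, mul_assoc, hz2, mul_one, hs2]
  let f : {k : G // Odd (orderOf k) ∧ z * k * z⁻¹ = k⁻¹ ∧ Commute k (s * z)} ×
      {k : G // Odd (orderOf k) ∧ z * k * z⁻¹ = k⁻¹ ∧ Commute k s} →
      G ⧸ Subgroup.centralizer ({z} : Set G) := fun p => ((p.1.1 * p.2.1 : G) : G ⧸ _)
  have hbij : Function.Bijective f := by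
    constructor
    · rintro ⟨⟨a, ha1, ha2, ha3⟩, ⟨b, hb1, hb2, hb3⟩⟩ ⟨⟨a', ha1', ha2', ha3'⟩, ⟨b', hb1', hb2', hb3'⟩⟩ h
      simp only [f, QuotientGroup.eq, Subgroup.mem_centralizer_singleton_iff] at h
      set c := a⁻¹ * a' with hc
      have hcsz : Commute c (s * z) := ha3.inv_left.mul_left ha3'
      set z3 := c * z * c⁻¹ with hz3
      set z1 := b' * z * b'⁻¹ with hz1
      have e : c * z1 * c⁻¹ = b * z * b⁻¹ := by
        calc c * z1 * c⁻¹ = b * ((a * b)⁻¹ * (a' * b') * z * ((a * b)⁻¹ * (a' * b'))⁻¹) * b⁻¹ := by
              rw [hc, hz1]; group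
          _ = b * z * b⁻¹ := by rw [h]; group
      set z2 := b * z * b⁻¹ with hz2'
      have hcs : Commute z2 s := by
        rw [hz2']
        exact (hb3.mul_left hsz.symm).mul_left hb3.inv_left
      have hcs1 : Commute z1 s := by
        rw [hz1]
        exact (hb3'.mul_left hsz.symm).mul_left hb3'.inv_left
      have hcc : Commute z2 (c * s * c⁻¹) := by
        rw [← e]
        simpa using hcs1.map (MulAut.conj c).toMonoidHom
      have hprod : z * z3 = s * (c * s * c⁻¹) := by
        calc z * z3 = s * ((s * z) * (c * z * c⁻¹)) := by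
              rw [hz3, mul_assoc s z, ← mul_assoc s s, hs2, one_mul]
          _ = s * (c * ((s * z) * z) * c⁻¹) := by
              congr 1; rw [← mul_assoc c (s * z) z, hcsz.eq]; group
          _ = s * (c * s * c⁻¹) := by rw [mul_assoc s z z, hz2, mul_one]
      have hcomm : Commute (z * z3) z2 := by rw [hprod]; exact (hcs.mul_right hcc).symm
      have hz3z : z3 = z := by
        by_contra hne
        have hiso := CfsgLib.Isolated.isolated_conj hz b
        have key := CfsgLib.Isolated.not_commute_mul hiso (g := b⁻¹) (h := c * b⁻¹) (by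
          simp only [hz3] at hne
          simpa [mul_assoc] using Ne.symm hne)
        apply key
        rw [hz3, hz2'] at hcomm
        simpa [mul_assoc] using hcomm
      have hcC : a⁻¹ * a' ∈ Subgroup.centralizer ({z} : Set G) := by
        rw [Subgroup.mem_centralizer_singleton_iff, ← hc]
        calc c * z = z3 * c := by rw [hz3]; group
          _ = z * c := by rw [hz3z]
      have haa : a = a' := by
        have u1 := CfsgLib.Isolated.rep_unique hz ha1' ha2' hcC
        have u2 := CfsgLib.Isolated.rep_unique hz (g := a) ha1 ha2 (by rw [inv_mul_cancel]; exact one_mem _)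
        rw [u1, u2.symm]
      subst haa
      have hcC' : b⁻¹ * b' ∈ Subgroup.centralizer ({z} : Set G) := by
        rw [Subgroup.mem_centralizer_singleton_iff]
        simpa [mul_assoc] using h
      have hbb : b = b' := by
        have u1 := CfsgLib.Isolated.rep_unique hz hb1' hb2' hcC'
        have u2 := CfsgLib.Isolated.rep_unique hz (g := b) hb1 hb2 (by rw [inv_mul_cancel]; exact one_mem _)
        rw [u1, u2.symm]
      subst hbb
      rfl
    · intro q
      obtain ⟨g, rfl⟩ := QuotientGroup.mk_surjective q
      set y := g * z * g⁻¹ with hy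
      have hy2 : y * y = 1 := CfsgLib.Isolated.conj_sq g hz2
      have hszne : ∀ w : G, w * z * w⁻¹ ≠ s * z := by
        intro w hw
        have hc : Commute z (w * z * w⁻¹) := by rw [hw]; exact hsz.symm.mul_right (Commute.refl z)
        have := hz.2 w hc
        rw [hw] at this
        rw [mul_eq_right.1 this, orderOf_one] at hs
        exact absurd hs (by norm_num)
      obtain ⟨m, hm⟩ : Even (orderOf (s * z * y)) := by
        by_contra h
        rw [Nat.not_even_iff_odd] at h
        obtain ⟨l, hl⟩ := h
        rcases CfsgLib.Isolated.pow_mul_conj hsz2 hy2 (orderOf (s * z * y)) with ⟨w, -, -, he⟩ | ⟨w, hw, -⟩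
        · rw [hl] at he; simp [parity_simps] at he
        · rw [pow_orderOf_eq_one, one_mul] at hw
          exact hszne (w * g) (by rw [← hw, hy]; group)
      have hpos : 0 < m := by
        have := orderOf_pos (s * z * y); omega
      obtain ⟨hne, hi2, hi_sz, hi_y⟩ := CfsgLib.Isolated.central_half hsz2 hy2 (by omega : _ = 2 * m) hpos
      set i := (s * z * y) ^ m with hi
      rcases CfsgLib.Isolated.pow_mul_conj hsz2 hy2 m with ⟨w, hwz, hw, hme⟩ | ⟨w, hw, -⟩
      · -- impossible: then `i * y` would be a conjugate of `y` commuting with `y`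
        exfalso
        rw [← hi] at hw
        obtain ⟨l, rfl⟩ := hme
        have hy' : ∃ v, v * y * v⁻¹ = i * y := by
          refine ⟨((s * z * y) ^ l), ?_⟩
          have hinv := CfsgLib.Isolated.inv_pow_of_mul hsz2 hy2 l
          have hy_eq : y = (s * z) * (s * z * y) := by rw [← mul_assoc, hsz2, one_mul]
          have hconj : y * (s * z * y) ^ l * y = ((s * z * y) ^ l)⁻¹ := by
            nth_rw 1 [hy_eq]; nth_rw 3 [hy_eq]
            calc (s * z) * (s * z * y) * (s * z * y) ^ l * ((s * z) * (s * z * y))
                = (s * z) * ((s * z * y) * (s * z * y) ^ l) * (s * z) * (s * z * y) := by simp only [mul_assoc]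
              _ = ((s * z * y) ^ (l + 1))⁻¹ * (s * z * y) := by
                rw [← pow_succ', CfsgLib.Isolated.inv_pow_of_mul hsz2 hy2]
              _ = ((s * z * y) ^ l)⁻¹ := by rw [pow_succ', mul_inv_rev]; group
          rw [← hconj, hi, pow_add]
          calc (s * z * y) ^ l * y * (y * (s * z * y) ^ l * y)
              = (s * z * y) ^ l * (y * y) * (s * z * y) ^ l * y := by simp only [mul_assoc]
            _ = _ := by rw [hy2, mul_one]
        obtain ⟨v, hv⟩ := hy'
        have := (CfsgLib.Isolated.isolated_conj hz g).2 v (by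
          rw [← hy, hv]; exact hi_y.symm.mul_right (Commute.refl y))
        rw [← hy, hv] at this
        exact hne (mul_eq_right.1 this)
      · rw [← hi] at hw
        have hz3 : (w * g) * z * (w * g)⁻¹ = i * (s * z) := by rw [← hw, hy]; group
        obtain ⟨a1, a2, a3, -, -⟩ := CfsgLib.Isolated.rep_spec hz (w * g)
        set a := CfsgLib.Isolated.rep z (w * g) with ha
        have hasz : Commute a (s * z) := by
          rw [ha]; unfold CfsgLib.Isolated.rep
          rw [hz3]
          exact ((hi_sz.mul_left (Commute.refl _)).mul_left (hsz.symm.mul_right (Commute.refl z))).pow_left _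
        have has : a * s * a⁻¹ = i := by
          calc a * s * a⁻¹ = a * (s * z * z) * a⁻¹ := by rw [mul_assoc s z z, hz2, mul_one]
            _ = (s * z) * (a * z * a⁻¹) := by rw [← mul_assoc a (s * z) z, hasz.eq]; group
            _ = i := by rw [a3, hz3, ← mul_assoc, ← hi_sz.eq, mul_assoc, hsz2, mul_one]
        obtain ⟨b1, b2, -, b4, -⟩ := CfsgLib.Isolated.rep_spec hz (a⁻¹ * g)
        set b := CfsgLib.Isolated.rep z (a⁻¹ * g) with hb
        have hb3 : Commute b s := by
          rw [hb]; unfold CfsgLib.Isolated.rep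
          have h1 : Commute (a⁻¹ * g * z * (a⁻¹ * g)⁻¹) s := by
            have := hi_y.symm.map (MulAut.conj a⁻¹).toMonoidHom
            rw [← has, hy] at this
            simpa [mul_assoc] using this
          exact (h1.mul_left hsz.symm).pow_left _
        refine ⟨⟨⟨a, a1, a2, hasz⟩, ⟨b, b1, b2, hb3⟩⟩, ?_⟩
        simp only [f, QuotientGroup.eq]
        have := Subgroup.inv_mem _ b4
        simpa [mul_assoc] using this
  rw [Subgroup.card_eq_card_quotient_mul_card_subgroup (Subgroup.centralizer ({z} : Set G)),
    ← Nat.card_eq_of_bijective f hbij, Nat.card_prod]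
  ring

end Cfsg.Agent.S1186
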