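import Cfsg.Statements.S1224
import Cfsg.Agent.Invol.StronglyEmbedded
import Mathlib.GroupTheory.GroupAction.Quotient

set_option autoImplicit false
open Cfsg

namespace Cfsg.Agent.S1224

/-- Let H be a strongly embedded subgroup of the finite group G and x ≠ y two cosets in G/H. Then the number of involutions i of G with i • x = y equals the number of involutions lying in H. -/
theorem result {G : Type*} [Group G] [Finite G] (H : Subgroup G) (hH : Cfsg.IsStronglyEmbedded H) (x y : G ⧸ H) (hxy : x ≠ y) : Nat.card {i : G // orderOf i = 2 ∧ i • x = y} = Nat.card {t : G // orderOf t = 2 ∧ t ∈ H} := by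
  obtain ⟨a, rfl⟩ := QuotientGroup.mk_surjective x
  obtain ⟨b, rfl⟩ := QuotientGroup.mk_surjective y
  have hg : a⁻¹ * b ∉ H := fun h => hxy (QuotientGroup.eq.2 h)
  rw [← CfsgLib.Invol.card_involutions_coset hH hg]
  have hiff : ∀ i : G, i • (a : G ⧸ H) = (b : G ⧸ H) ↔ (a⁻¹ * b)⁻¹ * (a⁻¹ * i * a) ∈ H := fun i => by
    rw [MulAction.Quotient.smul_coe, eq_comm, QuotientGroup.eq, smul_eq_mul,
      show (a⁻¹ * b)⁻¹ * (a⁻¹ * i * a) = b⁻¹ * (i * a) by group]
  have ho : ∀ c i : G, orderOf (c * i * c⁻¹) = orderOf i := CfsgLib.Invol.orderOf_conj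
  exact Nat.card_congr
    { toFun := fun i => ⟨a⁻¹ * i.1 * a, by
        have := ho a⁻¹ i.1
        rw [inv_inv] at this
        rw [this]; exact i.2.1, (hiff i.1).1 i.2.2⟩
      invFun := fun w => ⟨a * w.1 * a⁻¹, by rw [ho]; exact w.2.1, (hiff _).2 (by
        rw [show a⁻¹ * (a * w.1 * a⁻¹) * a = w.1 by group]; exact w.2.2)⟩
      left_inv := fun i => Subtype.ext (by show a * (a⁻¹ * i.1 * a) * a⁻¹ = i.1; group)
      right_inv := fun w => Subtype.ext (by show a⁻¹ * (a * w.1 * a⁻¹) * a = w.1; group) }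

end Cfsg.Agent.S1224
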