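import Cfsg.Statements.S1335
-- import your own Cfsg.Agent.* helpers here

set_option autoImplicit false
open Cfsg

namespace Cfsg.Agent.S1335

/-- Let H be a subgroup of the finite group G, p a prime, k ≥ 1, P a Sylow p-subgroup of H of p-rank at least k, and suppose N_G(X) ≤ H for every subgroup X ≤ P of p-rank at least k. Then P is a Sylow p-subgroup of G. -/
theorem result {G : Type*} [Group G] [Finite G] {p : ℕ} [Fact p.Prime] (k : ℕ) (hk : 1 ≤ k) (H : Subgroup G) (P : Sylow p ↥H) (hP : ¬ Cfsg.PRankLE p (k - 1) ↥(P : Subgroup ↥H)) (hΓ : (∀ X : Subgroup G, X ≤ (P : Subgroup ↥H).map H.subtype → ¬ Cfsg.PRankLE p (k - 1) ↥X → Subgroup.normalizer (X : Set G) ≤ H)) : ∃ Q : Sylow p G, (Q : Subgroup G) = (P : Subgroup ↥H).map H.subtype := by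
  set P' := (P : Subgroup ↥H).map H.subtype with hP'
  have hP'p : IsPGroup p P' := P.2.map _
  have e : ↥(P : Subgroup ↥H) ≃* ↥P' := (P : Subgroup ↥H).equivMapOfInjective _ Subtype.val_injective
  have hN : Subgroup.normalizer (P' : Set G) ≤ H := by
    refine hΓ P' le_rfl fun hr => hP ?_
    intro A hA hAp
    have h1 : IsMulCommutative (A.map e.toMonoidHom) := inferInstance
    have h2 : ∀ a ∈ A.map e.toMonoidHom, a ^ p = 1 := by
      rintro _ ⟨a, ha, rfl⟩
      rw [← map_pow, hAp a ha, map_one]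
    have := hr _ h1 h2
    rwa [Subgroup.card_map_of_injective e.injective] at this
  obtain ⟨Q, hQ⟩ := hP'p.exists_le_sylow
  refine ⟨Q, (le_antisymm hQ ?_).symm⟩
  by_contra hne
  have hlt : P'.subgroupOf (Q : Subgroup G) < ⊤ :=
    lt_top_iff_ne_top.2 fun h => hne (Subgroup.subgroupOf_eq_top.1 h)
  have : Group.IsNilpotent ↥(Q : Subgroup G) := Q.2.isNilpotent
  obtain ⟨x, hx, hxP⟩ := SetLike.exists_of_lt (Group.normalizerCondition_of_isNilpotent _ hlt)
  set R := (Q : Subgroup G) ⊓ Subgroup.normalizer (P' : Set G) with hR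
  have hxR : (x : G) ∈ R := by
    refine ⟨x.2, Subgroup.mem_normalizer_iff.2 fun g => ?_⟩
    constructor
    · intro hg
      exact (Subgroup.mem_normalizer_iff.1 hx ⟨g, hQ hg⟩).1 hg
    · intro hg
      have hgQ : g ∈ (Q : Subgroup G) := by
        have h := hQ hg
        have h3 : g = (x : G)⁻¹ * ((x : G) * g * (x : G)⁻¹) * x := by group
        rw [h3]; exact Subgroup.mul_mem _ (Subgroup.mul_mem _ (Subgroup.inv_mem _ x.2) h) x.2
      exact (Subgroup.mem_normalizer_iff.1 hx ⟨g, hgQ⟩).2 hg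
  have hRp : IsPGroup p (R.subgroupOf H) :=
    (Q.2.to_le (inf_le_left : R ≤ _)).comap_subtype
  have hPR : (P : Subgroup ↥H) ≤ R.subgroupOf H := by
    intro g hg
    have : (g : G) ∈ P' := Subgroup.mem_map_of_mem _ hg
    exact ⟨hQ this, Subgroup.le_normalizer this⟩
  have heq := P.3 hRp hPR
  apply hxP
  have : (⟨(x : G), hN hxR.2⟩ : ↥H) ∈ (P : Subgroup ↥H) := by
    rw [← heq]; exact hxR
  exact Subgroup.mem_map_of_mem H.subtype this

end Cfsg.Agent.S1335
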