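import Cfsg.Statements.S1231
import Cfsg.Agent.S1335
import Mathlib

set_option autoImplicit false
open Cfsg
open scoped Pointwise

namespace Cfsg.Agent.S1231


theorem rank_mono {G : Type*} [Group G] {p j : ℕ} {X Y : Subgroup G} (h : X ≤ Y)
    (hX : ¬ Cfsg.PRankLE p j ↥X) : ¬ Cfsg.PRankLE p j ↥Y := by
  intro hY
  apply hX
  intro A hA hAp
  have h1 : IsMulCommutative (A.map (Subgroup.inclusion h)) := inferInstance
  have h2 : ∀ a ∈ A.map (Subgroup.inclusion h), a ^ p = 1 := by
    rintro _ ⟨a, ha, rfl⟩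
    rw [← map_pow, hAp a ha, map_one]
  have := hY _ h1 h2
  rwa [Subgroup.card_map_of_injective (Subgroup.inclusion_injective h)] at this

theorem rank_map {G H : Type*} [Group G] [Group H] {p j : ℕ} (f : G →* H) (hf : Function.Injective f) (X : Subgroup G)
    (hX : ¬ Cfsg.PRankLE p j ↥X) : ¬ Cfsg.PRankLE p j ↥(X.map f) := by
  intro hY
  apply hX
  intro A hA hAp
  let e := X.equivMapOfInjective f hf
  have h1 : IsMulCommutative (A.map e.toMonoidHom) := inferInstance
  have h2 : ∀ a ∈ A.map e.toMonoidHom, a ^ p = 1 := by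
    rintro _ ⟨a, ha, rfl⟩
    rw [← map_pow, hAp a ha, map_one]
  have := hY _ h1 h2
  rwa [Subgroup.card_map_of_injective e.injective] at this

theorem exists_pgroup {G : Type*} [Group G] [Finite G] {p j : ℕ} [Fact p.Prime] (X : Subgroup G)
    (hX : ¬ Cfsg.PRankLE p j ↥X) : ∃ Q : Subgroup G, Q ≤ X ∧ IsPGroup p Q ∧ ¬ Cfsg.PRankLE p j ↥Q := by
  unfold Cfsg.PRankLE at hX
  push Not at hX
  obtain ⟨A, hA, hAp, hcard⟩ := hX
  refine ⟨A.map X.subtype, Subgroup.map_subtype_le A,
    (IsPGroup.map (fun a => ⟨1, Subtype.ext (by rw [pow_one]; exact hAp a a.2)⟩) _), fun h => ?_⟩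
  let e := A.equivMapOfInjective X.subtype X.subtype_injective
  haveI : IsMulCommutative (A.map X.subtype : Subgroup G) := inferInstance
  have h1 : IsMulCommutative (⊤ : Subgroup (A.map X.subtype : Subgroup G)) :=
    ⟨⟨fun a b => Subtype.ext (mul_comm' (a : (A.map X.subtype : Subgroup G)) b)⟩⟩
  have h2 : ∀ a ∈ (⊤ : Subgroup (A.map X.subtype : Subgroup G)), a ^ p = 1 := by
    rintro ⟨_, a', ha', rfl⟩ -
    exact Subtype.ext (by show (a' : G) ^ p = 1; exact congrArg Subtype.val (hAp a' ha'))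
  have := h _ h1 h2
  rw [Subgroup.card_top, ← Nat.card_congr e.toEquiv] at this
  omega


/-- Let H be a subgroup of the finite group G, p a prime, k ≥ 1, and P a Sylow p-subgroup of H whose p-rank is at least k. Then N_G(X) ≤ H for every subgroup X of P of p-rank at least k if and only if H ∩ gHg⁻¹ has p-rank less than k for every g ∉ H. -/
theorem result {G : Type*} [Group G] [Finite G] {p : ℕ} [Fact p.Prime] (k : ℕ) (hk : 1 ≤ k) (H : Subgroup G) (P : Sylow p ↥H) (hP : ¬ Cfsg.PRankLE p (k - 1) ↥(P : Subgroup ↥H)) : (∀ X : Subgroup G, X ≤ (P : Subgroup ↥H).map H.subtype → ¬ Cfsg.PRankLE p (k - 1) ↥X → Subgroup.normalizer (X : Set G) ≤ H) ↔ (∀ g : G, g ∉ H → Cfsg.PRankLE p (k - 1) ↥(H ⊓ H.map (MulAut.conj g).toMonoidHom)) := by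
  set P' := (P : Subgroup ↥H).map H.subtype with hP'
  have hP'H : P' ≤ H := Subgroup.map_subtype_le _
  constructor
  · intro hΓ g hg
    by_contra hD
    obtain ⟨S, hS⟩ := Cfsg.Agent.S1335.result k hk H P hP hΓ
    obtain ⟨Q, hQD, hQp, hQr⟩ := exists_pgroup _ hD
    obtain ⟨hQH, hQg⟩ := le_inf_iff.1 hQD
    -- normalisers of `p`-subgroups of rank at least `k` in `H` lie in `H`
    have hN : ∀ X : Subgroup G, X ≤ H → IsPGroup p X → ¬ Cfsg.PRankLE p (k - 1) ↥X →
        Subgroup.normalizer (X : Set G) ≤ H := by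
      intro X hXH hXp hXr
      obtain ⟨T, hT⟩ := (hXp.comap_subtype (K := H)).exists_le_sylow
      obtain ⟨h, hh⟩ := MulAction.exists_smul_eq H T P
      have hX' : X.map (MulAut.conj (h : G)).toMonoidHom ≤ P' := by
        rintro _ ⟨x, hx, rfl⟩
        refine ⟨h * ⟨x, hXH hx⟩ * h⁻¹, ?_, rfl⟩
        rw [SetLike.mem_coe, ← hh]
        exact Subgroup.smul_mem_pointwise_smul _ (MulAut.conj h) (T : Subgroup H) (hT hx)
      intro n hn
      have hn' : (h : G) * n * (h : G)⁻¹ ∈ H := by
        refine hΓ _ hX' (rank_map _ (MulAut.conj (h : G)).injective _ hXr) ?_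
        rw [Subgroup.mem_normalizer_iff]
        intro x
        have he : ∀ y : G, y ∈ X.map (MulAut.conj (h : G)).toMonoidHom ↔ (h : G)⁻¹ * y * h ∈ X := fun y => by
          rw [Subgroup.mem_map_equiv]; rfl
        rw [he, he, Subgroup.mem_normalizer_iff.1 hn ((h : G)⁻¹ * x * h)]
        group
      rwa [H.mul_mem_cancel_right (H.inv_mem h.2), H.mul_mem_cancel_left h.2] at hn'
    -- a `p`-subgroup meeting `H` in rank at least `k` lies in `H`
    have hgrow : ∀ R : Subgroup G, IsPGroup p R → ¬ Cfsg.PRankLE p (k - 1) ↥(R ⊓ H : Subgroup G) → R ≤ H := by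
      intro R hR hr
      by_contra hne
      have hlt : (R ⊓ H).subgroupOf R < ⊤ :=
        lt_top_iff_ne_top.2 fun h => hne ((Subgroup.subgroupOf_eq_top.1 h).trans inf_le_right)
      haveI : Group.IsNilpotent ↥R := hR.isNilpotent
      obtain ⟨x, hx, hxn⟩ := SetLike.exists_of_lt (Group.normalizerCondition_of_isNilpotent _ hlt)
      apply hxn
      rw [Subgroup.mem_subgroupOf]
      refine ⟨x.2, hN _ inf_le_right (hR.to_le inf_le_left) hr ?_⟩
      rw [Subgroup.mem_normalizer_iff]
      intro y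
      constructor
      · intro hy
        exact (Subgroup.mem_normalizer_iff.1 hx ⟨y, hy.1⟩).1 hy
      · intro hy
        have hyR : y ∈ R := by
          have h3 : y = (x : G)⁻¹ * ((x : G) * y * (x : G)⁻¹) * x := by group
          rw [h3]; exact R.mul_mem (R.mul_mem (R.inv_mem x.2) hy.1) x.2
        exact (Subgroup.mem_normalizer_iff.1 hx ⟨y, hyR⟩).2 hy
    -- a Sylow subgroup of `gHg⁻¹` through `Q`
    have hQ' : IsPGroup p (Q.map (MulAut.conj g⁻¹).toMonoidHom) := hQp.map _
    have hQ'H : Q.map (MulAut.conj g⁻¹).toMonoidHom ≤ H := by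
      rintro _ ⟨x, hx, rfl⟩
      obtain ⟨y, hy, rfl⟩ := hQg hx
      show g⁻¹ * (g * y * g⁻¹) * g⁻¹⁻¹ ∈ H
      rw [show g⁻¹ * (g * y * g⁻¹) * g⁻¹⁻¹ = y by group]
      exact hy
    obtain ⟨T, hT⟩ := (hQ'.comap_subtype (K := H)).exists_le_sylow
    obtain ⟨h, hh⟩ := MulAction.exists_smul_eq H T P
    set c : G := g * (h : G)⁻¹ with hc
    have hcH : c ∉ H := fun h' => hg (by
      have := H.mul_mem h' h.2
      rwa [hc, inv_mul_cancel_right] at this)
    have hQc : Q ≤ P'.map (MulAut.conj c).toMonoidHom := by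
      intro x hx
      have hxH : g⁻¹ * x * g ∈ H := by
        have := hQ'H ⟨x, hx, rfl⟩
        simpa using this
      refine ⟨(h : G) * (g⁻¹ * x * g) * (h : G)⁻¹, ⟨h * ⟨_, hxH⟩ * h⁻¹, ?_, rfl⟩, ?_⟩
      · rw [SetLike.mem_coe, ← hh]
        refine Subgroup.smul_mem_pointwise_smul _ (MulAut.conj h) (T : Subgroup H) (hT ?_)
        exact ⟨x, hx, by simp⟩
      · show c * ((h : G) * (g⁻¹ * x * g) * (h : G)⁻¹) * c⁻¹ = x
        rw [hc]; group
    have hle : P'.map (MulAut.conj c).toMonoidHom ≤ H :=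
      hgrow _ ((P.2.map _).map _) (rank_mono (le_inf hQc hQH) hQr)
    -- both are Sylow subgroups of `H`
    have hcard : Nat.card (P'.map (MulAut.conj c).toMonoidHom : Subgroup G) = Nat.card P' :=
      Subgroup.card_map_of_injective (MulAut.conj c).injective
    obtain ⟨T', hT'⟩ := (((P.2.map H.subtype).map (MulAut.conj c).toMonoidHom).comap_subtype (K := H)).exists_le_sylow
    have hT'eq : (P'.map (MulAut.conj c).toMonoidHom).subgroupOf H = (T' : Subgroup H) := by
      refine Subgroup.eq_of_le_of_card_ge hT' (le_of_eq ?_)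
      rw [Nat.card_congr (Subgroup.subgroupOfEquivOfLe hle).toEquiv, hcard, hP',
        Subgroup.card_map_of_injective H.subtype_injective]
      exact T'.card_eq_multiplicity.trans P.card_eq_multiplicity.symm
    obtain ⟨d, hd⟩ := MulAction.exists_smul_eq H T' P
    apply hcH
    have hdc : (d : G) * c ∈ Subgroup.normalizer (P' : Set G) := by
      have hsub : P'.map (MulAut.conj ((d : G) * c)).toMonoidHom ≤ P' := by
        rintro _ ⟨x, hx, rfl⟩
        have hxc : c * x * c⁻¹ ∈ P'.map (MulAut.conj c).toMonoidHom := ⟨x, hx, rfl⟩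
        refine ⟨d * ⟨_, hle hxc⟩ * d⁻¹, ?_, ?_⟩
        · rw [SetLike.mem_coe, ← hd]
          refine Subgroup.smul_mem_pointwise_smul _ (MulAut.conj d) (T' : Subgroup H) ?_
          rw [← hT'eq]; exact hxc
        · show (d : G) * (c * x * c⁻¹) * (d : G)⁻¹ = (d : G) * c * x * ((d : G) * c)⁻¹
          group
      have heq : P'.map (MulAut.conj ((d : G) * c)).toMonoidHom = P' :=
        Subgroup.eq_of_le_of_card_ge hsub (le_of_eq (Subgroup.card_map_of_injective (MulAut.conj ((d : G) * c)).injective).symm)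
      rw [Subgroup.mem_normalizer_iff]
      intro x
      constructor
      · intro hx; exact hsub ⟨x, hx, rfl⟩
      · intro hx
        rw [← heq] at hx
        obtain ⟨y, hy, hyx⟩ := hx
        rwa [← (MulAut.conj ((d : G) * c)).injective hyx]
    exact (H.mul_mem_cancel_left d.2).1 (hN P' hP'H (P.2.map _) (rank_map _ H.subtype_injective _ hP) hdc)
  · intro hD X hX hr n hn
    by_contra hnH
    refine rank_mono (X := X) ?_ hr (hD n hnH)
    refine le_inf (hX.trans hP'H) fun x hx => ?_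
    refine ⟨n⁻¹ * x * n, hP'H (hX ?_), by show n * (n⁻¹ * x * n) * n⁻¹ = x; group⟩
    exact (Subgroup.mem_normalizer_iff''.1 hn x).1 hx

end Cfsg.Agent.S1231
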