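import Cfsg.Statements.S1236
import Cfsg.Agent.QDWr.QuasiDihedral

set_option autoImplicit false
open Cfsg

namespace Cfsg.Agent.S1236

theorem half_set {m : ℕ} [NeZero m] (k : ZMod m) (hk : k + k = 0) : k = 0 ∨ k = ((m / 2 : ℕ) : ZMod m) := by
  have h1 : m ∣ 2 * k.val := by
    rw [← ZMod.natCast_eq_zero_iff]; push_cast; rw [ZMod.natCast_zmod_val]; linear_combination hk
  obtain ⟨c, hc⟩ := h1
  have := ZMod.val_lt k
  have h2 : m * c < m * 2 := by omega
  have h3 : c < 2 := Nat.lt_of_mul_lt_mul_left h2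
  interval_cases c
  · exact Or.inl ((ZMod.val_eq_zero k).1 (by omega))
  · refine Or.inr ?_
    rw [show m / 2 = k.val by omega, ZMod.natCast_zmod_val]

theorem four_self_centralizing {m : ℕ} [NeZero m] {F : Subgroup (DihedralGroup m)} (hF : Nat.card F = 4)
    (h2 : ∀ f ∈ F, f * f = 1) {q : DihedralGroup m} (hq : ∀ f ∈ F, q * f = f * q) : q ∈ F := by
  classical
  have hFn : (F : Set (DihedralGroup m)).ncard = 4 := by
    rw [← Nat.card_coe_set_eq]; exact hF
  obtain ⟨i, hi⟩ : ∃ i, DihedralGroup.sr i ∈ F := by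
    by_contra hno
    push Not at hno
    have hsub : (F : Set (DihedralGroup m)) ⊆ {DihedralGroup.r 0, DihedralGroup.r ((m / 2 : ℕ) : ZMod m)} := by
      rintro (k | k) hk
      · have h1 := h2 _ hk
        rw [DihedralGroup.r_mul_r, DihedralGroup.one_def, DihedralGroup.r.injEq] at h1
        rcases half_set k h1 with rfl | rfl <;> simp
      · exact absurd hk (hno k)
    have h1 := Set.ncard_le_ncard hsub (Set.toFinite _)
    have h3 : ({DihedralGroup.r 0, DihedralGroup.r ((m / 2 : ℕ) : ZMod m)} : Set (DihedralGroup m)).ncard ≤ 2 :=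
      (Set.ncard_insert_le _ _).trans (by rw [Set.ncard_singleton])
    omega
  set K : ZMod m := ((m / 2 : ℕ) : ZMod m)
  let T : Set (DihedralGroup m) := {DihedralGroup.r 0, DihedralGroup.r K, DihedralGroup.sr i, DihedralGroup.sr (i + K)}
  have hT : ∀ u, u * DihedralGroup.sr i = DihedralGroup.sr i * u → u ∈ T := by
    rintro (k | k) hu
    · rw [DihedralGroup.r_mul_sr, DihedralGroup.sr_mul_r, DihedralGroup.sr.injEq] at hu
      rcases half_set k (by linear_combination -hu) with rfl | rfl <;> simp [T, K]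
    · rw [DihedralGroup.sr_mul_sr, DihedralGroup.sr_mul_sr, DihedralGroup.r.injEq] at hu
      rcases half_set (k - i) (by linear_combination -hu) with h | h
      · rw [sub_eq_zero.1 h]; simp [T]
      · rw [show k = i + K by linear_combination h]; simp [T]
  have hFT : (F : Set (DihedralGroup m)) ⊆ T := fun f hf => by
    refine hT f ?_
    have h1 := h2 _ (F.mul_mem hf hi)
    calc f * DihedralGroup.sr i
        = f * (f * DihedralGroup.sr i * (f * DihedralGroup.sr i)) * DihedralGroup.sr i := by rw [h1, mul_one]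
      _ = f * f * DihedralGroup.sr i * f * (DihedralGroup.sr i * DihedralGroup.sr i) := by group
      _ = DihedralGroup.sr i * f := by rw [h2 f hf, h2 _ hi, one_mul, mul_one]
  have hle : T.ncard ≤ 4 := by
    refine (Set.ncard_insert_le _ _).trans ?_
    refine (Nat.add_le_add_right ((Set.ncard_insert_le _ _).trans
      (Nat.add_le_add_right ((Set.ncard_insert_le _ _).trans (by rw [Set.ncard_singleton])) 1)) 1).trans le_rfl
  have he : (F : Set (DihedralGroup m)) = T := Set.eq_of_subset_of_ncard_le hFT (by omega) (Set.toFinite _)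
  rw [← SetLike.mem_coe, he]
  exact hT q (hq _ hi)

theorem qd_centralizer {S : Type*} [Group S] [Finite S] {x y : S} {h : ℕ} (d : CfsgLib.QDWr.QD x y h)
    {F : Subgroup S} (hz : x ^ (4 * (h : ℤ)) ∈ F) {k : ℤ} (hk : x ^ (2 * k) * y ∈ F) {q : S}
    (hq : q * (x ^ (2 * k) * y) = x ^ (2 * k) * y * q) : q ∈ F := by
  obtain ⟨a, ha⟩ := d.pow_two
  have hrot : ∀ j : ℤ, x ^ j * (x ^ (2 * k) * y) = x ^ (2 * k) * y * x ^ j → x ^ j ∈ F := by
    intro j hj
    have hj' : x ^ j * (x ^ (2 * k) * y) * (x ^ j)⁻¹ = x ^ (2 * k) * y := by rw [hj, mul_inv_cancel_right]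
    rw [CfsgLib.QDWr.conj_refl d, CfsgLib.QDWr.refl_eq_refl d] at hj'
    obtain ⟨c, hc⟩ := CfsgLib.QDWr.dvd_of_shift d (m := 4 * (h : ℤ)) (j := j)
      ⟨a + 2, by rw [ha, pow_add]; push_cast; ring⟩ (by
        rw [show 2 * k + (2 - 4 * (h : ℤ)) * j - 2 * k = (2 - 4 * (h : ℤ)) * j by ring] at hj'
        rw [show 2 * (4 * (h : ℤ)) = 8 * (h : ℤ) by ring]
        exact hj')
    rw [hc, zpow_mul]
    exact zpow_mem hz c
  rcases CfsgLib.QDWr.cases d q with ⟨j, rfl⟩ | ⟨j, rfl⟩
  · exact hrot j hq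
  · have hp := hrot (j + (4 * (h : ℤ) - 1) * (2 * k)) (by
      rw [← CfsgLib.QDWr.refl_refl d, mul_assoc]
      conv_rhs => rw [← mul_assoc, ← hq, mul_assoc])
    have := F.mul_mem hp (F.inv_mem hk)
    rwa [← CfsgLib.QDWr.refl_refl d, mul_inv_cancel_right] at this

/-- Let R be a finite group, t a central involution of R such that R ⧸ ⟨t⟩ is dihedral (of order ≥ 4) or quasi-dihedral, and A ≤ R an elementary abelian subgroup of order 8 containing t. Then C_R(A) = A. -/
theorem result {R : Type*} [Group R] [Finite R] (t : R) (ht : orderOf t = 2) (htz : t ∈ Subgroup.center R) [(Subgroup.zpowers t).Normal] (hq : (∃ m : ℕ, 2 ≤ m ∧ Nonempty (R ⧸ Subgroup.zpowers t ≃* DihedralGroup m)) ∨ Cfsg.IsQuasiDihedral (R ⧸ Subgroup.zpowers t)) (A : Subgroup R) (hA : Cfsg.IsElementaryAbelian 2 A) (hA8 : Nat.card A = 8) (htA : t ∈ A) : Subgroup.centralizer (A : Set R) = A := by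
  classical
  haveI := hA.1
  set Q := R ⧸ Subgroup.zpowers t
  let π : R →* Q := QuotientGroup.mk' (Subgroup.zpowers t)
  have hker : π.ker ≤ A := by rw [QuotientGroup.ker_mk']; exact Subgroup.zpowers_le.2 htA
  have hF4 : Nat.card (A.map π) = 4 := by
    have h1 := Subgroup.card_mul_index ((π.subgroupMap A).ker)
    have h2 : (π.subgroupMap A).ker.index = Nat.card (A.map π) := by
      rw [Subgroup.index_ker, MonoidHom.range_eq_top.2 (MonoidHom.subgroupMap_surjective π A), Subgroup.card_top]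
    have h3 : Nat.card (π.subgroupMap A).ker = 2 := by
      rw [← ht, ← Nat.card_zpowers]
      refine Nat.card_congr ?_
      exact {
        toFun := fun a => ⟨((a : A) : R), by
          have := a.2; rw [MonoidHom.mem_ker] at this
          have h4 : π ((a : A) : R) = 1 := congrArg Subtype.val this
          rwa [← MonoidHom.mem_ker, QuotientGroup.ker_mk'] at h4⟩
        invFun := fun b => ⟨⟨(b : R), hker (by rw [QuotientGroup.ker_mk']; exact b.2)⟩,
          Subtype.ext (show π (b : R) = 1 by rw [← MonoidHom.mem_ker, QuotientGroup.ker_mk']; exact b.2)⟩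
        left_inv := fun a => Subtype.ext (Subtype.ext rfl)
        right_inv := fun b => Subtype.ext rfl }
    rw [h2, h3, hA8] at h1
    omega
  have hF2 : ∀ f ∈ A.map π, f * f = 1 := by
    rintro _ ⟨a, ha, rfl⟩
    rw [← map_mul, ← _root_.pow_two, hA.2 a ha, map_one]
  refine le_antisymm (fun g hg => ?_) (fun a ha => Subgroup.mem_centralizer_iff.2 fun b hb =>
    congrArg Subtype.val (mul_comm' (⟨b, hb⟩ : A) ⟨a, ha⟩))
  have hgc : ∀ f ∈ A.map π, π g * f = f * π g := by
    rintro _ ⟨a, ha, rfl⟩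
    rw [← map_mul, ← map_mul, Subgroup.mem_centralizer_iff.1 hg a ha]
  have key : π g ∈ A.map π := by
    rcases hq with ⟨m, hm, ⟨e⟩⟩ | hq
    · haveI : NeZero m := ⟨by omega⟩
      have hd : Nat.card ((A.map π).map e.toMonoidHom) = 4 := by
        rw [Subgroup.card_map_of_injective e.injective, hF4]
      have hd2 : ∀ f ∈ (A.map π).map e.toMonoidHom, f * f = 1 := by
        rintro _ ⟨f, hf, rfl⟩; rw [← map_mul, hF2 f hf, map_one]
      have := four_self_centralizing hd hd2 (q := e (π g)) (by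
        rintro _ ⟨f, hf, rfl⟩
        show e (π g) * e f = e f * e (π g)
        rw [← map_mul, ← map_mul, hgc f hf])
      obtain ⟨f, hf, hfe⟩ := this
      rwa [← e.injective hfe]
    · obtain ⟨x, y, h, d⟩ := CfsgLib.QDWr.exists_data hq
      obtain ⟨hz, k, hk, hall⟩ := CfsgLib.QDWr.four_spec d hF4 hF2
      exact qd_centralizer d hz hk (hgc _ hk)
  obtain ⟨a, ha, hae⟩ := key
  have h5 : a⁻¹ * g ∈ π.ker := by rw [MonoidHom.mem_ker, map_mul, map_inv, hae, inv_mul_cancel]
  simpa using A.mul_mem ha (hker h5)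

end Cfsg.Agent.S1236
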