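import Cfsg.Statements.S1241
import Mathlib

set_option autoImplicit false
open Cfsg

namespace Cfsg.Agent.S1241

/-- Let G be a finite group, p a prime, H a subgroup of index prime to p, K a subgroup of H normal in H with H/K commutative, and g ∈ H ∖ K an element of p-power order such that for all integers m and all a ∈ G with a g^m a⁻¹ ∈ H one has a g^m a⁻¹ ∈ g^m K. Then g ∉ G'. -/
theorem result {G : Type*} [Group G] [Finite G] {p : ℕ} [Fact p.Prime] (H K : Subgroup G) (hHK : K ≤ H) (hKn : (K.subgroupOf H).Normal) (hab : ∀ x ∈ H, ∀ y ∈ H, x * y * x⁻¹ * y⁻¹ ∈ K) (hidx : Nat.Coprime p H.index) (g : G) (hgH : g ∈ H) (hgK : g ∉ K) (hgp : ∃ k : ℕ, orderOf g = p ^ k) (hctrl : ∀ (m : ℤ) (a : G), a * g ^ m * a⁻¹ ∈ H → (a * g ^ m * a⁻¹) * (g ^ m)⁻¹ ∈ K) : g ∉ commutator G := by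
  classical
  intro hgc
  haveI := hKn
  let φ₀ : H →* H ⧸ K.subgroupOf H := QuotientGroup.mk' _
  haveI hc : IsMulCommutative (H ⧸ K.subgroupOf H) := ⟨⟨fun u v => by
    induction u using QuotientGroup.induction_on with | _ x =>
    induction v using QuotientGroup.induction_on with | _ y =>
    rw [← QuotientGroup.mk_mul, ← QuotientGroup.mk_mul, QuotientGroup.eq]
    show ((x * y)⁻¹ * (y * x) : H).1 ∈ K
    have := hab _ (inv_mem y.2) _ (inv_mem x.2)
    simpa [mul_assoc] using this⟩⟩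
  letI : CommGroup (H ⧸ K.subgroupOf H) := { (inferInstance : Group (H ⧸ K.subgroupOf H)) with mul_comm := fun u v => mul_comm' u v }
  let φ : H →* H ⧸ K.subgroupOf H := φ₀
  haveI : Fintype (Quotient (MulAction.orbitRel (Subgroup.zpowers g) (G ⧸ H))) := Fintype.ofFinite _
  have hval : φ.transfer g = φ ⟨g, hgH⟩ ^ H.index := by
    rw [MonoidHom.transfer_eq_prod_quotient_orbitRel_zpowers_quot, Subgroup.index_eq_sum_minimalPeriod H g,
      ← Finset.prod_pow_eq_pow_sum]
    refine Finset.prod_congr rfl fun q _ => ?_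
    rw [← map_pow]
    refine (QuotientGroup.eq.2 ?_).symm
    set m := Function.minimalPeriod (g • ·) q.out with hm
    have hmem : q.out.out⁻¹ * g ^ m * q.out.out ∈ H := QuotientGroup.out_conj_pow_minimalPeriod_mem H g q.out
    show (((⟨g, hgH⟩ : H) ^ m)⁻¹ * ⟨q.out.out⁻¹ * g ^ m * q.out.out, hmem⟩ : H).1 ∈ K
    have h := hctrl m q.out.out⁻¹ (by simpa using hmem)
    rw [zpow_natCast, inv_inv] at h
    have hgm : g ^ m ∈ H := pow_mem hgH m
    have hc := hKn.conj_mem ⟨_, hHK h⟩ h ⟨(g ^ m)⁻¹, inv_mem hgm⟩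
    rw [Subgroup.mem_subgroupOf] at hc
    simp only [Subgroup.coe_mul, Subgroup.coe_inv, SubmonoidClass.coe_pow, Subgroup.coe_mk] at hc ⊢
    simpa [mul_assoc] using hc
  have hker : φ.transfer g = 1 := by
    have hle : commutator G ≤ φ.transfer.ker := by
      rw [commutator_def, Subgroup.commutator_le]
      intro x _ y _
      rw [MonoidHom.mem_ker, map_commutatorElement, commutatorElement_eq_one_iff_mul_comm]
      exact mul_comm _ _
    exact hle hgc
  rw [hker] at hval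
  obtain ⟨k, hk⟩ := hgp
  have h1 : φ ⟨g, hgH⟩ ^ p ^ k = 1 := by
    rw [← map_pow, show (⟨g, hgH⟩ : H) ^ p ^ k = 1 from Subtype.ext (by
      show g ^ p ^ k = 1; rw [← hk]; exact pow_orderOf_eq_one g), map_one]
  have h2 : orderOf (φ ⟨g, hgH⟩) = 1 :=
    Nat.eq_one_of_dvd_coprimes (Nat.Coprime.pow_left k hidx) (orderOf_dvd_of_pow_eq_one h1)
      (orderOf_dvd_of_pow_eq_one hval.symm)
  rw [orderOf_eq_one_iff] at h2
  exact hgK ((QuotientGroup.eq_one_iff _).1 h2 : (⟨g, hgH⟩ : H) ∈ K.subgroupOf H)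

end Cfsg.Agent.S1241
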