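import Cfsg.Statements.S1242
import Cfsg.Agent.Transfer.Focal
import Cfsg.Agent.Transfer.Fusion

set_option autoImplicit false
open Cfsg
open scoped commutatorElement IsMulCommutative Pointwise

namespace Cfsg.Agent.S1242

/-- Let G be a finite group, p a prime and H a subgroup of index prime to p such that any two elements of H of p-power order that are conjugate in G are conjugate in H. Then (O^p(G)·G') ∩ H = O^p(H)·H', where O^p denotes the subgroup generated by the elements of order prime to p. -/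
theorem result {G : Type*} [Group G] [Finite G] {p : ℕ} [Fact p.Prime] (H : Subgroup G) (hidx : Nat.Coprime p H.index) (hfus : ∀ g ∈ H, (∃ k : ℕ, orderOf g = p ^ k) → ∀ a : G, a * g * a⁻¹ ∈ H → ∃ h ∈ H, h * g * h⁻¹ = a * g * a⁻¹) : (Cfsg.pResidual p G ⊔ commutator G) ⊓ H = (Cfsg.pResidual p ↥H ⊔ commutator ↥H).map H.subtype := by
  refine le_antisymm ?_ (le_inf ?_ (Subgroup.map_subtype_le _))
  · rintro x ⟨hx, hxH⟩
    obtain ⟨T⟩ : Nonempty (Sylow p H) := inferInstance
    have hTidx : ¬ p ∣ ((T : Subgroup H).map H.subtype).index := by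
      rw [Subgroup.index_map_subtype]
      intro hd
      rcases (Fact.out : p.Prime).dvd_mul.1 hd with h | h
      · exact T.not_dvd_index h
      · exact (Fact.out : p.Prime).one_lt.ne' (Nat.eq_one_of_dvd_coprimes hidx dvd_rfl h)
    obtain ⟨Q, hQ⟩ := (T.isPGroup'.map H.subtype).exists_le_sylow
    have hTQ : (T : Subgroup H).map H.subtype = (Q : Subgroup G) := by
      have hi := Subgroup.relIndex_mul_index hQ
      obtain ⟨k, hk⟩ := IsPGroup.iff_card.1 Q.isPGroup'
      have h1 : ((T : Subgroup H).map H.subtype).relIndex Q ∣ p ^ k := hk ▸ Subgroup.relIndex_dvd_card _ _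
      obtain ⟨j, -, hj⟩ := (Nat.dvd_prime_pow (Fact.out : p.Prime)).1 h1
      rcases j with _ | j
      · exact le_antisymm hQ (Subgroup.relIndex_eq_one.1 (by simpa using hj))
      · exact absurd (Dvd.dvd.mul_right (hj ▸ dvd_pow_self p j.succ_ne_zero) _ |> (hi ▸ ·)) hTidx
    have : (Cfsg.pResidual p H).Normal := CfsgLib.Transfer.pResidual_normal
    obtain ⟨r, hr, s, hs, hrs⟩ := (Subgroup.mem_sup_of_normal_left
      (s := Cfsg.pResidual p H ⊔ commutator H) (t := (T : Subgroup H))).mp
      (show (⟨x, hxH⟩ : H) ∈ (Cfsg.pResidual p H ⊔ commutator H) ⊔ (T : Subgroup H) by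
        rw [sup_right_comm, CfsgLib.Transfer.pResidual_sup_sylow, top_sup_eq]; trivial)
    have hle : (Cfsg.pResidual p H ⊔ commutator H).map H.subtype ≤ Cfsg.pResidual p G ⊔ commutator G := by
      rw [Subgroup.map_sup]
      refine sup_le_sup (CfsgLib.Transfer.map_pResidual_le _) ?_
      rw [Subgroup.map_subtype_commutator]
      exact Subgroup.commutator_mono le_top le_top
    have hsQ : (s : G) ∈ (Q : Subgroup G) := hTQ ▸ Subgroup.mem_map_of_mem H.subtype hs
    have hsG : (s : G) ∈ Cfsg.pResidual p G ⊔ commutator G := by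
      have he : (r : G) * s = x := congrArg Subtype.val hrs
      rw [← he] at hx
      exact (Subgroup.mul_mem_cancel_left _ (hle ⟨r, hr, rfl⟩)).1 hx
    have hsf : (s : G) ∈ (Q : Subgroup G).focalSubgroup := by
      rw [← CfsgLib.Transfer.inf_residual_sup_commutator Q]; exact ⟨hsQ, hsG⟩
    have hsH : (Q : Subgroup G).focalSubgroup ≤ (commutator H).map H.subtype := by
      rw [Subgroup.map_subtype_commutator]
      refine CfsgLib.Transfer.focalSubgroup_le_of_forall fun y hy g hg => ?_
      have hyH : y ∈ H := Subgroup.map_subtype_le _ (hTQ ▸ hy)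
      have hgH : g * y * g⁻¹ ∈ H := Subgroup.map_subtype_le _ (hTQ ▸ hg)
      obtain ⟨k, hk⟩ := IsPGroup.iff_orderOf.1 Q.isPGroup' ⟨y, hy⟩
      obtain ⟨h, hh, he⟩ := hfus y hyH ⟨k, by rwa [Subgroup.orderOf_mk] at hk⟩ g hgH
      have e : y * (g * y⁻¹ * g⁻¹) = ⁅y, h⁆ := by
        rw [commutatorElement_def, show g * y⁻¹ * g⁻¹ = (g * y * g⁻¹)⁻¹ by group, ← he]; group
      rw [e]
      exact Subgroup.commutator_mem_commutator hyH hh
    have he : (r : G) * s = x := congrArg Subtype.val hrs
    rw [← he]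
    exact mul_mem ⟨r, hr, rfl⟩ (Subgroup.map_mono le_sup_right (hsH hsf))
  · rw [Subgroup.map_sup]
    refine sup_le_sup (CfsgLib.Transfer.map_pResidual_le _) ?_
    rw [Subgroup.map_subtype_commutator]
    exact Subgroup.commutator_mono le_top le_top

end Cfsg.Agent.S1242
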