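import Cfsg.Statements.S1243
import Mathlib

set_option autoImplicit false
open Cfsg

namespace Cfsg.Agent.S1243

/-- Let T be a Sylow p-subgroup of the finite group G and W ≤ T a subgroup weakly closed in T. If d and g d g⁻¹ both centralize W, then g d g⁻¹ = h d h⁻¹ for some h ∈ N_G(W). -/
theorem result {G : Type*} [Group G] [Finite G] {p : ℕ} [Fact p.Prime] (T : Sylow p G) (W : Subgroup G) (hW : Cfsg.IsWeaklyClosed W (T : Subgroup G)) (d g : G) (hd : d ∈ Subgroup.centralizer (W : Set G)) (hgd : g * d * g⁻¹ ∈ Subgroup.centralizer (W : Set G)) : ∃ h ∈ Subgroup.normalizer (W : Set G), h * d * h⁻¹ = g * d * g⁻¹ := by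
  set C := Subgroup.centralizer ({d} : Set G) with hC
  have hconjmem : ∀ w ∈ W, g⁻¹ * w * g ∈ C := by
    intro w hw
    rw [hC, Subgroup.mem_centralizer_singleton_iff]
    have h := Subgroup.mem_centralizer_iff.1 hgd w hw
    calc g⁻¹ * w * g * d = g⁻¹ * (w * (g * d * g⁻¹)) * g := by group
      _ = g⁻¹ * ((g * d * g⁻¹) * w) * g := by rw [h]
      _ = d * (g⁻¹ * w * g) := by group
  have hWC : W ≤ C := fun w hw => by
    rw [hC, Subgroup.mem_centralizer_singleton_iff]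
    exact Subgroup.mem_centralizer_iff.1 hd w hw
  have hWp : IsPGroup p W := T.isPGroup'.to_le hW.1
  set W' := W.map (MulAut.conj g⁻¹).toMonoidHom with hW'
  have hW'C : W' ≤ C := by
    rintro _ ⟨w, hw, rfl⟩
    simpa using hconjmem w hw
  have hp1 : IsPGroup p (W.subgroupOf C) := hWp.of_equiv (Subgroup.subgroupOfEquivOfLe hWC).symm
  have hp2 : IsPGroup p (W'.subgroupOf C) := (hWp.map _).of_equiv (Subgroup.subgroupOfEquivOfLe hW'C).symm
  obtain ⟨P, hP⟩ := hp1.exists_le_sylow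
  obtain ⟨P', hP'⟩ := hp2.exists_le_sylow
  obtain ⟨c, hc⟩ := MulAction.exists_smul_eq C P' P
  -- both `W` and its conjugate lie in one `p`-subgroup of `C`, hence in one conjugate of `T`
  obtain ⟨R, hR⟩ := (P.isPGroup'.map C.subtype).exists_le_sylow
  obtain ⟨y, rfl⟩ := MulAction.exists_smul_eq G T R
  have key : ∀ x : G, (∀ w ∈ W, x * w * x⁻¹ ∈ (P : Subgroup C).map C.subtype) →
      W.map (MulAut.conj (y⁻¹ * x)).toMonoidHom = W := by
    intro x hx
    apply hW.2
    rintro _ ⟨w, hw, rfl⟩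
    have h2 := hR (hx w hw)
    rw [Sylow.coe_subgroup_smul, Subgroup.mem_pointwise_smul_iff_inv_smul_mem] at h2
    simpa [MulAut.smul_def, mul_assoc] using h2
  have k1 := key 1 (fun w hw => ⟨⟨w, hWC hw⟩, hP (by simpa [Subgroup.mem_subgroupOf] using hw), by simp⟩)
  have k2 := key ((c : G) * g⁻¹) (fun w hw => by
    refine ⟨c * ⟨g⁻¹ * w * g, hconjmem w hw⟩ * c⁻¹, ?_, by simp [mul_assoc]⟩
    have h1 : (⟨g⁻¹ * w * g, hconjmem w hw⟩ : C) ∈ (P' : Subgroup C) := hP' (by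
      rw [Subgroup.mem_subgroupOf]; exact ⟨w, hw, by simp⟩)
    rw [← hc]
    exact Subgroup.smul_mem_pointwise_smul _ (MulAut.conj c) _ h1)
  have hn1 : y⁻¹ * 1 ∈ Subgroup.normalizer (W : Set G) := by
    rw [Subgroup.mem_normalizer_iff_map_conj_eq]; exact k1
  have hn2 : y⁻¹ * ((c : G) * g⁻¹) ∈ Subgroup.normalizer (W : Set G) := by
    rw [Subgroup.mem_normalizer_iff_map_conj_eq]; exact k2
  refine ⟨g * (c : G)⁻¹, ?_, ?_⟩
  · have := mul_mem (inv_mem hn2) hn1
    simpa [mul_assoc] using this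
  · have hcd : (c : G)⁻¹ * d = d * (c : G)⁻¹ := by
      exact Subgroup.mem_centralizer_singleton_iff.1 (C.inv_mem c.2)
    calc g * (c : G)⁻¹ * d * (g * (c : G)⁻¹)⁻¹ = g * ((c : G)⁻¹ * d) * (c : G) * g⁻¹ := by group
      _ = g * d * g⁻¹ := by rw [hcd]; group

end Cfsg.Agent.S1243
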