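import Cfsg.Statements.S1244
import Cfsg.Agent.Transfer.AbelianSylow
import Cfsg.Agent.PGroup.Basic

set_option autoImplicit false
open Cfsg

namespace Cfsg.Agent.S1244

/-- Let G be a finite group with no subgroup of index 2 whose Sylow 2-subgroup S is commutative, and let R ≤ S be a subgroup whose 2-rank is exactly one less than the 2-rank r of S. Then every involution of S is conjugate, by an element of N_G(S), to an element of R. -/
theorem result {G : Type*} [Group G] [Finite G] (hG : ∀ H : Subgroup G, H.index ≠ 2) (S : Sylow 2 G) (hS : IsMulCommutative (S : Subgroup G)) (r : ℕ) (hr1 : 1 ≤ r) (hSr : Cfsg.PRankLE 2 r (S : Subgroup G) ∧ ¬ Cfsg.PRankLE 2 (r - 1) (S : Subgroup G)) (R : Subgroup G) (hRS : R ≤ S) (hRr : Cfsg.PRankLE 2 (r - 1) R ∧ (r = 1 ∨ ¬ Cfsg.PRankLE 2 (r - 2) R)) (t : G) (ht : orderOf t = 2) (htS : t ∈ S) : ∃ n ∈ Subgroup.normalizer ((S : Subgroup G) : Set G), n * t * n⁻¹ ∈ R := by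
  classical
  haveI := hS
  set N := Subgroup.normalizer ((S : Subgroup G) : Set G) with hN
  have hSN : (S : Subgroup G) ≤ N := Subgroup.le_normalizer
  -- `G` has no proper normal subgroup with 2-group quotient
  have hres : Cfsg.pResidual 2 G = ⊤ := by
    by_contra hne
    haveI : (Cfsg.pResidual 2 G).Normal := CfsgLib.Transfer.pResidual_normal
    haveI : Nontrivial (G ⧸ Cfsg.pResidual 2 G) := QuotientGroup.nontrivial_iff.mpr hne
    obtain ⟨M, hM, -⟩ := (eq_top_or_exists_le_coatom (⊥ : Subgroup (G ⧸ Cfsg.pResidual 2 G))).resolve_left bot_ne_top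
    have h1 := (CfsgLib.PGroup.index_coatom (p := 2) CfsgLib.Transfer.isPGroup_quotient_pResidual hM).2
    exact hG (M.comap (QuotientGroup.mk' _)) (by rw [M.index_comap_of_surjective (QuotientGroup.mk'_surjective _), h1])
  have hfix : ∀ x ∈ (S : Subgroup G), (∀ n ∈ N, n * x * n⁻¹ = x) → x = 1 := by
    intro x hx hxN
    have h1 := CfsgLib.Transfer.abelian_inf_pResidual S hS
    rw [hres, inf_top_eq] at h1
    have h2 := (CfsgLib.Transfer.abelian_decomp S hS).1
    refine Subgroup.mem_bot.1 (h2.le ⟨⟨hx, Subgroup.mem_centralizer_iff.2 fun n hn => ?_⟩, h1.le hx⟩)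
    exact mul_inv_eq_iff_eq_mul.1 (hxN n hn)
  have hcomm : ∀ a ∈ (S : Subgroup G), ∀ b ∈ (S : Subgroup G), a * b = b * a := fun a ha b hb =>
    congrArg Subtype.val (mul_comm' (⟨a, ha⟩ : (S : Subgroup G)) ⟨b, hb⟩)
  let V : Subgroup G :=
    { carrier := {x | x ∈ (S : Subgroup G) ∧ x ^ 2 = 1}
      one_mem' := ⟨one_mem _, one_pow 2⟩
      mul_mem' := fun {a b} ha hb => ⟨mul_mem ha.1 hb.1, by
        rw [Commute.mul_pow (hcomm a ha.1 b hb.1), ha.2, hb.2, one_mul]⟩
      inv_mem' := fun {a} ha => ⟨inv_mem ha.1, by rw [inv_pow, ha.2, inv_one]⟩ }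
  -- the hyperplane coming from `R`
  let W : Subgroup G := R ⊓ V
  have htV : t ∈ V := ⟨htS, ht ▸ pow_orderOf_eq_one t⟩
  have hVp : IsPGroup 2 V := S.isPGroup'.to_le fun x hx => hx.1
  obtain ⟨a, ha⟩ := IsPGroup.iff_card.1 hVp
  obtain ⟨b, hb⟩ := IsPGroup.iff_card.1 (hVp.to_le (inf_le_right : W ≤ V))
  have har : a ≤ r := by
    have h1 := hSr.1 (V.subgroupOf (S : Subgroup G)) inferInstance fun x hx => Subtype.ext hx.2
    rw [Nat.card_congr (Subgroup.subgroupOfEquivOfLe (fun x (hx : x ∈ V) => hx.1)).toEquiv, ha,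
      Nat.pow_le_pow_iff_right one_lt_two] at h1
    exact h1
  have hbr : r - 1 ≤ b := by
    rcases hRr.2 with h1 | h1
    · omega
    rw [Cfsg.PRankLE] at h1
    push Not at h1
    obtain ⟨A, -, hA, hAc⟩ := h1
    have h2 : A.map R.subtype ≤ W := by
      rintro _ ⟨x, hx, rfl⟩
      exact ⟨x.2, hRS x.2, congrArg Subtype.val (hA x hx)⟩
    have h3 := hAc.trans_le ((Subgroup.card_map_of_injective R.subtype_injective).ge.trans (Subgroup.card_le_of_le h2))
    rw [hb, Nat.pow_lt_pow_iff_right one_lt_two] at h3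
    omega
  by_cases htW : t ∈ W
  · exact ⟨1, one_mem _, by simpa using htW.1⟩
  by_contra hcon
  push Not at hcon
  -- the index of `W` in `V` is two
  have hW2 : (W.subgroupOf V).index = 2 := by
    have h1 := Subgroup.card_mul_index (W.subgroupOf V)
    rw [Nat.card_congr (Subgroup.subgroupOfEquivOfLe (inf_le_right : W ≤ V)).toEquiv, ha, hb] at h1
    have hlt : b < a := by
      by_contra hle
      exact htW ((Subgroup.eq_of_le_of_card_ge (inf_le_right : W ≤ V) (by
        rw [ha, hb]; exact Nat.pow_le_pow_right two_pos (by omega))).ge htV)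
    rw [show a = b + 1 by omega, pow_succ] at h1
    exact Nat.eq_of_mul_eq_mul_left (Nat.two_pow_pos b) h1
  set S' := (S : Subgroup G).subgroupOf N with hS'
  haveI : Fintype (N ⧸ S') := Fintype.ofFinite _
  have hodd : Odd (Fintype.card (N ⧸ S')) := by
    rw [Fintype.card_eq_nat_card, ← Subgroup.index_eq_card, Nat.odd_iff, ← Nat.two_dvd_ne_zero]
    exact fun h => S.not_dvd_index (h.trans (Subgroup.relIndex_dvd_index_of_le hSN))
  have hconjV : ∀ n ∈ N, ∀ x ∈ V, n * x * n⁻¹ ∈ V := fun n hn x hx =>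
    ⟨(Subgroup.mem_normalizer_iff.1 hn x).1 hx.1, by rw [conj_pow, hx.2, mul_one, mul_inv_cancel]⟩
  letI : CommGroup V := { (inferInstance : Group V) with
    mul_comm := fun u v => Subtype.ext (hcomm u u.2.1 v v.2.1) }
  let f : N ⧸ S' → V := fun q => ⟨(q.out : G) * t * (q.out : G)⁻¹, hconjV _ q.out.2 t htV⟩
  have hf : ∀ (n : N) (q : N ⧸ S'), ((f (n • q) : V) : G) = (n : G) * ((f q : V) : G) * (n : G)⁻¹ := by
    intro n q
    have hm : ((n • q).out)⁻¹ * (n * q.out) ∈ S' := by
      rw [← QuotientGroup.eq, QuotientGroup.out_eq']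
      conv_lhs => rw [← QuotientGroup.out_eq' q]
      exact MulAction.Quotient.smul_mk S' n q.out
    obtain ⟨c, hc⟩ : ∃ c, c = ((n • q).out)⁻¹ * (n * q.out) := ⟨_, rfl⟩
    have e : (n : G) * q.out = ((n • q).out : G) * c := by
      have : n * q.out = (n • q).out * c := by rw [hc, mul_inv_cancel_left]
      simpa using congrArg Subtype.val this
    have hct : (c : G) * t * (c : G)⁻¹ = t := by rw [hcomm c (hc ▸ hm) t htS, mul_inv_cancel_right]
    show ((n • q).out : G) * t * ((n • q).out : G)⁻¹ = (n : G) * ((q.out : G) * t * (q.out : G)⁻¹) * (n : G)⁻¹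
    calc ((n • q).out : G) * t * ((n • q).out : G)⁻¹
        = ((n • q).out : G) * ((c : G) * t * (c : G)⁻¹) * ((n • q).out : G)⁻¹ := by rw [hct]
      _ = (((n • q).out : G) * c) * t * (((n • q).out : G) * c)⁻¹ := by group
      _ = _ := by rw [← e]; group
  set F : V := ∏ q, f q with hF
  have hFfix : ∀ n ∈ N, n * (F : G) * n⁻¹ = F := by
    intro n hn
    let φ : V →* V := MonoidHom.mk' (fun x => ⟨n * x * n⁻¹, hconjV n hn x x.2⟩) fun u v => Subtype.ext (by
      show n * ((u : G) * v) * n⁻¹ = n * u * n⁻¹ * (n * v * n⁻¹)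
      group)
    have h1 : φ F = F := by
      rw [hF, map_prod, ← Equiv.prod_comp (MulAction.toPerm (⟨n, hn⟩ : N)) f]
      exact Finset.prod_congr rfl fun q _ => Subtype.ext (hf ⟨n, hn⟩ q).symm
    exact congrArg Subtype.val h1
  have hpar : ∀ s : Finset (N ⧸ S'), (∏ q ∈ s, f q ∈ W.subgroupOf V ↔ Even s.card) := by
    intro s
    induction s using Finset.induction_on with
    | empty => simp
    | insert q s hq ih =>
      rw [Finset.prod_insert hq, Finset.card_insert_of_notMem hq, Subgroup.mul_mem_iff_of_index_two hW2, ih,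
        Nat.even_add_one]
      have h1 : f q ∉ W.subgroupOf V := fun h => hcon _ q.out.2 h.1
      simp [h1]
  have hFW : F ∉ W.subgroupOf V := fun h => (Nat.not_even_iff_odd.2 hodd) ((hpar Finset.univ).1 h)
  exact hFW ((Subtype.ext (hfix _ F.2.1 hFfix) : F = 1) ▸ one_mem _)

end Cfsg.Agent.S1244
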