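import Cfsg.Statements.S1246
import Mathlib.Tactic
import Cfsg.Agent.Components.LocalLayer
import Cfsg.Agent.Fusion.StronglyEmbedded

set_option autoImplicit false
open Cfsg
open scoped commutatorElement

namespace Cfsg.Agent.S1246

open CfsgLib.Components in
theorem charP_of_fstar {G : Type*} [Group G] [Finite G] {p : ℕ} [Fact p.Prime] (H : Subgroup G) :
    IsPGroup p ↥(Cfsg.generalizedFittingSubgroup ↥H) ↔ IsCharP p H := by
  rw [isCharP_iff, ← generalizedFitting_eq_pCore_iff p]
  constructor
  · intro h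
    haveI := generalizedFittingSubgroup_normal (G := ↥H)
    exact le_antisymm (CfsgLib.PCore.le_pCore inferInstance h)
      ((pCore_le_fittingSubgroup p).trans fittingSubgroup_le_generalizedFittingSubgroup)
  · intro h
    rw [h]
    exact CfsgLib.Components.pCore_isPGroup p

open CfsgLib.Components in
theorem charP_sup {G : Type*} [Group G] [Finite G] {p : ℕ} [Fact p.Prime] {H V : Subgroup G}
    (hH : IsCharP p H) (hV : IsPGroup p ↥V) (hn : V ≤ Subgroup.normalizer (H : Set G)) : IsCharP p (H ⊔ V) := by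
  set X := H ⊔ V with hX
  have hXH : X ≤ Subgroup.normalizer (H : Set G) := sup_le Subgroup.le_normalizer hn
  have hQ : pCoreIn p H ≤ pCoreIn p X := le_pCoreIn ((pCoreIn_le p H).trans le_sup_left)
    (hXH.trans (normalizer_le_normalizer_pCoreIn p H)) (pCoreIn_isPGroup p H)
  set C := X ⊓ Subgroup.centralizer (pCoreIn p X : Set G) with hC
  have hCn : X ≤ Subgroup.normalizer (C : Set G) :=
    (le_inf Subgroup.le_normalizer ((Subgroup.le_normalizer.trans (normalizer_le_normalizer_pCoreIn p X)).trans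
      (normalizer_le_normalizer_centralizer _))).trans (normalizer_inf_le _ _)
  refine le_pCoreIn inf_le_left hCn fun c => ?_
  obtain ⟨k, hk⟩ := IsPGroup.iff_card.mp hV
  have hpow : (c : G) ^ p ^ k ∈ H := by
    have hnorm : (H.subgroupOf X).Normal := Subgroup.normal_subgroupOf_of_le_normalizer hXH
    obtain ⟨h, hh, v, hv, he⟩ : ∃ h ∈ H, ∃ v ∈ V, (c : G) = h * v := by
      have hmem : (c : G) ∈ ((H ⊔ V : Subgroup G) : Set G) := c.2.1
      rw [Subgroup.coe_mul_of_right_le_normalizer_left _ _ hn] at hmem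
      obtain ⟨h, hh, v, hv, e⟩ := Set.mem_mul.mp hmem
      exact ⟨h, hh, v, hv, e.symm⟩
    let q := QuotientGroup.mk' (H.subgroupOf X)
    have h1 : q ⟨c, c.2.1⟩ = q ⟨v, le_sup_right (a := H) hv⟩ := by
      rw [show (⟨c, c.2.1⟩ : ↥X) = ⟨h, le_sup_left (b := V) hh⟩ * ⟨v, le_sup_right (a := H) hv⟩ from Subtype.ext he,
        map_mul, show q ⟨h, le_sup_left (b := V) hh⟩ = 1 from (QuotientGroup.eq_one_iff _).mpr hh, one_mul]
    have h2 : (⟨c, c.2.1⟩ : ↥X) ^ p ^ k ∈ H.subgroupOf X := by
      rw [← QuotientGroup.eq_one_iff (N := H.subgroupOf X)]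
      show q _ = 1
      rw [map_pow, h1, ← map_pow, ← map_one q]
      refine congrArg q (Subtype.ext ?_)
      show v ^ p ^ k = 1
      rw [← hk]
      exact congrArg Subtype.val (pow_card_eq_one' (x := (⟨v, hv⟩ : ↥V)))
    exact h2
  have hmem : (c : G) ^ p ^ k ∈ pCoreIn p H :=
    hH ⟨hpow, Subgroup.centralizer_le hQ (Subgroup.pow_mem _ c.2.2 _)⟩
  obtain ⟨j, hj⟩ := pCoreIn_isPGroup p H ⟨_, hmem⟩
  refine ⟨k + j, Subtype.ext ?_⟩
  show (c : G) ^ p ^ (k + j) = 1
  rw [pow_add, pow_mul]
  exact congrArg Subtype.val hj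

/-- Let V ≤ U be p-subgroups of the finite group G. If the generalized Fitting subgroup of C_G(V) is a p-group, then so is that of C_G(U). -/
theorem result {G : Type*} [Group G] [Finite G] {p : ℕ} [Fact p.Prime] (U V : Subgroup G) (hVU : V ≤ U) (hU : IsPGroup p U) (hV : IsPGroup p ↥(Cfsg.generalizedFittingSubgroup ↥(Subgroup.centralizer (V : Set G)))) : IsPGroup p ↥(Cfsg.generalizedFittingSubgroup ↥(Subgroup.centralizer (U : Set G))) := by
  rw [charP_of_fstar] at hV ⊢
  suffices H : ∀ d, ∀ W : Subgroup G, Nat.card ↥U - Nat.card ↥W = d → W ≤ U →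
      CfsgLib.Components.IsCharP p (Subgroup.centralizer (W : Set G)) →
      CfsgLib.Components.IsCharP p (Subgroup.centralizer (U : Set G)) from H _ V rfl hVU hV
  intro d
  induction d using Nat.strong_induction_on with
  | _ d ih =>
    intro W hd hWU hW
    rcases eq_or_lt_of_le hWU with h | h
    · rwa [h] at hW
    obtain ⟨g, hgU, hgN, hgW⟩ := CfsgLib.Fusion.exists_normalizer_not_mem hU h
    set V1 := U ⊓ Subgroup.normalizer (W : Set G) with hV1
    have hlt : W < V1 := lt_of_le_of_ne (le_inf hWU Subgroup.le_normalizer) fun e => hgW (e ▸ ⟨hgU, hgN⟩)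
    have hV1n : V1 ≤ Subgroup.normalizer (Subgroup.centralizer (W : Set G) : Set G) :=
      inf_le_right.trans (CfsgLib.Components.normalizer_le_normalizer_centralizer W)
    have hX := charP_sup hW (hU.to_le inf_le_left) hV1n
    have hC1 : Subgroup.centralizer (V1 : Set G) ≤ Subgroup.centralizer (W : Set G) := Subgroup.centralizer_le hlt.le
    have hN := CfsgLib.Components.isCharP_normalizer hX le_sup_right (hU.to_le inf_le_left) (hC1.trans le_sup_left)
    have hC := CfsgLib.Components.isCharP_of_normal hN (Subgroup.centralizer_le_normalizer _)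
      (CfsgLib.Components.normalizer_le_normalizer_centralizer V1)
    refine ih (Nat.card ↥U - Nat.card ↥V1) ?_ V1 rfl inf_le_left hC
    have h1 : Nat.card ↥W < Nat.card ↥V1 := lt_of_le_of_ne (Subgroup.card_le_of_le hlt.le) fun he =>
      hlt.ne (Subgroup.eq_of_le_of_card_ge hlt.le he.ge)
    have h2 : Nat.card ↥V1 ≤ Nat.card ↥U := Subgroup.card_le_of_le inf_le_left
    omega

end Cfsg.Agent.S1246
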