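import Cfsg.Statements.S1253
import Cfsg.Agent.ZStar.Invariant
-- import your own Cfsg.Agent.* helpers here

set_option autoImplicit false
open Cfsg

namespace Cfsg.Agent.S1253

/-- Let z be an isolated involution of the finite group G with centralizer C, p an odd prime and P a Sylow p-subgroup of G normalized by z. Then P ∩ C has p-power-free index in C (it is a Sylow p-subgroup of C), and |P : C_P(z)| equals the number of elements x ∈ P with z x z⁻¹ = x⁻¹. -/
theorem result {G : Type*} [Group G] [Finite G] (z : G) (hz : Cfsg.IsIsolatedInvolution z) {p : ℕ} [Fact p.Prime] (hp : p ≠ 2) (P : Sylow p G) (hzP : z ∈ Subgroup.normalizer ((P : Subgroup G) : Set G)) : ¬ p ∣ ((P : Subgroup G) ⊓ Subgroup.centralizer ({z} : Set G)).relIndex (Subgroup.centralizer ({z} : Set G)) ∧ ((P : Subgroup G) ⊓ Subgroup.centralizer ({z} : Set G)).relIndex (P : Subgroup G) = Nat.card {x : G // x ∈ P ∧ z * x * z⁻¹ = x⁻¹} := by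
  set C := Subgroup.centralizer ({z} : Set G) with hC
  have hzC : z ∈ C := Subgroup.mem_centralizer_singleton_iff.2 rfl
  constructor
  · obtain ⟨T⟩ := (inferInstance : Nonempty (Sylow p C))
    set T₀ := (T : Subgroup C).map C.subtype with hT₀
    have hTp : IsPGroup p T₀ := T.2.map _
    have hzT : z ∈ Subgroup.normalizer (T₀ : Set G) := by
      refine Subgroup.centralizer_le_normalizer _ ?_
      rw [Subgroup.mem_centralizer_iff]
      rintro _ ⟨t, -, rfl⟩
      exact Subgroup.mem_centralizer_singleton_iff.1 t.2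
    obtain ⟨R, ⟨hR, hzR, hTR⟩, hmax⟩ := (Set.toFinite {R : Subgroup G | IsPGroup p R ∧
        z ∈ Subgroup.normalizer (R : Set G) ∧ T₀ ≤ R}).exists_maximal ⟨T₀, hTp, hzT, le_rfl⟩
    obtain ⟨P', hP'⟩ := CfsgLib.ZStar.maximal_normalized hz R hR hzR fun R' h1 h2 h3 =>
      le_antisymm (hmax ⟨h1, h2, hTR.trans h3⟩ h3) h3
    obtain ⟨c, hc, hcP⟩ := CfsgLib.ZStar.normalized_conj hz P P' hzP (by rw [hP']; exact hzR)
    have hle : T₀ ≤ ((P : Subgroup G) ⊓ C).map (MulAut.conj c).toMonoidHom := by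
      intro t ht
      have ht1 : t ∈ (c • P : Sylow p G) := by rw [hcP]; show t ∈ (P' : Subgroup G); rw [hP']; exact hTR ht
      obtain ⟨x, hx, hxt⟩ := ht1
      refine ⟨x, ⟨hx, ?_⟩, hxt⟩
      have htC : t ∈ C := Subgroup.map_subtype_le _ ht
      have hxt' : c * x * c⁻¹ = t := hxt
      have := C.mul_mem (C.mul_mem (C.inv_mem hc) htC) hc
      rw [← hxt'] at this
      simpa [mul_assoc] using this
    have hcard : Nat.card T₀ ≤ Nat.card ↥((P : Subgroup G) ⊓ C) :=
      (Subgroup.card_le_of_le hle).trans_eq (Subgroup.card_map_of_injective (MulAut.conj c).injective)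
    intro hdvd
    obtain ⟨a, ha⟩ := IsPGroup.iff_card.1 (P.2.to_le (inf_le_left : (P : Subgroup G) ⊓ C ≤ P))
    have hmul := Subgroup.relIndex_mul_relIndex ⊥ ((P : Subgroup G) ⊓ C) C bot_le inf_le_right
    rw [Subgroup.relIndex_bot_left, Subgroup.relIndex_bot_left, ha] at hmul
    have h1 : p ^ (a + 1) ∣ Nat.card C := by
      rw [← hmul, pow_succ]; exact mul_dvd_mul_left _ hdvd
    have h2 := (Nat.Prime.pow_dvd_iff_le_factorization Fact.out Nat.card_pos.ne').1 h1
    rw [hT₀, CfsgLib.CoprimeAction.card_sylow_map, ha] at hcard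
    have := (Nat.pow_le_pow_iff_right (Nat.Prime.one_lt Fact.out)).1 hcard
    omega
  · have hnorm : ∀ x ∈ P, z * x * z⁻¹ ∈ P := fun x hx => (Subgroup.mem_normalizer_iff.1 hzP x).1 hx
    have hz2 := CfsgLib.Isolated.zpow_sq hz
    have hzi : z⁻¹ = z := inv_eq_of_mul_eq_one_left hz2
    have hodd : ∀ x ∈ P, Odd (orderOf x) := by
      intro x hx
      obtain ⟨k, hk⟩ := P.2 ⟨x, hx⟩
      exact Odd.of_dvd_nat (((Fact.out : p.Prime).odd_of_ne_two hp).pow)
        (orderOf_dvd_of_pow_eq_one (congrArg Subtype.val hk : x ^ p ^ k = 1))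
    have hrep : ∀ x ∈ P, CfsgLib.Isolated.rep z x ∈ P := fun x hx => CfsgLib.Isolated.rep_mem (by
      have h := (P : Subgroup G).mul_mem hx (hnorm _ ((P : Subgroup G).inv_mem hx))
      rw [hzi] at h
      simpa only [mul_assoc] using h)
    show (((P : Subgroup G) ⊓ C).subgroupOf (P : Subgroup G)).index = _
    rw [Subgroup.index]
    let f : ↥(P : Subgroup G) → {x : G // x ∈ P ∧ z * x * z⁻¹ = x⁻¹} := fun x =>
      ⟨CfsgLib.Isolated.rep z x, hrep x x.2, (CfsgLib.Isolated.rep_spec hz (x : G)).2.1⟩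
    have hwell : ∀ x y : (P : Subgroup G), (x : G) * z * (x : G)⁻¹ = y * z * (y : G)⁻¹ ↔
        x⁻¹ * y ∈ ((P : Subgroup G) ⊓ C).subgroupOf (P : Subgroup G) := by
      intro x y
      rw [Subgroup.mem_subgroupOf, Subgroup.mem_inf, and_iff_right (x⁻¹ * y).2, hC,
        Subgroup.mem_centralizer_singleton_iff]
      push_cast
      constructor
      · intro h
        calc (x : G)⁻¹ * y * z = (x : G)⁻¹ * ((y : G) * z * (y : G)⁻¹) * y := by group
          _ = z * ((x : G)⁻¹ * y) := by rw [← h]; group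
      · intro h
        calc (x : G) * z * (x : G)⁻¹ = (x : G) * (z * ((x : G)⁻¹ * y)) * (y : G)⁻¹ := by group
          _ = (y : G) * z * (y : G)⁻¹ := by rw [← h]; group
    refine Nat.card_eq_of_bijective (Quotient.lift f fun x y h => ?_) ⟨?_, ?_⟩
    · apply Subtype.ext
      have h' := (hwell x y).2 (QuotientGroup.leftRel_apply.1 h)
      show CfsgLib.Isolated.rep z (x : G) = CfsgLib.Isolated.rep z (y : G)
      unfold CfsgLib.Isolated.rep
      rw [h']
    · intro a b h
      induction a using QuotientGroup.induction_on with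
      | H x =>
      induction b using QuotientGroup.induction_on with
      | H y =>
        refine QuotientGroup.eq.2 ((hwell x y).1 ?_)
        have h' : CfsgLib.Isolated.rep z (x : G) = CfsgLib.Isolated.rep z (y : G) := congrArg Subtype.val h
        rw [← (CfsgLib.Isolated.rep_spec hz (x : G)).2.2.1, ← (CfsgLib.Isolated.rep_spec hz (y : G)).2.2.1, h']
    · rintro ⟨x, hx, hinv⟩
      refine ⟨((⟨x, hx⟩ : (P : Subgroup G)) : (P : Subgroup G) ⧸ _), Subtype.ext ?_⟩
      show CfsgLib.Isolated.rep z x = x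
      exact (CfsgLib.Isolated.rep_unique hz (hodd x hx) hinv (by rw [inv_mul_cancel]; exact one_mem _)).symm

end Cfsg.Agent.S1253
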