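import Cfsg.Statements.S1258
import Cfsg.Agent.Components.Basic

set_option autoImplicit false
open Cfsg

namespace Cfsg.Agent.S1258
open scoped commutatorElement

/-- If the central quotient of a finite group X is non-abelian simple, then X = X' Z(X) and the commutator subgroup X' is quasisimple. -/
theorem result {X : Type*} [Group X] [Finite X] (hs : IsSimpleGroup (X ⧸ Subgroup.center X)) (hna : ¬ IsMulCommutative (X ⧸ Subgroup.center X)) : commutator X ⊔ Subgroup.center X = ⊤ ∧ Cfsg.IsQuasisimple ↥(commutator X) := by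
  haveI := hs
  have hne : ¬ commutator X ≤ Subgroup.center X := fun h => hna ⟨⟨fun a b => by
    obtain ⟨x, rfl⟩ := QuotientGroup.mk_surjective a
    obtain ⟨y, rfl⟩ := QuotientGroup.mk_surjective b
    have h1 : (QuotientGroup.mk ⁅x, y⁆ : X ⧸ Subgroup.center X) = 1 :=
      (QuotientGroup.eq_one_iff _).2 (h (Subgroup.commutator_mem_commutator (Subgroup.mem_top x) (Subgroup.mem_top y)))
    exact commutatorElement_eq_one_iff_mul_comm.1 ((map_commutatorElement (QuotientGroup.mk' (Subgroup.center X)) x y).symm.trans h1)⟩⟩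
  have hn : ∀ N : Subgroup X, N.Normal → N ≤ Subgroup.center X ∨ N ⊔ Subgroup.center X = ⊤ := by
    intro N hN
    have := hN.map (QuotientGroup.mk' (Subgroup.center X)) (QuotientGroup.mk'_surjective _)
    rcases hs.eq_bot_or_eq_top_of_normal _ this with h | h
    · left; rwa [Subgroup.map_eq_bot_iff, QuotientGroup.ker_mk'] at h
    · right
      rw [← QuotientGroup.comap_map_mk' (Subgroup.center X) N |>.trans (sup_comm _ _), h, Subgroup.comap_top]
  have htop : commutator X ⊔ Subgroup.center X = ⊤ := (hn (commutator X) inferInstance).resolve_left hne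
  have hperf : ⁅commutator X, commutator X⁆ = commutator X := by
    refine le_antisymm (Subgroup.commutator_le_self _) ?_
    conv_lhs => rw [commutator_def]
    rw [Subgroup.commutator_le]
    intro a ha b hb
    rw [← htop, Subgroup.mem_sup_of_normal_right] at ha hb
    obtain ⟨y, hy, c, hc, rfl⟩ := ha
    obtain ⟨y', hy', c', hc', rfl⟩ := hb
    have h2 := Subgroup.mem_center_iff.mp hc
    have h3 := Subgroup.mem_center_iff.mp hc'
    have e : ⁅y * c, y' * c'⁆ = ⁅y, y'⁆ := by
      calc ⁅y * c, y' * c'⁆ = y * (c * (y' * c')) * (c⁻¹ * y⁻¹) * (c'⁻¹ * y'⁻¹) := by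
            simp only [commutatorElement_def, mul_inv_rev, mul_assoc]
        _ = y * ((y' * c') * c) * (c⁻¹ * y⁻¹) * (c'⁻¹ * y'⁻¹) := by rw [h2 (y' * c')]
        _ = y * y' * (c' * y⁻¹) * (c'⁻¹ * y'⁻¹) := by group
        _ = y * y' * (y⁻¹ * c') * (c'⁻¹ * y'⁻¹) := by rw [h3 y⁻¹]
        _ = ⁅y, y'⁆ := by simp only [commutatorElement_def]; group
    rw [e]
    exact Subgroup.commutator_mem_commutator hy hy'
  refine ⟨htop, Subgroup.isPerfect_iff.mpr hperf, ?_⟩
  let f : ↥(commutator X) →* X ⧸ Subgroup.center X := (QuotientGroup.mk' _).comp (commutator X).subtype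
  have hsurj : Function.Surjective f := by
    intro q
    obtain ⟨x, rfl⟩ := QuotientGroup.mk'_surjective (Subgroup.center X) q
    have hx : x ∈ commutator X ⊔ Subgroup.center X := htop ▸ Subgroup.mem_top x
    rw [Subgroup.mem_sup_of_normal_right] at hx
    obtain ⟨y, hy, c, hc, rfl⟩ := hx
    refine ⟨⟨y, hy⟩, ?_⟩
    show QuotientGroup.mk' (Subgroup.center X) y = QuotientGroup.mk' (Subgroup.center X) (y * c)
    rw [map_mul, show QuotientGroup.mk' (Subgroup.center X) c = 1 from (QuotientGroup.eq_one_iff c).2 hc, mul_one]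
  have hker : f.ker = Subgroup.center ↥(commutator X) := by
    ext z
    constructor
    · intro hz
      have hzc : (z : X) ∈ Subgroup.center X := (QuotientGroup.eq_one_iff _).1 hz
      exact Subgroup.mem_center_iff.2 fun w => Subtype.ext (Subgroup.mem_center_iff.1 hzc w)
    · intro hz
      refine (QuotientGroup.eq_one_iff _).2 (Subgroup.mem_center_iff.2 fun g => ?_)
      have hg : g ∈ commutator X ⊔ Subgroup.center X := htop ▸ Subgroup.mem_top g
      rw [Subgroup.mem_sup_of_normal_right] at hg
      obtain ⟨y, hy, c, hc, rfl⟩ := hg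
      have h1 : y * (z : X) = z * y := congrArg Subtype.val (Subgroup.mem_center_iff.1 hz ⟨y, hy⟩)
      show y * c * (z : X) = z * (y * c)
      rw [mul_assoc, ← Subgroup.mem_center_iff.1 hc (z : X), ← mul_assoc, h1, mul_assoc]
  exact CfsgLib.IsoInv.isSimpleGroup_of_equiv
    (((QuotientGroup.quotientMulEquivOfEq hker.symm).trans (QuotientGroup.quotientKerEquivOfSurjective f hsurj)).symm) hs


end Cfsg.Agent.S1258
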