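import Cfsg.Statements.S1263
import Mathlib.Tactic
import Cfsg.Agent.Components.Basic

set_option autoImplicit false
open Cfsg
open scoped commutatorElement

namespace Cfsg.Agent.S1263

/-- For a finite group G, Z(E(G)) is the subgroup generated by the centres Z(L) of the components L of G (all viewed as subgroups of G). -/
theorem result {G : Type*} [Group G] [Finite G] : (Subgroup.center ↥(Cfsg.layer G)).map (Cfsg.layer G).subtype = ⨆ L : {K : Subgroup G // Cfsg.IsComponent K}, (Subgroup.center ↥(L : Subgroup G)).map (L : Subgroup G).subtype := by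
  classical
  set Z := ⨆ L : {K : Subgroup G // Cfsg.IsComponent K},
    (Subgroup.center ↥(L : Subgroup G)).map (L : Subgroup G).subtype
  refine le_antisymm ?_ (iSup_le ?_)
  · have := Fintype.ofFinite {K : Subgroup G // Cfsg.IsComponent K}
    have key : ∀ s : Finset {K : Subgroup G // Cfsg.IsComponent K}, ∀ x ∈ s.sup (fun L => (L : Subgroup G)),
        (∀ L ∈ s, x ∈ Subgroup.centralizer ((L : Subgroup G) : Set G)) → x ∈ Z := by
      intro s
      induction s using Finset.induction_on with
      | empty =>
        intro x hx _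
        rw [Finset.sup_empty, Subgroup.mem_bot] at hx
        exact hx ▸ Z.one_mem
      | insert L s hLs ih =>
        intro x hx hall
        rw [Finset.sup_insert] at hx
        have hcomm : s.sup (fun L => (L : Subgroup G)) ≤ Subgroup.centralizer ((L : Subgroup G) : Set G) :=
          Finset.sup_le fun M hM => Subgroup.commutator_eq_bot_iff_le_centralizer.mp
            (CfsgLib.Components.components_commute M.2 L.2 fun h => hLs (Subtype.ext h ▸ hM))
        have hcomm' := Subgroup.le_centralizer_iff.mp hcomm
        have hx' : x ∈ (((L : Subgroup G) ⊔ s.sup (fun L => (L : Subgroup G)) : Subgroup G) : Set G) := hx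
        rw [Subgroup.coe_mul_of_left_le_normalizer_right _ _
          (hcomm'.trans (Subgroup.centralizer_le_normalizer _))] at hx'
        obtain ⟨l, hl, m, hm, rfl⟩ := Set.mem_mul.mp hx'
        have hlC : l ∈ Subgroup.centralizer ((L : Subgroup G) : Set G) :=
          (Subgroup.mul_mem_cancel_right _ (hcomm hm)).mp (hall L (Finset.mem_insert_self _ _))
        refine Z.mul_mem (le_iSup (fun L : {K : Subgroup G // Cfsg.IsComponent K} =>
          (Subgroup.center ↥(L : Subgroup G)).map (L : Subgroup G).subtype) L ⟨⟨l, hl⟩, ?_, rfl⟩)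
          (ih m hm fun M hM => (Subgroup.mul_mem_cancel_left _ (Subgroup.centralizer_le
            (SetLike.coe_subset_coe.mpr (Finset.le_sup (f := fun L : {K : Subgroup G // Cfsg.IsComponent K} => (L : Subgroup G)) hM)) (hcomm' hl))).mp
            (hall M (Finset.mem_insert_of_mem hM)))
        rw [SetLike.mem_coe, Subgroup.mem_center_iff]
        exact fun g => Subtype.ext (Subgroup.mem_centralizer_iff.mp hlC g g.2)
    rintro _ ⟨⟨x, hxE⟩, hxc, rfl⟩
    refine key Finset.univ x ?_ fun L _ => Subgroup.mem_centralizer_iff.mpr fun y hy => ?_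
    · exact (sSup_le fun M hM =>
        Finset.le_sup (f := fun L : {K : Subgroup G // Cfsg.IsComponent K} => (L : Subgroup G))
          (Finset.mem_univ ⟨M, hM⟩) : Cfsg.layer G ≤ _) hxE
    · exact congrArg Subtype.val (Subgroup.mem_center_iff.mp hxc ⟨y, CfsgLib.Components.component_le_layer L.2 hy⟩)
  · rintro ⟨L, hL⟩ _ ⟨⟨z, hz⟩, hzc, rfl⟩
    refine ⟨⟨z, CfsgLib.Components.component_le_layer hL hz⟩, ?_, rfl⟩
    have hle : Cfsg.layer G ≤ Subgroup.centralizer ({z} : Set G) := by
      refine sSup_le fun M hM y hy => Subgroup.mem_centralizer_singleton_iff.mpr ?_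
      rcases eq_or_ne M L with rfl | hne
      · exact congrArg Subtype.val (Subgroup.mem_center_iff.mp hzc ⟨y, hy⟩)
      · exact (Subgroup.mem_centralizer_iff.mp
          (Subgroup.commutator_eq_bot_iff_le_centralizer.mp
            (CfsgLib.Components.components_commute hM hL hne) hy) z hz).symm
    rw [SetLike.mem_coe, Subgroup.mem_center_iff]
    exact fun g => Subtype.ext (Subgroup.mem_centralizer_singleton_iff.mp (hle g.2))

end Cfsg.Agent.S1263
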