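import Cfsg.Statements.S1264
import Mathlib.Tactic
import Cfsg.Agent.Components.LocalLayer

set_option autoImplicit false
open Cfsg
open scoped commutatorElement

namespace Cfsg.Agent.S1264

/-- Let G be finite, C = C_G(F(G)) the centralizer of the Fitting subgroup, and N a solvable subgroup of C normalized by C. Then N ≤ Z(F(G)). -/
theorem result {G : Type*} [Group G] [Finite G] (N : Subgroup G) (hN : N ≤ Subgroup.centralizer (Cfsg.fittingSubgroup G : Set G)) (hnorm : Subgroup.centralizer (Cfsg.fittingSubgroup G : Set G) ≤ Subgroup.normalizer (N : Set G)) (hsolv : Group.IsSolvable ↥N) : N ≤ (Subgroup.center ↥(Cfsg.fittingSubgroup G)).map (Cfsg.fittingSubgroup G).subtype := by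
  set C := Subgroup.centralizer (Cfsg.fittingSubgroup G : Set G) with hC
  haveI : (Cfsg.fittingSubgroup G).Normal := CfsgLib.Components.fittingSubgroup_normal
  have hCn : C.Normal := Subgroup.normal_centralizer
  have main : ∀ n, ∀ M : Subgroup G, Nat.card ↥M = n → M ≤ C → C ≤ Subgroup.normalizer (M : Set G) →
      Group.IsSolvable ↥M → M ≤ Cfsg.fittingSubgroup G := by
    intro n
    induction n using Nat.strong_induction_on with
    | _ n ih =>
      intro M hcard hMC hCM hs
      have hsub : M.IsSubnormal := by
        have hn : (M.subgroupOf C).Normal := Subgroup.normal_subgroupOf_of_le_normalizer hCM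
        have h := CfsgLib.Components.subnormal_map_subtype hn.isSubnormal hCn.isSubnormal
        rwa [Subgroup.subgroupOf_map_subtype, inf_eq_left.mpr hMC] at h
      rcases eq_or_ne M ⊥ with h | h
      · rw [h]; exact bot_le
      have : Nontrivial ↥M := (Subgroup.nontrivial_iff_ne_bot M).mpr h
      set D := (commutator ↥M).map M.subtype with hD
      have hlt : Nat.card ↥D < n := by
        refine hcard ▸ ((Subgroup.card_map_of_injective M.subtype_injective).le.trans_lt ?_)
        refine lt_of_le_of_ne (Subgroup.card_le_card_group _) fun he => ?_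
        exact (Group.IsSolvable.commutator_lt_top_of_nontrivial (G := ↥M)).ne (Subgroup.eq_top_of_card_eq _ he)
      have hDs : Group.IsSolvable ↥D :=
        solvable_of_solvable_injective (f := Subgroup.inclusion (Subgroup.map_subtype_le (commutator ↥M)))
          (Subgroup.inclusion_injective _)
      have hDF := ih _ hlt D rfl ((Subgroup.map_subtype_le _).trans hMC) (by
        rw [hD, commutator_def, Subgroup.map_commutator, ← MonoidHom.range_eq_map, Subgroup.range_subtype]
        exact CfsgLib.PCore.le_normalizer_commutator hCM hCM) hDs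
      have h1 : commutator ↥M ≤ Subgroup.center ↥M := fun x hx => Subgroup.mem_center_iff.mpr fun g =>
        Subtype.ext ((Subgroup.mem_centralizer_iff.mp (hMC g.2) x (hDF ⟨x, hx, rfl⟩)).symm)
      have hnil : Group.IsNilpotent ↥M := by
        rw [Subgroup.nilpotent_iff_lowerCentralSeries]
        exact ⟨2, Subgroup.lowerCentralSeries_succ_eq_bot _ (by rw [Subgroup.top_lowerCentralSeries_one]; exact h1)⟩
      exact CfsgLib.Components.subnormal_le_fittingSubgroup hsub hnil
  intro x hx
  have hxF := main _ N rfl hN hnorm hsolv hx
  refine ⟨⟨x, hxF⟩, ?_, rfl⟩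
  rw [SetLike.mem_coe, Subgroup.mem_center_iff]
  exact fun g => Subtype.ext (Subgroup.mem_centralizer_iff.mp (hN hx) g g.2)

end Cfsg.Agent.S1264
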