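import Cfsg.Statements.S1267
import Mathlib.Tactic
import Cfsg.Agent.Components.LocalLayer

set_option autoImplicit false
open Cfsg
open scoped commutatorElement

namespace Cfsg.Agent.S1267

/-- Let G be finite and P ≤ O_p(G). Then E(N_G(P)) = E(G). -/
theorem result {G : Type*} [Group G] [Finite G] (p : ℕ) [Fact p.Prime] (P : Subgroup G) (hP : P ≤ Cfsg.pCore p G) : (Cfsg.layer ↥(Subgroup.normalizer ((P : Subgroup G) : Set G))).map (Subgroup.normalizer ((P : Subgroup G) : Set G)).subtype = Cfsg.layer G := by
  have hPp : IsPGroup p ↥P := (CfsgLib.Components.pCore_isPGroup p).to_le hP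
  set N := Subgroup.normalizer ((P : Subgroup G) : Set G) with hN
  set C := Subgroup.centralizer (Cfsg.pCore p G : Set G) with hC
  have hCn : C.Normal := Subgroup.normal_centralizer
  have hCN : C ≤ N := (Subgroup.centralizer_le hP).trans (Subgroup.centralizer_le_normalizer _)
  have hEC : Cfsg.layer G ≤ C := CfsgLib.Components.layer_le_centralizer_fitting.trans
    (Subgroup.centralizer_le (CfsgLib.Components.pCore_le_fittingSubgroup p))
  refine le_antisymm ?_ ?_
  · rw [Subgroup.map_le_iff_le_comap]
    refine sSup_le fun K hK => Subgroup.map_le_iff_le_comap.mp ?_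
    have key : ∀ W : Subgroup G, IsPGroup p ↥W → W ≤ N → N ≤ Subgroup.normalizer (W : Set G) →
        K.map N.subtype ≤ Subgroup.centralizer (W : Set G) := by
      intro W hWp hWN hWn
      have hn : (W.subgroupOf N).Normal := Subgroup.normal_subgroupOf_of_le_normalizer hWn
      have hp' : IsPGroup p ↥(W.subgroupOf N) :=
        hWp.of_injective (Subgroup.subgroupOfEquivOfLe hWN).toMonoidHom
          (Subgroup.subgroupOfEquivOfLe hWN).injective
      have h := congrArg (Subgroup.map N.subtype) (CfsgLib.Components.component_commute_solvable hK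
        hn.isSubnormal (haveI := hp'.isNilpotent; inferInstance))
      rw [Subgroup.map_commutator, Subgroup.subgroupOf_map_subtype, inf_eq_left.mpr hWN, Subgroup.map_bot] at h
      exact Subgroup.commutator_eq_bot_iff_le_centralizer.mp h
    have hperf : ⁅K.map N.subtype, K.map N.subtype⁆ = K.map N.subtype := by
      rw [← Subgroup.map_commutator, CfsgLib.Components.quasisimple_commutator hK.2]
    have hKC : K.map N.subtype ≤ C :=
      CfsgLib.Components.perfect_le_centralizer_pCore hPp hperf (key P hPp Subgroup.le_normalizer le_rfl)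
        (key _ ((CfsgLib.Components.pCore_isPGroup p).to_le inf_le_left)
          (inf_le_right.trans (Subgroup.centralizer_le_normalizer _))
          CfsgLib.Components.pCore_centralizer_normalized)
    have hKX : K ≤ C.subgroupOf N := fun x hx => hKC ⟨x, hx, rfl⟩
    have hcomp := CfsgLib.Components.isComponent_map_subtype hCn.isSubnormal
      (CfsgLib.Components.isComponent_map_equiv (Subgroup.subgroupOfEquivOfLe hCN)
        (CfsgLib.Components.isComponent_subgroupOf' hK hKX))
    have he : ((K.subgroupOf (C.subgroupOf N)).map (Subgroup.subgroupOfEquivOfLe hCN).toMonoidHom).map C.subtype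
        = K.map N.subtype := by
      ext y
      constructor
      · rintro ⟨_, ⟨x, hx, rfl⟩, rfl⟩
        exact ⟨x.1, hx, rfl⟩
      · rintro ⟨x, hx, rfl⟩
        exact ⟨_, ⟨⟨x, hKX hx⟩, hx, rfl⟩, rfl⟩
    rw [he] at hcomp
    exact CfsgLib.Components.component_le_layer hcomp
  · refine sSup_le fun L hL => ?_
    have hLN : L ≤ N := ((CfsgLib.Components.component_le_layer hL).trans hEC).trans hCN
    have h := Subgroup.map_mono (f := N.subtype)
      (CfsgLib.Components.component_le_layer (CfsgLib.Components.isComponent_subgroupOf' hL hLN))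
    rwa [Subgroup.subgroupOf_map_subtype, inf_eq_left.mpr hLN] at h

end Cfsg.Agent.S1267
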