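import Cfsg.Statements.S1268
import Mathlib.Tactic
import Cfsg.Agent.Components.LocalLayer

set_option autoImplicit false
open Cfsg
open scoped commutatorElement

namespace Cfsg.Agent.S1268

/-- Let G be finite with F*(G) = O_p(G). Then F*(N) = O_p(N) for N the normalizer of any p-subgroup P of G. -/
theorem result {G : Type*} [Group G] [Finite G] (p : ℕ) [Fact p.Prime] (h : Cfsg.generalizedFittingSubgroup G = Cfsg.pCore p G) (P : Subgroup G) (hP : IsPGroup p ↥P) : Cfsg.generalizedFittingSubgroup ↥(Subgroup.normalizer ((P : Subgroup G) : Set G)) = Cfsg.pCore p ↥(Subgroup.normalizer ((P : Subgroup G) : Set G)) := by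
  have htop : CfsgLib.Components.IsCharP p (⊤ : Subgroup G) := by
    have hc := (CfsgLib.Components.generalizedFitting_eq_pCore_iff p).mp h
    have he : CfsgLib.Components.pCoreIn p (⊤ : Subgroup G) = Cfsg.pCore p G := by
      refine le_antisymm ?_ ?_
      · refine le_trans (CfsgLib.Components.le_pCoreIn le_top ?_ (CfsgLib.Components.pCoreIn_isPGroup p ⊤)) ?_
        · exact Subgroup.le_normalizer.trans (CfsgLib.Components.normalizer_le_normalizer_pCoreIn p ⊤)
        · refine CfsgLib.PCore.le_pCore ?_ (CfsgLib.Components.pCoreIn_isPGroup p ⊤)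
          exact Subgroup.normalizer_eq_top_iff.mp (eq_top_iff.mpr
            (Subgroup.le_normalizer.trans (CfsgLib.Components.normalizer_le_normalizer_pCoreIn p ⊤)))
      · exact CfsgLib.Components.le_pCoreIn le_top
          (le_top.trans_eq (Subgroup.normalizer_eq_top_iff.mpr inferInstance).symm) (CfsgLib.Components.pCore_isPGroup p)
    show (⊤ : Subgroup G) ⊓ _ ≤ _
    rw [he]
    exact inf_le_right.trans hc
  have h2 := (CfsgLib.Components.isCharP_iff p _).mp
    (CfsgLib.Components.isCharP_normalizer htop le_top hP le_top)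
  exact (CfsgLib.Components.generalizedFitting_eq_pCore_iff p).mpr h2

end Cfsg.Agent.S1268
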