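import Cfsg.Statements.S1277
import Cfsg.Agent.Components.PCompInternal

set_option autoImplicit false
open Cfsg

namespace Cfsg.Agent.S1277

/-- For a finite group X with core O(X): the image of E(X) in X / O(X) is all of E(X / O(X)) if and only if every 2-component of X is a component, i.e. L_{2'}(X) ≤ E(X). -/
theorem result {X : Type*} [Group X] [Finite X] : (Cfsg.layer X).map (QuotientGroup.mk' (Cfsg.oddCore X)) = Cfsg.layer (X ⧸ Cfsg.oddCore X) ↔ Cfsg.pLayer 2 X ≤ Cfsg.layer X := by
  haveI : Fact (Nat.Prime 2) := ⟨Nat.prime_two⟩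
  unfold Cfsg.oddCore
  constructor
  · intro h
    rw [← CfsgLib.Components.pLayer_map] at h
    refine sSup_le fun K hK => ?_
    refine (CfsgLib.Components.pComponent_le_pElems hK).trans ((Subgroup.closure_le _).mpr ?_)
    rintro x ⟨hx, k, hk⟩
    refine CfsgLib.Components.pElement_mem_of_subnormal CfsgLib.Components.layer_normal.isSubnormal
      (CfsgLib.Components.comap_mk_map_le _ (Subgroup.mem_comap.mpr ?_)) hk
    rw [h]
    exact ⟨x, CfsgLib.Components.pComponent_le_pLayer hK hx, rfl⟩
  · intro h
    refine le_antisymm (CfsgLib.Components.layer_map_le _) ?_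
    rw [← CfsgLib.Components.pLayer_map]
    exact Subgroup.map_mono h


end Cfsg.Agent.S1277
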