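import Cfsg.Statements.S1279
import Mathlib.Tactic
import Cfsg.Agent.PCore.Descent

set_option autoImplicit false
open Cfsg
open scoped commutatorElement

namespace Cfsg.Agent.S1279

/-- Let A be a noncyclic elementary abelian p-subgroup of the finite group G such that C_G(a) is solvable for every non-identity a ∈ A. Then a ↦ O_{p'}(C_G(a)) is a solvable A-signalizer functor on G. -/
theorem result {G : Type*} [Group G] [Finite G] (p : ℕ) [Fact p.Prime] (A : Subgroup G) (hA : Cfsg.IsElementaryAbelian p A) (hA2 : p ^ 2 ≤ Nat.card ↥A) (hsolv : ∀ a ∈ A, a ≠ 1 → Group.IsSolvable ↥(Subgroup.centralizer ({a} : Set G))) : Cfsg.IsSolvableSignalizerFunctor p A (fun a => Cfsg.centralizerPPrimeCore p a) := by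
  have hsub : ∀ a, Cfsg.centralizerPPrimeCore p a ≤ Subgroup.centralizer ({a} : Set G) :=
    fun a => Subgroup.map_subtype_le _
  refine ⟨⟨fun a _ _ => hsub a, fun a _ _ => ?_, fun a ha _ b hb g hg => ?_, fun a ha ha1 b hb hb1 => ?_⟩,
    fun a ha ha1 => ?_⟩
  · show ¬ p ∣ Nat.card ↥((Cfsg.pPrimeCore p _).map (Subgroup.centralizer ({a} : Set G)).subtype)
    rw [Subgroup.card_map_of_injective Subtype.val_injective]
    exact CfsgLib.PCore.not_dvd_card_pPrimeCore p _
  · have hbC : b ∈ Subgroup.centralizer ({a} : Set G) := by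
      have := hA.1
      exact Subgroup.mem_centralizer_singleton_iff.2
        (congrArg Subtype.val (mul_comm' (⟨b, hb⟩ : A) ⟨a, ha⟩))
    obtain ⟨d, hd, rfl⟩ := hg
    exact ⟨_, (Cfsg.pPrimeCore_normal p _).conj_mem d hd ⟨b, hbC⟩, rfl⟩
  · have := hA.1
    have := hsolv b hb hb1
    refine CfsgLib.PCore.centralizerPPrimeCore_inf_le ?_ (n := 1) (by rw [pow_one]; exact hA.2 a ha)
      CfsgLib.PCore.isPConstrained_of_isSolvable
    exact congrArg Subtype.val (mul_comm' (⟨a, ha⟩ : A) ⟨b, hb⟩)
  · have := hsolv a ha ha1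
    exact Group.isSolvable_of_isSolvable_injective (f := Subgroup.inclusion (hsub a))
      (Subgroup.inclusion_injective _)

end Cfsg.Agent.S1279
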