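import Cfsg.Statements.S1281
import Mathlib.Tactic
import Cfsg.Agent.Signalizer.Functor

set_option autoImplicit false
open Cfsg
open scoped commutatorElement

namespace Cfsg.Agent.S1281

/-- Let θ be a solvable A-signalizer functor on the finite group G (A a noncyclic elementary abelian p-subgroup) and N a normal subgroup of order prime to p. Then for all non-identity a, b ∈ A, the image of θ a in G / N meets the centralizer of the image of b inside the image of θ b. -/
theorem result {G : Type*} [Group G] [Finite G] (p : ℕ) [Fact p.Prime] (A : Subgroup G) (hA : Cfsg.IsElementaryAbelian p A) (hA2 : p ^ 2 ≤ Nat.card ↥A) (θ : G → Subgroup G) (hθ : Cfsg.IsSolvableSignalizerFunctor p A θ) (N : Subgroup G) [N.Normal] (hN : ¬ p ∣ Nat.card ↥N) (a b : G) (ha : a ∈ A) (ha1 : a ≠ 1) (hb : b ∈ A) (hb1 : b ≠ 1) : (θ a).map (QuotientGroup.mk' N) ⊓ Subgroup.centralizer {QuotientGroup.mk' N b} ≤ (θ b).map (QuotientGroup.mk' N) := by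
  rintro y hy
  obtain ⟨hy1, hy2⟩ := Subgroup.mem_inf.1 hy
  obtain ⟨x, hx, rfl⟩ := hy1
  have hB : Subgroup.zpowers b ≤ A := Subgroup.zpowers_le.2 hb
  have hAa : A ≤ Subgroup.normalizer (θ a : Set G) := Subgroup.le_normalizer_iff.2 (hθ.1.2.2.1 a ha ha1)
  have hcom : ∀ k ∈ Subgroup.zpowers b, k * x * k⁻¹ * x⁻¹ ∈ N ⊓ θ a := by
    intro k hk
    refine Subgroup.mem_inf.2 ⟨?_, mul_mem (CfsgLib.CoprimeAction.conj_mem hAa (hB hk) hx)
      (Subgroup.inv_mem _ hx)⟩
    rw [← QuotientGroup.eq_one_iff (N := N)]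
    have hm : (QuotientGroup.mk' N) k ∈ Subgroup.zpowers (QuotientGroup.mk' N b) := by
      rw [← MonoidHom.map_zpowers]; exact ⟨k, hk, rfl⟩
    obtain ⟨i, hi⟩ := Subgroup.mem_zpowers_iff.1 hm
    have hc : Commute (QuotientGroup.mk' N b) (QuotientGroup.mk' N x) :=
      (Subgroup.mem_centralizer_singleton_iff.1 hy2).symm
    have hc' := hc.zpow_left i
    rw [hi] at hc'
    show QuotientGroup.mk' N (k * x * k⁻¹ * x⁻¹) = 1
    rw [map_mul, map_mul, map_mul, map_inv, map_inv, hc'.eq, mul_inv_cancel_right, mul_inv_cancel]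
  obtain ⟨n, hn, hnc⟩ := CfsgLib.CoprimeAction.exists_mem_centralizer (A := Subgroup.zpowers b)
    (N := N ⊓ θ a) (k := x) (CfsgLib.Signalizer.le_normalizer_inf
      (by rw [Subgroup.normalizer_eq_top (H := N)]; exact le_top) (hB.trans hAa))
    ((CfsgLib.Signalizer.coprime_of_not_dvd
      ((CfsgLib.Signalizer.isPGroup_of_isElementaryAbelian hA).to_le hB) hN).coprime_dvd_right
      (Subgroup.card_dvd_of_le inf_le_left))
    (Or.inr (CfsgLib.Signalizer.isSolvable_of_le inf_le_right (hθ.2 a ha ha1))) hcom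
  refine ⟨n * x, hθ.1.2.2.2 a ha ha1 b hb hb1 (Subgroup.mem_inf.2
    ⟨mul_mem (Subgroup.mem_inf.1 hn).2 hx,
      Subgroup.centralizer_le (Set.singleton_subset_iff.2 (Subgroup.mem_zpowers b)) hnc⟩), ?_⟩
  rw [map_mul, show QuotientGroup.mk' N n = 1 from (QuotientGroup.eq_one_iff n).2 (Subgroup.mem_inf.1 hn).1, one_mul]

end Cfsg.Agent.S1281
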