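import Cfsg.Statements.S1285
import Mathlib.Tactic
import Cfsg.Agent.Signalizer.Functor

set_option autoImplicit false
open Cfsg
open scoped commutatorElement

namespace Cfsg.Agent.S1285

/-- Let θ be a solvable A-signalizer functor on the finite group G with A elementary abelian of rank at least 3, and suppose that for some prime q every θ a (a ∈ A non-identity) is a q-group. Then θ is complete. -/
theorem result {G : Type*} [Group G] [Finite G] (p : ℕ) [Fact p.Prime] (A : Subgroup G) (hA : Cfsg.IsElementaryAbelian p A) (hA3 : p ^ 3 ≤ Nat.card ↥A) (θ : G → Subgroup G) (hθ : Cfsg.IsSolvableSignalizerFunctor p A θ) (q : ℕ) [Fact q.Prime] (hq : ∀ a ∈ A, a ≠ 1 → IsPGroup q ↥(θ a)) : Cfsg.IsCompleteSignalizerFunctor p A θ := by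
  have hA1 : A ≠ ⊥ := by
    rintro rfl
    rw [Subgroup.card_bot] at hA3
    exact absurd hA3 (not_le.2 (one_lt_pow₀ (Fact.out : p.Prime).one_lt (by norm_num)))
  obtain ⟨a₀, ha₀, ha₀1⟩ := (Subgroup.bot_or_exists_ne_one A).resolve_left hA1
  have hthm := fun a (ha : a ∈ A) (ha1 : a ≠ 1) => CfsgLib.Signalizer.theta_mem_family hθ ha ha1
  obtain ⟨Q, hQ, -⟩ := CfsgLib.Signalizer.exists_isMaxQ (hthm a₀ ha₀ ha₀1) (hq a₀ ha₀ ha₀1)
  have hI : Cfsg.signalizerInf A θ ≤ Q := by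
    obtain ⟨S, hS⟩ := CfsgLib.Signalizer.exists_sylow_centralizer hA hA3 hθ hQ le_rfl hA1
    have hIq : IsPGroup q ↥(Cfsg.signalizerInf A θ) :=
      (hq a₀ ha₀ ha₀1).to_le (CfsgLib.Signalizer.signalizerInf_le ha₀ ha₀1)
    have htop : (S : Subgroup ↥(Cfsg.signalizerInf A θ)) = ⊤ :=
      (S.3 (hIq.to_subgroup _) le_top).symm
    rw [htop, ← MonoidHom.range_eq_map, Subgroup.range_subtype] at hS
    rw [hS]; exact inf_le_left
  refine ⟨hθ.1, Q, hQ.1.2.2.1, hQ.1.2.1, fun a ha ha1 => le_antisymm (hQ.1.2.2.2 a ha ha1) ?_⟩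
  obtain ⟨Q', hQ', hle⟩ := CfsgLib.Signalizer.exists_isMaxQ (hthm a ha ha1) (hq a ha ha1)
  obtain ⟨c, hc, rfl⟩ := CfsgLib.Signalizer.transitivity_functor hA hA3 hθ hQ hQ'
  rw [CfsgLib.Signalizer.conj_smul_eq_self (Subgroup.le_normalizer (hI hc))] at hle
  exact le_inf hle (hθ.1.1 a ha ha1)

end Cfsg.Agent.S1285
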