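import Cfsg.Statements.S1286
import Mathlib.Tactic

set_option autoImplicit false
open Cfsg
open scoped commutatorElement

namespace Cfsg.Agent.S1286

abbrev a : Equiv.Perm (Fin 5) := Equiv.swap 0 1
abbrev b : Equiv.Perm (Fin 5) := Equiv.swap 2 3
abbrev s : Equiv.Perm (Fin 5) := Equiv.swap 2 4 * Equiv.swap 2 3
abbrev t : Equiv.Perm (Fin 5) := Equiv.swap 0 4 * Equiv.swap 0 1

def A : Subgroup (Equiv.Perm (Fin 5)) where
  carrier := {1, a, b, a * b}
  one_mem' := Or.inl rfl
  mul_mem' := by
    rintro x y (rfl | rfl | rfl | rfl) (rfl | rfl | rfl | rfl) <;>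
      simp only [Set.mem_insert_iff, Set.mem_singleton_iff] <;> decide
  inv_mem' := by
    rintro x (rfl | rfl | rfl | rfl) <;>
      simp only [Set.mem_insert_iff, Set.mem_singleton_iff] <;> decide

def theta (x : Equiv.Perm (Fin 5)) : Subgroup (Equiv.Perm (Fin 5)) :=
  if x = a then Subgroup.zpowers s else if x = b then Subgroup.zpowers t else ⊥

lemma mem_theta (x g : Equiv.Perm (Fin 5)) : g ∈ theta x ↔
    g = 1 ∨ (x = a ∧ (g = s ∨ g = s * s)) ∨ (x = b ∧ (g = t ∨ g = t * t)) := by
  have key : ∀ u : Equiv.Perm (Fin 5), u ≠ 1 → u * u * u = 1 →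
      (g ∈ Subgroup.zpowers u ↔ g = 1 ∨ g = u ∨ g = u * u) := by
    intro u hu1 hu
    have ho : orderOf u = 3 := orderOf_eq_prime (by rw [pow_three, ← mul_assoc]; exact hu) hu1
    rw [mem_zpowers_iff_mem_range_orderOf, ho]
    simp only [Finset.mem_image, Finset.mem_range]
    constructor
    · rintro ⟨i, hi, rfl⟩
      interval_cases i <;> simp [pow_two]
    · rintro (rfl | rfl | rfl)
      exacts [⟨0, by omega, pow_zero _⟩, ⟨1, by omega, pow_one _⟩, ⟨2, by omega, pow_two _⟩]
  unfold theta
  split_ifs with h1 h2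
  · subst h1
    rw [key s (by decide) (by decide)]
    have : a ≠ b := by decide
    simp [this]
  · subst h2
    rw [key t (by decide) (by decide)]
    simp [h1]
  · simp [h1, h2]

/-- There exist a finite group X, an elementary abelian subgroup A of order 4 and a solvable A-signalizer functor θ on X for the prime 2 which is not complete. -/
theorem result : ∃ (X : Type) (_ : Group X) (_ : Finite X) (A : Subgroup X) (θ : X → Subgroup X), Cfsg.IsElementaryAbelian 2 A ∧ Nat.card ↥A = 4 ∧ Cfsg.IsSolvableSignalizerFunctor 2 A θ ∧ ¬ Cfsg.IsCompleteSignalizerFunctor 2 A θ := by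
  have hA : ∀ x : Equiv.Perm (Fin 5), x ∈ A ↔ x = 1 ∨ x = a ∨ x = b ∨ x = a * b := fun x => Iff.rfl
  have fA : ∀ x ∈ A, x ≠ 1 → x = a ∨ x = b ∨ x = a * b := fun x hx h1 => ((hA x).1 hx).resolve_left h1
  refine ⟨Equiv.Perm (Fin 5), inferInstance, inferInstance, A, theta,
    ⟨⟨⟨fun ⟨x, hx⟩ ⟨y, hy⟩ => Subtype.ext ?_⟩⟩, ?_⟩, ?_, ⟨⟨?_, ?_, ?_, ?_⟩, ?_⟩, ?_⟩
  · show x * y = y * x
    rcases (hA x).1 hx with rfl | rfl | rfl | rfl <;> rcases (hA y).1 hy with rfl | rfl | rfl | rfl <;> decide
  · intro x hx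
    rcases (hA x).1 hx with rfl | rfl | rfl | rfl <;> decide
  · have e : (A : Set (Equiv.Perm (Fin 5))) = {1, a, b, a * b} := rfl
    rw [← SetLike.coe_sort_coe, Nat.card_coe_set_eq, e]
    rw [Set.ncard_insert_of_notMem, Set.ncard_insert_of_notMem, Set.ncard_pair]
    all_goals (try simp only [Set.mem_insert_iff, Set.mem_singleton_iff])
    all_goals decide
  · intro x hx h1 g hg
    rw [Subgroup.mem_centralizer_singleton_iff]
    rcases fA x hx h1 with rfl | rfl | rfl <;> rw [mem_theta] at hg <;> revert g hg <;> decide +kernel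
  · intro x hx h1 hd
    have : Nat.card (theta x) = 1 ∨ Nat.card (theta x) = 3 := by
      unfold theta
      split_ifs
      · right; rw [Nat.card_zpowers]; exact orderOf_eq_prime (by decide) (by decide)
      · right; rw [Nat.card_zpowers]; exact orderOf_eq_prime (by decide) (by decide)
      · left; simp
    omega
  · intro x hx h1 y hy g hg
    rw [mem_theta] at hg ⊢
    rcases fA x hx h1 with rfl | rfl | rfl <;> rcases (hA y).1 hy with rfl | rfl | rfl | rfl <;>
      revert g hg <;> decide +kernel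
  · intro x hx h1 y hy h2 g hg
    obtain ⟨hg', hc'⟩ := Subgroup.mem_inf.1 hg
    have hc := Subgroup.mem_centralizer_singleton_iff.1 hc'
    clear hg
    have hg := (mem_theta x g).1 hg'
    clear hg' hc'
    rw [mem_theta]
    rcases fA x hx h1 with rfl | rfl | rfl <;> rcases fA y hy h2 with rfl | rfl | rfl <;>
      revert g hg hc <;> decide +kernel
  · intro x hx h1
    apply Group.isSolvable_of_comm
    rintro ⟨g, hg⟩ ⟨k, hk⟩
    apply Subtype.ext
    show g * k = k * g
    rw [mem_theta] at hg hk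
    rcases fA x hx h1 with rfl | rfl | rfl <;> revert g k <;> decide +kernel
  · rintro ⟨-, X, -, hodd, hX⟩
    have hs : s ∈ X := by
      have : s ∈ theta a := (mem_theta _ _).2 (by decide)
      rw [← hX a ((hA a).2 (by decide)) (by decide)] at this
      exact this.1
    have ht : t ∈ X := by
      have : t ∈ theta b := (mem_theta _ _).2 (by decide)
      rw [← hX b ((hA b).2 (by decide)) (by decide)] at this
      exact this.1
    have hw : s * s * t * s * t ∈ X := mul_mem (mul_mem (mul_mem (mul_mem hs hs) ht) hs) ht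
    have ho : orderOf (s * s * t * s * t) = 2 := orderOf_eq_prime (by decide) (by decide)
    exact hodd (ho ▸ Subgroup.orderOf_dvd_natCard _ hw)

end Cfsg.Agent.S1286
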