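import Cfsg.Statements.S1287
import Mathlib.Tactic
import Cfsg.Agent.CoprimeAction.Factorization

set_option autoImplicit false
open scoped Pointwise
open Cfsg
open scoped commutatorElement

namespace Cfsg.Agent.S1287

/-- Let A be a noncyclic elementary abelian p-subgroup of a finite group H normalizing a subgroup K of order prime to p, and X, Y ≤ K subgroups normalized by A with C_K(a) = C_X(a) C_Y(a) (as sets) for every non-identity a ∈ A, where X is also normalized by C_K(A). Then K = XY as sets. -/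
theorem result {H : Type*} [Group H] [Finite H] (p : ℕ) [Fact p.Prime] (A K X Y : Subgroup H) (hA : Cfsg.IsElementaryAbelian p A) (hA2 : p ^ 2 ≤ Nat.card ↥A) (hK : ¬ p ∣ Nat.card ↥K) (hAK : A ≤ Subgroup.normalizer (K : Set H)) (hX : X ≤ K) (hY : Y ≤ K) (hAX : A ≤ Subgroup.normalizer (X : Set H)) (hAY : A ≤ Subgroup.normalizer (Y : Set H)) (hCX : K ⊓ Subgroup.centralizer (A : Set H) ≤ Subgroup.normalizer (X : Set H)) (hfac : ∀ a ∈ A, a ≠ 1 → ((K ⊓ Subgroup.centralizer {a} : Subgroup H) : Set H) = ((X ⊓ Subgroup.centralizer {a} : Subgroup H) : Set H) * ((Y ⊓ Subgroup.centralizer {a} : Subgroup H) : Set H)) : (K : Set H) = (X : Set H) * (Y : Set H) := by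
  have := hA.1
  have hc := CfsgLib.Signalizer.coprime_of_not_dvd (CfsgLib.Signalizer.isPGroup_of_isElementaryAbelian hA) hK
  refine CfsgLib.Factorization.eq_mul_of_centralizers (fun hcyc => ?_) hAK hc hX hY hAX hAY hCX hfac
  obtain ⟨g, hg⟩ := hcyc.exists_generator
  have h1 : orderOf (g : H) ∣ p := orderOf_dvd_of_pow_eq_one (hA.2 g g.2)
  rw [Subgroup.orderOf_coe, orderOf_eq_card_of_forall_mem_zpowers hg] at h1
  have h2 := hA2.trans (Nat.le_of_dvd (Fact.out : p.Prime).pos h1)
  exact absurd h2 (not_le.2 (lt_self_pow₀ (Fact.out : p.Prime).one_lt (by norm_num)))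

end Cfsg.Agent.S1287
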