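import Cfsg.Statements.S1288
import Cfsg.Agent.PCore.PConstrained
import Cfsg.Agent.Components.Cores
import Cfsg.Agent.CoprimeAction.Hyperplane

set_option autoImplicit false
open Cfsg

namespace Cfsg.Agent.S1288
open scoped commutatorElement

/-- Let A be a noncyclic elementary abelian p-subgroup of a finite group H normalizing a solvable subgroup K of order prime to p, q a prime dividing |K|, and U ≤ K a subgroup of order prime to q such that ⁅U, C_K(B)⁆ has order prime to q for every subgroup B of index p in A. Then U ≤ O_{q'}(K). -/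
theorem result {H : Type*} [Group H] [Finite H] (p : ℕ) [Fact p.Prime] (A K : Subgroup H) (hA : Cfsg.IsElementaryAbelian p A) (hA2 : p ^ 2 ≤ Nat.card ↥A) (hK : ¬ p ∣ Nat.card ↥K) (hKs : Group.IsSolvable ↥K) (hAK : A ≤ Subgroup.normalizer (K : Set H)) (q : ℕ) [Fact q.Prime] (hqK : q ∣ Nat.card ↥K) (U : Subgroup H) (hU : U ≤ K) (hUq : ¬ q ∣ Nat.card ↥U) (hcomm : ∀ B : Subgroup H, B ≤ A → B.relIndex A = p → ¬ q ∣ Nat.card ↥⁅U, K ⊓ Subgroup.centralizer (B : Set H)⁆) : U ≤ (Cfsg.pPrimeCore q ↥K).map K.subtype := by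
  haveI := hKs
  haveI := hA.1
  have hcon : Cfsg.IsPConstrained q ↥K := CfsgLib.PCore.isPConstrained_of_isSolvable
  have hHH := CfsgLib.PCore.isPConstrained_iff.1 hcon
  set M := Cfsg.pPrimePCore q ↥K with hMdef
  have hMchar : ∀ (φ : ↥K ≃* ↥K), ∀ x ∈ M, φ x ∈ M := by
    intro φ x hx
    have hO : (Cfsg.pPrimeCore q ↥K).map φ.toMonoidHom = Cfsg.pPrimeCore q ↥K :=
      Subgroup.characteristic_iff_map_eq.mp (CfsgLib.Components.pPrimeCore_characteristic q) φ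
    let ψ : ↥K ⧸ Cfsg.pPrimeCore q ↥K ≃* ↥K ⧸ Cfsg.pPrimeCore q ↥K := QuotientGroup.congr _ _ φ hO
    have h1 : ψ (QuotientGroup.mk' _ x) ∈ (Cfsg.pCore q (↥K ⧸ Cfsg.pPrimeCore q ↥K)).map ψ.toMonoidHom := ⟨_, hx, rfl⟩
    rw [Subgroup.characteristic_iff_map_eq.mp (CfsgLib.Components.pCore_characteristic q) ψ] at h1
    exact h1
  have hAM : A ≤ Subgroup.normalizer (M.map K.subtype : Set H) := by
    rw [Subgroup.le_normalizer_iff]
    rintro a ha _ ⟨x, hx, rfl⟩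
    exact ⟨K.normalizerMonoidHom ⟨a, hAK ha⟩ x, hMchar _ x hx, rfl⟩
  have hcop : (Nat.card ↥A).Coprime (Nat.card ↥(M.map K.subtype)) := by
    obtain ⟨n, hn⟩ := (show IsPGroup p ↥A from fun x => ⟨1, Subtype.ext (by rw [pow_one]; exact hA.2 x x.2)⟩).exists_card_eq
    rw [hn]
    exact (((Fact.out : p.Prime).coprime_iff_not_dvd.2 hK).coprime_dvd_right
      (Subgroup.card_dvd_of_le (Subgroup.map_subtype_le M))).pow_left n
  have hAne : A ≠ ⊥ := fun h => by
    rw [h, Subgroup.card_bot] at hA2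
    have := (Fact.out : p.Prime).two_le
    nlinarith
  have hUM : U ≤ M.map K.subtype := by
    intro u hu
    refine ⟨⟨u, hU hu⟩, ?_, rfl⟩
    refine hHH ?_
    rw [Subgroup.mem_centralizer_iff]
    intro y hy
    rw [SetLike.mem_coe, ← CfsgLib.PCore.map_pPrimePCore] at hy
    obtain ⟨m, hm, rfl⟩ := hy
    set W := ((Subgroup.centralizer ({QuotientGroup.mk' (Cfsg.pPrimeCore q ↥K) ⟨u, hU hu⟩} : Set (↥K ⧸ Cfsg.pPrimeCore q ↥K))).comap
      (QuotientGroup.mk' _)).map K.subtype with hW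
    have hgen : M.map K.subtype ≤ W := by
      refine CfsgLib.CoprimeAction.le_of_hyperplane_centralizers_le hAne hA.2 hAM hcop fun B hB hidx => ?_
      rintro s ⟨⟨s', hs', rfl⟩, hsB⟩
      refine ⟨s', ?_, rfl⟩
      rw [SetLike.mem_coe, Subgroup.mem_comap, Subgroup.mem_centralizer_singleton_iff]
      refine (commutatorElement_eq_one_iff_mul_comm.1 ?_).symm
      rw [← map_commutatorElement]
      have hMn : M.Normal := CfsgLib.PCore.pPrimePCore_normal q ↥K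
      have hcM : ⁅(⟨u, hU hu⟩ : ↥K), s'⁆ ∈ M := by
        rw [commutatorElement_def]
        exact M.mul_mem (hMn.conj_mem s' hs' _) (M.inv_mem hs')
      have hcU : ((⁅(⟨u, hU hu⟩ : ↥K), s'⁆ : ↥K) : H) ∈ ⁅U, K ⊓ Subgroup.centralizer (B : Set H)⁆ :=
        Subgroup.commutator_mem_commutator hu ⟨s'.2, hsB⟩
      set c := ⁅(⟨u, hU hu⟩ : ↥K), s'⁆
      have h1 : orderOf (QuotientGroup.mk' (Cfsg.pPrimeCore q ↥K) c) ∣ orderOf (c : H) := by
        rw [Subgroup.orderOf_coe]; exact orderOf_map_dvd _ _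
      have h2 := h1.trans (Subgroup.orderOf_dvd_natCard _ hcU)
      obtain ⟨k, hk⟩ := CfsgLib.PCore.isPGroup_pCore q (↥K ⧸ Cfsg.pPrimeCore q ↥K) ⟨_, hcM⟩
      have h3 : orderOf (QuotientGroup.mk' (Cfsg.pPrimeCore q ↥K) c) ∣ q ^ k :=
        orderOf_dvd_of_pow_eq_one (congrArg Subtype.val hk)
      exact orderOf_eq_one_iff.1 (Nat.eq_one_of_dvd_coprimes
        ((((Fact.out : q.Prime).coprime_iff_not_dvd.2 (hcomm B hB hidx))).pow_left k) h3 h2)
    obtain ⟨m', hm', he⟩ := hgen ⟨m, hm, rfl⟩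
    rw [← K.subtype_injective he]
    exact Subgroup.mem_centralizer_singleton_iff.1 hm'
  intro u hu
  obtain ⟨m, hm, rfl⟩ := hUM hu
  refine ⟨m, ?_, rfl⟩
  obtain ⟨k, hk⟩ := CfsgLib.PCore.isPGroup_pCore q (↥K ⧸ Cfsg.pPrimeCore q ↥K) ⟨_, hm⟩
  have h3 : orderOf (QuotientGroup.mk' (Cfsg.pPrimeCore q ↥K) m) ∣ q ^ k :=
    orderOf_dvd_of_pow_eq_one (congrArg Subtype.val hk)
  have h2 : orderOf (QuotientGroup.mk' (Cfsg.pPrimeCore q ↥K) m) ∣ Nat.card ↥U := by
    refine (orderOf_map_dvd _ _).trans ?_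
    rw [← Subgroup.orderOf_coe]
    exact Subgroup.orderOf_dvd_natCard _ hu
  exact (QuotientGroup.eq_one_iff m).1 (orderOf_eq_one_iff.1 (Nat.eq_one_of_dvd_coprimes
    ((((Fact.out : q.Prime).coprime_iff_not_dvd.2 hUq)).pow_left k) h3 h2))


end Cfsg.Agent.S1288
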