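import Cfsg.Statements.S1297
import Mathlib.Tactic
import Cfsg.Agent.Components.KBalance

set_option autoImplicit false
open Cfsg
open scoped commutatorElement

namespace Cfsg.Agent.S1297

/-- Let G be finite. Suppose that for every involution x, writing C = C_G(x), every component K of C / O(C) has K / Z(K) locally balanced. Then G is balanced. -/
theorem result {G : Type*} [Group G] [Finite G] (h : ∀ x : G, orderOf x = 2 → ∀ K : Subgroup (↥(Subgroup.centralizer ({x} : Set G)) ⧸ Cfsg.oddCore ↥(Subgroup.centralizer ({x} : Set G))), Cfsg.IsComponent K → Cfsg.IsLocallyBalanced (↥K ⧸ Subgroup.center ↥K)) : Cfsg.IsBalanced G := by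
  haveI : Fact (Nat.Prime 2) := ⟨Nat.prime_two⟩
  have hone : ∀ {X : Type _} [Group X] [Finite X] (x : X), orderOf x = 2 →
      Cfsg.IsElementaryAbelian 2 (Subgroup.zpowers x) ∧ Nat.card ↥(Subgroup.zpowers x) = 2 ^ 1 ∧
        Cfsg.signalizerDelta 2 (Subgroup.zpowers x) = Cfsg.centralizerPPrimeCore 2 x := by
    intro X _ _ x hx
    refine ⟨⟨inferInstance, ?_⟩, by rw [Nat.card_zpowers, hx, pow_one], ?_⟩
    · rintro _ ⟨n, rfl⟩
      show (x ^ n) ^ 2 = 1
      rw [← zpow_natCast, ← zpow_mul, mul_comm, zpow_mul, zpow_natCast, ← hx, pow_orderOf_eq_one, one_zpow]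
    · have hx1 : x ≠ 1 := fun h1 => by simp [h1] at hx
      refine le_antisymm (iInf_le_of_le ⟨x, Subgroup.mem_zpowers x, hx1⟩ le_rfl) (le_iInf ?_)
      rintro ⟨a, ha, ha1⟩
      obtain ⟨n, rfl⟩ := ha
      have hmod : x ^ n = x ^ (n % 2) := by
        rw [← zpow_mod_orderOf, hx]; rfl
      rcases Int.emod_two_eq n with h2 | h2 <;> rw [h2] at hmod
      · exact absurd (hmod.trans (zpow_zero x)) ha1
      · simp only [hmod, zpow_one]
        exact le_rfl
  have hK : Cfsg.IsKBalanced 2 1 G := by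
    refine CfsgLib.Components.isKBalanced_of_components le_rfl fun x hx K hK H hH A hA hcard => ?_
    have : Nontrivial ↥A := Finite.one_lt_card_iff_nontrivial.mp (by rw [hcard]; norm_num)
    obtain ⟨a, ha⟩ := exists_ne (1 : ↥A)
    have ha1 : (a : ↥H) ≠ 1 := fun h1 => ha (Subtype.ext h1)
    have h0 := h x hx K hK H hH a (orderOf_eq_prime (hA.2 a a.2) ha1)
    exact eq_bot_iff.mpr ((iInf_le _ ⟨(a : ↥H), a.2, ha1⟩).trans (eq_bot_iff.mp h0))
  intro x y hx hy hxy
  have key : ∀ x y : G, orderOf x = 2 → orderOf y = 2 → x * y = y * x →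
      Cfsg.centralizerPPrimeCore 2 x ⊓ Subgroup.centralizer {y} ≤ Cfsg.centralizerPPrimeCore 2 y := by
    intro x y hx hy hxy
    obtain ⟨h1, h2, h3⟩ := hone x hx
    rw [← h3]
    refine hK _ h1 h2 y hy ?_
    rintro _ ⟨n, rfl⟩
    exact (show Commute x y from hxy).zpow_left n
  exact le_antisymm (le_inf (key x y hx hy hxy) (inf_le_left.trans CfsgLib.Components.centralizerPPrimeCore_le))
    (le_inf (key y x hy hx hxy.symm) (inf_le_left.trans CfsgLib.Components.centralizerPPrimeCore_le))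

end Cfsg.Agent.S1297
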