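import Cfsg.Statements.S1299
import Cfsg.Agent.KBalance.Solvable

set_option autoImplicit false
open Cfsg

namespace Cfsg.Agent.S1299

/-- Let G be finite and k-balanced for the prime p (k ≥ 1), A an elementary abelian p-subgroup of order at least p^(k+2) such that O_{p'}(C_G(a)) is solvable for every non-identity a ∈ A. For a ∈ A put θ a = the subgroup generated by the Δ_G(D) ∩ C_G(a) over the subgroups D ≤ A of order p^k. Then θ is an A-signalizer functor. -/
theorem result {G : Type*} [Group G] [Finite G] (p k : ℕ) [Fact p.Prime] (hk : 1 ≤ k) (hbal : Cfsg.IsKBalanced p k G) (A : Subgroup G) (hA : Cfsg.IsElementaryAbelian p A) (hAk : p ^ (k + 2) ≤ Nat.card ↥A) (hsolv : ∀ a ∈ A, a ≠ 1 → Group.IsSolvable ↥(Cfsg.centralizerPPrimeCore p a)) : Cfsg.IsSignalizerFunctor p A (fun a => ⨆ D : {D : Subgroup G // D ≤ A ∧ Nat.card ↥D = p ^ k}, Cfsg.signalizerDelta p (D : Subgroup G) ⊓ Subgroup.centralizer {a}) := by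
  haveI := hA.1
  have hp := (Fact.out : p.Prime)
  have hel : ∀ D ≤ A, Cfsg.IsElementaryAbelian p D := fun D hD =>
    ⟨⟨⟨fun x y => Subtype.ext (congrArg (Subtype.val : ↥A → G) (mul_comm' (⟨x, hD x.2⟩ : ↥A) ⟨y, hD y.2⟩))⟩⟩,
      fun d hd => hA.2 d (hD hd)⟩
  have hPA : IsPGroup p ↥A := fun x => ⟨1, Subtype.ext (by rw [pow_one]; exact hA.2 x x.2)⟩
  have hsub : ∀ D ≤ A, p ^ k ≤ Nat.card ↥D → ∃ D0, D0 ≤ D ∧ Nat.card ↥D0 = p ^ k := by
    intro D hD hDk
    obtain ⟨m, hm⟩ := (hPA.to_le hD).exists_card_eq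
    have hkm : k ≤ m := (Nat.pow_le_pow_iff_right hp.one_lt).1 (hm ▸ hDk)
    obtain ⟨K, hK⟩ := Sylow.exists_subgroup_card_pow_prime (G := ↥D) p (n := k) (hm ▸ pow_dvd_pow p hkm)
    exact ⟨K.map D.subtype, Subgroup.map_subtype_le K, by rw [Subgroup.card_map_of_injective D.subtype_injective, hK]⟩
  have hb : ∀ D ≤ A, Nat.card ↥D = p ^ k → ∀ b ∈ A, b ≠ 1 →
      Cfsg.signalizerDelta p D ⊓ Subgroup.centralizer {b} ≤ Cfsg.centralizerPPrimeCore p b := fun D hD hDk b hb hb1 =>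
    hbal D (hel D hD) hDk b (orderOf_eq_prime (hA.2 b hb) hb1) fun a ha =>
      congrArg (Subtype.val : ↥A → G) (mul_comm' (⟨a, hD ha⟩ : ↥A) ⟨b, hb⟩)
  have hS : CfsgLib.KBalance.Setting p k A := ⟨hA, hAk, hk, fun D hD hDk b hbA hb1 => by
    obtain ⟨D0, h0, hc⟩ := hsub D hD hDk
    exact (inf_le_inf_right _ (CfsgLib.KBalance.signalizerDelta_anti h0)).trans (hb D0 (h0.trans hD) hc b hbA hb1)⟩
  have hle : ∀ a ∈ A, a ≠ 1 →
      (⨆ D : {D : Subgroup G // D ≤ A ∧ Nat.card ↥D = p ^ k},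
        Cfsg.signalizerDelta p (D : Subgroup G) ⊓ Subgroup.centralizer {a}) ≤ Cfsg.centralizerPPrimeCore p a :=
    fun a ha ha1 => iSup_le fun D => hb D D.2.1 D.2.2 a ha ha1
  have hpc : ∀ a ∈ A, a ≠ 1 → (Nat.card ↥(⨆ D : {D : Subgroup G // D ≤ A ∧ Nat.card ↥D = p ^ k},
        Cfsg.signalizerDelta p (D : Subgroup G) ⊓ Subgroup.centralizer {a})).Coprime p := fun a ha ha1 =>
    (CfsgLib.Components.centralizerPPrimeCore_coprime (p := p) (x := a)).coprime_dvd_left (Subgroup.card_dvd_of_le (hle a ha ha1))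
  have hnc : ∀ a ∈ A, A ≤ Subgroup.normalizer (Subgroup.centralizer ({a} : Set G) : Set G) := by
    intro a ha x hx
    refine Subgroup.le_normalizer (Subgroup.mem_centralizer_singleton_iff.2 ?_)
    exact congrArg (Subtype.val : ↥A → G) (mul_comm' (⟨x, hx⟩ : ↥A) ⟨a, ha⟩)
  have hnorm : ∀ a ∈ A, A ≤ Subgroup.normalizer ((⨆ D : {D : Subgroup G // D ≤ A ∧ Nat.card ↥D = p ^ k},
        Cfsg.signalizerDelta p (D : Subgroup G) ⊓ Subgroup.centralizer {a} : Subgroup G) : Set G) := by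
    intro a ha x hx
    rw [Subgroup.mem_normalizer_iff_map_conj_eq, Subgroup.map_iSup]
    refine iSup_congr fun D => ?_
    exact Subgroup.mem_normalizer_iff_map_conj_eq.1 (CfsgLib.KBalance.le_normalizer_inf
      (CfsgLib.KBalance.le_normalizer_signalizerDelta D.2.1) (hnc a ha) hx)
  refine ⟨fun a ha ha1 => iSup_le fun D => inf_le_right, fun a ha ha1 h => ?_, fun a ha ha1 b hb x hx => ?_,
    fun a ha ha1 b hbA hb1 => ?_⟩
  · exact (hp.coprime_iff_not_dvd.1 (hpc a ha ha1).symm) h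
  · exact (Subgroup.mem_normalizer_iff.1 (hnorm a ha hb) x).1 hx
  · have hgen : (⨆ D : {D : Subgroup G // D ≤ A ∧ Nat.card ↥D = p ^ k},
        Cfsg.signalizerDelta p (D : Subgroup G) ⊓ Subgroup.centralizer {a}) ≤
        CfsgLib.KBalance.gen p A a (⨆ D : {D : Subgroup G // D ≤ A ∧ Nat.card ↥D = p ^ k},
        Cfsg.signalizerDelta p (D : Subgroup G) ⊓ Subgroup.centralizer {a}) := by
      refine iSup_le fun D => ?_
      refine CfsgLib.KBalance.le_gen hS (le_iSup (fun D : {D : Subgroup G // D ≤ A ∧ Nat.card ↥D = p ^ k} =>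
        Cfsg.signalizerDelta p (D : Subgroup G) ⊓ Subgroup.centralizer {a}) D)
        (CfsgLib.KBalance.le_normalizer_inf (CfsgLib.KBalance.le_normalizer_signalizerDelta D.2.1) (hnc a ha))
        D.2.1 D.2.2.ge inf_le_left (Subgroup.zpowers_le.2 ha) (Subgroup.mem_zpowers a) ?_
      intro x hx
      refine Subgroup.mem_centralizer_iff.2 fun y hy => ?_
      obtain ⟨i, rfl⟩ := Subgroup.mem_zpowers_iff.1 hy
      exact ((show Commute a x from (Subgroup.mem_centralizer_singleton_iff.1 hx.2).symm).zpow_left i).eq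
    haveI := hsolv a ha ha1
    refine (CfsgLib.KBalance.inf_centralizer_le hS (Group.isSolvable_of_isSolvable_injective
      (Subgroup.inclusion_injective (hle a ha ha1))) (hpc a ha ha1) (hnorm a ha) hgen hbA).trans (iSup_le fun B => ?_)
    obtain ⟨D0, h0, hc⟩ := hsub B.1 B.2.1 B.2.2.2
    refine le_trans ?_ (le_iSup (fun D : {D : Subgroup G // D ≤ A ∧ Nat.card ↥D = p ^ k} =>
      Cfsg.signalizerDelta p (D : Subgroup G) ⊓ Subgroup.centralizer {b}) ⟨D0, h0.trans B.2.1, hc⟩)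
    exact inf_le_inf (CfsgLib.KBalance.signalizerDelta_anti h0) (Subgroup.centralizer_le (Set.singleton_subset_iff.2 B.2.2.1))


end Cfsg.Agent.S1299
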