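import Cfsg.Statements.S1300
-- import your own Cfsg.Agent.* helpers here

set_option autoImplicit false
open Cfsg

namespace Cfsg.Agent.S1300

/-- For a finite group G, balance in the sense of commuting involutions is the same as 1-balance for the prime 2. -/
theorem result {G : Type*} [Group G] [Finite G] : Cfsg.IsBalanced G ↔ Cfsg.IsKBalanced 2 1 G := by
  constructor
  · intro hbal A hA hcard b hb hcomm
    have : Fact (Nat.Prime 2) := ⟨Nat.prime_two⟩
    have hne : A ≠ ⊥ := by
      intro h; rw [h] at hcard; simp at hcard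
    obtain ⟨x, hxA, hx1⟩ := (Subgroup.bot_or_exists_ne_one A).resolve_left hne
    have hx : orderOf x = 2 := orderOf_eq_prime (hA.2 x hxA) hx1
    intro g hg
    obtain ⟨hg1, hg2⟩ := Subgroup.mem_inf.1 hg
    have h1 : g ∈ Cfsg.centralizerPPrimeCore 2 x :=
      Subgroup.mem_iInf.1 hg1 ⟨x, hxA, hx1⟩
    have h2 : g ∈ Cfsg.centralizerPPrimeCore 2 x ⊓ Subgroup.centralizer {b} := ⟨h1, hg2⟩
    rw [hbal x b hx hb (hcomm x hxA)] at h2
    exact h2.1
  · intro hk
    have key : ∀ x y : G, orderOf x = 2 → orderOf y = 2 → x * y = y * x →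
        Cfsg.centralizerPPrimeCore 2 x ⊓ Subgroup.centralizer {y} ≤
          Cfsg.centralizerPPrimeCore 2 y ⊓ Subgroup.centralizer {x} := by
      intro x y hx hy hxy g hg
      obtain ⟨hg1, hg2⟩ := Subgroup.mem_inf.1 hg
      have hel : Cfsg.IsElementaryAbelian 2 (Subgroup.zpowers x) := by
        refine ⟨inferInstance, fun a ha => ?_⟩
        obtain ⟨n, rfl⟩ := ha
        show (x ^ n) ^ 2 = 1
        rw [← zpow_natCast, zpow_comm, zpow_natCast, ← hx, pow_orderOf_eq_one, one_zpow]
      have hd : g ∈ Cfsg.signalizerDelta 2 (Subgroup.zpowers x) := by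
        refine Subgroup.mem_iInf.2 ?_
        rintro ⟨a, ha, ha1⟩
        have : a = x := by
          obtain ⟨n, rfl⟩ := ha
          have h2 : x ^ (2 : ℤ) = 1 := by rw [zpow_ofNat, ← hx, pow_orderOf_eq_one]
          rcases Int.even_or_odd n with ⟨m, rfl⟩ | ⟨m, rfl⟩
          · exact absurd (by show x ^ (m + m) = 1; rw [← two_mul, zpow_mul, h2, one_zpow]) ha1
          · show x ^ (2 * m + 1) = x
            rw [zpow_add_one, zpow_mul, h2, one_zpow, one_mul]
        subst this; exact hg1
      have hc : ∀ a ∈ Subgroup.zpowers x, a * y = y * a := by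
        rintro a ⟨n, rfl⟩
        exact ((Commute.zpow_left hxy n : Commute (x ^ n) y))
      refine ⟨hk _ hel (by rw [Nat.card_zpowers, hx]; norm_num) y hy hc ⟨hd, hg2⟩, ?_⟩
      obtain ⟨c, hc', rfl⟩ := hg1
      exact c.2
    intro x y hx hy hxy
    exact le_antisymm (key x y hx hy hxy) (key y x hy hx hxy.symm)

end Cfsg.Agent.S1300
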