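import Cfsg.Statements.S1303
import Mathlib.Tactic
import Cfsg.Agent.PCore.PConstrained

set_option autoImplicit false
open Cfsg
open scoped commutatorElement

namespace Cfsg.Agent.S1303

abbrev Q3 := Matrix.SpecialLinearGroup (Fin 2) (ZMod 3)

theorem center_fact : ∀ t : Q3, t * t = 1 → ∀ g : Q3, g * t = t * g := by decide +kernel

theorem four_closed : ∀ a b : Q3, a ^ 4 = 1 → b ^ 4 = 1 → (a * b) ^ 4 = 1 := by decide +kernel

theorem derived_fact : ∀ a b : Q3, (a * b * a⁻¹ * b⁻¹) ^ 4 = 1 := by decide +kernel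

theorem derived_fact' : ∀ a b : Q3, a ^ 4 = 1 → b ^ 4 = 1 → (a * b * a⁻¹ * b⁻¹) * (a * b * a⁻¹ * b⁻¹) = 1 := by
  decide +kernel

theorem no_normal_three : ∀ g : Q3, g ^ 3 = 1 → g ≠ 1 →
    ∃ h : Q3, (h * g * h⁻¹) * g ≠ g * (h * g * h⁻¹) := by decide +kernel

/-- The elements of order dividing four. -/
def Q8 : Subgroup Q3 where
  carrier := {g | g ^ 4 = 1}
  one_mem' := one_pow _
  mul_mem' := fun {a b} ha hb => four_closed a b ha hb
  inv_mem' := fun {a} (ha : a ^ 4 = 1) => show a⁻¹ ^ 4 = 1 by rw [inv_pow, ha, inv_one]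

theorem isSolvable_Q3 : Group.IsSolvable Q3 := by
  have h1 : derivedSeries Q3 1 ≤ Q8 := by
    rw [derivedSeries_succ, derivedSeries_zero, Subgroup.commutator_le]
    exact fun a _ b _ => derived_fact a b
  have h2 : derivedSeries Q3 2 ≤ Subgroup.center Q3 := by
    rw [derivedSeries_succ]
    refine (Subgroup.commutator_mono h1 h1).trans ?_
    rw [Subgroup.commutator_le]
    exact fun a ha b hb => Subgroup.mem_center_iff.2 (center_fact _ (derived_fact' a b ha hb))
  refine ⟨⟨3, le_bot_iff.1 ?_⟩⟩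
  rw [derivedSeries_succ]
  refine (Subgroup.commutator_mono h2 h2).trans ?_
  rw [Subgroup.commutator_le]
  intro a ha b _
  rw [Subgroup.mem_bot, commutatorElement_eq_one_iff_mul_comm]
  exact (Subgroup.mem_center_iff.1 ha b).symm

/-- The group X = SL(2, 3): it is 2-constrained, O_{2'}(X) = 1, its centre A = Z(X) contains every involution of X = C_X(A), and X has a subgroup of order 3 (normalized by A) not contained in O_{2'}(X). -/
theorem result : Cfsg.IsPConstrained 2 (Matrix.SpecialLinearGroup (Fin 2) (ZMod 3)) ∧ Cfsg.pPrimeCore 2 (Matrix.SpecialLinearGroup (Fin 2) (ZMod 3)) = ⊥ ∧ (∀ t : Matrix.SpecialLinearGroup (Fin 2) (ZMod 3), orderOf t = 2 → t ∈ Subgroup.center (Matrix.SpecialLinearGroup (Fin 2) (ZMod 3))) ∧ ∃ Q : Subgroup (Matrix.SpecialLinearGroup (Fin 2) (ZMod 3)), Nat.card ↥Q = 3 ∧ ¬ (Q ≤ Cfsg.pPrimeCore 2 (Matrix.SpecialLinearGroup (Fin 2) (ZMod 3))) := by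
  have := isSolvable_Q3
  have : Fact (Nat.Prime 2) := ⟨Nat.prime_two⟩
  have hcard : Nat.card Q3 = 24 := by rw [Nat.card_eq_fintype_card]; decide +kernel
  have hbot : Cfsg.pPrimeCore 2 Q3 = ⊥ := by
    rw [Subgroup.eq_bot_iff_forall]
    intro g hg
    by_contra hg1
    have hcop := CfsgLib.PCore.pPrimeCore_coprime 2 Q3
    have hd : Nat.card ↥(Cfsg.pPrimeCore 2 Q3) ∣ 24 := hcard ▸ Subgroup.card_subgroup_dvd_card _
    have h3 : Nat.card ↥(Cfsg.pPrimeCore 2 Q3) ∣ 3 := by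
      have h : (Nat.card ↥(Cfsg.pPrimeCore 2 Q3)).Coprime 8 := by
        simpa using hcop.pow_right 3
      exact h.dvd_of_dvd_mul_left (by simpa using hd)
    have hc : Nat.card ↥(Cfsg.pPrimeCore 2 Q3) = 3 := by
      rcases (Nat.dvd_prime Nat.prime_three).1 h3 with h | h
      · rw [Subgroup.card_eq_one] at h
        rw [h, Subgroup.mem_bot] at hg
        exact absurd hg hg1
      · exact h
    have hord : g ^ 3 = 1 := by
      have := pow_card_eq_one' (x := (⟨g, hg⟩ : ↥(Cfsg.pPrimeCore 2 Q3)))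
      rw [hc] at this
      exact congrArg Subtype.val this
    obtain ⟨h, hh⟩ := no_normal_three g hord hg1
    have hn : (Cfsg.pPrimeCore 2 Q3).Normal := Subgroup.sSup_normal _ fun _ h => h.1
    have : IsCyclic ↥(Cfsg.pPrimeCore 2 Q3) := isCyclic_of_prime_card (p := 3) hc
    exact hh (congrArg Subtype.val (mul_comm'
      (⟨h * g * h⁻¹, hn.conj_mem g hg h⟩ : ↥(Cfsg.pPrimeCore 2 Q3)) ⟨g, hg⟩))
  refine ⟨CfsgLib.PCore.isPConstrained_of_isSolvable, hbot, fun t ht => Subgroup.mem_center_iff.2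
    (center_fact t (by have := pow_orderOf_eq_one t; rwa [ht, pow_two] at this)), ?_⟩
  have : Fact (Nat.Prime 3) := ⟨Nat.prime_three⟩
  obtain ⟨g, hg⟩ := exists_prime_orderOf_dvd_card' (G := Q3) 3 (by rw [hcard]; norm_num)
  refine ⟨Subgroup.zpowers g, (Nat.card_zpowers g).trans hg, ?_⟩
  show ¬ Subgroup.zpowers g ≤ Cfsg.pPrimeCore 2 Q3
  rw [hbot, le_bot_iff, Subgroup.zpowers_eq_bot]
  rintro rfl
  rw [orderOf_one] at hg
  norm_num at hg

end Cfsg.Agent.S1303
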