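import Cfsg.Statements.S1304
import Mathlib.Tactic

set_option autoImplicit false
open Cfsg
open scoped commutatorElement

namespace Cfsg.Agent.S1304

/-- Let X be a perfect group and α an automorphism of X with α(x) x⁻¹ central for every x. Then α is the identity. -/
theorem result {X : Type*} [Group X] (hperf : commutator X = ⊤) (α : X ≃* X) (h : ∀ x : X, α x * x⁻¹ ∈ Subgroup.center X) : ∀ x : X, α x = x := by
  let f : X →* Subgroup.center X :=
    { toFun := fun x => ⟨α x * x⁻¹, h x⟩
      map_one' := by ext; simp
      map_mul' := fun x y => by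
        ext
        simp only [map_mul, mul_inv_rev, Subgroup.coe_mul]
        calc α x * α y * (y⁻¹ * x⁻¹) = α x * (α y * y⁻¹ * x⁻¹) := by group
          _ = α x * (x⁻¹ * (α y * y⁻¹)) := by
              rw [(Subgroup.mem_center_iff.1 (h y) x⁻¹)]
          _ = α x * x⁻¹ * (α y * y⁻¹) := by group }
  have hk : commutator X ≤ f.ker := by
    rw [commutator_def]
    refine Subgroup.commutator_le.2 fun a _ b _ => ?_
    rw [MonoidHom.mem_ker, map_commutatorElement, commutatorElement_eq_one_iff_mul_comm]
    ext
    exact (Subgroup.mem_center_iff.1 (f b).2 (f a : X))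
  intro x
  have hx : f x = 1 := hk (by rw [hperf]; trivial)
  have : α x * x⁻¹ = 1 := congrArg Subtype.val hx
  exact mul_inv_eq_one.1 this

end Cfsg.Agent.S1304
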