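import Cfsg.Statements.S1305
import Cfsg.Agent.Components.Fixed
import Cfsg.Agent.Components.TwoBalance
import Cfsg.Agent.Components.Orbit
import Cfsg.Agent.S1337

set_option autoImplicit false
open Cfsg

namespace Cfsg.Agent.S1305

open scoped commutatorElement

/-- Let G be a finite group of component type with the B-property and no nontrivial normal subgroup of odd order. Let a be an involution and K a component of C_G(a) such that (a) |K| is maximal among the orders of components of centralizers of involutions of G, (b) subject to (a) the 2-rank of the centralizer of K in C_G(a) is as large as possible, and (c) K has 2-rank at least 2. If B is an elementary abelian 2-subgroup of that centralizer of the largest possible order, then K is a component of C_G(b) for every non-identity b ∈ B. -/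
theorem result {G : Type*} [Group G] [Finite G] (hO : Cfsg.oddCore G = ⊥) (hB : Cfsg.HasBProperty G) (hct : Cfsg.IsComponentType G) (a : G) (ha : orderOf a = 2) (K : Subgroup G) (hKa : K ≤ Subgroup.centralizer ({a} : Set G)) (hK : Cfsg.IsComponent (K.subgroupOf (Subgroup.centralizer ({a} : Set G)))) (hmax : ∀ y : G, orderOf y = 2 → ∀ K' : Subgroup G, K' ≤ Subgroup.centralizer ({y} : Set G) → Cfsg.IsComponent (K'.subgroupOf (Subgroup.centralizer ({y} : Set G))) → Nat.card ↥K' ≤ Nat.card ↥K ∧ (Nat.card ↥K' = Nat.card ↥K → ∀ k : ℕ, Cfsg.PRankLE 2 k ↥(Subgroup.centralizer ({a} : Set G) ⊓ Subgroup.centralizer (K : Set G)) → Cfsg.PRankLE 2 k ↥(Subgroup.centralizer ({y} : Set G) ⊓ Subgroup.centralizer (K' : Set G)))) (hrk : ¬ Cfsg.PRankLE 2 1 ↥K) (B : Subgroup G) (hBle : B ≤ Subgroup.centralizer ({a} : Set G) ⊓ Subgroup.centralizer (K : Set G)) (hBel : Cfsg.IsElementaryAbelian 2 B) (hBmax : ∀ B' : Subgroup G, B' ≤ Subgroup.centralizer ({a} : Set G) ⊓ Subgroup.centralizer (K : Set G) → Cfsg.IsElementaryAbelian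 2 B' → Nat.card ↥B' ≤ Nat.card ↥B) (b : G) (hb : b ∈ B) (hb1 : b ≠ 1) : K ≤ Subgroup.centralizer ({b} : Set G) ∧ Cfsg.IsComponent (K.subgroupOf (Subgroup.centralizer ({b} : Set G))) := by
  classical
  haveI : Fact (Nat.Prime 2) := ⟨Nat.prime_two⟩
  set Ca := Subgroup.centralizer ({a} : Set G) with hCa
  set Cb := Subgroup.centralizer ({b} : Set G) with hCb
  have hBab : ∀ x ∈ B, ∀ y ∈ B, x * y = y * x := fun x hx y hy =>
    congrArg Subtype.val (hBel.1.is_comm.comm ⟨x, hx⟩ ⟨y, hy⟩)
  have hsqB : ∀ x ∈ B, x * x = 1 := fun x hx => by rw [← pow_two]; exact hBel.2 x hx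
  have ha2 : a * a = 1 := by rw [← pow_two, ← ha]; exact pow_orderOf_eq_one a
  have haCK : a ∈ Ca ⊓ Subgroup.centralizer (K : Set G) := by
    refine ⟨Subgroup.mem_centralizer_singleton_iff.2 rfl, ?_⟩
    show a ∈ Subgroup.centralizer (K : Set G)
    exact Subgroup.mem_centralizer_iff.2 fun k hk => Subgroup.mem_centralizer_singleton_iff.1 (hKa hk)
  have hza : Cfsg.IsElementaryAbelian 2 (Subgroup.zpowers a) := by
    refine ⟨inferInstance, fun x hx => ?_⟩
    obtain ⟨i, rfl⟩ := hx
    show (a ^ i) ^ 2 = 1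
    rw [← zpow_natCast, ← zpow_mul, mul_comm, zpow_mul, zpow_natCast, pow_two, ha2, one_zpow]
  have haB : a ∈ B := by
    have hcomm : ∀ x ∈ B, ∀ y ∈ Subgroup.zpowers a, x * y = y * x := by
      rintro x hx _ ⟨i, rfl⟩
      exact (show Commute x a from Subgroup.mem_centralizer_singleton_iff.1 (hBle hx).1).zpow_right i
    have hle := hBmax (B ⊔ Subgroup.zpowers a) (sup_le hBle (Subgroup.zpowers_le.2 haCK))
      (Cfsg.Agent.S1337.elem_sup hBel hza hcomm)
    rw [Subgroup.eq_of_le_of_card_ge le_sup_left hle]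
    exact Subgroup.mem_sup_right (Subgroup.mem_zpowers a)
  have hKb : K ≤ Cb := fun k hk => Subgroup.mem_centralizer_singleton_iff.2
    (Subgroup.mem_centralizer_iff.1 (hBle hb).2 k hk)
  refine ⟨hKb, ?_⟩
  have hbo : orderOf b = 2 := orderOf_eq_prime (hBel.2 b hb) hb1
  have haCb : a ∈ Cb := Subgroup.mem_centralizer_singleton_iff.2 (hBab a haB b hb)
  obtain ⟨U, hUK, hUel, hUc⟩ : ∃ U : Subgroup G, U ≤ K ∧ Cfsg.IsElementaryAbelian 2 U ∧ 2 < Nat.card U := by
    simp only [Cfsg.PRankLE, not_forall, not_le] at hrk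
    obtain ⟨A, hA, hA2, hc⟩ := hrk
    refine ⟨A.map K.subtype, Subgroup.map_subtype_le A, ⟨?_, ?_⟩, ?_⟩
    · haveI := hA; exact Subgroup.map_isMulCommutative A _
    · rintro _ ⟨x, hx, rfl⟩
      rw [← map_pow, hA2 x hx, map_one]
    · rw [← Nat.card_congr (A.equivMapOfInjective K.subtype Subtype.val_injective).toEquiv]
      simpa using hc
  have hKeven : 2 ∣ Nat.card K := by
    haveI : Nontrivial U := Finite.one_lt_card_iff_nontrivial.1 (by omega)
    obtain ⟨u, hu⟩ := exists_ne (1 : U)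
    have h2 : orderOf u = 2 := orderOf_eq_prime (Subtype.ext (by rw [SubgroupClass.coe_pow]; exact hUel.2 u u.2)) hu
    exact (h2 ▸ orderOf_dvd_natCard u).trans (Subgroup.card_dvd_of_le hUK)
  -- inside `H = C(b)`
  set t : ↥Cb := ⟨a, haCb⟩ with ht
  set L : Subgroup ↥Cb := K.subgroupOf Cb with hLdef
  set CH := Subgroup.centralizer ({t} : Set ↥Cb) with hCH
  have hLt : L ≤ CH := fun x hx => Subgroup.mem_centralizer_singleton_iff.2
    (Subtype.ext (Subgroup.mem_centralizer_singleton_iff.1 (hKa hx)))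
  have hKq := CfsgLib.Components.quasisimple_of_component_subgroupOf hKa hK
  have hL : Cfsg.IsComponent (L.subgroupOf CH) := by
    refine ⟨?_, CfsgLib.IsoInv.isQuasisimple_of_equiv
      ((Subgroup.subgroupOfEquivOfLe hLt).trans (Subgroup.subgroupOfEquivOfLe hKb)).symm hKq⟩
    let f : ↥CH →* ↥Ca := ((Cb.subtype.comp CH.subtype).codRestrict Ca fun x =>
      Subgroup.mem_centralizer_singleton_iff.2 (congrArg Subtype.val (Subgroup.mem_centralizer_singleton_iff.1 x.2)))
    exact Subgroup.IsSubnormal.comap f hK.1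
  have hcoreG : Cfsg.oddCore G = ⊥ := hO
  have hlayer : Cfsg.pLayer 2 ↥Cb ≤ Cfsg.layer ↥Cb := by
    have h := hB b hbo
    rw [hcoreG, le_bot_iff, Subgroup.map_eq_bot_iff_of_injective _ Cb.subtype_injective] at h
    refine sSup_le fun P hP => ?_
    refine CfsgLib.Components.component_le_layer ((CfsgLib.Components.pComponent_isComponent_iff hP).2 ?_)
    exact le_bot_iff.1 (h ▸ Subgroup.commutator_mono (CfsgLib.Components.pComponent_le_pLayer hP) le_rfl)
  have hLE : L ≤ Cfsg.layer ↥Cb := by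
    refine le_trans ?_ hlayer
    have hcen : Subgroup.centralizer (Subgroup.zpowers t : Set ↥Cb) = CH := by
      rw [Subgroup.zpowers_eq_closure, Subgroup.centralizer_closure]
    have hT : IsPGroup 2 ↥(Subgroup.zpowers t) := by
      refine IsPGroup.of_card (n := 1) ?_
      rw [Nat.card_zpowers, pow_one, ← Subgroup.orderOf_coe]
      exact ha
    have hbal := CfsgLib.Components.two_pLayer_centralizer_le hT
    have hL' : Cfsg.IsComponent (L.subgroupOf (Subgroup.centralizer (Subgroup.zpowers t : Set ↥Cb))) := by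
      rw [hcen]; exact hL
    have hLt' : L ≤ Subgroup.centralizer (Subgroup.zpowers t : Set ↥Cb) := by rw [hcen]; exact hLt
    have h2 : 2 ∣ Nat.card ↥(L.subgroupOf (Subgroup.centralizer (Subgroup.zpowers t : Set ↥Cb))) := by
      rwa [Nat.card_congr ((Subgroup.subgroupOfEquivOfLe hLt').trans (Subgroup.subgroupOfEquivOfLe hKb)).toEquiv]
    have h3 := CfsgLib.Components.component_le_pLayer_of_dvd hL' h2
    intro x hx
    exact hbal ⟨⟨x, hLt' hx⟩, h3 hx, rfl⟩
  obtain ⟨D, hD, hcase⟩ := CfsgLib.Components.component_of_fixed (t := t) (Subtype.ext ha2) hLt hL hLE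
  have hcardL : Nat.card L = Nat.card K := Nat.card_congr (Subgroup.subgroupOfEquivOfLe hKb).toEquiv
  set D₁ : Subgroup G := D.map Cb.subtype with hD₁
  have hD₁Cb : D₁ ≤ Cb := Subgroup.map_subtype_le D
  have hD₁sub : D₁.subgroupOf Cb = D := Subgroup.comap_map_eq_self_of_injective Cb.subtype_injective D
  have hcardD : Nat.card D₁ = Nat.card D :=
    (Nat.card_congr (D.equivMapOfInjective Cb.subtype Cb.subtype_injective).toEquiv).symm
  have hmaxD := hmax b hbo D₁ hD₁Cb (by rw [hD₁sub]; exact hD)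
  rcases hcase with hLD | ⟨hlt, -⟩ | ⟨hmove, ⟨φ, hφ, hLφ⟩, -⟩
  · rw [hLD]; exact hD
  · exfalso
    have : Nat.card L < Nat.card D := by
      refine lt_of_le_of_ne (Subgroup.card_le_of_le hlt.le) fun h => hlt.ne ?_
      exact Subgroup.eq_of_le_of_card_ge hlt.le h.ge
    have := hmaxD.1
    omega
  · exfalso
    have hcardφ : Nat.card φ.range = Nat.card K := by rw [← hLφ]; exact hcardL
    have hle : Nat.card φ.range ≤ Nat.card D := Nat.card_le_card_of_surjective _ φ.rangeRestrict_surjective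
    have hDK : Nat.card D = Nat.card K := by
      have := hmaxD.1
      omega
    have hφinj : Function.Injective φ := by
      have hbij : Function.Bijective φ.rangeRestrict :=
        (Nat.bijective_iff_surjective_and_card _).2 ⟨φ.rangeRestrict_surjective, hDK.trans hcardφ.symm⟩
      exact fun x y h => hbij.1 (Subtype.ext h)
    -- the rank bound
    obtain ⟨k, hk⟩ := IsPGroup.iff_card.1 (show IsPGroup 2 ↥B from fun x => ⟨1, by
      apply Subtype.ext; rw [pow_one, SubgroupClass.coe_pow]; exact hBel.2 x x.2⟩)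
    have hrank : Cfsg.PRankLE 2 k ↥(Ca ⊓ Subgroup.centralizer (K : Set G)) := by
      intro A hA hA2
      rw [← hk, Nat.card_congr (A.equivMapOfInjective (Ca ⊓ Subgroup.centralizer (K : Set G)).subtype
        Subtype.val_injective).toEquiv]
      refine hBmax _ (Subgroup.map_subtype_le A) ⟨?_, ?_⟩
      · haveI := hA; exact Subgroup.map_isMulCommutative A _
      · rintro _ ⟨x, hx, rfl⟩
        rw [← map_pow, hA2 x hx, map_one]
    have hrank' := hmaxD.2 (hcardD.trans hDK) k hrank
    set D₂ : Subgroup ↥Cb := D.map (MulAut.conj t).toMonoidHom with hD₂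
    have hD₂c : Cfsg.IsComponent D₂ := CfsgLib.Components.isComponent_conj hD t
    have hLsup : L ≤ D ⊔ D₂ := by
      rw [hLφ]
      rintro _ ⟨d, rfl⟩
      rw [hφ]
      exact mul_mem ((le_sup_left : D ≤ D ⊔ D₂) d.2) ((le_sup_right : D₂ ≤ D ⊔ D₂) ⟨d, d.2, rfl⟩)
    have hLne : ⁅L, L⁆ ≠ ⊥ := CfsgLib.Components.quasisimple_not_commute_self
      (CfsgLib.IsoInv.isQuasisimple_of_equiv (Subgroup.subgroupOfEquivOfLe hKb).symm hKq)
    have hxC : ∀ x ∈ B, x ∈ Cb := fun x hx => Subgroup.mem_centralizer_singleton_iff.2 (hBab x hx b hb)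
    have horb : ∀ x (hx : x ∈ B), D.map (MulAut.conj (⟨x, hxC x hx⟩ : ↥Cb)).toMonoidHom = D ∨
        D.map (MulAut.conj (⟨x, hxC x hx⟩ : ↥Cb)).toMonoidHom = D₂ := by
      intro x hx
      by_contra hcon
      push Not at hcon
      set u : ↥Cb := ⟨x, hxC x hx⟩
      set E1 := D.map (MulAut.conj u).toMonoidHom with hE1
      have hE1c : Cfsg.IsComponent E1 := CfsgLib.Components.isComponent_conj hD u
      have hut : u * t = t * u := Subtype.ext (hBab x hx a haB)
      set E2 := D₂.map (MulAut.conj u).toMonoidHom with hE2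
      have hE2c : Cfsg.IsComponent E2 := CfsgLib.Components.isComponent_conj hD₂c u
      have hE2' : E2 = E1.map (MulAut.conj t).toMonoidHom := by
        rw [hE2, hD₂, hE1, CfsgLib.Components.conj_map_map, CfsgLib.Components.conj_map_map, hut]
      have htt : t * t = 1 := Subtype.ext ha2
      have hback : ∀ X : Subgroup ↥Cb, (X.map (MulAut.conj t).toMonoidHom).map (MulAut.conj t).toMonoidHom = X := by
        intro X; rw [CfsgLib.Components.conj_map_map, htt, CfsgLib.Components.conj_map_one]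
      have hE21 : E2 ≠ D := fun h => hcon.2 (by
        rw [hD₂, ← h, hE2', hback])
      have hE22 : E2 ≠ D₂ := fun h => hcon.1 (by
        rw [← hback E1, ← hE2', h, hD₂, hback])
      have hc1 : D ⊔ D₂ ≤ Subgroup.centralizer (E1 : Set ↥Cb) := sup_le
        (Subgroup.commutator_eq_bot_iff_le_centralizer.1 (CfsgLib.Components.components_commute hD hE1c (Ne.symm hcon.1)))
        (Subgroup.commutator_eq_bot_iff_le_centralizer.1 (CfsgLib.Components.components_commute hD₂c hE1c (Ne.symm hcon.2)))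
      have hc2 : D ⊔ D₂ ≤ Subgroup.centralizer (E2 : Set ↥Cb) := sup_le
        (Subgroup.commutator_eq_bot_iff_le_centralizer.1 (CfsgLib.Components.components_commute hD hE2c (Ne.symm hE21)))
        (Subgroup.commutator_eq_bot_iff_le_centralizer.1 (CfsgLib.Components.components_commute hD₂c hE2c (Ne.symm hE22)))
      have hLx : L ≤ E1 ⊔ E2 := by
        intro l hl
        have hfix : (MulAut.conj u).toMonoidHom l = l := by
          apply Subtype.ext
          show x * (l : G) * x⁻¹ = l
          rw [← Subgroup.mem_centralizer_iff.1 (hBle hx).2 (l : G) hl, mul_inv_cancel_right]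
        rw [← hfix, hE1, hE2, ← Subgroup.map_sup]
        exact ⟨l, hLsup hl, rfl⟩
      apply hLne
      rw [Subgroup.commutator_eq_bot_iff_le_centralizer]
      intro l hl
      rw [Subgroup.mem_centralizer_iff]
      intro m hm
      have hcl : E1 ⊔ E2 ≤ Subgroup.centralizer ({l} : Set ↥Cb) := sup_le
        (fun e he => Subgroup.mem_centralizer_singleton_iff.2 (Subgroup.mem_centralizer_iff.1 (hc1 (hLsup hl)) e he))
        (fun e he => Subgroup.mem_centralizer_singleton_iff.2 (Subgroup.mem_centralizer_iff.1 (hc2 (hLsup hl)) e he))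
      exact Subgroup.mem_centralizer_singleton_iff.1 (hcl (hLx hm))
    set B₀ : Subgroup G := B ⊓ Subgroup.normalizer (D₁ : Set G) with hB₀
    have hnorm : ∀ x (hx : x ∈ B), D.map (MulAut.conj (⟨x, hxC x hx⟩ : ↥Cb)).toMonoidHom = D →
        x ∈ Subgroup.normalizer (D₁ : Set G) := by
      intro x hx h
      rw [Subgroup.mem_normalizer_iff_map_conj_eq, hD₁]
      conv_rhs => rw [← h]
      rw [Subgroup.map_map, Subgroup.map_map]
      rfl
    have hB2 : Nat.card B ≤ 2 * Nat.card B₀ := by
      have hcov : (B : Set G) ⊆ (B₀ : Set G) ∪ (fun y => a * y) '' (B₀ : Set G) := by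
        intro x hx
        rcases horb x hx with h | h
        · exact Or.inl ⟨hx, hnorm x hx h⟩
        · refine Or.inr ⟨a * x, ⟨mul_mem haB hx, hnorm _ (mul_mem haB hx) ?_⟩, ?_⟩
          · have e : (⟨a * x, hxC _ (mul_mem haB hx)⟩ : ↥Cb) = t * ⟨x, hxC x hx⟩ := rfl
            rw [e, ← CfsgLib.Components.conj_map_map, h, hD₂, CfsgLib.Components.conj_map_map,
              show t * t = 1 from Subtype.ext ha2, CfsgLib.Components.conj_map_one]
          · show a * (a * x) = x
            rw [← mul_assoc, ha2, one_mul]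
      calc Nat.card B = (B : Set G).ncard := Nat.card_coe_set_eq _
        _ ≤ ((B₀ : Set G) ∪ (fun y => a * y) '' (B₀ : Set G)).ncard := Set.ncard_le_ncard hcov
        _ ≤ (B₀ : Set G).ncard + ((fun y => a * y) '' (B₀ : Set G)).ncard := Set.ncard_union_le _ _
        _ = Nat.card B₀ + Nat.card B₀ := by
          rw [Set.ncard_image_of_injective _ (mul_right_injective a)]
          rw [← Nat.card_coe_set_eq]; rfl
        _ = 2 * Nat.card B₀ := (two_mul _).symm
    have hB₀C : B₀ ≤ Cb ⊓ Subgroup.centralizer (D₁ : Set G) := by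
      intro x hx
      refine ⟨hxC x hx.1, ?_⟩
      show x ∈ Subgroup.centralizer (D₁ : Set G)
      rw [Subgroup.mem_centralizer_iff]
      rintro _ ⟨d, hd, rfl⟩
      show (d : G) * x = x * (d : G)
      have hd' : x * (d : G) * x⁻¹ ∈ D₁ := (Subgroup.mem_normalizer_iff.1 hx.2 _).1 ⟨d, hd, rfl⟩
      obtain ⟨e, he, hed⟩ := hd'
      have hed' : (e : G) = x * (d : G) * x⁻¹ := hed
      have hxa : x * a = a * x := hBab x hx.1 a haB
      have hxa' : Commute x⁻¹ a := (show Commute x a from hxa).inv_left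
      have heq : φ ⟨e, he⟩ = φ ⟨d, hd⟩ := by
        have hl : ((φ ⟨d, hd⟩ : ↥Cb) : G) ∈ K := by
          have : φ ⟨d, hd⟩ ∈ L := hLφ ▸ ⟨_, rfl⟩
          exact this
        have hcx := Subgroup.mem_centralizer_iff.1 (hBle hx.1).2 _ hl
        apply Subtype.ext
        rw [hφ, hφ] at *
        show (e : G) * (a * (e : G) * a⁻¹) = (d : G) * (a * (d : G) * a⁻¹)
        have hcx' : ((d : G) * (a * (d : G) * a⁻¹)) * x = x * ((d : G) * (a * (d : G) * a⁻¹)) := hcx
        rw [hed']
        calc x * (d : G) * x⁻¹ * (a * (x * (d : G) * x⁻¹) * a⁻¹)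
            = x * (d : G) * x⁻¹ * ((a * x) * (d : G) * (x⁻¹ * a⁻¹)) := by group
          _ = x * (d : G) * x⁻¹ * ((x * a) * (d : G) * (a⁻¹ * x⁻¹)) := by rw [hxa, hxa'.inv_right.eq]
          _ = x * ((d : G) * (a * (d : G) * a⁻¹)) * x⁻¹ := by group
          _ = _ := by rw [← hcx', mul_inv_cancel_right]
      have := congrArg (fun z : D => ((z : ↥Cb) : G)) (hφinj heq)
      rw [show x * (d : G) = (e : G) * x by rw [hed']; group]
      exact congrArg (· * x) this.symm
    -- the elementary subgroup of `D₂`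
    set U' : Subgroup D := (U.subgroupOf Cb).comap φ with hU'
    let ψ : D →* G := Cb.subtype.comp ((MulAut.conj t).toMonoidHom.comp D.subtype)
    have hψinj : Function.Injective ψ := Cb.subtype_injective.comp ((MulAut.conj t).injective.comp Subtype.val_injective)
    set E := U'.map ψ with hE
    have hEc : Nat.card E = Nat.card U := by
      rw [hE, ← Nat.card_congr (U'.equivMapOfInjective ψ hψinj).toEquiv]
      have hmap : U'.map φ = U.subgroupOf Cb := by
        rw [hU', Subgroup.map_comap_eq, inf_eq_right, ← hLφ]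
        exact fun y hy => hUK hy
      rw [Nat.card_congr (U'.equivMapOfInjective φ hφinj).toEquiv, hmap,
        Nat.card_congr (Subgroup.subgroupOfEquivOfLe (hUK.trans hKb)).toEquiv]
    have hEel : Cfsg.IsElementaryAbelian 2 E := by
      have h1 : ∀ u ∈ U', ∀ v ∈ U', u * v = v * u := fun u hu v hv => hφinj (Subtype.ext (by
        rw [map_mul, map_mul]
        exact congrArg (fun z : U => (z : G)) (hUel.1.is_comm.comm ⟨_, hu⟩ ⟨_, hv⟩)))
      refine ⟨⟨⟨?_⟩⟩, ?_⟩
      · rintro ⟨_, u, hu, rfl⟩ ⟨_, v, hv, rfl⟩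
        apply Subtype.ext
        show ψ u * ψ v = ψ v * ψ u
        rw [← map_mul, ← map_mul, h1 u hu v hv]
      · rintro _ ⟨u, hu, rfl⟩
        have : u ^ 2 = 1 := hφinj (by
          rw [map_pow, map_one]
          exact Subtype.ext (by rw [SubgroupClass.coe_pow]; exact hUel.2 _ hu))
        rw [← map_pow, this, map_one]
    have hED : E ≤ D₂.map Cb.subtype := by
      rintro _ ⟨u, -, rfl⟩
      exact ⟨_, ⟨(u : ↥Cb), u.2, rfl⟩, rfl⟩
    have hEC : E ≤ Cb ⊓ Subgroup.centralizer (D₁ : Set G) := by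
      refine le_inf (hED.trans (Subgroup.map_subtype_le _)) fun e he => ?_
      obtain ⟨w, hw, rfl⟩ := hED he
      rw [Subgroup.mem_centralizer_iff]
      rintro _ ⟨d, hd, rfl⟩
      have := Subgroup.mem_centralizer_iff.1 ((Subgroup.commutator_eq_bot_iff_le_centralizer.1
        (CfsgLib.Components.components_commute hD₂c hD hmove)) hw) d hd
      exact congrArg Subtype.val this
    have hBE : ∀ x ∈ B₀, ∀ e ∈ E, x * e = e * x := by
      intro x hx e he
      obtain ⟨_, ⟨d, hd, rfl⟩, rfl⟩ := hED he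
      have hxd : (d : G) * x = x * (d : G) := Subgroup.mem_centralizer_iff.1 (hB₀C hx).2 _ ⟨d, hd, rfl⟩
      have hxa : Commute x a := hBab x hx.1 a haB
      show Commute x (a * (d : G) * a⁻¹)
      exact (hxa.mul_right (show Commute x (d : G) from hxd.symm)).mul_right hxa.inv_right
    have hdisj : ∀ x ∈ B₀, x ∈ E → x = 1 := by
      rintro x hx ⟨u, -, rfl⟩
      have hxa : ψ u * a = a * ψ u := hBab _ hx.1 a haB
      have hua : (a : G) * ((u : ↥Cb) : G) * a⁻¹ = ((u : ↥Cb) : G) := by
        have h0 : a * ((u : ↥Cb) : G) * a⁻¹ * a = a * (a * ((u : ↥Cb) : G) * a⁻¹) := hxa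
        rw [inv_mul_cancel_right] at h0
        exact (mul_left_cancel h0).symm
      have hsq : φ u = 1 := by
        apply Subtype.ext
        rw [hφ]
        show ((u : ↥Cb) : G) * (a * ((u : ↥Cb) : G) * a⁻¹) = 1
        rw [hua]
        have := hsqB _ hx.1
        rwa [show ψ u = ((u : ↥Cb) : G) from hua] at this
      show ψ u = 1
      rw [hφinj (hsq.trans (map_one φ).symm), map_one]
    have hBEe : Cfsg.IsElementaryAbelian 2 (B₀ ⊔ E : Subgroup G) := Cfsg.Agent.S1337.elem_sup
      ⟨⟨⟨fun x y => Subtype.ext (hBab _ x.2.1 _ y.2.1)⟩⟩, fun x hx => hBel.2 x hx.1⟩ hEel hBE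
    have hprod : Nat.card B₀ * Nat.card E ≤ Nat.card (B₀ ⊔ E : Subgroup G) := by
      rw [← Nat.card_prod]
      refine Nat.card_le_card_of_injective (fun z : B₀ × E => (⟨(z.1 : G) * (z.2 : G),
        mul_mem (Subgroup.mem_sup_left z.1.2) (Subgroup.mem_sup_right z.2.2)⟩ : (B₀ ⊔ E : Subgroup G))) ?_
      rintro ⟨x, e⟩ ⟨y, f⟩ h
      have h' : (x : G) * e = y * f := congrArg Subtype.val h
      have h1 : (y : G)⁻¹ * x = f * (e : G)⁻¹ := by
        rw [inv_mul_eq_iff_eq_mul, ← mul_assoc, ← h', mul_inv_cancel_right]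
      have h2 := hdisj _ (mul_mem (inv_mem y.2) x.2) (h1 ▸ mul_mem f.2 (inv_mem e.2))
      have h3 : (y : G) = x := inv_mul_eq_one.1 h2
      rw [h3] at h'
      exact Prod.ext (Subtype.ext h3.symm) (Subtype.ext (mul_left_cancel h'))
    have hbound := hrank' ((B₀ ⊔ E).subgroupOf (Cb ⊓ Subgroup.centralizer (D₁ : Set G)))
      ⟨⟨fun x y => Subtype.ext (Subtype.ext (show ((x : ↥(Cb ⊓ Subgroup.centralizer (D₁ : Set G))) : G) * _ = _ * _ from
        congrArg Subtype.val (hBEe.1.is_comm.comm ⟨_, x.2⟩ ⟨_, y.2⟩)))⟩⟩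
      (fun x hx => Subtype.ext (by rw [SubgroupClass.coe_pow]; exact hBEe.2 _ hx))
    rw [Nat.card_congr (Subgroup.subgroupOfEquivOfLe (sup_le hB₀C hEC)).toEquiv, ← hk] at hbound
    have h0 : 0 < Nat.card B₀ := Nat.card_pos
    rw [hEc] at hprod
    have := Nat.mul_le_mul_left (Nat.card B₀) (show 3 ≤ Nat.card U from hUc)
    omega


end Cfsg.Agent.S1305
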