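import Cfsg.Statements.S1306
import Mathlib.Tactic
import Cfsg.Agent.Components.LocalLayer

set_option autoImplicit false
open Cfsg
open scoped commutatorElement

namespace Cfsg.Agent.S1306

/-- Let G be finite, x an involution and L ≤ C_G(x) a component of C_G(x). Suppose L is a component of C_G(y) for every involution y ∈ C_G(L), and ⁅L, g L g⁻¹⁆ ≠ 1 whenever g L g⁻¹ ≠ L. Then L is a standard subgroup of G. -/
theorem result {G : Type*} [Group G] [Finite G] (x : G) (hx : orderOf x = 2) (L : Subgroup G) (hLx : L ≤ Subgroup.centralizer ({x} : Set G)) (hL : Cfsg.IsComponent (L.subgroupOf (Subgroup.centralizer ({x} : Set G)))) (hne : ∀ y : G, orderOf y = 2 → y ∈ Subgroup.centralizer (L : Set G) → L ≤ Subgroup.centralizer ({y} : Set G) ∧ Cfsg.IsComponent (L.subgroupOf (Subgroup.centralizer ({y} : Set G)))) (hnc : ∀ g : G, L.map (MulAut.conj g).toMonoidHom ≠ L → ⁅L, L.map (MulAut.conj g).toMonoidHom⁆ ≠ ⊥) : Cfsg.IsStandardSubgroup L := by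
  have hxC : x ∈ Subgroup.centralizer (L : Set G) := Subgroup.mem_centralizer_iff.mpr fun l hl =>
    Subgroup.mem_centralizer_singleton_iff.mp (hLx hl)
  have hcomp : ∀ z : G, orderOf z = 2 → ∀ g : G, z ∈ Subgroup.centralizer (L : Set G) →
      g⁻¹ * z * g ∈ Subgroup.centralizer (L : Set G) → L.map (MulAut.conj g).toMonoidHom = L := by
    intro z hz g hzL hzg
    by_contra hne'
    apply hnc g hne'
    set L' := L.map (MulAut.conj g).toMonoidHom with hL'
    obtain ⟨hL1, hc1⟩ := hne z hz hzL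
    obtain ⟨hL2, hc2⟩ := hne (g⁻¹ * z * g) (by
      rw [← hz]; simpa [mul_assoc] using MulEquiv.orderOf_eq (MulAut.conj g⁻¹) z) hzg
    set C := Subgroup.centralizer ({z} : Set G) with hC
    set C' := Subgroup.centralizer ({g⁻¹ * z * g} : Set G) with hC'
    have hmapC : C'.map (MulAut.conj g).toMonoidHom = C := by
      ext y
      simp only [Subgroup.mem_map, hC, hC', Subgroup.mem_centralizer_singleton_iff]
      constructor
      · rintro ⟨v, hv, rfl⟩
        show g * v * g⁻¹ * z = z * (g * v * g⁻¹)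
        calc g * v * g⁻¹ * z = g * (v * (g⁻¹ * z * g)) * g⁻¹ := by group
          _ = z * (g * v * g⁻¹) := by rw [hv]; group
      · intro hy
        refine ⟨g⁻¹ * y * g, ?_, by simp [mul_assoc]⟩
        calc g⁻¹ * y * g * (g⁻¹ * z * g) = g⁻¹ * (y * z) * g := by group
          _ = g⁻¹ * z * g * (g⁻¹ * y * g) := by rw [hy]; group
    have hL'C : L' ≤ C := hmapC ▸ Subgroup.map_mono hL2
    let e : ↥C' ≃* ↥C := (C'.equivMapOfInjective (MulAut.conj g).toMonoidHom (MulAut.conj g).injective).trans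
      (MulEquiv.subgroupCongr hmapC)
    have hc3 : Cfsg.IsComponent (L'.subgroupOf C) := by
      have h := CfsgLib.Components.isComponent_map_equiv e hc2
      have he : (L.subgroupOf C').map e.toMonoidHom = L'.subgroupOf C := by
        ext y
        constructor
        · rintro ⟨v, hv, rfl⟩
          exact ⟨v, hv, rfl⟩
        · rintro ⟨l, hl, hly⟩
          exact ⟨⟨l, hL2 hl⟩, hl, Subtype.ext hly⟩
      rwa [he] at h
    refine CfsgLib.Components.commutator_subgroupOf_eq_bot hL1 hL'C
      (CfsgLib.Components.components_commute hc1 hc3 fun he => hne' ?_)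
    have := congrArg (Subgroup.map C.subtype) he
    rw [Subgroup.subgroupOf_map_subtype, Subgroup.subgroupOf_map_subtype, inf_eq_left.mpr hL1,
      inf_eq_left.mpr hL'C] at this
    exact this.symm
  refine ⟨CfsgLib.IsoInv.isQuasisimple_of_equiv (Subgroup.subgroupOfEquivOfLe hLx) hL.2, ⟨?_, fun g hg => ?_⟩, hnc, ?_⟩
  · rw [even_iff_two_dvd, ← hx]
    exact Subgroup.orderOf_dvd_natCard _ hxC
  · rw [← Nat.not_even_iff_odd]
    intro hev
    obtain ⟨z, hz⟩ := exists_prime_orderOf_dvd_card' 2 (hp := ⟨Nat.prime_two⟩) (even_iff_two_dvd.mp hev)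
    obtain ⟨u, hu⟩ : ∃ z : G, orderOf z = 2 ∧ z ∈ Subgroup.centralizer (L : Set G) ∧
        z ∈ (Subgroup.centralizer (L : Set G)).map (MulAut.conj g).toMonoidHom :=
      ⟨(z : G), by rw [Subgroup.orderOf_coe]; exact hz, z.2.1, z.2.2⟩
    obtain ⟨hz', hz1, hz2⟩ := hu
    obtain ⟨w, hw, hwz⟩ := hz2
    have hw' : g⁻¹ * u * g = w := by rw [← hwz]; simp [mul_assoc]
    have hN : g ∈ Subgroup.normalizer (L : Set G) :=
      Subgroup.mem_normalizer_iff_map_conj_eq.mpr (hcomp u hz' g hz1 (hw'.symm ▸ hw))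
    exact hg (CfsgLib.Components.normalizer_le_normalizer_centralizer L hN)
  · refine le_antisymm (CfsgLib.Components.normalizer_le_normalizer_centralizer L) fun g hg => ?_
    rw [Subgroup.mem_normalizer_iff_map_conj_eq]
    exact hcomp x hx g hxC ((Subgroup.mem_normalizer_iff''.mp hg x).mp hxC)

end Cfsg.Agent.S1306
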