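import Cfsg.Statements.S1307
import Mathlib.Tactic
import Cfsg.Agent.Components.LocalLayer
import Cfsg.Agent.ZStar.Main
import Cfsg.Agent.S0016

set_option autoImplicit false
open Cfsg
open scoped commutatorElement

namespace Cfsg.Agent.S1307

/-- Let G be finite, x an involution and L ≤ C_G(x) a component of C_G(x) of even order and 2-rank 1, such that L is a component of C_G(y) for every involution y ∈ C_G(L). Then some involution of L is a classical involution of G. -/
theorem result {G : Type*} [Group G] [Finite G] (x : G) (hx : orderOf x = 2) (L : Subgroup G) (hLx : L ≤ Subgroup.centralizer ({x} : Set G)) (hL : Cfsg.IsComponent (L.subgroupOf (Subgroup.centralizer ({x} : Set G)))) (heven : Even (Nat.card ↥L)) (hrk : Cfsg.PRankLE 2 1 ↥L) (hne : ∀ y : G, orderOf y = 2 → y ∈ Subgroup.centralizer (L : Set G) → L ≤ Subgroup.centralizer ({y} : Set G) ∧ Cfsg.IsComponent (L.subgroupOf (Subgroup.centralizer ({y} : Set G)))) : ∃ t ∈ L, Cfsg.IsClassicalInvolution t := by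
  haveI : Fact (Nat.Prime 2) := ⟨Nat.prime_two⟩
  have hQ : Cfsg.IsQuasisimple ↥L := CfsgLib.IsoInv.isQuasisimple_of_equiv (Subgroup.subgroupOfEquivOfLe hLx) hL.2
  obtain ⟨P⟩ := (inferInstance : Nonempty (Sylow 2 ↥L))
  have hPne : (P : Subgroup ↥L) ≠ ⊥ := fun h => by
    have := P.not_dvd_index
    rw [h, Subgroup.index_bot] at this
    exact this (even_iff_two_dvd.mp heven)
  haveI : Nontrivial ↥(P : Subgroup ↥L) := (Subgroup.nontrivial_iff_ne_bot _).mpr hPne
  haveI := P.isPGroup'.center_nontrivial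
  obtain ⟨z, hz⟩ : ∃ z : ↥(Subgroup.center ↥(P : Subgroup ↥L)), orderOf z = 2 := by
    obtain ⟨k, hk, hc⟩ := (P.isPGroup'.to_subgroup (Subgroup.center _)).nontrivial_iff_card.mp inferInstance
    exact exists_prime_orderOf_dvd_card' 2 (hc ▸ dvd_pow_self 2 hk.ne')
  have hzc : ∀ a : ↥(P : Subgroup ↥L), a * (z : ↥(P : Subgroup ↥L)) = z * a := fun a => Subgroup.mem_center_iff.mp z.2 a
  have hz' : orderOf ((z : ↥(P : Subgroup ↥L)) : ↥L) = 2 := by rw [Subgroup.orderOf_coe, Subgroup.orderOf_coe, hz]
  set w : ↥L := ((z : ↥(P : Subgroup ↥L)) : ↥L) with hw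
  have hwP : w ∈ (P : Subgroup ↥L) := (z : ↥(P : Subgroup ↥L)).2
  have huniq : ∀ a ∈ (P : Subgroup ↥L), orderOf a = 2 → a = w := by
    intro a ha ha2
    by_contra hne'
    have hcomm : a * w = w * a := congrArg Subtype.val (hzc ⟨a, ha⟩)
    let A := Subgroup.closure ({a, w} : Set ↥L)
    haveI hA : IsMulCommutative A := by
      refine Subgroup.isMulCommutative_closure ?_
      rintro x (rfl | rfl) y (rfl | rfl)
      exacts [rfl, hcomm, hcomm.symm, rfl]
    have hsq : ∀ x ∈ A, x ^ 2 = 1 := by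
      intro x hx
      induction hx using Subgroup.closure_induction with
      | mem x hx =>
        rcases hx with rfl | rfl
        · rw [← ha2]; exact pow_orderOf_eq_one _
        · rw [← hz']; exact pow_orderOf_eq_one _
      | one => exact one_pow 2
      | mul x y hx hy hx1 hy1 =>
        have : x * y = y * x := congrArg Subtype.val (mul_comm' (⟨x, hx⟩ : ↥A) ⟨y, hy⟩)
        rw [Commute.mul_pow this, hx1, hy1, one_mul]
      | inv x _ hx1 => rw [inv_pow, hx1, inv_one]
    have hcard := hrk A hA hsq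
    rw [pow_one] at hcard
    have haA : a ∈ A := Subgroup.subset_closure (Set.mem_insert _ _)
    have hwA : w ∈ A := Subgroup.subset_closure (Set.mem_insert_of_mem _ rfl)
    have h3 : ({1, a, w} : Set ↥L).ncard = 3 := by
      have h1 : a ≠ 1 := fun e => by rw [e, orderOf_one] at ha2; omega
      have h2 : w ≠ 1 := fun e => by rw [e, orderOf_one] at hz'; omega
      exact Set.ncard_eq_three.mpr ⟨1, a, w, h1.symm, h2.symm, hne', rfl⟩
    have hle : ({1, a, w} : Set ↥L).ncard ≤ Nat.card ↥A := by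
      show _ ≤ Nat.card ↥(A : Set ↥L)
      rw [Nat.card_coe_set_eq]
      refine Set.ncard_le_ncard ?_ (Set.toFinite _)
      rintro x (rfl | rfl | rfl)
      exacts [A.one_mem, haA, hwA]
    omega
  have huH : ∀ H K : Subgroup ↥(P : Subgroup ↥L), Nat.card H = 2 → Nat.card K = 2 → H = K := by
    have key : ∀ H : Subgroup ↥(P : Subgroup ↥L), Nat.card H = 2 → H = Subgroup.zpowers (z : ↥(P : Subgroup ↥L)) := by
      intro H hH
      obtain ⟨y, hy⟩ := exists_prime_orderOf_dvd_card' (G := ↥H) 2 (dvd_of_eq hH.symm)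
      have hyz : (y : ↥(P : Subgroup ↥L)) = z := by
        apply Subtype.ext
        exact huniq _ (y : ↥(P : Subgroup ↥L)).2 (by rw [Subgroup.orderOf_coe, Subgroup.orderOf_coe, hy])
      have hzH : (z : ↥(P : Subgroup ↥L)) ∈ H := by rw [← hyz]; exact y.2
      refine (Subgroup.eq_of_le_of_card_ge (Subgroup.zpowers_le.mpr hzH) ?_).symm
      rw [Nat.card_zpowers, Subgroup.orderOf_coe, hz, hH]
    exact fun H K hH hK => (key H hH).trans (key K hK).symm
  have hncyc : ¬ IsCyclic ↥(P : Subgroup ↥L) := by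
    intro hc
    have h2 : (Nat.card ↥L).minFac = 2 := Nat.minFac_eq_two_iff _ |>.mpr (even_iff_two_dvd.mp heven)
    have hnc' := hc.normalizer_le_centralizer h2 (P := P)
    have hcompl := MonoidHom.ker_transferSylow_isComplement' P hnc'
    have htop : (MonoidHom.transferSylow P hnc').ker = ⊤ := by
      haveI : Group.IsPerfect ↥L := hQ.1
      rw [eq_top_iff, ← Group.IsPerfect.commutator_eq_top (G := ↥L), commutator_def, Subgroup.commutator_le]
      intro a _ b _
      rw [MonoidHom.mem_ker, map_commutatorElement, commutatorElement_eq_one_iff_mul_comm]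
      haveI := hc
      exact mul_comm' _ _
    rw [htop] at hcompl
    exact hPne (Subgroup.isComplement'_top_left.mp hcompl)
  rcases S0016.result 2 P.isPGroup' huH with h | ⟨_, n, ⟨e⟩⟩
  · exact absurd h hncyc
  obtain ⟨m, rfl⟩ : ∃ m, n = m + 1 := by
    refine ⟨n - 1, (Nat.succ_pred_eq_of_ne_zero fun h0 => hncyc ?_).symm⟩
    subst h0
    haveI : IsCyclic (QuaternionGroup (2 ^ 0)) := QuaternionGroup.quaternionGroup_one_isCyclic
    exact isCyclic_of_surjective e.symm.toMonoidHom e.symm.surjective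
  have hiso := CfsgLib.ZStar.isolated_of_sylow P hz' hwP fun g hg =>
    huniq _ hg (by rw [← hz']; exact MulEquiv.orderOf_eq (MulAut.conj g) w)
  have hcen : w ∈ Subgroup.centralizer ((⊤ : Subgroup ↥L) : Set ↥L) := by
    haveI : Group.IsPerfect ↥L := hQ.1
    refine CfsgLib.Components.perfect_commute_of_central ?_ fun l _ => ?_
    · rw [← commutator_def]; exact Group.IsPerfect.commutator_eq_top
    refine ⟨Subgroup.mem_top _, ?_⟩
    have hmem : ⁅w, l⁆ ∈ Cfsg.pPrimeCore 2 ↥L := by rw [commutatorElement_def]; exact CfsgLib.ZStar.zstar hiso l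
    have hn : (Cfsg.pPrimeCore 2 ↥L).Normal := by haveI := CfsgLib.Components.pPrimeCore_characteristic (G := ↥L) 2; infer_instance
    rcases CfsgLib.Components.quasisimple_normal hQ hn with h | h
    · rw [Subgroup.coe_top, Subgroup.centralizer_univ]; exact h hmem
    · exfalso
      have := CfsgLib.Components.pPrimeCore_coprime (G := ↥L) 2
      rw [h, Subgroup.card_top] at this
      exact (Nat.Prime.coprime_iff_not_dvd Nat.prime_two).mp this.symm (even_iff_two_dvd.mp heven)
  have hwG : (w : G) ∈ Subgroup.centralizer (L : Set G) := Subgroup.mem_centralizer_iff.mpr fun l hl =>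
    congrArg Subtype.val (Subgroup.mem_centralizer_iff.mp hcen ⟨l, hl⟩ (Subgroup.mem_top _))
  have hw2 : orderOf (w : G) = 2 := by rw [Subgroup.orderOf_coe]; exact hz'
  obtain ⟨hLw, hcw⟩ := hne _ hw2 hwG
  exact ⟨(w : G), w.2, hw2, L, hLw, w.2, hcw.1, P, m, ⟨e⟩⟩

end Cfsg.Agent.S1307
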