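import Cfsg.Statements.S1314
import Mathlib.Tactic

set_option autoImplicit false
open Cfsg
open scoped commutatorElement

namespace Cfsg.Agent.S1314

/-- Let x be an involution of a group G and L a perfect subgroup with ⁅L, x L x⁻¹⁆ = 1. Then l ↦ l (x l x⁻¹) is a group homomorphism π from L to G whose kernel is central in L and whose image lies in C_G(x); and the commutator subgroup of C_{L ⊔ xLx⁻¹}(x) equals the image of π. -/
theorem result {G : Type*} [Group G] [Finite G] (x : G) (hx : orderOf x = 2) (L : Subgroup G) (hperf : ⁅L, L⁆ = L) (hcomm : ⁅L, L.map (MulAut.conj x).toMonoidHom⁆ = ⊥) : ∃ π : ↥L →* G, (∀ l : ↥L, π l = (l : G) * (x * (l : G) * x⁻¹)) ∧ π.ker ≤ Subgroup.center ↥L ∧ π.range ≤ Subgroup.centralizer ({x} : Set G) ∧ ⁅(L ⊔ L.map (MulAut.conj x).toMonoidHom) ⊓ Subgroup.centralizer ({x} : Set G), (L ⊔ L.map (MulAut.conj x).toMonoidHom) ⊓ Subgroup.centralizer ({x} : Set G)⁆ = π.range := by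
  set M := L.map (MulAut.conj x).toMonoidHom with hM
  have hxx : x * x = 1 := by
    have := pow_orderOf_eq_one x
    rwa [hx, pow_two] at this
  have hxi : x⁻¹ = x := inv_eq_of_mul_eq_one_left hxx
  have hcom : ∀ l ∈ L, ∀ m ∈ M, l * m = m * l := fun l hl m hm => by
    have := Subgroup.commutator_eq_bot_iff_le_centralizer.1 hcomm hl
    exact (Subgroup.mem_centralizer_iff.1 this m hm).symm
  have hmem : ∀ l ∈ L, x * l * x⁻¹ ∈ M := fun l hl => ⟨l, hl, rfl⟩
  let π : L →* G :=
    { toFun := fun l => (l : G) * (x * (l : G) * x⁻¹)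
      map_one' := by simp
      map_mul' := fun a b => by
        have h := hcom b b.2 _ (hmem a a.2)
        calc ((a * b : L) : G) * (x * ((a * b : L) : G) * x⁻¹)
            = (a : G) * ((b : G) * (x * (a : G) * x⁻¹)) * (x * (b : G) * x⁻¹) := by push_cast; group
          _ = (a : G) * ((x * (a : G) * x⁻¹) * (b : G)) * (x * (b : G) * x⁻¹) := by rw [h]
          _ = _ := by group }
  have hπ : ∀ l : L, π l = (l : G) * (x * (l : G) * x⁻¹) := fun _ => rfl
  have hrx : π.range ≤ Subgroup.centralizer ({x} : Set G) := by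
    rintro _ ⟨l, rfl⟩
    rw [Subgroup.mem_centralizer_singleton_iff, hπ]
    have h := hcom l l.2 _ (hmem l l.2)
    calc (l : G) * (x * (l : G) * x⁻¹) * x = (x * (l : G) * x⁻¹) * (l : G) * x := by rw [h]
      _ = x * ((l : G) * (x * (l : G) * x⁻¹)) := by simp only [hxi]; group
  have hker : π.ker ≤ Subgroup.center L := by
    intro l hl
    refine Subgroup.mem_center_iff.2 fun y => Subtype.ext ?_
    rw [MonoidHom.mem_ker, hπ] at hl
    have h1 := hmem l l.2
    rw [← inv_eq_of_mul_eq_one_right hl] at h1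
    exact hcom y y.2 _ (by simpa using M.inv_mem h1)
  refine ⟨π, hπ, hker, hrx, le_antisymm ?_ ?_⟩
  · -- fixed elements are images times central ones
    set S := (L ⊔ M) ⊓ Subgroup.centralizer ({x} : Set G)
    have hz : ∀ s ∈ S, ∃ a : L, (π a)⁻¹ * s ∈ Subgroup.centralizer ((L ⊔ M : Subgroup G) : Set G) := by
      intro s hs
      obtain ⟨hs1, hs2⟩ := Subgroup.mem_inf.1 hs
      have hn : M ≤ Subgroup.normalizer (L : Set G) := fun m hm => Subgroup.centralizer_le_normalizer _
        (Subgroup.mem_centralizer_iff.2 fun l hl => hcom l hl m hm)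
      rw [← SetLike.mem_coe, Subgroup.coe_mul_of_right_le_normalizer_left _ _ hn] at hs1
      obtain ⟨a, ha, _, ⟨c, hc, rfl⟩, rfl⟩ := hs1
      simp only [MulEquiv.coe_toMonoidHom, MulAut.conj_apply] at hs2 ⊢
      rw [Subgroup.mem_centralizer_singleton_iff] at hs2
      have hfix : c * (x * a * x⁻¹) = a * (x * c * x⁻¹) := by
        rw [hcom c hc _ (hmem a ha)]
        calc x * a * x⁻¹ * c = x * (a * (x * c * x⁻¹)) * x⁻¹ := by simp only [hxi, mul_assoc, hxx, mul_one]
          _ = a * (x * c * x⁻¹) * x * x⁻¹ := by rw [hs2]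
          _ = _ := by group
      set z := a⁻¹ * c with hz
      have hz1 : z = (x * c * x⁻¹) * (x * a * x⁻¹)⁻¹ := by
        calc z = a⁻¹ * (c * (x * a * x⁻¹)) * (x * a * x⁻¹)⁻¹ := by rw [hz]; group
          _ = a⁻¹ * (a * (x * c * x⁻¹)) * (x * a * x⁻¹)⁻¹ := by rw [hfix]
          _ = _ := by group
      have hzL : z ∈ L := L.mul_mem (L.inv_mem ha) hc
      have hzM : z ∈ M := hz1 ▸ M.mul_mem (hmem c hc) (M.inv_mem (hmem a ha))
      refine ⟨⟨a, ha⟩, ?_⟩
      have e : (π ⟨a, ha⟩)⁻¹ * (a * (x * c * x⁻¹)) = x * z * x⁻¹ := by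
        rw [hπ, hz]; group
      rw [e]
      refine Subgroup.mem_centralizer_iff.2 fun g hg => ?_
      have hxzL : x * z * x⁻¹ ∈ L := by
        obtain ⟨l, hl, hle⟩ := hzM
        simp only [MulEquiv.coe_toMonoidHom, MulAut.conj_apply] at hle
        rw [← hle]
        simp only [hxi]
        rw [show x * (x * l * x) * x = (x * x) * l * (x * x) by group, hxx]
        simpa using hl
      have hxzM : x * z * x⁻¹ ∈ M := hmem z hzL
      have : L ⊔ M ≤ Subgroup.centralizer ({x * z * x⁻¹} : Set G) := sup_le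
        (fun l hl => Subgroup.mem_centralizer_singleton_iff.2 (hcom l hl _ hxzM))
        (fun m hm => Subgroup.mem_centralizer_singleton_iff.2 (hcom _ hxzL m hm).symm)
      exact Subgroup.mem_centralizer_singleton_iff.1 (this hg)
    rw [Subgroup.commutator_le]
    intro s hs t ht
    obtain ⟨a, ha⟩ := hz s hs
    obtain ⟨b, hb⟩ := hz t ht
    set u := (π a)⁻¹ * s with hu
    set v := (π b)⁻¹ * t with hv
    have hcl : ∀ w ∈ Subgroup.centralizer ((L ⊔ M : Subgroup G) : Set G), ∀ l : L, Commute w (π l) :=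
      fun w hw l => (Subgroup.mem_centralizer_iff.1 hw _ ((L ⊔ M).mul_mem (Subgroup.mem_sup_left l.2)
        (Subgroup.mem_sup_right (hmem l l.2)))).symm
    have huS : u ∈ L ⊔ M := mul_mem (inv_mem (mul_mem (Subgroup.mem_sup_left a.2)
      (Subgroup.mem_sup_right (hmem a a.2)))) (Subgroup.mem_inf.1 hs).1
    have huv : Commute u v := Subgroup.mem_centralizer_iff.1 hb u huS
    refine ⟨⁅a, b⁆, ?_⟩
    rw [map_commutatorElement]
    have es : s = π a * u := by rw [hu]; group
    have et : t = π b * v := by rw [hv]; group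
    rw [es, et]
    have hab : Commute (π a * u) v := (hcl v hb a).symm.mul_left huv
    calc ⁅π a, π b⁆ = π a * π b * (π a)⁻¹ * (π b)⁻¹ := commutatorElement_def _ _
      _ = π a * (π b * (u * v) * (u * v)⁻¹) * (π a)⁻¹ * (π b)⁻¹ := by group
      _ = π a * (u * π b * v) * (v⁻¹ * u⁻¹ * (π a)⁻¹ * (π b)⁻¹) := by
        rw [← mul_assoc (π b) u v, ← (hcl u ha b).eq]; group
      _ = π a * (u * π b * v) * (u⁻¹ * v⁻¹ * (π a)⁻¹ * (π b)⁻¹) := by rw [huv.inv_inv.eq]
      _ = π a * (u * π b * v) * (u⁻¹ * (π a)⁻¹ * v⁻¹ * (π b)⁻¹) := by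
        rw [show u⁻¹ * v⁻¹ * (π a)⁻¹ = u⁻¹ * ((π a)⁻¹ * v⁻¹) by rw [mul_assoc, (hcl v hb a).inv_inv.eq]]; group
      _ = ⁅π a * u, π b * v⁆ := by rw [commutatorElement_def]; group
  · conv_lhs => rw [show π.range = ⁅π.range, π.range⁆ by
      have h0 : ⁅(⊤ : Subgroup L), (⊤ : Subgroup L)⁆ = ⊤ := by
        apply Subgroup.map_injective L.subtype_injective
        rw [Subgroup.map_commutator, ← MonoidHom.range_eq_map, Subgroup.range_subtype, hperf]
      have := congrArg (Subgroup.map π) h0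
      rw [Subgroup.map_commutator, ← MonoidHom.range_eq_map] at this
      exact this.symm]
    refine Subgroup.commutator_mono ?_ ?_ <;>
    · refine le_inf ?_ hrx
      rintro _ ⟨l, rfl⟩
      exact mul_mem (Subgroup.mem_sup_left l.2) (Subgroup.mem_sup_right (hmem l l.2))

end Cfsg.Agent.S1314
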