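import Cfsg.Statements.S1316
import Mathlib.Tactic
import Cfsg.Agent.Components.Basic

set_option autoImplicit false
open Cfsg
open scoped commutatorElement

namespace Cfsg.Agent.S1316

/-- For a finite group X, E(X) equals the intersection of the derived series of F*(X) (its last term). -/
theorem result {X : Type*} [Group X] [Finite X] : (⨅ n : ℕ, (derivedSeries ↥(Cfsg.generalizedFittingSubgroup X) n).map (Cfsg.generalizedFittingSubgroup X).subtype) = Cfsg.layer X := by
  set F := Cfsg.generalizedFittingSubgroup X with hF
  have hEF : Cfsg.layer X ≤ F := CfsgLib.Components.layer_le_generalizedFittingSubgroup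
  refine le_antisymm ?_ (le_iInf fun n => ?_)
  · have : (Cfsg.layer X).Normal := CfsgLib.Components.layer_normal
    set q := QuotientGroup.mk' ((Cfsg.layer X).subgroupOf F) with hq
    have hFF : Cfsg.fittingSubgroup X ≤ F := CfsgLib.Components.fittingSubgroup_le_generalizedFittingSubgroup
    have hsurj : Function.Surjective (q.comp (Subgroup.inclusion hFF)) := by
      intro x
      obtain ⟨⟨u, hu⟩, rfl⟩ := QuotientGroup.mk'_surjective _ x
      obtain ⟨e, he, f, hf, hef⟩ := Subgroup.mem_sup_of_normal_left.mp
        (show u ∈ Cfsg.layer X ⊔ Cfsg.fittingSubgroup X from hu)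
      refine ⟨⟨f, hf⟩, ?_⟩
      have h1 : q ⟨e, hEF he⟩ = 1 := (QuotientGroup.eq_one_iff _).mpr he
      rw [show (⟨u, hu⟩ : ↥F) = ⟨e, hEF he⟩ * ⟨f, hFF hf⟩ from Subtype.ext hef.symm, map_mul, h1, one_mul]
      rfl
    have hnil := CfsgLib.Components.fittingSubgroup_isNilpotent (G := X)
    have : Group.IsNilpotent (↥F ⧸ (Cfsg.layer X).subgroupOf F) := Group.nilpotent_of_surjective _ hsurj
    have hs : Group.IsSolvable (↥F ⧸ (Cfsg.layer X).subgroupOf F) := inferInstance
    obtain ⟨k, hk⟩ := hs.solvable
    refine (iInf_le _ k).trans ?_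
    rintro _ ⟨x, hx, rfl⟩
    have h1 := map_derivedSeries_le_derivedSeries q k (Subgroup.mem_map_of_mem q hx)
    rw [hk, Subgroup.mem_bot] at h1
    exact (QuotientGroup.eq_one_iff x).mp h1
  · have key : ∀ m, (Cfsg.layer X).subgroupOf F ≤ derivedSeries ↥F m := by
      intro m
      induction m with
      | zero => rw [derivedSeries_zero]; exact le_top
      | succ m ih =>
        rw [derivedSeries_succ]
        refine le_trans ?_ (Subgroup.commutator_mono ih ih)
        apply (Subgroup.map_le_map_iff_of_injective F.subtype_injective).mp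
        rw [Subgroup.map_commutator, Subgroup.subgroupOf_map_subtype, inf_eq_left.mpr hEF,
          CfsgLib.Components.commutator_layer]
    have h := Subgroup.map_mono (f := F.subtype) (key n)
    rwa [Subgroup.subgroupOf_map_subtype, inf_eq_left.mpr hEF] at h

end Cfsg.Agent.S1316
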