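import Cfsg.Statements.S1317
import Mathlib.Tactic
import Cfsg.Agent.Components.Basic

set_option autoImplicit false
open Cfsg
open scoped commutatorElement

namespace Cfsg.Agent.S1317

/-- For a finite group X, the centre of the layer E(X) is F(X) ∩ E(X). -/
theorem result {X : Type*} [Group X] [Finite X] : (Subgroup.center ↥(Cfsg.layer X)).map (Cfsg.layer X).subtype = Cfsg.fittingSubgroup X ⊓ Cfsg.layer X := by
  refine le_antisymm (le_inf ?_ (Subgroup.map_subtype_le _)) ?_
  · have := CfsgLib.Components.layer_normal (G := X)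
    refine CfsgLib.Components.le_fittingSubgroup inferInstance ?_
    have : Group.IsNilpotent ↥(Subgroup.center ↥(Cfsg.layer X)) :=
      Subgroup.isNilpotent_of_ker_le_center (1 : ↥(Subgroup.center ↥(Cfsg.layer X)) →* Unit)
        (fun x _ => Subgroup.mem_center_iff.mpr fun g => Subtype.ext (Subgroup.mem_center_iff.mp x.2 g.1))
    exact Group.nilpotent_of_surjective
      ((Subgroup.center ↥(Cfsg.layer X)).equivMapOfInjective (Cfsg.layer X).subtype
        (Cfsg.layer X).subtype_injective).toMonoidHom
      ((Subgroup.center ↥(Cfsg.layer X)).equivMapOfInjective (Cfsg.layer X).subtype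
        (Cfsg.layer X).subtype_injective).surjective
  · rintro x ⟨hxF, hxE⟩
    refine ⟨⟨x, hxE⟩, ?_, rfl⟩
    rw [SetLike.mem_coe, Subgroup.mem_center_iff]
    exact fun g => Subtype.ext
      (Subgroup.mem_centralizer_iff.mp (CfsgLib.Components.layer_le_centralizer_fitting g.2) x hxF).symm

end Cfsg.Agent.S1317
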