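import Cfsg.Statements.S1319
import Mathlib.Tactic
import Cfsg.Agent.Components.FStar

set_option autoImplicit false
open Cfsg
open scoped commutatorElement

namespace Cfsg.Agent.S1319

/-- Let A be a subnormal subgroup of the finite group X with E(A) = A. Then A ≤ E(X) and A is normal in E(X). -/
theorem result {X : Type*} [Group X] [Finite X] (A : Subgroup X) (hsn : A.IsSubnormal) (hA : Cfsg.layer ↥A = ⊤) : A ≤ Cfsg.layer X ∧ (A.subgroupOf (Cfsg.layer X)).Normal := by
  have hle : A ≤ Cfsg.layer X := by
    have h := CfsgLib.Components.layer_map_subtype_le hsn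
    rwa [hA, ← MonoidHom.range_eq_map, Subgroup.range_subtype] at h
  refine ⟨hle, Subgroup.normal_subgroupOf_of_le_normalizer fun g hg => ?_⟩
  rw [Subgroup.mem_normalizer_iff_map_conj_eq]
  refine Subgroup.eq_of_le_of_card_ge ?_ (Subgroup.card_map_of_injective (MulAut.conj g).injective).ge
  have hA' : A ≤ (Cfsg.layer ↥A).map A.subtype := by
    rw [hA, ← MonoidHom.range_eq_map, Subgroup.range_subtype]
  refine (Subgroup.map_mono hA').trans ?_
  rw [Subgroup.map_map, Subgroup.map_le_iff_le_comap]
  refine sSup_le fun K hK => Subgroup.map_le_iff_le_comap.mp ?_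
  rw [← Subgroup.map_map, Subgroup.mem_normalizer_iff_map_conj_eq.mp (CfsgLib.Components.component_normal_in_layer
    (CfsgLib.Components.isComponent_map_subtype hsn hK) hg)]
  exact Subgroup.map_subtype_le _

end Cfsg.Agent.S1319
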