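import Cfsg.Statements.S1321
import Mathlib.Tactic
import Cfsg.Agent.Components.Basic
import Cfsg.Agent.CoprimeAction.Basic

set_option autoImplicit false
open Cfsg
open scoped commutatorElement

namespace Cfsg.Agent.S1321

/-- Let X be finite and U ≤ X. Then E(X) is generated by C_{E(X)}(U) together with ⁅E(X), U⁆ (indeed it is their product, ⁅E(X), U⁆ being normal in E(X)). -/
theorem result {X : Type*} [Group X] [Finite X] (U : Subgroup X) : Cfsg.layer X = (Cfsg.layer X ⊓ Subgroup.centralizer (U : Set X)) ⊔ ⁅Cfsg.layer X, U⁆ ∧ ⁅Cfsg.layer X, U⁆ ≤ Cfsg.layer X := by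
  have hn := CfsgLib.Components.layer_normal (G := X)
  have hle : ⁅Cfsg.layer X, U⁆ ≤ Cfsg.layer X := Subgroup.commutator_le_left _ _
  refine ⟨le_antisymm ?_ (sup_le inf_le_left hle), hle⟩
  refine sSup_le fun K hK => ?_
  have hKE : K ≤ Cfsg.layer X := CfsgLib.Components.component_le_layer hK
  have hsn : (⁅Cfsg.layer X, U⁆).IsSubnormal := CfsgLib.Components.subnormal_of_normal_le hle
    CfsgLib.CoprimeAction.self_le_normalizer_commutator hn.isSubnormal
  rcases CfsgLib.Components.component_le_or_commute hK hsn with h | h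
  · exact h.trans le_sup_right
  · refine le_trans (le_inf hKE ?_) le_sup_left
    have h1 : ⁅⁅K, U⁆, K⁆ = ⊥ := by
      rw [Subgroup.commutator_comm, eq_bot_iff, ← h]
      exact Subgroup.commutator_mono le_rfl (Subgroup.commutator_mono hKE le_rfl)
    have h2 : ⁅⁅U, K⁆, K⁆ = ⊥ := by rw [Subgroup.commutator_comm U K]; exact h1
    have h3 := Subgroup.commutator_commutator_eq_bot_of_rotate (H₁ := K) (H₂ := K) (H₃ := U) h1 h2
    rw [CfsgLib.Components.quasisimple_commutator hK.2] at h3
    exact Subgroup.commutator_eq_bot_iff_le_centralizer.1 h3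

end Cfsg.Agent.S1321
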