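import Cfsg.Statements.S1324
import Mathlib.Tactic
import Cfsg.Agent.Signalizer.Functor

set_option autoImplicit false
open Cfsg
open scoped commutatorElement

namespace Cfsg.Agent.S1324

/-- Let A be a noncyclic elementary abelian p-subgroup of a finite group H normalizing a subgroup X of order prime to p. Then X is generated by the subgroups X ∩ C_H(B), B ranging over the subgroups of A of index at most p. -/
theorem result {H : Type*} [Group H] [Finite H] (p : ℕ) [Fact p.Prime] (A X : Subgroup H) (hA : Cfsg.IsElementaryAbelian p A) (hA2 : p ^ 2 ≤ Nat.card ↥A) (hX : ¬ p ∣ Nat.card ↥X) (hAX : A ≤ Subgroup.normalizer (X : Set H)) : X = ⨆ B : {B : Subgroup H // B ≤ A ∧ B.relIndex A ≤ p}, X ⊓ Subgroup.centralizer ((B : Subgroup H) : Set H) := by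
  have := hA.1
  refine le_antisymm ?_ (iSup_le fun B => inf_le_left)
  have hA1 : A ≠ ⊥ := by
    rintro rfl
    rw [Subgroup.card_bot] at hA2
    exact absurd hA2 (not_le.2 (one_lt_pow₀ (Fact.out : p.Prime).one_lt (by norm_num)))
  refine CfsgLib.CoprimeAction.le_of_hyperplane_centralizers_le (p := p) hA1 hA.2 hAX
    (CfsgLib.Signalizer.coprime_of_not_dvd (CfsgLib.Signalizer.isPGroup_of_isElementaryAbelian hA) hX)
    fun B hB hi => ?_
  exact le_iSup_of_le (⟨B, hB, hi.le⟩ : {B : Subgroup H // B ≤ A ∧ B.relIndex A ≤ p}) le_rfl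

end Cfsg.Agent.S1324
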