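import Cfsg.Statements.S1326
import Mathlib.Tactic
import Cfsg.Agent.Components.Basic

set_option autoImplicit false
open Cfsg
open scoped commutatorElement

namespace Cfsg.Agent.S1326

/-- For a finite group X: the Fitting subgroup contains its centralizer if and only if the layer of X is trivial. -/
theorem result {X : Type*} [Group X] [Finite X] : Subgroup.centralizer (Cfsg.fittingSubgroup X : Set X) ≤ Cfsg.fittingSubgroup X ↔ Cfsg.layer X = ⊥ := by
  constructor
  · intro h
    have hle : Cfsg.layer X ≤ Cfsg.fittingSubgroup X :=
      CfsgLib.Components.layer_le_centralizer_fitting.trans h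
    refine CfsgLib.Components.layer_eq_bot_of_no_component fun K hK => ?_
    have := CfsgLib.Components.fittingSubgroup_isNilpotent (G := X)
    exact CfsgLib.Components.quasisimple_not_solvable hK.2
      (solvable_of_solvable_injective (Subgroup.inclusion_injective ((CfsgLib.Components.component_le_layer hK).trans hle)))
  · intro h
    have h1 := CfsgLib.Components.centralizer_generalizedFittingSubgroup_le (G := X)
    rwa [show Cfsg.generalizedFittingSubgroup X = Cfsg.fittingSubgroup X by
      rw [Cfsg.generalizedFittingSubgroup, h, bot_sup_eq]] at h1

end Cfsg.Agent.S1326
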