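import Cfsg.Statements.S1328
import Mathlib.Tactic
import Cfsg.Agent.Components.KBalance

set_option autoImplicit false
open Cfsg
open scoped commutatorElement

namespace Cfsg.Agent.S1328

open CfsgLib.Components in
theorem exists_component_of_core {G : Type*} [Group G] [Finite G] (hbot : Cfsg.pPrimeCore 2 G = ⊥) (t : G)
    (ht : orderOf t = 2) (Y : Subgroup G) (hY1 : Y ≠ ⊥) (hY : Y ≤ Cfsg.centralizerPPrimeCore 2 t) :
    ∃ E : Subgroup G, Cfsg.IsComponent E ∧ t ∈ Subgroup.normalizer (E : Set G) ∧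
      Y ≤ Subgroup.normalizer (E : Set G) ∧ t ∉ Subgroup.centralizer (E : Set G) ∧
        ¬ Y ≤ Subgroup.centralizer (E : Set G) := by
  haveI : Fact (Nat.Prime 2) := ⟨Nat.prime_two⟩
  obtain ⟨E, hE, hnot⟩ : ∃ E : Subgroup G, Cfsg.IsComponent E ∧ ¬ Y ≤ Subgroup.centralizer (E : Set G) := by
    by_contra hall
    simp only [not_exists, not_and, not_not] at hall
    apply hY1
    have hP : Y ≤ Subgroup.centralizer (Cfsg.pCore 2 G : Set G) :=
      hY.trans (centralizerPPrimeCore_le_centralizer_pCore ht)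
    have hF : Y ≤ Subgroup.centralizer (Cfsg.generalizedFittingSubgroup G : Set G) := by
      rw [Subgroup.le_centralizer_iff]
      refine sup_le ?_ ?_
      · exact sSup_le fun L hL => Subgroup.le_centralizer_iff.mp (hall L hL)
      · exact Subgroup.le_centralizer_iff.mp (hP.trans (Subgroup.centralizer_le (fitting_le_pCore hbot)))
    set Z := Cfsg.generalizedFittingSubgroup G ⊓
      Subgroup.centralizer (Cfsg.generalizedFittingSubgroup G : Set G) with hZ
    haveI : (Cfsg.generalizedFittingSubgroup G).Normal := generalizedFittingSubgroup_normal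
    haveI : (Subgroup.centralizer (Cfsg.generalizedFittingSubgroup G : Set G)).Normal := Subgroup.normal_centralizer
    have hc : IsMulCommutative ↥Z :=
      ⟨⟨fun a b => Subtype.ext (Subgroup.mem_centralizer_iff.mp b.2.2 a a.2.1)⟩⟩
    let _ : CommGroup ↥Z := { (inferInstance : Group ↥Z) with mul_comm := fun a b => hc.is_comm.comm a b }
    have hle : Y ≤ Cfsg.pCore 2 G := fun y hy =>
      fitting_le_pCore hbot (le_fittingSubgroup (N := Z) inferInstance CommGroup.isNilpotent
        ⟨centralizer_generalizedFittingSubgroup_le (hF hy), hF hy⟩)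
    rw [eq_bot_iff, ← CfsgLib.PCore.inf_eq_bot_of_isPGroup_of_coprime (pCore_isPGroup (G := G) 2)
      (centralizerPPrimeCore_coprime (p := 2) (x := t))]
    exact le_inf hle hY
  have hnt : t ∈ Subgroup.normalizer (E : Set G) := by
    by_contra h
    exact hnot (hY.trans (centralizerPPrimeCore_le_centralizer_moved hbot ht hE h))
  refine ⟨E, hE, hnt, fun y hy => mem_compKer.mp (centralizerPPrimeCore_le_compKer hbot ht (hY hy)) E hE, ?_, hnot⟩
  intro htc
  apply hnot
  have h0 : ⁅E, Subgroup.zpowers t⁆ = ⊥ := Subgroup.commutator_eq_bot_iff_le_centralizer.mpr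
    (Subgroup.le_centralizer_iff.mp (Subgroup.zpowers_le.mpr htc))
  have hne : ⁅E, Subgroup.zpowers t⁆ ≠ E := fun he => by
    have := quasisimple_nontrivial hE.2
    exact (Subgroup.nontrivial_iff_ne_bot E).mp this (he.symm.trans h0)
  have h1 := commutator_centralizerPPrimeCore_eq_bot hbot ht hE hne
  rw [Subgroup.commutator_comm, Subgroup.commutator_eq_bot_iff_le_centralizer] at h1
  exact hY.trans h1

/-- Let G be finite, H ≤ G with O(H) = 1, t an involution of G normalizing H, and Y a nontrivial subgroup of O(C_H(t)). Then some component E of H is normalized by t and by Y and centralized by neither t nor Y. -/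
theorem result {G : Type*} [Group G] [Finite G] (H : Subgroup G) (hO : Cfsg.oddCore ↥H = ⊥) (t : G) (ht : orderOf t = 2) (htH : t ∈ Subgroup.normalizer (H : Set G)) (Y : Subgroup G) (hY1 : Y ≠ ⊥) (hY : Y ≤ (Cfsg.oddCore ↥(H ⊓ Subgroup.centralizer ({t} : Set G))).map (H ⊓ Subgroup.centralizer ({t} : Set G)).subtype) : ∃ E : Subgroup ↥H, Cfsg.IsComponent E ∧ (E.map H.subtype).map (MulAut.conj t).toMonoidHom = E.map H.subtype ∧ Y ≤ Subgroup.normalizer ((E.map H.subtype : Subgroup G) : Set G) ∧ ¬ (t ∈ Subgroup.centralizer ((E.map H.subtype : Subgroup G) : Set G)) ∧ ¬ (Y ≤ Subgroup.centralizer ((E.map H.subtype : Subgroup G) : Set G)) := by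
  classical
  haveI : Fact (Nat.Prime 2) := ⟨Nat.prime_two⟩
  set X := H ⊔ Subgroup.zpowers t with hX
  have hHX : H ≤ X := le_sup_left
  have htX : t ∈ X := (le_sup_right : Subgroup.zpowers t ≤ X) (Subgroup.mem_zpowers t)
  have hXn : X ≤ Subgroup.normalizer (H : Set G) := sup_le Subgroup.le_normalizer (Subgroup.zpowers_le.mpr htH)
  have hHn : (H.subgroupOf X).Normal := Subgroup.normal_subgroupOf_of_le_normalizer hXn
  have hbot : Cfsg.pPrimeCore 2 ↥X = ⊥ := by
    set O := Cfsg.pPrimeCore 2 ↥X with hO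
    have hOH : O ⊓ H.subgroupOf X = ⊥ := by
      have he : (O.comap (Subgroup.inclusion hHX)) = ⊥ := by
        rw [eq_bot_iff, ← (show Cfsg.pPrimeCore 2 ↥H = ⊥ from ‹Cfsg.oddCore ↥H = ⊥›)]
        refine CfsgLib.PCore.le_pPrimeCore inferInstance ((CfsgLib.Components.pPrimeCore_coprime (G := ↥X) 2).coprime_dvd_left ?_)
        exact Subgroup.card_comap_dvd_of_injective _ _ (Subgroup.inclusion_injective hHX)
      rw [eq_bot_iff]
      rintro ⟨x, hxX⟩ ⟨hxO, hxH⟩
      have h1 : (⟨x, hxH⟩ : ↥H) ∈ O.comap (Subgroup.inclusion hHX) := hxO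
      rw [he, Subgroup.mem_bot] at h1
      rw [Subgroup.mem_bot]
      exact Subtype.ext (congrArg Subtype.val h1 :)
    rw [eq_bot_iff]
    intro o ho
    have hidx : (o * o) ∈ H.subgroupOf X := by
      have hmem : (o : G) ∈ ((H ⊔ Subgroup.zpowers t : Subgroup G) : Set G) := o.2
      rw [Subgroup.coe_mul_of_right_le_normalizer_left _ _ (Subgroup.zpowers_le.mpr htH)] at hmem
      obtain ⟨h, hh, w, ⟨n, rfl⟩, he⟩ := Set.mem_mul.mp hmem
      show (o : G) * o ∈ H
      rw [← he]
      have h2 : t ^ n * t ^ n = 1 := by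
        rw [← zpow_add, ← two_mul, zpow_mul, zpow_ofNat, ← ht, pow_orderOf_eq_one, one_zpow]
      have h3 := (Subgroup.mem_normalizer_iff.mp (Subgroup.zpow_mem _ htH n) h).mp hh
      have h4 : h * (t ^ n * h * (t ^ n)⁻¹) * (t ^ n * t ^ n) = h * t ^ n * (h * t ^ n) := by group
      show h * t ^ n * (h * t ^ n) ∈ H
      rw [← h4, h2, mul_one]
      exact H.mul_mem hh h3
    have h1 : o * o = 1 := by
      rw [← Subgroup.mem_bot, ← hOH]
      exact ⟨O.mul_mem ho ho, hidx⟩
    rw [Subgroup.mem_bot, ← orderOf_eq_one_iff]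
    exact Nat.eq_one_of_dvd_coprimes (CfsgLib.Components.pPrimeCore_coprime (G := ↥X) 2)
      (Subgroup.orderOf_dvd_natCard _ ho) (orderOf_dvd_of_pow_eq_one (by rw [pow_two]; exact h1))
  set tX : ↥X := ⟨t, htX⟩ with htXdef
  have htXo : orderOf tX = 2 := by rw [← ht]; exact Subgroup.orderOf_mk t htX
  set CH := H ⊓ Subgroup.centralizer ({t} : Set G) with hCH
  set OY := (Cfsg.oddCore ↥CH).map CH.subtype with hOY
  have hOX : OY ≤ X := (Subgroup.map_subtype_le _).trans (inf_le_left.trans hHX)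
  have hOle : OY.subgroupOf X ≤ Cfsg.centralizerPPrimeCore 2 tX := by
    refine CfsgLib.Components.mem_centralizerPPrimeCore_of_normalized ?_ ?_ ?_
    · rw [Nat.card_congr (Subgroup.subgroupOfEquivOfLe hOX).toEquiv]
      exact (CfsgLib.Components.pPrimeCore_coprime (G := ↥CH) 2).coprime_dvd_left
        (Subgroup.card_map_dvd _ CH.subtype)
    · intro u hu
      have h1 : (u : G) ∈ CH := Subgroup.map_subtype_le _ hu
      exact Subgroup.mem_centralizer_singleton_iff.mpr
        (Subtype.ext (Subgroup.mem_centralizer_singleton_iff.mp h1.2))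
    · intro g hg
      have hgC : (g : G) ∈ Subgroup.centralizer ({t} : Set G) := Subgroup.mem_centralizer_singleton_iff.mpr
        (congrArg Subtype.val (Subgroup.mem_centralizer_singleton_iff.mp hg) :)
      have hgN : (g : G) ∈ Subgroup.normalizer (CH : Set G) :=
        CfsgLib.Components.normalizer_inf_le _ _ ⟨hXn g.2, Subgroup.le_normalizer hgC⟩
      have hgO : (g : G) ∈ Subgroup.normalizer (OY : Set G) := by
        refine Subgroup.mem_normalizer_fintype ?_
        rintro _ ⟨u, hu, rfl⟩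
        refine ⟨CH.normalizerMonoidHom ⟨g, hgN⟩ u, ?_, rfl⟩
        show _ ∈ Cfsg.pPrimeCore 2 ↥CH
        rw [← Subgroup.characteristic_iff_map_eq.mp (CfsgLib.Components.pPrimeCore_characteristic (G := ↥CH) 2)
          (CH.normalizerMonoidHom ⟨g, hgN⟩)]
        exact ⟨u, hu, rfl⟩
      rw [Subgroup.mem_normalizer_iff]
      intro u
      exact Subgroup.mem_normalizer_iff.mp hgO u
  have hYX : Y ≤ X := hY.trans hOX
  have hYX1 : Y.subgroupOf X ≠ ⊥ := by
    intro h
    apply hY1
    have := congrArg (Subgroup.map X.subtype) h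
    rwa [Subgroup.subgroupOf_map_subtype, inf_eq_left.mpr hYX, Subgroup.map_bot] at this
  obtain ⟨E, hE, hEt, hEY, hEtc, hEYc⟩ := exists_component_of_core hbot tX htXo (Y.subgroupOf X) hYX1
    (le_trans (fun u hu => hY hu) hOle)
  have hEH : E ≤ H.subgroupOf X := by
    refine (CfsgLib.Components.component_normal_or_commute hE hHn).resolve_right fun h => hEYc ?_
    rw [Subgroup.commutator_comm, Subgroup.commutator_eq_bot_iff_le_centralizer] at h
    intro u hu
    exact h (show (u : G) ∈ H from ((Subgroup.map_subtype_le _) (hY hu)).1)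
  set e := Subgroup.subgroupOfEquivOfLe hHX with he
  refine ⟨(E.subgroupOf (H.subgroupOf X)).map e.toMonoidHom,
    CfsgLib.Components.isComponent_map_equiv e (CfsgLib.Components.isComponent_subgroupOf' hE hEH), ?_⟩
  have hmap : ((E.subgroupOf (H.subgroupOf X)).map e.toMonoidHom).map H.subtype = E.map X.subtype := by
    ext y
    constructor
    · rintro ⟨_, ⟨x, hx, rfl⟩, rfl⟩
      exact ⟨x.1, hx, rfl⟩
    · rintro ⟨x, hx, rfl⟩
      exact ⟨_, ⟨⟨x, hEH hx⟩, hx, rfl⟩, rfl⟩
  rw [hmap]
  have htn : t ∈ Subgroup.normalizer (E.map X.subtype : Set G) :=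
    Subgroup.le_normalizer_map X.subtype ⟨tX, hEt, rfl⟩
  refine ⟨Subgroup.mem_normalizer_iff_map_conj_eq.mp htn, ?_, ?_, ?_⟩
  · exact fun y hy => Subgroup.le_normalizer_map X.subtype
      ⟨⟨y, hYX hy⟩, hEY (show (⟨y, hYX hy⟩ : ↥X) ∈ Y.subgroupOf X from hy), rfl⟩
  · intro h
    apply hEtc
    rw [Subgroup.mem_centralizer_iff]
    exact fun u hu => Subtype.ext (Subgroup.mem_centralizer_iff.mp h u ⟨u, hu, rfl⟩)
  · intro h
    apply hEYc
    intro w hw
    rw [Subgroup.mem_centralizer_iff]
    exact fun u hu => Subtype.ext (Subgroup.mem_centralizer_iff.mp (h hw) u ⟨u, hu, rfl⟩)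

end Cfsg.Agent.S1328
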