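import Cfsg.Statements.S1331
import Mathlib.Tactic
import Cfsg.Agent.Signalizer.Functor

set_option autoImplicit false
open Cfsg
open scoped commutatorElement

namespace Cfsg.Agent.S1331

/-- Let θ be a solvable A-signalizer functor on the finite group G for the prime p, A elementary abelian of rank at least 3, X a member of the family of θ, and B ≤ A with |B| ≥ p². Then X is generated by the subgroups X ∩ ⋂_{d ∈ D, d ≠ 1} θ d, D ranging over the subgroups of index p in B. -/
theorem result {G : Type*} [Group G] [Finite G] (p : ℕ) [Fact p.Prime] (A : Subgroup G) (hA : Cfsg.IsElementaryAbelian p A) (hA3 : p ^ 3 ≤ Nat.card ↥A) (θ : G → Subgroup G) (hθ : Cfsg.IsSolvableSignalizerFunctor p A θ) (X : Subgroup G) (hX : X ∈ Cfsg.signalizerFamily p A θ) (B : Subgroup G) (hB : B ≤ A) (hB2 : p ^ 2 ≤ Nat.card ↥B) : X = ⨆ D : {D : Subgroup G // D ≤ B ∧ D.relIndex B = p}, X ⊓ Cfsg.signalizerInf (D : Subgroup G) θ := by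
  have hBE := CfsgLib.Signalizer.isElementaryAbelian_mono hA hB
  have := hBE.1
  refine le_antisymm ?_ (iSup_le fun D => inf_le_left)
  have hB1 : B ≠ ⊥ := by
    rintro rfl
    rw [Subgroup.card_bot] at hB2
    exact absurd hB2 (not_le.2 (one_lt_pow₀ (Fact.out : p.Prime).one_lt (by norm_num)))
  refine CfsgLib.CoprimeAction.le_of_hyperplane_centralizers_le (p := p) hB1 hBE.2
    (hB.trans (CfsgLib.Signalizer.le_normalizer_of_forall_conj hX.2.2.1))
    (CfsgLib.Signalizer.coprime_of_not_dvd (CfsgLib.Signalizer.isPGroup_of_isElementaryAbelian hBE) hX.2.1)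
    fun D hD hi => ?_
  refine le_iSup_of_le (⟨D, hD, hi⟩ : {D : Subgroup G // D ≤ B ∧ D.relIndex B = p}) (le_inf inf_le_left ?_)
  exact CfsgLib.Signalizer.inf_centralizer_le_signalizerInf hX (hD.trans hB)

end Cfsg.Agent.S1331
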