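import Cfsg.Statements.S1336
import Mathlib.Tactic

set_option autoImplicit false
open Cfsg
open scoped commutatorElement

namespace Cfsg.Agent.S1336

section
open scoped Pointwise
variable {G : Type*} [Group G] [Finite G] (p : ℕ) [hp : Fact p.Prime]

abbrev Adj (A B : Subgroup G) : Prop :=
  Cfsg.IsElementaryAbelian p A ∧ p ^ 1 ≤ Nat.card ↥A ∧ Cfsg.IsElementaryAbelian p B ∧
        p ^ 1 ≤ Nat.card ↥B ∧ ∀ a ∈ A, ∀ b ∈ B, a * b = b * a

abbrev Link (A B : Subgroup G) : Prop := Relation.ReflTransGen (Adj p) A B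

omit [Finite G] hp in
theorem link_symm {A B : Subgroup G} (h : Link p A B) : Link p B A := by
  induction h with
  | refl => exact .refl
  | tail _ hbc ih =>
    exact .head ⟨hbc.2.2.1, hbc.2.2.2.1, hbc.1, hbc.2.1, fun a ha b hb => (hbc.2.2.2.2 b hb a ha).symm⟩ ih

omit hp in
theorem vertex_conj {A : Subgroup G} (g : G) (h1 : Cfsg.IsElementaryAbelian p A) (h2 : p ^ 1 ≤ Nat.card A) :
    Cfsg.IsElementaryAbelian p (A.map (MulAut.conj g).toMonoidHom) ∧
      p ^ 1 ≤ Nat.card ↥(A.map (MulAut.conj g).toMonoidHom) := by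
  have := h1.1
  refine ⟨⟨inferInstance, ?_⟩, ?_⟩
  · rintro _ ⟨a, ha, rfl⟩; rw [← map_pow, h1.2 a ha, map_one]
  · rwa [Subgroup.card_map_of_injective (MulAut.conj g).injective]

omit hp in
theorem link_conj {A B : Subgroup G} (g : G) (h : Link p A B) :
    Link p (A.map (MulAut.conj g).toMonoidHom) (B.map (MulAut.conj g).toMonoidHom) := by
  induction h with
  | refl => exact .refl
  | tail _ hbc ih =>
    refine .tail ih ?_
    obtain ⟨h1, h2, h3, h4, h5⟩ := hbc
    refine ⟨(vertex_conj p g h1 h2).1, (vertex_conj p g h1 h2).2, (vertex_conj p g h3 h4).1, (vertex_conj p g h3 h4).2, ?_⟩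
    rintro _ ⟨a, ha, rfl⟩ _ ⟨b, hb, rfl⟩
    rw [← map_mul, h5 a ha b hb, map_mul]

theorem vertex_zpowers {a : G} (ha : orderOf a = p) :
    Cfsg.IsElementaryAbelian p (Subgroup.zpowers a) ∧ p ^ 1 ≤ Nat.card ↥(Subgroup.zpowers a) := by
  refine ⟨⟨inferInstance, fun x hx => ?_⟩, by rw [pow_one, Nat.card_zpowers, ha]⟩
  obtain ⟨i, rfl⟩ := Subgroup.mem_zpowers_iff.1 hx
  show (a ^ i) ^ p = 1
  rw [← zpow_natCast, ← zpow_mul, mul_comm, zpow_mul, zpow_natCast, ← ha, pow_orderOf_eq_one, one_zpow]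

theorem exists_orderOf_eq {A : Subgroup G} (h1 : Cfsg.IsElementaryAbelian p A) (h2 : p ^ 1 ≤ Nat.card A) :
    ∃ a ∈ A, orderOf a = p := by
  have : A ≠ ⊥ := by
    rintro rfl
    rw [Subgroup.card_bot, pow_one] at h2
    exact absurd h2 (not_le.2 hp.out.one_lt)
  obtain ⟨a, ha, ha1⟩ := (Subgroup.bot_or_exists_ne_one A).resolve_left this
  exact ⟨a, ha, orderOf_eq_prime (h1.2 a ha) ha1⟩

theorem link_mem {A : Subgroup G} (h1 : Cfsg.IsElementaryAbelian p A) (h2 : p ^ 1 ≤ Nat.card A) {a : G}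
    (ha : a ∈ A) (hap : orderOf a = p) : Link p A (Subgroup.zpowers a) := by
  have := h1.1
  obtain ⟨h3, h4⟩ := vertex_zpowers p hap
  refine .single ⟨h1, h2, h3, h4, fun x hx y hy => ?_⟩
  exact congrArg Subtype.val (mul_comm' (⟨x, hx⟩ : A) ⟨y, Subgroup.zpowers_le.2 ha hy⟩)

theorem map_conj_zpowers (g a : G) :
    (Subgroup.zpowers a).map (MulAut.conj g).toMonoidHom = Subgroup.zpowers (g * a * g⁻¹) :=
  MonoidHom.map_zpowers _ a

/-- Inside a subgroup `H`, every element of order `p` is linked to a conjugate of one fixed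
central element of order `p` of a Sylow subgroup of `H`. -/
theorem exists_hub (H : Subgroup G) (hH : p ∣ Nat.card H) : ∃ z ∈ H, orderOf z = p ∧
    ∀ a ∈ H, orderOf a = p → ∃ h ∈ H, Link p (Subgroup.zpowers a) (Subgroup.zpowers (h * z * h⁻¹)) := by
  obtain ⟨P⟩ : Nonempty (Sylow p H) := inferInstance
  have : Nontrivial (P : Subgroup H) := by
    rw [← Finite.one_lt_card_iff_nontrivial]
    exact lt_of_lt_of_le hp.out.one_lt (Nat.le_of_dvd Nat.card_pos (P.dvd_card_of_dvd_card hH))
  have hz := P.2.center_nontrivial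
  obtain ⟨n, hn⟩ := IsPGroup.iff_card.1 (P.2.to_subgroup (Subgroup.center (P : Subgroup H)))
  have hd : p ∣ Nat.card (Subgroup.center (P : Subgroup H)) := by
    rw [hn]
    refine dvd_pow_self p ?_
    rintro rfl
    exact absurd (hn.trans (pow_zero p)) (Finite.one_lt_card_iff_nontrivial.2 hz).ne'
  obtain ⟨⟨z, hzc⟩, hzp⟩ := exists_prime_orderOf_dvd_card' p hd
  rw [← Subgroup.orderOf_coe, ← Subgroup.orderOf_coe, ← Subgroup.orderOf_coe] at hzp
  refine ⟨z, (z : H).2, hzp, fun a ha hap => ?_⟩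
  have hpa : IsPGroup p (Subgroup.zpowers (⟨a, ha⟩ : H)) :=
    IsPGroup.of_card (n := 1) (by rw [Nat.card_zpowers, Subgroup.orderOf_mk, hap, pow_one])
  obtain ⟨P', hP'⟩ := hpa.exists_le_sylow
  obtain ⟨h, rfl⟩ := MulAction.exists_smul_eq H P P'
  refine ⟨h, h.2, ?_⟩
  have hzp' : orderOf ((h : G) * ((z : H) : G) * (h : G)⁻¹) = p := by
    rw [← MulAut.conj_apply, MulEquiv.orderOf_eq]; exact hzp
  refine .single ⟨(vertex_zpowers p hap).1, (vertex_zpowers p hap).2, (vertex_zpowers p hzp').1,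
    (vertex_zpowers p hzp').2, ?_⟩
  have hamem := hP' (Subgroup.mem_zpowers _)
  rw [Sylow.coe_subgroup_smul] at hamem
  obtain ⟨b, hb, hba⟩ := hamem
  have hcomm : Commute a ((h : G) * ((z : H) : G) * (h : G)⁻¹) := by
    have h1 : Commute b (z : H) := congrArg Subtype.val (Subgroup.mem_center_iff.1 hzc ⟨b, hb⟩)
    have h2 := h1.map (MulAut.conj h).toMonoidHom
    have hba' : (MulAut.conj h).toMonoidHom b = (⟨a, ha⟩ : H) := hba
    rw [hba'] at h2
    exact congrArg Subtype.val h2.eq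
  intro x hx y hy
  obtain ⟨i, rfl⟩ := Subgroup.mem_zpowers_iff.1 hx
  obtain ⟨j, rfl⟩ := Subgroup.mem_zpowers_iff.1 hy
  exact (hcomm.zpow_zpow i j).eq

end

/-- Let G be finite and p prime. Then G has a proper subgroup H with p ∣ |H| and p ∤ |H ∩ gHg⁻¹| for every g ∉ H (a strongly p-embedded subgroup) if and only if G is not 1-connected for p. -/
theorem result {G : Type*} [Group G] [Finite G] (p : ℕ) [Fact p.Prime] : (∃ H : Subgroup G, H ≠ ⊤ ∧ p ∣ Nat.card ↥H ∧ ∀ g : G, g ∉ H → ¬ p ∣ Nat.card ↥(H ⊓ H.map (MulAut.conj g).toMonoidHom)) ↔ ¬ Cfsg.IsKConnected p 1 G := by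
  constructor
  · rintro ⟨H, hH, hpH, hint⟩ hcon
    have hmem : ∀ a : G, a ∈ H → orderOf a = p → ∀ g : G, g⁻¹ * a * g ∈ H → g ∈ H := by
      intro a ha hap g hg
      by_contra hgH
      refine hint g hgH ?_
      have : a ∈ H ⊓ H.map (MulAut.conj g).toMonoidHom :=
        Subgroup.mem_inf.2 ⟨ha, g⁻¹ * a * g, hg, by simp [MulAut.conj_apply, mul_assoc]⟩
      exact hap ▸ Subgroup.orderOf_dvd_natCard _ this
    obtain ⟨⟨e, he⟩, hep⟩ := exists_prime_orderOf_dvd_card' p hpH
    rw [Subgroup.orderOf_mk] at hep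
    have hall : ∀ B : Subgroup G, Link p (Subgroup.zpowers e) B → B ≤ H := by
      intro B hB
      induction hB with
      | refl => exact Subgroup.zpowers_le.2 he
      | tail _ hbc ih =>
        obtain ⟨h1, h2, -, -, h5⟩ := hbc
        obtain ⟨a, ha, hap⟩ := exists_orderOf_eq p h1 h2
        intro b hb
        refine hmem a (ih ha) hap b ?_
        rw [mul_assoc, h5 a ha b hb, inv_mul_cancel_left]
        exact ih ha
    obtain ⟨g, hg⟩ := SetLike.exists_not_mem_of_ne_top H hH rfl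
    obtain ⟨h1, h2⟩ := vertex_zpowers p hep
    have hep' : orderOf (g⁻¹ * e * g) = p := by
      have := MulEquiv.orderOf_eq (MulAut.conj g⁻¹) e
      simp only [MulAut.conj_apply, inv_inv] at this
      rw [this, hep]
    obtain ⟨h3, h4⟩ := vertex_zpowers p hep'
    exact hg (hmem e he hep g (hall _ (hcon _ _ h1 h2 h3 h4) (Subgroup.mem_zpowers _)))
  · intro hcon
    unfold Cfsg.IsKConnected at hcon
    push Not at hcon
    obtain ⟨E, E', hE1, hE2, hE3, hE4, hne⟩ := hcon
    let H : Subgroup G :=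
      { carrier := {g | Link p (E.map (MulAut.conj g).toMonoidHom) E}
        one_mem' := by
          have e1 : E.map (MulAut.conj (1 : G)).toMonoidHom = E := by
            ext x; simp [Subgroup.mem_map]
          show Link p _ _
          rw [e1]
        mul_mem' := fun {a b} ha hb => by
          have h := link_conj p a hb
          rw [Subgroup.map_map] at h
          have e1 : (MulAut.conj a).toMonoidHom.comp (MulAut.conj b).toMonoidHom = (MulAut.conj (a * b)).toMonoidHom := by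
            ext x; simp [mul_assoc]
          rw [e1] at h
          exact h.trans ha
        inv_mem' := fun {a} ha => by
          have h := link_conj p a⁻¹ ha
          rw [Subgroup.map_map] at h
          have e1 : (MulAut.conj a⁻¹).toMonoidHom.comp (MulAut.conj a).toMonoidHom = MonoidHom.id G := by
            ext x; simp [mul_assoc]
          rw [e1, Subgroup.map_id] at h
          exact link_symm p h }
    have hEH : E ≤ H := fun e he => by
      show Link p _ _
      have : E.map (MulAut.conj e).toMonoidHom = E :=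
        Subgroup.mem_normalizer_iff_map_conj_eq.1 (Subgroup.le_normalizer he)
      rw [this]
    obtain ⟨e, he, hep⟩ := exists_orderOf_eq p hE1 hE2
    have hpH : p ∣ Nat.card H := hep ▸ Subgroup.orderOf_dvd_natCard _ (hEH he)
    -- every element of order `p` of `H` is linked to `E`
    have key : ∀ (K : Subgroup G), K ≤ H → e ∈ K → ∀ a ∈ K, orderOf a = p → Link p (Subgroup.zpowers a) E := by
      intro K hK heK a ha hap
      obtain ⟨z, hz, hzp, hhub⟩ := exists_hub p K (hep ▸ Subgroup.orderOf_dvd_natCard _ heK)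
      obtain ⟨h₁, hh₁, hl₁⟩ := hhub e heK hep
      obtain ⟨h₂, hh₂, hl₂⟩ := hhub a ha hap
      have hE : Link p (Subgroup.zpowers (h₁ * z * h₁⁻¹)) E := link_symm p ((link_mem p hE1 hE2 he hep).trans hl₁)
      have hg : h₂ * h₁⁻¹ ∈ H := mul_mem (hK hh₂) (inv_mem (hK hh₁))
      have h := link_conj p (h₂ * h₁⁻¹) hE
      rw [map_conj_zpowers] at h
      have e2 : h₂ * h₁⁻¹ * (h₁ * z * h₁⁻¹) * (h₂ * h₁⁻¹)⁻¹ = h₂ * z * h₂⁻¹ := by group
      rw [e2] at h
      exact hl₂.trans (h.trans hg)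
    refine ⟨H, fun htop => ?_, hpH, fun g hg hd => ?_⟩
    · obtain ⟨b, hb, hbp⟩ := exists_orderOf_eq p hE3 hE4
      exact hne (link_symm p ((link_mem p hE3 hE4 hb hbp).trans (key H le_rfl (hEH he) b (htop ▸ Subgroup.mem_top b) hbp)))
    · obtain ⟨⟨a, ha⟩, hap⟩ := exists_prime_orderOf_dvd_card' p hd
      rw [Subgroup.orderOf_mk] at hap
      obtain ⟨ha1, b, hb, rfl⟩ := Subgroup.mem_inf.1 ha
      have hbp : orderOf b = p := by rw [← hap]; exact (MulEquiv.orderOf_eq (MulAut.conj g) b).symm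
      have h := link_conj p g (key H le_rfl (hEH he) b hb hbp)
      rw [map_conj_zpowers] at h
      exact hg (show Link p _ _ from (link_symm p h).trans (key H le_rfl (hEH he) _ ha1 hap))

end Cfsg.Agent.S1336
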