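import Cfsg.Statements.S1338
import Cfsg.Agent.S0122
import Mathlib

set_option autoImplicit false
open Cfsg

namespace Cfsg.Agent.S1338

/-- Adjacency in the commuting graph. -/
def Adj (P : Type*) [Group P] (A B : Subgroup P) : Prop :=
  Cfsg.IsElementaryAbelian 3 A ∧ 3 ^ 2 ≤ Nat.card ↥A ∧ Cfsg.IsElementaryAbelian 3 B ∧
    3 ^ 2 ≤ Nat.card ↥B ∧ ∀ a ∈ A, ∀ b ∈ B, a * b = b * a

theorem elem_le {P : Type*} [Group P] {p : ℕ} {A B : Subgroup P} (hA : Cfsg.IsElementaryAbelian p A)
    (h : B ≤ A) : Cfsg.IsElementaryAbelian p B :=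
  ⟨⟨⟨fun a b => Subtype.ext (congrArg (fun x : ↥A => (x : P)) (hA.1.is_comm.comm ⟨a, h a.2⟩ ⟨b, h b.2⟩))⟩⟩,
    fun a ha => hA.2 a (h ha)⟩

theorem card_ker_comp {M : Type*} [Group M] [Finite M] (f g : M →* M) :
    Nat.card (f.comp g).ker ≤ Nat.card f.ker * Nat.card g.ker := by
  let φ : (f.comp g).ker →* f.ker := (g.comp (f.comp g).ker.subtype).codRestrict f.ker fun x => x.2
  have h1 : Nat.card φ.ker ≤ Nat.card g.ker :=
    Nat.card_le_card_of_injective (fun x => (⟨((x : (f.comp g).ker) : M), congrArg Subtype.val (MonoidHom.mem_ker.mp x.2)⟩ : g.ker))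
      (fun a b h => Subtype.ext (Subtype.ext (congrArg (fun z : g.ker => (z : M)) h)))
  have h2 : φ.ker.index ≤ Nat.card f.ker := by
    rw [Subgroup.index_ker]
    exact Subgroup.card_le_card_group _
  rw [← φ.ker.card_mul_index, mul_comm]
  exact Nat.mul_le_mul h2 h1

theorem adj_symm {P : Type*} [Group P] {A B : Subgroup P} (h : Relation.ReflTransGen (Adj P) A B) :
    Relation.ReflTransGen (Adj P) B A := by
  induction h with
  | refl => exact .refl
  | tail _ hbc ih =>
    exact Relation.ReflTransGen.head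
      ⟨hbc.2.2.1, hbc.2.2.2.1, hbc.1, hbc.2.1, fun a ha b hb => (hbc.2.2.2.2 b hb a ha).symm⟩ ih

theorem to_hub {P : Type*} [Group P] [Finite P] (hP : IsPGroup 3 P) (A : Subgroup P) [A.Normal]
    (hA : Cfsg.IsElementaryAbelian 3 A) (hAc : Nat.card A = 3 ^ 4) (E : Subgroup P)
    (hE : Cfsg.IsElementaryAbelian 3 E) (hEc : 3 ^ 2 ≤ Nat.card E) : Relation.ReflTransGen (Adj P) E A := by
  haveI : Fact (Nat.Prime 3) := ⟨Nat.prime_three⟩
  haveI := hA.1
  -- a common fixed point
  let act : MulAction E A := MulAction.compHom A ((MulAut.conjNormal : P →* MulAut A).comp E.subtype)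
  obtain ⟨z, hz, hz1⟩ : ∃ z : A, (∀ e : E, MulAut.conjNormal (e : P) z = z) ∧ z ≠ 1 := by
    obtain ⟨z, hz, hz1⟩ := (hP.to_subgroup E).exists_fixed_point_of_prime_dvd_card_of_fixed_point
      (α := A) (by rw [hAc]; exact dvd_pow_self 3 (by norm_num)) (a := 1)
      (fun e => map_one (MulAut.conjNormal (e : P) : MulAut A))
    exact ⟨z, fun e => hz e, fun h => hz1 h.symm⟩
  have hzc : ∀ e ∈ E, e * (z : P) = z * e := fun e he =>
    mul_inv_eq_iff_eq_mul.mp (congrArg Subtype.val (hz ⟨e, he⟩))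
  -- an element outside the cyclic subgroup generated by it
  obtain ⟨a, haE, haz⟩ : ∃ a ∈ E, a ∉ Subgroup.zpowers (z : P) := by
    by_contra h
    simp only [not_exists, not_and, not_not] at h
    have h1 := Subgroup.card_le_of_le (h : E ≤ Subgroup.zpowers (z : P))
    rw [Nat.card_zpowers, orderOf_eq_prime (hA.2 _ z.2) (fun e => hz1 (Subtype.ext e))] at h1
    omega
  -- the commutator map with `a`
  let f : A →* A :=
    { toFun := fun x => MulAut.conjNormal a x * x⁻¹
      map_one' := by simp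
      map_mul' := fun x y => by
        rw [map_mul, mul_inv_rev, mul_comm' y⁻¹ x⁻¹, mul_assoc, ← mul_assoc (MulAut.conjNormal a y) x⁻¹,
          mul_comm' (MulAut.conjNormal a y) x⁻¹, mul_assoc x⁻¹, ← mul_assoc] }
  have hf3 : (f.comp (f.comp f)).ker = ⊤ := by
    refine eq_top_iff.mpr fun x _ => ?_
    rw [MonoidHom.mem_ker]
    letI : CommGroup A := IsMulCommutative.instCommGroup
    have hf : ∀ y : A, f y = MulAut.conjNormal a y * y⁻¹ := fun y => rfl
    have ha3 : ∀ y : A, MulAut.conjNormal a (MulAut.conjNormal a (MulAut.conjNormal a y)) = y := fun y => by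
      rw [← MulAut.mul_apply, ← MulAut.mul_apply, ← map_mul, ← map_mul, ← pow_three', hE.2 a haE, map_one]
      rfl
    have hy3 : ∀ y : A, y * y * y = 1 := fun y => by
      rw [← pow_three']; exact Subtype.ext (hA.2 _ y.2)
    simp only [MonoidHom.comp_apply, hf, map_mul, map_inv, ha3]
    set u := MulAut.conjNormal a x
    set v := MulAut.conjNormal a u
    calc _ = (x * x⁻¹) * ((v * v * v)⁻¹ * (u * u * u)) := by
          simp only [mul_inv_rev, inv_inv, mul_comm, mul_left_comm, mul_assoc]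
      _ = 1 := by rw [hy3, hy3, mul_inv_cancel, inv_one, one_mul, one_mul]
  have hker : 3 ^ 2 ≤ Nat.card f.ker := by
    have h1 := (card_ker_comp f (f.comp f)).trans (Nat.mul_le_mul_left _ (card_ker_comp f f))
    rw [hf3, Subgroup.card_top, hAc] at h1
    obtain ⟨j, hj⟩ := IsPGroup.iff_card.mp ((hP.to_subgroup A).to_subgroup f.ker)
    rw [hj]
    refine Nat.pow_le_pow_right (by norm_num) ?_
    rw [hj, ← pow_add, ← pow_add, Nat.pow_le_pow_iff_right (by norm_num)] at h1
    omega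
  let C : Subgroup P := f.ker.map A.subtype
  have hCA : C ≤ A := Subgroup.map_subtype_le _
  have hCcard : 3 ^ 2 ≤ Nat.card C := by
    rw [Subgroup.card_map_of_injective A.subtype_injective]; exact hker
  have hCa : ∀ c ∈ C, a * c = c * a := by
    rintro c ⟨x, hx, rfl⟩
    exact mul_inv_eq_iff_eq_mul.mp (congrArg Subtype.val (mul_inv_eq_one.mp (MonoidHom.mem_ker.mp hx)))
  -- the middle vertex
  let F : Subgroup P := Subgroup.closure {a, (z : P)}
  have hFc : ∀ x : P, a * x = x * a → (z : P) * x = x * z → ∀ y ∈ F, y * x = x * y := by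
    intro x h1 h2 y hy
    have : F ≤ Subgroup.centralizer {x} := by
      rw [Subgroup.closure_le]
      rintro y (rfl | rfl)
      · exact Subgroup.mem_centralizer_singleton_iff.mpr h1
      · exact Subgroup.mem_centralizer_singleton_iff.mpr h2
    exact Subgroup.mem_centralizer_singleton_iff.mp (this hy)
  have haz' : a * (z : P) = z * a := hzc a haE
  have hFcomm : ∀ y ∈ F, ∀ x ∈ F, y * x = x * y := fun y hy x hx =>
    hFc x (hFc a rfl haz'.symm x hx).symm (hFc z haz' rfl x hx).symm y hy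
  have hFel : Cfsg.IsElementaryAbelian 3 F := by
    refine ⟨⟨⟨fun u v => Subtype.ext (hFcomm u u.2 v v.2)⟩⟩, fun y hy => ?_⟩
    induction hy using Subgroup.closure_induction with
    | mem w hw =>
      rcases hw with rfl | rfl
      · exact hE.2 _ haE
      · exact hA.2 _ z.2
    | one => exact one_pow 3
    | mul u v hu hv iu iv => rw [Commute.mul_pow (hFcomm u hu v hv) 3, iu, iv, one_mul]
    | inv u hu iu => rw [inv_pow, iu, inv_one]
  have hFcard : 3 ^ 2 ≤ Nat.card F := by
    have hle : Subgroup.zpowers (z : P) ≤ F :=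
      Subgroup.zpowers_le.mpr (Subgroup.subset_closure (by simp))
    obtain ⟨j, hj⟩ := IsPGroup.iff_card.mp (hP.to_subgroup F)
    rw [hj]
    refine Nat.pow_le_pow_right (by norm_num) ?_
    by_contra hj2
    have h1 : Nat.card F ≤ Nat.card (Subgroup.zpowers (z : P)) := by
      rw [hj, Nat.card_zpowers, orderOf_eq_prime (hA.2 _ z.2) (fun e => hz1 (Subtype.ext e))]
      calc 3 ^ j ≤ 3 ^ 1 := Nat.pow_le_pow_right (by norm_num) (by omega)
        _ = 3 := pow_one 3
    exact haz (Subgroup.eq_of_le_of_card_ge hle h1 ▸ Subgroup.subset_closure (by simp))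
  refine Relation.ReflTransGen.head (b := F) ⟨hE, hEc, hFel, hFcard, fun e he y hy => ?_⟩ ?_
  · refine (hFc e ?_ (hzc e he).symm y hy).symm
    exact congrArg Subtype.val (hE.1.is_comm.comm ⟨a, haE⟩ ⟨e, he⟩)
  refine Relation.ReflTransGen.head (b := C) ⟨hFel, hFcard, elem_le hA hCA, hCcard, fun y hy c hc => ?_⟩ ?_
  · exact hFc c (hCa c hc) (congrArg Subtype.val (hA.1.is_comm.comm z ⟨c, hCA hc⟩)) y hy
  exact Relation.ReflTransGen.single ⟨elem_le hA hCA, hCcard, hA, by rw [hAc]; norm_num,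
    fun c hc x hx => congrArg Subtype.val (hA.1.is_comm.comm ⟨c, hCA hc⟩ ⟨x, hx⟩)⟩

/-- A finite 3-group of 3-rank at least 4 is 2-connected for the prime 3: its commuting graph on elementary abelian subgroups of order ≥ 9 is connected. -/
theorem result {P : Type*} [Group P] [Finite P] (hP : IsPGroup 3 P) (hrk : ¬ Cfsg.PRankLE 3 3 P) : Cfsg.IsKConnected 3 2 P := by
  haveI : Fact (Nat.Prime 3) := ⟨Nat.prime_three⟩
  simp only [Cfsg.PRankLE, not_forall, not_le] at hrk
  obtain ⟨E₁, hE₁c, hE₁p, hE₁⟩ := hrk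
  obtain ⟨k, hk⟩ := IsPGroup.iff_card.mp (hP.to_subgroup E₁)
  have hk4 : 4 ≤ k := by
    have := (Nat.pow_lt_pow_iff_right (by norm_num : 1 < 3)).mp (hk ▸ hE₁)
    omega
  obtain ⟨E₂, hE₂⟩ := Sylow.exists_subgroup_card_pow_prime (G := ↥E₁) 3 (n := 4) (hk ▸ pow_dvd_pow 3 hk4)
  obtain ⟨A, hAn, hA, hAc⟩ := Cfsg.Agent.S0122.result (by norm_num : (3 : ℕ) ≠ 2) hP (E₂.map E₁.subtype)
    (elem_le ⟨hE₁c, hE₁p⟩ (Subgroup.map_subtype_le E₂))
    (by rw [Subgroup.card_map_of_injective E₁.subtype_injective, hE₂])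
  haveI := hAn
  have hto : ∀ E : Subgroup P, Cfsg.IsElementaryAbelian 3 E → 3 ^ 2 ≤ Nat.card E →
      Relation.ReflTransGen (Adj P) E A := fun E h1 h2 => to_hub hP A hA hAc E h1 h2
  intro E E' h1 h2 h3 h4
  exact (hto E h1 h2).trans (adj_symm (hto E' h3 h4))

end Cfsg.Agent.S1338
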