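import Cfsg.Statements.S1342
import Mathlib.Tactic
import Cfsg.Agent.Components.PComp
import Cfsg.Agent.PCore.Basic

set_option autoImplicit false
open Cfsg
open scoped commutatorElement

namespace Cfsg.Agent.S1342

open scoped Pointwise

theorem oddCore_transport {X : Type*} [Group X] [Finite X] (φ : X ≃* X) (Z Z' : Subgroup X)
    (h : Z.map φ.toMonoidHom = Z') :
    ((Cfsg.oddCore ↥Z).map Z.subtype).map φ.toMonoidHom ≤ (Cfsg.oddCore ↥Z').map Z'.subtype := by
  subst h
  let e : ↥Z ≃* ↥(Z.map φ.toMonoidHom) := Z.equivMapOfInjective _ φ.injective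
  rintro _ ⟨_, ⟨z, hz, rfl⟩, rfl⟩
  exact ⟨e z, CfsgLib.Components.pPrimeCore_map_equiv_le e 2 ⟨z, hz, rfl⟩, rfl⟩

theorem centralizer_map_equiv {X : Type*} [Group X] (φ : X ≃* X) (T : Subgroup X) :
    (Subgroup.centralizer (T : Set X)).map φ.toMonoidHom = Subgroup.centralizer ((T.map φ.toMonoidHom : Subgroup X) : Set X) := by
  ext x
  constructor
  · rintro ⟨y, hy, rfl⟩
    refine Subgroup.mem_centralizer_iff.2 ?_
    rintro _ ⟨t, ht, rfl⟩
    show φ t * φ y = φ y * φ t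
    rw [← map_mul, ← map_mul, Subgroup.mem_centralizer_iff.1 hy t ht]
  · intro hx
    refine ⟨φ.symm x, Subgroup.mem_centralizer_iff.2 fun t ht => φ.injective ?_, φ.apply_symm_apply x⟩
    rw [map_mul, map_mul, φ.apply_symm_apply]
    exact Subgroup.mem_centralizer_iff.1 hx _ ⟨t, ht, rfl⟩

/-- For a finite group X, L*_{2'}(X) is normal in X. -/
theorem result {X : Type*} [Group X] [Finite X] : (Cfsg.extendedTwoLayer X).Normal := by
  have : Fact (Nat.Prime 2) := ⟨Nat.prime_two⟩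
  have h1 := CfsgLib.Components.pLayer_normal (X := X) (p := 2)
  have h2 : (Cfsg.oddCore X).Normal := Subgroup.sSup_normal _ fun _ h => h.1
  have h3 := CfsgLib.PCore.pPrimePCore_normal 2 X
  have hW : (Cfsg.pLayer 2 X ⊔ Cfsg.pPrimePCore 2 X).Normal := Subgroup.sup_normal _ _
  refine ⟨fun y hy g => ?_⟩
  set φ := (MulAut.conj g : X ≃* X)
  have key : (Cfsg.extendedTwoLayer X).map φ.toMonoidHom ≤ Cfsg.extendedTwoLayer X := by
    rw [Cfsg.extendedTwoLayer, Subgroup.map_sup, Subgroup.map_sup, Subgroup.map_iSup]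
    refine sup_le (sup_le ?_ ?_) (iSup_le fun T => ?_)
    · exact le_trans (by rintro _ ⟨u, hu, rfl⟩; exact h1.conj_mem u hu g) (le_sup_left.trans le_sup_left)
    · exact le_trans (by rintro _ ⟨u, hu, rfl⟩; exact h2.conj_mem u hu g) (le_sup_right.trans le_sup_left)
    · refine le_trans ?_ (le_sup_of_le_right (le_iSup _
        ((MulAut.conjNormal g : MulAut ↥(Cfsg.pLayer 2 X ⊔ Cfsg.pPrimePCore 2 X)) • T)))
      refine oddCore_transport φ _ _ ?_
      rw [centralizer_map_equiv]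
      congr 2
      ext x
      constructor
      · rintro ⟨_, ⟨t, ht, rfl⟩, rfl⟩
        exact ⟨MulAut.conjNormal g t, ⟨t, ht, rfl⟩, MulAut.conjNormal_apply g t⟩
      · rintro ⟨_, ⟨t, ht, rfl⟩, rfl⟩
        exact ⟨_, ⟨t, ht, rfl⟩, (MulAut.conjNormal_apply g t).symm⟩
  exact key ⟨y, hy, rfl⟩

end Cfsg.Agent.S1342
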