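import Cfsg.Statements.S1343
import Cfsg.Agent.Components.ExtLayer
import Cfsg.Agent.PCore.Basic

set_option autoImplicit false
open Cfsg

namespace Cfsg.Agent.S1343

/-- Let X be finite. Then L*_{2'}(X) = L_{2'}(X) ⊔ F for some subgroup F of odd order normalized by a Sylow 2-subgroup of X. -/
theorem result {X : Type*} [Group X] [Finite X] : ∃ F : Subgroup X, Odd (Nat.card ↥F) ∧ (∃ S : Sylow 2 X, (S : Subgroup X) ≤ Subgroup.normalizer (F : Set X)) ∧ Cfsg.extendedTwoLayer X = Cfsg.pLayer 2 X ⊔ F := by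
  haveI : Fact (Nat.Prime 2) := ⟨Nat.prime_two⟩
  let T : Sylow 2 ↥(Cfsg.pLayer 2 X ⊔ Cfsg.pPrimePCore 2 X) := default
  set TX := (T : Subgroup ↥(Cfsg.pLayer 2 X ⊔ Cfsg.pPrimePCore 2 X)).map
    (Cfsg.pLayer 2 X ⊔ Cfsg.pPrimePCore 2 X).subtype with hTX
  obtain ⟨S, hTS⟩ := (T.isPGroup'.map _ : IsPGroup 2 ↥TX).exists_le_sylow
  set F := CfsgLib.Components.centCore 2 TX with hF
  have hcop : (Nat.card ↥F).Coprime 2 := by
    rw [hF, CfsgLib.Components.centCore, Subgroup.card_map_of_injective (Subgroup.subtype_injective _)]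
    exact CfsgLib.Components.pPrimeCore_coprime 2
  refine ⟨F ⊔ Cfsg.oddCore X, ?_, ⟨S, ?_⟩, ?_⟩
  · rw [← Nat.coprime_two_right]
    exact CfsgLib.PCore.coprime_card_sup hcop (CfsgLib.Components.pPrimeCore_coprime 2)
  · have hn : (Cfsg.pLayer 2 X ⊔ Cfsg.pPrimePCore 2 X).Normal := by
      haveI : (Cfsg.pLayer 2 X).Normal := CfsgLib.Components.pLayer_normal
      haveI : (Cfsg.pPrimePCore 2 X).Normal := CfsgLib.Components.pPrimePCore_normal 2
      exact Subgroup.sup_normal _ _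
    have hST : (S : Subgroup X) ≤ Subgroup.normalizer (TX : Set X) := by
      intro s hs
      have heq : TX = (S : Subgroup X) ⊓ (Cfsg.pLayer 2 X ⊔ Cfsg.pPrimePCore 2 X) := by
        refine le_antisymm (le_inf hTS (Subgroup.map_subtype_le _)) fun x hx => ?_
        have h1 : ((S : Subgroup X).subgroupOf (Cfsg.pLayer 2 X ⊔ Cfsg.pPrimePCore 2 X)) =
            (T : Subgroup ↥(Cfsg.pLayer 2 X ⊔ Cfsg.pPrimePCore 2 X)) :=
          T.is_maximal' S.isPGroup'.comap_subtype (fun t ht => hTS ⟨t, ht, rfl⟩)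
        exact ⟨⟨x, hx.2⟩, h1 ▸ (hx.1 :), rfl⟩
      rw [heq, Subgroup.mem_normalizer_iff]
      intro x
      exact and_congr (Subgroup.mem_normalizer_iff.mp (Subgroup.le_normalizer hs) x)
        (Subgroup.mem_normalizer_iff.mp ((Subgroup.normalizer_eq_top_iff.mpr hn).ge (Subgroup.mem_top s)) x)
    intro s hs
    rw [Subgroup.mem_normalizer_iff_map_conj_eq]
    refine (Subgroup.map_sup _ _ _).trans ?_
    exact congrArg₂ (· ⊔ ·) (Subgroup.mem_normalizer_iff_map_conj_eq.mp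
      (CfsgLib.Components.normalizer_le_normalizer_centCore 2 TX (hST hs)))
      (Subgroup.mem_normalizer_iff_map_conj_eq.mp
        ((Subgroup.normalizer_eq_top_iff.mpr (inferInstance : (Cfsg.oddCore X).Normal)).ge (Subgroup.mem_top s)))
  · refine le_antisymm (sup_le (sup_le le_sup_left (le_sup_of_le_right le_sup_right)) (iSup_le fun T' => ?_)) ?_
    · refine (CfsgLib.Components.centCore_le_sup T T').trans ?_
      exact sup_le (sup_le le_sup_left (le_sup_of_le_right le_sup_right)) (le_sup_of_le_right le_sup_left)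
    · refine sup_le (le_sup_left.trans le_sup_left) (sup_le ?_ (le_sup_right.trans le_sup_left))
      exact le_sup_of_le_right (le_iSup (fun T : Sylow 2 ↥(Cfsg.pLayer 2 X ⊔ Cfsg.pPrimePCore 2 X) =>
        CfsgLib.Components.centCore 2 ((T : Subgroup ↥(Cfsg.pLayer 2 X ⊔ Cfsg.pPrimePCore 2 X)).map
          (Cfsg.pLayer 2 X ⊔ Cfsg.pPrimePCore 2 X).subtype)) T)


end Cfsg.Agent.S1343
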