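import Cfsg.Statements.S1344
import Cfsg.Agent.Components.ExtLayer

set_option autoImplicit false
open Cfsg

namespace Cfsg.Agent.S1344

/-- Let K be a 2-component of the finite group X. Then K ≤ L*_{2'}(X) and K is normal in L*_{2'}(X). -/
theorem result {X : Type*} [Group X] [Finite X] (K : Subgroup X) (hK : Cfsg.IsPComponent 2 K) : K ≤ Cfsg.extendedTwoLayer X ∧ (K.subgroupOf (Cfsg.extendedTwoLayer X)).Normal := by
  haveI : Fact (Nat.Prime 2) := ⟨Nat.prime_two⟩
  refine ⟨le_trans (CfsgLib.Components.pComponent_le_pLayer hK) (le_sup_left.trans le_sup_left), ?_⟩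
  refine Subgroup.normal_subgroupOf_of_le_normalizer (sup_le (sup_le ?_ ?_) (iSup_le fun T => ?_))
  · exact CfsgLib.Components.pComponent_normal_in_pLayer hK
  · exact CfsgLib.Components.pPrimeCore_le_normalizer_pComponent hK
  · exact CfsgLib.Components.centCore_le_normalizer_pComponent T hK


end Cfsg.Agent.S1344
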