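import Cfsg.Statements.S1386
import Mathlib.Tactic
import Cfsg.Agent.TypeP.Basic

set_option autoImplicit false
open Cfsg
open scoped commutatorElement

namespace Cfsg.Agent.S1386

/-- Let G be a finite group, W₁, W₂ subgroups forming a self-normalizing cyclic pair, S a subgroup with W₂ ≤ S and W₁ a complement to S' in S, and (W₁, U, W₂') type-P data for S. Then W₂' = W₂ (that is, C_{S'}(W₁) = W₂). -/
theorem result {G : Type*} [Group G] [Finite G] (W₁ W₂ S U W₂' : Subgroup G) (hW : Cfsg.IsSelfNormalizingCyclic W₁ W₂)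
    (hSW : Cfsg.IsComplIn ⁅S, S⁆ W₁ S) (hW₂S : W₂ ≤ S) (hP : Cfsg.IsTypePWith S W₁ U W₂') :
    W₂' = W₂ := by
  obtain ⟨hW1, hW2, hd, hcomm, hcyc, hnorm⟩ := hW
  obtain ⟨-, hW2', hd', hcomm', hcyc', hnorm'⟩ := hP.selfNormalizing
  obtain ⟨x, hx, hx1⟩ := (Subgroup.bot_or_exists_ne_one W₁).resolve_left hW1
  have hC := hP.W₂_centralizer x hx hx1
  have hle : W₁ ⊔ W₂ ≤ W₁ ⊔ W₂' := by
    refine sup_le le_sup_left fun w hw => ?_
    obtain ⟨a, ha, b, hb, rfl⟩ := hSW.2.2.2 w (hW₂S hw)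
    rw [sup_comm]
    refine Subgroup.mul_mem_sup ?_ hb
    rw [← hC]
    refine ⟨ha, Subgroup.mem_centralizer_singleton_iff.2 ?_⟩
    have h1 : Commute x (a * b) := hcomm x hx _ hw
    have := hP.W₁_cyclic
    have h2 : Commute x b := by
      have := mul_comm' (⟨x, hx⟩ : W₁) ⟨b, hb⟩
      exact congrArg Subtype.val this
    have h3 : Commute x a := by simpa using h1.mul_right h2.inv_right
    exact h3.eq.symm
  obtain ⟨y, hy, hy1⟩ := (Subgroup.bot_or_exists_ne_one W₂).resolve_left hW2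
  have hX : ({x * y} : Set G) ⊆ (↑(W₁ ⊔ W₂) : Set G) \ (↑W₁ ∪ ↑W₂) := by
    rintro z (rfl : z = x * y)
    refine ⟨Subgroup.mul_mem_sup hx hy, ?_⟩
    rintro (h | h)
    · have : y ∈ W₁ ⊓ W₂ := ⟨by simpa using W₁.mul_mem (W₁.inv_mem hx) h, hy⟩
      rw [hd] at this; exact hy1 this
    · have : x ∈ W₁ ⊓ W₂ := ⟨hx, by simpa using W₂.mul_mem h (W₂.inv_mem hy)⟩
      rw [hd] at this; exact hx1 this
  have hge : W₁ ⊔ W₂' ≤ W₁ ⊔ W₂ := by
    intro g hg
    rw [← hnorm {x * y} hX (Set.singleton_nonempty _)]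
    have := hcyc'
    have hz : x * y ∈ W₁ ⊔ W₂' := hle (hX (Set.mem_singleton (x * y))).1
    have hgz := congrArg Subtype.val (mul_comm' (⟨g, hg⟩ : ↥(W₁ ⊔ W₂')) ⟨x * y, hz⟩)
    simp only [Subgroup.coe_mul] at hgz
    refine Subgroup.mem_set_normalizer_iff.2 fun k => ?_
    constructor
    · rintro (rfl : k = x * y)
      show g * (x * y) * g⁻¹ = x * y
      rw [hgz, mul_inv_cancel_right]
    · intro (h : g * k * g⁻¹ = x * y)
      show k = x * y
      rw [mul_inv_eq_iff_eq_mul, ← hgz] at h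
      exact mul_left_cancel h
  have heq : W₁ ⊔ W₂ = W₁ ⊔ W₂' := le_antisymm hle hge
  have hcard : Nat.card W₂' = Nat.card W₂ := by
    have h1 := CfsgLib.TypeP.card_sup_of_le_centralizer
      (fun a ha => Subgroup.mem_centralizer_iff.2 fun b hb => (hcomm a ha b hb).symm) hd
    have h2 := CfsgLib.TypeP.card_sup_of_le_centralizer
      (fun a ha => Subgroup.mem_centralizer_iff.2 fun b hb => (hcomm' a ha b hb).symm) hd'
    rw [heq, h2] at h1
    exact Nat.eq_of_mul_eq_mul_left Nat.card_pos h1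
  have := hcyc
  exact CfsgLib.TypeP.eq_of_card_eq_of_isCyclic (W := W₁ ⊔ W₂)
    (heq ▸ le_sup_right) le_sup_right hcard

end Cfsg.Agent.S1386
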