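import Cfsg.Statements.S1387
import Mathlib.Tactic
import Cfsg.Agent.TypeP.Basic

set_option autoImplicit false
open Cfsg
open scoped commutatorElement

namespace Cfsg.Agent.S1387

/-- Let M be a subgroup of a finite group G with type-P data (W₁, U, W₂) and H = M_F. Then the Fitting subgroup F(M) is generated by H and the centralizer of H in U. -/
theorem result {G : Type*} [Group G] [Finite G] (M W₁ U W₂ : Subgroup G) (hP : Cfsg.IsTypePWith M W₁ U W₂) :
    Cfsg.fittingOf M = Cfsg.fittingHallOf M ⊔ (U ⊓ Subgroup.centralizer (Cfsg.fittingHallOf M : Set G)) := by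
  set H := Cfsg.fittingHallOf M
  apply le_antisymm
  · intro g hg
    have hgM' : g ∈ ⁅M, M⁆ := hP.fitting_le hg
    obtain ⟨h, hh, u, hu, rfl⟩ := hP.U_compl.2.2.2 g hgM'
    have hhF : h ∈ Cfsg.fittingOf M := by rw [← hP.fitting_eq]; exact Subgroup.mem_sup_left hh
    have huF : u ∈ Cfsg.fittingOf M := by
      have := Subgroup.mul_mem _ (Subgroup.inv_mem _ hhF) hg
      rwa [inv_mul_cancel_left] at this
    exact Subgroup.mul_mem_sup hh ⟨hu, CfsgLib.TypeP.mem_centralizer_of_mem_fitting hP hu huF⟩
  · rw [← hP.fitting_eq]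
    refine sup_le_sup_left (inf_le_inf_right _ ?_) _
    exact hP.U_compl.2.1.trans (Subgroup.commutator_le.2 fun a ha b hb => by
      rw [commutatorElement_def]; exact mul_mem (mul_mem (mul_mem ha hb) (inv_mem ha)) (inv_mem hb))

end Cfsg.Agent.S1387
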