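import Cfsg.Statements.S1388
import Mathlib.Tactic
import Cfsg.Agent.TypeP.Basic

set_option autoImplicit false
open Cfsg
open scoped commutatorElement

namespace Cfsg.Agent.S1388

/-- Let M be a subgroup of a finite group G with type-P data (W₁, U, W₂) and H = M_F. Then the derived subgroup of U centralizes H, and if U ≠ 1 then U does not centralize H. -/
theorem result {G : Type*} [Group G] [Finite G] (M W₁ U W₂ : Subgroup G) (hP : Cfsg.IsTypePWith M W₁ U W₂) :
    ⁅U, U⁆ ≤ Subgroup.centralizer (Cfsg.fittingHallOf M : Set G) ∧ (U ≠ ⊥ → ¬ U ≤ Subgroup.centralizer (Cfsg.fittingHallOf M : Set G)) := by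
  set H := Cfsg.fittingHallOf M
  have hMM : ⁅M, M⁆ ≤ M := Subgroup.commutator_le.2 fun a ha b hb => by
      rw [commutatorElement_def]; exact mul_mem (mul_mem (mul_mem ha hb) (inv_mem ha)) (inv_mem hb)
  have hUM : U ≤ M := hP.U_compl.2.1.trans hMM
  refine ⟨fun g hg => ?_, fun hU hUC => ?_⟩
  · have hgU : g ∈ U := (Subgroup.commutator_le.2 fun a ha b hb => by
      rw [commutatorElement_def]; exact mul_mem (mul_mem (mul_mem ha hb) (inv_mem ha)) (inv_mem hb)) hg
    refine CfsgLib.TypeP.mem_centralizer_of_mem_fitting hP hgU ?_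
    rw [← hP.fitting_eq]
    exact hP.derived_two_le (Subgroup.commutator_mono hP.U_compl.2.1 hP.U_compl.2.1 hg)
  · -- otherwise U is a normal nilpotent Hall subgroup of M
    have hcUH := CfsgLib.TypeP.card_coprime_of_typeP hP
    have hcH : Nat.card ↥⁅M, M⁆ = Nat.card H * Nat.card U := CfsgLib.TypeP.card_eq_of_isComplIn hP.U_compl
    have hchar : ∀ g ∈ ⁅M, M⁆, g ^ Nat.card U = 1 → g ∈ U := by
      intro g hg hgU
      obtain ⟨h, hh, u, hu, rfl⟩ := hP.U_compl.2.2.2 g hg
      have hc : Commute h u := Subgroup.mem_centralizer_iff.1 (hUC hu) h hh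
      rw [hc.mul_pow, show u ^ Nat.card U = 1 from
        orderOf_dvd_iff_pow_eq_one.1 (Subgroup.orderOf_dvd_natCard _ hu), mul_one] at hgU
      have : h ∈ U := CfsgLib.TypeP.coprime_pow_eq_of_mem hh hcUH (hgU ▸ U.one_mem)
      exact U.mul_mem this hu
    have hM'n : M ≤ Subgroup.normalizer ((⁅M, M⁆ : Subgroup G) : Set G) := by
      intro m hm
      have key : ∀ m ∈ M, ∀ g ∈ ⁅M, M⁆, m * g * m⁻¹ ∈ ⁅M, M⁆ := by
        intro m hm g hg
        have h1 : ⁅m, g⁆ ∈ ⁅M, M⁆ := Subgroup.commutator_mem_commutator hm (hMM hg)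
        have := mul_mem h1 hg
        rwa [commutatorElement_def, inv_mul_cancel_right] at this
      refine Subgroup.mem_normalizer_iff.2 fun g => ⟨key m hm g, fun hg => ?_⟩
      have := key m⁻¹ (inv_mem hm) _ hg
      simpa [mul_assoc] using this
    set N := U.subgroupOf M
    have hN : N.Normal := ⟨fun x hx m => by
      have hx' : (x : G) ∈ U := hx
      refine hchar _ ?_ ?_
      · exact (Subgroup.mem_normalizer_iff.1 (hM'n m.2) _).1 (hP.U_compl.2.1 hx')
      · show ((m : G) * x * (m : G)⁻¹) ^ Nat.card U = 1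
        rw [conj_pow, show (x : G) ^ Nat.card U = 1 from
          orderOf_dvd_iff_pow_eq_one.1 (Subgroup.orderOf_dvd_natCard _ hx'), mul_one, mul_inv_cancel]⟩
    have := hP.U_nilpotent
    have hNn : Group.IsNilpotent N :=
      nilpotent_of_mulEquiv (Subgroup.subgroupOfEquivOfLe hUM).symm
    have hNc : Nat.card N = Nat.card U := Nat.card_congr (Subgroup.subgroupOfEquivOfLe hUM).toEquiv
    have h2 := CfsgLib.TypeP.card_eq_of_isComplIn hP.W₁_compl
    have hidx : N.index = Nat.card H * Nat.card W₁ := by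
      have h := Subgroup.card_mul_index N
      rw [hNc, h2, hcH] at h
      refine Nat.eq_of_mul_eq_mul_left (Nat.card_pos (α := U)) (h.trans ?_)
      ring
    have hHall : (Nat.card U).Coprime (Nat.card W₁) := by
      have h := hP.W₁_hall
      rw [(CfsgLib.TypeP.relIndex_eq_of_isComplIn hP.W₁_compl).2, hcH] at h
      exact (Nat.Coprime.coprime_mul_left_right h).symm
    have hle : U ≤ H := by
      intro u hu
      have h1 : N ≤ Cfsg.fittingHall M :=
        le_sSup ⟨hN, hNn, by rw [hNc, hidx]; exact Nat.Coprime.mul_right hcUH hHall⟩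
      exact ⟨⟨u, hUM hu⟩, h1 hu, rfl⟩
    apply hU
    have := hP.U_compl.2.2.1
    rwa [inf_eq_right.2 hle] at this

end Cfsg.Agent.S1388
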