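import Cfsg.Statements.S1481
import Cfsg.Agent.BenderUnique.Invariant

set_option autoImplicit false
open Cfsg

namespace Cfsg.Agent.S1481

/-- Let G be a finite group and H a local subgroup (the normalizer of a nontrivial subgroup of prime-power order) not properly contained in any local subgroup; let F = F(H), suppose at least two primes divide #F, put X = H ∩ C_G(F), let M ≤ F with F ∩ C_G(M) ≤ M, and let R be a solvable subgroup normalized by M and by X. Then for every prime q not dividing #F there is exactly one maximal M-invariant q-subgroup of R, and it is a Sylow q-subgroup of the largest normal subgroup of R of order coprime to #F. -/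
theorem result {G : Type*} [Group G] [Finite G] (H : Subgroup G) (hH : Cfsg.IsLocalSubgroup H) (hHmax : ∀ L : Subgroup G, Cfsg.IsLocalSubgroup L → H ≤ L → L = H)
    (hF2 : 2 ≤ (Nat.card (Cfsg.fittingOf H)).primeFactors.card)
    (M : Subgroup G) (hM : M ≤ Cfsg.fittingOf H) (hCM : Cfsg.fittingOf H ⊓ Subgroup.centralizer (M : Set G) ≤ M)
    (R : Subgroup G) (hR : Group.IsSolvable R) (hMR : M ≤ Subgroup.normalizer (R : Set G))
    (hXR : H ⊓ Subgroup.centralizer (Cfsg.fittingOf H : Set G) ≤ Subgroup.normalizer (R : Set G))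
    (q : ℕ) [Fact q.Prime] (hq : ¬ q ∣ Nat.card (Cfsg.fittingOf H)) :
    ∃! Q : Subgroup G, Q ∈ Cfsg.maxInvSubgroups R M {q} ∧
      (∀ Q' : Subgroup G, Q' ∈ Cfsg.maxInvSubgroups R M {q} →
        Q' ≤ Cfsg.piCoreOf (Cfsg.primesNotDvd (Nat.card (Cfsg.fittingOf H))) R ∧
        ¬ q ∣ Q'.relIndex (Cfsg.piCoreOf (Cfsg.primesNotDvd (Nat.card (Cfsg.fittingOf H))) R)) := by
  classical
  haveI := hR
  set F := Cfsg.fittingOf H with hF
  set n := Nat.card F with hn
  obtain ⟨p₀, hp₀, -⟩ : ∃ p₀ ∈ n.primeFactors, p₀ ≠ 0 := Finset.exists_mem_ne (by omega) 0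
  obtain ⟨hp₀, hp₀n, -⟩ := Nat.mem_primeFactors.1 hp₀
  have hne : F ≠ ⊥ := fun h => hp₀.not_dvd_one (by rw [hn, h, Subgroup.card_bot] at hp₀n; exact hp₀n)
  have hC : ∀ p : ℕ, p.Prime → p ∣ n → Subgroup.centralizer (CfsgLib.BenderUnique.centerPart p H : Set G) ≤ H := by
    intro p hp hpn
    haveI := Fact.mk hp
    have hloc : Cfsg.IsLocalSubgroup (Subgroup.normalizer (CfsgLib.BenderUnique.centerPart p H : Set G)) :=
      ⟨p, _, hp, CfsgLib.BenderUnique.isPGroup_centerPart p H, CfsgLib.BenderUnique.centerPart_ne_bot H hpn, rfl⟩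
    exact (Subgroup.centralizer_le_normalizer _).trans
      (hHmax _ hloc (CfsgLib.BenderUnique.le_normalizer_centerPart p H)).le
  set K := Cfsg.piCoreOf (Cfsg.primesNotDvd n) R with hK
  have hKR : K ≤ R := Subgroup.map_subtype_le _
  have hMK : M ≤ Subgroup.normalizer (K : Set G) := by
    haveI := CfsgLib.BenderUnique.piCore_characteristic (Cfsg.primesNotDvd n) R
    exact hMR.trans (CfsgLib.BenderUnique.normalizer_le_normalizer_map R _)
  have hKpi : ∀ t : ℕ, t.Prime → t ∣ Nat.card K → ¬ t ∣ n := fun t ht htd =>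
    (CfsgLib.Hall.isPiSubgroup_map R.subtype CfsgLib.Hall.isPiSubgroup_piCore t ht htd).2
  have hKcop : (Nat.card K).Coprime n := Nat.coprime_of_dvd fun t ht h1 h2 => hKpi t ht h1 h2
  have hMcop : (Nat.card M).Coprime (Nat.card K) :=
    (hKcop.coprime_dvd_right (Subgroup.card_dvd_of_le hM)).symm
  have hMs : Group.IsSolvable M := by
    haveI := CfsgLib.PrimeAction.fittingOf_nilpotent H
    haveI : Group.IsNilpotent M := Group.nilpotent_of_mulEquiv (Subgroup.subgroupOfEquivOfLe hM)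
    infer_instance
  have hmem : ∀ Q' : Subgroup G, Q' ∈ Cfsg.invSubgroups R M {q} → Q' ≤ K ∧ IsPGroup q Q' := by
    rintro Q' ⟨hQR, hQq, hMQ⟩
    have hQp : IsPGroup q Q' := IsPGroup.of_card (n := (Nat.card Q').primeFactorsList.length)
      (Nat.eq_prime_pow_of_unique_prime_dvd Nat.card_pos.ne' fun {t} ht htd => hQq t ht htd)
    exact ⟨CfsgLib.BenderUnique.le_piCoreOf hC hM hCM hXR hF2 hMR hq hQR hQp hMQ, hQp⟩
  obtain ⟨P, hP⟩ := CfsgLib.CoprimeAction.exists_invariant_sylow hMK hMcop (Or.inl hMs) q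
  set Pg := (P : Subgroup K).map K.subtype with hPg
  have hPmem : Pg ∈ Cfsg.invSubgroups R M {q} := by
    refine ⟨(Subgroup.map_subtype_le _).trans hKR, fun t ht htd => ?_, hP⟩
    obtain ⟨j, hj⟩ := IsPGroup.iff_card.1 (P.isPGroup'.map K.subtype)
    rw [hPg, hj] at htd
    exact (Nat.prime_dvd_prime_iff_eq ht Fact.out).1 (ht.dvd_of_dvd_pow htd)
  have hbig : ∀ Q' : Subgroup G, Q' ∈ Cfsg.invSubgroups R M {q} → Q' ≤ Pg := by
    intro Q' hQ'
    obtain ⟨hQK, hQp⟩ := hmem Q' hQ'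
    obtain ⟨P', hle, hP'⟩ :=
      CfsgLib.CoprimeAction.exists_invariant_sylow_ge hMK hMcop (Or.inl hMs) hQK hQp hQ'.2.2
    obtain ⟨c, hc, hcP⟩ := CfsgLib.CoprimeAction.invariant_sylow_conj hMK hMcop (Or.inl hMs) P P' hP hP'
    have hc1 : (c : G) = 1 := CfsgLib.BenderUnique.eq_one_of_centralizes hC hM hCM hXR hne (hKR c.2) hc
      (hKcop.coprime_dvd_left (Subgroup.orderOf_dvd_natCard _ c.2))
    rw [show c = 1 from Subtype.ext hc1, one_smul] at hcP
    rw [hPg, hcP]
    exact hle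
  have hmax : Pg ∈ Cfsg.maxInvSubgroups R M {q} := ⟨hPmem, fun S hS hPS => le_antisymm (hbig S hS) hPS⟩
  have huniq : ∀ Q' : Subgroup G, Q' ∈ Cfsg.maxInvSubgroups R M {q} → Q' = Pg :=
    fun Q' hQ' => (hQ'.2 _ hPmem (hbig Q' hQ'.1)).symm
  refine ⟨Pg, ⟨hmax, fun Q' hQ' => ?_⟩, fun Q' hQ' => huniq Q' hQ'.1⟩
  rw [huniq Q' hQ']
  refine ⟨Subgroup.map_subtype_le _, ?_⟩
  have : Pg.relIndex K = (P : Subgroup K).index := by
    rw [Subgroup.relIndex, hPg, Subgroup.subgroupOf, Subgroup.comap_map_eq_self_of_injective K.subtype_injective]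
  rw [this]
  exact P.not_dvd_index


end Cfsg.Agent.S1481
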