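import Cfsg.Statements.S1441
import Mathlib.Tactic

set_option autoImplicit false
open Cfsg
open scoped commutatorElement

namespace Cfsg.Agent.S1441

/-- If `a` moves `x` by a left factor it fixes, and a power of `a` coprime to the order of that
factor fixes `x`, then `a` commutes with `x`. -/
lemma coprime_fix {G : Type*} [Group G] {a x z : G} (hconj : a * x * a⁻¹ = z * x)
    (haz : Commute a z) {N : ℕ} (haN : a ^ N = 1) {M : ℕ} (hzM : z ^ M = 1)
    (hcop : N.Coprime M) : a * x = x * a := by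
  have hpow : ∀ k : ℕ, a ^ k * x * (a ^ k)⁻¹ = z ^ k * x := by
    intro k
    induction k with
    | zero => simp
    | succ k ihk =>
      have h2 : a * z ^ k = z ^ k * a := haz.pow_right k
      calc a ^ (k + 1) * x * (a ^ (k + 1))⁻¹ = a * (a ^ k * x * (a ^ k)⁻¹) * a⁻¹ := by
            rw [pow_succ' a k]; group
        _ = a * (z ^ k * x) * a⁻¹ := by rw [ihk]
        _ = (a * z ^ k) * x * a⁻¹ := by group
        _ = z ^ k * (a * x * a⁻¹) := by rw [h2]; group
        _ = z ^ (k + 1) * x := by rw [hconj, pow_succ, mul_assoc]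
  have h1 := hpow N
  rw [haN] at h1
  have hzN : z ^ N = 1 := by simpa using h1.symm
  have hz : z = 1 := orderOf_eq_one_iff.1 (Nat.dvd_one.1
    (hcop ▸ Nat.dvd_gcd (orderOf_dvd_of_pow_eq_one hzN) (orderOf_dvd_of_pow_eq_one hzM)))
  rw [hz, one_mul] at hconj
  exact mul_inv_eq_iff_eq_mul.1 hconj

lemma pow_natCard_eq_one_of_mem {G : Type*} [Group G] {H : Subgroup G} {x : G} (hx : x ∈ H) :
    x ^ Nat.card H = 1 :=
  orderOf_dvd_iff_pow_eq_one.1 (Subgroup.orderOf_dvd_natCard _ hx)

/-- Let G be a finite group, H a solvable subgroup and A a subgroup normalizing H. Suppose there is a chain H = H₀ ≥ H₁ ≥ ⋯ ≥ H_n = 1 of subgroups normal in H and normalized by A such that A acts trivially on each factor H_{i-1}/H_i (that is, [H_{i-1}, A] ≤ H_i). Then every prime dividing the index of C_A(H) in A divides the order of H. -/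
theorem result {G : Type*} [Group G] [Finite G] (H A : Subgroup G) (hH : Group.IsSolvable H) (hA : (A ≤ Subgroup.normalizer (H : Set G)))
    (n : ℕ) (c : Fin (n + 1) → Subgroup G) (hc0 : c 0 = H) (hcn : c (Fin.last n) = ⊥) (hanti : Antitone c)
    (hcN : ∀ i, H ≤ Subgroup.normalizer ((c i : Subgroup G) : Set G)) (hcA : ∀ i, A ≤ Subgroup.normalizer ((c i : Subgroup G) : Set G))
    (htriv : ∀ i : Fin n, ⁅c i.castSucc, A⁆ ≤ c i.succ) :
    ∀ p : ℕ, p.Prime → p ∣ (A ⊓ Subgroup.centralizer (H : Set G)).relIndex A → p ∣ Nat.card H := by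
  intro p hp hdvd
  have : Fact p.Prime := ⟨hp⟩
  by_contra hpH
  have key : ∀ a ∈ A, (∃ m : ℕ, a ^ p ^ m = 1) → ∀ i : Fin (n + 1), ∀ x ∈ c i, a * x = x * a := by
    intro a haA ⟨m, ham⟩ i
    induction i using Fin.reverseInduction with
    | last => intro x hx; rw [hcn, Subgroup.mem_bot] at hx; simp [hx]
    | cast i ih =>
      intro x hx
      have hy : ⁅x, a⁆ ∈ c i.succ := htriv i (Subgroup.commutator_mem_commutator hx haA)
      have hyH : ⁅x, a⁆⁻¹ ∈ H := by
        rw [← hc0]; exact hanti (Fin.zero_le _) (inv_mem hy)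
      refine coprime_fix (z := ⁅x, a⁆⁻¹) ?_ (ih _ (inv_mem hy)) ham
        (pow_natCard_eq_one_of_mem hyH) ((hp.coprime_iff_not_dvd.2 hpH).pow_left m)
      rw [commutatorElement_def]; group
  obtain ⟨P⟩ : Nonempty (Sylow p A) := inferInstance
  have hle : (P : Subgroup A) ≤ (A ⊓ Subgroup.centralizer (H : Set G)).subgroupOf A := by
    intro a ha
    obtain ⟨m, hm⟩ := P.2 ⟨a, ha⟩
    refine ⟨a.2, Subgroup.mem_centralizer_iff.2 fun x hx => ?_⟩
    exact (key a a.2 ⟨m, by simpa [Subtype.ext_iff] using hm⟩ 0 x (by rw [hc0]; exact hx)).symm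
  have hd : ((A ⊓ Subgroup.centralizer (H : Set G)).subgroupOf A).index ∣ (P : Subgroup A).index :=
    Subgroup.index_dvd_of_le hle
  exact P.not_dvd_index (hdvd.trans hd)

end Cfsg.Agent.S1441
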