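import Cfsg.Statements.S1442
import Mathlib.Tactic

set_option autoImplicit false
open Cfsg
open scoped commutatorElement

namespace Cfsg.Agent.S1442

/-- If `a` moves `x` by a left factor it fixes, and a power of `a` coprime to the order of that
factor fixes `x`, then `a` commutes with `x`. -/
lemma coprime_fix {G : Type*} [Group G] {a x z : G} (hconj : a * x * a⁻¹ = z * x)
    (haz : Commute a z) {N : ℕ} (haN : a ^ N = 1) {M : ℕ} (hzM : z ^ M = 1)
    (hcop : N.Coprime M) : a * x = x * a := by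
  have hpow : ∀ k : ℕ, a ^ k * x * (a ^ k)⁻¹ = z ^ k * x := by
    intro k
    induction k with
    | zero => simp
    | succ k ihk =>
      have h2 : a * z ^ k = z ^ k * a := haz.pow_right k
      calc a ^ (k + 1) * x * (a ^ (k + 1))⁻¹ = a * (a ^ k * x * (a ^ k)⁻¹) * a⁻¹ := by
            rw [pow_succ' a k]; group
        _ = a * (z ^ k * x) * a⁻¹ := by rw [ihk]
        _ = (a * z ^ k) * x * a⁻¹ := by group
        _ = z ^ k * (a * x * a⁻¹) := by rw [h2]; group
        _ = z ^ (k + 1) * x := by rw [hconj, pow_succ, mul_assoc]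
  have h1 := hpow N
  rw [haN] at h1
  have hzN : z ^ N = 1 := by simpa using h1.symm
  have hz : z = 1 := orderOf_eq_one_iff.1 (Nat.dvd_one.1
    (hcop ▸ Nat.dvd_gcd (orderOf_dvd_of_pow_eq_one hzN) (orderOf_dvd_of_pow_eq_one hzM)))
  rw [hz, one_mul] at hconj
  exact mul_inv_eq_iff_eq_mul.1 hconj

lemma pow_natCard_eq_one_of_mem {G : Type*} [Group G] {H : Subgroup G} {x : G} (hx : x ∈ H) :
    x ^ Nat.card H = 1 :=
  orderOf_dvd_iff_pow_eq_one.1 (Subgroup.orderOf_dvd_natCard _ hx)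

/-- Let G be a finite group, H a nilpotent subgroup and A a subgroup normalizing H with the orders of A and H coprime. Put C = H ∩ C_G(A). If H ∩ C_G(C) ≤ C then A centralizes H. -/
theorem result {G : Type*} [Group G] [Finite G] (H A : Subgroup G) (hH : Group.IsNilpotent H) (hA : (A ≤ Subgroup.normalizer (H : Set G))) (hcop : (Nat.card A).Coprime (Nat.card H))
    (hC : H ⊓ Subgroup.centralizer (((H ⊓ Subgroup.centralizer (A : Set G)) : Subgroup G) : Set G) ≤ (H ⊓ Subgroup.centralizer (A : Set G))) :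
    A ≤ Subgroup.centralizer (H : Set G) := by
  set C := H ⊓ Subgroup.centralizer (A : Set G) with hCdef
  have hCH : C ≤ H := inf_le_left
  suffices hEq : C.subgroupOf H = ⊤ by
    intro a ha
    refine Subgroup.mem_centralizer_iff.2 fun h hh => ?_
    have : (⟨h, hh⟩ : H) ∈ C.subgroupOf H := by rw [hEq]; trivial
    exact ((Subgroup.mem_centralizer_iff.1 this.2) a ha).symm
  by_contra hne
  have := hH
  have hlt : C.subgroupOf H < ⊤ := lt_top_iff_ne_top.2 hne
  obtain ⟨x, hx, hxC⟩ := SetLike.exists_of_lt (Group.normalizerCondition_of_isNilpotent _ hlt)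
  apply hxC
  refine ⟨x.2, Subgroup.mem_centralizer_iff.2 fun a ha => ?_⟩
  have hCx : ∀ c ∈ C, (x : G)⁻¹ * c * x ∈ C := by
    intro c hc
    exact ((Subgroup.mem_normalizer_iff''.1 hx) ⟨c, hCH hc⟩).1 hc
  set y : G := ⁅(x : G), a⁆ with hy
  have hyC : ∀ c ∈ C, c * y = y * c := by
    intro c hc
    have h1 : a * ((x : G)⁻¹ * c * x) = ((x : G)⁻¹ * c * x) * a :=
      (Subgroup.mem_centralizer_iff.1 (hCx c hc).2 a ha)
    have h2 : a⁻¹ * c = c * a⁻¹ :=
      (Subgroup.mem_centralizer_iff.1 hc.2 a⁻¹ (A.inv_mem ha))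
    rw [hy, commutatorElement_def]
    calc c * ((x : G) * a * (x : G)⁻¹ * a⁻¹) = (x : G) * (((x : G)⁻¹ * c * x) * a) * (x : G)⁻¹ * a⁻¹ := by group
      _ = (x : G) * (a * ((x : G)⁻¹ * c * x)) * (x : G)⁻¹ * a⁻¹ := by rw [h1]
      _ = (x : G) * a * (x : G)⁻¹ * (c * a⁻¹) := by group
      _ = (x : G) * a * (x : G)⁻¹ * (a⁻¹ * c) := by rw [h2]
      _ = (x : G) * a * (x : G)⁻¹ * a⁻¹ * c := by group
  have hyH : y ∈ H := by
    have h : a * (x : G)⁻¹ * a⁻¹ ∈ H :=
      ((Subgroup.mem_normalizer_iff.1 (hA ha)) _).1 (H.inv_mem x.2)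
    have := H.mul_mem x.2 h
    simpa [hy, commutatorElement_def, mul_assoc] using this
  have hyc : y ∈ C := hC ⟨hyH, Subgroup.mem_centralizer_iff.2 hyC⟩
  have hay : Commute a y⁻¹ := (Subgroup.mem_centralizer_iff.1 (C.inv_mem hyc).2 a ha)
  exact coprime_fix (z := y⁻¹) (by simp only [Subgroup.subtype_apply, hy, commutatorElement_def]; group) hay
    (pow_natCard_eq_one_of_mem ha) (pow_natCard_eq_one_of_mem (H.inv_mem hyH)) hcop

end Cfsg.Agent.S1442
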