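import Cfsg.Statements.S1445
import Cfsg.Agent.PrimeAction.Fitting

set_option autoImplicit false
open Cfsg

namespace Cfsg.Agent.S1445
open scoped commutatorElement

/-- Let G be a solvable group of odd order, K a normal subgroup and R a subgroup with G = KR and the orders of K and R coprime. Suppose K ∩ C_G(x) = K ∩ C_G(R) for every non-identity x ∈ R, and F(K) ∩ C_G(R) = 1. Then [K, R] is contained in the Fitting subgroup of K. -/
theorem result {G : Type*} [Group G] [Finite G] [Group.IsSolvable G] (hodd : Odd (Nat.card G)) (K R : Subgroup G) [K.Normal] (hKR : K ⊔ R = ⊤) (hcop : (Nat.card K).Coprime (Nat.card R))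
    (hprime : ∀ x ∈ R, x ≠ 1 → K ⊓ Subgroup.centralizer ({x} : Set G) = (K ⊓ Subgroup.centralizer (R : Set G)))
    (hF : Cfsg.fittingOf K ⊓ Subgroup.centralizer (R : Set G) = ⊥) :
    ⁅K, R⁆ ≤ Cfsg.fittingOf K := by
  rcases eq_or_ne R ⊥ with rfl | hRne
  · simp
  obtain ⟨r, hr, hrd⟩ := Nat.exists_prime_and_dvd (fun h => hRne (Subgroup.card_eq_one.1 h))
  haveI := Fact.mk hr
  obtain ⟨x, hx⟩ := exists_prime_orderOf_dvd_card' (G := R) r hrd
  have hx1 : (x : G) ≠ 1 := fun h => hr.ne_one (by rw [← hx, ← Subgroup.orderOf_coe, h, orderOf_one])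
  set R₀ := Subgroup.zpowers (x : G) with hR₀
  have hcard : Nat.card R₀ = r := by rw [hR₀, Nat.card_zpowers, Subgroup.orderOf_coe, hx]
  have hC : K ⊓ Subgroup.centralizer (R₀ : Set G) = K ⊓ Subgroup.centralizer (R : Set G) := by
    rw [hR₀, Subgroup.zpowers_eq_closure, Subgroup.centralizer_closure]
    exact hprime x x.2 hx1
  have hFK : Cfsg.fittingOf K ≤ K := Subgroup.map_subtype_le _
  have hF0 : Cfsg.fittingOf K ⊓ Subgroup.centralizer (R₀ : Set G) = ⊥ := by
    rw [← inf_eq_left.2 hFK, inf_assoc, hC, ← inf_assoc, inf_eq_left.2 hFK]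
    exact hF
  have hco : (Nat.card K).Coprime r := hcop.coprime_dvd_right hrd
  have h0 := CfsgLib.PrimeAction.commutator_le_fittingOf hodd K R₀ hr hcard hco hF0
  haveI := CfsgLib.PrimeAction.fittingOf_normal K
  rw [Subgroup.commutator_le]
  intro k hk y hy
  obtain ⟨n, hn, c, hc, rfl⟩ := CfsgLib.CoprimeAction.exists_commutator_mul_centralizer
    (A := R₀) (by rw [Subgroup.normalizer_eq_top]; exact le_top) (hcard ▸ hco.symm)
    (Or.inr inferInstance) hk
  rw [hC] at hc
  have hcy : ⁅c, y⁆ = 1 := commutatorElement_eq_one_iff_mul_comm.2 (Subgroup.mem_centralizer_iff.1 hc.2 y hy).symm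
  rw [show ⁅n * c, y⁆ = n * ⁅c, y⁆ * n⁻¹ * ⁅n, y⁆ by
    rw [commutatorElement_def, commutatorElement_def, commutatorElement_def]; group, hcy, mul_one,
    mul_inv_cancel, one_mul]
  exact Subgroup.commutator_le_left (Cfsg.fittingOf K) R (Subgroup.commutator_mem_commutator (h0 hn) hy)


end Cfsg.Agent.S1445
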