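import Cfsg.Statements.S1447
import Cfsg.Agent.CoprimeMeta.Action

set_option autoImplicit false
open Cfsg

namespace Cfsg.Agent.S1447
open scoped commutatorElement

/-- Let G be a finite group, p an odd prime, R a metacyclic p-subgroup and A a subgroup of order coprime to p normalizing R. Then [R, A] is abelian; R is generated by [R, A] and R ∩ C_G(A), which meet trivially; and if R is non-abelian and A does not centralize R, then [R, A] and R ∩ C_G(A) are nontrivial cyclic groups and [R, R] ≤ [R, A]. -/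
theorem result {G : Type*} [Group G] [Finite G] (p : ℕ) [Fact p.Prime] (hp : p ≠ 2) (R A : Subgroup G) (hR : IsPGroup p R) (hRm : Cfsg.IsMetacyclic R)
    (hA : (A ≤ Subgroup.normalizer (R : Set G))) (hcop : (Nat.card A).Coprime p) :
    IsMulCommutative ↥⁅R, A⁆ ∧ ⁅R, A⁆ ⊔ (R ⊓ Subgroup.centralizer (A : Set G)) = R ∧ ⁅R, A⁆ ⊓ (R ⊓ Subgroup.centralizer (A : Set G)) = ⊥ ∧
      (¬ IsMulCommutative R → ¬ A ≤ Subgroup.centralizer (R : Set G) →
        ⁅R, A⁆ ≠ ⊥ ∧ IsCyclic ↥⁅R, A⁆ ∧ (R ⊓ Subgroup.centralizer (A : Set G)) ≠ ⊥ ∧ IsCyclic ↥(R ⊓ Subgroup.centralizer (A : Set G)) ∧ ⁅R, R⁆ ≤ ⁅R, A⁆) := by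
  classical
  obtain ⟨hS, hsup, hinf⟩ := CfsgLib.CoprimeMeta.coprime_structure hp hR hRm hA hcop
  refine ⟨hS, hsup, hinf, fun hnab hnc => ?_⟩
  set S := ⁅R, A⁆ with hSdef
  set C := R ⊓ Subgroup.centralizer (A : Set G) with hC
  have hSR : S ≤ R := CfsgLib.CoprimeAction.commutator_le_of_normalizer hA
  have hSne : S ≠ ⊥ := fun h => hnc (Subgroup.le_centralizer_iff.1 (Subgroup.commutator_eq_bot_iff_le_centralizer.1 h))
  have hCne : C ≠ ⊥ := fun h => hnab (by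
    rw [h, sup_bot_eq] at hsup
    rwa [hsup] at hS)
  have hRnc : ¬ IsCyclic R := fun h => hnab (by
    letI : CommGroup R := IsCyclic.commGroup
    exact ⟨⟨mul_comm⟩⟩)
  obtain ⟨hΩ, hΩc⟩ := CfsgLib.PLocalBasics.metacyclic_omega hp hR hRm hRnc
  set Ω := Cfsg.omegaOne p (⊤ : Subgroup R)
  have hbig : ∀ T : Subgroup G, T ≤ R → T ≠ ⊥ → ∃ x ∈ T.subgroupOf R ⊓ Ω, x ≠ 1 := by
    intro T hTR hT
    obtain ⟨m, hm⟩ := (hR.to_le hTR).exists_card_eq
    have hm0 : m ≠ 0 := fun h => hT (Subgroup.card_eq_one.1 (by rw [hm, h, pow_zero]))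
    obtain ⟨⟨x, hx⟩, hxo⟩ := exists_prime_orderOf_dvd_card' (G := T) p (hm ▸ dvd_pow_self p hm0)
    rw [Subgroup.orderOf_mk] at hxo
    refine ⟨⟨x, hTR hx⟩, ⟨hx, Subgroup.subset_closure ⟨Subgroup.mem_top _, Subtype.ext ?_⟩⟩, fun h => ?_⟩
    · rw [Subgroup.coe_pow, Subgroup.coe_one, ← hxo, pow_orderOf_eq_one]
    · rw [show x = 1 from congrArg Subtype.val h, orderOf_one] at hxo
      exact (Fact.out : p.Prime).one_lt.ne hxo
  have hcyc : ∀ T U : Subgroup G, T ≤ R → U ≤ R → U ≠ ⊥ → T ⊓ U = ⊥ → IsCyclic T := by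
    intro T U hTR hUR hU hdis
    refine CfsgLib.RankOneP.isCyclic_of_odd hp (hR.to_le hTR)
      (CfsgLib.RankOneP.unique_of_rank_le_one (hR.to_le hTR) fun B hB hBe => ?_)
    obtain ⟨y, hy, hy1⟩ := hbig U hUR hU
    set B' : Subgroup R := B.map (Subgroup.inclusion hTR) with hB'
    have hB'c : Nat.card B' = Nat.card B := Subgroup.card_map_of_injective (Subgroup.inclusion_injective hTR)
    have hle : B' ≤ Ω := by
      rintro _ ⟨b, hb, rfl⟩
      exact Subgroup.subset_closure ⟨Subgroup.mem_top _, by rw [← map_pow, hBe b hb, map_one]⟩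
    have hlt : B' < Ω := by
      refine lt_of_le_of_ne hle fun h => hy1 ?_
      have hyB : y ∈ B' := h ▸ hy.2
      obtain ⟨b, -, hby⟩ := hyB
      have h' : (y : G) ∈ T ⊓ U := ⟨by rw [← hby]; exact b.2, hy.1⟩
      rw [hdis, Subgroup.mem_bot] at h'
      exact Subtype.ext h'
    obtain ⟨m, hm⟩ := (hR.to_subgroup B').exists_card_eq
    have h3 := CfsgLib.NormalEl.pow_succ_le_card hR hlt hm
    rw [hΩc, Nat.pow_le_pow_iff_right (Fact.out : p.Prime).one_lt] at h3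
    rw [← hB'c, hm]
    exact (Nat.pow_le_pow_right (Fact.out : p.Prime).pos (show m ≤ 1 by omega)).trans_eq (pow_one p)
  have hCcyc : IsCyclic C := hcyc C S inf_le_left hSR hSne (by rw [inf_comm]; exact hinf)
  refine ⟨hSne, hcyc S C hSR inf_le_left hCne hinf, hCne, hCcyc, ?_⟩
  rw [Subgroup.commutator_le]
  intro x hx y hy
  have hCn : C ≤ Subgroup.normalizer (S : Set G) := inf_le_left.trans CfsgLib.CoprimeAction.self_le_normalizer_commutator
  rw [← hsup] at hx hy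
  have hx' : x ∈ ((S ⊔ C : Subgroup G) : Set G) := hx
  have hy' : y ∈ ((S ⊔ C : Subgroup G) : Set G) := hy
  rw [Subgroup.coe_mul_of_right_le_normalizer_left S C hCn] at hx' hy'
  obtain ⟨s, hs, c, hc, rfl⟩ := hx'
  obtain ⟨s', hs', c', hc', rfl⟩ := hy'
  letI : CommGroup C := IsCyclic.commGroup
  have hcc : c * c' = c' * c := congrArg Subtype.val (mul_comm (⟨c, hc⟩ : C) ⟨c', hc'⟩)
  have e : ⁅s * c, s' * c'⁆ = s * (c * s' * c⁻¹) * (c' * s⁻¹ * c'⁻¹) * s'⁻¹ := by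
    calc ⁅s * c, s' * c'⁆ = s * (c * s' * c⁻¹) * ((c * c') * c⁻¹) * s⁻¹ * c'⁻¹ * s'⁻¹ := by
          rw [commutatorElement_def]; group
      _ = _ := by rw [hcc]; group
  rw [e]
  exact S.mul_mem (S.mul_mem (S.mul_mem hs ((Subgroup.mem_normalizer_iff.1 (hCn hc) s').1 hs'))
    ((Subgroup.mem_normalizer_iff.1 (hCn hc') s⁻¹).1 (S.inv_mem hs))) (S.inv_mem hs')


end Cfsg.Agent.S1447
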