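import Cfsg.Statements.S1448
import Cfsg.Agent.CoprimeMeta.RankTwo
import Cfsg.Agent.S0640

set_option autoImplicit false
open Cfsg

namespace Cfsg.Agent.S1448

/-- Let G be a finite group, p an odd prime, R a nontrivial p-subgroup with no elementary abelian subgroup of order p ^ 3, and A a subgroup of odd order coprime to p normalizing R with [R, A] = R. Then 3 < p, and either R is abelian or R is generated by two elementwise-commuting subgroups R₁, R₂ with R₁ non-abelian of order p ^ 3 and exponent p, R₂ cyclic, and the elements of R₂ of order dividing p generating exactly [R₁, R₁]. -/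
theorem result {G : Type*} [Group G] [Finite G] (p : ℕ) [Fact p.Prime] (hp : p ≠ 2) (R A : Subgroup G) (hR : IsPGroup p R) (hR1 : R ≠ ⊥) (hr : Cfsg.PRankLE p 2 R)
    (hA : (A ≤ Subgroup.normalizer (R : Set G))) (hcop : (Nat.card A).Coprime p) (hAodd : Odd (Nat.card A)) (hRA : ⁅R, A⁆ = R) :
    3 < p ∧ (IsMulCommutative R ∨ ∃ R₁ R₂ : Subgroup G, R₁ ⊔ R₂ = R ∧ (∀ a ∈ R₁, ∀ b ∈ R₂, a * b = b * a) ∧
        ¬ IsMulCommutative R₁ ∧ Nat.card R₁ = p ^ 3 ∧ Monoid.exponent R₁ = p ∧ IsCyclic R₂ ∧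
        Subgroup.closure {x : G | x ∈ R₂ ∧ x ^ p = 1} = ⁅R₁, R₁⁆) := by
  have hpp : p.Prime := Fact.out
  have hrk' : Cfsg.PRankLE p 2 R := hr
  have hgen := CfsgLib.CoprimeMeta.generates_of_commutator hA hRA
  set φ := CfsgLib.CoprimeMeta.actHom hA with hφ
  have hp3 : 3 < p := by
    by_contra hle
    refine hR1 ?_
    rw [← hRA, Subgroup.commutator_eq_bot_iff_le_centralizer]
    intro r hr'
    refine Subgroup.mem_centralizer_iff.2 fun a ha => ?_
    have hone : φ ⟨a, ha⟩ = 1 := by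
      by_contra hne
      obtain ⟨q, hq, hqd⟩ := Nat.exists_prime_and_dvd (fun h => hne (orderOf_eq_one_iff.1 h))
      have hqA : q ∣ Nat.card A :=
        hqd.trans ((orderOf_map_dvd φ _).trans (orderOf_dvd_natCard _))
      have hqp : q ≠ p := by
        rintro rfl
        exact hq.ne_one (Nat.eq_one_of_dvd_coprimes hcop hqA dvd_rfl)
      have := (Cfsg.Agent.S0640.result hp hR hrk' q hq hqp (hqd.trans (orderOf_dvd_natCard _))).2
      have hq2 : q ≠ 2 := by
        rintro rfl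
        exact (Nat.not_even_iff_odd.2 hAodd) (even_iff_two_dvd.2 hqA)
      have := hq.two_le
      omega
    have h := congrArg (fun e : MulAut R => ((e ⟨r, hr'⟩ : R) : G)) hone
    simp only [hφ, CfsgLib.CoprimeMeta.actHom_coe, MulAut.one_apply] at h
    calc a * r = a * r * a⁻¹ * a := by group
      _ = r * a := by rw [h]
  refine ⟨hp3, ?_⟩
  rcases CfsgLib.CoprimeMeta.rank_two_structure hp3 hR (fun E hE => hrk' E hE.1 hE.2) φ hgen hcop hAodd with
    h | ⟨Ω, C, hsup, hcom, hnc, hcard, hexp, hcyc, hder, hcp, hmem⟩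
  · exact Or.inl h
  right
  have hi := R.subtype_injective
  have eΩ := Ω.equivMapOfInjective R.subtype hi
  have eC := C.equivMapOfInjective R.subtype hi
  haveI : Fact (1 < Nat.card Ω) := ⟨by rw [hcard]; exact Nat.one_lt_pow (by omega) hpp.one_lt⟩
  refine ⟨Ω.map R.subtype, C.map R.subtype, ?_, ?_, ?_, ?_, ?_, ?_, ?_⟩
  · rw [← Subgroup.map_sup, hsup, ← MonoidHom.range_eq_map, Subgroup.range_subtype]
  · rintro _ ⟨a, ha, rfl⟩ _ ⟨b, hb, rfl⟩
    rw [← map_mul, hcom a ha b hb, map_mul]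
  · intro h
    exact hnc ⟨⟨fun a b => eΩ.injective (by rw [map_mul, map_mul]; exact h.is_comm.comm _ _)⟩⟩
  · rw [Subgroup.card_map_of_injective hi, hcard]
  · rw [← Monoid.exponent_eq_of_mulEquiv eΩ]
    refine (hpp.eq_one_or_self_of_dvd _ (Monoid.exponent_dvd_of_forall_pow_eq_one fun x : Ω => Subtype.ext (hexp x x.2))).resolve_left ?_
    intro h
    haveI := Monoid.exp_eq_one_iff.1 h
    have : Nat.card Ω = 1 := Nat.card_of_subsingleton 1
    exact absurd this (Fact.out : 1 < Nat.card Ω).ne'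
  · exact isCyclic_of_surjective eC eC.surjective
  · rw [← Subgroup.map_commutator, hder]
    refine le_antisymm ?_ ?_
    · rw [Subgroup.closure_le]
      rintro _ ⟨⟨x, hx, rfl⟩, hxp⟩
      exact ⟨x, ⟨hmem x hx (Subtype.ext hxp), hx⟩, rfl⟩
    · rintro _ ⟨x, ⟨hxΩ, hxC⟩, rfl⟩
      exact Subgroup.subset_closure ⟨⟨x, hxC, rfl⟩, by rw [← map_pow, hexp x hxΩ, map_one]⟩


end Cfsg.Agent.S1448
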