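import Cfsg.Statements.S1449
import Cfsg.Agent.RankTwoAut.Basic

set_option autoImplicit false
open Cfsg

namespace Cfsg.Agent.S1449

/-- Let G be a finite group, p an odd prime, R a p-subgroup with no elementary abelian subgroup of order p ^ 3, and A a solvable subgroup of odd order normalizing R with A ∩ C_G(R) = 1. Then the derived subgroup [A, A] is a p-group. -/
theorem result {G : Type*} [Group G] [Finite G] (p : ℕ) [Fact p.Prime] (hp : p ≠ 2) (R A : Subgroup G) (hR : IsPGroup p R) (hr : Cfsg.PRankLE p 2 R)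
    (hA : (A ≤ Subgroup.normalizer (R : Set G))) (hAs : Group.IsSolvable A) (hAodd : Odd (Nat.card A)) (hfaith : A ⊓ Subgroup.centralizer (R : Set G) = ⊥) :
    IsPGroup p ↥⁅A, A⁆ := by
  classical
  let ι : ↥A →* ↥(Subgroup.normalizer (R : Set G)) := Subgroup.inclusion hA
  let f : ↥A →* MulAut ↥R := R.normalizerMonoidHom.comp ι
  have hinj : Function.Injective f := by
    rw [← MonoidHom.ker_eq_bot_iff, Subgroup.eq_bot_iff_forall]
    intro a ha
    have h1 : (a : G) ∈ A ⊓ Subgroup.centralizer (R : Set G) := by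
      refine ⟨a.2, Subgroup.mem_centralizer_iff.2 fun r hr => ?_⟩
      have h := congrArg Subtype.val (DFunLike.congr_fun (MonoidHom.mem_ker.1 ha) ⟨r, hr⟩)
      have h' : (a : G) * r * (a : G)⁻¹ = r := h
      rw [mul_inv_eq_iff_eq_mul] at h'
      exact h'.symm
    rw [hfaith, Subgroup.mem_bot] at h1
    exact Subtype.ext h1
  rintro ⟨x, hx⟩
  rw [← Subgroup.map_subtype_commutator] at hx
  obtain ⟨m, hm, rfl⟩ := hx
  obtain ⟨n, hn⟩ := CfsgLib.RankTwoAut.exists_pow_eq_one hp hR
    (fun B hB hBe => hr B hB hBe) hAodd f hm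
  refine ⟨n, Subtype.ext ?_⟩
  rw [← map_pow] at hn
  have h := hinj (hn.trans (map_one f).symm)
  simpa using congrArg Subtype.val h


end Cfsg.Agent.S1449
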