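import Cfsg.Statements.S1451
import Cfsg.Agent.OddFitting.Basic
import Cfsg.Agent.S0640

set_option autoImplicit false
open Cfsg

namespace Cfsg.Agent.S1451
open scoped commutatorElement

/-- Let G be a solvable group of odd order such that G, or its Fitting subgroup, has no elementary abelian subgroup of order q ^ 3 for any prime q. Then G' is nilpotent; for every Sylow subgroup S of G, every characteristic subgroup T of S with T ≤ [S, S] is normal in G; and for every prime p, G has a characteristic subgroup that is a Hall subgroup for the set of primes greater than p. -/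
theorem result {G : Type*} [Group G] [Finite G] [Group.IsSolvable G] (hodd : Odd (Nat.card G)) (hr : Cfsg.RankLE 2 G ∨ Cfsg.RankLE 2 (Cfsg.fittingSubgroup G)) :
    Group.IsNilpotent ↥(commutator G) ∧
      (∀ (q : ℕ) [Fact q.Prime] (S : Sylow q G) (T : Subgroup ↥(S : Subgroup G)), T.Characteristic → T.map (S : Subgroup G).subtype ≤ ⁅(S : Subgroup G), (S : Subgroup G)⁆ →
        (T.map (S : Subgroup G).subtype).Normal) ∧
      ∀ p : ℕ, ∃ N : Subgroup G, N.Characteristic ∧ Cfsg.IsPiHall {q | q.Prime ∧ p < q} N := by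
  classical
  set F := Cfsg.fittingSubgroup G with hF
  have hrA : ∀ p : ℕ, p.Prime → ∀ A : Subgroup G, A ≤ F → IsMulCommutative A → (∀ a ∈ A, a ^ p = 1) →
      Nat.card A ≤ p ^ 2 := by
    intro p hp A hAF hA hAe
    rcases hr with h | h
    · exact h p hp A hA hAe
    · haveI := hA
      have h' := h p hp (A.subgroupOf F)
        ⟨⟨fun x y => Subtype.ext (Subtype.ext (setLike_mul_comm (Subgroup.mem_subgroupOf.1 x.2) (Subgroup.mem_subgroupOf.1 y.2)))⟩⟩
        (fun a ha => Subtype.ext (hAe _ (Subgroup.mem_subgroupOf.1 ha)))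
      rwa [Nat.card_congr (Subgroup.subgroupOfEquivOfLe hAF).toEquiv] at h'
  have hGF : commutator G ≤ F := CfsgLib.OddFitting.derived_le_fitting fun p hp hd y hy => by
    haveI := Fact.mk hp
    exact CfsgLib.OddFitting.pow_mem_of_rank hodd hd
      (fun A hA => hrA p hp A (hA.trans (CfsgLib.Components.pCore_le_fittingSubgroup p))) hy
  haveI hFnil : Group.IsNilpotent F := CfsgLib.Components.fittingSubgroup_isNilpotent
  refine ⟨?_, ?_, ?_⟩
  · exact Group.nilpotent_of_mulEquiv (Subgroup.subgroupOfEquivOfLe hGF)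
  · intro q _ S T hT hTle
    set T' := T.map (S : Subgroup G).subtype with hT'
    haveI := hT
    haveI hFn : F.Normal := CfsgLib.Components.fittingSubgroup_normal
    set N2 := CfsgLib.OddFitting.coreJoin G (fun r => r ≠ q) with hN2
    haveI hN2n : N2.Normal := CfsgLib.OddFitting.coreJoin_normal _
    have hTq : T' ≤ CfsgLib.OddFitting.coreJoin G (fun r => r = q) := by
      intro x hx
      obtain ⟨t, ht, rfl⟩ := hx
      obtain ⟨n, hn⟩ := S.isPGroup' t
      refine CfsgLib.OddFitting.mem_left_of_pow (q := q) (n := n) (hGF ?_) rfl (by simpa using congrArg Subtype.val hn)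
      exact (Subgroup.commutator_mono le_top le_top : ⁅(S : Subgroup G), (S : Subgroup G)⁆ ≤ ⁅⊤, ⊤⁆) (hTle ⟨t, ht, rfl⟩)
    -- `F ⊔ S` is normal and equals `N2 ⊔ S`
    have hqS : Cfsg.pCore q G ≤ (S : Subgroup G) := by
      haveI := CfsgLib.Components.pCore_characteristic (G := G) q
      have h := IsPGroup.to_sup_of_normal_right S.isPGroup' (CfsgLib.Components.pCore_isPGroup (G := G) q)
      exact le_sup_right.trans (S.is_maximal' h le_sup_left).le
    have hFS : F ⊔ (S : Subgroup G) = N2 ⊔ (S : Subgroup G) := by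
      refine le_antisymm (sup_le ((CfsgLib.OddFitting.fitting_le_sup (fun r => r ≠ q)).trans (sup_le le_sup_left ?_)) le_sup_right)
        (sup_le_sup_right (CfsgLib.OddFitting.coreJoin_le_fitting _) _)
      exact (iSup_le fun r => by rw [not_not.1 r.2.2]; exact hqS).trans le_sup_right
    haveI hMn : (N2 ⊔ (S : Subgroup G)).Normal := by
      rw [← hFS]
      refine ⟨fun x hx g => ?_⟩
      have h : ⁅g, x⁆ ∈ F := hGF (Subgroup.commutator_mem_commutator (Subgroup.mem_top g) (Subgroup.mem_top x))
      rw [show g * x * g⁻¹ = ⁅g, x⁆ * x by rw [commutatorElement_def]; group]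
      exact Subgroup.mul_mem _ (Subgroup.mem_sup_left h) hx
    have hfr : Subgroup.normalizer ((S : Subgroup G) : Set G) ⊔ (N2 ⊔ (S : Subgroup G)) = ⊤ :=
      Sylow.normalizer_sup_eq_top' S le_sup_right
    rw [← Subgroup.normalizer_eq_top_iff, ← top_le_iff, ← hfr]
    refine sup_le ?_ (sup_le ?_ ?_)
    · intro g hg
      have hmem : ∀ g ∈ Subgroup.normalizer ((S : Subgroup G) : Set G), ∀ x ∈ T', g * x * g⁻¹ ∈ T' := by
        intro g hg x hx
        obtain ⟨t, ht, rfl⟩ := hx
        let φ : MulAut (S : Subgroup G) := Subgroup.normalizerMonoidHom (S : Subgroup G) ⟨g, hg⟩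
        exact ⟨φ t, Subgroup.characteristic_iff_map_le.1 hT φ ⟨t, ht, rfl⟩, rfl⟩
      rw [Subgroup.mem_normalizer_iff]
      intro x
      refine ⟨hmem g hg x, fun h => ?_⟩
      have := hmem g⁻¹ (Subgroup.inv_mem _ hg) _ h
      simpa [mul_assoc] using this
    · intro g hg
      rw [Subgroup.mem_normalizer_iff]
      have hc : ∀ x ∈ T', g * x = x * g := fun x hx =>
        Subgroup.commute_of_normal_of_disjoint _ _ (CfsgLib.OddFitting.coreJoin_normal _)
          (CfsgLib.OddFitting.coreJoin_normal _) (CfsgLib.OddFitting.coreJoin_disjoint (fun r => r ≠ q)) g x hg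
          (show x ∈ CfsgLib.OddFitting.coreJoin G (fun r => ¬ r ≠ q) by
            simp only [not_not]
            exact hTq hx)
      intro x
      constructor
      · intro hx
        rwa [hc x hx, mul_inv_cancel_right]
      · intro hx
        have h := hc _ hx
        rw [inv_mul_cancel_right, mul_left_cancel_iff] at h
        rwa [h] at hx
    · intro g hg
      rw [Subgroup.mem_normalizer_iff]
      have hmem : ∀ g ∈ (S : Subgroup G), ∀ x ∈ T', g * x * g⁻¹ ∈ T' := by
        rintro g hg x ⟨t, ht, rfl⟩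
        haveI : T.Normal := inferInstance
        exact ⟨⟨g, hg⟩ * t * ⟨g, hg⟩⁻¹, Subgroup.Normal.conj_mem inferInstance t ht _, rfl⟩
      intro x
      refine ⟨hmem g hg x, fun h => ?_⟩
      have := hmem g⁻¹ (Subgroup.inv_mem _ hg) _ h
      simpa [mul_assoc] using this
  · intro p
    set π : ℕ → Prop := fun r => p < r with hπ
    set N1 := CfsgLib.OddFitting.coreJoin G π with hN1
    haveI hN1n : N1.Normal := CfsgLib.OddFitting.coreJoin_normal _
    set N2 := CfsgLib.OddFitting.coreJoin G (fun r => ¬ π r) with hN2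
    haveI hN2n : N2.Normal := CfsgLib.OddFitting.coreJoin_normal _
    set W := Subgroup.closure {x : G | ∃ q n : ℕ, q.Prime ∧ p < q ∧ x ^ q ^ n = 1} with hW
    have hWchar : W.Characteristic := by
      rw [Subgroup.characteristic_iff_map_le]
      intro φ
      rw [hW, MonoidHom.map_closure]
      refine Subgroup.closure_mono ?_
      rintro _ ⟨x, ⟨q, n, hq, hpq, hx⟩, rfl⟩
      exact ⟨q, n, hq, hpq, by rw [← map_pow, hx, map_one]⟩
    -- generators centralize `N2`
    have hcent : ∀ x : G, ∀ q n : ℕ, q.Prime → p < q → x ^ q ^ n = 1 → ∀ c ∈ N2, c * x = x * c := by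
      intro x q n hq hpq hx
      suffices N2 ≤ Subgroup.centralizer ({x} : Set G) from
        fun c hc => Subgroup.mem_centralizer_singleton_iff.1 (this hc)
      refine iSup_le fun r => ?_
      have hrp := Nat.prime_of_mem_primeFactors r.2.1
      haveI := Fact.mk hrp
      haveI := CfsgLib.Components.pCore_characteristic (G := G) r.1
      let f : G →* MulAut (Cfsg.pCore r.1 G) := MulAut.conjNormal
      have hr2 : r.1 ≠ 2 := fun e => Nat.not_even_iff_odd.2 hodd
        (even_iff_two_dvd.2 (e ▸ Nat.dvd_of_mem_primeFactors r.2.1))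
      have hlt : r.1 ≤ p := Nat.le_of_not_lt r.2.2
      have hf : f x = 1 := by
        by_contra hne
        have h1 : orderOf (f x) ∣ q ^ n := orderOf_dvd_of_pow_eq_one (by rw [← map_pow, hx, map_one])
        obtain ⟨i, hi, hio⟩ := (Nat.dvd_prime_pow hq).1 h1
        have hi0 : i ≠ 0 := fun e => hne (orderOf_eq_one_iff.1 (by rw [hio, e, pow_zero]))
        have hqd : q ∣ Nat.card (MulAut (Cfsg.pCore r.1 G)) :=
          ((dvd_pow_self q hi0).trans hio.symm.dvd).trans (orderOf_dvd_natCard _)
        have := (Cfsg.Agent.S0640.result hr2 (CfsgLib.Components.pCore_isPGroup (G := G) r.1) (fun A hA hAe => by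
            haveI := hA
            refine le_of_eq_of_le (Subgroup.card_map_of_injective (Cfsg.pCore r.1 G).subtype_injective).symm
              (hrA r.1 hrp (A.map (Cfsg.pCore r.1 G).subtype)
                ((Subgroup.map_subtype_le _).trans (CfsgLib.Components.pCore_le_fittingSubgroup _)) inferInstance ?_)
            rintro _ ⟨a, ha, rfl⟩
            exact congrArg Subtype.val (hAe a ha)) q hq (by omega) hqd).2
        omega
      intro c hc
      rw [Subgroup.mem_centralizer_singleton_iff]
      have h := congrArg Subtype.val (DFunLike.congr_fun hf ⟨c, hc⟩)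
      rw [MulAut.conjNormal_apply, MulAut.one_apply] at h
      exact (mul_inv_eq_iff_eq_mul.1 h).symm
    have hWC : W ≤ Subgroup.centralizer (N2 : Set G) := (Subgroup.closure_le _).2 fun x ⟨q, n, hq, hpq, hx⟩ =>
      Subgroup.mem_centralizer_iff.2 fun c hc => hcent x q n hq hpq hx c hc
    -- generators commute modulo `N1`
    let f : G →* G ⧸ N1 := QuotientGroup.mk' N1
    let S₀ : Set (G ⧸ N1) := f '' {x : G | ∃ q n : ℕ, q.Prime ∧ p < q ∧ x ^ q ^ n = 1}
    have hWmap : W.map f = Subgroup.closure S₀ := MonoidHom.map_closure _ _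
    have hcomm : ∀ u ∈ S₀, ∀ v ∈ S₀, u * v = v * u := by
      rintro _ ⟨x, hx, rfl⟩ _ ⟨y, hy, rfl⟩
      obtain ⟨q, n, hq, hpq, hxq⟩ := hx
      haveI := Fact.mk hq
      obtain ⟨a, ha, b, hb, hab, he⟩ := CfsgLib.OddFitting.exists_split π
        (hGF (Subgroup.commutator_mem_commutator (Subgroup.mem_top x) (Subgroup.mem_top y)))
      rw [← commutatorElement_eq_one_iff_mul_comm, ← map_commutatorElement, he]
      have hxW : x ∈ W := Subgroup.subset_closure ⟨q, n, hq, hpq, hxq⟩
      have hbx : Commute b x := (Subgroup.mem_centralizer_iff.1 (hWC hxW) b hb)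
      have ha1 : f a = 1 := (QuotientGroup.eq_one_iff a).2 ha
      rw [map_mul, ha1, one_mul]
      -- `y` conjugates `x` to `x b⁻¹` modulo `N1`
      have e1 : f y * f x * (f y)⁻¹ = (f b)⁻¹ * f x := by
        have e : f ⁅x, y⁆ = f b := by rw [he, map_mul, ha1, one_mul]
        rw [← e, map_commutatorElement, commutatorElement_def]; group
      have hc : Commute ((f b)⁻¹) (f x) := (hbx.map f).inv_left
      have e2 : (f b)⁻¹ ^ q ^ n = 1 := by
        have := congrArg (· ^ q ^ n) e1
        rw [conj_pow, hc.mul_pow, ← map_pow, hxq, map_one, mul_one, mul_inv_cancel, mul_one] at this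
        exact this.symm
      have e3 : f b ^ Nat.card N2 = 1 := by
        have h := congrArg Subtype.val (pow_card_eq_one' (x := (⟨b, hb⟩ : N2)))
        rw [← map_pow, show b ^ Nat.card N2 = 1 from h, map_one]
      have hco : (Nat.card N2).Coprime (q ^ n) :=
        (CfsgLib.OddFitting.coreJoin_coprime (G := G) q _ (fun r hr e => hr (e ▸ hpq))).pow_right n
      refine Subgroup.mem_bot.1 (CfsgLib.OddFitting.mem_of_coprime_pow (H := ⊥) hco e3 ?_)
      rw [Subgroup.mem_bot, ← inv_eq_one, ← inv_pow, e2]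
    haveI : IsMulCommutative (Subgroup.closure S₀) := Subgroup.isMulCommutative_closure hcomm
    refine ⟨W, hWchar, ⟨fun q hq hd => ⟨hq, ?_⟩, ?_⟩⟩
    · by_contra hle
      haveI := Fact.mk hq
      obtain ⟨⟨x, hxW⟩, hxo⟩ := exists_prime_orderOf_dvd_card' q hd
      rw [Subgroup.orderOf_mk] at hxo
      -- the image of `x` is killed by a number prime to `q`
      have hkill : ∀ u ∈ Subgroup.closure S₀, ∃ m : ℕ, m.Coprime q ∧ u ^ m = 1 := by
        intro u hu
        refine Subgroup.closure_induction ?_ ⟨1, Nat.coprime_one_left q, by simp⟩ ?_ ?_ hu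
        · rintro _ ⟨z, ⟨r, n, hr, hpr, hz⟩, rfl⟩
          refine ⟨r ^ n, ((Nat.coprime_primes hr hq).2 (fun e => hle (e ▸ hpr))).pow_left n, ?_⟩
          rw [← map_pow, hz, map_one]
        · rintro a b ha hb ⟨m, hm, ham⟩ ⟨l, hl, hbl⟩
          refine ⟨m * l, hm.mul_left hl, ?_⟩
          rw [Commute.mul_pow (setLike_mul_comm ha hb), pow_mul, ham, one_pow, one_mul, mul_comm, pow_mul, hbl, one_pow]
        · rintro a _ ⟨m, hm, ham⟩
          exact ⟨m, hm, by rw [inv_pow, ham, inv_one]⟩
      obtain ⟨m, hm, hmx⟩ := hkill (f x) (hWmap ▸ ⟨x, hxW, rfl⟩)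
      have hxN : x ∈ N1 := by
        refine CfsgLib.OddFitting.mem_of_coprime_pow (H := N1) hm.symm ?_ ?_
        · rw [← hxo, pow_orderOf_eq_one]
        · exact (QuotientGroup.eq_one_iff _).1 (by rw [← hmx, ← map_pow]; rfl)
      have hco := CfsgLib.OddFitting.coreJoin_coprime (G := G) q π (fun r hr e => hle (e ▸ hr))
      have := (Subgroup.orderOf_dvd_natCard N1 hxN)
      rw [hxo] at this
      exact hq.coprime_iff_not_dvd.1 hco.symm this
    · rintro q hq ⟨-, hpq⟩ hd
      haveI := Fact.mk hq
      let P : Sylow q G := default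
      refine P.not_dvd_index (hd.trans (Subgroup.index_dvd_of_le fun x hx => ?_))
      obtain ⟨n, hn⟩ := P.isPGroup' ⟨x, hx⟩
      exact Subgroup.subset_closure ⟨q, n, hq, hpq, by simpa using congrArg Subtype.val hn⟩


end Cfsg.Agent.S1451
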