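import Cfsg.Statements.S1453
import Cfsg.Agent.NormalEl.Basic

set_option autoImplicit false
open Cfsg

namespace Cfsg.Agent.S1453
open scoped commutatorElement

/-- Let p be an odd prime and R a finite p-group with an elementary abelian subgroup of order p ^ 3 and an elementary abelian subgroup E of order p ^ 2 contained in no larger elementary abelian subgroup. Let Z₂ be the second centre of R, W the subgroup generated by the elements of Z₂ of order dividing p, and T = C_R(W). Then E is not contained in T; the elements of order dividing p of the centre of R generate a group of order p; W is elementary abelian of order p ^ 2; and T is characteristic in R of index p. -/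
theorem result {R : Type*} [Group R] [Finite R] (p : ℕ) [Fact p.Prime] (hp : p ≠ 2) (hR : IsPGroup p R) (hr : ¬ Cfsg.PRankLE p 2 R)
    (E : Subgroup R) (hE : Cfsg.IsElementaryAbelian p E) (hE2 : Nat.card E = p ^ 2)
    (hEmax : ∀ B : Subgroup R, Cfsg.IsElementaryAbelian p B → E ≤ B → B = E) :
    ¬ E ≤ Subgroup.centralizer ((Subgroup.closure {x : R | x ∈ Subgroup.upperCentralSeries R 2 ∧ x ^ p = 1} : Subgroup R) : Set R) ∧
      Nat.card ↥(Subgroup.closure {x : R | x ∈ Subgroup.center R ∧ x ^ p = 1}) = p ∧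
      (Cfsg.IsElementaryAbelian p (Subgroup.closure {x : R | x ∈ Subgroup.upperCentralSeries R 2 ∧ x ^ p = 1}) ∧
        Nat.card ↥(Subgroup.closure {x : R | x ∈ Subgroup.upperCentralSeries R 2 ∧ x ^ p = 1}) = p ^ 2) ∧
      (Subgroup.centralizer ((Subgroup.closure {x : R | x ∈ Subgroup.upperCentralSeries R 2 ∧ x ^ p = 1} : Subgroup R) : Set R)).Characteristic ∧
      (Subgroup.centralizer ((Subgroup.closure {x : R | x ∈ Subgroup.upperCentralSeries R 2 ∧ x ^ p = 1} : Subgroup R) : Set R)).index = p := by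
  classical
  have hpp : p.Prime := Fact.out
  set Z0 : Subgroup R := Subgroup.closure {x : R | x ∈ Subgroup.center R ∧ x ^ p = 1} with hZ0def
  set W : Subgroup R := Subgroup.closure {x : R | x ∈ Subgroup.upperCentralSeries R 2 ∧ x ^ p = 1} with hWdef
  have h2mem : ∀ x, x ∈ Subgroup.upperCentralSeries R 2 ↔ ∀ g : R, ⁅x, g⁆ ∈ Subgroup.center R := fun x => by
    rw [Subgroup.mem_upperCentralSeries_succ_iff, Subgroup.upperCentralSeries_one]
  have hZ0c : Z0 ≤ Subgroup.center R := (Subgroup.closure_le _).2 fun x hx => hx.1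
  let ZS : Subgroup R :=
    { carrier := {x : R | x ∈ Subgroup.center R ∧ x ^ p = 1}
      one_mem' := ⟨Subgroup.one_mem _, one_pow p⟩
      mul_mem' := by
        rintro x y ⟨hx, hx'⟩ ⟨hy, hy'⟩
        refine ⟨Subgroup.mul_mem _ hx hy, ?_⟩
        rw [Commute.mul_pow ((Subgroup.mem_center_iff.1 hy x)), hx', hy', one_mul]
      inv_mem' := by
        rintro x ⟨hx, hx'⟩
        exact ⟨Subgroup.inv_mem _ hx, by rw [inv_pow, hx', inv_one]⟩ }
  have hZ0mem : ∀ x, x ∈ Z0 ↔ x ∈ Subgroup.center R ∧ x ^ p = 1 := fun x =>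
    ⟨fun hx => (Subgroup.closure_le ZS).2 (fun y hy => hy) hx, fun hx => Subgroup.subset_closure hx⟩
  have hcp : ∀ y x : R, ⁅y, x⁆ ∈ Subgroup.center R → ∀ k : ℕ, ⁅y ^ k, x⁆ = ⁅y, x⁆ ^ k := by
    intro y x h k
    induction k with
    | zero => simp
    | succ k ih => rw [pow_succ, CfsgLib.PGroup.commutator_mul_left_central h, ih, pow_succ]
  let WS : Subgroup R :=
    { carrier := {x : R | x ∈ Subgroup.upperCentralSeries R 2 ∧ x ^ p = 1}
      one_mem' := ⟨Subgroup.one_mem _, one_pow p⟩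
      mul_mem' := by
        rintro x y ⟨hx, hx'⟩ ⟨hy, hy'⟩
        refine ⟨Subgroup.mul_mem _ hx hy, ?_⟩
        have hyx := (h2mem y).1 hy x
        have h1 : ⁅y, x⁆ ^ p = 1 := by rw [← hcp y x hyx, hy', commutatorElement_one_left]
        obtain ⟨t, ht⟩ := CfsgLib.PGroup.dvd_choose_two (p := p) hp
        rw [CfsgLib.PGroup.mul_pow_central hyx, hx', hy', ht, pow_mul, h1, one_pow, one_mul, one_mul]
      inv_mem' := by
        rintro x ⟨hx, hx'⟩
        exact ⟨Subgroup.inv_mem _ hx, by rw [inv_pow, hx', inv_one]⟩ }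
  have hWmem : ∀ x, x ∈ W ↔ x ∈ Subgroup.upperCentralSeries R 2 ∧ x ^ p = 1 := fun x =>
    ⟨fun hx => (Subgroup.closure_le WS).2 (fun y hy => hy) hx, fun hx => Subgroup.subset_closure hx⟩
  have hWZ : ∀ w ∈ W, ∀ g : R, ⁅w, g⁆ ∈ Z0 := by
    intro w hw g
    obtain ⟨hw2, hwp⟩ := (hWmem w).1 hw
    have h := (h2mem w).1 hw2 g
    exact (hZ0mem _).2 ⟨h, by rw [← hcp w g h, hwp, commutatorElement_one_left]⟩
  have hZ0el : Cfsg.IsElementaryAbelian p Z0 :=
    ⟨⟨⟨fun x y => Subtype.ext (Subgroup.mem_center_iff.1 (hZ0c y.2) x)⟩⟩, fun x hx => ((hZ0mem x).1 hx).2⟩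
  haveI hZ0n : Z0.Normal := ⟨fun x hx g => by
    rw [Subgroup.mem_center_iff.1 (hZ0c hx) g, mul_inv_cancel_right]
    exact hx⟩
  have hZ0E : Z0 ≤ E := by
    have h := hEmax _ (CfsgLib.NormalEl.elementary_sup hE hZ0el
      (fun e _ z hz => Subgroup.mem_center_iff.1 (hZ0c hz) e)) le_sup_left
    exact le_sup_right.trans h.le
  have hEnn : ¬ E.Normal := fun hn => by
    haveI := hn
    obtain ⟨A, hEA, -, hA, hA3⟩ := CfsgLib.NormalEl.exists_normal_over hp hR hr E hE hE2
    rw [hEmax A hA hEA, hE2, Nat.pow_le_pow_iff_right hpp.one_lt] at hA3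
    omega
  have hZ0lt : Z0 < E := lt_of_le_of_ne hZ0E fun h => hEnn (h ▸ hZ0n)
  haveI : Nontrivial R := by
    by_contra hn
    rw [not_nontrivial_iff_subsingleton] at hn
    exact hEnn ⟨fun x hx g => by rwa [Subsingleton.elim (g * x * g⁻¹) x]⟩
  have hZ0card : Nat.card Z0 = p := by
    obtain ⟨k, hk⟩ := (hR.to_subgroup Z0).exists_card_eq
    have h1 := CfsgLib.NormalEl.pow_succ_le_card hR hZ0lt hk
    rw [hE2, Nat.pow_le_pow_iff_right hpp.one_lt] at h1
    rcases Nat.eq_zero_or_pos k with rfl | hk0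
    · exfalso
      haveI := hR.center_nontrivial
      haveI := Fact.mk hpp
      obtain ⟨z, hz⟩ := exists_prime_orderOf_dvd_card' (G := Subgroup.center R) p (by
        obtain ⟨m, hm0, hm⟩ := (hR.to_subgroup (Subgroup.center R)).nontrivial_iff_card.1 inferInstance
        rw [hm]; exact dvd_pow_self p hm0.ne')
      have hzZ : (z : R) ∈ Z0 :=
        (hZ0mem _).2 ⟨z.2, by rw [← Subgroup.coe_pow, ← hz, pow_orderOf_eq_one, Subgroup.coe_one]⟩
      rw [Subgroup.card_eq_one.1 (show Nat.card Z0 = 1 by rw [hk, pow_zero]), Subgroup.mem_bot] at hzZ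
      rw [show z = 1 from Subtype.ext hzZ, orderOf_one] at hz
      exact hpp.one_lt.ne hz
    · rw [hk, show k = 1 by omega, pow_one]
  obtain ⟨e0, he0, he0'⟩ := SetLike.exists_of_lt hZ0lt
  have hEgen : E ≤ Z0 ⊔ Subgroup.zpowers e0 := by
    have hlt : Z0 < Z0 ⊔ Subgroup.zpowers e0 := lt_of_le_of_ne le_sup_left fun h =>
      he0' (h ▸ (le_sup_right : Subgroup.zpowers e0 ≤ _) (Subgroup.mem_zpowers e0))
    refine (Subgroup.eq_of_le_of_card_ge (sup_le hZ0E (Subgroup.zpowers_le.2 he0)) ?_).ge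
    rw [hE2]
    exact CfsgLib.NormalEl.pow_succ_le_card hR hlt (hZ0card.trans (pow_one p).symm)
  have hEW : ¬ E ≤ W := fun h => hEnn ⟨fun e he g => by
    have h1 := E.mul_mem (E.inv_mem he) (hZ0E (hWZ e (h he) g))
    have h2 : e⁻¹ * ⁅e, g⁆ = g * e⁻¹ * g⁻¹ := by rw [commutatorElement_def]; group
    rw [h2] at h1
    simpa [mul_assoc] using E.inv_mem h1⟩
  have hCW : W ⊓ Subgroup.centralizer ({e0} : Set R) ≤ Z0 := by
    rintro x ⟨hxW, hxc⟩
    have hxp := ((hWmem x).1 hxW).2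
    have hxe : ∀ e ∈ E, e * x = x * e := by
      intro e he
      have hle : Z0 ⊔ Subgroup.zpowers e0 ≤ Subgroup.centralizer ({x} : Set R) := by
        rw [sup_le_iff, Subgroup.zpowers_le]
        exact ⟨fun z hz => Subgroup.mem_centralizer_singleton_iff.2 ((Subgroup.mem_center_iff.1 (hZ0c hz) x).symm),
          Subgroup.mem_centralizer_singleton_iff.2 (Subgroup.mem_centralizer_singleton_iff.1 hxc).symm⟩
      exact Subgroup.mem_centralizer_singleton_iff.1 (hle (hEgen he))
    have hXel : Cfsg.IsElementaryAbelian p (Subgroup.zpowers x) := ⟨inferInstance, fun a ha => by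
      obtain ⟨m, rfl⟩ := Subgroup.mem_zpowers_iff.1 ha
      rw [← zpow_natCast, ← zpow_mul, mul_comm, zpow_mul, zpow_natCast, hxp, one_zpow]⟩
    have hxE : x ∈ E := by
      have h := hEmax _ (CfsgLib.NormalEl.elementary_sup hE hXel (fun e he a ha => by
        obtain ⟨m, rfl⟩ := Subgroup.mem_zpowers_iff.1 ha
        exact (Commute.zpow_right (hxe e he) m))) le_sup_left
      exact (le_sup_right.trans h.le) (Subgroup.mem_zpowers x)
    -- `W ⊓ E = Z0`
    by_contra hxZ
    apply hEW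
    have hlt : Z0 < W ⊓ E := by
      refine lt_of_le_of_ne (le_inf (fun z hz => ?_) hZ0E) fun h => hxZ (h ▸ ⟨hxW, hxE⟩)
      obtain ⟨hzc, hzp⟩ := (hZ0mem z).1 hz
      refine (hWmem z).2 ⟨(h2mem z).2 fun g => ?_, hzp⟩
      rw [commutatorElement_eq_one_iff_mul_comm.2 (Subgroup.mem_center_iff.1 hzc g).symm]
      exact Subgroup.one_mem _
    have := CfsgLib.NormalEl.pow_succ_le_card hR hlt (hZ0card.trans (pow_one p).symm)
    exact (Subgroup.eq_of_le_of_card_ge inf_le_right (hE2.trans_le this)).ge.trans inf_le_left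
  have hWlt : Z0 < W := by
    refine lt_of_le_of_ne (fun z hz => ?_) fun hEq => ?_
    · obtain ⟨hzc, hzp⟩ := (hZ0mem z).1 hz
      refine (hWmem z).2 ⟨(h2mem z).2 fun g => ?_, hzp⟩
      rw [commutatorElement_eq_one_iff_mul_comm.2 (Subgroup.mem_center_iff.1 hzc g).symm]
      exact Subgroup.one_mem _
    obtain ⟨B, hBn, hBc, hBp, hB3⟩ : ∃ B : Subgroup R,
        B.Normal ∧ IsMulCommutative B ∧ (∀ b ∈ B, b ^ p = 1) ∧ Nat.card B = p ^ 3 := by
      by_contra hc
      exact hr fun A hA hAe => Cfsg.Agent.S0100.result hp hR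
        (fun B h1 h2 h3 h4 => hc ⟨B, h1, h2, h3, h4⟩) A hA hAe
    haveI := hBn
    have hlt : Z0 < Z0 ⊔ B := lt_of_le_of_ne le_sup_left fun h => by
      have h3 := Subgroup.card_le_of_le ((le_sup_right : B ≤ Z0 ⊔ B).trans h.ge)
      have h4 : p ^ 3 ≤ p ^ 1 := by rwa [hB3, hZ0card, ← pow_one p, ← pow_mul, one_mul] at h3
      rw [Nat.pow_le_pow_iff_right hpp.one_lt] at h4
      omega
    obtain ⟨x, hx, hxZ, hxg⟩ := CfsgLib.PGroup.exists_mem_central_mod hR hlt
    have hel := CfsgLib.NormalEl.elementary_sup hZ0el ⟨hBc, hBp⟩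
      (fun z hz b _ => (Subgroup.mem_center_iff.1 (hZ0c hz) b).symm)
    apply hxZ
    rw [hEq]
    exact (hWmem x).2 ⟨(h2mem x).2 fun g => hZ0c (hxg g), hel.2 x hx⟩
  have hWcard : Nat.card W = p ^ 2 := by
    refine le_antisymm ?_ (CfsgLib.NormalEl.pow_succ_le_card hR hWlt (hZ0card.trans (pow_one p).symm))
    have h1 := CfsgLib.Metacyclic.Data.relIndex_centralizer_le e0 W Z0 (fun w hw => hWZ w hw e0)
    rw [hZ0card, ← Subgroup.inf_relIndex_left] at h1
    have h2 := Subgroup.relIndex_mul_relIndex (⊥ : Subgroup R) _ W bot_le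
      (inf_le_left : W ⊓ Subgroup.centralizer ({e0} : Set R) ≤ W)
    rw [Subgroup.relIndex_bot_left, Subgroup.relIndex_bot_left] at h2
    rw [← h2, pow_two]
    exact Nat.mul_le_mul ((Subgroup.card_le_of_le hCW).trans hZ0card.le) h1
  have hWel : Cfsg.IsElementaryAbelian p W :=
    ⟨by
      have := IsPGroup.commutative_of_card_eq_prime_sq hWcard
      exact ⟨⟨this⟩⟩, fun x hx => ((hWmem x).1 hx).2⟩
  have hnc : ¬ E ≤ Subgroup.centralizer (W : Set R) := fun h => by
    refine hWlt.not_ge fun w hw => hCW ⟨hw, Subgroup.mem_centralizer_singleton_iff.2 ?_⟩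
    exact Subgroup.mem_centralizer_iff.1 (h he0) w hw
  have hWchar : W.Characteristic := by
    rw [Subgroup.characteristic_iff_map_le]
    intro φ
    rintro _ ⟨x, hx, rfl⟩
    obtain ⟨hx2, hxp⟩ := (hWmem x).1 hx
    refine (hWmem _).2 ⟨?_, by rw [← map_pow, hxp, map_one]⟩
    exact Subgroup.characteristic_iff_map_le.1 (inferInstance : (Subgroup.upperCentralSeries R 2).Characteristic) φ
      ⟨x, hx2, rfl⟩
  refine ⟨hnc, hZ0card, ⟨hWel, hWcard⟩, inferInstance, ?_⟩
  obtain ⟨w0, hw0, hw0'⟩ := SetLike.exists_of_lt hWlt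
  have hWgen : W ≤ Z0 ⊔ Subgroup.zpowers w0 := by
    have hlt : Z0 < Z0 ⊔ Subgroup.zpowers w0 := lt_of_le_of_ne le_sup_left fun h =>
      hw0' (h ▸ (le_sup_right : Subgroup.zpowers w0 ≤ _) (Subgroup.mem_zpowers w0))
    refine (Subgroup.eq_of_le_of_card_ge (sup_le hWlt.le (Subgroup.zpowers_le.2 hw0)) ?_).ge
    rw [hWcard]
    exact CfsgLib.NormalEl.pow_succ_le_card hR hlt (hZ0card.trans (pow_one p).symm)
  have hCeq : Subgroup.centralizer (W : Set R) = Subgroup.centralizer ({w0} : Set R) := by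
    refine le_antisymm (Subgroup.centralizer_le (Set.singleton_subset_iff.2 hw0)) fun g hg => ?_
    refine Subgroup.mem_centralizer_iff.2 fun w hw => ?_
    have hle : Z0 ⊔ Subgroup.zpowers w0 ≤ Subgroup.centralizer ({g} : Set R) := by
      rw [sup_le_iff, Subgroup.zpowers_le]
      exact ⟨fun z hz => Subgroup.mem_centralizer_singleton_iff.2 ((Subgroup.mem_center_iff.1 (hZ0c hz) g).symm),
        Subgroup.mem_centralizer_singleton_iff.2 (Subgroup.mem_centralizer_singleton_iff.1 hg).symm⟩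
    exact Subgroup.mem_centralizer_singleton_iff.1 (hle (hWgen hw))
  have h1 := CfsgLib.Metacyclic.Data.relIndex_centralizer_le w0 (⊤ : Subgroup R) Z0 (fun g _ => by
    rw [← commutatorElement_inv]; exact Z0.inv_mem (hWZ w0 hw0 g))
  rw [Subgroup.relIndex_top_right, hZ0card, ← hCeq] at h1
  obtain ⟨k, hk⟩ := hR.index (Subgroup.centralizer (W : Set R))
  rw [hk] at h1 ⊢
  rcases Nat.eq_zero_or_pos k with rfl | hk0
  · exfalso
    rw [pow_zero] at hk
    exact hnc (by rw [Subgroup.index_eq_one.1 hk]; exact le_top)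
  · have : k ≤ 1 := (Nat.pow_le_pow_iff_right hpp.one_lt).1 (by rwa [pow_one])
    rw [show k = 1 by omega, pow_one]


end Cfsg.Agent.S1453
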