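import Cfsg.Statements.S1454
import Cfsg.Agent.CoprimeMeta.RankTwo
import Cfsg.Agent.RankTwoAut.Narrow
import Cfsg.Agent.OddFitting.Small
import Cfsg.Agent.PCore.Basic
import Cfsg.Agent.S0640

set_option autoImplicit false
open Cfsg

namespace Cfsg.Agent.S1454
open scoped commutatorElement

/-- Let G be a finite group, p an odd prime, R a narrow p-subgroup and A a solvable subgroup of odd order normalizing R with A ∩ C_G(R) = 1. Then [A, A] ≤ O_p(A) and the index of O_p(A) in A is coprime to p; if R has an elementary abelian subgroup of order p ^ 3 then the order of every element of A of order coprime to p divides p − 1; and if the order of A is a prime not dividing p(p − 1), then 2·#A divides p + 1, and if in addition [R, A] = R and R is non-abelian then #R = p ^ 3. -/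
theorem result {G : Type*} [Group G] [Finite G] (p : ℕ) [Fact p.Prime] (hp : p ≠ 2) (R A : Subgroup G) (hR : IsPGroup p R) (hRn : Cfsg.IsNarrow p R)
    (hA : (A ≤ Subgroup.normalizer (R : Set G))) (hAs : Group.IsSolvable A) (hAodd : Odd (Nat.card A)) (hfaith : A ⊓ Subgroup.centralizer (R : Set G) = ⊥) :
    (commutator ↥A ≤ Cfsg.pCore p ↥A ∧ ((Cfsg.pCore p ↥A).index).Coprime p) ∧
      (¬ Cfsg.PRankLE p 2 R → ∀ a ∈ A, (orderOf a).Coprime p → orderOf a ∣ p - 1) ∧
      ((Nat.card A).Prime → ¬ Nat.card A ∣ p * (p - 1) →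
        2 * Nat.card A ∣ p + 1 ∧ (⁅R, A⁆ = R → ¬ IsMulCommutative R → Nat.card R = p ^ 3)) := by
  have hpp : p.Prime := Fact.out
  have hN : Cfsg.IsNarrow p R := hRn
  set φ := CfsgLib.CoprimeMeta.actHom hA with hφ
  have hinj : ∀ a : A, φ a = 1 → a = 1 := by
    intro a ha
    have hmem : (a : G) ∈ A ⊓ Subgroup.centralizer (R : Set G) := ⟨a.2, Subgroup.mem_centralizer_iff.2 fun r hr => by
      have h := congrArg (fun e : MulAut R => ((e ⟨r, hr⟩ : R) : G)) ha
      simp only [hφ, CfsgLib.CoprimeMeta.actHom_coe, MulAut.one_apply] at h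
      calc r * a = a * r * (a : G)⁻¹ * a := by rw [h]
        _ = a * r := by group⟩
    rw [hfaith, Subgroup.mem_bot] at hmem
    exact Subtype.ext hmem
  have h2nd : ¬ Cfsg.PRankLE p 2 R → ∀ a ∈ A, (orderOf a).Coprime p → orderOf a ∣ p - 1 := by
    intro hrk a ha hco
    obtain ⟨e, hep, he⟩ := CfsgLib.RankTwoAut.exists_few_of_narrow hN hrk
    obtain ⟨n, hn⟩ := CfsgLib.RankTwoAut.exists_pow_eq_one_rank_three hp hR hep he hrk φ (⟨a, ha⟩ : A)
    rw [← map_pow, ← pow_mul] at hn
    have h1 := orderOf_dvd_of_pow_eq_one (hinj _ hn)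
    rw [Subgroup.orderOf_mk] at h1
    exact (hco.pow_right n).dvd_of_dvd_mul_right h1
  refine ⟨?_, h2nd, ?_⟩
  · have hs := CfsgLib.OddFitting.small_of_narrow hN
    have hder : ∀ m : A, m ∈ commutator A → ∃ n : ℕ, m ^ p ^ n = 1 := by
      intro m hm
      obtain ⟨n, hn⟩ := hs.action hp hR hAodd φ hm
      exact ⟨n, hinj _ (by rw [map_pow, hn])⟩
    have hle : commutator A ≤ Cfsg.pCore p A :=
      CfsgLib.Components.le_pCore (N := commutator A) inferInstance (fun m => by
        obtain ⟨n, hn⟩ := hder m m.2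
        exact ⟨n, Subtype.ext (by rw [Subgroup.coe_pow, hn]; rfl)⟩)
    refine ⟨hle, ?_⟩
    rw [Nat.coprime_comm, hpp.coprime_iff_not_dvd]
    intro hd
    haveI hcn : (Cfsg.pCore p A).Normal := by
      haveI := CfsgLib.Components.pCore_characteristic (G := A) p
      infer_instance
    let P : Sylow p A := default
    have hPn : (P : Subgroup A) ⊔ Cfsg.pCore p A ≤ Cfsg.pCore p A := by
      refine CfsgLib.Components.le_pCore (N := (P : Subgroup A) ⊔ Cfsg.pCore p A) ⟨fun x hx g => ?_⟩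
        (IsPGroup.to_sup_of_normal_right P.isPGroup' (CfsgLib.Components.pCore_isPGroup p))
      have h : ⁅g, x⁆ ∈ Cfsg.pCore p A :=
        hle (Subgroup.commutator_mem_commutator (Subgroup.mem_top g) (Subgroup.mem_top x))
      rw [show g * x * g⁻¹ = ⁅g, x⁆ * x by rw [commutatorElement_def]; group]
      exact Subgroup.mul_mem _ (Subgroup.mem_sup_right h) hx
    exact P.not_dvd_index (hd.trans (Subgroup.index_dvd_of_le (le_sup_left.trans hPn)))
  intro hq hqd
  haveI := Fact.mk hq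
  set q := Nat.card A with hqdef
  have hp2 := hpp.two_le
  have hqp : q ≠ p := fun h => hqd (h ▸ dvd_mul_right p (p - 1))
  have hqp1 : ¬ q ∣ p - 1 := fun h => hqd (h.mul_left p)
  have hco : q.Coprime p := (Nat.coprime_primes hq hpp).2 hqp
  obtain ⟨a, hao⟩ := exists_prime_orderOf_dvd_card' (G := A) q dvd_rfl
  have hrk : Cfsg.PRankLE p 2 R := by
    by_contra h
    have hao' : orderOf (a : G) = q := by rw [Subgroup.orderOf_coe, hao]
    exact hqp1 (hao' ▸ h2nd h a a.2 (hao'.symm ▸ hco))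
  have hφa : orderOf (φ a) = q := orderOf_eq_prime (by rw [← map_pow, ← hao, pow_orderOf_eq_one, map_one])
    fun h => by rw [hinj a h, orderOf_one] at hao; exact hq.ne_one hao.symm
  obtain ⟨hsq, hlt⟩ := Cfsg.Agent.S0640.result hp hR hrk q hq hqp (hφa ▸ orderOf_dvd_natCard _)
  have hq2 : q ≠ 2 := fun h => by rw [h] at hAodd; exact absurd hAodd (by decide)
  have hq3 : 3 ≤ q := by have := hq.two_le; omega
  refine ⟨?_, ?_⟩
  · rw [show p ^ 2 - 1 = (p + 1) * (p - 1) by rw [← Nat.sq_sub_sq, one_pow]] at hsq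
    exact ((Nat.coprime_primes Nat.prime_two hq).2 (Ne.symm hq2)).mul_dvd_of_dvd_of_dvd
      (even_iff_two_dvd.1 (hpp.odd_of_ne_two hp).add_one) ((hq.dvd_mul.1 hsq).resolve_right hqp1)
  intro hRA hnab
  have hgen := CfsgLib.CoprimeMeta.generates_of_commutator hA hRA
  rcases CfsgLib.CoprimeMeta.rank_two_structure (by omega) hR (fun E hE => hrk E hE.1 hE.2) φ hgen
    (hqdef ▸ hco) hAodd with h | ⟨Ω, C, hsup, hcom, hnc, hcard, hexp, hcyc, hder, hcp, hmem⟩
  · exact absurd h hnab
  have hΩ : ∀ x : R, x ^ p = 1 → x ∈ Ω := by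
    intro x hx
    have hxm : x ∈ ((Ω ⊔ C : Subgroup R) : Set R) := by rw [hsup]; trivial
    have hnorm : Ω ≤ Subgroup.normalizer (C : Set R) := fun w hw => Subgroup.mem_normalizer_iff.2 fun y => by
      constructor
      · intro hy
        rwa [hcom w hw y hy, mul_inv_cancel_right]
      · intro hy
        have h := hcom w hw _ hy
        rw [inv_mul_cancel_right] at h
        rwa [mul_left_cancel h] at hy
    rw [Subgroup.coe_mul_of_left_le_normalizer_right Ω C hnorm] at hxm
    obtain ⟨w, hw, c, hc, rfl⟩ := hxm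
    rw [Commute.mul_pow (hcom w hw c hc), hexp w hw, one_mul] at hx
    exact Ω.mul_mem hw (hmem c hc hx)
  have hΩinv : ∀ (σ : MulAut R), ∀ x ∈ Ω, σ x ∈ Ω := fun σ x hx =>
    hΩ _ (by rw [← map_pow, hexp x hx, map_one])
  haveI : Ω.Normal := ⟨fun x hx g => hΩinv (MulAut.conj g) x hx⟩
  haveI : IsCyclic (R ⧸ Ω) := by
    haveI := hcyc
    refine isCyclic_of_surjective ((QuotientGroup.mk' Ω).comp C.subtype) fun y => ?_
    obtain ⟨r, rfl⟩ := QuotientGroup.mk'_surjective Ω y
    have hr : r ∈ Ω ⊔ C := by rw [hsup]; trivial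
    obtain ⟨w, hw, c, hc, rfl⟩ := Subgroup.mem_sup_of_normal_left.1 hr
    refine ⟨⟨c, hc⟩, ?_⟩
    rw [MonoidHom.comp_apply, map_mul, show QuotientGroup.mk' Ω w = 1 from (QuotientGroup.eq_one_iff w).2 hw,
      one_mul]
    rfl
  have hfix : ∀ (b : A) (r : R), QuotientGroup.mk' Ω (φ b r) = QuotientGroup.mk' Ω r := by
    intro b r
    have hmap : Ω.map (φ b).toMonoidHom = Ω := by
      refine le_antisymm ?_ fun x hx => ⟨(φ b).symm x, hΩinv _ x hx, by simp⟩
      rintro _ ⟨x, hx, rfl⟩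
      exact hΩinv (φ b) x hx
    set σ := QuotientGroup.congr Ω Ω (φ b) hmap with hσ
    have hit : ∀ n : ℕ, ∀ y : R, (σ : MulAut (R ⧸ Ω)) ^ n • (y : R ⧸ Ω) = (((φ b) ^ n) y : R) := by
      intro n
      induction n with
      | zero => intro y; simp
      | succ n ih =>
        intro y
        rw [pow_succ, mul_smul, pow_succ, MulAut.mul_apply, ← ih]
        rfl
    have hσq : (σ : MulAut (R ⧸ Ω)) ^ q = 1 := MulEquiv.ext fun y => by
      obtain ⟨y, rfl⟩ := QuotientGroup.mk_surjective y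
      have := hit q y
      rw [← map_pow, hqdef, pow_card_eq_one', map_one, MulAut.one_apply] at this
      exact this
    have hσ1 : (σ : MulAut (R ⧸ Ω)) = 1 := by
      refine orderOf_eq_one_iff.1 (((Nat.dvd_prime hq).1 (orderOf_dvd_of_pow_eq_one hσq)).resolve_right fun h => ?_)
      have h1 : orderOf (σ : MulAut (R ⧸ Ω)) ∣ Nat.totient (Nat.card (R ⧸ Ω)) :=
        IsCyclic.card_mulAut (R ⧸ Ω) ▸ orderOf_dvd_natCard _
      obtain ⟨k, hk⟩ := (hR.to_quotient Ω).exists_card_eq
      rw [h, hk] at h1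
      rcases Nat.eq_zero_or_pos k with rfl | hk0
      · rw [pow_zero, Nat.totient_one] at h1
        exact hq.ne_one (Nat.dvd_one.1 h1)
      · rw [Nat.totient_prime_pow hpp hk0] at h1
        rcases hq.dvd_mul.1 h1 with h2 | h2
        · exact hqp ((Nat.prime_dvd_prime_iff_eq hq hpp).1 (hq.dvd_of_dvd_pow h2))
        · exact hqp1 h2
    exact DFunLike.congr_fun hσ1 (r : R ⧸ Ω)
  have htop : (⊤ : Subgroup R) ≤ Ω := by
    rw [← hgen, Subgroup.closure_le]
    rintro _ ⟨b, r, rfl⟩
    exact QuotientGroup.eq.1 (hfix b r).symm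
  rw [← hcard, top_le_iff.1 htop, Subgroup.card_top]


end Cfsg.Agent.S1454
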