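import Cfsg.Statements.S1456
import Cfsg.Agent.OddFitting.Basic
import Cfsg.Agent.NormalEl.Basic

set_option autoImplicit false
open Cfsg

namespace Cfsg.Agent.S1456

/-- Let G be a solvable group of odd order, p a prime, and E an elementary abelian p-subgroup of the Fitting subgroup F(G) such that F(G) ∩ C_G(E) has no elementary abelian subgroup of order q ^ 3 for any prime q. Then the derived subgroup of G is contained in F(G). -/
theorem result {G : Type*} [Group G] [Finite G] [Group.IsSolvable G] (hodd : Odd (Nat.card G)) (p : ℕ) [Fact p.Prime] (E : Subgroup G) (hE : E ≤ Cfsg.fittingSubgroup G) (hEe : Cfsg.IsElementaryAbelian p E)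
    (hr : Cfsg.RankLE 2 ↥(Cfsg.fittingSubgroup G ⊓ Subgroup.centralizer (E : Set G))) :
    commutator G ≤ Cfsg.fittingSubgroup G := by
  classical
  set F := Cfsg.fittingSubgroup G with hF
  refine CfsgLib.OddFitting.derived_le_fitting fun r hr' hd y hy => ?_
  haveI := Fact.mk hr'
  set R := Cfsg.pCore r G with hR
  haveI hRn : R.Normal := by
    haveI := CfsgLib.Components.pCore_characteristic (G := G) r
    rw [hR]
    infer_instance
  have hp2 : r ≠ 2 := fun e => Nat.not_even_iff_odd.2 hodd (even_iff_two_dvd.2 (e ▸ hd))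
  have hRF : R ≤ F := CfsgLib.Components.pCore_le_fittingSubgroup r
  -- elementary subgroups of `R` centralizing `E` are small
  have hC : ∀ A : Subgroup G, A ≤ R → (∀ a ∈ A, ∀ x ∈ E, x * a = a * x) → IsMulCommutative A →
      (∀ a ∈ A, a ^ r = 1) → Nat.card A ≤ r ^ 2 := by
    intro A hA hAc hAm hAe
    haveI := hAm
    have hle : A ≤ F ⊓ Subgroup.centralizer (E : Set G) := le_inf (hA.trans hRF)
      fun a ha => Subgroup.mem_centralizer_iff.2 (hAc a ha)
    have h' := hr r hr' (A.subgroupOf (F ⊓ Subgroup.centralizer (E : Set G)))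
      ⟨⟨fun x y => Subtype.ext (Subtype.ext (setLike_mul_comm (Subgroup.mem_subgroupOf.1 x.2) (Subgroup.mem_subgroupOf.1 y.2)))⟩⟩
      (fun a ha => Subtype.ext (hAe _ (Subgroup.mem_subgroupOf.1 ha)))
    rwa [Nat.card_congr (Subgroup.subgroupOfEquivOfLe hle).toEquiv] at h'
  by_cases hsmall : ∀ A : Subgroup G, A ≤ R → IsMulCommutative A → (∀ a ∈ A, a ^ r = 1) → Nat.card A ≤ r ^ 2
  · exact CfsgLib.OddFitting.pow_mem_of_rank hodd hd hsmall hy
  push Not at hsmall
  obtain ⟨B, hBR, hBc, hBe, hBbig⟩ := hsmall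
  have hEp : E ≤ Cfsg.pCore p G := fun x hx => CfsgLib.OddFitting.pCore_eq_coreJoin p
    (CfsgLib.OddFitting.mem_left_of_pow (P := fun i => i = p) (q := p) (n := 1) (hE hx) rfl
      (by rw [pow_one]; exact hEe.2 x hx))
  have hrp : r = p := by
    by_contra hne
    haveI := CfsgLib.Components.pCore_characteristic (G := G) p
    refine absurd (hC B hBR (fun a ha x hx => ?_) hBc hBe) hBbig.not_ge
    exact Subgroup.commute_of_normal_of_disjoint (Cfsg.pCore p G) R inferInstance hRn
      (IsPGroup.disjoint_of_ne p r (Ne.symm hne) _ _ (CfsgLib.Components.pCore_isPGroup p)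
        (CfsgLib.Components.pCore_isPGroup r)) x a (hEp hx) (hBR ha)
  subst hrp
  set E' : Subgroup R := E.subgroupOf R with hE'
  have hE'el : Cfsg.IsElementaryAbelian r E' :=
    ⟨⟨⟨fun x y => Subtype.ext (Subtype.ext (CfsgLib.NormalEl.commute_of_elementary hEe
      (Subgroup.mem_subgroupOf.1 x.2) (Subgroup.mem_subgroupOf.1 y.2)))⟩⟩,
      fun a ha => Subtype.ext (hEe.2 _ (Subgroup.mem_subgroupOf.1 ha))⟩
  have hC' : ∀ A : Subgroup R, Cfsg.IsElementaryAbelian r A → (∀ a ∈ A, ∀ x ∈ E', x * a = a * x) →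
      Nat.card A ≤ r ^ 2 := by
    intro A hA hAc
    haveI := hA.1
    refine le_of_eq_of_le (Subgroup.card_map_of_injective R.subtype_injective).symm
      (hC (A.map R.subtype) (Subgroup.map_subtype_le _) ?_ inferInstance ?_)
    · rintro _ ⟨a, ha, rfl⟩ x hx
      exact congrArg Subtype.val (hAc a ha ⟨x, hEp hx⟩ hx)
    · rintro _ ⟨a, ha, rfl⟩
      exact congrArg Subtype.val (hA.2 a ha)
  have hRp : IsPGroup r R := CfsgLib.Components.pCore_isPGroup r
  obtain ⟨e, heE, hec⟩ : ∃ e ∈ E', e ∉ Subgroup.center R := by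
    by_contra hc
    push Not at hc
    haveI := hBc
    refine absurd (hC B hBR (fun a ha x hx => ?_) hBc hBe) hBbig.not_ge
    exact (congrArg Subtype.val (Subgroup.mem_center_iff.1 (hc ⟨x, hEp hx⟩ hx) ⟨a, hBR ha⟩)).symm
  haveI : Nontrivial R := ⟨⟨e, 1, fun h => hec (h ▸ one_mem _)⟩⟩
  haveI := hRp.center_nontrivial
  obtain ⟨z, hz⟩ := exists_prime_orderOf_dvd_card' (G := Subgroup.center R) r (by
    obtain ⟨m, hm0, hm⟩ := (hRp.to_subgroup (Subgroup.center R)).nontrivial_iff_card.1 inferInstance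
    rw [hm]; exact dvd_pow_self r hm0.ne')
  have hzr : (z : R) ^ r = 1 := by rw [← Subgroup.coe_pow, ← hz, pow_orderOf_eq_one, Subgroup.coe_one]
  have hcyc : ∀ b : R, b ^ r = 1 → Cfsg.IsElementaryAbelian r (Subgroup.zpowers b) := fun b hb =>
    ⟨inferInstance, fun a ha => by
      obtain ⟨m, rfl⟩ := Subgroup.mem_zpowers_iff.1 ha
      rw [← zpow_natCast, ← zpow_mul, mul_comm, zpow_mul, zpow_natCast, hb, one_zpow]⟩
  set K := Subgroup.zpowers (z : R) ⊔ Subgroup.zpowers e with hK
  set E1 := E' ⊔ Subgroup.zpowers (z : R) with hE1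
  have hE1el : Cfsg.IsElementaryAbelian r E1 := CfsgLib.NormalEl.elementary_sup hE'el (hcyc _ hzr) fun a _ b hb => by
    obtain ⟨m, rfl⟩ := Subgroup.mem_zpowers_iff.1 hb
    exact Subgroup.mem_center_iff.1 (zpow_mem z.2 m) a
  have hKE1 : K ≤ E1 := sup_le le_sup_right ((Subgroup.zpowers_le.2 heE).trans le_sup_left)
  have hKcard : r ^ 2 ≤ Nat.card K := by
    refine CfsgLib.NormalEl.pow_succ_le_card hRp (lt_of_le_of_ne le_sup_left fun h => hec ?_) (k := 1) ?_
    · have : e ∈ Subgroup.zpowers (z : R) := h ▸ (le_sup_right : Subgroup.zpowers e ≤ _) (Subgroup.mem_zpowers e)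
      exact (Subgroup.zpowers_le.2 z.2) this
    · rw [pow_one, Nat.card_zpowers, Subgroup.orderOf_coe, hz]
  have hE1card : Nat.card E1 ≤ r ^ 2 := hC' E1 hE1el fun a ha x hx =>
    CfsgLib.NormalEl.commute_of_elementary hE1el ((le_sup_left : E' ≤ E1) hx) ha
  have hKE : K = E1 := Subgroup.eq_of_le_of_card_ge hKE1 (hE1card.trans hKcard)
  have he : ∀ D : Subgroup R, (∀ b ∈ D, b ^ r = 1 ∧ b * e = e * b) → Nat.card D ≤ r ^ 2 := by
    intro D hD
    refine (Subgroup.card_le_of_le fun b hb => ?_).trans hE1card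
    obtain ⟨hbr, hbe⟩ := hD b hb
    have hbK : K ≤ Subgroup.centralizer ({b} : Set R) := by
      rw [hK, sup_le_iff, Subgroup.zpowers_le, Subgroup.zpowers_le]
      exact ⟨Subgroup.mem_centralizer_singleton_iff.2 ((Subgroup.mem_center_iff.1 z.2 b).symm),
        Subgroup.mem_centralizer_singleton_iff.2 hbe.symm⟩
    have hel := CfsgLib.NormalEl.elementary_sup hE1el (hcyc b hbr) fun a ha c hc => by
      obtain ⟨m, rfl⟩ := Subgroup.mem_zpowers_iff.1 hc
      exact (Commute.zpow_right (Subgroup.mem_centralizer_singleton_iff.1 (hbK (hKE ▸ ha))) m)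
    have hle := hC' _ hel fun a ha x hx =>
      CfsgLib.NormalEl.commute_of_elementary hel ((le_sup_left.trans le_sup_left : E' ≤ _) hx) ha
    have heq : E1 = E1 ⊔ Subgroup.zpowers b :=
      Subgroup.eq_of_le_of_card_ge le_sup_left (hle.trans (hKcard.trans (Subgroup.card_le_of_le hKE1)))
    rw [heq]
    exact (le_sup_right : Subgroup.zpowers b ≤ E1 ⊔ _) (Subgroup.mem_zpowers b)
  obtain ⟨n, hn⟩ := CfsgLib.RankTwoAut.exists_pow_eq_one_few hp2 hRp e he hodd
    (MulAut.conjNormal : G →* MulAut R) hy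
  refine ⟨n, Subgroup.mem_centralizer_iff.2 fun c hc => ?_⟩
  rw [← map_pow] at hn
  have h := congrArg Subtype.val (DFunLike.congr_fun hn ⟨c, hc⟩)
  rw [MulAut.conjNormal_apply, MulAut.one_apply] at h
  exact (mul_inv_eq_iff_eq_mul.1 h).symm


end Cfsg.Agent.S1456
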