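import Cfsg.Statements.S1460
import Cfsg.Agent.CoprimeAction.Basic
import Mathlib.Tactic

set_option autoImplicit false
open Cfsg
open scoped commutatorElement

namespace Cfsg.Agent.S1460

/-- Let G be a finite solvable group, K a normal subgroup and U a subgroup with G = KU, and H ≤ U a subgroup whose order is coprime to that of K. Then H ∩ G' = H ∩ U'; N_G(H) is generated by K ∩ C_G(H) and U ∩ N_G(H); and if gHg⁻¹ ≤ U for some g ∈ G then g = u c with u ∈ U and c ∈ K ∩ C_G(H). -/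
theorem result {G : Type*} [Group G] [Finite G] [Group.IsSolvable G] (K U H : Subgroup G) [K.Normal] (hKU : K ⊔ U = ⊤) (hH : H ≤ U) (hcop : (Nat.card H).Coprime (Nat.card K)) :
    H ⊓ commutator G = H ⊓ ⁅U, U⁆ ∧
      Subgroup.normalizer (H : Set G) = (K ⊓ Subgroup.centralizer (H : Set G)) ⊔ (U ⊓ Subgroup.normalizer (H : Set G)) ∧
      ∀ g : G, H.map (MulAut.conj g).toMonoidHom ≤ U → ∃ u ∈ U, ∃ c ∈ K ⊓ Subgroup.centralizer (H : Set G), g = u * c := by
  have hc : ∀ g : G, H.map (MulAut.conj g).toMonoidHom ≤ U → ∃ u ∈ U, ∃ c ∈ K ⊓ Subgroup.centralizer (H : Set G), g = u * c := by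
    intro g hg
    obtain ⟨u, hu, k, hk, rfl⟩ := Subgroup.mem_sup_of_normal_right.1 (show g ∈ U ⊔ K by rw [sup_comm, hKU]; trivial)
    set N := U ⊓ K with hN
    set A := H.map (MulAut.conj k).toMonoidHom with hA
    have hAU : A ≤ U := by
      rintro _ ⟨a, ha, rfl⟩
      have h := U.mul_mem (U.mul_mem (U.inv_mem hu) (hg ⟨a, ha, rfl⟩)) hu
      simpa [mul_assoc] using h
    have hAN : A ≤ Subgroup.normalizer (N : Set G) := fun a ha => Subgroup.mem_normalizer_fintype fun n hn =>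
      ⟨U.mul_mem (U.mul_mem (hAU ha) hn.1) (U.inv_mem (hAU ha)), Subgroup.Normal.conj_mem inferInstance n hn.2 a⟩
    have hcardA : Nat.card A = Nat.card H := Subgroup.card_map_of_injective (MulEquiv.injective _)
    obtain ⟨_, ⟨m, hm, rfl⟩, hfix⟩ := CfsgLib.CoprimeAction.exists_fixed hAN
      (by rw [hcardA]; exact hcop.coprime_dvd_right (Subgroup.card_dvd_of_le inf_le_right))
      (Or.inl inferInstance) ((fun n : G => (QuotientGroup.mk n : G ⧸ H)) '' (N : Set G))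
      ⟨_, 1, N.one_mem, rfl⟩
      (by rintro a ha _ ⟨n, hn, rfl⟩; exact ⟨a * n, N.mul_mem ha hn, rfl⟩)
      (by
        rintro _ ⟨a, ha, rfl⟩ _ ⟨n, hn, rfl⟩
        refine ⟨k * a * k⁻¹ * n * a⁻¹, ?_, ?_⟩
        · have haU : k * a * k⁻¹ ∈ U := hAU ⟨a, ha, rfl⟩
          refine ⟨U.mul_mem (U.mul_mem haU hn.1) (U.inv_mem (hH ha)), ?_⟩
          rw [show k * a * k⁻¹ * n * a⁻¹ = k * (a * (k⁻¹ * n) * a⁻¹) by group]
          exact K.mul_mem hk (Subgroup.Normal.conj_mem inferInstance _ (K.mul_mem (K.inv_mem hk) hn.2) a)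
        · show (QuotientGroup.mk _ : G ⧸ H) = QuotientGroup.mk _
          rw [QuotientGroup.eq]
          simpa [mul_assoc] using ha)
      (by
        rintro _ ⟨a, ha, rfl⟩ _ ⟨b, hb, rfl⟩
        exact ⟨b * a⁻¹, N.mul_mem hb (N.inv_mem ha), by show (QuotientGroup.mk _ : G ⧸ H) = _; simp⟩)
    refine ⟨u * m, U.mul_mem hu hm.1, m⁻¹ * k, ⟨K.mul_mem (K.inv_mem hm.2) hk, ?_⟩, by group⟩
    refine Subgroup.mem_centralizer_iff.2 fun a ha => ?_
    have h1 : (k * a * k⁻¹) • (QuotientGroup.mk m : G ⧸ H) = QuotientGroup.mk m := hfix _ ⟨a, ha, rfl⟩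
    rw [MulAction.Quotient.smul_mk, QuotientGroup.eq] at h1
    have hcK : m⁻¹ * k ∈ K := K.mul_mem (K.inv_mem hm.2) hk
    have h2 : (m⁻¹ * k) * a * (m⁻¹ * k)⁻¹ * a⁻¹ ∈ H ⊓ K := by
      refine ⟨H.mul_mem ?_ (H.inv_mem ha), ?_⟩
      · simpa [mul_assoc] using H.inv_mem h1
      · rw [show (m⁻¹ * k) * a * (m⁻¹ * k)⁻¹ * a⁻¹ = (m⁻¹ * k) * (a * (m⁻¹ * k)⁻¹ * a⁻¹) by group]
        exact K.mul_mem hcK (Subgroup.Normal.conj_mem inferInstance _ (K.inv_mem hcK) a)
    rw [Subgroup.inf_eq_bot_of_coprime hcop, Subgroup.mem_bot, mul_inv_eq_one, mul_inv_eq_iff_eq_mul] at h2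
    exact h2.symm
  refine ⟨le_antisymm ?_ (inf_le_inf_left _ (by rw [commutator_def]; exact Subgroup.commutator_mono le_top le_top)), le_antisymm ?_ ?_, hc⟩
  · rintro a ⟨ha, haG⟩
    refine ⟨ha, ?_⟩
    set π := QuotientGroup.mk' K with hπ
    have hmapU : U.map π = ⊤ := by
      rw [← Subgroup.map_top_of_surjective π (QuotientGroup.mk'_surjective K), ← hKU, Subgroup.map_sup,
        (Subgroup.map_eq_bot_iff K).2 (by rw [QuotientGroup.ker_mk']), bot_sup_eq]
    have h1 : π a ∈ ⁅U, U⁆.map π := by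
      rw [Subgroup.map_commutator, hmapU, ← Subgroup.map_top_of_surjective π (QuotientGroup.mk'_surjective K), ← Subgroup.map_commutator, ← commutator_def]
      exact ⟨a, haG, rfl⟩
    obtain ⟨c, hc', hca⟩ := h1
    have hcU : c ∈ U := (Subgroup.commutator_le.2 fun x hx y hy => U.mul_mem (U.mul_mem (U.mul_mem hx hy) (U.inv_mem hx)) (U.inv_mem hy)) hc'
    have hk : c⁻¹ * a ∈ K := QuotientGroup.eq.1 hca
    -- the abelian quotient of `U`
    set D := (⁅U, U⁆).subgroupOf U with hD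
    haveI : D.Normal := by
      have e : D = commutator ↥U := by
        rw [hD, ← Subgroup.map_subtype_commutator, Subgroup.subgroupOf, Subgroup.comap_map_eq_self_of_injective U.subtype_injective]
      rw [e]
      infer_instance
    have hkU : c⁻¹ * a ∈ U := U.mul_mem (U.inv_mem hcU) (hH ha)
    have e : QuotientGroup.mk' D ⟨a, hH ha⟩ = QuotientGroup.mk' D ⟨c⁻¹ * a, hkU⟩ := by
      rw [show (⟨a, hH ha⟩ : U) = ⟨c, hcU⟩ * ⟨c⁻¹ * a, hkU⟩ from Subtype.ext (by simp), map_mul,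
        show QuotientGroup.mk' D ⟨c, hcU⟩ = 1 from (QuotientGroup.eq_one_iff _).2 (Subgroup.mem_subgroupOf.2 hc'), one_mul]
    have hA : orderOf (QuotientGroup.mk' D ⟨a, hH ha⟩) ∣ Nat.card H := by
      refine (orderOf_map_dvd _ _).trans ?_
      rw [Subgroup.orderOf_mk, ← Subgroup.orderOf_mk a ha]
      exact orderOf_dvd_natCard _
    have hB : orderOf (QuotientGroup.mk' D ⟨c⁻¹ * a, hkU⟩) ∣ Nat.card K := by
      refine (orderOf_map_dvd _ _).trans ?_
      rw [Subgroup.orderOf_mk, ← Subgroup.orderOf_mk (c⁻¹ * a) hk]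
      exact orderOf_dvd_natCard _
    rw [← e] at hB
    exact Subgroup.mem_subgroupOf.1 ((QuotientGroup.eq_one_iff _).1 (orderOf_eq_one_iff.1 (Nat.eq_one_of_dvd_coprimes hcop hA hB)))
  · intro g hg
    obtain ⟨u, hu, c, hc', rfl⟩ := hc g ((Subgroup.mem_normalizer_iff_map_conj_eq.1 hg).le.trans hH)
    refine Subgroup.mul_mem _ (Subgroup.mem_sup_right ⟨hu, ?_⟩) (Subgroup.mem_sup_left hc')
    simpa using mul_mem hg (inv_mem (Subgroup.centralizer_le_normalizer _ hc'.2))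
  · exact sup_le (inf_le_right.trans (Subgroup.centralizer_le_normalizer _)) inf_le_right

end Cfsg.Agent.S1460
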