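import Cfsg.Statements.S1462
import Mathlib.Tactic
import Cfsg.Agent.PCore.AInvariant

set_option autoImplicit false
open Cfsg
open scoped commutatorElement

namespace Cfsg.Agent.S1462

/-- Let G be a finite solvable group, p an odd prime with G = O_{p',p,p'}(G), E an elementary abelian p-subgroup contained in no larger elementary abelian p-subgroup of G, and L a subgroup of order coprime to p normalized by E. Then L ≤ O_{p'}(G). -/
theorem result {G : Type*} [Group G] [Finite G] [Group.IsSolvable G] (p : ℕ) [Fact p.Prime] (hp : p ≠ 2) (hpl : Cfsg.PLengthLE p 1 G) (E L : Subgroup G) (hE : Cfsg.IsElementaryAbelian p E)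
    (hEmax : ∀ B : Subgroup G, Cfsg.IsElementaryAbelian p B → E ≤ B → B = E) (hL : (Nat.card L).Coprime p) (hEL : E ≤ Subgroup.normalizer (L : Set G)) :
    L ≤ Cfsg.pPrimeCore p G := by
  refine CfsgLib.PCore.le_pPrimeCore_of_omega hp CfsgLib.PCore.isPConstrained_of_isSolvable
    (fun a => ⟨1, Subtype.ext (by simpa using hE.2 a a.2)⟩) (fun x hx hxp => ?_) hL hEL
  have hcomm : E ⊔ Subgroup.zpowers x ≤ Subgroup.centralizer ((E ⊔ Subgroup.zpowers x : Subgroup G) : Set G) := by
    have := hE.1
    have h1 : E ≤ Subgroup.centralizer (E : Set G) := Subgroup.le_centralizer E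
    have h2 : Subgroup.zpowers x ≤ Subgroup.centralizer (E : Set G) := Subgroup.zpowers_le.2 hx
    have h3 : Subgroup.zpowers x ≤ Subgroup.centralizer ((Subgroup.zpowers x : Subgroup G) : Set G) :=
      Subgroup.le_centralizer _
    refine sup_le (Subgroup.le_centralizer_iff.1 (sup_le h1 h2)) (Subgroup.le_centralizer_iff.1 (sup_le ?_ h3))
    exact Subgroup.le_centralizer_iff.1 h2
  have hel : Cfsg.IsElementaryAbelian p (E ⊔ Subgroup.zpowers x) := by
    refine ⟨⟨⟨fun a b => Subtype.ext ((Subgroup.mem_centralizer_iff.1 (hcomm b.2) a a.2))⟩⟩, fun a ha => ?_⟩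
    rw [Subgroup.sup_eq_closure] at ha
    have hmem : a ∈ E ⊔ Subgroup.zpowers x := by rw [Subgroup.sup_eq_closure]; exact ha
    induction ha using Subgroup.closure_induction with
    | mem y hy =>
      rcases hy with hy | ⟨k, rfl⟩
      · exact hE.2 y hy
      · show (x ^ k) ^ p = 1
        rw [← zpow_natCast, zpow_comm, zpow_natCast, hxp, one_zpow]
    | one => exact one_pow p
    | mul y z hy hz ihy ihz =>
      have hy' : y ∈ E ⊔ Subgroup.zpowers x := by rw [Subgroup.sup_eq_closure]; exact hy
      have hz' : z ∈ E ⊔ Subgroup.zpowers x := by rw [Subgroup.sup_eq_closure]; exact hz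
      have hc : Commute y z := Subgroup.mem_centralizer_iff.1 (hcomm hz') y hy'
      rw [hc.mul_pow, ihy hy', ihz hz', one_mul]
    | inv y hy ihy =>
      have hy' : y ∈ E ⊔ Subgroup.zpowers x := by rw [Subgroup.sup_eq_closure]; exact hy
      rw [inv_pow, ihy hy', inv_one]
  rw [← hEmax _ hel le_sup_left]
  exact Subgroup.mem_sup_right (Subgroup.mem_zpowers x)

end Cfsg.Agent.S1462
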