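import Cfsg.Statements.S1463
import Mathlib
import Cfsg.Agent.H29.Dickson.Proj
import Cfsg.Agent.H29.Dickson.ClassifyP

set_option autoImplicit false
open scoped MatrixGroups
open Cfsg
open scoped commutatorElement

namespace Cfsg.Agent.S1463

section
open Matrix OnePoint CfsgLib.H29.Dickson
open scoped OnePoint

variable {K : Type*} [Field K]

/-- A vector spanning the line of a point of the projective line. -/
def lineVec : OnePoint K → K × K := fun x => OnePoint.rec (1, 0) (fun k => (k, 1)) x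

theorem lineVec_ne (x : OnePoint K) : lineVec x ≠ 0 := by
  cases x with
  | infty => exact fun h => one_ne_zero (α := K) (congrArg Prod.fst h)
  | coe k => exact fun h => one_ne_zero (α := K) (congrArg Prod.snd h)

theorem eigen_of_fix (m : GL (Fin 2) K) (x : OnePoint K) (h : pr m • x = x) :
    ∃ μ : K, m 0 0 * (lineVec x).1 + m 0 1 * (lineVec x).2 = μ * (lineVec x).1 ∧
      m 1 0 * (lineVec x).1 + m 1 1 * (lineVec x).2 = μ * (lineVec x).2 := by
  cases x with
  | infty =>
    have h0 := smul_infty_eq_iff.1 h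
    exact ⟨m 0 0, by show _ * (1:K) + _ * (0:K) = _ * (1:K); ring, by
      show _ * (1:K) + _ * (0:K) = _ * (0:K); rw [h0]; ring⟩
  | coe k =>
    by_cases hd : m 1 0 * k + m 1 1 = 0
    · rw [smul_coe_eq_infty hd] at h
      exact absurd h (infty_ne_coe k)
    · rw [smul_coe_of hd, OnePoint.coe_eq_coe, div_eq_iff hd] at h
      refine ⟨m 1 0 * k + m 1 1, ?_, ?_⟩
      · show _ * k + _ * (1:K) = _ * k
        rw [mul_one, h]; ring
      · show _ * k + _ * (1:K) = _ * (1:K)
        ring

/-- A finite group acting as a line action, of odd order divisible by `p`, fixes a point. -/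
theorem exists_fixed_of_odd (p : ℕ) [Fact p.Prime] [IsAlgClosed K] [CharP K p] (G : Subgroup (P2 K))
    [Finite G] (hodd : Odd (Nat.card G)) :
    ∃ x : OnePoint K, ∀ g ∈ G, g • x = x := by
  have key : ∀ n : ℕ, 2 ∣ n → ¬ n ∣ Nat.card G := fun n hn hd =>
    Nat.not_even_iff_odd.2 hodd (even_iff_two_dvd.2 (hn.trans hd))
  rcases (lineAct p G).classify with h | h
  · cases h with
    | fixed x hx => exact ⟨x, fun g hg => hx ⟨g, hg⟩⟩
    | dih h =>
      obtain ⟨m, -, -, -, hm, -, -, -, -, -, ⟨e⟩⟩ := h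
      refine absurd dvd_rfl (key (Nat.card G) ?_)
      rw [Nat.card_congr e.toEquiv, DihedralGroup.nat_card]
      exact dvd_mul_right 2 m
    | a4 hc => exact absurd (hc ▸ dvd_rfl) (key 12 (by norm_num))
    | s4 hc => exact absurd (hc ▸ dvd_rfl) (key 24 (by norm_num))
    | a5 hc => exact absurd (hc ▸ dvd_rfl) (key 60 (by norm_num))
    | proj h =>
      obtain ⟨x, y, q, k, -, hq, -, hQ, -, -, horb, -⟩ := h
      refine absurd (?_ : q + 1 ∣ Nat.card G) (key _ ?_)
      · rw [← horb, Nat.card_congr (MulAction.orbitEquivQuotientStabilizer G x)]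
        exact Subgroup.card_quotient_dvd_card _
      · have hqd : q ∣ Nat.card G := hQ ▸ Subgroup.card_subgroup_dvd_card _
        have : Odd q := hodd.of_dvd_nat hqd
        exact even_iff_two_dvd.1 this.add_one
  · refine ⟨∞, fun g hg => ?_⟩
    have : (⟨g, hg⟩ : G) = 1 := Subsingleton.elim _ _
    rw [show g = 1 from congrArg Subtype.val this, one_smul]

end

/-- Let F be a field of odd characteristic p and H a finite subgroup of odd order of GL(2, F) that leaves no 1-dimensional subspace of F² invariant. Then p does not divide the order of H. -/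
theorem result {F : Type*} [Field F] (p : ℕ) [Fact p.Prime] [CharP F p] (hp : p ≠ 2)
    (H : Subgroup (GL (Fin 2) F)) [Finite H] (hodd : Odd (Nat.card H))
    (hirr : ∀ v : Fin 2 → F, v ≠ 0 → ∃ g ∈ H, (g : Matrix (Fin 2) (Fin 2) F).mulVec v ∉ Submodule.span F {v}) :
    ¬ p ∣ Nat.card H := by
  intro hpH
  obtain ⟨⟨g, hgH⟩, hgp⟩ := exists_prime_orderOf_dvd_card' p hpH
  rw [Subgroup.orderOf_mk] at hgp
  have hp1 : 1 < p := (Fact.out : p.Prime).one_lt
  -- `g - 1` is nilpotent of index two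
  set N : Matrix (Fin 2) (Fin 2) F := (g : Matrix (Fin 2) (Fin 2) F) - 1 with hN
  have hNp : N ^ p = 0 := by
    rw [hN, sub_pow_char_of_commute p (Commute.one_right _), one_pow, ← Units.val_pow_eq_pow_val,
      ← hgp, pow_orderOf_eq_one, Units.val_one, sub_self]
  have hN2 : N * N = 0 := by
    have h := (Matrix.isNilpotent_charpoly_sub_pow_of_isNilpotent ⟨p, hNp⟩)
    rw [Polynomial.isNilpotent_iff] at h
    have h0 : ∀ i, (N.charpoly - Polynomial.X ^ Fintype.card (Fin 2)).coeff i = 0 := fun i =>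
      (h i).eq_zero
    have hc : N.charpoly = Polynomial.X ^ 2 := by
      apply Polynomial.ext
      intro i
      have := h0 i
      rw [Fintype.card_fin, Polynomial.coeff_sub, sub_eq_zero] at this
      exact this
    have := Matrix.aeval_self_charpoly N
    rw [hc] at this
    simpa [pow_two] using this
  have hN0 : N ≠ 0 := by
    intro h
    rw [hN, sub_eq_zero] at h
    have : g = 1 := Units.ext h
    rw [this, orderOf_one] at hgp
    omega
  obtain ⟨u, hu⟩ : ∃ u, N.mulVec u ≠ 0 := by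
    by_contra hc
    push Not at hc
    exact hN0 (Matrix.ext_of_mulVec_single fun i => by rw [hc, Matrix.zero_mulVec])
  set v := N.mulVec u with hv
  have hgv : N.mulVec v = 0 := by rw [hv, Matrix.mulVec_mulVec, hN2, Matrix.zero_mulVec]
  obtain ⟨h, hhH, hhv⟩ := hirr v hu
  -- pass to the algebraic closure
  let K := AlgebraicClosure F
  have : CharP K p := charP_of_injective_algebraMap (algebraMap F K).injective p
  set G : Subgroup (CfsgLib.H29.Dickson.P2 K) :=
    H.map (CfsgLib.H29.Dickson.pr.comp (Matrix.GeneralLinearGroup.map (algebraMap F K))) with hG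
  have : Finite G := Finite.of_surjective
    (MonoidHom.subgroupMap (CfsgLib.H29.Dickson.pr.comp (Matrix.GeneralLinearGroup.map (algebraMap F K))) H)
    (MonoidHom.subgroupMap_surjective _ H)
  have hoddG : Odd (Nat.card G) := hodd.of_dvd_nat (Subgroup.card_map_dvd _ _)
  obtain ⟨x, hx⟩ := exists_fixed_of_odd p G hoddG
  set ι := algebraMap F K
  obtain ⟨μ, hμ1, hμ2⟩ := eigen_of_fix (Matrix.GeneralLinearGroup.map ι g) x (hx _ ⟨g, hgH, rfl⟩)
  obtain ⟨ν, hν1, hν2⟩ := eigen_of_fix (Matrix.GeneralLinearGroup.map ι h) x (hx _ ⟨h, hhH, rfl⟩)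
  set w₀ := (lineVec x).1
  set w₁ := (lineVec x).2
  have hw : w₀ ≠ 0 ∨ w₁ ≠ 0 := by
    by_contra hc
    push Not at hc
    exact lineVec_ne x (Prod.ext hc.1 hc.2)
  have hap : ∀ (m : GL (Fin 2) F) i j, (Matrix.GeneralLinearGroup.map ι m) i j = ι (m i j) := fun m i j => rfl
  simp only [hap] at hμ1 hμ2 hν1 hν2
  -- the entries
  have e00 : g 0 0 = N 0 0 + 1 := by simp [hN]
  have e01 : g 0 1 = N 0 1 := by simp [hN]
  have e10 : g 1 0 = N 1 0 := by simp [hN]
  have e11 : g 1 1 = N 1 1 + 1 := by simp [hN]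
  have sq00 := congrFun (congrFun hN2 0) 0
  have sq01 := congrFun (congrFun hN2 0) 1
  have sq10 := congrFun (congrFun hN2 1) 0
  have sq11 := congrFun (congrFun hN2 1) 1
  simp only [Matrix.mul_apply, Fin.sum_univ_two, Matrix.zero_apply] at sq00 sq01 sq10 sq11
  have v0 : N 0 0 * v 0 + N 0 1 * v 1 = 0 := by
    have := congrFun hgv 0
    simpa [Matrix.mulVec, dotProduct, Fin.sum_univ_two] using this
  have v1 : N 1 0 * v 0 + N 1 1 * v 1 = 0 := by
    have := congrFun hgv 1
    simpa [Matrix.mulVec, dotProduct, Fin.sum_univ_two] using this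
  rw [e00, e01, map_add, map_one] at hμ1
  rw [e10, e11, map_add, map_one] at hμ2
  -- `(μ - 1) ^ 2 w = 0`
  have hμ : μ - 1 = 0 := by
    have k0 : (μ - 1) * (μ - 1) * w₀ = 0 := by
      have h1 := congrArg ι sq00; have h2 := congrArg ι sq01
      rw [map_add, map_mul, map_mul, map_zero] at h1 h2
      linear_combination w₀ * h1 + w₁ * h2 - (ι (N 0 0) + (μ - 1)) * hμ1 - ι (N 0 1) * hμ2
    have k1 : (μ - 1) * (μ - 1) * w₁ = 0 := by
      have h1 := congrArg ι sq10; have h2 := congrArg ι sq11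
      rw [map_add, map_mul, map_mul, map_zero] at h1 h2
      linear_combination w₀ * h1 + w₁ * h2 - (ι (N 1 1) + (μ - 1)) * hμ2 - ι (N 1 0) * hμ1
    rcases hw with hw | hw
    · simpa [hw] using k0
    · simpa [hw] using k1
  have n0 : ι (N 0 0) * w₀ + ι (N 0 1) * w₁ = 0 := by linear_combination hμ1 + w₀ * hμ
  have n1 : ι (N 1 0) * w₀ + ι (N 1 1) * w₁ = 0 := by linear_combination hμ2 + w₁ * hμ
  have u0 := congrArg ι v0
  have u1 := congrArg ι v1
  rw [map_add, map_mul, map_mul, map_zero] at u0 u1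
  -- `v` and `w` are dependent
  have hD : ι (v 0) * w₁ - ι (v 1) * w₀ = 0 := by
    by_contra hD
    refine hN0 (Matrix.ext fun i j => ι.injective ?_)
    rw [Matrix.zero_apply, map_zero]
    revert i j
    simp only [Fin.forall_fin_two]
    refine ⟨⟨?_, ?_⟩, ⟨?_, ?_⟩⟩ <;> refine (mul_eq_zero.1 (?_ : _ * (ι (v 0) * w₁ - ι (v 1) * w₀) = 0)).resolve_right hD
    · linear_combination w₁ * u0 - ι (v 1) * n0
    · linear_combination ι (v 0) * n0 - w₀ * u0
    · linear_combination w₁ * u1 - ι (v 1) * n1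
    · linear_combination ι (v 0) * n1 - w₀ * u1
  -- so `h v` is a multiple of `v`
  set z := (h : Matrix (Fin 2) (Fin 2) F).mulVec v with hz
  have hz0 : z 0 = h 0 0 * v 0 + h 0 1 * v 1 := by simp [hz, Matrix.mulVec, dotProduct, Fin.sum_univ_two]
  have hz1 : z 1 = h 1 0 * v 0 + h 1 1 * v 1 := by simp [hz, Matrix.mulVec, dotProduct, Fin.sum_univ_two]
  have hdet : v 0 * z 1 - v 1 * z 0 = 0 := by
    apply ι.injective
    rw [hz0, hz1, map_zero, map_sub, map_mul, map_mul, map_add, map_add, map_mul, map_mul, map_mul, map_mul]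
    rcases hw with hw | hw
    · refine (mul_eq_zero.1 (?_ : _ * (w₀ * w₀) = 0)).resolve_right (mul_ne_zero hw hw)
      linear_combination (ι (v 0) * ι (v 0) * w₀) * hν2 - (ι (v 0) * ι (v 0) * w₁) * hν1
        + (-(ι (h 1 1) * ι (v 0) * w₀) + ι (h 0 1) * (ι (v 0) * w₁ + ι (v 1) * w₀) + ι (h 0 0) * ι (v 0) * w₀) * hD
    · refine (mul_eq_zero.1 (?_ : _ * (w₁ * w₁) = 0)).resolve_right (mul_ne_zero hw hw)
      linear_combination (ι (v 1) * ι (v 1) * w₀) * hν2 - (ι (v 1) * ι (v 1) * w₁) * hν1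
        + (ι (h 1 0) * (ι (v 0) * w₁ + ι (v 1) * w₀) + ι (h 1 1) * ι (v 1) * w₁ - ι (h 0 0) * ι (v 1) * w₁) * hD
  refine hhv (Submodule.mem_span_singleton.2 ?_)
  by_cases hv0 : v 0 = 0
  · have hv1 : v 1 ≠ 0 := fun e => hu (funext fun i => by fin_cases i <;> assumption)
    refine ⟨z 1 / v 1, funext fun i => ?_⟩
    fin_cases i
    · show z 1 / v 1 * v 0 = z 0
      rw [hv0, zero_mul, zero_sub, neg_eq_zero, mul_eq_zero] at hdet
      rw [hv0, mul_zero, hdet.resolve_left hv1]
    · show z 1 / v 1 * v 1 = z 1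
      exact div_mul_cancel₀ _ hv1
  · refine ⟨z 0 / v 0, funext fun i => ?_⟩
    fin_cases i
    · show z 0 / v 0 * v 0 = z 0
      exact div_mul_cancel₀ _ hv0
    · show z 0 / v 0 * v 1 = z 1
      rw [div_mul_eq_mul_div, div_eq_iff hv0]
      linear_combination -hdet

end Cfsg.Agent.S1463
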