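import Cfsg.Statements.S1465
import Cfsg.Agent.QdFree.Corollaries
-- import your own Cfsg.Agent.* helpers here

set_option autoImplicit false
open Cfsg

namespace Cfsg.Agent.S1465

/-- Let p be an odd prime, G a solvable group of odd order, P a normal p-subgroup of G, and X the subgroup generated by a family of abelian p-subgroups of G each normalized by P. Then the image of X in G/C_G(P) lies in O_p(G/C_G(P)); and if O_{p'}(G) = 1 and O_p(G) ∩ C_G(P) ≤ P then X ≤ O_p(G). -/
theorem result {G : Type*} [Group G] [Finite G] [Group.IsSolvable G] (hodd : Odd (Nat.card G)) (p : ℕ) [Fact p.Prime] (hp : p ≠ 2) (P : Subgroup G) [P.Normal] (hP : IsPGroup p P)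
    (S : Set (Subgroup G)) (hS : ∀ B ∈ S, IsMulCommutative B ∧ IsPGroup p B ∧ P ≤ Subgroup.normalizer (B : Set G)) :
    (sSup S).map (QuotientGroup.mk' (Subgroup.centralizer (P : Set G))) ≤ Cfsg.pCore p (G ⧸ Subgroup.centralizer (P : Set G)) ∧
      (Cfsg.pPrimeCore p G = ⊥ → Cfsg.pCore p G ⊓ Subgroup.centralizer (P : Set G) ≤ P → sSup S ≤ Cfsg.pCore p G) := by
  set C := Subgroup.centralizer (P : Set G)
  set π := QuotientGroup.mk' C
  have hmain : (sSup S).map π ≤ Cfsg.pCore p (G ⧸ C) := by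
    rw [Subgroup.map_le_iff_le_comap]
    refine sSup_le fun B hB b hb => ?_
    obtain ⟨hBc, -, hPB⟩ := hS B hB
    haveI := hBc
    refine CfsgLib.ZJ.isPStableOn_of_isNormalizerPStable (CfsgLib.QdFree.isNormalizerPStable_of_odd hodd hp) P hP b ?_
    have h1 : ⁅P, Subgroup.zpowers b⁆ ≤ B := by
      refine Subgroup.commutator_le.2 fun k hk z hz => ?_
      rw [commutatorElement_def]
      exact B.mul_mem ((Subgroup.mem_normalizer_iff.1 (hPB hk) z).1 (Subgroup.zpowers_le.2 hb hz))
        (B.inv_mem (Subgroup.zpowers_le.2 hb hz))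
    rw [Subgroup.commutator_eq_bot_iff_le_centralizer]
    exact fun x hx => Subgroup.mem_centralizer_iff.2 fun z hz => setLike_mul_comm (Subgroup.zpowers_le.2 hb hz) (h1 hx)
  refine ⟨hmain, fun hO hTC => ?_⟩
  set T := Cfsg.pCore p G
  haveI : T.Normal := Cfsg.pCore_normal p G
  haveI : C.Normal := Subgroup.normal_centralizer
  have hhh : Subgroup.centralizer (T : Set G) ≤ T :=
    CfsgLib.PCore.hall_higman CfsgLib.PCore.isPSolvable_of_isSolvable hO
  obtain ⟨n, hn⟩ := IsPGroup.iff_card.1 (CfsgLib.PCore.isPGroup_pCore p G)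
  have hCp : IsPGroup p C := by
    refine CfsgLib.PCore.isPGroup_of_forall_coprime C fun y hy hyp => ?_
    have h2 : y ∈ Subgroup.centralizer (T : Set G) := by
      refine CfsgLib.CoprimeAction.le_centralizer_of_chain (A := Subgroup.zpowers y) (N := T ⊓ C) ?_ ?_ ?_
        (Subgroup.mem_zpowers y)
      · obtain ⟨m, hm⟩ := IsPGroup.iff_card.1 ((CfsgLib.PCore.isPGroup_pCore p G).to_le
          (inf_le_left : T ⊓ C ≤ T))
        rw [Nat.card_zpowers, hm]
        exact hyp.pow_right m
      · refine Subgroup.zpowers_le.2 (Subgroup.mem_centralizer_iff.2 fun w hw => ?_)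
        exact Subgroup.mem_centralizer_iff.1 hy w (hTC hw)
      · exact le_trans (Subgroup.commutator_mono le_rfl (Subgroup.zpowers_le.2 hy)) (Subgroup.commutator_le_inf T C)
    exact orderOf_eq_one_iff.1 (Nat.eq_one_of_dvd_coprimes (hyp.pow_right n) dvd_rfl
      (hn ▸ Subgroup.orderOf_dvd_natCard T (hhh h2)))
  intro x hx
  exact CfsgLib.ZJ.mem_of_normal_isPGroup_quotient C hCp (hmain ⟨x, hx, rfl⟩)

end Cfsg.Agent.S1465
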