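import Cfsg.Statements.S1469
import Cfsg.Agent.PuigCore.Main
-- import your own Cfsg.Agent.* helpers here

set_option autoImplicit false
open Cfsg

namespace Cfsg.Agent.S1469

/-- Let p be an odd prime, G a solvable group of odd order and S a Sylow p-subgroup, and let Z be the centre of the Puig subgroup L(S), viewed inside G. Then G is generated by O_{p'}(G) and N_G(Z); and if O_{p'}(G) = 1 then Z is normal in G. -/
theorem result {G : Type*} [Group G] [Finite G] [Group.IsSolvable G] (hodd : Odd (Nat.card G)) (p : ℕ) [Fact p.Prime] (hp : p ≠ 2) (S : Sylow p G) :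
    Cfsg.pPrimeCore p G ⊔ Subgroup.normalizer ((((Subgroup.center ↥(Cfsg.puigSubgroup ↥(S : Subgroup G))).map (Cfsg.puigSubgroup ↥(S : Subgroup G)).subtype).map (S : Subgroup G).subtype : Subgroup G) : Set G) = ⊤ ∧
      (Cfsg.pPrimeCore p G = ⊥ → (((Subgroup.center ↥(Cfsg.puigSubgroup ↥(S : Subgroup G))).map (Cfsg.puigSubgroup ↥(S : Subgroup G)).subtype).map (S : Subgroup G).subtype).Normal) := by
  rw [← CfsgLib.PuigCore.centerUp_eq]
  refine ⟨?_, fun hO => CfsgLib.PuigCore.centerUp_normal hodd hp hO S⟩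
  set O := Cfsg.pPrimeCore p G with hOdef
  haveI : O.Normal := Cfsg.pPrimeCore_normal p G
  set π := QuotientGroup.mk' O with hπ
  have hπs : Function.Surjective π := QuotientGroup.mk'_surjective O
  have hoddq : Odd (Nat.card (G ⧸ O)) := hodd.of_dvd_nat (Subgroup.card_quotient_dvd_card O)
  have hn := CfsgLib.PuigCore.centerUp_normal hoddq hp CfsgLib.PCore.pPrimeCore_quotient (S.mapSurjective hπs)
  have hinf : (S : Subgroup G) ⊓ O = ⊥ :=
    CfsgLib.PCore.inf_eq_bot_of_isPGroup_of_coprime S.isPGroup' (CfsgLib.PCore.pPrimeCore_coprime p G)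
  have hinj : ∀ x ∈ (S : Subgroup G), π x = 1 → x = 1 := fun x hx h1 => by
    have h2 : x ∈ (S : Subgroup G) ⊓ O := ⟨hx, (QuotientGroup.eq_one_iff x).1 h1⟩
    rwa [hinf, Subgroup.mem_bot] at h2
  rw [Sylow.coe_mapSurjective, CfsgLib.PuigCore.centerUp_map π hinj] at hn
  set Z := CfsgLib.PuigCore.centerUp (S : Subgroup G)
  set N := (Z.map π).comap π with hN
  haveI : N.Normal := hn.comap π
  have hk : π.ker = O := QuotientGroup.ker_mk' O
  have hNeq : N = Z ⊔ O := by rw [hN, Subgroup.comap_map_eq, hk]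
  obtain ⟨T, hT⟩ := CfsgLib.Transfer.exists_sylow_map_eq_inf S N
  have hZS : Z ≤ (S : Subgroup G) := inf_le_left.trans (CfsgLib.PuigCore.upIn_le _)
  have hSN : (S : Subgroup G) ⊓ N = Z := by
    refine le_antisymm ?_ (le_inf hZS (hNeq ▸ le_sup_left))
    intro x hx
    obtain ⟨z, hz, hzx⟩ := hx.2
    have h1 : z⁻¹ * x ∈ (S : Subgroup G) ⊓ O :=
      ⟨Subgroup.mul_mem _ (Subgroup.inv_mem _ (hZS hz)) hx.1, QuotientGroup.eq.1 hzx⟩
    rw [hinf, Subgroup.mem_bot, inv_mul_eq_one] at h1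
    exact h1 ▸ hz
  have hfr := Sylow.normalizer_sup_eq_top T
  rw [show ((T : Subgroup N).map N.subtype : Subgroup G) = Z from hT.trans hSN, hNeq] at hfr
  refine top_le_iff.1 (le_trans hfr.ge (sup_le le_sup_right (sup_le ?_ le_sup_left)))
  exact Subgroup.le_normalizer.trans le_sup_right

end Cfsg.Agent.S1469
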