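import Cfsg.Statements.S1470
import Mathlib.Tactic

set_option autoImplicit false
open Cfsg
open scoped commutatorElement

namespace Cfsg.Agent.S1470

/-- Let p and q be odd primes with (p^q − 1)/(p − 1) coprime to p − 1, and let E be the set of elements a of the field with p ^ q elements whose norm to the prime field is 1 and for which 2 − a also has norm 1. If a⁻¹ ∈ E for every a ∈ E and E has at least two elements, then p ≤ q. -/
theorem result (p q : ℕ) [Fact p.Prime] [Fact q.Prime] (hp : p ≠ 2) (hq : q ≠ 2) (hA : Nat.Coprime ((p ^ q - 1) / (p - 1)) (p - 1))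
    (hinv : ∀ a ∈ {a : GaloisField p q | Algebra.norm (ZMod p) a = 1 ∧ Algebra.norm (ZMod p) (2 - a) = 1}, a⁻¹ ∈ {a : GaloisField p q | Algebra.norm (ZMod p) a = 1 ∧ Algebra.norm (ZMod p) (2 - a) = 1})
    (h2 : 2 ≤ Set.ncard {a : GaloisField p q | Algebra.norm (ZMod p) a = 1 ∧ Algebra.norm (ZMod p) (2 - a) = 1}) :
    p ≤ q := by
  set E := {a : GaloisField p q | Algebra.norm (ZMod p) a = 1 ∧ Algebra.norm (ZMod p) (2 - a) = 1} with hE
  obtain ⟨a, ha, ha1⟩ : ∃ a ∈ E, a ≠ 1 := by
    by_contra hcon
    push Not at hcon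
    have : E.ncard ≤ 1 := by
      refine (Set.ncard_le_ncard (t := {1}) (fun a ha => hcon a ha) (Set.finite_singleton _)).trans ?_
      simp
    omega
  have hsym : ∀ x ∈ E, 2 - x ∈ E := fun x hx => ⟨hx.2, by rw [sub_sub_cancel]; exact hx.1⟩
  have hne : ∀ x ∈ E, x ≠ 0 := by
    intro x hx h
    have := hx.1
    rw [h, Algebra.norm_zero] at this
    exact zero_ne_one this
  let D : ℕ → GaloisField p q := fun n => (n : GaloisField p q) * (a - 1) + 1
  have hD : ∀ n : ℕ, Algebra.norm (ZMod p) (D n) = 1 ∧ ∃ b ∈ E, b * D n = D (n + 1) := by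
    intro n
    induction n with
    | zero => exact ⟨by simp [D], a, ha, by simp [D]⟩
    | succ n ih =>
      obtain ⟨hn, b, hb, hbe⟩ := ih
      refine ⟨by rw [← hbe, map_mul, hn, hb.1, one_mul], 2 - b⁻¹, hsym _ (hinv b hb), ?_⟩
      rw [sub_mul, ← hbe, inv_mul_cancel_left₀ (hne b hb), hbe]
      simp only [D]
      push_cast
      ring
  let _ := Fintype.ofFinite (Gal(GaloisField p q/ZMod p))
  let φ : Polynomial (GaloisField p q) :=
    ∏ σ : Gal(GaloisField p q/ZMod p), (Polynomial.C (σ (a - 1)) * Polynomial.X + Polynomial.C 1)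
  have hσ : ∀ σ : Gal(GaloisField p q/ZMod p), σ (a - 1) ≠ 0 := fun σ => by
    simpa [sub_eq_zero] using ha1
  have hcard : Fintype.card (Gal(GaloisField p q/ZMod p)) = q := by
    rw [← Nat.card_eq_fintype_card, IsGalois.card_aut_eq_finrank,
      GaloisField.finrank p (Fact.out : q.Prime).ne_zero]
  have hdeg : φ.natDegree = q := by
    rw [Polynomial.natDegree_prod]
    · rw [Finset.sum_congr rfl (fun σ _ => Polynomial.natDegree_linear (hσ σ))]
      simp [hcard]
    · intro σ _ h
      have := congrArg Polynomial.natDegree h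
      rw [Polynomial.natDegree_linear (hσ σ)] at this
      simp at this
  by_contra hlt
  push Not at hlt
  have hq0 : 0 < q := (Fact.out : q.Prime).pos
  have hroot : ∀ n : ℕ, φ.eval (n : GaloisField p q) = 1 := by
    intro n
    have h := Algebra.norm_eq_prod_automorphisms (ZMod p) (D n)
    rw [(hD n).1, map_one] at h
    rw [h, Polynomial.eval_prod]
    refine Finset.prod_congr (Finset.ext fun σ => by simp) fun σ _ => ?_
    simp [D, mul_comm]
  have h0 : φ - 1 = 0 := by
    apply Polynomial.eq_zero_of_natDegree_lt_card_of_eval_eq_zero (φ - 1)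
      (f := fun i : Fin p => ((i : ℕ) : GaloisField p q))
    · intro i j h
      exact Fin.ext (CharP.natCast_injOn_Iio (GaloisField p q) p i.2 j.2 h)
    · intro i
      simp [hroot]
    · rw [Fintype.card_fin, ← Polynomial.C_1, Polynomial.natDegree_sub_C, hdeg]
      exact hlt
  rw [sub_eq_zero] at h0
  rw [h0, Polynomial.natDegree_one] at hdeg
  omega

end Cfsg.Agent.S1470
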