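import Cfsg.Statements.S1485
import Cfsg.Agent.Clifford.Basic

set_option autoImplicit false
open Cfsg CfsgLib CfsgLib.CharBasics

namespace Cfsg.Agent.S1485

/-- Let H be a normal subgroup of the finite group G and θ an irreducible character of H. On H, the function induced from θ equals r times the sum of the distinct G-conjugates of θ, where r is the number of elements of G fixing θ under conjugation divided by the order of H (the index of H in the inertia group). -/
theorem result {G : Type*} [Group G] [Fintype G] (H : Subgroup G) [hN : H.Normal] (θ : H → ℂ) (hθ : Cfsg.IsIrrCharacter H θ) : (fun h : H => Cfsg.indFun H θ h) = ((Nat.card {g : G // ∀ h : H, θ ⟨g * h * g⁻¹, hN.conj_mem h h.2 g⟩ = θ h} : ℂ) / (Nat.card H : ℂ)) • ∑ᶠ ψ ∈ {ψ : H → ℂ | ∃ g : G, ψ = fun h : H => θ ⟨g * h * g⁻¹, hN.conj_mem h h.2 g⟩}, ψ := by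
  classical
  have := Fintype.ofFinite H
  rw [Clifford.indFun_restrict_normal]
  show _ = ((Nat.card {g : G // ∀ h : H, Clifford.conjFun g θ h = θ h} : ℂ) / (Nat.card H : ℂ)) •
    ∑ᶠ ψ ∈ {ψ : H → ℂ | ∃ g : G, ψ = Clifford.conjFun g θ}, ψ
  have hset : {ψ : H → ℂ | ∃ g : G, ψ = Clifford.conjFun g θ} =
      ↑(Finset.univ.image fun g : G => Clifford.conjFun g θ) := by
    ext ψ
    simp [eq_comm]
  rw [hset, finsum_mem_coe_finset, div_eq_inv_mul, mul_smul]
  congr 1
  refine Eq.trans (Fintype.sum_equiv (Equiv.inv G) (fun x : G => Clifford.conjFun x⁻¹ θ)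
    (fun g : G => Clifford.conjFun g θ) fun x => rfl) ?_
  rw [← Finset.sum_fiberwise_of_maps_to (g := fun g : G => Clifford.conjFun g θ)
    (t := Finset.univ.image fun g : G => Clifford.conjFun g θ) (fun g hg => Finset.mem_image_of_mem _ hg), Finset.smul_sum]
  refine Finset.sum_congr rfl fun ψ hψ => ?_
  obtain ⟨g0, -, rfl⟩ := Finset.mem_image.1 hψ
  rw [Finset.sum_congr rfl (g := fun _ => Clifford.conjFun g0 θ) (fun x hx => (Finset.mem_filter.1 hx).2),
    Finset.sum_const, ← Nat.cast_smul_eq_nsmul ℂ, ← Fintype.card_subtype, Nat.card_eq_fintype_card]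
  congr 2
  refine Fintype.card_congr ((Equiv.mulRight g0⁻¹).subtypeEquiv fun g => ?_)
  rw [← funext_iff, Equiv.coe_mulRight, ← Clifford.conjFun_mul]
  constructor
  · intro h
    rw [h, Clifford.conjFun_inv_cancel]
  · intro h
    have := congrArg (Clifford.conjFun g0) h
    rwa [Clifford.conjFun_mul, Clifford.conjFun_mul, inv_mul_cancel, mul_one] at this

end Cfsg.Agent.S1485
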