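import Cfsg.Statements.S1486
import Cfsg.Agent.Clifford.Basic
import Cfsg.Agent.IndFun.Basic

set_option autoImplicit false
open Cfsg CfsgLib CfsgLib.CharBasics

namespace Cfsg.Agent.S1486

/-- Let H be a normal subgroup of the finite group G and θ, φ irreducible characters of H. If φ is a G-conjugate of θ then the functions induced from θ and φ coincide; if φ is not a G-conjugate of θ then the induced functions are orthogonal. -/
theorem result {G : Type*} [Group G] [Fintype G] (H : Subgroup G) [hN : H.Normal] (θ φ : H → ℂ) (hθ : Cfsg.IsIrrCharacter H θ) (hφ : Cfsg.IsIrrCharacter H φ) : ((∃ g : G, φ = fun h : H => θ ⟨g * h * g⁻¹, hN.conj_mem h h.2 g⟩) → Cfsg.indFun H φ = Cfsg.indFun H θ) ∧ ((¬ ∃ g : G, φ = fun h : H => θ ⟨g * h * g⁻¹, hN.conj_mem h h.2 g⟩) → Cfsg.classInner (Cfsg.indFun H φ) (Cfsg.indFun H θ) = 0) := by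
  classical
  have := Fintype.ofFinite H
  refine ⟨?_, ?_⟩
  · rintro ⟨g, rfl⟩
    show indFun H (Clifford.conjFun g θ) = indFun H θ
    funext y
    show (Nat.card H : ℂ)⁻¹ * _ = (Nat.card H : ℂ)⁻¹ * _
    congr 1
    refine Fintype.sum_equiv (Equiv.mulRight g⁻¹) _ _ fun x => ?_
    have e : (x * g⁻¹)⁻¹ * y * (x * g⁻¹) = g * (x⁻¹ * y * x) * g⁻¹ := by group
    rw [Equiv.coe_mulRight, e]
    by_cases hm : x⁻¹ * y * x ∈ H
    · rw [IndFun.extendByZero_mem _ hm, IndFun.extendByZero_mem _ (hN.conj_mem _ hm g)]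
      rfl
    · rw [IndFun.extendByZero_not_mem _ hm, IndFun.extendByZero_not_mem]
      intro h
      refine hm ?_
      have := hN.conj_mem _ h g⁻¹
      simpa [mul_assoc] using this
  · intro hne
    rw [classInner_indFun H φ (isClassFunction_indFun H θ), classInner_comm, Clifford.indFun_restrict_normal,
      classInner_smul_left, classInner_sum_left, Finset.sum_eq_zero fun x _ => ?_, mul_zero, map_zero]
    exact classInner_ne (Clifford.isIrrCharacter_conjFun x⁻¹ hθ) hφ fun h => hne ⟨x⁻¹, h.symm⟩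

end Cfsg.Agent.S1486
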