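import Cfsg.Statements.S1487
import Cfsg.Agent.CharBasics.Extra
import Cfsg.Agent.IndFun.Basic

set_option autoImplicit false
open Cfsg CfsgLib CfsgLib.CharBasics

namespace Cfsg.Agent.S1487

/-- Let A ≤ H be normal subgroups of the finite group G and θ an irreducible character of H. Then θ takes the value θ 1 on all of A if and only if the function induced from θ to G takes its value at 1 on all of A. -/
theorem result {G : Type*} [Group G] [Fintype G] (A H : Subgroup G) [A.Normal] [H.Normal] (hAH : A ≤ H) (θ : H → ℂ) (hθ : Cfsg.IsIrrCharacter H θ) : (∀ a : H, (a : G) ∈ A → θ a = θ 1) ↔ (∀ a : G, a ∈ A → Cfsg.indFun H θ a = Cfsg.indFun H θ 1) := by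
  classical
  have := Fintype.ofFinite H
  have hn : A.Normal := inferInstance
  have hmem : ∀ (a x : G), a ∈ A → x⁻¹ * a * x ∈ A := fun a x ha => by
    simpa using hn.conj_mem a ha x⁻¹
  have hH : (Nat.card H : ℂ) ≠ 0 := Nat.cast_ne_zero.mpr Nat.card_pos.ne'
  have hval : ∀ (a : G) (ha : a ∈ A), indFun H θ a =
      (Nat.card H : ℂ)⁻¹ * ∑ x : G, θ ⟨x⁻¹ * a * x, hAH (hmem a x ha)⟩ := fun a ha => by
    show (Nat.card H : ℂ)⁻¹ * _ = _
    congr 1
    exact Finset.sum_congr rfl fun x _ => IndFun.extendByZero_mem θ _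
  have hone : indFun H θ 1 = (Nat.card H : ℂ)⁻¹ * ((Finset.univ : Finset G).card * θ 1) := by
    rw [hval 1 A.one_mem]
    congr 1
    rw [Finset.sum_congr rfl (g := fun _ => θ 1) (fun x _ => congrArg θ (Subtype.ext (by simp))), Finset.sum_const,
      nsmul_eq_mul]
  refine ⟨fun h a ha => ?_, fun h a ha => ?_⟩
  · rw [hone, hval a ha]
    congr 1
    rw [Finset.sum_congr rfl (g := fun _ => θ 1) (fun x _ => h _ (hmem a x ha)), Finset.sum_const, nsmul_eq_mul]
  · have h1 := h a ha
    rw [hone, hval _ ha] at h1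
    have h2 := apply_eq_of_sum_eq (isCharacter_of_irr hθ) Finset.univ
      (fun x : G => (⟨x⁻¹ * (a : G) * x, hAH (hmem a x ha)⟩ : H)) (mul_left_cancel₀ (inv_ne_zero hH) h1)
      (Finset.mem_univ 1)
    exact (congrArg θ (Subtype.ext (by simp))).trans h2

end Cfsg.Agent.S1487
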