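import Cfsg.Statements.S1488
import Cfsg.Agent.IndFun.Basic

set_option autoImplicit false
open Cfsg CfsgLib

namespace Cfsg.Agent.S1488

/-- Let A be a normal subgroup of the finite group G contained in the subgroup H, let θ be a function on H and θ₁ a function on the image of H in G ⧸ A whose composite with the projection is θ. Then the function induced from θ₁ to G ⧸ A, composed with the projection G → G ⧸ A, equals the function induced from θ to G. -/
theorem result {G : Type*} [Group G] [Fintype G] (A H : Subgroup G) [A.Normal] (hAH : A ≤ H) [Fintype (G ⧸ A)] [Fintype ↥(H.map (QuotientGroup.mk' A))] (θ : H → ℂ) (θ₁ : ↥(H.map (QuotientGroup.mk' A)) → ℂ) (hθ : ∀ x : H, θ₁ ⟨QuotientGroup.mk' A x, Subgroup.mem_map_of_mem _ x.2⟩ = θ x) (g : G) : Cfsg.indFun (H.map (QuotientGroup.mk' A)) θ₁ (QuotientGroup.mk' A g) = Cfsg.indFun H θ g := by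
  classical
  let π := QuotientGroup.mk' A
  have hterm : ∀ y : G, extendByZero (H.map π) θ₁ (π y) = extendByZero H θ y := by
    intro y
    by_cases hy : y ∈ H
    · rw [IndFun.extendByZero_mem θ hy, IndFun.extendByZero_mem θ₁ (Subgroup.mem_map_of_mem π hy)]
      exact hθ ⟨y, hy⟩
    · rw [IndFun.extendByZero_not_mem θ hy, IndFun.extendByZero_not_mem]
      rintro ⟨h, hh, he⟩
      exact hy (by simpa using H.mul_mem hh (hAH (QuotientGroup.eq.1 he)))
  have hfib : ∀ F : G ⧸ A → ℂ, ∑ x : G, F (π x) = (Nat.card A : ℂ) * ∑ q : G ⧸ A, F q := by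
    intro F
    rw [← Finset.sum_fiberwise (Finset.univ : Finset G) (fun x : G => π x), Finset.mul_sum]
    refine Finset.sum_congr rfl fun q _ => ?_
    rw [Finset.sum_congr rfl (g := fun _ => F q) (fun x hx => by rw [(Finset.mem_filter.1 hx).2]), Finset.sum_const,
      nsmul_eq_mul]
    congr 2
    obtain ⟨g0, rfl⟩ := QuotientGroup.mk'_surjective A q
    rw [← Fintype.card_subtype, ← Nat.card_eq_fintype_card]
    refine Nat.card_congr ((Equiv.mulLeft g0⁻¹).subtypeEquiv fun x => ?_)
    simp only [π, QuotientGroup.mk'_apply, Equiv.coe_mulLeft]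
    rw [eq_comm]
    exact QuotientGroup.eq
  have hcard : Nat.card H = Nat.card A * Nat.card (H.map π) := by
    have h1 : A.relIndex H = Nat.card (H.map π) := by
      rw [← Subgroup.relIndex_bot_left, ← Subgroup.map_bot π, Subgroup.relIndex_map_map]
      simp [π, sup_of_le_left hAH]
    have h2 := Subgroup.relIndex_mul_relIndex ⊥ A H bot_le hAH
    rw [Subgroup.relIndex_bot_left, Subgroup.relIndex_bot_left] at h2
    rw [← h1, h2]
  show (Nat.card (H.map π) : ℂ)⁻¹ * _ = (Nat.card H : ℂ)⁻¹ * _
  rw [Finset.sum_congr rfl (g := fun x : G => extendByZero (H.map π) θ₁ ((π x)⁻¹ * π g * π x))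
    (fun x _ => by rw [← hterm, map_mul, map_mul, map_inv]),
    hfib (fun q => extendByZero (H.map π) θ₁ (q⁻¹ * π g * q)), hcard, Nat.cast_mul, mul_inv, mul_assoc,
    mul_left_comm _ (Nat.card A : ℂ), inv_mul_cancel_left₀ (Nat.cast_ne_zero.mpr Nat.card_pos.ne' : (Nat.card A : ℂ) ≠ 0)]

end Cfsg.Agent.S1488
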