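import Cfsg.Statements.S1492
import Cfsg.Agent.CharBasics.Extra
import Cfsg.Agent.Clifford.Basic
import Cfsg.Agent.Clifford.Monomial

set_option autoImplicit false
open Cfsg CfsgLib CfsgLib.CharBasics

namespace Cfsg.Agent.S1492

/-- Let ψ be an irreducible character of the finite group G and B ≤ D ≤ C subgroups with B normal in C, every commutator of an element of D with an element of C lying in B (so D/B is central in C/B), and ψ constant equal to ψ 1 on B. Then ψ(1) ^ 2 * |C| * |D| ≤ |G| ^ 2. -/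
theorem result {G : Type*} [Group G] [Finite G] (ψ : G → ℂ) (hψ : Cfsg.IsIrrCharacter G ψ) (B C D : Subgroup G) (hBD : B ≤ D) (hDC : D ≤ C) (hBn : ∀ c ∈ C, ∀ b ∈ B, c * b * c⁻¹ ∈ B) (hcent : ∀ d ∈ D, ∀ c ∈ C, d * c * d⁻¹ * c⁻¹ ∈ B) (hker : ∀ b ∈ B, ψ b = ψ 1) : ‖ψ 1‖ ^ 2 * (Nat.card C : ℝ) * (Nat.card D : ℝ) ≤ (Nat.card G : ℝ) ^ 2 := by
  classical
  have := Fintype.ofFinite G
  have := Fintype.ofFinite C
  have hψc := isCharacter_of_irr hψ
  obtain ⟨θ, hθ'⟩ := exists_restrict_constituent C ⟨ψ, hψ⟩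
  have hne : classInner (fun c : C => ψ c) (θ : C → ℂ) ≠ 0 := by
    rw [classInner_comm, Ne, map_eq_zero]; exact hθ'
  obtain ⟨R, hR, hsum⟩ := Clifford.exists_eq_add_of_constituent (isCharacter_restrict hψc C) θ.2 hne
  have hθc := isCharacter_of_irr θ.2
  have hkerθ : ∀ c : C, (c : G) ∈ B → (θ : C → ℂ) c = (θ : C → ℂ) 1 := by
    intro c hc
    have e1 := congrFun hsum c
    have e2 := congrFun hsum 1
    simp only [Pi.add_apply, Subgroup.coe_one] at e1 e2
    rw [hker _ hc, e2] at e1
    have n1 := norm_le hθc c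
    have n2 := norm_le hR c
    rw [apply_one hθc, apply_one hR] at e1
    rw [apply_one hθc]
    have r1 := congrArg Complex.re e1
    simp only [Complex.add_re, Complex.natCast_re] at r1
    have b1 := Complex.re_le_norm ((θ : C → ℂ) c)
    have b2 := Complex.re_le_norm (R c)
    have hre : ((θ : C → ℂ) c).re = (charDegree (θ : C → ℂ) : ℝ) := by linarith
    have hn : ‖(θ : C → ℂ) c‖ = ((θ : C → ℂ) c).re := le_antisymm (by linarith) b1
    refine Complex.ext (by rw [hre, Complex.natCast_re]) ?_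
    rw [Complex.natCast_im]
    exact (Complex.abs_re_eq_norm.1 (by rw [hn, abs_of_nonneg (hn ▸ norm_nonneg _)]))
  obtain ⟨d, σ, hσ, hσθ⟩ := θ.2
  have hscal : ∀ z : C, (z : G) ∈ D → ∀ g : C, σ z * σ g = σ g * σ z := by
    intro z hz g
    have hm : ((z * g * z⁻¹ * g⁻¹ : C) : G) ∈ B := hcent _ hz _ g.2
    have h2 := eq_id_of_character_eq σ (z * g * z⁻¹ * g⁻¹) (by rw [hσθ]; exact hkerθ _ hm)
    rw [← map_mul, ← map_mul, show z * g = z * g * z⁻¹ * g⁻¹ * (g * z) by group, map_mul, h2]
    rfl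
  have hsq : charDegree (θ : C → ℂ) ^ 2 * Nat.card D ≤ Nat.card C := by
    have h1 := sum_normSq_irr θ
    have hnorm : ∀ z : C, (z : G) ∈ D →
        Complex.normSq ((θ : C → ℂ) z) = ((charDegree (θ : C → ℂ) : ℝ)) ^ 2 := by
      intro z hz
      obtain ⟨a, ha⟩ := Clifford.schur_scalar hσ (σ z) (hscal z hz)
      have hv : (θ : C → ℂ) z = a * charDegree (θ : C → ℂ) := by
        rw [← apply_one hθc, ← hσθ]
        simp [Representation.character, ha]
      obtain ⟨lam, hl, hs⟩ := exists_eigen hθc z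
      have hd : charDegree (θ : C → ℂ) ≠ 0 := (charDegree_pos θ.2).ne'
      have ha1 : ‖a‖ = 1 := by
        have hp := congrArg (fun f => LinearMap.trace ℂ _ f) (congrArg σ (pow_orderOf_eq_one z))
        simp only [map_pow, ha, smul_pow, one_pow, map_smul, smul_eq_mul, map_one] at hp
        refine Complex.norm_eq_one_of_pow_eq_one ?_ (orderOf_pos z).ne'
        have hdd : LinearMap.trace ℂ (Fin d → ℂ) 1 = (charDegree (θ : C → ℂ) : ℂ) := by
          rw [← apply_one hθc, ← hσθ]; simp [Representation.character]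
        rw [hdd] at hp
        exact mul_right_cancel₀ (Nat.cast_ne_zero.2 hd) (hp.trans (one_mul _).symm)
      rw [hv, Complex.normSq_eq_norm_sq, norm_mul, ha1, one_mul, Complex.norm_natCast]
    have h2 : ∑ z ∈ (Finset.univ.filter fun z : C => (z : G) ∈ D), Complex.normSq ((θ : C → ℂ) z) ≤
        ∑ z : C, Complex.normSq ((θ : C → ℂ) z) :=
      Finset.sum_le_sum_of_subset_of_nonneg (Finset.filter_subset _ _) fun z _ _ => Complex.normSq_nonneg _
    rw [Finset.sum_congr rfl (fun z hz => hnorm z (Finset.mem_filter.1 hz).2), Finset.sum_const, nsmul_eq_mul] at h2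
    simp only [← Complex.normSq_eq_norm_sq] at h1
    rw [h1] at h2
    have hc : (Finset.univ.filter fun z : C => (z : G) ∈ D).card = Nat.card D := by
      rw [← Fintype.card_subtype, ← Nat.card_eq_fintype_card]
      exact Nat.card_congr (Subgroup.subgroupOfEquivOfLe hDC).toEquiv
    rw [hc] at h2
    have h3 : ((charDegree (θ : C → ℂ) ^ 2 * Nat.card D : ℕ) : ℝ) ≤ (Nat.card C : ℕ) := by push_cast; linarith
    exact_mod_cast h3
  have hdeg : charDegree ψ ≤ C.index * charDegree (θ : C → ℂ) := by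
    have hI := isCharacter_indFun C hθc
    obtain ⟨R', hR', hsum'⟩ := Clifford.exists_eq_add_of_constituent hI hψ
      (by rw [classInner_indFun C _ (isClassFunction hψc)]; exact hθ')
    have h1 := congrFun hsum' 1
    rw [indFun_apply_one, Pi.add_apply, apply_one hR', apply_one hθc, apply_one hψc, ← Nat.cast_mul, ← Nat.cast_add,
      Nat.cast_inj] at h1
    omega
  have hfin : charDegree ψ ^ 2 * Nat.card C * Nat.card D ≤ Nat.card G ^ 2 := by
    calc charDegree ψ ^ 2 * Nat.card C * Nat.card D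
        ≤ (C.index * charDegree (θ : C → ℂ)) ^ 2 * Nat.card C * Nat.card D := by gcongr
      _ = C.index ^ 2 * Nat.card C * (charDegree (θ : C → ℂ) ^ 2 * Nat.card D) := by ring
      _ ≤ C.index ^ 2 * Nat.card C * Nat.card C := Nat.mul_le_mul_left _ hsq
      _ = Nat.card G ^ 2 := by rw [← C.index_mul_card]; ring
  rw [apply_one hψc, Complex.norm_natCast]
  exact_mod_cast hfin

end Cfsg.Agent.S1492
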