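import Cfsg.Statements.S1494
import Cfsg.Agent.CharBasics.Ortho

set_option autoImplicit false
open Cfsg CfsgLib.CharBasics
open scoped ComplexConjugate

namespace Cfsg.Agent.S1494

/-- Let χ be a generalized character of the finite group G, p a prime, x an element of order p and y an element commuting with x. Then χ(x * y) − χ(y) = (1 − ε) * ω for some algebraic integer ω, where ε = exp(2πi/p). -/
theorem result {G : Type*} [Group G] [Finite G] (χ : G → ℂ) (hχ : Cfsg.IsGeneralizedCharacter G χ) (p : ℕ) (hp : p.Prime) (x y : G) (hx : orderOf x = p) (hxy : x * y = y * x) : ∃ ω : ℂ, IsIntegral ℤ ω ∧ χ (x * y) - χ y = (1 - Complex.exp (2 * Real.pi * Complex.I / p)) * ω := by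
  classical
  set ε := Complex.exp (2 * Real.pi * Complex.I / p) with hεdef
  have hε : IsPrimitiveRoot ε p := Complex.isPrimitiveRoot_exp p hp.ne_zero
  haveI : NeZero p := ⟨hp.ne_zero⟩
  set A := Subgroup.closure ({x, y} : Set G)
  haveI : IsMulCommutative A := Subgroup.isMulCommutative_closure (by
    rintro a (rfl | rfl) b (rfl | rfl)
    · rfl
    · exact hxy
    · exact hxy.symm
    · rfl)
  let x' : A := ⟨x, Subgroup.subset_closure (by simp)⟩
  let y' : A := ⟨y, Subgroup.subset_closure (by simp)⟩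
  have key : ∀ α : G → ℂ, IsCharacter G α → ∃ ω : ℂ, IsIntegral ℤ ω ∧ α (x * y) - α y = (1 - ε) * ω := by
    intro α hα
    obtain ⟨r, ψ, hψ, hs⟩ := exists_decomp (isCharacter_restrict hα A)
    have hone : ∀ i, ∃ ω : ℂ, IsIntegral ℤ ω ∧ ψ i (x' * y') - ψ i y' = (1 - ε) * ω := by
      intro i
      obtain ⟨h1, hm⟩ := irr_comm_hom (hψ i)
      have hpow : ∀ j : ℕ, ψ i (x' ^ j) = ψ i x' ^ j := fun j => by
        induction j with
        | zero => simpa using h1
        | succ j ih => rw [pow_succ, hm, ih, pow_succ]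
      have hxp : ψ i x' ^ p = 1 := by
        rw [← hpow, show x' ^ p = 1 from Subtype.ext (by
          show x ^ p = 1
          rw [← hx, pow_orderOf_eq_one]), h1]
      obtain ⟨e, -, he⟩ := hε.eq_pow_of_pow_eq_one hxp
      refine ⟨-(∑ j ∈ Finset.range e, ε ^ j) * ψ i y', ?_, ?_⟩
      · exact ((IsIntegral.sum _ fun j _ => (IsIntegral.of_pow hp.pos (by rw [hε.pow_eq_one]; exact isIntegral_one)).pow j).neg).mul
          (isIntegral_apply (isCharacter_of_irr (hψ i)) y')
      · rw [hm, ← he, ← mul_assoc, mul_neg, mul_neg_geom_sum]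
        ring
    choose ω hω hωe using hone
    refine ⟨∑ i, ω i, IsIntegral.sum _ fun i _ => hω i, ?_⟩
    have hx' := congrFun hs (x' * y')
    have hy' := congrFun hs y'
    simp only [Finset.sum_apply] at hx' hy'
    rw [show α (x * y) = _ from hx', show α y = _ from hy', ← Finset.sum_sub_distrib, Finset.mul_sum]
    exact Finset.sum_congr rfl fun i _ => hωe i
  obtain ⟨α, β, hα, hβ, rfl⟩ := hχ
  obtain ⟨u, hu, hue⟩ := key α hα
  obtain ⟨v, hv, hve⟩ := key β hβ
  refine ⟨u - v, hu.sub hv, ?_⟩
  simp only [Pi.sub_apply]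
  linear_combination hue - hve

end Cfsg.Agent.S1494
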