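import Cfsg.Statements.S1495
import Mathlib

set_option autoImplicit false
open Cfsg

namespace Cfsg.Agent.S1495

/-- Let p be a prime, ε = exp(2πi/p), and n an integer such that n = (1 − ε) * ω for some algebraic integer ω. Then p divides n. -/
theorem result (p : ℕ) (hp : p.Prime) (n : ℤ) (ω : ℂ) (hω : IsIntegral ℤ ω) (h : (n : ℂ) = (1 - Complex.exp (2 * Real.pi * Complex.I / p)) * ω) : (p : ℤ) ∣ n := by
  classical
  haveI := Fact.mk hp
  set ε := Complex.exp (2 * Real.pi * Complex.I / p)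
  have hε : IsPrimitiveRoot ε p := Complex.isPrimitiveRoot_exp p hp.ne_zero
  have int : ∀ μ ∈ primitiveRoots p ℂ, IsIntegral ℤ μ := fun μ hμ =>
    ((mem_primitiveRoots hp.pos).1 hμ).isIntegral hp.pos
  have hprod : ∏ μ ∈ primitiveRoots p ℂ, (1 - μ) = (p : ℂ) := by
    rw [← Polynomial.eval_one_cyclotomic_prime (R := ℂ) (p := p),
      Polynomial.cyclotomic_eq_prod_X_sub_primitiveRoots hε, Polynomial.eval_prod]
    simp
  have hmem : ε ∈ primitiveRoots p ℂ := (mem_primitiveRoots hp.pos).2 hε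
  by_contra hdvd
  obtain ⟨a, b, hab⟩ := (Prime.coprime_iff_not_dvd (Nat.prime_iff_prime_int.1 hp)).2 hdvd
  rw [← Finset.mul_prod_erase _ _ hmem] at hprod
  set π := ∏ μ ∈ (primitiveRoots p ℂ).erase ε, (1 - μ)
  have hπ : IsIntegral ℤ π := IsIntegral.prod _ fun μ hμ =>
    isIntegral_one.sub (int μ (Finset.mem_of_mem_erase hμ))
  set v : ℂ := (b : ℂ) * ω + (a : ℂ) * π
  have hv : IsIntegral ℤ v := by
    have hz : ∀ z : ℤ, IsIntegral ℤ (z : ℂ) := fun z => isIntegral_algebraMap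
    exact ((hz b).mul hω).add ((hz a).mul hπ)
  have hv1 : (1 - ε) * v = 1 := by
    have : ((a * p + b * n : ℤ) : ℂ) = 1 := by rw [hab]; simp
    push_cast at this
    simp only [v]
    linear_combination this + (-(b : ℂ)) * h + (a : ℂ) * hprod
  -- every factor of `p` would then be a unit
  have hall : ∀ μ ∈ primitiveRoots p ℂ, ∃ w, IsIntegral ℤ w ∧ (1 - μ) * w = 1 := by
    intro μ hμ
    obtain ⟨j, -, hj⟩ := ((mem_primitiveRoots hp.pos).1 hμ).eq_pow_of_pow_eq_one hε.pow_eq_one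
    refine ⟨(∑ i ∈ Finset.range j, μ ^ i) * v,
      (IsIntegral.sum _ fun i _ => (int μ hμ).pow i).mul hv, ?_⟩
    rw [← mul_assoc, mul_neg_geom_sum, hj, hv1]
  choose w hw hw' using hall
  have hW : IsIntegral ℤ (∏ μ ∈ (primitiveRoots p ℂ).attach, w μ.1 μ.2) :=
    IsIntegral.prod _ fun μ _ => hw _ _
  have hpW : (p : ℂ) * (∏ μ ∈ (primitiveRoots p ℂ).attach, w μ.1 μ.2) = 1 := by
    rw [← hprod, Finset.mul_prod_erase _ (fun μ => (1 : ℂ) - μ) hmem, ← Finset.prod_attach,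
      ← Finset.prod_mul_distrib]
    exact Finset.prod_eq_one fun μ _ => hw' _ _
  have hr : (∏ μ ∈ (primitiveRoots p ℂ).attach, w μ.1 μ.2) = algebraMap ℚ ℂ ((p : ℚ)⁻¹) := by
    simp [eq_inv_of_mul_eq_one_right hpW]
  rw [hr, isIntegral_algebraMap_iff (algebraMap ℚ ℂ).injective] at hW
  obtain ⟨z, hz⟩ := IsIntegrallyClosed.isIntegral_iff.1 hW
  have h1 : (p : ℤ) * z = 1 := by
    have hp0 : (p : ℚ) ≠ 0 := Nat.cast_ne_zero.2 hp.ne_zero
    have : ((p : ℤ) * z : ℚ) = 1 := by simp at hz; rw [hz]; field_simp; simp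
    exact_mod_cast this
  have := Int.eq_one_of_mul_eq_one_right (Int.natCast_nonneg p) h1
  have := hp.one_lt
  omega

end Cfsg.Agent.S1495
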