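import Cfsg.Statements.S1497
import Cfsg.Agent.OddChar.DadeBasic

set_option autoImplicit false
open Cfsg

namespace Cfsg.Agent.S1497

/-- Let A be a nonempty subset of the finite group G not containing 1 and L a subgroup. Then A is a TI-subset whose normaliser is L if and only if the Dade hypothesis holds for A, L and the constant choice H(a) = ⊥. -/
theorem result {G : Type*} [Group G] [Finite G] (A : Set G) (hA : A.Nonempty) (h1 : (1 : G) ∉ A) (L : Subgroup G) : (Cfsg.IsTISubset A ∧ Subgroup.normalizer A = L) ↔ Cfsg.DadeHypothesis A L (fun _ => ⊥) := by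
  have memN : ∀ {g : G}, g ∈ Subgroup.normalizer A ↔ ∀ h, h ∈ A ↔ g * h * g⁻¹ ∈ A :=
    Subgroup.mem_set_normalizer_iff
  constructor
  · rintro ⟨hTI, rfl⟩
    have hmem : ∀ a ∈ A, ∀ g : G, g * a * g⁻¹ ∈ A → g ∈ Subgroup.normalizer A := by
      intro a ha g hg
      by_contra hgn
      exact h1 (hTI g hgn a ha hg ▸ ha)
    have hcl : ∀ a ∈ A, Subgroup.centralizer ({a} : Set G) ≤ Subgroup.normalizer A := by
      intro a ha c hc
      refine hmem a ha c ?_
      rw [← CfsgLib.OddChar.mem_centralizer_singleton.1 hc, mul_inv_cancel_right]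
      exact ha
    refine ⟨h1, fun a ha => hmem a ha a (by simpa using ha),
      fun x hx a ha => (memN.1 hx a).1 ha, fun a ha g hg => ⟨g, hmem a ha g hg, rfl⟩,
      fun a _ => bot_le, fun a _ c _ u hu => ?_, fun a _ => bot_inf_eq _, fun a ha => ?_,
      fun a _ b _ => ?_⟩
    · simp [Subgroup.mem_bot.1 hu]
    · rw [bot_sup_eq, inf_eq_right.2 (hcl a ha)]
    · simp
  · intro hD
    have hLN : L ≤ Subgroup.normalizer A := fun x hx => memN.2 fun h =>
      ⟨hD.conj_mem x hx h, fun hh => by simpa [mul_assoc] using hD.conj_mem x⁻¹ (inv_mem hx) _ hh⟩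
    have hmem : ∀ a ∈ A, ∀ g : G, g * a * g⁻¹ ∈ A → g ∈ L := by
      intro a ha g hg
      obtain ⟨x, hx, hxa⟩ := hD.fusion a ha g hg
      have hc : x⁻¹ * g ∈ Subgroup.centralizer ({a} : Set G) :=
        CfsgLib.OddChar.mem_centralizer_singleton.2 (by
          have : x⁻¹ * (g * a * g⁻¹) * x = a := by rw [← hxa]; group
          calc a * (x⁻¹ * g) = x⁻¹ * (g * a * g⁻¹) * x * (x⁻¹ * g) := by rw [this]
            _ = x⁻¹ * g * a := by group)
      rw [← hD.sup_eq a ha, bot_sup_eq] at hc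
      simpa using mul_mem hx hc.1
    refine ⟨fun g hg a ha hga => absurd (hLN (hmem a ha g hga)) hg, le_antisymm ?_ hLN⟩
    intro g hg
    obtain ⟨a, ha⟩ := hA
    exact hmem a ha g ((memN.1 hg a).1 ha)

end Cfsg.Agent.S1497
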