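import Cfsg.Statements.S1499
import Cfsg.Agent.OddChar.DadeBasic

set_option autoImplicit false
open Cfsg

namespace Cfsg.Agent.S1499

/-- Under the Dade hypothesis for (A, L, H), let a, b ∈ A. If an element of the coset a·H(a) is conjugate in G to an element of b·H(b), then a and b are conjugate by an element of L. Moreover the set normaliser of the coset a·H(a) is the centraliser of a. -/
theorem result {G : Type*} [Group G] [Finite G] (A : Set G) (L : Subgroup G) (H : G → Subgroup G) (hD : Cfsg.DadeHypothesis A L H) (a b : G) (ha : a ∈ A) (hb : b ∈ A) : ((∃ u ∈ H a, ∃ v ∈ H b, ∃ g : G, g * (a * u) * g⁻¹ = b * v) → ∃ x ∈ L, x * a * x⁻¹ = b) ∧ Subgroup.normalizer ((fun u : G => a * u) '' (H a : Set G)) = Subgroup.centralizer ({a} : Set G) := by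
  constructor
  · rintro ⟨u, hu, v, hv, g, hg⟩
    have h := CfsgLib.OddChar.coset_conj hD ha hb hu hv hg
    obtain ⟨x, hx, hx'⟩ := hD.fusion a ha g (h ▸ hb)
    exact ⟨x, hx, hx'.trans h⟩
  · ext c
    constructor
    · intro hc
      obtain ⟨u, hu, hu'⟩ := (Subgroup.mem_set_normalizer_iff.1 hc (a * 1)).1 ⟨1, one_mem _, rfl⟩
      have h := CfsgLib.OddChar.coset_conj hD ha ha (one_mem _) hu hu'.symm
      exact CfsgLib.OddChar.mem_centralizer_singleton.2 (mul_inv_eq_iff_eq_mul.1 h).symm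
    · intro hc
      have key : ∀ d ∈ Subgroup.centralizer ({a} : Set G), ∀ u ∈ H a,
          d * (a * u) * d⁻¹ = a * (d * u * d⁻¹) := by
        intro d hd u _
        rw [← mul_assoc d a u, ← CfsgLib.OddChar.mem_centralizer_singleton.1 hd]
        group
      refine Subgroup.mem_set_normalizer_iff.2 fun y => ⟨?_, ?_⟩
      · rintro ⟨u, hu, rfl⟩
        exact ⟨c * u * c⁻¹, hD.conj_mem_H a ha c hc u hu, (key c hc u hu).symm⟩
      · rintro ⟨u, hu, hu'⟩
        refine ⟨c⁻¹ * u * c⁻¹⁻¹, hD.conj_mem_H a ha _ (inv_mem hc) u hu, ?_⟩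
        change a * (c⁻¹ * u * c⁻¹⁻¹) = y
        rw [← key _ (inv_mem hc) u hu, show a * u = c * y * c⁻¹ from hu']
        group

end Cfsg.Agent.S1499
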