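import Cfsg.Statements.S1503
import Cfsg.Agent.CharBasics.CyclicTI

set_option autoImplicit false
open Cfsg CfsgLib CfsgLib.CharBasics

namespace Cfsg.Agent.S1503

/-- Let W₁, W₂ ≤ G with W = W₁ ⊔ W₂ and let χ an orthonormal family of irreducible characters of G up to sign, indexed by the linear characters ω of W, with χ_1 = 1, χ_ω = ω on W outside W₁ ∪ W₂, and the induction identity for (1 − φ)(1 − ψ). If θ is an irreducible character of G orthogonal to χ ω for every linear character ω of W, then θ vanishes at every element of W lying outside W₁ ∪ W₂. -/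
theorem result {G : Type*} [Group G] [Fintype G] (W₁ W₂ : Subgroup G) (hW : Cfsg.IsSelfNormalizingCyclic W₁ W₂) (χ : (↥(W₁ ⊔ W₂) →* ℂˣ) → (G → ℂ)) (hχ : Cfsg.IsCyclicTIFamily W₁ W₂ χ) (θ : G → ℂ) (hθ : Cfsg.IsIrrCharacter G θ) (horth : ∀ ω, Cfsg.classInner θ (χ ω) = 0) (w : ↥(W₁ ⊔ W₂)) (hw₁ : (w : G) ∉ W₁) (hw₂ : (w : G) ∉ W₂) : θ w = 0 := by
  classical
  have hW' := hW
  obtain ⟨-, -, -, -, hcyc, -⟩ := hW'
  refine CyclicTI.vanish_of_inner hW (fun v => θ v) (fun φ ψ hφ hψ => ?_) w hw₁ hw₂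
  rw [← classInner_indFun' _ _ (isClassFunction (isCharacter_of_irr hθ))]
  by_cases h1 : φ = 1
  · have : CyclicTI.alpha φ ψ = fun _ => 0 := funext fun v => by simp [CyclicTI.alpha, h1]
    rw [classInner_indFun' _ _ (isClassFunction (isCharacter_of_irr hθ)), this]
    simp [classInner_eq]
  by_cases h2 : ψ = 1
  · have : CyclicTI.alpha φ ψ = fun _ => 0 := funext fun v => by simp [CyclicTI.alpha, h2]
    rw [classInner_indFun' _ _ (isClassFunction (isCharacter_of_irr hθ)), this]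
    simp [classInner_eq]
  rw [show indFun (W₁ ⊔ W₂) (CyclicTI.alpha φ ψ) = fun g => 1 - χ φ g - χ ψ g + χ (φ * ψ) g from
    hχ.induced_eq φ ψ h1 h2 hφ hψ, CyclicTI.inner_expand, horth, horth, horth, ← hχ.map_one, horth]
  ring

end Cfsg.Agent.S1503
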