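import Cfsg.Statements.S1504
import Mathlib

set_option autoImplicit false
open Cfsg

namespace Cfsg.Agent.S1504

/-- Let W₁, W₂ be subgroups of a finite group with W₁ ⊓ W₂ = ⊥ whose elements commute, and W = W₁ ⊔ W₂. For linear characters φ, ψ of W with φ trivial on W₂ and ψ trivial on W₁, the function (1 − φ)(1 − ψ) vanishes on W₁ ∪ W₂; and the family of these functions, indexed by pairs (φ, ψ) with φ ≠ 1 ≠ ψ, is linearly independent over ℂ. -/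
theorem result {G : Type*} [Group G] [Finite G] (W₁ W₂ : Subgroup G) (hdisj : W₁ ⊓ W₂ = ⊥) (hcomm : ∀ a ∈ W₁, ∀ b ∈ W₂, a * b = b * a) : (∀ φ ψ : ↥(W₁ ⊔ W₂) →* ℂˣ, (∀ w : ↥(W₁ ⊔ W₂), (w : G) ∈ W₂ → φ w = 1) → (∀ w : ↥(W₁ ⊔ W₂), (w : G) ∈ W₁ → ψ w = 1) → ∀ w : ↥(W₁ ⊔ W₂), ((w : G) ∈ W₁ ∨ (w : G) ∈ W₂) → (1 - (φ w : ℂ) - (ψ w : ℂ) + (φ w : ℂ) * (ψ w : ℂ)) = 0) ∧ LinearIndependent ℂ (fun p : {p : (↥(W₁ ⊔ W₂) →* ℂˣ) × (↥(W₁ ⊔ W₂) →* ℂˣ) // p.1 ≠ 1 ∧ p.2 ≠ 1 ∧ (∀ w : ↥(W₁ ⊔ W₂), (w : G) ∈ W₂ → p.1 w = 1) ∧ (∀ w : ↥(W₁ ⊔ W₂), (w : G) ∈ W₁ → p.2 w = 1)} => fun w : ↥(W₁ ⊔ W₂) => 1 - (p.1.1 w : ℂ) - (p.1.2 w : ℂ) + (p.1.1 w : ℂ) * (p.1.2 w : ℂ)) := by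
  classical
  refine ⟨fun φ ψ hφ hψ w hw => ?_, ?_⟩
  · rcases hw with hw | hw
    · rw [hψ w hw]; simp
    · rw [hφ w hw]; simp
  · have split : ∀ w : ↥(W₁ ⊔ W₂), ∃ a b : ↥(W₁ ⊔ W₂),
        (a : G) ∈ W₁ ∧ (b : G) ∈ W₂ ∧ w = a * b := by
      intro w
      have hn : W₂ ≤ Subgroup.normalizer (W₁ : Set G) := fun b hb =>
        Subgroup.mem_normalizer_iff.2 fun a => ⟨fun ha => by rw [← hcomm a ha b hb]; simpa using ha,
          fun ha => by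
            have h := hcomm _ ha b hb
            rw [show b * a * b⁻¹ * b = b * a by group] at h
            rwa [mul_left_cancel h.symm] at ha⟩
      have hw := w.2
      rw [← SetLike.mem_coe, Subgroup.coe_mul_of_right_le_normalizer_left _ _ hn] at hw
      obtain ⟨a, ha, b, hb, hab⟩ := hw
      exact ⟨⟨a, le_sup_left (b := W₂) ha⟩, ⟨b, le_sup_right (a := W₁) hb⟩, ha, hb,
        Subtype.ext hab.symm⟩
    let c : (↥(W₁ ⊔ W₂) →* ℂˣ) → (↥(W₁ ⊔ W₂) →* ℂ) := fun φ => (Units.coeHom ℂ).comp φ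
    have hc : Function.Injective c := fun φ ψ h =>
      MonoidHom.ext fun w => Units.ext (DFunLike.congr_fun h w)
    have li : LinearIndependent ℂ fun φ => ((c φ : ↥(W₁ ⊔ W₂) →* ℂ) : ↥(W₁ ⊔ W₂) → ℂ) :=
      (linearIndependent_monoidHom (↥(W₁ ⊔ W₂)) ℂ).comp c hc
    rw [linearIndependent_iff'] at li ⊢
    intro s g hg p hp
    -- compare coefficients of the character φψ
    obtain ⟨⟨φ, ψ⟩, hφ, hψ, hφ2, hψ1⟩ := p
    have inj : ∀ {φ φ' ψ ψ' : ↥(W₁ ⊔ W₂) →* ℂˣ},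
        (∀ w : ↥(W₁ ⊔ W₂), (w : G) ∈ W₂ → φ w = 1) → (∀ w : ↥(W₁ ⊔ W₂), (w : G) ∈ W₁ → ψ w = 1) →
        (∀ w : ↥(W₁ ⊔ W₂), (w : G) ∈ W₂ → φ' w = 1) →
        (∀ w : ↥(W₁ ⊔ W₂), (w : G) ∈ W₁ → ψ' w = 1) → φ * ψ = φ' * ψ' → φ = φ' ∧ ψ = ψ' := by
      intro φ φ' ψ ψ' h1 h2 h3 h4 he
      constructor <;> ext w <;> obtain ⟨a, b, ha, hb, rfl⟩ := split w
      · have := DFunLike.congr_fun he a
        simp only [MonoidHom.mul_apply, h2 a ha, h4 a ha, mul_one] at this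
        simp [map_mul, h1 b hb, h3 b hb, this]
      · have := DFunLike.congr_fun he b
        simp only [MonoidHom.mul_apply, h1 b hb, h3 b hb, one_mul] at this
        simp [map_mul, h2 a ha, h4 a ha, this]
    let I := {p : (↥(W₁ ⊔ W₂) →* ℂˣ) × (↥(W₁ ⊔ W₂) →* ℂˣ) // p.1 ≠ 1 ∧ p.2 ≠ 1 ∧
      (∀ w : ↥(W₁ ⊔ W₂), (w : G) ∈ W₂ → p.1 w = 1) ∧ (∀ w : ↥(W₁ ⊔ W₂), (w : G) ∈ W₁ → p.2 w = 1)}
    let T : Finset (↥(W₁ ⊔ W₂) →* ℂˣ) := {1} ∪ s.image (fun q : I => q.1.1) ∪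
      s.image (fun q : I => q.1.2) ∪ s.image (fun q : I => q.1.1 * q.1.2)
    let co : (↥(W₁ ⊔ W₂) →* ℂˣ) → ℂ := fun θ =>
      ∑ q ∈ s, g q * ((if θ = 1 then 1 else 0) - (if θ = q.1.1 then 1 else 0) -
        (if θ = q.1.2 then 1 else 0) + (if θ = q.1.1 * q.1.2 then 1 else 0))
    have hsum : ∑ θ ∈ T, co θ • ((c θ : ↥(W₁ ⊔ W₂) →* ℂ) : ↥(W₁ ⊔ W₂) → ℂ) = 0 := by
      funext w
      simp only [Finset.sum_apply, Pi.smul_apply, smul_eq_mul, Pi.zero_apply, co, Finset.sum_mul]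
      rw [Finset.sum_comm]
      have hw := congrFun hg w
      simp only [Finset.sum_apply, Pi.smul_apply, smul_eq_mul, Pi.zero_apply] at hw
      refine Eq.trans (Finset.sum_congr rfl fun q hq => ?_) hw
      have m0 : (1 : ↥(W₁ ⊔ W₂) →* ℂˣ) ∈ T := by simp [T]
      have m1 : q.1.1 ∈ T := Finset.mem_union_left _ (Finset.mem_union_left _
        (Finset.mem_union_right _ (Finset.mem_image_of_mem _ hq)))
      have m2 : q.1.2 ∈ T := Finset.mem_union_left _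
        (Finset.mem_union_right _ (Finset.mem_image_of_mem _ hq))
      have m3 : q.1.1 * q.1.2 ∈ T := Finset.mem_union_right _ (Finset.mem_image_of_mem _ hq)
      simp only [mul_assoc, ← Finset.mul_sum]
      congr 1
      simp only [add_mul, sub_mul, ite_mul, one_mul, zero_mul, Finset.sum_add_distrib,
        Finset.sum_sub_distrib, Finset.sum_ite_eq', if_pos m0, if_pos m1, if_pos m2, if_pos m3]
      simp [c]
    have h0 := li T co hsum (φ * ψ) (Finset.mem_union_right _ (Finset.mem_image_of_mem _ hp))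
    have one1 : ∀ w : ↥(W₁ ⊔ W₂), (w : G) ∈ W₁ → (1 : ↥(W₁ ⊔ W₂) →* ℂˣ) w = 1 := fun _ _ => rfl
    have one2 : ∀ w : ↥(W₁ ⊔ W₂), (w : G) ∈ W₂ → (1 : ↥(W₁ ⊔ W₂) →* ℂˣ) w = 1 := fun _ _ => rfl
    have hco : co (φ * ψ) = g ⟨(φ, ψ), hφ, hψ, hφ2, hψ1⟩ := by
      simp only [co]
      rw [Finset.sum_eq_single_of_mem _ hp]
      · rw [if_pos rfl, if_neg, if_neg, if_neg]
        · ring
        · intro h; exact hφ (inj hφ2 hψ1 one2 hψ1 (h.trans (one_mul ψ).symm)).1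
        · intro h; exact hψ (inj hφ2 hψ1 hφ2 one1 (h.trans (mul_one φ).symm)).2
        · intro h; exact hφ (inj hφ2 hψ1 one2 one1 (h.trans (one_mul (1 : ↥(W₁ ⊔ W₂) →* ℂˣ)).symm)).1
      · intro q _ hq
        obtain ⟨⟨φ', ψ'⟩, hφ', hψ', hφ'2, hψ'1⟩ := q
        rw [if_neg, if_neg, if_neg, if_neg]
        · ring
        · intro h
          obtain ⟨rfl, rfl⟩ := inj hφ2 hψ1 hφ'2 hψ'1 h
          exact hq rfl
        · intro h; exact hφ (inj hφ2 hψ1 one2 hψ'1 (h.trans (one_mul ψ').symm)).1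
        · intro h; exact hψ (inj hφ2 hψ1 hφ'2 one1 (h.trans (mul_one φ').symm)).2
        · intro h; exact hφ (inj hφ2 hψ1 one2 one1 (h.trans (one_mul (1 : ↥(W₁ ⊔ W₂) →* ℂˣ)).symm)).1
    exact hco ▸ h0

end Cfsg.Agent.S1504
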