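import Cfsg.Statements.S1505
import Cfsg.Agent.CharBasics.CyclicTI

set_option autoImplicit false
open Cfsg CfsgLib CfsgLib.CharBasics

namespace Cfsg.Agent.S1505

open Classical in
/-- Let W₁, W₂ ≤ G form a self-normalising cyclic subgroup W = W₁ ⊔ W₂. For nontrivial linear characters φ, φ' of W trivial on W₂ and ψ, ψ' trivial on W₁, put α = (1 − φ)(1 − ψ) and α' = (1 − φ')(1 − ψ'). Then the function induced from α to G has inner product 1 with the principal character, and the inner product of the functions induced from α and α' is 1 + a + b + ab where a = 1 if φ = φ' (else 0) and b = 1 if ψ = ψ' (else 0). -/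
theorem result {G : Type*} [Group G] [Fintype G] (W₁ W₂ : Subgroup G) (hW : Cfsg.IsSelfNormalizingCyclic W₁ W₂) (φ φ' ψ ψ' : ↥(W₁ ⊔ W₂) →* ℂˣ) (hφ : φ ≠ 1) (hφ' : φ' ≠ 1) (hψ : ψ ≠ 1) (hψ' : ψ' ≠ 1) (hφ₂ : ∀ w : ↥(W₁ ⊔ W₂), (w : G) ∈ W₂ → φ w = 1 ∧ φ' w = 1) (hψ₁ : ∀ w : ↥(W₁ ⊔ W₂), (w : G) ∈ W₁ → ψ w = 1 ∧ ψ' w = 1) : Cfsg.classInner (Cfsg.indFun (W₁ ⊔ W₂) (fun w => 1 - (φ w : ℂ) - (ψ w : ℂ) + (φ w : ℂ) * (ψ w : ℂ))) (fun _ => 1) = 1 ∧ Cfsg.classInner (Cfsg.indFun (W₁ ⊔ W₂) (fun w => 1 - (φ w : ℂ) - (ψ w : ℂ) + (φ w : ℂ) * (ψ w : ℂ))) (Cfsg.indFun (W₁ ⊔ W₂) (fun w => 1 - (φ' w : ℂ) - (ψ' w : ℂ) + (φ' w : ℂ) * (ψ' w : ℂ))) = 1 + (if φ = φ' then 1 else 0) + (if ψ = ψ' then 1 else 0) + (if φ = φ' then 1 else 0) * (if ψ = ψ' then 1 else 0) := by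
  classical
  have hcyc := hW.2.2.2.2.1
  have hcomm : ∀ a b : ↥(W₁ ⊔ W₂), a * b = b * a := fun a b => mul_comm' a b
  have := Fintype.ofFinite ↥(W₁ ⊔ W₂)
  let P : (↥(W₁ ⊔ W₂) →* ℂˣ) → (↥(W₁ ⊔ W₂) →* ℂˣ) → ↥(W₁ ⊔ W₂) → ℂ :=
    fun a b => fun w => (((a * b) w : ℂˣ) : ℂ)
  have hP : ∀ (a b a' b' : ↥(W₁ ⊔ W₂) →* ℂˣ),
      (∀ w : ↥(W₁ ⊔ W₂), (w : G) ∈ W₂ → a w = 1) → (∀ w : ↥(W₁ ⊔ W₂), (w : G) ∈ W₁ → b w = 1) →
      (∀ w : ↥(W₁ ⊔ W₂), (w : G) ∈ W₂ → a' w = 1) → (∀ w : ↥(W₁ ⊔ W₂), (w : G) ∈ W₁ → b' w = 1) →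
      classInner (P a b) (P a' b') = (if a = a' then 1 else 0) * (if b = b' then 1 else 0) := by
    intro a b a' b' ha hb ha' hb'
    show classInner (fun w => (((a * b) w : ℂˣ) : ℂ)) (fun w => (((a' * b') w : ℂˣ) : ℂ)) = _
    rw [CyclicTI.inner_hom]
    by_cases h : a * b = a' * b'
    · have hsplit : ∀ {f f' : ↥(W₁ ⊔ W₂) →* ℂˣ} (X Y : Subgroup G), X ⊔ Y = W₁ ⊔ W₂ →
          (∀ w : ↥(W₁ ⊔ W₂), (w : G) ∈ Y → f w = 1) → (∀ w : ↥(W₁ ⊔ W₂), (w : G) ∈ Y → f' w = 1) →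
          (∀ w : ↥(W₁ ⊔ W₂), (w : G) ∈ X → f w = f' w) → f = f' := by
        intro f f' X Y hXY hf hf' he
        refine MonoidHom.ext fun w => ?_
        have hle : W₁ ⊔ W₂ ≤ (f.eqLocus f').map (W₁ ⊔ W₂).subtype := by
          conv_lhs => rw [← hXY]
          refine sup_le (fun x hx => ?_) (fun x hx => ?_)
          · exact ⟨⟨x, hXY ▸ le_sup_left (b := Y) hx⟩, he _ hx, rfl⟩
          · exact ⟨⟨x, hXY ▸ le_sup_right (a := X) hx⟩, (hf _ hx).trans (hf' _ hx).symm, rfl⟩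
        obtain ⟨z, hz, hzw⟩ := hle w.2
        have : z = w := Subtype.ext hzw
        exact this ▸ hz
      have e1 : a = a' := hsplit W₁ W₂ rfl ha ha' fun w hw => by
        have := DFunLike.congr_fun h w
        rw [MonoidHom.mul_apply, MonoidHom.mul_apply, hb w hw, hb' w hw, mul_one, mul_one] at this
        exact this
      have e2 : b = b' := hsplit W₂ W₁ (sup_comm W₂ W₁) hb hb' fun w hw => by
        have := DFunLike.congr_fun h w
        rw [MonoidHom.mul_apply, MonoidHom.mul_apply, ha w hw, ha' w hw, one_mul, one_mul] at this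
        exact this
      rw [if_pos h, if_pos e1, if_pos e2, mul_one]
    · rw [if_neg h]
      by_cases e1 : a = a'
      · rw [if_neg (fun e2 => h (congrArg₂ (· * ·) e1 e2)), mul_zero]
      · rw [if_neg e1, zero_mul]
  have hone : ∀ {X : Subgroup G}, ∀ w : ↥(W₁ ⊔ W₂), (w : G) ∈ X → (1 : ↥(W₁ ⊔ W₂) →* ℂˣ) w = 1 := fun _ _ => rfl
  have hexp : ∀ (a b : ↥(W₁ ⊔ W₂) →* ℂˣ) (F : ↥(W₁ ⊔ W₂) → ℂ),
      classInner (CyclicTI.alpha a b) F =
        classInner (P 1 1) F - classInner (P a 1) F - classInner (P 1 b) F + classInner (P a b) F := by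
    intro a b F
    simp only [classInner_eq, ← mul_sub, ← mul_add, ← Finset.sum_sub_distrib, ← Finset.sum_add_distrib]
    congr 1
    refine Finset.sum_congr rfl fun w _ => ?_
    simp only [CyclicTI.alpha, P, MonoidHom.mul_apply, MonoidHom.one_apply, Units.val_mul, Units.val_one, one_mul,
      mul_one]
    ring
  have hexp' : ∀ (a b a' b' : ↥(W₁ ⊔ W₂) →* ℂˣ),
      classInner (P a b) (CyclicTI.alpha a' b') =
        classInner (P a b) (P 1 1) - classInner (P a b) (P a' 1) - classInner (P a b) (P 1 b') +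
          classInner (P a b) (P a' b') := by
    intro a b a' b'
    rw [classInner_comm (CyclicTI.alpha a' b'), hexp, classInner_comm (P a b), classInner_comm (P a b) (P a' 1),
      classInner_comm (P a b) (P 1 b'), classInner_comm (P a b) (P a' b')]
    simp only [map_add, map_sub, Complex.conj_conj]
  have ha : ∀ w : ↥(W₁ ⊔ W₂), (w : G) ∈ W₂ → φ w = 1 := fun w h => (hφ₂ w h).1
  have ha' : ∀ w : ↥(W₁ ⊔ W₂), (w : G) ∈ W₂ → φ' w = 1 := fun w h => (hφ₂ w h).2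
  have hb : ∀ w : ↥(W₁ ⊔ W₂), (w : G) ∈ W₁ → ψ w = 1 := fun w h => (hψ₁ w h).1
  have hb' : ∀ w : ↥(W₁ ⊔ W₂), (w : G) ∈ W₁ → ψ' w = 1 := fun w h => (hψ₁ w h).2
  refine ⟨?_, ?_⟩
  · show classInner (indFun (W₁ ⊔ W₂) (CyclicTI.alpha φ ψ)) (fun _ => 1) = 1
    rw [CharBasics.classInner_indFun _ _ (fun _ _ => rfl)]
    have e : (fun h : ↥(W₁ ⊔ W₂) => (fun _ : G => (1 : ℂ)) h) = P 1 1 := funext fun w => by simp [P]
    rw [e, hexp, hP 1 1 1 1 hone hone hone hone, hP φ 1 1 1 ha hone hone hone, hP 1 ψ 1 1 hone hb hone hone,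
      hP φ ψ 1 1 ha hb hone hone]
    simp [hφ, hψ]
  · show classInner (indFun (W₁ ⊔ W₂) (CyclicTI.alpha φ ψ)) (indFun (W₁ ⊔ W₂) (CyclicTI.alpha φ' ψ')) = _
    rw [CharBasics.classInner_indFun _ _ (isClassFunction_indFun _ _)]
    have e : classInner (CyclicTI.alpha φ ψ) (fun h : ↥(W₁ ⊔ W₂) => indFun (W₁ ⊔ W₂) (CyclicTI.alpha φ' ψ') h) =
        classInner (CyclicTI.alpha φ ψ) (CyclicTI.alpha φ' ψ') := by
      simp only [classInner_eq]
      congr 1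
      refine Finset.sum_congr rfl fun v _ => ?_
      by_cases hv : (v : G) ∈ W₁ ∨ (v : G) ∈ W₂
      · rw [CyclicTI.alpha_eq_zero ha hb v hv, zero_mul, zero_mul]
      congr 2
      have hterm : ∀ x : G, extendByZero (W₁ ⊔ W₂) (CyclicTI.alpha φ' ψ') (x⁻¹ * v * x) =
          if x ∈ W₁ ⊔ W₂ then CyclicTI.alpha φ' ψ' v else 0 := by
        intro x
        by_cases hx : x ∈ W₁ ⊔ W₂
        · have hm : x⁻¹ * (v : G) * x ∈ W₁ ⊔ W₂ := mul_mem (mul_mem (inv_mem hx) v.2) hx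
          rw [if_pos hx, IndFun.extendByZero_mem _ hm]
          congr 1
          have := congrArg Subtype.val (hcomm v ⟨x, hx⟩)
          refine Subtype.ext ?_
          show x⁻¹ * (v : G) * x = v
          rw [mul_assoc, show (v : G) * x = x * v from this, inv_mul_cancel_left]
        · rw [if_neg hx]
          by_cases hm : x⁻¹ * (v : G) * x ∈ W₁ ⊔ W₂
          · rw [IndFun.extendByZero_mem _ hm]
            refine CyclicTI.alpha_eq_zero ha' hb' _ ?_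
            by_contra hn
            exact hx (CyclicTI.ti hW v.2 (fun h => hv (Or.inl h)) (fun h => hv (Or.inr h)) hm
              (fun h => hn (Or.inl h)) (fun h => hn (Or.inr h)))
          · rw [IndFun.extendByZero_not_mem _ hm]
      show (Nat.card ↥(W₁ ⊔ W₂) : ℂ)⁻¹ * _ = _
      rw [Finset.sum_congr rfl (fun x _ => hterm x), Finset.sum_ite, Finset.sum_const_zero, add_zero,
        Finset.sum_const, nsmul_eq_mul, ← Fintype.card_subtype, ← Nat.card_eq_fintype_card,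
        inv_mul_cancel_left₀ (Nat.cast_ne_zero.2 Nat.card_pos.ne')]
    rw [e, hexp, hexp', hexp', hexp', hexp', hP 1 1 1 1 hone hone hone hone, hP 1 1 φ' 1 hone hone ha' hone,
      hP 1 1 1 ψ' hone hone hone hb', hP 1 1 φ' ψ' hone hone ha' hb', hP φ 1 1 1 ha hone hone hone,
      hP φ 1 φ' 1 ha hone ha' hone, hP φ 1 1 ψ' ha hone hone hb', hP φ 1 φ' ψ' ha hone ha' hb',
      hP 1 ψ 1 1 hone hb hone hone, hP 1 ψ φ' 1 hone hb ha' hone, hP 1 ψ 1 ψ' hone hb hone hb',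
      hP 1 ψ φ' ψ' hone hb ha' hb', hP φ ψ 1 1 ha hb hone hone, hP φ ψ φ' 1 ha hb ha' hone,
      hP φ ψ 1 ψ' ha hb hone hb', hP φ ψ φ' ψ' ha hb ha' hb']
    simp only [if_true, if_neg hφ, if_neg hψ, if_neg (Ne.symm hφ'), if_neg (Ne.symm hψ')]
    ring

end Cfsg.Agent.S1505
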