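import Cfsg.Statements.S1507
import Cfsg.Agent.CharBasics.CyclicTI

set_option autoImplicit false
open Cfsg CfsgLib CfsgLib.CharBasics

namespace Cfsg.Agent.S1507

/-- A small grid of the form `f i + g j`. -/
theorem grid {I J : Type*} [Fintype I] [Fintype J] (f : I → ℂ) (g : J → ℂ) [DecidableEq I] [DecidableEq J]
    (hIJ : Fintype.card I + 2 ≤ Fintype.card J)
    (hfew : Nat.card {p : I × J // f p.1 + g p.2 ≠ 0} < 2 * Fintype.card I) :
    (∀ i j, f i + g j = 0) ∨ (∃ (j₀ : J) (a : ℂ), ∀ i j, f i + g j = if j = j₀ then a else 0) ∨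
      (∃ (i₀ : I) (a : ℂ), ∀ i j, f i + g j = if i = i₀ then a else 0) := by
  classical
  let s : J → ℕ := fun j => (Finset.univ.filter fun i => f i + g j ≠ 0).card
  have hs : ∑ j, s j < 2 * Fintype.card I := by
    refine lt_of_eq_of_lt ?_ hfew
    rw [Nat.card_eq_fintype_card, Fintype.card_subtype]
    simp only [s, Finset.card_filter]
    rw [Finset.sum_comm, ← Finset.sum_product', Finset.univ_product_univ]
  have hs' : Finset.univ.sum s < 2 * Fintype.card I := hs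
  by_cases hg : ∀ j j', g j = g j'
  · by_cases h0 : ∀ i j, f i + g j = 0
    · exact Or.inl h0
    push Not at h0
    obtain ⟨i₀, j₀, h0⟩ := h0
    refine Or.inr (Or.inr ⟨i₀, f i₀ + g j₀, fun i j => ?_⟩)
    by_cases hi : i = i₀
    · rw [if_pos hi, hi, hg j j₀]
    rw [if_neg hi]
    by_contra hne
    have h2 : ∀ j' ∈ (Finset.univ : Finset J), 2 ≤ s j' := fun j' _ => by
      have : ({i, i₀} : Finset I) ⊆ Finset.univ.filter fun i => f i + g j' ≠ 0 := by
        intro x hx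
        rcases Finset.mem_insert.1 hx with rfl | hx
        · exact Finset.mem_filter.2 ⟨Finset.mem_univ _, by rw [hg j' j]; exact hne⟩
        · rw [Finset.mem_singleton.1 hx]
          exact Finset.mem_filter.2 ⟨Finset.mem_univ _, by rw [hg j' j₀]; exact h0⟩
      have := Finset.card_le_card this
      rwa [Finset.card_pair hi] at this
    have := Finset.card_nsmul_le_sum _ _ _ h2
    rw [smul_eq_mul, Finset.card_univ] at this
    omega
  push Not at hg
  obtain ⟨j₁, j₂, hj⟩ := hg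
  by_cases hf : ∀ i i', f i = f i'
  · by_cases h0 : ∀ i j, f i + g j = 0
    · exact Or.inl h0
    push Not at h0
    obtain ⟨i₀, j₀, h0⟩ := h0
    refine Or.inr (Or.inl ⟨j₀, f i₀ + g j₀, fun i j => ?_⟩)
    by_cases hj0 : j = j₀
    · rw [if_pos hj0, hj0, hf i i₀]
    rw [if_neg hj0]
    by_contra hne
    have hfull : ∀ (j' : J) (i' : I), f i' + g j' ≠ 0 → s j' = Fintype.card I := fun j' i' h => by
      rw [← Finset.card_univ]
      refine congrArg Finset.card (Finset.filter_eq_self.2 fun x _ => ?_)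
      rw [hf x i']
      exact h
    have : ∑ x ∈ ({j, j₀} : Finset J), s x ≤ ∑ x, s x := Finset.sum_le_sum_of_subset (Finset.subset_univ _)
    rw [Finset.sum_pair hj0, hfull j i hne, hfull j₀ i₀ h0] at this
    omega
  exfalso
  push Not at hf
  obtain ⟨i₁, i₂, hi⟩ := hf
  have hj12 : j₁ ≠ j₂ := fun e => hj (by rw [e])
  have h1 : ∀ j, 1 ≤ s j := fun j => by
    refine Finset.card_pos.2 ?_
    by_cases h : f i₁ + g j = 0
    · exact ⟨i₂, Finset.mem_filter.2 ⟨Finset.mem_univ _, fun h' => hi (by linear_combination h - h')⟩⟩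
    · exact ⟨i₁, Finset.mem_filter.2 ⟨Finset.mem_univ _, h⟩⟩
  have h2 : Fintype.card I ≤ s j₁ + s j₂ := by
    rw [← Finset.card_univ]
    refine le_trans (Finset.card_le_card ?_) (Finset.card_union_le _ _)
    intro i _
    simp only [Finset.mem_union, Finset.mem_filter, Finset.mem_univ, true_and]
    by_contra hc
    push Not at hc
    exact hj (by linear_combination hc.1 - hc.2)
  have h3 : (Finset.univ \ ({j₁, j₂} : Finset J)).card ≤ ∑ x ∈ Finset.univ \ ({j₁, j₂} : Finset J), s x := by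
    have := Finset.card_nsmul_le_sum (Finset.univ \ ({j₁, j₂} : Finset J)) s 1 (fun x _ => h1 x)
    rwa [smul_eq_mul, mul_one] at this
  rw [Finset.card_sdiff_of_subset (Finset.subset_univ _), Finset.card_pair hj12, Finset.card_univ] at h3
  have h4 := Finset.sum_sdiff (f := s) (Finset.subset_univ ({j₁, j₂} : Finset J))
  rw [Finset.sum_pair hj12] at h4
  omega


open Classical in
/-- Let W₁, W₂ ≤ G form a self-normalising cyclic subgroup W = W₁ ⊔ W₂ of odd order with Nat.card W₁ < Nat.card W₂, and χ an orthonormal family of irreducible characters of G up to sign, indexed by the linear characters ω of W, with χ_1 = 1, χ_ω = ω on W outside W₁ ∪ W₂, and the induction identity for (1 − φ)(1 − ψ). Let θ be a class function of G vanishing on W outside W₁ ∪ W₂, and suppose fewer than 2 · Nat.card W₁ linear characters ω of W have ⟨θ, χ ω⟩ ≠ 0. Then one of: all ⟨θ, χ ω⟩ vanish; or there are ψ₀ and a with ⟨θ, χ ω⟩ = a when ω ψ₀⁻¹ is trivial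 on W₂ and 0 otherwise; or there are φ₀ and a with ⟨θ, χ ω⟩ = a when ω φ₀⁻¹ is trivial on W₁ and 0 otherwise. -/
theorem result {G : Type*} [Group G] [Fintype G] (W₁ W₂ : Subgroup G) (hW : Cfsg.IsSelfNormalizingCyclic W₁ W₂) (hodd : Odd (Nat.card ↥(W₁ ⊔ W₂))) (χ : (↥(W₁ ⊔ W₂) →* ℂˣ) → (G → ℂ)) (hχ : Cfsg.IsCyclicTIFamily W₁ W₂ χ) (hlt : Nat.card W₁ < Nat.card W₂) (θ : G → ℂ) (hθ : Cfsg.IsClassFunction G θ) (hθV : ∀ w : ↥(W₁ ⊔ W₂), (w : G) ∉ W₁ → (w : G) ∉ W₂ → θ w = 0) (hfew : Nat.card {ω : ↥(W₁ ⊔ W₂) →* ℂˣ // Cfsg.classInner θ (χ ω) ≠ 0} < 2 * Nat.card W₁) : (∀ ω, Cfsg.classInner θ (χ ω) = 0) ∨ (∃ (ψ₀ : ↥(W₁ ⊔ W₂) →* ℂˣ) (a : ℂ), ∀ ω, Cfsg.classInner θ (χ ω) = if (∀ w : ↥(W₁ ⊔ W₂), (w : G) ∈ W₂ → (ω * ψ₀⁻¹) w = 1) then a else 0) ∨ (∃ (φ₀ : ↥(W₁ ⊔ W₂) →* ℂˣ) (a : ℂ), ∀ ω, Cfsg.classInner θ (χ ω) = if (∀ w : ↥(W₁ ⊔ W₂), (w : G) ∈ W₁ → (ω * φ₀⁻¹) w = 1) then a else 0) := by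
  classical
  have hcyc := hW.2.2.2.2.1
  letI : CommGroup ↥(W₁ ⊔ W₂) := IsCyclic.commGroup
  let A : Subgroup ↥(W₁ ⊔ W₂) := W₁.subgroupOf _
  let B : Subgroup ↥(W₁ ⊔ W₂) := W₂.subgroupOf _
  have hAc : Nat.card A = Nat.card W₁ := Nat.card_congr (Subgroup.subgroupOfEquivOfLe le_sup_left).toEquiv
  have hBc : Nat.card B = Nat.card W₂ := Nat.card_congr (Subgroup.subgroupOfEquivOfLe le_sup_right).toEquiv
  have hd : A ⊓ B = ⊥ := by
    rw [eq_bot_iff]
    intro x hx
    have : (x : G) ∈ W₁ ⊓ W₂ := hx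
    rw [hW.2.2.1, Subgroup.mem_bot] at this
    exact Subgroup.mem_bot.2 (Subtype.ext this)
  have hs : A ⊔ B = ⊤ := by
    show W₁.subgroupOf (W₁ ⊔ W₂) ⊔ W₂.subgroupOf (W₁ ⊔ W₂) = ⊤
    rw [← Subgroup.subgroupOf_sup le_sup_left le_sup_right, Subgroup.subgroupOf_self]
  obtain ⟨eA, heA, hsplit⟩ := CyclicTI.exists_split A B hd hs
  obtain ⟨eB, heB, -⟩ := CyclicTI.exists_split B A (inf_comm B A ▸ hd) (sup_comm B A ▸ hs)
  have := Fintype.ofFinite (CyclicTI.TrivOn A)
  have := Fintype.ofFinite (CyclicTI.TrivOn B)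
  have hcI : Fintype.card (CyclicTI.TrivOn B) = Nat.card W₁ := by
    rw [← Nat.card_eq_fintype_card, Nat.card_congr eA, CommGroup.card_monoidHom_of_hasEnoughRootsOfUnity, hAc]
  have hcJ : Fintype.card (CyclicTI.TrivOn A) = Nat.card W₂ := by
    rw [← Nat.card_eq_fintype_card, Nat.card_congr eB, CommGroup.card_monoidHom_of_hasEnoughRootsOfUnity, hBc]
  have huniq : ∀ (i i' : CyclicTI.TrivOn B) (j j' : CyclicTI.TrivOn A), i.1 * j.1 = i'.1 * j'.1 → i = i' ∧ j = j' := by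
    intro i i' j j' h
    refine ⟨eA.injective (MonoidHom.ext fun a => ?_), eB.injective (MonoidHom.ext fun b => ?_)⟩
    · have := DFunLike.congr_fun h (a : ↥(W₁ ⊔ W₂))
      rw [MonoidHom.mul_apply, MonoidHom.mul_apply, j.2 _ a.2, j'.2 _ a.2, mul_one, mul_one] at this
      rw [heA, heA, this]
    · have := DFunLike.congr_fun h (b : ↥(W₁ ⊔ W₂))
      rw [MonoidHom.mul_apply, MonoidHom.mul_apply, i.2 _ b.2, i'.2 _ b.2, one_mul, one_mul] at this
      rw [heB, heB, this]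
  let f : CyclicTI.TrivOn B → ℂ := fun i => classInner θ (χ i.1)
  let g : CyclicTI.TrivOn A → ℂ := fun j => classInner θ (χ j.1) - classInner θ (χ 1)
  have hval : ∀ (i : CyclicTI.TrivOn B) (j : CyclicTI.TrivOn A), classInner θ (χ (i.1 * j.1)) = f i + g j := by
    intro i j
    refine (CyclicTI.coeff_rule hχ hθ hθV i.1 j.1 (fun w h => i.2 w h) (fun w h => j.2 w h)).trans ?_
    show _ = classInner θ (χ i.1) + (classInner θ (χ j.1) - classInner θ (χ 1))
    ring
  have hfew' : Nat.card {p : CyclicTI.TrivOn B × CyclicTI.TrivOn A // f p.1 + g p.2 ≠ 0} <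
      2 * Fintype.card (CyclicTI.TrivOn B) := by
    rw [hcI]
    refine lt_of_le_of_lt ?_ hfew
    refine Nat.card_le_card_of_injective (fun p => ⟨p.1.1.1 * p.1.2.1, fun h => p.2 ((hval _ _).symm.trans h)⟩) ?_
    intro p q h
    obtain ⟨h1, h2⟩ := huniq _ _ _ _ (congrArg Subtype.val h)
    exact Subtype.ext (Prod.ext h1 h2)
  have hIJ : Fintype.card (CyclicTI.TrivOn B) + 2 ≤ Fintype.card (CyclicTI.TrivOn A) := by
    rw [hcI, hcJ]
    obtain ⟨a, ha⟩ := Odd.of_dvd_nat hodd (Subgroup.card_dvd_of_le (le_sup_left : W₁ ≤ W₁ ⊔ W₂))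
    obtain ⟨b, hb⟩ := Odd.of_dvd_nat hodd (Subgroup.card_dvd_of_le (le_sup_right : W₂ ≤ W₁ ⊔ W₂))
    omega
  rcases grid f g hIJ hfew' with h | ⟨j₀, a, h⟩ | ⟨i₀, a, h⟩
  · refine Or.inl fun ω => ?_
    obtain ⟨i, j, rfl⟩ := hsplit ω
    exact (hval i j).trans (h i j)
  · refine Or.inr (Or.inl ⟨j₀.1, a, fun ω => ?_⟩)
    obtain ⟨i, j, rfl⟩ := hsplit ω
    refine (hval i j).trans ((h i j).trans ?_)
    by_cases hj : j = j₀
    · rw [if_pos hj, if_pos]
      intro w hw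
      simp [hj, i.2 w hw]
    · rw [if_neg hj, if_neg]
      intro hall
      refine hj (eB.injective (MonoidHom.ext fun b => ?_))
      have := hall b b.2
      simp only [MonoidHom.mul_apply, MonoidHom.inv_apply, i.2 _ b.2, one_mul, mul_inv_eq_one] at this
      rw [heB, heB, this]
  · refine Or.inr (Or.inr ⟨i₀.1, a, fun ω => ?_⟩)
    obtain ⟨i, j, rfl⟩ := hsplit ω
    refine (hval i j).trans ((h i j).trans ?_)
    by_cases hi : i = i₀
    · rw [if_pos hi, if_pos]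
      intro w hw
      simp [hi, j.2 w hw]
    · rw [if_neg hi, if_neg]
      intro hall
      refine hi (eA.injective (MonoidHom.ext fun b => ?_))
      have := hall b b.2
      simp only [MonoidHom.mul_apply, MonoidHom.inv_apply, j.2 _ b.2, mul_one, mul_inv_eq_one] at this
      rw [heA, heA, this]

end Cfsg.Agent.S1507
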