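import Cfsg.Statements.S1508
import Cfsg.Agent.CharBasics.CyclicTIGalois

set_option autoImplicit false
open Cfsg

namespace Cfsg.Agent.S1508

/-- Let W₁, W₂ ≤ G form a self-normalising cyclic subgroup W = W₁ ⊔ W₂ of odd order and χ an orthonormal family of irreducible characters of G up to sign, indexed by the linear characters ω of W, with χ_1 = 1, χ_ω = ω on W outside W₁ ∪ W₂, and the induction identity for (1 − φ)(1 − ψ). Let ω be a linear character of W and g an element of G whose order is coprime to the order of ω. Then χ ω g is an integer. -/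
theorem result {G : Type*} [Group G] [Fintype G] (W₁ W₂ : Subgroup G) (hW : Cfsg.IsSelfNormalizingCyclic W₁ W₂) (hodd : Odd (Nat.card ↥(W₁ ⊔ W₂))) (χ : (↥(W₁ ⊔ W₂) →* ℂˣ) → (G → ℂ)) (hχ : Cfsg.IsCyclicTIFamily W₁ W₂ χ) (ω : ↥(W₁ ⊔ W₂) →* ℂˣ) (g : G) (hg : Nat.Coprime (orderOf g) (orderOf ω)) : ∃ n : ℤ, χ ω g = n := by
  classical
  have hpoly : ∃ p : Polynomial ℤ, ∀ j : ℕ,
      χ ω (g ^ j) = Polynomial.aeval (CfsgLib.CharBasics.zetaRoot (Nat.card G) ^ j) p := by
    rcases hχ.irr_or_neg ω with h | h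
    · exact CfsgLib.CharBasics.cycPoly_character (CfsgLib.CharBasics.isCharacter_of_irr h) g
    · obtain ⟨p, hp⟩ :=
        CfsgLib.CharBasics.cycPoly_character (CfsgLib.CharBasics.isCharacter_of_irr h) g
      exact ⟨-p, fun j => by rw [map_neg, ← hp j, Pi.neg_apply, neg_neg]⟩
  obtain ⟨p, hp⟩ := hpoly
  refine CfsgLib.BrauerInd.int_of_conjugates_eq (Nat.card_pos (α := G)).ne' p (χ ω g)
    fun j hj => ?_
  rw [← hp j]
  have hωW : orderOf ω ∣ Nat.card ↥(W₁ ⊔ W₂) := orderOf_dvd_of_pow_eq_one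
    (MonoidHom.ext fun w => by
      rw [MonoidHom.pow_apply, ← map_pow, pow_card_eq_one', map_one, MonoidHom.one_apply])
  have hn : orderOf g * orderOf ω ∣ Nat.card G :=
    hg.mul_dvd_of_dvd_of_dvd (orderOf_dvd_natCard g)
      (hωW.trans (Subgroup.card_subgroup_dvd_card _))
  obtain ⟨c, hc1, hc2⟩ := Nat.chineseRemainder hg j 1
  have hcop : c.Coprime (orderOf g * orderOf ω) := by
    refine Nat.Coprime.mul_right ?_ ?_
    · show c.gcd (orderOf g) = 1
      rw [hc1.gcd_eq]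
      exact hj.coprime_dvd_right (orderOf_dvd_natCard g)
    · show c.gcd (orderOf ω) = 1
      rw [hc2.gcd_eq, Nat.gcd_one_left]
  haveI : NeZero (Nat.card G) := ⟨(Nat.card_pos (α := G)).ne'⟩
  obtain ⟨u, hu⟩ := ZMod.unitsMap_surjective hn (ZMod.unitOfCoprime c hcop)
  have hk : (u : ZMod (Nat.card G)).val.Coprime (Nat.card G) := ZMod.val_coe_unit_coprime u
  have hkc : (u : ZMod (Nat.card G)).val ≡ c [MOD orderOf g * orderOf ω] := by
    rw [← ZMod.natCast_eq_natCast_iff]
    have := congrArg Units.val hu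
    rw [ZMod.unitsMap_val, ZMod.coe_unitOfCoprime] at this
    rw [← this, ZMod.natCast_val]
  have hgj : g ^ j = g ^ (u : ZMod (Nat.card G)).val :=
    pow_eq_pow_iff_modEq.2 (((hkc.of_dvd (dvd_mul_right _ _)).trans hc1).symm)
  have hωk : ω ^ (u : ZMod (Nat.card G)).val = ω := by
    refine MonoidHom.ext fun w => ?_
    have h1 := DFunLike.congr_fun (pow_orderOf_eq_one ω) w
    rw [MonoidHom.pow_apply, MonoidHom.one_apply] at h1
    rw [MonoidHom.pow_apply]
    exact (pow_eq_pow_iff_modEq.2 (((hkc.of_dvd (dvd_mul_left _ _)).trans hc2).of_dvd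
      (orderOf_dvd_of_pow_eq_one h1))).trans (pow_one _)
  rw [hgj, CfsgLib.CyclicTI.twist_eq hW hodd hχ hk ω g, hωk]

end Cfsg.Agent.S1508
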