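import Cfsg.Statements.S1509
import Cfsg.Agent.CharBasics.Ortho
import Cfsg.Agent.Clifford.Basic

set_option autoImplicit false
open Cfsg CfsgLib CfsgLib.CharBasics

namespace Cfsg.Agent.S1509

/-- Let α, β, γ, δ be functions on a finite group X each of which is an irreducible character or the negative of one, and u, v nonzero real numbers. Suppose ⟨α, β⟩ = ⟨γ, δ⟩ = 0, ⟨α − β, uγ − vδ⟩ = 0, α 1 = β 1 and u γ 1 = v δ 1. Then also ⟨α, γ⟩ = ⟨α, δ⟩ = ⟨β, γ⟩ = ⟨β, δ⟩ = 0. -/
theorem result {X : Type*} [Group X] [Fintype X] (α β γ δ : X → ℂ) (hα : Cfsg.IsIrrCharacter X α ∨ Cfsg.IsIrrCharacter X (-α)) (hβ : Cfsg.IsIrrCharacter X β ∨ Cfsg.IsIrrCharacter X (-β)) (hγ : Cfsg.IsIrrCharacter X γ ∨ Cfsg.IsIrrCharacter X (-γ)) (hδ : Cfsg.IsIrrCharacter X δ ∨ Cfsg.IsIrrCharacter X (-δ)) (u v : ℝ) (hu : u ≠ 0) (hv : v ≠ 0) (hab : Cfsg.classInner α β = 0) (hcd : Cfsg.classInner γ δ = 0) (hmix : Cfsg.classInner (α - β) ((u : ℂ) • γ - (v : ℂ) • δ) = 0) (h1 : α 1 = β 1) (h2 : (u : ℂ) * γ 1 = (v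 : ℂ) * δ 1) : Cfsg.classInner α γ = 0 ∧ Cfsg.classInner α δ = 0 ∧ Cfsg.classInner β γ = 0 ∧ Cfsg.classInner β δ = 0 := by
  classical
  have htri : ∀ {a b : X → ℂ}, (IsIrrCharacter X a ∨ IsIrrCharacter X (-a)) →
      (IsIrrCharacter X b ∨ IsIrrCharacter X (-b)) →
      classInner a b = 0 ∨ (classInner a b = 1 ∧ a = b) ∨ (classInner a b = -1 ∧ a = -b) := by
    intro a b ha hb
    have hnegl : ∀ p q : X → ℂ, classInner (-p) q = -classInner p q := fun p q => by simp [classInner_eq]
    have hnegr : ∀ p q : X → ℂ, classInner p (-q) = -classInner p q := fun p q => by simp [classInner_eq]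
    rcases ha with ha | ha <;> rcases hb with hb | hb
    · by_cases h : a = b
      · subst h; exact Or.inr (Or.inl ⟨classInner_self ha, rfl⟩)
      · exact Or.inl (classInner_ne ha hb h)
    · by_cases h : a = -b
      · refine Or.inr (Or.inr ⟨?_, h⟩)
        have := classInner_self ha
        nth_rewrite 2 [h] at this
        rw [hnegr] at this
        linear_combination -this
      · exact Or.inl (by rw [← neg_eq_zero, ← hnegr]; exact classInner_ne ha hb h)
    · by_cases h : -a = b
      · refine Or.inr (Or.inr ⟨?_, neg_eq_iff_eq_neg.1 h⟩)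
        have := classInner_self ha
        nth_rewrite 2 [h] at this
        rw [hnegl] at this
        linear_combination -this
      · exact Or.inl (by rw [← neg_eq_zero, ← hnegl]; exact classInner_ne ha hb h)
    · by_cases h : a = b
      · subst h
        refine Or.inr (Or.inl ⟨?_, rfl⟩)
        have := classInner_self ha
        rwa [hnegl, hnegr, neg_neg] at this
      · refine Or.inl ?_
        have := classInner_ne ha hb (fun e => h (neg_injective e))
        rwa [hnegl, hnegr, neg_neg] at this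
  have hne1 : ∀ {a : X → ℂ}, (IsIrrCharacter X a ∨ IsIrrCharacter X (-a)) → a 1 ≠ 0 := by
    intro a ha
    rcases ha with ha | ha
    · exact apply_one_ne_zero ha
    · intro h; exact apply_one_ne_zero ha (by simp [h])
  have hsym : ∀ p q : X → ℂ, classInner p q = 0 → classInner q p = 0 := fun p q h => by
    rw [classInner_comm, h, map_zero]
  have aux : ∀ {a b c d : X → ℂ} {r t : ℝ},
      (IsIrrCharacter X a ∨ IsIrrCharacter X (-a)) → (IsIrrCharacter X b ∨ IsIrrCharacter X (-b)) →
      (IsIrrCharacter X c ∨ IsIrrCharacter X (-c)) → (IsIrrCharacter X d ∨ IsIrrCharacter X (-d)) →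
      r ≠ 0 → t ≠ 0 → classInner a b = 0 → classInner c d = 0 →
      (r : ℂ) * classInner a c - (t : ℂ) * classInner a d - (r : ℂ) * classInner b c + (t : ℂ) * classInner b d = 0 →
      a 1 = b 1 → (r : ℂ) * c 1 = (t : ℂ) * d 1 → classInner a c = 0 := by
    intro a b c d r t ha hb hc hd hr ht hab hcd hexp e h2
    by_contra hne
    obtain ⟨ε, hε, hval, hf⟩ : ∃ ε : ℂ, (ε = 1 ∨ ε = -1) ∧ classInner a c = ε ∧ a = ε • c := by
      rcases htri ha hc with h | ⟨h, hf⟩ | ⟨h, hf⟩
      · exact absurd h hne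
      · exact ⟨1, Or.inl rfl, h, by rw [hf, one_smul]⟩
      · exact ⟨-1, Or.inr rfl, h, by rw [hf, neg_one_smul]⟩
    have hε0 : ε ≠ 0 := by rcases hε with rfl | rfl <;> norm_num
    have had : classInner a d = 0 := by rw [hf, classInner_smul_left, hcd, mul_zero]
    have hbc : classInner b c = 0 := by
      have h := hab
      rw [hf, classInner_smul_left, mul_eq_zero] at h
      exact hsym _ _ (h.resolve_left hε0)
    rw [hval, had, hbc] at hexp
    obtain ⟨η, hη, hg⟩ : ∃ η : ℂ, classInner b d = η ∧ b = η • d := by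
      rcases htri hb hd with h | ⟨h, hg⟩ | ⟨h, hg⟩
      · exfalso
        rw [h] at hexp
        exact hε0 ((mul_eq_zero.1 (by linear_combination hexp : (r : ℂ) * ε = 0)).resolve_left
          (Complex.ofReal_ne_zero.2 hr))
      · exact ⟨1, h, by rw [hg, one_smul]⟩
      · exact ⟨-1, h, by rw [hg, neg_one_smul]⟩
    rw [hη] at hexp
    have e1 : ε * c 1 = η * d 1 := by
      rw [hf, hg] at e
      exact e
    have hc1 := hne1 hc
    have h3 : ((r : ℂ) ^ 2 + (t : ℂ) ^ 2) * (ε * c 1) = 0 := by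
      linear_combination (r : ℂ) * c 1 * hexp - (t : ℂ) * η * h2 + (t : ℂ) ^ 2 * e1
    rcases mul_eq_zero.1 h3 with h | h
    · have h' : r ^ 2 + t ^ 2 = 0 := by exact_mod_cast h
      have : 0 < r ^ 2 := lt_of_le_of_ne (sq_nonneg r) (Ne.symm (pow_ne_zero 2 hr))
      nlinarith [sq_nonneg t]
    · rcases mul_eq_zero.1 h with h | h
      · exact hε0 h
      · exact hc1 h
  have hexp : (u : ℂ) * classInner α γ - (v : ℂ) * classInner α δ - (u : ℂ) * classInner β γ
      + (v : ℂ) * classInner β δ = 0 := by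
    rw [← hmix]
    simp only [classInner_eq, Pi.sub_apply, Pi.smul_apply, smul_eq_mul, map_sub, map_mul, Complex.conj_ofReal,
      Finset.mul_sum, ← Finset.sum_sub_distrib, ← Finset.sum_add_distrib]
    exact Finset.sum_congr rfl fun x _ => by ring
  refine ⟨aux hα hβ hγ hδ hu hv hab hcd hexp h1 h2,
    aux hα hβ hδ hγ hv hu hab (hsym _ _ hcd) (by linear_combination -hexp) h1 h2.symm,
    aux hβ hα hγ hδ hu hv (hsym _ _ hab) hcd (by linear_combination -hexp) h1.symm h2,
    aux hβ hα hδ hγ hv hu (hsym _ _ hab) (hsym _ _ hcd) (by linear_combination hexp) h1.symm h2.symm⟩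

end Cfsg.Agent.S1509
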