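import Cfsg.Statements.S1510
import Mathlib

set_option autoImplicit false
open Cfsg

namespace Cfsg.Agent.S1510

/-- Let L be a finite group with a normal subgroup K and a nontrivial cyclic subgroup W₁ of order coprime to its index, K ⊓ W₁ = ⊥ and K ⊔ W₁ = ⊤; let W₂ ≠ ⊥ be a cyclic subgroup of K with K ⊓ C_L(x) = W₂ for every non-identity x ∈ W₁, and suppose W₁ ⊔ W₂ has odd order. Then (W₁, W₂) is a self-normalising cyclic pair in L. -/
theorem result {L : Type*} [Group L] [Fintype L] (K W₁ W₂ : Subgroup L) [hK : K.Normal] (hKW₁ : K ⊓ W₁ = ⊥) (hKW₁' : K ⊔ W₁ = ⊤) (hW₁ : W₁ ≠ ⊥) (hW₁c : IsCyclic W₁) (hHall : Nat.Coprime (Nat.card W₁) W₁.index) (hW₂ : W₂ ≠ ⊥) (hW₂c : IsCyclic W₂) (hW₂K : W₂ ≤ K) (hC : ∀ x ∈ W₁, x ≠ 1 → K ⊓ Subgroup.centralizer ({x} : Set L) = W₂) (hodd : Odd (Nat.card ↥(W₁ ⊔ W₂))) : Cfsg.IsSelfNormalizingCyclic W₁ W₂ := by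
  classical
  have hcard : Nat.card W₁ * Nat.card K = Nat.card L := by
    have : Subgroup.IsComplement' W₁ K :=
      Subgroup.isComplement'_of_disjoint_and_mul_eq_univ (disjoint_iff.2 (by rw [inf_comm]; exact hKW₁))
        (by rw [← Subgroup.mul_normal, sup_comm, hKW₁']; rfl)
    exact this.card_mul
  have hcopK : (Nat.card W₁).Coprime (Nat.card K) := by
    have h1 := W₁.card_mul_index
    rw [← hcard] at h1
    rwa [← Nat.eq_of_mul_eq_mul_left Nat.card_pos h1]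
  have hcop : (Nat.card W₁).Coprime (Nat.card W₂) := hcopK.coprime_dvd_right (Subgroup.card_dvd_of_le hW₂K)
  have hdisj : W₁ ⊓ W₂ = ⊥ := le_bot_iff.1 fun x hx => hKW₁.le ⟨hW₂K hx.2, hx.1⟩
  have hcomm : ∀ a ∈ W₁, ∀ b ∈ W₂, a * b = b * a := by
    intro a ha b hb
    by_cases ha1 : a = 1
    · simp [ha1]
    · have hb' : b ∈ K ⊓ Subgroup.centralizer ({a} : Set L) := by rw [hC a ha ha1]; exact hb
      exact (Subgroup.mem_centralizer_singleton_iff.1 hb'.2).symm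
  have hcm : ∀ (a : W₁) (b : W₂), Commute (W₁.subtype a) (W₂.subtype b) := fun a b => hcomm a a.2 b b.2
  let φ : W₁ × W₂ →* L := MonoidHom.noncommCoprod W₁.subtype W₂.subtype hcm
  have hφr : φ.range = W₁ ⊔ W₂ := by
    exact (MonoidHom.noncommCoprod_range _ _ hcm).trans (by rw [Subgroup.range_subtype, Subgroup.range_subtype])
  have hφi : Function.Injective φ := by
    rw [injective_iff_map_eq_one]
    rintro ⟨a, b⟩ h
    have h1 : (a : L) * b = 1 := h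
    have h2 : (a : L) ∈ W₁ ⊓ W₂ := ⟨a.2, by rw [eq_inv_of_mul_eq_one_left h1]; exact W₂.inv_mem b.2⟩
    rw [hdisj, Subgroup.mem_bot] at h2
    rw [h2, one_mul] at h1
    exact Prod.ext (Subtype.ext h2) (Subtype.ext h1)
  have hcyc : IsCyclic ↥(W₁ ⊔ W₂) := by
    haveI : IsCyclic (W₁ × W₂) := Group.isCyclic_prod_iff.2 ⟨hW₁c, hW₂c, hcop⟩
    rw [← hφr]
    exact isCyclic_of_surjective φ.rangeRestrict φ.rangeRestrict_surjective
  have hmem : ∀ x ∈ W₁ ⊔ W₂, ∃ a ∈ W₁, ∃ b ∈ W₂, x = a * b := by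
    intro x hx
    rw [← hφr] at hx
    obtain ⟨⟨a, b⟩, rfl⟩ := hx
    exact ⟨a, a.2, b, b.2, rfl⟩
  have hpow : ∀ a ∈ W₁, ∀ b ∈ W₂, (a * b) ^ Nat.card W₂ = a ^ Nat.card W₂ := by
    intro a ha b hb
    rw [(show Commute a b from hcomm a ha b hb).mul_pow]
    have h1 : b ^ Nat.card W₂ = 1 := congrArg Subtype.val (pow_card_eq_one' (x := (⟨b, hb⟩ : W₂)))
    rw [h1, mul_one]
  refine ⟨hW₁, hW₂, hdisj, hcomm, hcyc, fun X hX hXne => le_antisymm ?_ ?_⟩
  · intro g hg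
    obtain ⟨x, hx⟩ := hXne
    obtain ⟨hxW, hxn⟩ := hX hx
    obtain ⟨a, ha, b, hb, rfl⟩ := hmem x hxW
    have ha1 : a ^ Nat.card W₂ ≠ 1 := by
      intro h
      refine hxn (Or.inr ?_)
      have h1 : orderOf a ∣ Nat.card W₂ := orderOf_dvd_of_pow_eq_one h
      have h2 : orderOf a = 1 := Nat.eq_one_of_dvd_coprimes hcop (Subgroup.orderOf_dvd_natCard _ ha) h1
      rw [orderOf_eq_one_iff.1 h2, one_mul]
      exact hb
    obtain ⟨a', ha', b', hb', he⟩ := hmem _ (hX ((Subgroup.mem_set_normalizer_iff.1 hg (a * b)).1 hx)).1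
    set c := a ^ Nat.card W₂ with hc
    have hgc : g * c * g⁻¹ = a' ^ Nat.card W₂ := by
      rw [hc, ← hpow a ha b hb, ← conj_pow, he, hpow a' ha' b' hb']
    obtain ⟨k, hk, w, hw, rfl⟩ := Subgroup.mem_sup_of_normal_left.1 (show g ∈ K ⊔ W₁ by rw [hKW₁']; trivial)
    have hcW : c ∈ W₁ := pow_mem ha _
    haveI := hW₁c
    have hwc : w * c * w⁻¹ = c := by
      letI : CommGroup W₁ := IsCyclic.commGroup
      have h : w * c = c * w := congrArg Subtype.val (mul_comm (⟨w, hw⟩ : W₁) ⟨c, hcW⟩)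
      rw [h, mul_inv_cancel_right]
    have hkc : k * c * k⁻¹ = a' ^ Nat.card W₂ := by
      rw [← hgc]
      conv_lhs => rw [← hwc]
      group
    have h1 : k * c * k⁻¹ * c⁻¹ ∈ K ⊓ W₁ := by
      refine ⟨?_, ?_⟩
      · rw [mul_assoc k c, mul_assoc k (c * k⁻¹) c⁻¹]
        exact K.mul_mem hk (hK.conj_mem _ (K.inv_mem hk) c)
      · rw [hkc]; exact W₁.mul_mem (pow_mem ha' _) (W₁.inv_mem hcW)
    rw [hKW₁, Subgroup.mem_bot, mul_inv_eq_one] at h1
    have h2 : k ∈ K ⊓ Subgroup.centralizer ({c} : Set L) :=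
      ⟨hk, Subgroup.mem_centralizer_singleton_iff.2 (mul_inv_eq_iff_eq_mul.1 h1)⟩
    rw [hC c hcW ha1] at h2
    exact mul_mem (Subgroup.mem_sup_right h2) (Subgroup.mem_sup_left hw)
  · intro g hg
    haveI := hcyc
    letI : CommGroup ↥(W₁ ⊔ W₂) := IsCyclic.commGroup
    refine Subgroup.mem_set_normalizer_iff.2 fun y => ?_
    have hc : ∀ z ∈ W₁ ⊔ W₂, g * z * g⁻¹ = z := fun z hz => by
      have h : g * z = z * g := congrArg Subtype.val (mul_comm (⟨g, hg⟩ : ↥(W₁ ⊔ W₂)) ⟨z, hz⟩)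
      rw [h, mul_inv_cancel_right]
    constructor
    · intro hy
      rw [hc y (hX hy).1]; exact hy
    · intro hy
      have h1 := hc _ (hX hy).1
      have h2 : g * y * g⁻¹ = y := mul_left_cancel (mul_right_cancel h1)
      rw [h2] at hy; exact hy

end Cfsg.Agent.S1510
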