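import Cfsg.Statements.S1511
import Cfsg.Agent.CharBasics.CyclicTIExist
import Cfsg.Agent.S1510

set_option autoImplicit false
open Cfsg CfsgLib CfsgLib.CharBasics

namespace Cfsg.Agent.S1511

variable {L : Type*} [Group L] [Fintype L] {K W₁ W₂ : Subgroup L}

/-- The part of `W` outside `W₂` is a TI set with normaliser `W`. -/
theorem ti_outside [K.Normal] (hKW₁ : K ⊓ W₁ = ⊥) (hKW₁' : K ⊔ W₁ = ⊤) (hW₁c : IsCyclic W₁)
    (hC : ∀ x ∈ W₁, x ≠ 1 → K ⊓ Subgroup.centralizer ({x} : Set L) = W₂)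
    (hcomm : ∀ a ∈ W₁, ∀ b ∈ W₂, a * b = b * a)
    (hcop : (Nat.card W₁).Coprime (Nat.card W₂)) {v : L} (hv : v ∈ W₁ ⊔ W₂) (hv₂ : v ∉ W₂)
    {x : L} (hx : x⁻¹ * v * x ∈ W₁ ⊔ W₂) : x ∈ W₁ ⊔ W₂ := by
  have hmem : ∀ y ∈ W₁ ⊔ W₂, ∃ a ∈ W₁, ∃ b ∈ W₂, y = a * b ∧
      y ^ Nat.card W₂ = a ^ Nat.card W₂ := by
    intro y hy
    have hn : W₁ ≤ Subgroup.centralizer (W₂ : Set L) := fun a ha b hb => (hcomm a ha b hb).symm
    rw [← SetLike.mem_coe, Subgroup.coe_mul_of_left_le_normalizer_right W₁ W₂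
      (hn.trans (Subgroup.centralizer_le_normalizer _))] at hy
    obtain ⟨a, ha, b, hb, rfl⟩ := hy
    refine ⟨a, ha, b, hb, rfl, ?_⟩
    have h1 : b ^ Nat.card W₂ = 1 :=
      congrArg Subtype.val (pow_card_eq_one' (x := (⟨b, hb⟩ : W₂)))
    exact ((show Commute a b from hcomm a ha b hb).mul_pow _).trans (by rw [h1, mul_one])
  obtain ⟨a, ha, b, hb, rfl, hpa⟩ := hmem v hv
  obtain ⟨a', ha', b', hb', he, hpa'⟩ := hmem _ hx
  set c := a ^ Nat.card W₂ with hc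
  have hc1 : c ≠ 1 := by
    intro h
    apply hv₂
    have h2 : orderOf a = 1 := Nat.eq_one_of_dvd_coprimes hcop
      (Subgroup.orderOf_dvd_natCard _ ha) (orderOf_dvd_of_pow_eq_one h)
    rw [orderOf_eq_one_iff.1 h2, one_mul]
    exact hb
  have hcW : c ∈ W₁ := W₁.pow_mem ha _
  have hxc : x⁻¹ * c * x = a' ^ Nat.card W₂ := by
    rw [← hpa', ← hpa]
    have := map_pow (MulAut.conj x⁻¹) (a * b) (Nat.card W₂)
    simpa using this
  obtain ⟨k, hk, w, hw, rfl⟩ :=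
    Subgroup.mem_sup_of_normal_left.1 (show x ∈ K ⊔ W₁ by rw [hKW₁']; trivial)
  have hwc : ∀ d ∈ W₁, w * d = d * w := fun d hd => by
    letI : CommGroup W₁ := IsCyclic.commGroup
    exact congrArg Subtype.val (mul_comm (⟨w, hw⟩ : W₁) ⟨d, hd⟩)
  have hd : a' ^ Nat.card W₂ ∈ W₁ := W₁.pow_mem ha' _
  have hkc : k⁻¹ * c * k = a' ^ Nat.card W₂ := by
    have h1 : k⁻¹ * c * k = w * (a' ^ Nat.card W₂) * w⁻¹ := by rw [← hxc]; group
    rw [h1, hwc _ hd, mul_inv_cancel_right]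
  have hKmem : c⁻¹ * (k⁻¹ * c * k) ∈ K ⊓ W₁ := by
    refine ⟨?_, hkc ▸ W₁.mul_mem (W₁.inv_mem hcW) hd⟩
    rw [show c⁻¹ * (k⁻¹ * c * k) = c⁻¹ * k⁻¹ * c⁻¹⁻¹ * k by group]
    exact K.mul_mem (Subgroup.Normal.conj_mem inferInstance _ (K.inv_mem hk) _) hk
  rw [hKW₁, Subgroup.mem_bot, inv_mul_eq_one] at hKmem
  have hkC : k ∈ K ⊓ Subgroup.centralizer ({c} : Set L) := by
    refine ⟨hk, Subgroup.mem_centralizer_singleton_iff.2 ?_⟩
    calc k * c = k * (k⁻¹ * c * k) := by rw [← hKmem]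
      _ = c * k := by group
  rw [hC c hcW hc1] at hkC
  exact Subgroup.mul_mem _ (Subgroup.mem_sup_right hkC) (Subgroup.mem_sup_left hw)

/-- Let L be a finite group with K normal with complement W₁ ≠ 1 a cyclic Hall subgroup, and W₂ ≠ 1 a cyclic subgroup of K equal to C_K(x) for every non-identity x ∈ W₁, with W₁W₂ of odd order. Then there are a map μ from the linear characters of W = W₁ ⊔ W₂ to irreducible characters of L, injective, and a sign δ(ω) ∈ {1, −1} depending only on the values of ω on W₂, such that: for ω, ω' agreeing on W₂, the function induced to L from ω − ω' equals δ(ω) • (μ ω − μ ω'); μ ω x = δ(ω) ω x for x ∈ W outside W₂; every irreducible character of L not of the form μ ω vanishes on W outside W₂; and μ ω 1 − δ(ω) is an integer multiple of Nat.card W₁. -/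
theorem result {L : Type*} [Group L] [Fintype L] (K W₁ W₂ : Subgroup L) [hK : K.Normal] (hKW₁ : K ⊓ W₁ = ⊥) (hKW₁' : K ⊔ W₁ = ⊤) (hW₁ : W₁ ≠ ⊥) (hW₁c : IsCyclic W₁) (hHall : Nat.Coprime (Nat.card W₁) W₁.index) (hW₂ : W₂ ≠ ⊥) (hW₂c : IsCyclic W₂) (hW₂K : W₂ ≤ K) (hC : ∀ x ∈ W₁, x ≠ 1 → K ⊓ Subgroup.centralizer ({x} : Set L) = W₂) (hodd : Odd (Nat.card ↥(W₁ ⊔ W₂))) : ∃ (μ : (↥(W₁ ⊔ W₂) →* ℂˣ) → (L → ℂ)) (δ : (↥(W₁ ⊔ W₂) →* ℂˣ) → ℂ), Function.Injective μ ∧ (∀ ω, Cfsg.IsIrrCharacter L (μ ω)) ∧ (∀ ω, δ ω = 1 ∨ δ ω = -1) ∧ (∀ ω ω' : ↥(W₁ ⊔ W₂) →* ℂˣ, (∀ w : ↥(W₁ ⊔ W₂), (w : L) ∈ W₂ → ω w = ω' w) → δ ω = δ ω' ∧ Cfsg.indFun (W₁ ⊔ W₂) (fun w => (ω w : ℂ) - (ω' w : ℂ)) = δ ω • (μ ω - μ ω')) ∧ (∀ ω, ∀ w : ↥(W₁ ⊔ W₂), (w : L) ∉ W₂ → μ ω w = δ ω * (ω w : ℂ)) ∧ (∀ θ : L → ℂ, Cfsg.IsIrrCharacter L θ → (∀ ω, θ ≠ μ ω) → ∀ w : ↥(W₁ ⊔ W₂), (w : L) ∉ W₂ → θ w = 0) ∧ (∀ ω, ∃ n : ℤ, μ ω 1 -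 δ ω = n * (Nat.card W₁ : ℂ)) := by
  classical
  have hW := Cfsg.Agent.S1510.result K W₁ W₂ hKW₁ hKW₁' hW₁ hW₁c hHall hW₂ hW₂c hW₂K hC hodd
  obtain ⟨χ, hχ⟩ := CyclicTI.exists_family hW hodd
  have := hW.2.2.2.2.1
  letI : CommGroup ↥(W₁ ⊔ W₂) := IsCyclic.commGroup
  haveI := Fintype.ofFinite ↥(W₁ ⊔ W₂)
  have hcop : (Nat.card W₁).Coprime (Nat.card W₂) := by
    refine hHall.coprime_dvd_right ?_
    have hd : Nat.card W₁ * W₁.index = Nat.card L := W₁.card_mul_index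
    have hc : Nat.card K * Nat.card W₁ = Nat.card L := by
      have : Subgroup.IsComplement' K W₁ :=
        Subgroup.isComplement'_of_disjoint_and_mul_eq_univ (disjoint_iff.2 hKW₁)
          (by rw [← Subgroup.normal_mul, hKW₁']; rfl)
      exact this.card_mul
    rw [← hd, mul_comm] at hc
    rw [← Nat.eq_of_mul_eq_mul_left Nat.card_pos hc]
    exact Subgroup.card_dvd_of_le hW₂K
  have hti : ∀ v ∈ (W₁ ⊔ W₂), v ∉ W₂ → ∀ x : L, x⁻¹ * v * x ∈ (W₁ ⊔ W₂) → x ∈ (W₁ ⊔ W₂) := fun v hv hv₂ x hx =>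
    ti_outside hKW₁ hKW₁' hW₁c hC hW.2.2.2.1 hcop hv hv₂ hx
  -- the isometry on functions vanishing on `W₂`
  have hiso : ∀ a b : ↥(W₁ ⊔ W₂) → ℂ, (∀ v : ↥(W₁ ⊔ W₂), (v : L) ∈ W₂ → a v = 0) →
      (∀ v : ↥(W₁ ⊔ W₂), (v : L) ∈ W₂ → b v = 0) →
      classInner (indFun (W₁ ⊔ W₂) a) (indFun (W₁ ⊔ W₂) b) = classInner a b := by
    intro a b ha hb
    rw [classInner_indFun _ _ (isClassFunction_indFun _ _)]
    simp only [classInner_eq]
    congr 1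
    refine Finset.sum_congr rfl fun v _ => ?_
    by_cases hv : (v : L) ∈ W₂
    · rw [ha v hv, zero_mul, zero_mul]
    congr 2
    have hterm : ∀ x : L, extendByZero (W₁ ⊔ W₂) b (x⁻¹ * v * x) = if x ∈ (W₁ ⊔ W₂) then b v else 0 := by
      intro x
      by_cases hx : x ∈ (W₁ ⊔ W₂)
      · have hm : x⁻¹ * (v : L) * x ∈ (W₁ ⊔ W₂) := (W₁ ⊔ W₂).mul_mem ((W₁ ⊔ W₂).mul_mem ((W₁ ⊔ W₂).inv_mem hx) v.2) hx
        rw [if_pos hx, IndFun.extendByZero_mem _ hm]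
        congr 1
        refine Subtype.ext ?_
        show x⁻¹ * (v : L) * x = v
        have hc := congrArg Subtype.val (mul_comm' v ⟨x, hx⟩)
        rw [mul_assoc, show (v : L) * x = x * v from hc, inv_mul_cancel_left]
      · rw [if_neg hx]
        by_cases hm : x⁻¹ * (v : L) * x ∈ (W₁ ⊔ W₂)
        · exact absurd (hti _ v.2 hv x hm) hx
        · rw [IndFun.extendByZero_not_mem _ hm]
    show (Nat.card ↥(W₁ ⊔ W₂) : ℂ)⁻¹ * _ = _
    rw [Finset.sum_congr rfl (fun x _ => hterm x), Finset.sum_ite, Finset.sum_const_zero, add_zero,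
      Finset.sum_const, nsmul_eq_mul, ← Fintype.card_subtype, ← Nat.card_eq_fintype_card,
      inv_mul_cancel_left₀ (Nat.cast_ne_zero.2 Nat.card_pos.ne')]
  let A : Subgroup ↥(W₁ ⊔ W₂) := W₁.subgroupOf (W₁ ⊔ W₂)
  let B : Subgroup ↥(W₁ ⊔ W₂) := W₂.subgroupOf (W₁ ⊔ W₂)
  have hs : A ⊔ B = ⊤ := by
    show W₁.subgroupOf (W₁ ⊔ W₂) ⊔ W₂.subgroupOf (W₁ ⊔ W₂) = ⊤
    rw [← Subgroup.subgroupOf_sup le_sup_left le_sup_right, Subgroup.subgroupOf_self]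
  have hd : A ⊓ B = ⊥ := by
    rw [eq_bot_iff]
    intro x hx
    have : (x : L) ∈ W₁ ⊓ W₂ := hx
    rw [hW.2.2.1, Subgroup.mem_bot] at this
    exact Subgroup.mem_bot.2 (Subtype.ext this)
  obtain ⟨eA, -, hsplit⟩ := CyclicTI.exists_split A B hd hs
  obtain ⟨eB, -, -⟩ := CyclicTI.exists_split B A (inf_comm B A ▸ hd) (sup_comm B A ▸ hs)
  obtain ⟨ψ₀, hψ₀, hψ₀1⟩ : ∃ ψ : ↥(W₁ ⊔ W₂) →* ℂˣ,
      (∀ w : ↥(W₁ ⊔ W₂), (w : L) ∈ W₁ → ψ w = 1) ∧ ψ ≠ 1 := by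
    have hB : B ≠ ⊥ := fun h => hW₂ (by
      rw [eq_bot_iff]; intro x hx
      have := Subgroup.mem_bot.1
        (h ▸ (show (⟨x, Subgroup.mem_sup_right hx⟩ : ↥(W₁ ⊔ W₂)) ∈ B from hx))
      exact Subgroup.mem_bot.2 (congrArg Subtype.val this))
    have : Nontrivial (B →* ℂˣ) := by
      rw [← Finite.one_lt_card_iff_nontrivial,
        CommGroup.card_monoidHom_of_hasEnoughRootsOfUnity, Subgroup.one_lt_card_iff_ne_bot]
      exact hB
    obtain ⟨a, b, hab⟩ := exists_pair_ne (B →* ℂˣ)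
    by_cases h : (eB.symm a).1 = 1
    · refine ⟨(eB.symm b).1, fun w hw => (eB.symm b).2 w hw, fun h' => hab ?_⟩
      exact eB.symm.injective (Subtype.ext (h.trans h'.symm))
    · exact ⟨(eB.symm a).1, fun w hw => (eB.symm a).2 w hw, h⟩
  have hinner : ∀ (f g : ↥(W₁ ⊔ W₂) →* ℂˣ),
      classInner (fun v => (f v : ℂ)) (fun v => (g v : ℂ)) = if f = g then 1 else 0 :=
    fun f g => CyclicTI.inner_hom f g
  have hone : (fun _ : ↥(W₁ ⊔ W₂) => (1 : ℂ)) = fun v => (((1 : ↥(W₁ ⊔ W₂) →* ℂˣ) v : ℂˣ) : ℂ) :=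
    funext fun v => by simp
  have hone1 : classInner (fun _ : L => (1 : ℂ)) (fun _ => 1) = 1 :=
    classInner_self (oneChar (G := L)).2
  have hlin : ∀ f : ↥(W₁ ⊔ W₂) →* ℂˣ, (fun v => (f v : ℂ)) ∈ BrauerInd.genChar ↥(W₁ ⊔ W₂) := fun f =>
    AddSubgroup.subset_closure (BrauerInd.isCharacter_linear f)
  -- `1 - φ` induces to `1 - χ φ`
  have hdiff : ∀ φ : ↥(W₁ ⊔ W₂) →* ℂˣ, φ ≠ 1 → (∀ w : ↥(W₁ ⊔ W₂), (w : L) ∈ W₂ → φ w = 1) →
      indFun (W₁ ⊔ W₂) (fun v => 1 - (φ v : ℂ)) = fun g => 1 - χ φ g := by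
    intro φ hφ hφ2
    have hcf := isClassFunction_indFun (W₁ ⊔ W₂) (fun v => 1 - (φ v : ℂ))
    have hz : ∀ v : ↥(W₁ ⊔ W₂), (v : L) ∈ W₂ → (1 : ℂ) - (φ v : ℂ) = 0 := fun v hv => by
      rw [hφ2 v hv, Units.val_one, sub_self]
    let F : L → ℂ := indFun (W₁ ⊔ W₂) (fun v => 1 - (φ v : ℂ)) - fun _ => 1
    have e1 : (fun v : ↥(W₁ ⊔ W₂) => 1 - (φ v : ℂ)) =
        (fun v => (((1 : ↥(W₁ ⊔ W₂) →* ℂˣ) v : ℂˣ) : ℂ)) - fun v => (φ v : ℂ) := funext fun v => by simp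
    have hF1 : classInner (indFun (W₁ ⊔ W₂) (fun v => 1 - (φ v : ℂ))) (fun _ => 1) = 1 := by
      rw [classInner_indFun _ _ (fun _ _ => rfl), e1, hone, CyclicTI.inner_sub, hinner, hinner,
        if_pos rfl, if_neg hφ, sub_zero]
    have hFF : classInner F F = 1 := by
      show classInner (_ - _) (_ - _) = 1
      rw [CyclicTI.inner_sub, CyclicTI.inner_sub_right, CyclicTI.inner_sub_right, hF1, hone1,
        hiso _ _ hz hz, show classInner (fun _ => (1 : ℂ))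
          (indFun (W₁ ⊔ W₂) (fun v => 1 - (φ v : ℂ))) = 1 by rw [classInner_comm, hF1, map_one],
        e1, CyclicTI.inner_sub, CyclicTI.inner_sub_right, CyclicTI.inner_sub_right, hinner, hinner,
        hinner, hinner, if_pos rfl, if_pos rfl, if_neg hφ, if_neg (Ne.symm hφ)]
      norm_num
    have hFg : -F ∈ BrauerInd.genChar L := neg_mem (sub_mem
      (BrauerInd.indFun_mem_genChar _ (e1 ▸ sub_mem (hlin 1) (hlin φ)))
      (AddSubgroup.subset_closure (isCharacter_of_irr (oneChar (G := L)).2)))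
    have hirr : IsIrrCharacter L (-F) := by
      refine BrauerInd.isIrr_of_genChar hFg ?_ ?_
      · rw [CyclicTI.classInner_neg_left, CyclicTI.classInner_neg_right, neg_neg, hFF]
      · show 0 < (-(indFun (W₁ ⊔ W₂) (fun v => 1 - (φ v : ℂ)) 1 - 1)).re
        rw [indFun_apply_one]
        simp
    -- compare with the family
    have hlink : ∀ ψ : ↥(W₁ ⊔ W₂) →* ℂˣ, (∀ w : ↥(W₁ ⊔ W₂), (w : L) ∈ W₁ → ψ w = 1) → ψ ≠ 1 →
        classInner F (χ (φ * ψ)) - classInner F (χ φ) - classInner F (χ ψ) = 1 := by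
      intro ψ hψ hψ1
      have hzα : ∀ v : ↥(W₁ ⊔ W₂), (v : L) ∈ W₂ →
          1 - (φ v : ℂ) - (ψ v : ℂ) + (φ v : ℂ) * (ψ v : ℂ) = 0 := fun v hv => by
        rw [hφ2 v hv, Units.val_one]; ring
      have h1 : classInner (indFun (W₁ ⊔ W₂) (fun v => 1 - (φ v : ℂ)))
          (indFun (W₁ ⊔ W₂) (fun v => 1 - (φ v : ℂ) - (ψ v : ℂ) + (φ v : ℂ) * (ψ v : ℂ))) = 2 := by
        have e2 : (fun v : ↥(W₁ ⊔ W₂) => 1 - (φ v : ℂ) - (ψ v : ℂ) + (φ v : ℂ) * (ψ v : ℂ)) =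
            fun v => 1 - (φ v : ℂ) - (ψ v : ℂ) + (((φ * ψ) v : ℂˣ) : ℂ) := funext fun v => by simp
        have hne : φ ≠ ψ := fun h => hφ (MonoidHom.ext fun w => by
          obtain ⟨a, ha, b, hb, rfl⟩ := Subgroup.mem_sup.1 (hs ▸ Subgroup.mem_top w : w ∈ A ⊔ B)
          rw [map_mul, hφ2 b hb, mul_one, h, hψ a ha, MonoidHom.one_apply])
        have hne2 : φ * ψ ≠ 1 := fun h => hφ (CyclicTI.mul_eq_one_of_trivOn hW hφ2 hψ h)
        have hne3 : φ * ψ ≠ φ := fun h => hψ1 (CyclicTI.hom_mul_left_cancel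
          (h.trans (CyclicTI.hom_mul_one φ).symm))
        rw [hiso _ _ hz hzα, e1, e2, CyclicTI.inner_expand, hone, CyclicTI.inner_sub,
          CyclicTI.inner_sub, CyclicTI.inner_sub, CyclicTI.inner_sub, hinner, hinner, hinner, hinner,
          hinner, hinner, hinner, hinner, if_pos rfl, if_neg hφ, if_neg (Ne.symm hφ), if_pos rfl,
          if_neg (Ne.symm hψ1), if_neg hne, if_neg (Ne.symm hne2), if_neg (Ne.symm hne3)]
        norm_num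
      rw [hχ.induced_eq φ ψ hφ hψ1 hφ2 hψ, CyclicTI.inner_expand, hF1] at h1
      show classInner (_ - _) _ - classInner (_ - _) _ - classInner (_ - _) _ = 1
      rw [CyclicTI.inner_sub, CyclicTI.inner_sub, CyclicTI.inner_sub, ← hχ.map_one, hχ.orthonormal,
        hχ.orthonormal, hχ.orthonormal, if_neg (Ne.symm hφ), if_neg (Ne.symm hψ1),
        if_neg (Ne.symm (fun h => hφ (CyclicTI.mul_eq_one_of_trivOn hW hφ2 hψ h)))]
      linear_combination h1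
    have hFi : CyclicTI.IrrOrNeg F := Or.inr hirr
    have huni : ∀ ω ω', classInner F (χ ω) ≠ 0 → classInner F (χ ω') ≠ 0 → ω = ω' := by
      intro ω ω' ha hb
      by_contra hne
      have horth := hχ.orthonormal ω' ω
      rw [if_neg (Ne.symm hne)] at horth
      rcases CyclicTI.irrOrNeg_eq_or_neg hFi (hχ.irr_or_neg ω') hb with e | e
      · exact ha (e ▸ horth)
      · exact ha (by rw [e, CyclicTI.classInner_neg_left, horth, neg_zero])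
    have hψsq : ψ₀ ^ 2 ≠ 1 := fun h =>
      hψ₀1 (CyclicTI.hom_pow_eq_one (CyclicTI.two_coprime hodd) h)
    have hψsq1 : ∀ w : ↥(W₁ ⊔ W₂), (w : L) ∈ W₁ → (ψ₀ ^ 2) w = 1 := fun w hw => by
      rw [MonoidHom.pow_apply, hψ₀ w hw, one_pow]
    have hmain : classInner F (χ φ) ≠ 0 := by
      intro h0
      have hex : ∀ ψ : ↥(W₁ ⊔ W₂) →* ℂˣ, (∀ w : ↥(W₁ ⊔ W₂), (w : L) ∈ W₁ → ψ w = 1) → ψ ≠ 1 →
          ∃ a, (a = 1 ∨ a = φ) ∧ classInner F (χ (a * ψ)) ≠ 0 := by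
        intro ψ hψ hψ1
        by_cases h : classInner F (χ ψ) = 0
        · refine ⟨φ, Or.inr rfl, fun h' => ?_⟩
          have := hlink ψ hψ hψ1
          rw [h0, h, h'] at this
          norm_num at this
        · exact ⟨1, Or.inl rfl, by rwa [CyclicTI.hom_one_mul]⟩
      obtain ⟨a, ha, hωa⟩ := hex ψ₀ hψ₀ hψ₀1
      obtain ⟨b, hb, hωb⟩ := hex _ hψsq1 hψsq
      have heq := huni _ _ hωa hωb
      rw [show ψ₀ ^ 2 = ψ₀ * ψ₀ from MonoidHom.ext fun w => by simp [pow_two],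
        ← CyclicTI.hom_mul_assoc] at heq
      have h5 : a = b * ψ₀ := CyclicTI.hom_mul_right_cancel heq
      rcases ha with rfl | rfl <;> rcases hb with rfl | rfl
      · rw [CyclicTI.hom_one_mul] at h5; exact hψ₀1 h5.symm
      · exact hφ (CyclicTI.mul_eq_one_of_trivOn hW hφ2 hψ₀ h5.symm)
      · rw [CyclicTI.hom_one_mul] at h5
        refine hφ (MonoidHom.ext fun w => ?_)
        obtain ⟨u, hu, t, ht, rfl⟩ := Subgroup.mem_sup.1 (hs ▸ Subgroup.mem_top w : w ∈ A ⊔ B)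
        rw [map_mul, hφ2 t ht, mul_one, h5, hψ₀ u hu, MonoidHom.one_apply]
      · exact hψ₀1 (CyclicTI.hom_mul_left_cancel (h5.symm.trans (CyclicTI.hom_mul_one _).symm))
    have h := hlink ψ₀ hψ₀ hψ₀1
    have hb : classInner F (χ ψ₀) = 0 := by
      by_contra hb
      have e := huni _ _ hmain hb
      exact hφ (MonoidHom.ext fun w => by
        obtain ⟨u, hu, t, ht, rfl⟩ := Subgroup.mem_sup.1 (hs ▸ Subgroup.mem_top w : w ∈ A ⊔ B)
        rw [map_mul, hφ2 t ht, mul_one, e, hψ₀ u hu, MonoidHom.one_apply])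
    have hc : classInner F (χ (φ * ψ₀)) = 0 := by
      by_contra hc
      exact hψ₀1 (CyclicTI.hom_mul_left_cancel
        ((huni _ _ hc hmain).trans (CyclicTI.hom_mul_one _).symm))
    rw [hb, hc] at h
    have hneg : -F = χ φ := CyclicTI.irrOrNeg_eq_of_inner_eq_one (Or.inl hirr) (hχ.irr_or_neg φ)
      (by rw [CyclicTI.classInner_neg_left]; linear_combination h)
    funext g
    rw [← hneg]
    show indFun (W₁ ⊔ W₂) _ g = 1 - -(indFun (W₁ ⊔ W₂) _ g - 1)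
    ring
  -- differences
  have hfour : ∀ (φ ψ : ↥(W₁ ⊔ W₂) →* ℂˣ), (∀ w : ↥(W₁ ⊔ W₂), (w : L) ∈ W₂ → φ w = 1) →
      (∀ w : ↥(W₁ ⊔ W₂), (w : L) ∈ W₁ → ψ w = 1) →
      indFun (W₁ ⊔ W₂) (fun v => (((φ * ψ) v : ℂˣ) : ℂ) - (ψ v : ℂ)) =
        fun g => χ (φ * ψ) g - χ ψ g := by
    intro φ ψ hφ2 hψ
    by_cases hφ : φ = 1
    · subst hφ
      funext g
      rw [CyclicTI.hom_one_mul, sub_self,
        show (fun v : ↥(W₁ ⊔ W₂) => (ψ v : ℂ) - (ψ v : ℂ)) = fun _ => 0 from funext fun v => sub_self _]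
      simp [indFun, Cfsg.extendByZero, Function.extend]
    by_cases hψ1 : ψ = 1
    · subst hψ1
      funext g
      rw [CyclicTI.hom_mul_one, hχ.map_one]
      have h := congrFun (hdiff φ hφ hφ2) g
      rw [show (fun v : ↥(W₁ ⊔ W₂) => (φ v : ℂ) - (((1 : ↥(W₁ ⊔ W₂) →* ℂˣ) v : ℂˣ) : ℂ)) =
        -(fun v : ↥(W₁ ⊔ W₂) => 1 - (φ v : ℂ)) from funext fun v => by simp]
      have e : indFun (W₁ ⊔ W₂) (-(fun v : ↥(W₁ ⊔ W₂) => 1 - (φ v : ℂ))) g =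
          -indFun (W₁ ⊔ W₂) (fun v : ↥(W₁ ⊔ W₂) => 1 - (φ v : ℂ)) g :=
        congrFun ((BrauerInd.indLin (W₁ ⊔ W₂)).map_neg _) g
      rw [e, h]; ring
    funext g
    have h1 := congrFun (hdiff φ hφ hφ2) g
    have h2 := congrFun (hχ.induced_eq φ ψ hφ hψ1 hφ2 hψ) g
    rw [show (fun v : ↥(W₁ ⊔ W₂) => (((φ * ψ) v : ℂˣ) : ℂ) - (ψ v : ℂ)) =
      (fun v : ↥(W₁ ⊔ W₂) => 1 - (φ v : ℂ) - (ψ v : ℂ) + (φ v : ℂ) * (ψ v : ℂ)) -
        fun v : ↥(W₁ ⊔ W₂) => 1 - (φ v : ℂ) from funext fun v => by simp; ring]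
    rw [show indFun (W₁ ⊔ W₂) (((fun v : ↥(W₁ ⊔ W₂) => 1 - (φ v : ℂ) - (ψ v : ℂ) + (φ v : ℂ) * (ψ v : ℂ)) -
        fun v : ↥(W₁ ⊔ W₂) => 1 - (φ v : ℂ))) g = _ from congrFun ((BrauerInd.indLin (W₁ ⊔ W₂)).map_sub _ _) g]
    show indFun (W₁ ⊔ W₂) _ g - indFun (W₁ ⊔ W₂) _ g = _
    rw [h1, h2]; ring
  have hagree : ∀ ω ω' : ↥(W₁ ⊔ W₂) →* ℂˣ, (∀ w : ↥(W₁ ⊔ W₂), (w : L) ∈ W₂ → ω w = ω' w) →
      indFun (W₁ ⊔ W₂) (fun v => (ω v : ℂ) - (ω' v : ℂ)) = fun g => χ ω g - χ ω' g := by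
    intro ω ω' h
    obtain ⟨φ, ψ, rfl⟩ := hsplit ω
    obtain ⟨φ', ψ', rfl⟩ := hsplit ω'
    have hψ : ψ.1 = ψ'.1 := MonoidHom.ext fun w => by
      obtain ⟨u, hu, t, ht, rfl⟩ := Subgroup.mem_sup.1 (hs ▸ Subgroup.mem_top w : w ∈ A ⊔ B)
      have h1 := h t ht
      rw [MonoidHom.mul_apply, MonoidHom.mul_apply, φ.2 t ht, φ'.2 t ht, one_mul, one_mul] at h1
      rw [map_mul, map_mul, ψ.2 u hu, ψ'.2 u hu, h1]
    rw [hψ]
    funext g
    rw [show (fun v : ↥(W₁ ⊔ W₂) => (((φ.1 * ψ'.1) v : ℂˣ) : ℂ) - (((φ'.1 * ψ'.1) v : ℂˣ) : ℂ)) =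
      (fun v : ↥(W₁ ⊔ W₂) => (((φ.1 * ψ'.1) v : ℂˣ) : ℂ) - (ψ'.1 v : ℂ)) -
        fun v : ↥(W₁ ⊔ W₂) => (((φ'.1 * ψ'.1) v : ℂˣ) : ℂ) - (ψ'.1 v : ℂ) from funext fun v => by simp]
    rw [show indFun (W₁ ⊔ W₂) ((fun v : ↥(W₁ ⊔ W₂) => (((φ.1 * ψ'.1) v : ℂˣ) : ℂ) - (ψ'.1 v : ℂ)) -
        fun v : ↥(W₁ ⊔ W₂) => (((φ'.1 * ψ'.1) v : ℂˣ) : ℂ) - (ψ'.1 v : ℂ)) g = _ from
      congrFun ((BrauerInd.indLin (W₁ ⊔ W₂)).map_sub _ _) g]
    show indFun (W₁ ⊔ W₂) _ g - indFun (W₁ ⊔ W₂) _ g = _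
    rw [hfour φ.1 ψ'.1 (fun w hw => φ.2 w hw) (fun w hw => ψ'.2 w hw),
      hfour φ'.1 ψ'.1 (fun w hw => φ'.2 w hw) (fun w hw => ψ'.2 w hw)]
    ring
  let δ : (↥(W₁ ⊔ W₂) →* ℂˣ) → ℂ := fun ω => if IsIrrCharacter L (χ ω) then 1 else -1
  let μ : (↥(W₁ ⊔ W₂) →* ℂˣ) → L → ℂ := fun ω => if IsIrrCharacter L (χ ω) then χ ω else -χ ω
  have hμirr : ∀ ω, IsIrrCharacter L (μ ω) := fun ω => by
    simp only [μ]; split
    · assumption
    · exact (hχ.irr_or_neg ω).resolve_left (by assumption)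
  have hχμ : ∀ ω, χ ω = δ ω • μ ω := fun ω => by
    simp only [μ, δ]; split
    · rw [one_smul]
    · rw [neg_one_smul, neg_neg]
  have hδ : ∀ ω, δ ω = 1 ∨ δ ω = -1 := fun ω => by simp only [δ]; split <;> simp
  have hδsq : ∀ ω, δ ω * δ ω = 1 := fun ω => by rcases hδ ω with h | h <;> rw [h] <;> norm_num
  -- vanishing outside `W₂`
  have hvanish : ∀ r : ↥(W₁ ⊔ W₂) → ℂ, (∀ ω ω' : ↥(W₁ ⊔ W₂) →* ℂˣ, (∀ w : ↥(W₁ ⊔ W₂), (w : L) ∈ W₂ → ω w = ω' w) →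
      classInner r (fun v => (ω v : ℂ) - (ω' v : ℂ)) = 0) →
      ∀ w : ↥(W₁ ⊔ W₂), (w : L) ∉ W₂ → r w = 0 := by
    intro r hr w hw
    obtain ⟨l, hl⟩ := CommGroup.exists_apply_ne_one_of_hasEnoughRootsOfUnity (↥(W₁ ⊔ W₂) ⧸ B) ℂ
      (a := (w : ↥(W₁ ⊔ W₂) ⧸ B)) fun h => hw ((QuotientGroup.eq_one_iff w).1 h)
    let φ : ↥(W₁ ⊔ W₂) →* ℂˣ := l.comp (QuotientGroup.mk' B)
    have hφ : ∀ v : ↥(W₁ ⊔ W₂), (v : L) ∈ W₂ → φ v = 1 := fun v hv => by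
      show l (v : ↥(W₁ ⊔ W₂) ⧸ B) = 1
      rw [(QuotientGroup.eq_one_iff v).2 hv, map_one]
    haveI := Fintype.ofFinite (CyclicTI.TrivOn (⊥ : Subgroup ↥(W₁ ⊔ W₂)))
    have key : ∑ f : CyclicTI.TrivOn (⊥ : Subgroup ↥(W₁ ⊔ W₂)),
        (f.1 w : ℂ) * classInner r (fun v => (f.1 v : ℂ) - (((f.1 * φ) v : ℂˣ) : ℂ)) = 0 :=
      Finset.sum_eq_zero fun f _ => by
        rw [hr f.1 (f.1 * φ) (fun v hv => by rw [MonoidHom.mul_apply, hφ v hv, mul_one]), mul_zero]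
    simp only [classInner_eq] at key
    have key' : (Nat.card ↥(W₁ ⊔ W₂) : ℂ)⁻¹ *
        ((Nat.card (CyclicTI.TrivOn (⊥ : Subgroup ↥(W₁ ⊔ W₂))) : ℂ) * (r w * (1 - (φ w⁻¹ : ℂ)))) = 0 := by
      rw [← key]
      have e : ∀ f : CyclicTI.TrivOn (⊥ : Subgroup ↥(W₁ ⊔ W₂)), (f.1 w : ℂ) * ((Nat.card ↥(W₁ ⊔ W₂) : ℂ)⁻¹ *
          ∑ v, r v * (starRingEnd ℂ) ((f.1 v : ℂ) - (((f.1 * φ) v : ℂˣ) : ℂ))) =
          (Nat.card ↥(W₁ ⊔ W₂) : ℂ)⁻¹ * ∑ v, (r v * (1 - (φ v⁻¹ : ℂ))) * (f.1 (w * v⁻¹) : ℂ) := by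
        intro f
        rw [← mul_assoc, mul_comm (f.1 w : ℂ), mul_assoc]
        congr 1
        rw [Finset.mul_sum]
        refine Finset.sum_congr rfl fun v _ => ?_
        rw [MonoidHom.mul_apply, Units.val_mul, map_sub, map_mul, CyclicTI.conj_hom,
          CyclicTI.conj_hom, map_mul f.1 w, Units.val_mul]
        ring
      rw [Finset.sum_congr rfl fun f _ => e f, ← Finset.mul_sum, Finset.sum_comm]
      congr 1
      symm
      rw [Finset.sum_eq_single w]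
      · rw [← Finset.mul_sum, CyclicTI.sum_trivOn, if_pos (by simp)]
        ring
      · intro v _ hv
        rw [← Finset.mul_sum, CyclicTI.sum_trivOn, if_neg, mul_zero]
        rw [Subgroup.mem_bot, mul_inv_eq_one]
        exact fun h => hv h.symm
      · exact fun h => absurd (Finset.mem_univ _) h
    have : Nonempty (CyclicTI.TrivOn (⊥ : Subgroup ↥(W₁ ⊔ W₂))) :=
      ⟨⟨1, fun _ _ => rfl⟩⟩
    rcases mul_eq_zero.1 key' with h | h
    · exact absurd h (inv_ne_zero (Nat.cast_ne_zero.2 Nat.card_pos.ne'))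
    rcases mul_eq_zero.1 h with h | h
    · exact absurd h (Nat.cast_ne_zero.2 Nat.card_pos.ne')
    refine (mul_eq_zero.1 h).resolve_right fun h' => hl ?_
    have h1 : φ w⁻¹ = 1 := Units.ext (sub_eq_zero.1 h').symm
    rw [map_inv, inv_eq_one] at h1
    exact h1
  have hcfχ : ∀ ω, IsClassFunction L (χ ω) := fun ω => by
    rcases hχ.irr_or_neg ω with h | h
    · exact isClassFunction (isCharacter_of_irr h)
    · intro g k
      simpa using isClassFunction (isCharacter_of_irr h) g k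
  have hval : ∀ ω, ∀ w : ↥(W₁ ⊔ W₂), (w : L) ∉ W₂ → χ ω w = (ω w : ℂ) := by
    intro ω w hw
    refine sub_eq_zero.1 (hvanish (fun v => χ ω v - (ω v : ℂ)) (fun a b hab => ?_) w hw)
    have h1 : classInner (fun v : ↥(W₁ ⊔ W₂) => χ ω v) (fun v => (a v : ℂ) - (b v : ℂ)) =
        (if ω = a then 1 else 0) - (if ω = b then 1 else 0) := by
      rw [← classInner_indFun' _ _ (hcfχ ω), hagree a b hab]
      show classInner _ (χ a - χ b) = _
      rw [CyclicTI.inner_sub_right, hχ.orthonormal, hχ.orthonormal]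
      split_ifs <;> rfl
    show classInner ((fun v : ↥(W₁ ⊔ W₂) => χ ω v) - fun v => (ω v : ℂ))
      ((fun v => (a v : ℂ)) - fun v => (b v : ℂ)) = 0
    rw [CyclicTI.inner_sub, CyclicTI.inner_sub_right (fun v => (ω v : ℂ)), hinner, hinner]
    show classInner (fun v : ↥(W₁ ⊔ W₂) => χ ω v) (fun v => (a v : ℂ) - (b v : ℂ)) - _ = 0
    rw [h1]; ring
  refine ⟨μ, δ, ?_, hμirr, hδ, ?_, ?_, ?_, ?_⟩
  · intro ω ω' h
    by_contra hne
    have h1 := hχ.orthonormal ω ω'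
    rw [if_neg hne, hχμ ω, hχμ ω', h, classInner_smul_left, classInner_comm,
      classInner_smul_left, classInner_self (hμirr ω'), mul_one] at h1
    rcases hδ ω with e | e <;> rcases hδ ω' with e' | e' <;> rw [e, e'] at h1 <;> norm_num at h1
  · intro ω ω' h
    have hd0 := congrFun (hagree ω ω' h) 1
    rw [indFun_apply_one, map_one, map_one, sub_self, mul_zero] at hd0
    have hpos : ∀ η, 0 < (μ η 1).re := fun η => by
      rw [apply_one (isCharacter_of_irr (hμirr η)), Complex.natCast_re, Nat.cast_pos]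
      exact charDegree_pos (hμirr η)
    have hδeq : δ ω = δ ω' := by
      rw [hχμ ω, hχμ ω'] at hd0
      simp only [Pi.smul_apply, smul_eq_mul] at hd0
      have h0 := congrArg Complex.re hd0
      rcases hδ ω with e | e <;> rcases hδ ω' with e' | e' <;> rw [e, e'] at h0 <;>
        simp at h0 <;> first
          | (exfalso; have := hpos ω; have := hpos ω'; linarith)
          | rw [e, e']
    refine ⟨hδeq, ?_⟩
    rw [hagree ω ω' h, hχμ ω, hχμ ω', hδeq, smul_sub]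
    rfl
  · intro ω w hw
    have h := hval ω w hw
    rw [hχμ ω, Pi.smul_apply, smul_eq_mul] at h
    rw [← h, ← mul_assoc, hδsq, one_mul]
  · intro θ hθ hne w hw
    refine hvanish (fun v => θ v) (fun a b hab => ?_) w hw
    rw [← classInner_indFun' _ _ (isClassFunction (isCharacter_of_irr hθ)), hagree a b hab]
    have h0 : ∀ c, classInner θ (χ c) = 0 := fun c => by
      rw [hχμ c, classInner_comm, classInner_smul_left, classInner_ne (hμirr c) hθ (Ne.symm (hne c)),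
        mul_zero, map_zero]
    show classInner θ (χ a - χ b) = 0
    rw [CyclicTI.inner_sub_right, h0, h0, sub_zero]
  · intro ω
    haveI := Fintype.ofFinite ↥W₁
    let inc : ↥W₁ →* ↥(W₁ ⊔ W₂) := Subgroup.inclusion le_sup_left
    let d : ℤ := if δ ω = 1 then 1 else -1
    have hd' : (d : ℂ) = δ ω := by rcases hδ ω with e | e <;> simp [d, e] <;> norm_num
    let r : ↥W₁ → ℂ := fun v => μ ω v - δ ω * (ω (inc v) : ℂ)
    have hr : r ∈ BrauerInd.genChar ↥W₁ := by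
      have e : r = (fun v : ↥W₁ => μ ω v) - d • fun v : ↥W₁ => (((ω.comp inc) v : ℂˣ) : ℂ) := by
        funext v
        simp [r, ← hd', zsmul_eq_mul]
      rw [e]
      exact (BrauerInd.genChar ↥W₁).sub_mem
        (AddSubgroup.subset_closure (isCharacter_restrict (isCharacter_of_irr (hμirr ω)) W₁))
        ((BrauerInd.genChar ↥W₁).zsmul_mem
          (AddSubgroup.subset_closure (BrauerInd.isCharacter_linear (ω.comp inc))) d)
    obtain ⟨n, hn⟩ := BrauerInd.genChar_inner_int hr oneChar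
    refine ⟨n, ?_⟩
    have hsupp : ∀ v : ↥W₁, v ≠ 1 → r v = 0 := by
      intro v hv
      have hv₂ : ((inc v : ↥(W₁ ⊔ W₂)) : L) ∉ W₂ := fun h => hv (Subtype.ext (by
        have : (v : L) ∈ W₁ ⊓ W₂ := ⟨v.2, h⟩
        rw [hW.2.2.1, Subgroup.mem_bot] at this
        exact this))
      have h := hval ω (inc v) hv₂
      rw [hχμ ω, Pi.smul_apply, smul_eq_mul] at h
      show μ ω (v : L) - δ ω * (ω (inc v) : ℂ) = 0
      rw [← h, ← mul_assoc, hδsq, one_mul]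
      exact sub_self _
    rw [show (oneChar : Cfsg.IrrCharacter ↥W₁).1 = fun _ => (1 : ℂ) from rfl, classInner_one,
      Finset.sum_eq_single 1 (fun v _ hv => hsupp v hv)
        (fun h => absurd (Finset.mem_univ _) h)] at hn
    rw [inv_mul_eq_iff_eq_mul₀ (Nat.cast_ne_zero.2 Nat.card_pos.ne')] at hn
    have hr1 : r 1 = μ ω 1 - δ ω := by simp [r]
    rw [← hr1, hn, mul_comm]

end Cfsg.Agent.S1511
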