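import Cfsg.Statements.S1512
import Mathlib

set_option autoImplicit false
open Cfsg

namespace Cfsg.Agent.S1512

/-- Let K be a normal subgroup of the finite group L and x a non-identity element whose order is coprime to the order of K, such that K ⊓ C_L(y) = W₂ for every non-identity element y of the cyclic group generated by x. Then the number of conjugacy classes of K mapped to themselves by conjugation by x is at most Nat.card W₂. -/
theorem result {L : Type*} [Group L] [Finite L] (K W₂ : Subgroup L) [hK : K.Normal] (x : L) (hx1 : x ≠ 1) (hx : Nat.Coprime (orderOf x) (Nat.card K)) (hC : ∀ y ∈ Subgroup.zpowers x, y ≠ 1 → K ⊓ Subgroup.centralizer ({y} : Set L) = W₂) : Nat.card {C : ConjClasses K // ConjClasses.map (MulEquiv.toMonoidHom ((MulAut.conjNormal x : MulAut K))) C = C} ≤ Nat.card W₂ := by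
  classical
  set φ : L →* MulAut K := MulAut.conjNormal
  have key : ∀ C : ConjClasses K,
      ConjClasses.map (MulEquiv.toMonoidHom ((MulAut.conjNormal x : MulAut K))) C = C →
      ∃ k : K, ConjClasses.mk k = C ∧ (k : L) ∈ W₂ := by
    intro C hCx
    by_contra hne
    let T : Subgroup L :=
      { carrier := {y | ∀ k : K, ConjClasses.mk k = C → ConjClasses.mk (φ y k) = C}
        one_mem' := fun k hk => by simpa using hk
        mul_mem' := fun {a b} ha hb k hk => by
          rw [map_mul]; exact ha _ (hb k hk)
        inv_mem' := fun {a} ha k hk => by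
          have hpow : ∀ n : ℕ, ∀ k : K, ConjClasses.mk k = C → ConjClasses.mk (φ (a ^ n) k) = C := by
            intro n
            induction n with
            | zero => intro k hk; simpa using hk
            | succ n ih => intro k hk; rw [pow_succ, map_mul]; exact ih _ (ha k hk)
          have := mul_eq_one_iff_eq_inv'.1 (show a * a ^ (orderOf a - 1) = 1 by
            rw [← pow_succ', Nat.sub_add_cancel (orderOf_pos a), pow_orderOf_eq_one])
          rw [← this]
          exact hpow _ k hk }
    have hxT : x ∈ T := fun k hk => by
      conv_rhs => rw [← hCx, ← hk]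
      rfl
    have hP : ∀ y ∈ Subgroup.zpowers x, y ∈ T := fun y hy =>
      (Subgroup.zpowers_le.2 hxT) hy
    let S := {k : K // ConjClasses.mk k = C}
    let _act : MulAction (Subgroup.zpowers x) S :=
      { smul := fun y k => ⟨φ (y : L) k.1, hP y y.2 k.1 k.2⟩
        one_smul := fun k => Subtype.ext (by change φ 1 k.1 = k.1; simp)
        mul_smul := fun y z k => Subtype.ext (by
          change φ ((y : L) * z) k.1 = φ (y : L) (φ (z : L) k.1)
          simp) }
    have hfree : ∀ k : S, MulAction.stabilizer (Subgroup.zpowers x) k = ⊥ := by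
      intro k
      rw [Subgroup.eq_bot_iff_forall]
      intro y hy
      by_contra hy1
      have h1 : φ (y : L) k.1 = k.1 := congrArg Subtype.val (MulAction.mem_stabilizer_iff.1 hy)
      have h2 : (k.1 : L) ∈ K ⊓ Subgroup.centralizer ({(y : L)} : Set L) := by
        refine ⟨k.1.2, Subgroup.mem_centralizer_iff.2 fun z hz => ?_⟩
        rw [Set.mem_singleton_iff.1 hz]
        have := congrArg Subtype.val h1
        rw [MulAut.conjNormal_apply] at this
        exact mul_inv_eq_iff_eq_mul.1 this
      rw [hC y y.2 (fun h => hy1 (Subtype.ext h))] at h2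
      exact hne ⟨k.1, k.2, h2⟩
    have e : Nat.card S = Nat.card (Quotient (MulAction.orbitRel (Subgroup.zpowers x) S)) *
        Nat.card (Subgroup.zpowers x) := by
      rw [← Nat.card_prod]
      exact Nat.card_congr (MulAction.selfEquivOrbitsQuotientProd hfree)
    have hdK : Nat.card S ∣ Nat.card K := by
      obtain ⟨k₀, rfl⟩ := ConjClasses.exists_rep C
      · haveI := Fintype.ofFinite K
        haveI := Fintype.ofFinite (ConjAct K)
        haveI := Fintype.ofFinite (MulAction.orbit (ConjAct K) k₀)
        have h := MulAction.card_orbit_mul_card_stabilizer_eq_card_group (ConjAct K) k₀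
        rw [← Nat.card_eq_fintype_card, ← Nat.card_eq_fintype_card, ← Nat.card_eq_fintype_card] at h
        refine ⟨Nat.card (MulAction.stabilizer (ConjAct K) k₀), ?_⟩
        rw [show Nat.card K = Nat.card (ConjAct K) from Nat.card_congr ConjAct.toConjAct.toEquiv,
          ← h]
        congr 1
        rw [ConjAct.orbit_eq_carrier_conjClasses]
        exact Nat.card_congr (Equiv.subtypeEquivRight fun k => by
          simp [ConjClasses.mem_carrier_iff_mk_eq])
    rw [Nat.card_zpowers] at e
    have h1 : orderOf x ∣ Nat.gcd (orderOf x) (Nat.card K) :=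
      Nat.dvd_gcd dvd_rfl ((Dvd.intro_left _ e.symm).trans hdK)
    rw [hx, Nat.dvd_one, orderOf_eq_one_iff] at h1
    exact hx1 h1
  choose f hf hf' using key
  refine Nat.card_le_card_of_injective (fun C => (⟨(f C.1 C.2 : L), hf' C.1 C.2⟩ : W₂)) ?_
  intro C D hCD
  have : f C.1 C.2 = f D.1 D.2 := Subtype.ext (congrArg (fun w : W₂ => (w : L)) hCD)
  exact Subtype.ext (by rw [← hf C.1 C.2, this, hf D.1 D.2])

end Cfsg.Agent.S1512
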