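import Cfsg.Statements.S1513
import Cfsg.Agent.Clifford.InertiaAbelian
import Cfsg.Agent.S0173
import Cfsg.Agent.CoprimeAction.Basic

set_option autoImplicit false
open Cfsg

namespace Cfsg.Agent.S1513

/-- Let L be a finite group with K normal with complement W₁ ≠ 1 a cyclic Hall subgroup, and W₂ ≠ 1 a cyclic subgroup of K equal to C_K(x) for every non-identity x ∈ W₁, with W₁W₂ of odd order. For an irreducible character θ of K: if θ is not fixed under conjugation by some element of W₁, then the function induced from θ to L is an irreducible character of L; and the irreducible characters of K fixed by all of W₁ are exactly Nat.card W₂ in number, each inducing to the sum of Nat.card W₁ pairwise distinct irreducible characters of L. -/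
theorem result {L : Type*} [Group L] [Fintype L] (K W₁ W₂ : Subgroup L) [hK : K.Normal] (hKW₁ : K ⊓ W₁ = ⊥) (hKW₁' : K ⊔ W₁ = ⊤) (hW₁ : W₁ ≠ ⊥) (hW₁c : IsCyclic W₁) (hHall : Nat.Coprime (Nat.card W₁) W₁.index) (hW₂ : W₂ ≠ ⊥) (hW₂c : IsCyclic W₂) (hW₂K : W₂ ≤ K) (hC : ∀ x ∈ W₁, x ≠ 1 → K ⊓ Subgroup.centralizer ({x} : Set L) = W₂) (hodd : Odd (Nat.card ↥(W₁ ⊔ W₂))) : (∀ θ : K → ℂ, Cfsg.IsIrrCharacter K θ → (∃ x ∈ W₁, (fun k : K => θ ⟨x * k * x⁻¹, hK.conj_mem (k : L) k.2 x⟩) ≠ θ) → Cfsg.IsIrrCharacter L (Cfsg.indFun K θ)) ∧ Nat.card {θ : Cfsg.IrrCharacter K // ∀ x ∈ W₁, (fun k : K => (θ : K → ℂ) ⟨x * k * x⁻¹, hK.conj_mem (k : L) k.2 x⟩) = θ} = Nat.card W₂ ∧ (∀ θ : K → ℂ, Cfsg.IsIrrCharacter K θ → (∀ x ∈ W₁, (fun k : K => θ ⟨x * k * x⁻¹, hK.conj_mem (k : L) k.2 x⟩) = θ) → ∃ C : Finset (L → ℂ), C.card = Nat.card W₁ ∧ (∀ μ ∈ C, Cfsg.IsIrrCharacter L μ) ∧ Cfsg.indFun K θ = ∑ μ ∈ C, μ) := by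
  classical
  letI := Fintype.ofFinite K
  have hcpl : Subgroup.IsComplement' K W₁ := by
    refine Subgroup.isComplement'_of_disjoint_and_mul_eq_univ (disjoint_iff.mpr hKW₁) ?_
    rw [← Subgroup.normal_mul K W₁, hKW₁']
    rfl
  have hidx : K.index = Nat.card W₁ := hcpl.symm.index_eq_card
  have hcardK : W₁.index = Nat.card K := hcpl.index_eq_card
  haveI := hW₂c
  let P : L → (K → ℂ) → Prop := fun x θ => (fun k : K => θ ⟨x * k * x⁻¹, hK.conj_mem (k : L) k.2 x⟩) = θ
  have hP : ∀ x θ, P x θ ↔ x ∈ CfsgLib.Clifford.inertia θ := fun _ _ => Iff.rfl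
  -- one fixed class for each element of `W₂`
  have hcount : ∀ x ∈ W₁, x ≠ 1 →
      Nat.card {θ : Cfsg.IrrCharacter K // P x θ.1} = Nat.card W₂ := by
    intro x hx hx1
    let α : K ≃* K := MulAut.conjNormal x
    have hperm := Cfsg.Agent.S0173.result (G := K) α
    have hfix : ∀ k : K, (k : L) ∈ W₂ → α k = k := fun k hk => by
      refine Subtype.ext ?_
      rw [MulAut.conjNormal_apply, mul_inv_eq_iff_eq_mul]
      rw [← hC x hx hx1] at hk
      exact (Subgroup.mem_centralizer_singleton_iff.mp hk.2).symm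
    let c : L ≃* ConjAct L := ConjAct.toConjAct
    let A : Subgroup (ConjAct L) := Subgroup.zpowers (c x)
    let K' : Subgroup (ConjAct L) := K.map c.toMonoidHom
    have hAK : A ≤ Subgroup.normalizer (K' : Set (ConjAct L)) := by
      have : K'.Normal := Subgroup.Normal.map hK c.toMonoidHom c.surjective
      rw [Subgroup.normalizer_eq_top]
      exact le_top
    have hcop : (Nat.card A).Coprime (Nat.card K') := by
      have h1 : Nat.card A ∣ Nat.card W₁ := by
        rw [Nat.card_zpowers, MulEquiv.orderOf_eq]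
        exact Subgroup.orderOf_dvd_natCard W₁ hx
      rw [show Nat.card K' = Nat.card K from Subgroup.card_map_of_injective c.injective, ← hcardK]
      exact Nat.Coprime.coprime_dvd_left h1 hHall
    have hsolv : Group.IsSolvable A ∨ Group.IsSolvable K' := Or.inl inferInstance
    let X : K → Set L := fun k => {y | ∃ b ∈ K, b * (k : L) * b⁻¹ = y}
    have htr : ∀ k, ∀ y ∈ X k, ∀ z ∈ X k, ∃ b ∈ K', b • y = z := by
      rintro k y ⟨b, hb, rfl⟩ z ⟨b', hb', rfl⟩
      refine ⟨c (b' * b⁻¹), Subgroup.mem_map_of_mem _ (K.mul_mem hb' (K.inv_mem hb)), ?_⟩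
      rw [ConjAct.toConjAct_smul]
      group
    have hAX : ∀ k : K, ConjClasses.map α.toMonoidHom (ConjClasses.mk k) = ConjClasses.mk k →
        ∀ a ∈ A, ∀ y ∈ X k, a • y ∈ X k := by
      intro k hk a ha y hy
      obtain ⟨d, hd⟩ := isConj_iff.mp (ConjClasses.mk_eq_mk_iff_isConj.mp hk.symm)
      have hd' : (d : L) * k * (d : L)⁻¹ = x * k * x⁻¹ := by
        have h1 := congrArg Subtype.val hd
        simpa [α] using h1
      have hgen : ∀ y ∈ X k, c x • y ∈ X k := by
        rintro y ⟨b, hb, rfl⟩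
        refine ⟨x * b * x⁻¹ * d, K.mul_mem (hK.conj_mem b hb x) d.2, ?_⟩
        rw [ConjAct.toConjAct_smul]
        calc x * b * x⁻¹ * (d : L) * k * (x * b * x⁻¹ * (d : L))⁻¹
            = x * b * x⁻¹ * ((d : L) * k * (d : L)⁻¹) * x * b⁻¹ * x⁻¹ := by group
          _ = _ := by rw [hd']; group
      obtain ⟨n, rfl⟩ := (mem_powers_iff_mem_zpowers (x := c x)).mpr ha
      clear ha
      simp only
      induction n generalizing y with
      | zero => rwa [pow_zero, one_smul]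
      | succ n ih => rw [pow_succ, mul_smul]; exact ih _ (hgen y hy)
    have hW₂fix : ∀ k : K, (k : L) ∈ W₂ → ∀ a ∈ A, a • (k : L) = k := by
      intro k hk a ha
      have h1 : A ≤ MulAction.stabilizer (ConjAct L) (k : L) := by
        rw [Subgroup.zpowers_le, MulAction.mem_stabilizer_iff, ConjAct.toConjAct_smul]
        have h2 := congrArg Subtype.val (hfix k hk)
        simpa [α] using h2
      exact h1 ha
    rw [← Nat.card_congr (Equiv.subtypeEquivRight (q := fun θ : Cfsg.IrrCharacter K => P x θ.1) fun θ => by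
      change (θ : K → ℂ) ∘ α = (θ : K → ℂ) ↔ CfsgLib.Clifford.conjFun x θ.1 = θ.1
      rw [CfsgLib.Clifford.conjFun_eq_comp]
      rfl), ← hperm]
    symm
    refine Nat.card_eq_of_bijective (fun w : W₂ => ⟨ConjClasses.mk ⟨(w : L), hW₂K w.2⟩,
      congrArg ConjClasses.mk (hfix _ w.2)⟩) ⟨fun v w hvw => ?_, fun C => ?_⟩
    · have h1 := congrArg Subtype.val hvw
      obtain ⟨d, hd⟩ := isConj_iff.mp (ConjClasses.mk_eq_mk_iff_isConj.mp h1)
      have hw : (w : L) ∈ X ⟨(v : L), hW₂K v.2⟩ := ⟨d, d.2, congrArg Subtype.val hd⟩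
      obtain ⟨e, he, hev⟩ := CfsgLib.CoprimeAction.fixed_transitive hAK hcop hsolv (X ⟨(v : L), hW₂K v.2⟩)
        (hAX _ (congrArg ConjClasses.mk (hfix _ v.2))) (htr _) ⟨1, K.one_mem, by simp⟩ hw
        (hW₂fix ⟨(v : L), hW₂K v.2⟩ v.2) (hW₂fix ⟨(w : L), hW₂K w.2⟩ w.2)
      obtain ⟨heK, hec⟩ := Subgroup.mem_inf.mp he
      obtain ⟨e', he', rfl⟩ := Subgroup.mem_map.mp heK
      have he2 : e' ∈ W₂ := by
        rw [← hC x hx hx1]
        refine ⟨he', Subgroup.mem_centralizer_singleton_iff.mpr ?_⟩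
        exact c.injective (by simpa using (Subgroup.mem_centralizer_iff.mp hec (c x) (Subgroup.mem_zpowers _)).symm)
      have hcomm : e' * (v : L) = v * e' :=
        congrArg Subtype.val (mul_comm' (⟨e', he2⟩ : W₂) v)
      change c e' • (v : L) = w at hev
      rw [ConjAct.toConjAct_smul, hcomm, mul_inv_cancel_right] at hev
      exact Subtype.ext hev
    · obtain ⟨C, hCfix⟩ := C
      obtain ⟨k, rfl⟩ := ConjClasses.exists_rep C
      obtain ⟨y, hy, hyfix⟩ := CfsgLib.CoprimeAction.exists_fixed hAK hcop hsolv (X k) ⟨k, 1, K.one_mem, by simp⟩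
        (fun b hb y hy => by
          obtain ⟨b', hb', rfl⟩ := Subgroup.mem_map.mp hb
          obtain ⟨d, hd, rfl⟩ := hy
          refine ⟨b' * d, K.mul_mem hb' hd, ?_⟩
          change _ = c b' • (d * (k : L) * d⁻¹)
          rw [ConjAct.toConjAct_smul]
          group)
        (hAX k hCfix) (htr k)
      obtain ⟨d, hd, rfl⟩ := hy
      have hy2 : d * (k : L) * d⁻¹ ∈ W₂ := by
        rw [← hC x hx hx1]
        refine ⟨K.mul_mem (K.mul_mem hd k.2) (K.inv_mem hd), Subgroup.mem_centralizer_singleton_iff.mpr ?_⟩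
        have h1 := hyfix (c x) (Subgroup.mem_zpowers _)
        rw [ConjAct.toConjAct_smul, mul_inv_eq_iff_eq_mul] at h1
        exact h1.symm
      refine ⟨⟨_, hy2⟩, Subtype.ext (ConjClasses.mk_eq_mk_iff_isConj.mpr ?_)⟩
      exact (isConj_iff.mpr ⟨⟨d, hd⟩, Subtype.ext rfl⟩).symm
  obtain ⟨w, hw⟩ := (Subgroup.isCyclic_iff_exists_zpowers_eq_top W₁).mp hW₁c
  have hwW : w ∈ W₁ := hw ▸ Subgroup.mem_zpowers w
  have hw1 : w ≠ 1 := fun h => hW₁ (by rw [← hw, h, Subgroup.zpowers_one_eq_bot])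
  have hall : ∀ θ : K → ℂ, (∀ x ∈ W₁, P x θ) ↔ P w θ := fun θ =>
    ⟨fun h => h w hwW, fun h x hx => by
      have h1 : W₁ ≤ CfsgLib.Clifford.inertia θ := hw ▸ Subgroup.zpowers_le.mpr ((hP w θ).mp h)
      exact (hP x θ).mpr (h1 hx)⟩
  have hcount' : Nat.card {θ : Cfsg.IrrCharacter K // ∀ x ∈ W₁, P x θ.1} = Nat.card W₂ := by
    rw [Nat.card_congr (Equiv.subtypeEquivRight fun θ : Cfsg.IrrCharacter K => hall θ.1)]
    exact hcount w hwW hw1
  have hsame : ∀ x ∈ W₁, x ≠ 1 → ∀ θ : Cfsg.IrrCharacter K, P x θ.1 → ∀ y ∈ W₁, P y θ.1 := by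
    intro x hx hx1 θ hθ
    let i : {θ : Cfsg.IrrCharacter K // ∀ x ∈ W₁, P x θ.1} → {θ : Cfsg.IrrCharacter K // P x θ.1} :=
      fun θ => ⟨θ.1, θ.2 x hx⟩
    haveI : Finite {θ : Cfsg.IrrCharacter K // P x θ.1} :=
      Nat.finite_of_card_ne_zero ((hcount x hx hx1).trans_ne Nat.card_pos.ne')
    have hinj : Function.Injective i := fun a b h => Subtype.ext (congrArg (fun z => z.1) h)
    have hbij := hinj.bijective_of_nat_card_le (by rw [hcount x hx hx1, hcount'])
    obtain ⟨a, ha⟩ := hbij.2 ⟨θ, hθ⟩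
    have h2 : a.1 = θ := congrArg (fun z => z.1) ha
    exact h2 ▸ a.2
  refine ⟨fun θ hθ hmov => ?_, hcount', fun θ hθ hinv => ?_⟩
  · obtain ⟨y, hy, hne⟩ := hmov
    have hT : K = CfsgLib.Clifford.inertia θ := by
      refine le_antisymm (CfsgLib.Clifford.le_inertia
        (CfsgLib.CharBasics.isClassFunction (CfsgLib.CharBasics.isCharacter_of_irr hθ))) fun g hg => ?_
      obtain ⟨k, hk, x, hx, rfl⟩ :=
        Subgroup.mem_sup_of_normal_left.mp (hKW₁' ▸ Subgroup.mem_top g : g ∈ K ⊔ W₁)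
      by_cases hx1 : x = 1
      · rw [hx1, mul_one]; exact hk
      exfalso
      have hxT := (CfsgLib.Clifford.inertia θ).mul_mem ((CfsgLib.Clifford.inertia θ).inv_mem
        (CfsgLib.Clifford.le_inertia
          (CfsgLib.CharBasics.isClassFunction (CfsgLib.CharBasics.isCharacter_of_irr hθ)) hk)) hg
      rw [inv_mul_cancel_left] at hxT
      exact hne (hsame x hx hx1 ⟨θ, hθ⟩ ((hP x θ).mpr hxT) y hy)
    refine (CfsgLib.Clifford.indFun_inertia_irr hθ K hT le_rfl hθ ?_).1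
    rw [show (fun n : K => θ ⟨(n : L), n.2⟩) = θ from rfl, CfsgLib.CharBasics.classInner_self hθ]
    exact one_ne_zero
  · have htop : (⊤ : Subgroup L) = CfsgLib.Clifford.inertia θ := by
      refine le_antisymm ?_ le_top
      rw [← hKW₁']
      exact sup_le (CfsgLib.Clifford.le_inertia
        (CfsgLib.CharBasics.isClassFunction (CfsgLib.CharBasics.isCharacter_of_irr hθ)))
        fun x hx => (hP x θ).mp (hinv x hx)
    obtain ⟨e, C, -, hCirr, hcard, hind, -, he⟩ := CfsgLib.Clifford.indFun_abelian_inertia hθ ⊤ htop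
      fun a _ b _ => by
        haveI := hW₁c
        obtain ⟨k, hk, x, hx, rfl⟩ :=
          Subgroup.mem_sup_of_normal_left.mp (hKW₁' ▸ Subgroup.mem_top a : a ∈ K ⊔ W₁)
        obtain ⟨k', hk', x', hx', rfl⟩ :=
          Subgroup.mem_sup_of_normal_left.mp (hKW₁' ▸ Subgroup.mem_top b : b ∈ K ⊔ W₁)
        have hxx : x * x' = x' * x := congrArg Subtype.val (mul_comm' (⟨x, hx⟩ : W₁) ⟨x', hx'⟩)
        rw [← QuotientGroup.eq_one_iff]
        simp only [QuotientGroup.mk_mul, QuotientGroup.mk_inv, (QuotientGroup.eq_one_iff k).mpr hk,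
          (QuotientGroup.eq_one_iff k').mpr hk', one_mul]
        rw [← QuotientGroup.mk_mul, hxx, QuotientGroup.mk_mul]
        group
    rw [Subgroup.relIndex_top_right, hidx] at hcard
    obtain rfl := he (by rw [Subgroup.relIndex_top_right, hidx, ← hcardK]; exact hHall.symm)
    exact ⟨C, by simpa using hcard, hCirr, by simpa using hind⟩

end Cfsg.Agent.S1513
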