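import Cfsg.Statements.S1514
import Cfsg.Agent.Exceptional.Coherent

set_option autoImplicit false
open Cfsg

namespace Cfsg.Agent.S1514

/-- Let S be a nonempty set of irreducible characters of the finite group L, closed under complex conjugation and containing no real-valued member, and τ a linear isometry on the integer combinations of S vanishing at 1, with values virtual characters of G vanishing at 1. Then there is a choice R making (S, τ, R) a coherence system. -/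
theorem result {L : Type*} [Group L] [Fintype L] {G : Type*} [Group G] [Fintype G] (S : Set (L → ℂ)) (hS : S.Nonempty) (hirr : ∀ χ ∈ S, Cfsg.IsIrrCharacter L χ) (hconj : ∀ χ ∈ S, Cfsg.conjFun χ ∈ S ∧ Cfsg.conjFun χ ≠ χ) (τ : (L → ℂ) → (G → ℂ)) (hτ : Cfsg.IsLinearIsometryOn (Cfsg.zspanOn S {1}ᶜ) τ) (hτ1 : ∀ α ∈ Cfsg.zspanOn S {1}ᶜ, τ α 1 = 0) : ∃ R : (L → ℂ) → Finset (G → ℂ), Cfsg.IsCoherenceSystem S τ R := by
  classical
  have hm : ∀ χ ∈ S, χ - Cfsg.conjFun χ ∈ Cfsg.zspanOn S ({1}ᶜ : Set L) := fun χ hχ =>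
    CfsgLib.Exceptional.mem_on_one.2 ⟨sub_mem (S := Submodule ℤ (L → ℂ)) (Submodule.subset_span hχ)
      (Submodule.subset_span (hconj χ hχ).1),
      by simp [CfsgLib.Exceptional.conjFun_apply_one (CfsgLib.CharBasics.isCharacter_of_irr (hirr χ hχ))]⟩
  have hinner : ∀ φ ∈ S, ∀ χ ∈ S, φ ≠ χ → φ ≠ Cfsg.conjFun χ →
      Cfsg.classInner (τ (φ - Cfsg.conjFun φ)) (τ (χ - Cfsg.conjFun χ)) = 0 := by
    intro φ hφ χ hχ h1 h2
    have hc : ∀ a ∈ S, Cfsg.IsIrrCharacter L (Cfsg.conjFun a) := fun a ha => hirr _ (hconj a ha).1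
    have h3 : Cfsg.conjFun φ ≠ χ := fun h => h2 (by rw [← h, CfsgLib.Exceptional.conjFun_conjFun])
    have h4 : Cfsg.conjFun φ ≠ Cfsg.conjFun χ := fun h => h1 (by
      rw [← CfsgLib.Exceptional.conjFun_conjFun φ, h, CfsgLib.Exceptional.conjFun_conjFun])
    rw [hτ.2.2.1 _ (hm φ hφ) _ (hm χ hχ)]
    simp [CfsgLib.Exceptional.classInner_sub_left, CfsgLib.Exceptional.classInner_sub_right,
      CfsgLib.CharBasics.classInner_ne (hirr φ hφ) (hirr χ hχ) h1,
      CfsgLib.CharBasics.classInner_ne (hirr φ hφ) (hc χ hχ) h2,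
      CfsgLib.CharBasics.classInner_ne (hc φ hφ) (hirr χ hχ) h3,
      CfsgLib.CharBasics.classInner_ne (hc φ hφ) (hc χ hχ) h4]
  have hex : ∀ χ : L → ℂ, ∃ ab : Cfsg.IrrCharacter G × Cfsg.IrrCharacter G, χ ∈ S →
      ab.1 ≠ ab.2 ∧ τ (χ - Cfsg.conjFun χ) = (ab.1 : G → ℂ) - (ab.2 : G → ℂ) := by
    intro χ
    by_cases hχ : χ ∈ S
    · obtain ⟨a, b, hab, he⟩ := CfsgLib.Exceptional.norm_two_cases (hτ.2.2.2 _ (hm χ hχ))
        (by
          rw [hτ.2.2.1 _ (hm χ hχ) _ (hm χ hχ)]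
          simp [CfsgLib.Exceptional.classInner_sub_left, CfsgLib.Exceptional.classInner_sub_right,
            CfsgLib.CharBasics.classInner_self (hirr χ hχ),
            CfsgLib.CharBasics.classInner_self (hirr _ (hconj χ hχ).1),
            CfsgLib.CharBasics.classInner_ne (hirr χ hχ) (hirr _ (hconj χ hχ).1) (hconj χ hχ).2.symm,
            CfsgLib.CharBasics.classInner_ne (hirr _ (hconj χ hχ).1) (hirr χ hχ) (hconj χ hχ).2]
          norm_num)
        (hτ1 _ (hm χ hχ))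
      exact ⟨(a, b), fun _ => ⟨hab, he⟩⟩
    · exact ⟨(CfsgLib.CharBasics.oneChar, CfsgLib.CharBasics.oneChar), fun h => absurd h hχ⟩
  choose P hP using hex
  refine ⟨fun χ => {((P χ).1 : G → ℂ), -((P χ).2 : G → ℂ)}, hS,
    fun χ hχ => CfsgLib.CharBasics.isCharacter_of_irr (hirr χ hχ), fun χ hχ => (hconj χ hχ).1,
    fun χ hχ => (hconj χ hχ).2, hτ, hτ1,
    fun χ hχ φ hφ hne => CfsgLib.CharBasics.classInner_ne (hirr χ hχ) (hirr φ hφ) hne, ?_, ?_, ?_, ?_⟩
  · intro χ hχ α hα β hβ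
    obtain ⟨hab, -⟩ := hP χ hχ
    have hne : ((P χ).1 : G → ℂ) ≠ -((P χ).2 : G → ℂ) := CfsgLib.Exceptional.irr_ne_neg (P χ).1.2 (P χ).2.2
    simp only [Finset.mem_insert, Finset.mem_singleton] at hα hβ
    rcases hα with rfl | rfl <;> rcases hβ with rfl | rfl <;>
      simp [CfsgLib.Exceptional.classInner_neg_left, CfsgLib.Exceptional.classInner_neg_right,
        CfsgLib.CharBasics.classInner_irr, hab, hab.symm, hne, hne.symm]
  · intro χ _ α hα
    simp only [Finset.mem_insert, Finset.mem_singleton] at hα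
    rcases hα with rfl | rfl
    · exact CfsgLib.Exceptional.gen_of_character (CfsgLib.CharBasics.isCharacter_of_irr (P χ).1.2)
    · rw [← zero_sub]
      exact CfsgLib.Exceptional.gen_sub CfsgLib.Exceptional.gen_zero
        (CfsgLib.Exceptional.gen_of_character (CfsgLib.CharBasics.isCharacter_of_irr (P χ).2.2))
  · intro χ hχ
    obtain ⟨hab, he⟩ := hP χ hχ
    rw [he, Finset.sum_pair (CfsgLib.Exceptional.irr_ne_neg (P χ).1.2 (P χ).2.2), sub_eq_add_neg]
  · intro χ hχ φ hφ hi hi' α hα β hβ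
    have h1 : φ ≠ χ := by
      rintro rfl
      rw [CfsgLib.CharBasics.classInner_self (hirr _ hφ)] at hi
      exact one_ne_zero hi
    have h2 : φ ≠ Cfsg.conjFun χ := by
      intro h
      rw [← h, CfsgLib.CharBasics.classInner_self (hirr _ hφ)] at hi'
      exact one_ne_zero hi'
    obtain ⟨hab, he⟩ := hP φ hφ
    obtain ⟨hab', he'⟩ := hP χ hχ
    have h := hinner φ hφ χ hχ h1 h2
    rw [he, he', CfsgLib.Exceptional.inner_pair] at h
    have h' := Int.cast_eq_zero.1 h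
    simp only [Finset.mem_insert, Finset.mem_singleton] at hα hβ
    have hd : (P φ).1 ≠ (P χ).1 ∧ (P φ).1 ≠ (P χ).2 ∧ (P φ).2 ≠ (P χ).1 ∧ (P φ).2 ≠ (P χ).2 := by
      split_ifs at h' <;> first | omega | grind
    rcases hα with rfl | rfl <;> rcases hβ with rfl | rfl <;>
      simp [CfsgLib.Exceptional.classInner_neg_left, CfsgLib.Exceptional.classInner_neg_right,
        CfsgLib.CharBasics.classInner_irr, hd.1, hd.2.1, hd.2.2.1, hd.2.2.2]

end Cfsg.Agent.S1514
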