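import Cfsg.Statements.S1515
import Cfsg.Agent.Exceptional.Coherent

set_option autoImplicit false
open Cfsg

namespace Cfsg.Agent.S1515

/-- Let (S, τ, R) be a coherence system from L to G, χ ∈ S, and ψ an integer combination of S with ⟨χ, ψ⟩ = ⟨conj χ, ψ⟩ = 0. Let τ₁ be a linear isometry on the integer combinations of χ − ψ and χ − conj χ, with virtual-character values, agreeing with τ on integer multiples of χ − conj χ. Then the sum over α ∈ R χ of the squared absolute values of ⟨τ₁(χ − ψ), α⟩ is at least ⟨χ, χ⟩; and if ⟨τ₁(χ − ψ), τ₁(χ − ψ)⟩ minus that sum is at least ⟨ψ, ψ⟩, then the sum equals ⟨χ, χ⟩ and every ⟨τ₁(χ − ψ), α⟩ with α ∈ R χ is 0 or 1. -/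
theorem result {L : Type*} [Group L] [Fintype L] {G : Type*} [Group G] [Fintype G] (S : Set (L → ℂ)) (τ : (L → ℂ) → (G → ℂ)) (R : (L → ℂ) → Finset (G → ℂ)) (hS : Cfsg.IsCoherenceSystem S τ R) (χ : L → ℂ) (hχ : χ ∈ S) (ψ : L → ℂ) (hψ : ψ ∈ Cfsg.zspan S) (h1 : Cfsg.classInner χ ψ = 0) (h2 : Cfsg.classInner (Cfsg.conjFun χ) ψ = 0) (τ₁ : (L → ℂ) → (G → ℂ)) (hτ₁ : Cfsg.IsLinearIsometryOn (Cfsg.zspan {χ - ψ, χ - Cfsg.conjFun χ}) τ₁) (hagree : ∀ n : ℤ, τ₁ (n • (χ - Cfsg.conjFun χ)) = τ (n • (χ - Cfsg.conjFun χ))) : (Cfsg.classInner χ χ).re ≤ ∑ α ∈ R χ, ‖Cfsg.classInner (τ₁ (χ - ψ)) α‖ ^ 2 ∧ ((Cfsg.classInner ψ ψ).re ≤ (Cfsg.classInner (τ₁ (χ - ψ)) (τ₁ (χ - ψ))).re - ∑ α ∈ R χ, ‖Cfsg.classInner (τ₁ (χ - ψ)) α‖ ^ 2 → (∑ α ∈ R χ, ‖Cfsg.classInner (τ₁ (χ - ψ)) α‖ ^ 2 = (Cfsg.classInner χ χ).re ∧ ∀ α ∈ R χ, Cfsg.classInner (τ₁ (χ - ψ)) α = 0 ∨ Cfsg.classInner (τ₁ (χ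 - ψ)) α = 1)) := by
  classical
  obtain ⟨hc1, hc2, n, hn, hn'⟩ := CfsgLib.Exceptional.system_conj_inner hS hχ
  have hm1 : χ - ψ ∈ Cfsg.zspan {χ - ψ, χ - Cfsg.conjFun χ} := Submodule.subset_span (by simp)
  have hm2 : χ - Cfsg.conjFun χ ∈ Cfsg.zspan {χ - ψ, χ - Cfsg.conjFun χ} := Submodule.subset_span (by simp)
  have h1' : Cfsg.classInner ψ χ = 0 := by rw [CfsgLib.CharBasics.classInner_comm χ ψ, h1]; simp
  have h2' : Cfsg.classInner ψ (Cfsg.conjFun χ) = 0 := by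
    rw [CfsgLib.CharBasics.classInner_comm (Cfsg.conjFun χ) ψ, h2]; simp
  have hw := hτ₁.2.2.2 _ hm1
  have hag : τ₁ (χ - Cfsg.conjFun χ) = τ (χ - Cfsg.conjFun χ) := by simpa using hagree 1
  have hinner : Cfsg.classInner (τ₁ (χ - ψ)) (τ (χ - Cfsg.conjFun χ)) = (n : ℂ) := by
    rw [← hag, hτ₁.2.2.1 _ hm1 _ hm2, CfsgLib.Exceptional.classInner_sub_left,
      CfsgLib.Exceptional.classInner_sub_right, CfsgLib.Exceptional.classInner_sub_right, hn, hc1, h1', h2']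
    simp
  obtain ⟨a, ha, -, hge, hcase⟩ := CfsgLib.Exceptional.system_proj hS hχ hw hinner
  have hnorm : ∑ α ∈ R χ, ‖Cfsg.classInner (τ₁ (χ - ψ)) α‖ ^ 2 = ((∑ α ∈ R χ, a α ^ 2 : ℤ) : ℝ) := by
    push_cast
    exact Finset.sum_congr rfl fun α hα => by rw [ha α hα, Complex.norm_intCast, sq_abs]
  rw [hnorm, hn, Complex.natCast_re]
  refine ⟨by exact_mod_cast hge, fun hle => ?_⟩
  rw [hτ₁.2.2.1 _ hm1 _ hm1, CfsgLib.Exceptional.classInner_sub_left,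
    CfsgLib.Exceptional.classInner_sub_right, CfsgLib.Exceptional.classInner_sub_right, hn, h1, h1'] at hle
  simp only [sub_zero, zero_sub, sub_neg_eq_add, Complex.add_re, Complex.natCast_re] at hle
  have hle' : ∑ α ∈ R χ, a α ^ 2 ≤ n := by
    have : ((∑ α ∈ R χ, a α ^ 2 : ℤ) : ℝ) ≤ (n : ℝ) := by linarith
    exact_mod_cast this
  refine ⟨?_, fun α hα => ?_⟩
  · have h := le_antisymm hle' hge
    rw [h]; norm_cast
  · rw [ha α hα]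
    rcases hcase hle' α hα with h | h <;> simp [h]

end Cfsg.Agent.S1515
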