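import Cfsg.Statements.S1516
import Cfsg.Agent.Exceptional.Coherent
import Cfsg.Agent.Exceptional.Bessel

set_option autoImplicit false
open Cfsg

namespace Cfsg.Agent.S1516

/-- Let (S, τ, R) be a coherence system from L to G with degrees φ 1 = d φ and squared norms ⟨φ, φ⟩ = n φ for φ ∈ S. Let S₁ ⊆ S be a finite subset closed under complex conjugation such that (S₁, L minus 1, τ) is coherent, let χ ∈ S with χ ∉ S₁ and conj χ ∉ S₁, and let χ₁ ∈ S₁ with d χ₁ dividing d χ and 2 d χ d χ₁ < Σ_{φ ∈ S₁} (d φ)² / n φ. Then S₁ together with χ and conj χ is coherent. -/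
theorem result {L : Type*} [Group L] [Fintype L] {G : Type*} [Group G] [Fintype G] (S : Set (L → ℂ)) (τ : (L → ℂ) → (G → ℂ)) (R : (L → ℂ) → Finset (G → ℂ)) (hS : Cfsg.IsCoherenceSystem S τ R) (d n : (L → ℂ) → ℕ) (hd : ∀ φ ∈ S, φ 1 = (d φ : ℂ)) (hn : ∀ φ ∈ S, Cfsg.classInner φ φ = (n φ : ℂ)) (S₁ : Finset (L → ℂ)) (hS₁ : ↑S₁ ⊆ S) (hS₁c : ∀ φ ∈ S₁, Cfsg.conjFun φ ∈ S₁) (hcoh : Cfsg.IsCoherent (↑S₁ : Set (L → ℂ)) {1}ᶜ τ) (χ : L → ℂ) (hχ : χ ∈ S) (hχ₁ : χ ∉ S₁) (hχ₂ : Cfsg.conjFun χ ∉ S₁) (χ₁ : L → ℂ) (hχ₁S : χ₁ ∈ S₁) (hdvd : d χ₁ ∣ d χ) (hineq : (2 * d χ * d χ₁ : ℝ) < ∑ φ ∈ S₁, ((d φ : ℝ) ^ 2 / (n φ : ℝ))) : Cfsg.IsCoherent (↑S₁ ∪ {χ, Cfsg.conjFun χ} : Set (L → ℂ)) {1}ᶜ τ := by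
  classical
  obtain ⟨-, τ₁, hτ₁, hag⟩ := hcoh
  set χc := Cfsg.conjFun χ with hχc
  set d₁ := d χ₁ with hd₁
  obtain ⟨a, ha⟩ := hdvd
  have horthS := CfsgLib.Exceptional.system_orthoSet hS
  have hχcS : χc ∈ S := hS.conj_mem χ hχ
  have hχ1S : χ₁ ∈ S := hS₁ hχ₁S
  have hnpos : ∀ φ ∈ S, 0 < n φ := fun φ h => Nat.pos_of_ne_zero fun h0 =>
    horthS.norm_ne φ h (by rw [hn φ h, h0, Nat.cast_zero])
  have hdpos : ∀ φ ∈ S, 0 < d φ := fun φ h => Nat.pos_of_ne_zero fun h0 =>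
    horthS.norm_ne φ h (by
      rw [CfsgLib.Clifford.eq_zero_of_apply_one (hS.isCharacter φ h) (by rw [hd φ h, h0, Nat.cast_zero]),
        CfsgLib.Exceptional.classInner_zero_l])
  have hd₁0 : 0 < d₁ := hdpos χ₁ hχ1S
  have ha0 : 0 < a := by
    have := hdpos χ hχ
    rw [ha] at this
    exact Nat.pos_of_mul_pos_left this
  have hdc : d χc = d χ := by
    have : ((d χc : ℕ) : ℂ) = (d χ : ℂ) := by
      rw [← hd χc hχcS, ← hd χ hχ, hχc, CfsgLib.Exceptional.conjFun_apply_one (hS.isCharacter χ hχ)]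
    exact_mod_cast this
  obtain ⟨hc1, hc2, nn, hnn, hnn'⟩ := CfsgLib.Exceptional.system_conj_inner hS hχ
  rw [← hχc] at hc1 hc2 hnn'
  have hτ' : Cfsg.IsLinearIsometryOn
      ((CfsgLib.Exceptional.onSub S ({1}ᶜ : Set L) : Submodule ℤ (L → ℂ)) : Set (L → ℂ)) τ := hS.isometry
  have hτ₁' : Cfsg.IsLinearIsometryOn
      ((Submodule.span ℤ (↑S₁ : Set (L → ℂ)) : Submodule ℤ (L → ℂ)) : Set (L → ℂ)) τ₁ := hτ₁
  have hg1 : ∀ φ ∈ S₁, Cfsg.IsGeneralizedCharacter G (τ₁ φ) := fun φ h => hτ₁.2.2.2 φ (Submodule.subset_span h)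
  have hin1 : ∀ φ ∈ S₁, ∀ η ∈ S₁, Cfsg.classInner (τ₁ φ) (τ₁ η) = Cfsg.classInner φ η := fun φ h η h' =>
    hτ₁.2.2.1 φ (Submodule.subset_span h) η (Submodule.subset_span h')
  have hsub := CfsgLib.Exceptional.zspanOn_mono hS₁ ({1}ᶜ : Set L)
  have hne1 : ∀ φ ∈ S₁, φ ≠ χ ∧ φ ≠ χc := fun φ h => ⟨fun e => hχ₁ (e ▸ h), fun e => hχ₂ (e ▸ h)⟩
  -- the images of the coherent part are orthogonal to `R χ`
  have hperp : ∀ φ ∈ S₁, ∀ α ∈ R χ, Cfsg.classInner (τ₁ φ) α = 0 := by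
    intro φ hφ α hα
    have hφS : φ ∈ S := hS₁ hφ
    have hcφ : Cfsg.conjFun φ ∈ S₁ := hS₁c φ hφ
    obtain ⟨f1, -, m, hm, -⟩ := CfsgLib.Exceptional.system_conj_inner hS hφS
    have hmem : φ - Cfsg.conjFun φ ∈ Cfsg.zspanOn (↑S₁ : Set (L → ℂ)) ({1}ᶜ : Set L) :=
      CfsgLib.Exceptional.mem_on_one.2 ⟨sub_mem (S := Submodule ℤ (L → ℂ)) (Submodule.subset_span hφ)
        (Submodule.subset_span hcφ), by simp [CfsgLib.Exceptional.conjFun_apply_one (hS.isCharacter φ hφS)]⟩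
    have hin : Cfsg.classInner (τ₁ φ) (τ (φ - Cfsg.conjFun φ)) = (m : ℂ) := by
      rw [← hag _ hmem, hτ₁.2.2.1 φ (Submodule.subset_span hφ) _ hmem.1, CfsgLib.Exceptional.classInner_sub_right,
        hm, f1, sub_zero]
    obtain ⟨c, hc, -, hge, -⟩ := CfsgLib.Exceptional.system_proj hS hφS (hg1 φ hφ) hin
    obtain ⟨hr, -⟩ := CfsgLib.Exceptional.proj_facts (R φ) (hS.orthonormal φ hφS) (τ₁ φ) c hc
    rw [hin1 φ hφ φ hφ, hm] at hr
    have hz : τ₁ φ - ∑ β ∈ R φ, c β • β = 0 := by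
      refine CfsgLib.Exceptional.eq_zero_of_self_nonpos ?_
      rw [hr, Complex.sub_re, Complex.natCast_re, Complex.intCast_re]
      have : (m : ℝ) ≤ ((∑ β ∈ R φ, c β ^ 2 : ℤ) : ℝ) := by exact_mod_cast hge
      linarith
    rw [sub_eq_zero.1 hz, CfsgLib.CharBasics.classInner_sum_left]
    refine Finset.sum_eq_zero fun β hβ => ?_
    rw [CfsgLib.Exceptional.classInner_zsmul_left, hS.disjoint χ hχ φ hφS (hS.orthogonal φ hφS χ hχ (hne1 φ hφ).1)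
      (hS.orthogonal φ hφS χc hχcS (hne1 φ hφ).2) β hβ α hα, mul_zero]
  set E := χ - (a : ℤ) • χ₁ with hEdef
  have hE : E ∈ Cfsg.zspanOn S ({1}ᶜ : Set L) :=
    CfsgLib.Exceptional.mem_on_one.2 ⟨sub_mem (S := Submodule ℤ (L → ℂ)) (Submodule.subset_span hχ)
      (Submodule.smul_mem _ _ (Submodule.subset_span hχ1S)), by simp [hEdef, hd χ hχ, hd χ₁ hχ1S, ← hd₁, ha, mul_comm]⟩
  have hD := CfsgLib.Exceptional.system_diff_mem hS hχ
  rw [← hχc] at hD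
  set w := τ E with hw
  have hwgen : Cfsg.IsGeneralizedCharacter G w := hS.isometry.2.2.2 _ hE
  have hχ1χ : Cfsg.classInner χ₁ χ = 0 := hS.orthogonal χ₁ hχ1S χ hχ (hne1 χ₁ hχ₁S).1
  have hχ1χc : Cfsg.classInner χ₁ χc = 0 := hS.orthogonal χ₁ hχ1S χc hχcS (hne1 χ₁ hχ₁S).2
  have hinner : Cfsg.classInner w (τ (χ - χc)) = (nn : ℂ) := by
    rw [hw, hS.isometry.2.2.1 _ hE _ hD, hEdef]
    simp only [CfsgLib.Exceptional.classInner_sub_left, CfsgLib.Exceptional.classInner_sub_right,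
      CfsgLib.Exceptional.classInner_zsmul_left, hnn, hc1, hχ1χ, hχ1χc]
    ring
  obtain ⟨c, hc, hcsum, hcge, -⟩ := CfsgLib.Exceptional.system_proj hS hχ hwgen hinner
  obtain ⟨hr, -⟩ := CfsgLib.Exceptional.proj_facts (R χ) (hS.orthonormal χ hχ) w c hc
  set U := ∑ α ∈ R χ, c α • α with hU
  have hUperp : ∀ φ ∈ S₁, Cfsg.classInner U (τ₁ φ) = 0 := fun φ h => by
    rw [hU, CfsgLib.CharBasics.classInner_sum_left]
    refine Finset.sum_eq_zero fun α hα => ?_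
    rw [CfsgLib.Exceptional.classInner_zsmul_left, CfsgLib.CharBasics.classInner_comm (τ₁ φ), hperp φ h α hα,
      map_zero, mul_zero]
  have hUgen : Cfsg.IsGeneralizedCharacter G U := CfsgLib.Exceptional.gen_sum _ _ fun α hα =>
    CfsgLib.Exceptional.gen_zsmul (hS.virtual χ hχ α hα) _
  set Y := w - U + (a : ℤ) • τ₁ χ₁ with hY
  have hint : ∀ φ : L → ℂ, ∃ m : ℤ, φ ∈ S₁ → Cfsg.classInner Y (τ₁ φ) = m := fun φ => by
    by_cases h : φ ∈ S₁
    · obtain ⟨m, hm⟩ := CfsgLib.Exceptional.gen_inner_gen_int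
        (CfsgLib.Exceptional.gen_add (CfsgLib.Exceptional.gen_sub hwgen hUgen)
          (CfsgLib.Exceptional.gen_zsmul (hg1 χ₁ hχ₁S) (a : ℤ))) (hg1 φ h)
      exact ⟨m, fun _ => hm⟩
    · exact ⟨0, fun h' => absurd h' h⟩
  choose y hy using hint
  have hwx : ∀ φ ∈ S₁, Cfsg.classInner w (τ₁ φ) = (y φ : ℂ) - (a : ℂ) * Cfsg.classInner χ₁ φ := by
    intro φ h
    have h1 := hy φ h
    rw [hY, CfsgLib.CharBasics.classInner_add_left, CfsgLib.Exceptional.classInner_sub_left, hUperp φ h,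
      CfsgLib.Exceptional.classInner_zsmul_left, hin1 χ₁ hχ₁S φ h] at h1
    push_cast at h1
    linear_combination h1
  have hrel : ∀ φ ∈ S₁, (d₁ : ℤ) * y φ = (d φ : ℤ) * y χ₁ := by
    intro φ h
    have hθ : (d₁ : ℤ) • φ - (d φ : ℤ) • χ₁ ∈ Cfsg.zspanOn (↑S₁ : Set (L → ℂ)) ({1}ᶜ : Set L) :=
      CfsgLib.Exceptional.mem_on_one.2 ⟨sub_mem (S := Submodule ℤ (L → ℂ))
        (Submodule.smul_mem _ _ (Submodule.subset_span h)) (Submodule.smul_mem _ _ (Submodule.subset_span hχ₁S)),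
        by simp [hd φ (hS₁ h), hd χ₁ hχ1S, hd₁, mul_comm]⟩
    have h1 := hS.isometry.2.2.1 _ hE _ (hsub hθ)
    rw [← hag _ hθ, CfsgLib.Exceptional.iso_sub hτ₁' (Submodule.smul_mem _ _ (Submodule.subset_span h))
      (Submodule.smul_mem _ _ (Submodule.subset_span hχ₁S)), CfsgLib.Exceptional.iso_zsmul hτ₁' (Submodule.subset_span h),
      CfsgLib.Exceptional.iso_zsmul hτ₁' (Submodule.subset_span hχ₁S), ← hw] at h1
    have e1 : Cfsg.classInner χ φ = 0 := hS.orthogonal χ hχ φ (hS₁ h) (hne1 φ h).1.symm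
    have e2 : Cfsg.classInner χ χ₁ = 0 := hS.orthogonal χ hχ χ₁ hχ1S (hne1 χ₁ hχ₁S).1.symm
    rw [hEdef] at h1
    simp only [CfsgLib.Exceptional.classInner_sub_left, CfsgLib.Exceptional.classInner_sub_right,
      CfsgLib.Exceptional.classInner_zsmul_left, CfsgLib.Exceptional.classInner_zsmul_right, hwx φ h,
      hwx χ₁ hχ₁S, e1, e2] at h1
    have h4 : ((d₁ * y φ : ℤ) : ℂ) = ((d φ * y χ₁ : ℤ) : ℂ) := by
      push_cast at h1 ⊢
      linear_combination h1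
    exact_mod_cast h4
  have hww : Cfsg.classInner w w = (nn : ℂ) + (a : ℂ) ^ 2 * n χ₁ := by
    rw [hw, hS.isometry.2.2.1 _ hE _ hE, hEdef]
    simp only [CfsgLib.Exceptional.classInner_sub_left, CfsgLib.Exceptional.classInner_sub_right,
      CfsgLib.Exceptional.classInner_zsmul_left, CfsgLib.Exceptional.classInner_zsmul_right, hnn, hn χ₁ hχ1S,
      hχ1χ, hS.orthogonal χ hχ χ₁ hχ1S (hne1 χ₁ hχ₁S).1.symm]
    push_cast; ring
  have hn1 : Cfsg.classInner (τ₁ χ₁) (τ₁ χ₁) = (n χ₁ : ℂ) := by rw [hin1 χ₁ hχ₁S χ₁ hχ₁S, hn χ₁ hχ1S]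
  have hx1 : Cfsg.classInner (w - U) (τ₁ χ₁) = (y χ₁ : ℂ) - (a : ℂ) * n χ₁ := by
    rw [CfsgLib.Exceptional.classInner_sub_left, hUperp χ₁ hχ₁S, sub_zero, hwx χ₁ hχ₁S, hn χ₁ hχ1S]
  have hx1' : Cfsg.classInner (τ₁ χ₁) (w - U) = (y χ₁ : ℂ) - (a : ℂ) * n χ₁ := by
    rw [CfsgLib.CharBasics.classInner_comm (w - U), hx1]; simp
  have hYY : Cfsg.classInner Y Y = (((nn : ℤ) - ∑ α ∈ R χ, c α ^ 2 + 2 * a * y χ₁ : ℤ) : ℂ) := by
    rw [hY]
    simp only [CfsgLib.CharBasics.classInner_add_left, CfsgLib.Exceptional.classInner_add_right,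
      CfsgLib.Exceptional.classInner_zsmul_left, CfsgLib.Exceptional.classInner_zsmul_right, hr, hww, hn1, hx1, hx1']
    push_cast; ring
  have hb := CfsgLib.Exceptional.bessel S₁ τ₁ (fun φ => (n φ : ℝ)) (fun φ => (y φ : ℝ))
    (fun φ h => Nat.cast_pos.2 (hnpos φ (hS₁ h)))
    (fun i hi j hj hne => by rw [hin1 i hi j hj, hS.orthogonal i (hS₁ hi) j (hS₁ hj) hne])
    (fun i hi => by rw [hin1 i hi i hi, hn i (hS₁ hi)]; simp) Y (fun i hi => by rw [hy i hi]; simp)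
  rw [hYY, Complex.intCast_re] at hb
  have hP : (nn : ℝ) ≤ ((∑ α ∈ R χ, c α ^ 2 : ℤ) : ℝ) := by exact_mod_cast hcge
  have hb1 := hb.1
  push_cast at hb1 hP
  have hT : (d₁ : ℝ) ^ 2 * ∑ φ ∈ S₁, (y φ : ℝ) ^ 2 / (n φ : ℝ)
      = (y χ₁ : ℝ) ^ 2 * ∑ φ ∈ S₁, (d φ : ℝ) ^ 2 / (n φ : ℝ) := by
    rw [Finset.mul_sum, Finset.mul_sum]
    refine Finset.sum_congr rfl fun φ h => ?_
    have h5 : (d₁ : ℝ) * (y φ : ℝ) = (d φ : ℝ) * (y χ₁ : ℝ) := by exact_mod_cast hrel φ h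
    rw [← mul_div_assoc, ← mul_div_assoc, ← mul_pow, ← mul_pow, h5, mul_comm (d φ : ℝ)]
  have hTlt : 2 * (a : ℝ) * (d₁ : ℝ) ^ 2 < ∑ φ ∈ S₁, (d φ : ℝ) ^ 2 / (n φ : ℝ) := by
    have h1 : (d χ : ℝ) = (d₁ : ℝ) * a := by rw [ha]; push_cast; rfl
    rw [h1] at hineq
    linarith
  have hb0 : y χ₁ = 0 := by
    by_contra hne
    have hy2 : (0 : ℝ) < (y χ₁ : ℝ) ^ 2 := by positivity
    have hD : (0 : ℝ) < (d₁ : ℝ) ^ 2 := by positivity
    have h5 : 2 * (a : ℝ) * (y χ₁ : ℝ) ^ 2 < 2 * a * y χ₁ := by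
      by_contra hh
      push Not at hh
      nlinarith [mul_lt_mul_of_pos_left hTlt hy2, mul_le_mul_of_nonneg_left hb1 hD.le]
    have h6 : y χ₁ ^ 2 < y χ₁ := by
      have hA : (0 : ℝ) < a := by exact_mod_cast ha0
      have : (y χ₁ : ℝ) ^ 2 < y χ₁ := by nlinarith
      exact_mod_cast this
    have := Int.le_self_sq (y χ₁)
    omega
  have hy0 : ∀ φ ∈ S₁, y φ = 0 := fun φ h => by
    have := hrel φ h
    rw [hb0, mul_zero] at this
    exact (mul_eq_zero.1 this).resolve_left (by exact_mod_cast hd₁0.ne')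
  have hsum0 : ∑ φ ∈ S₁, (y φ : ℝ) ^ 2 / (n φ : ℝ) = 0 := Finset.sum_eq_zero fun φ h => by simp [hy0 φ h]
  rw [hsum0, hb0] at hb1
  simp only [Int.cast_zero, mul_zero, add_zero] at hb1
  have hPeq : ∑ α ∈ R χ, c α ^ 2 = (nn : ℤ) := by
    refine le_antisymm ?_ hcge
    have : ((∑ α ∈ R χ, c α ^ 2 : ℤ) : ℝ) ≤ (nn : ℝ) := by push_cast; linarith
    exact_mod_cast this
  have hY0 : Y = 0 := CfsgLib.Exceptional.eq_zero_of_self (by rw [hYY, hb0, hPeq]; simp)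
  have hUα : ∀ α ∈ R χ, Cfsg.classInner U α = c α := by
    intro α hα
    rw [hU, CfsgLib.CharBasics.classInner_sum_left, Finset.sum_eq_single α,
      CfsgLib.Exceptional.classInner_zsmul_left, hS.orthonormal χ hχ α hα α hα, if_pos rfl, mul_one]
    · intro β hβ hne
      rw [CfsgLib.Exceptional.classInner_zsmul_left, hS.orthonormal χ hχ β hβ α hα, if_neg hne, mul_zero]
    · exact fun hh => absurd hα hh
  have hUU : Cfsg.classInner U U = (nn : ℂ) := by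
    conv_lhs => arg 2; rw [hU]
    rw [CfsgLib.CharBasics.classInner_sum_right,
      Finset.sum_congr rfl (fun α hα => by rw [CfsgLib.Exceptional.classInner_zsmul_right, hUα α hα])]
    have : ((∑ α ∈ R χ, c α * c α : ℤ) : ℂ) = (nn : ℂ) := by simp [← sq, hPeq]
    simpa using this
  set Sr := τ (χ - χc) with hSr
  have hUS : Cfsg.classInner U Sr = (nn : ℂ) := by
    rw [hSr, hχc, hS.sum_eq χ hχ, CfsgLib.CharBasics.classInner_sum_right, Finset.sum_congr rfl hUα]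
    exact_mod_cast hcsum
  have hSU : Cfsg.classInner Sr U = (nn : ℂ) := by
    rw [CfsgLib.CharBasics.classInner_comm U, hUS, Complex.conj_natCast]
  have hSS2 : Cfsg.classInner Sr Sr = 2 * (nn : ℂ) := by
    rw [hSr, hS.isometry.2.2.1 _ hD _ hD]
    simp only [CfsgLib.Exceptional.classInner_sub_left, CfsgLib.Exceptional.classInner_sub_right, hnn, hnn', hc1, hc2]
    ring
  have hSperp : ∀ φ ∈ S₁, Cfsg.classInner Sr (τ₁ φ) = 0 := fun φ h => by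
    rw [hSr, hχc, hS.sum_eq χ hχ, CfsgLib.CharBasics.classInner_sum_left]
    refine Finset.sum_eq_zero fun α hα => ?_
    rw [CfsgLib.CharBasics.classInner_comm (τ₁ φ), hperp φ h α hα, map_zero]
  obtain ⟨F, hF⟩ : ∃ F : Finset (L → ℂ), F = S₁ ∪ {χ, χc} := ⟨_, rfl⟩
  have hFset : (↑F : Set (L → ℂ)) = ↑S₁ ∪ {χ, χc} := by rw [hF]; simp
  rw [← hFset]
  have hFS : (↑F : Set (L → ℂ)) ⊆ S := by
    rw [hFset]; exact Set.union_subset hS₁ (Set.insert_subset hχ (Set.singleton_subset_iff.2 hχcS))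
  have hmF : ∀ φ ∈ F, φ ∈ S₁ ∨ φ = χ ∨ φ = χc := fun φ h => by simp [hF] at h; tauto
  refine CfsgLib.Exceptional.coherent_of (horthS.mono hFS) d (fun φ h => hd φ (hFS h)) (χ₀ := χ₁)
    (by simp [hF, hχ₁S]) hd₁0.ne' ⟨χ, by simp [hF], (hne1 χ₁ hχ₁S).1.symm⟩ τ
    (CfsgLib.Exceptional.isometry_mono hS.isometry (CfsgLib.Exceptional.zspanOn_mono hFS _))
    (fun φ => if φ = χ then U else if φ = χc then U - Sr else τ₁ φ) ?_ ?_ ?_
  · intro φ hφ
    split_ifs with h h'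
    · exact hUgen
    · exact CfsgLib.Exceptional.gen_sub hUgen (hS.isometry.2.2.2 _ hD)
    · exact hg1 φ ((hmF φ hφ).resolve_right (by tauto))
  · intro φ hφ η hη
    have hcc : χc ≠ χ := hS.conj_ne χ hχ
    set v := fun φ : L → ℂ => if φ = χ then U else if φ = χc then U - Sr else τ₁ φ with hv
    show Cfsg.classInner (v φ) (v η) = Cfsg.classInner φ η
    have v1 : v χ = U := by simp [hv]
    have v2 : v χc = U - Sr := by simp [hv, hcc]
    have v3 : ∀ ξ ∈ S₁, v ξ = τ₁ ξ := fun ξ h => by simp [hv, (hne1 ξ h).1, (hne1 ξ h).2]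
    rcases hmF φ hφ with hz' | hh | hh <;> rcases hmF η hη with hz | hh' | hh'
    · rw [v3 φ hz', v3 η hz, hin1 φ hz' η hz]
    · rw [hh', v3 φ hz', v1, CfsgLib.CharBasics.classInner_comm U, hUperp φ hz', map_zero,
        hS.orthogonal φ (hS₁ hz') χ hχ (hne1 φ hz').1]
    · rw [hh', v3 φ hz', v2, CfsgLib.Exceptional.classInner_sub_right, CfsgLib.CharBasics.classInner_comm U,
        CfsgLib.CharBasics.classInner_comm Sr, hUperp φ hz', hSperp φ hz', map_zero,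
        hS.orthogonal φ (hS₁ hz') _ hχcS (hne1 φ hz').2, sub_zero]
    · rw [hh, v3 η hz, v1, hUperp η hz, hS.orthogonal χ hχ η (hS₁ hz) (hne1 η hz).1.symm]
    · rw [hh, hh', v1, hUU, hnn]
    · rw [hh, hh', v1, v2, CfsgLib.Exceptional.classInner_sub_right, hUU, hUS, hc1, sub_self]
    · rw [hh, v3 η hz, v2, CfsgLib.Exceptional.classInner_sub_left, hUperp η hz, hSperp η hz,
        hS.orthogonal _ hχcS η (hS₁ hz) (hne1 η hz).2.symm, sub_zero]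
    · rw [hh, hh', v1, v2, CfsgLib.Exceptional.classInner_sub_left, hUU, hSU, hc2, sub_self]
    · rw [hh, hh', v2]
      simp only [CfsgLib.Exceptional.classInner_sub_left, CfsgLib.Exceptional.classInner_sub_right, hUU, hUS,
        hSU, hSS2, hnn']
      ring
  · intro φ hφ hne
    rw [if_neg (hne1 χ₁ hχ₁S).1, if_neg (hne1 χ₁ hχ₁S).2]
    have hwU : w = U - (a : ℤ) • τ₁ χ₁ := by
      have h0 : w - U + (a : ℤ) • τ₁ χ₁ = 0 := hY0
      linear_combination (norm := module) h0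
    split_ifs with h h'
    · subst h
      have e1 : (d₁ : ℤ) • φ - (d φ : ℤ) • χ₁ = (d₁ : ℤ) • E := by
        rw [hEdef, smul_sub, smul_smul, ha]; push_cast; rfl
      rw [e1, CfsgLib.Exceptional.iso_zsmul hτ' hE, ← hw, hwU, ha]
      push_cast
      module
    · subst h'
      have e1 : (d₁ : ℤ) • χc - (d χc : ℤ) • χ₁ = (d₁ : ℤ) • (E - (χ - χc)) := by
        rw [hEdef, hdc, ha]; push_cast; module
      rw [e1, CfsgLib.Exceptional.iso_zsmul hτ' (sub_mem hE hD), CfsgLib.Exceptional.iso_sub hτ' hE hD,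
        ← hw, ← hSr, hwU, hdc, ha]
      push_cast
      module
    · have hz := (hmF φ hφ).resolve_right (by tauto)
      have hθ : (d₁ : ℤ) • φ - (d φ : ℤ) • χ₁ ∈ Cfsg.zspanOn (↑S₁ : Set (L → ℂ)) ({1}ᶜ : Set L) :=
        CfsgLib.Exceptional.mem_on_one.2 ⟨sub_mem (S := Submodule ℤ (L → ℂ))
          (Submodule.smul_mem _ _ (Submodule.subset_span hz)) (Submodule.smul_mem _ _ (Submodule.subset_span hχ₁S)),
          by simp [hd φ (hS₁ hz), hd χ₁ hχ1S, hd₁, mul_comm]⟩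
      rw [← hag _ hθ, CfsgLib.Exceptional.iso_sub hτ₁' (Submodule.smul_mem _ _ (Submodule.subset_span hz))
        (Submodule.smul_mem _ _ (Submodule.subset_span hχ₁S)), CfsgLib.Exceptional.iso_zsmul hτ₁' (Submodule.subset_span hz),
        CfsgLib.Exceptional.iso_zsmul hτ₁' (Submodule.subset_span hχ₁S)]

end Cfsg.Agent.S1516
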