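import Cfsg.Statements.S1517
import Cfsg.Agent.Exceptional.Coherent

set_option autoImplicit false
open Cfsg

namespace Cfsg.Agent.S1517

open CfsgLib.Exceptional CfsgLib.CharBasics in
theorem decomposition {L : Type*} [Group L] [Fintype L] {G : Type*} [Group G] [Fintype G] {S : Set (L → ℂ)}
    {τ : (L → ℂ) → (G → ℂ)} {R : (L → ℂ) → Finset (G → ℂ)} (hS : Cfsg.IsCoherenceSystem S τ R)
    (hdeg : ∀ φ ∈ S, ∀ ψ ∈ S, φ 1 = ψ 1) {χ φ : L → ℂ} (hχ : χ ∈ S) (hφ : φ ∈ S) (h1 : φ ≠ χ)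
    (h2 : φ ≠ Cfsg.conjFun χ) {n : ℕ} (hn : Cfsg.classInner χ χ = n) :
    ∃ a : (G → ℂ) → ℤ, (∀ α ∈ R χ, Cfsg.classInner (τ (χ - φ)) α = a α) ∧ ∑ α ∈ R χ, a α = n ∧
      ∑ α ∈ R χ, a α ^ 2 = n ∧
      ∀ γ : G → ℂ, (∀ α ∈ R χ, Cfsg.classInner α γ = 0) → (∀ β ∈ R φ, Cfsg.classInner β γ = 0) →
        Cfsg.classInner (τ (χ - φ)) γ = 0 := by
  classical
  obtain ⟨m, hm⟩ := classInner_characters_nat (hS.isCharacter φ hφ) (hS.isCharacter φ hφ)
  have h3 : Cfsg.conjFun φ ≠ χ := fun h => h2 (by rw [← h, conjFun_conjFun])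
  have h4 : Cfsg.conjFun φ ≠ Cfsg.conjFun χ := fun h => h1 (by rw [← conjFun_conjFun φ, h, conjFun_conjFun])
  have hcχ := hS.conj_mem χ hχ
  have hcφ := hS.conj_mem φ hφ
  have hmem : χ - φ ∈ Cfsg.zspanOn S ({1}ᶜ : Set L) :=
    mem_on_one.2 ⟨sub_mem (S := Submodule ℤ (L → ℂ)) (Submodule.subset_span hχ) (Submodule.subset_span hφ),
      by simp [hdeg χ hχ φ hφ]⟩
  have hwn : Cfsg.classInner (τ (χ - φ)) (τ (χ - φ)) = (n : ℂ) + m := by
    rw [hS.isometry.2.2.1 _ hmem _ hmem]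
    simp [classInner_sub_left, classInner_sub_right, hn, hm, hS.orthogonal φ hφ χ hχ h1, hS.orthogonal χ hχ φ hφ h1.symm]
  have hin1 : Cfsg.classInner (τ (χ - φ)) (τ (χ - Cfsg.conjFun χ)) = (n : ℂ) := by
    rw [hS.isometry.2.2.1 _ hmem _ (system_diff_mem hS hχ)]
    simp [classInner_sub_left, classInner_sub_right, hn, hS.orthogonal φ hφ χ hχ h1,
      hS.orthogonal χ hχ _ hcχ (hS.conj_ne χ hχ).symm, hS.orthogonal φ hφ _ hcχ h2]
  have hgen := hS.isometry.2.2.2 _ hmem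
  have hneg : Cfsg.IsGeneralizedCharacter G (-τ (χ - φ)) := by rw [← zero_sub]; exact gen_sub gen_zero hgen
  have hin2 : Cfsg.classInner (-τ (χ - φ)) (τ (φ - Cfsg.conjFun φ)) = (m : ℂ) := by
    rw [classInner_neg_left, hS.isometry.2.2.1 _ hmem _ (system_diff_mem hS hφ)]
    simp [classInner_sub_left, classInner_sub_right, hm, hS.orthogonal χ hχ φ hφ h1.symm,
      hS.orthogonal χ hχ _ hcφ h3.symm, hS.orthogonal φ hφ _ hcφ (hS.conj_ne φ hφ).symm]
  obtain ⟨a, ha, hasum, hage, -⟩ := system_proj hS hχ hgen hin1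
  obtain ⟨b, hb, hbsum, hbge, -⟩ := system_proj hS hφ hneg hin2
  obtain ⟨hr1, hr1z⟩ := proj_facts (R χ) (hS.orthonormal χ hχ) (τ (χ - φ)) a ha
  set r₁ := τ (χ - φ) - ∑ α ∈ R χ, a α • α
  have hperp : ∀ α ∈ R χ, ∀ β ∈ R φ, Cfsg.classInner α β = 0 := by
    intro α hα β hβ
    refine hS.disjoint φ hφ χ hχ (hS.orthogonal χ hχ φ hφ h1.symm) ?_ α hα β hβ
    exact hS.orthogonal χ hχ _ hcφ h3.symm
  have hb' : ∀ β ∈ R φ, Cfsg.classInner r₁ β = (fun x => -b x) β := by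
    intro β hβ
    have h5 : Cfsg.classInner (∑ α ∈ R χ, a α • α) β = 0 := by
      rw [classInner_sum_left]
      exact Finset.sum_eq_zero fun α hα => by rw [classInner_zsmul_left, hperp α hα β hβ, mul_zero]
    show Cfsg.classInner (τ (χ - φ) - ∑ α ∈ R χ, a α • α) β = _
    have h6 := hb β hβ
    rw [classInner_neg_left] at h6
    rw [classInner_sub_left, h5, sub_zero]
    push_cast
    linear_combination -h6
  obtain ⟨hr2, -⟩ := proj_facts (R φ) (hS.orthonormal φ hφ) r₁ (fun x => -b x) hb'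
  simp only [neg_sq] at hr2
  rw [hr1, hwn] at hr2
  have hnn := classInner_self_nonneg (r₁ - ∑ β ∈ R φ, (-b β) • β)
  rw [hr2] at hnn
  simp only [Complex.sub_re, Complex.add_re, Complex.natCast_re, Complex.intCast_re] at hnn
  have hle : ∑ α ∈ R χ, a α ^ 2 + ∑ β ∈ R φ, b β ^ 2 ≤ (n : ℤ) + m := by
    have : ((∑ α ∈ R χ, a α ^ 2 + ∑ β ∈ R φ, b β ^ 2 : ℤ) : ℝ) ≤ (((n : ℤ) + m : ℤ) : ℝ) := by
      push_cast at hnn ⊢; linarith
    exact_mod_cast this
  have hza : ∑ α ∈ R χ, a α ^ 2 = n := by omega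
  have hzb : ∑ β ∈ R φ, b β ^ 2 = m := by omega
  rw [hza, hzb] at hr2
  have hzero : r₁ - ∑ β ∈ R φ, (-b β) • β = 0 := eq_zero_of_self (by rw [hr2]; push_cast; ring)
  refine ⟨a, ha, hasum, hza, fun γ hγ1 hγ2 => ?_⟩
  have he : τ (χ - φ) = ∑ α ∈ R χ, a α • α + ∑ β ∈ R φ, (-b β) • β := by
    rw [sub_eq_zero] at hzero
    rw [← hzero]
    show τ (χ - φ) = _ + (τ (χ - φ) - _)
    abel
  rw [he, classInner_add_left, classInner_sum_left, classInner_sum_left,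
    Finset.sum_eq_zero (fun α hα => by rw [classInner_zsmul_left, hγ1 α hα, mul_zero]),
    Finset.sum_eq_zero (fun β hβ => by rw [classInner_zsmul_left, hγ2 β hβ, mul_zero]), add_zero]

/-- Let (S, τ, R) be a coherence system from L to G such that φ 1 = ψ 1 for all φ, ψ ∈ S. Then (S, L minus 1, τ) is coherent. -/
theorem result {L : Type*} [Group L] [Fintype L] {G : Type*} [Group G] [Fintype G] (S : Set (L → ℂ)) (τ : (L → ℂ) → (G → ℂ)) (R : (L → ℂ) → Finset (G → ℂ)) (hS : Cfsg.IsCoherenceSystem S τ R) (hdeg : ∀ φ ∈ S, ∀ ψ ∈ S, φ 1 = ψ 1) : Cfsg.IsCoherent S {1}ᶜ τ := by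
  classical
  obtain ⟨χ, hχ⟩ := hS.nonempty
  have horth := CfsgLib.Exceptional.system_orthoSet hS
  obtain ⟨hc1, hc2, n, hn, hn'⟩ := CfsgLib.Exceptional.system_conj_inner hS hχ
  have hmem : ∀ φ ∈ S, ∀ ψ ∈ S, φ - ψ ∈ CfsgLib.Exceptional.onSub S ({1}ᶜ : Set L) := fun φ hφ ψ hψ =>
    CfsgLib.Exceptional.mem_on_one.2 ⟨sub_mem (S := Submodule ℤ (L → ℂ)) (Submodule.subset_span hφ)
      (Submodule.subset_span hψ), by simp [hdeg φ hφ ψ hψ]⟩
  have hiso : Cfsg.IsLinearIsometryOn ((CfsgLib.Exceptional.onSub S ({1}ᶜ : Set L) : Submodule ℤ (L → ℂ)) :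
      Set (L → ℂ)) τ := hS.isometry
  have hRperp : ∀ φ ∈ S, φ ≠ χ → φ ≠ Cfsg.conjFun χ → ∀ β ∈ R φ, ∀ α ∈ R χ, Cfsg.classInner β α = 0 := by
    intro φ hφ h1 h2 β hβ α hα
    exact hS.disjoint χ hχ φ hφ (hS.orthogonal φ hφ χ hχ h1) (hS.orthogonal φ hφ _ (hS.conj_mem χ hχ) h2) β hβ α hα
  have hcardR : (R χ).card = 2 * n := by
    have h := hS.isometry.2.2.1 _ (CfsgLib.Exceptional.system_diff_mem hS hχ) _
      (CfsgLib.Exceptional.system_diff_mem hS hχ)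
    rw [hS.sum_eq χ hχ] at h
    simp only [CfsgLib.CharBasics.classInner_sum_left, CfsgLib.CharBasics.classInner_sum_right,
      CfsgLib.Exceptional.classInner_sub_left, CfsgLib.Exceptional.classInner_sub_right, hn, hn', hc1, hc2] at h
    rw [Finset.sum_congr rfl (fun α hα => Finset.sum_congr rfl fun β hβ => hS.orthonormal χ hχ β hβ α hα)] at h
    simp only [Finset.sum_ite_eq', Finset.sum_boole] at h
    rw [Finset.filter_true_of_mem (fun _ h => h)] at h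
    have h' : ((R χ).card : ℂ) = ((2 * n : ℕ) : ℂ) := by rw [h]; push_cast; ring
    exact_mod_cast h'
  -- the image of the base character
  have hbase : ∃ U : G → ℂ, Cfsg.IsGeneralizedCharacter G U ∧ Cfsg.classInner U U = (n : ℂ) ∧
      ∀ ψ ∈ S, Cfsg.classInner U (τ (χ - ψ)) = (n : ℂ) - Cfsg.classInner χ ψ := by
    have mk : ∀ a : (G → ℂ) → ℤ, ∑ α ∈ R χ, a α = (n : ℤ) → ∑ α ∈ R χ, a α ^ 2 = (n : ℤ) →
        (∀ ψ ∈ S, ψ ≠ χ → ψ ≠ Cfsg.conjFun χ → ∀ α ∈ R χ, Cfsg.classInner (τ (χ - ψ)) α = a α) →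
        ∃ U : G → ℂ, Cfsg.IsGeneralizedCharacter G U ∧ Cfsg.classInner U U = (n : ℂ) ∧
          ∀ ψ ∈ S, Cfsg.classInner U (τ (χ - ψ)) = (n : ℂ) - Cfsg.classInner χ ψ := by
      intro a h1 h2 h3
      have hUα : ∀ α ∈ R χ, Cfsg.classInner (∑ β ∈ R χ, a β • β) α = a α := by
        intro α hα
        rw [CfsgLib.CharBasics.classInner_sum_left, Finset.sum_eq_single α,
          CfsgLib.Exceptional.classInner_zsmul_left, hS.orthonormal χ hχ α hα α hα, if_pos rfl, mul_one]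
        · intro β hβ hne
          rw [CfsgLib.Exceptional.classInner_zsmul_left, hS.orthonormal χ hχ β hβ α hα, if_neg hne, mul_zero]
        · exact fun hh => absurd hα hh
      refine ⟨∑ β ∈ R χ, a β • β, CfsgLib.Exceptional.gen_sum _ _ fun α hα =>
        CfsgLib.Exceptional.gen_zsmul (hS.virtual χ hχ α hα) _, ?_, fun ψ hψ => ?_⟩
      · rw [CfsgLib.CharBasics.classInner_sum_right, Finset.sum_congr rfl (fun α hα => by
          rw [CfsgLib.Exceptional.classInner_zsmul_right, hUα α hα])]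
        have : ((∑ α ∈ R χ, a α * a α : ℤ) : ℂ) = (n : ℂ) := by simp [← sq, h2]
        simpa using this
      · by_cases e1 : ψ = χ
        · subst e1
          rw [sub_self, CfsgLib.Exceptional.iso_zero hiso, CfsgLib.Exceptional.classInner_zero_r, hn, sub_self]
        by_cases e2 : ψ = Cfsg.conjFun χ
        · subst e2
          rw [hS.sum_eq χ hχ, CfsgLib.CharBasics.classInner_sum_right, hc1, sub_zero,
            Finset.sum_congr rfl (fun α hα => hUα α hα)]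
          have : ((∑ α ∈ R χ, a α : ℤ) : ℂ) = (n : ℂ) := by rw [h1]; rfl
          simpa using this
        rw [CfsgLib.CharBasics.classInner_sum_left, hS.orthogonal χ hχ ψ hψ (Ne.symm e1), sub_zero,
          Finset.sum_congr rfl (fun α hα => by
            rw [CfsgLib.Exceptional.classInner_zsmul_left, CfsgLib.CharBasics.classInner_comm (τ (χ - ψ)) α,
              h3 ψ hψ e1 e2 α hα, map_intCast])]
        have : ((∑ α ∈ R χ, a α * a α : ℤ) : ℂ) = (n : ℂ) := by simp [← sq, h2]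
        simpa using this
    by_cases hex : ∃ φ ∈ S, φ ≠ χ ∧ φ ≠ Cfsg.conjFun χ
    · obtain ⟨φ, hφ, e1, e2⟩ := hex
      obtain ⟨a, ha, hasum, hasq, -⟩ := decomposition hS hdeg hχ hφ e1 e2 hn
      refine mk a hasum hasq fun ψ hψ f1 f2 α hα => ?_
      have key : Cfsg.classInner (τ (φ - ψ)) α = 0 := by
        by_cases g1 : ψ = φ
        · rw [g1, sub_self, CfsgLib.Exceptional.iso_zero hiso, CfsgLib.Exceptional.classInner_zero_l]
        by_cases g2 : ψ = Cfsg.conjFun φ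
        · rw [g2, hS.sum_eq φ hφ, CfsgLib.CharBasics.classInner_sum_left]
          exact Finset.sum_eq_zero fun β hβ => hRperp φ hφ e1 e2 β hβ α hα
        obtain ⟨p, hp⟩ := CfsgLib.CharBasics.classInner_characters_nat (hS.isCharacter φ hφ) (hS.isCharacter φ hφ)
        obtain ⟨-, -, -, -, hz⟩ := decomposition hS hdeg hφ hψ g1 g2 hp
        exact hz α (fun β hβ => hRperp φ hφ e1 e2 β hβ α hα) (fun β hβ => hRperp ψ hψ f1 f2 β hβ α hα)
      have hsplit : τ (χ - ψ) = τ (χ - φ) + τ (φ - ψ) := by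
        rw [← hiso.1 _ (hmem χ hχ φ hφ) _ (hmem φ hφ ψ hψ), sub_add_sub_cancel]
      rw [hsplit, CfsgLib.CharBasics.classInner_add_left, key, add_zero, ha α hα]
    · push Not at hex
      obtain ⟨T, hT, hTc⟩ := Finset.exists_subset_card_eq (s := R χ) (n := n) (by omega)
      refine mk (fun α => if α ∈ T then 1 else 0) ?_ ?_ fun ψ hψ f1 f2 => absurd (hex ψ hψ f1) f2
      · simp [Finset.sum_ite_mem, Finset.inter_eq_right.2 hT, hTc]
      · simp [ite_pow, Finset.sum_ite_mem, Finset.inter_eq_right.2 hT, hTc]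
  obtain ⟨U, hU, hUU, hUτ⟩ := hbase
  obtain ⟨D, hD⟩ : ∃ D : ℕ, ∀ φ ∈ S, φ 1 = (D : ℂ) :=
    ⟨Cfsg.charDegree χ, fun φ hφ => (hdeg φ hφ χ hχ).trans
      (CfsgLib.CharBasics.apply_one (hS.isCharacter χ hχ))⟩
  have hD0 : D ≠ 0 := by
    intro h0
    have := CfsgLib.Clifford.eq_zero_of_apply_one (hS.isCharacter χ hχ) (by rw [hD χ hχ, h0, Nat.cast_zero])
    exact horth.norm_ne χ hχ (by rw [this, CfsgLib.Exceptional.classInner_zero_l])
  obtain ⟨F, rfl⟩ : ∃ F : Finset (L → ℂ), (↑F : Set (L → ℂ)) = S :=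
    ⟨horth.finite.toFinset, horth.finite.coe_toFinset⟩
  refine CfsgLib.Exceptional.coherent_of horth (fun _ => D) (fun φ hφ => hD φ hφ) hχ hD0
    ⟨Cfsg.conjFun χ, hS.conj_mem χ hχ, hS.conj_ne χ hχ⟩ τ hS.isometry (fun φ => U - τ (χ - φ))
    (fun φ hφ => CfsgLib.Exceptional.gen_sub hU (hS.isometry.2.2.2 _ (hmem χ hχ φ hφ))) ?_ ?_
  · intro φ hφ ψ hψ
    have e1 : Cfsg.classInner (τ (χ - φ)) U = (n : ℂ) - Cfsg.classInner φ χ := by
      rw [CfsgLib.CharBasics.classInner_comm U, hUτ φ hφ, map_sub, Complex.conj_natCast,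
        ← CfsgLib.CharBasics.classInner_comm]
    simp only [CfsgLib.Exceptional.classInner_sub_left, CfsgLib.Exceptional.classInner_sub_right, hUU, e1,
      hUτ ψ hψ, hS.isometry.2.2.1 _ (hmem χ hχ φ hφ) _ (hmem χ hχ ψ hψ), hn]
    ring
  · intro φ hφ _
    rw [← smul_sub, ← smul_sub, CfsgLib.Exceptional.iso_zsmul hiso (hmem φ hφ χ hχ), sub_self χ,
      CfsgLib.Exceptional.iso_zero hiso]
    congr 1
    have h0 : τ (φ - χ) + τ (χ - φ) = 0 := by
      rw [← hiso.1 _ (hmem φ hφ χ hχ) _ (hmem χ hχ φ hφ), sub_add_sub_cancel, sub_self,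
        CfsgLib.Exceptional.iso_zero hiso]
    rw [eq_neg_of_add_eq_zero_left h0]
    abel

end Cfsg.Agent.S1517
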