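import Cfsg.Statements.S1519
import Cfsg.Agent.CharBasics.InducedAbove
import Cfsg.Agent.S1516

set_option autoImplicit false
open Cfsg

namespace Cfsg.Agent.S1519

open CfsgLib.CharBasics

/-- Let K be a solvable normal subgroup of the finite group L and (S, τ, R) a coherence system from L to G where S is the set of functions induced from non-principal irreducible characters of K; write S(A) for those induced from characters whose kernel contains A. Let A, B, C, D be normal subgroups of L with A < K, B < K, B ≤ D ≤ C ≤ K and every commutator of D with C in B. If S(A) is coherent and 4 * [L:C]^2 * [C:D] < ([K:A] − 1)^2, then S(B) is coherent. -/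
theorem result {L : Type*} [Group L] [Fintype L] {G : Type*} [Group G] [Fintype G] (K : Subgroup L) [hK : K.Normal] (hsolv : Group.IsSolvable K) (τ : (L → ℂ) → (G → ℂ)) (R : (L → ℂ) → Finset (G → ℂ)) (hS : Cfsg.IsCoherenceSystem (Cfsg.inducedIrrAbove K ⊥) τ R) (A B C D : Subgroup L) [A.Normal] [B.Normal] [C.Normal] [D.Normal] (hAK : A < K) (hBK : B < K) (hBD : B ≤ D) (hDC : D ≤ C) (hCK : C ≤ K) (hcent : ∀ x ∈ D, ∀ y ∈ C, x * y * x⁻¹ * y⁻¹ ∈ B) (hA : Cfsg.IsCoherent (Cfsg.inducedIrrAbove K A) {1}ᶜ τ) (hlt : 4 * C.index ^ 2 * D.relIndex C < (A.relIndex K - 1) ^ 2) : Cfsg.IsCoherent (Cfsg.inducedIrrAbove K B) {1}ᶜ τ := by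
  classical
  haveI := Fintype.ofFinite K
  haveI hA' := CfsgLib.InducedAbove.normal_sub K A
  haveI hB' := CfsgLib.InducedAbove.normal_sub K B
  set S := Cfsg.inducedIrrAbove K (⊥ : Subgroup L) with hSdef
  have hmono : ∀ E : Subgroup L, Cfsg.inducedIrrAbove K E ⊆ S := fun E =>
    CfsgLib.InducedAbove.anti K bot_le
  set d : (L → ℂ) → ℕ := fun φ => Cfsg.charDegree φ with hddef
  set n : (L → ℂ) → ℕ := fun φ => ⌊(Cfsg.classInner φ φ).re⌋₊ with hndef
  have hd : ∀ φ ∈ S, φ 1 = (d φ : ℂ) := fun φ h => apply_one (hS.isCharacter φ h)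
  have hn : ∀ φ ∈ S, Cfsg.classInner φ φ = (n φ : ℂ) := fun φ h => by
    obtain ⟨m, hm⟩ := classInner_characters_nat (hS.isCharacter φ h) (hS.isCharacter φ h)
    simp [hndef, hm]
  have hn0 : ∀ φ ∈ S, 0 < n φ := fun φ h => Nat.pos_of_ne_zero fun h0 =>
    (CfsgLib.Exceptional.system_orthoSet hS).norm_ne φ h (by rw [hn φ h, h0, Nat.cast_zero])
  obtain ⟨χ₁, hχ₁, hχ₁e⟩ := CfsgLib.InducedAbove.exists_degree_index K hsolv A hAK
  have hdχ₁ : d χ₁ = K.index := by
    have h := hd χ₁ (hmono A hχ₁)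
    rw [hχ₁e] at h
    exact_mod_cast h.symm
  have hbound : ∀ χ ∈ Cfsg.inducedIrrAbove K B, K.index ∣ d χ ∧
      (2 * d χ * K.index : ℝ) < (K.index : ℝ) * ((A.relIndex K : ℝ) - 1) := by
    rintro χ ⟨θ, hθ, -, hk, rfl⟩
    have he : d (Cfsg.indFun K θ) = K.index * Cfsg.charDegree θ :=
      charDegree_indFun K (isCharacter_of_irr hθ)
    refine ⟨⟨_, he⟩, ?_⟩
    have hdeg := CfsgLib.InducedAbove.sq_degree_le (B.subgroupOf K) (C.subgroupOf K) (D.subgroupOf K)
      (fun x hx => hBD hx) (fun x hx => hDC hx) (fun x hx y hy => hcent x hx y hy) ⟨θ, hθ⟩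
      (fun b hb => hk b hb)
    have e1 : (C.subgroupOf K).index * K.index = C.index := Subgroup.relIndex_mul_index hCK
    have e2 : (D.subgroupOf K).relIndex (C.subgroupOf K) = D.relIndex C :=
      Subgroup.relIndex_subgroupOf hCK
    rw [e2] at hdeg
    have hC2 : (d (Cfsg.indFun K θ)) ^ 2 ≤ C.index ^ 2 * D.relIndex C := by
      rw [he, ← e1, mul_pow, mul_pow, mul_right_comm]
      rw [mul_comm (K.index ^ 2)]
      exact Nat.mul_le_mul_right _ hdeg
    have hAnat : 4 * (d (Cfsg.indFun K θ)) ^ 2 < (A.relIndex K - 1) ^ 2 :=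
      lt_of_le_of_lt (by rw [mul_assoc]; exact Nat.mul_le_mul_left 4 hC2) hlt
    have hlin : 2 * d (Cfsg.indFun K θ) < A.relIndex K - 1 := by
      have : (2 * d (Cfsg.indFun K θ)) ^ 2 < (A.relIndex K - 1) ^ 2 := by
        rw [mul_pow]; exact hAnat
      exact lt_of_pow_lt_pow_left₀ 2 (Nat.zero_le _) this
    have hpos : (0 : ℝ) < K.index := by
      exact_mod_cast Nat.pos_of_ne_zero Subgroup.index_ne_zero_of_finite
    have h1 : (1 : ℕ) ≤ A.relIndex K := by omega
    have h2 : ((2 * d (Cfsg.indFun K θ) : ℕ) : ℝ) < ((A.relIndex K - 1 : ℕ) : ℝ) := by exact_mod_cast hlin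
    push_cast [h1] at h2
    nlinarith
  have main : ∀ T : Finset (L → ℂ), ↑T ⊆ Cfsg.inducedIrrAbove K B →
      ∃ S₁ : Finset (L → ℂ), Cfsg.inducedIrrAbove K A ⊆ ↑S₁ ∧ ↑S₁ ⊆ S ∧
        (∀ φ ∈ S₁, Cfsg.conjFun φ ∈ S₁) ∧ Cfsg.IsCoherent (↑S₁ : Set (L → ℂ)) {1}ᶜ τ ∧ T ⊆ S₁ := by
    intro T
    induction T using Finset.induction_on with
    | empty =>
      intro _
      refine ⟨(CfsgLib.InducedAbove.finite K A).toFinset, by simp, by simpa using hmono A, ?_, by simpa using hA,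
        Finset.empty_subset _⟩
      intro φ hφ
      simpa using CfsgLib.InducedAbove.conj_mem K A (by simpa using hφ)
    | @insert χ T _ ih =>
      intro hT
      rw [Finset.coe_insert, Set.insert_subset_iff] at hT
      obtain ⟨S₁, h1, h2, h3, h4, h5⟩ := ih hT.2
      by_cases hχ : χ ∈ S₁
      · exact ⟨S₁, h1, h2, h3, h4, Finset.insert_subset hχ h5⟩
      have hcc : ∀ φ : L → ℂ, Cfsg.conjFun (Cfsg.conjFun φ) = φ := fun φ => by
        funext x; simp [Cfsg.conjFun]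
      have hχS : χ ∈ S := hmono B hT.1
      have hχc : Cfsg.conjFun χ ∉ S₁ := fun h => hχ (hcc χ ▸ h3 _ h)
      obtain ⟨hdv, hlt'⟩ := hbound χ hT.1
      have hsum := CfsgLib.InducedAbove.index_le_sum K A hS.orthogonal S₁ h2 h1 n
        (fun φ h => hn φ (h2 h)) (fun φ h => hn0 φ (h2 h))
      have hnew := Cfsg.Agent.S1516.result S τ R hS d n hd hn S₁ h2 h3 h4 χ hχS hχ hχc χ₁ (h1 hχ₁)
        (hdχ₁ ▸ hdv) (by rw [hdχ₁]; exact lt_of_lt_of_le hlt' hsum)
      refine ⟨S₁ ∪ {χ, Cfsg.conjFun χ}, h1.trans (by intro x hx; simp [Finset.mem_coe.1 hx]), ?_, ?_, ?_, ?_⟩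
      · simp only [Finset.coe_union, Finset.coe_insert, Finset.coe_singleton]
        refine Set.union_subset h2 (Set.insert_subset_iff.2 ⟨hχS, ?_⟩)
        exact Set.singleton_subset_iff.2 (hS.conj_mem χ hχS)
      · intro φ hφ
        simp only [Finset.mem_union, Finset.mem_insert, Finset.mem_singleton] at hφ ⊢
        rcases hφ with h | rfl | rfl
        · exact Or.inl (h3 φ h)
        · exact Or.inr (Or.inr rfl)
        · exact Or.inr (Or.inl (hcc χ))
      · simpa using hnew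
      · exact Finset.insert_subset (by simp) (h5.trans Finset.subset_union_left)
  obtain ⟨S₁, -, -, -, ⟨-, τ₁, hτ₁, hag⟩, hsub⟩ :=
    main (CfsgLib.InducedAbove.finite K B).toFinset (by simp)
  have hsub' : Cfsg.inducedIrrAbove K B ⊆ ↑S₁ := fun φ h => hsub (by simpa using h)
  have hspan : Cfsg.zspan (Cfsg.inducedIrrAbove K B) ⊆ Cfsg.zspan (↑S₁ : Set (L → ℂ)) :=
    Submodule.span_mono hsub'
  obtain ⟨χ, hχ, -⟩ := CfsgLib.InducedAbove.exists_degree_index K hsolv B hBK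
  refine ⟨⟨χ - Cfsg.conjFun χ, CfsgLib.Exceptional.mem_on_one.2
      ⟨sub_mem (S := Submodule ℤ (L → ℂ)) (Submodule.subset_span hχ)
        (Submodule.subset_span (CfsgLib.InducedAbove.conj_mem K B hχ)),
        by simp [CfsgLib.Exceptional.conjFun_apply_one (hS.isCharacter χ (hmono B hχ))]⟩,
      sub_ne_zero.2 (hS.conj_ne χ (hmono B hχ)).symm⟩, τ₁,
    ⟨fun α h β h' => hτ₁.1 α (hspan h) β (hspan h'), fun α h m => hτ₁.2.1 α (hspan h) m,
      fun α h β h' => hτ₁.2.2.1 α (hspan h) β (hspan h'), fun α h => hτ₁.2.2.2 α (hspan h)⟩,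
    fun α h => hag α ⟨hspan h.1, h.2⟩⟩

end Cfsg.Agent.S1519
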