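import Cfsg.Statements.S1520
import Cfsg.Agent.S1519

set_option autoImplicit false
open Cfsg

namespace Cfsg.Agent.S1520

open scoped commutatorElement

/-- A chief factor below a nilpotent section is central in it. -/
theorem commutator_le_chief {L : Type*} [Group L] (M B B' H : Subgroup L) [M.Normal] [B.Normal] [B'.Normal]
    [H.Normal] [(M.subgroupOf H).Normal] (hnil : Group.IsNilpotent (↥H ⧸ M.subgroupOf H))
    (hMB : M ≤ B') (hlt : B' < B) (hBH : B ≤ H)
    (hmax : ∀ N : Subgroup L, N.Normal → B' ≤ N → N ≤ B → N = B' ∨ N = B) : ⁅B, H⁆ ≤ B' := by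
  have hBB : ⁅B, H⁆ ≤ B := Subgroup.commutator_le_left B H
  rcases hmax (⁅B, H⁆ ⊔ B') inferInstance le_sup_right (sup_le hBB hlt.le) with h | h
  · exact h ▸ le_sup_left
  exfalso
  set γ : ℕ → Subgroup L := fun n => (Subgroup.lowerCentralSeries (⊤ : Subgroup H) n).map H.subtype with hγ
  have key : ∀ n, B ≤ B' ⊔ γ n := by
    intro n
    induction n with
    | zero =>
      refine le_trans ?_ le_sup_right
      intro x hx
      exact ⟨⟨x, hBH hx⟩, by simp, rfl⟩
    | succ n ih =>
      conv_lhs => rw [← h]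
      refine sup_le ?_ le_sup_left
      rw [Subgroup.commutator_le]
      intro x hx y hy
      obtain ⟨b, hb, g, hg, rfl⟩ := Subgroup.mem_sup_of_normal_left.1 (ih hx)
      have e : ⁅b * g, y⁆ = b * ⁅g, y⁆ * b⁻¹ * ⁅b, y⁆ := by simp only [commutatorElement_def]; group
      rw [e]
      have hb' : b ∈ B' ⊔ γ (n + 1) := Subgroup.mem_sup_left hb
      refine mul_mem (mul_mem (mul_mem hb' (Subgroup.mem_sup_right ?_)) (inv_mem hb')) (Subgroup.mem_sup_left ?_)
      · obtain ⟨g', hg', rfl⟩ := hg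
        refine ⟨⁅g', ⟨y, hy⟩⁆, ?_, by simp [commutatorElement_def]⟩
        rw [Subgroup.lowerCentralSeries_succ]
        exact Subgroup.commutator_mem_commutator hg' (Subgroup.mem_top _)
      · exact Subgroup.commutator_le_left B' H (Subgroup.commutator_mem_commutator hb hy)
  obtain ⟨n, hn⟩ := Subgroup.nilpotent_iff_lowerCentralSeries.1 hnil
  refine hlt.not_ge ((key n).trans (sup_le le_rfl ?_))
  rintro _ ⟨g, hg, rfl⟩
  have h1 : QuotientGroup.mk' (M.subgroupOf H) g ∈
      Subgroup.lowerCentralSeries (⊤ : Subgroup (↥H ⧸ M.subgroupOf H)) n := by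
    have h2 := Subgroup.lowerCentralSeries.map (QuotientGroup.mk' (M.subgroupOf H)) n
    exact h2 (Subgroup.mem_map_of_mem _ hg)
  rw [hn, Subgroup.mem_bot] at h1
  exact hMB (Subgroup.mem_subgroupOf.1 ((QuotientGroup.eq_one_iff g).1 h1))

/-- Let K be a solvable normal subgroup of the finite group L and (S, τ, R) a coherence system from L to G with S the functions induced from non-principal irreducible characters of K; S(A) the members of S induced from characters whose kernel contains A. Let M ≤ H₁ ≤ H ≤ K be normal subgroups of L such that every term of the lower central series of H eventually lies in M (H/M nilpotent), S(H₁) is coherent and [H:H₁] > 4 * [L:K]^2 + 1. Then S(M) is coherent. -/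
theorem result {L : Type*} [Group L] [Fintype L] {G : Type*} [Group G] [Fintype G] (K : Subgroup L) [hK : K.Normal] (hsolv : Group.IsSolvable K) (τ : (L → ℂ) → (G → ℂ)) (R : (L → ℂ) → Finset (G → ℂ)) (hS : Cfsg.IsCoherenceSystem (Cfsg.inducedIrrAbove K ⊥) τ R) (M H₁ H : Subgroup L) [M.Normal] [H₁.Normal] [H.Normal] (hMH₁ : M ≤ H₁) (hH₁H : H₁ ≤ H) (hHK : H ≤ K) [(M.subgroupOf H).Normal] (hnil : Group.IsNilpotent (↥H ⧸ M.subgroupOf H)) (hcoh : Cfsg.IsCoherent (Cfsg.inducedIrrAbove K H₁) {1}ᶜ τ) (hbig : 4 * K.index ^ 2 + 1 < H₁.relIndex H) : Cfsg.IsCoherent (Cfsg.inducedIrrAbove K M) {1}ᶜ τ := by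
  classical
  suffices key : ∀ B : Subgroup L, B.Normal → M ≤ B → B ≤ H₁ →
      Cfsg.IsCoherent (Cfsg.inducedIrrAbove K B) {1}ᶜ τ → Cfsg.IsCoherent (Cfsg.inducedIrrAbove K M) {1}ᶜ τ from
    key H₁ inferInstance hMH₁ le_rfl hcoh
  intro B
  induction B using WellFoundedLT.induction with
  | _ B ih =>
    intro hBn hMB hBH₁ hcohB
    rcases eq_or_lt_of_le hMB with rfl | hMlt
    · exact hcohB
    obtain ⟨B', hB'mem, hB'max⟩ := Set.Finite.exists_maximal (Set.toFinite
      {N : Subgroup L | N.Normal ∧ M ≤ N ∧ N < B}) ⟨M, inferInstance, le_rfl, hMlt⟩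
    obtain ⟨hB'n, hMB', hB'lt⟩ := hB'mem
    refine ih B' hB'lt hB'n hMB' (hB'lt.le.trans hBH₁) ?_
    have hBH : B ≤ H := hBH₁.trans hH₁H
    have hc : ⁅B, H⁆ ≤ B' := commutator_le_chief M B B' H hnil hMB' hB'lt hBH fun N hN h1 h2 => by
      rcases eq_or_lt_of_le h2 with h | h
      · exact Or.inr h
      · exact Or.inl (le_antisymm (hB'max ⟨hN, hMB'.trans h1, h⟩ h1) h1)
    have hne : ∀ U V : Subgroup L, U.relIndex V ≠ 0 := fun U V => Subgroup.index_ne_zero_of_finite
    have hH₁lt : H₁ < H := lt_of_le_of_ne hH₁H fun he => by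
      rw [he, Subgroup.relIndex_self] at hbig
      omega
    have hBK : B < K := lt_of_le_of_lt hBH₁ (lt_of_lt_of_le hH₁lt hHK)
    refine Cfsg.Agent.S1519.result K hsolv τ R hS B B' H B hBK (hB'lt.trans hBK) hB'lt.le hBH hHK
      (fun x hx y hy => hc (by
        rw [← commutatorElement_def]; exact Subgroup.commutator_mem_commutator hx hy)) hcohB ?_
    have h1 : 4 * K.index ^ 2 + 2 ≤ B.relIndex H :=
      le_trans hbig (Subgroup.relIndex_le_of_le_left hBH₁ (hne B H))
    have e1 : H.relIndex K * K.index = H.index := Subgroup.relIndex_mul_index hHK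
    have e2 : B.relIndex H * H.relIndex K = B.relIndex K := Subgroup.relIndex_mul_relIndex B H K hBH hHK
    have hh : 1 ≤ H.relIndex K := Nat.pos_of_ne_zero (hne H K)
    rw [← e1, ← e2]
    obtain ⟨r, hr⟩ : ∃ r, B.relIndex H * H.relIndex K = r + 1 :=
      ⟨B.relIndex H * H.relIndex K - 1, (Nat.succ_pred_eq_of_pos (Nat.mul_pos (by omega) hh)).symm⟩
    rw [hr, Nat.add_sub_cancel]
    have h2 : B.relIndex H * H.relIndex K ^ 2 * (4 * K.index ^ 2 + 2) ≤
        B.relIndex H * H.relIndex K ^ 2 * B.relIndex H := Nat.mul_le_mul_left _ h1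
    have h3 : (r + 1) ^ 2 = B.relIndex H * H.relIndex K ^ 2 * B.relIndex H := by rw [← hr]; ring
    have h4 : r + 1 ≤ B.relIndex H * H.relIndex K ^ 2 := by
      rw [← hr, sq, ← mul_assoc]
      exact Nat.le_mul_of_pos_right _ hh
    nlinarith

end Cfsg.Agent.S1520
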