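import Cfsg.Statements.S1521
import Cfsg.Agent.S1517
import Cfsg.Agent.S1520
import Cfsg.Agent.CharBasics.InducedAbove
import Cfsg.Agent.ClassSize.PPowerIndex

set_option autoImplicit false
open Cfsg

namespace Cfsg.Agent.S1521

open scoped commutatorElement
open CfsgLib.CharBasics

/-- In a finite nilpotent group an element generating modulo the commutator subgroup generates. -/
theorem zpowers_eq_top {Q : Type*} [Group Q] [Finite Q] [Group.IsNilpotent Q] {g : Q}
    (h : Subgroup.zpowers g ⊔ commutator Q = ⊤) : Subgroup.zpowers g = ⊤ := by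
  by_contra hne
  obtain ⟨M, hM, hgM⟩ := (eq_top_or_exists_le_coatom (Subgroup.zpowers g)).resolve_left hne
  haveI hMn : M.Normal := Subgroup.NormalizerCondition.normal_of_coatom M Group.normalizerCondition_of_isNilpotent hM
  refine hM.1 (top_le_iff.1 (h ▸ sup_le hgM ?_))
  haveI : Nontrivial (Q ⧸ M) := QuotientGroup.nontrivial_iff.2 hM.1
  rcases hM.le_iff.1 (le_sup_left : M ≤ M ⊔ commutator Q) with h1 | h1
  · exfalso
    have hlt := Group.IsSolvable.commutator_lt_top_of_nontrivial (Q ⧸ M)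
    refine hlt.ne (top_le_iff.1 ?_)
    calc (⊤ : Subgroup (Q ⧸ M)) = (⊤ : Subgroup Q).map (QuotientGroup.mk' M) :=
          (Subgroup.map_top_of_surjective _ (QuotientGroup.mk'_surjective M)).symm
      _ = (commutator Q).map (QuotientGroup.mk' M) := by
          rw [← h1, Subgroup.map_sup, QuotientGroup.map_mk'_self, bot_sup_eq]
      _ ≤ commutator (Q ⧸ M) := by
          rw [commutator_def, commutator_def, Subgroup.map_commutator]
          exact Subgroup.commutator_mono le_top le_top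
  · exact h1 ▸ le_sup_right

/-- Every prime dividing the order of a nilpotent group divides the order of its abelianization. -/
theorem dvd_index_commutator {Q : Type*} [Group Q] [Finite Q] [Group.IsNilpotent Q] {p : ℕ} (hp : p.Prime)
    (h : p ∣ Nat.card Q) : p ∣ (commutator Q).index := by
  haveI := Fact.mk hp
  obtain ⟨S, N, hN, hNS⟩ := CfsgLib.ZJ.hasNormalPComplement_of_isNilpotent (G := Q) p
  haveI := hN
  have hidx : N.index = Nat.card (S : Subgroup Q) := (Subgroup.IsComplement'.index_eq_card (hNS.symm))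
  have hpQ : IsPGroup p (Q ⧸ N) := by
    obtain ⟨j, hj⟩ := IsPGroup.iff_card.1 S.2
    exact IsPGroup.of_card (n := j) (by rw [← Subgroup.index_eq_card, hidx, hj])
  have hS : p ∣ Nat.card (S : Subgroup Q) := by
    refine Sylow.dvd_card_of_dvd_card S h
  haveI : Nontrivial (Q ⧸ N) := by
    refine Finite.one_lt_card_iff_nontrivial.1 ?_
    rw [← Subgroup.index_eq_card, hidx]
    exact lt_of_lt_of_le hp.one_lt (Nat.le_of_dvd Nat.card_pos hS)
  have hlt := Group.IsSolvable.commutator_lt_top_of_nontrivial (Q ⧸ N)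
  have hne : (commutator (Q ⧸ N)).index ≠ 1 := fun h1 => hlt.ne (Subgroup.index_eq_one.1 h1)
  have hdp : p ∣ (commutator (Q ⧸ N)).index := by
    obtain ⟨j, hj⟩ := IsPGroup.iff_card.1 hpQ
    obtain ⟨i, -, hi⟩ := (Nat.dvd_prime_pow hp).1 (hj ▸ Subgroup.index_dvd_card (commutator (Q ⧸ N)))
    rw [hi] at hne ⊢
    exact dvd_pow_self p (by rintro rfl; exact hne (pow_zero p))
  refine hdp.trans ?_
  rw [← Subgroup.index_comap_of_surjective (commutator (Q ⧸ N)) (QuotientGroup.mk'_surjective N)]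
  refine Subgroup.index_dvd_of_le (Subgroup.map_le_iff_le_comap.1 ?_)
  rw [commutator_def, commutator_def, Subgroup.map_commutator]
  exact Subgroup.commutator_mono le_top le_top

/-- In a nilpotent group with abelianization of prime order the commutator subgroup is trivial. -/
theorem commutator_eq_bot {Q : Type*} [Group Q] [Finite Q] [Group.IsNilpotent Q] {p : ℕ} (hp : p.Prime)
    (h : (commutator Q).index = p) : commutator Q = ⊥ := by
  obtain ⟨g, hg⟩ : ∃ g : Q, g ∉ commutator Q := by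
    by_contra hc
    push Not at hc
    rw [Subgroup.index_eq_one.2 (eq_top_iff.2 fun x _ => hc x)] at h
    exact hp.ne_one h.symm
  have hsup : Subgroup.zpowers g ⊔ commutator Q = ⊤ := by
    rcases (Nat.dvd_prime hp).1 (h ▸ Subgroup.index_dvd_of_le
      (le_sup_right : commutator Q ≤ Subgroup.zpowers g ⊔ commutator Q)) with h1 | h1
    · exact Subgroup.index_eq_one.1 h1
    · exfalso
      have hlt : commutator Q < Subgroup.zpowers g ⊔ commutator Q :=
        lt_of_le_not_ge le_sup_right fun hle => hg (hle (Subgroup.mem_sup_left (Subgroup.mem_zpowers g)))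
      have := Subgroup.index_strictAnti hlt
      omega
  have htop := zpowers_eq_top hsup
  rw [commutator_def, eq_bot_iff, Subgroup.commutator_le]
  intro x _ y _
  obtain ⟨i, rfl⟩ := Subgroup.mem_zpowers_iff.1 (htop ▸ Subgroup.mem_top x)
  obtain ⟨j, rfl⟩ := Subgroup.mem_zpowers_iff.1 (htop ▸ Subgroup.mem_top y)
  rw [Subgroup.mem_bot, commutatorElement_eq_one_iff_mul_comm, ← zpow_add, ← zpow_add, add_comm]

/-- The action of `L / K` on a normal section below `K` is semiregular. -/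
theorem index_dvd_sub_one {L : Type*} [Group L] [Finite L] (K H₁ N : Subgroup L) [K.Normal] [H₁.Normal]
    [N.Normal] (hH₁K : ⁅K, K⁆ ≤ H₁) (hHN : H₁ ≤ N) (hNK : N ≤ K)
    (hfrob : ∀ k ∈ K, k ∉ H₁ → ∀ x : L, x * k * x⁻¹ * k⁻¹ ∈ H₁ → x ∈ K) :
    K.index ∣ H₁.relIndex N - 1 := by
  classical
  haveI := Fintype.ofFinite (L ⧸ H₁)
  set q := QuotientGroup.mk' H₁ with hq
  have hker : q.ker = H₁ := QuotientGroup.ker_mk' H₁
  have hcard : Nat.card ↥(N.map q) = H₁.relIndex N := by
    rw [← Subgroup.relIndex_bot_left, ← QuotientGroup.map_mk'_self (N := H₁), Subgroup.relIndex_map_map, hker,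
      sup_idem, sup_eq_left.2 hHN]
  have hidx : (K.map q).index = K.index :=
    Subgroup.index_map_eq K (QuotientGroup.mk'_surjective H₁) (by rw [hker]; exact hHN.trans hNK)
  set X := (Finset.univ.filter fun y : L ⧸ H₁ => y ∈ N.map q).erase 1 with hX
  have hXcard : X.card = H₁.relIndex N - 1 := by
    rw [← hcard, hX, Finset.card_erase_of_mem (Finset.mem_filter.2 ⟨Finset.mem_univ _, one_mem _⟩), Nat.card_eq_fintype_card,
      Fintype.card_subtype]
  have hcent : ∀ y ∈ X, Subgroup.centralizer ({y} : Set (L ⧸ H₁)) = K.map q := by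
    intro y hy
    obtain ⟨hy1, hyN⟩ := Finset.mem_erase.1 hy
    obtain ⟨k, hk, rfl⟩ := Subgroup.mem_map.1 (Finset.mem_filter.1 hyN).2
    have hkH : k ∉ H₁ := fun h => hy1 ((QuotientGroup.eq_one_iff k).2 h)
    refine le_antisymm (fun z hz => ?_) (fun z hz => ?_)
    · obtain ⟨x, rfl⟩ := QuotientGroup.mk'_surjective H₁ z
      refine Subgroup.mem_map_of_mem q (hfrob k (hNK hk) hkH x ?_)
      rw [Subgroup.mem_centralizer_singleton_iff] at hz
      refine (QuotientGroup.eq_one_iff _).1 ?_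
      show q (x * k * x⁻¹ * k⁻¹) = 1
      rw [map_mul, map_mul, map_mul, map_inv, map_inv, hz, hq]
      group
    · obtain ⟨x, hx, rfl⟩ := Subgroup.mem_map.1 hz
      rw [Subgroup.mem_centralizer_singleton_iff, ← map_mul, ← map_mul]
      refine (QuotientGroup.eq_iff_div_mem).2 (hH₁K ?_)
      have e : x * k / (k * x) = ⁅x, k⁆ := by simp only [commutatorElement_def, div_eq_mul_inv]; group
      rw [e]
      exact Subgroup.commutator_mem_commutator hx (hNK hk)
  have hmaps : ∀ y ∈ X, ConjClasses.mk y ∈ X.image ConjClasses.mk := fun y hy => Finset.mem_image_of_mem _ hy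
  rw [← hXcard, Finset.card_eq_sum_card_fiberwise hmaps]
  refine Finset.dvd_sum fun C hC => ?_
  obtain ⟨y, hy, rfl⟩ := Finset.mem_image.1 hC
  have he : ((X.filter fun z => ConjClasses.mk z = ConjClasses.mk y) : Set (L ⧸ H₁)) =
      (ConjClasses.mk y).carrier := by
    ext z
    simp only [Finset.coe_filter, Set.mem_setOf_eq, ConjClasses.mem_carrier_iff_mk_eq, and_iff_right_iff_imp]
    intro hz
    obtain ⟨hy1, hyN⟩ := Finset.mem_erase.1 hy
    obtain ⟨c, hc⟩ := isConj_iff.1 (ConjClasses.mk_eq_mk_iff_isConj.1 hz).symm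
    refine Finset.mem_erase.2 ⟨?_, Finset.mem_filter.2 ⟨Finset.mem_univ _, ?_⟩⟩
    · rintro rfl
      exact hy1 (conj_eq_one_iff.1 hc)
    · haveI : (N.map q).Normal := Subgroup.Normal.map inferInstance q (QuotientGroup.mk'_surjective H₁)
      rw [← hc]
      exact Subgroup.Normal.conj_mem inferInstance y (Finset.mem_filter.1 hyN).2 c
  rw [← Set.ncard_coe_finset, he, CfsgLib.ClassSize.index_centralizer_eq_ncard, hcent y hy, hidx]

/-- Let K be a solvable normal subgroup of the finite group L of odd order and (S, τ, R) a coherence system from L to G with S the functions induced from non-principal irreducible characters of K; S(A) as before. Let M ≤ K be normal in L with K/M nilpotent, H₁ = [K, K] ⊔ M, H₁ < K < L, and suppose every element of K outside H₁ is centralised modulo H₁ only from inside K (L/H₁ is a Frobenius group with kernel K/H₁). Suppose one of the following: some normal subgroup of L lies strictly between H₁ and K; or [K:H₁] > 4[L:K]^2 + 1; or [K:M]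 is not a prime power; or [K,K] ≤ M; or [K:M] is a power of a prime p with [L:K] dividing p − 1. Then S(M) is coherent. -/
theorem result {L : Type*} [Group L] [Fintype L] {G : Type*} [Group G] [Fintype G] (K : Subgroup L) [hK : K.Normal] (hsolv : Group.IsSolvable K) (τ : (L → ℂ) → (G → ℂ)) (R : (L → ℂ) → Finset (G → ℂ)) (hS : Cfsg.IsCoherenceSystem (Cfsg.inducedIrrAbove K ⊥) τ R) (hodd : Odd (Nat.card L)) (M : Subgroup L) [M.Normal] (hMK : M ≤ K) [(M.subgroupOf K).Normal] (hnil : Group.IsNilpotent (↥K ⧸ M.subgroupOf K)) (H₁ : Subgroup L) (hH₁ : H₁ = ⁅K, K⁆ ⊔ M) (hH₁K : H₁ < K) (hKL : K < ⊤) (hfrob : ∀ k ∈ K, k ∉ H₁ → ∀ x : L, x * k * x⁻¹ * k⁻¹ ∈ H₁ → x ∈ K) (hgood : (∃ N : Subgroup L, N.Normal ∧ H₁ < N ∧ N < K) ∨ 4 * K.index ^ 2 + 1 < H₁.relIndex K ∨ (¬ ∃ p m : ℕ, p.Prime ∧ M.relIndex K = p ^ m) ∨ ⁅K, K⁆ ≤ M ∨ (∃ p m : ℕ, p.Prime ∧ M.relIndex K = p ^ m ∧ K.index ∣ p - 1)) : Cfsg.IsCoherent (Cfsg.inducedIrrAbove K M) {1}ᶜ τ := by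
  classical
  haveI := Fintype.ofFinite K
  subst hH₁
  set H₁ := ⁅K, K⁆ ⊔ M with hH₁def
  haveI hH₁n : H₁.Normal := inferInstance
  haveI hH₁' := CfsgLib.InducedAbove.normal_sub K H₁
  have hKK : ⁅K, K⁆ ≤ H₁ := le_sup_left
  -- the quotient `K / M` and its commutator subgroup
  haveI := hnil
  have hcomm : H₁.subgroupOf K = commutator K ⊔ M.subgroupOf K := by
    apply Subgroup.map_injective K.subtype_injective
    rw [Subgroup.map_sup, Subgroup.subgroupOf_map_subtype, Subgroup.subgroupOf_map_subtype,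
      inf_eq_left.2 hH₁K.le, inf_eq_left.2 hMK, Subgroup.map_subtype_commutator K]
  have hquot : (commutator (↥K ⧸ M.subgroupOf K)).index = H₁.relIndex K := by
    rw [Subgroup.relIndex, hcomm, ← Subgroup.index_map_eq (commutator K ⊔ M.subgroupOf K)
      (QuotientGroup.mk'_surjective (M.subgroupOf K)) (by rw [QuotientGroup.ker_mk']; exact le_sup_right),
      Subgroup.map_sup, QuotientGroup.map_mk'_self, sup_bot_eq, commutator_def, commutator_def,
      Subgroup.map_commutator, Subgroup.map_top_of_surjective _ (QuotientGroup.mk'_surjective _)]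
  -- coherence above `H₁`
  have hcohH₁ : Cfsg.IsCoherent (Cfsg.inducedIrrAbove K H₁) {1}ᶜ τ := by
    have hsub : Cfsg.inducedIrrAbove K H₁ ⊆ Cfsg.inducedIrrAbove K ⊥ := CfsgLib.InducedAbove.anti K bot_le
    have hspan : Cfsg.zspanOn (Cfsg.inducedIrrAbove K H₁) ({1}ᶜ : Set L) ⊆
        Cfsg.zspanOn (Cfsg.inducedIrrAbove K ⊥) ({1}ᶜ : Set L) := CfsgLib.Exceptional.zspanOn_mono hsub _
    obtain ⟨φ, hφ, -⟩ := CfsgLib.InducedAbove.exists_degree_index K hsolv H₁ hH₁K
    have hS' : Cfsg.IsCoherenceSystem (Cfsg.inducedIrrAbove K H₁) τ R :=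
      ⟨⟨φ, hφ⟩, fun χ h => hS.isCharacter χ (hsub h), fun χ h => CfsgLib.InducedAbove.conj_mem K H₁ h,
        fun χ h => hS.conj_ne χ (hsub h),
        ⟨fun α h β h' => hS.isometry.1 α (hspan h) β (hspan h'), fun α h m => hS.isometry.2.1 α (hspan h) m,
          fun α h β h' => hS.isometry.2.2.1 α (hspan h) β (hspan h'), fun α h => hS.isometry.2.2.2 α (hspan h)⟩,
        fun α h => hS.map_one α (hspan h), fun χ h ψ h' => hS.orthogonal χ (hsub h) ψ (hsub h'),
        fun χ h => hS.orthonormal χ (hsub h), fun χ h => hS.virtual χ (hsub h), fun χ h => hS.sum_eq χ (hsub h),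
        fun χ h ψ h' => hS.disjoint χ (hsub h) ψ (hsub h')⟩
    have hdeg : ∀ χ ∈ Cfsg.inducedIrrAbove K H₁, χ 1 = (K.index : ℂ) := by
      rintro χ ⟨θ, hθ, -, hk, rfl⟩
      obtain ⟨ψ, hψ⟩ := exists_quotient_irr ⟨θ, hθ⟩ (H₁.subgroupOf K) (fun a ha => hk a ha)
      haveI : IsMulCommutative (↥K ⧸ H₁.subgroupOf K) := ⟨⟨fun a b => by
        induction a using QuotientGroup.induction_on with
        | _ x =>
        induction b using QuotientGroup.induction_on with
        | _ y =>
          refine QuotientGroup.eq_iff_div_mem.2 (Subgroup.mem_subgroupOf.2 (hKK ?_))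
          have e : ((x * y / (y * x) : K) : L) = ⁅(x : L), (y : L)⁆ := by
            simp only [commutatorElement_def, div_eq_mul_inv, Subgroup.coe_mul, Subgroup.coe_inv]; group
          rw [e]
          exact Subgroup.commutator_mem_commutator x.2 y.2⟩⟩
      have h1 := charDegree_comm ψ.2
      have h2 : θ 1 = 1 := by
        rw [← show (ψ : ↥K ⧸ H₁.subgroupOf K → ℂ) ((1 : K) : ↥K ⧸ H₁.subgroupOf K) = θ 1 from hψ 1,
          QuotientGroup.mk_one, apply_one (isCharacter_of_irr ψ.2), h1, Nat.cast_one]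
      rw [indFun_apply_one, h2, mul_one]
    exact Cfsg.Agent.S1517.result _ τ R hS' fun χ h ψ h' => by rw [hdeg χ h, hdeg ψ h']
  have hne : ∀ U V : Subgroup L, U.relIndex V ≠ 0 := fun U V => Subgroup.index_ne_zero_of_finite
  have hbig : 4 * K.index ^ 2 + 1 < H₁.relIndex K → Cfsg.IsCoherent (Cfsg.inducedIrrAbove K M) {1}ᶜ τ :=
    fun h => Cfsg.Agent.S1520.result K hsolv τ R hS M H₁ K le_sup_right hH₁K.le le_rfl hnil hcohH₁ h
  have hab : ⁅K, K⁆ ≤ M → Cfsg.IsCoherent (Cfsg.inducedIrrAbove K M) {1}ᶜ τ := fun h => by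
    have e : H₁ = M := sup_eq_right.2 h
    rw [← e]
    exact hcohH₁
  have he1 : 1 < K.index := by
    have h1 : K.index ≠ 1 := fun h => hKL.ne (Subgroup.index_eq_one.1 h)
    have h2 : K.index ≠ 0 := Subgroup.index_ne_zero_of_finite
    omega
  have hodd_e : Odd K.index := hodd.of_dvd_nat (Subgroup.index_dvd_card K)
  have hoddrel : ∀ U V : Subgroup L, Odd (U.relIndex V) := fun U V =>
    hodd.of_dvd_nat ((Subgroup.index_dvd_card _).trans (Subgroup.card_subgroup_dvd_card V))
  have htwo : ∀ r : ℕ, 1 < r → Odd r → K.index ∣ r - 1 → 2 * K.index + 1 ≤ r := by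
    intro r hr hro hdvd
    obtain ⟨t, ht⟩ := hdvd
    obtain ⟨a, rfl⟩ := hro
    obtain ⟨b, hb⟩ := hodd_e
    rcases t with _ | _ | t
    · simp at ht; omega
    · simp at ht; omega
    · rw [hb] at ht ⊢
      nlinarith [ht, show 2 * a + 1 - 1 = 2 * a from rfl]
  have hchief : ∀ N : Subgroup L, N.Normal → H₁ < N → N < K →
      Cfsg.IsCoherent (Cfsg.inducedIrrAbove K M) {1}ᶜ τ := by
    intro N hN h1 h2
    have e := Subgroup.relIndex_mul_relIndex H₁ N K h1.le h2.le
    have hN1 : 1 < H₁.relIndex N := Nat.lt_of_le_of_ne (Nat.pos_of_ne_zero (hne H₁ N))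
      (fun h => h1.not_ge (Subgroup.relIndex_eq_one.1 h.symm))
    have hN2 : 1 < N.relIndex K := Nat.lt_of_le_of_ne (Nat.pos_of_ne_zero (hne N K))
      (fun h => h2.not_ge (Subgroup.relIndex_eq_one.1 h.symm))
    have d1 := index_dvd_sub_one K H₁ N hKK h1.le h2.le hfrob
    have d2 := index_dvd_sub_one K H₁ K hKK hH₁K.le le_rfl hfrob
    have d3 : K.index ∣ N.relIndex K - 1 := by
      rw [← e] at d2
      obtain ⟨a, ha⟩ := d1
      rw [show H₁.relIndex N * N.relIndex K - 1 = K.index * (a * N.relIndex K) + (N.relIndex K - 1) by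
        rw [← mul_assoc, ← ha, Nat.sub_mul, one_mul]
        have := Nat.le_mul_of_pos_left (N.relIndex K) (Nat.pos_of_ne_zero (hne H₁ N))
        omega] at d2
      exact (Nat.dvd_add_right (Dvd.intro _ rfl)).1 d2
    refine hbig ?_
    rw [← e]
    have b1 := htwo _ hN1 (hoddrel _ _) d1
    have b2 := htwo _ hN2 (hoddrel _ _) d3
    have := Nat.mul_le_mul b1 b2
    nlinarith
  have hH₁one : 1 < H₁.relIndex K := Nat.lt_of_le_of_ne (Nat.pos_of_ne_zero (hne H₁ K))
    (fun h => hH₁K.not_ge (Subgroup.relIndex_eq_one.1 h.symm))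
  rcases hgood with ⟨N, hN, h1, h2⟩ | h | h | h | ⟨p, m, hp, hpm, hdvd⟩
  · exact hchief N hN h1 h2
  · exact hbig h
  · -- two primes
    have hMrel : M.relIndex K = Nat.card (↥K ⧸ M.subgroupOf K) := Subgroup.index_eq_card _
    have hM1 : M.relIndex K ≠ 1 := fun h1 => h ⟨2, 0, Nat.prime_two, by rw [h1, pow_zero]⟩
    obtain ⟨p, hp, hpdvd⟩ := Nat.exists_prime_and_dvd hM1
    obtain ⟨q, hq, hqdvd, hqp⟩ : ∃ q, q.Prime ∧ q ∣ M.relIndex K ∧ q ≠ p := by
      by_contra hc
      push Not at hc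
      exact h ⟨p, _, hp, Nat.eq_prime_pow_of_unique_prime_dvd (hne M K) fun {q} hq hd => hc q hq hd⟩
    have hp' : p ∣ H₁.relIndex K := hquot ▸ dvd_index_commutator hp (hMrel ▸ hpdvd)
    have hq' : q ∣ H₁.relIndex K := hquot ▸ dvd_index_commutator hq (hMrel ▸ hqdvd)
    set c := p ^ (H₁.relIndex K).factorization p with hc
    have hcom : ∀ x ∈ K, ∀ y ∈ K, Commute (x : L ⧸ H₁) (y : L ⧸ H₁) := fun x hx y hy => by
      refine QuotientGroup.eq_iff_div_mem.2 (hKK ?_)
      have e : x * y / (y * x) = ⁅x, y⁆ := by simp only [commutatorElement_def, div_eq_mul_inv]; group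
      rw [e]
      exact Subgroup.commutator_mem_commutator hx hy
    let N : Subgroup L :=
      { carrier := {k | k ∈ K ∧ (k : L ⧸ H₁) ^ c = 1}
        mul_mem' := fun {x y} hx hy => ⟨K.mul_mem hx.1 hy.1, by
          rw [QuotientGroup.mk_mul, (hcom x hx.1 y hy.1).mul_pow, hx.2, hy.2, one_mul]⟩
        one_mem' := ⟨K.one_mem, by rw [QuotientGroup.mk_one, one_pow]⟩
        inv_mem' := fun {x} hx => ⟨K.inv_mem hx.1, by rw [QuotientGroup.mk_inv, inv_pow, hx.2, inv_one]⟩ }
    have hNn : N.Normal := ⟨fun k hk g => ⟨hK.conj_mem k hk.1 g, by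
      rw [QuotientGroup.mk_mul, QuotientGroup.mk_mul, QuotientGroup.mk_inv, conj_pow, hk.2]
      group⟩⟩
    have helt : ∀ r : ℕ, r.Prime → r ∣ H₁.relIndex K → ∃ k ∈ K, orderOf (k : L ⧸ H₁) = r := by
      intro r hr hrd
      haveI := Fact.mk hr
      have hcard : Nat.card ↥(K.map (QuotientGroup.mk' H₁)) = H₁.relIndex K := by
        rw [← Subgroup.relIndex_bot_left, ← QuotientGroup.map_mk'_self (N := H₁), Subgroup.relIndex_map_map,
          QuotientGroup.ker_mk', sup_idem, sup_eq_left.2 hH₁K.le]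
      obtain ⟨z, hz⟩ := exists_prime_orderOf_dvd_card' r (hcard ▸ hrd)
      obtain ⟨k, hk, hkz⟩ := Subgroup.mem_map.1 z.2
      exact ⟨k, hk, by rw [← hz, ← Subgroup.orderOf_coe z, ← hkz]; rfl⟩
    refine hchief N hNn (lt_of_le_of_ne (fun x hx => ⟨hH₁K.le hx, ?_⟩) ?_) (lt_of_le_of_ne (fun x hx => hx.1) ?_)
    · rw [(QuotientGroup.eq_one_iff x).2 hx, one_pow]
    · intro he
      obtain ⟨k, hk, hko⟩ := helt p hp hp'
      have hkN : k ∈ N := ⟨hk, orderOf_dvd_iff_pow_eq_one.1 (hko ▸ dvd_pow_self p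
        (Nat.pos_iff_ne_zero.1 (hp.factorization_pos_of_dvd (hne H₁ K) hp')))⟩
      rw [← he] at hkN
      rw [(QuotientGroup.eq_one_iff k).2 hkN, orderOf_one] at hko
      exact hp.ne_one hko.symm
    · intro he
      obtain ⟨k, hk, hko⟩ := helt q hq hq'
      rw [← he] at hk
      have := hq.dvd_of_dvd_pow (hko ▸ orderOf_dvd_of_pow_eq_one hk.2)
      exact hqp ((Nat.prime_dvd_prime_iff_eq hq hp).1 this)
  · exact hab h
  · by_cases hlarge : 4 * K.index ^ 2 + 1 < H₁.relIndex K
    · exact hbig hlarge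
    have hpK : H₁.relIndex K ∣ p ^ m := hpm ▸ Subgroup.relIndex_dvd_of_le_left K (le_sup_right : M ≤ H₁)
    obtain ⟨n, -, hn⟩ := (Nat.dvd_prime_pow hp).1 hpK
    have hp2 : 2 * K.index + 1 ≤ p := by
      refine htwo p hp.one_lt ?_ hdvd
      refine Odd.of_dvd_nat (hoddrel H₁ K) ?_
      rw [hn] at hH₁one ⊢
      exact dvd_pow_self p (by rintro rfl; simp at hH₁one)
    have hn1 : n = 1 := by
      rcases n with _ | _ | n
      · simp [hn] at hH₁one
      · rfl
      · exfalso
        apply hlarge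
        rw [hn]
        have h2 : p ^ 2 ≤ p ^ (n + 1 + 1) := Nat.pow_le_pow_right hp.pos (by omega)
        nlinarith
    rw [hn1, pow_one] at hn
    have hbot := commutator_eq_bot hp (hquot.trans hn)
    refine hab ?_
    rw [← Subgroup.map_subtype_commutator K]
    rintro _ ⟨x, hx, rfl⟩
    have h1 : QuotientGroup.mk' (M.subgroupOf K) x ∈ commutator (↥K ⧸ M.subgroupOf K) := by
      rw [commutator_def]
      have h2 := Subgroup.mem_map_of_mem (QuotientGroup.mk' (M.subgroupOf K)) hx
      rw [commutator_def, Subgroup.map_commutator] at h2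
      exact Subgroup.commutator_mono le_top le_top h2
    rw [hbot, Subgroup.mem_bot] at h1
    exact Subgroup.mem_subgroupOf.1 ((QuotientGroup.eq_one_iff x).1 h1)

end Cfsg.Agent.S1521
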