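import Cfsg.Statements.S1523
import Cfsg.Agent.OddCoh.Congr

set_option autoImplicit false
open Cfsg

namespace Cfsg.Agent.S1523

/-- Let G be a finite group, p a prime, P a Sylow p-subgroup whose underlying set is a TI-subset of G, with L the set normaliser of P of odd order. Let Z ≠ ⊥ be a subgroup of P, normal in L and central in P, such that the centralisers in L of any two non-identity elements of Z have the same order. If ψ is an irreducible character of G taking the same value at all non-identity elements of Z, then for z ∈ Z, z ≠ 1, the value ψ z is an integer n with Nat.card P dividing ψ(1) − n (as integers, ψ 1 being the degree). -/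
theorem result {G : Type*} [Group G] [Finite G] (p : ℕ) [Fact p.Prime] (P : Sylow p G) (hTI : Cfsg.IsTISubset ((P : Subgroup G) : Set G)) (hodd : Odd (Nat.card (Subgroup.normalizer ((P : Subgroup G) : Set G)))) (Z : Subgroup G) (hZ1 : Z ≠ ⊥) (hZP : Z ≤ P) (hZn : ∀ x ∈ Subgroup.normalizer ((P : Subgroup G) : Set G), ∀ z ∈ Z, x * z * x⁻¹ ∈ Z) (hZc : ∀ z ∈ Z, ∀ y ∈ (P : Subgroup G), z * y = y * z) (hCL : ∀ z ∈ Z, ∀ z' ∈ Z, z ≠ 1 → z' ≠ 1 → Nat.card ↥(Subgroup.normalizer ((P : Subgroup G) : Set G) ⊓ Subgroup.centralizer ({z} : Set G)) = Nat.card ↥(Subgroup.normalizer ((P : Subgroup G) : Set G) ⊓ Subgroup.centralizer ({z'} : Set G))) (ψ : G → ℂ) (hψ : Cfsg.IsIrrCharacter G ψ) (hconst : ∀ z ∈ Z, ∀ z' ∈ Z, z ≠ 1 → z' ≠ 1 → ψ z = ψ z') (z : G) (hz : z ∈ Z) (hz1 : z ≠ 1) : ∃ n d : ℤ, ψ z = n ∧ ψ 1 = d ∧ (Nat.card (P : Subgroup G) : ℤ) ∣ d - n := by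
  classical
  haveI := Fintype.ofFinite G
  refine CfsgLib.OddCoh.value_congr (P : Subgroup G) _ Z Subgroup.le_normalizer hodd ?_ hTI hZP hZn hZc hψ hz hz1
    (fun w hw hw1 => hconst w hw z hz hw1 hz1)
  refine Nat.Coprime.coprime_dvd_right (Subgroup.relIndex_dvd_index_of_le Subgroup.le_normalizer) ?_
  obtain ⟨n, hn⟩ := IsPGroup.iff_card.1 P.2
  rw [hn]
  exact Nat.Coprime.pow_left n ((Fact.out : p.Prime).coprime_iff_not_dvd.2 P.not_dvd_index)

end Cfsg.Agent.S1523
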