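import Cfsg.Statements.S1531
import Cfsg.Agent.Exceptional.Coherent
import Cfsg.Agent.Exceptional.Bessel

set_option autoImplicit false
open Cfsg

namespace Cfsg.Agent.S1531

/-- Let N be a subgroup of the finite group G, S a set of irreducible characters of N, and α a linear isometry on the integer combinations of S vanishing at 1 with values virtual characters of G vanishing at 1. Let X, Y ⊆ S be disjoint, each with at least two members, and σ, τ linear isometries on ℤ[X], ℤ[Y] into virtual characters agreeing with α on the members vanishing at 1. Then ⟨σ χ, τ η⟩ = 0 for χ ∈ X, η ∈ Y; and if for some χ₀ ∈ X, η₀ ∈ Y with degrees c = χ₀ 1, e = η₀ 1 one has α (c • η₀ − e • χ₀) = c • τ η₀ − e • σ χ₀, then (X ∪ Y, N minus 1, α) is coherent. -/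
theorem result {G : Type*} [Group G] [Fintype G] (N : Subgroup G) [Fintype N] (S X Y : Set (N → ℂ)) (hirr : ∀ ξ ∈ S, Cfsg.IsIrrCharacter N ξ) (hXS : X ⊆ S) (hYS : Y ⊆ S) (hXY : Disjoint X Y) (hX2 : ∃ a ∈ X, ∃ b ∈ X, a ≠ b) (hY2 : ∃ a ∈ Y, ∃ b ∈ Y, a ≠ b) (α : (N → ℂ) → (G → ℂ)) (hα : Cfsg.IsLinearIsometryOn (Cfsg.zspanOn S {1}ᶜ) α) (hα1 : ∀ θ ∈ Cfsg.zspanOn S {1}ᶜ, α θ 1 = 0) (σ τ : (N → ℂ) → (G → ℂ)) (hσ : Cfsg.IsLinearIsometryOn (Cfsg.zspan X) σ) (hσα : ∀ θ ∈ Cfsg.zspanOn X {1}ᶜ, σ θ = α θ) (hτ : Cfsg.IsLinearIsometryOn (Cfsg.zspan Y) τ) (hτα : ∀ θ ∈ Cfsg.zspanOn Y {1}ᶜ, τ θ = α θ) : (∀ χ ∈ X, ∀ η ∈ Y, Cfsg.classInner (σ χ) (τ η) = 0) ∧ ((∃ χ₀ ∈ X, ∃ η₀ ∈ Y, α (χ₀ 1 • η₀ - η₀ 1 • χ₀) = χ₀ 1 • τ η₀ - η₀ 1 • σ χ₀) → Cfsg.IsCoherent (X ∪ Y) {1}ᶜ α) := by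
  classical
  have hiS : ∀ χ ∈ X, Cfsg.IsIrrCharacter N χ := fun χ h => hirr χ (hXS h)
  have hiY : ∀ η ∈ Y, Cfsg.IsIrrCharacter N η := fun η h => hirr η (hYS h)
  have hnX : ∀ χ ∈ X, Cfsg.classInner (σ χ) (σ χ) = 1 := fun χ h => by
    rw [hσ.2.2.1 χ (Submodule.subset_span h) χ (Submodule.subset_span h), CfsgLib.CharBasics.classInner_self (hiS χ h)]
  have hnY : ∀ η ∈ Y, Cfsg.classInner (τ η) (τ η) = 1 := fun η h => by
    rw [hτ.2.2.1 η (Submodule.subset_span h) η (Submodule.subset_span h), CfsgLib.CharBasics.classInner_self (hiY η h)]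
  let d : (N → ℂ) → ℕ := Cfsg.charDegree
  have hd : ∀ ξ ∈ S, ξ 1 = ((d ξ : ℤ) : ℂ) := fun ξ h => by
    rw [CfsgLib.CharBasics.apply_one (CfsgLib.CharBasics.isCharacter_of_irr (hirr ξ h))]; simp [d]
  have hd0 : ∀ ξ ∈ S, 0 < d ξ := fun ξ h => CfsgLib.CharBasics.charDegree_pos (hirr ξ h)
  have hmem : ∀ Z : Set (N → ℂ), Z ⊆ S → ∀ p ∈ Z, ∀ q ∈ Z,
      (d q : ℤ) • p - (d p : ℤ) • q ∈ CfsgLib.Exceptional.onSub Z ({1}ᶜ : Set N) := fun Z hZ p hp q hq =>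
    CfsgLib.Exceptional.mem_on_one.2 ⟨sub_mem (S := Submodule ℤ (N → ℂ))
      (Submodule.smul_mem _ _ (Submodule.subset_span hp)) (Submodule.smul_mem _ _ (Submodule.subset_span hq)),
      by simp [hd p (hZ hp), hd q (hZ hq), mul_comm]⟩
  have hαX := CfsgLib.Exceptional.zspanOn_mono hXS ({1}ᶜ : Set N)
  have hαY := CfsgLib.Exceptional.zspanOn_mono hYS ({1}ᶜ : Set N)
  have hσ' : Cfsg.IsLinearIsometryOn ((Submodule.span ℤ X : Submodule ℤ (N → ℂ)) : Set (N → ℂ)) σ := hσ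
  have hτ' : Cfsg.IsLinearIsometryOn ((Submodule.span ℤ Y : Submodule ℤ (N → ℂ)) : Set (N → ℂ)) τ := hτ
  have eX : ∀ p ∈ X, ∀ q ∈ X, α ((d q : ℤ) • p - (d p : ℤ) • q) = (d q : ℤ) • σ p - (d p : ℤ) • σ q := by
    intro p hp q hq
    have h1 : (d q : ℤ) • p ∈ Submodule.span ℤ X := Submodule.smul_mem _ _ (Submodule.subset_span hp)
    have h2 : (d p : ℤ) • q ∈ Submodule.span ℤ X := Submodule.smul_mem _ _ (Submodule.subset_span hq)
    rw [← hσα _ (hmem X hXS p hp q hq), CfsgLib.Exceptional.iso_sub hσ' h1 h2,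
      CfsgLib.Exceptional.iso_zsmul hσ' (Submodule.subset_span hp), CfsgLib.Exceptional.iso_zsmul hσ' (Submodule.subset_span hq)]
  have eY : ∀ p ∈ Y, ∀ q ∈ Y, α ((d q : ℤ) • p - (d p : ℤ) • q) = (d q : ℤ) • τ p - (d p : ℤ) • τ q := by
    intro p hp q hq
    have h1 : (d q : ℤ) • p ∈ Submodule.span ℤ Y := Submodule.smul_mem _ _ (Submodule.subset_span hp)
    have h2 : (d p : ℤ) • q ∈ Submodule.span ℤ Y := Submodule.smul_mem _ _ (Submodule.subset_span hq)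
    rw [← hτα _ (hmem Y hYS p hp q hq), CfsgLib.Exceptional.iso_sub hτ' h1 h2,
      CfsgLib.Exceptional.iso_zsmul hτ' (Submodule.subset_span hp), CfsgLib.Exceptional.iso_zsmul hτ' (Submodule.subset_span hq)]
  have orthXY : ∀ χ ∈ X, ∀ η ∈ Y, Cfsg.classInner (σ χ) (τ η) = 0 := by
    intro a ha c hc
    obtain ⟨b, hb, hba⟩ : ∃ b ∈ X, b ≠ a := by
      obtain ⟨p, hp, q, hq, hpq⟩ := hX2
      by_cases h : p = a
      · exact ⟨q, hq, fun h' => hpq (h.trans h'.symm)⟩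
      · exact ⟨p, hp, h⟩
    obtain ⟨e, he, hec⟩ : ∃ e ∈ Y, e ≠ c := by
      obtain ⟨p, hp, q, hq, hpq⟩ := hY2
      by_cases h : p = c
      · exact ⟨q, hq, fun h' => hpq (h.trans h'.symm)⟩
      · exact ⟨p, hp, h⟩
    obtain ⟨m, hm, hcase⟩ := CfsgLib.Exceptional.norm_one_dichotomy (hσ.2.2.2 a (Submodule.subset_span ha))
      (hτ.2.2.2 c (Submodule.subset_span hc)) (hnX a ha) (hnY c hc)
    rcases hcase with h0 | ⟨hm1, hac, hca⟩
    · rw [hm, h0, Int.cast_zero]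
    exfalso
    obtain ⟨m', hm', hcase'⟩ := CfsgLib.Exceptional.norm_one_dichotomy (hσ.2.2.2 b (Submodule.subset_span hb))
      (hτ.2.2.2 e (Submodule.subset_span he)) (hnX b hb) (hnY e he)
    have hbc : Cfsg.classInner (σ b) (τ c) = 0 := by
      rw [hca, CfsgLib.Exceptional.classInner_smul_right, hσ.2.2.1 b (Submodule.subset_span hb) a (Submodule.subset_span ha),
        CfsgLib.CharBasics.classInner_ne (hiS b hb) (hiS a ha) hba, mul_zero]
    have hae : Cfsg.classInner (σ a) (τ e) = 0 := by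
      rw [hac, CfsgLib.CharBasics.classInner_smul_left, hτ.2.2.1 c (Submodule.subset_span hc) e (Submodule.subset_span he),
        CfsgLib.CharBasics.classInner_ne (hiY c hc) (hiY e he) hec.symm, mul_zero]
    have hne : ∀ p ∈ X, ∀ q ∈ Y, Cfsg.classInner p q = 0 := fun p hp q hq =>
      CfsgLib.CharBasics.classInner_ne (hiS p hp) (hiY q hq) fun h => Set.disjoint_left.1 hXY hp (h ▸ hq)
    have hinner := hα.2.2.1 _ (hαX (hmem X hXS a ha b hb)) _ (hαY (hmem Y hYS c hc e he))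
    rw [eX a ha b hb, eY c hc e he] at hinner
    simp only [CfsgLib.Exceptional.classInner_sub_left, CfsgLib.Exceptional.classInner_sub_right,
      CfsgLib.Exceptional.classInner_zsmul_left, CfsgLib.Exceptional.classInner_zsmul_right, hm, hm', hbc, hae,
      hne a ha c hc, hne a ha e he, hne b hb c hc, hne b hb e he, mul_zero, sub_zero, zero_sub, sub_neg_eq_add] at hinner
    have hinner0 : (d e : ℤ) * ((d b : ℤ) * m) - (d c : ℤ) * -((d a : ℤ) * m') = 0 := by exact_mod_cast hinner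
    have hinner' : (d b : ℤ) * ((d e : ℤ) * m) + (d a : ℤ) * ((d c : ℤ) * m') = 0 := by
      linear_combination hinner0
    have hA := hd0 a (hXS ha); have hB := hd0 b (hXS hb); have hC := hd0 c (hYS hc); have hE := hd0 e (hYS he)
    rcases hcase' with h0 | ⟨-, hbe, -⟩
    · rw [h0, mul_zero, mul_zero, add_zero] at hinner'
      rcases hm1 with h | h <;> rw [h] at hinner' <;> nlinarith [Nat.mul_pos hB hE]
    obtain ⟨T, hT, hT'⟩ : ∃ T : ℤ, T ≠ 0 ∧ τ c 1 = (T : ℂ) := by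
      rcases CfsgLib.Exceptional.norm_one_cases (hτ.2.2.2 c (Submodule.subset_span hc)) (hnY c hc) with h | h
      · obtain ⟨k, hk, hk'⟩ := CfsgLib.Exceptional.degree_eq (⟨_, h⟩ : Cfsg.IrrCharacter G)
        exact ⟨k, by omega, by simpa using hk'⟩
      · obtain ⟨k, hk, hk'⟩ := CfsgLib.Exceptional.degree_eq (⟨_, h⟩ : Cfsg.IrrCharacter G)
        refine ⟨-k, by omega, ?_⟩
        simp only [Pi.neg_apply] at hk'
        rw [← neg_neg (τ c 1), hk']; simp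
    have z1 := hα1 _ (hαX (hmem X hXS a ha b hb))
    have z2 := hα1 _ (hαY (hmem Y hYS c hc e he))
    rw [eX a ha b hb] at z1
    rw [eY c hc e he] at z2
    simp only [Pi.sub_apply, Pi.smul_apply] at z1 z2
    rw [hac, hbe] at z1
    simp only [Pi.smul_apply, zsmul_eq_mul, smul_eq_mul, hT', Int.cast_natCast] at z1 z2
    have z3 : (((d b : ℤ) * m * d c - d a * m' * d e : ℤ) : ℂ) * T = 0 := by
      push_cast
      linear_combination (d c : ℂ) * z1 - (d a : ℂ) * (m' : ℂ) * z2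
    have z4 : (d b : ℤ) * m * d c - d a * m' * d e = 0 := by
      have := (mul_eq_zero.1 z3).resolve_right (Int.cast_ne_zero.2 hT)
      exact_mod_cast this
    have z5 : (d a : ℤ) * m' * ((d c : ℤ) ^ 2 + (d e : ℤ) ^ 2) = 0 := by
      linear_combination (d c : ℤ) * hinner' - (d e : ℤ) * z4
    have hm'0 : m' ≠ 0 := fun h => by
      rw [h, mul_zero, mul_zero, add_zero] at hinner'
      rcases hm1 with h | h <;> rw [h] at hinner' <;> nlinarith [Nat.mul_pos hB hE]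
    have hpos : (0 : ℤ) < (d c : ℤ) ^ 2 + (d e : ℤ) ^ 2 := by
      have : (0 : ℤ) < d c := by exact_mod_cast hC
      positivity
    rcases mul_eq_zero.1 z5 with h | h
    · rcases mul_eq_zero.1 h with h | h
      · omega
      · exact hm'0 h
    · omega
  refine ⟨orthXY, fun hyp => ?_⟩
  obtain ⟨χ₀, hχ₀, η₀, hη₀, hE⟩ := hyp
  have hXYS : X ∪ Y ⊆ S := Set.union_subset hXS hYS
  have horth : CfsgLib.Exceptional.OrthoSet (X ∪ Y) :=
    CfsgLib.Exceptional.OrthoSet.of_irr fun ξ h => hirr ξ (hXYS h)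
  obtain ⟨F, hF⟩ : ∃ F : Finset (N → ℂ), (↑F : Set (N → ℂ)) = X ∪ Y :=
    ⟨horth.finite.toFinset, horth.finite.coe_toFinset⟩
  have hmF : ∀ ξ, ξ ∈ F ↔ ξ ∈ X ∨ ξ ∈ Y := fun ξ => by rw [← Finset.mem_coe, hF, Set.mem_union]
  rw [← hF] at horth ⊢
  have hFS : (↑F : Set (N → ℂ)) ⊆ S := hF ▸ hXYS
  have hiso := CfsgLib.Exceptional.isometry_mono hα (CfsgLib.Exceptional.zspanOn_mono hFS ({1}ᶜ : Set N))
  refine CfsgLib.Exceptional.coherent_of horth d (fun ξ h => by rw [hd ξ (hFS h)]; simp) ((hmF χ₀).2 (Or.inl hχ₀))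
    (hd0 χ₀ (hXS hχ₀)).ne' ⟨η₀, (hmF η₀).2 (Or.inr hη₀), fun h => Set.disjoint_left.1 hXY hχ₀ (h ▸ hη₀)⟩ α hiso
    (fun ξ => if ξ ∈ X then σ ξ else τ ξ) ?_ ?_ ?_
  · intro ξ hξ
    split_ifs with h
    · exact hσ.2.2.2 ξ (Submodule.subset_span h)
    · exact hτ.2.2.2 ξ (Submodule.subset_span (((hmF ξ).1 hξ).resolve_left h))
  · intro ξ hξ φ hφ
    split_ifs with h1 h2 h2
    · exact hσ.2.2.1 ξ (Submodule.subset_span h1) φ (Submodule.subset_span h2)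
    · have hφY := ((hmF φ).1 hφ).resolve_left h2
      rw [orthXY ξ h1 φ hφY, CfsgLib.CharBasics.classInner_ne (hiS ξ h1) (hiY φ hφY) fun h => h2 (h ▸ h1)]
    · have hξY := ((hmF ξ).1 hξ).resolve_left h1
      rw [CfsgLib.CharBasics.classInner_comm (σ φ), orthXY φ h2 ξ hξY, map_zero,
        CfsgLib.CharBasics.classInner_ne (hiY ξ hξY) (hiS φ h2) fun h => h1 (h ▸ h2)]
    · exact hτ.2.2.1 ξ (Submodule.subset_span (((hmF ξ).1 hξ).resolve_left h1)) φ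
        (Submodule.subset_span (((hmF φ).1 hφ).resolve_left h2))
  · intro ξ hξ hne
    rw [if_pos hχ₀]
    split_ifs with h
    · exact eX ξ h χ₀ hχ₀
    · have hξY := ((hmF ξ).1 hξ).resolve_left h
      rw [hd χ₀ (hXS hχ₀), hd η₀ (hYS hη₀)] at hE
      simp only [Int.cast_smul_eq_zsmul] at hE
      have hz : (d η₀ : ℤ) ≠ 0 := by have := hd0 η₀ (hYS hη₀); omega
      refine smul_right_injective (G → ℂ) hz ?_
      have hα' : Cfsg.IsLinearIsometryOn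
          ((CfsgLib.Exceptional.onSub S ({1}ᶜ : Set N) : Submodule ℤ (N → ℂ)) : Set (N → ℂ)) α := hα
      have m1 := hmem S subset_rfl ξ (hYS hξY) χ₀ (hXS hχ₀)
      have m2 := hmem S subset_rfl ξ (hYS hξY) η₀ (hYS hη₀)
      have m3 := hmem S subset_rfl η₀ (hYS hη₀) χ₀ (hXS hχ₀)
      have e0 : (d η₀ : ℤ) • ((d χ₀ : ℤ) • ξ - (d ξ : ℤ) • χ₀)
          = (d χ₀ : ℤ) • ((d η₀ : ℤ) • ξ - (d ξ : ℤ) • η₀) + (d ξ : ℤ) • ((d χ₀ : ℤ) • η₀ - (d η₀ : ℤ) • χ₀) := by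
        module
      show (d η₀ : ℤ) • α _ = (d η₀ : ℤ) • ((d χ₀ : ℤ) • τ ξ - (d ξ : ℤ) • σ χ₀)
      rw [← CfsgLib.Exceptional.iso_zsmul hα' m1, e0,
        hα'.1 _ (Submodule.smul_mem _ _ m2) _ (Submodule.smul_mem _ _ m3),
        CfsgLib.Exceptional.iso_zsmul hα' m2, CfsgLib.Exceptional.iso_zsmul hα' m3, eY ξ hξY η₀ hη₀, hE]
      module

end Cfsg.Agent.S1531
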