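import Cfsg.Statements.S1536
import Cfsg.Agent.Clifford.Basic
import Cfsg.Agent.Clifford.BrauerPerm

set_option autoImplicit false
open Cfsg CfsgLib CfsgLib.CharBasics

namespace Cfsg.Agent.S1536

/-- Let H be a normal subgroup of the finite group M whose order is coprime to its index. For x ∈ M: some non-principal irreducible character of H is unchanged under h ↦ θ(x h x⁻¹) if and only if some non-identity element of H commutes with x. -/
theorem result {M : Type*} [Group M] [Finite M] (H : Subgroup M) [hN : H.Normal] (hHall : Nat.Coprime (Nat.card H) H.index) (x : M) : (∃ θ : H → ℂ, Cfsg.IsIrrCharacter H θ ∧ θ ≠ (fun _ => 1) ∧ (fun h : H => θ ⟨x * h * x⁻¹, hN.conj_mem h h.2 x⟩) = θ) ↔ ∃ h ∈ H, h ≠ 1 ∧ x * h = h * x := by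
  classical
  have := Fintype.ofFinite M
  let c : MulAut H := MulAut.conjNormal x
  let τ : ConjClasses H ≃ ConjClasses H :=
    { toFun := ConjClasses.map c.toMonoidHom
      invFun := ConjClasses.map c.symm.toMonoidHom
      left_inv := fun C => by
        obtain ⟨a, rfl⟩ := ConjClasses.exists_rep C
        exact congrArg ConjClasses.mk (c.symm_apply_apply a)
      right_inv := fun C => by
        obtain ⟨a, rfl⟩ := ConjClasses.exists_rep C
        exact congrArg ConjClasses.mk (c.apply_symm_apply a) }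
  let σ : IrrCharacter H ≃ IrrCharacter H :=
    { toFun := fun θ => ⟨Clifford.conjFun x⁻¹ (θ : H → ℂ), Clifford.isIrrCharacter_conjFun x⁻¹ θ.2⟩
      invFun := fun θ => ⟨Clifford.conjFun x (θ : H → ℂ), Clifford.isIrrCharacter_conjFun x θ.2⟩
      left_inv := fun θ => Subtype.ext (by
        show Clifford.conjFun x (Clifford.conjFun x⁻¹ (θ : H → ℂ)) = _
        rw [Clifford.conjFun_mul, inv_mul_cancel, Clifford.conjFun_one])
      right_inv := fun θ => Subtype.ext (Clifford.conjFun_inv_cancel x _) }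
  have hbr := Clifford.brauer_perm σ τ fun θ n n' hn => by
    have he : ConjClasses.mk n' = ConjClasses.mk (c n) := hn
    rw [ConjClasses.mk_eq_mk_iff_isConj] at he
    rw [apply_isConj (isCharacter_of_irr (σ θ).2) he]
    exact congrArg (θ : H → ℂ) (Subtype.ext (by simp [c, MulAut.conjNormal_apply, mul_assoc]))
  have hfix : ∀ θ : IrrCharacter H, σ θ = θ ↔ Clifford.conjFun x (θ : H → ℂ) = θ := fun θ =>
    ⟨fun h => congrArg Subtype.val (((Equiv.symm_apply_eq σ).2 h.symm)),
      fun h => ((Equiv.symm_apply_eq σ).1 (Subtype.ext h)).symm⟩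
  have h1c : τ (ConjClasses.mk 1) = ConjClasses.mk 1 := congrArg ConjClasses.mk (map_one c)
  have h1σ : σ oneChar = oneChar := Subtype.ext rfl
  constructor
  · rintro ⟨θ, hθ, hne, hinv⟩
    have hlt : 1 < Nat.card {C : ConjClasses H // τ C = C} := by
      rw [← hbr, Finite.one_lt_card_iff_nontrivial]
      exact nontrivial_of_ne ⟨⟨θ, hθ⟩, (hfix _).2 hinv⟩ ⟨oneChar, h1σ⟩
        fun h => hne (congrArg (fun t => (t.1 : IrrCharacter H).1) h)
    rw [Finite.one_lt_card_iff_nontrivial] at hlt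
    obtain ⟨⟨C, hC⟩, hCne⟩ := exists_ne (⟨ConjClasses.mk 1, h1c⟩ : {C : ConjClasses H // τ C = C})
    obtain ⟨h, rfl⟩ := ConjClasses.exists_rep C
    by_contra hno
    push Not at hno
    have hh : (h : M) ≠ 1 := fun e => hCne (Subtype.ext (congrArg ConjClasses.mk (Subtype.ext e)))
    have hconj : IsConj h (c h) := (ConjClasses.mk_eq_mk_iff_isConj.1 (hC : ConjClasses.mk (c h) = _)).symm
    obtain ⟨k, hk⟩ := isConj_iff.1 hconj
    have hk' : (k : M) * h * (k : M)⁻¹ = x * h * x⁻¹ := congrArg Subtype.val hk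
    have hinj : Function.Injective fun m : H => (⟨m * (x * (m : M)⁻¹ * x⁻¹), H.mul_mem m.2
        (hN.conj_mem _ (H.inv_mem m.2) x)⟩ : H) := by
      intro a b hab
      have hab' : (a : M) * (x * (a : M)⁻¹ * x⁻¹) = b * (x * (b : M)⁻¹ * x⁻¹) := congrArg Subtype.val hab
      by_contra hne
      refine hno ((b⁻¹ * a : H) : M) (b⁻¹ * a).2 (fun e => hne (inv_mul_eq_one.1 (Subtype.ext e : b⁻¹ * a = 1)).symm) ?_
      push_cast
      calc x * ((b : M)⁻¹ * a) = (b : M)⁻¹ * (b * (x * (b : M)⁻¹ * x⁻¹)) * x * a := by group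
        _ = (b : M)⁻¹ * a * x := by rw [← hab']; group
    obtain ⟨m, hm⟩ := (Finite.injective_iff_surjective.1 hinj) k⁻¹
    have hm' : (m : M) * (x * (m : M)⁻¹ * x⁻¹) = (k : M)⁻¹ := congrArg Subtype.val hm
    have hcomm : (k : M)⁻¹ * x * h = h * ((k : M)⁻¹ * x) := by
      calc (k : M)⁻¹ * x * h = (k : M)⁻¹ * (x * h * x⁻¹) * x := by group
        _ = h * ((k : M)⁻¹ * x) := by rw [← hk']; group
    rw [show (k : M)⁻¹ * x = m * x * (m : M)⁻¹ by rw [← hm']; group] at hcomm
    refine hno ((m⁻¹ * h * m : H) : M) (m⁻¹ * h * m).2 ?_ ?_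
    · intro e
      refine hh ?_
      push_cast at e
      rw [show (h : M) = m * ((m : M)⁻¹ * h * m) * (m : M)⁻¹ by group, e]
      group
    · push_cast
      calc x * ((m : M)⁻¹ * h * m) = (m : M)⁻¹ * (m * x * (m : M)⁻¹ * h) * m := by group
        _ = (m : M)⁻¹ * h * m * x := by rw [hcomm]; group
  · rintro ⟨h, hh, hh1, hcomm⟩
    have hlt : 1 < Nat.card {θ : IrrCharacter H // σ θ = θ} := by
      rw [hbr, Finite.one_lt_card_iff_nontrivial]
      refine nontrivial_of_ne ⟨ConjClasses.mk ⟨h, hh⟩, congrArg ConjClasses.mk (Subtype.ext ?_)⟩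
        ⟨ConjClasses.mk 1, h1c⟩ fun e => hh1 ?_
      · show ((c ⟨h, hh⟩ : H) : M) = h
        rw [show ((c ⟨h, hh⟩ : H) : M) = x * h * x⁻¹ from MulAut.conjNormal_apply x _, hcomm, mul_inv_cancel_right]
      · have := ConjClasses.mk_eq_mk_iff_isConj.1 (congrArg Subtype.val e)
        exact congrArg Subtype.val (isConj_one_left.1 this)
    rw [Finite.one_lt_card_iff_nontrivial] at hlt
    obtain ⟨⟨θ, hθ⟩, hne⟩ := exists_ne (⟨oneChar, h1σ⟩ : {θ : IrrCharacter H // σ θ = θ})
    exact ⟨θ, θ.2, fun e => hne (Subtype.ext (Subtype.ext e)), (hfix θ).1 hθ⟩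

end Cfsg.Agent.S1536
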