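import Cfsg.Statements.S1545
import Cfsg.Agent.WielandtFormula.Formula


set_option autoImplicit false
open Cfsg

namespace Cfsg.Agent.S1545

/-- Let X be a finite group with subgroups U, E and H such that U and E generate a subgroup UE = U ⊔ E normalising H, with U normal in UE, U ⊓ E = ⊥, U ≠ ⊥, E ≠ ⊥, every non-identity element of E commuting with no non-identity element of U (UE is a Frobenius group with kernel U acting on H by conjugation), H solvable, H ⊓ (U ⊔ E) = ⊥ and the orders of H and U ⊔ E coprime. Then Nat.card (H ⊓ C(U ⊔ E)) ^ Nat.card E * Nat.card H = Nat.card (H ⊓ C(E)) ^ Nat.card E * Nat.card (H ⊓ C(U)), where C(·) denotes the centraliser. -/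
theorem result {X : Type*} [Group X] [Finite X] (U E H : Subgroup X) (hU1 : U ≠ ⊥) (hE1 : E ≠ ⊥) (hUE : U ⊓ E = ⊥) (hUn : ∀ e ∈ E, ∀ u ∈ U, e * u * e⁻¹ ∈ U) (hfpf : ∀ e ∈ E, e ≠ 1 → ∀ u ∈ U, e * u = u * e → u = 1) (hHn : ∀ x ∈ U ⊔ E, ∀ h ∈ H, x * h * x⁻¹ ∈ H) (hdisj : H ⊓ (U ⊔ E) = ⊥) (hsolv : Group.IsSolvable H) (hcop : Nat.Coprime (Nat.card H) (Nat.card ↥(U ⊔ E))) : Nat.card ↥(H ⊓ Subgroup.centralizer ((U ⊔ E : Subgroup X) : Set X)) ^ Nat.card E * Nat.card H = Nat.card ↥(H ⊓ Subgroup.centralizer (E : Set X)) ^ Nat.card E * Nat.card ↥(H ⊓ Subgroup.centralizer (U : Set X)) := by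
  classical
  haveI := hsolv
  let φ : ↥(U ⊔ E : Subgroup X) →* MulAut H :=
    { toFun := fun g =>
        { toFun := fun h => ⟨(g : X) * h * (g : X)⁻¹, hHn g g.2 h h.2⟩
          invFun := fun h => ⟨(g : X)⁻¹ * h * (g : X), by
            simpa using hHn (g : X)⁻¹ ((U ⊔ E).inv_mem g.2) h h.2⟩
          left_inv := fun h => Subtype.ext (by simp [mul_assoc])
          right_inv := fun h => Subtype.ext (by simp [mul_assoc])
          map_mul' := fun a b => Subtype.ext (by simp [mul_assoc]) }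
      map_one' := MulEquiv.ext fun h => Subtype.ext (by simp)
      map_mul' := fun a b => MulEquiv.ext fun h => Subtype.ext (by simp [mul_assoc]) }
  have hUE : U ≤ U ⊔ E := le_sup_left
  have hEU : E ≤ U ⊔ E := le_sup_right
  haveI : (U.subgroupOf (U ⊔ E)).Normal := Subgroup.normal_subgroupOf_of_le_normalizer
    (sup_le Subgroup.le_normalizer (Subgroup.le_normalizer_iff.2 fun e he u hu => hUn e he u hu))
  have key := CfsgLib.WielandtFP.holds_of_solvable (U.subgroupOf (U ⊔ E)) (E.subgroupOf (U ⊔ E))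
    (eq_bot_iff.2 fun x hx => Subgroup.mem_bot.2 (Subtype.ext (Subgroup.mem_bot.1 ((show U ⊓ E = ⊥ from by assumption) ▸ Subgroup.mem_inf.2 ⟨(Subgroup.mem_inf.1 hx).1, (Subgroup.mem_inf.1 hx).2⟩))))
    (by rw [← Subgroup.subgroupOf_sup hUE hEU, Subgroup.subgroupOf_self])
    (fun e he he1 u hu h => Subtype.ext (hfpf e he (fun h' => he1 (Subtype.ext h')) u hu (congrArg Subtype.val h)))
    (Nat.card H) H rfl hcop.symm φ
  have hfix : ∀ S : Subgroup X, S ≤ U ⊔ E →
      Nat.card (CfsgLib.WielandtFP.fixS φ (S.subgroupOf (U ⊔ E))) = Nat.card ↥(H ⊓ Subgroup.centralizer (S : Set X)) := by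
    intro S hS
    refine Nat.card_congr
      { toFun := fun h => ⟨((h : H) : X), (h : H).2, Subgroup.mem_centralizer_iff.2 fun s hs => ?_⟩
        invFun := fun x => ⟨⟨x, x.2.1⟩, fun s hs => Subtype.ext ?_⟩
        left_inv := fun _ => rfl
        right_inv := fun _ => rfl }
    · exact mul_inv_eq_iff_eq_mul.1 (congrArg Subtype.val (h.2 ⟨s, hS hs⟩ hs))
    · show (s : X) * x * (s : X)⁻¹ = x
      rw [Subgroup.mem_centralizer_iff.1 x.2.2 (s : X) hs, mul_inv_cancel_right]
  rw [CfsgLib.WielandtFP.Holds, ← Subgroup.subgroupOf_self (U ⊔ E), hfix _ le_rfl, hfix _ hEU, hfix _ hUE,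
    Nat.card_congr (Subgroup.subgroupOfEquivOfLe hEU).toEquiv] at key
  exact key

end Cfsg.Agent.S1545
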