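import Cfsg.Statements.S1546
import Mathlib

set_option autoImplicit false
open Cfsg

namespace Cfsg.Agent.S1546

/-- Let p and q be odd primes and N = (p ^ q − 1) / (p − 1) = 1 + p + ⋯ + p^(q−1). Then N is odd; if p ≡ 1 (mod q) then q ∣ N; and if p is not ≡ 1 (mod q) then N is coprime to p − 1 and every divisor of N is ≡ 1 (mod q). -/
theorem result (p q : ℕ) (hp : p.Prime) (hq : q.Prime) (hp2 : p ≠ 2) (hq2 : q ≠ 2) : Odd ((p ^ q - 1) / (p - 1)) ∧ (p % q = 1 → q ∣ (p ^ q - 1) / (p - 1)) ∧ (p % q ≠ 1 → Nat.Coprime ((p ^ q - 1) / (p - 1)) (p - 1) ∧ ∀ x : ℕ, x ∣ (p ^ q - 1) / (p - 1) → x % q = 1) := by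
  set N := (p ^ q - 1) / (p - 1) with hN
  have hp3 : 3 ≤ p := lt_of_le_of_ne hp.two_le (Ne.symm hp2)
  have hgeom : ∑ i ∈ Finset.range q, p ^ i = N := Nat.geomSum_eq (by omega) q
  have hmul : N * (p - 1) + 1 = p ^ q := by
    have h1 : (p - 1) ∣ p ^ q - 1 := by
      simpa using Nat.sub_dvd_pow_sub_pow p 1 q
    rw [hN, Nat.div_mul_cancel h1]
    have := Nat.one_le_pow q p (by omega)
    omega
  have hmod : ∀ m : ℕ, p % m = 1 % m → N % m = q % m := by
    intro m hm
    rw [← hgeom, Finset.sum_nat_mod, Finset.sum_congr rfl (fun i _ => by rw [Nat.pow_mod, hm, ← Nat.pow_mod, one_pow]),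
      ← Finset.sum_nat_mod]
    simp
  refine ⟨?_, ?_, ?_⟩
  · rw [Nat.odd_iff]
    have := hmod 2 (by rw [hp.eq_two_or_odd.resolve_left hp2])
    rw [this, hq.eq_two_or_odd.resolve_left hq2]
  · intro h
    have := hmod q (by rw [h, Nat.mod_eq_of_lt hq.one_lt])
    exact Nat.dvd_of_mod_eq_zero (by rw [this, Nat.mod_self])
  · intro h
    have hco : Nat.Coprime N (p - 1) := by
      refine Nat.coprime_of_dvd fun r hr h1 h2 => h ?_
      have hpr : p % r = 1 % r := by
        obtain ⟨c, hc⟩ := h2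
        rw [show p = r * c + 1 by omega, Nat.mul_add_mod]
      have := hmod r hpr
      rw [Nat.mod_eq_zero_of_dvd h1] at this
      have hrq := (Nat.prime_dvd_prime_iff_eq hr hq).1 (Nat.dvd_of_mod_eq_zero this.symm)
      rw [hrq, Nat.mod_eq_of_lt hq.one_lt] at hpr
      exact hpr
    refine ⟨hco, fun x => ?_⟩
    induction x using Nat.recOnMul with
    | zero =>
      intro h0
      rw [zero_dvd_iff] at h0
      rw [h0] at hmul
      have := Nat.one_lt_pow hq.ne_zero hp.one_lt
      omega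
    | one => intro _; exact Nat.mod_eq_of_lt hq.one_lt
    | prime r hr =>
      intro hrN
      haveI := Fact.mk hr
      have hrp : (p : ZMod r) ^ q = 1 := by
        rw [← Nat.cast_pow, ← hmul]
        simp [(ZMod.natCast_eq_zero_iff N r).2 hrN]
      have hne : (p : ZMod r) ≠ 1 := by
        intro h1
        refine hr.ne_one (Nat.dvd_one.1 ?_)
        rw [← hco]
        refine Nat.dvd_gcd hrN ((ZMod.natCast_eq_zero_iff _ r).1 ?_)
        rw [Nat.cast_sub (by omega), h1]; simp
      haveI := Fact.mk hq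
      have hord : orderOf (p : ZMod r) = q :=
        orderOf_eq_prime hrp hne
      have h0 : (p : ZMod r) ≠ 0 := fun h0 => by simp [h0, hq.ne_zero] at hrp
      have hd := ZMod.orderOf_dvd_card_sub_one h0
      rw [hord] at hd
      obtain ⟨c, hc⟩ := hd
      have := hr.one_lt
      rw [show r = q * c + 1 by omega, Nat.mul_add_mod, Nat.mod_eq_of_lt hq.one_lt]
    | mul a b iha ihb =>
      intro hab
      rw [Nat.mul_mod, iha (dvd_of_mul_right_dvd hab), ihb (dvd_of_mul_left_dvd hab), one_mul,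
        Nat.mod_eq_of_lt hq.one_lt]

end Cfsg.Agent.S1546
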