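import Cfsg.Statements.S1552
import Cfsg.Agent.Golay.SuborbApp
import Mathlib
open CfsgLib.Golay CfsgLib.Golay.Suborb
open scoped Pointwise

set_option autoImplicit false
open scoped Pointwise
open Cfsg

namespace Cfsg.Agent.S1552

/-- A sextet stabiliser has four orbits on the 1771 sextets, of sizes 1, 90, 240, 1440; and the stabiliser is a maximal proper subgroup. -/
theorem result (S : Finset (Finset Cfsg.GolayPt)) (hS : S ∈ Cfsg.sextets) : ∃ X₁ ∈ Cfsg.sextets, ∃ X₂ ∈ Cfsg.sextets, ∃ X₃ ∈ Cfsg.sextets, (MulAction.orbit ↥(MulAction.stabilizer Cfsg.M24 S) X₁).ncard = 90 ∧ (MulAction.orbit ↥(MulAction.stabilizer Cfsg.M24 S) X₂).ncard = 240 ∧ (MulAction.orbit ↥(MulAction.stabilizer Cfsg.M24 S) X₃).ncard = 1440 ∧ Cfsg.sextets = {S} ∪ MulAction.orbit ↥(MulAction.stabilizer Cfsg.M24 S) X₁ ∪ MulAction.orbit ↥(MulAction.stabilizer Cfsg.M24 S) X₂ ∪ MulAction.orbit ↥(MulAction.stabilizer Cfsg.M24 S) X₃ ∧ IsCoatom (MulAction.stabilizer Cfsg.M24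 S) := by
  have P := at_sextet (b := SexSex.base) (by decide +kernel) specSexSex hS
  have hA : S ∈ KSex S := hS
  obtain ⟨X₁, h₁, v₁, n₁⟩ := P.ncard_orbit (e := (192, 90)) (by decide) (by decide)
  obtain ⟨X₂, h₂, v₂, n₂⟩ := P.ncard_orbit (e := (180, 240)) (by decide) (by decide)
  obtain ⟨X₃, h₃, v₃, n₃⟩ := P.ncard_orbit (e := (80, 1440)) (by decide) (by decide)
  refine ⟨X₁, h₁, X₂, h₂, X₃, h₃, n₁, n₂, n₃, ?_, ?_⟩
  · rw [P.orbit_eq h₁, P.orbit_eq h₂, P.orbit_eq h₃,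
      ← P.self_class hA (by rw [self_sextet hS]; decide)]
    simp only [v₁, v₂, v₃, self_sextet hS]
    ext Y
    refine ⟨fun hY => ?_, fun h => by rcases h with ((h | h) | h) | h <;> exact h.1⟩
    have := P.cover Y hY
    simp only [SexSex.table, List.map_cons, List.map_nil, List.mem_cons, List.not_mem_nil, or_false] at this
    rcases this with e | e | e | e
    · exact Or.inl (Or.inl (Or.inl ⟨hY, e⟩))
    · exact Or.inl (Or.inl (Or.inr ⟨hY, e⟩))
    · exact Or.inl (Or.inr ⟨hY, e⟩)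
    · exact Or.inr ⟨hY, e⟩
  · refine P.isCoatom (fun X hX => exists_map_sextet hS hX) hA (fun _ _ => rfl) ncard_sextets (by omega) ?_ (by decide)
    rw [self_sextet hS]
    decide +kernel

end Cfsg.Agent.S1552
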