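import Cfsg.Statements.S1555
import Cfsg.Agent.Golay.DodStab
import Mathlib
open CfsgLib.Golay
open scoped Pointwise

set_option autoImplicit false
open scoped Pointwise
open Cfsg

namespace Cfsg.Agent.S1555

/-- Bottom row of the Leech triangle: an octad is met in a prescribed pair of its points by exactly 16 octads and in a prescribed 4-subset by exactly 4 octads. -/
theorem result (o : Finset Cfsg.GolayPt) (ho : o ∈ Cfsg.octads) (s : Finset Cfsg.GolayPt) (hs : s ⊆ o) : (s.card = 2 → {o' : Finset Cfsg.GolayPt | o' ∈ Cfsg.octads ∧ o ∩ o' = s}.ncard = 16) ∧ (s.card = 4 → {o' : Finset Cfsg.GolayPt | o' ∈ Cfsg.octads ∧ o ∩ o' = s}.ncard = 4) := by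
  obtain ⟨g, hg, rfl⟩ := exists_map_octad OctStab.O_mem ho
  have key : ∀ s₀ : Finset Cfsg.GolayPt,
      {o' : Finset Cfsg.GolayPt | o' ∈ Cfsg.octads ∧ g • OctStab.O ∩ o' = g • s₀}.ncard =
      {o' : Finset Cfsg.GolayPt | o' ∈ Cfsg.octads ∧ OctStab.O ∩ o' = s₀}.ncard := by
    intro s₀
    rw [← Set.ncard_image_of_injective {o' : Finset Cfsg.GolayPt | o' ∈ Cfsg.octads ∧ OctStab.O ∩ o' = s₀}
      (MulAction.injective g)]
    congr 1
    ext o
    constructor
    · rintro ⟨ho, hk⟩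
      refine ⟨g⁻¹ • o, ⟨smul_mem_octads (inv_mem hg) ho, ?_⟩, smul_inv_smul g o⟩
      apply MulAction.injective g
      simp only
      rw [Finset.smul_finset_inter, smul_inv_smul, hk]
    · rintro ⟨u, ⟨hu, hk⟩, rfl⟩
      exact ⟨smul_mem_octads hg hu, by rw [← Finset.smul_finset_inter, hk]⟩
  have inv : ∀ (σ : Equiv.Perm Cfsg.GolayPt), σ ∈ Cfsg.M24 → σ • OctStab.O = OctStab.O → ∀ s t, σ • s = t →
      {o' : Finset Cfsg.GolayPt | o' ∈ Cfsg.octads ∧ OctStab.O ∩ o' = t}.ncard =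
      {o' : Finset Cfsg.GolayPt | o' ∈ Cfsg.octads ∧ OctStab.O ∩ o' = s}.ncard := by
    intro σ hσ hO s t hst
    rw [← Set.ncard_image_of_injective {o' : Finset Cfsg.GolayPt | o' ∈ Cfsg.octads ∧ OctStab.O ∩ o' = s}
      (MulAction.injective σ)]
    congr 1
    ext o
    constructor
    · rintro ⟨ho, hk⟩
      refine ⟨σ⁻¹ • o, ⟨smul_mem_octads (inv_mem hσ) ho, ?_⟩, smul_inv_smul σ o⟩
      apply MulAction.injective σ
      simp only
      rw [Finset.smul_finset_inter, smul_inv_smul, hO, hk, hst]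
    · rintro ⟨u, ⟨hu, hk⟩, rfl⟩
      refine ⟨smul_mem_octads hσ hu, ?_⟩
      change OctStab.O ∩ σ • u = t
      rw [← hO, ← Finset.smul_finset_inter, hk, hst]
  obtain ⟨s₀, rfl⟩ : ∃ s₀, g • s₀ = s := ⟨g⁻¹ • s, smul_inv_smul g s⟩
  have hs₀ : s₀ ⊆ OctStab.O := Finset.smul_finset_subset_smul_finset_iff.1 hs
  rw [key, Finset.card_smul_finset]
  have count : ∀ m : ℕ, m < 2 ^ 24 →
      {o' : Finset Cfsg.GolayPt | o' ∈ Cfsg.octads ∧ OctStab.O ∩ o' = toSet m}.ncard =
      (octList.filter fun v => Nat.beq (octO &&& v) m).length := fun m hm =>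
    ncard_eq_filter (k := 8) (P := fun o => OctStab.O ∩ o = toSet m) _ fun s => by
      rw [Nat.beq_eq, ← mask_toSet OctStab.octO_lt, ← mask_inter, ← mask_injective.eq_iff,
        mask_toSet hm]
  refine ⟨fun h2 => ?_, fun h4 => ?_⟩
  · obtain ⟨σ, hσ, hO, e⟩ := OctStab.transPair (s := s₀) (t := toSet 5) hs₀ (by decide +kernel) h2
      (by decide +kernel)
    rw [← inv σ hσ hO _ _ e, count _ (by omega)]
    decide +kernel
  · obtain ⟨σ, hσ, hO, e⟩ := OctStab.transQuad (s := s₀) (t := toSet 53) hs₀ (by decide +kernel) h4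
      (by decide +kernel)
    rw [← inv σ hσ hO _ _ e, count _ (by omega)]
    decide +kernel

end Cfsg.Agent.S1555
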