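import Cfsg.Statements.S1559
import Cfsg.Agent.Golay.SuborbApp
import Mathlib
open CfsgLib.Golay CfsgLib.Golay.Suborb
open scoped Pointwise

set_option autoImplicit false
open scoped Pointwise
open Cfsg

namespace Cfsg.Agent.S1559

/-- A trio stabiliser has five orbits on the 3795 trios, of sizes 1, 42, 56, 1008, 2688; and the stabiliser is a maximal proper subgroup. -/
theorem result (T : Finset (Finset Cfsg.GolayPt)) (hT : T ∈ Cfsg.trios) : ∃ X₁ ∈ Cfsg.trios, ∃ X₂ ∈ Cfsg.trios, ∃ X₃ ∈ Cfsg.trios, ∃ X₄ ∈ Cfsg.trios, (MulAction.orbit ↥(MulAction.stabilizer Cfsg.M24 T) X₁).ncard = 42 ∧ (MulAction.orbit ↥(MulAction.stabilizer Cfsg.M24 T) X₂).ncard = 56 ∧ (MulAction.orbit ↥(MulAction.stabilizer Cfsg.M24 T) X₃).ncard = 1008 ∧ (MulAction.orbit ↥(MulAction.stabilizer Cfsg.M24 T) X₄).ncard = 2688 ∧ Cfsg.trios = {T} ∪ MulAction.orbit ↥(MulAction.stabilizer Cfsg.M24 T) X₁ ∪ MulAction.orbit ↥(MulAction.stabilizer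 Cfsg.M24 T) X₂ ∪ MulAction.orbit ↥(MulAction.stabilizer Cfsg.M24 T) X₃ ∪ MulAction.orbit ↥(MulAction.stabilizer Cfsg.M24 T) X₄ ∧ IsCoatom (MulAction.stabilizer Cfsg.M24 T) := by
  have P := at_trio (b := TrioTrio.base) (by decide +kernel) specTrioTrio hT
  have hA : T ∈ KTrio T := hT
  obtain ⟨X₁, h₁, v₁, n₁⟩ := P.ncard_orbit (e := (5120, 42)) (by decide) (by decide)
  obtain ⟨X₂, h₂, v₂, n₂⟩ := P.ncard_orbit (e := (1536, 56)) (by decide) (by decide)
  obtain ⟨X₃, h₃, v₃, n₃⟩ := P.ncard_orbit (e := (1088, 1008)) (by decide) (by decide)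
  obtain ⟨X₄, h₄, v₄, n₄⟩ := P.ncard_orbit (e := (864, 2688)) (by decide) (by decide)
  refine ⟨X₁, h₁, X₂, h₂, X₃, h₃, X₄, h₄, n₁, n₂, n₃, n₄, ?_, ?_⟩
  · rw [P.orbit_eq h₁, P.orbit_eq h₂, P.orbit_eq h₃, P.orbit_eq h₄,
      ← P.self_class hA (by rw [self_trio hT]; decide)]
    simp only [v₁, v₂, v₃, v₄, self_trio hT]
    ext Y
    refine ⟨fun hY => ?_, fun h => by rcases h with (((h | h) | h) | h) | h <;> exact h.1⟩
    have := P.cover Y hY
    simp only [TrioTrio.table, List.map_cons, List.map_nil, List.mem_cons, List.not_mem_nil, or_false] at this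
    rcases this with e | e | e | e | e
    · exact Or.inl (Or.inl (Or.inl (Or.inl ⟨hY, e⟩)))
    · exact Or.inl (Or.inl (Or.inl (Or.inr ⟨hY, e⟩)))
    · exact Or.inl (Or.inl (Or.inr ⟨hY, e⟩))
    · exact Or.inl (Or.inr ⟨hY, e⟩)
    · exact Or.inr ⟨hY, e⟩
  · refine P.isCoatom (fun X hX => exists_map_trio hT hX) hA (fun _ _ => rfl) ncard_trios (by omega) ?_ (by decide)
    rw [self_trio hT]
    decide +kernel

end Cfsg.Agent.S1559
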