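import Cfsg.Statements.S1560
import Cfsg.Agent.Golay.DodStab
import Mathlib
open CfsgLib.Golay
open scoped Pointwise

set_option autoImplicit false
open scoped Pointwise
open Cfsg

namespace Cfsg.Agent.S1560

/-- Intersection numbers of dodecads: a dodecad meets every other dodecad in 0, 4, 6 or 8 points, meeting 495 of them in 4 points, 1584 in 6 points and 495 in 8 points. -/
theorem result (d : Finset Cfsg.GolayPt) (hd : d ∈ Cfsg.dodecads) : (∀ d' ∈ Cfsg.dodecads, d' ≠ d → (d ∩ d').card = 0 ∨ (d ∩ d').card = 4 ∨ (d ∩ d').card = 6 ∨ (d ∩ d').card = 8) ∧ {d' : Finset Cfsg.GolayPt | d' ∈ Cfsg.dodecads ∧ (d ∩ d').card = 4}.ncard = 495 ∧ {d' : Finset Cfsg.GolayPt | d' ∈ Cfsg.dodecads ∧ (d ∩ d').card = 6}.ncard = 1584 ∧ {d' : Finset Cfsg.GolayPt | d' ∈ Cfsg.dodecads ∧ (d ∩ d').card = 8}.ncard = 495 := by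
  refine ⟨fun d' hd' hne => ?_, ?_⟩
  · rcases DodStab.dod_inter_dod hd hd' with h | h | h | h | h
    · have hc : d.card = 12 ∧ d'.card = 12 := ⟨card_of_mem_dodecads hd, card_of_mem_dodecads hd'⟩
      exact absurd ((Finset.eq_of_subset_of_card_le (s := d ∩ d') Finset.inter_subset_right (by omega)).symm.trans
        (Finset.eq_of_subset_of_card_le (s := d ∩ d') Finset.inter_subset_left (by omega))) hne
    all_goals omega
  obtain ⟨g, hg, rfl⟩ := DodStab.exists_map_dodecad DodStab.D_mem hd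
  have move : ∀ k : ℕ, {d' : Finset Cfsg.GolayPt | d' ∈ Cfsg.dodecads ∧ (g • DodStab.D ∩ d').card = k} =
      (g • ·) '' {d' : Finset Cfsg.GolayPt | d' ∈ Cfsg.dodecads ∧ (DodStab.D ∩ d').card = k} := by
    intro k
    ext o
    constructor
    · rintro ⟨ho, hk⟩
      refine ⟨g⁻¹ • o, ⟨smul_mem_dodecads (inv_mem hg) ho, ?_⟩, smul_inv_smul g o⟩
      rw [← hk, ← Finset.card_smul_finset g, Finset.smul_finset_inter, smul_inv_smul]
    · rintro ⟨u, ⟨hu, hk⟩, rfl⟩
      exact ⟨smul_mem_dodecads hg hu, by rw [← Finset.smul_finset_inter, Finset.card_smul_finset, hk]⟩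
  simp only [move, Set.ncard_image_of_injective _ (MulAction.injective g)]
  refine ⟨?_, ?_, ?_⟩
  · refine (ncard_eq_filter (k := 12) (P := fun o => (DodStab.D ∩ o).card = 4)
      (fun v => Nat.beq (popc (DodStab.sqD &&& v)) 4) (fun s => by
        rw [Nat.beq_eq, ← mask_toSet DodStab.sqD_lt, ← mask_inter, popc_mask])).trans ?_
    decide +kernel
  · refine (ncard_eq_filter (k := 12) (P := fun o => (DodStab.D ∩ o).card = 6)
      (fun v => Nat.beq (popc (DodStab.sqD &&& v)) 6) (fun s => by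
        rw [Nat.beq_eq, ← mask_toSet DodStab.sqD_lt, ← mask_inter, popc_mask])).trans ?_
    decide +kernel
  · refine (ncard_eq_filter (k := 12) (P := fun o => (DodStab.D ∩ o).card = 8)
      (fun v => Nat.beq (popc (DodStab.sqD &&& v)) 8) (fun s => by
        rw [Nat.beq_eq, ← mask_toSet DodStab.sqD_lt, ← mask_inter, popc_mask])).trans ?_
    decide +kernel


end Cfsg.Agent.S1560
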