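import Cfsg.Statements.S1562
import Cfsg.Agent.Golay.SuborbApp
import Mathlib
open CfsgLib.Golay CfsgLib.Golay.Suborb
open scoped Pointwise

set_option autoImplicit false
open scoped Pointwise
open Cfsg

namespace Cfsg.Agent.S1562

/-- Orbits of a triad stabiliser on the triads disjoint from it: the 210 triads inside a common octad with it form one orbit and the remaining 1120 another. -/
theorem result (T : Finset Cfsg.GolayPt) (hT : T.card = 3) : {U : Finset Cfsg.GolayPt | U.card = 3 ∧ Disjoint T U ∧ (∃ o ∈ Cfsg.octads, T ∪ U ⊆ o)}.ncard = 210 ∧ {U : Finset Cfsg.GolayPt | U.card = 3 ∧ Disjoint T U ∧ ¬ (∃ o ∈ Cfsg.octads, T ∪ U ⊆ o)}.ncard = 1120 ∧ ∀ U U' : Finset Cfsg.GolayPt, U.card = 3 → U'.card = 3 → Disjoint T U → Disjoint T U' → ((∃ o ∈ Cfsg.octads, T ∪ U ⊆ o) ↔ (∃ o ∈ Cfsg.octads, T ∪ U' ⊆ o)) → ∃ g : Equiv.Perm Cfsg.GolayPt, g ∈ Cfsg.M24 ∧ g • T = T ∧ g • U = U' := by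
  have P := at_set (b := 8388613) (k := 3) (by omega) (by decide +kernel) specTriTri hT
  have val : ∀ U : Finset Cfsg.GolayPt, U.card = 3 → Disjoint T U →
      ((∃ o ∈ Cfsg.octads, T ∪ U ⊆ o) → inv2 ({T} : Fam) {U} = 1000) ∧
      ((¬ ∃ o ∈ Cfsg.octads, T ∪ U ⊆ o) → inv2 ({T} : Fam) {U} = 0) := by
    intro U hU hd
    have hc : crossInv ({T} : Fam) {U} = 0 := by
      rw [crossInv_singleton, Finset.disjoint_iff_inter_eq_empty.1 hd]; rfl
    obtain ⟨h1, h0⟩ := extCount_eq (A := ({T} : Fam)) (B := {U}) (T ∪ U)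
      (by rw [Finset.card_union_of_disjoint hd, hT, hU]; omega)
      (fun o => by simp [Finset.union_subset_iff])
    exact ⟨fun h => by rw [inv2, hc, h1 h], fun h => by rw [inv2, hc, h0 h]⟩
  have back : ∀ U : Finset Cfsg.GolayPt, inv2 ({T} : Fam) {U} = 1000 ∨ inv2 ({T} : Fam) {U} = 0 →
      Disjoint T U := by
    intro U h
    have hle : (T ∩ U).card ≤ 3 := hT ▸ Finset.card_le_card Finset.inter_subset_left
    have h4 : (T ∩ U).card ^ 4 < 1000 :=
      lt_of_le_of_lt (Nat.pow_le_pow_left hle 4) (by norm_num)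
    rw [inv2, crossInv_singleton] at h
    rw [Finset.disjoint_iff_inter_eq_empty, ← Finset.card_eq_zero]
    exact Nat.eq_zero_of_not_pos fun hp => by
      have := Nat.one_le_pow 4 _ hp
      omega
  have size : ∀ v n : ℕ, (v, n) ∈ TriTri.table → (v = 1000 ∨ v = 0) →
      {U : Finset Cfsg.GolayPt | U.card = 3 ∧ Disjoint T U ∧ inv2 ({T} : Fam) {U} = v}.ncard = n := by
    intro v n h hv
    rw [← P.size_value h, ← Set.ncard_image_of_injective
      {U : Finset Cfsg.GolayPt | U.card = 3 ∧ Disjoint T U ∧ inv2 ({T} : Fam) {U} = v} Finset.singleton_injective]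
    congr 1
    ext X
    constructor
    · rintro ⟨U, ⟨h3, -, e⟩, rfl⟩; exact ⟨⟨U, h3, rfl⟩, e⟩
    · rintro ⟨⟨U, h3, rfl⟩, e⟩
      exact ⟨U, ⟨h3, back U (hv.imp (fun a => e.trans a) fun a => e.trans a), e⟩, rfl⟩
  refine ⟨?_, ?_, ?_⟩
  · rw [← size 1000 210 (by decide) (Or.inl rfl)]
    congr 1
    ext U
    refine and_congr_right fun h3 => and_congr_right fun hd => ⟨(val U h3 hd).1, fun e => ?_⟩
    by_contra hn
    rw [(val U h3 hd).2 hn] at e
    omega
  · rw [← size 0 1120 (by decide) (Or.inr rfl)]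
    congr 1
    ext U
    refine and_congr_right fun h3 => and_congr_right fun hd => ⟨(val U h3 hd).2, fun e hn => ?_⟩
    rw [(val U h3 hd).1 hn] at e
    omega
  · intro U U' hU hU' hd hd' hiff
    obtain ⟨σ, hσ, hA, e⟩ := P.trans {U} ⟨U, hU, rfl⟩ {U'} ⟨U', hU', rfl⟩ (by
      by_cases h : ∃ o ∈ Cfsg.octads, T ∪ U ⊆ o
      · rw [(val U hU hd).1 h, (val U' hU' hd').1 (hiff.1 h)]
      · rw [(val U hU hd).2 h, (val U' hU' hd').2 fun h' => h (hiff.2 h')])
    rw [Finset.smul_finset_singleton, Finset.singleton_inj] at hA e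
    exact ⟨σ, hσ, hA, e⟩

end Cfsg.Agent.S1562
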