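import Cfsg.Statements.S1563
import Cfsg.Agent.Golay.SuborbApp
import Mathlib
open CfsgLib.Golay CfsgLib.Golay.Suborb
open scoped Pointwise

set_option autoImplicit false
open scoped Pointwise
open Cfsg

namespace Cfsg.Agent.S1563

/-- The stabiliser of a pair of points (setwise) is a maximal proper subgroup of the group of the length-24 code. -/
theorem result (s : Finset Cfsg.GolayPt) (hs : s.card = 2) : IsCoatom (MulAction.stabilizer Cfsg.M24 s) := by
  have P := at_set (b := 8388609) (k := 2) (by omega) (by decide +kernel) specPairPair hs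
  rw [← stabilizer_singleton]
  refine P.isCoatom ?_ ⟨s, hs, rfl⟩ (fun _ _ => rfl) ((ncard_KSub 2 _).trans rfl) (by decide +kernel) ?_ (by decide)
  · rintro _ ⟨t, ht, rfl⟩
    obtain ⟨g, hg, e⟩ := exists_map_set (s := s) (t := t) (by omega) (hs.trans ht.symm)
    exact ⟨g, hg, by rw [Finset.smul_finset_singleton, e]⟩
  · rw [crossInv_singleton, Finset.inter_self, hs]
    decide +kernel

end Cfsg.Agent.S1563
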