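import Cfsg.Statements.S1564
import Cfsg.Agent.Golay.SuborbApp
import Mathlib
open CfsgLib.Golay CfsgLib.Golay.Suborb
open scoped Pointwise

set_option autoImplicit false
open scoped Pointwise
open Cfsg

namespace Cfsg.Agent.S1564

/-- The stabiliser of a set of three points (setwise) is a maximal proper subgroup of the group of the length-24 code. -/
theorem result (s : Finset Cfsg.GolayPt) (hs : s.card = 3) : IsCoatom (MulAction.stabilizer Cfsg.M24 s) := by
  have P := at_set (b := 8388613) (k := 3) (by omega) (by decide +kernel) specTriTri hs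
  rw [← stabilizer_singleton]
  refine P.isCoatom ?_ ⟨s, hs, rfl⟩ (fun _ _ => rfl) ((ncard_KSub 3 _).trans rfl) (by decide +kernel) ?_ (by decide)
  · rintro _ ⟨t, ht, rfl⟩
    obtain ⟨g, hg, e⟩ := exists_map_set (s := s) (t := t) (by omega) (hs.trans ht.symm)
    exact ⟨g, hg, by rw [Finset.smul_finset_singleton, e]⟩
  · obtain ⟨g, hg, e⟩ := exists_map_set (s := toSet 8388613) (t := s)
      (by rw [card_toSet (by omega)]; decide +kernel) (by rw [card_toSet (by omega), hs]; decide +kernel)
    have hself : inv2 ({s} : Fam) {s} = 21081 := by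
      rw [← e, ← Finset.smul_finset_singleton, inv2_smul hg,
        show ({toSet 8388613} : Fam) = fam TriTri.base from rfl, inv2_fam (by decide) (by decide)]
      decide +kernel
    rw [hself]
    decide +kernel

end Cfsg.Agent.S1564
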