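import Cfsg.Statements.S1565
import Cfsg.Agent.Golay.SuborbApp
import Mathlib
open CfsgLib.Golay CfsgLib.Golay.Suborb
open scoped Pointwise

set_option autoImplicit false
open scoped Pointwise
open Cfsg

namespace Cfsg.Agent.S1565

/-- The stabiliser of an octad is a maximal proper subgroup of the group of the length-24 code. -/
theorem result (o : Finset Cfsg.GolayPt) (ho : o ∈ Cfsg.octads) : IsCoatom (MulAction.stabilizer Cfsg.M24 o) := by
  have P := at_octad (b := 8391797) (by decide +kernel) specOctOct ho
  rw [← stabilizer_singleton]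
  refine P.isCoatom ?_ (KOct_mem.2 ⟨ho, trivial⟩) (fun _ _ => rfl) ?_ (show 1 < 759 by omega) ?_ (by decide)
  · rintro _ ⟨t, ⟨ht, -⟩, rfl⟩
    obtain ⟨g, hg, e⟩ := exists_map_octad ho ht
    exact ⟨g, hg, by rw [Finset.smul_finset_singleton, e]⟩
  · rw [ncard_KOct, ← ncard_octads]
    congr 1
    ext x
    exact and_iff_left trivial
  · rw [crossInv_singleton, Finset.inter_self, card_of_mem_octads ho]
    decide +kernel

end Cfsg.Agent.S1565
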