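import Cfsg.Statements.S1566
import Cfsg.Agent.Golay.SuborbApp
import Mathlib
open CfsgLib.Golay CfsgLib.Golay.Suborb
open scoped Pointwise

set_option autoImplicit false
open scoped Pointwise
open Cfsg

namespace Cfsg.Agent.S1566

/-- The setwise stabiliser of a dodecad together with its complement is a maximal proper subgroup of the group of the length-24 code. -/
theorem result (d : Finset Cfsg.GolayPt) (hd : d ∈ Cfsg.dodecads) : IsCoatom (MulAction.stabilizer Cfsg.M24 ({d, dᶜ} : Finset (Finset Cfsg.GolayPt))) := by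
  have P := at_dodPair (b := DodDod.base) (by decide +kernel) specDodDod hd
  have hone : ∀ X ∈ KDod ({d, dᶜ} : Fam), ∃ σ ∈ Cfsg.M24, σ • ({d, dᶜ} : Fam) = X := by
    rintro _ ⟨t, ht, rfl⟩
    obtain ⟨g, hg, e⟩ := DodStab.exists_map_dodecad hd ht
    exact ⟨g, hg, by simp [Finset.smul_finset_insert, Finset.smul_finset_singleton, smul_compl, e]⟩
  have hA : ({d, dᶜ} : Fam) ∈ KDod ({d, dᶜ} : Fam) := ⟨d, hd, rfl⟩
  have hN : (KDod ({d, dᶜ} : Fam)).ncard = 1288 := by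
    refine le_antisymm (ncard_KDod_le _) ?_
    have hsub : ∀ v : ℕ, ∀ n : ℕ, (v, n) ∈ DodDod.table →
        n = {X | X ∈ KDod ({d, dᶜ} : Fam) ∧ crossInv ({d, dᶜ} : Fam) X = v}.ncard :=
      fun v n h => (P.size_value h).symm
    have e₁ := hsub 41472 1 (by decide)
    have e₂ := hsub 8704 495 (by decide)
    have e₃ := hsub 5184 792 (by decide)
    have hd₁ : Disjoint {X | X ∈ KDod ({d, dᶜ} : Fam) ∧ crossInv ({d, dᶜ} : Fam) X = 41472}
        {X | X ∈ KDod ({d, dᶜ} : Fam) ∧ crossInv ({d, dᶜ} : Fam) X = 8704} := by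
      rw [Set.disjoint_left]; rintro X ⟨-, h⟩ ⟨-, h'⟩; omega
    have hd₂ : Disjoint ({X | X ∈ KDod ({d, dᶜ} : Fam) ∧ crossInv ({d, dᶜ} : Fam) X = 41472} ∪
        {X | X ∈ KDod ({d, dᶜ} : Fam) ∧ crossInv ({d, dᶜ} : Fam) X = 8704})
        {X | X ∈ KDod ({d, dᶜ} : Fam) ∧ crossInv ({d, dᶜ} : Fam) X = 5184} := by
      rw [Set.disjoint_left]; rintro X (⟨-, h⟩ | ⟨-, h⟩) ⟨-, h'⟩ <;> omega
    have := Set.ncard_union_eq hd₂
    rw [Set.ncard_union_eq hd₁, ← e₁, ← e₂, ← e₃] at this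
    rw [show 1288 = 1 + 495 + 792 from rfl, ← this]
    refine Set.ncard_le_ncard ?_ (Set.toFinite _)
    rintro X ((h | h) | h) <;> exact h.1
  refine P.isCoatom hone hA (fun _ _ => rfl) hN (by omega) ?_ (by decide)
  rw [self_dodPair hd]
  decide +kernel

end Cfsg.Agent.S1566
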