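import Cfsg.Statements.S1580
import Cfsg.Agent.Leech.McLPoints

set_option autoImplicit false
open Cfsg

namespace Cfsg.Agent.S1580

/-- The McLaughlin configuration: for u of customary norm 6 and v minimal with u − v minimal, there are 275 further such summands x of customary inner product 2 with v, permuted transitively by the stabiliser of u and v. -/
theorem result (u v : ↥Cfsg.leechLattice) (hu : Cfsg.sqNorm (u : Cfsg.GolayPt → ℤ) = 48) (hv : Cfsg.sqNorm (v : Cfsg.GolayPt → ℤ) = 32 ∧ Cfsg.sqNorm ((u - v) : Cfsg.GolayPt → ℤ) = 32) : {x : ↥Cfsg.leechLattice | Cfsg.sqNorm (x : Cfsg.GolayPt → ℤ) = 32 ∧ Cfsg.sqNorm ((u - x) : Cfsg.GolayPt → ℤ) = 32 ∧ Cfsg.dotInt (v : Cfsg.GolayPt → ℤ) (x : Cfsg.GolayPt → ℤ) = 16}.ncard = 275 ∧ ∀ x ∈ {x : ↥Cfsg.leechLattice | Cfsg.sqNorm (x : Cfsg.GolayPt → ℤ) = 32 ∧ Cfsg.sqNorm ((u - x) : Cfsg.GolayPt → ℤ) = 32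 ∧ Cfsg.dotInt (v : Cfsg.GolayPt → ℤ) (x : Cfsg.GolayPt → ℤ) = 16}, ∀ x' ∈ {x : ↥Cfsg.leechLattice | Cfsg.sqNorm (x : Cfsg.GolayPt → ℤ) = 32 ∧ Cfsg.sqNorm ((u - x) : Cfsg.GolayPt → ℤ) = 32 ∧ Cfsg.dotInt (v : Cfsg.GolayPt → ℤ) (x : Cfsg.GolayPt → ℤ) = 16}, ∃ g : ↥Cfsg.Co0, g • u = u ∧ g • v = v ∧ g • x = x' := by
  obtain ⟨g, gu, gv, hg⟩ := CfsgLib.Leech.McL.config hu hv
  refine ⟨?_, fun x hx x' hx' => ?_⟩
  · refine Eq.trans ?_ CfsgLib.Leech.McL.ncard_pts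
    refine Eq.trans (congrArg Set.ncard (a₂ := (fun x => g • x) ⁻¹' {x : Cfsg.leechLattice | CfsgLib.Leech.McL.IsPt x}) ?_) (Set.ncard_preimage_of_injective_subset_range (MulAction.injective g) (fun y _ => ⟨g⁻¹ • y, smul_inv_smul g y⟩))
    exact Set.ext fun x => hg x
  · obtain ⟨k, ⟨k1, k2⟩, k3⟩ := CfsgLib.Leech.McL.transitive_pts ((hg x).1 hx) ((hg x').1 hx')
    refine ⟨g⁻¹ * k * g, ?_, ?_, ?_⟩ <;> rw [mul_smul, mul_smul, inv_smul_eq_iff]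
    · rw [gu]; exact k1
    · rw [gv]; exact k2
    · exact k3


end Cfsg.Agent.S1580
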