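import Cfsg.Statements.S1581
import Cfsg.Agent.Leech.McLRank

set_option autoImplicit false
open Cfsg

namespace Cfsg.Agent.S1581

/-- The McLaughlin group acts with rank 3 and subdegrees 1, 112, 162 on its 275 points: the point stabiliser has two orbits on the remaining points, distinguished by customary inner product 1 or 2 with the fixed point. -/
theorem result (u v x : ↥Cfsg.leechLattice) (hu : Cfsg.sqNorm (u : Cfsg.GolayPt → ℤ) = 48) (hv : Cfsg.sqNorm (v : Cfsg.GolayPt → ℤ) = 32 ∧ Cfsg.sqNorm ((u - v) : Cfsg.GolayPt → ℤ) = 32) (hx : x ∈ {x : ↥Cfsg.leechLattice | Cfsg.sqNorm (x : Cfsg.GolayPt → ℤ) = 32 ∧ Cfsg.sqNorm ((u - x) : Cfsg.GolayPt → ℤ) = 32 ∧ Cfsg.dotInt (v : Cfsg.GolayPt → ℤ) (x : Cfsg.GolayPt → ℤ) = 16}) : {y : ↥Cfsg.leechLattice | y ∈ {x : ↥Cfsg.leechLattice | Cfsg.sqNorm (x : Cfsg.GolayPt → ℤ) = 32 ∧ Cfsg.sqNorm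 ((u - x) : Cfsg.GolayPt → ℤ) = 32 ∧ Cfsg.dotInt (v : Cfsg.GolayPt → ℤ) (x : Cfsg.GolayPt → ℤ) = 16} ∧ Cfsg.dotInt (x : Cfsg.GolayPt → ℤ) (y : Cfsg.GolayPt → ℤ) = 8}.ncard = 112 ∧ {y : ↥Cfsg.leechLattice | y ∈ {x : ↥Cfsg.leechLattice | Cfsg.sqNorm (x : Cfsg.GolayPt → ℤ) = 32 ∧ Cfsg.sqNorm ((u - x) : Cfsg.GolayPt → ℤ) = 32 ∧ Cfsg.dotInt (v : Cfsg.GolayPt → ℤ) (x : Cfsg.GolayPt → ℤ) = 16} ∧ y ≠ x ∧ Cfsg.dotInt (x : Cfsg.GolayPt → ℤ) (y : Cfsg.GolayPt → ℤ) = 16}.ncard = 162 ∧ ∀ y ∈ {x : ↥Cfsg.leechLattice | Cfsg.sqNorm (x : Cfsg.GolayPt → ℤ) = 32 ∧ Cfsg.sqNorm ((u - x) : Cfsg.GolayPt → ℤ) = 32 ∧ Cfsg.dotInt (v : Cfsg.GolayPt → ℤ) (x : Cfsg.GolayPt → ℤ) = 16}, ∀ y' ∈ {x : ↥Cfsg.leechLattice | Cfsg.sqNorm (x : Cfsg.GolayPt → ℤ) = 32 ∧ Cfsg.sqNorm ((u - x) : Cfsg.GolayPt → ℤ) = 32 ∧ Cfsg.dotInt (v : Cfsg.GolayPt → ℤ) (x : Cfsg.GolayPt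 → ℤ) = 16}, y ≠ x → y' ≠ x → Cfsg.dotInt (x : Cfsg.GolayPt → ℤ) (y : Cfsg.GolayPt → ℤ) = Cfsg.dotInt (x : Cfsg.GolayPt → ℤ) (y' : Cfsg.GolayPt → ℤ) → ∃ g : ↥Cfsg.Co0, g • u = u ∧ g • v = v ∧ g • x = x ∧ g • y = y' := by
  obtain ⟨g0, gu0, gv0, hg0⟩ := CfsgLib.Leech.McL.config hu hv
  obtain ⟨k, hk, ek⟩ := CfsgLib.Leech.McL.transitive_pts ((hg0 x).1 hx) CfsgLib.Leech.McL.X1_spec.1
  obtain ⟨g, gu, gv, gx⟩ : ∃ g : Cfsg.Co0, g • u = CfsgLib.Leech.McL.U0 ∧ g • v = CfsgLib.Leech.vStd ∧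
      g • x = CfsgLib.Leech.McL.X1 :=
    ⟨k * g0, by rw [mul_smul, gu0]; exact hk.1, by rw [mul_smul, gv0]; exact hk.2, by rw [mul_smul, ek]⟩
  have hd : ∀ y : Cfsg.leechLattice, Cfsg.dotInt CfsgLib.Leech.McL.X1.1 (g • y).1 = Cfsg.dotInt x.1 y.1 := fun y => by
    rw [← gx, CfsgLib.Leech.dot_smul]
  have hne : ∀ y : Cfsg.leechLattice, g • y = CfsgLib.Leech.McL.X1 ↔ y = x := fun y => by
    rw [← gx]; exact (MulAction.injective g).eq_iff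
  have hpt : ∀ y : Cfsg.leechLattice, (Cfsg.sqNorm y.1 = 32 ∧ Cfsg.sqNorm (u.1 - y.1) = 32 ∧
      Cfsg.dotInt v.1 y.1 = 16) ↔ CfsgLib.Leech.McL.IsPt (g • y) := fun y => by
    unfold CfsgLib.Leech.McL.IsPt
    rw [CfsgLib.Leech.norm_smul, ← gu, CfsgLib.Leech.dot_smul, ← mul_right_inj' (show (4 : ℤ) ≠ 0 by norm_num) (c := 4),
      mul_add, ← CfsgLib.Leech.dot_repPair, show CfsgLib.Leech.vecOf CfsgLib.Leech.repPair = CfsgLib.Leech.vStd.1 from rfl,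
      ← gv, CfsgLib.Leech.dot_smul, CfsgLib.Leech.sqNorm_sub]
    constructor
    · rintro ⟨a, b, c⟩; exact ⟨a, by omega, by omega⟩
    · rintro ⟨a, b, c⟩; exact ⟨a, by omega, by omega⟩
  refine ⟨?_, ?_, ?_⟩
  · refine Eq.trans ?_ CfsgLib.Leech.McL.rank_sizes.1
    refine Eq.trans (congrArg Set.ncard (Set.ext fun y => ?_))
      (Set.ncard_preimage_of_injective_subset_range (MulAction.injective g)
        (fun y _ => ⟨g⁻¹ • y, smul_inv_smul g y⟩))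
    exact and_congr (hpt y) (iff_of_eq (congrArg (· = (8 : ℤ)) (hd y).symm))
  · refine Eq.trans ?_ CfsgLib.Leech.McL.rank_sizes.2
    refine Eq.trans (congrArg Set.ncard (Set.ext fun y => ?_))
      (Set.ncard_preimage_of_injective_subset_range (MulAction.injective g)
        (fun y _ => ⟨g⁻¹ • y, smul_inv_smul g y⟩))
    exact and_congr (hpt y) (and_congr (not_congr (hne y).symm) (iff_of_eq (congrArg (· = (16 : ℤ)) (hd y).symm)))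
  · intro y hy y' hy' n n' e
    obtain ⟨k', ⟨⟨k1, k2⟩, k3⟩, k4⟩ := CfsgLib.Leech.McL.transitive_suborbit ((hpt y).1 hy) ((hpt y').1 hy')
      (mt (hne y).1 n) (mt (hne y').1 n') (by rw [hd, hd]; exact e)
    refine ⟨g⁻¹ * k' * g, ?_, ?_, ?_, ?_⟩ <;> rw [mul_smul, mul_smul, inv_smul_eq_iff]
    · rw [gu]; exact k1
    · rw [gv]; exact k2
    · rw [gx]; exact k3
    · exact k4


end Cfsg.Agent.S1581
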