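import Cfsg.Statements.S1584
import Cfsg.Agent.Leech.HS

set_option autoImplicit false
open Cfsg

namespace Cfsg.Agent.S1584

/-- The Higman–Sims group acts with rank 3 and subdegrees 1, 22, 77 on its 100 points, the orbits of a point stabiliser being distinguished by customary inner product 1 with the fixed point. -/
theorem result (v w x : ↥Cfsg.leechLattice) (hv : Cfsg.sqNorm (v : Cfsg.GolayPt → ℤ) = 48) (hw : Cfsg.sqNorm (w : Cfsg.GolayPt → ℤ) = 48) (hvw : Cfsg.dotInt (v : Cfsg.GolayPt → ℤ) (w : Cfsg.GolayPt → ℤ) = -32) (hx : x ∈ {x : ↥Cfsg.leechLattice | Cfsg.sqNorm (x : Cfsg.GolayPt → ℤ) = 32 ∧ Cfsg.dotInt (v : Cfsg.GolayPt → ℤ) (x : Cfsg.GolayPt → ℤ) = 24 ∧ Cfsg.dotInt (w : Cfsg.GolayPt → ℤ) (x : Cfsg.GolayPt → ℤ) = -24}) : {y : ↥Cfsg.leechLattice | y ∈ {x : ↥Cfsg.leechLattice | Cfsg.sqNorm (x : Cfsg.GolayPt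 → ℤ) = 32 ∧ Cfsg.dotInt (v : Cfsg.GolayPt → ℤ) (x : Cfsg.GolayPt → ℤ) = 24 ∧ Cfsg.dotInt (w : Cfsg.GolayPt → ℤ) (x : Cfsg.GolayPt → ℤ) = -24} ∧ Cfsg.dotInt (x : Cfsg.GolayPt → ℤ) (y : Cfsg.GolayPt → ℤ) = 8}.ncard = 22 ∧ {y : ↥Cfsg.leechLattice | y ∈ {x : ↥Cfsg.leechLattice | Cfsg.sqNorm (x : Cfsg.GolayPt → ℤ) = 32 ∧ Cfsg.dotInt (v : Cfsg.GolayPt → ℤ) (x : Cfsg.GolayPt → ℤ) = 24 ∧ Cfsg.dotInt (w : Cfsg.GolayPt → ℤ) (x : Cfsg.GolayPt → ℤ) = -24} ∧ y ≠ x ∧ Cfsg.dotInt (x : Cfsg.GolayPt → ℤ) (y : Cfsg.GolayPt → ℤ) ≠ 8}.ncard = 77 ∧ ∀ y ∈ {x : ↥Cfsg.leechLattice | Cfsg.sqNorm (x : Cfsg.GolayPt → ℤ) = 32 ∧ Cfsg.dotInt (v : Cfsg.GolayPt → ℤ) (x : Cfsg.GolayPt → ℤ) = 24 ∧ Cfsg.dotInt (w : Cfsg.GolayPt → ℤ) (x : Cfsg.GolayPt → ℤ) = -24}, ∀ y' ∈ {x : ↥Cfsg.leechLattice | Cfsg.sqNorm (x : Cfsg.GolayPt → ℤ) = 32 ∧ Cfsg.dotInt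 (v : Cfsg.GolayPt → ℤ) (x : Cfsg.GolayPt → ℤ) = 24 ∧ Cfsg.dotInt (w : Cfsg.GolayPt → ℤ) (x : Cfsg.GolayPt → ℤ) = -24}, y ≠ x → y' ≠ x → (Cfsg.dotInt (x : Cfsg.GolayPt → ℤ) (y : Cfsg.GolayPt → ℤ) = 8 ↔ Cfsg.dotInt (x : Cfsg.GolayPt → ℤ) (y' : Cfsg.GolayPt → ℤ) = 8) → ∃ g : ↥Cfsg.Co0, g • v = v ∧ g • w = w ∧ g • x = x ∧ g • y = y' := by
  obtain ⟨g, gv, gw, gx⟩ := CfsgLib.Leech.HS.exists_map_point hv hw hvw hx.1 hx.2.1 hx.2.2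
  have hpt : ∀ y : Cfsg.leechLattice, CfsgLib.Leech.HS.IsPoint (g • y) ↔ y ∈ {y : ↥Cfsg.leechLattice |
      Cfsg.sqNorm (y : Cfsg.GolayPt → ℤ) = 32 ∧ Cfsg.dotInt (v : Cfsg.GolayPt → ℤ) (y : Cfsg.GolayPt → ℤ) = 24 ∧
        Cfsg.dotInt (w : Cfsg.GolayPt → ℤ) (y : Cfsg.GolayPt → ℤ) = -24} := fun y => by
    unfold CfsgLib.Leech.HS.IsPoint
    rw [← gv, ← gw, CfsgLib.Leech.dot_smul, CfsgLib.Leech.dot_smul, CfsgLib.Leech.norm_smul]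
    rfl
  have hd : ∀ y : Cfsg.leechLattice, Cfsg.dotInt CfsgLib.Leech.HS.A0.1 (g • y).1 = Cfsg.dotInt x.1 y.1 := fun y => by
    rw [← gx, CfsgLib.Leech.dot_smul]
  have hne : ∀ y : Cfsg.leechLattice, g • y = CfsgLib.Leech.HS.A0 ↔ y = x := fun y => by
    rw [← gx]; exact (MulAction.injective g).eq_iff
  refine ⟨?_, ?_, ?_⟩
  · refine Eq.trans ?_ CfsgLib.Leech.HS.ncard_eight
    refine Eq.trans (congrArg Set.ncard (Set.ext fun y => ?_))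
      (Set.ncard_preimage_of_injective_subset_range (MulAction.injective g)
        (fun y _ => ⟨g⁻¹ • y, smul_inv_smul g y⟩))
    exact and_congr (hpt y).symm (iff_of_eq (congrArg (· = (8 : ℤ)) (hd y).symm))
  · refine Eq.trans ?_ CfsgLib.Leech.HS.ncard_other
    refine Eq.trans (congrArg Set.ncard (Set.ext fun y => ?_))
      (Set.ncard_preimage_of_injective_subset_range (MulAction.injective g)
        (fun y _ => ⟨g⁻¹ • y, smul_inv_smul g y⟩))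
    exact and_congr (hpt y).symm (and_congr (not_congr (hne y).symm) (iff_of_eq (congrArg (· ≠ (8 : ℤ)) (hd y).symm)))
  · intro y hy y' hy' n n' hiff
    obtain ⟨k, k1, k2, k3, k4⟩ := CfsgLib.Leech.HS.suborbit ((hpt y).2 hy) ((hpt y').2 hy') (mt (hne y).1 n)
      (mt (hne y').1 n') (by rw [hd, hd]; exact hiff)
    obtain ⟨kv, kw⟩ := CfsgLib.Leech.HS.mem_H.1 (CfsgLib.Leech.HS.mem_H_of_fix k1 k2 k3)
    refine ⟨g⁻¹ * k * g, ?_, ?_, ?_, ?_⟩ <;> rw [mul_smul, mul_smul, inv_smul_eq_iff]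
    · rw [gv, kv]
    · rw [gw, kw]
    · rw [gx, k2]
    · exact k4


end Cfsg.Agent.S1584
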