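import Cfsg.Statements.S1590
import Cfsg.Agent.TernaryCode.Encode

set_option autoImplicit false
open Cfsg

namespace Cfsg.Agent.S1590

/-- The length-12 ternary code has 729 words with weight distribution 0^1 6^264 9^440 12^24. -/
theorem result : Nat.card ↥Cfsg.ternaryGolayCode = 729 ∧ (∀ x ∈ Cfsg.ternaryGolayCode, x ≠ 0 → (Cfsg.ternarySupport x).card = 6 ∨ (Cfsg.ternarySupport x).card = 9 ∨ (Cfsg.ternarySupport x).card = 12) ∧ {x : Cfsg.ArrayPt → ZMod 3 | x ∈ Cfsg.ternaryGolayCode ∧ (Cfsg.ternarySupport x).card = 6}.ncard = 264 ∧ {x : Cfsg.ArrayPt → ZMod 3 | x ∈ Cfsg.ternaryGolayCode ∧ (Cfsg.ternarySupport x).card = 9}.ncard = 440 ∧ {x : Cfsg.ArrayPt → ZMod 3 | x ∈ Cfsg.ternaryGolayCode ∧ (Cfsg.ternarySupport x).card = 12}.ncard = 24 := by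
  have hw : ∀ v : CfsgLib.TernaryCode.Coord, (Cfsg.ternarySupport (CfsgLib.TernaryCode.enc v)).card = 6 ∨
      (Cfsg.ternarySupport (CfsgLib.TernaryCode.enc v)).card = 9 ∨
      (Cfsg.ternarySupport (CfsgLib.TernaryCode.enc v)).card = 12 ∨ v = 0 := by decide +kernel
  have hset : ∀ k : ℕ, {x : Cfsg.ArrayPt → ZMod 3 | x ∈ Cfsg.ternaryGolayCode ∧ (Cfsg.ternarySupport x).card = k}.ncard =
      (Finset.univ.filter fun v : CfsgLib.TernaryCode.Coord => (Cfsg.ternarySupport (CfsgLib.TernaryCode.enc v)).card = k).card := by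
    intro k
    rw [← Finset.card_map ⟨CfsgLib.TernaryCode.enc, CfsgLib.TernaryCode.enc_injective⟩, ← Set.ncard_coe_finset]
    congr 1
    ext x
    simp only [Finset.coe_map, Function.Embedding.coeFn_mk, Finset.coe_filter, Finset.mem_univ, true_and, Set.mem_image,
      Set.mem_setOf_eq]
    constructor
    · rintro ⟨hx, hk⟩
      obtain ⟨v, rfl⟩ := CfsgLib.TernaryCode.mem_iff.1 hx
      exact ⟨v, hk, rfl⟩
    · rintro ⟨v, hk, rfl⟩
      exact ⟨CfsgLib.TernaryCode.enc_mem v, hk⟩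
  refine ⟨?_, fun x hx hx0 => ?_, (hset 6).trans (by decide +kernel), (hset 9).trans (by decide +kernel),
    (hset 12).trans (by decide +kernel)⟩
  · rw [← Nat.card_congr (Equiv.ofBijective (fun v => (⟨CfsgLib.TernaryCode.enc v, CfsgLib.TernaryCode.enc_mem v⟩ :
      Cfsg.ternaryGolayCode)) ⟨fun v w h => CfsgLib.TernaryCode.enc_injective (congrArg Subtype.val h),
      fun x => (CfsgLib.TernaryCode.mem_iff.1 x.2).imp fun v hv => Subtype.ext hv⟩)]
    simp
  · obtain ⟨v, rfl⟩ := CfsgLib.TernaryCode.mem_iff.1 hx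
    rcases hw v with h | h | h | h
    · exact Or.inl h
    · exact Or.inr (Or.inl h)
    · exact Or.inr (Or.inr h)
    · refine absurd ?_ hx0
      subst h
      exact funext (by decide +kernel)


end Cfsg.Agent.S1590
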