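import Cfsg.Statements.S1592
import Cfsg.Agent.S1590

set_option autoImplicit false
open Cfsg

namespace Cfsg.Agent.S1592

/-- The supports of the weight-6 words of the length-12 ternary code form a Steiner system S(5, 6, 12) with 132 blocks. -/
theorem result : Cfsg.IsSteinerSystem 5 6 {h : Finset Cfsg.ArrayPt | ∃ x ∈ Cfsg.ternaryGolayCode, Cfsg.ternarySupport x = h ∧ h.card = 6} ∧ {h : Finset Cfsg.ArrayPt | ∃ x ∈ Cfsg.ternaryGolayCode, Cfsg.ternarySupport x = h ∧ h.card = 6}.ncard = 132 := by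
  classical
  obtain ⟨-, hmin, -⟩ := Cfsg.Agent.S1590.result
  set B := {h : Finset Cfsg.ArrayPt | ∃ x ∈ Cfsg.ternaryGolayCode, Cfsg.ternarySupport x = h ∧ h.card = 6} with hB
  have hmemS : ∀ (x : Cfsg.ArrayPt → ZMod 3) p, p ∈ Cfsg.ternarySupport x ↔ x p ≠ 0 := fun x p => by
    simp [Cfsg.ternarySupport]
  have close : ∀ x y : Cfsg.ArrayPt → ZMod 3, x ∈ Cfsg.ternaryGolayCode → y ∈ Cfsg.ternaryGolayCode →
      (Cfsg.ternarySupport x).card = 6 → (Cfsg.ternarySupport y).card = 6 →
      ∀ s : Finset Cfsg.ArrayPt, s.card = 5 → s ⊆ Cfsg.ternarySupport x → s ⊆ Cfsg.ternarySupport y →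
      x = y ∨ x = -y := by
    intro x y hx hy hx6 hy6 s hs hsx hsy
    have key : ∀ z : Cfsg.ArrayPt → ZMod 3, z ∈ Cfsg.ternaryGolayCode →
        (Cfsg.ternarySupport z) = Cfsg.ternarySupport y → 3 ≤ (s.filter fun p => x p = z p).card → x = z := by
      intro z hz hzy h3
      by_contra hne
      have h6 := hmin (x - z) (sub_mem hx hz) (sub_ne_zero.2 hne)
      have hsub : Cfsg.ternarySupport (x - z) ⊆
          (Cfsg.ternarySupport x ∪ Cfsg.ternarySupport y) \ (s.filter fun p => x p = z p) := by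
        intro p hp
        rw [hmemS, Pi.sub_apply, sub_ne_zero] at hp
        rw [Finset.mem_sdiff, Finset.mem_union, ← hzy, hmemS, hmemS, Finset.mem_filter]
        refine ⟨?_, fun h => hp h.2⟩
        by_contra hc
        push Not at hc
        exact hp (hc.1.trans hc.2.symm)
      have h1 := Finset.card_le_card hsub
      have hsubF : (s.filter fun p => x p = z p) ⊆ Cfsg.ternarySupport x ∪ Cfsg.ternarySupport y :=
        (Finset.filter_subset _ _).trans (hsx.trans Finset.subset_union_left)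
      rw [Finset.card_sdiff_of_subset hsubF] at h1
      have h2 := Finset.card_union_add_card_inter (Cfsg.ternarySupport x) (Cfsg.ternarySupport y)
      have h5 := Finset.card_le_card (Finset.subset_inter hsx hsy)
      omega
    have hsplit := Finset.card_filter_add_card_filter_not (s := s) (fun p => x p = y p)
    have hneg : (s.filter fun p => ¬ x p = y p) = s.filter fun p => x p = (-y) p := by
      refine Finset.filter_congr fun p hp => ?_
      have h1 := (hmemS x p).1 (hsx hp)
      have h2 := (hmemS y p).1 (hsy hp)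
      rw [Pi.neg_apply]
      generalize x p = a at h1 ⊢
      generalize y p = b at h2 ⊢
      revert a b
      decide
    rw [hneg, hs] at hsplit
    by_cases h3 : 3 ≤ (s.filter fun p => x p = y p).card
    · exact Or.inl (key y hy rfl h3)
    · refine Or.inr (key (-y) (neg_mem hy) ?_ (by omega))
      ext p; simp [hmemS]
  have huniq : ∀ s : Finset Cfsg.ArrayPt, s.card = 5 → ∀ b ∈ B, ∀ b' ∈ B, s ⊆ b → s ⊆ b' → b = b' := by
    rintro s hs _ ⟨x, hx, rfl, hx6⟩ _ ⟨y, hy, rfl, hy6⟩ h1 h2
    rcases close x y hx hy hx6 hy6 s hs h1 h2 with rfl | rfl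
    · rfl
    · ext p; simp [hmemS]
  obtain ⟨W, hW⟩ : ∃ W, W = Finset.univ.filter fun v : CfsgLib.TernaryCode.Coord => (Cfsg.ternarySupport (CfsgLib.TernaryCode.enc v)).card = 6 := ⟨_, rfl⟩
  obtain ⟨Bf, hBf⟩ : ∃ Bf, Bf = W.image fun v => Cfsg.ternarySupport (CfsgLib.TernaryCode.enc v) := ⟨_, rfl⟩
  have hBeq : B = ↑Bf := by
    ext b
    rw [hB, Set.mem_setOf_eq, Finset.mem_coe, hBf, Finset.mem_image]
    constructor
    · rintro ⟨x, hx, rfl, h6⟩
      obtain ⟨v, rfl⟩ := CfsgLib.TernaryCode.mem_iff.1 hx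
      exact ⟨v, hW ▸ Finset.mem_filter.2 ⟨Finset.mem_univ _, h6⟩, rfl⟩
    · rintro ⟨v, hv, rfl⟩
      rw [hW] at hv
      exact ⟨_, CfsgLib.TernaryCode.enc_mem v, rfl, (Finset.mem_filter.1 hv).2⟩
  have hcard : Bf.card = 132 := by
    have h264 : W.card = 264 := by rw [hW]; decide +kernel
    have hfib : ∀ b ∈ Bf, (W.filter fun v => Cfsg.ternarySupport (CfsgLib.TernaryCode.enc v) = b).card = 2 := by
      intro b hb
      rw [hBf] at hb
      obtain ⟨v, hv, rfl⟩ := Finset.mem_image.1 hb
      have hv6 := (Finset.mem_filter.1 (hW ▸ hv)).2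
      obtain ⟨w, hw⟩ := CfsgLib.TernaryCode.mem_iff.1 (neg_mem (CfsgLib.TernaryCode.enc_mem v))
      have hsw : Cfsg.ternarySupport (CfsgLib.TernaryCode.enc w) = Cfsg.ternarySupport (CfsgLib.TernaryCode.enc v) := by
        rw [hw]; ext p; simp [hmemS]
      have hvw : v ≠ w := by
        rintro rfl
        obtain ⟨p, hp⟩ := Finset.card_pos.1 (show 0 < (Cfsg.ternarySupport (CfsgLib.TernaryCode.enc v)).card by omega)
        refine (hmemS _ p).1 hp ?_
        have h := congrFun hw p
        rw [Pi.neg_apply] at h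
        exact (by decide : ∀ a : ZMod 3, a = -a → a = 0) _ h
      rw [Finset.card_eq_two]
      refine ⟨v, w, hvw, ?_⟩
      ext u
      simp only [Finset.mem_filter, Finset.mem_insert, Finset.mem_singleton]
      constructor
      · rintro ⟨hu, hsu⟩
        obtain ⟨s, hs, hs5⟩ := Finset.exists_subset_card_eq (show 5 ≤ (Cfsg.ternarySupport (CfsgLib.TernaryCode.enc v)).card by omega)
        rw [hW] at hu
        rcases close _ _ (CfsgLib.TernaryCode.enc_mem u) (CfsgLib.TernaryCode.enc_mem v) (Finset.mem_filter.1 hu).2 hv6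
          s hs5 (hsu.symm ▸ hs) hs with h | h
        · exact Or.inl (CfsgLib.TernaryCode.enc_injective h)
        · exact Or.inr (CfsgLib.TernaryCode.enc_injective (h.trans hw.symm))
      · rintro (rfl | rfl)
        · exact ⟨hv, rfl⟩
        · exact ⟨hW ▸ Finset.mem_filter.2 ⟨Finset.mem_univ _, by rw [hsw]; exact hv6⟩, hsw⟩
    have := Finset.card_eq_sum_card_image (fun v => Cfsg.ternarySupport (CfsgLib.TernaryCode.enc v)) W
    rw [h264, ← hBf, Finset.sum_congr rfl hfib, Finset.sum_const, smul_eq_mul] at this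
    omega
  have hU : Bf.biUnion (fun b => b.powersetCard 5) = (Finset.univ : Finset Cfsg.ArrayPt).powersetCard 5 := by
    refine Finset.eq_of_subset_of_card_le (fun s hs => ?_) ?_
    · obtain ⟨b, -, hb⟩ := Finset.mem_biUnion.1 hs
      exact Finset.mem_powersetCard.2 ⟨Finset.subset_univ _, (Finset.mem_powersetCard.1 hb).2⟩
    · rw [Finset.card_biUnion]
      · rw [Finset.sum_congr rfl (fun b hb => by
          rw [Finset.card_powersetCard, show b.card = 6 by
            rw [hBf] at hb
            obtain ⟨v, hv, rfl⟩ := Finset.mem_image.1 hb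
            rw [hW] at hv
            exact (Finset.mem_filter.1 hv).2]), Finset.sum_const, hcard, Finset.card_powersetCard, Finset.card_univ,
          Fintype.card_prod, Fintype.card_fin, ZMod.card]
        decide
      · intro b hb b' hb' hne
        rw [Function.onFun, Finset.disjoint_left]
        intro s hs hs'
        rw [Finset.mem_powersetCard] at hs hs'
        exact hne (huniq s hs.2 b (hBeq ▸ hb) b' (hBeq ▸ hb') hs.1 hs'.1)
  refine ⟨⟨fun b hb => ?_, fun s hs => ?_⟩, by rw [hBeq, Set.ncard_coe_finset, hcard]⟩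
  · obtain ⟨x, -, -, h6⟩ := hb; exact h6
  · have hmem : s ∈ Bf.biUnion (fun b => b.powersetCard 5) := by
      rw [hU]; exact Finset.mem_powersetCard.2 ⟨Finset.subset_univ _, hs⟩
    obtain ⟨b, hb, hsb⟩ := Finset.mem_biUnion.1 hmem
    exact ⟨b, ⟨hBeq ▸ hb, (Finset.mem_powersetCard.1 hsb).1⟩, fun b' hb' =>
      huniq s hs b' hb'.1 b (hBeq ▸ hb) hb'.2 (Finset.mem_powersetCard.1 hsb).1⟩


end Cfsg.Agent.S1592
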