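import Cfsg.Statements.S1593
import Cfsg.Agent.TernaryCode.Encode

set_option autoImplicit false
open Cfsg

namespace Cfsg.Agent.S1593

/-- The only sign changes preserving the length-12 ternary code are the identity and negation of all coordinates. -/
theorem result (c : Cfsg.ArrayPt → (ZMod 3)ˣ) (h : (∀ x ∈ Cfsg.ternaryGolayCode, Cfsg.monomialMap 1 c x ∈ Cfsg.ternaryGolayCode)) : (∀ p, c p = 1) ∨ (∀ p, c p = -1) := by
  have sum3 : ∀ g : ZMod 3 → ZMod 3, ∑ r, g r = g 0 + g 1 + g 2 := fun g => Fin.sum_univ_three g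
  have hbas : ∀ j k : CfsgLib.TernaryCode.Coord, ∑ p, (c p : ZMod 3) * CfsgLib.TernaryCode.enc j p * CfsgLib.TernaryCode.enc k p = 0 := by
    intro j k
    obtain ⟨w, hw⟩ := CfsgLib.TernaryCode.mem_iff.1 (h _ (CfsgLib.TernaryCode.enc_mem j))
    rw [← CfsgLib.TernaryCode.dot_eq_zero w k, hw]
    exact Finset.sum_congr rfl fun p _ => rfl
  have e0 := hbas (1, 0, 0, 0, 0, 0) (1, 0, 0, 0, 0, 0)
  rw [Fintype.sum_prod_type, Fin.sum_univ_four] at e0
  simp only [sum3] at e0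
  simp [CfsgLib.TernaryCode.enc] at e0
  have e1 := hbas (1, 0, 0, 0, 0, 0) (0, 1, 0, 0, 0, 0)
  rw [Fintype.sum_prod_type, Fin.sum_univ_four] at e1
  simp only [sum3] at e1
  simp [CfsgLib.TernaryCode.enc] at e1
  have e2 := hbas (1, 0, 0, 0, 0, 0) (0, 0, 1, 0, 0, 0)
  rw [Fintype.sum_prod_type, Fin.sum_univ_four] at e2
  simp only [sum3] at e2
  simp [CfsgLib.TernaryCode.enc] at e2
  have e3 := hbas (1, 0, 0, 0, 0, 0) (0, 0, 0, 1, 0, 0)
  rw [Fintype.sum_prod_type, Fin.sum_univ_four] at e3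
  simp only [sum3] at e3
  simp [CfsgLib.TernaryCode.enc] at e3
  have e4 := hbas (1, 0, 0, 0, 0, 0) (0, 0, 0, 0, 1, 0)
  rw [Fintype.sum_prod_type, Fin.sum_univ_four] at e4
  simp only [sum3] at e4
  simp [CfsgLib.TernaryCode.enc] at e4
  have e5 := hbas (0, 1, 0, 0, 0, 0) (0, 1, 0, 0, 0, 0)
  rw [Fintype.sum_prod_type, Fin.sum_univ_four] at e5
  simp only [sum3] at e5
  simp [CfsgLib.TernaryCode.enc] at e5
  have e6 := hbas (0, 1, 0, 0, 0, 0) (0, 0, 0, 0, 0, 1)
  rw [Fintype.sum_prod_type, Fin.sum_univ_four] at e6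
  simp only [sum3] at e6
  simp [CfsgLib.TernaryCode.enc] at e6
  have e7 := hbas (0, 0, 1, 0, 0, 0) (0, 0, 1, 0, 0, 0)
  rw [Fintype.sum_prod_type, Fin.sum_univ_four] at e7
  simp only [sum3] at e7
  simp [CfsgLib.TernaryCode.enc] at e7
  have e8 := hbas (0, 0, 0, 1, 0, 0) (0, 0, 0, 1, 0, 0)
  rw [Fintype.sum_prod_type, Fin.sum_univ_four] at e8
  simp only [sum3] at e8
  simp [CfsgLib.TernaryCode.enc] at e8
  have e9 := hbas (0, 0, 0, 0, 1, 0) (0, 0, 0, 0, 1, 0)
  rw [Fintype.sum_prod_type, Fin.sum_univ_four] at e9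
  simp only [sum3] at e9
  simp [CfsgLib.TernaryCode.enc] at e9
  have e10 := hbas (0, 0, 0, 0, 0, 1) (0, 0, 0, 0, 0, 1)
  rw [Fintype.sum_prod_type, Fin.sum_univ_four] at e10
  simp only [sum3] at e10
  simp [CfsgLib.TernaryCode.enc] at e10
  have d11 : (c (3, 2) : ZMod 3) = c (0, 0) := by
    linear_combination (norm := (ring_nf; reduce_mod_char)) 2 * e0 + e1 + 2 * e2 + 2 * e3
  have d10 : (c (3, 1) : ZMod 3) = c (0, 0) := by
    linear_combination (norm := (ring_nf; reduce_mod_char)) 2 * e0 + e1 + e2 + e4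
  have d9 : (c (3, 0) : ZMod 3) = c (0, 0) := by
    linear_combination (norm := (ring_nf; reduce_mod_char)) 2 * e0 + 2 * e1 + 2 * e3 + 2 * e4
  have d8 : (c (2, 2) : ZMod 3) = c (0, 0) := by
    linear_combination (norm := (ring_nf; reduce_mod_char)) 2 * e0 + e2 + e3 + 2 * e4
  have d7 : (c (2, 1) : ZMod 3) = c (0, 0) := by
    linear_combination (norm := (ring_nf; reduce_mod_char)) 2 * e0 + e2 + 2 * e6
  have d6 : (c (2, 0) : ZMod 3) = c (0, 0) := by
    linear_combination (norm := (ring_nf; reduce_mod_char)) 2 * e0 + 2 * e1 + e2 + e3 + e4 + e6 + e10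
  have d5 : (c (1, 2) : ZMod 3) = c (0, 0) := by
    linear_combination (norm := (ring_nf; reduce_mod_char)) 2 * e0 + 2 * e1 + 2 * e2 + e3 + e4
  have d4 : (c (1, 1) : ZMod 3) = c (0, 0) := by
    linear_combination (norm := (ring_nf; reduce_mod_char)) 2 * e0 + 2 * e1 + 2 * e2 + 2 * e3 + 2 * e4 + e6 + e9
  have d3 : (c (1, 0) : ZMod 3) = c (0, 0) := by
    linear_combination (norm := (ring_nf; reduce_mod_char)) 2 * e0 + e1 + e2 + 2 * e3 + e6 + e8
  have d2 : (c (0, 2) : ZMod 3) = c (0, 0) := by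
    linear_combination (norm := (ring_nf; reduce_mod_char)) 2 * e0 + e3 + 2 * e4 + e6 + e7
  have d1 : (c (0, 1) : ZMod 3) = c (0, 0) := by
    linear_combination (norm := (ring_nf; reduce_mod_char)) 2 * e0 + e1 + e4 + e5 + e6
  have hall : ∀ p, (c p : ZMod 3) = c (0, 0) := by
    rintro ⟨i, r⟩
    fin_cases i <;> fin_cases r
    · rfl
    · exact d1
    · exact d2
    · exact d3
    · exact d4
    · exact d5
    · exact d6
    · exact d7
    · exact d8
    · exact d9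
    · exact d10
    · exact d11
  have h2 : ∀ u : (ZMod 3)ˣ, u = 1 ∨ u = -1 := by decide
  rcases h2 (c (0, 0)) with h0 | h0
  · exact Or.inl fun p => (Units.ext (hall p)).trans h0
  · exact Or.inr fun p => (Units.ext (hall p)).trans h0

end Cfsg.Agent.S1593
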