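import Mathlib
import Cfsg.Statements.S1594
import Cfsg.Agent.S0425
import Cfsg.Agent.S1592
import Cfsg.Agent.S1593
import Cfsg.Agent.TernaryCode.Encode
-- import your own Cfsg.Agent.* helpers here

set_option autoImplicit false
open scoped Pointwise
open Cfsg

namespace Cfsg.Agent.S1594


open CfsgLib.TernaryCode (enc Coord)

def gens : List (List (ℕ × ℕ × ℕ)) :=
  [[(0xba9876543210, 0xba9876543210, 0x111111111111),
    (0x687a9b543201, 0x687a9b543201, 0x111111111111),
    (0x9ba768543102, 0xa9b687543021, 0x111111111111),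
    (0xb9867a542103, 0xb6a978540321, 0x212122112211),
    (0x87ba96532104, 0x987ba6504321, 0x122221121211),
    (0xab7869432105, 0xab6897054321, 0x221212211211),
    (0xb8a745932106, 0xb95a80674321, 0x211222121121),
    (0x65498ab32107, 0x56870ba94321, 0x221111122221),
    (0x5964b7a32108, 0x75a069b84321, 0x121122112111),
    (0x7a8b54632109, 0x8a09b5764321, 0x222121211121),
    (0x46957b83210a, 0x60957a8b4321, 0x212211112111),
    (0x9456a873210b, 0x7b6589a4321, 0x111221212221)],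
   [(0xba9876543210, 0xba9876543210, 0x111111111111),
    (0x876ba9543120, 0x876ba9543120, 0x111111111111),
    (0xa6798b542130, 0x6b879a541320, 0x212122112211),
    (0x6a97b8532140, 0x7a968b514320, 0x122221121211),
    (0x986b7a432150, 0x86ba79154320, 0x221212211211),
    (0x5748ab932160, 0x6758a1b94320, 0x211222121121),
    (0xa98546b32170, 0x5ba916874320, 0x221111122221),
    (0x74b965a32180, 0x9581b76a4320, 0x121122112111),
    (0x4b5a87632190, 0xa817659b4320, 0x222121211121),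
    (0xb576948321a0, 0xb17598a64320, 0x212211112111),
    (0x86a4597321b0, 0x196b5a784320, 0x111221212221)],
   [(0xba9876543210, 0xba9876543210, 0x111111111111),
    (0x98ba67542310, 0x98ba67542310, 0x212122112211),
    (0x7b86a9532410, 0xa769b8524310, 0x122221121211),
    (0xb7a986432510, 0xb987a6254310, 0x221212211211),
    (0x8ab574932610, 0x9a5b72864310, 0x211222121121),
    (0x546a98b32710, 0x587629ba4310, 0x221111122221),
    (0x96574ba32810, 0x65b28a974310, 0x121122112111),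
    (0xa874b5632910, 0x7b2a95684310, 0x222121211121),
    (0x694b57832a10, 0x82a56b794310, 0x212211112111),
    (0x45986a732b10, 0x269857ab4310, 0x111221212221)],
   [(0xba9876543210, 0xba9876543210, 0x111111111111),
    (0x867b9a534210, 0x867b9a534210, 0x111111111111),
    (0xa9b768435210, 0x9ba687354210, 0x111111111111),
    (0xb58a47936210, 0xb85963a74210, 0x111111111221),
    (0x6a5489b37210, 0x5a673b984210, 0x222222222121),
    (0x5796b4a38210, 0x7593a8b64210, 0x222222222211),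
    (0x74a85b639210, 0x6938b57a4210, 0x111111111221),
    (0x4b697583a210, 0xa385796b4210, 0x222222222211),
    (0x9845a673b210, 0x37ba56894210, 0x222222222121)],
   [(0xba9876543210, 0xba9876543210, 0x111111111111),
    (0x786ab9453210, 0x786ab9453210, 0x111111111111),
    (0xa74b85963210, 0x8b57a4693210, 0x111111111221),
    (0x49865ab73210, 0x56a9487b3210, 0x222222222121),
    (0x64b597a83210, 0x95746b8a3210, 0x222222222211),
    (0x8b57a4693210, 0xa74b85963210, 0x111111111221),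
    (0x95746b8a3210, 0x64b597a83210, 0x222222222211),
    (0x56a9487b3210, 0x49865ab73210, 0x222222222121)]]

def ofIdx (m : ℕ) : Cfsg.ArrayPt := (⟨m / 3 % 4, Nat.mod_lt _ (by norm_num)⟩, ((m % 3 : ℕ) : ZMod 3))

def toIdx (p : Cfsg.ArrayPt) : ℕ := 3 * p.1.val + p.2.val

def nib (N m : ℕ) : ℕ := N / 16 ^ m % 16

def fwd (e : ℕ × ℕ × ℕ) (p : Cfsg.ArrayPt) : Cfsg.ArrayPt := ofIdx (nib e.1 (toIdx p))

def bwd (e : ℕ × ℕ × ℕ) (p : Cfsg.ArrayPt) : Cfsg.ArrayPt := ofIdx (nib e.2.1 (toIdx p))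

def sgn (e : ℕ × ℕ × ℕ) (p : Cfsg.ArrayPt) : (ZMod 3)ˣ :=
  if Nat.beq (nib e.2.2 (toIdx p)) 1 then 1 else -1

def coordsOf (y : Cfsg.ArrayPt → ZMod 3) : Coord :=
  (y (0, 0), y (0, 1), y (0, 2), y (1, 0), y (1, 1), y (2, 0))

def unitsVec : List Coord :=
  [(1, 0, 0, 0, 0, 0), (0, 1, 0, 0, 0, 0), (0, 0, 1, 0, 0, 0), (0, 0, 0, 1, 0, 0), (0, 0, 0, 0, 1, 0),
    (0, 0, 0, 0, 0, 1)]

def allPts : List Cfsg.ArrayPt := (List.range 12).map ofIdx

def valid (k : ℕ) (e : ℕ × ℕ × ℕ) : Bool :=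
  (List.range 12).all (fun m =>
    decide (bwd e (fwd e (ofIdx m)) = ofIdx m) && decide (fwd e (bwd e (ofIdx m)) = ofIdx m)) &&
  (List.range k).all (fun m => decide (fwd e (ofIdx m) = ofIdx m)) &&
  unitsVec.all (fun v => (List.range 12).all fun m =>
    decide (((sgn e (ofIdx m) : (ZMod 3)ˣ) : ZMod 3) * enc v (bwd e (ofIdx m)) =
      enc (coordsOf fun q => ((sgn e q : (ZMod 3)ˣ) : ZMod 3) * enc v (bwd e q)) (ofIdx m)))

def levels (k : ℕ) : List (ℕ × ℕ × ℕ) := gens.getD k []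

theorem levels_ok : (List.range 5).all (fun k => Nat.beq (levels k).length (12 - k) &&
    (levels k).all (valid k) &&
    (List.range (12 - k)).all fun j =>
      decide (fwd ((levels k).getD j (0, 0, 0)) (ofIdx k) = ofIdx (k + j))) = true := by
  decide +kernel

theorem ofIdx_toIdx (p : Cfsg.ArrayPt) : ofIdx (toIdx p) = p := by revert p; decide

theorem toIdx_lt (p : Cfsg.ArrayPt) : toIdx p < 12 := by revert p; decide

theorem ofIdx_injOn : ∀ a < 12, ∀ b < 12, ofIdx a = ofIdx b → a = b := by decide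

/-- Monomial symmetries of the code. -/
def Pres (σ : Equiv.Perm Cfsg.ArrayPt) (c : Cfsg.ArrayPt → (ZMod 3)ˣ) : Prop :=
  ∀ x ∈ Cfsg.ternaryGolayCode, Cfsg.monomialMap σ c x ∈ Cfsg.ternaryGolayCode

theorem monomial_comp (σ τ : Equiv.Perm Cfsg.ArrayPt) (c d : Cfsg.ArrayPt → (ZMod 3)ˣ)
    (x : Cfsg.ArrayPt → ZMod 3) :
    Cfsg.monomialMap σ c (Cfsg.monomialMap τ d x) =
      Cfsg.monomialMap (σ * τ) (fun i => c i * d (σ.symm i)) x := by
  funext i
  simp only [Cfsg.monomialMap, Units.val_mul, mul_assoc]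
  rfl

theorem pres_mul {σ τ : Equiv.Perm Cfsg.ArrayPt} {c d : Cfsg.ArrayPt → (ZMod 3)ˣ}
    (h : Pres σ c) (h' : Pres τ d) : Pres (σ * τ) (fun i => c i * d (σ.symm i)) := fun x hx => by
  rw [← monomial_comp]; exact h _ (h' x hx)

theorem monomial_injective (σ : Equiv.Perm Cfsg.ArrayPt) (c : Cfsg.ArrayPt → (ZMod 3)ˣ) :
    Function.Injective (Cfsg.monomialMap σ c : (Cfsg.ArrayPt → ZMod 3) → _) := by
  intro x y h
  funext i
  have := congrFun h (σ i)
  simpa [Cfsg.monomialMap] using this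

/-- The group of permutation parts. -/
noncomputable def permPart : Subgroup (Equiv.Perm Cfsg.ArrayPt) :=
  have hsub : ∀ σ τ : Equiv.Perm Cfsg.ArrayPt, (∃ c, Pres σ c) → (∃ c, Pres τ c) → ∃ c, Pres (σ * τ) c :=
    fun _ _ ⟨_, hc⟩ ⟨_, hd⟩ => ⟨_, pres_mul hc hd⟩
  have hone : ∃ c, Pres 1 c := ⟨fun _ => 1, fun x hx => by
    convert hx using 1; funext i; simp [Cfsg.monomialMap]; rfl⟩
  { carrier := {σ | ∃ c, Pres σ c}
    one_mem' := hone
    mul_mem' := fun {σ τ} h h' => hsub σ τ h h'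
    inv_mem' := fun {σ} h => by
      have hp : ∀ n : ℕ, ∃ c, Pres (σ ^ n) c := by
        intro n
        induction n with
        | zero => simpa using hone
        | succ n ih => rw [pow_succ]; exact hsub _ _ ih h
      have hinv : σ⁻¹ = σ ^ (orderOf σ - 1) := by
        rw [eq_comm, eq_inv_iff_mul_eq_one, ← pow_succ, Nat.sub_add_cancel (orderOf_pos σ),
          pow_orderOf_eq_one]
      show ∃ c, Pres σ⁻¹ c
      rw [hinv]; exact hp _ }

theorem enc_add (v w : Coord) : enc (v + w) = enc v + enc w := by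
  obtain ⟨a, b, c, d, e, f⟩ := v
  obtain ⟨a', b', c', d', e', f'⟩ := w
  funext p
  obtain ⟨i, r⟩ := p
  fin_cases i <;> fin_cases r <;> simp [enc] <;> ring

theorem enc_smul (t : ZMod 3) (v : Coord) : enc (t • v) = t • enc v := by
  obtain ⟨a, b, c, d, e, f⟩ := v
  funext p
  obtain ⟨i, r⟩ := p
  fin_cases i <;> fin_cases r <;> simp [enc] <;> ring

theorem mk_elem {k : ℕ} {e : ℕ × ℕ × ℕ} (h : valid k e = true) :
    ∃ σ ∈ permPart, (∀ p, σ p = fwd e p) := by
  simp only [valid, Bool.and_eq_true, List.all_eq_true, List.mem_range, decide_eq_true_eq] at h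
  obtain ⟨⟨h1, -⟩, h3⟩ := h
  let σ : Equiv.Perm Cfsg.ArrayPt := ⟨fwd e, bwd e,
    fun p => by have := (h1 _ (toIdx_lt p)).1; rwa [ofIdx_toIdx] at this,
    fun p => by have := (h1 _ (toIdx_lt p)).2; rwa [ofIdx_toIdx] at this⟩
  refine ⟨σ, ⟨sgn e, fun x hx => ?_⟩, fun p => rfl⟩
  obtain ⟨⟨a, b, c, d, g, f⟩, rfl⟩ := CfsgLib.TernaryCode.mem_iff.1 hx
  let L : (Cfsg.ArrayPt → ZMod 3) →ₗ[ZMod 3] (Cfsg.ArrayPt → ZMod 3) :=
    { toFun := Cfsg.monomialMap σ (sgn e)
      map_add' := fun x y => by funext i; simp [Cfsg.monomialMap, mul_add]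
      map_smul' := fun t x => by funext i; simp [Cfsg.monomialMap, mul_left_comm] }
  show L _ ∈ _
  have hb : ∀ v ∈ unitsVec, L (enc v) ∈ Cfsg.ternaryGolayCode := by
    intro v hv
    refine CfsgLib.TernaryCode.mem_iff.2 ⟨coordsOf (L (enc v)), funext fun p => ?_⟩
    have := h3 v hv _ (toIdx_lt p)
    rw [ofIdx_toIdx] at this
    exact this.symm
  have hdec : ((a, b, c, d, g, f) : Coord) = a • (1, 0, 0, 0, 0, 0) + b • (0, 1, 0, 0, 0, 0) +
      c • (0, 0, 1, 0, 0, 0) + d • (0, 0, 0, 1, 0, 0) + g • (0, 0, 0, 0, 1, 0) + f • (0, 0, 0, 0, 0, 1) := by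
    simp [Prod.ext_iff]
  rw [hdec]
  simp only [enc_add, enc_smul, map_add, map_smul]
  refine Submodule.add_mem _ (Submodule.add_mem _ (Submodule.add_mem _ (Submodule.add_mem _
    (Submodule.add_mem _ ?_ ?_) ?_) ?_) ?_) ?_ <;>
  exact Submodule.smul_mem _ _ (hb _ (by simp [unitsVec]))

theorem exists_level (k : ℕ) (hk : k < 5) (j : ℕ) (hj : j < 12 - k) :
    ∃ σ ∈ permPart, (∀ m < k, σ (ofIdx m) = ofIdx m) ∧ σ (ofIdx k) = ofIdx (k + j) := by
  have h := levels_ok
  simp only [List.all_eq_true, List.mem_range, Bool.and_eq_true, decide_eq_true_eq] at h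
  obtain ⟨⟨hlen, hval⟩, himg⟩ := h k hk
  have hlen' : (levels k).length = 12 - k := Nat.eq_of_beq_eq_true hlen
  have hv : valid k ((levels k).getD j (0, 0, 0)) = true := hval _ (by
    rw [List.getD_eq_getElem _ _ (by omega)]; exact List.getElem_mem _)
  obtain ⟨σ, hσ, hfwd⟩ := mk_elem hv
  simp only [valid, Bool.and_eq_true, List.all_eq_true, List.mem_range, decide_eq_true_eq] at hv
  exact ⟨σ, hσ, fun m hm => (hfwd _).trans (hv.1.2 m hm), (hfwd _).trans (himg j hj)⟩

theorem card_ge : 95040 ≤ Nat.card permPart := by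
  classical
  have H := fun (k : Fin 5) (j : Fin (12 - k.val)) => exists_level k.val k.isLt j.val j.isLt
  choose s hs hfix himg using H
  let f : Fin 12 × Fin 11 × Fin 10 × Fin 9 × Fin 8 → permPart := fun v =>
    ⟨s 0 v.1 * (s 1 v.2.1 * (s 2 v.2.2.1 * (s 3 v.2.2.2.1 * s 4 v.2.2.2.2))),
      mul_mem (hs _ _) (mul_mem (hs _ _) (mul_mem (hs _ _) (mul_mem (hs _ _) (hs _ _))))⟩
  have inj1 : ∀ (k : Fin 5) (a b : Fin (12 - k.val)),
      s k a (ofIdx k.val) = s k b (ofIdx k.val) → a = b := by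
    intro k a b h
    rw [himg, himg] at h
    have := ofIdx_injOn _ (by omega) _ (by omega) h
    exact Fin.ext (by omega)
  have hinj : Function.Injective f := by
    rintro ⟨a0, a1, a2, a3, a4⟩ ⟨b0, b1, b2, b3, b4⟩ h
    have h0 : s 0 a0 * (s 1 a1 * (s 2 a2 * (s 3 a3 * s 4 a4))) =
        s 0 b0 * (s 1 b1 * (s 2 b2 * (s 3 b3 * s 4 b4))) := congrArg Subtype.val h
    have e0 : a0 = b0 := by
      apply inj1 0
      have := Equiv.congr_fun h0 (ofIdx 0)
      simpa [Equiv.Perm.mul_apply, hfix 1 _ 0, hfix 2 _ 0, hfix 3 _ 0, hfix 4 _ 0] using this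
    subst e0
    have h1 := mul_left_cancel h0
    have e1 : a1 = b1 := by
      apply inj1 1
      have := Equiv.congr_fun h1 (ofIdx 1)
      simpa [Equiv.Perm.mul_apply, hfix 2 _ 1, hfix 3 _ 1, hfix 4 _ 1] using this
    subst e1
    have h2 := mul_left_cancel h1
    have e2 : a2 = b2 := by
      apply inj1 2
      have := Equiv.congr_fun h2 (ofIdx 2)
      simpa [Equiv.Perm.mul_apply, hfix 3 _ 2, hfix 4 _ 2] using this
    subst e2
    have h3 := mul_left_cancel h2
    have e3 : a3 = b3 := by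
      apply inj1 3
      have := Equiv.congr_fun h3 (ofIdx 3)
      simpa [Equiv.Perm.mul_apply, hfix 4 _ 3] using this
    subst e3
    have e4 : a4 = b4 := inj1 4 _ _ (Equiv.congr_fun (mul_left_cancel h3) (ofIdx 4))
    subst e4; rfl
  have hc := Nat.card_le_card_of_injective f hinj
  simpa [Nat.card_prod] using hc

/-- The monomial automorphism group of the length-12 ternary code has order 190080 and its permutation parts are exactly the automorphisms of its hexad system. -/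
theorem result : Nat.card {f : Equiv.Perm Cfsg.ArrayPt × (Cfsg.ArrayPt → (ZMod 3)ˣ) // (∀ x ∈ Cfsg.ternaryGolayCode, Cfsg.monomialMap f.1 f.2 x ∈ Cfsg.ternaryGolayCode)} = 190080 ∧ {σ : Equiv.Perm Cfsg.ArrayPt | ∃ c : Cfsg.ArrayPt → (ZMod 3)ˣ, (∀ x ∈ Cfsg.ternaryGolayCode, Cfsg.monomialMap σ c x ∈ Cfsg.ternaryGolayCode)} = (Cfsg.setSystemAut {h : Finset Cfsg.ArrayPt | ∃ x ∈ Cfsg.ternaryGolayCode, Cfsg.ternarySupport x = h ∧ h.card = 6} : Set (Equiv.Perm Cfsg.ArrayPt)) := by
  classical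
  set B : Set (Finset Cfsg.ArrayPt) :=
    {h | ∃ x ∈ Cfsg.ternaryGolayCode, Cfsg.ternarySupport x = h ∧ h.card = 6} with hB
  have hst := Cfsg.Agent.S1592.result
  have hM := (Cfsg.Agent.S0425.result (α := Cfsg.ArrayPt) (by simp) hst.1).1.2
  have hle : permPart ≤ Cfsg.setSystemAut B := by
    rintro σ ⟨c, hc⟩
    have hsupp : ∀ x, Cfsg.ternarySupport (Cfsg.monomialMap σ c x) = σ • Cfsg.ternarySupport x := by
      intro x
      ext i
      rw [← Finset.inv_smul_mem_iff]
      simp [Cfsg.ternarySupport, Cfsg.monomialMap, Equiv.Perm.inv_def]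
    have hsub : σ • B ⊆ B := by
      rintro _ ⟨h, ⟨x, hx, rfl, h6⟩, rfl⟩
      exact ⟨_, hc x hx, hsupp x, by rwa [Finset.card_smul_finset]⟩
    show σ ∈ MulAction.stabilizer (Equiv.Perm Cfsg.ArrayPt) B
    rw [MulAction.mem_stabilizer_iff]
    refine Set.eq_of_subset_of_ncard_le hsub ?_ (Set.toFinite _)
    rw [Set.ncard_smul_set]
  have hcard : Nat.card permPart = 95040 :=
    le_antisymm ((Subgroup.card_le_of_le hle).trans hM.le) card_ge
  have hEq : permPart = Cfsg.setSystemAut B :=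
    Subgroup.eq_of_le_of_card_ge hle (by rw [hcard]; exact hM.le)
  refine ⟨?_, by rw [← hEq]; rfl⟩
  choose c0 hc0 using fun σ : permPart => σ.2
  have hneg : ∀ (σ : permPart) (b : Bool),
      Pres (σ : Equiv.Perm Cfsg.ArrayPt) (fun p => if b then c0 σ p else -c0 σ p) := by
    intro σ b x hx
    cases b
    · have : Cfsg.monomialMap (σ : Equiv.Perm Cfsg.ArrayPt) (fun p => -c0 σ p) x =
          -(Cfsg.monomialMap (σ : Equiv.Perm Cfsg.ArrayPt) (c0 σ) x) := by
        funext i; simp [Cfsg.monomialMap]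
      simpa [this] using Submodule.neg_mem _ (hc0 σ x hx)
    · simpa using hc0 σ x hx
  let f : permPart × Bool → {f : Equiv.Perm Cfsg.ArrayPt × (Cfsg.ArrayPt → (ZMod 3)ˣ) //
      (∀ x ∈ Cfsg.ternaryGolayCode, Cfsg.monomialMap f.1 f.2 x ∈ Cfsg.ternaryGolayCode)} :=
    fun v => ⟨((v.1 : Equiv.Perm Cfsg.ArrayPt), fun p => if v.2 then c0 v.1 p else -c0 v.1 p), hneg _ _⟩
  have hu : ∀ u : (ZMod 3)ˣ, u ≠ -u := by decide
  have hf : Function.Bijective f := by
    constructor
    · rintro ⟨σ, b⟩ ⟨τ, b'⟩ h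
      have h' := congrArg Subtype.val h
      simp only [f, Prod.mk.injEq] at h'
      obtain ⟨e1, e2⟩ := h'
      obtain rfl : σ = τ := Subtype.ext e1
      have e3 := congrFun e2 (0, 0)
      cases b <;> cases b' <;> simp at e3 ⊢
      · exact hu _ e3.symm
      · exact hu _ e3
    · rintro ⟨⟨σ, c⟩, hc⟩
      let τ : permPart := ⟨σ, c, hc⟩
      let d : Cfsg.ArrayPt → (ZMod 3)ˣ := fun i => c i * (c0 τ i)⁻¹
      have hd : ∀ x ∈ Cfsg.ternaryGolayCode, Cfsg.monomialMap 1 d x ∈ Cfsg.ternaryGolayCode := by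
        intro x hx
        let g : Cfsg.ternaryGolayCode → Cfsg.ternaryGolayCode :=
          fun y => ⟨_, hc0 τ y y.2⟩
        have hg : Function.Surjective g := Finite.surjective_of_injective fun a b h =>
          Subtype.ext (monomial_injective _ _ (congrArg Subtype.val h))
        obtain ⟨⟨y, hy⟩, hy'⟩ := hg ⟨x, hx⟩
        have e : Cfsg.monomialMap (τ : Equiv.Perm Cfsg.ArrayPt) (c0 τ) y = x := congrArg Subtype.val hy'
        rw [← e, monomial_comp, one_mul]
        convert hc y hy using 2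
        funext i
        exact inv_mul_cancel_right (c i) (c0 τ i)
      rcases Cfsg.Agent.S1593.result d hd with h | h
      · refine ⟨(τ, true), Subtype.ext (Prod.ext rfl (funext fun p => ?_))⟩
        exact (mul_inv_eq_one.1 (h p)).symm
      · refine ⟨(τ, false), Subtype.ext (Prod.ext rfl (funext fun p => ?_))⟩
        have h' : c p * (c0 τ p)⁻¹ = -1 := h p
        show -c0 τ p = c p
        rw [mul_inv_eq_iff_eq_mul] at h'
        rw [h', neg_one_mul]
  rw [← Nat.card_eq_of_bijective f hf, Nat.card_prod, hcard, Nat.card_eq_fintype_card, Fintype.card_bool]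

end Cfsg.Agent.S1594
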