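import Cfsg.Statements.S1595
import Cfsg.Agent.Steiner.Count

set_option autoImplicit false
open Cfsg

namespace Cfsg.Agent.S1595

/-- Leech triangle of S(5, 6, 12): blocks meet in 0, 2, 3 or 4 points, and a block is met exactly in a given 2-, 3- or 4-subset by 3, 2, 3 blocks respectively. -/
theorem result {α : Type*} [Fintype α] [DecidableEq α] (hα : Fintype.card α = 12) {B : Set (Finset α)} (hB : Cfsg.IsSteinerSystem 5 6 B) (b : Finset α) (hb : b ∈ B) : (∀ c ∈ B, c ≠ b → (b ∩ c).card = 0 ∨ (b ∩ c).card = 2 ∨ (b ∩ c).card = 3 ∨ (b ∩ c).card = 4) ∧ ∀ s ⊆ b, (s.card = 2 → {c : Finset α | c ∈ B ∧ b ∩ c = s}.ncard = 3) ∧ (s.card = 3 → {c : Finset α | c ∈ B ∧ b ∩ c = s}.ncard = 2) ∧ (s.card = 4 → {c : Finset α | c ∈ B ∧ b ∩ c = s}.ncard = 3) := by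
  classical
  obtain ⟨-, h1, -, -, -, h5, -⟩ := CfsgLib.Steiner.meet_12 hB hα hb
  refine ⟨fun c hc hcb => ?_, fun s hs => ?_⟩
  · have hp := CfsgLib.Steiner.meet_pos (Y := b) hc
    rw [Finset.inter_comm] at hp
    have hle : (b ∩ c).card ≤ 4 := by
      by_contra h
      exact hcb (CfsgLib.Steiner.unique_block hB hc hb (by rw [Finset.inter_comm]; omega))
    interval_cases h : (b ∩ c).card <;> simp_all
  let N : Finset α → ℕ := fun t => ((CfsgLib.Steiner.blocks B).filter fun c => b ∩ c = t).card
  have hN : ∀ t, {c : Finset α | c ∈ B ∧ b ∩ c = t}.ncard = N t := fun t => by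
    refine Eq.trans ?_ (Set.ncard_coe_finset _)
    exact congrArg Set.ncard (Set.ext fun c => by simp [CfsgLib.Steiner.mem_blocks])
  have hb6 := hB.1 b hb
  -- blocks through `s` sorted by their trace on `b`
  have split : ∀ (s : Finset α), s ⊆ b → ∀ f : ℕ → ℕ,
      (∀ t, t ⊆ b → s.card < t.card → N t = f t.card) →
      ((CfsgLib.Steiner.blocks B).filter (s ⊆ ·)).card = ∑ m ∈ Finset.range ((b \ s).card + 1),
        (b \ s).card.choose m • (if m = 0 then N s else f (s.card + m)) := by
    intro s hs f hf
    rw [← Finset.sum_powerset_apply_card (fun m => if m = 0 then N s else f (s.card + m)),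
      Finset.card_eq_sum_card_fiberwise (f := fun c => (b ∩ c) \ s) (t := (b \ s).powerset)]
    · refine Finset.sum_congr rfl fun u hu => ?_
      rw [Finset.mem_powerset] at hu
      have hd : Disjoint s u := Finset.disjoint_of_subset_right hu Finset.disjoint_sdiff
      have hc : (s ∪ u).card = s.card + u.card := Finset.card_union_of_disjoint hd
      have e : ((CfsgLib.Steiner.blocks B).filter (s ⊆ ·)).filter (fun c => (b ∩ c) \ s = u) =
          (CfsgLib.Steiner.blocks B).filter fun c => b ∩ c = s ∪ u := by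
        ext c
        simp only [Finset.mem_filter]
        constructor
        · rintro ⟨⟨hcB, hsc⟩, rfl⟩
          exact ⟨hcB, (Finset.union_sdiff_of_subset (Finset.subset_inter hs hsc)).symm⟩
        · rintro ⟨hc, e⟩
          refine ⟨⟨hc, ?_⟩, by rw [e, Finset.union_sdiff_cancel_left hd]⟩
          exact (Finset.subset_union_left.trans e.ge).trans Finset.inter_subset_right
      rw [e]
      show N (s ∪ u) = _
      rcases Nat.eq_zero_or_pos u.card with h0 | h0
      · rw [if_pos h0, Finset.card_eq_zero.1 h0, Finset.union_empty]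
      · rw [if_neg h0.ne', hf _ (Finset.union_subset hs (hu.trans Finset.sdiff_subset)) (by omega), hc]
    · intro c _
      exact Finset.mem_powerset.2 (Finset.sdiff_subset_sdiff Finset.inter_subset_left subset_rfl)
  have n6 : N b = 1 := by
    refine Finset.card_eq_one.2 ⟨b, Finset.eq_singleton_iff_unique_mem.2
      ⟨Finset.mem_filter.2 ⟨CfsgLib.Steiner.mem_blocks.2 hb, Finset.inter_self b⟩, fun c hc => ?_⟩⟩
    obtain ⟨hc1, hc2⟩ := Finset.mem_filter.1 hc
    exact CfsgLib.Steiner.unique_block hB (CfsgLib.Steiner.mem_blocks.1 hc1) hb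
      (by rw [Finset.inter_comm, hc2, hb6]; omega)
  let f : ℕ → ℕ := fun m => if m = 6 then 1 else if m = 5 then 0 else if m = 3 then 2 else 3
  have f56 : ∀ t, t ⊆ b → 5 ≤ t.card → N t = f t.card := by
    intro t ht h
    have := Finset.card_le_card ht
    rcases Nat.lt_or_ge t.card 6 with h6 | h6
    · have h55 : t.card = 5 := by omega
      simp only [f, h55]
      simp only [if_true, show (5 : ℕ) ≠ 6 from by omega, if_false]
      refine Finset.card_eq_zero.2 (Finset.filter_eq_empty_iff.2 ?_)
      intro c hc e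
      have hp := CfsgLib.Steiner.meet_pos (Y := b) (CfsgLib.Steiner.mem_blocks.1 hc)
      rw [Finset.inter_comm, e, h55, h5] at hp
      omega
    · obtain rfl := Finset.eq_of_subset_of_card_le ht (by omega)
      simp [f, hb6, n6]
  have cont : ∀ (s : Finset α), s.card ≤ 5 → ((CfsgLib.Steiner.blocks B).filter (s ⊆ ·)).card *
      Nat.choose (6 - s.card) (5 - s.card) = Nat.choose (12 - s.card) (5 - s.card) := fun s hs => by
    rw [CfsgLib.Steiner.card_containing hB hs, hα]
  have k4 : ∀ t, t ⊆ b → t.card = 4 → N t = 3 := by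
    intro t ht h4
    have h := split t ht f (fun u hu hlt => f56 u hu (by omega))
    have hc := cont t (by omega)
    rw [h, Finset.card_sdiff_of_subset ht, hb6, h4] at hc
    simp [Finset.sum_range_succ, f, Nat.choose_eq_descFactorial_div_factorial,
      Nat.descFactorial_succ, Nat.factorial] at hc
    omega
  have f4 : ∀ t, t ⊆ b → 4 ≤ t.card → N t = f t.card := fun t ht h => by
    rcases Nat.lt_or_ge t.card 5 with h' | h'
    · have e : t.card = 4 := by omega
      rw [k4 t ht e, e]; rfl
    · exact f56 t ht h'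
  have k3 : ∀ t, t ⊆ b → t.card = 3 → N t = 2 := by
    intro t ht h3
    have h := split t ht f (fun u hu hlt => f4 u hu (by omega))
    have hc := cont t (by omega)
    rw [h, Finset.card_sdiff_of_subset ht, hb6, h3] at hc
    simp [Finset.sum_range_succ, f, Nat.choose_eq_descFactorial_div_factorial,
      Nat.descFactorial_succ, Nat.factorial] at hc
    omega
  rw [hN]
  refine ⟨fun h2 => ?_, k3 s hs, k4 s hs⟩
  have h := split s hs f (fun u hu hlt => by
    rcases Nat.lt_or_ge u.card 4 with h' | h'
    · have e : u.card = 3 := by omega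
      rw [k3 u hu e, e]; rfl
    · exact f4 u hu h')
  have hc := cont s (by omega)
  rw [h, Finset.card_sdiff_of_subset hs, hb6, h2] at hc
  simp [Finset.sum_range_succ, f, Nat.choose_eq_descFactorial_div_factorial,
    Nat.descFactorial_succ, Nat.factorial] at hc
  omega

end Cfsg.Agent.S1595
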