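import Cfsg.Statements.S1600
import Cfsg.Agent.Golay.DodStab
import Mathlib
open CfsgLib.Golay
open scoped Pointwise

set_option autoImplicit false
open scoped Pointwise
open Cfsg

namespace Cfsg.Agent.S1600

/-- The pointwise stabiliser of three points of a dodecad inside the dodecad stabiliser (order 72) is transitive on the complementary dodecad. -/
theorem result (d : Finset Cfsg.GolayPt) (hd : d ∈ Cfsg.dodecads) (p q r : Cfsg.GolayPt) (hp : p ∈ d) (hq : q ∈ d) (hr : r ∈ d) (hpq : p ≠ q) (hpr : p ≠ r) (hqr : q ≠ r) : Nat.card ↥(MulAction.stabilizer Cfsg.M24 d ⊓ MulAction.stabilizer Cfsg.M24 p ⊓ MulAction.stabilizer Cfsg.M24 q ⊓ MulAction.stabilizer Cfsg.M24 r) = 72 ∧ ∀ x ∉ d, ∀ y ∉ d, ∃ g ∈ (MulAction.stabilizer Cfsg.M24 d ⊓ MulAction.stabilizer Cfsg.M24 p ⊓ MulAction.stabilizer Cfsg.M24 q ⊓ MulAction.stabilizer Cfsg.M24 r), ((g : ↥Cfsg.M24) : Equiv.Perm Cfsg.GolayPt) x = y := by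
  obtain ⟨a, ha, had, hai⟩ := DodStab.exists_map_in (n := 3) (by omega) DodStab.D_mem hd
    ![ptN 0, ptN 1, ptN 2] ![p, q, r] (by intro i j; revert i j; decide +kernel)
    (by intro i j h; fin_cases i <;> fin_cases j <;> simp_all)
    (by decide +kernel) (by intro i; fin_cases i <;> assumption)
  have h0 : a (ptN 0) = p := hai 0
  have h1 : a (ptN 1) = q := hai 1
  have h2 : a (ptN 2) = r := hai 2
  have conj : ∀ s ∈ DodStab.chainA 3, (a * s * a⁻¹) • d = d ∧ (a * s * a⁻¹) p = p ∧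
      (a * s * a⁻¹) q = q ∧ (a * s * a⁻¹) r = r := by
    intro s hs
    obtain ⟨-, e, f⟩ := DodStab.mem_chainA.1 hs
    refine ⟨by rw [mul_smul, inv_smul_eq_iff.2 had.symm, mul_smul, e, had], ?_, ?_, ?_⟩
    · simp [← h0, f 0 (by decide)]
    · simp [← h1, f 1 (by decide)]
    · simp [← h2, f 2 (by decide)]
  constructor
  · rw [← DodStab.card_chainA.2.2.2.1]
    symm
    refine Nat.card_congr
      { toFun := fun x => ⟨⟨a * x.1 * a⁻¹,
            mul_mem (mul_mem ha (DodStab.mem_chainA.1 x.2).1) (inv_mem ha)⟩,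
          ⟨⟨(conj x.1 x.2).1, (conj x.1 x.2).2.1⟩, (conj x.1 x.2).2.2.1⟩, (conj x.1 x.2).2.2.2⟩
        invFun := fun x => ⟨a⁻¹ * ((x.1 : Cfsg.M24) : Equiv.Perm Cfsg.GolayPt) * a,
          DodStab.mem_chainA.2 ⟨mul_mem (mul_mem (inv_mem ha) x.1.2) ha, ?_, ?_⟩⟩
        left_inv := fun x => by ext1; simp [mul_assoc]
        right_inv := fun x => by ext1; ext1; simp [mul_assoc] }
    · have e : ((x.1 : Cfsg.M24) : Equiv.Perm Cfsg.GolayPt) • d = d := x.2.1.1.1
      rw [mul_smul, had, mul_smul, e, ← had, inv_smul_smul]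
    · intro i hi
      have ep : ((x.1 : Cfsg.M24) : Equiv.Perm Cfsg.GolayPt) p = p := x.2.1.1.2
      have eq : ((x.1 : Cfsg.M24) : Equiv.Perm Cfsg.GolayPt) q = q := x.2.1.2
      have er : ((x.1 : Cfsg.M24) : Equiv.Perm Cfsg.GolayPt) r = r := x.2.2
      simp only [DodStab.inBase, List.take_succ_cons, List.take_zero, List.mem_cons, List.not_mem_nil,
        or_false] at hi
      rcases hi with rfl | rfl | rfl <;> simp only [Equiv.Perm.mul_apply]
      · rw [h0, ep, Equiv.Perm.inv_eq_iff_eq, h0]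
      · rw [h1, eq, Equiv.Perm.inv_eq_iff_eq, h1]
      · rw [h2, er, Equiv.Perm.inv_eq_iff_eq, h2]
  · intro x hx y hy
    have hb : ∀ z, z ∉ d → mask {a⁻¹ z} ∈ ptMasks DodStab.sqD false := by
      intro z hz
      refine mask_mem_ptMasks ?_
      rw [← Bool.not_eq_true]
      intro h
      apply hz
      rw [← had]
      have := Finset.smul_mem_smul_finset (a := a) (mem_toSet.2 h)
      simpa using this
    obtain ⟨s, hs, e⟩ := exists_map_of_orbitOk (by decide) (by omega) DodStab.gensA3_ok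
      DodStab.okA3Out (hb x hx) (hb y hy)
    rw [DodStab.fixA_eq.2.2.2.1] at hs
    have hs' : s ∈ DodStab.chainA 3 := hs
    rw [Finset.smul_finset_singleton, Finset.singleton_inj, Equiv.Perm.smul_def] at e
    obtain ⟨c1, c2, c3, c4⟩ := conj s hs'
    refine ⟨⟨a * s * a⁻¹, mul_mem (mul_mem ha (DodStab.mem_chainA.1 hs').1) (inv_mem ha)⟩,
      ⟨⟨⟨c1, c2⟩, c3⟩, c4⟩, ?_⟩
    change a (s (a⁻¹ x)) = y
    rw [e]
    exact a.apply_symm_apply y

end Cfsg.Agent.S1600
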