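import Cfsg.Statements.S1601
import Cfsg.Agent.MathieuMisc.Transport
import Cfsg.Agent.MathieuMisc.LinEleven
import Cfsg.Agent.PrimeDegree.Bruhat

set_option autoImplicit false
open scoped Pointwise
open Cfsg

namespace Cfsg.Agent.S1601

open CfsgLib.Golay CfsgLib.MathieuTwo CfsgLib.MathieuMisc
open scoped Pointwise

theorem orbit_none : (∀ g ∈ fixGroup [1, DodStab.sqD],
      g • (none : Cfsg.GolayPt) ∈ ((DodStab.Dᶜ : Finset Cfsg.GolayPt) : Set Cfsg.GolayPt)) ∧
    ∀ y ∈ ((DodStab.Dᶜ : Finset Cfsg.GolayPt) : Set Cfsg.GolayPt),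
      ∃ g ∈ fixGroup [1, DodStab.sqD], g • (none : Cfsg.GolayPt) = y := by
  constructor
  · intro g hg
    rw [Finset.mem_coe, Finset.mem_compl, ← (mem_eleven.1 hg).2.2, Equiv.Perm.smul_def]
    intro h
    have h2 := (Finset.smul_mem_smul_finset_iff (a := g)).1 h
    exact absurd h2 (by decide +kernel)
  · intro y hy
    have h := LinEleven.trans_ok
    simp only [Bool.and_eq_true, List.all_eq_true, List.mem_range, Bool.or_eq_true,
      List.any_eq_true, Nat.beq_eq] at h
    rcases h.2 (idx y).val (idx y).isLt with h2 | ⟨t, ht, h2⟩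
    · rw [Finset.mem_coe, Finset.mem_compl, DodStab.D, mem_toSet] at hy
      exact absurd h2 hy
    · obtain ⟨tv, tm⟩ := mem_of_gensOk (by decide) h.1 ht
      refine ⟨_, tm, ?_⟩
      rw [Equiv.Perm.smul_def, show (none : Cfsg.GolayPt) = ptN 23 by decide +kernel,
        im_ptN_eq (show im (permOf (dec t)) 23 = (idx y).val by rw [im_permOf tv (by omega), h2]),
        ptN_idx]

theorem mem_K {σ : Equiv.Perm Cfsg.GolayPt} :
    σ ∈ fixGroup LinEleven.fixd ↔
      σ ∈ fixGroup [1, DodStab.sqD] ⊓ MulAction.stabilizer (Equiv.Perm Cfsg.GolayPt) (none : Cfsg.GolayPt) := by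
  rw [Subgroup.mem_inf, MulAction.mem_stabilizer_iff, Equiv.Perm.smul_def,
    show LinEleven.fixd = [1, DodStab.sqD, 2 ^ 23] by decide +kernel]
  simp only [mem_fixGroup, List.forall_mem_cons, List.not_mem_nil, IsEmpty.forall_iff, implies_true,
    and_true, Simple.toSet_none, Finset.smul_finset_singleton, Finset.singleton_inj,
    Equiv.Perm.smul_def, and_assoc]

theorem card_K : Nat.card (fixGroup LinEleven.fixd) = 660 := by
  have h := card_stab orbit_none.1 orbit_none.2
  rw [Set.ncard_coe_finset, show (DodStab.Dᶜ : Finset Cfsg.GolayPt).card = 12 by decide +kernel,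
    fix_eq_eleven, CfsgLib.MathieuOut.card_M11] at h
  rw [show fixGroup LinEleven.fixd = Cfsg.Spor.M11 ⊓
      MulAction.stabilizer (Equiv.Perm Cfsg.GolayPt) (none : Cfsg.GolayPt) by
    ext σ; rw [mem_K, fix_eq_eleven]]
  omega

/-- The matrix of an element. -/
noncomputable def mat (v : ℕ) : Matrix (Fin 2) (Fin 2) (ZMod 11) :=
  !![(LinEleven.ent v 0 : ZMod 11), (LinEleven.ent v 1 : ZMod 11);
    (LinEleven.ent v 2 : ZMod 11), (LinEleven.ent v 3 : ZMod 11)]

open Classical in
/-- The projective image of a coded matrix. -/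
noncomputable def proj (v : ℕ) : Matrix.ProjectiveSpecialLinearGroup (Fin 2) (ZMod 11) :=
  if h : (mat v).det = 1 then QuotientGroup.mk ⟨mat v, h⟩ else 1

theorem det_mat {v : ℕ}
    (h : (LinEleven.ent v 0 * LinEleven.ent v 3 + (11 - LinEleven.ent v 1) * LinEleven.ent v 2) % 11 = 1) :
    (mat v).det = 1 := by
  have e := congrArg (fun n : ℕ => (n : ZMod 11)) h
  have e11 : (11 : ZMod 11) = 0 := rfl
  have hb : LinEleven.ent v 1 ≤ 11 := (Nat.mod_lt _ (by norm_num)).le
  simp only [ZMod.natCast_mod, Nat.cast_add, Nat.cast_mul, Nat.cast_sub hb, Nat.cast_one,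
    Nat.cast_ofNat, e11, zero_sub, neg_mul] at e
  rw [mat, Matrix.det_fin_two]
  simp only [Matrix.cons_val', Matrix.cons_val_zero, Matrix.cons_val_one, Matrix.of_apply,
    Matrix.empty_val', Matrix.cons_val_fin_one]
  linear_combination e

theorem mk_eq_of_pm {A B : Matrix.SpecialLinearGroup (Fin 2) (ZMod 11)}
    (h : (A : Matrix (Fin 2) (Fin 2) (ZMod 11)) = B ∨ (A : Matrix (Fin 2) (Fin 2) (ZMod 11)) = -B) :
    (QuotientGroup.mk A : Matrix.ProjectiveSpecialLinearGroup (Fin 2) (ZMod 11)) = QuotientGroup.mk B := by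
  rcases h with h | h
  · rw [Subtype.ext h]
  · refine QuotientGroup.eq.2 (Subgroup.mem_center_iff.2 fun X => ?_)
    obtain ⟨N, hN⟩ : ∃ N : Matrix.SpecialLinearGroup (Fin 2) (ZMod 11),
        (N : Matrix (Fin 2) (Fin 2) (ZMod 11)) = -1 :=
      ⟨⟨-1, by rw [Matrix.det_neg, Matrix.det_one]; norm_num⟩, rfl⟩
    have hB : A⁻¹ * B = N := by
      rw [inv_mul_eq_iff_eq_mul]
      refine Subtype.ext ?_
      rw [Matrix.SpecialLinearGroup.coe_mul]
      rw [hN]
      rw [h, mul_neg, mul_one, neg_neg]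
    rw [hB]
    refine Subtype.ext ?_
    rw [Matrix.SpecialLinearGroup.coe_mul, Matrix.SpecialLinearGroup.coe_mul, hN]
    simp

theorem eqSign_spec {p : List ℕ} {z : ℕ} (h : LinEleven.eqSign p z = true) {M : Matrix (Fin 2) (Fin 2) (ZMod 11)}
    (hM : ∀ q : List ℕ, p = q → M = !![((q.getD 0 0 : ℕ) : ZMod 11), ((q.getD 1 0 : ℕ) : ZMod 11);
      ((q.getD 2 0 : ℕ) : ZMod 11), ((q.getD 3 0 : ℕ) : ZMod 11)]) : M = mat z ∨ M = -mat z := by
  simp only [LinEleven.eqSign, Bool.or_eq_true, eqTab_iff] at h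
  have hn : ∀ i, (((11 - LinEleven.ent z i) % 11 : ℕ) : ZMod 11) = -(LinEleven.ent z i : ZMod 11) := by
    intro i
    have hb : LinEleven.ent z i ≤ 11 := (Nat.mod_lt _ (by norm_num)).le
    rw [ZMod.natCast_mod, Nat.cast_sub hb]
    have e11 : ((11 : ℕ) : ZMod 11) = 0 := ZMod.natCast_self 11
    rw [e11, zero_sub]
  rcases h with h | h
  · left; rw [hM _ h, mat]; rfl
  · right
    rw [hM _ h, mat]
    simp only [List.getD_cons_zero, List.getD_cons_succ, hn]
    ext i j; fin_cases i <;> fin_cases j <;> simp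

theorem iso : Nonempty (fixGroup LinEleven.fixd ≃* Matrix.ProjectiveSpecialLinearGroup (Fin 2) (ZMod 11)) := by
  rw [← grp_eq LinEleven.group_ok (grp_le LinEleven.group_ok) card_K]
  have hdet : ∀ l ∈ tabs LinEleven.tree, (mat (LinEleven.code l)).det = 1 := fun l hl => by
    have h := LinEleven.det_ok
    simp only [List.all_eq_true, Nat.beq_eq] at h
    exact det_mat (h l hl)
  have hid : idT ∈ tabs LinEleven.tree := by
    have h := LinEleven.group_ok
    simp only [groupOk, Bool.and_eq_true] at h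
    exact inTabs_spec h.1.1.2
  have hgen : ∀ g ∈ LinEleven.gens, g ∈ tabs LinEleven.tree := fun g hg => by
    obtain ⟨gv, -, gm⟩ := gen_mem LinEleven.group_ok hg
    obtain ⟨l, hl, e⟩ := (mem_grp LinEleven.group_ok).1 gm
    exact permOf_inj (tab_valid LinEleven.group_ok hl) gv e ▸ hl
  refine exists_equiv LinEleven.group_ok (fun l => proj (LinEleven.code l)) ?_ ?_ ?_
    CfsgLib.PrimeDegree.Eleven.card_psl
  · have h := LinEleven.one_ok
    rw [proj, dif_pos (hdet _ hid)]
    refine (QuotientGroup.eq_one_iff _).2 ?_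
    have e := mk_eq_of_pm (A := ⟨mat (LinEleven.code idT), hdet _ hid⟩) (B := 1) (by
      rcases eqSign_spec h (M := 1) (fun q e => by subst e; ext i j; fin_cases i <;> fin_cases j <;> simp) with e | e
      · exact Or.inl e.symm
      · right
        show mat (LinEleven.code idT) = -(1 : Matrix (Fin 2) (Fin 2) (ZMod 11))
        rw [e, neg_neg])
    exact (QuotientGroup.eq_one_iff _).1 (e.trans rfl)
  · intro g hg l hl
    have hgl : mulTab g l ∈ tabs LinEleven.tree := by
      obtain ⟨gv, -, gm⟩ := gen_mem LinEleven.group_ok hg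
      have lv := tab_valid LinEleven.group_ok hl
      obtain ⟨m, hm, e⟩ := (mem_grp LinEleven.group_ok).1 (mul_mem gm (tab_mem LinEleven.group_ok hl))
      obtain ⟨v, e2⟩ := mulTab_spec gv lv
      exact permOf_inj (tab_valid LinEleven.group_ok hm) v (e.trans e2.symm) ▸ hm
    simp only [proj]
    rw [dif_pos (hdet _ hgl), dif_pos (hdet _ (hgen g hg)), dif_pos (hdet _ hl)]
    refine (mk_eq_of_pm (A := ⟨_, hdet _ (hgen g hg)⟩ * ⟨_, hdet _ hl⟩) ?_).symm.trans (QuotientGroup.mk_mul _ _ _)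
    have h := LinEleven.mul_ok
    simp only [List.all_eq_true] at h
    exact eqSign_spec (h g hg l hl) (M := mat (LinEleven.code g) * mat (LinEleven.code l)) (fun q e => by
      subst e
      simp only [mat, LinEleven.pr, List.getD_cons_zero, List.getD_cons_succ, ZMod.natCast_mod,
        Nat.cast_add, Nat.cast_mul]
      ext i j; fin_cases i <;> fin_cases j <;> simp [Matrix.mul_apply, Fin.sum_univ_two])
  · intro l hl h1
    simp only [proj] at h1
    rw [dif_pos (hdet _ hl)] at h1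
    obtain ⟨X, hX⟩ : ∃ X : Matrix.SpecialLinearGroup (Fin 2) (ZMod 11), X = ⟨_, hdet _ hl⟩ := ⟨_, rfl⟩
    rw [← hX] at h1
    replace h1 := (QuotientGroup.eq_one_iff X).1 h1
    have h := LinEleven.ker_ok
    simp only [List.all_eq_true, Bool.or_eq_true, eqTab_iff, Bool.not_eq_true'] at h
    rcases h l hl with h2 | h2
    · exact h2
    exfalso
    obtain ⟨r, hr, hr'⟩ := (Matrix.SpecialLinearGroup.mem_center_iff).1 h1
    simp only [LinEleven.eqSign, Bool.or_eq_false_iff] at h2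
    have e00 := congrFun (congrFun hr' 0) 0
    have e01 := congrFun (congrFun hr' 0) 1
    have e10 := congrFun (congrFun hr' 1) 0
    have e11 := congrFun (congrFun hr' 1) 1
    simp [hX, mat, Matrix.scalar_apply] at e00 e01 e10 e11
    have hlt : ∀ i, LinEleven.ent (LinEleven.code l) i < 11 := fun i => Nat.mod_lt _ (by norm_num)
    have hval : ∀ i, ((LinEleven.ent (LinEleven.code l) i : ZMod 11)).val = LinEleven.ent (LinEleven.code l) i :=
      fun i => by rw [ZMod.val_natCast, Nat.mod_eq_of_lt (hlt i)]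
    have a1 : LinEleven.ent (LinEleven.code l) 1 = 0 := by rw [← hval 1, ← e01]; rfl
    have a2 : LinEleven.ent (LinEleven.code l) 2 = 0 := by rw [← hval 2, ← e10]; rfl
    rw [e00] at hr
    have a3 : LinEleven.ent (LinEleven.code l) 3 = LinEleven.ent (LinEleven.code l) 0 := by
      rw [← hval 3, ← e11, e00, hval 0]
    have a0 : LinEleven.ent (LinEleven.code l) 0 = 1 ∨ LinEleven.ent (LinEleven.code l) 0 = 10 := by
      have key : ∀ b : Fin 11, ((b.val : ℕ) : ZMod 11) ^ 2 = 1 → b.val = 1 ∨ b.val = 10 := by decide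
      exact key ⟨_, hlt 0⟩ (by simpa using hr)
    rcases a0 with a0 | a0
    · rw [a1, a2, a3, a0] at h2
      exact absurd h2.1 (by decide)
    · rw [a1, a2, a3, a0] at h2
      exact absurd h2.2 (by decide)


/-- In the 3-transitive action of the smallest Mathieu group on the complementary dodecad, a point stabiliser is isomorphic to PSL(2, 11). -/
theorem result (d : Finset Cfsg.GolayPt) (hd : d ∈ Cfsg.dodecads) (p q : Cfsg.GolayPt) (hp : p ∈ d) (hq : q ∉ d) : Nonempty (↥(MulAction.stabilizer Cfsg.M24 d ⊓ MulAction.stabilizer Cfsg.M24 p ⊓ MulAction.stabilizer Cfsg.M24 q) ≃* Matrix.ProjectiveSpecialLinearGroup (Fin 2) (ZMod 11)) := by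
  obtain ⟨a, ha, had, hap⟩ := exists_std d hd p hp
  have hq' : a q ∈ ((DodStab.Dᶜ : Finset Cfsg.GolayPt) : Set Cfsg.GolayPt) := by
    rw [Finset.mem_coe, Finset.mem_compl, ← had]
    intro h
    exact hq ((Finset.smul_mem_smul_finset_iff (a := a)).1 h)
  obtain ⟨b, hb, hbq⟩ := orbit_none.2 _ hq'
  obtain ⟨hbM, hb0, hbD⟩ := mem_eleven.1 hb
  set c := b⁻¹ * a with hc
  have hcM : c ∈ Cfsg.M24 := mul_mem (inv_mem hbM) ha
  have hcd : c • d = DodStab.D := by rw [hc, mul_smul, had, inv_smul_eq_iff, hbD]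
  have hcp : c p = some 0 := by rw [hc, Equiv.Perm.mul_apply, hap, Equiv.Perm.inv_eq_iff_eq, hb0]
  have hcq : c q = none := by
    rw [hc, Equiv.Perm.mul_apply, Equiv.Perm.inv_eq_iff_eq]
    exact hbq.symm
  obtain ⟨e⟩ := iso
  refine ⟨(((MulAction.stabilizer Cfsg.M24 d ⊓ MulAction.stabilizer Cfsg.M24 p ⊓
      MulAction.stabilizer Cfsg.M24 q).equivMapOfInjective _ Cfsg.M24.subtype_injective).trans
    (Simple.conjEquiv c _ (fixGroup LinEleven.fixd) fun σ => ?_)).trans e⟩
  rw [Simple.mem_map_subtype, mem_K, Subgroup.mem_inf, mem_eleven]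
  show _ ↔ (_ ∧ _) ∧ (c * σ * c⁻¹) none = none
  rw [Simple.conj_mem_M24 hcM, ← hcd, Simple.conj_smul_eq, ← hcp, ← hcq, Simple.conj_apply_eq,
    Simple.conj_apply_eq]
  exact ⟨fun ⟨h, ⟨⟨e1, e2⟩, e3⟩⟩ => ⟨⟨h, e2, e1⟩, e3⟩, fun ⟨⟨h, e2, e1⟩, e3⟩ => ⟨h, ⟨⟨e1, e2⟩, e3⟩⟩⟩

end Cfsg.Agent.S1601
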