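import Cfsg.Statements.S1602
import Cfsg.Agent.MathieuMisc.Transport
import Cfsg.Agent.MathieuMisc.SymFive

set_option autoImplicit false
open scoped Pointwise
open Cfsg

namespace Cfsg.Agent.S1602

open CfsgLib.Golay CfsgLib.MathieuTwo CfsgLib.MathieuMisc
open scoped Pointwise

/-- The standard pair. -/
abbrev pair : Finset Cfsg.GolayPt := {none, some 5}

theorem toSet_two : ∀ u v : Cfsg.GolayPt, u ≠ v →
    toSet (2 ^ (idx u).val + 2 ^ (idx v).val) = {u, v} := by decide +kernel

theorem toSet_pair : toSet 8388640 = pair := by decide +kernel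

theorem orbit_pair : (∀ g ∈ fixGroup [1, DodStab.sqD],
      g • pair ∈ ((DodStab.Dᶜ.powersetCard 2 : Finset (Finset Cfsg.GolayPt)) : Set (Finset Cfsg.GolayPt))) ∧
    ∀ y ∈ ((DodStab.Dᶜ.powersetCard 2 : Finset (Finset Cfsg.GolayPt)) : Set (Finset Cfsg.GolayPt)),
      ∃ g ∈ fixGroup [1, DodStab.sqD], g • pair = y := by
  constructor
  · intro g hg
    rw [Finset.mem_coe, Finset.mem_powersetCard, Finset.card_smul_finset]
    refine ⟨fun x hx => ?_, rfl⟩
    obtain ⟨u, hu, rfl⟩ := Finset.mem_smul_finset.1 hx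
    rw [Finset.mem_compl, ← (mem_eleven.1 hg).2.2]
    intro h
    have h2 := (Finset.smul_mem_smul_finset_iff (a := g)).1 h
    have h3 : ∀ v ∈ pair, v ∉ DodStab.D := by decide +kernel
    exact h3 u hu h2
  · intro y hy
    rw [Finset.mem_coe, Finset.mem_powersetCard, Finset.card_eq_two] at hy
    obtain ⟨hsub, u, v, huv, rfl⟩ := hy
    have hu := hsub (Finset.mem_insert_self u {v})
    have hv := hsub (Finset.mem_insert_of_mem (Finset.mem_singleton_self v) : v ∈ ({u, v} : Finset Cfsg.GolayPt))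
    rw [Finset.mem_compl, DodStab.D, mem_toSet] at hu hv
    have h := SymFive.trans_ok
    simp only [Bool.and_eq_true, List.all_eq_true, List.mem_range, Bool.or_eq_true,
      List.any_eq_true, Nat.beq_eq] at h
    rcases h.2 (idx u).val (idx u).isLt (idx v).val (idx v).isLt with ((h2 | h2) | h2) | ⟨t, ht, h2⟩
    · exact absurd h2 hu
    · exact absurd h2 hv
    · exact absurd (idx_injective (Fin.ext h2)) huv
    · obtain ⟨tv, tm⟩ := mem_of_gensOk (by decide) h.1 ht
      refine ⟨_, tm, mask_injective ?_⟩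
      rw [← toSet_pair, ← toSet_two u v huv, mask_smul tv, mask_toSet (by norm_num), h2, mask_toSet]
      have a := Nat.pow_le_pow_right (show 0 < 2 by norm_num) (Nat.le_of_lt_succ (idx u).isLt)
      have b := Nat.pow_lt_pow_right (show 1 < 2 by norm_num) (idx v).isLt
      rcases eq_or_ne (idx v).val 23 with hv' | hv'
      · have : (idx u).val ≤ 22 := by
          have := (idx u).isLt
          have : (idx u).val ≠ (idx v).val := fun e => huv (idx_injective (Fin.ext e))
          omega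
        have := Nat.pow_le_pow_right (show 0 < 2 by norm_num) this
        rw [hv']; omega
      · have : (idx v).val ≤ 22 := by have := (idx v).isLt; omega
        have := Nat.pow_le_pow_right (show 0 < 2 by norm_num) this
        omega

theorem mem_K {σ : Equiv.Perm Cfsg.GolayPt} :
    σ ∈ fixGroup SymFive.fixd ↔
      σ ∈ fixGroup [1, DodStab.sqD] ⊓ MulAction.stabilizer (Equiv.Perm Cfsg.GolayPt) pair := by
  rw [Subgroup.mem_inf, MulAction.mem_stabilizer_iff,
    show SymFive.fixd = [1, DodStab.sqD, 8388640] by decide +kernel]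
  simp only [mem_fixGroup, List.forall_mem_cons, List.not_mem_nil, IsEmpty.forall_iff, implies_true,
    and_true, toSet_pair, and_assoc]

theorem card_K : Nat.card (fixGroup SymFive.fixd) = 120 := by
  have h := card_stab orbit_pair.1 orbit_pair.2
  rw [Set.ncard_coe_finset, Finset.card_powersetCard,
    show (DodStab.Dᶜ : Finset Cfsg.GolayPt).card = 12 by decide +kernel,
    show Nat.choose 12 2 = 66 by rfl, fix_eq_eleven, CfsgLib.MathieuOut.card_M11] at h
  rw [show fixGroup SymFive.fixd = Cfsg.Spor.M11 ⊓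
      MulAction.stabilizer (Equiv.Perm Cfsg.GolayPt) pair by
    ext σ; rw [mem_K, fix_eq_eleven]]
  omega

/-- The map on five points. -/
def act (l : List ℕ) : Function.End (Fin 5) := fun i =>
  ⟨(SymFive.code l).getD i.val 0 % 5, Nat.mod_lt _ (by omega)⟩

theorem act_one : ∀ i : Fin 5, (act idT i).val = i.val := by decide +kernel

theorem act_mul : ∀ g ∈ SymFive.gens, ∀ l ∈ tabs SymFive.tree, ∀ i : Fin 5,
    (act (mulTab g l) i).val = (act g (act l i)).val := by decide +kernel

theorem act_ker : (tabs SymFive.tree).all (fun l =>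
    eqTab l idT || (List.range 5).any fun i => !(Nat.beq ((SymFive.code l).getD i 0 % 5) i)) = true := by
  decide +kernel

theorem iso : Nonempty (fixGroup SymFive.fixd ≃* Equiv.Perm (Fin 5)) := by
  rw [← grp_eq SymFive.group_ok (grp_le SymFive.group_ok) card_K]
  obtain ⟨φ, hφ⟩ := exists_hom SymFive.group_ok act (funext fun i => Fin.ext (act_one i))
    (fun g hg l hl => funext fun i => Fin.ext (act_mul g hg l hl i)) (fun l hl e => by
      have h := act_ker
      simp only [List.all_eq_true, Bool.or_eq_true, eqTab_iff, List.any_eq_true, List.mem_range,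
        Bool.not_eq_true'] at h
      rcases h l hl with h1 | ⟨i, hi, h1⟩
      · exact h1
      · have h2 : (act l ⟨i, hi⟩).val = i := by rw [e]; rfl
        rw [act] at h2
        simp only at h2
        rw [← Nat.beq_eq, h1] at h2
        simp at h2)
  let ψ : grp SymFive.gens →* Equiv.Perm (Fin 5) :=
    Equiv.Perm.equivUnitsEnd.symm.toMonoidHom.comp φ.toHomUnits
  have hψ : Function.Injective ψ := fun a b e => by
    have e2 := Equiv.Perm.equivUnitsEnd.symm.injective e
    exact hφ (congrArg Units.val e2)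
  refine ⟨MulEquiv.ofBijective ψ ((Nat.bijective_iff_injective_and_card ψ).2 ⟨hψ, ?_⟩)⟩
  rw [card_grp SymFive.group_ok, Nat.card_perm, Nat.card_fin]
  rfl


/-- In the 12-point action of the smallest Mathieu group the setwise stabiliser of a pair is isomorphic to the symmetric group of degree 5. -/
theorem result (d : Finset Cfsg.GolayPt) (hd : d ∈ Cfsg.dodecads) (p q q' : Cfsg.GolayPt) (hp : p ∈ d) (hq : q ∉ d) (hq' : q' ∉ d) (hqq' : q ≠ q') : Nonempty (↥(MulAction.stabilizer Cfsg.M24 d ⊓ MulAction.stabilizer Cfsg.M24 p ⊓ MulAction.stabilizer Cfsg.M24 ({q, q'} : Finset Cfsg.GolayPt)) ≃* Equiv.Perm (Fin 5)) := by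
  obtain ⟨a, ha, had, hap⟩ := exists_std d hd p hp
  have ho : ∀ r, r ∉ d → a r ∉ DodStab.D := fun r hr h => by
    rw [← had] at h
    exact hr ((Finset.smul_mem_smul_finset_iff (a := a)).1 h)
  have hq'' : a • ({q, q'} : Finset Cfsg.GolayPt) ∈
      ((DodStab.Dᶜ.powersetCard 2 : Finset (Finset Cfsg.GolayPt)) : Set (Finset Cfsg.GolayPt)) := by
    rw [Finset.mem_coe, Finset.mem_powersetCard, Finset.card_smul_finset, Finset.card_pair hqq']
    refine ⟨fun x hx => ?_, rfl⟩
    obtain ⟨u, hu, rfl⟩ := Finset.mem_smul_finset.1 hx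
    rw [Finset.mem_compl]
    rcases Finset.mem_insert.1 hu with rfl | hu
    · exact ho _ hq
    · rw [Finset.mem_singleton] at hu; subst hu; exact ho _ hq'
  obtain ⟨b, hb, hbq⟩ := orbit_pair.2 _ hq''
  obtain ⟨hbM, hb0, hbD⟩ := mem_eleven.1 hb
  set c := b⁻¹ * a with hc
  have hcM : c ∈ Cfsg.M24 := mul_mem (inv_mem hbM) ha
  have hcd : c • d = DodStab.D := by rw [hc, mul_smul, had, inv_smul_eq_iff, hbD]
  have hcp : c p = some 0 := by rw [hc, Equiv.Perm.mul_apply, hap, Equiv.Perm.inv_eq_iff_eq, hb0]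
  have hcq : c • ({q, q'} : Finset Cfsg.GolayPt) = pair := by rw [hc, mul_smul, ← hbq, inv_smul_smul]
  obtain ⟨e⟩ := iso
  refine ⟨(((MulAction.stabilizer Cfsg.M24 d ⊓ MulAction.stabilizer Cfsg.M24 p ⊓
      MulAction.stabilizer Cfsg.M24 ({q, q'} : Finset Cfsg.GolayPt)).equivMapOfInjective _
        Cfsg.M24.subtype_injective).trans
    (Simple.conjEquiv c _ (fixGroup SymFive.fixd) fun σ => ?_)).trans e⟩
  rw [Simple.mem_map_subtype, mem_K, Subgroup.mem_inf, mem_eleven]
  show _ ↔ (_ ∧ _) ∧ (c * σ * c⁻¹) • pair = pair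
  rw [Simple.conj_mem_M24 hcM, ← hcd, Simple.conj_smul_eq, ← hcp, ← hcq, Simple.conj_apply_eq,
    Simple.conj_smul_eq]
  exact ⟨fun ⟨h, ⟨⟨e1, e2⟩, e3⟩⟩ => ⟨⟨h, e2, e1⟩, e3⟩, fun ⟨⟨h, e2, e1⟩, e3⟩ => ⟨h, ⟨⟨e1, e2⟩, e3⟩⟩⟩

end Cfsg.Agent.S1602
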