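import Cfsg.Statements.S1604
import Cfsg.Agent.Golay.SuborbApp
import Mathlib
open CfsgLib.Golay CfsgLib.Golay.Suborb
open scoped Pointwise

set_option autoImplicit false
open scoped Pointwise
open Cfsg

namespace Cfsg.Agent.S1604

/-- A hexad stabiliser in the two-point stabiliser has orbits of sizes 1, 16, 60 on the 77 hexads: the 16 hexads disjoint from it and the 60 meeting it in two points. -/
theorem result (p q : Cfsg.GolayPt) (hpq : p ≠ q) (o o' o'' : Finset Cfsg.GolayPt) (ho : o ∈ Cfsg.octads) (ho' : o' ∈ Cfsg.octads) (ho'' : o'' ∈ Cfsg.octads) (hp : p ∈ o ∧ p ∈ o' ∧ p ∈ o'') (hq : q ∈ o ∧ q ∈ o' ∧ q ∈ o'') (h : (o ∩ o').card = (o ∩ o'').card) : {x : Finset Cfsg.GolayPt | x ∈ Cfsg.octads ∧ p ∈ x ∧ q ∈ x ∧ (o ∩ x).card = 2}.ncard = 16 ∧ {x : Finset Cfsg.GolayPt | x ∈ Cfsg.octads ∧ p ∈ x ∧ q ∈ x ∧ (o ∩ x).card = 4}.ncard = 60 ∧ ∃ g : Equiv.Perm Cfsg.GolayPt, g ∈ Cfsg.M24 ∧ g p = p ∧ g q = q ∧ g • o = o ∧ g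 • o' = o'' := by
  obtain ⟨hp1, hp2, hp3⟩ := hp
  obtain ⟨hq1, hq2, hq3⟩ := hq
  have P := at_pqOct hpq ho hp1 hq1
  have n12 : ({p} : Finset Cfsg.GolayPt) ≠ {p, q} := fun e => by
    have := congrArg Finset.card e; rw [Finset.card_singleton, Finset.card_pair hpq] at this; omega
  have n1o : ({p} : Finset Cfsg.GolayPt) ≠ o := fun e => by
    have := congrArg Finset.card e; rw [Finset.card_singleton, card_of_mem_octads ho] at this; omega
  have n2o : ({p, q} : Finset Cfsg.GolayPt) ≠ o := fun e => by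
    have := congrArg Finset.card e; rw [Finset.card_pair hpq, card_of_mem_octads ho] at this; omega
  have cond : ∀ x : Finset Cfsg.GolayPt, throughPair ({{p}, {p, q}, o} : Fam) x ↔ p ∈ x ∧ q ∈ x := by
    intro x
    simp [throughPair, Finset.card_pair hpq, card_of_mem_octads ho, Finset.insert_subset_iff]
  have val : ∀ x : Finset Cfsg.GolayPt, p ∈ x → q ∈ x →
      crossInv ({{p}, {p, q}, o} : Fam) {x} = 17 + (o ∩ x).card ^ 4 := by
    intro x hx hy
    rw [crossInv_triple n12 n1o n2o, Finset.inter_eq_left.2 (Finset.singleton_subset_iff.2 hx),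
      Finset.inter_eq_left.2 (Finset.insert_subset hx (Finset.singleton_subset_iff.2 hy)),
      Finset.card_singleton, Finset.card_pair hpq]
    ring
  have cnt : ∀ k n : ℕ, (17 + k ^ 4, n) ∈ PQOct.table →
      {x : Finset Cfsg.GolayPt | x ∈ Cfsg.octads ∧ p ∈ x ∧ q ∈ x ∧ (o ∩ x).card = k}.ncard = n := by
    intro k n h
    refine P.size_octads h fun x => ?_
    rw [cond]
    constructor
    · rintro ⟨a, b, c, d⟩; exact ⟨⟨a, b, c⟩, by rw [val x b c, d]⟩
    · rintro ⟨⟨a, b, c⟩, d⟩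
      rw [val x b c] at d
      exact ⟨a, b, c, pow_four_inj (by omega)⟩
  refine ⟨cnt 2 16 (by decide), cnt 4 60 (by decide), ?_⟩
  obtain ⟨σ, hσ, hA, e⟩ := P.trans_octads ho' ((cond _).2 ⟨hp2, hq2⟩) ho'' ((cond _).2 ⟨hp3, hq3⟩)
    (by rw [val _ hp2 hq2, val _ hp3 hq3, h])
  obtain ⟨h1, h2, h3⟩ := fix_three hpq (by rw [card_of_mem_octads ho]; omega) hA
  exact ⟨σ, hσ, h1, h2, h3, e⟩

end Cfsg.Agent.S1604
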