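import Cfsg.Statements.S1605
import Cfsg.Agent.Golay.SuborbApp
import Mathlib
open CfsgLib.Golay CfsgLib.Golay.Suborb
open scoped Pointwise

set_option autoImplicit false
open scoped Pointwise
open Cfsg

namespace Cfsg.Agent.S1605

/-- The two-point stabiliser acts on the 176 octads through the first point avoiding the second with rank 3 and subdegrees 1, 70, 105 (intersections 8, 2, 4). -/
theorem result (p q : Cfsg.GolayPt) (hpq : p ≠ q) : {x : Finset Cfsg.GolayPt | (x ∈ Cfsg.octads ∧ p ∈ x ∧ q ∉ x)}.ncard = 176 ∧ (∀ o o' : Finset Cfsg.GolayPt, (o ∈ Cfsg.octads ∧ p ∈ o ∧ q ∉ o) → (o' ∈ Cfsg.octads ∧ p ∈ o' ∧ q ∉ o') → ∃ g : Equiv.Perm Cfsg.GolayPt, g ∈ Cfsg.M24 ∧ g p = p ∧ g q = q ∧ g • o = o') ∧ ∀ o : Finset Cfsg.GolayPt, (o ∈ Cfsg.octads ∧ p ∈ o ∧ q ∉ o) → {x : Finset Cfsg.GolayPt | (x ∈ Cfsg.octads ∧ p ∈ x ∧ q ∉ x) ∧ (o ∩ x).card = 2}.ncard = 70 ∧ {x : Finset Cfsg.GolayPt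 | (x ∈ Cfsg.octads ∧ p ∈ x ∧ q ∉ x) ∧ (o ∩ x).card = 4}.ncard = 105 ∧ ∀ o' o'' : Finset Cfsg.GolayPt, (o' ∈ Cfsg.octads ∧ p ∈ o' ∧ q ∉ o') → (o'' ∈ Cfsg.octads ∧ p ∈ o'' ∧ q ∉ o'') → (o ∩ o').card = (o ∩ o'').card → ∃ g : Equiv.Perm Cfsg.GolayPt, g ∈ Cfsg.M24 ∧ g p = p ∧ g q = q ∧ g • o = o ∧ g • o' = o'' := by
  have P0 := at_pqTrans hpq
  refine ⟨?_, ?_, ?_⟩
  · refine P0.size_octads (v := 2) (by decide) fun x => ?_
    rw [card_le_one_imp hpq rfl]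
    refine ⟨fun h => ⟨h, ?_⟩, fun h => h.1⟩
    have := P0.cover _ (KOct_mem.2 ⟨h.1, (card_le_one_imp hpq rfl).2 h.2⟩)
    simpa [PQTrans.table] using this
  · rintro o o' ⟨ho, hp1, hq1⟩ ⟨ho', hp2, hq2⟩
    exact trans_pq_not hpq ho ho' hp1 hq1 hp2 hq2
  rintro o ⟨ho, hp, hq⟩
  have P := at_pqOctSub hpq ho hp hq
  have n12 : ({p} : Finset Cfsg.GolayPt) ≠ {p, q} := fun e => by
    have := congrArg Finset.card e; rw [Finset.card_singleton, Finset.card_pair hpq] at this; omega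
  have n1o : ({p} : Finset Cfsg.GolayPt) ≠ o := fun e => by
    have := congrArg Finset.card e; rw [Finset.card_singleton, card_of_mem_octads ho] at this; omega
  have n2o : ({p, q} : Finset Cfsg.GolayPt) ≠ o := fun e => by
    have := congrArg Finset.card e; rw [Finset.card_pair hpq, card_of_mem_octads ho] at this; omega
  have cond : ∀ x : Finset Cfsg.GolayPt, pointNotPair ({{p}, {p, q}, o} : Fam) x ↔ p ∈ x ∧ q ∉ x := by
    intro x
    simp [pointNotPair, Finset.card_pair hpq, card_of_mem_octads ho, Finset.insert_subset_iff]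
    tauto
  have val : ∀ x : Finset Cfsg.GolayPt, p ∈ x → q ∉ x →
      crossInv ({{p}, {p, q}, o} : Fam) {x} = 2 + (o ∩ x).card ^ 4 := by
    intro x hx hy
    rw [crossInv_triple n12 n1o n2o, Finset.inter_eq_left.2 (Finset.singleton_subset_iff.2 hx),
      show ({p, q} : Finset Cfsg.GolayPt) ∩ x = {p} by
        ext z
        simp only [Finset.mem_inter, Finset.mem_insert, Finset.mem_singleton]
        exact ⟨fun h => h.1.resolve_right fun e => hy (e ▸ h.2), fun e => ⟨Or.inl e, e ▸ hx⟩⟩,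
      Finset.card_singleton]
    ring
  have cnt : ∀ k n : ℕ, (2 + k ^ 4, n) ∈ PQOctSub.table →
      {x : Finset Cfsg.GolayPt | (x ∈ Cfsg.octads ∧ p ∈ x ∧ q ∉ x) ∧ (o ∩ x).card = k}.ncard = n := by
    intro k n h
    refine P.size_octads h fun x => ?_
    rw [cond]
    constructor
    · rintro ⟨⟨a, b, c⟩, d⟩; exact ⟨⟨a, b, c⟩, by rw [val x b c, d]⟩
    · rintro ⟨⟨a, b, c⟩, d⟩
      rw [val x b c] at d
      exact ⟨⟨a, b, c⟩, pow_four_inj (by omega)⟩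
  refine ⟨cnt 2 70 (by decide), cnt 4 105 (by decide), ?_⟩
  rintro o' o'' ⟨ho', hp2, hq2⟩ ⟨ho'', hp3, hq3⟩ h
  obtain ⟨σ, hσ, hA, e⟩ := P.trans_octads ho' ((cond _).2 ⟨hp2, hq2⟩) ho'' ((cond _).2 ⟨hp3, hq3⟩)
    (by rw [val _ hp2 hq2, val _ hp3 hq3, h])
  obtain ⟨h1, h2, h3⟩ := fix_three hpq (by rw [card_of_mem_octads ho]; omega) hA
  exact ⟨σ, hσ, h1, h2, h3, e⟩

end Cfsg.Agent.S1605
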