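import Cfsg.Statements.S1608
import Cfsg.Agent.Golay.SuborbApp
import Mathlib
open CfsgLib.Golay CfsgLib.Golay.Suborb
open scoped Pointwise

set_option autoImplicit false
open scoped Pointwise
open Cfsg

namespace Cfsg.Agent.S1608

/-- The point stabiliser acts on the 506 octads avoiding the point with rank 4 and subdegrees 1, 15, 210, 280, the suborbits being given by intersection size with the fixed octad. -/
theorem result (x : Cfsg.GolayPt) (o : Finset Cfsg.GolayPt) (ho : o ∈ Cfsg.octads) (hx : x ∉ o) : {o' : Finset Cfsg.GolayPt | o' ∈ Cfsg.octads ∧ x ∉ o' ∧ (o ∩ o').card = 0}.ncard = 15 ∧ {o' : Finset Cfsg.GolayPt | o' ∈ Cfsg.octads ∧ x ∉ o' ∧ (o ∩ o').card = 4}.ncard = 210 ∧ {o' : Finset Cfsg.GolayPt | o' ∈ Cfsg.octads ∧ x ∉ o' ∧ (o ∩ o').card = 2}.ncard = 280 ∧ ∀ o' o'' : Finset Cfsg.GolayPt, o' ∈ Cfsg.octads → o'' ∈ Cfsg.octads → x ∉ o' → x ∉ o'' → (o ∩ o').card = (o ∩ o'').card → ∃ g : Equiv.Perm Cfsg.GolayPt,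 g ∈ Cfsg.M24 ∧ g x = x ∧ g • o = o ∧ g • o' = o'' := by
  have P := at_xOctOut ho hx
  have n1o : ({x} : Finset Cfsg.GolayPt) ≠ o := fun e => by
    have := congrArg Finset.card e; rw [Finset.card_singleton, card_of_mem_octads ho] at this; omega
  have cond : ∀ y : Finset Cfsg.GolayPt, avoidPt ({{x}, o} : Fam) y ↔ x ∉ y := by
    intro y
    simp [avoidPt, card_of_mem_octads ho]
  have val : ∀ y : Finset Cfsg.GolayPt, x ∉ y →
      crossInv ({{x}, o} : Fam) {y} = 0 + (o ∩ y).card ^ 4 := by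
    intro y hy
    rw [crossInv_pair n1o, Finset.singleton_inter_of_notMem hy, Finset.card_empty]
    norm_num
  have cnt : ∀ k n : ℕ, (0 + k ^ 4, n) ∈ XOctOut.table →
      {y : Finset Cfsg.GolayPt | y ∈ Cfsg.octads ∧ x ∉ y ∧ (o ∩ y).card = k}.ncard = n := by
    intro k n h
    refine P.size_octads h fun y => ?_
    rw [cond]
    constructor
    · rintro ⟨a, b, d⟩; exact ⟨⟨a, b⟩, by rw [val y b, d]⟩
    · rintro ⟨⟨a, b⟩, d⟩
      rw [val y b] at d
      exact ⟨a, b, pow_four_inj (by omega)⟩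
  refine ⟨cnt 0 15 (by decide), cnt 4 210 (by decide), cnt 2 280 (by decide), ?_⟩
  intro o' o'' ho' ho'' hp2 hp3 h
  obtain ⟨σ, hσ, hA, e⟩ := P.trans_octads ho' ((cond _).2 hp2) ho'' ((cond _).2 hp3)
    (by rw [val _ hp2, val _ hp3, h])
  obtain ⟨h1, h2⟩ := fix_two (by rw [card_of_mem_octads ho]; omega) hA
  exact ⟨σ, hσ, h1, h2, e⟩

end Cfsg.Agent.S1608
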