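import Cfsg.Statements.S1612
import Cfsg.Agent.ThreeTrans.Monolith

set_option autoImplicit false
open Cfsg

namespace Cfsg.Agent.S1612

open CfsgLib.ThreeTrans

/-- A commuting set of transpositions of maximum size contains all transpositions of a 2-group containing it. -/
theorem mem_of_twoGroup {G : Type*} [Group G] [Finite G] {D : Set G} (hD : Cfsg.IsThreeTranspositionClass D)
    {E : Set G} (hE : E ⊆ D) (hmax : ∀ E' : Set G, E' ⊆ D → (∀ a ∈ E', ∀ b ∈ E', Commute a b) → E'.ncard ≤ E.ncard)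
    {P : Subgroup G} (hP : IsPGroup 2 P) (hEP : ∀ e ∈ E, e ∈ P) {d : G} (hd : d ∈ D) (hdP : d ∈ P) : d ∈ E := by
  by_contra hdE
  have hcard := hmax (insert d E) (Set.insert_subset hd hE) fun a ha b hb => by
    have haP : a ∈ P := ha.elim (fun e => e ▸ hdP) (hEP a)
    have hbP : b ∈ P := hb.elim (fun e => e ▸ hdP) (hEP b)
    have haD : a ∈ D := ha.elim (fun e => e ▸ hd) (fun h => hE h)
    have hbD : b ∈ D := hb.elim (fun e => e ▸ hd) (fun h => hE h)
    obtain ⟨k, hk⟩ := hP ⟨a * b, P.mul_mem haP hbP⟩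
    exact commute_of_mul_mem_two_group (mul_self hD.1 haD) (mul_self hD.1 hbD) (hD.1.2 a haD b hbD)
      (congrArg Subtype.val hk)
  rw [Set.ncard_insert_of_notMem hdE (Set.toFinite E)] at hcard
  omega

/-- In a 3-transposition group (no solvable normal subgroup, perfect derived group), the normaliser of a commuting set of transpositions of maximum size contains a Sylow 2-subgroup and is doubly transitive on the set. -/
theorem result {G : Type*} [Group G] [Finite G] (hsol : ∀ N : Subgroup G, N.Normal → Group.IsSolvable ↥N → N = ⊥) (hperf : ⁅commutator G, commutator G⁆ = commutator G) {D : Set G} (hD : Cfsg.IsThreeTranspositionClass D) {E : Set G} (hE : E ⊆ D) (hc : ∀ a ∈ E, ∀ b ∈ E, Commute a b) (hmax : ∀ E' : Set G, E' ⊆ D → (∀ a ∈ E', ∀ b ∈ E', Commute a b) → E'.ncard ≤ E.ncard) : (∃ P : Sylow 2 G, (P : Subgroup G) ≤ Subgroup.normalizer E) ∧ ∀ a ∈ E, ∀ b ∈ E, ∀ c ∈ E, ∀ d ∈ E, a ≠ b → c ≠ d → ∃ g ∈ Subgroup.normalizer E, g * a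 * g⁻¹ = c ∧ g * b * g⁻¹ = d := by
  haveI := Fact.mk Nat.prime_three
  haveI := Fact.mk Nat.prime_two
  have hM := CfsgLib.ThreeTrans.mono_of_perfect hD hsol hperf
  have hG : ¬ IsPGroup 3 (commutator G) := CfsgLib.ThreeTrans.not_isPGroup_commutator hD hsol
  have h2grp : ∀ F : Set G, F ⊆ D → (∀ a ∈ F, ∀ b ∈ F, Commute a b) → IsPGroup 2 (Subgroup.closure F) :=
    fun F hF hFc g => ⟨1, Subtype.ext (by
      simpa [pow_two] using mul_self_of_mem_closure hFc (fun c hc => mul_self hD.1 (hF hc)) g.2)⟩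
  refine ⟨?_, ?_⟩
  · obtain ⟨P, hP⟩ := (h2grp E hE hc).exists_le_sylow
    refine ⟨P, fun g hg => Subgroup.mem_normalizer_fintype fun e he => ?_⟩
    have heP : ∀ e ∈ E, e ∈ (P : Subgroup G) := fun e he => hP (Subgroup.subset_closure he)
    exact mem_of_twoGroup hD hE hmax P.2 heP (class_conj_mem hD g (hE he))
      (mul_mem (mul_mem hg (heP e he)) (inv_mem hg))
  intro a ha b hb c hc' d hd hab hcd
  obtain ⟨g₁, hg₁⟩ := class_exists_conj hD (hE ha) (hE hc')
  have hb1 : g₁ * b * g₁⁻¹ ∈ Perp D c := by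
    rw [← hg₁, perp_conj hD]
    exact ⟨b, ⟨hE hb, hab.symm, hc a ha b hb⟩, rfl⟩
  obtain ⟨k, hk, hk'⟩ := perp_transitive hD hM hG (hE hc') hb1 ⟨hE hd, hcd.symm, hc c hc' d hd⟩
  have hkc : Commute k c := by
    have hle : Subgroup.closure (Perp D c) ≤ Subgroup.centralizer ({c} : Set G) := by
      rw [Subgroup.closure_le]
      intro z hz
      rw [SetLike.mem_coe, Subgroup.mem_centralizer_singleton_iff]
      exact hz.2.2.symm.eq
    exact Subgroup.mem_centralizer_singleton_iff.1 (hle hk)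
  set g := k * g₁ with hg
  have hga : g * a * g⁻¹ = c := by
    rw [hg, show k * g₁ * a * (k * g₁)⁻¹ = k * (g₁ * a * g₁⁻¹) * k⁻¹ by group, hg₁, hkc.eq, mul_inv_cancel_right]
  have hgb : g * b * g⁻¹ = d := by
    rw [hg, show k * g₁ * b * (k * g₁)⁻¹ = k * (g₁ * b * g₁⁻¹) * k⁻¹ by group, hk']
  set E' : Set G := (fun x => g * x * g⁻¹) '' E with hE'
  have hE'D : E' ⊆ D := by rintro _ ⟨e, he, rfl⟩; exact class_conj_mem hD g (hE he)
  have hE'c : ∀ u ∈ E', ∀ v ∈ E', Commute u v := by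
    rintro _ ⟨u, hu, rfl⟩ _ ⟨v, hv, rfl⟩
    exact commute_conj_iff.2 (hc u hu v hv)
  have hE'max : ∀ F : Set G, F ⊆ D → (∀ a ∈ F, ∀ b ∈ F, Commute a b) → F.ncard ≤ E'.ncard := fun F h1 h2 =>
    (hmax F h1 h2).trans_eq (ncard_conj_image g E).symm
  have hcE' : c ∈ E' := ⟨a, ha, hga⟩
  have hdE' : d ∈ E' := ⟨b, hb, hgb⟩
  set C := Subgroup.centralizer ({c, d} : Set G)
  have hEC : Subgroup.closure E ≤ C := by
    rw [Subgroup.closure_le]
    intro e he
    rw [SetLike.mem_coe, Subgroup.mem_centralizer_iff]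
    rintro z (rfl | rfl)
    · exact hc _ hc' e he
    · exact hc _ hd e he
  have hE'C : Subgroup.closure E' ≤ C := by
    rw [Subgroup.closure_le]
    intro e he
    rw [SetLike.mem_coe, Subgroup.mem_centralizer_iff]
    rintro z (rfl | rfl)
    · exact hE'c _ hcE' e he
    · exact hE'c _ hdE' e he
  obtain ⟨S, hS⟩ := ((h2grp E hE hc).comap_of_injective C.subtype C.subtype_injective).exists_le_sylow
  obtain ⟨S', hS'⟩ := ((h2grp E' hE'D hE'c).comap_of_injective C.subtype C.subtype_injective).exists_le_sylow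
  obtain ⟨h, hh⟩ := MulAction.exists_smul_eq C S S'
  have hmap : ∀ e ∈ E, (h : G) * e * (h : G)⁻¹ ∈ E' := by
    intro e he
    refine mem_of_twoGroup hD hE'D hE'max (S'.2.map C.subtype)
      (fun e' he' => ⟨⟨e', hE'C (Subgroup.subset_closure he')⟩,
        hS' (Subgroup.subset_closure he'), rfl⟩) (class_conj_mem hD _ (hE he)) ?_
    refine ⟨h * ⟨e, hEC (Subgroup.subset_closure he)⟩ * h⁻¹, ?_, rfl⟩
    rw [← hh, Sylow.coe_subgroup_smul]
    exact Subgroup.smul_mem_pointwise_smul _ (MulAut.conj h) _ (hS (Subgroup.subset_closure he))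
  have himg : (fun x => (h : G) * x * (h : G)⁻¹) '' E = E' :=
    Set.eq_of_subset_of_ncard_le (by rintro _ ⟨e, he, rfl⟩; exact hmap e he)
      (by rw [hE', ncard_conj_image, ncard_conj_image]) (Set.toFinite _)
  have hhc : ∀ z ∈ ({c, d} : Set G), (h : G)⁻¹ * z * h = z := fun z hz => by
    rw [mul_assoc, Subgroup.mem_centralizer_iff.1 h.2 z hz, inv_mul_cancel_left]
  refine ⟨(h : G)⁻¹ * g, Subgroup.mem_normalizer_fintype fun e he => ?_, ?_, ?_⟩
  · have h1 : g * e * g⁻¹ ∈ (fun x => (h : G) * x * (h : G)⁻¹) '' E := himg.symm ▸ ⟨e, he, rfl⟩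
    rw [mem_conj_image] at h1
    simpa [mul_assoc] using h1
  · rw [show (h : G)⁻¹ * g * a * ((h : G)⁻¹ * g)⁻¹ = (h : G)⁻¹ * (g * a * g⁻¹) * h by group, hga]
    exact hhc c (Or.inl rfl)
  · rw [show (h : G)⁻¹ * g * b * ((h : G)⁻¹ * g)⁻¹ = (h : G)⁻¹ * (g * b * g⁻¹) * h by group, hgb]
    exact hhc d (Or.inr rfl)

end Cfsg.Agent.S1612
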