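import Cfsg.Statements.S1618
import Cfsg.Agent.ZStar.Products
-- import your own Cfsg.Agent.* helpers here

set_option autoImplicit false
open Cfsg
open scoped commutatorElement

namespace Cfsg.Agent.S1618

/-- A group generated by a class of involutions whose pairwise products (of distinct members) have p-power order for a fixed odd prime p has nilpotent derived subgroup. -/
theorem result {G : Type*} [Group G] [Finite G] (p : ℕ) (hp : p.Prime) (hodd : p ≠ 2) {D : Set G} (hinv : ∀ d ∈ D, orderOf d = 2) (hconj : ∃ d ∈ D, D = conjugatesOf d) (hgen : Subgroup.closure D = ⊤) (hprod : ∀ x ∈ D, ∀ y ∈ D, x ≠ y → ∃ k : ℕ, orderOf (x * y) = p ^ k) : Group.IsNilpotent ↥(commutator G) := by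
  haveI := Fact.mk hp
  obtain ⟨d, hdD, rfl⟩ := hconj
  have hd := hinv d hdD
  have hd2 := CfsgLib.Isolated.mul_self_of_orderOf_two hd
  have hprod' : ∀ g : G, ∃ k, orderOf (g * d * g⁻¹ * d) = p ^ k := fun g => by
    by_cases h : g * d * g⁻¹ = d
    · exact ⟨0, by rw [h, hd2, orderOf_one, pow_zero]⟩
    · exact hprod _ (isConj_iff.2 ⟨g, rfl⟩) _ (IsConj.refl d) h
  haveI := Cfsg.pCore_normal p G
  have hab : ∀ a ∈ conjugatesOf d, ∀ b ∈ conjugatesOf d, a * b ∈ Cfsg.pCore p G := fun a ha b hb =>
    CfsgLib.ZStar.products_mem_pCore hodd hd hprod' ha hb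
  have hle : commutator G ≤ Cfsg.pCore p G := by
    set π := QuotientGroup.mk' (Cfsg.pCore p G) with hπ
    have himg : ∀ a ∈ conjugatesOf d, π a ∈ Subgroup.zpowers (π d) := by
      intro a ha
      have h : π (a * d) = 1 := (QuotientGroup.eq_one_iff _).2 (hab a ha d (IsConj.refl d))
      rw [map_mul] at h
      rw [eq_inv_of_mul_eq_one_left h]
      exact inv_mem (Subgroup.mem_zpowers _)
    have hall : ∀ g : G, π g ∈ Subgroup.zpowers (π d) := by
      intro g
      have h : (Subgroup.closure (conjugatesOf d)) ≤ (Subgroup.zpowers (π d)).comap π :=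
        (Subgroup.closure_le _).2 himg
      exact h (hgen ▸ Subgroup.mem_top g)
    rw [commutator_def, Subgroup.commutator_le]
    intro x _ y _
    rw [← QuotientGroup.eq_one_iff]
    show π ⁅x, y⁆ = 1
    obtain ⟨i, hi⟩ := hall x
    obtain ⟨j, hj⟩ := hall y
    have hi' : (π d) ^ i = π x := hi
    have hj' : (π d) ^ j = π y := hj
    rw [map_commutatorElement, ← hi', ← hj', commutatorElement_eq_one_iff_commute]
    exact (Commute.refl (π d)).zpow_zpow i j
  have hpg : IsPGroup p ↥(commutator G) := (CfsgLib.PCore.isPGroup_pCore p G).to_le hle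
  exact hpg.isNilpotent

end Cfsg.Agent.S1618
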