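import Cfsg.Statements.S1621
import Cfsg.Agent.J2.UnitInj

set_option autoImplicit false
open Quaternion
open Cfsg

namespace Cfsg.Agent.S1621



/-- The icosian Leech lattice has 37800 minimal vectors giving 315 distinct reflections. -/
theorem result : {r : Fin 3 → ℍ[ℝ] | r ∈ Cfsg.Spor.icoLeech ∧ Cfsg.Spor.qip r r = 4}.ncard = 37800 ∧ {f : Equiv.Perm ↥Cfsg.Spor.icoLeech | Cfsg.Spor.IsIcoReflection f}.ncard = 315 := by
  classical
  have hr : Set.range CfsgLib.J2.refl = {f : Equiv.Perm ↥Cfsg.Spor.icoLeech | Cfsg.Spor.IsIcoReflection f} := by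
    ext f
    rw [Set.mem_ofPred_eq, CfsgLib.J2.isIco_iff]
    exact ⟨fun ⟨i, hi⟩ => ⟨i, hi.symm⟩, fun ⟨i, hi⟩ => ⟨i, hi.symm⟩⟩
  refine ⟨?_, ?_⟩
  · set φ : Fin 120 × Fin 315 → (Fin 3 → ℍ[ℝ]) :=
      fun x t => CfsgLib.J2.val (CfsgLib.J2.unit x.1) * CfsgLib.J2.vec (CfsgLib.J2.line x.2) t with hφ
    have hinj : Function.Injective φ := by
      intro a b h
      obtain ⟨h1, h2⟩ := CfsgLib.J2.smul_line_inj a.1.2 b.1.2 a.2.2 b.2.2 h
      refine Prod.ext ?_ (Fin.ext h2)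
      exact CfsgLib.J2.unit_inj _ _ (CfsgLib.J2.val_inj h1)
    have hrange : Set.range φ = {r : Fin 3 → ℍ[ℝ] | r ∈ Cfsg.Spor.icoLeech ∧ Cfsg.Spor.qip r r = 4} := by
      ext r
      constructor
      · rintro ⟨⟨k, i⟩, rfl⟩
        have hl := CfsgLib.J2.line_ok i.2
        refine ⟨CfsgLib.J2.smul_mem_lattice (CfsgLib.J2.unit_mem _).2 (CfsgLib.J2.vec_mem hl.1), ?_⟩
        show Cfsg.Spor.qip (fun t => _) (fun t => _) = 4
        rw [← CfsgLib.J2.vec_smulV (CfsgLib.J2.unit_isI _) (CfsgLib.J2.inLat_isI3 hl.1)]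
        exact CfsgLib.J2.qip_of_normSum (CfsgLib.J2.normSum_smulV k.2 (CfsgLib.J2.inLat_isI3 hl.1) hl.2)
      · rintro ⟨h1, h2⟩
        obtain ⟨k, i, hk, hi, rfl⟩ := CfsgLib.J2.exists_line h1 h2
        exact ⟨(⟨k, hk⟩, ⟨i, hi⟩), rfl⟩
    rw [← hrange, Set.ncard_range_of_injective hinj, Nat.card_prod, Nat.card_fin, Nat.card_fin]
  · rw [← hr, Set.ncard_range_of_injective CfsgLib.J2.refl_injective, Nat.card_fin]

end Cfsg.Agent.S1621
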