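import Cfsg.Statements.S1626
import Cfsg.Agent.H29.ThreeJ.Main
import Cfsg.Agent.H29.ThreeJ.Data.All

set_option autoImplicit false
open scoped MatrixGroups
open Matrix
open Cfsg

namespace Cfsg.Agent.S1626

/-- Orbits of the triple cover of the third Janko group on lines of its 9-space over the field with 4 elements: the line through the first basis vector has exactly 23256 images, and the isotropic lines (nonzero v with Σ v_z³ = 0) form a single orbit. -/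
theorem result (F : Type) [Field F] [Fintype F] (hF : Fintype.card F = 4) (ω : F) (hω : ω ^ 2 + ω + 1 = 0) : {L : Submodule F (Cfsg.Spor.F9 → F) | ∃ g ∈ Cfsg.Spor.threeJ3 F ω, L = F ∙ ((g : Matrix Cfsg.Spor.F9 Cfsg.Spor.F9 F) *ᵥ (Pi.single (0 : Cfsg.Spor.F9) (1 : F) : Cfsg.Spor.F9 → F))}.ncard = 23256 ∧ ∀ v w : Cfsg.Spor.F9 → F, v ≠ 0 → w ≠ 0 → ∑ z, (v z) ^ 3 = 0 → ∑ z, (w z) ^ 3 = 0 → ∃ g ∈ Cfsg.Spor.threeJ3 F ω, ∃ c : F, c ≠ 0 ∧ (g : Matrix Cfsg.Spor.F9 Cfsg.Spor.F9 F) *ᵥ v = c • w := by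
  have hr := H29.ThreeJ.ncard_orbit (ω := ω) hF hω H29.ThreeJData.tabs
    (L := H29.ThreeJData.famA) (show 0 < 23256 by norm_num) H29.ThreeJData.reachA_all
    H29.ThreeJData.orbA_all
  have hv0 : H29.ThreeJ.Fam.vec H29.ThreeJData.famA 0 = 4 ^ H29.ThreeJ.ix (0 : Cfsg.Spor.F9) := by
    decide +kernel
  rw [hv0, H29.ThreeJ.κv_single] at hr
  refine ⟨hr, fun v w hv hw hv' hw' => ?_⟩
  obtain ⟨g, hg, a, ha, hga⟩ := H29.ThreeJ.isotropic_orbit (ω := ω) hF hω H29.ThreeJData.tabs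
    H29.ThreeJData.reachB_all H29.ThreeJData.iso_all v hv hv'
  obtain ⟨u, hu, b, hb, hub⟩ := H29.ThreeJ.isotropic_orbit (ω := ω) hF hω H29.ThreeJData.tabs
    H29.ThreeJData.reachB_all H29.ThreeJData.iso_all w hw hw'
  refine ⟨u * g⁻¹, mul_mem hu (inv_mem hg), a⁻¹ * b, mul_ne_zero (inv_ne_zero ha) hb, ?_⟩
  have hback : ((g⁻¹ : GL Cfsg.Spor.F9 F) : Matrix Cfsg.Spor.F9 Cfsg.Spor.F9 F) *ᵥ v =
      a⁻¹ • H29.ThreeJ.κv ω (H29.ThreeJ.Fam.vec H29.ThreeJData.famB 0) := by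
    have : v = a⁻¹ • ((g : Matrix Cfsg.Spor.F9 Cfsg.Spor.F9 F) *ᵥ
        H29.ThreeJ.κv ω (H29.ThreeJ.Fam.vec H29.ThreeJData.famB 0)) := by
      rw [hga, smul_smul, inv_mul_cancel₀ ha, one_smul]
    conv_lhs => rw [this]
    rw [Matrix.mulVec_smul, Matrix.mulVec_mulVec, Units.inv_mul, Matrix.one_mulVec]
  rw [Units.val_mul, ← Matrix.mulVec_mulVec, hback, Matrix.mulVec_smul, hub, smul_smul]

end Cfsg.Agent.S1626
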