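import Cfsg.Statements.S2644
import Cfsg.Agent.UGeom.Simple
-- import your own Cfsg.Agent.* helpers here

set_option autoImplicit false
open Cfsg Matrix CfsgLib.UGeom

namespace Cfsg.Agent.S2644

section

variable {n : ℕ} {F : Type*} [Field F] [Fintype F] {q : ℕ}

local notation "H" => Cfsg.hermForm n F q

theorem exists_perp_aniso (C : Conj F q) (hn : 3 ≤ n) {v : Fin n → F} (hv0 : v ≠ 0) (hv : H v v = 0) :
    ∃ w, H w v = 0 ∧ H w w ≠ 0 := by
  obtain ⟨y, hy⟩ := exists_dual C hv0
  by_contra hno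
  push Not at hno
  -- the perp of `v` would be totally isotropic of dimension `n - 1`
  have hperp : ∀ a b, H a v = 0 → H b v = 0 → H a b = 0 := by
    intro a b ha hb
    by_contra hab
    obtain ⟨t, ht⟩ := exists_trace_one C
    obtain ⟨k, hk⟩ : ∃ k : F, k * H a b = t := ⟨t / H a b, div_mul_cancel₀ _ hab⟩
    have hk' : C.σ k * C.σ (H a b) = C.σ t := by rw [← map_mul, hk]
    have h1 := hno (k • a + b) (by rw [form_add_left, form_smul_left, ha, hb]; ring)
    simp only [form_add_left, form_add_right C, form_smul_left, form_smul_right C,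
      hno a ha, hno b hb, ← form_conj C a b] at h1
    apply one_ne_zero (α := F)
    linear_combination -ht + h1 - hk - hk'
  have hspan : ∀ a, H a v = 0 → a = C.σ (H y a) • v := by
    intro a ha
    refine ext_form C fun x => ?_
    rw [form_smul_left]
    have h := hperp a (x - H x v • y) ha (by rw [form_sub_left, form_smul_left, hy, mul_one, sub_self])
    rw [form_sub_right C, form_smul_right C, form_conj C] at h
    rw [form_conj C]
    linear_combination h
  let f : (Fin n → F) →ₗ[F] F :=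
    { toFun := fun x => H x v
      map_add' := fun a b => form_add_left a b v
      map_smul' := fun c a => form_smul_left c a v }
  have hker : n - 1 ≤ Module.finrank F (LinearMap.ker f) := by
    have h1 := LinearMap.finrank_range_add_finrank_ker f
    have h2 : Module.finrank F (LinearMap.range f) ≤ 1 :=
      (Submodule.finrank_le _).trans (Module.finrank_self F).le
    rw [Module.finrank_fintype_fun_eq_card, Fintype.card_fin] at h1
    omega
  have hle : LinearMap.ker f ≤ Submodule.span F {v} := fun a ha => by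
    rw [hspan a (LinearMap.mem_ker.1 ha)]
    exact Submodule.smul_mem _ _ (Submodule.mem_span_singleton_self v)
  have h3 := Submodule.finrank_mono hle
  rw [finrank_span_singleton hv0] at h3
  omega

theorem exists_move (C : Conj F q) (hn : 3 ≤ n) {u w : Fin n → F} (hu : u ≠ 0) (huu : H u u = 0)
    (hw : w ≠ 0) (hww : H w w = 0) :
    ∃ A : Cfsg.SU n F q, (A.1 : Matrix (Fin n) (Fin n) F) *ᵥ u = w := by
  obtain ⟨r, hrr, hru, hrw⟩ := exists_common_iso C hu huu hw hww
  have hur : H u r ≠ H u u := by rw [huu, ← form_conj C]; exact (map_ne_zero C.σ).2 hru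
  obtain ⟨k₁, hk₁, h₁⟩ := exists_qrefl C (huu.trans hrr.symm) hur
  obtain ⟨k₂, hk₂, h₂⟩ := exists_qrefl C (hrr.trans hww.symm) (by rw [hrr]; exact hrw)
  set M₁ := qrefl n q (u - r) k₁ with hM₁
  set M₂ := qrefl n q (r - w) k₂ with hM₂
  have hd : ∀ (x : Fin n → F) (k : F), k + C.σ k + k * C.σ k * H x x = 0 →
      (qrefl n q x k).det * C.σ (qrefl n q x k).det = 1 := fun x k hk => by
    rw [qrefl_det, map_add, map_mul, map_one, form_conj C]
    linear_combination (H x x) * hk
  obtain ⟨d, hd'⟩ : ∃ d, d = M₂.det * M₁.det := ⟨_, rfl⟩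
  have hdN : d * C.σ d = 1 := by
    rw [hd', map_mul]
    have e1 := hd _ _ hk₁
    have e2 := hd _ _ hk₂
    rw [← hM₁] at e1; rw [← hM₂] at e2
    linear_combination e2 * (M₁.det * C.σ M₁.det) + e1
  have hd0 : d ≠ 0 := left_ne_zero_of_mul_eq_one hdN
  obtain ⟨z, hzu, hzz⟩ := exists_perp_aniso C hn hu huu
  obtain ⟨k, hk⟩ : ∃ k, k = (C.σ d - 1) / H z z := ⟨_, rfl⟩
  have hkz : 1 + k * H z z = C.σ d := by rw [hk, div_mul_cancel₀ _ hzz]; ring
  have hkc : k + C.σ k + k * C.σ k * H z z = 0 := by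
    apply mul_right_cancel₀ hzz
    have e := congrArg C.σ hkz
    rw [map_add, map_one, map_mul, form_conj C, C.invol] at e
    linear_combination (1 + C.σ k * H z z) * hkz + C.σ d * e + hdN
  have hfix : qrefl n q z k *ᵥ u = u := by
    rw [qrefl_mulVec, ← form_conj C z u, hzu, map_zero, mul_zero, zero_smul, add_zero]
  refine ⟨⟨⟨M₂ * M₁ * qrefl n q z k, ?_⟩, fun x y => ?_⟩, ?_⟩
  · rw [Matrix.det_mul, Matrix.det_mul, qrefl_det z, hkz, ← hd', hdN]
  · show H ((M₂ * M₁ * qrefl n q z k) *ᵥ x) ((M₂ * M₁ * qrefl n q z k) *ᵥ y) = H x y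
    simp only [← Matrix.mulVec_mulVec]
    rw [hM₂, hM₁, qrefl_form C _ _ hk₂, qrefl_form C _ _ hk₁, qrefl_form C _ _ hkc]
  · show (M₂ * M₁ * qrefl n q z k) *ᵥ u = w
    rw [← Matrix.mulVec_mulVec, hfix, ← Matrix.mulVec_mulVec, h₁, h₂]

theorem exists_eq_utv (C : Conj F q) (t : GL (Fin n) F) (T : Cfsg.SU n F q)
    (hT : (T.1 : Matrix (Fin n) (Fin n) F) = t.1) (ht : Cfsg.IsTransvection t.1) :
    ∃ (v : Fin n → F) (c : F) (hv : H v v = 0) (hc : c + C.σ c = 0), v ≠ 0 ∧ c ≠ 0 ∧ T = utv C v c hv hc := by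
  obtain ⟨hr, hsq⟩ := ht
  obtain ⟨⟨v, hvm⟩, hv0, hspan⟩ := finrank_eq_one_iff'.1
    (show Module.finrank F (LinearMap.range (t.1 - 1).mulVecLin) = 1 from hr)
  have hv' : v ≠ 0 := fun e => hv0 (Subtype.ext e)
  have hφ : ∀ x, ∃ c : F, (t.1 - 1) *ᵥ x = c • v := fun x => by
    obtain ⟨c, hc⟩ := hspan ⟨_, LinearMap.mem_range_self _ x⟩
    exact ⟨c, (congrArg Subtype.val hc).symm⟩
  choose φ hφ using hφ
  obtain ⟨y₀, hy₀⟩ : ∃ y, φ y ≠ 0 := by
    by_contra hc; push Not at hc
    have : t.1 - 1 = 0 := Matrix.ext_iff_mulVec.2 fun x => by rw [hφ, hc, zero_smul, Matrix.zero_mulVec]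
    rw [this, Matrix.rank_zero] at hr; exact zero_ne_one hr
  have hφv : φ v = 0 := by
    have h0 : (t.1 - 1) *ᵥ ((t.1 - 1) *ᵥ y₀) = 0 := by rw [Matrix.mulVec_mulVec, hsq, Matrix.zero_mulVec]
    rw [hφ y₀, Matrix.mulVec_smul, hφ v, smul_smul] at h0
    exact (mul_eq_zero.1 ((smul_eq_zero.1 h0).resolve_right hv')).resolve_left hy₀
  have hmv : ∀ x, (T.1 : Matrix (Fin n) (Fin n) F) *ᵥ x = x + φ x • v := fun x => by
    rw [hT, ← hφ, Matrix.sub_mulVec, Matrix.one_mulVec, add_sub_cancel]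
  have hF' : ∀ x y, φ x * H v y + C.σ (φ y) * H x v + φ x * C.σ (φ y) * H v v = 0 := fun x y => by
    have e := SU_form T x y
    rw [hmv, hmv] at e
    simp only [form_add_left, form_add_right C, form_smul_left, form_smul_right C] at e
    linear_combination e
  have hvv : H v v = 0 := by
    have e := hF' v y₀
    rw [hφv] at e
    simpa [(map_ne_zero C.σ).2 hy₀] using e
  obtain ⟨y, hy⟩ := exists_dual C hv'
  have hvy : H v y = 1 := by rw [← form_conj C, hy, map_one]
  have key : ∀ x, φ x = -C.σ (φ y) * H x v := fun x => by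
    have e := hF' x y
    rw [hvy, hvv] at e
    linear_combination e
  have hcy : φ y + C.σ (φ y) = 0 := by
    have e := key y
    rw [hy] at e
    linear_combination e
  have hcy' : φ y = -C.σ (φ y) := eq_neg_of_add_eq_zero_left hcy
  refine ⟨v, φ y, hvv, hcy, hv', fun e => hy₀ ?_, SU_ext fun x => ?_⟩
  · rw [key, e, map_zero, neg_zero, zero_mul]
  · rw [hmv, utv_mulVec, key x, ← hcy']

end

/-- In the special unitary group SU_n(q) with n ≥ 3 (isometries of Σ u_i v_i^q of determinant one over the field with q² elements), any two transvections (elements t with t − 1 of rank one and square zero) are conjugate. -/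
theorem result {K : Type*} [Field K] [Fintype K] {q n : ℕ} (hK : Fintype.card K = q ^ 2) (hn : 3 ≤ n) (s t : ↥(Cfsg.SU n K q)) (hs : Cfsg.IsTransvection (((s : GL (Fin n) K) : Matrix (Fin n) (Fin n) K))) (ht : Cfsg.IsTransvection (((t : GL (Fin n) K) : Matrix (Fin n) (Fin n) K))) : IsConj s t := by
  obtain ⟨C⟩ := nonempty_conj hK
  obtain ⟨v, c, hv, hc, hv0, hc0, rfl⟩ := exists_eq_utv C _ s rfl hs
  obtain ⟨w, e, hw, he, hw0, he0, rfl⟩ := exists_eq_utv C _ t rfl ht
  obtain ⟨a, -, ha⟩ := CfsgLib.Hermitian.exists_norm C.ne_id C.invol (a := e / c) (div_ne_zero he0 hc0) (by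
    rw [map_div₀, eq_neg_of_add_eq_zero_right hc, eq_neg_of_add_eq_zero_right he, neg_div_neg_eq])
  have ha0 : a ≠ 0 := fun h => by
    rw [h] at ha; simp at ha; exact (div_ne_zero he0 hc0) (by simp [ha])
  obtain ⟨A, hA⟩ := exists_move C hn hv0 hv (smul_ne_zero ha0 hw0)
    (by rw [form_smul_left, form_smul_right C, hw, mul_zero, mul_zero])
  refine isConj_iff.2 ⟨A, ?_⟩
  rw [utv_conj]
  refine SU_ext fun x => ?_
  rw [utv_mulVec, utv_mulVec, hA, form_smul_right C, smul_smul]
  congr 2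
  have hae : a * C.σ a * c = e := by
    rw [show a * C.σ a = e / c by linear_combination ha, div_mul_cancel₀ _ hc0]
  rw [← hae]; ring

end Cfsg.Agent.S2644
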