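import Cfsg.Statements.S1631
import Cfsg.Agent.S2644
-- import your own Cfsg.Agent.* helpers here

set_option autoImplicit false
open scoped MatrixGroups
open Cfsg Matrix CfsgLib.UGeom Cfsg.Agent.S2644

namespace Cfsg.Agent.S1631

/-- The unitary transvections of SU(n, 2), n ≥ 4, form a generating conjugacy class of 3-transpositions. -/
theorem result (F : Type) [Field F] [Fintype F] [DecidableEq F] (hF : Fintype.card F = 4) (n : ℕ) (hn : 4 ≤ n) : Cfsg.IsThreeTranspositionClass {g : ↥(Cfsg.SU n F 2) | (((g : Matrix.SpecialLinearGroup (Fin n) F) : Matrix (Fin n) (Fin n) F) - 1).rank = 1} := by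
  classical
  obtain ⟨C⟩ := nonempty_conj (q := 2) (show Fintype.card F = 2 ^ 2 by rw [hF]; rfl)
  have h3 : 3 ≤ n := by omega
  have h20 : (2 : F) = 0 := by
    obtain ⟨p, _⟩ := CharP.exists F
    obtain ⟨k, hpr, hk⟩ := FiniteField.card F p
    have hd : p ∣ 4 := by rw [← hF, hk]; exact dvd_pow_self p k.ne_zero
    have : p = 2 := (Nat.prime_dvd_prime_iff_eq hpr Nat.prime_two).1 (hpr.dvd_of_dvd_pow (show p ∣ 2 ^ 2 from hd))
    subst this
    exact_mod_cast CharP.cast_eq_zero F 2
  have h1c : (1 : F) + C.σ 1 = 0 := by rw [map_one]; linear_combination h20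
  have hc1 : ∀ c : F, c + C.σ c = 0 → c ≠ 0 → c = 1 := fun c hc hc0 => by
    rw [C.pow] at hc
    have : c * (c + 1) = 0 := by linear_combination hc
    linear_combination (mul_eq_zero.1 this).resolve_left hc0 - h20
  have hrank : ∀ g : Cfsg.SU n F 2, ((g.1 : Matrix (Fin n) (Fin n) F) - 1).rank = 1 ↔
      ∃ (v : Fin n → F) (hv : Cfsg.hermForm n F 2 v v = 0), v ≠ 0 ∧ g = utv C v 1 hv h1c := by
    intro g
    constructor
    · intro hr
      obtain ⟨v, c, hv, hc, hv0, hc0, e⟩ := exists_eq_utv C (Matrix.SpecialLinearGroup.toGL g.1) g rfl ⟨hr, by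
        obtain ⟨⟨v, hvm⟩, hv0, hspan⟩ := finrank_eq_one_iff'.1
          (show Module.finrank F (LinearMap.range ((g.1 : Matrix (Fin n) (Fin n) F) - 1).mulVecLin) = 1 from hr)
        have hv' : v ≠ 0 := fun e => hv0 (Subtype.ext e)
        have hφ : ∀ x, ∃ c : F, ((g.1 : Matrix (Fin n) (Fin n) F) - 1) *ᵥ x = c • v := fun x => by
          obtain ⟨c, hc⟩ := hspan ⟨_, LinearMap.mem_range_self _ x⟩
          exact ⟨c, (congrArg Subtype.val hc).symm⟩
        obtain ⟨c, hc⟩ := hφ v
        choose φ hφ using hφ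
        have hM : (g.1 : Matrix (Fin n) (Fin n) F) = 1 + Matrix.vecMulVec v (fun j => φ (Pi.single j 1)) :=
          Matrix.ext fun i j => by
            have e := congrFun (hφ (Pi.single j 1)) i
            simp [Matrix.vecMulVec_apply, Matrix.one_apply] at e ⊢
            linear_combination e
        obtain ⟨r, hr'⟩ : ∃ r : Fin n → F, r = fun j => φ (Pi.single j 1) := ⟨_, rfl⟩
        rw [← hr'] at hM
        have hd := g.1.2
        rw [show (g.1.1 : Matrix (Fin n) (Fin n) F) = _ from hM, Matrix.vecMulVec_eq Unit,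
          Matrix.det_one_add_replicateCol_mul_replicateRow] at hd
        show ((g.1 : Matrix (Fin n) (Fin n) F) - 1) * ((g.1 : Matrix (Fin n) (Fin n) F) - 1) = 0
        rw [hM, add_sub_cancel_left, Matrix.vecMulVec_mul_vecMulVec, add_eq_left.1 hd]
        simp⟩
      obtain rfl := hc1 c hc hc0
      exact ⟨v, hv, hv0, e⟩
    · rintro ⟨v, hv, hv0, rfl⟩
      obtain ⟨y, hy⟩ := exists_dual C hv0
      have hr : LinearMap.range (((utv C v (1 : F) hv h1c).1 : Matrix (Fin n) (Fin n) F) - 1).mulVecLin =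
          Submodule.span F {v} := by
        refine le_antisymm ?_ ((Submodule.span_singleton_le_iff_mem _ _).2 ⟨y, ?_⟩)
        · rintro _ ⟨x, rfl⟩
          rw [mulVecLin_apply, sub_mulVec, one_mulVec, utv_mulVec, add_sub_cancel_left]
          exact Submodule.smul_mem _ _ (Submodule.mem_span_singleton_self v)
        · rw [mulVecLin_apply, sub_mulVec, one_mulVec, utv_mulVec, add_sub_cancel_left, one_mul, hy, one_smul]
      rw [Matrix.rank, hr]
      exact finrank_span_singleton hv0
  rw [show {g : ↥(Cfsg.SU n F 2) | (((g : Matrix.SpecialLinearGroup (Fin n) F) : Matrix (Fin n) (Fin n) F) - 1).rank = 1} =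
    {g | ∃ (v : Fin n → F) (hv : Cfsg.hermForm n F 2 v v = 0), v ≠ 0 ∧ g = utv C v 1 hv h1c} from Set.ext hrank]
  have hsq : ∀ (v : Fin n → F) hv, utv C v 1 hv h1c * utv C v 1 hv h1c = 1 := fun v hv => SU_ext fun x => by
    rw [utv_mul, utv_mulVec, show (1 : F) + 1 = 0 by linear_combination h20, zero_mul, zero_smul, add_zero]
    exact (Matrix.one_mulVec x).symm
  have hinv : ∀ (v : Fin n → F) hv, (utv C v 1 hv h1c)⁻¹ = utv C v 1 hv h1c :=
    fun v hv => inv_eq_of_mul_eq_one_right (hsq v hv)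
  have hne : ∀ (v : Fin n → F) hv, v ≠ 0 → utv C v 1 hv h1c ≠ 1 := fun v hv hv0 e => by
    have := (hrank _).2 ⟨v, hv, hv0, rfl⟩
    rw [e] at this
    simp at this
  refine ⟨⟨?_, ?_⟩, ?_, ?_⟩
  · rintro _ ⟨v, hv, hv0, rfl⟩
    haveI : Fact (Nat.Prime 2) := ⟨Nat.prime_two⟩
    exact orderOf_eq_prime (by rw [pow_two, hsq]) (hne v hv hv0)
  · rintro _ ⟨v, hv, hv0, rfl⟩ _ ⟨w, hw, hw0, rfl⟩
    have hc := utv_conj C (utv C v 1 hv h1c) w 1 hw h1c
    have hc' := utv_conj C (utv C w 1 hw h1c) v 1 hv h1c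
    simp only [utv_mulVec, one_mul, hinv] at hc hc'
    by_cases h : Cfsg.hermForm n F 2 w v = 0
    · left
      simp only [h, zero_smul, add_zero] at hc
      rw [pow_two, ← mul_assoc, hc, hsq]
    · right
      obtain ⟨d, hd⟩ : ∃ d, Cfsg.hermForm n F 2 w v = d := ⟨_, rfl⟩
      rw [hd] at h
      have hN : d * C.σ d = 1 := by
        rw [C.pow, ← pow_succ', show (2 : ℕ) + 1 = Fintype.card F - 1 by rw [hF]]
        exact FiniteField.pow_card_sub_one_eq_one d h
      have hvw : Cfsg.hermForm n F 2 v w = C.σ d := by rw [← form_conj C, hd]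
      have hb : utv C v 1 hv h1c * utv C w 1 hw h1c * utv C v 1 hv h1c =
          utv C w 1 hw h1c * utv C v 1 hv h1c * utv C w 1 hw h1c := by
        rw [hc, hc']
        refine SU_ext fun x => ?_
        simp only [utv_mulVec, hd, hvw, one_mul, smul_add, form_add_right C, form_smul_right C, C.invol, smul_smul, add_mul]
        ext i
        simp only [Pi.add_apply, Pi.smul_apply, smul_eq_mul]
        linear_combination (Cfsg.hermForm n F 2 x v * v i - Cfsg.hermForm n F 2 x w * w i) * hN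
      calc (utv C v 1 hv h1c * utv C w 1 hw h1c) ^ 3 = utv C v 1 hv h1c * utv C w 1 hw h1c * utv C v 1 hv h1c *
            (utv C w 1 hw h1c * utv C v 1 hv h1c * utv C w 1 hw h1c) := by simp [pow_succ, mul_assoc]
        _ = utv C v 1 hv h1c * utv C w 1 hw h1c * utv C v 1 hv h1c *
            (utv C v 1 hv h1c * utv C w 1 hw h1c * utv C v 1 hv h1c) := by rw [← hb]
        _ = 1 := by
          refine (show ∀ a b : Cfsg.SU n F 2, a * a = 1 → b * b = 1 → a * b * a * (a * b * a) = 1 from
            fun a b e1 e2 => ?_) _ _ (hsq v hv) (hsq w hw)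
          calc a * b * a * (a * b * a) = a * (b * (a * a) * b) * a := by group
            _ = 1 := by rw [e1, mul_one, e2, mul_one, e1]
  · obtain ⟨u, r, huu, hrr, hru⟩ := exists_iso_pair C (n := n) h3
    have hu0 : u ≠ 0 := fun e => by rw [e, form_zero_right C] at hru; exact zero_ne_one hru
    refine ⟨utv C u 1 huu h1c, ⟨u, huu, hu0, rfl⟩, Set.ext fun g => ?_⟩
    show _ ↔ IsConj _ g
    rw [isConj_iff]
    constructor
    · rintro ⟨v, hv, hv0, rfl⟩
      obtain ⟨A, hA⟩ := exists_move C h3 hu0 huu hv0 hv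
      exact ⟨A, by rw [utv_conj]; exact SU_ext fun x => by rw [utv_mulVec, utv_mulVec, hA]⟩
    · rintro ⟨A, rfl⟩
      exact ⟨_, by rw [SU_form A, huu], SU_mulVec_ne_zero A hu0, utv_conj C A u 1 huu h1c⟩
  · refine eq_top_of_utv C h3 (by omega) _ fun v c hv hc => ?_
    by_cases hc0 : c = 0
    · subst hc0
      rw [utv_zero]; exact one_mem _
    obtain rfl := hc1 c hc hc0
    by_cases hv0 : v = 0
    · subst hv0
      rw [show utv C (0 : Fin n → F) 1 hv hc = 1 from SU_ext fun x => by
        rw [utv_mulVec, smul_zero, add_zero]; exact (Matrix.one_mulVec x).symm]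
      exact one_mem _
    exact Subgroup.subset_closure ⟨v, hv, hv0, rfl⟩

end Cfsg.Agent.S1631
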