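import Cfsg.Statements.S1637
import Cfsg.Agent.Golay.Cosets
import Mathlib
open CfsgLib.Golay
open scoped Pointwise

set_option autoImplicit false
open Cfsg

namespace Cfsg.Agent.S1637

/-- The punctured length-23 code is a perfect 3-error-correcting code: each word of length 23 is within distance 3 of exactly one codeword. -/
theorem result (u : ZMod 23 → ZMod 2) : ∃! c : ZMod 23 → ZMod 2, c ∈ {u : ZMod 23 → ZMod 2 | ∃ w ∈ Cfsg.golayCode, ∀ x : ZMod 23, u x = w (some x)} ∧ hammingDist u c ≤ 3 := by
  rw [punctured_set]
  exact perfect23 u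

end Cfsg.Agent.S1637
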