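import Cfsg.Statements.S1638
import Cfsg.Agent.Golay.SuborbApp
import Mathlib
open CfsgLib.Golay CfsgLib.Golay.Suborb
open scoped Pointwise


set_option autoImplicit false
open scoped Pointwise
open Cfsg

namespace Cfsg.Agent.S1638

set_option maxHeartbeats 1000000

/-- Fix two points p ≠ q and a pair s of two further points. Among the pairs avoiding p, q and disjoint from s, exactly 30 lie in an octad together with p, q and s and exactly 160 do not; and any two pairs other than s that meet s in equally many points and agree on that octad property are carried to one another by an element of the group of the length-24 code fixing p, q and s. -/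
theorem result (p q : Cfsg.GolayPt) (hpq : p ≠ q) (s : Finset Cfsg.GolayPt) (hs : (s.card = 2 ∧ p ∉ s ∧ q ∉ s)) : {t : Finset Cfsg.GolayPt | (t.card = 2 ∧ p ∉ t ∧ q ∉ t) ∧ Disjoint s t ∧ (∃ o ∈ Cfsg.octads, p ∈ o ∧ q ∈ o ∧ s ∪ t ⊆ o)}.ncard = 30 ∧ {t : Finset Cfsg.GolayPt | (t.card = 2 ∧ p ∉ t ∧ q ∉ t) ∧ Disjoint s t ∧ ¬ (∃ o ∈ Cfsg.octads, p ∈ o ∧ q ∈ o ∧ s ∪ t ⊆ o)}.ncard = 160 ∧ ∀ t t' : Finset Cfsg.GolayPt, (t.card = 2 ∧ p ∉ t ∧ q ∉ t) → (t'.card = 2 ∧ p ∉ t' ∧ q ∉ t') → t ≠ s → t' ≠ s → (s ∩ t).card = (s ∩ t').card → ((∃ o ∈ Cfsg.octads, p ∈ o ∧ q ∈ o ∧ s ∪ t ⊆ o) ↔ (∃ o ∈ Cfsg.octads, p ∈ o ∧ q ∈ o ∧ s ∪ t' ⊆ o)) → ∃ g : Equiv.Perm Cfsg.GolayPt, g ∈ Cfsg.M24 ∧ g p = p ∧ g q = q ∧ g • s = s ∧ g • t = t' := by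
  obtain ⟨hs2, hps, hqs⟩ := hs
  have P := at_pqs hpq hs2 hps hqs
  have hpair : ({p, q} : Finset Cfsg.GolayPt).card = 2 := Finset.card_pair hpq
  have hds : Disjoint ({p, q} : Finset Cfsg.GolayPt) s := by simp [hps, hqs]
  have hbig : (({p, q} : Finset Cfsg.GolayPt) ∪ s).card = 4 := by
    rw [Finset.card_union_of_disjoint hds, hpair, hs2]
  have n12 : ({p} : Finset Cfsg.GolayPt) ≠ {p, q} := fun e => by
    have := congrArg Finset.card e; rw [Finset.card_singleton, hpair] at this; omega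
  have n13 : ({p} : Finset Cfsg.GolayPt) ≠ {p, q} ∪ s := fun e => by
    have := congrArg Finset.card e; rw [Finset.card_singleton, hbig] at this; omega
  have n23 : ({p, q} : Finset Cfsg.GolayPt) ≠ {p, q} ∪ s := fun e => by
    have := congrArg Finset.card e; rw [hpair, hbig] at this; omega
  have mem : ∀ t : Finset Cfsg.GolayPt, ({t} : Fam) ∈ KPairOff ({{p}, {p, q}, {p, q} ∪ s} : Fam) ↔
      (t.card = 2 ∧ p ∉ t ∧ q ∉ t) := by
    intro t
    constructor
    · rintro ⟨u, ⟨h2, hd⟩, e⟩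
      rw [Finset.singleton_inj] at e
      subst e
      have := hd {p, q} (by simp) hpair
      simp only [Finset.disjoint_insert_left, Finset.disjoint_singleton_left] at this
      exact ⟨h2, this⟩
    · rintro ⟨h2, hp, hq⟩
      refine ⟨t, ⟨h2, fun a ha ha2 => ?_⟩, rfl⟩
      simp only [Finset.mem_insert, Finset.mem_singleton] at ha
      rcases ha with rfl | rfl | rfl
      · simp at ha2
      · simp [hp, hq]
      · omega
  have cross : ∀ t : Finset Cfsg.GolayPt, p ∉ t → q ∉ t →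
      crossInv ({{p}, {p, q}, {p, q} ∪ s} : Fam) {t} = (s ∩ t).card ^ 4 := by
    intro t hp hq
    have e : ({p, q} : Finset Cfsg.GolayPt) ∩ t = ∅ := by
      rw [← Finset.disjoint_iff_inter_eq_empty]; simp [hp, hq]
    rw [crossInv_triple n12 n13 n23, Finset.singleton_inter_of_notMem hp, e, Finset.union_inter_distrib_right,
      e, Finset.empty_union, Finset.card_empty]
    ring
  have big : ∀ t : Finset Cfsg.GolayPt, t.card = 2 → p ∉ t → q ∉ t → t ≠ s →
      5 ≤ (({p, q} : Finset Cfsg.GolayPt) ∪ s ∪ t).card := by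
    intro t h2 hp hq hne
    obtain ⟨z, hz, hzs⟩ : ∃ z ∈ t, z ∉ s := by
      by_contra h
      push Not at h
      exact hne (Finset.eq_of_subset_of_card_le h (by omega))
    refine le_trans (le_of_eq ?_) (Finset.card_le_card (s := insert z (({p, q} : Finset Cfsg.GolayPt) ∪ s)) ?_)
    · rw [Finset.card_insert_of_notMem, hbig]
      simp only [Finset.mem_union, Finset.mem_insert, Finset.mem_singleton, not_or]
      exact ⟨⟨fun e => hp (e ▸ hz), fun e => hq (e ▸ hz)⟩, hzs⟩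
    · exact Finset.insert_subset (Finset.mem_union_right _ hz) Finset.subset_union_left
  have octc : ∀ t o : Finset Cfsg.GolayPt, (({p, q} : Finset Cfsg.GolayPt) ∪ s ∪ t) ⊆ o ↔
      p ∈ o ∧ q ∈ o ∧ s ∪ t ⊆ o := by
    intro t o
    simp [Finset.union_subset_iff, Finset.insert_subset_iff, and_assoc]
  have val : ∀ t : Finset Cfsg.GolayPt, t.card = 2 → p ∉ t → q ∉ t → t ≠ s →
      ((∃ o ∈ Cfsg.octads, p ∈ o ∧ q ∈ o ∧ s ∪ t ⊆ o) →
        inv2 ({{p}, {p, q}, {p, q} ∪ s} : Fam) {t} = (s ∩ t).card ^ 4 + 1000) ∧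
      ((¬ ∃ o ∈ Cfsg.octads, p ∈ o ∧ q ∈ o ∧ s ∪ t ⊆ o) →
        inv2 ({{p}, {p, q}, {p, q} ∪ s} : Fam) {t} = (s ∩ t).card ^ 4) := by
    intro t h2 hp hq hne
    obtain ⟨h1, h0⟩ := extCount_eq (A := ({{p}, {p, q}, {p, q} ∪ s} : Fam)) (B := {t}) _
      (big t h2 hp hq hne) (fun o => by
        simp only [Finset.forall_mem_union, Finset.forall_mem_insert, Finset.mem_singleton, forall_eq,
          Finset.union_subset_iff, Finset.insert_subset_iff, Finset.singleton_subset_iff]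
        tauto)
    refine ⟨fun ⟨o, ho, h⟩ => ?_, fun h => ?_⟩
    · rw [inv2, cross t hp hq, h1 ⟨o, ho, (octc t o).2 h⟩]
    · rw [inv2, cross t hp hq, h0 fun ⟨o, ho, h'⟩ => h ⟨o, ho, (octc t o).1 h'⟩]
      rfl
  have size : ∀ v n : ℕ, (v, n) ∈ PQS.table →
      {t : Finset Cfsg.GolayPt | (t.card = 2 ∧ p ∉ t ∧ q ∉ t) ∧
        inv2 ({{p}, {p, q}, {p, q} ∪ s} : Fam) {t} = v}.ncard = n := by
    intro v n h
    rw [← P.size_value h, ← Set.ncard_image_of_injective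
      {t : Finset Cfsg.GolayPt | (t.card = 2 ∧ p ∉ t ∧ q ∉ t) ∧
        inv2 ({{p}, {p, q}, {p, q} ∪ s} : Fam) {t} = v} Finset.singleton_injective]
    congr 1
    ext X
    constructor
    · rintro ⟨t, ⟨ht, e⟩, rfl⟩; exact ⟨(mem t).2 ht, e⟩
    · rintro ⟨hX, e⟩
      obtain ⟨t, -, rfl⟩ := id hX
      exact ⟨t, ⟨(mem t).1 hX, e⟩, rfl⟩
  have zero : ∀ t : Finset Cfsg.GolayPt, t.card = 2 → p ∉ t → q ∉ t →
      (inv2 ({{p}, {p, q}, {p, q} ∪ s} : Fam) {t} = 1000 ∨
        inv2 ({{p}, {p, q}, {p, q} ∪ s} : Fam) {t} = 0) → Disjoint s t := by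
    intro t h2 hp hq h
    have hle : (s ∩ t).card ≤ 2 := hs2 ▸ Finset.card_le_card Finset.inter_subset_left
    have h4 : (s ∩ t).card ^ 4 < 1000 := lt_of_le_of_lt (Nat.pow_le_pow_left hle 4) (by norm_num)
    rw [inv2, cross t hp hq] at h
    rw [Finset.disjoint_iff_inter_eq_empty, ← Finset.card_eq_zero]
    exact Nat.eq_zero_of_not_pos fun hp => by
      have := Nat.one_le_pow 4 _ hp
      omega
  have ne_of_disj : ∀ t : Finset Cfsg.GolayPt, Disjoint s t → t ≠ s := by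
    rintro t hd rfl
    rw [disjoint_self, Finset.bot_eq_empty] at hd
    simp [hd] at hs2
  have d0 : ∀ t : Finset Cfsg.GolayPt, Disjoint s t → (s ∩ t).card ^ 4 = 0 := fun t hd => by
    rw [Finset.disjoint_iff_inter_eq_empty.1 hd]; rfl
  refine ⟨?_, ?_, ?_⟩
  · rw [← size 1000 30 (by decide)]
    congr 1
    ext t
    refine and_congr_right fun ⟨h2, hp, hq⟩ => ⟨fun ⟨hd, he⟩ => ?_, fun e => ?_⟩
    · rw [(val t h2 hp hq (ne_of_disj t hd)).1 he, d0 t hd]
    · have hd := zero t h2 hp hq (Or.inl e)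
      refine ⟨hd, by_contra fun hn => ?_⟩
      rw [(val t h2 hp hq (ne_of_disj t hd)).2 hn, d0 t hd] at e
      omega
  · rw [← size 0 160 (by decide)]
    congr 1
    ext t
    refine and_congr_right fun ⟨h2, hp, hq⟩ => ⟨fun ⟨hd, he⟩ => ?_, fun e => ?_⟩
    · rw [(val t h2 hp hq (ne_of_disj t hd)).2 he, d0 t hd]
    · have hd := zero t h2 hp hq (Or.inr e)
      refine ⟨hd, fun hn => ?_⟩
      rw [(val t h2 hp hq (ne_of_disj t hd)).1 hn, d0 t hd] at e
      omega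
  · rintro t t' ⟨h2, hp, hq⟩ ⟨h2', hp', hq'⟩ hne hne' hcard hiff
    obtain ⟨σ, hσ, hA, e⟩ := P.trans _ ((mem t).2 ⟨h2, hp, hq⟩) _ ((mem t').2 ⟨h2', hp', hq'⟩) (by
      by_cases h : ∃ o ∈ Cfsg.octads, p ∈ o ∧ q ∈ o ∧ s ∪ t ⊆ o
      · rw [(val t h2 hp hq hne).1 h, (val t' h2' hp' hq' hne').1 (hiff.1 h), hcard]
      · rw [(val t h2 hp hq hne).2 h, (val t' h2' hp' hq' hne').2 fun h' => h (hiff.2 h'), hcard])
    rw [Finset.smul_finset_singleton, Finset.singleton_inj] at e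
    obtain ⟨h1, h2, h3⟩ := fix_three hpq (by omega) hA
    refine ⟨σ, hσ, h1, h2, ?_, e⟩
    rw [Finset.smul_finset_union, smul_duo, h1, h2] at h3
    have hd' : Disjoint ({p, q} : Finset Cfsg.GolayPt) (σ • s) := by
      simp only [Finset.disjoint_insert_left, Finset.disjoint_singleton_left]
      exact ⟨fun hh => hps ((Finset.smul_mem_smul_finset_iff σ).1 (by rwa [Equiv.Perm.smul_def, h1])),
        fun hh => hqs ((Finset.smul_mem_smul_finset_iff σ).1 (by rwa [Equiv.Perm.smul_def, h2]))⟩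
    rw [← Finset.union_sdiff_cancel_left hd', h3, Finset.union_sdiff_cancel_left hds]

end Cfsg.Agent.S1638
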