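import Cfsg.Statements.S1639
import Cfsg.Agent.Golay.DodStab
import Mathlib
open CfsgLib.Golay
open scoped Pointwise

set_option autoImplicit false
open scoped Pointwise
open Cfsg

namespace Cfsg.Agent.S1639

/-- The point stabiliser acts on the 1288 dodecads through the point with rank 4 and subdegrees 1, 165, 330, 792, distinguished by intersection 4, 8, 6 with the fixed dodecad. -/
theorem result (x : Cfsg.GolayPt) (d : Finset Cfsg.GolayPt) (hd : d ∈ Cfsg.dodecads) (hx : x ∈ d) : {d' : Finset Cfsg.GolayPt | d' ∈ Cfsg.dodecads ∧ x ∈ d' ∧ (d ∩ d').card = 4}.ncard = 165 ∧ {d' : Finset Cfsg.GolayPt | d' ∈ Cfsg.dodecads ∧ x ∈ d' ∧ (d ∩ d').card = 8}.ncard = 330 ∧ {d' : Finset Cfsg.GolayPt | d' ∈ Cfsg.dodecads ∧ x ∈ d' ∧ (d ∩ d').card = 6}.ncard = 792 ∧ ∀ d' d'' : Finset Cfsg.GolayPt, d' ∈ Cfsg.dodecads → d'' ∈ Cfsg.dodecads → x ∈ d' → x ∈ d'' → (d ∩ d').card = (d ∩ d'').card → ∃ g : Equiv.Perm Cfsg.GolayPt, g ∈ Cfsg.M24 ∧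 g x = x ∧ g • d = d ∧ g • d' = d'' := by
  obtain ⟨g, hg, rfl, hgx⟩ := DodStab.exists_map_in (n := 1) (by omega) DodStab.D_mem hd
    (fun _ => ptN 0) (fun _ => x) (fun _ _ _ => Subsingleton.elim _ _)
    (fun _ _ _ => Subsingleton.elim _ _) (fun _ => by decide +kernel) (fun _ => hx)
  obtain rfl : g (ptN 0) = x := hgx 0
  have hmem : ∀ u : Finset Cfsg.GolayPt, g (ptN 0) ∈ g • u ↔ ptN 0 ∈ u := fun u =>
    Finset.smul_mem_smul_finset_iff g
  have move : ∀ k : ℕ, {d' : Finset Cfsg.GolayPt | d' ∈ Cfsg.dodecads ∧ g (ptN 0) ∈ d' ∧ (g • DodStab.D ∩ d').card = k} =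
      (g • ·) '' {d' : Finset Cfsg.GolayPt | d' ∈ Cfsg.dodecads ∧ ptN 0 ∈ d' ∧ (DodStab.D ∩ d').card = k} := by
    intro k
    ext o
    constructor
    · rintro ⟨ho, hm, hk⟩
      refine ⟨g⁻¹ • o, ⟨smul_mem_dodecads (inv_mem hg) ho, ?_, ?_⟩, smul_inv_smul g o⟩
      · rw [← hmem, smul_inv_smul]; exact hm
      · rw [← hk, ← Finset.card_smul_finset g, Finset.smul_finset_inter, smul_inv_smul]
    · rintro ⟨u, ⟨hu, hm, hk⟩, rfl⟩
      exact ⟨smul_mem_dodecads hg hu, (hmem u).2 hm,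
        by rw [← Finset.smul_finset_inter, Finset.card_smul_finset, hk]⟩
  have key : ∀ (s : Finset Cfsg.GolayPt) (k : ℕ), (ptN 0 ∈ s ∧ (DodStab.D ∩ s).card = k) ↔
      ((mask s).testBit 0 && Nat.beq (popc (mask s &&& DodStab.sqD)) k) = true := by
    intro s k
    rw [Bool.and_eq_true, Nat.beq_eq, ← mask_toSet DodStab.sqD_lt, ← mask_inter, popc_mask,
      Finset.inter_comm]
    have := testBit_mask s (ptN 0)
    rw [idx_ptN (by omega)] at this
    rw [this, decide_eq_true_eq]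
  refine ⟨?_, ?_, ?_, ?_⟩
  · rw [move 4, Set.ncard_image_of_injective _ (MulAction.injective g)]
    refine (ncard_eq_filter (k := 12) (P := fun o => ptN 0 ∈ o ∧ (DodStab.D ∩ o).card = 4)
      (fun v => v.testBit 0 && Nat.beq (popc (v &&& DodStab.sqD)) 4) (fun s => key s _)).trans ?_
    decide +kernel
  · rw [move 8, Set.ncard_image_of_injective _ (MulAction.injective g)]
    refine (ncard_eq_filter (k := 12) (P := fun o => ptN 0 ∈ o ∧ (DodStab.D ∩ o).card = 8)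
      (fun v => v.testBit 0 && Nat.beq (popc (v &&& DodStab.sqD)) 8) (fun s => key s _)).trans ?_
    decide +kernel
  · rw [move 6, Set.ncard_image_of_injective _ (MulAction.injective g)]
    refine (ncard_eq_filter (k := 12) (P := fun o => ptN 0 ∈ o ∧ (DodStab.D ∩ o).card = 6)
      (fun v => v.testBit 0 && Nat.beq (popc (v &&& DodStab.sqD)) 6) (fun s => key s _)).trans ?_
    decide +kernel
  · intro d' d'' hd' hd'' hm' hm'' h
    suffices hk : ∀ u v : Finset Cfsg.GolayPt, u ∈ Cfsg.dodecads → v ∈ Cfsg.dodecads → ptN 0 ∈ u →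
        ptN 0 ∈ v → (DodStab.D ∩ u).card = (DodStab.D ∩ v).card →
        ∃ σ ∈ Cfsg.M24, σ (ptN 0) = ptN 0 ∧ σ • DodStab.D = DodStab.D ∧ σ • u = v by
      have hc : ∀ u : Finset Cfsg.GolayPt, (DodStab.D ∩ g⁻¹ • u).card = (g • DodStab.D ∩ u).card :=
        fun u => by rw [← Finset.card_smul_finset g, Finset.smul_finset_inter, smul_inv_smul]
      obtain ⟨σ, hσ, h0, hD, hu⟩ := hk (g⁻¹ • d') (g⁻¹ • d'') (smul_mem_dodecads (inv_mem hg) hd')
        (smul_mem_dodecads (inv_mem hg) hd'') (by rw [← hmem, smul_inv_smul]; exact hm')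
        (by rw [← hmem, smul_inv_smul]; exact hm'') (by rw [hc, hc, h])
      refine ⟨g * σ * g⁻¹, mul_mem (mul_mem hg hσ) (inv_mem hg), ?_, ?_, ?_⟩
      · simp [h0]
      · rw [mul_smul, mul_smul, inv_smul_smul, hD]
      · rw [mul_smul, mul_smul, hu, smul_inv_smul]
    intro u v hu hv hu0 hv0 huv
    have mem : ∀ (w : Finset Cfsg.GolayPt) (k : ℕ), w ∈ Cfsg.dodecads → ptN 0 ∈ w →
        (DodStab.D ∩ w).card = k →
        mask w ∈ dodList.filter fun z => z.testBit 0 && Nat.beq (popc (z &&& DodStab.sqD)) k :=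
      fun w k hw h0 hk => List.mem_filter.2 ⟨mem_dodecads_iff.1 hw, (key w k).1 ⟨h0, hk⟩⟩
    have hfx : ∀ m ∈ DodStab.fixA1, m < 2 ^ 24 := by decide
    have take : ∀ σ, σ ∈ fixGroup DodStab.fixA1 →
        σ ∈ Cfsg.M24 ∧ σ (ptN 0) = ptN 0 ∧ σ • DodStab.D = DodStab.D := by
      intro σ hσ
      rw [DodStab.fixA_eq.2.1] at hσ
      obtain ⟨h1, h2, h3⟩ := DodStab.mem_chainA.1 (show σ ∈ DodStab.chainA 1 from hσ)
      exact ⟨h1, h3 0 (by decide), h2⟩
    rcases DodStab.dod_inter_dod DodStab.D_mem hu with e | e | e | e | e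
    · have eq : ∀ w : Finset Cfsg.GolayPt, w ∈ Cfsg.dodecads → (DodStab.D ∩ w).card = 12 → w = DodStab.D := by
        intro w hw h12
        have hc : DodStab.D.card = 12 ∧ w.card = 12 :=
          ⟨card_of_mem_dodecads DodStab.D_mem, card_of_mem_dodecads hw⟩
        exact (Finset.eq_of_subset_of_card_le (s := DodStab.D ∩ w) Finset.inter_subset_right (by omega)).symm.trans
          (Finset.eq_of_subset_of_card_le (s := DodStab.D ∩ w) Finset.inter_subset_left (by omega))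
      exact ⟨1, one_mem _, rfl, one_smul _ _, by rw [one_smul, eq u hu e, eq v hv (huv ▸ e)]⟩
    rotate_right
    · exfalso
      rw [Finset.card_eq_zero] at e
      have : ptN 0 ∈ DodStab.D ∩ u := Finset.mem_inter.2 ⟨by decide +kernel, hu0⟩
      rw [e] at this
      simp at this
    · obtain ⟨σ, hσ, r⟩ := exists_map_of_orbitOk hfx (by omega) DodStab.gensA1_ok DodStab.okDodPt8
        (mem u 8 hu hu0 e) (mem v 8 hv hv0 (huv ▸ e))
      exact ⟨σ, (take σ hσ).1, (take σ hσ).2.1, (take σ hσ).2.2, r⟩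
    · obtain ⟨σ, hσ, r⟩ := exists_map_of_orbitOk hfx (by omega) DodStab.gensA1_ok DodStab.okDodPt6
        (mem u 6 hu hu0 e) (mem v 6 hv hv0 (huv ▸ e))
      exact ⟨σ, (take σ hσ).1, (take σ hσ).2.1, (take σ hσ).2.2, r⟩
    · obtain ⟨σ, hσ, r⟩ := exists_map_of_orbitOk hfx (by omega) DodStab.gensA1_ok DodStab.okDodPt4
        (mem u 4 hu hu0 e) (mem v 4 hv hv0 (huv ▸ e))
      exact ⟨σ, (take σ hσ).1, (take σ hσ).2.1, (take σ hσ).2.2, r⟩


end Cfsg.Agent.S1639
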