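import Cfsg.Statements.S1640
import Cfsg.Agent.Leech.Moments

set_option autoImplicit false
open Cfsg

namespace Cfsg.Agent.S1640

/-- The stabiliser of a vector of customary norm 6 is transitive on the 11178 minimal vectors of customary inner product −2 with it. -/
theorem result (u : ↥Cfsg.leechLattice) (hu : Cfsg.sqNorm (u : Cfsg.GolayPt → ℤ) = 48) : {x : ↥Cfsg.leechLattice | Cfsg.sqNorm (x : Cfsg.GolayPt → ℤ) = 32 ∧ Cfsg.dotInt (u : Cfsg.GolayPt → ℤ) (x : Cfsg.GolayPt → ℤ) = -16}.ncard = 11178 ∧ ∀ x ∈ {x : ↥Cfsg.leechLattice | Cfsg.sqNorm (x : Cfsg.GolayPt → ℤ) = 32 ∧ Cfsg.dotInt (u : Cfsg.GolayPt → ℤ) (x : Cfsg.GolayPt → ℤ) = -16}, ∀ x' ∈ {x : ↥Cfsg.leechLattice | Cfsg.sqNorm (x : Cfsg.GolayPt → ℤ) = 32 ∧ Cfsg.dotInt (u : Cfsg.GolayPt → ℤ) (x : Cfsg.GolayPt → ℤ) = -16}, ∃ g : ↥Cfsg.Co0, g • u = u ∧ g • x = x' := by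
  refine ⟨?_, fun x hx x' hx' => ?_⟩
  · rw [← Set.ncard_image_of_injective _ Subtype.val_injective]
    refine (congrArg Set.ncard (Set.ext fun x => ?_)).trans (CfsgLib.Leech.census48 u.2 hu).2
    constructor
    · rintro ⟨y, hy, rfl⟩
      exact ⟨y.2, hy⟩
    · intro h
      exact ⟨⟨x, h.1⟩, h.2, rfl⟩
  · obtain ⟨g, g1, g2⟩ := CfsgLib.Leech.transitive_dot48 (x := -x) (v := u) (x' := -x') (v' := u)
      ((CfsgLib.Leech.sqNorm_neg _).trans hx.1) hu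
      (by rw [CfsgLib.Leech.dotInt_comm']; have := hx.2; simp [Cfsg.dotInt] at this ⊢; omega)
      ((CfsgLib.Leech.sqNorm_neg _).trans hx'.1) hu
      (by rw [CfsgLib.Leech.dotInt_comm']; have := hx'.2; simp [Cfsg.dotInt] at this ⊢; omega)
    rw [CfsgLib.Leech.smul_neg'] at g1
    exact ⟨g, g2, neg_injective g1⟩

end Cfsg.Agent.S1640
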