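import Cfsg.Statements.S1679
import Cfsg.Agent.SuzG2.Main
-- import your own Cfsg.Agent.* helpers here

set_option autoImplicit false
open Cfsg

namespace Cfsg.Agent.S1679

/-- In the presented sporadic Suzuki group (generators a, …, g), the subgroup generated by the images of a, …, f is isomorphic to the adjoint Chevalley group of type G₂ over a field with four elements. -/
theorem result : ∃ (K : Type) (_ : Field K) (_ : Fintype K), Fintype.card K = 4 ∧ Nonempty ((((Subgroup.closure ({Cfsg.Spor.Suz.a, Cfsg.Spor.Suz.b, Cfsg.Spor.Suz.c, Cfsg.Spor.Suz.d, Cfsg.Spor.Suz.e, Cfsg.Spor.Suz.f} : Set (FreeGroup Cfsg.Spor.Suz.Gen))).map (PresentedGroup.mk (Cfsg.Spor.coxRelators Cfsg.Spor.Suz.edges ∪ {r | r ∈ Cfsg.Spor.Suz.extra})))) ≃* Cfsg.Lie.chevG2.group K) := by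
  obtain ⟨e⟩ := CfsgLib.SuzG2.stabilizer_iso
  refine ⟨CfsgLib.G2Four.Q, inferInstance, inferInstance, CfsgLib.G2Four.Q.card_eq, ⟨(MulEquiv.subgroupCongr ?_).trans e⟩⟩
  rw [MonoidHom.map_closure, CfsgLib.SuzG2.gens_mem]
  congr 1
  ext x
  constructor
  · rintro ⟨y, hy, rfl⟩
    simp only [Set.mem_insert_iff, Set.mem_singleton_iff] at hy
    rcases hy with rfl | rfl | rfl | rfl | rfl | rfl
    exacts [⟨0, by norm_num, rfl⟩, ⟨1, by norm_num, rfl⟩, ⟨2, by norm_num, rfl⟩, ⟨3, by norm_num, rfl⟩,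
      ⟨4, by norm_num, rfl⟩, ⟨5, by norm_num, rfl⟩]
  · rintro ⟨i, hi, rfl⟩
    interval_cases i
    exacts [⟨Cfsg.Spor.Suz.a, by simp, rfl⟩, ⟨Cfsg.Spor.Suz.b, by simp, rfl⟩, ⟨Cfsg.Spor.Suz.c, by simp, rfl⟩,
      ⟨Cfsg.Spor.Suz.d, by simp, rfl⟩, ⟨Cfsg.Spor.Suz.e, by simp, rfl⟩, ⟨Cfsg.Spor.Suz.f, by simp, rfl⟩]

end Cfsg.Agent.S1679
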