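import Cfsg.Statements.S1681
import Cfsg.Agent.H29.CosetCert.SuzU.Cert

set_option autoImplicit false
open Cfsg

namespace Cfsg.Agent.S1681

/-- In the presented sporadic Suzuki group (generators a, …, g), the subgroup generated by the images of a, b, c, d, f, g has index 22880. -/
theorem result : (((Subgroup.closure ({Cfsg.Spor.Suz.a, Cfsg.Spor.Suz.b, Cfsg.Spor.Suz.c, Cfsg.Spor.Suz.d, Cfsg.Spor.Suz.f, Cfsg.Spor.Suz.g} : Set (FreeGroup Cfsg.Spor.Suz.Gen))).map (PresentedGroup.mk (Cfsg.Spor.coxRelators Cfsg.Spor.Suz.edges ∪ {r | r ∈ Cfsg.Spor.Suz.extra})))).index = 22880 := by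
  have key : (((Subgroup.closure ({Cfsg.Spor.Suz.a, Cfsg.Spor.Suz.b, Cfsg.Spor.Suz.c, Cfsg.Spor.Suz.d, Cfsg.Spor.Suz.f, Cfsg.Spor.Suz.g} : Set (FreeGroup Cfsg.Spor.Suz.Gen))).map (PresentedGroup.mk (Cfsg.Spor.coxRelators Cfsg.Spor.Suz.edges ∪ {r | r ∈ Cfsg.Spor.Suz.extra})))) = H29.CosetCert.SuzUCert.H := by
    rw [MonoidHom.map_closure]
    refine congrArg Subgroup.closure (Set.ext fun x => ?_)
    simp [Cfsg.Spor.Suz.a, Cfsg.Spor.Suz.b, Cfsg.Spor.Suz.c, Cfsg.Spor.Suz.d, Cfsg.Spor.Suz.e, Cfsg.Spor.Suz.f, Cfsg.Spor.Suz.g, H29.CosetCert.SuzUData.S, H29.CosetCert.genAt, H29.CosetCert.SuzUCert.g, List.getD_eq_getElem?_getD, pow_succ,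
      mul_assoc, PresentedGroup.of, eq_comm]
  rw [key]
  exact H29.CosetCert.SuzUCert.cert.index_eq

end Cfsg.Agent.S1681
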