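import Cfsg.Statements.S1683
import Cfsg.Agent.H29.CosetCert.He.Cert

set_option autoImplicit false
open Cfsg

namespace Cfsg.Agent.S1683

/-- In the presented Held group, let H be the subgroup generated by the images of a, c, d, e, f, (ab)^2 and (bcde)^7. Then H has index 2058, there are four distinct H-orbits on the cosets of H other than H itself, of sizes 136, 136, 425 and 1360. -/
theorem result : (((Subgroup.closure ({Cfsg.Spor.He.a, Cfsg.Spor.He.c, Cfsg.Spor.He.d, Cfsg.Spor.He.e, Cfsg.Spor.He.f, (Cfsg.Spor.He.a * Cfsg.Spor.He.b) ^ 2, (Cfsg.Spor.He.b * Cfsg.Spor.He.c * Cfsg.Spor.He.d * Cfsg.Spor.He.e) ^ 7} : Set (FreeGroup Cfsg.Spor.He.Gen))).map (PresentedGroup.mk (Cfsg.Spor.coxRelators Cfsg.Spor.He.edges ∪ {r | r ∈ Cfsg.Spor.He.extra})))).index = 2058 ∧ ∃ q₁ q₂ q₃ q₄ : Cfsg.Spor.He ⧸ (((Subgroup.closure ({Cfsg.Spor.He.a,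 Cfsg.Spor.He.c, Cfsg.Spor.He.d, Cfsg.Spor.He.e, Cfsg.Spor.He.f, (Cfsg.Spor.He.a * Cfsg.Spor.He.b) ^ 2, (Cfsg.Spor.He.b * Cfsg.Spor.He.c * Cfsg.Spor.He.d * Cfsg.Spor.He.e) ^ 7} : Set (FreeGroup Cfsg.Spor.He.Gen))).map (PresentedGroup.mk (Cfsg.Spor.coxRelators Cfsg.Spor.He.edges ∪ {r | r ∈ Cfsg.Spor.He.extra})))), MulAction.orbit (((Subgroup.closure ({Cfsg.Spor.He.a, Cfsg.Spor.He.c, Cfsg.Spor.He.d, Cfsg.Spor.He.e, Cfsg.Spor.He.f, (Cfsg.Spor.He.a * Cfsg.Spor.He.b) ^ 2, (Cfsg.Spor.He.b * Cfsg.Spor.He.c * Cfsg.Spor.He.d * Cfsg.Spor.He.e) ^ 7} : Set (FreeGroup Cfsg.Spor.He.Gen))).map (PresentedGroup.mk (Cfsg.Spor.coxRelators Cfsg.Spor.He.edges ∪ {r | r ∈ Cfsg.Spor.He.extra})))) q₁ ≠ MulAction.orbit (((Subgroup.closure ({Cfsg.Spor.He.a, Cfsg.Spor.He.c, Cfsg.Spor.He.d, Cfsg.Spor.He.e, Cfsg.Spor.He.f, (Cfsg.Spor.He.a * Cfsg.Spor.He.b)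 ^ 2, (Cfsg.Spor.He.b * Cfsg.Spor.He.c * Cfsg.Spor.He.d * Cfsg.Spor.He.e) ^ 7} : Set (FreeGroup Cfsg.Spor.He.Gen))).map (PresentedGroup.mk (Cfsg.Spor.coxRelators Cfsg.Spor.He.edges ∪ {r | r ∈ Cfsg.Spor.He.extra})))) q₂ ∧ (MulAction.orbit (((Subgroup.closure ({Cfsg.Spor.He.a, Cfsg.Spor.He.c, Cfsg.Spor.He.d, Cfsg.Spor.He.e, Cfsg.Spor.He.f, (Cfsg.Spor.He.a * Cfsg.Spor.He.b) ^ 2, (Cfsg.Spor.He.b * Cfsg.Spor.He.c * Cfsg.Spor.He.d * Cfsg.Spor.He.e) ^ 7} : Set (FreeGroup Cfsg.Spor.He.Gen))).map (PresentedGroup.mk (Cfsg.Spor.coxRelators Cfsg.Spor.He.edges ∪ {r | r ∈ Cfsg.Spor.He.extra})))) q₁).ncard = 136 ∧ (MulAction.orbit (((Subgroup.closure ({Cfsg.Spor.He.a, Cfsg.Spor.He.c, Cfsg.Spor.He.d, Cfsg.Spor.He.e, Cfsg.Spor.He.f, (Cfsg.Spor.He.a * Cfsg.Spor.He.b) ^ 2, (Cfsg.Spor.He.b * Cfsg.Spor.He.c * Cfsg.Spor.He.d * Cfsg.Spor.He.e) ^ 7}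 : Set (FreeGroup Cfsg.Spor.He.Gen))).map (PresentedGroup.mk (Cfsg.Spor.coxRelators Cfsg.Spor.He.edges ∪ {r | r ∈ Cfsg.Spor.He.extra})))) q₂).ncard = 136 ∧ (MulAction.orbit (((Subgroup.closure ({Cfsg.Spor.He.a, Cfsg.Spor.He.c, Cfsg.Spor.He.d, Cfsg.Spor.He.e, Cfsg.Spor.He.f, (Cfsg.Spor.He.a * Cfsg.Spor.He.b) ^ 2, (Cfsg.Spor.He.b * Cfsg.Spor.He.c * Cfsg.Spor.He.d * Cfsg.Spor.He.e) ^ 7} : Set (FreeGroup Cfsg.Spor.He.Gen))).map (PresentedGroup.mk (Cfsg.Spor.coxRelators Cfsg.Spor.He.edges ∪ {r | r ∈ Cfsg.Spor.He.extra})))) q₃).ncard = 425 ∧ (MulAction.orbit (((Subgroup.closure ({Cfsg.Spor.He.a, Cfsg.Spor.He.c, Cfsg.Spor.He.d, Cfsg.Spor.He.e, Cfsg.Spor.He.f, (Cfsg.Spor.He.a * Cfsg.Spor.He.b) ^ 2, (Cfsg.Spor.He.b * Cfsg.Spor.He.c * Cfsg.Spor.He.d * Cfsg.Spor.He.e) ^ 7} : Set (FreeGroup Cfsg.Spor.He.Gen))).map (PresentedGroup.mk (Cfsg.Spor.coxRelators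 Cfsg.Spor.He.edges ∪ {r | r ∈ Cfsg.Spor.He.extra})))) q₄).ncard = 1360 := by
  have key : (((Subgroup.closure ({Cfsg.Spor.He.a, Cfsg.Spor.He.c, Cfsg.Spor.He.d, Cfsg.Spor.He.e, Cfsg.Spor.He.f, (Cfsg.Spor.He.a * Cfsg.Spor.He.b) ^ 2, (Cfsg.Spor.He.b * Cfsg.Spor.He.c * Cfsg.Spor.He.d * Cfsg.Spor.He.e) ^ 7} : Set (FreeGroup Cfsg.Spor.He.Gen))).map (PresentedGroup.mk (Cfsg.Spor.coxRelators Cfsg.Spor.He.edges ∪ {r | r ∈ Cfsg.Spor.He.extra})))) = H29.CosetCert.HeCert.H := by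
    rw [MonoidHom.map_closure]
    refine congrArg Subgroup.closure (Set.ext fun x => ?_)
    simp [Cfsg.Spor.He.a, Cfsg.Spor.He.b, Cfsg.Spor.He.c, Cfsg.Spor.He.d, Cfsg.Spor.He.e, Cfsg.Spor.He.f, Cfsg.Spor.He.g, H29.CosetCert.HeData.S, H29.CosetCert.genAt, H29.CosetCert.HeCert.g, List.getD_eq_getElem?_getD, pow_succ,
      mul_assoc, PresentedGroup.of, eq_comm]
  rw [key]
  obtain ⟨q0, h0, m0⟩ := H29.CosetCert.HeCert.cert.exists_orbit (s := 46) (by decide)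
    H29.CosetCert.HeData.orb3_grow H29.CosetCert.HeData.orb3_inv H29.CosetCert.HeData.orb3_count
  obtain ⟨q1, h1, m1⟩ := H29.CosetCert.HeCert.cert.exists_orbit (s := 65) (by decide)
    H29.CosetCert.HeData.orb4_grow H29.CosetCert.HeData.orb4_inv H29.CosetCert.HeData.orb4_count
  obtain ⟨q2, h2, m2⟩ := H29.CosetCert.HeCert.cert.exists_orbit (s := 2) (by decide)
    H29.CosetCert.HeData.orb2_grow H29.CosetCert.HeData.orb2_inv H29.CosetCert.HeData.orb2_count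
  obtain ⟨q3, h3, m3⟩ := H29.CosetCert.HeCert.cert.exists_orbit (s := 1) (by decide)
    H29.CosetCert.HeData.orb1_grow H29.CosetCert.HeData.orb1_inv H29.CosetCert.HeData.orb1_count
  refine ⟨H29.CosetCert.HeCert.cert.index_eq, q0, q1, q2, q3, ?_, h0, h1, h2, h3⟩
  intro heq
  have a0 := (m0 q0).1 (MulAction.mem_orbit_self q0)
  have a1 := (m1 q0).1 (heq ▸ MulAction.mem_orbit_self q0)
  have hd : H29.CosetCert.HeData.orb3 &&& H29.CosetCert.HeData.orb4 = 0 := by decide +kernel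
  have h := congrArg (fun v => Nat.testBit v (H29.CosetCert.HeCert.cert.toPt q0 : Fin _)) hd
  simp [a0, a1] at h

end Cfsg.Agent.S1683
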