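import Cfsg.Statements.S1685
import Cfsg.Agent.H29.CosetCert.Fi22O.Cert

set_option autoImplicit false
open Cfsg

namespace Cfsg.Agent.S1685

/-- In the presented Fischer group Fi₂₂ (generators a, …, i), the subgroup generated by the images of b, c, d, e, f, g, h, i has index 14080. -/
theorem result : (((Subgroup.closure ({Cfsg.Spor.Fi22.b, Cfsg.Spor.Fi22.c, Cfsg.Spor.Fi22.d, Cfsg.Spor.Fi22.e, Cfsg.Spor.Fi22.f, Cfsg.Spor.Fi22.g, Cfsg.Spor.Fi22.h, Cfsg.Spor.Fi22.i} : Set (FreeGroup Cfsg.Spor.Fi22.Gen))).map (PresentedGroup.mk (Cfsg.Spor.coxRelators Cfsg.Spor.Fi22.edges ∪ {r | r ∈ Cfsg.Spor.Fi22.extra})))).index = 14080 := by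
  have key : (((Subgroup.closure ({Cfsg.Spor.Fi22.b, Cfsg.Spor.Fi22.c, Cfsg.Spor.Fi22.d, Cfsg.Spor.Fi22.e, Cfsg.Spor.Fi22.f, Cfsg.Spor.Fi22.g, Cfsg.Spor.Fi22.h, Cfsg.Spor.Fi22.i} : Set (FreeGroup Cfsg.Spor.Fi22.Gen))).map (PresentedGroup.mk (Cfsg.Spor.coxRelators Cfsg.Spor.Fi22.edges ∪ {r | r ∈ Cfsg.Spor.Fi22.extra})))) = H29.CosetCert.Fi22OCert.H := by
    rw [MonoidHom.map_closure]
    refine congrArg Subgroup.closure (Set.ext fun x => ?_)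
    simp [Cfsg.Spor.Fi22.a, Cfsg.Spor.Fi22.b, Cfsg.Spor.Fi22.c, Cfsg.Spor.Fi22.d, Cfsg.Spor.Fi22.e, Cfsg.Spor.Fi22.f, Cfsg.Spor.Fi22.g, Cfsg.Spor.Fi22.h, Cfsg.Spor.Fi22.i, H29.CosetCert.Fi22OData.S, H29.CosetCert.genAt, H29.CosetCert.Fi22OCert.g, List.getD_eq_getElem?_getD, pow_succ,
      mul_assoc, PresentedGroup.of, eq_comm]
  rw [key]
  exact H29.CosetCert.Fi22OCert.cert.index_eq

end Cfsg.Agent.S1685
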