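import Cfsg.Statements.S1686
import Cfsg.Agent.FiTwoTwoO7.Main
-- import your own Cfsg.Agent.* helpers here

set_option autoImplicit false
open Cfsg

namespace Cfsg.Agent.S1686

/-- In the presented Fischer group Fi₂₂, the subgroup generated by the images of b, …, i is isomorphic to PΩ(7, 3), the commutator subgroup of the isometry group of the quadratic form x₀² + x₁y₁ + x₂y₂ + x₃y₃ over the integers mod 3, modulo its centre. -/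
theorem result : Nonempty ((((Subgroup.closure ({Cfsg.Spor.Fi22.b, Cfsg.Spor.Fi22.c, Cfsg.Spor.Fi22.d, Cfsg.Spor.Fi22.e, Cfsg.Spor.Fi22.f, Cfsg.Spor.Fi22.g, Cfsg.Spor.Fi22.h, Cfsg.Spor.Fi22.i} : Set (FreeGroup Cfsg.Spor.Fi22.Gen))).map (PresentedGroup.mk (Cfsg.Spor.coxRelators Cfsg.Spor.Fi22.edges ∪ {r | r ∈ Cfsg.Spor.Fi22.extra})))) ≃* Cfsg.POmega (ZMod 3) (Cfsg.quadFormOdd 3 (ZMod 3))) := by
  obtain ⟨e⟩ := CfsgLib.FiTwoTwoO7.subgroup_iso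
  refine ⟨(MulEquiv.subgroupCongr ?_).trans e⟩
  rw [MonoidHom.map_closure]
  congr 1
  ext x
  constructor
  · rintro ⟨y, hy, rfl⟩
    simp only [Set.mem_insert_iff, Set.mem_singleton_iff] at hy
    rcases hy with rfl | rfl | rfl | rfl | rfl | rfl | rfl | rfl
    exacts [⟨0, rfl⟩, ⟨1, rfl⟩, ⟨2, rfl⟩, ⟨3, rfl⟩, ⟨4, rfl⟩, ⟨5, rfl⟩, ⟨6, rfl⟩, ⟨7, rfl⟩]
  · rintro ⟨i, rfl⟩
    fin_cases i
    exacts [⟨Cfsg.Spor.Fi22.b, by simp, rfl⟩, ⟨Cfsg.Spor.Fi22.c, by simp, rfl⟩, ⟨Cfsg.Spor.Fi22.d, by simp, rfl⟩,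
      ⟨Cfsg.Spor.Fi22.e, by simp, rfl⟩, ⟨Cfsg.Spor.Fi22.f, by simp, rfl⟩, ⟨Cfsg.Spor.Fi22.g, by simp, rfl⟩,
      ⟨Cfsg.Spor.Fi22.h, by simp, rfl⟩, ⟨Cfsg.Spor.Fi22.i, by simp, rfl⟩]

end Cfsg.Agent.S1686
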