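import Cfsg.Statements.S1689
import Cfsg.Agent.H29.CosetCert.Fi23.Cert
import Cfsg.Agent.H29.CosetCert.Fi23.Orbit1
import Cfsg.Agent.H29.CosetCert.Fi23.Orbit2

set_option autoImplicit false
open Cfsg

namespace Cfsg.Agent.S1689

/-- In the presented Fischer group Fi₂₃, let H be the subgroup generated by the images of a, …, i. Then H has index 31671, H has orbits of sizes 3510 and 28160 on the cosets of H other than H itself. -/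
theorem result : (((Subgroup.closure ({Cfsg.Spor.Fi23.a, Cfsg.Spor.Fi23.b, Cfsg.Spor.Fi23.c, Cfsg.Spor.Fi23.d, Cfsg.Spor.Fi23.e, Cfsg.Spor.Fi23.f, Cfsg.Spor.Fi23.g, Cfsg.Spor.Fi23.h, Cfsg.Spor.Fi23.i} : Set (FreeGroup Cfsg.Spor.Fi23.Gen))).map (PresentedGroup.mk (Cfsg.Spor.coxRelators Cfsg.Spor.Fi23.edges ∪ {r | r ∈ Cfsg.Spor.Fi23.extra})))).index = 31671 ∧ ∃ q₁ q₂ : Cfsg.Spor.Fi23 ⧸ (((Subgroup.closure ({Cfsg.Spor.Fi23.a, Cfsg.Spor.Fi23.b, Cfsg.Spor.Fi23.c, Cfsg.Spor.Fi23.d, Cfsg.Spor.Fi23.e, Cfsg.Spor.Fi23.f, Cfsg.Spor.Fi23.g, Cfsg.Spor.Fi23.h, Cfsg.Spor.Fi23.i} : Set (FreeGroup Cfsg.Spor.Fi23.Gen))).map (PresentedGroup.mk (Cfsg.Spor.coxRelators Cfsg.Spor.Fi23.edges ∪ {r | r ∈ Cfsg.Spor.Fi23.extra})))), (MulAction.orbit (((Subgroup.closure ({Cfsg.Spor.Fi23.a, Cfsg.Spor.Fi23.b, Cfsg.Spor.Fi23.c, Cfsg.Spor.Fi23.d,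 Cfsg.Spor.Fi23.e, Cfsg.Spor.Fi23.f, Cfsg.Spor.Fi23.g, Cfsg.Spor.Fi23.h, Cfsg.Spor.Fi23.i} : Set (FreeGroup Cfsg.Spor.Fi23.Gen))).map (PresentedGroup.mk (Cfsg.Spor.coxRelators Cfsg.Spor.Fi23.edges ∪ {r | r ∈ Cfsg.Spor.Fi23.extra})))) q₁).ncard = 3510 ∧ (MulAction.orbit (((Subgroup.closure ({Cfsg.Spor.Fi23.a, Cfsg.Spor.Fi23.b, Cfsg.Spor.Fi23.c, Cfsg.Spor.Fi23.d, Cfsg.Spor.Fi23.e, Cfsg.Spor.Fi23.f, Cfsg.Spor.Fi23.g, Cfsg.Spor.Fi23.h, Cfsg.Spor.Fi23.i} : Set (FreeGroup Cfsg.Spor.Fi23.Gen))).map (PresentedGroup.mk (Cfsg.Spor.coxRelators Cfsg.Spor.Fi23.edges ∪ {r | r ∈ Cfsg.Spor.Fi23.extra})))) q₂).ncard = 28160 := by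
  have key : (((Subgroup.closure ({Cfsg.Spor.Fi23.a, Cfsg.Spor.Fi23.b, Cfsg.Spor.Fi23.c, Cfsg.Spor.Fi23.d, Cfsg.Spor.Fi23.e, Cfsg.Spor.Fi23.f, Cfsg.Spor.Fi23.g, Cfsg.Spor.Fi23.h, Cfsg.Spor.Fi23.i} : Set (FreeGroup Cfsg.Spor.Fi23.Gen))).map (PresentedGroup.mk (Cfsg.Spor.coxRelators Cfsg.Spor.Fi23.edges ∪ {r | r ∈ Cfsg.Spor.Fi23.extra})))) = H29.CosetCert.Fi23Cert.H := by
    rw [MonoidHom.map_closure]
    refine congrArg Subgroup.closure (Set.ext fun x => ?_)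
    simp [Cfsg.Spor.Fi23.a, Cfsg.Spor.Fi23.b, Cfsg.Spor.Fi23.c, Cfsg.Spor.Fi23.d, Cfsg.Spor.Fi23.e, Cfsg.Spor.Fi23.f, Cfsg.Spor.Fi23.g, Cfsg.Spor.Fi23.j, Cfsg.Spor.Fi23.h, Cfsg.Spor.Fi23.i, H29.CosetCert.Fi23Data.S, H29.CosetCert.genAt, H29.CosetCert.Fi23Cert.g, List.getD_eq_getElem?_getD, pow_succ,
      mul_assoc, PresentedGroup.of, eq_comm]
  rw [key]
  obtain ⟨q0, h0, m0⟩ := H29.CosetCert.Fi23Cert.cert.exists_orbit (s := 52) (by decide)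
    H29.CosetCert.Fi23Data.orb2_grow H29.CosetCert.Fi23Data.orb2_inv H29.CosetCert.Fi23Data.orb2_count
  obtain ⟨q1, h1, m1⟩ := H29.CosetCert.Fi23Cert.cert.exists_orbit (s := 1) (by decide)
    H29.CosetCert.Fi23Data.orb1_grow H29.CosetCert.Fi23Data.orb1_inv H29.CosetCert.Fi23Data.orb1_count
  exact ⟨H29.CosetCert.Fi23Cert.cert.index_eq, q0, q1, h0, h1⟩

end Cfsg.Agent.S1689
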