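import Cfsg.Statements.S1691
-- import your own Cfsg.Agent.* helpers here

set_option autoImplicit false
open Cfsg

namespace Cfsg.Agent.S1691

open Cfsg.Spor Cfsg.Spor.Fi24 in
/-- The parity of the word length. -/
noncomputable def sgnHom : Cfsg.Spor.Fi24 →* Multiplicative (ZMod 2) :=
  PresentedGroup.toGroup (f := fun _ : Fi24.Gen => Multiplicative.ofAdd (1 : ZMod 2)) (by
    intro r hr
    rcases hr with ⟨x, hx, y, hy, rfl⟩ | hr
    · simp [map_pow, ← ofAdd_add, CharTwo.add_self_eq_zero]
    · simp only [extra, List.mem_cons, List.not_mem_nil, or_false, Set.mem_ofPred_eq] at hr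
      rcases hr with rfl | rfl <;> simp only [map_mul, map_pow, map_inv, FreeGroup.lift_apply_of] <;> decide)

open Cfsg.Spor Cfsg.Spor.Fi24 in
theorem rel_eq {A : Type*} [CommGroup A] (F : Cfsg.Spor.Fi24 →* A) (e : Fi24.Gen × ℕ × Fi24.Gen)
    (he : e ∈ edges) :
    F (PresentedGroup.of e.1) = F (PresentedGroup.of e.2.2) ∧
      F (PresentedGroup.of e.1) * F (PresentedGroup.of e.1) = 1 := by
  have one : ∀ r ∈ coxRelators edges, F (PresentedGroup.mk _ r) = 1 := fun r hr => by
    rw [PresentedGroup.one_of_mem (Or.inl hr), map_one]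
  have hn1 : e.1 ∈ coxNodes edges := List.mem_append_left _ (List.mem_map_of_mem he)
  have hn2 : e.2.2 ∈ coxNodes edges := List.mem_append_right _ (List.mem_map_of_mem he)
  have hl : coxLabel edges e.1 e.2.2 = 3 := by
    have : ∀ e' ∈ edges, coxLabel edges e'.1 e'.2.2 = 3 := by decide
    exact this e he
  have h11 := one _ ⟨e.1, hn1, e.1, hn1, rfl⟩
  have h22 := one _ ⟨e.2.2, hn2, e.2.2, hn2, rfl⟩
  have h12 := one _ ⟨e.1, hn1, e.2.2, hn2, rfl⟩
  simp only [coxLabel, if_pos, pow_one, map_mul] at h11 h22
  rw [hl] at h12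
  simp only [map_pow, map_mul] at h12
  refine ⟨?_, h11⟩
  set p := F (PresentedGroup.mk _ (FreeGroup.of e.1))
  set q := F (PresentedGroup.mk _ (FreeGroup.of e.2.2))
  show p = q
  have h3 : p * q = 1 := by
    calc p * q = (p * p) * (q * q) * (p * q) := by rw [h11, h22, one_mul, one_mul]
      _ = (p * q) ^ 3 := by rw [pow_succ, pow_two, mul_mul_mul_comm p p q q]
      _ = 1 := h12
  calc p = p * (q * q) := by rw [h22, mul_one]
    _ = q := by rw [← mul_assoc, h3, one_mul]

/-- The commutator subgroup of the presented group Fi₂₄ has index 2 (the presented group is Fi₂₄′:2 with Fi₂₄′ its derived subgroup). -/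
theorem result : (commutator Cfsg.Spor.Fi24).index = 2 := by
  set Φ := Abelianization.of (G := Cfsg.Spor.Fi24)
  have hgen : ∀ x : Cfsg.Spor.Fi24.Gen,
      Φ (PresentedGroup.of x) = Φ (PresentedGroup.of .d) ∧
        Φ (PresentedGroup.of .d) * Φ (PresentedGroup.of .d) = 1 := by
    have r := fun a b h => (rel_eq Φ (a, 3, b) h).1
    have lk := r .l .k (by decide)
    have ka := r .k .a (by decide)
    have ab := r .a .b (by decide)
    have bc := r .b .c (by decide)
    have cd := r .c .d (by decide)
    have de := r .d .e (by decide)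
    have dh := r .d .h (by decide)
    have ef := r .e .f (by decide)
    have fg := r .f .g (by decide)
    have gj := r .g .j (by decide)
    have hi := r .h .i (by decide)
    intro x
    refine ⟨?_, (rel_eq Φ (.d, 3, .e) (by decide)).2⟩
    cases x <;> simp_all
  have hker : sgnHom.ker = commutator Cfsg.Spor.Fi24 := by
    apply le_antisymm
    · intro g hg
      have key : Φ g = 1 ∧ sgnHom g = 1 ∨ Φ g = Φ (PresentedGroup.of .d) ∧ sgnHom g ≠ 1 := by
        have hmem : g ∈ Subgroup.closure (Set.range (PresentedGroup.of)) := by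
          rw [PresentedGroup.closure_range_of]; trivial
        clear hg
        induction hmem using Subgroup.closure_induction with
        | mem y hy =>
          obtain ⟨x, rfl⟩ := hy
          right
          exact ⟨(hgen x).1, by simp [sgnHom, PresentedGroup.toGroup.of]⟩
        | one => left; simp
        | mul a b _ _ ha hb =>
          have two : ∀ u v : Multiplicative (ZMod 2), u ≠ 1 → v ≠ 1 → u * v = 1 := by decide
          rcases ha with ⟨ha, sa⟩ | ⟨ha, sa⟩ <;> rcases hb with ⟨hb, sb⟩ | ⟨hb, sb⟩
          · left; simp [ha, hb, sa, sb]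
          · right; simp [ha, hb, sa, sb]
          · right; simp [ha, hb, sa, sb]
          · left; exact ⟨by rw [map_mul, ha, hb, (hgen .d).2], by rw [map_mul, two _ _ sa sb]⟩
        | inv a _ ha =>
          rcases ha with ⟨ha, sa⟩ | ⟨ha, sa⟩
          · left; simp [ha, sa]
          · right
            exact ⟨by rw [map_inv, ha, inv_eq_of_mul_eq_one_right (hgen .d).2], by simpa using sa⟩
      rcases key with ⟨h, _⟩ | ⟨_, h⟩
      · rwa [← Abelianization.ker_of, MonoidHom.mem_ker]
      · exact absurd hg h
    · exact Abelianization.commutator_subset_ker sgnHom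
  have hsurj : Function.Surjective sgnHom := by
    intro u
    have two : ∀ u : Multiplicative (ZMod 2), u = 1 ∨ u = Multiplicative.ofAdd 1 := by decide
    rcases two u with rfl | rfl
    · exact ⟨1, map_one _⟩
    · exact ⟨PresentedGroup.of .d, by simp [sgnHom, PresentedGroup.toGroup.of]⟩
  rw [← hker, Subgroup.index_ker, sgnHom.range_eq_top.2 hsurj]
  simp

end Cfsg.Agent.S1691
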