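import Cfsg.Statements.S1717
import Cfsg.Agent.SLn.Unipotent
import Cfsg.Agent.IsoInv.Basic
import Mathlib.LinearAlgebra.Matrix.Permutation

set_option autoImplicit false
open Cfsg

namespace Cfsg.Agent.S1717

open Matrix CfsgLib.SLn.Unip

theorem hnum : ∀ i j : Fin 5, ((Equiv.swap (1 : Fin 5) 4).permMatrix (ZMod 2) * Matrix.transvection (0 : Fin 5) 1 (1 : ZMod 2)) i j =
        (((1 : Matrix (Fin 5) (Fin 5) (ZMod 2)) + Matrix.single (0 : Fin 5) 4 (1 : ZMod 2)) * (Equiv.swap (1 : Fin 5) 4).permMatrix (ZMod 2) : Matrix (Fin 5) (Fin 5) (ZMod 2)) i j := by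
  decide +kernel

theorem center_upperUni (u : SpecialLinearGroup (Fin 5) (ZMod 2)) (hu : u ∈ upperUni (ZMod 2) 5)
    (hc : ∀ v ∈ upperUni (ZMod 2) 5, v * u = u * v) (i j : Fin 5) (hij : i < j)
    (h04 : ¬ (i = 0 ∧ j = 4)) : (u : Matrix (Fin 5) (Fin 5) (ZMod 2)) i j = 0 := by
  have key : ∀ a b : Fin 5, ∀ hab : a < b, ∀ k l : Fin 5,
      (if k = a then (u : Matrix (Fin 5) (Fin 5) (ZMod 2)) b l else 0) =
        (if l = b then (u : Matrix (Fin 5) (Fin 5) (ZMod 2)) k a else 0) := by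
    intro a b hab k l
    have h := hc _ (transvection_mem hab (1 : ZMod 2))
    have h1 : ((SpecialLinearGroup.transvection hab.ne (1 : ZMod 2)).1 * u.1) k l =
        (u.1 * (SpecialLinearGroup.transvection hab.ne (1 : ZMod 2)).1) k l :=
      congrArg (fun M : SpecialLinearGroup (Fin 5) (ZMod 2) => M.1 k l) h
    rw [SpecialLinearGroup.transvection_coe, Matrix.add_mul, Matrix.mul_add, Matrix.one_mul, Matrix.mul_one,
      Matrix.add_apply, Matrix.add_apply, add_right_inj] at h1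
    convert h1 using 1
    · by_cases hk : k = a
      · subst hk; rw [if_pos rfl, Matrix.single_mul_apply_same, one_mul]
      · rw [if_neg hk, Matrix.single_mul_apply_of_ne _ _ _ _ _ hk]
    · by_cases hl : l = b
      · subst hl; rw [if_pos rfl, Matrix.mul_single_apply_same, mul_one]
      · rw [if_neg hl, Matrix.mul_single_apply_of_ne _ _ _ _ _ hl]
  by_cases hi : i = 0
  · -- then `j < 4`
    have hj : j < 4 := lt_of_le_of_ne (Fin.le_last j) fun h => h04 ⟨hi, h⟩
    have := key j 4 hj i 4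
    rw [if_pos rfl, if_neg hij.ne] at this
    exact this.symm
  · have := key 0 i (Fin.pos_iff_ne_zero.2 hi) 0 j
    rw [if_pos rfl, if_neg hij.ne'] at this
    exact this

/-- Let G be a finite group with an involution z whose centraliser C is isomorphic to the centraliser of a transvection of SL(5, 2). Then a Sylow 2-subgroup of C, viewed in G, is a Sylow 2-subgroup of G (its index in G is odd). -/
theorem result {G : Type*} [Group G] [Finite G] (s : Matrix.SpecialLinearGroup (Fin 5) (ZMod 2)) (hs : (s : Matrix (Fin 5) (Fin 5) (ZMod 2)) = Matrix.transvection 0 1 1) (z : G) (hz : orderOf z = 2) (e : (Subgroup.centralizer ({z} : Set G)) ≃* Subgroup.centralizer ({s} : Set (Matrix.SpecialLinearGroup (Fin 5) (ZMod 2)))) (T : Sylow 2 (Subgroup.centralizer ({z} : Set G))) : ¬ 2 ∣ ((T : Subgroup (Subgroup.centralizer ({z} : Set G))).map (Subgroup.subtype (Subgroup.centralizer ({z} : Set G)))).index := by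
  have : Fact (Nat.Prime 2) := ⟨Nat.prime_two⟩
  -- `z₀` and the conjugating element
  have h04 : (0 : Fin 5) < 4 := by decide
  set z0 : SpecialLinearGroup (Fin 5) (ZMod 2) := SpecialLinearGroup.transvection h04.ne 1 with hz0
  have hz0U : z0 ∈ upperUni (ZMod 2) 5 := transvection_mem h04 1
  let g : SpecialLinearGroup (Fin 5) (ZMod 2) := ⟨(Equiv.swap (1 : Fin 5) 4).permMatrix (ZMod 2), by
    rw [Matrix.det_permutation, Equiv.Perm.sign_swap (by decide)]; decide⟩
  have hgs : g * s * g⁻¹ = z0 := by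
    rw [mul_inv_eq_iff_eq_mul]
    apply Subtype.ext
    show g.1 * s.1 = z0.1 * g.1
    rw [hs, hz0, SpecialLinearGroup.transvection_coe]
    ext i j
    exact hnum i j
  -- `U` centralises `z₀`
  have hUz : upperUni (ZMod 2) 5 ≤ Subgroup.centralizer ({z0} : Set (SpecialLinearGroup (Fin 5) (ZMod 2))) := by
    intro u hu
    rw [Subgroup.mem_centralizer_singleton_iff]
    apply Subtype.ext
    show u.1 * z0.1 = z0.1 * u.1
    rw [hz0, SpecialLinearGroup.transvection_coe, Matrix.mul_add, Matrix.add_mul, Matrix.one_mul, Matrix.mul_one]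
    congr 1
    ext k l
    have h1 : ∀ k : Fin 5, u.1 k 0 = (1 : Matrix (Fin 5) (Fin 5) (ZMod 2)) k 0 := fun k => upperUni_off hu (Fin.zero_le k)
    have h2 : ∀ l : Fin 5, u.1 4 l = (1 : Matrix (Fin 5) (Fin 5) (ZMod 2)) 4 l := fun l => upperUni_off hu (Fin.le_last l)
    by_cases hk : k = 0 <;> by_cases hl : l = 4
    · subst hk; subst hl; simp [h1, h2]
    · subst hk; simp [Matrix.mul_single_apply_of_ne _ _ _ _ _ hl, h2, Ne.symm hl]
    · subst hl; simp [Matrix.single_mul_apply_of_ne _ _ _ _ _ hk, h1, hk]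
    · simp [Matrix.single_mul_apply_of_ne _ _ _ _ _ hk, Matrix.mul_single_apply_of_ne _ _ _ _ _ hl]
  -- centre of `U`
  have hcenter : Nat.card ↥(Subgroup.center ↥(upperUni (ZMod 2) 5)) ≤ 2 := by
    have hinj : Function.Injective (fun u : ↥(Subgroup.center ↥(upperUni (ZMod 2) 5)) =>
        ((u : ↥(upperUni (ZMod 2) 5)) : SpecialLinearGroup (Fin 5) (ZMod 2)).1 0 4) := by
      intro u v huv
      apply Subtype.ext; apply Subtype.ext; apply Subtype.ext
      ext i j
      rcases lt_or_ge i j with hij | hij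
      · by_cases h : i = 0 ∧ j = 4
        · rw [h.1, h.2]; exact huv
        · rw [center_upperUni _ u.1.2 (fun w hw => congrArg Subtype.val (Subgroup.mem_center_iff.1 u.2 ⟨w, hw⟩)) i j hij h,
            center_upperUni _ v.1.2 (fun w hw => congrArg Subtype.val (Subgroup.mem_center_iff.1 v.2 ⟨w, hw⟩)) i j hij h]
      · rw [upperUni_off u.1.2 hij, upperUni_off v.1.2 hij]
    refine (Nat.card_le_card_of_injective _ hinj).trans ?_
    simp
  -- transport to `T`
  obtain ⟨P, hP⟩ := exists_sylow_eq_upperUni (K := ZMod 2) (n := 5) 2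
  let PC : Sylow 2 ↥(Subgroup.centralizer ({z0} : Set (SpecialLinearGroup (Fin 5) (ZMod 2)))) := P.subtype (hP ▸ hUz)
  have hmapz : (Subgroup.centralizer ({s} : Set (SpecialLinearGroup (Fin 5) (ZMod 2)))).map (MulAut.conj g).toMonoidHom =
      Subgroup.centralizer ({z0} : Set (SpecialLinearGroup (Fin 5) (ZMod 2))) := by
    ext x
    constructor
    · rintro ⟨y, hy, rfl⟩
      rw [SetLike.mem_coe, Subgroup.mem_centralizer_singleton_iff] at hy
      rw [Subgroup.mem_centralizer_singleton_iff, ← hgs]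
      show g * y * g⁻¹ * (g * s * g⁻¹) = g * s * g⁻¹ * (g * y * g⁻¹)
      calc g * y * g⁻¹ * (g * s * g⁻¹) = g * (y * s) * g⁻¹ := by group
        _ = g * (s * y) * g⁻¹ := by rw [hy]
        _ = _ := by group
    · intro hx
      rw [Subgroup.mem_centralizer_singleton_iff, ← hgs] at hx
      refine ⟨g⁻¹ * x * g, Subgroup.mem_centralizer_singleton_iff.2 ?_, by simp [mul_assoc]⟩
      calc g⁻¹ * x * g * s = g⁻¹ * (x * (g * s * g⁻¹)) * g := by group
        _ = g⁻¹ * (g * s * g⁻¹ * x) * g := by rw [hx]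
        _ = _ := by group
  let f : ↥(Subgroup.centralizer ({z} : Set G)) ≃* ↥(Subgroup.centralizer ({z0} : Set (SpecialLinearGroup (Fin 5) (ZMod 2)))) :=
    e.trans (((Subgroup.centralizer ({s} : Set (SpecialLinearGroup (Fin 5) (ZMod 2)))).equivMapOfInjective
      (MulAut.conj g).toMonoidHom (MulAut.conj g).injective).trans (MulEquiv.subgroupCongr hmapz))
  have hTZ : Nat.card ↥(Subgroup.center ↥(T : Subgroup ↥(Subgroup.centralizer ({z} : Set G)))) ≤ 2 := by
    let T0 : Sylow 2 ↥(Subgroup.centralizer ({z0} : Set (SpecialLinearGroup (Fin 5) (ZMod 2)))) :=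
      T.mapSurjective (f := f.toMonoidHom) f.surjective
    let e1 : ↥(T : Subgroup ↥(Subgroup.centralizer ({z} : Set G))) ≃* ↥(T0 : Subgroup ↥(Subgroup.centralizer ({z0} : Set (SpecialLinearGroup (Fin 5) (ZMod 2))))) :=
      ((T : Subgroup ↥(Subgroup.centralizer ({z} : Set G))).equivMapOfInjective f.toMonoidHom f.injective)
    let e2 : ↥(T : Subgroup ↥(Subgroup.centralizer ({z} : Set G))) ≃* ↥(upperUni (ZMod 2) 5) :=
      (e1.trans (T0.equiv PC)).trans ((Subgroup.subgroupOfEquivOfLe (hP ▸ hUz)).trans (MulEquiv.subgroupCongr hP))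
    rw [Nat.card_congr ((Subgroup.center ↥(T : Subgroup ↥(Subgroup.centralizer ({z} : Set G)))).equivMapOfInjective e2.toMonoidHom e2.injective).toEquiv,
      CfsgLib.IsoInv.center_map_equiv e2]
    exact hcenter
  -- `T` is a Sylow subgroup of `G`
  set T' := (T : Subgroup ↥(Subgroup.centralizer ({z} : Set G))).map (Subgroup.centralizer ({z} : Set G)).subtype with hT'
  have hzC : z ∈ Subgroup.centralizer ({z} : Set G) := Subgroup.mem_centralizer_singleton_iff.2 rfl
  have hzcen : (⟨z, hzC⟩ : ↥(Subgroup.centralizer ({z} : Set G))) ∈ Subgroup.center _ := Subgroup.mem_center_iff.2 fun x =>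
    Subtype.ext (Subgroup.mem_centralizer_singleton_iff.1 x.2)
  have hzT : (⟨z, hzC⟩ : ↥(Subgroup.centralizer ({z} : Set G))) ∈ (T : Subgroup ↥(Subgroup.centralizer ({z} : Set G))) := by
    have h1 : IsPGroup 2 ↥(Subgroup.zpowers (⟨z, hzC⟩ : ↥(Subgroup.centralizer ({z} : Set G)))) :=
      IsPGroup.of_card (n := 1) (by rw [Nat.card_zpowers, ← Subgroup.orderOf_coe, hz, pow_one])
    haveI : (Subgroup.zpowers (⟨z, hzC⟩ : ↥(Subgroup.centralizer ({z} : Set G)))).Normal := ⟨fun a ha b => by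
      obtain ⟨k, rfl⟩ := Subgroup.mem_zpowers_iff.1 ha
      rw [Subgroup.mem_center_iff.1 (Subgroup.zpow_mem _ hzcen k) b, mul_inv_cancel_right]
      exact ha⟩
    exact (le_sup_right.trans (T.is_maximal' (IsPGroup.to_sup_of_normal_right T.isPGroup' h1) le_sup_left).le)
      (Subgroup.mem_zpowers _)
  have hz1 : z ≠ 1 := fun h => by rw [h, orderOf_one] at hz; omega
  obtain ⟨R, hR⟩ := (T.isPGroup'.map (Subgroup.centralizer ({z} : Set G)).subtype).exists_le_sylow
  have hmax : ∀ x : G, x ∈ (R : Subgroup G) → x ∈ Subgroup.centralizer ({z} : Set G) → x ∈ T' := by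
    intro x hxR hxC
    have h1 : IsPGroup 2 ↥((R : Subgroup G).subgroupOf (Subgroup.centralizer ({z} : Set G))) :=
      R.isPGroup'.comap_of_injective _ (Subgroup.subtype_injective _)
    have h2 := T.is_maximal' h1 (fun y hy => hR ⟨y, hy, rfl⟩)
    exact ⟨⟨x, hxC⟩, h2.le hxR, rfl⟩
  have hTR : (R : Subgroup G) ≤ T' := by
    by_contra hlt
    have := R.isPGroup'.isNilpotent
    obtain ⟨⟨x, hxR⟩, hxN, hxT⟩ := SetLike.exists_of_lt (Group.normalizerCondition_of_isNilpotent (G := ↥(R : Subgroup G)) _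
      (lt_top_iff_ne_top.2 fun h => hlt (Subgroup.subgroupOf_eq_top.1 h) : T'.subgroupOf (R : Subgroup G) < ⊤))
    refine hxT (hmax x hxR (Subgroup.mem_centralizer_singleton_iff.2 (mul_inv_eq_iff_eq_mul.1 ?_)))
    have hzT' : z ∈ T' := ⟨_, hzT, rfl⟩
    have hconj : ∀ y ∈ T', x * y * x⁻¹ ∈ T' ∧ x⁻¹ * y * x ∈ T' := fun y hy =>
      ⟨(Subgroup.mem_normalizer_iff.1 hxN ⟨y, hR hy⟩).1 hy, (Subgroup.mem_normalizer_iff''.1 hxN ⟨y, hR hy⟩).1 hy⟩
    obtain ⟨w, hwT, hw⟩ := (hconj z hzT').1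
    have hwc : (⟨w, hwT⟩ : ↥(T : Subgroup ↥(Subgroup.centralizer ({z} : Set G)))) ∈ Subgroup.center _ := by
      rw [Subgroup.mem_center_iff]
      intro v
      apply Subtype.ext; apply Subtype.ext
      show ((v : ↥(Subgroup.centralizer ({z} : Set G))) : G) * (Subgroup.centralizer ({z} : Set G)).subtype w =
        (Subgroup.centralizer ({z} : Set G)).subtype w * ((v : ↥(Subgroup.centralizer ({z} : Set G))) : G)
      rw [hw]
      obtain ⟨v', hv'T, hv'⟩ := (hconj _ (⟨v.1, v.2, rfl⟩ : ((v : ↥(Subgroup.centralizer ({z} : Set G))) : G) ∈ T')).2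
      have h3 : (x⁻¹ * ((v : ↥(Subgroup.centralizer ({z} : Set G))) : G) * x) * z = z * (x⁻¹ * ((v : ↥(Subgroup.centralizer ({z} : Set G))) : G) * x) := by
        rw [← hv']; exact Subgroup.mem_centralizer_singleton_iff.1 v'.2
      calc ((v : ↥(Subgroup.centralizer ({z} : Set G))) : G) * (x * z * x⁻¹)
          = x * ((x⁻¹ * ((v : ↥(Subgroup.centralizer ({z} : Set G))) : G) * x) * z) * x⁻¹ := by group
        _ = x * (z * (x⁻¹ * ((v : ↥(Subgroup.centralizer ({z} : Set G))) : G) * x)) * x⁻¹ := by rw [h3]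
        _ = _ := by group
    have hzc' : (⟨⟨z, hzC⟩, hzT⟩ : ↥(T : Subgroup ↥(Subgroup.centralizer ({z} : Set G)))) ∈ Subgroup.center _ :=
      Subgroup.mem_center_iff.2 fun v => Subtype.ext (Subgroup.mem_center_iff.1 hzcen v)
    have hcard : Nat.card ↥(Subgroup.center ↥(T : Subgroup ↥(Subgroup.centralizer ({z} : Set G)))) = 2 := by
      refine le_antisymm hTZ ?_
      refine Finite.one_lt_card_iff_nontrivial.2 ⟨⟨⟨_, hzc'⟩, 1, fun h => hz1 ?_⟩⟩
      exact congrArg (fun y : ↥(Subgroup.center ↥(T : Subgroup ↥(Subgroup.centralizer ({z} : Set G)))) =>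
        ((y : ↥(T : Subgroup ↥(Subgroup.centralizer ({z} : Set G)))) : ↥(Subgroup.centralizer ({z} : Set G))).1) h
    obtain ⟨y, -, hy⟩ := (Nat.card_eq_two_iff' (1 : ↥(Subgroup.center ↥(T : Subgroup ↥(Subgroup.centralizer ({z} : Set G)))))).1 hcard
    have h1 := hy ⟨_, hwc⟩ (fun h => hz1 (by
      have h4 : (Subgroup.centralizer ({z} : Set G)).subtype w = 1 :=
        congrArg (fun y : ↥(Subgroup.center ↥(T : Subgroup ↥(Subgroup.centralizer ({z} : Set G)))) =>
          ((y : ↥(T : Subgroup ↥(Subgroup.centralizer ({z} : Set G)))) : ↥(Subgroup.centralizer ({z} : Set G))).1) h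
      rw [hw, conj_eq_one_iff] at h4
      exact h4))
    have h2 := hy ⟨_, hzc'⟩ (fun h => hz1 (congrArg (fun y : ↥(Subgroup.center ↥(T : Subgroup ↥(Subgroup.centralizer ({z} : Set G)))) =>
          ((y : ↥(T : Subgroup ↥(Subgroup.centralizer ({z} : Set G)))) : ↥(Subgroup.centralizer ({z} : Set G))).1) h))
    rw [← hw]
    exact congrArg (fun y : ↥(Subgroup.center ↥(T : Subgroup ↥(Subgroup.centralizer ({z} : Set G)))) =>
          ((y : ↥(T : Subgroup ↥(Subgroup.centralizer ({z} : Set G)))) : ↥(Subgroup.centralizer ({z} : Set G))).1) (h1.trans h2.symm)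
  rw [show T' = (R : Subgroup G) from le_antisymm hR hTR]
  exact R.not_dvd_index

end Cfsg.Agent.S1717
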