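import Cfsg.Statements.S1753
-- helpers

set_option autoImplicit false
universe u
open Cfsg

namespace Cfsg.Agent.S1753

/-- Let K be any property of groups. (1) If G is a minimal counterexample relative to K — a finite non-abelian simple group not satisfying K such that every finite non-abelian simple group of smaller order satisfies K — then every proper subgroup of G is a K-group (all its non-abelian simple sections satisfy K), since such sections have smaller order than G. (2) Consequently (induction on the order), if every finite non-abelian simple group all of whose proper subgroups are K-groups satisfies K, then every finite non-abelian simple group satisfies K. -/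
theorem result (K : ∀ (X : Type u) [Group X], Prop) :
    (∀ (G : Type u) [Group G], Cfsg.IsMinCounterexampleWith K G → Cfsg.IsKProperWith K G) ∧
      ((∀ (X : Type u) [Group X] [Finite X], IsSimpleGroup X → ¬ IsMulCommutative X → Cfsg.IsKProperWith K X → K X) →
        ∀ (G : Type u) [Group G] [Finite G], IsSimpleGroup G → ¬ IsMulCommutative G → K G) := by
  constructor
  · rintro G _ ⟨hfin, hs, hnc, hK, hmin⟩ H hH S N hN hsimp hnab
    have : Finite G := hfin
    refine hmin _ hsimp hnab ?_
    refine lt_of_le_of_lt ?_ (lt_of_le_of_ne (Subgroup.card_le_card_group H) ?_)
    · exact le_trans (Nat.le_of_dvd Nat.card_pos (Subgroup.card_quotient_dvd_card N))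
        (Subgroup.card_le_card_group S)
    · exact fun h => hH (Subgroup.card_eq_iff_eq_top H |>.mp h)
  · intro hmain
    have hall : ∀ n : ℕ, ∀ (G : Type u) [Group G] [Finite G], Nat.card G = n → IsSimpleGroup G →
        ¬ IsMulCommutative G → K G := by
      intro n
      induction n using Nat.strong_induction_on with
      | _ n ih =>
        intro G _ _ hn hs hnc
        refine hmain G hs hnc ?_
        intro H hH S N hN hsimp hnab
        refine ih _ ?_ (↥S ⧸ N) rfl hsimp hnab
        rw [← hn]
        refine lt_of_le_of_lt ?_ (lt_of_le_of_ne (Subgroup.card_le_card_group H) ?_)
        · exact le_trans (Nat.le_of_dvd Nat.card_pos (Subgroup.card_quotient_dvd_card N))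
            (Subgroup.card_le_card_group S)
        · exact fun h => hH (Subgroup.card_eq_iff_eq_top H |>.mp h)
    intro G _ _ hs hnc
    exact hall _ G rfl hs hnc


end Cfsg.Agent.S1753
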