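import Cfsg.Statements.S1754
import Cfsg.Agent.IsoInv.Basic

set_option autoImplicit false
open Cfsg

namespace Cfsg.Agent.S1754

/-- Let A be a standard subgroup of the finite group G (A quasisimple, C_G(A) tightly embedded of even order, A commuting elementwise with no other conjugate of itself, and N_G(A) = N_G(C_G(A))), and let t be an involution of G centralizing A. Then the centralizer of t lies in the normalizer of A; in particular A, viewed inside C_G(t), is a component of C_G(t). -/
theorem result {G : Type*} [Group G] [Finite G]
    (A : Subgroup G) (hA : Cfsg.IsStandardSubgroup A) (t : G) (ht : orderOf t = 2) (htA : t ∈ Subgroup.centralizer (A : Set G)) :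
    Subgroup.centralizer ({t} : Set G) ≤ Subgroup.normalizer (A : Set G) ∧
      Cfsg.IsComponent (A.subgroupOf (Subgroup.centralizer ({t} : Set G))) := by
  obtain ⟨hq, ⟨heven, htight⟩, -, hNN⟩ := hA
  have hle : Subgroup.centralizer ({t} : Set G) ≤ Subgroup.normalizer (A : Set G) := by
    intro g hg
    rw [hNN]
    by_contra hgn
    have hodd := htight g hgn
    have hgt : g * t = t * g := Subgroup.mem_centralizer_singleton_iff.mp hg
    have htK : t ∈ Subgroup.centralizer (A : Set G) ⊓
        (Subgroup.centralizer (A : Set G)).map (MulAut.conj g).toMonoidHom := by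
      refine ⟨htA, ⟨t, htA, ?_⟩⟩
      simp only [MulEquiv.coe_toMonoidHom, MulAut.conj_apply]
      rw [hgt, mul_assoc, mul_inv_cancel, mul_one]
    have h2 : 2 ∣ Nat.card ↥(Subgroup.centralizer (A : Set G) ⊓
        (Subgroup.centralizer (A : Set G)).map (MulAut.conj g).toMonoidHom) := by
      rw [← ht, ← Subgroup.orderOf_mk t htK]
      exact orderOf_dvd_natCard _
    exact hodd.not_two_dvd_nat h2
  refine ⟨hle, CfsgLib.IsoInv.isComponent_subgroupOf ?_ hle hq⟩
  intro a ha
  rw [Subgroup.mem_centralizer_singleton_iff]
  exact (Subgroup.mem_centralizer_iff.mp htA a ha)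


end Cfsg.Agent.S1754
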