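import Cfsg.Statements.S1755
import Cfsg.Agent.Components.Basic

set_option autoImplicit false
open Cfsg

namespace Cfsg.Agent.S1755

/-- Let G be a finite group and let z be an involution of G such that Q, the generalized Fitting subgroup of the centralizer C of z, is a 2-group of symplectic type (every characteristic abelian subgroup of Q is cyclic). Let B be a characteristic abelian subgroup of Q, viewed as a subgroup of G. Then for every g in G, the conjugate of B by g either equals B or meets B trivially. -/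
theorem result {G : Type*} [Group G] [Finite G] (z : G) (hz : orderOf z = 2) (hQ : Cfsg.IsOfSymplecticType ↥(Cfsg.generalizedFittingSubgroup ↥(Subgroup.centralizer ({z} : Set G))))
    (B : Subgroup ↥(Cfsg.generalizedFittingSubgroup ↥(Subgroup.centralizer ({z} : Set G)))) (hBc : B.Characteristic) (hBa : IsMulCommutative ↥B) (g : G) :
    ((B.map (Cfsg.generalizedFittingSubgroup ↥(Subgroup.centralizer ({z} : Set G))).subtype).map (Subgroup.centralizer ({z} : Set G)).subtype).map (MulAut.conj g).toMonoidHom =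
        (B.map (Cfsg.generalizedFittingSubgroup ↥(Subgroup.centralizer ({z} : Set G))).subtype).map (Subgroup.centralizer ({z} : Set G)).subtype ∨
      ((B.map (Cfsg.generalizedFittingSubgroup ↥(Subgroup.centralizer ({z} : Set G))).subtype).map (Subgroup.centralizer ({z} : Set G)).subtype).map (MulAut.conj g).toMonoidHom ⊓
        (B.map (Cfsg.generalizedFittingSubgroup ↥(Subgroup.centralizer ({z} : Set G))).subtype).map (Subgroup.centralizer ({z} : Set G)).subtype = ⊥ := by
  have hFn : (Cfsg.generalizedFittingSubgroup ↥(Subgroup.centralizer ({z} : Set G))).Normal := CfsgLib.Components.generalizedFittingSubgroup_normal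
  obtain ⟨hF2, hcyc⟩ := hQ
  let zC : ↥(Subgroup.centralizer ({z} : Set G)) := ⟨z, Subgroup.mem_centralizer_singleton_iff.mpr rfl⟩
  have hzc : ∀ c : ↥(Subgroup.centralizer ({z} : Set G)), c * zC = zC * c := fun c => Subtype.ext (Subgroup.mem_centralizer_singleton_iff.mp c.2)
  have hzn : (Subgroup.zpowers zC).Normal := by
    refine ⟨fun n hn g => ?_⟩
    obtain ⟨i, rfl⟩ := Subgroup.mem_zpowers_iff.mp hn
    have : g * zC ^ i = zC ^ i * g := (show Commute g zC from hzc g).zpow_right i
    rw [this, mul_inv_cancel_right]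
    exact hn
  have hzF : zC ∈ (Cfsg.generalizedFittingSubgroup ↥(Subgroup.centralizer ({z} : Set G))) :=
    CfsgLib.Components.fittingSubgroup_le_generalizedFittingSubgroup
      (CfsgLib.Components.le_fittingSubgroup hzn
        (by open scoped IsMulCommutative in exact CommGroup.isNilpotent) (Subgroup.mem_zpowers zC))
  let zF : ↥(Cfsg.generalizedFittingSubgroup ↥(Subgroup.centralizer ({z} : Set G))) := ⟨zC, hzF⟩
  have hzF2 : orderOf zF = 2 := by rw [Subgroup.orderOf_mk, Subgroup.orderOf_mk, hz]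
  -- unique involution in a cyclic subgroup of (Cfsg.generalizedFittingSubgroup ↥(Subgroup.centralizer ({z} : Set G)))
  have huniq : ∀ A : Subgroup ↥(Cfsg.generalizedFittingSubgroup ↥(Subgroup.centralizer ({z} : Set G))), IsCyclic ↥A → ∀ a b : ↥(Cfsg.generalizedFittingSubgroup ↥(Subgroup.centralizer ({z} : Set G))), a ∈ A → b ∈ A → orderOf a = 2 → orderOf b = 2 → a = b := by
    intro A hA a b ha hb ha2 hb2
    by_contra hab
    have ha' : orderOf (⟨a, ha⟩ : ↥A) = 2 := by rw [Subgroup.orderOf_mk, ha2]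
    have hb' : orderOf (⟨b, hb⟩ : ↥A) = 2 := by rw [Subgroup.orderOf_mk, hb2]
    classical
    have : Fintype ↥A := Fintype.ofFinite _
    have hc := IsCyclic.card_pow_eq_one_le (α := ↥A) two_pos
    have h3 : ({1, ⟨a, ha⟩, ⟨b, hb⟩} : Finset ↥A) ⊆ Finset.univ.filter (fun x => x ^ 2 = 1) := by
      intro x hx
      simp only [Finset.mem_insert, Finset.mem_singleton] at hx
      rw [Finset.mem_filter]
      refine ⟨Finset.mem_univ _, ?_⟩
      rcases hx with rfl | rfl | rfl
      · exact one_pow _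
      · rw [← ha', pow_orderOf_eq_one]
      · rw [← hb', pow_orderOf_eq_one]
    have h1a : (1 : ↥A) ≠ ⟨a, ha⟩ := fun h => by rw [← h, orderOf_one] at ha'; omega
    have h1b : (1 : ↥A) ≠ ⟨b, hb⟩ := fun h => by rw [← h, orderOf_one] at hb'; omega
    have hab' : (⟨a, ha⟩ : ↥A) ≠ ⟨b, hb⟩ := fun h => hab (congrArg Subtype.val h)
    have h4 : ({1, ⟨a, ha⟩, ⟨b, hb⟩} : Finset ↥A).card = 3 := by
      rw [Finset.card_insert_of_notMem (by simp [h1a, h1b]), Finset.card_insert_of_notMem (by simp [hab']),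
        Finset.card_singleton]
    have h5 := (Finset.card_le_card h3).trans hc
    omega
  have hBcyc : IsCyclic ↥B := hcyc B hBc hBa
  have hZcyc : IsCyclic ↥(Subgroup.center ↥(Cfsg.generalizedFittingSubgroup ↥(Subgroup.centralizer ({z} : Set G)))) := hcyc _ inferInstance inferInstance
  have hzZ : zF ∈ Subgroup.center ↥(Cfsg.generalizedFittingSubgroup ↥(Subgroup.centralizer ({z} : Set G))) := by
    rw [Subgroup.mem_center_iff]
    intro c
    exact Subtype.ext (hzc (c : ↥(Subgroup.centralizer ({z} : Set G))))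
  have hzB : B ≠ ⊥ → zF ∈ B := by
    intro hB
    have : Nontrivial ↥B := (Subgroup.nontrivial_iff_ne_bot B).mpr hB
    obtain ⟨k, hk⟩ := IsPGroup.iff_card.mp (hF2.to_subgroup B)
    have h2 : Fact (Nat.Prime 2) := ⟨Nat.prime_two⟩
    obtain ⟨b, hb⟩ := exists_prime_orderOf_dvd_card' (G := ↥B) 2 (by
      rw [hk]
      refine dvd_pow_self 2 fun h => ?_
      rw [h, pow_zero] at hk
      exact (Finite.one_lt_card (α := ↥B)).ne' hk)
    have hb' : orderOf (b : ↥(Cfsg.generalizedFittingSubgroup ↥(Subgroup.centralizer ({z} : Set G)))) = 2 := by rw [Subgroup.orderOf_coe, hb]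
    have hbZ : (b : ↥(Cfsg.generalizedFittingSubgroup ↥(Subgroup.centralizer ({z} : Set G)))) ∈ Subgroup.center ↥(Cfsg.generalizedFittingSubgroup ↥(Subgroup.centralizer ({z} : Set G))) := by
      rw [Subgroup.mem_center_iff]
      intro c
      have hconj : c * (b : ↥(Cfsg.generalizedFittingSubgroup ↥(Subgroup.centralizer ({z} : Set G)))) * c⁻¹ ∈ B := (inferInstance : B.Normal).conj_mem _ b.2 c
      have := huniq B hBcyc _ _ hconj b.2 ((MulAut.conj c).orderOf_eq (b : ↥(Cfsg.generalizedFittingSubgroup ↥(Subgroup.centralizer ({z} : Set G)))) ▸ hb') hb'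
      exact mul_inv_eq_iff_eq_mul.mp this
    rw [← huniq _ hZcyc _ _ hbZ hzZ hb' hzF2]
    exact b.2
  have hconj : ∀ g : G, g ∈ (Subgroup.centralizer ({z} : Set G)) → ((B.map (Cfsg.generalizedFittingSubgroup ↥(Subgroup.centralizer ({z} : Set G))).subtype).map (Subgroup.centralizer ({z} : Set G)).subtype).map (MulAut.conj g).toMonoidHom =
      (B.map (Cfsg.generalizedFittingSubgroup ↥(Subgroup.centralizer ({z} : Set G))).subtype).map (Subgroup.centralizer ({z} : Set G)).subtype := by
    intro g hg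
    have hBn : (B.map (Cfsg.generalizedFittingSubgroup ↥(Subgroup.centralizer ({z} : Set G))).subtype).Normal := by
      have := hFn
      infer_instance
    ext x
    constructor
    · rintro ⟨_, ⟨y, hy, rfl⟩, rfl⟩
      exact ⟨⟨g, hg⟩ * y * ⟨g, hg⟩⁻¹, hBn.conj_mem y hy _, rfl⟩
    · rintro ⟨y, hy, rfl⟩
      exact ⟨(y : G) |> fun y' => g⁻¹ * y' * g,
        ⟨⟨g, hg⟩⁻¹ * y * ⟨g, hg⟩, by simpa using hBn.conj_mem y hy (⟨g, hg⟩⁻¹), rfl⟩,
        by simp [mul_assoc]⟩
  by_cases hB : B = ⊥
  · left; simp [hB]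
  by_cases hint : ((B.map (Cfsg.generalizedFittingSubgroup ↥(Subgroup.centralizer ({z} : Set G))).subtype).map (Subgroup.centralizer ({z} : Set G)).subtype).map (MulAut.conj g).toMonoidHom ⊓
      (B.map (Cfsg.generalizedFittingSubgroup ↥(Subgroup.centralizer ({z} : Set G))).subtype).map (Subgroup.centralizer ({z} : Set G)).subtype = ⊥
  · exact Or.inr hint
  left
  refine hconj g ?_
  obtain ⟨x, hx, hx1⟩ := (Subgroup.bot_or_exists_ne_one _).resolve_left hint
  obtain ⟨⟨_, ⟨_, ⟨y, hy, rfl⟩, rfl⟩, hyx⟩, ⟨_, ⟨y', hy', rfl⟩, hy'x⟩⟩ := hx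
  simp only [Subgroup.coe_subtype, MulEquiv.coe_toMonoidHom, MulAut.conj_apply] at hyx hy'x
  -- some power of `y` is the involution `z`
  obtain ⟨k, hk⟩ := hF2 y
  have hy1 : y ≠ 1 := fun h => hx1 (by rw [← hyx, h]; simp)
  obtain ⟨i, -, hi⟩ := (Nat.dvd_prime_pow Nat.prime_two).mp (orderOf_dvd_of_pow_eq_one hk)
  have hi0 : i ≠ 0 := fun h => hy1 (orderOf_eq_one_iff.mp (by rw [hi, h, pow_zero]))
  obtain ⟨j, rfl⟩ := Nat.exists_eq_succ_of_ne_zero hi0
  have hord : orderOf (y ^ 2 ^ j) = 2 := by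
    rw [orderOf_pow' _ (pow_ne_zero j two_ne_zero), hi, Nat.gcd_eq_right (pow_dvd_pow 2 (Nat.le_succ j)),
      Nat.pow_div (Nat.le_succ j) two_pos, show j + 1 - j = 1 by omega, pow_one]
  have e1 : y ^ 2 ^ j = zF := huniq B hBcyc _ _ (B.pow_mem hy _) (hzB hB) hord hzF2
  have e1' : ((y : ↥(Subgroup.centralizer ({z} : Set G))) : G) ^ 2 ^ j = z := congrArg (fun u : ↥(Cfsg.generalizedFittingSubgroup ↥(Subgroup.centralizer ({z} : Set G))) => ((u : ↥(Subgroup.centralizer ({z} : Set G))) : G)) e1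
  have hord' : orderOf (y' ^ 2 ^ j) = 2 := by
    have h2 : orderOf (((y' : ↥(Subgroup.centralizer ({z} : Set G))) : G) ^ 2 ^ j) = 2 := by
      rw [hy'x, ← hyx, conj_pow, e1']
      exact ((MulAut.conj g).orderOf_eq z).trans hz
    rw [← Subgroup.orderOf_coe, ← Subgroup.orderOf_coe]
    exact h2
  have e2 : y' ^ 2 ^ j = zF := huniq B hBcyc _ _ (B.pow_mem hy' _) (hzB hB) hord' hzF2
  have e2' : ((y' : ↥(Subgroup.centralizer ({z} : Set G))) : G) ^ 2 ^ j = z := congrArg (fun u : ↥(Cfsg.generalizedFittingSubgroup ↥(Subgroup.centralizer ({z} : Set G))) => ((u : ↥(Subgroup.centralizer ({z} : Set G))) : G)) e2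
  rw [Subgroup.mem_centralizer_singleton_iff]
  have : g * z * g⁻¹ = z := by
    conv_rhs => rw [← e2', hy'x, ← hyx, conj_pow, e1']
  exact mul_inv_eq_iff_eq_mul.mp this


end Cfsg.Agent.S1755
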