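import Cfsg.Statements.S1756
import Cfsg.Agent.PGroup.Extraspecial

set_option autoImplicit false
open Cfsg

namespace Cfsg.Agent.S1756

open scoped commutatorElement

/-- An involutory automorphism of an extraspecial 2-group fixing a subgroup of index 2 pointwise is inner. -/
theorem exists_inner {E : Type*} [Group E] [Finite E] (hE : Cfsg.IsExtraspecial 2 E) (φ : E ≃* E)
    (hφ : ∀ x, φ (φ x) = x) (C : Subgroup E) (hC : ∀ x, x ∈ C ↔ φ x = x) (hi : C.index = 2) :
    ∃ w : E, ∀ x, φ x = w * x * w⁻¹ := by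
  have : Fact (Nat.Prime 2) := ⟨Nat.prime_two⟩
  haveI hCn : C.Normal := Subgroup.normal_of_index_eq_two hi
  have hiff : ∀ a b : E, a * b ∈ C ↔ (a ∈ C ↔ b ∈ C) := fun a b => Subgroup.mul_mem_iff_of_index_two hi
  have hne : C ≠ ⊤ := fun h => by rw [h, Subgroup.index_top] at hi; omega
  obtain ⟨q, hq⟩ := SetLike.exists_not_mem_of_ne_top C hne
  have hZC : Subgroup.center E ≤ C := by
    rw [← hE.1.2.2, commutator_def, Subgroup.commutator_le]
    intro a _ b _
    rw [commutatorElement_def, hiff, hiff, hiff, inv_mem_iff, inv_mem_iff]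
    tauto
  -- everything commuting with C and q is central
  have hcen : ∀ x : E, (∀ c ∈ C, c * x = x * c) → q * x = x * q → x ∈ Subgroup.center E := by
    intro x hx hxq
    rw [Subgroup.mem_center_iff]
    intro g
    by_cases hg : g ∈ C
    · exact hx g hg
    · have hc : q⁻¹ * g ∈ C := by rw [hiff, inv_mem_iff]; tauto
      have h1 := hx _ hc
      calc g * x = q * ((q⁻¹ * g) * x) := by group
        _ = (q * x) * (q⁻¹ * g) := by rw [h1]; group
        _ = x * g := by rw [hxq]; group
  set K := Subgroup.centralizer (C : Set E) with hK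
  have hKC : K ≤ C := by
    intro x hx
    by_contra hxC
    refine hxC (hZC (hcen x (fun c hc => Subgroup.mem_centralizer_iff.1 hx c hc) ?_))
    have hc : q * x⁻¹ ∈ C := by rw [hiff, inv_mem_iff]; tauto
    have h1 := Subgroup.mem_centralizer_iff.1 hx _ hc
    calc q * x = (q * x⁻¹ * x) * x := by group
      _ = (x * (q * x⁻¹)) * x := by rw [h1]
      _ = x * q := by group
  have hZK : Subgroup.center E ≤ K := Subgroup.center_le_centralizer _
  obtain ⟨w, hwK, hwZ⟩ : ∃ w, w ∈ K ∧ w ∉ Subgroup.center E := by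
    by_contra hcon
    push Not at hcon
    have hle : K ≤ Subgroup.center E := hcon
    have h1 := CfsgLib.Extraspecial.card_centralizer_mul hE hZC
    rw [← hK, le_antisymm hle hZK, hE.2, ← Subgroup.card_mul_index C, hi] at h1
    have := Nat.card_pos (α := ↥C)
    omega
  have hwC : ∀ c ∈ C, c * w = w * c := fun c hc => Subgroup.mem_centralizer_iff.1 hwK c hc
  have hwq : q * w ≠ w * q := fun h => hwZ (hcen w hwC h)
  -- m
  obtain ⟨m, hm⟩ : ∃ m, m = q⁻¹ * φ q := ⟨_, rfl⟩
  have hφq : φ q = q * m := by rw [hm]; group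
  have hm1 : m ≠ 1 := fun h => hq ((hC q).2 (by rw [hφq, h, mul_one]))
  have hmK : m ∈ K := by
    rw [hK, Subgroup.mem_centralizer_iff]
    intro c hc
    have h1 : φ (q * c * q⁻¹) = q * c * q⁻¹ := (hC _).1 (hCn.conj_mem c hc q)
    rw [map_mul, map_mul, map_inv, (hC c).1 hc, hφq] at h1
    have h2 : m * c * m⁻¹ = c := by
      calc m * c * m⁻¹ = q⁻¹ * (q * m * c * (q * m)⁻¹) * q := by group
        _ = c := by rw [h1]; group
    exact (mul_inv_eq_iff_eq_mul.1 h2).symm
  have hmm : m * m = 1 := by
    have h1 := hφ q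
    rw [hφq, map_mul, hφq, (hC m).1 (hKC hmK), mul_assoc] at h1
    exact mul_left_cancel (h1.trans (mul_one q).symm)
  have hmq : q * m = m * q := by
    have h2 : q * q ∈ C := (hiff q q).2 Iff.rfl
    have h1 := (hC _).1 h2
    rw [map_mul, hφq, mul_assoc] at h1
    have h3 : m * (q * m) = q := mul_left_cancel h1
    calc q * m = m * (m * (q * m)) := by rw [← mul_assoc m m, hmm, one_mul]
      _ = m * q := by rw [h3]
  have hmZ : m ∈ Subgroup.center E := hcen m (fun c hc => Subgroup.mem_centralizer_iff.1 hmK c hc) hmq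
  have hcZ : ⁅q⁻¹, w⁆ ∈ Subgroup.center E := CfsgLib.Extraspecial.commutator_mem_center hE _ _
  have hne1 : ⁅q⁻¹, w⁆ ≠ 1 := fun h => hwq (by
    have h1 : q⁻¹ * w = w * q⁻¹ := commutatorElement_eq_one_iff_mul_comm.1 h
    calc q * w = q * (w * q⁻¹) * q := by group
      _ = w * q := by rw [← h1]; group)
  have heq : ⁅q⁻¹, w⁆ = m := by
    obtain ⟨y, -, hy⟩ := (Nat.card_eq_two_iff' (1 : ↥(Subgroup.center E))).1 hE.2
    have h1 := hy ⟨_, hcZ⟩ (fun h => hne1 (congrArg Subtype.val h))
    have h2 := hy ⟨m, hmZ⟩ (fun h => hm1 (congrArg Subtype.val h))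
    exact congrArg Subtype.val (h1.trans h2.symm)
  refine ⟨w, fun x => ?_⟩
  by_cases hx : x ∈ C
  · rw [(hC x).1 hx, ← hwC x hx]; group
  · have hc : q⁻¹ * x ∈ C := by rw [hiff, inv_mem_iff]; tauto
    have h1 := (hC _).1 hc
    have h2 := hwC _ hc
    have e : q * m = w * q * w⁻¹ := by
      rw [← heq, commutatorElement_def]; group
    calc φ x = φ (q * (q⁻¹ * x)) := by congr 1; group
      _ = q * m * (q⁻¹ * x) := by rw [map_mul, hφq, h1]
      _ = w * q * w⁻¹ * ((q⁻¹ * x) * w) * w⁻¹ := by rw [e]; group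
      _ = w * x * w⁻¹ := by rw [h2]; group

/-- Let Q be an extraspecial 2-subgroup of the finite group G (special with centre of order 2) and t an involution of G normalizing Q such that the centralizer of t in Q has index at most 2 in Q. Then t lies in the product of Q with the centralizer of Q. -/
theorem result {G : Type*} [Group G] [Finite G] (Q : Subgroup G)
    (hQ : Cfsg.IsExtraspecial 2 ↥Q) (t : G) (ht : orderOf t = 2) (htN : t ∈ Subgroup.normalizer (Q : Set G))
    (hi : (Subgroup.centralizer ({t} : Set G) ⊓ Q).relIndex Q ≤ 2) :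
    t ∈ Q ⊔ Subgroup.centralizer (Q : Set G) := by
  have htt : t * t = 1 := by rw [← pow_two, ← ht]; exact pow_orderOf_eq_one t
  have hcf : Subgroup.centralizer ({t} : Set G) ⊓ Q ≤ Q := inf_le_right
  set C := (Subgroup.centralizer ({t} : Set G)).subgroupOf Q with hC
  have hidx : C.index ≤ 2 := by
    have : C.index = (Subgroup.centralizer ({t} : Set G) ⊓ Q).relIndex Q := by
      rw [Subgroup.inf_relIndex_right]; rfl
    omega
  by_cases h1 : C.index = 1
  · refine Subgroup.mem_sup_right (Subgroup.mem_centralizer_iff.2 fun g hg => ?_)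
    have : (⟨g, hg⟩ : ↥Q) ∈ C := by rw [Subgroup.index_eq_one.1 h1]; trivial
    exact Subgroup.mem_centralizer_singleton_iff.1 this
  have h2 : C.index = 2 := by
    have := Subgroup.index_ne_zero_of_finite (H := C)
    omega
  have hnorm : ∀ x : ↥Q, t * (x : G) * t ∈ Q := fun x => by
    have := (Subgroup.mem_normalizer_iff.1 htN x).1 x.2
    rwa [show t⁻¹ = t from inv_eq_of_mul_eq_one_right htt] at this
  let φ : ↥Q ≃* ↥Q :=
    { toFun := fun x => ⟨t * x * t, hnorm x⟩
      invFun := fun x => ⟨t * x * t, hnorm x⟩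
      left_inv := fun x => Subtype.ext (by show t * (t * x * t) * t = x; rw [show t * (t * (x : G) * t) * t = (t * t) * x * (t * t) by group, htt, one_mul, mul_one])
      right_inv := fun x => Subtype.ext (by show t * (t * x * t) * t = x; rw [show t * (t * (x : G) * t) * t = (t * t) * x * (t * t) by group, htt, one_mul, mul_one])
      map_mul' := fun x y => Subtype.ext (by
        show t * (x * y) * t = (t * x * t) * (t * y * t)
        rw [show t * (x : G) * t * (t * y * t) = t * x * (t * t) * y * t by group, htt, mul_one]; group) }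
  obtain ⟨w, hw⟩ := exists_inner hQ φ φ.left_inv C (fun x => by
    rw [hC, Subgroup.mem_subgroupOf, Subgroup.mem_centralizer_singleton_iff, Subtype.ext_iff]
    show _ ↔ t * (x : G) * t = x
    constructor
    · intro h; rw [← h, mul_assoc, htt, mul_one]
    · intro h
      calc (x : G) * t = t * x * (t * t) := by rw [← mul_assoc, h]
        _ = t * x := by rw [htt, mul_one]) h2
  rw [show t = (w : G) * ((w : G)⁻¹ * t) by group]
  refine Subgroup.mul_mem_sup w.2 (Subgroup.mem_centralizer_iff.2 fun g hg => ?_)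
  have h3 : t * g * t = w * g * (w : G)⁻¹ := congrArg Subtype.val (hw ⟨g, hg⟩)
  calc g * ((w : G)⁻¹ * t) = (w : G)⁻¹ * (w * g * (w : G)⁻¹) * t := by group
    _ = (w : G)⁻¹ * t * g * (t * t) := by rw [← h3]; group
    _ = (w : G)⁻¹ * t * g := by rw [htt, mul_one]

end Cfsg.Agent.S1756
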