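import Cfsg.Statements.S1775
import Cfsg.Agent.Components.PCompMaps
import Cfsg.Agent.Components.PLayerBalance

set_option autoImplicit false
open Cfsg

namespace Cfsg.Agent.S1775

/-- Let G be a finite group whose generalized Fitting subgroup is a non-abelian simple group and in which every proper section (every quotient H/N of a proper subgroup H, or of G by a nontrivial normal subgroup) has the B-property. Let x, y be commuting involutions, let D be the intersection of the 2-layer of C_G(x) with C_G(y), and let J be a 2-component of D. Write Q for the quotient of C_G(y) by its largest normal odd-order subgroup. Then (i) the image of J in Q is a component of the centralizer in Q of the image of x; and (ii) for every J-invariant subgroup E of odd order of C_G(x) ∩ C_G(y), the commutator subgroup [J, E] lies in the largest normal odd-order subgroup of C_G(y). -/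
theorem result {G : Type*} [Group G] [Finite G]
    (hF : IsSimpleGroup ↥(Cfsg.generalizedFittingSubgroup G)) (hF' : ¬ IsMulCommutative ↥(Cfsg.generalizedFittingSubgroup G))
    (hsec : ∀ (H : Subgroup G) (N : Subgroup ↥H) [N.Normal], (H ≠ ⊤ ∨ N ≠ ⊥) → Cfsg.HasBProperty (↥H ⧸ N))
    (x y : G) (hx : orderOf x = 2) (hy : orderOf y = 2) (hxy : x * y = y * x)
    (J : Subgroup ↥((Cfsg.pLayer 2 ↥(Subgroup.centralizer ({x} : Set G))).map (Subgroup.centralizer ({x} : Set G)).subtype ⊓ Subgroup.centralizer ({y} : Set G)))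
    (hJ : Cfsg.IsPComponent 2 J) :
    Cfsg.IsComponent
        ((((J.map (Subgroup.subtype _)).subgroupOf (Subgroup.centralizer ({y} : Set G))).map (QuotientGroup.mk' (Cfsg.oddCore ↥(Subgroup.centralizer ({y} : Set G))))).subgroupOf
          (Subgroup.centralizer ({(QuotientGroup.mk' (Cfsg.oddCore ↥(Subgroup.centralizer ({y} : Set G))) ⟨x, Subgroup.mem_centralizer_singleton_iff.mpr hxy⟩ : ↥(Subgroup.centralizer ({y} : Set G)) ⧸ Cfsg.oddCore ↥(Subgroup.centralizer ({y} : Set G)))} : Set _))) ∧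
      ∀ E : Subgroup G, E ≤ Subgroup.centralizer ({x} : Set G) ⊓ Subgroup.centralizer ({y} : Set G) → Odd (Nat.card ↥E) →
        (∀ j ∈ J.map (Subgroup.subtype _), ∀ e ∈ E, j * e * j⁻¹ ∈ E) →
          ⁅J.map (Subgroup.subtype _), E⁆ ≤ (Cfsg.oddCore ↥(Subgroup.centralizer ({y} : Set G))).map (Subgroup.centralizer ({y} : Set G)).subtype := by
  haveI : Fact (Nat.Prime 2) := ⟨Nat.prime_two⟩
  set J' := J.map ((Cfsg.pLayer 2 ↥(Subgroup.centralizer ({x} : Set G))).map (Subgroup.centralizer ({x} : Set G)).subtype ⊓ (Subgroup.centralizer ({y} : Set G))).subtype with hJ'def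
  set C := (Subgroup.centralizer ({x} : Set G)) ⊓ (Subgroup.centralizer ({y} : Set G)) with hCdef
  have hDC : ((Cfsg.pLayer 2 ↥(Subgroup.centralizer ({x} : Set G))).map (Subgroup.centralizer ({x} : Set G)).subtype ⊓ (Subgroup.centralizer ({y} : Set G))) ≤ C := inf_le_inf_right _ (Subgroup.map_subtype_le _)
  have hJ'D : J' ≤ ((Cfsg.pLayer 2 ↥(Subgroup.centralizer ({x} : Set G))).map (Subgroup.centralizer ({x} : Set G)).subtype ⊓ (Subgroup.centralizer ({y} : Set G))) := Subgroup.map_subtype_le _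
  have hJ'C : J' ≤ C := hJ'D.trans hDC
  have hCn : C ≤ Subgroup.normalizer (((Cfsg.pLayer 2 ↥(Subgroup.centralizer ({x} : Set G))).map (Subgroup.centralizer ({x} : Set G)).subtype ⊓ (Subgroup.centralizer ({y} : Set G))) : Set G) := by
    refine le_trans (le_inf ?_ (inf_le_right.trans Subgroup.le_normalizer))
      (CfsgLib.Components.normalizer_inf_le _ _)
    refine inf_le_left.trans ?_
    intro g hg
    have h1 : (⟨g, hg⟩ : ↥(Subgroup.centralizer ({x} : Set G))) ∈ Subgroup.normalizer ((Cfsg.pLayer 2 ↥(Subgroup.centralizer ({x} : Set G)) : Subgroup ↥(Subgroup.centralizer ({x} : Set G))) : Set ↥(Subgroup.centralizer ({x} : Set G))) :=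
      (Subgroup.normalizer_eq_top_iff.mpr CfsgLib.Components.pLayer_normal).ge (Subgroup.mem_top _)
    exact Subgroup.le_normalizer_map (Subgroup.centralizer ({x} : Set G)).subtype ⟨⟨g, hg⟩, h1, rfl⟩
  -- `J` is a 2-component of `C_G(x, y)`
  have hJC : Cfsg.IsPComponent 2 (J'.subgroupOf C) := by
    have hn : (((Cfsg.pLayer 2 ↥(Subgroup.centralizer ({x} : Set G))).map (Subgroup.centralizer ({x} : Set G)).subtype ⊓ (Subgroup.centralizer ({y} : Set G))).subgroupOf C).Normal := Subgroup.normal_subgroupOf_of_le_normalizer hCn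
    refine CfsgLib.Components.isPComponent_of_subnormal hn.isSubnormal
      (fun z hz => hJ'D hz) ?_
    have h := CfsgLib.Components.isPComponent_map_equiv (Subgroup.subgroupOfEquivOfLe hDC).symm hJ
    convert h using 1
    ext z
    constructor
    · rintro ⟨w, hw, hwz⟩
      exact ⟨w, hw, Subtype.ext (Subtype.ext hwz)⟩
    · rintro ⟨w, hw, rfl⟩
      exact ⟨w, hw, rfl⟩
  -- the quotient
  set O := Cfsg.oddCore ↥(Subgroup.centralizer ({y} : Set G)) with hOdef
  set xb := QuotientGroup.mk' O ⟨x, Subgroup.mem_centralizer_singleton_iff.mpr hxy⟩ with hxbdef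
  set CQ := Subgroup.centralizer ({xb} : Set _) with hCQdef
  have hxp : IsPGroup 2 ↥(Subgroup.zpowers (⟨x, Subgroup.mem_centralizer_singleton_iff.mpr hxy⟩ : ↥(Subgroup.centralizer ({y} : Set G)))) := by
    refine IsPGroup.of_card (n := 1) ?_
    rw [Nat.card_zpowers, ← Subgroup.orderOf_coe, hx, pow_one]
  have hcent := CfsgLib.PCore.centralizer_map_eq O (CfsgLib.Components.pPrimeCore_coprime 2) _ hxp
  rw [MonoidHom.map_zpowers, Subgroup.zpowers_eq_closure, Subgroup.zpowers_eq_closure,
    Subgroup.centralizer_closure, Subgroup.centralizer_closure] at hcent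
  have hmemC : ∀ c : ↥(Subgroup.centralizer ({y} : Set G)), c ∈ Subgroup.centralizer
      ({(⟨x, Subgroup.mem_centralizer_singleton_iff.mpr hxy⟩ : ↥(Subgroup.centralizer ({y} : Set G)))} : Set ↥(Subgroup.centralizer ({y} : Set G))) ↔ (c : G) ∈ (Subgroup.centralizer ({x} : Set G)) := by
    intro c
    exact Subgroup.mem_centralizer_singleton_iff.trans (Subtype.ext_iff.trans Subgroup.mem_centralizer_singleton_iff.symm)
  let f : ↥C →* ↥CQ := MonoidHom.codRestrict ((QuotientGroup.mk' O).comp (Subgroup.inclusion inf_le_right)) CQ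
    (fun c => hcent.ge ⟨Subgroup.inclusion inf_le_right c, (hmemC _).mpr c.2.1, rfl⟩)
  have hfs : Function.Surjective f := by
    rintro ⟨q, hq⟩
    obtain ⟨c, hc, rfl⟩ := hcent.le hq
    exact ⟨⟨c, (hmemC c).mp hc, c.2⟩, rfl⟩
  have hfker : f.ker ≤ Cfsg.pPrimeCore 2 ↥C := by
    have : f.ker = O.comap (Subgroup.inclusion (inf_le_right : C ≤ (Subgroup.centralizer ({y} : Set G)))) := by
      ext c
      rw [MonoidHom.mem_ker, Subgroup.mem_comap, ← QuotientGroup.eq_one_iff, Subtype.ext_iff]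
      rfl
    rw [this]
    exact CfsgLib.Components.le_pPrimeCore' inferInstance ((CfsgLib.Components.pPrimeCore_coprime 2).coprime_dvd_left
      (Subgroup.card_comap_dvd_of_injective _ _ (Subgroup.inclusion_injective _)))
  have hK := CfsgLib.Components.isPComponent_map f hfs hfker hJC
  -- the B-property of the quotient
  have hxb : orderOf xb = 2 := by
    refine orderOf_eq_prime ?_ ?_
    · rw [hxbdef, ← map_pow, show (⟨x, Subgroup.mem_centralizer_singleton_iff.mpr hxy⟩ : ↥(Subgroup.centralizer ({y} : Set G))) ^ 2 = 1 from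
        Subtype.ext (by simp [← hx, pow_orderOf_eq_one]), map_one]
    · intro h1
      rw [hxbdef, QuotientGroup.mk'_apply, QuotientGroup.eq_one_iff] at h1
      have h2 := Subgroup.orderOf_dvd_natCard O h1
      rw [← Subgroup.orderOf_coe, hx] at h2
      exact (Nat.Prime.coprime_iff_not_dvd Nat.prime_two).mp (CfsgLib.Components.pPrimeCore_coprime (G := ↥(Subgroup.centralizer ({y} : Set G))) 2).symm h2
  have hne : (Subgroup.centralizer ({y} : Set G)) ≠ ⊤ := by
    intro htop
    have hyc : y ∈ Subgroup.center G := Subgroup.mem_center_iff.mpr fun g =>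
      Subgroup.mem_centralizer_singleton_iff.mp (htop ▸ Subgroup.mem_top g : g ∈ (Subgroup.centralizer ({y} : Set G)))
    have hyF : y ∈ Cfsg.generalizedFittingSubgroup G :=
      CfsgLib.Components.centralizer_generalizedFittingSubgroup_le (Subgroup.center_le_centralizer _ hyc)
    haveI := hF
    rcases IsSimpleGroup.eq_bot_or_eq_top_of_normal (Subgroup.center ↥(Cfsg.generalizedFittingSubgroup G))
      inferInstance with h | h
    · have h1 : (⟨y, hyF⟩ : ↥(Cfsg.generalizedFittingSubgroup G)) ∈ Subgroup.center _ :=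
        Subgroup.mem_center_iff.mpr fun g => Subtype.ext (Subgroup.mem_center_iff.mp hyc g)
      rw [h, Subgroup.mem_bot] at h1
      have h2 : y = 1 := congrArg Subtype.val h1
      rw [h2, orderOf_one] at hy
      omega
    · refine hF' ⟨⟨fun a b => ?_⟩⟩
      exact Subgroup.mem_center_iff.mp (h ▸ Subgroup.mem_top b) a
  have hB := hsec (Subgroup.centralizer ({y} : Set G)) O (Or.inl hne) xb hxb
  have hQ1 : Cfsg.oddCore (↥(Subgroup.centralizer ({y} : Set G)) ⧸ O) = ⊥ := CfsgLib.Components.pPrimeCore_quotient_eq_bot 2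
  rw [hQ1, le_bot_iff, Subgroup.map_eq_bot_iff_of_injective _ (Subgroup.subtype_injective _)] at hB
  have hKO : ⁅(J'.subgroupOf C).map f, Cfsg.pPrimeCore 2 ↥CQ⁆ = ⊥ :=
    le_bot_iff.mp (hB ▸ Subgroup.commutator_mono (CfsgLib.Components.pComponent_le_pLayer hK) le_rfl)
  have hKc : Cfsg.IsComponent ((J'.subgroupOf C).map f) :=
    (CfsgLib.Components.pComponent_isComponent_iff hK).mpr hKO
  have hEq : ((J'.subgroupOf (Subgroup.centralizer ({y} : Set G))).map (QuotientGroup.mk' O)).subgroupOf CQ = (J'.subgroupOf C).map f := by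
    ext q
    constructor
    · rintro ⟨c, hc, hcq⟩
      exact ⟨⟨c, hJ'C hc⟩, hc, Subtype.ext hcq⟩
    · rintro ⟨c, hc, rfl⟩
      exact ⟨Subgroup.inclusion inf_le_right c, hc, rfl⟩
  refine ⟨by rw [hEq]; exact hKc, ?_⟩
  -- (ii)
  intro E hEle hEodd hEinv
  set K := (J'.subgroupOf C).map f with hKdef
  set Eb := (E.subgroupOf C).map f with hEbdef
  have hEodd' : (Nat.card ↥Eb).Coprime 2 := by
    refine Nat.Coprime.coprime_dvd_left (Subgroup.card_map_dvd _ f) ?_
    rw [Nat.card_congr (Subgroup.subgroupOfEquivOfLe (hEle : E ≤ C)).toEquiv]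
    exact Nat.coprime_two_right.mpr hEodd
  have hKE : K ≤ Subgroup.normalizer (Eb : Set _) := by
    rw [Subgroup.le_normalizer_iff]
    rintro _ ⟨j, hj, rfl⟩ _ ⟨e, he, rfl⟩
    exact ⟨j * e * j⁻¹, hEinv _ hj _ he, by rw [map_mul, map_mul, map_inv]⟩
  have hEK : Eb ≤ Subgroup.normalizer (K : Set _) := by
    intro e he
    rw [Subgroup.mem_normalizer_iff_map_conj_eq]
    by_contra hne'
    have hcomm := CfsgLib.Components.components_commute hKc (CfsgLib.Components.isComponent_conj hKc e)
      (Ne.symm hne')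
    apply CfsgLib.Components.quasisimple_center_ne_top hKc.2
    refine CfsgLib.Components.quasisimple_eq_top_of_pElements hKc.2
      ((CfsgLib.Components.pComponent_dvd_card hK : 2 ∣ Nat.card ↥K)) inferInstance ?_
    intro j k hjk
    have hj2 : (j : ↥CQ) ^ 2 ^ k = 1 := by simpa using congrArg Subtype.val hjk
    have hb : e * (j : ↥CQ)⁻¹ * e⁻¹ ∈ K.map (MulAut.conj e).toMonoidHom := ⟨(j : ↥CQ)⁻¹, inv_mem j.2, by simp⟩
    have hab : Commute (j : ↥CQ) (e * (j : ↥CQ)⁻¹ * e⁻¹) :=
      (Subgroup.mem_centralizer_iff.mp (Subgroup.commutator_eq_bot_iff_le_centralizer.mp hcomm j.2) _ hb).symm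
    have hm : (j : ↥CQ) * (e * (j : ↥CQ)⁻¹ * e⁻¹) ∈ Eb := by
      have h1 := (Subgroup.mem_normalizer_iff.mp (hKE j.2) e).mp he
      have : (j : ↥CQ) * (e * (j : ↥CQ)⁻¹ * e⁻¹) = (j : ↥CQ) * e * (j : ↥CQ)⁻¹ * e⁻¹ := by group
      rw [this]
      exact mul_mem h1 (inv_mem he)
    have h4 : (j : ↥CQ) * (e * (j : ↥CQ)⁻¹ * e⁻¹) = 1 := by
      rw [← orderOf_eq_one_iff]
      refine Nat.eq_one_of_dvd_coprimes (hEodd'.pow_right k) (Subgroup.orderOf_dvd_natCard Eb hm)
        (orderOf_dvd_of_pow_eq_one ?_)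
      rw [hab.mul_pow, hj2, ← MulAut.conj_apply, ← map_pow, inv_pow, hj2, inv_one, map_one, mul_one]
    have hjK' : (j : ↥CQ) ∈ K.map (MulAut.conj e).toMonoidHom := by
      rw [eq_inv_of_mul_eq_one_left h4]
      exact inv_mem hb
    rw [Subgroup.mem_center_iff]
    intro g
    exact Subtype.ext (Subgroup.mem_centralizer_iff.mp
      (Subgroup.commutator_eq_bot_iff_le_centralizer.mp hcomm g.2) _ hjK').symm
  have h5 : ⁅K, Eb⁆ ≤ K ⊓ Eb := by
    refine le_inf (CfsgLib.PCore.commutator_le_of_le_normalizer hEK) ?_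
    rw [Subgroup.commutator_comm]
    exact CfsgLib.PCore.commutator_le_of_le_normalizer hKE
  have h6 : K ⊓ Eb ≤ Subgroup.centralizer (K : Set _) := by
    have hn : (Eb.subgroupOf K).Normal := Subgroup.normal_subgroupOf_of_le_normalizer hKE
    rcases CfsgLib.Components.quasisimple_normal hKc.2 hn with h | h
    · intro z hz
      rw [Subgroup.mem_centralizer_iff]
      intro g hg
      exact congrArg Subtype.val (Subgroup.mem_center_iff.mp
        (h (show (⟨z, hz.1⟩ : ↥K) ∈ Eb.subgroupOf K from hz.2)) ⟨g, hg⟩)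
    · exfalso
      have h7 : 2 ∣ Nat.card ↥Eb :=
        (CfsgLib.Components.pComponent_dvd_card hK).trans (Subgroup.card_dvd_of_le (Subgroup.subgroupOf_eq_top.mp h))
      exact (Nat.Prime.coprime_iff_not_dvd Nat.prime_two).mp hEodd'.symm h7
  have h8 : ⁅⁅K, Eb⁆, K⁆ = ⊥ :=
    Subgroup.commutator_eq_bot_iff_le_centralizer.mpr (h5.trans h6)
  have h9 : ⁅⁅Eb, K⁆, K⁆ = ⊥ := by rwa [Subgroup.commutator_comm Eb K]
  have h10 := Subgroup.commutator_commutator_eq_bot_of_rotate h8 h9
  rw [CfsgLib.Components.quasisimple_commutator hKc.2] at h10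
  refine Subgroup.commutator_le.mpr fun j hj e he => ?_
  have hjC : j ∈ C := hJ'C hj
  have heC : e ∈ C := hEle he
  have hmem := Subgroup.commutator_mem_commutator (H₁ := K) (H₂ := Eb)
    (g₁ := f ⟨j, hjC⟩) (g₂ := f ⟨e, heC⟩) ⟨_, hj, rfl⟩ ⟨_, he, rfl⟩
  rw [h10, Subgroup.mem_bot, ← map_commutatorElement] at hmem
  let jC : ↥C := ⟨j, hjC⟩
  let eC : ↥C := ⟨e, heC⟩
  exact ⟨Subgroup.inclusion (inf_le_right : C ≤ _) (jC * eC * jC⁻¹ * eC⁻¹),
    (QuotientGroup.eq_one_iff _).mp (congrArg Subtype.val hmem), rfl⟩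


end Cfsg.Agent.S1775
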