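import Cfsg.Statements.S1780
import Mathlib.Algebra.CharP.Lemmas
import Mathlib.Tactic.Abel
import Mathlib.Tactic.Push

set_option autoImplicit false
open Cfsg

namespace Cfsg.Agent.S1780

/-- Let A be a finite abelian 2-group and t an automorphism of A whose order is a power of 2. If every element of A fixed by t² is fixed by t, then t fixes every element of A. -/
theorem result {A : Type*} [CommGroup A] [Finite A]
    (hA : IsPGroup 2 A) (t : MulAut A) (ht : ∃ k : ℕ, orderOf t = 2 ^ k) (hC : ∀ a : A, t (t a) = a → t a = a) :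
    ∀ a : A, t a = a := by
  classical
  obtain ⟨k, hk⟩ := ht
  obtain ⟨e, he⟩ := IsPGroup.iff_card.mp hA
  let f : AddMonoid.End (Additive A) :=
    { toFun := fun a => Additive.ofMul (t (Additive.toMul a) / Additive.toMul a)
      map_zero' := by simp
      map_add' := fun a b => by
        simp only [toMul_add, map_mul, mul_div_mul_comm, ofMul_mul] }
  have hf : ∀ a : Additive A, f a + a = Additive.ofMul (t (Additive.toMul a)) := by
    intro a
    show Additive.ofMul (t (Additive.toMul a) / Additive.toMul a * Additive.toMul a) = _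
    rw [div_mul_cancel]
  have hfpow : ∀ (n : ℕ) (a : Additive A), ((f + 1) ^ n) a = Additive.ofMul ((t ^ n) (Additive.toMul a)) := by
    intro n
    induction n with
    | zero => intro a; rfl
    | succ n ih =>
      intro a
      show ((f + 1) ^ (n + 1)) a = _
      rw [pow_succ', pow_succ']
      show (f + 1) (((f + 1) ^ n) a) = _
      rw [ih]
      exact hf _
  have h1 : (f + 1) ^ (2 ^ k) = 1 := by
    ext a
    rw [hfpow, ← hk, pow_orderOf_eq_one]
    rfl
  have hnil : IsNilpotent f := by
    obtain ⟨r, hr⟩ := (Commute.one_right f).exists_add_pow_prime_pow_eq Nat.prime_two k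
    rw [h1, one_pow] at hr
    have h2 : ((2 : ℕ) : AddMonoid.End (Additive A)) ^ e = 0 := by
      rw [← Nat.cast_pow]
      ext a
      rw [AddMonoid.End.natCast_apply]
      show _ = ((0 : Additive A).toMul)
      rw [toMul_nsmul, toMul_zero, ← he, pow_card_eq_one']
    have h3 : f ^ (2 ^ k) = ((2 : ℕ) : AddMonoid.End (Additive A)) * (-(f * 1 * r)) := by
      have : f ^ (2 ^ k) + ((2 : ℕ) : AddMonoid.End (Additive A)) * f * 1 * r = 0 := by
        apply add_left_cancel (a := (1 : AddMonoid.End (Additive A)))
        rw [add_zero, ← add_assoc, add_comm (1 : AddMonoid.End (Additive A))]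
        exact hr.symm
      rw [eq_neg_of_add_eq_zero_left this]
      simp only [mul_assoc]
      exact (mul_neg (α := AddMonoid.End (Additive A)) _ _).symm
    refine ⟨2 ^ k * e, ?_⟩
    rw [pow_mul, h3, (Nat.cast_commute 2 (-(f * 1 * r))).mul_pow e, h2, zero_mul]
  by_contra hcon
  push Not at hcon
  obtain ⟨a, ha⟩ := hcon
  have hfa : f (Additive.ofMul a) ≠ 0 := by
    intro h
    have h4 := hf (Additive.ofMul a)
    rw [h, zero_add] at h4
    exact ha (Additive.ofMul.injective h4.symm)
  obtain ⟨n, hn⟩ := hnil
  have hex : ∃ b : Additive A, f (f b) = 0 ∧ f b ≠ 0 := by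
    by_contra hne
    push Not at hne
    have : ∀ m : ℕ, ∀ b : Additive A, (f ^ (m + 1)) b = 0 → f b = 0 := by
      intro m
      induction m with
      | zero => intro b hb; simpa using hb
      | succ m ih =>
        intro b hb
        rw [pow_succ] at hb
        exact hne b (ih _ hb)
    refine hfa (this n _ ?_)
    rw [pow_succ', hn, mul_zero]
    rfl
  obtain ⟨b, hb2, hb1⟩ := hex
  have hj : ∃ j : ℕ, f ((2 ^ j) • b) = 0 := by
    refine ⟨e, ?_⟩
    have : (2 ^ e) • b = 0 := by
      apply Additive.toMul.injective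
      rw [toMul_nsmul, toMul_zero, ← he, pow_card_eq_one']
    rw [this, map_zero]
  have hj0 : Nat.find hj ≠ 0 := by
    intro h
    have h' := Nat.find_spec hj
    rw [h, pow_zero, one_smul] at h'
    exact hb1 h'
  obtain ⟨i, hi⟩ := Nat.exists_eq_succ_of_ne_zero hj0
  have hc0 : f ((2 ^ i) • b) ≠ 0 := Nat.find_min hj (by omega)
  have hc2 : f (f ((2 ^ i) • b)) = 0 := by rw [map_nsmul, map_nsmul, hb2, smul_zero]
  have hc1 : f ((2 ^ i) • b) + f ((2 ^ i) • b) = 0 := by
    have h' := Nat.find_spec hj
    rw [hi, pow_succ', mul_smul, two_smul, map_add] at h'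
    exact h'
  apply hc0
  set c := (2 ^ i) • b with hc
  have h5 : t (t (Additive.toMul c)) = Additive.toMul c := by
    apply Additive.ofMul.injective
    have e1 := hf c
    have e2 := hf (f c + c)
    rw [map_add, hc2, zero_add, ← add_assoc, hc1, zero_add, e1, toMul_ofMul] at e2
    exact e2.symm
  have h6 := hC _ h5
  show Additive.ofMul (t (Additive.toMul c) / Additive.toMul c) = 0
  rw [h6, div_self']
  rfl


end Cfsg.Agent.S1780
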