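import Cfsg.Statements.S1781
import Cfsg.Agent.TISub.Basic
import Cfsg.Agent.S1780
open scoped IsMulCommutative commutatorElement

set_option autoImplicit false
open Cfsg

namespace Cfsg.Agent.S1781

/-- Let A be an abelian 2-subgroup of the finite group G such that every conjugate of A equals A or meets A trivially, and let g ∈ G with g A g⁻¹ ≠ A. Then either the subgroup of those elements of A that normalize g A g⁻¹ is an elementary abelian 2-group, or A and g A g⁻¹ commute elementwise. -/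
theorem result {G : Type*} [Group G] [Finite G] (A : Subgroup G)
    (hA2 : IsPGroup 2 ↥A) (hAa : IsMulCommutative ↥A)
    (hti : ∀ h : G, A.map (MulAut.conj h).toMonoidHom = A ∨ A.map (MulAut.conj h).toMonoidHom ⊓ A = ⊥)
    (g : G) (hg : A.map (MulAut.conj g).toMonoidHom ≠ A) :
    Cfsg.IsElementaryAbelian 2 (A ⊓ Subgroup.normalizer ((A.map (MulAut.conj g).toMonoidHom : Subgroup G) : Set G)) ∨
      ⁅A, A.map (MulAut.conj g).toMonoidHom⁆ = ⊥ := by
  let B : Subgroup G := A.map (MulAut.conj g).toMonoidHom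
  have hBti : ∀ h : G, B.map (MulAut.conj h).toMonoidHom = B ∨ B.map (MulAut.conj h).toMonoidHom ⊓ B = ⊥ :=
    CfsgLib.TISub.ti_conj hti g
  have hAB : A ⊓ B = ⊥ := by
    rw [inf_comm]
    exact (hti g).resolve_left hg
  have hB2 : IsPGroup 2 ↥B := hA2.map _
  have hBa : IsMulCommutative ↥B := inferInstanceAs (IsMulCommutative ↥(A.map (MulAut.conj g).toMonoidHom))
  let N : Subgroup G := A ⊓ Subgroup.normalizer (B : Set G)
  by_cases hsq : ∀ a ∈ N, a ^ 2 = 1
  · refine Or.inl ⟨⟨⟨fun a b => Subtype.ext ?_⟩⟩, hsq⟩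
    exact congrArg (Subtype.val : ↥A → G) (mul_comm (⟨(a : G), a.2.1⟩ : ↥A) ⟨(b : G), b.2.1⟩)
  push Not at hsq
  obtain ⟨a, ha, ha2⟩ := hsq
  right
  -- an element of B centralising a nontrivial element of N normalises A
  have key : ∀ c ∈ N, c ≠ 1 → ∀ b ∈ B, c * b = b * c → ∀ d ∈ N, d * b = b * d := by
    intro c hc hc1 b hb hcb d hd
    have hbN : b ∈ Subgroup.normalizer (A : Set G) := by
      refine CfsgLib.TISub.mem_normalizer_of_ti (hti b) hc.1 hc1 ?_
      rw [← hcb, mul_inv_cancel_right]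
      exact hc.1
    have h1 : ⁅d, b⁆ ∈ A ⊓ B := by
      refine ⟨?_, ?_⟩
      · rw [commutatorElement_def, mul_assoc, mul_assoc]
        refine A.mul_mem hd.1 ?_
        rw [← mul_assoc]
        exact (Subgroup.mem_normalizer_iff.mp hbN _).mp (A.inv_mem hd.1)
      · exact B.mul_mem ((Subgroup.mem_normalizer_iff.mp hd.2 _).mp hb) (B.inv_mem hb)
    rw [hAB, Subgroup.mem_bot, commutatorElement_eq_one_iff_mul_comm] at h1
    exact h1
  have ha1 : a ≠ 1 := fun h => ha2 (by simp [h])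
  let aN : ↥(Subgroup.normalizer (B : Set G)) := ⟨a, ha.2⟩
  let τ : MulAut ↥B := B.normalizerMonoidHom aN
  have hτ : ∀ b : ↥B, ((τ b : ↥B) : G) = a * b * a⁻¹ := fun b => rfl
  have hfix : ∀ b : ↥B, τ b = b := by
    refine Cfsg.Agent.S1780.result hB2 τ ?_ ?_
    · obtain ⟨k, hk⟩ := hA2 ⟨a, ha.1⟩
      have hk' : a ^ 2 ^ k = 1 := congrArg Subtype.val hk
      have : orderOf τ ∣ 2 ^ k := by
        apply orderOf_dvd_of_pow_eq_one
        rw [← map_pow]
        rw [show aN ^ 2 ^ k = 1 from Subtype.ext hk', map_one]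
      obtain ⟨i, -, hi⟩ := (Nat.dvd_prime_pow Nat.prime_two).mp this
      exact ⟨i, hi⟩
    · intro b hb
      have h1 : a ^ 2 * (b : G) = b * a ^ 2 := by
        have h2 := congrArg Subtype.val hb
        rw [hτ, hτ] at h2
        calc a ^ 2 * (b : G) = a * (a * b * a⁻¹) * a⁻¹ * a ^ 2 := by simp [pow_two, mul_assoc]
          _ = (b : G) * a ^ 2 := by rw [h2]
      have h3 := key (a ^ 2) (Subgroup.pow_mem _ ha 2) ha2 b b.2 h1 a ha
      apply Subtype.ext
      rw [hτ, h3, mul_inv_cancel_right]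
  have hBN : B ≤ Subgroup.normalizer (A : Set G) := by
    intro b hb
    have h1 : a * b * a⁻¹ = b := congrArg Subtype.val (hfix ⟨b, hb⟩)
    refine CfsgLib.TISub.mem_normalizer_of_ti (hti b) ha.1 ha1 ?_
    have h2 : a * b = b * a := mul_inv_eq_iff_eq_mul.mp h1
    rw [← h2, mul_inv_cancel_right]
    exact ha.1
  have h2' : Fact (Nat.Prime 2) := ⟨Nat.prime_two⟩
  exact CfsgLib.TISub.commutator_eq_bot_of_ti 2 A B hA2 hB2 hBti (CfsgLib.TISub.card_map_conj A g).ge hAB hBN


end Cfsg.Agent.S1781
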