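import Cfsg.Statements.S1782
import Cfsg.Agent.TISub.Basic
open scoped commutatorElement

set_option autoImplicit false
open Cfsg

namespace Cfsg.Agent.S1782

/-- Let S be a finite 2-group and Δ a set of subgroups of S closed under conjugation by S, all of the same order, each with nontrivial Frattini subgroup, and such that two distinct members of Δ meet trivially. Then any two distinct members of Δ commute elementwise. -/
theorem result {S : Type*} [Group S] [Finite S] (hS : IsPGroup 2 S)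
    (Δ : Set (Subgroup S)) (hinv : ∀ s : S, ∀ R ∈ Δ, R.map (MulAut.conj s).toMonoidHom ∈ Δ)
    (hΦ : ∀ R ∈ Δ, frattini ↥R ≠ ⊥) (hord : ∀ R ∈ Δ, ∀ T ∈ Δ, Nat.card ↥R = Nat.card ↥T)
    (hti : ∀ R ∈ Δ, ∀ T ∈ Δ, R = T ∨ R ⊓ T = ⊥) :
    ∀ R ∈ Δ, ∀ T ∈ Δ, R ≠ T → ⁅R, T⁆ = ⊥ := by
  have h2 : Fact (Nat.Prime 2) := ⟨Nat.prime_two⟩

  have hsymm : ∀ {R T : Subgroup S}, ⁅R, T⁆ = ⊥ → ⁅T, R⁆ = ⊥ := fun h => by rwa [Subgroup.commutator_comm]
  have hcomm : ∀ {R T : Subgroup S}, ⁅R, T⁆ = ⊥ → ∀ r ∈ R, ∀ t ∈ T, r * t = t * r := by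
    intro R T h r hr t ht
    have h1 := Subgroup.commutator_mem_commutator hr ht
    rw [h, Subgroup.mem_bot] at h1
    exact commutatorElement_eq_one_iff_mul_comm.mp h1
  have hTI : ∀ R ∈ Δ, ∀ g : S, R.map (MulAut.conj g).toMonoidHom = R ∨ R.map (MulAut.conj g).toMonoidHom ⊓ R = ⊥ :=
    fun R hR g => hti _ (hinv g R hR) R hR
  have hne : ∀ R ∈ Δ, R ≠ ⊥ := by
    intro R hR h
    apply hΦ R hR
    subst h
    exact eq_bot_iff.mpr fun x _ => Subgroup.mem_bot.mpr (Subsingleton.elim _ _)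
  have hnorm : ∀ R ∈ Δ, ∀ T ∈ Δ, R ⊓ T = ⊥ → T ≤ Subgroup.normalizer (R : Set S) → ⁅R, T⁆ = ⊥ :=
    fun R hR T hT h1 h3 => CfsgLib.TISub.commutator_eq_bot_of_ti 2 R T (hS.to_subgroup R) (hS.to_subgroup T)
      (hTI T hT) (hord R hR T hT).le h1 h3
  suffices h : ∀ n, ∀ R ∈ Δ, ∀ T ∈ Δ, Nat.card ↥(R ⊔ T) = n → R ≠ T → ⁅R, T⁆ = ⊥ from
    fun R hR T hT hne => h _ R hR T hT rfl hne
  intro n
  induction n using Nat.strong_induction_on with
  | _ n ih =>
  intro R hR T hT hn hRT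
  have hRTi : R ⊓ T = ⊥ := (hti R hR T hT).resolve_left hRT
  -- conjugates inside U = R ⊔ T commute
  have hconj : ∀ P ∈ Δ, P < R ⊔ T → ∀ u ∈ R ⊔ T, P.map (MulAut.conj u).toMonoidHom ≠ P →
      ⁅P.map (MulAut.conj u).toMonoidHom, P⁆ = ⊥ := by
    intro P hP hPU u hu hPu
    have := (hS.to_subgroup (R ⊔ T)).isNilpotent
    obtain ⟨M, hM, hPM⟩ := (eq_top_or_exists_le_coatom (P.subgroupOf (R ⊔ T))).resolve_left
      (fun h => not_le_of_gt hPU (Subgroup.subgroupOf_eq_top.mp h))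
    have hMn : M.Normal := Subgroup.NormalizerCondition.normal_of_coatom M Group.normalizerCondition_of_isNilpotent hM
    have hle : P.map (MulAut.conj u).toMonoidHom ⊔ P ≤ M.map (R ⊔ T).subtype := by
      refine sup_le ?_ ?_
      · rintro _ ⟨x, hx, rfl⟩
        exact ⟨⟨u, hu⟩ * ⟨x, hPU.le hx⟩ * ⟨u, hu⟩⁻¹, hMn.conj_mem _ (hPM (show (⟨x, hPU.le hx⟩ : ↥(R ⊔ T)) ∈ _ from hx)) _, rfl⟩
      · intro x hx
        exact ⟨⟨x, hPU.le hx⟩, hPM (show (⟨x, hPU.le hx⟩ : ↥(R ⊔ T)) ∈ _ from hx), rfl⟩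
    refine ih _ ?_ _ (hinv u P hP) P hP rfl hPu
    rw [← hn]
    refine lt_of_le_of_lt (Subgroup.card_le_of_le hle) ?_
    rw [Subgroup.card_map_of_injective (Subgroup.subtype_injective _)]
    exact lt_of_le_of_ne (Subgroup.card_le_card_group M) fun h => hM.1 (Subgroup.card_eq_iff_eq_top M |>.mp h)
  by_cases hT' : T ≤ Subgroup.normalizer (R : Set S)
  · exact hnorm R hR T hT hRTi hT'
  by_cases hR' : R ≤ Subgroup.normalizer (T : Set S)
  · exact hsymm (hnorm T hT R hR (inf_comm R T ▸ hRTi) hR')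
  exfalso
  have hRU : R < R ⊔ T := lt_of_le_of_ne le_sup_left fun h => hT' (le_trans (h ▸ le_sup_right) Subgroup.le_normalizer)
  have hTU : T < R ⊔ T := lt_of_le_of_ne le_sup_right fun h => hR' (le_trans (h ▸ le_sup_left) Subgroup.le_normalizer)
  -- conjugates of R (resp. T) in U normalise each other
  have hconjN : ∀ P ∈ Δ, P < R ⊔ T → ∀ u ∈ R ⊔ T, ∀ x ∈ P, u * x * u⁻¹ ∈ Subgroup.normalizer (P : Set S) := by
    intro P hP hPU u hu x hx
    have hmem : u * x * u⁻¹ ∈ P.map (MulAut.conj u).toMonoidHom := ⟨x, hx, by simp⟩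
    by_cases h : P.map (MulAut.conj u).toMonoidHom = P
    · rw [h] at hmem
      exact Subgroup.le_normalizer hmem
    · have hc := hcomm (hconj P hP hPU u hu h) _ hmem
      rw [Subgroup.mem_normalizer_iff]
      intro y
      constructor
      · intro hy
        rw [hc y hy, mul_inv_cancel_right]
        exact hy
      · intro hy
        have := hc _ hy
        have h' : u * x * u⁻¹ * y * (u * x * u⁻¹)⁻¹ = y := by
          have h1 : u * x * u⁻¹ * (u * x * u⁻¹ * y * (u * x * u⁻¹)⁻¹) = (u * x * u⁻¹ * y * (u * x * u⁻¹)⁻¹) * (u * x * u⁻¹) := this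
          rw [inv_mul_cancel_right] at h1
          exact mul_left_cancel h1
        rwa [h'] at hy
  -- the non-abelian case
  have hnab : ∀ R ∈ Δ, ∀ T ∈ Δ, ∀ U : Subgroup S, R ≤ U → T ≤ U → ¬ T ≤ Subgroup.normalizer (R : Set S) →
      (∀ u ∈ U, ∀ x ∈ T, u * x * u⁻¹ ∈ Subgroup.normalizer (T : Set S)) →
      (∀ u ∈ U, R.map (MulAut.conj u).toMonoidHom ≠ R → ⁅R.map (MulAut.conj u).toMonoidHom, R⁆ = ⊥) →
      ¬ IsMulCommutative ↥R → R ≤ Subgroup.normalizer (T : Set S) := by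
    intro R hR T hT U hRU hTU hTR hTN hRC hnc
    obtain ⟨t, ht, htR⟩ := SetLike.not_le_iff_exists.mp hTR
    have hx' : ∀ x ∈ R, ∀ y ∈ R, (t⁻¹ * x * t) * y = y * (t⁻¹ * x * t) := by
      intro x hx y hy
      have htne : R.map (MulAut.conj t⁻¹).toMonoidHom ≠ R := fun h => htR (by
        simpa using Subgroup.inv_mem _ (CfsgLib.TISub.mem_normalizer_of_map_conj_eq h))
      exact hcomm (hRC t⁻¹ (U.inv_mem (hTU ht)) htne) _ (CfsgLib.TISub.mem_map_conj.mpr (by simpa [mul_assoc] using hx)) y hy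
    have hTt : ∀ x ∈ U, x⁻¹ * (t⁻¹) * x ∈ Subgroup.normalizer (T : Set S) := by
      intro x hx
      simpa using hTN x⁻¹ (U.inv_mem hx) t⁻¹ (T.inv_mem ht)
    have hder : ⁅R, R⁆ ≤ Subgroup.normalizer (T : Set S) := by
      rw [Subgroup.commutator_le]
      intro a ha y hy
      -- ⁅a, y⁆ = ⁅w, y⁆ where w = a * t⁻¹ * a⁻¹ * t
      have hc := hx' a⁻¹ (R.inv_mem ha) y hy
      have e : ⁅a, y⁆ = (a * t⁻¹ * a⁻¹) * t * ((y * t⁻¹ * y⁻¹) * ((y * a) * t * (y * a)⁻¹)) := by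
        have e1 : (t⁻¹ * a⁻¹ * t) * y * (t⁻¹ * a⁻¹ * t)⁻¹ = y := by rw [hc, mul_inv_cancel_right]
        calc ⁅a, y⁆ = a * y * a⁻¹ * y⁻¹ := commutatorElement_def a y
          _ = a * ((t⁻¹ * a⁻¹ * t) * y * (t⁻¹ * a⁻¹ * t)⁻¹) * a⁻¹ * y⁻¹ := by rw [e1]
          _ = _ := by group
      rw [e]
      refine Subgroup.mul_mem _ (Subgroup.mul_mem _ (hTN a (hRU ha) _ (T.inv_mem ht)) (Subgroup.le_normalizer ht))
        (Subgroup.mul_mem _ (hTN y (hRU hy) _ (T.inv_mem ht)) (hTN _ (U.mul_mem (hRU hy) (hRU ha)) t ht))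
    have := (hS.to_subgroup R).isNilpotent
    have hRne : ⁅(⊤ : Subgroup ↥R), (⊤ : Subgroup ↥R)⁆ ≠ ⊥ := by
      intro h
      refine hnc ⟨⟨fun a b => ?_⟩⟩
      have h1 := Subgroup.commutator_mem_commutator (Subgroup.mem_top a) (Subgroup.mem_top b)
      rw [h, Subgroup.mem_bot] at h1
      exact commutatorElement_eq_one_iff_mul_comm.mp h1
    obtain ⟨z, hz, hzC, hz1⟩ : ∃ z : ↥R, z ∈ ⁅(⊤ : Subgroup ↥R), (⊤ : Subgroup ↥R)⁆ ∧ z ∈ Subgroup.center ↥R ∧ z ≠ 1 := by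
      classical
      have hex : ∃ n, (⊤ : Subgroup ↥R).lowerCentralSeries (n + 1) = ⊥ := by
        obtain ⟨n, hn⟩ := nilpotent_iff_lowerCentralSeries.mp (inferInstance : Group.IsNilpotent ↥R)
          
        exact ⟨n, eq_bot_iff.mpr (hn ▸ Subgroup.lowerCentralSeries_antitone _ (Nat.le_succ n))⟩
      have h0 : Nat.find hex ≠ 0 := by
        intro h
        apply hRne
        have h1 := Nat.find_spec hex
        rw [h] at h1
        exact h1
      obtain ⟨m, hm⟩ := Nat.exists_eq_succ_of_ne_zero h0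
      have h1 := Nat.find_spec hex
      rw [hm] at h1
      have h2 : (⊤ : Subgroup ↥R).lowerCentralSeries (m + 1) ≠ ⊥ := Nat.find_min hex (by omega)
      obtain ⟨z, hz, hz1⟩ := (Subgroup.bot_or_exists_ne_one _).resolve_left h2
      refine ⟨z, (Subgroup.lowerCentralSeries_antitone _ (show 1 ≤ m + 1 by omega) hz : z ∈ (⊤ : Subgroup ↥R).lowerCentralSeries 1), ?_, hz1⟩
      rw [Subgroup.mem_center_iff]
      intro g
      have h4 : ⁅z, g⁆ ∈ (⊤ : Subgroup ↥R).lowerCentralSeries (m + 1 + 1) :=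
        Subgroup.commutator_mem_commutator hz (Subgroup.mem_top g)
      rw [h1, Subgroup.mem_bot] at h4
      exact (commutatorElement_eq_one_iff_mul_comm.mp h4).symm
    have hzN : (z : S) ∈ Subgroup.normalizer (T : Set S) := by
      refine hder ?_
      have := Subgroup.mem_map_of_mem R.subtype hz
      rw [Subgroup.map_commutator, ← MonoidHom.range_eq_map, R.range_subtype] at this
      exact this
    intro r hr
    have hu : (z : S)⁻¹ * (t⁻¹ * z * t) ∈ T := by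
      have h1 := (Subgroup.mem_normalizer_iff.mp (Subgroup.inv_mem _ hzN) t⁻¹).mp (T.inv_mem ht)
      rw [inv_inv] at h1
      have h4 := T.mul_mem h1 ht
      simpa [mul_assoc] using h4
    have hu1 : (z : S)⁻¹ * (t⁻¹ * z * t) ≠ 1 := by
      intro h
      have h1 : t⁻¹ * (z : S) * t = z := (inv_mul_eq_one.mp h).symm
      refine htR ?_
      simpa using Subgroup.inv_mem _ (CfsgLib.TISub.mem_normalizer_of_ti (hTI R hR t⁻¹) z.2
        (fun h => hz1 (Subtype.ext h)) (by rw [inv_inv, h1]; exact z.2))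
    refine CfsgLib.TISub.mem_normalizer_of_ti (hTI T hT r) hu hu1 ?_
    have e1 : r * (z : S)⁻¹ = (z : S)⁻¹ * r := by
      have := congrArg Subtype.val (Subgroup.mem_center_iff.mp (Subgroup.inv_mem _ hzC) ⟨r, hr⟩)
      exact this
    have e2 : (t⁻¹ * (z : S) * t) * r = r * (t⁻¹ * (z : S) * t) := hx' _ z.2 r hr
    have : r * ((z : S)⁻¹ * (t⁻¹ * z * t)) * r⁻¹ = (z : S)⁻¹ * (t⁻¹ * z * t) := by
      calc r * ((z : S)⁻¹ * (t⁻¹ * z * t)) * r⁻¹ = (r * (z : S)⁻¹) * (t⁻¹ * z * t) * r⁻¹ := by group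
        _ = (z : S)⁻¹ * (r * (t⁻¹ * z * t)) * r⁻¹ := by rw [e1]; group
        _ = (z : S)⁻¹ * ((t⁻¹ * z * t) * r) * r⁻¹ := by rw [e2]
        _ = _ := by group
    rw [this]
    exact hu
  have hRab : IsMulCommutative ↥R := by
    by_contra h
    exact hR' (hnab R hR T hT (R ⊔ T) le_sup_left le_sup_right hT' (hconjN T hT hTU) (hconj R hR hRU) h)
  have hTab : IsMulCommutative ↥T := by
    by_contra h
    exact hT' (hnab T hT R hR (R ⊔ T) le_sup_right le_sup_left hR' (hconjN R hR hRU) (hconj T hT hTU) h)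
  -- the abelian case
  obtain ⟨x, hxR, hx2⟩ : ∃ x ∈ R, x ^ 2 ≠ 1 := by
    by_contra hcon
    push Not at hcon
    refine hΦ R hR (eq_bot_iff.mpr fun a ha => Subgroup.mem_bot.mpr ?_)
    by_contra ha1
    obtain ⟨H, hH⟩ := (Set.toFinite {H : Subgroup ↥R | a ∉ H}).exists_maximal ⟨⊥, fun h => ha1 (Subgroup.mem_bot.mp h)⟩
    have hco : IsCoatom H := by
      refine ⟨fun h => hH.1 (h ▸ Subgroup.mem_top a), fun K hK => ?_⟩
      refine eq_top_iff.mpr fun y _ => ?_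
      have haK : ∀ K' : Subgroup ↥R, H < K' → a ∈ K' := fun K' hK' => by
        by_contra h
        exact not_le_of_gt hK' (hH.2 h hK'.le)
      by_cases hy : y ∈ H
      · exact hK.le hy
      have h3 : a ∈ H ⊔ Subgroup.zpowers y :=
        haK _ (left_lt_sup.mpr fun h => hy (h (Subgroup.mem_zpowers y)))
      have : H.Normal := ⟨fun n hn g => by rw [mul_comm' g n, mul_inv_cancel_right]; exact hn⟩
      obtain ⟨h, hh, w, hw, hhw⟩ := Subgroup.mem_sup_of_normal_left.mp h3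
      obtain ⟨i, rfl⟩ := Subgroup.mem_zpowers_iff.mp hw
      have hy2 : y * y = 1 := Subtype.ext (by rw [← pow_two]; exact hcon y y.2)
      have haKy : a ∈ K := haK K hK
      rcases Int.even_or_odd' i with ⟨j, rfl | rfl⟩
      · rw [zpow_mul, zpow_two, hy2, one_zpow, mul_one] at hhw
        exact absurd (hhw ▸ hh) hH.1
      · rw [zpow_add, zpow_mul, zpow_two, hy2, one_zpow, one_mul, zpow_one] at hhw
        have : y = h⁻¹ * a := by rw [← hhw, inv_mul_cancel_left]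
        rw [this]
        exact K.mul_mem (K.inv_mem (hK.le hh)) haKy
    exact hH.1 (frattini_le_coatom hco ha)
  obtain ⟨t, ht, htR, ht2⟩ : ∃ t ∈ T, t ∉ Subgroup.normalizer (R : Set S) ∧ t * t ∈ Subgroup.normalizer (R : Set S) := by
    obtain ⟨t, ht, htR⟩ := SetLike.not_le_iff_exists.mp hT'
    obtain ⟨k, hk⟩ := hS t
    have : ∀ k, t ^ 2 ^ k ∈ Subgroup.normalizer (R : Set S) → ∃ u ∈ T, u ∉ Subgroup.normalizer (R : Set S) ∧ u * u ∈ Subgroup.normalizer (R : Set S) := by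
      intro k
      induction k with
      | zero => intro h; rw [pow_zero, pow_one] at h; exact absurd h htR
      | succ k ihk =>
        intro h
        by_cases h' : t ^ 2 ^ k ∈ Subgroup.normalizer (R : Set S)
        · exact ihk h'
        · refine ⟨_, T.pow_mem ht _, h', ?_⟩
          rw [← pow_add, ← two_mul, ← pow_succ']
          exact h
    exact this k (hk ▸ Subgroup.one_mem _)
  have htne : R.map (MulAut.conj t⁻¹).toMonoidHom ≠ R := fun h => htR (by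
    simpa using Subgroup.inv_mem _ (CfsgLib.TISub.mem_normalizer_of_map_conj_eq h))
  have hRC : ∀ a ∈ R, ∀ b ∈ R, (t⁻¹ * a * t) * b = b * (t⁻¹ * a * t) := fun a ha b hb =>
    hcomm (hconj R hR hRU t⁻¹ (Subgroup.inv_mem _ (hTU.le ht)) htne) _
      (CfsgLib.TISub.mem_map_conj.mpr (by simpa [mul_assoc] using ha)) b hb
  -- elements of conjugates of T by R centralise T
  have hTC : ∀ u ∈ R ⊔ T, ∀ a ∈ T, ∀ s ∈ T, (u * a * u⁻¹) * s = s * (u * a * u⁻¹) := by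
    intro u hu a ha s hs
    have hmem : u * a * u⁻¹ ∈ T.map (MulAut.conj u).toMonoidHom := ⟨a, ha, by simp⟩
    by_cases h : T.map (MulAut.conj u).toMonoidHom = T
    · rw [h] at hmem
      exact congrArg (Subtype.val : ↥T → S) (mul_comm' (⟨_, hmem⟩ : ↥T) ⟨s, hs⟩)
    · exact hcomm (hconj T hT hTU u hu h) _ hmem s hs
  have hTC1 : ∀ a ∈ T, ∀ s ∈ T, a * s = s * a := fun a ha s hs =>
    congrArg (Subtype.val : ↥T → S) (mul_comm' (⟨a, ha⟩ : ↥T) ⟨s, hs⟩)
  let c := x⁻¹ * (t⁻¹ * t⁻¹) * x * (t * t)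
  have hcT : ∀ s ∈ T, c * s = s * c := by
    intro s hs
    have h1 := hTC x⁻¹ (Subgroup.inv_mem _ (hRU.le hxR)) (t⁻¹ * t⁻¹) (T.mul_mem (T.inv_mem ht) (T.inv_mem ht)) s hs
    rw [inv_inv] at h1
    calc c * s = x⁻¹ * (t⁻¹ * t⁻¹) * x * ((t * t) * s) := by simp only [c, mul_assoc]
      _ = (x⁻¹ * (t⁻¹ * t⁻¹) * x * s) * (t * t) := by rw [hTC1 _ (T.mul_mem ht ht) s hs]; group
      _ = s * c := by rw [h1]; simp only [c, mul_assoc]
  have hcR : c ∈ R := by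
    have h1 := (Subgroup.mem_normalizer_iff.mp (Subgroup.inv_mem _ ht2) x).mp hxR
    have h3 : x⁻¹ * ((t * t)⁻¹ * x * (t * t)⁻¹⁻¹) ∈ R := R.mul_mem (R.inv_mem hxR) h1
    simpa [c, mul_assoc] using h3
  have hc1 : c = 1 := by
    by_contra hc1
    refine hT' fun s hs => CfsgLib.TISub.mem_normalizer_of_ti (hTI R hR s) hcR hc1 ?_
    rw [← hcT s hs, mul_inv_cancel_right]
    exact hcR
  have hw : (x⁻¹ * t⁻¹ * x * t) * t = t * (x⁻¹ * t⁻¹ * x * t) := by
    have h1 := hTC x⁻¹ (Subgroup.inv_mem _ (hRU.le hxR)) t⁻¹ (T.inv_mem ht) t ht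
    rw [inv_inv] at h1
    calc (x⁻¹ * t⁻¹ * x * t) * t = (x⁻¹ * t⁻¹ * x * t) * t := rfl
      _ = (x⁻¹ * t⁻¹ * x) * t * t := by group
      _ = t * (x⁻¹ * t⁻¹ * x) * t := by rw [h1]
      _ = _ := by group
  have htx : x = t⁻¹ * (t⁻¹ * x * t) * t := by
    have h1 : x⁻¹ * ((t⁻¹ * t⁻¹) * x * (t * t)) = 1 := by
      rw [← hc1]; simp only [c, mul_assoc]
    calc x = (t⁻¹ * t⁻¹) * x * (t * t) := inv_mul_eq_one.mp h1
      _ = _ := by group
  have hx'x : (t⁻¹ * x * t)⁻¹ * x = x⁻¹ * (t⁻¹ * x * t) := by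
    calc (t⁻¹ * x * t)⁻¹ * x = (t⁻¹ * x * t)⁻¹ * (t⁻¹ * (t⁻¹ * x * t) * t) := by rw [← htx]
      _ = t⁻¹ * (x⁻¹ * t⁻¹ * x * t) * t := by group
      _ = t⁻¹ * ((x⁻¹ * t⁻¹ * x * t) * t) := by group
      _ = x⁻¹ * (t⁻¹ * x * t) := by rw [hw]; group
  refine htR ?_
  have hsq : t⁻¹ * x ^ 2 * t = x ^ 2 := by
    have e := hRC x hxR x hxR
    have h1 : x * x = (t⁻¹ * x * t) * (t⁻¹ * x * t) := by
      calc x * x = x * ((t⁻¹ * x * t) * ((t⁻¹ * x * t)⁻¹ * x)) := by group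
        _ = x * ((t⁻¹ * x * t) * (x⁻¹ * (t⁻¹ * x * t))) := by rw [hx'x]
        _ = (x * (t⁻¹ * x * t)) * (x⁻¹ * (t⁻¹ * x * t)) := by group
        _ = ((t⁻¹ * x * t) * x) * (x⁻¹ * (t⁻¹ * x * t)) := by rw [e]
        _ = _ := by group
    rw [pow_two]
    calc t⁻¹ * (x * x) * t = (t⁻¹ * x * t) * (t⁻¹ * x * t) := by group
      _ = x * x := h1.symm
  simpa using Subgroup.inv_mem _ (CfsgLib.TISub.mem_normalizer_of_ti (hTI R hR t⁻¹) (R.pow_mem hxR 2) hx2
    (by rw [inv_inv, hsq]; exact R.pow_mem hxR 2))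


end Cfsg.Agent.S1782
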