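import Cfsg.Statements.S1783
import Cfsg.Agent.S1782
import Cfsg.Agent.Components.Basic
import Cfsg.Agent.Components.Orbit
import Cfsg.Agent.CoprimeAction.Basic
import Cfsg.Agent.CoprimeAction.Frattini
import Mathlib.GroupTheory.Sylow

set_option autoImplicit false
open Cfsg

namespace Cfsg.Agent.S1783

open scoped commutatorElement
open CfsgLib.Components CfsgLib.TISub

/-- Conjugates of an abelian TI subgroup inside a 2-group commute with it, unless it is elementary abelian. -/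
theorem ti_conj_comm {X : Type*} [Group X] [Finite X] {D W : Subgroup X} (hW : IsPGroup 2 ↥W)
    (T : Set X) (h1T : (1 : X) ∈ T) (hT : ∀ w ∈ W, ∀ g ∈ T, w * g ∈ T)
    (hle : ∀ g ∈ T, D.map (MulAut.conj g).toMonoidHom ≤ W)
    (hti : ∀ h : X, D.map (MulAut.conj h).toMonoidHom = D ∨ D.map (MulAut.conj h).toMonoidHom ⊓ D = ⊥)
    (hab : ∀ a ∈ D, ∀ b ∈ D, a * b = b * a) (hd : ∃ d ∈ D, d ^ 2 ≠ 1) :
    ∀ g ∈ T, ∀ a ∈ D, ∀ b ∈ D, (g * a * g⁻¹) * b = b * (g * a * g⁻¹) := by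
  intro g hg a ha b hb
  by_cases hgD : D.map (MulAut.conj g).toMonoidHom = D
  · exact hab _ (hgD ▸ ⟨a, ha, by simp⟩) b hb
  let Δ : Set (Subgroup ↥W) := {R | ∃ g ∈ T, R = (D.map (MulAut.conj g).toMonoidHom).subgroupOf W}
  have hmap : ∀ g ∈ T, ((D.map (MulAut.conj g).toMonoidHom).subgroupOf W).map W.subtype = D.map (MulAut.conj g).toMonoidHom :=
    fun g hg => Subgroup.map_subgroupOf_eq_of_le (hle g hg)
  have hD1 : D.map (MulAut.conj (1 : X)).toMonoidHom = D := by ext x; simp [mem_map_conj]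
  have hcard : ∀ g ∈ T, Nat.card ↥((D.map (MulAut.conj g).toMonoidHom).subgroupOf W) = Nat.card ↥D := fun g hg => by
    rw [Nat.card_congr (Subgroup.subgroupOfEquivOfLe (hle g hg)).toEquiv, card_map_conj]
  have key := Cfsg.Agent.S1782.result hW Δ
    (by
      rintro s R ⟨g, hg, rfl⟩
      refine ⟨s * g, hT s s.2 g hg, ?_⟩
      ext x
      rw [Subgroup.mem_subgroupOf, ← map_conj_map_conj]
      constructor
      · rintro ⟨y, hy, rfl⟩; exact ⟨_, hy, rfl⟩
      · rintro ⟨y, hy, hyx⟩; exact ⟨⟨y, hle g hg hy⟩, hy, Subtype.ext hyx⟩)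
    (by
      rintro R ⟨g, hg, rfl⟩ hbot
      obtain ⟨d, hdD, hd2⟩ := hd
      have hP : IsPGroup 2 ↥((D.map (MulAut.conj g).toMonoidHom).subgroupOf W) := hW.to_subgroup _
      have hm : g * d * g⁻¹ ∈ D.map (MulAut.conj g).toMonoidHom := ⟨d, hdD, by simp⟩
      have : Fact (Nat.Prime 2) := ⟨Nat.prime_two⟩
      have h2 := CfsgLib.CoprimeAction.pow_mem_frattini hP ⟨⟨_, hle g hg hm⟩, hm⟩
      rw [hbot, Subgroup.mem_bot] at h2
      have h3 : (g * d * g⁻¹) ^ 2 = 1 := congrArg (fun z : ↥((D.map (MulAut.conj g).toMonoidHom).subgroupOf W) => ((z : ↥W) : X)) h2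
      rw [conj_pow, conj_eq_one_iff] at h3
      exact hd2 h3)
    (by rintro R ⟨g, hg, rfl⟩ U ⟨k, hk, rfl⟩; rw [hcard g hg, hcard k hk])
    (by
      rintro R ⟨g, hg, rfl⟩ U ⟨k, hk, rfl⟩
      rcases hti (k⁻¹ * g) with h | h
      · left
        have := congrArg (Subgroup.map (MulAut.conj k).toMonoidHom) h
        rw [map_conj_map_conj, mul_inv_cancel_left] at this
        rw [this]
      · right
        have := congrArg (Subgroup.map (MulAut.conj k).toMonoidHom) h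
        rw [Subgroup.map_inf _ _ _ (MulAut.conj k).injective, map_conj_map_conj, mul_inv_cancel_left, Subgroup.map_bot] at this
        rw [← Subgroup.map_eq_bot_iff_of_injective _ W.subtype_injective, Subgroup.map_inf _ _ _ W.subtype_injective,
          hmap g hg, hmap k hk, this])
  have h := key _ ⟨g, hg, rfl⟩ _ ⟨1, h1T, rfl⟩ (fun h => hgD (by
    have := congrArg (Subgroup.map W.subtype) h
    rwa [hmap g hg, hmap 1 h1T, hD1] at this))
  have h' := commutator_subgroupOf_eq_bot (hle g hg) (hle 1 h1T) h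
  rw [hD1, Subgroup.commutator_eq_bot_iff_le_centralizer] at h'
  exact (Subgroup.mem_centralizer_iff.1 (h' ⟨a, ha, by simp⟩) b hb).symm

/-- Let X be a finite group whose generalized Fitting subgroup equals its largest normal 2-subgroup Q, and let A be an abelian 2-subgroup of X such that every conjugate of A equals A or meets A trivially. Let B be the subgroup generated by the squares of the elements of A. Then B lies in Q, and if B is not an elementary abelian 2-group then the normal closure of B in X is commutative. -/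
theorem result {X : Type*} [Group X] [Finite X]
    (hX : Cfsg.generalizedFittingSubgroup X = Cfsg.pCore 2 X) (A : Subgroup X) (hA2 : IsPGroup 2 ↥A) (hAa : IsMulCommutative ↥A)
    (hti : ∀ h : X, A.map (MulAut.conj h).toMonoidHom = A ∨ A.map (MulAut.conj h).toMonoidHom ⊓ A = ⊥) :
    Subgroup.closure ((fun a : X => a ^ 2) '' (A : Set X)) ≤ Cfsg.pCore 2 X ∧
      (¬ Cfsg.IsElementaryAbelian 2 (Subgroup.closure ((fun a : X => a ^ 2) '' (A : Set X))) →
        IsMulCommutative ↥(Subgroup.normalClosure ((fun a : X => a ^ 2) '' (A : Set X)))) := by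
  have : Fact (Nat.Prime 2) := ⟨Nat.prime_two⟩
  have hcomm : ∀ a ∈ A, ∀ b ∈ A, a * b = b * a := fun a ha b hb =>
    congrArg (Subtype.val : ↥A → X) (hAa.is_comm.comm ⟨a, ha⟩ ⟨b, hb⟩)
  have hsq : ∀ a ∈ A, a ^ 2 ∈ Cfsg.pCore 2 X := by
    intro a ha
    by_cases hd : ∃ d ∈ A, d ^ 2 ≠ 1
    swap
    · push Not at hd
      rw [hd a ha]; exact one_mem _
    have hW : IsPGroup 2 ↥(A ⊔ Cfsg.pCore 2 X) := IsPGroup.to_sup_of_normal_right hA2 (pCore_isPGroup 2)
    have hc := ti_conj_comm hW (A ⊔ Cfsg.pCore 2 X : Subgroup X) (one_mem _) (fun w hw g hg => Subgroup.mul_mem _ hw hg)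
      (fun g hg => by
        rintro _ ⟨x, hx, rfl⟩
        exact Subgroup.mul_mem _ (Subgroup.mul_mem _ hg (Subgroup.mem_sup_left hx)) (Subgroup.inv_mem _ hg))
      hti hcomm hd
    -- commutators [a,q] commute with a
    have hca : ∀ q ∈ Cfsg.pCore 2 X, (a * q * a⁻¹ * q⁻¹) * a = a * (a * q * a⁻¹ * q⁻¹) := by
      intro q hq
      have h1 := hc q (Subgroup.mem_sup_right hq) a⁻¹ (A.inv_mem ha) a ha
      calc (a * q * a⁻¹ * q⁻¹) * a = a * ((q * a⁻¹ * q⁻¹) * a) := by group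
        _ = a * (a * (q * a⁻¹ * q⁻¹)) := by rw [h1]
        _ = a * (a * q * a⁻¹ * q⁻¹) := by group
    have hQn : (Cfsg.pCore 2 X).Normal := inferInstance
    haveI hPn : ((frattini ↥(Cfsg.pCore 2 X)).map (Cfsg.pCore 2 X).subtype).Normal :=
      CfsgLib.Components.map_subtype_normal hQn _
    let π := QuotientGroup.mk' ((frattini ↥(Cfsg.pCore 2 X)).map (Cfsg.pCore 2 X).subtype)
    let W := (Subgroup.centralizer ((Cfsg.pCore 2 X).map π : Set (X ⧸ (frattini ↥(Cfsg.pCore 2 X)).map (Cfsg.pCore 2 X).subtype))).comap π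
    have hWn : W.Normal := by
      haveI : ((Cfsg.pCore 2 X).map π).Normal := hQn.map π (QuotientGroup.mk'_surjective _)
      haveI : (Subgroup.centralizer ((Cfsg.pCore 2 X).map π : Set (X ⧸ (frattini ↥(Cfsg.pCore 2 X)).map (Cfsg.pCore 2 X).subtype))).Normal := Subgroup.normal_centralizer
      exact Subgroup.Normal.comap inferInstance π
    have hmemW : ∀ x, x ∈ W ↔ ∀ q ∈ Cfsg.pCore 2 X, x * q * x⁻¹ * q⁻¹ ∈ (frattini ↥(Cfsg.pCore 2 X)).map (Cfsg.pCore 2 X).subtype := by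
      intro x
      simp only [W, Subgroup.mem_comap, Subgroup.mem_centralizer_iff, SetLike.mem_coe]
      constructor
      · intro h q hq
        rw [← QuotientGroup.eq_one_iff]
        show π (x * q * x⁻¹ * q⁻¹) = 1
        rw [map_mul, map_mul, map_mul, map_inv, map_inv, ← h _ ⟨q, hq, rfl⟩]
        group
      · rintro h _ ⟨q, hq, rfl⟩
        have h1 : π (x * q * x⁻¹ * q⁻¹) = 1 := (QuotientGroup.eq_one_iff _).2 (h q hq)
        rw [map_mul, map_mul, map_mul, map_inv, map_inv, mul_inv_eq_one, mul_inv_eq_iff_eq_mul] at h1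
        exact h1.symm
    have ha2 : a ^ 2 ∈ W := by
      rw [hmemW]
      intro q hq
      have hcQ : a * q * a⁻¹ * q⁻¹ ∈ Cfsg.pCore 2 X := Subgroup.mul_mem _ (hQn.conj_mem q hq a) (Subgroup.inv_mem _ hq)
      have e : a ^ 2 * q * (a ^ 2)⁻¹ * q⁻¹ = (a * q * a⁻¹ * q⁻¹) ^ 2 := by
        rw [pow_two, pow_two]
        calc a * a * q * (a * a)⁻¹ * q⁻¹ = (a * (a * q * a⁻¹ * q⁻¹)) * (q * a⁻¹ * q⁻¹) := by group
          _ = ((a * q * a⁻¹ * q⁻¹) * a) * (q * a⁻¹ * q⁻¹) := by rw [hca q hq]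
          _ = (a * q * a⁻¹ * q⁻¹) * (a * q * a⁻¹ * q⁻¹) := by group
      rw [e]
      exact ⟨⟨_, hcQ⟩ ^ 2, CfsgLib.CoprimeAction.pow_mem_frattini (pCore_isPGroup 2) _, rfl⟩
    refine le_pCore hWn ?_ ha2
    intro ⟨x, hx⟩
    obtain ⟨k, m, hm, hn⟩ := Nat.exists_eq_pow_mul_and_not_dvd (orderOf_pos x).ne' 2 (by norm_num)
    refine ⟨k, Subtype.ext ?_⟩
    show x ^ 2 ^ k = 1
    have hord : orderOf (x ^ 2 ^ k) = m := by
      rw [orderOf_pow_of_dvd (by positivity) (hn ▸ Dvd.intro m rfl), hn, Nat.mul_div_cancel_left _ (by positivity)]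
    have hyW : x ^ 2 ^ k ∈ W := pow_mem hx _
    generalize x ^ 2 ^ k = y at hord hyW ⊢
    have hcz : (Nat.card ↥(Subgroup.zpowers y)).Coprime 2 := by
      rw [Nat.card_zpowers, hord]
      exact (Nat.prime_two.coprime_iff_not_dvd.2 hm).symm
    have hcen : Subgroup.zpowers y ≤ Subgroup.centralizer (Cfsg.pCore 2 X : Set X) := by
      refine CfsgLib.CoprimeAction.le_centralizer_of_frattini ?_ fun a ha q hq =>
        (hmemW a).1 ((Subgroup.zpowers_le.2 hyW) ha) q hq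
      obtain ⟨n, hn⟩ := ((pCore_isPGroup (G := X) 2).to_subgroup (frattini _)).exists_card_eq
      rw [hn]
      exact hcz.pow_right n
    have hyQ : y ∈ Cfsg.pCore 2 X := by
      rw [← hX]
      refine centralizer_generalizedFittingSubgroup_le ?_
      rw [hX]
      exact hcen (Subgroup.mem_zpowers y)
    obtain ⟨j, hj⟩ := pCore_isPGroup (G := X) 2 ⟨y, hyQ⟩
    have h1 : orderOf y ∣ 2 ^ j := orderOf_dvd_of_pow_eq_one (congrArg Subtype.val hj)
    have h2 : (orderOf y).Coprime (2 ^ j) := by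
      rw [hord]; exact (Nat.prime_two.coprime_iff_not_dvd.2 hm).symm.pow_right j
    exact orderOf_eq_one_iff.1 (h2.eq_one_of_dvd h1)
  have hBA : Subgroup.closure ((fun a : X => a ^ 2) '' (A : Set X)) ≤ A :=
    (Subgroup.closure_le _).2 (by rintro _ ⟨a, ha, rfl⟩; exact A.pow_mem ha 2)
  have hBQ : Subgroup.closure ((fun a : X => a ^ 2) '' (A : Set X)) ≤ Cfsg.pCore 2 X :=
    (Subgroup.closure_le _).2 (by rintro _ ⟨a, ha, rfl⟩; exact hsq a ha)
  refine ⟨hBQ, fun hne => ?_⟩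
  set B := Subgroup.closure ((fun a : X => a ^ 2) '' (A : Set X)) with hB
  have hBc : ∀ a ∈ B, ∀ b ∈ B, a * b = b * a := fun a ha b hb => hcomm a (hBA ha) b (hBA hb)
  have hd : ∃ d ∈ B, d ^ 2 ≠ 1 := by
    by_contra h
    push Not at h
    exact hne ⟨⟨⟨fun x y => Subtype.ext (hBc x x.2 y y.2)⟩⟩, h⟩
  have htiB : ∀ h : X, B.map (MulAut.conj h).toMonoidHom = B ∨ B.map (MulAut.conj h).toMonoidHom ⊓ B = ⊥ := by
    intro h
    rcases hti h with h1 | h1
    · left
      rw [hB, MonoidHom.map_closure]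
      congr 1
      ext x
      constructor
      · rintro ⟨_, ⟨a, ha, rfl⟩, rfl⟩
        exact ⟨_, h1 ▸ ⟨a, ha, rfl⟩, (map_pow (MulAut.conj h).toMonoidHom a 2).symm⟩
      · rintro ⟨a, ha, rfl⟩
        rw [SetLike.mem_coe, ← h1] at ha
        obtain ⟨b, hb, rfl⟩ := ha
        exact ⟨_, ⟨b, hb, rfl⟩, map_pow (MulAut.conj h).toMonoidHom b 2⟩
    · right
      rw [eq_bot_iff, ← h1]
      exact inf_le_inf (Subgroup.map_mono hBA) hBA
  have hle : ∀ g ∈ (Set.univ : Set X), B.map (MulAut.conj g).toMonoidHom ≤ Cfsg.pCore 2 X := by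
    rintro g - _ ⟨x, hx, rfl⟩
    exact (inferInstance : (Cfsg.pCore 2 X).Normal).conj_mem x (hBQ hx) g
  have hc := ti_conj_comm (pCore_isPGroup 2) Set.univ trivial (fun _ _ _ _ => trivial) hle htiB hBc hd
  refine Subgroup.isMulCommutative_closure fun x hx y hy => ?_
  rw [Group.mem_conjugatesOfSet_iff] at hx hy
  obtain ⟨a, ha, hax⟩ := hx
  obtain ⟨b, hb, hby⟩ := hy
  obtain ⟨g, rfl⟩ := isConj_iff.1 hax
  obtain ⟨k, rfl⟩ := isConj_iff.1 hby
  have h := hc (k⁻¹ * g) trivial a (Subgroup.subset_closure ha) b (Subgroup.subset_closure hb)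
  calc g * a * g⁻¹ * (k * b * k⁻¹) = k * ((k⁻¹ * g * a * (k⁻¹ * g)⁻¹) * b) * k⁻¹ := by group
    _ = k * (b * (k⁻¹ * g * a * (k⁻¹ * g)⁻¹)) * k⁻¹ := by rw [h]
    _ = k * b * k⁻¹ * (g * a * g⁻¹) := by group

end Cfsg.Agent.S1783
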