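import Cfsg.Statements.S1784
import Cfsg.Agent.PGroup.Extraspecial
import Cfsg.Agent.Components.Basic

set_option autoImplicit false
open Cfsg

namespace Cfsg.Agent.S1784

open scoped commutatorElement

/-- For an automorphism of order two of an extraspecial 2-group, `[φ, E]` is the centre of
`{q | [φ, q] ∈ Z(E)}`. -/
theorem commutator_closure_eq {E : Type*} [Group E] [Finite E] (h : Cfsg.IsExtraspecial 2 E) (φ : E ≃* E)
    (hφ : ∀ x, φ (φ x) = x) (hne : ∃ x, φ x ≠ x) (K : Subgroup E)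
    (hK : ∀ q, q ∈ K ↔ φ q * q⁻¹ ∈ Subgroup.center E) :
    Subgroup.closure (Set.range fun q => φ q * q⁻¹) = K ⊓ Subgroup.centralizer (K : Set E) := by
  classical
  haveI : Fact (Nat.Prime 2) := ⟨Nat.prime_two⟩
  set Z := Subgroup.center E with hZ
  set I := Subgroup.closure (Set.range fun q => φ q * q⁻¹) with hI
  have hcI : ∀ q, φ q * q⁻¹ ∈ I := fun q => Subgroup.subset_closure ⟨q, rfl⟩
  have hcom : ∀ a b : E, ⁅a, b⁆ ∈ Z := fun a b => CfsgLib.Extraspecial.commutator_mem_center h a b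
  have hφfix : ∀ w ∈ Z, φ w = w := by
    intro w hw
    by_cases h1 : w = 1
    · rw [h1, map_one]
    have hcard : (Z : Set E).ncard = 2 := by rw [← Nat.card_coe_set_eq]; exact h.2
    have hφw : φ w ∈ Z := Subgroup.mem_center_iff.2 fun y => by
      obtain ⟨y, rfl⟩ := φ.surjective y
      rw [← map_mul, ← map_mul, Subgroup.mem_center_iff.1 hw y]
    by_contra hne'
    have h3 : ({1, w, φ w} : Finset E).card = 3 := by
      rw [Finset.card_insert_of_notMem, Finset.card_insert_of_notMem, Finset.card_singleton]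
      · simp [Ne.symm hne']
      · have h1' : φ w ≠ 1 := fun e => h1 (φ.injective (e.trans (map_one φ).symm))
        simp [Ne.symm h1, Ne.symm h1']
    have hsub : (({1, w, φ w} : Finset E) : Set E) ⊆ (Z : Set E) := by
      intro x hx
      simp only [Finset.coe_insert, Finset.coe_singleton, Set.mem_insert_iff, Set.mem_singleton_iff] at hx
      rcases hx with rfl | rfl | rfl
      · exact Z.one_mem
      · exact hw
      · exact hφw
    have := Set.ncard_le_ncard hsub
    rw [Set.ncard_coe_finset, h3, hcard] at this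
    omega
  -- `ψ_r(x) = [x, r]` is multiplicative
  have hmul : ∀ a b r : E, ⁅a * b, r⁆ = ⁅a, r⁆ * ⁅b, r⁆ := by
    intro a b r
    have hz := Subgroup.mem_center_iff.1 (hcom b r) a
    calc ⁅a * b, r⁆ = (a * ⁅b, r⁆) * a⁻¹ * ⁅a, r⁆ := by simp only [commutatorElement_def]; group
      _ = ⁅b, r⁆ * ⁅a, r⁆ := by rw [hz]; group
      _ = ⁅a, r⁆ * ⁅b, r⁆ := (Subgroup.mem_center_iff.1 (hcom b r) _).symm
  have hinv : ∀ q, φ (φ q * q⁻¹) = (φ q * q⁻¹)⁻¹ := by
    intro q; rw [map_mul, map_inv, hφ, mul_inv_rev, inv_inv]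
  have hconjI : ∀ r q, r * (φ q * q⁻¹) * r⁻¹ ∈ I := by
    intro r q
    have : r * (φ q * q⁻¹) * r⁻¹ = (φ r * r⁻¹)⁻¹ * (φ (r * q) * (r * q)⁻¹) := by rw [map_mul]; group
    rw [this]; exact mul_mem (inv_mem (hcI r)) (hcI _)
  have hIC : I ≤ Subgroup.centralizer (K : Set E) := by
    rw [hI, Subgroup.closure_le]
    rintro _ ⟨q, rfl⟩
    show φ q * q⁻¹ ∈ Subgroup.centralizer (K : Set E)
    rw [Subgroup.mem_centralizer_iff]
    intro r hr
    have hr' : φ r * r⁻¹ ∈ Z := (hK r).1 hr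
    have e1 : ⁅φ q, r⁆ = ⁅q, r⁆ := by
      calc ⁅φ q, r⁆ = ⁅φ q, φ r⁆ := by
            have hw := Subgroup.mem_center_iff.1 hr'
            have : φ r = r * (φ r * r⁻¹) := by rw [hw r]; group
            rw [this]
            simp only [commutatorElement_def]
            rw [mul_inv_rev]
            have h1 := hw (φ q)⁻¹
            calc φ q * r * (φ q)⁻¹ * r⁻¹ = φ q * r * ((φ r * r⁻¹) * (φ q)⁻¹ * (φ r * r⁻¹)⁻¹) * r⁻¹ := by
                  rw [← h1]; group
              _ = _ := by group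
        _ = φ ⁅q, r⁆ := by simp only [commutatorElement_def, map_mul, map_inv]
        _ = ⁅q, r⁆ := hφfix _ (hcom q r)
    have e2 : ⁅φ q * q⁻¹, r⁆ = 1 := by
      have h0 := hmul (φ q * q⁻¹) q r
      rw [inv_mul_cancel_right, e1] at h0
      exact (mul_eq_right.1 h0.symm)
    exact (commutatorElement_eq_one_iff_mul_comm.1 e2).symm
  have hZI : Z ≤ I := by
    obtain ⟨q, hq⟩ := hne
    have hw1 : φ q * q⁻¹ ≠ 1 := fun e => hq (mul_inv_eq_one.1 e)
    obtain ⟨u, huI, huZ, hu1⟩ : ∃ u ∈ I, u ∈ Z ∧ u ≠ 1 := by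
      by_cases hwZ : φ q * q⁻¹ ∈ Z
      · exact ⟨_, hcI q, hwZ, hw1⟩
      · obtain ⟨r, hr⟩ : ∃ r, r * (φ q * q⁻¹) ≠ (φ q * q⁻¹) * r := by
          by_contra hcon
          push Not at hcon
          exact hwZ (Subgroup.mem_center_iff.2 hcon)
        refine ⟨⁅r, φ q * q⁻¹⁆, ?_, hcom _ _, fun e => hr (commutatorElement_eq_one_iff_mul_comm.1 e)⟩
        rw [commutatorElement_def]
        exact mul_mem (hconjI r q) (inv_mem (hcI q))
    have hle : Subgroup.zpowers u = Z := by
      refine Subgroup.eq_of_le_of_card_ge (Subgroup.zpowers_le.2 huZ) ?_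
      rw [h.2, Nat.card_zpowers]
      have h0 : orderOf u ≠ 0 := (orderOf_pos u).ne'
      have h1' : orderOf u ≠ 1 := fun e => hu1 (orderOf_eq_one_iff.1 e)
      omega
    rw [← hle]; exact Subgroup.zpowers_le.2 huI
  have hIK : I ≤ K := by
    rw [hI, Subgroup.closure_le]
    rintro _ ⟨q, rfl⟩
    show φ q * q⁻¹ ∈ K
    rw [hK, hinv, ← mul_inv_rev, ← pow_two]
    exact inv_mem (CfsgLib.Extraspecial.pow_mem_center h _)
  have hCI : Subgroup.centralizer (I : Set E) = K := by
    refine le_antisymm (fun r hr => ?_) (Subgroup.le_centralizer_iff.1 hIC)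
    rw [hK, Subgroup.mem_center_iff]
    intro y
    obtain ⟨q, rfl⟩ := φ.surjective y
    have h1 : ⁅φ q * q⁻¹, r⁆ = 1 :=
      commutatorElement_eq_one_iff_mul_comm.2 (Subgroup.mem_centralizer_iff.1 hr _ (hcI q))
    have h2 : ⁅φ q, r⁆ = ⁅φ q, φ r⁆ := by
      calc ⁅φ q, r⁆ = ⁅φ q * q⁻¹, r⁆ * ⁅q, r⁆ := by rw [← hmul, inv_mul_cancel_right]
        _ = φ ⁅q, r⁆ := by rw [h1, one_mul, hφfix _ (hcom q r)]
        _ = ⁅φ q, φ r⁆ := by simp only [commutatorElement_def, map_mul, map_inv]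
    have h3 : Commute (φ q) (r⁻¹ * φ r) := by
      have e : ⁅φ q, r * (r⁻¹ * φ r)⁆ = ⁅φ q, r⁆ * (r * ⁅φ q, r⁻¹ * φ r⁆ * r⁻¹) := by
        simp only [commutatorElement_def]; group
      rw [mul_inv_cancel_left, ← h2] at e
      have h4 : r * ⁅φ q, r⁻¹ * φ r⁆ * r⁻¹ = 1 := mul_eq_left.1 e.symm
      exact commutatorElement_eq_one_iff_mul_comm.1 (conj_eq_one_iff.1 h4)
    have h5 : φ r * r⁻¹ = r * (r⁻¹ * φ r) * r⁻¹ := by group
    -- `r⁻¹ φ(r)` commutes with everything, so it is central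
    have h7 : r⁻¹ * φ r ∈ Z := Subgroup.mem_center_iff.2 fun y => by
      obtain ⟨q', rfl⟩ := φ.surjective y
      have h1' : ⁅φ q' * q'⁻¹, r⁆ = 1 :=
        commutatorElement_eq_one_iff_mul_comm.2 (Subgroup.mem_centralizer_iff.1 hr _ (hcI q'))
      have h2' : ⁅φ q', r⁆ = ⁅φ q', φ r⁆ := by
        calc ⁅φ q', r⁆ = ⁅φ q' * q'⁻¹, r⁆ * ⁅q', r⁆ := by rw [← hmul, inv_mul_cancel_right]
          _ = φ ⁅q', r⁆ := by rw [h1', one_mul, hφfix _ (hcom q' r)]
          _ = ⁅φ q', φ r⁆ := by simp only [commutatorElement_def, map_mul, map_inv]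
      have e : ⁅φ q', r * (r⁻¹ * φ r)⁆ = ⁅φ q', r⁆ * (r * ⁅φ q', r⁻¹ * φ r⁆ * r⁻¹) := by
        simp only [commutatorElement_def]; group
      rw [mul_inv_cancel_left, ← h2'] at e
      exact commutatorElement_eq_one_iff_mul_comm.1 (conj_eq_one_iff.1 (mul_eq_left.1 e.symm))
    rw [h5, Subgroup.mem_center_iff.1 h7 r, mul_inv_cancel_right]
    exact h3.eq
  have hZK : Z ≤ K := fun w hw => by rw [hK, hφfix w hw, mul_inv_cancel]; exact Z.one_mem
  have heq : Subgroup.centralizer (K : Set E) = I := by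
    refine (Subgroup.eq_of_le_of_card_ge hIC ?_).symm
    have h1 := CfsgLib.Extraspecial.card_centralizer_mul h hZI
    have h2 := CfsgLib.Extraspecial.card_centralizer_mul h hZK
    rw [hCI, ← h2, mul_comm] at h1
    exact (Nat.eq_of_mul_eq_mul_right Nat.card_pos h1).ge
  rw [heq]
  exact (inf_eq_right.2 hIK).symm

/-- Let G be a finite group and let z be an involution of G such that Q, the generalized Fitting subgroup of the centralizer C of z, is a 2-group of symplectic type (every characteristic abelian subgroup of Q is cyclic); suppose Q is extraspecial, and view Q inside G. Let α be an involution of C that is not in Q, and let Q₀ be the subgroup of those q ∈ Q whose commutator with α lies in the subgroup generated by z. Then (a) the subgroup generated by the commutators α q α⁻¹ q⁻¹, q ∈ Q, equals the centre of Q₀; and (b) if Q₀ is not contained in the product of the centralizer of α in Q with the subgroup generated by z, then some element of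 Q conjugates α to α z. -/
theorem result {G : Type*} [Group G] [Finite G] (z : G) (hz : orderOf z = 2) (hQ : Cfsg.IsOfSymplecticType ↥(Cfsg.generalizedFittingSubgroup ↥(Subgroup.centralizer ({z} : Set G)))) (hE : Cfsg.IsExtraspecial 2 ↥(Cfsg.generalizedFittingSubgroup ↥(Subgroup.centralizer ({z} : Set G))))
    (α : G) (hα : orderOf α = 2) (hαC : α ∈ Subgroup.centralizer ({z} : Set G)) (hαQ : α ∉ (Cfsg.generalizedFittingSubgroup ↥(Subgroup.centralizer ({z} : Set G))).map (Subgroup.centralizer ({z} : Set G)).subtype)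
    (Q₀ : Subgroup G) (hQ₀ : ∀ q : G, q ∈ Q₀ ↔ (q ∈ (Cfsg.generalizedFittingSubgroup ↥(Subgroup.centralizer ({z} : Set G))).map (Subgroup.centralizer ({z} : Set G)).subtype ∧ α * q * α⁻¹ * q⁻¹ ∈ Subgroup.zpowers z)) :
    Subgroup.closure ((fun q : G => α * q * α⁻¹ * q⁻¹) '' ((Cfsg.generalizedFittingSubgroup ↥(Subgroup.centralizer ({z} : Set G))).map (Subgroup.centralizer ({z} : Set G)).subtype : Set G)) = (Subgroup.center ↥Q₀).map Q₀.subtype ∧
      (¬ Q₀ ≤ ((Cfsg.generalizedFittingSubgroup ↥(Subgroup.centralizer ({z} : Set G))).map (Subgroup.centralizer ({z} : Set G)).subtype ⊓ Subgroup.centralizer ({α} : Set G)) ⊔ Subgroup.zpowers z →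
        ∃ q ∈ (Cfsg.generalizedFittingSubgroup ↥(Subgroup.centralizer ({z} : Set G))).map (Subgroup.centralizer ({z} : Set G)).subtype, q * α * q⁻¹ = α * z) := by
  classical
  haveI : Fact (Nat.Prime 2) := ⟨Nat.prime_two⟩
  set C := Subgroup.centralizer ({z} : Set G) with hC
  set F := Cfsg.generalizedFittingSubgroup ↥C with hF
  haveI hFn : F.Normal := CfsgLib.Components.generalizedFittingSubgroup_normal
  set Q := F.map C.subtype with hQdef
  let ι : ↥F →* G := C.subtype.comp F.subtype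
  have hιinj : Function.Injective ι := C.subtype_injective.comp F.subtype_injective
  have hQmem : ∀ q, q ∈ Q ↔ ∃ x : F, ι x = q := by
    intro q
    constructor
    · rintro ⟨w, hw, rfl⟩; exact ⟨⟨w, hw⟩, rfl⟩
    · rintro ⟨x, rfl⟩; exact ⟨_, x.2, rfl⟩
  set zC : ↥C := ⟨z, Subgroup.mem_centralizer_singleton_iff.2 rfl⟩ with hzC
  have hzF : zC ∈ F := by
    refine CfsgLib.Components.centralizer_generalizedFittingSubgroup_le (Subgroup.mem_centralizer_iff.2 fun y _ => ?_)
    exact Subtype.ext (Subgroup.mem_centralizer_singleton_iff.1 y.2)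
  set zF : ↥F := ⟨zC, hzF⟩ with hzFdef
  have hzcen : zF ∈ Subgroup.center ↥F := Subgroup.mem_center_iff.2 fun y =>
    hιinj (Subgroup.mem_centralizer_singleton_iff.1 (y : ↥C).2)
  have hzo : orderOf zF = 2 := by rw [← hz]; exact (orderOf_injective ι hιinj zF).symm
  have hcen : Subgroup.zpowers zF = Subgroup.center ↥F :=
    Subgroup.eq_of_le_of_card_ge (Subgroup.zpowers_le.2 hzcen) (by rw [hE.2, Nat.card_zpowers, hzo])
  have hιz : ι zF = z := rfl
  have hmemZ : ∀ x : F, ι x ∈ Subgroup.zpowers z ↔ x ∈ Subgroup.center ↥F := by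
    intro x
    rw [← hcen, ← hιz, ← MonoidHom.map_zpowers, Subgroup.mem_map_iff_mem hιinj]
  have hα2 : α * α = 1 := by rw [← pow_two, ← hα]; exact pow_orderOf_eq_one α
  set aC : ↥C := ⟨α, hαC⟩ with haC
  let φ : ↥F ≃* ↥F := MulAut.conjNormal (H := F) aC
  have hφι : ∀ x : F, ι (φ x) = α * ι x * α⁻¹ := fun x => rfl
  have hφ : ∀ x, φ (φ x) = x := by
    intro x
    apply hιinj
    rw [hφι, hφι, inv_eq_of_mul_eq_one_right hα2]
    calc α * (α * ι x * α) * α = (α * α) * ι x * (α * α) := by group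
      _ = ι x := by rw [hα2, one_mul, mul_one]
  have hne : ∃ x, φ x ≠ x := by
    by_contra hcon
    push Not at hcon
    apply hαQ
    refine ⟨aC, CfsgLib.Components.centralizer_generalizedFittingSubgroup_le (Subgroup.mem_centralizer_iff.2 fun y hy => ?_), rfl⟩
    have h1 := congrArg ι (hcon ⟨y, hy⟩)
    rw [hφι] at h1
    exact Subtype.ext (mul_inv_eq_iff_eq_mul.1 h1).symm
  set K : Subgroup ↥F := Q₀.comap ι with hKdef
  have hK : ∀ q, q ∈ K ↔ φ q * q⁻¹ ∈ Subgroup.center ↥F := by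
    intro q
    rw [hKdef, Subgroup.mem_comap, hQ₀, ← hmemZ, map_mul, map_inv, hφι]
    exact ⟨fun h => h.2, fun h => ⟨(hQmem _).2 ⟨q, rfl⟩, h⟩⟩
  have hmain := commutator_closure_eq hE φ hφ hne K hK
  have hmapK : K.map ι = Q₀ := by
    refine le_antisymm (Subgroup.map_comap_le _ _) fun q hq => ?_
    obtain ⟨x, rfl⟩ := (hQmem q).1 ((hQ₀ q).1 hq).1
    exact ⟨x, hq, rfl⟩
  refine ⟨?_, ?_⟩
  · have himg : Subgroup.closure ((fun q : G => α * q * α⁻¹ * q⁻¹) '' (Q : Set G)) =
        (Subgroup.closure (Set.range fun q => φ q * q⁻¹)).map ι := by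
      rw [MonoidHom.map_closure]
      congr 1
      ext y
      constructor
      · rintro ⟨q, hq, rfl⟩
        obtain ⟨x, rfl⟩ := (hQmem q).1 hq
        exact ⟨_, ⟨x, rfl⟩, by rw [map_mul, map_inv, hφι]⟩
      · rintro ⟨_, ⟨x, rfl⟩, rfl⟩
        exact ⟨ι x, (hQmem _).2 ⟨x, rfl⟩, by rw [map_mul, map_inv, hφι]⟩
    rw [himg, hmain]
    ext y
    constructor
    · rintro ⟨x, ⟨hxK, hxC⟩, rfl⟩
      refine ⟨⟨ι x, hxK⟩, Subgroup.mem_center_iff.2 fun w => ?_, rfl⟩
      obtain ⟨v, hv, hvw⟩ := (hmapK.ge w.2 : (w : G) ∈ K.map ι)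
      apply Subtype.ext
      show (w : G) * ι x = ι x * (w : G)
      rw [← hvw, ← map_mul, ← map_mul, Subgroup.mem_centralizer_iff.1 hxC v hv]
    · rintro ⟨w, hw, rfl⟩
      obtain ⟨x, hx, hxw⟩ := (hmapK.ge w.2 : (w : G) ∈ K.map ι)
      refine ⟨x, ⟨hx, ?_⟩, hxw⟩
      show x ∈ Subgroup.centralizer (K : Set ↥F)
      rw [Subgroup.mem_centralizer_iff]
      intro v hv
      apply hιinj
      rw [map_mul, map_mul]
      have h := congrArg Subtype.val (Subgroup.mem_center_iff.1 hw ⟨ι v, hv⟩)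
      rw [hxw]
      exact h
  · intro hnot
    obtain ⟨q, hq, hqnot⟩ := SetLike.not_le_iff_exists.1 hnot
    obtain ⟨hqQ, hqc⟩ := (hQ₀ q).1 hq
    have hzpow : α * q * α⁻¹ * q⁻¹ = 1 ∨ α * q * α⁻¹ * q⁻¹ = z := by
      obtain ⟨k, hk⟩ := hqc
      rw [← hk]
      rcases Int.even_or_odd k with ⟨l, rfl⟩ | ⟨l, rfl⟩
      · left; show z ^ (l + l) = 1
        rw [← two_mul, zpow_mul, zpow_two, ← pow_two, ← hz, pow_orderOf_eq_one, one_zpow]
      · right; show z ^ (2 * l + 1) = z
        rw [zpow_add, zpow_mul, zpow_two, ← pow_two, ← hz, pow_orderOf_eq_one, one_zpow, one_mul, zpow_one]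
    rcases hzpow with h | h
    · exfalso
      exact hqnot (Subgroup.mem_sup_left ⟨hqQ, Subgroup.mem_centralizer_singleton_iff.2
        (mul_inv_eq_iff_eq_mul.1 (mul_inv_eq_one.1 h)).symm⟩)
    · refine ⟨q, hqQ, ?_⟩
      obtain ⟨x, rfl⟩ := (hQmem q).1 hqQ
      set q := ι x
      have hqz : z * q = q * z := (Subgroup.mem_centralizer_singleton_iff.1 (x : ↥C).2).symm
      have haz : α * z = z * α := Subgroup.mem_centralizer_singleton_iff.1 hαC
      have hz2 : z * z = 1 := by rw [← pow_two, ← hz, pow_orderOf_eq_one]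
      have h1 : α * q = z * q * α := by
        calc α * q = (α * q * α⁻¹ * q⁻¹) * q * α := by group
          _ = z * q * α := by rw [h]
      have h2 : q * α = z * (α * q) := by rw [h1, ← mul_assoc, ← mul_assoc, hz2, one_mul]
      calc q * α * q⁻¹ = z * α := by rw [h2]; group
        _ = α * z := haz.symm

end Cfsg.Agent.S1784
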