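import Cfsg.Statements.S1785
import Cfsg.Agent.CoprimeAction.Hyperplane
import Cfsg.Agent.Components.Basic
import Mathlib.GroupTheory.Sylow

set_option autoImplicit false
open Cfsg

namespace Cfsg.Agent.S1785

open scoped commutatorElement

section
variable {X : Type*} [Group X]

theorem el_comm {H : Subgroup X} (h : Cfsg.IsElementaryAbelian 2 H) {a b : X} (ha : a ∈ H) (hb : b ∈ H) :
    a * b = b * a :=
  congrArg (Subtype.val : ↥H → X) (h.1.is_comm.comm ⟨a, ha⟩ ⟨b, hb⟩)

theorem el_mono {H K : Subgroup X} (hHK : H ≤ K) (h : Cfsg.IsElementaryAbelian 2 K) : Cfsg.IsElementaryAbelian 2 H :=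
  ⟨⟨⟨fun a b => Subtype.ext (el_comm h (hHK a.2) (hHK b.2))⟩⟩, fun a ha => h.2 a (hHK ha)⟩

theorem el_sup {H K : Subgroup X} (hH : Cfsg.IsElementaryAbelian 2 H) (hK : Cfsg.IsElementaryAbelian 2 K)
    (hc : ∀ a ∈ H, ∀ b ∈ K, a * b = b * a) : Cfsg.IsElementaryAbelian 2 (H ⊔ K) := by
  have hnorm : K ≤ Subgroup.normalizer (H : Set X) := fun b hb =>
    Subgroup.centralizer_le_normalizer _ (Subgroup.mem_centralizer_iff.2 fun a ha => hc a ha b hb)
  have hmem : ∀ x ∈ H ⊔ K, ∃ a ∈ H, ∃ b ∈ K, a * b = x := fun x hx => by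
    have hx' : x ∈ ((H ⊔ K : Subgroup X) : Set X) := hx
    rw [Subgroup.coe_mul_of_right_le_normalizer_left _ _ hnorm] at hx'
    exact Set.mem_mul.1 hx'
  refine ⟨⟨⟨fun x y => Subtype.ext ?_⟩⟩, fun x hx => ?_⟩
  · obtain ⟨a, ha, b, hb, hab⟩ := hmem x x.2
    obtain ⟨c, hcc, d, hd, hcd⟩ := hmem y y.2
    show (x : X) * y = y * x
    rw [← hab, ← hcd]
    have h1 : Commute a c := el_comm hH ha hcc
    have h2 : Commute a d := hc a ha d hd
    have h3 : Commute b c := (hc c hcc b hb).symm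
    have h4 : Commute b d := el_comm hK hb hd
    exact ((h1.mul_right h2).mul_left (h3.mul_right h4)).eq
  · obtain ⟨a, ha, b, hb, rfl⟩ := hmem x hx
    rw [(show Commute a b from hc a ha b hb).mul_pow, hH.2 a ha, hK.2 b hb, one_mul]

theorem el_zpowers {x : X} (hx : x ^ 2 = 1) : Cfsg.IsElementaryAbelian 2 (Subgroup.zpowers x) := by
  refine ⟨inferInstance, fun a ha => ?_⟩
  obtain ⟨n, rfl⟩ := Subgroup.mem_zpowers_iff.1 ha
  rw [← zpow_natCast, ← zpow_mul, mul_comm, zpow_mul, zpow_natCast, hx, one_zpow]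

theorem comm_zpowers {x y : X} (h : y * x = x * y) : ∀ z ∈ Subgroup.zpowers x, y * z = z * y := by
  intro z hz
  obtain ⟨n, rfl⟩ := Subgroup.mem_zpowers_iff.1 hz
  exact ((show Commute y x from h).zpow_right n).eq

/-- An involution acting on an elementary abelian 2-group centralises at least the square root. -/
theorem el_bound [Finite X] {F : Subgroup X} (hF : Cfsg.IsElementaryAbelian 2 F) {t : X} (ht : t ^ 2 = 1)
    (htF : ∀ f ∈ F, t * f * t ∈ F) :
    Nat.card ↥F ≤ Nat.card ↥(F ⊓ Subgroup.centralizer ({t} : Set X)) * Nat.card ↥(F ⊓ Subgroup.centralizer ({t} : Set X)) := by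
  rw [pow_two] at ht
  have hmem : ∀ f : ↥F, (f : X) * (t * f * t) ∈ F ⊓ Subgroup.centralizer ({t} : Set X) := by
    intro f
    refine ⟨F.mul_mem f.2 (htF f f.2), Subgroup.mem_centralizer_singleton_iff.2 ?_⟩
    have h := el_comm hF f.2 (htF f f.2)
    calc (f : X) * (t * f * t) * t = f * t * f * (t * t) := by group
      _ = t * t * f * t * f := by rw [ht, mul_one, one_mul]
      _ = t * ((t * f * t) * f) := by group
      _ = t * ((f : X) * (t * f * t)) := by rw [h]
  let φ : ↥F →* ↥(F ⊓ Subgroup.centralizer ({t} : Set X)) := MonoidHom.mk' (fun f => ⟨_, hmem f⟩) fun a b => Subtype.ext (by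
    show (a : X) * b * (t * ((a : X) * b) * t) = a * (t * a * t) * (b * (t * b * t))
    have h := el_comm hF b.2 (htF a a.2)
    calc (a : X) * b * (t * (a * b) * t) = a * b * (t * a * (t * t) * b * t) := by rw [ht]; group
      _ = a * ((b : X) * (t * a * t)) * (t * b * t) := by group
      _ = a * ((t * a * t) * b) * (t * b * t) := by rw [h]
      _ = _ := by group)
  have hker : φ.ker.map F.subtype ≤ F ⊓ Subgroup.centralizer ({t} : Set X) := by
    rintro _ ⟨f, hf, rfl⟩
    refine ⟨f.2, Subgroup.mem_centralizer_singleton_iff.2 ?_⟩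
    have h1 : (f : X) * (t * f * t) = 1 := congrArg Subtype.val (MonoidHom.mem_ker.1 hf)
    show (f : X) * t = t * f
    have h2 : (f : X) * f = 1 := by rw [← pow_two]; exact hF.2 f f.2
    have h3 : t * f * t = f := mul_left_cancel (h1.trans h2.symm)
    calc (f : X) * t = t * f * (t * t) := by rw [← mul_assoc, h3]
      _ = t * f := by rw [ht, mul_one]
  calc Nat.card ↥F = Nat.card ↥φ.ker * φ.ker.index := (Subgroup.card_mul_index _).symm
    _ ≤ _ := by
      rw [Subgroup.index_ker]
      refine Nat.mul_le_mul ?_ (Subgroup.card_le_card_group _)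
      rw [← Subgroup.card_map_of_injective F.subtype_injective]
      exact Subgroup.card_le_of_le hker

theorem el_eight [Finite X] {P H : Subgroup X} (hP : Cfsg.IsElementaryAbelian 2 P) (h8 : 8 ≤ Nat.card ↥P)
    (hHP : H ≤ P) {n : ℕ} (hn : n ≤ 3) (hH : Nat.card ↥H = 2 ^ n) :
    ∃ K, H ≤ K ∧ K ≤ P ∧ Cfsg.IsElementaryAbelian 2 K ∧ Nat.card ↥K = 8 := by
  have : Fact (Nat.Prime 2) := ⟨Nat.prime_two⟩
  have hPp : IsPGroup 2 ↥P := fun x => ⟨1, Subtype.ext (by rw [pow_one]; exact hP.2 x x.2)⟩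
  obtain ⟨k, hk⟩ := hPp.exists_card_eq
  have hk3 : 3 ≤ k := by
    by_contra h
    have : 2 ^ k ≤ 2 ^ 2 := Nat.pow_le_pow_right (by norm_num) (by omega)
    omega
  obtain ⟨K, hK, hle⟩ := Sylow.exists_subgroup_card_pow_prime_le 2 (n := n) (m := 3) (hk ▸ pow_dvd_pow 2 hk3)
    (H.subgroupOf P) (by rw [Nat.card_congr (Subgroup.subgroupOfEquivOfLe hHP).toEquiv, hH]) hn
  refine ⟨K.map P.subtype, fun x hx => ⟨⟨x, hHP hx⟩, hle hx, rfl⟩, Subgroup.map_subtype_le K,
    el_mono (Subgroup.map_subtype_le K) hP, ?_⟩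
  rw [Subgroup.card_map_of_injective P.subtype_injective, hK]
  norm_num

theorem el_card_two [Finite X] {H : Subgroup X} (h : Cfsg.IsElementaryAbelian 2 H) : ∃ n, Nat.card ↥H = 2 ^ n :=
  haveI : Fact (Nat.Prime 2) := ⟨Nat.prime_two⟩
  (show IsPGroup 2 ↥H from fun x => ⟨1, Subtype.ext (by rw [pow_one]; exact h.2 x x.2)⟩).exists_card_eq

theorem card_sup_zpowers [Finite X] {A H : Subgroup X} (hA : Cfsg.IsElementaryAbelian 2 A) (hH : H ≤ A) {a : X}
    (ha : a ∈ A) (haH : a ∉ H) : Nat.card ↥(H ⊔ Subgroup.zpowers a) = Nat.card ↥H * 2 := by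
  have : Fact (Nat.Prime 2) := ⟨Nat.prime_two⟩
  haveI := hA.1
  rw [← CfsgLib.CoprimeAction.relIndex_sup_zpowers hH ha (hA.2 a ha) haH, ← Subgroup.relIndex_bot_left,
    ← Subgroup.relIndex_bot_left]
  exact (Subgroup.relIndex_mul_relIndex _ _ _ bot_le le_sup_left).symm

end

/-- Let X be a finite 2-group having a normal elementary abelian subgroup of order at least 32. Then (a) for any two elementary abelian subgroups A, B of X of order 8 there is a chain A = A₁, A₂, …, Aₙ = B of elementary abelian subgroups of order 8 in which consecutive members commute elementwise; and (b) every elementary abelian subgroup of X of order 4 is contained in an elementary abelian subgroup of order 8. -/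
theorem result {X : Type*} [Group X] [Finite X]
    (hX : IsPGroup 2 X) (E : Subgroup X) [E.Normal] (hE : Cfsg.IsElementaryAbelian 2 E) (hE32 : 32 ≤ Nat.card ↥E) :
    (∀ A B : Subgroup X, Cfsg.IsElementaryAbelian 2 A → Nat.card ↥A = 8 → Cfsg.IsElementaryAbelian 2 B → Nat.card ↥B = 8 →
        Relation.ReflTransGen
          (fun C D : Subgroup X => Cfsg.IsElementaryAbelian 2 C ∧ Nat.card ↥C = 8 ∧ Cfsg.IsElementaryAbelian 2 D ∧ Nat.card ↥D = 8 ∧ ⁅C, D⁆ = ⊥)
          A B) ∧
      (∀ V : Subgroup X, Cfsg.IsElementaryAbelian 2 V → Nat.card ↥V = 4 →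
        ∃ A : Subgroup X, V ≤ A ∧ Cfsg.IsElementaryAbelian 2 A ∧ Nat.card ↥A = 8) := by
  have hconj : ∀ g : X, g ^ 2 = 1 → ∀ F : Subgroup X, (∀ f ∈ F, g * f * g⁻¹ ∈ F) → ∀ f ∈ F, g * f * g ∈ F := by
    intro g hg F h f hf
    rw [pow_two] at hg
    have := h f hf
    rwa [inv_eq_of_mul_eq_one_right hg] at this
  -- fixed points of one involution and of two commuting involutions on `E`
  have hC1 : ∀ g : X, g ^ 2 = 1 → 8 ≤ Nat.card ↥(E ⊓ Subgroup.centralizer ({g} : Set X)) := by
    intro g hg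
    have h := el_bound hE hg (hconj g hg E fun f hf => (inferInstance : E.Normal).conj_mem f hf g)
    obtain ⟨n, hn⟩ := el_card_two (el_mono (inf_le_left : E ⊓ Subgroup.centralizer ({g} : Set X) ≤ E) hE)
    rw [hn] at h ⊢
    by_contra hlt
    have : n ≤ 2 := by
      by_contra h2
      have : 2 ^ 3 ≤ 2 ^ n := Nat.pow_le_pow_right (by norm_num) (by omega)
      omega
    have : 2 ^ n ≤ 2 ^ 2 := Nat.pow_le_pow_right (by norm_num) this
    nlinarith
  have hC2 : ∀ g h : X, g ^ 2 = 1 → h ^ 2 = 1 → h * g = g * h →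
      4 ≤ Nat.card ↥((E ⊓ Subgroup.centralizer ({g} : Set X)) ⊓ Subgroup.centralizer ({h} : Set X)) := by
    intro g h hg hh hgh
    have he := el_mono (inf_le_left : E ⊓ Subgroup.centralizer ({g} : Set X) ≤ E) hE
    have hb := el_bound he hh (hconj h hh _ fun f hf => ⟨(inferInstance : E.Normal).conj_mem f hf.1 h,
      Subgroup.mul_mem _ (Subgroup.mul_mem _ (Subgroup.mem_centralizer_singleton_iff.2 hgh) hf.2)
        (Subgroup.inv_mem _ (Subgroup.mem_centralizer_singleton_iff.2 hgh))⟩)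
    obtain ⟨n, hn⟩ := el_card_two (el_mono
      (inf_le_left.trans inf_le_left : (E ⊓ Subgroup.centralizer ({g} : Set X)) ⊓ Subgroup.centralizer ({h} : Set X) ≤ E) hE)
    rw [hn] at hb ⊢
    have := hC1 g hg
    by_contra hlt
    have : n ≤ 1 := by
      by_contra h2
      have : 2 ^ 2 ≤ 2 ^ n := Nat.pow_le_pow_right (by norm_num) (by omega)
      omega
    have : 2 ^ n ≤ 2 ^ 1 := Nat.pow_le_pow_right (by norm_num) this
    nlinarith
  have hstep : ∀ C D : Subgroup X, Cfsg.IsElementaryAbelian 2 C → Nat.card ↥C = 8 → Cfsg.IsElementaryAbelian 2 D →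
      Nat.card ↥D = 8 → (∀ a ∈ C, ∀ b ∈ D, a * b = b * a) →
      Cfsg.IsElementaryAbelian 2 C ∧ Nat.card ↥C = 8 ∧ Cfsg.IsElementaryAbelian 2 D ∧ Nat.card ↥D = 8 ∧ ⁅C, D⁆ = ⊥ := by
    intro C D hC hC8 hD hD8 h
    refine ⟨hC, hC8, hD, hD8, eq_bot_iff.2 (Subgroup.commutator_le.2 fun a ha b hb => ?_)⟩
    rw [Subgroup.mem_bot, commutatorElement_eq_one_iff_mul_comm]
    exact h a ha b hb
  refine ⟨fun A B hA hA8 hB hB8 => ?_, ?_⟩
  swap
  · intro V hV hV4
    obtain ⟨t, ht, ht1⟩ := (Subgroup.bot_or_exists_ne_one V).resolve_left (fun h => by rw [h, Subgroup.card_bot] at hV4; omega)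
    obtain ⟨s, hs, hst⟩ := SetLike.not_le_iff_exists.1 (show ¬ V ≤ Subgroup.zpowers t from fun h => by
      have := Subgroup.card_le_of_le h
      rw [hV4, Nat.card_zpowers] at this
      have := orderOf_le_of_pow_eq_one (by norm_num) (hV.2 t ht)
      omega)
    have hgen : V = Subgroup.zpowers t ⊔ Subgroup.zpowers s := by
      refine (Subgroup.eq_of_le_of_card_ge (sup_le (Subgroup.zpowers_le.2 ht) (Subgroup.zpowers_le.2 hs)) ?_).symm
      rw [card_sup_zpowers hV (Subgroup.zpowers_le.2 ht) hs hst, hV4, Nat.card_zpowers,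
        orderOf_eq_prime (hV.2 t ht) ht1]
    set W := (E ⊓ Subgroup.centralizer ({t} : Set X)) ⊓ Subgroup.centralizer ({s} : Set X) with hW
    have hW4 : 4 ≤ Nat.card ↥W := hC2 t s (hV.2 t ht) (hV.2 s hs) (el_comm hV hs ht)
    have hcomm : ∀ a ∈ V, ∀ b ∈ W, a * b = b * a := by
      intro a ha b hb
      have hle : V ≤ Subgroup.centralizer ({b} : Set X) := by
        rw [hgen, sup_le_iff, Subgroup.zpowers_le, Subgroup.zpowers_le, Subgroup.mem_centralizer_singleton_iff,
          Subgroup.mem_centralizer_singleton_iff]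
        exact ⟨(Subgroup.mem_centralizer_singleton_iff.1 hb.1.2).symm, (Subgroup.mem_centralizer_singleton_iff.1 hb.2).symm⟩
      exact Subgroup.mem_centralizer_singleton_iff.1 (hle ha)
    have hP := el_sup hV (el_mono (inf_le_left.trans inf_le_left : W ≤ E) hE) hcomm
    by_cases h8 : 8 ≤ Nat.card ↥(V ⊔ W)
    · obtain ⟨K, h1, -, h3, h4⟩ := el_eight hP h8 le_sup_left (n := 2) (by norm_num) (by rw [hV4]; norm_num)
      exact ⟨K, h1, h3, h4⟩
    · exfalso
      apply h8
      obtain ⟨k, hk⟩ := el_card_two hP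
      have hlt : Nat.card ↥V < Nat.card ↥(V ⊔ W) := by
        refine lt_of_le_of_ne (Subgroup.card_le_of_le le_sup_left) fun h => ?_
        have heq := Subgroup.eq_of_le_of_card_ge le_sup_left h.ge
        have hWV : W = V := Subgroup.eq_of_le_of_card_ge (heq.symm ▸ le_sup_right) (by omega)
        have hVE : V ≤ E := hWV ▸ (inf_le_left.trans inf_le_left)
        have : E ≤ W := fun x hx =>
          ⟨⟨hx, Subgroup.mem_centralizer_singleton_iff.2 (el_comm hE hx (hVE ht))⟩,
            Subgroup.mem_centralizer_singleton_iff.2 (el_comm hE hx (hVE hs))⟩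
        have := Subgroup.card_le_of_le this
        rw [hWV] at this
        omega
      rw [hV4, hk] at hlt
      rw [hk]
      have : 3 ≤ k := by
        by_contra h
        have : 2 ^ k ≤ 2 ^ 2 := Nat.pow_le_pow_right (by norm_num) (by omega)
        omega
      calc 8 = 2 ^ 3 := by norm_num
        _ ≤ 2 ^ k := Nat.pow_le_pow_right (by norm_num) this
  · -- every subgroup of order 8 is joined to one inside `E`
    have key : ∀ A : Subgroup X, Cfsg.IsElementaryAbelian 2 A → Nat.card ↥A = 8 → ∃ A' : Subgroup X, A' ≤ E ∧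
        Cfsg.IsElementaryAbelian 2 A' ∧ Nat.card ↥A' = 8 ∧
        Relation.ReflTransGen (fun C D : Subgroup X => Cfsg.IsElementaryAbelian 2 C ∧ Nat.card ↥C = 8 ∧ Cfsg.IsElementaryAbelian 2 D ∧ Nat.card ↥D = 8 ∧ ⁅C, D⁆ = ⊥) A A' ∧
        Relation.ReflTransGen (fun C D : Subgroup X => Cfsg.IsElementaryAbelian 2 C ∧ Nat.card ↥C = 8 ∧ Cfsg.IsElementaryAbelian 2 D ∧ Nat.card ↥D = 8 ∧ ⁅C, D⁆ = ⊥) A' A := by
      intro A hA hA8
      by_cases hAE : A ≤ E
      · exact ⟨A, hAE, hA, hA8, Relation.ReflTransGen.refl, Relation.ReflTransGen.refl⟩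
      obtain ⟨t, ht, htE⟩ := SetLike.not_le_iff_exists.1 hAE
      have ht1 : t ≠ 1 := fun h => htE (h ▸ one_mem E)
      have htc : Nat.card ↥(Subgroup.zpowers t) = 2 := by rw [Nat.card_zpowers, orderOf_eq_prime (hA.2 t ht) ht1]
      -- `r` completing `t` and a second element
      obtain ⟨r, hr, hrt⟩ := SetLike.not_le_iff_exists.1 (show ¬ A ≤ Subgroup.zpowers t from fun h => by
        have := Subgroup.card_le_of_le h; omega)
      have h4 : Nat.card ↥(Subgroup.zpowers t ⊔ Subgroup.zpowers r) = 4 := by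
        rw [card_sup_zpowers hA (Subgroup.zpowers_le.2 ht) hr hrt, htc]
      obtain ⟨u, hu, hutr⟩ := SetLike.not_le_iff_exists.1 (show ¬ A ≤ Subgroup.zpowers t ⊔ Subgroup.zpowers r from fun h => by
        have := Subgroup.card_le_of_le h; omega)
      have hAgen : A = (Subgroup.zpowers t ⊔ Subgroup.zpowers r) ⊔ Subgroup.zpowers u := by
        have hle : Subgroup.zpowers t ⊔ Subgroup.zpowers r ≤ A := sup_le (Subgroup.zpowers_le.2 ht) (Subgroup.zpowers_le.2 hr)
        refine (Subgroup.eq_of_le_of_card_ge (sup_le hle (Subgroup.zpowers_le.2 hu)) ?_).symm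
        rw [card_sup_zpowers hA hle hu hutr, h4, hA8]
      -- a fixed point of `A`
      obtain ⟨e, he, he1⟩ : ∃ e ∈ ((E ⊓ Subgroup.centralizer ({t} : Set X)) ⊓ Subgroup.centralizer ({r} : Set X)) ⊓
          Subgroup.centralizer ({u} : Set X), e ≠ 1 := by
        refine (Subgroup.bot_or_exists_ne_one _).resolve_left fun hbot => ?_
        have he' := el_mono (inf_le_left.trans inf_le_left :
          (E ⊓ Subgroup.centralizer ({t} : Set X)) ⊓ Subgroup.centralizer ({r} : Set X) ≤ E) hE
        have hb := el_bound he' (hA.2 u hu) (hconj u (hA.2 u hu) _ fun f hf =>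
          ⟨⟨(inferInstance : E.Normal).conj_mem f hf.1.1 u,
            Subgroup.mul_mem _ (Subgroup.mul_mem _ (Subgroup.mem_centralizer_singleton_iff.2 (el_comm hA hu ht)) hf.1.2)
              (Subgroup.inv_mem _ (Subgroup.mem_centralizer_singleton_iff.2 (el_comm hA hu ht)))⟩,
            Subgroup.mul_mem _ (Subgroup.mul_mem _ (Subgroup.mem_centralizer_singleton_iff.2 (el_comm hA hu hr)) hf.2)
              (Subgroup.inv_mem _ (Subgroup.mem_centralizer_singleton_iff.2 (el_comm hA hu hr)))⟩)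
        rw [hbot, Subgroup.card_bot] at hb
        have := hC2 t r (hA.2 t ht) (hA.2 r hr) (el_comm hA hr ht)
        omega
      have heA : ∀ a ∈ A, a * e = e * a := by
        intro a ha
        have hle : A ≤ Subgroup.centralizer ({e} : Set X) := by
          rw [hAgen]
          simp only [sup_le_iff, Subgroup.zpowers_le, Subgroup.mem_centralizer_singleton_iff]
          exact ⟨⟨(Subgroup.mem_centralizer_singleton_iff.1 he.1.1.2).symm, (Subgroup.mem_centralizer_singleton_iff.1 he.1.2).symm⟩,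
            (Subgroup.mem_centralizer_singleton_iff.1 he.2).symm⟩
        exact Subgroup.mem_centralizer_singleton_iff.1 (hle ha)
      have heE : e ∈ E := he.1.1.1
      have hte : e ∉ Subgroup.zpowers t := fun h => by
        have het : Subgroup.zpowers e = Subgroup.zpowers t :=
          Subgroup.eq_of_le_of_card_ge (Subgroup.zpowers_le.2 h) (by
            rw [htc, Nat.card_zpowers, orderOf_eq_prime (hE.2 e heE) he1])
        exact htE (Subgroup.zpowers_le.2 heE (het ▸ Subgroup.mem_zpowers t))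
      have hte4 : Nat.card ↥(Subgroup.zpowers t ⊔ Subgroup.zpowers e) = 4 := by
        rw [card_sup_zpowers (el_sup hA (el_zpowers (hE.2 e heE)) fun a ha => comm_zpowers (heA a ha))
          ((Subgroup.zpowers_le.2 ht).trans le_sup_left) (Subgroup.mem_sup_right (Subgroup.mem_zpowers e)) hte, htc]
      obtain ⟨s, hs, hste⟩ := SetLike.not_le_iff_exists.1 (show ¬ A ≤ Subgroup.zpowers t ⊔ Subgroup.zpowers e from fun h => by
        have := Subgroup.card_le_of_le h; omega)
      -- second term: generated by `t`, `s`, `e`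
      set A2 := (Subgroup.zpowers t ⊔ Subgroup.zpowers e) ⊔ Subgroup.zpowers s with hA2def
      have hAe := el_sup hA (el_zpowers (hE.2 e heE)) fun a ha => comm_zpowers (heA a ha)
      have hle2 : Subgroup.zpowers t ⊔ Subgroup.zpowers e ≤ A ⊔ Subgroup.zpowers e :=
        sup_le_sup_right (Subgroup.zpowers_le.2 ht) _
      have hA2le : A2 ≤ A ⊔ Subgroup.zpowers e := sup_le hle2 ((Subgroup.zpowers_le.2 hs).trans le_sup_left)
      have hA2 := el_mono hA2le hAe
      have hA28 : Nat.card ↥A2 = 8 := by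
        rw [hA2def, card_sup_zpowers hAe hle2 (Subgroup.mem_sup_left hs) hste, hte4]
      -- third term
      set W := (E ⊓ Subgroup.centralizer ({t} : Set X)) ⊓ Subgroup.centralizer ({s} : Set X) with hW
      have hW4 : 4 ≤ Nat.card ↥W := hC2 t s (hA.2 t ht) (hA.2 s hs) (el_comm hA hs ht)
      have hWe := el_mono (inf_le_left.trans inf_le_left : W ≤ E) hE
      have htW : ∀ b ∈ W, t * b = b * t := fun b hb => (Subgroup.mem_centralizer_singleton_iff.1 hb.1.2).symm
      have hP := el_sup (el_zpowers (hA.2 t ht)) hWe fun a ha b hb => (comm_zpowers (htW b hb).symm a ha).symm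
      have hP8 : 8 ≤ Nat.card ↥(Subgroup.zpowers t ⊔ W) := by
        have h := card_sup_zpowers hP (le_sup_right : W ≤ Subgroup.zpowers t ⊔ W)
          (Subgroup.mem_sup_left (Subgroup.mem_zpowers t)) (fun h => htE h.1.1)
        rw [sup_comm] at h
        omega
      obtain ⟨A3, -, hA3le, hA3, hA38⟩ := el_eight hP hP8 (bot_le : (⊥ : Subgroup X) ≤ _) (n := 0) (by norm_num) (by simp)
      obtain ⟨A4, -, hA4le, hA4, hA48⟩ := el_eight (el_mono (inf_le_left : E ⊓ Subgroup.centralizer ({t} : Set X) ≤ E) hE)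
        (hC1 t (hA.2 t ht)) (bot_le : (⊥ : Subgroup X) ≤ _) (n := 0) (by norm_num) (by simp)
      have c12 : ∀ a ∈ A, ∀ b ∈ A2, a * b = b * a := fun a ha b hb => el_comm hAe (Subgroup.mem_sup_left ha) (hA2le hb)
      have c23 : ∀ a ∈ A2, ∀ b ∈ A3, a * b = b * a := by
        intro a ha b hb
        have hle : A2 ≤ Subgroup.centralizer ({b} : Set X) := by
          have hgen : ∀ y, (∀ w ∈ W, y * w = w * y) → y * t = t * y → y ∈ Subgroup.centralizer ({b} : Set X) := by
            intro y hy hyt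
            have hle' : Subgroup.zpowers t ⊔ W ≤ Subgroup.centralizer ({y} : Set X) :=
              sup_le (Subgroup.zpowers_le.2 (Subgroup.mem_centralizer_singleton_iff.2 hyt.symm))
                fun w hw => Subgroup.mem_centralizer_singleton_iff.2 (hy w hw).symm
            exact Subgroup.mem_centralizer_singleton_iff.2 (Subgroup.mem_centralizer_singleton_iff.1 (hle' (hA3le hb))).symm
          simp only [hA2def, sup_le_iff, Subgroup.zpowers_le]
          exact ⟨⟨hgen t htW rfl, hgen e (fun w hw => el_comm hE heE hw.1.1) (heA t ht).symm⟩,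
            hgen s (fun w hw => (Subgroup.mem_centralizer_singleton_iff.1 hw.2).symm) (el_comm hA hs ht)⟩
        exact Subgroup.mem_centralizer_singleton_iff.1 (hle ha)
      have c34 : ∀ a ∈ A3, ∀ b ∈ A4, a * b = b * a := by
        intro a ha b hb
        have hle : Subgroup.zpowers t ⊔ W ≤ Subgroup.centralizer ({b} : Set X) :=
          sup_le (Subgroup.zpowers_le.2 (Subgroup.mem_centralizer_singleton_iff.2
            (Subgroup.mem_centralizer_singleton_iff.1 (hA4le hb).2).symm))
            fun w hw => Subgroup.mem_centralizer_singleton_iff.2 (el_comm hE hw.1.1 (hA4le hb).1)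
        exact Subgroup.mem_centralizer_singleton_iff.1 (hle (hA3le ha))
      refine ⟨A4, hA4le.trans inf_le_left, hA4, hA48,
        Relation.ReflTransGen.head (hstep A A2 hA hA8 hA2 hA28 c12) (Relation.ReflTransGen.head (hstep A2 A3 hA2 hA28 hA3 hA38 c23)
          (Relation.ReflTransGen.single (hstep A3 A4 hA3 hA38 hA4 hA48 c34))),
        Relation.ReflTransGen.head (hstep A4 A3 hA4 hA48 hA3 hA38 fun a ha b hb => (c34 b hb a ha).symm)
          (Relation.ReflTransGen.head (hstep A3 A2 hA3 hA38 hA2 hA28 fun a ha b hb => (c23 b hb a ha).symm)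
            (Relation.ReflTransGen.single (hstep A2 A hA2 hA28 hA hA8 fun a ha b hb => (c12 b hb a ha).symm)))⟩
    obtain ⟨A', hA'E, hA', hA'8, hAA', -⟩ := key A hA hA8
    obtain ⟨B', hB'E, hB', hB'8, -, hB'B⟩ := key B hB hB8
    exact (hAA'.tail (hstep A' B' hA' hA'8 hB' hB'8 fun a ha b hb => el_comm hE (hA'E ha) (hB'E hb))).trans hB'B

end Cfsg.Agent.S1785
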