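import Cfsg.Statements.S1850
import Cfsg.Agent.Components.CharP

set_option autoImplicit false
open Cfsg

namespace Cfsg.Agent.S1850

/-- Let G be a non-abelian finite simple QTKE-group and T a Sylow 2-subgroup of G. If U is a nontrivial 2-subgroup of G with U ∩ Z(T) ≠ 1, then F*(N_G(U)) = O₂(N_G(U)). -/
theorem result {G : Type*} [Group G] [Finite G] [IsSimpleGroup G]
    (hG : ¬ IsMulCommutative G) (hQ : Cfsg.IsQTKE G) (T : Sylow 2 G) (U : Subgroup G)
    (hU : IsPGroup 2 ↥U) (hZ : U ⊓ ((T : Subgroup G) ⊓ Subgroup.centralizer ((T : Subgroup G) : Set G)) ≠ ⊥) :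
    Subgroup.normalizer (U : Set G) ∈ Cfsg.calHe G := by
  have h2 : Fact (Nat.Prime 2) := ⟨Nat.prime_two⟩
  obtain ⟨-, -, heven⟩ := hQ

  obtain ⟨w, hw, hw1⟩ := (Subgroup.bot_or_exists_ne_one _).resolve_left hZ
  obtain ⟨k, hk⟩ := hU ⟨w, hw.1⟩
  have hwk : w ^ 2 ^ k = 1 := congrArg Subtype.val hk
  obtain ⟨i, hi, hord⟩ := (Nat.dvd_prime_pow Nat.prime_two).mp (orderOf_dvd_of_pow_eq_one hwk)
  have hi0 : i ≠ 0 := by
    intro h
    rw [h, pow_zero, orderOf_eq_one_iff] at hord
    exact hw1 hord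
  obtain ⟨j, rfl⟩ := Nat.exists_eq_succ_of_ne_zero hi0
  set u := w ^ 2 ^ j with hu
  have huZ : u ∈ U ⊓ ((T : Subgroup G) ⊓ Subgroup.centralizer ((T : Subgroup G) : Set G)) := Subgroup.pow_mem _ hw _
  have hou : orderOf u = 2 := by
    rw [hu, orderOf_pow' _ (pow_ne_zero j two_ne_zero), hord, Nat.gcd_eq_right (pow_dvd_pow 2 (Nat.le_succ j)),
      Nat.pow_div (Nat.le_succ j) two_pos, show j + 1 - j = 1 by omega, pow_one]
  set C := Subgroup.centralizer ({u} : Set G) with hC
  have hu2 : u * u = 1 := by rw [← pow_two, ← hou, pow_orderOf_eq_one]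
  have huinv : u⁻¹ = u := inv_eq_of_mul_eq_one_right hu2
  have hmem : ∀ y : G, y ∈ Subgroup.zpowers u ↔ y = 1 ∨ y = u := by
    intro y
    constructor
    · rintro hy
      obtain ⟨n, rfl⟩ := Subgroup.mem_zpowers_iff.mp hy
      rcases Int.even_or_odd' n with ⟨m, rfl | rfl⟩
      · left; rw [zpow_mul, zpow_two, hu2, one_zpow]
      · right; rw [zpow_add, zpow_mul, zpow_two, hu2, one_zpow, one_mul, zpow_one]
    · rintro (rfl | rfl)
      · exact one_mem _
      · exact Subgroup.mem_zpowers _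
  have hNu : Subgroup.normalizer ((Subgroup.zpowers u : Subgroup G) : Set G) = C := by
    ext g
    rw [hC, Subgroup.mem_centralizer_singleton_iff, Subgroup.mem_normalizer_iff]
    constructor
    · intro h
      rcases (hmem _).mp ((h u).mp (Subgroup.mem_zpowers u)) with h1 | h1
      · exfalso
        rw [conj_eq_one_iff] at h1
        rw [h1, orderOf_one] at hou
        omega
      · exact mul_inv_eq_iff_eq_mul.mp h1
    · intro h y
      have hgu : g * u * g⁻¹ = u := by rw [h, mul_inv_cancel_right]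
      rw [hmem, hmem]
      constructor
      · rintro (rfl | rfl)
        · left; group
        · right; exact hgu
      · rintro (h1 | h1)
        · left; exact conj_eq_one_iff.mp h1
        · right; exact mul_left_cancel (mul_right_cancel (h1.trans hgu.symm))
  have hC2 : CfsgLib.Components.IsCharP 2 C := by
    refine (CfsgLib.Components.isCharP_iff 2 C).mpr (heven C ⟨Subgroup.zpowers u, ?_, ?_, hNu.symm⟩ ⟨T, ?_⟩)
    · exact IsPGroup.of_card (n := 1) (by rw [Nat.card_zpowers, hou, pow_one])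
    · rw [Ne, Subgroup.zpowers_eq_bot]
      intro h
      rw [h, orderOf_one] at hou
      omega
    · intro t ht
      rw [hC, Subgroup.mem_centralizer_singleton_iff]
      exact (Subgroup.mem_centralizer_iff.mp huZ.2.2 t ht)
  -- climb from U ∩ C to U
  suffices h : ∀ n, ∀ U₁ : Subgroup G, U₁ ≤ U → Nat.card ↥U - Nat.card ↥U₁ = n → u ∈ U₁ →
      CfsgLib.Components.IsCharP 2 (Subgroup.normalizer (U₁ : Set G)) →
      CfsgLib.Components.IsCharP 2 (Subgroup.normalizer (U : Set G)) by
    have hU1 : IsPGroup 2 ↥(U ⊓ C) := hU.to_le inf_le_left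
    have huC : u ∈ C := Subgroup.mem_centralizer_singleton_iff.mpr rfl
    have h1 : CfsgLib.Components.IsCharP 2 (Subgroup.normalizer ((U ⊓ C : Subgroup G) : Set G)) := by
      refine CfsgLib.Components.isCharP_normalizer hC2 inf_le_right hU1 fun c hc => ?_
      rw [hC, Subgroup.mem_centralizer_singleton_iff]
      exact (Subgroup.mem_centralizer_iff.mp hc u ⟨huZ.1, huC⟩).symm
    exact (CfsgLib.Components.generalizedFitting_eq_pCore_iff 2).mpr
      ((CfsgLib.Components.isCharP_iff 2 _).mp (h _ _ inf_le_left rfl ⟨huZ.1, huC⟩ h1))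
  intro n
  induction n using Nat.strong_induction_on with
  | _ n ih =>
    intro U₁ hle hn hu1 h1
    by_cases heq : U₁ = U
    · rwa [← heq]
    have := hU.isNilpotent
    have hlt : U₁.subgroupOf U < ⊤ := lt_top_iff_ne_top.mpr fun h =>
      heq (le_antisymm hle (Subgroup.subgroupOf_eq_top.mp h))
    obtain ⟨x, hxN, hxU⟩ := SetLike.exists_of_lt (Group.normalizerCondition_of_isNilpotent _ hlt)
    set U₂ := U ⊓ Subgroup.normalizer (U₁ : Set G) with hU2
    have hle12 : U₁ ≤ U₂ := le_inf hle Subgroup.le_normalizer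
    have hxN' : (x : G) ∈ Subgroup.normalizer (U₁ : Set G) := by
      rw [Subgroup.mem_normalizer_iff]
      intro y
      constructor
      · intro hy
        exact (Subgroup.mem_normalizer_iff.mp hxN ⟨y, hle hy⟩).mp hy
      · intro hy
        have hyU : y ∈ U := by
          have := U.mul_mem (U.mul_mem (U.inv_mem x.2) (hle hy)) x.2
          simpa [mul_assoc] using this
        exact (Subgroup.mem_normalizer_iff.mp hxN ⟨y, hyU⟩).mpr hy
    have hne : U₁ ≠ U₂ := fun h => hxU (show (x : G) ∈ U₁ from h ▸ ⟨x.2, hxN'⟩)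
    have hcard : Nat.card ↥U₁ < Nat.card ↥U₂ := lt_of_le_of_ne (Subgroup.card_le_of_le hle12)
      fun h => hne (Subgroup.eq_of_le_of_card_ge hle12 h.ge)
    have hcard2 : Nat.card ↥U₂ ≤ Nat.card ↥U := Subgroup.card_le_of_le inf_le_left
    refine ih _ (by omega) U₂ inf_le_left rfl (hle12 hu1) ?_
    exact CfsgLib.Components.isCharP_normalizer h1 inf_le_right (hU.to_le inf_le_left)
      ((Subgroup.centralizer_le hle12).trans (Subgroup.centralizer_le_normalizer _))


end Cfsg.Agent.S1850
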