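import Cfsg.Statements.S1851
import Cfsg.Agent.S1850
import Cfsg.Agent.Components.CharP
import Cfsg.Agent.Components.Orbit
import Cfsg.Agent.CoprimeAction.Basic
import Cfsg.Agent.PGroup.Basic

set_option autoImplicit false
open Cfsg

namespace Cfsg.Agent.S1851

open scoped commutatorElement
open CfsgLib.Components

section
variable {G : Type*} [Group G]

theorem omega_le (H : Subgroup G) : Cfsg.omegaOne 2 H ≤ H :=
  (Subgroup.closure_le _).2 fun _ hx => hx.1

theorem mem_omega {H : Subgroup G} {x : G} (hx : x ∈ H) (h2 : x ^ 2 = 1) : x ∈ Cfsg.omegaOne 2 H :=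
  Subgroup.subset_closure ⟨hx, h2⟩

theorem omega_sq {R : Subgroup G} {x : G} (hx : x ∈ Cfsg.omegaOne 2 (R ⊓ Subgroup.centralizer (R : Set G))) :
    x ^ 2 = 1 := by
  induction hx using Subgroup.closure_induction with
  | mem y hy => exact hy.2
  | one => simp
  | mul a b ha hb iha ihb =>
    have hc : Commute a b :=
      (Subgroup.mem_centralizer_iff.1 (omega_le _ hb).2 a (omega_le _ ha).1)
    rw [hc.mul_pow, iha, ihb, one_mul]
  | inv a _ iha => rw [inv_pow, iha, inv_one]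

theorem normalizer_le_normalizer_omega (R : Subgroup G) :
    Subgroup.normalizer (R : Set G) ≤
      Subgroup.normalizer (Cfsg.omegaOne 2 (R ⊓ Subgroup.centralizer (R : Set G)) : Set G) := by
  rw [Subgroup.le_normalizer_iff]
  intro g hg x hx
  induction hx using Subgroup.closure_induction with
  | mem y hy =>
    refine mem_omega ⟨(Subgroup.mem_normalizer_iff.1 hg y).1 hy.1.1, Subgroup.mem_centralizer_iff.2 fun r hr => ?_⟩
      (by rw [conj_pow, hy.2]; group)
    have h := Subgroup.mem_centralizer_iff.1 hy.1.2 _ ((Subgroup.mem_normalizer_iff''.1 hg r).1 hr)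
    calc r * (g * y * g⁻¹) = g * ((g⁻¹ * r * g) * y) * g⁻¹ := by group
      _ = g * (y * (g⁻¹ * r * g)) * g⁻¹ := by rw [h]
      _ = g * y * g⁻¹ * r := by group
  | one => simp
  | mul a b _ _ iha ihb => rw [show g * (a * b) * g⁻¹ = (g * a * g⁻¹) * (g * b * g⁻¹) by group]; exact mul_mem iha ihb
  | inv a _ iha => rw [show g * a⁻¹ * g⁻¹ = (g * a * g⁻¹)⁻¹ by group]; exact inv_mem iha

variable [Finite G]

/-- A perfect group is generated by its elements of odd order. -/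
theorem oddGenerated_eq {K : Subgroup G} (hK : ⁅K, K⁆ = K) : Cfsg.oddGenerated K = K := by
  have : Fact (Nat.Prime 2) := ⟨Nat.prime_two⟩
  refine le_antisymm ((Subgroup.closure_le _).2 fun x hx => hx.1) (perfect_le_of_pow_mem (p := 2) hK ?_ fun k hk => ?_)
  · rw [Subgroup.le_normalizer_iff]
    intro g hg x hx
    induction hx using Subgroup.closure_induction with
    | mem y hy =>
      refine Subgroup.subset_closure ⟨K.mul_mem (K.mul_mem hg hy.1) (K.inv_mem hg), ?_⟩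
      have : orderOf (g * y * g⁻¹) = orderOf y := orderOf_injective (MulAut.conj g).toMonoidHom (MulAut.conj g).injective y
      rw [this]; exact hy.2
    | one => simp
    | mul a b _ _ iha ihb => rw [show g * (a * b) * g⁻¹ = (g * a * g⁻¹) * (g * b * g⁻¹) by group]; exact mul_mem iha ihb
    | inv a _ iha => rw [show g * a⁻¹ * g⁻¹ = (g * a * g⁻¹)⁻¹ by group]; exact inv_mem iha
  · obtain ⟨a, m, hm, hn⟩ := Nat.exists_eq_pow_mul_and_not_dvd (orderOf_pos k).ne' 2 (by norm_num)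
    refine ⟨a, Subgroup.subset_closure ⟨K.pow_mem hk _, ?_⟩⟩
    rw [orderOf_pow_of_dvd (by positivity) (hn ▸ Dvd.intro m rfl), hn, Nat.mul_div_cancel_left _ (by positivity)]
    exact Nat.odd_iff.2 (by omega)

/-- A perfect subnormal subgroup of `X` is normalised by `O_2(X)`. -/
theorem pCoreIn_le_normalizer {X K : Subgroup G} (hKX : K ≤ X) (hK : ⁅K, K⁆ = K)
    (hs : (K.subgroupOf X).IsSubnormal) : pCoreIn 2 X ≤ Subgroup.normalizer (K : Set G) := by
  have hXQ : X ≤ Subgroup.normalizer (pCoreIn 2 X : Set G) :=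
    Subgroup.le_normalizer.trans (normalizer_le_normalizer_pCoreIn 2 X)
  have key : ∀ S : Subgroup ↥X, S.IsSubnormal → K.subgroupOf X ≤ S →
      ∀ x : ↥X, Odd (orderOf x) → (∃ l ∈ K, ∃ q ∈ pCoreIn 2 X, (x : G) = l * q) → x ∈ S := by
    intro S hS
    induction hS with
    | top => intro _ x _ _; trivial
    | step H L hle _ hHL ih =>
      intro hKH x hodd hx
      have hxL := ih (hKH.trans hle) x hodd hx
      obtain ⟨l, hl, q, hq, hxlq⟩ := hx
      have hlH : (⟨l, hKX hl⟩ : ↥X) ∈ H := hKH hl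
      have hqX : q ∈ X := pCoreIn_le 2 X hq
      have e : x = ⟨l, hKX hl⟩ * ⟨q, hqX⟩ := Subtype.ext hxlq
      have hqL : (⟨q, hqX⟩ : ↥X) ∈ L := by
        have := L.mul_mem (L.inv_mem (hle hlH)) hxL
        rwa [e, inv_mul_cancel_left] at this
      obtain ⟨k, hk⟩ := pCoreIn_isPGroup 2 X ⟨q, hq⟩
      have hk' : (⟨q, hqX⟩ : ↥X) ^ 2 ^ k = 1 := Subtype.ext (by simpa using congrArg Subtype.val hk)
      have h1 : (QuotientGroup.mk' (H.subgroupOf L) ⟨x, hxL⟩) ^ 2 ^ k = 1 := by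
        have h2 : QuotientGroup.mk' (H.subgroupOf L) ⟨x, hxL⟩ = QuotientGroup.mk' (H.subgroupOf L) ⟨⟨q, hqX⟩, hqL⟩ := by
          rw [show (⟨x, hxL⟩ : ↥L) = ⟨⟨l, hKX hl⟩, hle hlH⟩ * ⟨⟨q, hqX⟩, hqL⟩ from Subtype.ext e, map_mul,
            show QuotientGroup.mk' (H.subgroupOf L) ⟨⟨l, hKX hl⟩, hle hlH⟩ = 1 from (QuotientGroup.eq_one_iff _).2 hlH,
            one_mul]
        rw [h2, ← map_pow, show (⟨⟨q, hqX⟩, hqL⟩ : ↥L) ^ 2 ^ k = 1 from Subtype.ext hk', map_one]
      have h3 : (QuotientGroup.mk' (H.subgroupOf L) ⟨x, hxL⟩) ^ orderOf x = 1 := by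
        rw [← map_pow, show (⟨x, hxL⟩ : ↥L) ^ orderOf x = 1 from Subtype.ext (pow_orderOf_eq_one x), map_one]
      have h4 := pow_gcd_eq_one.2 ⟨h1, h3⟩
      rw [show Nat.gcd (2 ^ k) (orderOf x) = 1 from
        Nat.Coprime.pow_left k ((Nat.prime_two.coprime_iff_not_dvd).2 (fun h => by
          obtain ⟨c, hc⟩ := h; rw [hc] at hodd; exact absurd hodd (by simp))), pow_one] at h4
      exact (QuotientGroup.eq_one_iff (⟨x, hxL⟩ : ↥L)).1 h4
  rw [Subgroup.le_normalizer_iff]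
  intro q hq x hx
  conv at hx => rw [← oddGenerated_eq hK]
  induction hx using Subgroup.closure_induction with
  | mem y hy =>
    have hqX : q ∈ X := pCoreIn_le 2 X hq
    refine key _ hs le_rfl ⟨q * y * q⁻¹, X.mul_mem (X.mul_mem hqX (hKX hy.1)) (X.inv_mem hqX)⟩ ?_ ⟨y, hy.1, y⁻¹ * q * y * q⁻¹, ?_, ?_⟩
    · rw [← Subgroup.orderOf_coe]
      have : orderOf (q * y * q⁻¹) = orderOf y := orderOf_injective (MulAut.conj q).toMonoidHom (MulAut.conj q).injective y
      rw [this]; exact hy.2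
    · exact Subgroup.mul_mem _ ((Subgroup.mem_normalizer_iff''.1 (hXQ (hKX hy.1)) q).1 hq) (Subgroup.inv_mem _ hq)
    · show q * y * q⁻¹ = y * (y⁻¹ * q * y * q⁻¹)
      group
  | one => simp
  | mul a b _ _ iha ihb => rw [show q * (a * b) * q⁻¹ = (q * a * q⁻¹) * (q * b * q⁻¹) by group]; exact mul_mem iha ihb
  | inv a _ iha => rw [show q * a⁻¹ * q⁻¹ = (q * a * q⁻¹)⁻¹ by group]; exact inv_mem iha

theorem pCoreIn_le_pCoreIn {X K : Subgroup G} (hKX : K ≤ X) (hs : (K.subgroupOf X).IsSubnormal) :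
    pCoreIn 2 K ≤ pCoreIn 2 X := by
  intro x hx
  have hxX : x ∈ X := hKX (pCoreIn_le 2 K hx)
  refine ⟨⟨x, hxX⟩, ?_, rfl⟩
  refine subnormal_le_pCore (H := (pCoreIn 2 K).subgroupOf X) ?_ ?_ hx
  · refine subnormal_trans (K := K.subgroupOf X) (fun y hy => pCoreIn_le 2 K hy) ?_ hs
    refine Subgroup.Normal.isSubnormal (Subgroup.normal_subgroupOf_of_le_normalizer ?_)
    rw [Subgroup.le_normalizer_iff]
    intro a ha y hy
    exact (Subgroup.mem_normalizer_iff.1 (normalizer_le_normalizer_pCoreIn 2 K (Subgroup.le_normalizer ha)) (y : G)).1 hy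
  · exact (pCoreIn_isPGroup 2 K).comap_of_injective X.subtype X.subtype_injective

/-- The data of a member of `calL`. -/
theorem calL_data [IsSimpleGroup G] (hG : ¬ IsMulCommutative G) (hQ : Cfsg.IsQTKE G) (T : Sylow 2 G) {K : Subgroup G}
    (hK : K ∈ Cfsg.calL (T : Subgroup G)) :
    K ≠ ⊥ ∧ ⁅K, K⁆ = K ∧ (K.subgroupOf (K ⊔ T)).IsSubnormal ∧ pCoreIn 2 (K ⊔ T) ≤ (T : Subgroup G) ∧
      IsCharP 2 (K ⊔ T) ∧ IsCharP 2 K := by
  have h2 : Fact (Nat.Prime 2) := ⟨Nat.prime_two⟩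
  obtain ⟨⟨hne, hperf, hsub, -⟩, -, hcore⟩ := hK
  have hKX : K ≤ K ⊔ (T : Subgroup G) := le_sup_left
  have hne' : K ≠ ⊥ := by
    intro h
    apply hne
    rw [eq_bot_iff]
    intro y hy
    rw [Subgroup.mem_bot]
    exact Subtype.ext (by simpa [h] using (show (y : G) ∈ K from hy))
  have hperf' : ⁅K, K⁆ = K := by
    have h := congrArg (Subgroup.map (K ⊔ (T : Subgroup G)).subtype) hperf
    rwa [Subgroup.map_commutator, Subgroup.map_subgroupOf_eq_of_le hKX] at h
  have hinT : ∀ Y : Subgroup G, (T : Subgroup G) ≤ Y → pCoreIn 2 Y ≤ (T : Subgroup G) := by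
    intro Y hY
    have h1 : (T : Subgroup G) ≤ Subgroup.normalizer (pCoreIn 2 Y : Set G) :=
      hY.trans (Subgroup.le_normalizer.trans (normalizer_le_normalizer_pCoreIn 2 Y))
    have h3 : IsPGroup 2 ↥((T : Subgroup G) ⊔ pCoreIn 2 Y) :=
      IsPGroup.to_sup_of_normal_right' T.isPGroup' (pCoreIn_isPGroup 2 Y) h1
    exact le_sup_right.trans (T.is_maximal' h3 le_sup_left).le
  have hQT := hinT (K ⊔ T) le_sup_right
  have hXN : K ⊔ (T : Subgroup G) ≤ Subgroup.normalizer (pCoreIn 2 (K ⊔ (T : Subgroup G)) : Set G) :=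
    Subgroup.le_normalizer.trans (normalizer_le_normalizer_pCoreIn 2 _)
  have hQne : pCoreIn 2 (K ⊔ (T : Subgroup G)) ≠ ⊥ := fun h => hcore (by
    rwa [pCoreIn, Subgroup.map_eq_bot_iff_of_injective _ (Subgroup.subtype_injective _)] at h)
  have hZ : pCoreIn 2 (K ⊔ (T : Subgroup G)) ⊓ ((T : Subgroup G) ⊓ Subgroup.centralizer ((T : Subgroup G) : Set G)) ≠ ⊥ := by
    haveI : ((pCoreIn 2 (K ⊔ (T : Subgroup G))).subgroupOf (T : Subgroup G)).Normal :=
      Subgroup.normal_subgroupOf_of_le_normalizer (le_sup_right.trans hXN)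
    obtain ⟨z, hz, hz1, hzc⟩ := CfsgLib.PGroup.exists_mem_central_mod T.isPGroup'
      (N := (pCoreIn 2 (K ⊔ (T : Subgroup G))).subgroupOf (T : Subgroup G)) (bot_lt_iff_ne_bot.2 fun h => hQne (by
        have h' := congrArg (Subgroup.map (T : Subgroup G).subtype) h
        rwa [Subgroup.map_subgroupOf_eq_of_le hQT, Subgroup.map_bot] at h'))
    intro h
    apply hz1
    have hmem : (z : G) ∈ pCoreIn 2 (K ⊔ (T : Subgroup G)) ⊓ ((T : Subgroup G) ⊓ Subgroup.centralizer ((T : Subgroup G) : Set G)) :=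
      ⟨hz, z.2, Subgroup.mem_centralizer_iff.2 fun t ht =>
        (congrArg Subtype.val (commutatorElement_eq_one_iff_mul_comm.mp (Subgroup.mem_bot.mp (hzc ⟨t, ht⟩)))).symm⟩
    rw [h, Subgroup.mem_bot] at hmem
    rw [Subgroup.mem_bot]
    exact Subtype.ext hmem
  have hN : IsCharP 2 (Subgroup.normalizer (pCoreIn 2 (K ⊔ (T : Subgroup G)) : Set G)) :=
    (isCharP_iff 2 _).2 ((generalizedFitting_eq_pCore_iff 2).1
      (Cfsg.Agent.S1850.result hG hQ T _ (pCoreIn_isPGroup 2 _) hZ))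
  have hX : IsCharP 2 (K ⊔ (T : Subgroup G)) := by
    have h3 : pCoreIn 2 (Subgroup.normalizer (pCoreIn 2 (K ⊔ (T : Subgroup G)) : Set G)) ≤ pCoreIn 2 (K ⊔ (T : Subgroup G)) :=
      le_pCoreIn ((hinT _ (le_sup_right.trans hXN)).trans le_sup_right)
        (hXN.trans (Subgroup.le_normalizer.trans (normalizer_le_normalizer_pCoreIn 2 _))) (pCoreIn_isPGroup 2 _)
    rintro x ⟨hx, hxc⟩
    exact h3 (hN ⟨hXN hx, Subgroup.centralizer_le h3 hxc⟩)
  refine ⟨hne', hperf', hsub, hQT, hX, ?_⟩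
  have key : ∀ S : Subgroup ↥(K ⊔ (T : Subgroup G)), S.IsSubnormal → IsCharP 2 (S.map (K ⊔ (T : Subgroup G)).subtype) := by
    intro S hS
    induction hS with
    | top => rwa [← MonoidHom.range_eq_map, Subgroup.range_subtype]
    | step H L hle _ hHL ih =>
      refine isCharP_of_normal ih (Subgroup.map_mono hle) ?_
      rw [Subgroup.le_normalizer_iff]
      rintro _ ⟨a, ha, rfl⟩ _ ⟨b, hb, rfl⟩
      exact ⟨a * b * a⁻¹, hHL.conj_mem ⟨b, hle hb⟩ hb ⟨a, ha⟩, by simp⟩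
  have h := key _ hsub
  rwa [Subgroup.map_subgroupOf_eq_of_le hKX] at h

end

/-- Let G be a non-abelian finite simple QTKE-group and T a Sylow 2-subgroup of G, and let L be a member of ℒ_f(G, T) (a member of ℒ(G, T) that lies in 𝒳 — L ≠ 1, L = O²(L), F*(L) = O₂(L) — and acts nontrivially on Ω₁(Z(O₂(L)))). Then (1) every member K of ℒ(G, T) containing L is again in ℒ_f(G, T) (a sharper form of (1) also compares the modules [Ω₁(Z(R)), L] and [Ω₁(Z(R')), K] for suitable 2-subgroups R, R'; that comparison is not included); and (2) if L is maximal under inclusion among the members of ℒ_f(G, T), then L is a maximal member of ℒ(G, T), hence a member of ℒ_f*(G, T). -/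
theorem result {G : Type*} [Group G] [Finite G] [IsSimpleGroup G]
    (hG : ¬ IsMulCommutative G) (hQ : Cfsg.IsQTKE G) (T : Sylow 2 G) (L : Subgroup G)
    (hL : L ∈ Cfsg.calLf (T : Subgroup G)) :
    (∀ K ∈ Cfsg.calL (T : Subgroup G), L ≤ K → K ∈ Cfsg.calLf (T : Subgroup G)) ∧
    ((∀ K ∈ Cfsg.calLf (T : Subgroup G), L ≤ K → K = L) → L ∈ Cfsg.calLfMax (T : Subgroup G)) := by
  have h2 : Fact (Nat.Prime 2) := ⟨Nat.prime_two⟩
  have h1 : ∀ K ∈ Cfsg.calL (T : Subgroup G), L ≤ K → K ∈ Cfsg.calLf (T : Subgroup G) := by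
    intro K hK hLK
    obtain ⟨hne, hperf, hsub, hQT, hX, hKc⟩ := calL_data hG hQ T hK
    refine ⟨hK, ⟨hne, oddGenerated_eq hperf, (generalizedFitting_eq_pCore_iff 2).2 ((isCharP_iff 2 K).1 hKc)⟩, fun hV => ?_⟩
    obtain ⟨hL1, -, hLV⟩ := hL
    obtain ⟨-, hLperf, hLsub, hLQT, hLX, -⟩ := calL_data hG hQ T hL1
    apply hLV
    -- `K` centralises the module of `K ⊔ T`
    have hVK : ∀ k ∈ K, ∀ z ∈ Cfsg.omegaOne 2 (pCoreIn 2 K ⊓ Subgroup.centralizer (pCoreIn 2 K : Set G)), k * z = z * k := by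
      intro k hk z hz
      have h := Subgroup.commutator_mem_commutator hz hk
      rw [show ⁅Cfsg.omegaOne 2 (pCoreIn 2 K ⊓ Subgroup.centralizer (pCoreIn 2 K : Set G)), K⁆ = ⊥ from hV,
        Subgroup.mem_bot] at h
      exact (commutatorElement_eq_one_iff_mul_comm.1 h).symm
    have hXn : K ⊔ (T : Subgroup G) ≤ Subgroup.normalizer
        (Cfsg.omegaOne 2 (pCoreIn 2 (K ⊔ (T : Subgroup G)) ⊓
          Subgroup.centralizer (pCoreIn 2 (K ⊔ (T : Subgroup G)) : Set G)) : Set G) :=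
      (Subgroup.le_normalizer.trans (normalizer_le_normalizer_pCoreIn 2 _)).trans (normalizer_le_normalizer_omega _)
    have hQK := pCoreIn_le_normalizer le_sup_left hperf hsub
    have hKY : K ≤ Subgroup.centralizer
        (Cfsg.omegaOne 2 (pCoreIn 2 (K ⊔ (T : Subgroup G)) ⊓
          Subgroup.centralizer (pCoreIn 2 (K ⊔ (T : Subgroup G)) : Set G)) : Set G) := by
      set Q := pCoreIn 2 (K ⊔ (T : Subgroup G)) with hQdef
      set Y := Cfsg.omegaOne 2 (Q ⊓ Subgroup.centralizer (Q : Set G)) with hY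
      have hYK : ⁅K, Y⁆ ≤ Cfsg.omegaOne 2 (pCoreIn 2 K ⊓ Subgroup.centralizer (pCoreIn 2 K : Set G)) := by
        rw [Subgroup.commutator_le]
        intro k hk y hy
        have hy1 : ⁅k, y⁆ ∈ Y :=
          Subgroup.mul_mem _ ((Subgroup.mem_normalizer_iff.1 (hXn (Subgroup.mem_sup_left hk)) y).1 hy) (Subgroup.inv_mem _ hy)
        have hy2 : ⁅k, y⁆ ∈ K := by
          rw [commutatorElement_def, mul_assoc, mul_assoc]
          refine K.mul_mem hk ?_
          rw [← mul_assoc]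
          exact (Subgroup.mem_normalizer_iff.1 (hQK (omega_le _ hy).1) _).1 (K.inv_mem hk)
        have hle : Y ⊓ K ≤ pCoreIn 2 K := by
          refine le_pCoreIn inf_le_right ?_ ((pCoreIn_isPGroup 2 _).to_le (inf_le_left.trans ((omega_le _).trans inf_le_left)))
          rw [Subgroup.le_normalizer_iff]
          intro a ha x hx
          exact ⟨(Subgroup.mem_normalizer_iff.1 (hXn (Subgroup.mem_sup_left ha)) x).1 hx.1, K.mul_mem (K.mul_mem ha hx.2) (K.inv_mem ha)⟩
        refine mem_omega ⟨hle ⟨hy1, hy2⟩, ?_⟩ (omega_sq hy1)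
        exact Subgroup.centralizer_le (pCoreIn_le_pCoreIn le_sup_left hsub) (omega_le _ hy1).2
      have h3 : ⁅⁅K, Y⁆, K⁆ = ⊥ := eq_bot_iff.2 (hV ▸ Subgroup.commutator_mono hYK le_rfl)
      have h4 : ⁅⁅Y, K⁆, K⁆ = ⊥ := by rwa [Subgroup.commutator_comm Y K]
      have h5 := Subgroup.commutator_commutator_eq_bot_of_rotate h3 h4
      rw [hperf] at h5
      exact Subgroup.commutator_eq_bot_iff_le_centralizer.1 h5
    -- descend to `L`
    have hQle : pCoreIn 2 (K ⊔ (T : Subgroup G)) ≤ pCoreIn 2 (L ⊔ (T : Subgroup G)) :=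
      le_pCoreIn (hQT.trans le_sup_right)
        ((sup_le_sup_right hLK _).trans (Subgroup.le_normalizer.trans (normalizer_le_normalizer_pCoreIn 2 _)))
        (pCoreIn_isPGroup 2 _)
    have hLY : ∀ z, z ∈ pCoreIn 2 (L ⊔ (T : Subgroup G)) → z ∈ Subgroup.centralizer (pCoreIn 2 (L ⊔ (T : Subgroup G)) : Set G) →
        z ^ 2 = 1 → ∀ l ∈ L, l * z = z * l := by
      intro z hz hzc hz2 l hl
      have hzX : z ∈ pCoreIn 2 (K ⊔ (T : Subgroup G)) := by
        refine hX ⟨Subgroup.mem_sup_right (hLQT hz), Subgroup.centralizer_le hQle hzc⟩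
      have hzY : z ∈ Cfsg.omegaOne 2 (pCoreIn 2 (K ⊔ (T : Subgroup G)) ⊓
          Subgroup.centralizer (pCoreIn 2 (K ⊔ (T : Subgroup G)) : Set G)) :=
        mem_omega ⟨hzX, Subgroup.centralizer_le hQle hzc⟩ hz2
      exact (Subgroup.mem_centralizer_iff.1 (hKY (hLK hl)) z hzY).symm
    show ⁅Cfsg.omegaOne 2 (pCoreIn 2 L ⊓ Subgroup.centralizer (pCoreIn 2 L : Set G)), L⁆ = ⊥
    rw [Subgroup.commutator_eq_bot_iff_le_centralizer, Subgroup.le_centralizer_iff]
    have hPL : pCoreIn 2 L ≤ pCoreIn 2 (L ⊔ (T : Subgroup G)) := pCoreIn_le_pCoreIn le_sup_left hLsub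
    have hPLn := pCoreIn_le_normalizer le_sup_left hLperf hLsub
    have hQn : L ⊔ (T : Subgroup G) ≤ Subgroup.normalizer (pCoreIn 2 (L ⊔ (T : Subgroup G)) : Set G) :=
      Subgroup.le_normalizer.trans (normalizer_le_normalizer_pCoreIn 2 _)
    refine (oddGenerated_eq hLperf).symm.le.trans ((Subgroup.closure_le _).2 ?_)
    rintro l ⟨hl, hlodd⟩
    set Q := pCoreIn 2 (L ⊔ (T : Subgroup G)) with hQdef
    set Z := Cfsg.omegaOne 2 (pCoreIn 2 L ⊓ Subgroup.centralizer (pCoreIn 2 L : Set G)) with hZdef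
    have hBL : Subgroup.zpowers l ≤ L := Subgroup.zpowers_le.2 hl
    have hBQ : Subgroup.zpowers l ≤ Subgroup.normalizer (Q : Set G) := hBL.trans (le_sup_left.trans hQn)
    have hcop : (Nat.card ↥(Subgroup.zpowers l)).Coprime 2 := by
      rw [Nat.card_zpowers]; exact Nat.coprime_two_right.2 hlodd
    have hcopQ : (Nat.card ↥(Subgroup.zpowers l)).Coprime (Nat.card ↥Q) := by
      obtain ⟨n, hn⟩ := (pCoreIn_isPGroup 2 (L ⊔ (T : Subgroup G))).exists_card_eq
      rw [hn]; exact hcop.pow_right n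
    have hsolv : Group.IsSolvable ↥Q := by
      haveI := (pCoreIn_isPGroup 2 (L ⊔ (T : Subgroup G))).isNilpotent
      infer_instance
    have hcomm : ⁅Q, Subgroup.zpowers l⁆ ≤ pCoreIn 2 L := by
      refine le_trans ?_ (le_pCoreIn (inf_le_right : Q ⊓ L ≤ L) ?_ ((pCoreIn_isPGroup 2 _).to_le inf_le_left))
      · refine le_inf (CfsgLib.CoprimeAction.commutator_le_of_normalizer hBQ) ?_
        rw [Subgroup.commutator_le]
        intro q hq b hb
        exact L.mul_mem ((Subgroup.mem_normalizer_iff.1 (hPLn hq) b).1 (hBL hb)) (L.inv_mem (hBL hb))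
      · rw [Subgroup.le_normalizer_iff]
        intro a ha x hx
        exact ⟨(Subgroup.mem_normalizer_iff.1 (hQn (Subgroup.mem_sup_left ha)) x).1 hx.1, L.mul_mem (L.mul_mem ha hx.2) (L.inv_mem ha)⟩
    have hAZ : Subgroup.normalizer (L : Set G) ≤ Subgroup.normalizer (Z : Set G) :=
      (normalizer_le_normalizer_pCoreIn 2 L).trans (normalizer_le_normalizer_omega _)
    have hfin : Subgroup.zpowers l ≤ Subgroup.centralizer (Z : Set G) := by
      refine CfsgLib.PCore.thompson_AxB (A := Q ⊓ Subgroup.centralizer (Subgroup.zpowers l : Set G))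
        ((pCoreIn_isPGroup 2 _).to_le inf_le_left) hcop ((pCoreIn_isPGroup 2 L).to_le ((omega_le _).trans inf_le_left))
        (fun a ha b hb => (Subgroup.mem_centralizer_iff.1 ha.2 b hb).symm) ((inf_le_left.trans hPLn).trans hAZ)
        ((hBL.trans Subgroup.le_normalizer).trans hAZ) ?_
      intro b hb
      rw [Subgroup.mem_centralizer_iff]
      rintro z ⟨hz, hzA⟩
      refine (hLY z (hPL (omega_le _ hz).1) (Subgroup.mem_centralizer_iff.2 fun q hq => ?_) (omega_sq hz) b (hBL hb)).symm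
      obtain ⟨n, hn, c, hc, rfl⟩ := CfsgLib.CoprimeAction.exists_commutator_mul_centralizer hBQ hcopQ (Or.inr hsolv) hq
      have e1 := Subgroup.mem_centralizer_iff.1 (omega_le _ hz).2 n (hcomm hn)
      have e2 := Subgroup.mem_centralizer_iff.1 hzA c hc
      calc n * c * z = n * (z * c) := by rw [mul_assoc, e2]
        _ = z * (n * c) := by rw [← mul_assoc, e1, mul_assoc]
    exact hfin (Subgroup.mem_zpowers l)
  refine ⟨h1, fun hmax => ⟨⟨hL.1, fun K hK hLK => hmax K (h1 K hK hLK) hLK⟩, hL.2⟩⟩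

end Cfsg.Agent.S1851
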