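import Cfsg.Statements.S1957
import Mathlib
import Cfsg.Agent.CoprimeAction.Invariant
import Cfsg.Agent.PCore.Descent
import Cfsg.Agent.PReduced.Hom
import Cfsg.Agent.Transfer.Fusion
import Cfsg.Agent.Components.Cores

set_option autoImplicit false
open Cfsg

namespace Cfsg.Agent.S1957

/-- Let `G` be a finite non-abelian simple group in which every local subgroup is solvable and which is of characteristic 2 type. Let `P` be a Sylow 2-subgroup of `G` and `U` a normal subgroup of `P` that is a four-group, with `U` central in `P` if the centre of `P` is not cyclic. Then `U` centralizes every subgroup of odd order of `G` that it normalizes. -/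
theorem result {G : Type*} [Group G] [Finite G]
    [IsSimpleGroup G] (hna : ¬ IsMulCommutative G) (hN : Cfsg.IsNGroup G) (h2 : Cfsg.IsCharacteristicTwoType G)
    (P : Sylow 2 G) (U : Subgroup G) (hUP : U ≤ (P : Subgroup G)) (hUn : (P : Subgroup G) ≤ Subgroup.normalizer (U : Set G))
    (hU4 : IsKleinFour ↥U)
    (hUZ : ¬ IsCyclic ↥((P : Subgroup G) ⊓ Subgroup.centralizer ((P : Subgroup G) : Set G)) →
      U ≤ Subgroup.centralizer ((P : Subgroup G) : Set G))
    (K : Subgroup G) (hK : Odd (Nat.card K)) (hUK : U ≤ Subgroup.normalizer (K : Set G)) :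
    U ≤ Subgroup.centralizer (K : Set G) := by
  classical
  haveI : Fact (Nat.Prime 2) := ⟨Nat.prime_two⟩
  have hUsq : ∀ u ∈ U, u * u = 1 := fun u hu => congrArg Subtype.val (IsKleinFour.mul_self (⟨u, hu⟩ : ↥U))
  have hUcomm : ∀ a ∈ U, ∀ b ∈ U, a * b = b * a := fun a ha b hb => by
    have hab := hUsq _ (mul_mem ha hb)
    calc a * b = (a * b)⁻¹ := (inv_eq_of_mul_eq_one_right hab).symm
      _ = b⁻¹ * a⁻¹ := mul_inv_rev _ _
      _ = b * a := by rw [inv_eq_of_mul_eq_one_right (hUsq b hb), inv_eq_of_mul_eq_one_right (hUsq a ha)]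
  have hUcases : ∀ z ∈ U, ∀ v ∈ U, z ≠ 1 → v ≠ 1 → v ≠ z → ∀ w ∈ U, w = 1 ∨ w = z ∨ w = v ∨ w = z * v := by
    intro z hz v hv hz1 hv1 hvz w hw
    have hsub : (({1, z, v, z * v} : Finset G) : Set G) ⊆ (U : Set G) := by
      intro t ht
      simp only [Finset.coe_insert, Finset.coe_singleton, Set.mem_insert_iff, Set.mem_singleton_iff] at ht
      rcases ht with rfl | rfl | rfl | rfl
      exacts [one_mem _, hz, hv, mul_mem hz hv]
    have hc : ({1, z, v, z * v} : Finset G).card = 4 := by
      rw [Finset.card_insert_of_notMem, Finset.card_insert_of_notMem, Finset.card_insert_of_notMem,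
        Finset.card_singleton]
      · simp only [Finset.mem_singleton]; intro h
        exact hz1 (by simpa using h.symm)
      · simp only [Finset.mem_insert, Finset.mem_singleton, not_or]
        exact ⟨hvz.symm, fun h => hv1 (by simpa using h.symm)⟩
      · simp only [Finset.mem_insert, Finset.mem_singleton, not_or]
        refine ⟨hz1.symm, hv1.symm, fun h => hvz ?_⟩
        rw [← inv_eq_of_mul_eq_one_right h.symm, inv_eq_of_mul_eq_one_right (hUsq z hz)]
    have := Set.eq_of_subset_of_ncard_le hsub (by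
      rw [Set.ncard_coe_finset, hc, ← Nat.card_coe_set_eq]
      exact (hU4.card_four).le) (Set.toFinite _)
    have hw' : w ∈ (({1, z, v, z * v} : Finset G) : Set G) := this ▸ hw
    simpa using hw'
  -- the two-core of the centraliser
  let H : G → Subgroup G := fun z => Subgroup.normalizer (Subgroup.zpowers z : Set G)
  let R : G → Subgroup G := fun z => (Cfsg.pCore 2 ↥(H z)).map (H z).subtype
  have hH : ∀ z ∈ U, ∀ g, g ∈ H z ↔ g * z = z * g := by
    intro z hz g
    constructor
    · intro hg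
      obtain ⟨k, hk⟩ := Subgroup.mem_zpowers_iff.mp
        ((Subgroup.mem_normalizer_iff.mp hg z).mp (Subgroup.mem_zpowers z))
      have hz2 : z ^ (2 : ℤ) = 1 := by rw [zpow_two]; exact hUsq z hz
      rcases Int.even_or_odd k with ⟨j, rfl⟩ | ⟨j, rfl⟩
      · rw [← two_mul, zpow_mul, hz2, one_zpow] at hk
        have : z = 1 := by
          have h' := hk.symm
          calc z = g⁻¹ * (g * z * g⁻¹) * g := by group
            _ = 1 := by rw [h']; group
        rw [this]; simp
      · rw [zpow_add, zpow_mul, hz2, one_zpow, one_mul, zpow_one] at hk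
        exact eq_mul_inv_iff_mul_eq.mp hk |>.symm
    · intro hg
      refine Subgroup.centralizer_le_normalizer _ (Subgroup.mem_centralizer_iff.mpr fun w hw => ?_)
      obtain ⟨k, rfl⟩ := Subgroup.mem_zpowers_iff.mp hw
      exact ((show Commute g z from hg).zpow_right k).eq.symm
  have hcmr : ∀ A B : Subgroup G, A ≤ B → Nat.card ↥A * A.relIndex B = Nat.card ↥B := fun A B h => by
    rw [← Nat.card_congr (Subgroup.subgroupOfEquivOfLe h).toEquiv]
    exact Subgroup.card_mul_index _
  have hself : ∀ z ∈ U, ∀ v ∈ U, v ∈ H z := fun z hz v hv => (hH z hz v).mpr (hUcomm v hv z hz)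
  have hRH : ∀ z, R z ≤ H z := fun z => Subgroup.map_subtype_le _
  have hRp : ∀ z, IsPGroup 2 ↥(R z) := fun z => (CfsgLib.Components.pCore_isPGroup (G := ↥(H z)) 2).map _
  have hRn : ∀ z, ∀ g ∈ H z, ∀ r ∈ R z, g * r * g⁻¹ ∈ R z := by
    rintro z g hg _ ⟨r, hr, rfl⟩
    haveI : (Cfsg.pCore 2 ↥(H z)).Normal := Subgroup.sSup_normal _ fun _ h => h.1
    exact ⟨⟨g, hg⟩ * r * ⟨g, hg⟩⁻¹, Subgroup.Normal.conj_mem inferInstance r hr _, rfl⟩
  -- the chain stabiliser
  have key : ∀ z ∈ U, z ≠ 1 → ∀ T : Subgroup G, R z ≤ T → ∀ v ∈ H z,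
      (∀ t ∈ T, t * v * t⁻¹ * v⁻¹ ∈ Subgroup.zpowers z) → v ∈ R z := by
    intro z hz hz1 T hRT v hv hTv
    have hzp : IsPGroup 2 ↥(Subgroup.zpowers z) := by
      refine IsPGroup.of_card (n := 1) ?_
      rw [Nat.card_zpowers, pow_one]
      exact orderOf_eq_prime (by rw [pow_two]; exact hUsq z hz) hz1
    have hcen : ∀ g ∈ H z, ∀ w ∈ Subgroup.zpowers z, g * w = w * g := by
      intro g hg w hw
      obtain ⟨k, rfl⟩ := Subgroup.mem_zpowers_iff.mp hw
      exact ((show Commute g z from (hH z hz g).mp hg).zpow_right k).eq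
    have hzH : Subgroup.zpowers z ≤ H z := Subgroup.le_normalizer
    let D : Subgroup ↥(H z) :=
      { carrier := {y | ∀ r ∈ R z, r * (y : G) * r⁻¹ * (y : G)⁻¹ ∈ Subgroup.zpowers z}
        one_mem' := fun r _ => by simp
        mul_mem' := fun {a b} ha hb r hr => by
          have e : r * ((a * b : ↥(H z)) : G) * r⁻¹ * ((a * b : ↥(H z)) : G)⁻¹ =
              (r * (a : G) * r⁻¹ * (a : G)⁻¹) * ((a : G) * (r * (b : G) * r⁻¹ * (b : G)⁻¹) * (a : G)⁻¹) := by
            simp only [Subgroup.coe_mul]; group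
          rw [e, hcen a a.2 _ (hb r hr), mul_inv_cancel_right]
          exact mul_mem (ha r hr) (hb r hr)
        inv_mem' := fun {a} ha r hr => by
          have e : r * ((a⁻¹ : ↥(H z)) : G) * r⁻¹ * ((a⁻¹ : ↥(H z)) : G)⁻¹ =
              (a : G)⁻¹ * (r * (a : G) * r⁻¹ * (a : G)⁻¹)⁻¹ * (a : G) := by
            simp only [InvMemClass.coe_inv]; group
          rw [e, hcen _ (inv_mem a.2) _ (inv_mem (ha r hr)), inv_mul_cancel_right]
          exact inv_mem (ha r hr) }
    have hDn : D.Normal := ⟨fun y hy g r hr => by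
      have hr' : (g : G)⁻¹ * r * g ∈ R z := by simpa using hRn z _ (inv_mem g.2) r hr
      have e : r * ((g * y * g⁻¹ : ↥(H z)) : G) * r⁻¹ * ((g * y * g⁻¹ : ↥(H z)) : G)⁻¹ =
          (g : G) * (((g : G)⁻¹ * r * g) * (y : G) * ((g : G)⁻¹ * r * g)⁻¹ * (y : G)⁻¹) * (g : G)⁻¹ := by
        simp only [Subgroup.coe_mul, InvMemClass.coe_inv]; group
      rw [e, hcen g g.2 _ (hy _ hr'), mul_inv_cancel_right]
      exact hy _ hr'⟩
    have hchar := h2.2 (Subgroup.zpowers z) hzp (fun h => hz1 (by
      rw [← Subgroup.mem_bot, ← h]; exact Subgroup.mem_zpowers z))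
    have hD2 : IsPGroup 2 ↥D := by
      refine CfsgLib.PCore.isPGroup_of_forall_coprime D fun y hy hcop => ?_
      have hcopG : (orderOf (y : G)).Coprime 2 := by rwa [Subgroup.orderOf_coe]
      have hc : Subgroup.zpowers (y : G) ≤ Subgroup.centralizer (R z : Set G) := by
        refine CfsgLib.CoprimeAction.le_centralizer_of_chain (N := Subgroup.zpowers z) ?_ ?_ ?_
        · rw [Nat.card_zpowers, Nat.card_zpowers,
            orderOf_eq_prime (p := 2) (by rw [pow_two]; exact hUsq z hz) hz1]
          exact hcopG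
        · rw [Subgroup.zpowers_le, Subgroup.mem_centralizer_iff]
          exact fun w hw => (hcen y y.2 w hw).symm
        · rw [Subgroup.commutator_le]
          intro r hr w hw
          obtain ⟨k, rfl⟩ := Subgroup.mem_zpowers_iff.mp hw
          have hyk : ((y ^ k : ↥(H z)) : G) = (y : G) ^ k := by simp
          rw [commutatorElement_def, ← hyk]
          exact (D.zpow_mem hy k) r hr
      have hyR : y ∈ Cfsg.pCore 2 ↥(H z) := hchar (Subgroup.mem_centralizer_iff.mpr fun r hr =>
        Subtype.ext (Subgroup.mem_centralizer_iff.mp (hc (Subgroup.mem_zpowers _)) _ ⟨r, hr, rfl⟩))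
      obtain ⟨k, hk⟩ := IsPGroup.iff_orderOf.mp (CfsgLib.Components.pCore_isPGroup (G := ↥(H z)) 2) ⟨y, hyR⟩
      rw [Subgroup.orderOf_mk] at hk
      rw [hk] at hcop
      rcases k with _ | k
      · exact orderOf_eq_one_iff.mp (by simpa using hk)
      · exact absurd hcop (by rw [Nat.coprime_two_right, Nat.not_odd_iff_even]; exact Nat.even_pow.mpr ⟨even_two, by simp⟩)
    exact ⟨⟨v, hv⟩, CfsgLib.Components.le_pCore hDn hD2 (fun r hr => hTv r (hRT hr)), rfl⟩
  -- a central involution of `P` in `U`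
  obtain ⟨u₀, hu₀, hu₀1, hu₀c⟩ : ∃ u ∈ U, u ≠ 1 ∧ ∀ p ∈ (P : Subgroup G), p * u = u * p := by
    haveI : (U.subgroupOf (P : Subgroup G)).Normal := Subgroup.normal_subgroupOf_iff_le_normalizer hUP |>.mpr hUn
    have hne : U.subgroupOf (P : Subgroup G) ≠ ⊥ := by
      intro h
      have h' := hU4.card_four
      rw [← Nat.card_congr (Subgroup.subgroupOfEquivOfLe hUP).toEquiv, h, Subgroup.card_bot] at h'
      omega
    obtain ⟨⟨w, hw⟩, hw1⟩ := Subgroup.ne_bot_iff_exists_ne_one.mp
      (CfsgLib.PReduced.inf_center_ne_bot P.isPGroup' hne)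
    refine ⟨w, Subgroup.mem_subgroupOf.mp hw.1, fun h => hw1 (Subtype.ext (Subtype.ext h)), fun p hp => ?_⟩
    exact congrArg Subtype.val (Subgroup.mem_center_iff.mp hw.2 ⟨p, hp⟩)
  have hsylow : ∀ z, ∀ S : Sylow 2 ↥(H z), R z ≤ (S : Subgroup ↥(H z)).map (H z).subtype := fun z S =>
    Subgroup.map_mono (CfsgLib.PCore.pCore_le_sylow S)
  have hUR : ∀ z ∈ U, z ≠ 1 → U ≤ R z := by
    intro z hz hz1
    by_cases hzc : ∀ p ∈ (P : Subgroup G), p * z = z * p
    · intro v hv
      have hPH : (P : Subgroup G) ≤ H z := fun p hp => (hH z hz p).mpr (hzc p hp)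
      have hRP : R z ≤ (P : Subgroup G) := by
        have := hsylow z (P.subtype hPH)
        rw [Sylow.coe_subtype, Subgroup.subgroupOf_map_subtype, inf_eq_left.mpr hPH] at this
        exact this
      refine key z hz hz1 P hRP v (hself z hz v hv) fun t ht => ?_
      by_cases hv1 : v = 1
      · subst hv1; simp
      by_cases hvz : v = z
      · subst hvz; rw [hzc t ht]; simp
      have hw : t * v * t⁻¹ ∈ U := (Subgroup.mem_normalizer_iff.mp (hUn ht) v).mp hv
      rcases hUcases z hz v hv hz1 hv1 hvz _ hw with h | h | h | h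
      · exact absurd (by calc v = t⁻¹ * (t * v * t⁻¹) * t := by group
              _ = 1 := by rw [h]; group) hv1
      · exact absurd (by calc v = t⁻¹ * (t * v * t⁻¹) * t := by group
              _ = t⁻¹ * (z * t) := by rw [h, mul_assoc]
              _ = z := by rw [← hzc t ht]; group) hvz
      · rw [h, mul_inv_cancel]; exact one_mem _
      · rw [h, mul_inv_cancel_right]; exact Subgroup.mem_zpowers z
    · -- `z` is not central, so the centre of `P` is cyclic
      have hZc : IsCyclic ↥((P : Subgroup G) ⊓ Subgroup.centralizer ((P : Subgroup G) : Set G)) := by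
        by_contra h
        exact hzc fun p hp => Subgroup.mem_centralizer_iff.mp (hUZ h hz) p hp
      have hu₀z : u₀ ≠ z := fun h => hzc (h ▸ hu₀c)
      set P₀ := (P : Subgroup G) ⊓ H z with hP₀
      obtain ⟨S, hS⟩ := ((P.isPGroup'.to_le (inf_le_left : P₀ ≤ (P : Subgroup G))).comap_subtype
        (K := H z)).exists_le_sylow
      set T := (S : Subgroup ↥(H z)).map (H z).subtype with hT
      have hP₀T : P₀ ≤ T := fun p hp => ⟨⟨p, hp.2⟩, hS hp, rfl⟩
      have hTH : T ≤ H z := Subgroup.map_subtype_le _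
      have hu₀P₀ : u₀ ∈ P₀ := ⟨hUP hu₀, hself z hz u₀ hu₀⟩
      have hzR : z ∈ R z := key z hz hz1 T (hsylow z S) z (hself z hz z hz) fun t ht => by
        rw [(hH z hz t).mp (hTH ht)]; simp
      have hu₀R : u₀ ∈ R z := key z hz hz1 T (hsylow z S) u₀ (hself z hz u₀ hu₀) fun t ht => by
        by_cases htP : t ∈ P₀
        · rw [hu₀c t htP.1]; simp
        -- here `T` is a Sylow subgroup of `G` with `P₀` of index two
        have hlt : P₀ < T := lt_of_le_of_ne hP₀T fun h => htP (h ▸ ht)
        have hcos : ∀ p ∈ (P : Subgroup G), p ∉ H z → p * z * p⁻¹ = z * u₀ := by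
          intro p hp hpH
          rcases hUcases z hz u₀ hu₀ hz1 hu₀1 hu₀z _ ((Subgroup.mem_normalizer_iff.mp (hUn hp) z).mp hz) with
            h | h | h | h
          · exact absurd (by calc z = p⁻¹ * (p * z * p⁻¹) * p := by group
                  _ = 1 := by rw [h]; group) hz1
          · exact absurd ((hH z hz p).mpr (mul_inv_eq_iff_eq_mul.mp h)) hpH
          · exact absurd (by calc z = p⁻¹ * (p * z * p⁻¹) * p := by group
                  _ = p⁻¹ * (p * u₀) := by rw [h, hu₀c p hp]; group
                  _ = u₀ := by group) hu₀z.symm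
          · exact h
        have hPidx : P₀.relIndex (P : Subgroup G) ≤ 2 := by
          obtain ⟨a, ha, haH⟩ : ∃ a ∈ (P : Subgroup G), a ∉ H z := by
            by_contra h
            push Not at h
            exact hzc fun p hp => (hH z hz p).mp (h p hp)
          refine le_of_eq ((Subgroup.index_eq_two_iff).mpr ⟨⟨a, ha⟩, fun b => ?_⟩)
          have e : ∀ c : G, c ∈ (P : Subgroup G) → (c ∈ P₀ ↔ c ∈ H z) := fun c hc => ⟨fun h => h.2, fun h => ⟨hc, h⟩⟩
          simp only [Subgroup.mem_subgroupOf, Subgroup.coe_mul]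
          rw [e _ (mul_mem b.2 ha), e _ b.2]
          by_cases hb : (b : G) ∈ H z
          · right
            exact ⟨hb, fun h => haH (by simpa using mul_mem (inv_mem hb) h)⟩
          · left
            refine ⟨(hH z hz _).mpr ?_, hb⟩
            have h1 := hcos a ha haH
            have h3 := hcos b b.2 hb
            have : (b : G) * a * z * ((b : G) * a)⁻¹ = z := by
              calc (b : G) * a * z * ((b : G) * a)⁻¹ = (b : G) * (a * z * a⁻¹) * (b : G)⁻¹ := by group
                _ = ((b : G) * z * (b : G)⁻¹) * ((b : G) * u₀ * (b : G)⁻¹) := by rw [h1]; group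
                _ = z := by rw [h3, hu₀c b b.2, mul_inv_cancel_right, mul_assoc, hUsq u₀ hu₀, mul_one]
            exact mul_inv_eq_iff_eq_mul.mp this
        have hTp : IsPGroup 2 ↥T := S.isPGroup'.map _
        obtain ⟨P', hP'⟩ := hTp.exists_le_sylow
        have hcT : Nat.card ↥T ≤ Nat.card ↥(P : Subgroup G) :=
          (Subgroup.card_le_of_le hP').trans_eq (Sylow.card_eq_multiplicity P' |>.trans (Sylow.card_eq_multiplicity P).symm)
        have hP0card : Nat.card ↥P₀ * P₀.relIndex (P : Subgroup G) = Nat.card ↥(P : Subgroup G) :=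
          hcmr _ _ (inf_le_left : P₀ ≤ (P : Subgroup G))
        have hTcard : Nat.card ↥P₀ * P₀.relIndex T = Nat.card ↥T := hcmr _ _ hP₀T
        have h2le : 2 ≤ P₀.relIndex T := by
          have h0 : P₀.relIndex T ≠ 0 := Subgroup.index_ne_zero_of_finite
          have h1 : P₀.relIndex T ≠ 1 := fun h => hlt.not_ge (Subgroup.relIndex_eq_one.mp h)
          omega
        have h0pos : 0 < Nat.card ↥P₀ := Nat.card_pos
        have hi2 : P₀.relIndex T = 2 := by nlinarith
        have hTP' : T = (P' : Subgroup G) := Subgroup.eq_of_le_of_card_ge hP' (by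
          rw [Sylow.card_eq_multiplicity P', ← Sylow.card_eq_multiplicity P, ← hP0card, ← hTcard]
          exact Nat.mul_le_mul_left _ (hPidx.trans h2le))
        haveI hn0 : (P₀.subgroupOf T).Normal := Subgroup.normal_of_index_eq_two hi2
        have ht2 : t * t ∈ P₀ := by
          have := Subgroup.sq_mem_of_index_two (H := P₀.subgroupOf T) hi2 (⟨t, ht⟩ : ↥T)
          simpa [Subgroup.mem_subgroupOf, pow_two] using this
        have hwP₀ : t * u₀ * t⁻¹ ∈ P₀ :=
          Subgroup.mem_subgroupOf.mp (hn0.conj_mem ⟨u₀, hP₀T hu₀P₀⟩ hu₀P₀ ⟨t, ht⟩)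
        have hcw : ∀ p ∈ P₀, p * (t * u₀ * t⁻¹) = (t * u₀ * t⁻¹) * p := by
          intro p hp
          have hp' : t⁻¹ * p * t ∈ P₀ := by
            simpa [Subgroup.mem_subgroupOf] using hn0.conj_mem ⟨p, hP₀T hp⟩ hp ⟨t, ht⟩⁻¹
          calc p * (t * u₀ * t⁻¹) = t * ((t⁻¹ * p * t) * u₀) * t⁻¹ := by group
            _ = _ := by rw [hu₀c _ hp'.1]; group
        set y := t * u₀ * t⁻¹ * u₀ with hy
        have hyP₀ : ∀ p ∈ P₀, p * y = y * p := fun p hp => by
          rw [hy, ← mul_assoc, hcw p hp, mul_assoc _ p, hu₀c p hp.1, ← mul_assoc]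
        have hyt : t * y = y * t := by
          have e1 : t * t * u₀ = u₀ * (t * t) := hu₀c _ ht2.1
          have e2 : t * y * t⁻¹ = (t * t * u₀ * (t * t)⁻¹) * (t * u₀ * t⁻¹) := by rw [hy]; group
          rw [e1, mul_inv_cancel_right] at e2
          have e3 : u₀ * (t * u₀ * t⁻¹) = y := hcw u₀ hu₀P₀
          rw [e3] at e2
          exact mul_inv_eq_iff_eq_mul.mp e2
        have hy2 : y * y = 1 := by
          have e3 : u₀ * (t * u₀ * t⁻¹) = y := hcw u₀ hu₀P₀
          calc y * y = (t * u₀ * t⁻¹ * u₀) * (u₀ * (t * u₀ * t⁻¹)) := by rw [e3]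
            _ = t * u₀ * t⁻¹ * (u₀ * u₀) * (t * u₀ * t⁻¹) := by group
            _ = t * u₀ * t⁻¹ * (t * u₀ * t⁻¹) := by rw [hUsq u₀ hu₀, mul_one]
            _ = t * (u₀ * u₀) * t⁻¹ := by group
            _ = 1 := by rw [hUsq u₀ hu₀]; group
        have hyC : ∀ x ∈ T, x * y = y * x := by
          intro x hx
          by_cases hxP : x ∈ P₀
          · exact hyP₀ x hxP
          have hxt : x * t ∈ P₀ := by
            simpa [Subgroup.mem_subgroupOf] using (Subgroup.mul_mem_iff_of_index_two (H := P₀.subgroupOf T) hi2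
              (a := (⟨x, hx⟩ : ↥T)) (b := ⟨t, ht⟩)).mpr (iff_of_false hxP htP)
          have := hyP₀ _ hxt
          rw [mul_assoc x t y, hyt, ← mul_assoc x y t, ← mul_assoc y x t] at this
          exact mul_right_cancel this
        have hyT : y ∈ T := mul_mem (mul_mem (mul_mem ht (hP₀T hu₀P₀)) (inv_mem ht)) (hP₀T hu₀P₀)
        rw [inv_eq_of_mul_eq_one_right (hUsq u₀ hu₀), ← hy]
        by_cases hy1 : y = 1
        · rw [hy1]; exact one_mem _
        suffices y = z by rw [this]; exact Subgroup.mem_zpowers z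
        obtain ⟨g, hg⟩ := MulAction.exists_smul_eq G P P'
        have hzT : z ∈ T := hsylow z S hzR
        let ψ : ∀ x, x ∈ T → (∀ w ∈ T, w * x = x * w) →
            ↥((P : Subgroup G) ⊓ Subgroup.centralizer ((P : Subgroup G) : Set G)) := fun x hx hxc =>
          ⟨g⁻¹ * x * g, by
            have hmem : ∀ p, p ∈ (P : Subgroup G) ↔ g * p * g⁻¹ ∈ T := fun p => by
              rw [hTP', ← hg]; exact CfsgLib.Transfer.conj_mem_smul_sylow.symm
            refine ⟨(hmem _).mpr (by convert hx using 1; group), Subgroup.mem_centralizer_iff.mpr fun p hp => ?_⟩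
            calc p * (g⁻¹ * x * g) = g⁻¹ * ((g * p * g⁻¹) * x) * g := by group
              _ = _ := by rw [hxc _ ((hmem p).mp hp)]; group⟩
        haveI := hZc
        set a := ψ y hyT hyC with ha
        set b := ψ z hzT (fun w hw => (hH z hz w).mp (hTH hw)) with hb
        have hinj : ∀ x w hx hxc hw hwc, ψ x hx hxc = ψ w hw hwc → x = w := fun x w _ _ _ _ h => by
          have := congrArg Subtype.val h
          exact mul_left_cancel (mul_right_cancel this)
        refine hinj y z hyT hyC hzT (fun w hw => (hH z hz w).mp (hTH hw)) (show a = b from ?_)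
        by_contra hab
        haveI := Fintype.ofFinite ↥((P : Subgroup G) ⊓ Subgroup.centralizer ((P : Subgroup G) : Set G))
        have hle := IsCyclic.card_pow_eq_one_le
          (α := ↥((P : Subgroup G) ⊓ Subgroup.centralizer ((P : Subgroup G) : Set G))) (n := 2) two_pos
        have hsq : ∀ x hx hxc, x * x = 1 → ψ x hx hxc ^ 2 = 1 := fun x _ _ h => Subtype.ext (by
          simp only [ψ, SubmonoidClass.coe_pow, OneMemClass.coe_one, pow_two]
          calc g⁻¹ * x * g * (g⁻¹ * x * g) = g⁻¹ * (x * x) * g := by group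
            _ = 1 := by rw [h]; group)
        have hne1 : ∀ x hx hxc, x ≠ 1 → ψ x hx hxc ≠ 1 := fun x _ _ h h' => h (by
          have := congrArg Subtype.val h'
          calc x = g * (g⁻¹ * x * g) * g⁻¹ := by group
            _ = 1 := by rw [show g⁻¹ * x * g = 1 from this]; group)
        have hsub : ({1, a, b} : Finset ↥((P : Subgroup G) ⊓ Subgroup.centralizer ((P : Subgroup G) : Set G))) ⊆
            Finset.univ.filter (fun x => x ^ 2 = 1) := by
          intro x hx
          simp only [Finset.mem_insert, Finset.mem_singleton] at hx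
          rw [Finset.mem_filter]
          refine ⟨Finset.mem_univ _, ?_⟩
          rcases hx with rfl | rfl | rfl
          exacts [one_pow _, hsq y hyT hyC hy2, hsq z hzT (fun w hw => (hH z hz w).mp (hTH hw)) (hUsq z hz)]
        have h3 : ({1, a, b} : Finset ↥((P : Subgroup G) ⊓ Subgroup.centralizer ((P : Subgroup G) : Set G))).card = 3 := by
          rw [Finset.card_insert_of_notMem, Finset.card_insert_of_notMem, Finset.card_singleton]
          · simpa using hab
          · simp only [Finset.mem_insert, Finset.mem_singleton, not_or]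
            exact ⟨(hne1 y hyT hyC hy1).symm, (hne1 z hzT (fun w hw => (hH z hz w).mp (hTH hw)) hz1).symm⟩
        have := Finset.card_le_card hsub
        omega
      intro v hv
      rcases hUcases z hz u₀ hu₀ hz1 hu₀1 hu₀z v hv with rfl | rfl | rfl | rfl
      exacts [one_mem _, hzR, hu₀R, mul_mem hzR hu₀R]
  -- conclusion
  haveI : IsMulCommutative ↥U := ⟨⟨fun a b => Subtype.ext (hUcomm a a.2 b b.2)⟩⟩
  have hcop : (Nat.card ↥U).Coprime (Nat.card ↥K) := by
    rw [hU4.card_four]; exact ((Nat.coprime_two_left).mpr hK).pow_left 2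
  have hgen : K ≤ Subgroup.centralizer (U : Set G) := by
    refine CfsgLib.CoprimeAction.le_of_centralizers_le (A := U) hU4.not_isCyclic hUK hcop fun z hz hz1 => ?_
    intro k hk
    rw [Subgroup.mem_centralizer_iff]
    intro u hu
    have hkH : k ∈ H z := (hH z hz k).mpr (Subgroup.mem_centralizer_singleton_iff.mp hk.2)
    have h1 : u * k * u⁻¹ * k⁻¹ ∈ R z := by
      rw [show u * k * u⁻¹ * k⁻¹ = u * (k * u⁻¹ * k⁻¹) by group]
      exact mul_mem (hUR z hz hz1 hu) (hRn z k hkH _ (inv_mem (hUR z hz hz1 hu)))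
    have h3 : u * k * u⁻¹ * k⁻¹ ∈ K := mul_mem ((Subgroup.mem_normalizer_iff.mp (hUK hu) k).mp hk.1) (inv_mem hk.1)
    have h4 : u * k * u⁻¹ * k⁻¹ = 1 := by
      obtain ⟨j, hj⟩ := IsPGroup.iff_card.mp (hRp z)
      have hco : (Nat.card ↥(R z)).Coprime (Nat.card ↥K) := by
        rw [hj]; exact ((Nat.coprime_two_left).mpr hK).pow_left j
      have := CfsgLib.CoprimeAction.inf_eq_bot_of_coprime hco
      rw [← Subgroup.mem_bot, ← this]
      exact ⟨h1, h3⟩
    calc u * k = (u * k * u⁻¹ * k⁻¹) * k * u := by group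
      _ = k * u := by rw [h4, one_mul]
  exact Subgroup.le_centralizer_iff.mp hgen

end Cfsg.Agent.S1957
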