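import Cfsg.Statements.S1958
import Mathlib.Tactic
import Cfsg.Agent.PCore.Descent

set_option autoImplicit false
open Cfsg
open scoped commutatorElement

namespace Cfsg.Agent.S1958

/-- Let `G` be a finite group, `p` a prime, and `x, y` commuting elements of order `p` whose centralizers `C_G(x)` and `C_G(y)` are both solvable. Then `O_{p'}(C_G(x)) ∩ C_G(y) = O_{p'}(C_G(y)) ∩ C_G(x)` (balance). -/
theorem result {G : Type*} [Group G] [Finite G]
    (p : ℕ) [Fact p.Prime] (x y : G) (hx : orderOf x = p) (hy : orderOf y = p) (hxy : x * y = y * x)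
    (hCx : Group.IsSolvable ↥(Subgroup.centralizer ({x} : Set G))) (hCy : Group.IsSolvable ↥(Subgroup.centralizer ({y} : Set G))) :
    Cfsg.centralizerPPrimeCore p x ⊓ Subgroup.centralizer {y} = Cfsg.centralizerPPrimeCore p y ⊓ Subgroup.centralizer {x} := by
  have key : ∀ a b : G, orderOf a = p → a * b = b * a →
      Group.IsSolvable ↥(Subgroup.centralizer ({b} : Set G)) →
      Cfsg.centralizerPPrimeCore p a ⊓ Subgroup.centralizer {b} ≤
        Cfsg.centralizerPPrimeCore p b ⊓ Subgroup.centralizer {a} := by
    intro a b ha hab hb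
    refine le_inf (CfsgLib.PCore.centralizerPPrimeCore_inf_le hab (n := 1) ?_
      CfsgLib.PCore.isPConstrained_of_isSolvable) fun g hg => ?_
    · rw [pow_one, ← ha, pow_orderOf_eq_one]
    · exact Subgroup.map_subtype_le _ hg.1
  exact le_antisymm (key x y hx hxy hCy) (key y x hy hxy.symm hCx)

end Cfsg.Agent.S1958
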