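import Cfsg.Statements.S1966

set_option autoImplicit false
open Cfsg

namespace Cfsg.Agent.S1966

/-- Let p be a prime, G a finite group with Sylow p-subgroup S and 𝓕 a conjugation family for S in G. Then the members of 𝓕 containing O_p(G) still form a conjugation family for S in G. -/
theorem result {G : Type*} [Group G] [Finite G] {p : ℕ} [Fact p.Prime] (S : Sylow p G) (𝓕 : Set (Subgroup G)) (h : Cfsg.IsConjugationFamily 𝓕 (S : Subgroup G)) : Cfsg.IsConjugationFamily {T : Subgroup G | T ∈ 𝓕 ∧ Cfsg.pCore p G ≤ T} (S : Subgroup G) := by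
  obtain ⟨hle, hfam⟩ := h
  have hO : Cfsg.pCore p G ≤ (S : Subgroup G) := by
    refine sSup_le ?_
    rintro N ⟨hNn, hNp⟩
    obtain ⟨Q, hQ⟩ := hNp.exists_le_sylow
    obtain ⟨g, hg⟩ := MulAction.exists_smul_eq G Q S
    intro x hx
    rw [← hg]
    refine Subgroup.mem_map.mpr ⟨g⁻¹ * x * g, hQ (by simpa using hNn.conj_mem x hx g⁻¹), ?_⟩
    change g * (g⁻¹ * x * g) * g⁻¹ = x
    group
  have hn : (Cfsg.pCore p G).Normal := Subgroup.sSup_normal _ (fun _ h => h.1)
  refine ⟨fun T hT => hle T hT.1, fun A g hA hAS hgA => ?_⟩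
  obtain ⟨n, T, x, hprod, hT, hx, h0, hstep⟩ :=
    hfam (A ∪ (Cfsg.pCore p G : Set G)) g (hA.mono Set.subset_union_left)
      (Set.union_subset hAS hO) (by
        rintro y ⟨a, ha | ha, rfl⟩
        · exact hgA ⟨a, ha, rfl⟩
        · exact hO (hn.conj_mem' a ha g))
  refine ⟨n, T, x, hprod, ?_, hx, fun h => Set.subset_union_left.trans (h0 h),
    fun i hi => (Set.image_mono Set.subset_union_left).trans (hstep i hi)⟩
  rintro ⟨i, hi⟩
  refine ⟨hT _, ?_⟩
  cases i with
  | zero => exact Set.subset_union_right.trans (h0 hi)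
  | succ i =>
    intro y hy
    refine hstep ⟨i, by omega⟩ hi ⟨((List.ofFn x).take (i + 1)).prod * y * (((List.ofFn x).take (i + 1)).prod)⁻¹,
      Or.inr (hn.conj_mem y hy _), ?_⟩
    dsimp only
    group

end Cfsg.Agent.S1966
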