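import Cfsg.Statements.S1967
import Mathlib.Tactic
import Cfsg.Agent.ConjFunctor.LocalGlobal

set_option autoImplicit false
open Cfsg
open scoped commutatorElement

namespace Cfsg.Agent.S1967

/-- Let p be a prime, G a finite group with Sylow p-subgroup S and W a conjugacy functor for p on G. Then W controls strong fusion in G if and only if, whenever T ≤ S and g ∈ G satisfy gTg⁻¹ ≤ S, one can write g = n c with n ∈ N_G(W(S)) and c ∈ C_G(T). -/
theorem result {G : Type*} [Group G] [Finite G] {p : ℕ} [Fact p.Prime] (S : Sylow p G) (W : Subgroup G → Subgroup G) (hW : Cfsg.IsConjugacyFunctor p W) : Cfsg.ControlsStrongFusionIn p W ⊤ ↔ ∀ (T : Subgroup G) (g : G), T ≤ (S : Subgroup G) → T.map (MulAut.conj g).toMonoidHom ≤ (S : Subgroup G) → ∃ n ∈ Subgroup.normalizer ((W (S : Subgroup G) : Subgroup G) : Set G), ∃ c ∈ Subgroup.centralizer (T : Set G), g = n * c := by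
  constructor
  · intro hc T g hT hg
    obtain ⟨x, ⟨-, hx⟩, hx'⟩ := CfsgLib.ConjFunctor.strongFusion_transport hW hc le_top S.isPGroup'
      (by rw [Subgroup.relIndex_top_right]; exact S.not_dvd_index) (A := (T : Set G)) (x := g) (Subgroup.mem_top _)
      hT (fun a ha => hg ⟨a, ha, rfl⟩)
    refine ⟨x, hx, x⁻¹ * g, Subgroup.mem_centralizer_iff.mpr fun a ha => ?_, by group⟩
    have h1 := hx' a ha
    calc a * (x⁻¹ * g) = x⁻¹ * (x * a * x⁻¹) * g := by group
      _ = x⁻¹ * g * a := by rw [h1]; group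
  · intro h
    refine ⟨S, le_top, S.isPGroup', by rw [Subgroup.relIndex_top_right]; exact S.not_dvd_index, fun A g _ hA hgA => ?_⟩
    have hT : Subgroup.closure A ≤ (S : Subgroup G) := (Subgroup.closure_le _).mpr hA
    obtain ⟨n, hn, c, hc, rfl⟩ := h (Subgroup.closure A) g hT (by
      rw [MonoidHom.map_closure, Subgroup.closure_le]
      rintro _ ⟨a, ha, rfl⟩
      exact hgA ⟨a, ha, rfl⟩)
    refine ⟨n, ⟨Subgroup.mem_top _, hn⟩, fun a ha => ?_⟩
    have := Subgroup.mem_centralizer_iff.mp hc a (Subgroup.subset_closure ha)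
    calc n * a * n⁻¹ = n * (a * c) * c⁻¹ * n⁻¹ := by group
      _ = n * c * a * (n * c)⁻¹ := by rw [this]; group

end Cfsg.Agent.S1967
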