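import Cfsg.Statements.S1969
import Cfsg.Agent.ConjFunctor.SectionFusion
import Mathlib.Tactic

set_option autoImplicit false
universe u
open Cfsg
open scoped commutatorElement

namespace Cfsg.Agent.S1969

theorem exists_mem_of_link {G : Type*} [Group G] {T : Subgroup G} {V : Subgroup G → Subgroup G} {A : Set G} {x : G}
    (h : CfsgLib.ConjFunctor.Link T {V} A x) :
    ∃ n ∈ Subgroup.normalizer (V T : Set G), ∀ a ∈ A, x * a * x⁻¹ = n * a * n⁻¹ := by
  induction h with
  | nil hA h => exact ⟨1, Subgroup.one_mem _, fun a ha => by rw [h a ha]; group⟩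
  | @cons A x y W hW m hm hA _ he ih =>
    obtain ⟨n, hn, hy⟩ := ih
    rw [Set.mem_singleton_iff] at hW
    subst hW
    refine ⟨n * m, Subgroup.mul_mem _ hn hm, fun a ha => ?_⟩
    rw [he a ha, show y * m * a * (y * m)⁻¹ = y * (m * a * m⁻¹) * y⁻¹ by group, hy _ ⟨a, ha, rfl⟩]
    group


/-- Let p be a prime, G a finite group and W an isomorphism-invariant p-group functor (W assigns to every group Q a subgroup W(Q), nontrivial whenever Q is a nontrivial finite p-group, and every isomorphism from a finite p-group Q onto a group R carries W(Q) onto W(R)). Suppose that W(S*) is normal in G* whenever G* = K/R is a section of G with C_{G*}(O_p(G*)) ≤ O_p(G*) and S* is a Sylow p-subgroup of G*. Then W controls strong fusion in every section of G: for every section K/R and every Sylow p-subgroup T of K/R, the subgroup W(T) controls strong fusion in K/R. -/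
theorem result {G : Type u} [Group G] [Finite G] {p : ℕ} [Fact p.Prime] (W : ∀ (Q : Type u) [Group Q], Subgroup Q) (hW : Cfsg.IsCharPFunctor.{u} p W) (hloc : ∀ (K R : Subgroup G) [hR : (R.subgroupOf K).Normal], Subgroup.centralizer ((Cfsg.pCore p (↥K ⧸ R.subgroupOf K) : Subgroup (↥K ⧸ R.subgroupOf K)) : Set (↥K ⧸ R.subgroupOf K)) ≤ Cfsg.pCore p (↥K ⧸ R.subgroupOf K) → ∀ T : Sylow p (↥K ⧸ R.subgroupOf K), (Cfsg.inducedFunctor (G := (↥K ⧸ R.subgroupOf K)) W ((T : Subgroup (↥K ⧸ R.subgroupOf K)))).Normal) : ∀ (K R : Subgroup G) [hR : (R.subgroupOf K).Normal], ∀ T : Sylow p (↥K ⧸ R.subgroupOf K), Cfsg.ControlsStrongFusion p (Cfsg.inducedFunctor (G := (↥K ⧸ R.subgroupOf K)) W ((T : Subgroup (↥K ⧸ R.subgroupOf K)))) := by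
  intro K R _ T
  have h𝓦 : ∀ V ∈ ({W} : Set (∀ (Q : Type u) [Group Q], Subgroup Q)), Cfsg.IsCharPFunctor.{u} p V :=
    fun V hV => by rw [Set.mem_singleton_iff] at hV; subst hV; exact hW
  have hall := CfsgLib.ConjFunctor.SectionFusion.fused_of_min h𝓦 (G := G) (fun K R _ hpr =>
    CfsgLib.ConjFunctor.SectionFusion.fctl_of_proper h𝓦 hpr fun hc => by
      obtain ⟨T₀⟩ : Nonempty (Sylow p (↥K ⧸ R.subgroupOf K)) := inferInstance
      refine ⟨T₀, le_top, T₀.isPGroup', by rw [Subgroup.relIndex_top_right]; exact T₀.not_dvd_index,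
        fun A h _ hA hhA => ?_⟩
      refine ⟨1, ![1, h], rfl, fun i => ?_, fun i => ?_, fun a _ => rfl⟩
      · refine ⟨_, ⟨W, rfl, rfl⟩, Subgroup.mem_top _, ?_⟩
        haveI := hloc K R hc T₀
        rw [Subgroup.normalizer_eq_top]
        trivial
      · fin_cases i
        · simpa using hA
        · simpa using hhA)
  refine ⟨T, Subgroup.map_subtype_le _, fun A hA => ⟨hA, fun g hg => ?_⟩⟩
  have hl := CfsgLib.ConjFunctor.SectionFusion.link_of_controlsIn
    (CfsgLib.ConjFunctor.TransferSection.image_isConjugacyFunctor h𝓦) T le_top (hall K R) (A := A) (x := g) trivial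
    (fun a ha => hA ha) (fun a ha => hg ⟨a, ha, rfl⟩)
  rw [Set.image_singleton] at hl
  exact exists_mem_of_link hl

end Cfsg.Agent.S1969
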