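import Cfsg.Statements.S1975

set_option autoImplicit false
open Cfsg

namespace Cfsg.Agent.S1975

/-- Let P be a finite p-group. In the K-sequence of P the odd-indexed terms decrease and the even-indexed terms increase: with the numbering used here, kSeqOdd P (n+1) ≤ kSeqOdd P n and kSeqEven P n ≤ kSeqEven P (n+1) for every n. -/
theorem result {P : Type*} [Group P] [Finite P] {p : ℕ} [Fact p.Prime] (hP : IsPGroup p P) (n : ℕ) : Cfsg.kSeqOdd P (n + 1) ≤ Cfsg.kSeqOdd P n ∧ Cfsg.kSeqEven P n ≤ Cfsg.kSeqEven P (n + 1) := by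
  have hU : ∀ Q R : Subgroup P, Q ≤ R → sSup (Cfsg.kUpperStarFamily R) ≤ sSup (Cfsg.kUpperStarFamily Q) :=
    fun Q R h => sSup_le_sSup fun B hB => ⟨hB.1, (Subgroup.commutator_mono le_rfl h).trans hB.2⟩
  have hL : ∀ Q R : Subgroup P, Q ≤ R → sSup (Cfsg.kLowerStarFamily R) ≤ sSup (Cfsg.kLowerStarFamily Q) :=
    fun Q R h => sSup_le_sSup fun B hB => ⟨hB.1, h.trans hB.2.1, fun A hA hAQ => hB.2.2 A hA (hAQ.trans h)⟩
  have h : ∀ n, Cfsg.kSeqOdd P (n + 1) ≤ Cfsg.kSeqOdd P n := by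
    intro n
    induction n with
    | zero => exact le_top
    | succ n ih => exact hU _ _ (hL _ _ ih)
  exact ⟨h n, hL _ _ (h n)⟩

end Cfsg.Agent.S1975
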