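import Cfsg.Statements.S1976
import Cfsg.Agent.S1975

set_option autoImplicit false
open Cfsg

namespace Cfsg.Agent.S1976

/-- Let P be a finite p-group. The K-sequence of P is eventually constant on each parity: from some index on, every even-indexed term equals the lower K-infinity subgroup and every odd-indexed term equals the upper K-infinity subgroup. -/
theorem result {P : Type*} [Group P] [Finite P] {p : ℕ} [Fact p.Prime] (hP : IsPGroup p P) : ∃ n : ℕ, ∀ m : ℕ, n ≤ m → Cfsg.kSeqEven P m = Cfsg.kInfLower P ∧ Cfsg.kSeqOdd P m = Cfsg.kInfUpper P := by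
  have ho : Antitone (Cfsg.kSeqOdd P) := antitone_nat_of_succ_le fun n => (Cfsg.Agent.S1975.result hP n).1
  have he : Monotone (Cfsg.kSeqEven P) := monotone_nat_of_le_succ fun n => (Cfsg.Agent.S1975.result hP n).2
  have : Finite (Subgroup P) := Finite.of_injective _ SetLike.coe_injective
  obtain ⟨i, j, hne, hij⟩ := Finite.exists_ne_map_eq_of_infinite (Cfsg.kSeqOdd P)
  wlog hlt : i < j generalizing i j with H
  · exact H j i hne.symm hij.symm (by omega)
  have hs : Cfsg.kSeqOdd P (i + 1) = Cfsg.kSeqOdd P i :=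
    le_antisymm (ho (Nat.le_succ i)) (hij ▸ ho hlt)
  have hall : ∀ m, i ≤ m → Cfsg.kSeqOdd P m = Cfsg.kSeqOdd P i := by
    intro m hm
    induction m, hm using Nat.le_induction with
    | base => rfl
    | succ m hm ih => rw [Cfsg.kSeqOdd, ih, ← Cfsg.kSeqOdd]; exact hs
  have halle : ∀ m, i ≤ m → Cfsg.kSeqEven P m = Cfsg.kSeqEven P i := fun m hm => by
    rw [Cfsg.kSeqEven, hall m hm, ← Cfsg.kSeqEven]
  refine ⟨i, fun m hm => ⟨le_antisymm (le_iSup (Cfsg.kSeqEven P) m) (iSup_le fun k => ?_),
    le_antisymm (le_iInf fun k => ?_) (iInf_le (Cfsg.kSeqOdd P) m)⟩⟩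
  · rw [halle m hm]
    rcases le_total k i with h | h
    · exact he h
    · exact (halle k h).le
  · rw [hall m hm]
    rcases le_total k i with h | h
    · exact ho h
    · exact (hall k h).ge

end Cfsg.Agent.S1976
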