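import Cfsg.Statements.S1990
import Mathlib.Tactic
import Cfsg.Agent.ConjFunctor.ComplementTransport

set_option autoImplicit false
universe u
open Cfsg
open scoped commutatorElement

namespace Cfsg.Agent.S1990

/-- Let p be an odd prime, G a finite group with Sylow p-subgroup S, and W an isomorphism-invariant p-group functor (W assigns to every group Q a subgroup W(Q), nontrivial whenever Q is a nontrivial finite p-group, and every isomorphism from a finite p-group Q onto a group R carries W(Q) onto W(R)). Suppose N_G(W(S)) has a normal p-complement, and W(T) controls strong fusion in every section G* = K/R of G all of whose sections are p-stable in the normalizer form, for every Sylow p-subgroup T of G*. Then G has a normal p-complement. -/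
theorem result {G : Type u} [Group G] [Finite G] {p : ℕ} [Fact p.Prime] (hp : p ≠ 2) (W : ∀ (Q : Type u) [Group Q], Subgroup Q) (hW : Cfsg.IsCharPFunctor.{u} p W) (S : Sylow p G) (hN : Cfsg.HasNormalPComplement p ↥(Subgroup.normalizer ((Cfsg.inducedFunctor (G := G) W (S : Subgroup G) : Subgroup G) : Set G))) (hctl : ∀ (K R : Subgroup G) [hR : (R.subgroupOf K).Normal], (∀ (K' R' : Subgroup (↥K ⧸ R.subgroupOf K)) [hR' : (R'.subgroupOf K').Normal], Cfsg.IsNormalizerPStable p (↥K' ⧸ R'.subgroupOf K')) → ∀ T : Sylow p (↥K ⧸ R.subgroupOf K), Cfsg.ControlsStrongFusion p (Cfsg.inducedFunctor (G := (↥K ⧸ R.subgroupOf K)) W (T : Subgroup (↥K ⧸ R.subgroupOf K)))) : Cfsg.HasNormalPComplement p G := by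
  refine CfsgLib.ConjFunctor.Complement.functor_criterion hW
    (fun Y _ => (∀ (L : Type u) [Group L] [Finite L] (K : Subgroup Y) (f : K →* L), Function.Surjective f →
        Cfsg.IsNormalizerPStable p L) →
      ∀ T : Sylow p Y, Cfsg.ControlsStrongFusion p (Cfsg.inducedFunctor W (T : Subgroup Y)))
    (fun Y _ _ K f hf hst T => ?_) ?_ S hN
  · have he : (f.ker.map K.subtype).subgroupOf K = f.ker :=
      Subgroup.comap_map_eq_self_of_injective K.subtype_injective _
    haveI : ((f.ker.map K.subtype).subgroupOf K).Normal := by rw [he]; exact f.normal_ker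
    let e : (↥K ⧸ (f.ker.map K.subtype).subgroupOf K) ≃* Y :=
      (QuotientGroup.quotientMulEquivOfEq he).trans (QuotientGroup.quotientKerEquivOfSurjective f hf)
    obtain ⟨T₀, hT₀⟩ := CfsgLib.ConjFunctor.Complement.exists_sylow_map e T
    obtain ⟨U, hU, hctl⟩ := hctl K (f.ker.map K.subtype) (fun K' R' _ => hst _ (K'.map e.toMonoidHom)
      ((QuotientGroup.mk' (R'.subgroupOf K')).comp (K'.equivMapOfInjective e.toMonoidHom e.injective).symm.toMonoidHom)
      ((QuotientGroup.mk'_surjective _).comp (MulEquiv.surjective _))) T₀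
    refine ⟨U.mapSurjective (f := e.toMonoidHom) e.surjective, ?_, ?_⟩
    · rw [← hT₀, CfsgLib.ConjFunctor.Complement.induced_map hW e.toMonoidHom T₀.2
        (fun x _ hx => e.injective (hx.trans (map_one e).symm))]
      exact Subgroup.map_mono hU
    · intro A hA
      refine ⟨hA, fun g hg => ?_⟩
      have hmem : ∀ a ∈ A, e.symm a ∈ (U : Subgroup _) := fun a ha => by
        obtain ⟨u, hu, hu'⟩ := hA ha
        rw [show e.symm a = u from e.symm_apply_eq.2 hu'.symm]
        exact hu
      obtain ⟨z, hz, hz'⟩ := (hctl (e.symm '' A) (by rintro _ ⟨a, ha, rfl⟩; exact hmem a ha)).2 (e.symm g) (by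
        rintro _ ⟨_, ⟨a, ha, rfl⟩, rfl⟩
        obtain ⟨u, hu, hu'⟩ := hg ⟨a, ha, rfl⟩
        have h1 : u = e.symm g * e.symm a * (e.symm g)⁻¹ := by
          have := congrArg e.symm (show e u = g * a * g⁻¹ from hu')
          simpa using this
        show e.symm g * e.symm a * (e.symm g)⁻¹ ∈ (U : Subgroup _)
        exact h1 ▸ hu)
      refine ⟨e z, ?_, fun a ha => ?_⟩
      · rw [← hT₀, CfsgLib.ConjFunctor.Complement.induced_map hW e.toMonoidHom T₀.2
          (fun x _ hx => e.injective (hx.trans (map_one e).symm))]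
        exact Subgroup.le_normalizer_map e.toMonoidHom ⟨z, hz, rfl⟩
      · have := congrArg e (hz' (e.symm a) ⟨a, ha, rfl⟩)
        simpa using this
  · intro H _ _ P hH hm
    have hst : ∀ (L : Type u) [Group L] [Finite L] (K : Subgroup H) (f : K →* L), Function.Surjective f →
        Cfsg.IsNormalizerPStable p L := fun L _ _ K f hf =>
      CfsgLib.QdFree.isNormalizerPStable_of_sl2Free hp fun h =>
        CfsgLib.ConjFunctor.Complement.not_involves_sl2 hp hm
          (CfsgLib.ConjFunctor.Complement.involves_trans_section f hf h)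
    obtain ⟨U, hU, hctl⟩ := hH H ⊤ (Subgroup.topEquiv (G := H)).toMonoidHom (Subgroup.topEquiv (G := H)).surjective
      (fun L _ _ K f hf => hst L K f hf) P
    rw [← Subgroup.normalizer_eq_top_iff]
    have hnP : Subgroup.normalizer ((P : Subgroup H) : Set H) ≤
        Subgroup.normalizer ((Cfsg.inducedFunctor W (P : Subgroup H) : Subgroup H) : Set H) := by
      intro g hg
      rw [Subgroup.mem_normalizer_iff_map_conj_eq] at hg ⊢
      exact (CfsgLib.ConjFunctor.Complement.induced_map hW (MulAut.conj g).toMonoidHom P.2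
        (fun x _ hx => (MulAut.conj g).injective (hx.trans (map_one (MulAut.conj g)).symm))).symm.trans
        (congrArg (fun Q : Subgroup H => Cfsg.inducedFunctor W Q) hg)
    rcases hm.eq_or_eq_top _ (Subgroup.le_normalizer.trans hnP) with hN | hN
    · exfalso
      apply hm.not_npc
      -- fusion in `U` is realized in `P = N(W P)`, which is then `U`
      have hWP : ∀ g : H, g ∈ Subgroup.normalizer ((Cfsg.inducedFunctor W (P : Subgroup H) : Subgroup H) : Set H) →
          g ∈ (P : Subgroup H) := fun g hg => hN ▸ hg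
      have hUP : (U : Subgroup H) ≤ (P : Subgroup H) := by
        intro v hv
        obtain ⟨z, hz, hz'⟩ := (hctl _ Set.Subset.rfl).2 v (by
          rintro _ ⟨a, ha, rfl⟩
          exact (U : Subgroup H).mul_mem ((U : Subgroup H).mul_mem hv ha) ((U : Subgroup H).inv_mem hv))
        have h1 : z⁻¹ * v ∈ Subgroup.centralizer ((U : Subgroup H) : Set H) :=
          Subgroup.mem_centralizer_iff.2 fun a ha => by
            have h2 := hz' a ha
            calc a * (z⁻¹ * v) = z⁻¹ * (z * a * z⁻¹) * v := by group
              _ = z⁻¹ * v * a := by rw [← h2]; group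
        have h3 := (P : Subgroup H).mul_mem (hWP z hz)
          (hWP _ (Subgroup.centralizer_le_normalizer _ (Subgroup.centralizer_le hU h1)))
        simpa using h3
      have hUP' : (U : Subgroup H) = (P : Subgroup H) :=
        Subgroup.eq_of_le_of_card_ge hUP (by rw [Sylow.card_eq_multiplicity, Sylow.card_eq_multiplicity])
      refine CfsgLib.Transfer.frobenius_normal_complement (CfsgLib.Transfer.locallyTrivial_of_sylow P ?_)
      intro Q hQ g hg ho
      obtain ⟨z, hz, hz'⟩ := (hctl (Q : Set H) (hUP' ▸ hQ)).2 g (by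
        rintro _ ⟨a, ha, rfl⟩
        rw [hUP']
        exact hQ ((Subgroup.mem_normalizer_iff.1 hg a).1 ha))
      have hzN : z ∈ Subgroup.normalizer (Q : Set H) := Subgroup.mem_normalizer_fintype fun a ha => by
        rw [SetLike.mem_coe, ← hz' a ha]
        exact (Subgroup.mem_normalizer_iff.1 hg a).1 ha
      set φ := Q.normalizerMonoidHom with hφ
      have he : φ ⟨g, hg⟩ = φ ⟨z, hzN⟩ := MulEquiv.ext fun a => Subtype.ext (hz' (a : H) a.2)
      obtain ⟨j, hj⟩ := P.2 ⟨z, hWP z hz⟩
      have h1 : φ ⟨g, hg⟩ ^ orderOf g = 1 := by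
        rw [← map_pow, show (⟨g, hg⟩ : ↥(Subgroup.normalizer (Q : Set H))) ^ orderOf g = 1 from
          Subtype.ext (pow_orderOf_eq_one g), map_one]
      have h2 : φ ⟨g, hg⟩ ^ (p ^ j) = 1 := by
        rw [he, ← map_pow, show (⟨z, hzN⟩ : ↥(Subgroup.normalizer (Q : Set H))) ^ (p ^ j) = 1 from
          Subtype.ext (show z ^ p ^ j = 1 from congrArg Subtype.val hj), map_one]
      have h3 := pow_gcd_eq_one.mpr ⟨h1, h2⟩
      rw [(ho.pow_right j).gcd_eq_one, pow_one] at h3
      exact Subgroup.mem_centralizer_iff.2 fun a ha => by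
        have h4 : g * a * g⁻¹ = a := congrArg Subtype.val (MulEquiv.congr_fun h3 ⟨a, ha⟩)
        calc a * g = g * a * g⁻¹ * g := by rw [h4]
          _ = g * a := by group
    · exact hN

end Cfsg.Agent.S1990
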