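import Cfsg.Statements.S1993
import Cfsg.Agent.S1984
-- import your own Cfsg.Agent.* helpers here

set_option autoImplicit false
universe u
open Cfsg

namespace Cfsg.Agent.S1993

/-- Let p be a prime, G a finite group with Sylow p-subgroup S, and K the upper K-infinity subgroup of S. If p ≥ 5 then S ∩ G' = S ∩ (N_G(K))'; and if p is odd and every section of G is p-stable in the normalizer form, then K controls strong fusion in G. -/
theorem result {G : Type u} [Group G] [Finite G] {p : ℕ} [Fact p.Prime] (S : Sylow p G) : (5 ≤ p → (S : Subgroup G) ⊓ commutator G = (S : Subgroup G) ⊓ ⁅Subgroup.normalizer ((Cfsg.inducedFunctor Cfsg.kInfUpper (S : Subgroup G) : Subgroup G) : Set G), Subgroup.normalizer ((Cfsg.inducedFunctor Cfsg.kInfUpper (S : Subgroup G) : Subgroup G) : Set G)⁆) ∧ (p ≠ 2 → (∀ (K R : Subgroup G) [hR : (R.subgroupOf K).Normal], Cfsg.IsNormalizerPStable p (↥K ⧸ R.subgroupOf K)) → Cfsg.ControlsStrongFusion p (Cfsg.inducedFunctor Cfsg.kInfUpper (S : Subgroup G))) := by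
  refine ⟨fun hp5 => ?_, fun hp2 hst => CfsgLib.KInf.controlsStrongFusion_kInfUpper hp2
    (CfsgLib.KInf.not_involves_qd_of_stable hp2 hst) S⟩
  have hW := CfsgLib.KInf.isCharPFunctor_kInfUpper.{u} (p := p)
  have hsec := Cfsg.Agent.S1972.result (G := G) (p := p) Cfsg.kInfUpper hW (fun K R _ _ T hn => by
    obtain ⟨g, hgT, hgO, hg, -, -⟩ := Cfsg.Agent.S1983.result T (Or.inr hn)
    refine ⟨g, hgT, hgO, fun U V hch hU => ?_⟩
    haveI := hch.2.2.1
    exact Cfsg.Agent.S1984.iter_le_succ (hg U V hch hU) (p - 1) (by omega))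
  have hc : Cfsg.ControlsTransferIn p (Cfsg.inducedFunctor (G := G) Cfsg.kInfUpper) ⊤ := by
    refine (CfsgLib.ConjFunctor.TransferSection.ctl_singleton_iff _).1
      (CfsgLib.ConjFunctor.TransferSection.ctl_self (fun V hV => ?_) fun K R _ =>
        (CfsgLib.ConjFunctor.TransferSection.ctl_singleton_iff _).2 (hsec K R))
    rw [Set.mem_singleton_iff.1 hV]
    exact hW
  have h := CfsgLib.ConjFunctor.transfer_transport
    (CfsgLib.ConjFunctor.TransferSection.isConjugacyFunctor_induced hW) hc le_top S.isPGroup'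
    (by rw [Subgroup.relIndex_top_right]; exact S.not_dvd_index)
  rw [top_inf_eq, ← commutator_def] at h
  exact h

end Cfsg.Agent.S1993
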