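import Cfsg.Statements.S1997
import Cfsg.Agent.ConjFunctor.OmegaClosure
-- import your own Cfsg.Agent.* helpers here

set_option autoImplicit false
universe u
open Cfsg

namespace Cfsg.Agent.S1997

/-- Let p be a prime, G a finite group with Sylow p-subgroup S, and W₁, W₂ two isomorphism-invariant p-group functors (W assigns to every group Q a subgroup W(Q), nontrivial whenever Q is a nontrivial finite p-group, and every isomorphism from a finite p-group Q onto a group R carries W(Q) onto W(R)). Suppose that G* = C_{G*}(Ω₁Z(S*)) N_{G*}(W₁(S*)) = C_{G*}(Ω₁Z(S*)) N_{G*}(W₂(S*)) = N_{G*}(W₁(S*)) N_{G*}(W₂(S*)) whenever G* = K/R is a section of G with C_{G*}(O_p(G*)) ≤ O_p(G*) and S* is a Sylow p-subgroup of G*, where Ω₁Z denotes the subgroup generated by the elements of order dividing p in the centre. Suppose also Ω₁Z(S) ≤ W₁(S) ∩ W₂(S), and let A be the normal closure of Ω₁Z(S) in N_G(W₁(S)).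 Then A is an elementary abelian subgroup of S, strongly closed in S with respect to G, and A controls strong fusion in G. -/
theorem result {G : Type u} [Group G] [Finite G] {p : ℕ} [Fact p.Prime] (S : Sylow p G) (W₁ W₂ : ∀ (Q : Type u) [Group Q], Subgroup Q) (hW₁ : Cfsg.IsCharPFunctor.{u} p W₁) (hW₂ : Cfsg.IsCharPFunctor.{u} p W₂) (hfac : ∀ (K R : Subgroup G) [hR : (R.subgroupOf K).Normal], Subgroup.centralizer ((Cfsg.pCore p (↥K ⧸ R.subgroupOf K) : Subgroup (↥K ⧸ R.subgroupOf K)) : Set (↥K ⧸ R.subgroupOf K)) ≤ Cfsg.pCore p (↥K ⧸ R.subgroupOf K) → ∀ T : Sylow p (↥K ⧸ R.subgroupOf K), (∀ x : (↥K ⧸ R.subgroupOf K), ∃ a ∈ Subgroup.centralizer ((Cfsg.omegaOne p ((T : Subgroup (↥K ⧸ R.subgroupOf K)) ⊓ Subgroup.centralizer (((T : Subgroup (↥K ⧸ R.subgroupOf K)) : Subgroup (↥K ⧸ R.subgroupOf K)) : Set (↥K ⧸ R.subgroupOf K))) : Subgroup (↥K ⧸ R.subgroupOf K)) : Set (↥K ⧸ R.subgroupOf K)), ∃ b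 ∈ Subgroup.normalizer ((Cfsg.inducedFunctor (G := (↥K ⧸ R.subgroupOf K)) W₁ (T : Subgroup (↥K ⧸ R.subgroupOf K)) : Subgroup (↥K ⧸ R.subgroupOf K)) : Set (↥K ⧸ R.subgroupOf K)), x = a * b) ∧ (∀ x : (↥K ⧸ R.subgroupOf K), ∃ a ∈ Subgroup.centralizer ((Cfsg.omegaOne p ((T : Subgroup (↥K ⧸ R.subgroupOf K)) ⊓ Subgroup.centralizer (((T : Subgroup (↥K ⧸ R.subgroupOf K)) : Subgroup (↥K ⧸ R.subgroupOf K)) : Set (↥K ⧸ R.subgroupOf K))) : Subgroup (↥K ⧸ R.subgroupOf K)) : Set (↥K ⧸ R.subgroupOf K)), ∃ b ∈ Subgroup.normalizer ((Cfsg.inducedFunctor (G := (↥K ⧸ R.subgroupOf K)) W₂ (T : Subgroup (↥K ⧸ R.subgroupOf K)) : Subgroup (↥K ⧸ R.subgroupOf K)) : Set (↥K ⧸ R.subgroupOf K)), x = a * b) ∧ (∀ x : (↥K ⧸ R.subgroupOf K), ∃ a ∈ Subgroup.normalizer ((Cfsg.inducedFunctor (G := (↥K ⧸ R.subgroupOf K)) W₁ (T : Subgroup (↥K ⧸ R.subgroupOf K)) : Subgroup (↥K ⧸ R.subgroupOf K)) : Set (↥K ⧸ R.subgroupOf K)), ∃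 b ∈ Subgroup.normalizer ((Cfsg.inducedFunctor (G := (↥K ⧸ R.subgroupOf K)) W₂ (T : Subgroup (↥K ⧸ R.subgroupOf K)) : Subgroup (↥K ⧸ R.subgroupOf K)) : Set (↥K ⧸ R.subgroupOf K)), x = a * b)) (hZ : Cfsg.omegaOne p ((S : Subgroup G) ⊓ Subgroup.centralizer (((S : Subgroup G) : Subgroup G) : Set G)) ≤ Cfsg.inducedFunctor (G := G) W₁ (S : Subgroup G) ⊓ Cfsg.inducedFunctor (G := G) W₂ (S : Subgroup G)) (N₁ : Subgroup G) (hN₁ : N₁ = Subgroup.normalizer ((Cfsg.inducedFunctor (G := G) W₁ (S : Subgroup G) : Subgroup G) : Set G)) (A : Subgroup G) (hA : A = (Subgroup.normalClosure (((Cfsg.omegaOne p ((S : Subgroup G) ⊓ Subgroup.centralizer (((S : Subgroup G) : Subgroup G) : Set G))).subgroupOf N₁ : Subgroup ↥N₁) : Set ↥N₁)).map N₁.subtype) : A ≤ (S : Subgroup G) ∧ Cfsg.IsElementaryAbelian p A ∧ Cfsg.IsStronglyClosed A (S : Subgroup G) ∧ Cfsg.ControlsStrongFusion p A := by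
  set V₁ := Cfsg.inducedFunctor (G := G) W₁ (S : Subgroup G) with hV₁
  set V₂ := Cfsg.inducedFunctor (G := G) W₂ (S : Subgroup G) with hV₂
  have h𝓦 : ∀ W ∈ ({W₁, W₂} : Set (∀ (Q : Type u) [Group Q], Subgroup Q)), Cfsg.IsCharPFunctor.{u} p W := by
    rintro W (rfl | rfl) <;> assumption
  have hS₁ : (S : Subgroup G) ≤ Subgroup.normalizer (V₁ : Set G) := Subgroup.le_normalizer.trans
    (CfsgLib.ConjFunctor.normalizer_le_normalizer_functor (CfsgLib.ConjFunctor.TransferSection.isConjugacyFunctor_induced hW₁) S.isPGroup')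
  have hS₂ : (S : Subgroup G) ≤ Subgroup.normalizer (V₂ : Set G) := Subgroup.le_normalizer.trans
    (CfsgLib.ConjFunctor.normalizer_le_normalizer_functor (CfsgLib.ConjFunctor.TransferSection.isConjugacyFunctor_induced hW₂) S.isPGroup')
  have hV₁S : V₁ ≤ (S : Subgroup G) := Subgroup.map_subtype_le _
  have hV₂S : V₂ ≤ (S : Subgroup G) := Subgroup.map_subtype_le _
  have hAB : A = CfsgLib.ConjFunctor.OmegaClosure.orbitClosure p (S : Subgroup G) N₁ := by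
    rw [hA]; exact CfsgLib.ConjFunctor.OmegaClosure.orbitClosure_eq_normalClosure (hN₁ ▸ hS₁)
  subst hN₁
  have hconj : ∀ (n : G) (V : Subgroup G), n ∈ Subgroup.normalizer (V : Set G) → ∀ z ∈ V, n * z * n⁻¹ ∈ V :=
    fun n V hn z hz => (Subgroup.mem_normalizer_iff.1 hn z).1 hz
  have hle : CfsgLib.ConjFunctor.OmegaClosure.orbitClosure p (S : Subgroup G) (Subgroup.normalizer (V₁ : Set G)) ≤ V₁ :=
    (Subgroup.closure_le _).2 fun y ⟨z, hz, n, hn, e⟩ => e ▸ hconj n V₁ hn z (hZ hz).1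
  have hgen : ∀ y ∈ A, y ∈ (S : Subgroup G) := fun y hy => hV₁S (hle (hAB ▸ hy))
  have hAA : CfsgLib.ConjFunctor.OmegaClosure.orbitClosure p (S : Subgroup G) (Subgroup.normalizer (V₂ : Set G)) =
      CfsgLib.ConjFunctor.OmegaClosure.orbitClosure p (S : Subgroup G) (Subgroup.normalizer (V₁ : Set G)) := by
    refine le_antisymm ((Subgroup.closure_le _).2 ?_) ((Subgroup.closure_le _).2 ?_)
    · rintro _ ⟨z, hz, m, hm, rfl⟩
      obtain ⟨n, hn, e⟩ := CfsgLib.ConjFunctor.OmegaClosure.orbit hW₁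
        (fun K R _ h T => (hfac K R h T).1) S hV₂S hS₂ (hZ hz).2 hz hm
      exact Subgroup.subset_closure ⟨z, hz, n, hn, e⟩
    · rintro _ ⟨z, hz, m, hm, rfl⟩
      obtain ⟨n, hn, e⟩ := CfsgLib.ConjFunctor.OmegaClosure.orbit hW₂
        (fun K R _ h T => (hfac K R h T).2.1) S hV₁S hS₁ (hZ hz).1 hz hm
      exact Subgroup.subset_closure ⟨z, hz, n, hn, e⟩
  have hNA : ∀ W ∈ (fun W : ∀ (Q : Type u) [Group Q], Subgroup Q => Cfsg.inducedFunctor (G := G) W) '' {W₁, W₂},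
      Subgroup.normalizer (W (S : Subgroup G) : Set G) ≤ Subgroup.normalizer (A : Set G) := by
    rintro _ ⟨W, hW | hW, rfl⟩ <;> subst hW <;> rw [hAB]
    · exact CfsgLib.ConjFunctor.OmegaClosure.le_normalizer_orbitClosure _ _
    · rw [← hAA]; exact CfsgLib.ConjFunctor.OmegaClosure.le_normalizer_orbitClosure _ _
  have hctl : Cfsg.FamilyControlsStrongFusionIn p
      ((fun W : ∀ (Q : Type u) [Group Q], Subgroup Q => Cfsg.inducedFunctor (G := G) W) '' {W₁, W₂}) ⊤ :=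
    CfsgLib.ConjFunctor.SectionFusion.fctl_of_constrained h𝓦 fun K R _ hc => by
      obtain ⟨T⟩ : Nonempty (Sylow p (↥K ⧸ R.subgroupOf K)) := inferInstance
      exact CfsgLib.ConjFunctor.Factorization.familyControlsStrongFusion_of_mul
        (CfsgLib.ConjFunctor.TransferSection.image_isConjugacyFunctor h𝓦) T
        ⟨W₁, Or.inl rfl, rfl⟩ ⟨W₂, Or.inr rfl, rfl⟩ (hfac K R hc T).2.2
  have hfus : ∀ (B : Set G) (g : G), (∀ b ∈ B, b ∈ (S : Subgroup G)) → (∀ b ∈ B, g * b * g⁻¹ ∈ (S : Subgroup G)) →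
      ∃ n ∈ Subgroup.normalizer (A : Set G), ∀ b ∈ B, g * b * g⁻¹ = n * b * n⁻¹ := fun B g hB hgB =>
    CfsgLib.ConjFunctor.OmegaClosure.exists_mem_of_link hNA
      (CfsgLib.ConjFunctor.SectionFusion.link_of_controlsIn
        (CfsgLib.ConjFunctor.TransferSection.image_isConjugacyFunctor h𝓦) S le_top hctl (Subgroup.mem_top g) hB hgB)
  have hAc : IsMulCommutative A := by
    have key : ∀ y ∈ {y : G | ∃ z ∈ CfsgLib.ConjFunctor.OmegaClosure.omegaZ p (S : Subgroup G),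
        ∃ n ∈ Subgroup.normalizer (V₁ : Set G), y = n * z * n⁻¹},
        ∀ y' ∈ {y : G | ∃ z ∈ CfsgLib.ConjFunctor.OmegaClosure.omegaZ p (S : Subgroup G),
        ∃ n ∈ Subgroup.normalizer (V₁ : Set G), y = n * z * n⁻¹}, y * y' = y' * y := by
      rintro _ ⟨z, hz, n, hn, rfl⟩ _ ⟨w, hw, k, hk, rfl⟩
      have h1 : n⁻¹ * k * w * (n⁻¹ * k)⁻¹ ∈ (S : Subgroup G) := hV₁S (hconj _ V₁
        ((Subgroup.normalizer (V₁ : Set G)).mul_mem ((Subgroup.normalizer (V₁ : Set G)).inv_mem hn) hk) w (hZ hw).1)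
      have h2 := (CfsgLib.ConjFunctor.OmegaClosure.mem_omegaZ hz).2.1 _ h1
      calc n * z * n⁻¹ * (k * w * k⁻¹) = n * (z * (n⁻¹ * k * w * (n⁻¹ * k)⁻¹)) * n⁻¹ := by group
        _ = n * ((n⁻¹ * k * w * (n⁻¹ * k)⁻¹) * z) * n⁻¹ := by rw [h2]
        _ = k * w * k⁻¹ * (n * z * n⁻¹) := by group
    rw [hAB]
    exact Subgroup.isMulCommutative_closure key
  refine ⟨hgen, ⟨hAc, ?_⟩, ⟨hgen, fun x hx g hg => ?_⟩, ⟨S, hgen, fun B hB => ⟨hB, fun g hg => ?_⟩⟩⟩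
  · intro a ha
    rw [hAB] at ha
    have h := Subgroup.closure_induction (p := fun x _ => x ∈ A ∧ x ^ p = 1) ?_ ?_ ?_ ?_ ha
    · exact h.2
    · rintro y ⟨z, hz, n, hn, rfl⟩
      refine ⟨hAB ▸ Subgroup.subset_closure ⟨z, hz, n, hn, rfl⟩, ?_⟩
      rw [conj_pow, (CfsgLib.ConjFunctor.OmegaClosure.mem_omegaZ hz).2.2, mul_one, mul_inv_cancel]
    · exact ⟨A.one_mem, one_pow p⟩
    · intro x y hx' hy' hx hy
      refine ⟨A.mul_mem hx.1 hy.1, ?_⟩
      have hc : Commute x y := congrArg Subtype.val (hAc.is_comm.comm ⟨x, hx.1⟩ ⟨y, hy.1⟩)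
      rw [hc.mul_pow, hx.2, hy.2, mul_one]
    · intro x _ hx
      exact ⟨A.inv_mem hx.1, by rw [inv_pow, hx.2, inv_one]⟩
  · obtain ⟨n, hn, e⟩ := hfus {x} g (by rintro _ rfl; exact hgen _ hx) (by rintro _ rfl; exact hg)
    rw [e x rfl]
    exact (Subgroup.mem_normalizer_iff.1 hn x).1 hx
  · obtain ⟨n, hn, e⟩ := hfus B g (fun b hb => hB hb) (fun b hb => hg ⟨b, hb, rfl⟩)
    exact ⟨n, hn, e⟩

end Cfsg.Agent.S1997
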