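import Cfsg.Statements.S2007
import Cfsg.Agent.Transfer.Frobenius

set_option autoImplicit false
open Cfsg
open scoped commutatorElement

namespace Cfsg.Agent.S2007

/-- Let p be a prime, G a finite group with Sylow p-subgroup S, and T a normal subgroup of S containing C_S(T). If N_G(T)/C_G(T) is a p-group (every element of N_G(T) of order prime to p centralizes T), then N_G(T) has a normal p-complement. -/
theorem result {G : Type*} [Group G] [Finite G] {p : ℕ} [Fact p.Prime] (S : Sylow p G) (T : Subgroup G) (hTS : T ≤ (S : Subgroup G)) (hTn : (S : Subgroup G) ≤ Subgroup.normalizer ((T : Subgroup G) : Set G)) (hC : (S : Subgroup G) ⊓ Subgroup.centralizer ((T : Subgroup G) : Set G) ≤ T) (hN : ∀ g ∈ Subgroup.normalizer ((T : Subgroup G) : Set G), (orderOf g).Coprime p → g ∈ Subgroup.centralizer ((T : Subgroup G) : Set G)) : Cfsg.HasNormalPComplement p ↥(Subgroup.normalizer ((T : Subgroup G) : Set G)) := by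
  set N := Subgroup.normalizer ((T : Subgroup G) : Set G) with hNdef
  set R := Cfsg.pResidual p N with hR
  have hRn : R.Normal := CfsgLib.Transfer.pResidual_normal
  have hRC : ∀ r ∈ R, ((r : N) : G) ∈ Subgroup.centralizer ((T : Subgroup G) : Set G) := by
    intro r hr
    induction hr using Subgroup.closure_induction with
    | mem g hg => exact hN g g.2 (by rwa [Subgroup.orderOf_coe])
    | one => exact one_mem _
    | mul a b _ _ ha hb => exact mul_mem ha hb
    | inv a _ ha => exact inv_mem ha
  obtain ⟨U, hU⟩ := CfsgLib.Transfer.exists_sylow_map_eq_inf (S.subtype hTn) R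
  have hUT : ∀ x ∈ U, ((x : N) : G) ∈ T := by
    intro x hx
    have h1 := hU.le (Subgroup.mem_map_of_mem R.subtype hx)
    exact hC ⟨h1.1, hRC _ x.2⟩
  have hb : Cfsg.HasNormalPComplement p R := by
    refine CfsgLib.Transfer.burnside_normal_complement U fun r _ => Subgroup.mem_centralizer_iff.2 fun x hx => ?_
    exact Subtype.ext (Subtype.ext (Subgroup.mem_centralizer_iff.1 (hRC r r.2) _ (hUT x hx)))
  rw [CfsgLib.Transfer.hasNormalPComplement_iff_inf (S.subtype hTn)]
  have h2 := (CfsgLib.Transfer.hasNormalPComplement_iff_inf U).1 hb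
  rw [CfsgLib.Transfer.pResidual_pResidual, top_inf_eq] at h2
  rw [inf_comm, ← hU, h2, Subgroup.map_bot]

end Cfsg.Agent.S2007
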