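import Cfsg.Statements.S2008

set_option autoImplicit false
open Cfsg

namespace Cfsg.Agent.S2008

/-- Let H be a finite group and z an involution such that every proper normal subgroup of H meets the centralizer of z trivially, and suppose z lies in a Klein four-subgroup E of H all three of whose involutions are conjugate to z in H. Then H has no non-trivial abelian normal subgroup. -/
theorem result {H : Type*} [Group H] [Finite H] (z : H) (hz : orderOf z = 2) (hN : ∀ N : Subgroup H, N.Normal → N ≠ ⊤ → N ⊓ Subgroup.centralizer ({z} : Set H) = ⊥) (E : Subgroup H) (hE : IsKleinFour ↥E) (hzE : z ∈ E) (hc : ∀ e ∈ E, e ≠ 1 → IsConj z e) (N : Subgroup H) [N.Normal] (hab : IsMulCommutative ↥N) : N = ⊥ := by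
  have hsq : ∀ e ∈ E, e * e = 1 := fun e he => by
    have h := hE.exponent_two
    have := Monoid.pow_exponent_eq_one (⟨e, he⟩ : E)
    rw [h] at this
    simpa [pow_two] using congrArg Subtype.val this
  by_contra hN0
  have hNt : N ≠ ⊤ := by
    rintro rfl
    have : ∀ e ∈ E, e ≠ 1 → e = z := fun e he he1 => by
      obtain ⟨g, hg⟩ := isConj_iff.mp (hc e he he1)
      rw [← hg, show g * z = z * g from congrArg Subtype.val (hab.is_comm.comm ⟨g, trivial⟩ ⟨z, trivial⟩)]
      group
    have hle : E ≤ Subgroup.zpowers z := fun e he => by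
      by_cases he1 : e = 1
      · exact he1 ▸ one_mem _
      · exact (this e he he1).symm ▸ Subgroup.mem_zpowers z
    have := Subgroup.card_le_of_le hle
    rw [Nat.card_zpowers, hz, hE.card_four] at this
    omega
  have hinv : ∀ e ∈ E, e ≠ 1 → ∀ x ∈ N, e * x * e = x⁻¹ := by
    intro e he he1 x hx
    obtain ⟨g, hg⟩ := isConj_iff.mp (hc e he he1)
    have hzz : z * z = 1 := hsq z hzE
    have key : ∀ y ∈ N, z * y * z = y⁻¹ := by
      intro y hy
      have hzy : z * y * z ∈ N := by
        have := (inferInstance : N.Normal).conj_mem y hy z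
        rwa [inv_eq_of_mul_eq_one_right hzz] at this
      have hcomm : y * (z * y * z) = (z * y * z) * y :=
        congrArg Subtype.val (hab.is_comm.comm ⟨y, hy⟩ ⟨_, hzy⟩)
      have : y * (z * y * z) ∈ N ⊓ Subgroup.centralizer ({z} : Set H) := by
        refine ⟨mul_mem hy hzy, Subgroup.mem_centralizer_singleton_iff.mpr ?_⟩
        calc y * (z * y * z) * z = y * z * y * (z * z) := by group
          _ = (z * z) * y * z * y := by rw [hzz]; group
          _ = z * ((z * y * z) * y) := by group
          _ = z * (y * (z * y * z)) := by rw [hcomm]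
      rw [hN N inferInstance hNt, Subgroup.mem_bot] at this
      exact (inv_eq_of_mul_eq_one_right this).symm
    have h2 := key (g⁻¹ * x * g) (by simpa using (inferInstance : N.Normal).conj_mem x hx g⁻¹)
    rw [← hg]
    calc g * z * g⁻¹ * x * (g * z * g⁻¹) = g * (z * (g⁻¹ * x * g) * z) * g⁻¹ := by group
      _ = x⁻¹ := by rw [h2]; group
  obtain ⟨e, he, he1, hez⟩ : ∃ e ∈ E, e ≠ 1 ∧ e ≠ z := by
    by_contra hcon
    push_neg at hcon
    have hle : E ≤ Subgroup.zpowers z := fun e he => by
      by_cases he1 : e = 1
      · exact he1 ▸ one_mem _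
      · exact (hcon e he he1).symm ▸ Subgroup.mem_zpowers z
    have := Subgroup.card_le_of_le hle
    rw [Nat.card_zpowers, hz, hE.card_four] at this
    omega
  have hne : e * z ≠ 1 := fun h => hez (by
    calc e = e * (z * z) := by rw [hsq z hzE, mul_one]
      _ = z := by rw [← mul_assoc, h, one_mul])
  have hz1 : z ≠ 1 := fun h => by rw [h] at hz; simp at hz
  refine hN0 ((Subgroup.eq_bot_iff_forall N).mpr fun x hx => ?_)
  have hez2 : z * e = e * z := by
    have := hsq (e * z) (mul_mem he hzE)
    calc z * e = (e * e) * (z * e) * (z * z) := by rw [hsq e he, hsq z hzE]; group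
      _ = e * (e * z * (e * z)) * z := by group
      _ = e * z := by rw [this]; group
  have h3 : x = x⁻¹ := by
    calc x = (x⁻¹)⁻¹ := (inv_inv x).symm
      _ = e * x⁻¹ * e := (hinv e he he1 _ (inv_mem hx)).symm
      _ = e * (z * x * z) * e := by rw [hinv z hzE hz1 x hx]
      _ = (e * z) * x * (z * e) := by group
      _ = (e * z) * x * (e * z) := by rw [hez2]
      _ = x⁻¹ := hinv _ (mul_mem he hzE) hne x hx
  have hxc : x ∈ N ⊓ Subgroup.centralizer ({z} : Set H) := by
    refine ⟨hx, Subgroup.mem_centralizer_singleton_iff.mpr ?_⟩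
    have h4 := hinv z hzE hz1 x hx
    calc x * z = (z * z) * x * z := by rw [hsq z hzE, one_mul]
      _ = z * (z * x * z) := by group
      _ = z * x := by rw [h4, ← h3]
  rwa [hN N inferInstance hNt, Subgroup.mem_bot] at hxc

end Cfsg.Agent.S2008
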