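import Cfsg.Statements.S2009
import Cfsg.Agent.S2008

set_option autoImplicit false
open Cfsg

namespace Cfsg.Agent.S2009

/-- Let H be a finite group and z an involution such that every proper normal subgroup of H meets the centralizer of z trivially, and suppose z lies in a Klein four-subgroup E of H all three of whose involutions are conjugate to z in H. Then H is simple. -/
theorem result {H : Type*} [Group H] [Finite H] (z : H) (hz : orderOf z = 2) (hN : ∀ N : Subgroup H, N.Normal → N ≠ ⊤ → N ⊓ Subgroup.centralizer ({z} : Set H) = ⊥) (E : Subgroup H) (hE : IsKleinFour ↥E) (hzE : z ∈ E) (hc : ∀ e ∈ E, e ≠ 1 → IsConj z e) : IsSimpleGroup H := by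
  have : Nontrivial H := nontrivial_of_ne z 1 (fun h => by rw [h] at hz; simp at hz)
  refine ⟨fun N hNn => ?_⟩
  by_contra hcon
  push_neg at hcon
  obtain ⟨h0, ht⟩ := hcon
  have hzz : z * z = 1 := by rw [← pow_two, ← hz, pow_orderOf_eq_one]
  let φ : ↥N →* ↥N :=
    { toFun := fun x => ⟨z * x * z⁻¹, hNn.conj_mem x x.2 z⟩
      map_one' := Subtype.ext (by simp)
      map_mul' := fun a b => Subtype.ext (by simp [mul_assoc]) }
  have hfix : MonoidHom.FixedPointFree φ := by
    intro x hx
    have h1 : z * (x:H) * z⁻¹ = x := congrArg Subtype.val hx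
    have : (x : H) ∈ N ⊓ Subgroup.centralizer ({z} : Set H) :=
      ⟨x.2, Subgroup.mem_centralizer_singleton_iff.mpr (mul_inv_eq_iff_eq_mul.mp h1).symm⟩
    rw [hN N hNn ht, Subgroup.mem_bot] at this
    exact Subtype.ext this
  have h2 : Function.Involutive φ := fun x => Subtype.ext (by
    change z * (z * x * z⁻¹) * z⁻¹ = (x : H)
    rw [inv_eq_of_mul_eq_one_right hzz]
    calc z * (z * x * z) * z = (z * z) * x * (z * z) := by group
      _ = x := by rw [hzz]; group)
  exact h0 (Cfsg.Agent.S2008.result z hz hN E hE hzE hc N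
    ⟨⟨fun a b => hfix.commute_all_of_involutive h2 a b⟩⟩)

end Cfsg.Agent.S2009
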