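import Cfsg.Statements.S2035
import Cfsg.Agent.SchurCert.Cover12
import Cfsg.Agent.Schur.Pullback
import Cfsg.Agent.Schur.Stemify
import Cfsg.Agent.Schur.Basic

set_option autoImplicit false
open Cfsg

namespace Cfsg.Agent.S2035

/-- The Schur multiplier of the Mathieu group M₁₂ (the stabiliser of a dodecad in the automorphism group of the length-24 binary code) is cyclic of order 2; here the Schur multiplier is described through stem extensions, as in the definitions: surjective homomorphisms onto the group from a finite group, whose kernel is central in that finite group and contained in that finite group's commutator subgroup. -/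
theorem result : Cfsg.HasCyclicSchurMultiplier ↥Cfsg.Spor.M12 2 := by
  let eA : (CfsgLib.SchurCert.Cover12.sigma).ker ≃* Multiplicative (ZMod 2) :=
    mulEquivOfPrimeCardEq (p := 2) CfsgLib.SchurCert.Cover12.card_ker (by simp)
  have htriv : Cfsg.HasCyclicSchurMultiplier ↥CfsgLib.SchurCert.Cover12.cov 1 :=
    CfsgLib.Schur.hasTrivial_of fun Δ _ _ ρ hρ => CfsgLib.SchurCert.Cover12.cov_stem_trivial ρ hρ
  refine ⟨⟨↥CfsgLib.SchurCert.Cover12.cov, inferInstance, inferInstance, CfsgLib.SchurCert.Cover12.sigma,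
    CfsgLib.SchurCert.Cover12.sigma_stem, ⟨eA⟩⟩, fun Γ _ _ τ hτ => ?_⟩
  obtain ⟨π, hπ⟩ := CfsgLib.Schur.exists_surj_ker CfsgLib.SchurCert.Cover12.sigma_stem hτ fun z hz hz1 => by
    have hbot := CfsgLib.Schur.inf_commutator_eq_bot_of_trivial htriv (CfsgLib.Schur.pfst CfsgLib.SchurCert.Cover12.sigma τ)
      (CfsgLib.Schur.pfst_surjective hτ.1) (CfsgLib.Schur.pfst_ker_le_center hτ.2.1)
    have hz2 : z ∈ (CfsgLib.Schur.pfst CfsgLib.SchurCert.Cover12.sigma τ).ker ⊓ commutator _ := ⟨hz1, hz⟩
    rw [hbot, Subgroup.mem_bot] at hz2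
    rw [hz2]
    rfl
  exact ⟨π.comp eA.symm.toMonoidHom, hπ.comp eA.symm.surjective⟩

end Cfsg.Agent.S2035
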