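import Cfsg.Statements.S2037
import Cfsg.Agent.MathieuCover.Data23
import Cfsg.Agent.MathieuOut.Cards
import Cfsg.Agent.Schur.SylowCover

set_option autoImplicit false
open Cfsg

namespace Cfsg.Agent.S2037


open CfsgLib.Golay CfsgLib.MathieuTwo CfsgLib.MathieuCover CfsgLib.Schur
open scoped commutatorElement

theorem group_eq : fixGroup CfsgLib.MathieuCover.C23.fixd = Cfsg.Spor.M23 := by
  rw [← K23_eq]
  exact congrArg fixGroup (by decide +kernel)

theorem card_eq : Nat.card (fixGroup CfsgLib.MathieuCover.C23.fixd) = 10200960 := by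
  rw [group_eq]; exact CfsgLib.MathieuOut.card_M23

open CfsgLib.MathieuCover.C23 in
theorem no_prime_cover (Δ : Type) [Group Δ] [Finite Δ]
    (τ : Δ →* ↥(fixGroup CfsgLib.MathieuCover.C23.fixd)) (e : Δ) (p : ℕ) (hp : p.Prime)
    (hc : PrimeCover τ e p) (he : e ∈ commutator Δ) : False := by
  haveI := Fact.mk hp
  by_cases hd : p ∣ 10200960
  · have hmem : p = 2 ∨ p = 3 ∨ p = 5 ∨ p = 7 ∨ p = 11 ∨ p = 23 := by
      rw [show (10200960 : ℕ) = 2 ^ 7 * 3 ^ 2 * 5 ^ 1 * 7 ^ 1 * 11 ^ 1 * 23 ^ 1 by norm_num] at hd
      simp only [hp.dvd_mul] at hd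
      rcases hd with ((((h | h) | h) | h) | h) | h
      · exact Or.inl ((Nat.prime_dvd_prime_iff_eq hp (by norm_num)).1 (hp.dvd_of_dvd_pow h))
      · exact Or.inr (Or.inl ((Nat.prime_dvd_prime_iff_eq hp (by norm_num)).1 (hp.dvd_of_dvd_pow h)))
      · exact Or.inr (Or.inr (Or.inl ((Nat.prime_dvd_prime_iff_eq hp (by norm_num)).1 (hp.dvd_of_dvd_pow h))))
      · exact Or.inr (Or.inr (Or.inr (Or.inl ((Nat.prime_dvd_prime_iff_eq hp (by norm_num)).1 (hp.dvd_of_dvd_pow h)))))
      · exact Or.inr (Or.inr (Or.inr (Or.inr (Or.inl ((Nat.prime_dvd_prime_iff_eq hp (by norm_num)).1 (hp.dvd_of_dvd_pow h))))))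
      · exact Or.inr (Or.inr (Or.inr (Or.inr (Or.inr (((Nat.prime_dvd_prime_iff_eq hp (by norm_num)).1 (hp.dvd_of_dvd_pow h)))))))
    rcases hmem with rfl | rfl | rfl | rfl | rfl | rfl
    · refine no_double_cover split_ok (N := 10200960) ?_ ?_ card_eq (by decide) (by decide) τ e hc he
      · exact le_of_le_of_eq (CfsgLib.MathieuTwo.grp_le D23.group_ok) (congrArg fixGroup (show CfsgLib.MathieuTwo.D23.fixd = fixd by decide +kernel))
      · exact card_grp D23.group_ok
    · obtain ⟨T, hT⟩ := pair_sylow tree3_ok uv_ok card_eq (by decide) (by decide)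
      exact no_cover_abelian hc he T hT fun U V hU hV => act_commute act_ok (by decide) hc hU hV
    · exact no_cyclic_cover x5_ok card_eq (by decide) (by decide) τ e hc he
    · exact no_cyclic_cover x7_ok card_eq (by decide) (by decide) τ e hc he
    · exact no_cyclic_cover x11_ok card_eq (by decide) (by decide) τ e hc he
    · exact no_cyclic_cover x23_ok card_eq (by decide) (by decide) τ e hc he
  · exact no_coprime_cover card_eq hd τ e hc he


/-- The Schur multiplier of the Mathieu group M₂₃ (the stabiliser of a point in the automorphism group of the length-24 binary code) is trivial; here the Schur multiplier is described through stem extensions, as in the definitions: surjective homomorphisms onto the group from a finite group, whose kernel is central in that finite group and contained in that finite group's commutator subgroup. -/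
theorem result : Cfsg.HasCyclicSchurMultiplier ↥Cfsg.Spor.M23 1 := by
  rw [← group_eq]
  exact hasTrivial_of fun Γ _ _ σ hσ => ker_eq_bot_of_no_cover hσ fun Δ _ _ τ e p hp hc he =>
    no_prime_cover Δ τ e p hp hc he

end Cfsg.Agent.S2037
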