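import Cfsg.Statements.S2038
import Cfsg.Agent.MathieuCover.Data24
import Cfsg.Agent.MathieuOut.Cards
import Cfsg.Agent.Schur.SylowCover

set_option autoImplicit false
open Cfsg

namespace Cfsg.Agent.S2038


open CfsgLib.Golay CfsgLib.MathieuTwo CfsgLib.MathieuCover CfsgLib.Schur
open scoped commutatorElement

theorem group_eq : fixGroup CfsgLib.MathieuCover.C24.fixd = Cfsg.M24 := by
  rw [← K24_eq]
  exact congrArg fixGroup (by decide +kernel)

theorem card_eq : Nat.card (fixGroup CfsgLib.MathieuCover.C24.fixd) = 244823040 := by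
  rw [group_eq]; exact CfsgLib.MathieuOut.card_M24'

open CfsgLib.MathieuCover.C24 in
theorem no_prime_cover (Δ : Type) [Group Δ] [Finite Δ]
    (τ : Δ →* ↥(fixGroup CfsgLib.MathieuCover.C24.fixd)) (e : Δ) (p : ℕ) (hp : p.Prime)
    (hc : PrimeCover τ e p) (he : e ∈ commutator Δ) : False := by
  haveI := Fact.mk hp
  by_cases hd : p ∣ 244823040
  · have hmem : p = 2 ∨ p = 3 ∨ p = 5 ∨ p = 7 ∨ p = 11 ∨ p = 23 := by
      rw [show (244823040 : ℕ) = 2 ^ 10 * 3 ^ 3 * 5 ^ 1 * 7 ^ 1 * 11 ^ 1 * 23 ^ 1 by norm_num] at hd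
      simp only [hp.dvd_mul] at hd
      rcases hd with ((((h | h) | h) | h) | h) | h
      · exact Or.inl ((Nat.prime_dvd_prime_iff_eq hp (by norm_num)).1 (hp.dvd_of_dvd_pow h))
      · exact Or.inr (Or.inl ((Nat.prime_dvd_prime_iff_eq hp (by norm_num)).1 (hp.dvd_of_dvd_pow h)))
      · exact Or.inr (Or.inr (Or.inl ((Nat.prime_dvd_prime_iff_eq hp (by norm_num)).1 (hp.dvd_of_dvd_pow h))))
      · exact Or.inr (Or.inr (Or.inr (Or.inl ((Nat.prime_dvd_prime_iff_eq hp (by norm_num)).1 (hp.dvd_of_dvd_pow h)))))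
      · exact Or.inr (Or.inr (Or.inr (Or.inr (Or.inl ((Nat.prime_dvd_prime_iff_eq hp (by norm_num)).1 (hp.dvd_of_dvd_pow h))))))
      · exact Or.inr (Or.inr (Or.inr (Or.inr (Or.inr (((Nat.prime_dvd_prime_iff_eq hp (by norm_num)).1 (hp.dvd_of_dvd_pow h)))))))
    rcases hmem with rfl | rfl | rfl | rfl | rfl | rfl
    · refine no_double_cover split_ok (N := 244823040) ?_ ?_ card_eq (by decide) (by decide) τ e hc he
      · exact le_of_le_of_eq (CfsgLib.MathieuTwo.grp_le D24.group_ok) (congrArg fixGroup (show CfsgLib.MathieuTwo.D24.fixd = fixd by decide +kernel))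
      · exact card_grp D24.group_ok
    · obtain ⟨T, hT⟩ := pair_sylow tree3_ok uv_ok card_eq (by decide) (by decide)
      have h := z_ok
      simp only [Bool.and_eq_true, CfsgLib.MathieuTwo.eqTab_iff, Bool.not_eq_true'] at h
      obtain ⟨⟨⟨hels, hz⟩, hne⟩, hu3⟩ := h
      obtain ⟨uv', ue⟩ := el_spec hels (c := u) (by simp)
      obtain ⟨vv', ve⟩ := el_spec hels (c := v) (by simp)
      obtain ⟨zv', ze⟩ := el_spec hels (c := z) (by simp)
      have hzc : ⁅el fixd u, el fixd v⁆ = el fixd z := by
        rw [commutatorElement_def, mul_inv_eq_iff_eq_mul, mul_inv_eq_iff_eq_mul, mul_assoc]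
        apply Subtype.ext
        simp only [Subgroup.coe_mul, ue, ve, ze]
        obtain ⟨h1, h2⟩ := mulTab_spec vv' uv'
        rw [← h2, ← (mulTab_spec uv' vv').2, ← (mulTab_spec zv' h1).2, hz]
      refine no_cover_heisenberg hc he T hT ?_ ?_ ?_ ?_
      · apply Subtype.ext
        rw [Subgroup.coe_pow, ue, ← (CfsgLib.MathieuOut.powT_spec uv' 3).2, hu3, permOf_idT]; rfl
      · rw [hzc]
        intro h1
        rw [CfsgLib.MathieuTwo.eqTab_iff.2 ((CfsgLib.MathieuOut.eq_idT_iff zv').2 (ze ▸ congrArg Subtype.val h1))] at hne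
        simp at hne
      · exact fun U Z hU hZ => act_commute act_u (by decide) hc hU (hzc ▸ hZ)
      · exact fun V Z hV hZ => act_commute act_v (by decide) hc hV (hzc ▸ hZ)
    · exact no_cyclic_cover x5_ok card_eq (by decide) (by decide) τ e hc he
    · exact no_cyclic_cover x7_ok card_eq (by decide) (by decide) τ e hc he
    · exact no_cyclic_cover x11_ok card_eq (by decide) (by decide) τ e hc he
    · exact no_cyclic_cover x23_ok card_eq (by decide) (by decide) τ e hc he
  · exact no_coprime_cover card_eq hd τ e hc he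


/-- The Schur multiplier of the Mathieu group M₂₄ (the automorphism group of the length-24 binary code) is trivial; here the Schur multiplier is described through stem extensions, as in the definitions: surjective homomorphisms onto the group from a finite group, whose kernel is central in that finite group and contained in that finite group's commutator subgroup. -/
theorem result : Cfsg.HasCyclicSchurMultiplier ↥Cfsg.M24 1 := by
  rw [← group_eq]
  exact hasTrivial_of fun Γ _ _ σ hσ => ker_eq_bot_of_no_cover hσ fun Δ _ _ τ e p hp hc he =>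
    no_prime_cover Δ τ e p hp hc he

end Cfsg.Agent.S2038
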