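import Cfsg.Statements.S2086
import Cfsg.Agent.S2117
import Cfsg.Agent.Schur.Pullback
import Cfsg.Agent.Schur.Stemify
import Cfsg.Agent.Schur.SLnMult
import Cfsg.Agent.SLn.Card
-- import your own Cfsg.Agent.* helpers here

set_option autoImplicit false
open Cfsg

namespace Cfsg.Agent.S2086

/-- Schur multipliers of the linear groups: for n ≥ 2 and a field F with q elements (q ≥ 4 when n = 2), apart from the five exceptional pairs (n, q) = (2, 4), (2, 9), (3, 2), (3, 4), (4, 2), the Schur multiplier of PSL_n(F) is cyclic of order gcd(n, q − 1); here the Schur multiplier is described through stem extensions, as in the definitions. -/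
theorem result {F : Type*} [Field F] [Fintype F] {q : ℕ} (hF : Fintype.card F = q) (n : ℕ) (hn : 2 ≤ n) (h2 : n = 2 → 4 ≤ q) (hexc : (n, q) ∉ ({(2, 4), (2, 9), (3, 2), (3, 4), (4, 2)} : Set (ℕ × ℕ))) : Cfsg.HasCyclicSchurMultiplier (Matrix.ProjectiveSpecialLinearGroup (Fin n) F) (Nat.gcd n (q - 1)) := by
  classical
  subst hF
  have hcard : Nat.card F = Fintype.card F := Nat.card_eq_fintype_card
  haveI : Nontrivial (Fin n) := Fin.nontrivial_iff_two_le.mpr hn
  simp only [Set.mem_insert_iff, Set.mem_singleton_iff, Prod.mk.injEq, not_or] at hexc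
  obtain ⟨hx1, hx2, hx3, hx4, hx5⟩ := hexc
  have htriv : Cfsg.HasCyclicSchurMultiplier (Matrix.SpecialLinearGroup (Fin n) F) 1 := by
    by_cases h : n = 2
    · subst h
      exact Cfsg.Agent.S2117.result (fun e => hx1 ⟨rfl, e⟩) (fun e => hx2 ⟨rfl, e⟩)
    · refine CfsgLib.Schur.SLMult.multiplier_trivial (by rw [Fintype.card_fin]; omega) ⟨?_, ?_⟩
      · rw [Fintype.card_fin, hcard]
        rintro ⟨e, e' | e'⟩
        · exact hx3 ⟨e, e'⟩
        · exact hx4 ⟨e, e'⟩
      · rw [Fintype.card_fin, hcard]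
        exact hx5
  have hperf : commutator (Matrix.SpecialLinearGroup (Fin n) F) = ⊤ := by
    refine CfsgLib.SLn.commutator_eq_top ?_
    by_cases h : n = 2
    · right
      obtain ⟨x, hx⟩ := CfsgLib.Schur.SLMult.exists_sq_ne (F := F) (by rw [hcard]; exact h2 h)
      exact ⟨(x : F), x.ne_zero, fun e => hx (Units.ext (by push_cast; exact e))⟩
    · left; rw [Fintype.card_fin]; omega
  let f : Matrix.SpecialLinearGroup (Fin n) F →* Matrix.ProjectiveSpecialLinearGroup (Fin n) F :=
    QuotientGroup.mk' (Subgroup.center _)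
  have hker : f.ker = Subgroup.center _ := QuotientGroup.ker_mk' _
  have hf : Cfsg.IsStemExtension f :=
    ⟨QuotientGroup.mk'_surjective _, hker.le, by rw [hperf]; exact le_top⟩
  have hcardk : Nat.card f.ker = Nat.gcd n (Fintype.card F - 1) := by
    rw [hker, CfsgLib.SLn.card_center_SL F n (by omega)]
  haveI : NeZero (Nat.gcd n (Fintype.card F - 1)) := ⟨fun e => by
    have := Nat.eq_zero_of_gcd_eq_zero_left e; omega⟩
  have hcyc : IsCyclic f.ker := by
    rw [hker]
    exact (Matrix.SpecialLinearGroup.center_equiv_rootsOfUnity (n := Fin n) (R := F)).isCyclic.2 inferInstance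
  let eA : f.ker ≃* Multiplicative (ZMod (Nat.gcd n (Fintype.card F - 1))) :=
    mulEquivOfCyclicCardEq (by
      rw [hcardk, Nat.card_eq_fintype_card, Fintype.card_multiplicative, ZMod.card])
  refine ⟨⟨_, inferInstance, inferInstance, f, hf, ⟨eA⟩⟩, fun Γ _ _ σ hσ => ?_⟩
  obtain ⟨π, hπ⟩ := CfsgLib.Schur.exists_surj_ker hf hσ fun z hz hz1 => by
    have hbot := CfsgLib.Schur.inf_commutator_eq_bot_of_trivial htriv (CfsgLib.Schur.pfst f σ)
      (CfsgLib.Schur.pfst_surjective hσ.1) (CfsgLib.Schur.pfst_ker_le_center hσ.2.1)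
    have hz2 : z ∈ (CfsgLib.Schur.pfst f σ).ker ⊓ commutator _ := ⟨hz1, hz⟩
    rw [hbot, Subgroup.mem_bot] at hz2
    rw [hz2]
    rfl
  exact ⟨π.comp eA.symm.toMonoidHom, hπ.comp eA.symm.surjective⟩

end Cfsg.Agent.S2086
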