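import Cfsg.Statements.S2087
import Cfsg.Agent.S0255
import Cfsg.Agent.S2117
import Cfsg.Agent.Schur.Pullback
import Cfsg.Agent.Schur.Stemify
import Cfsg.Agent.SL2.Elements
import Mathlib

set_option autoImplicit false
open Cfsg

namespace Cfsg.Agent.S2087

open scoped commutatorElement
open CfsgLib.SL2

universe u

theorem neg_one_mem_commutator {K : Type*} [Field K] (h7 : (7 : K) = 0) :
    (-1 : Matrix.SpecialLinearGroup (Fin 2) K) ∈ commutator (Matrix.SpecialLinearGroup (Fin 2) K) := by
  have hdet : (2 : K) * (-2) - 3 * 3 = 1 := by linear_combination (-2 : K) * h7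
  have hab : (compT 0 : Matrix.SpecialLinearGroup (Fin 2) K) * mk2 2 3 3 (-2) hdet =
      -1 * (mk2 (2 : K) 3 3 (-2) hdet * compT 0) := by
    apply ext2 <;> simp [mul00, mul01, mul10, mul11]
  have : (-1 : Matrix.SpecialLinearGroup (Fin 2) K) = ⁅(compT (0 : K)), (mk2 (2 : K) 3 3 (-2) hdet)⁆ := by
    rw [commutatorElement_def, hab]; group
  rw [this, commutator_def]
  exact Subgroup.commutator_mem_commutator (Subgroup.mem_top _) (Subgroup.mem_top _)

theorem neg_one_ne_one {K : Type*} [Field K] (h7 : (7 : K) = 0) :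
    (-1 : Matrix.SpecialLinearGroup (Fin 2) K) ≠ 1 := fun h => by
  have h0 := congrArg (fun g : Matrix.SpecialLinearGroup (Fin 2) K => g.1 0 0) h
  simp at h0
  have h2 : (2 : K) = 0 := by linear_combination -h0
  exact one_ne_zero (show (1 : K) = 0 by linear_combination h7 - 3 * h2)

/-- Exceptional Schur multiplier: over the field with 2 elements, PSL₃ has Schur multiplier cyclic of order 2 (here the Schur multiplier is described through stem extensions, as in the definitions). -/
theorem result {F : Type u} [Field F] [Fintype F] (hF : Fintype.card F = 2) : Cfsg.HasCyclicSchurMultiplier (Matrix.ProjectiveSpecialLinearGroup (Fin 3) F) 2 := by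
  classical
  haveI : Fact (Nat.Prime 7) := ⟨by norm_num⟩
  obtain ⟨e₀⟩ := Cfsg.Agent.S0255.result (F := ULift (ZMod 7)) (K := F) (by simp) hF
  let S := Matrix.SpecialLinearGroup (Fin 2) (ULift.{u} (ZMod 7))
  let f : S →* Matrix.ProjectiveSpecialLinearGroup (Fin 3) F :=
    e₀.toMonoidHom.comp (QuotientGroup.mk' (Subgroup.center S))
  have h7 : (7 : ULift.{u} (ZMod 7)) = 0 := ULift.ext _ _ rfl
  have hker : f.ker = Subgroup.center S := by
    ext x
    rw [MonoidHom.mem_ker]
    show e₀ (QuotientGroup.mk' _ x) = 1 ↔ _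
    rw [MulEquiv.map_eq_one_iff]
    exact QuotientGroup.eq_one_iff x
  have hneg : (-1 : S) ∈ commutator S := neg_one_mem_commutator h7
  have hf : Cfsg.IsStemExtension f := by
    refine ⟨e₀.surjective.comp (QuotientGroup.mk'_surjective _), hker.le, fun x hx => ?_⟩
    rw [hker, mem_center_iff] at hx
    rcases hx with rfl | rfl
    · exact one_mem _
    · exact hneg
  have h1ne : (-1 : S) ≠ 1 := neg_one_ne_one h7
  have hcard : Nat.card f.ker = 2 := by
    rw [hker, Nat.card_eq_two_iff' (1 : Subgroup.center S)]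
    refine ⟨⟨-1, neg_one_mem_center⟩, fun h => h1ne (congrArg Subtype.val h), fun y hy => Subtype.ext ?_⟩
    exact ((mem_center_iff (y : S)).mp y.2).resolve_left fun h => hy (Subtype.ext h)
  let eA : f.ker ≃* Multiplicative (ZMod 2) :=
    mulEquivOfPrimeCardEq (p := 2) hcard (by simp)
  refine ⟨⟨S, inferInstance, inferInstance, f, hf, ⟨eA⟩⟩, fun Γ _ _ σ hσ => ?_⟩
  have htriv := Cfsg.Agent.S2117.result (F := ULift.{u} (ZMod 7)) (by simp) (by simp)
  obtain ⟨π, hπ⟩ := CfsgLib.Schur.exists_surj_ker hf hσ fun z hz hz1 => by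
    have hbot := CfsgLib.Schur.inf_commutator_eq_bot_of_trivial htriv (CfsgLib.Schur.pfst f σ)
      (CfsgLib.Schur.pfst_surjective hσ.1) (CfsgLib.Schur.pfst_ker_le_center hσ.2.1)
    have hz2 : z ∈ (CfsgLib.Schur.pfst f σ).ker ⊓ commutator _ := ⟨hz1, hz⟩
    rw [hbot, Subgroup.mem_bot] at hz2
    rw [hz2]
    rfl
  exact ⟨π.comp eA.symm.toMonoidHom, hπ.comp eA.symm.surjective⟩

end Cfsg.Agent.S2087
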