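import Cfsg.Statements.S2100
import Cfsg.Agent.Chev.Cover.NoCoverG2F4
import Cfsg.Agent.Chev.Cover.Multiplier
import Cfsg.Agent.Chev.Cover.Cert
-- import your own Cfsg.Agent.* helpers here

set_option autoImplicit false
open Cfsg

namespace Cfsg.Agent.S2100

/-- Schur multipliers of the Chevalley groups of type G₂: over a field with q ≥ 5 elements the Schur multiplier of G₂(q) is trivial (here the Schur multiplier is described through stem extensions, as in the definitions); the cases q = 3 and q = 4 are exceptional and q = 2 gives a non-simple group. -/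
theorem result {F : Type*} [Field F] [Fintype F] (hF : 5 ≤ Fintype.card F) : Cfsg.HasCyclicSchurMultiplier ↥(Cfsg.Lie.chevG2.group F) 1 := by
  rw [← Nat.card_eq_fintype_card] at hF
  obtain ⟨p, hp⟩ := CharP.exists F
  haveI : Fact p.Prime := ⟨CharP.char_is_prime F p⟩
  exact CfsgLib.Chev.sysG2.multiplier_trivial CfsgLib.Chev.genOK_G2 (CfsgLib.Chev.noPCover_G2 (p := p) hF)
    (CfsgLib.Chev.center_steinberg_eq_bot CfsgLib.Chev.sysG2 CfsgLib.Chev.genOK_G2 CfsgLib.Chev.torG2 (by decide +kernel) F)

end Cfsg.Agent.S2100
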