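import Cfsg.Statements.S2103
import Cfsg.Agent.Chev.Cover.NoCoverG2F4
import Cfsg.Agent.Chev.Cover.Multiplier
import Cfsg.Agent.Chev.Cover.Cert
-- import your own Cfsg.Agent.* helpers here

set_option autoImplicit false
open Cfsg

namespace Cfsg.Agent.S2103

/-- Schur multipliers of the Chevalley groups of type F₄: over a finite field with more than 2 elements the Schur multiplier of F₄(q) is trivial (here the Schur multiplier is described through stem extensions, as in the definitions); q = 2 is exceptional. -/
theorem result {F : Type*} [Field F] [Fintype F] (hF : 3 ≤ Fintype.card F) : Cfsg.HasCyclicSchurMultiplier ↥(Cfsg.Lie.chevF4.group F) 1 := by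
  rw [← Nat.card_eq_fintype_card] at hF
  obtain ⟨p, hp⟩ := CharP.exists F
  haveI : Fact p.Prime := ⟨CharP.char_is_prime F p⟩
  exact CfsgLib.Chev.sysF4.multiplier_trivial CfsgLib.Chev.genOK_F4 (CfsgLib.Chev.noPCover_F4 (p := p) hF)
    (CfsgLib.Chev.center_steinberg_eq_bot CfsgLib.Chev.sysF4 CfsgLib.Chev.genOK_F4 CfsgLib.Chev.torF4 (by decide +kernel) F)

end Cfsg.Agent.S2103
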