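import Cfsg.Statements.S2105
import Cfsg.Agent.Chev.Cover.NoCoverE6
import Cfsg.Agent.Chev.Cover.Multiplier
import Cfsg.Agent.Chev.Cover.SubDatum
import Cfsg.Agent.Chev.SimpleCert
import Cfsg.Agent.Chev.Cover.Perfect
-- import your own Cfsg.Agent.* helpers here

set_option autoImplicit false
open Cfsg

namespace Cfsg.Agent.S2105

/-- Schur multipliers of the (adjoint, simple) Chevalley groups of type E₆: over a field with q elements the Schur multiplier is cyclic of order gcd(3, q − 1) (here the Schur multiplier is described through stem extensions, as in the definitions). -/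
theorem result {F : Type*} [Field F] [Fintype F] {q : ℕ} (hF : Fintype.card F = q) : Cfsg.HasCyclicSchurMultiplier ↥(Cfsg.Lie.chevE6.group F) (Nat.gcd 3 (q - 1)) := by
  subst hF
  obtain ⟨p, hp⟩ := CharP.exists F
  haveI : Fact p.Prime := ⟨CharP.char_is_prime F p⟩
  refine CfsgLib.Chev.sysE6.multiplier_cyclic CfsgLib.Chev.genOK_E6 (CfsgLib.Chev.noPCover_E6 (p := p))
    ((CfsgLib.Chev.sysE6.stLift F).perfect_all' CfsgLib.Chev.genOK_E6 CfsgLib.Chev.perfAll_E6)
    (CfsgLib.Chev.gcd_eq_one_or_prime (by decide) _) ?_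
  rw [← Nat.card_eq_fintype_card (α := F)]
  exact CfsgLib.Chev.card_center_of_sub CfsgLib.Chev.sysE6 CfsgLib.Chev.sysE7 CfsgLib.Chev.genOK_E6 CfsgLib.Chev.subOK_E6
    CfsgLib.Chev.torE6 ⟨5, by decide +kernel⟩ (by decide +kernel) (by decide +kernel) (-1) (-1) (by decide +kernel) F

end Cfsg.Agent.S2105
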