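import Cfsg.Statements.S2107
import Cfsg.Agent.Chev.Cover.NoCoverE8
import Cfsg.Agent.Chev.Cover.Multiplier
import Cfsg.Agent.Chev.Cover.Cert
-- import your own Cfsg.Agent.* helpers here

set_option autoImplicit false
open Cfsg

namespace Cfsg.Agent.S2107

/-- Schur multipliers of the Chevalley groups of type E₈: over every finite field the Schur multiplier of E₈(q) is trivial (here the Schur multiplier is described through stem extensions, as in the definitions). -/
theorem result {F : Type*} [Field F] [Fintype F] : Cfsg.HasCyclicSchurMultiplier ↥(Cfsg.Lie.chevE8.group F) 1 := by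
  obtain ⟨p, hp⟩ := CharP.exists F
  haveI : Fact p.Prime := ⟨CharP.char_is_prime F p⟩
  exact CfsgLib.Chev.sysE8.multiplier_trivial CfsgLib.Chev.genOK_E8 (CfsgLib.Chev.noPCover_E8 (p := p))
    (CfsgLib.Chev.center_steinberg_eq_bot CfsgLib.Chev.sysE8 CfsgLib.Chev.genOK_E8 CfsgLib.Chev.torE8 (by decide +kernel) F)

end Cfsg.Agent.S2107
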