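import Cfsg.Statements.S3965
import Cfsg.Agent.S3966
import Cfsg.Agent.Schur.TwoGen

set_option autoImplicit false
open Cfsg

namespace Cfsg.Agent.S3965

theorem closure_eq_top (n : ℕ) :
    Subgroup.closure ({DihedralGroup.r 1, DihedralGroup.sr 0} : Set (DihedralGroup n)) = ⊤ := by
  rw [eq_top_iff]
  intro g _
  have h1 : ∀ i : ZMod n, DihedralGroup.r i ∈
      Subgroup.closure ({DihedralGroup.r 1, DihedralGroup.sr 0} : Set (DihedralGroup n)) := fun i => by
    obtain ⟨k, rfl⟩ := ZMod.intCast_surjective i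
    rw [← DihedralGroup.r_one_zpow]
    exact Subgroup.zpow_mem _ (Subgroup.subset_closure (by simp)) k
  rcases g with i | i
  · exact h1 i
  · have : DihedralGroup.sr i = DihedralGroup.sr 0 * DihedralGroup.r i := by simp
    rw [this]
    exact Subgroup.mul_mem _ (Subgroup.subset_closure (by simp)) (h1 i)

theorem conj_eq (n : ℕ) :
    (DihedralGroup.sr 0 : DihedralGroup n) * DihedralGroup.r 1 * (DihedralGroup.sr 0)⁻¹ =
      (DihedralGroup.r 1)⁻¹ := by
  simp [DihedralGroup.inv_sr, DihedralGroup.inv_r]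

theorem two_mul_of_mem {n : ℕ} {Γ : Type*} [Group Γ] {σ : Γ →* DihedralGroup n} {c : Γ}
    (hca : σ c = (DihedralGroup.r 1 ^ 2)⁻¹) {i : ℤ} (hk : c ^ i ∈ σ.ker) : (n : ℤ) ∣ 2 * i := by
  rw [MonoidHom.mem_ker, map_zpow, hca, inv_zpow, inv_eq_one, ← zpow_natCast, ← zpow_mul,
    DihedralGroup.r_one_zpow, ← DihedralGroup.r_zero] at hk
  have := (ZMod.intCast_zmod_eq_zero_iff_dvd _ n).1 (DihedralGroup.r.inj hk)
  simpa using this


/-- For even `n ≥ 2` the dihedral group of order `2 n` has Schur multiplier cyclic of order `2`. -/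
theorem result (n : ℕ) [NeZero n] (hn : Even n) : Cfsg.HasCyclicSchurMultiplier (DihedralGroup n) 2 := by
  refine ⟨⟨QuaternionGroup n, inferInstance, inferInstance, Cfsg.Agent.S3966.toDihedral n,
    Cfsg.Agent.S3966.toDihedral_stem n hn, ?_⟩, fun Γ _ _ σ hσ => ?_⟩
  · exact ⟨mulEquivOfPrimeCardEq (p := 2) (Cfsg.Agent.S3966.card_ker n) (by simp)⟩
  obtain ⟨m, hm⟩ := hn
  obtain ⟨c, hc, hca, hle⟩ := CfsgLib.Schur.dihedral_like hσ (closure_eq_top n) (conj_eq n)
    (M := n) (j := 0) (by simp)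
  refine CfsgLib.Schur.exists_surj_zmod (c := c ^ m) (n := 2) (by
    rw [← pow_mul, mul_two, ← hm, hc]) σ.ker fun g hg => ?_
  obtain ⟨i, rfl⟩ := Subgroup.mem_zpowers_iff.1 (hle hg)
  obtain ⟨t, ht⟩ := two_mul_of_mem hca hg
  refine Subgroup.mem_zpowers_iff.2 ⟨t, ?_⟩
  rw [← zpow_natCast, ← zpow_mul]
  congr 1
  rw [hm] at ht
  push_cast at ht
  linarith

end Cfsg.Agent.S3965
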