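import Cfsg.Statements.S2140
import Cfsg.Agent.MinIndexSL.Main
import Mathlib.LinearAlgebra.Projectivization.Cardinality
-- import your own Cfsg.Agent.* helpers here

set_option autoImplicit false
set_option linter.style.haveILetI false
open Cfsg

namespace Cfsg.Agent.S2140

/-- Minimal index of a proper subgroup of the linear groups: for n ≥ 3 and a field F with q elements, (n, q) ≠ (4, 2), every proper subgroup of PSL_n(F) has index at least (q^n − 1)/(q − 1), and some subgroup has exactly that index (the stabiliser of a point of the projective space). -/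
theorem result {F : Type*} [Field F] [Fintype F] {q : ℕ} (hF : Fintype.card F = q) (n : ℕ) (hn : 3 ≤ n) (hexc : ¬ (n = 4 ∧ q = 2)) : (∀ H : Subgroup (Matrix.ProjectiveSpecialLinearGroup (Fin n) F), H ≠ ⊤ → (q ^ n - 1) / (q - 1) ≤ H.index) ∧ (∃ H : Subgroup (Matrix.ProjectiveSpecialLinearGroup (Fin n) F), H.index = (q ^ n - 1) / (q - 1)) := by
  classical
  subst hF
  constructor
  · intro H hH
    set f := QuotientGroup.mk' (Subgroup.center (Matrix.SpecialLinearGroup (Fin n) F))
    have hf : Function.Surjective f := QuotientGroup.mk'_surjective _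
    set K := H.comap f
    have hK : K ≠ ⊤ := fun h => hH (by
      rw [← Subgroup.map_comap_eq_self_of_surjective hf H]
      show K.map f = ⊤
      rw [h, Subgroup.map_top_of_surjective f hf])
    letI := Fintype.ofFinite (Matrix.SpecialLinearGroup (Fin n) F ⧸ K)
    haveI : Nontrivial (Matrix.SpecialLinearGroup (Fin n) F ⧸ K) := QuotientGroup.nontrivial_iff.mpr hK
    have h := CfsgLib.MinIndexSL.card_ge (Ω := Matrix.SpecialLinearGroup (Fin n) F ⧸ K) hn hexc
    rw [← Nat.card_eq_fintype_card (α := Matrix.SpecialLinearGroup (Fin n) F ⧸ K), ← Subgroup.index_eq_card] at h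
    rw [← Subgroup.index_comap_of_surjective H hf]
    exact Nat.div_le_of_le_mul (by rw [mul_comm]; exact h)
  · haveI : Nonempty (Fin n) := ⟨⟨0, by omega⟩⟩
    haveI : Nontrivial (Fin n → F) := inferInstance
    obtain ⟨P⟩ : Nonempty (Projectivization F (Fin n → F)) := inferInstance
    refine ⟨MulAction.stabilizer (Matrix.ProjectiveSpecialLinearGroup (Fin n) F) P, ?_⟩
    rw [MulAction.index_stabilizer_of_transitive, Projectivization.card'', Nat.card_eq_fintype_card (α := F),
      Nat.card_eq_fintype_card, Fintype.card_fun, Fintype.card_fin]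

end Cfsg.Agent.S2140
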