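import Cfsg.Statements.S2141
import Cfsg.Agent.MinIndexSp.Main
-- import your own Cfsg.Agent.* helpers here

set_option autoImplicit false
set_option linter.style.haveILetI false
open Cfsg

namespace Cfsg.Agent.S2141

/-- Minimal index of a proper subgroup of the symplectic groups over fields with at least 3 elements: for m ≥ 2 and a field F with q ≥ 3 elements, (m, q) ≠ (2, 3), every proper subgroup of PSp_2m(F) has index at least (q^(2m) − 1)/(q − 1), and that index is attained. -/
theorem result {F : Type*} [Field F] [Fintype F] {q : ℕ} (hF : Fintype.card F = q) (m : ℕ) (hm : 2 ≤ m) (hq : 3 ≤ q) (hexc : ¬ (m = 2 ∧ q = 3)) : (∀ H : Subgroup (Cfsg.PSp m F), H ≠ ⊤ → (q ^ (2 * m) - 1) / (q - 1) ≤ H.index) ∧ (∃ H : Subgroup (Cfsg.PSp m F), H.index = (q ^ (2 * m) - 1) / (q - 1)) := by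
  classical
  subst hF
  set π := QuotientGroup.mk' (Subgroup.center (Matrix.symplecticGroup (Fin m) F)) with hπdef
  have hπ : Function.Surjective π := QuotientGroup.mk'_surjective _
  have key : ∀ K : Subgroup (Matrix.symplecticGroup (Fin m) F), K ≠ ⊤ →
      (Fintype.card F ^ (2 * m) - 1) / (Fintype.card F - 1) ≤ K.index := by
    intro K hK
    haveI : Finite (Matrix.symplecticGroup (Fin m) F) := inferInstance
    letI := Fintype.ofFinite (Matrix.symplecticGroup (Fin m) F ⧸ K)
    haveI : Nontrivial (Matrix.symplecticGroup (Fin m) F ⧸ K) := QuotientGroup.nontrivial_iff.mpr hK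
    rw [Subgroup.index_eq_card, Nat.card_eq_fintype_card]
    by_contra hc
    push Not at hc
    refine CfsgLib.MinIndexSp.not_lt (Ω := Matrix.symplecticGroup (Fin m) F ⧸ K) hm hq ?_ hexc
    have h1 : (Fintype.card (Matrix.symplecticGroup (Fin m) F ⧸ K) + 1) * (Fintype.card F - 1) ≤
        Fintype.card F ^ (2 * m) - 1 :=
      (Nat.mul_le_mul_right _ hc).trans (Nat.div_mul_le_self _ _)
    rw [add_mul, one_mul] at h1
    omega
  constructor
  · intro H hH
    rw [← Subgroup.index_comap_of_surjective H hπ]
    refine key _ fun h => hH ?_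
    rw [← Subgroup.map_comap_eq_self_of_surjective hπ H, h, Subgroup.map_top_of_surjective π hπ]
  · obtain ⟨v, hv⟩ : ∃ v : Fin m ⊕ Fin m → F, v ≠ 0 := by
      haveI : Nonempty (Fin m) := ⟨⟨0, by omega⟩⟩
      exact exists_ne 0
    letI : MulAction (Matrix.symplecticGroup (Fin m) F) (Projectivization F (Fin m ⊕ Fin m → F)) :=
      MulAction.compHom _ (CfsgLib.SpGeom.spPerm m F)
    haveI : MulAction.IsPretransitive (Matrix.symplecticGroup (Fin m) F)
        (Projectivization F (Fin m ⊕ Fin m → F)) := ⟨fun p r => by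
      induction p using Projectivization.ind with | h a ha => ?_
      induction r using Projectivization.ind with | h b hb => ?_
      obtain ⟨g, hg⟩ := CfsgLib.SpGeom.exists_mulVec_eq ha hb
      refine ⟨g, ?_⟩
      show CfsgLib.SpGeom.spPerm m F g (Projectivization.mk F a ha) = _
      rw [CfsgLib.SpGeom.spPerm_mk]
      simp only [hg]⟩
    refine ⟨(MulAction.stabilizer (Matrix.symplecticGroup (Fin m) F) (Projectivization.mk F v hv)).map π, ?_⟩
    rw [Subgroup.index_map_eq _ hπ, MulAction.index_stabilizer_of_transitive, Projectivization.card'',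
      Nat.card_eq_fintype_card, Nat.card_eq_fintype_card, Fintype.card_fun, Fintype.card_sum, Fintype.card_fin,
      two_mul]
    rw [hπdef, QuotientGroup.ker_mk', ← CfsgLib.SpGeom.spPerm_ker (by omega : 0 < m)]
    intro g hg
    show CfsgLib.SpGeom.spPerm m F g _ = _
    rw [MonoidHom.mem_ker.mp hg]
    rfl

end Cfsg.Agent.S2141
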