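import Cfsg.Statements.S2142
import Cfsg.Agent.MinIndexSpTwo.Main
-- import your own Cfsg.Agent.* helpers here

set_option autoImplicit false
set_option linter.style.haveILetI false
open Cfsg

namespace Cfsg.Agent.S2142

/-- Minimal index of a proper subgroup of the symplectic groups over the field with 2 elements: for m ≥ 3, every proper subgroup of Sp_2m(2) has index at least 2^(m−1)(2^m − 1), and that index is attained. -/
theorem result {F : Type*} [Field F] [Fintype F] (hF : Fintype.card F = 2) (m : ℕ) (hm : 3 ≤ m) : (∀ H : Subgroup (Cfsg.PSp m F), H ≠ ⊤ → 2 ^ (m - 1) * (2 ^ m - 1) ≤ H.index) ∧ (∃ H : Subgroup (Cfsg.PSp m F), H.index = 2 ^ (m - 1) * (2 ^ m - 1)) := by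
  classical
  set f := QuotientGroup.mk' (Subgroup.center (Matrix.symplecticGroup (Fin m) F)) with hfdef
  have hf : Function.Surjective f := QuotientGroup.mk'_surjective _
  have key : ∀ K : Subgroup (Matrix.symplecticGroup (Fin m) F), K ≠ ⊤ → 2 ^ (m - 1) * (2 ^ m - 1) ≤ K.index := by
    intro K hK
    haveI : Finite (Matrix.symplecticGroup (Fin m) F) := inferInstance
    letI := Fintype.ofFinite (Matrix.symplecticGroup (Fin m) F ⧸ K)
    haveI : Nontrivial (Matrix.symplecticGroup (Fin m) F ⧸ K) := QuotientGroup.nontrivial_iff.mpr hK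
    have h := CfsgLib.MinIndexSpTwo.card_ge (Ω := Matrix.symplecticGroup (Fin m) F ⧸ K) hF hm
    rwa [← Nat.card_eq_fintype_card, ← Subgroup.index_eq_card] at h
  constructor
  · intro H hH
    rw [← Subgroup.index_comap_of_surjective H hf]
    refine key _ fun h => hH ?_
    rw [← Subgroup.map_comap_eq_self_of_surjective hf H, h, Subgroup.map_top_of_surjective f hf]
  · obtain ⟨K, hK⟩ := CfsgLib.MinIndexSpTwo.exists_index (F := F) (m := m) hF (by omega)
    refine ⟨K.map f, ?_⟩
    rw [Subgroup.index_map_eq _ hf, hK]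
    -- the centre is trivial over the field with two elements
    have hc : Subgroup.center (Matrix.symplecticGroup (Fin m) F) ≤ ⊥ := by
      intro g hg
      rw [Subgroup.mem_bot]
      refine CfsgLib.SpGeom.ext_mulVec fun v => ?_
      rw [CfsgLib.SpGeom.coe_one', Matrix.one_mulVec]
      by_cases hv : v = 0
      · rw [hv, Matrix.mulVec_zero]
      have h1 := CfsgLib.SpGeom.tv_conj g v (1 : F)
      rw [(Subgroup.mem_center_iff.mp hg (CfsgLib.SpGeom.tv v 1)).symm, mul_inv_cancel_right] at h1
      obtain ⟨d, hd, -⟩ := CfsgLib.MinIndexSpTwo.exists_sep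
        (show v ∉ (⊥ : Submodule F (Fin m ⊕ Fin m → F)) by simpa using hv)
      have h2 := congrArg (fun A : Matrix.symplecticGroup (Fin m) F =>
        (A : Matrix (Fin m ⊕ Fin m) (Fin m ⊕ Fin m) F).mulVec d) h1
      simp only [CfsgLib.SpGeom.tv_mulVec, hd, one_mul, one_smul, add_right_inj] at h2
      rcases CfsgLib.MinIndexSpTwo.zero_or_one hF (Cfsg.sympForm m F d
        ((g : Matrix (Fin m ⊕ Fin m) (Fin m ⊕ Fin m) F).mulVec v)) with h | h
      · rw [h, zero_smul] at h2; exact absurd h2 hv
      · rw [h, one_smul] at h2; exact h2.symm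
    rw [hfdef, QuotientGroup.ker_mk']
    exact hc.trans bot_le

end Cfsg.Agent.S2142
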