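import Cfsg.Statements.S2149
import Cfsg.Agent.PSU35.Code
import Cfsg.Agent.PSU35.Data
import Cfsg.Agent.PSU35.Count
import Cfsg.Agent.SUThreeFix.Basic
import Cfsg.Agent.UGeom.Simple
import Cfsg.Agent.UGeom.Center

set_option autoImplicit false
open Cfsg

namespace Cfsg.Agent.S2149

open Matrix CfsgLib.UGeom CfsgLib.PSU35
open scoped Pointwise LinearAlgebra.Projectivization

section
variable {F : Type*} [Field F] [Fintype F] (R : Root F)

local notation "SU" => Cfsg.SU 3 F 5
local notation "PSU'" => Cfsg.PSU 3 F 5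
local notation "H" => Cfsg.hermForm 3 F 5
local notation "Vn" => (Fin 3 → F)
local notation "mat" A:max => (((A : SU) : Matrix.SpecialLinearGroup (Fin 3) F) : Matrix (Fin 3) (Fin 3) F)

theorem card_su (R : Root F) : Nat.card SU = 378000 := by
  have h := card_SU_mul R.conj (n := 3) (by norm_num)
  rw [card_GU R.conj 3] at h
  simp [Finset.prod_range_succ, Nat.even_iff] at h
  omega

theorem card_center' (R : Root F) : Nat.card (Subgroup.center SU) = 3 :=
  (card_center_SU R.conj (by norm_num)).trans rfl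

theorem card_psu (R : Root F) : Nat.card PSU' = 126000 := by
  have h := Subgroup.card_eq_card_quotient_mul_card_subgroup (Subgroup.center SU)
  rw [card_su R, card_center' R] at h
  change 378000 = Nat.card PSU' * 3 at h
  omega

theorem card_iso (R : Root F) : Nat.card (Iso 3 F 5) = 126 := by
  classical
  have C := R.conj
  have hcard := card_isotropic C 3
  rw [if_neg (by decide)] at hcard
  haveI : Finite (Iso 3 F 5) := Subtype.finite
  let T := {v : {v : Vn // H v v = 0} // v ≠ ⟨0, form_zero_left 0⟩}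
  let g : Iso 3 F 5 × Fˣ → T := fun pa => ⟨⟨(pa.2 : F) • pa.1.1.rep, by
      rw [form_smul_left, form_smul_right C, pa.1.2, mul_zero, mul_zero]⟩, fun h =>
      smul_ne_zero pa.2.ne_zero pa.1.1.rep_nonzero (congrArg Subtype.val h)⟩
  have hg : Function.Bijective g := by
    constructor
    · rintro ⟨p, a⟩ ⟨p', a'⟩ e
      have e' : (a : F) • p.1.rep = (a' : F) • p'.1.rep := congrArg (fun t : T => t.1.1) e
      have hp : p = p' := Subtype.ext (by
        rw [← Projectivization.mk_rep p.1, ← Projectivization.mk_rep p'.1,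
          Projectivization.mk_eq_mk_iff' F _ _ p.1.rep_nonzero p'.1.rep_nonzero]
        exact ⟨(a : F)⁻¹ * a', by rw [← smul_smul, ← e', inv_smul_smul₀ a.ne_zero]⟩)
      subst hp
      exact Prod.ext rfl (Units.ext (smul_left_injective F p.1.rep_nonzero e'))
    · rintro ⟨⟨v, hv⟩, hne⟩
      have hv0 : v ≠ 0 := fun h0 => hne (Subtype.ext h0)
      obtain ⟨a, ha⟩ := Projectivization.exists_smul_eq_mk_rep F v hv0
      refine ⟨(⟨Projectivization.mk F v hv0, iso_of_mk C hv0 hv⟩, a⁻¹), Subtype.ext (Subtype.ext ?_)⟩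
      change ((a⁻¹ : Fˣ) : F) • (Projectivization.mk F v hv0).rep = v
      rw [← ha, Units.smul_def, smul_smul, ← Units.val_mul, inv_mul_cancel, Units.val_one, one_smul]
  have hT : Nat.card T + 1 = normCard 3 5 F (0 : F) := by
    rw [normCard, ← Finite.card_option]
    exact Nat.card_congr (Equiv.optionSubtypeNe _)
  have h24 : Nat.card Fˣ = 24 := by
    rw [Nat.card_units, Nat.card_eq_fintype_card, C.card]; norm_num
  have := Nat.card_congr (Equiv.ofBijective g hg)
  rw [Nat.card_prod, h24] at this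
  rw [hcard] at hT
  norm_num [← Nat.card_eq_fintype_card] at hT
  omega

theorem mat_ext {g h : SU} (e : mat g = mat h) : g = h := Subtype.ext (Subtype.ext e)

/-- The element of a code. -/
noncomputable def suOf (m : M) (h : isU m = true) : SU := (mem_SU_of_isU R h).choose

theorem suOf_mat (m : M) (h : isU m = true) : mat (suOf R m h) = φm R m := (mem_SU_of_isU R h).choose_spec

theorem mat_pow (g : SU) (k : ℕ) : mat (g ^ k) = mat g ^ k := CfsgLib.AutPSU.matpow_mulVec g k

theorem suOf_inv {m mi : M} (h : isU m = true) (hi : isU mi = true) (e : mmC mi m = oneM) :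
    suOf R mi hi * suOf R m h = 1 :=
  mat_ext (by rw [SU_coe_mul, suOf_mat, suOf_mat, ← φm_mmC, e, φm_oneM]; rfl)

theorem card_grp {K : Subgroup SU} {L : List M} (hg : isGrp L = true) (hnd : L.Nodup)
    (hK : ∀ m ∈ L, ∀ g : SU, mat g = φm R m → g ∈ K) : L.length ∣ Nat.card K := by
  classical
  simp only [isGrp, Bool.and_eq_true, List.all_eq_true, List.contains_iff_mem] at hg
  obtain ⟨⟨hone, hU⟩, hmul⟩ := hg
  let S : Submonoid SU :=
    { carrier := {g | ∃ m ∈ L, mat g = φm R m}
      one_mem' := ⟨oneM, hone, by rw [φm_oneM]; rfl⟩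
      mul_mem' := by
        rintro a b ⟨x, hx, ha⟩ ⟨y, hy, hb⟩
        exact ⟨mmC x y, hmul x hx y hy, by rw [SU_coe_mul, ha, hb, φm_mmC]⟩ }
  let B : Subgroup SU :=
    { S with
      inv_mem' := fun {a} ha => by
        rw [show a⁻¹ = a ^ (orderOf a - 1) from inv_eq_of_mul_eq_one_left
          (by rw [← pow_succ, Nat.sub_add_cancel (orderOf_pos a), pow_orderOf_eq_one])]
        exact S.pow_mem ha _ }
  let f : {m // m ∈ L} → B := fun m => ⟨suOf R m.1 (hU m.1 m.2).1, m.1, m.2, suOf_mat R _ _⟩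
  have hf : Function.Bijective f := by
    constructor
    · intro a b e
      refine Subtype.ext (φm_inj R (hU a.1 a.2).2 (hU b.1 b.2).2 ?_)
      rw [← suOf_mat R a.1 (hU a.1 a.2).1, ← suOf_mat R b.1 (hU b.1 b.2).1]
      exact congrArg (fun z : B => mat z.1) e
    · rintro ⟨g, m, hm, e⟩
      exact ⟨⟨m, hm⟩, Subtype.ext (mat_ext ((suOf_mat R m (hU m hm).1).trans e.symm))⟩
  have hc : Nat.card B = L.length := by
    rw [← Nat.card_congr (Equiv.ofBijective f hf), ← List.toFinset_card_of_nodup hnd]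
    exact (Nat.card_congr (Equiv.subtypeEquivRight fun m => List.mem_toFinset.symm)).trans
      (by rw [Nat.card_eq_fintype_card, Fintype.card_coe])
  rw [← hc]
  exact Subgroup.card_dvd_of_le fun g hg => by
    obtain ⟨m, hm, e⟩ := hg
    exact hK m hm g e

/-! ### The normaliser of a subgroup of order seven -/

theorem mul_ofCols {G : Matrix (Fin 3) (Fin 3) F} {x y z x' y' z' : V} (hx : G *ᵥ φv R x = φv R x')
    (hy : G *ᵥ φv R y = φv R y') (hz : G *ᵥ φv R z = φv R z') :
    G * φm R (ofCols x y z) = φm R (ofCols x' y' z') := by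
  ext i j
  have e0 := congrFun hx i
  have e1 := congrFun hy i
  have e2 := congrFun hz i
  fin_cases i <;> fin_cases j <;>
    simp_all [φm, φv, ofCols, Matrix.mul_apply, Matrix.mulVec, dotProduct, Fin.sum_univ_three]

theorem cand {L : List M} {j : ℕ} (hchk : (List.range 25).all (candOK L j) = true)
    (hA : isU sevA = true) {g : SU} (hg : g * suOf R sevA hA = suOf R sevA hA ^ j * g) :
    ∃ m ∈ L, mat g = φm R m := by
  have hb := sevBi_check
  simp only [Bool.and_eq_true, beq_iff_eq] at hb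
  obtain ⟨⟨hB, hv0⟩, hiso⟩ := hb
  obtain ⟨w, hw, hwe⟩ := φv_surj R (mat g *ᵥ φv R sevV)
  have hP : mat (suOf R sevA hA ^ j) = φm R (powC sevA j) := by rw [mat_pow, suOf_mat, φm_powC]
  have hgA : mat g * φm R sevA = φm R (powC sevA j) * mat g := by
    have := congrArg (fun z : SU => mat z) hg
    simpa only [SU_coe_mul, suOf_mat, hP] using this
  have h1 : mat g *ᵥ φv R (mvC sevA sevV) = φv R (mvC (powC sevA j) w) := by
    rw [φv_mvC, φv_mvC, Matrix.mulVec_mulVec, hgA, ← Matrix.mulVec_mulVec, hwe]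
  have h2 : mat g *ᵥ φv R (mvC sevA (mvC sevA sevV)) = φv R (mvC (powC sevA j) (mvC (powC sevA j) w)) := by
    rw [φv_mvC, φv_mvC R (powC sevA j), Matrix.mulVec_mulVec, hgA, ← Matrix.mulVec_mulVec, h1]
  have hm : mat g = φm R (candM j w) := by
    rw [candM, φm_mmC, ← mul_ofCols R hwe.symm h1 h2, Matrix.mul_assoc, ← φm_mmC, hB, φm_oneM, Matrix.mul_one]
  have hform : ∀ u v : Vn, H (mat g *ᵥ u) (mat g *ᵥ v) = H u v := fun u v => SU_form g u v
  have hh : hermC w w = 0 := φ_inj R (dotC_lt _ _) (by norm_num) (by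
    rw [φ_hermC, hwe, hform, ← φ_hermC, hiso])
  have hh1 : hermC w (mvC (powC sevA j) w) = hermC sevV (mvC sevA sevV) :=
    φ_inj R (dotC_lt _ _) (dotC_lt _ _) (by rw [φ_hermC, φ_hermC, hwe, ← h1, hform])
  have hU : isU (candM j w) = true := isU_of_mem R g hm
  have hc : mmC (candM j w) sevA = mmC (powC sevA j) (candM j w) :=
    φm_inj R (okM_mmC _ _) (okM_mmC _ _) (by rw [φm_mmC, φm_mmC, ← hm, hgA])
  obtain ⟨a, b, c⟩ := w
  simp only [okV, Bool.and_eq_true, decide_eq_true_eq] at hw
  have h := List.all_eq_true.1 hchk a (List.mem_range.2 hw.1.1)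
  rw [candOK] at h
  have h' := List.all_eq_true.1 (List.all_eq_true.1 h b (List.mem_range.2 hw.1.2)) c (List.mem_range.2 hw.2)
  simp only [hh, hh1, hU, hc, bne_self_eq_false, Bool.false_or, beq_self_eq_true, Bool.and_self, Bool.not_true,
    List.contains_iff_mem] at h'
  exact ⟨_, h', hm⟩

theorem card_normalizer_seven (R : Root F) (P : Sylow 7 SU) :
    Nat.card (Subgroup.normalizer ((P : Subgroup SU) : Set SU)) = 63 := by
  classical
  haveI : Fact (Nat.Prime 7) := ⟨by norm_num⟩
  have hs := sevA_check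
  simp only [Bool.and_eq_true, beq_iff_eq, bne_iff_ne] at hs
  obtain ⟨⟨⟨hA, hAok⟩, hA7⟩, hA1⟩ := hs
  set a := suOf R sevA hA with ha
  have hao : orderOf a = 7 := by
    refine orderOf_eq_prime (mat_ext ?_) fun e => hA1 (φm_inj R hAok (by decide) ?_)
    · rw [mat_pow, suOf_mat, ← φm_powC, hA7, φm_oneM]; rfl
    · rw [← suOf_mat R sevA hA, ← ha, e, φm_oneM]; rfl
  set Z7 := Subgroup.zpowers a with hZ7
  have hZc : Nat.card Z7 = 7 := by rw [Nat.card_zpowers, hao]
  let P0 : Sylow 7 SU := Sylow.ofCard Z7 (by rw [hZc, card_su R, card_eq_of_dvd (a := 1) (by norm_num) (by norm_num), pow_one])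
  suffices h0 : Nat.card (Subgroup.normalizer (Z7 : Set SU)) = 63 by
    have e1 := (Subgroup.normalizer ((P : Subgroup SU) : Set SU)).card_mul_index
    have e2 := (Subgroup.normalizer ((P0 : Subgroup SU) : Set SU)).card_mul_index
    have f1 := Sylow.card_eq_index_normalizer P
    have f2 := Sylow.card_eq_index_normalizer P0
    replace e1 : Nat.card (Subgroup.normalizer ((P : Subgroup SU) : Set SU)) * Nat.card (Sylow 7 SU) = Nat.card SU := by
      rw [f1]; exact e1
    replace e2 : Nat.card (Subgroup.normalizer ((P0 : Subgroup SU) : Set SU)) * Nat.card (Sylow 7 SU) = Nat.card SU := by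
      rw [f2]; exact e2
    have hN : Nat.card (Subgroup.normalizer ((P0 : Subgroup SU) : Set SU)) = 63 := h0
    rw [hN] at e2
    exact Nat.eq_of_mul_eq_mul_right Nat.card_pos (e1.trans e2.symm)
  set N := Subgroup.normalizer (Z7 : Set SU) with hN
  have hn := norm63_nodup
  simp only [Bool.and_eq_true, decide_eq_true_eq] at hn
  have hc := cosets_check
  simp only [Bool.and_eq_true, beq_iff_eq, List.all_eq_true, List.contains_iff_mem] at hc
  obtain ⟨⟨⟨⟨⟨⟨⟨⟨h2U, h4U⟩, h2iU⟩, h4iU⟩, h2i⟩, h4i⟩, h2A⟩, h4A⟩, hcent⟩ := hc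
  -- upper bound
  have hup : ∀ g : SU, g ∈ N → ∃ m ∈ norm63, mat g = φm R m := by
    intro g hg
    have hmem : g * a * g⁻¹ ∈ Z7 := (Subgroup.mem_normalizer_iff.1 hg a).1 (Subgroup.mem_zpowers a)
    obtain ⟨k, hk⟩ := mem_powers_iff_mem_zpowers.2 hmem
    have hk : a ^ k = g * a * g⁻¹ := hk
    rw [← pow_mod_orderOf, hao] at hk
    have hj : g * a = a ^ (k % 7) * g := by rw [hk, inv_mul_cancel_right]
    have hno : ∀ h : SU, h * a = a ^ 6 * h → False := fun h hh => by
      obtain ⟨m, hm, -⟩ := cand R minus_cand hA hh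
      simp at hm
    have hcl : ∀ {h : SU}, h * a = a * h → ∃ m ∈ cent21, mat h = φm R m := fun {h} hh =>
      cand R cent_cand hA (by rw [pow_one]; exact hh)
    have hcube : ∀ {j : ℕ}, g * a = a ^ j * g → g ^ 3 * a = a ^ (j ^ 3) * g ^ 3 := by
      intro j hj'
      have hs' : SemiconjBy g a (a ^ j) := hj'
      have h3 : SemiconjBy (g * g * g) a (a ^ (j * j * j)) := by
        have s2 : SemiconjBy (g * g) a (a ^ (j * j)) := by
          refine SemiconjBy.mul_left ?_ hs'
          rw [pow_mul]; exact hs'.pow_right j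
        refine SemiconjBy.mul_left ?_ hs'
        have : SemiconjBy (g * g) (a ^ j) (a ^ (j * j * j)) := by
          rw [pow_mul]; exact s2.pow_right j
        exact this
      rw [pow_three', pow_three']
      exact h3
    have hcoset : ∀ (m mi : M) (hm : isU m = true) (hmi : isU mi = true) (j : ℕ), mmC mi m = oneM →
        mmC m sevA = mmC (powC sevA j) m → g * a = a ^ j * g →
        ∃ c ∈ cent21, mat g = φm R (mmC m c) := by
      intro m mi hm hmi j hinv hmA hga
      set b := suOf R m hm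
      have hba : b * a = a ^ j * b := mat_ext (by
        rw [SU_coe_mul, SU_coe_mul, mat_pow, suOf_mat, suOf_mat, ← φm_powC, ← φm_mmC, ← φm_mmC, hmA])
      have hbi : suOf R mi hmi = b⁻¹ := eq_inv_of_mul_eq_one_left (suOf_inv R hm hmi hinv)
      obtain ⟨c, hc, he⟩ := hcl (h := b⁻¹ * g) (by
        rw [mul_assoc, hga, ← mul_assoc, ← mul_assoc]
        refine congrArg (· * g) ?_
        rw [inv_mul_eq_iff_eq_mul, ← mul_assoc, hba, mul_inv_cancel_right])
      refine ⟨c, hc, ?_⟩
      rw [φm_mmC, ← suOf_mat R m hm, ← he, ← SU_coe_mul, mul_inv_cancel_left]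
    have hk7 : k % 7 < 7 := Nat.mod_lt _ (by norm_num)
    generalize k % 7 = j at hj hk7
    interval_cases j
    · rw [pow_zero, one_mul, mul_eq_left] at hj
      rw [hj, orderOf_one] at hao
      omega
    · rw [pow_one] at hj
      obtain ⟨c, hc, he⟩ := hcl hj
      exact ⟨c, (hcent c hc).1.1, he⟩
    · obtain ⟨c, hc, he⟩ := hcoset nTwo nTwoInv h2U h2iU 2 h2i h2A hj
      exact ⟨_, (hcent c hc).1.2, he⟩
    · have h := hcube hj
      rw [← pow_mod_orderOf a (3 ^ 3), hao] at h
      exact (hno _ h).elim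
    · obtain ⟨c, hc, he⟩ := hcoset nFour nFourInv h4U h4iU 4 h4i h4A hj
      exact ⟨_, (hcent c hc).2, he⟩
    · have h := hcube hj
      rw [← pow_mod_orderOf a (5 ^ 3), hao] at h
      exact (hno _ h).elim
    · exact (hno _ hj).elim
  -- lower bound
  have hlist := norm63_check
  simp only [Bool.and_eq_true, List.all_eq_true, List.any_eq_true, List.mem_range, beq_iff_eq] at hlist
  have hlow : ∀ m ∈ norm63, ∀ g : SU, mat g = φm R m → g ∈ N := by
    intro m hm g hg
    obtain ⟨⟨hok, hU⟩, j, hj7, hmj⟩ := hlist m hm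
    have hga : g * a = a ^ j * g := mat_ext (by
      rw [SU_coe_mul, SU_coe_mul, mat_pow, suOf_mat, hg, ← φm_powC, ← φm_mmC, ← φm_mmC, hmj])
    rw [hN, Subgroup.mem_normalizer_iff_map_conj_eq]
    refine Subgroup.eq_of_le_of_card_ge ?_ ?_
    · rw [hZ7, MonoidHom.map_zpowers, Subgroup.zpowers_le]
      exact ⟨j, by simp [hga, mul_assoc]⟩
    · rw [Subgroup.card_map_of_injective (MulEquiv.injective _)]
  let f : {m // m ∈ norm63} → N := fun m =>
    ⟨suOf R m.1 (hlist m.1 m.2).1.2, hlow m.1 m.2 _ (suOf_mat R _ _)⟩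
  have hf : Function.Bijective f := by
    constructor
    · intro x y e
      refine Subtype.ext (φm_inj R (hlist x.1 x.2).1.1 (hlist y.1 y.2).1.1 ?_)
      rw [← suOf_mat R x.1 (hlist x.1 x.2).1.2, ← suOf_mat R y.1 (hlist y.1 y.2).1.2]
      exact congrArg (fun z : N => mat z.1) e
    · rintro ⟨g, hg⟩
      obtain ⟨m, hm, e⟩ := hup g hg
      exact ⟨⟨m, hm⟩, Subtype.ext (mat_ext ((suOf_mat R m (hlist m hm).1.2).trans e.symm))⟩
  rw [← Nat.card_congr (Equiv.ofBijective f hf), ← hn.2, ← List.toFinset_card_of_nodup hn.1]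
  exact (Nat.card_congr (Equiv.subtypeEquivRight fun m => List.mem_toFinset.symm)).trans
    (by rw [Nat.card_eq_fintype_card, Fintype.card_coe])

/-! ### The lower bound -/

theorem lower (R : Root F) (K' : Subgroup PSU') (hK : K' ≠ ⊤) : 50 ≤ K'.index := by
  classical
  haveI : Fact (Nonempty (Conj F 5)) := ⟨⟨R.conj⟩⟩
  haveI := isPreprimitive_iso (n := 3) R.conj
  haveI : Finite (Iso 3 F 5) := Subtype.finite
  haveI : Fact (Nat.Prime 5) := ⟨Nat.prime_five⟩
  haveI := char_five R
  by_contra hlt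
  push Not at hlt
  set K := K'.comap (QuotientGroup.mk' (Subgroup.center SU)) with hKdef
  have hidx : K.index = K'.index := Subgroup.index_comap_of_surjective _ (QuotientGroup.mk'_surjective _)
  have h2 : 2 ≤ K.index := by
    rw [hidx]
    have h0 := K'.index_ne_zero_of_finite
    have h1 : K'.index ≠ 1 := fun h => hK (Subgroup.index_eq_one.1 h)
    omega
  have hcrit : crit K.index = true := by
    refine crit_index (X := Iso 3 F 5) (card_su R) (card_iso R) (le_refl _) (card_center' R)
      (fun z hz x => fix_of_mem_center R.conj le_rfl z hz x) ?_ (card_normalizer_seven R) K ?_ (by omega)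
    · intro g hg1 ⟨i, hi⟩ x y hx hy
      obtain ⟨e, he, hee, rfl⟩ := iso_cases R.conj x
      obtain ⟨f, hf, hff, rfl⟩ := iso_cases R.conj y
      rw [smul_isoPt, isoPt_eq_iff] at hx hy
      obtain ⟨l, hl⟩ := hx
      obtain ⟨l', hl'⟩ := hy
      have hl1 := CfsgLib.SUThreeFix.eigen_one (p := 5) hi he hl.symm
      have hl2 := CfsgLib.SUThreeFix.eigen_one (p := 5) hi hf hl'.symm
      subst hl1 hl2
      rw [one_smul] at hl hl'
      obtain ⟨c, hc⟩ := CfsgLib.SUThreeFix.fixed_unique R.conj (p := 5) hi hg1 he hee hff hl.symm hl'.symm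
      exact ((isoPt_eq_iff R.conj hf hff he hee).2 ⟨c, hc⟩).symm
    · intro z hz
      rw [hKdef, Subgroup.mem_comap, QuotientGroup.mk'_apply, (QuotientGroup.eq_one_iff z).2 hz]
      exact one_mem K'
  have hsmall := crit_small K.index (by omega) h2
    (Nat.mod_eq_zero_of_dvd (card_su R ▸ K.index_dvd_card)) hcrit
  rw [hidx] at hsmall
  haveI : IsSimpleGroup PSU' := isSimpleGroup_PSU R.conj le_rfl (by omega)
  have hcore : K'.normalCore = ⊥ := by
    rcases (inferInstance : K'.normalCore.Normal).eq_bot_or_eq_top with h | h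
    · exact h
    · exact absurd (top_le_iff.1 (h ▸ K'.normalCore_le)) hK
  rw [Subgroup.normalCore_eq_ker] at hcore
  have hd := Subgroup.card_dvd_of_injective _ ((MonoidHom.ker_eq_bot_iff _).1 hcore)
  rw [card_psu R, Nat.card_perm, ← Subgroup.index_eq_card] at hd
  rcases hsmall with e | e <;> rw [e] at hd <;> norm_num [Nat.factorial] at hd

/-! ### The subgroup of index 50 -/

/-- The invariant set of points. -/
def ptSet : Set (ℙ F Vn) := {p | ∃ v ∈ ptS, ∃ h : φv R v ≠ 0, p = Projectivization.mk F (φv R v) h}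

theorem φv_ne {v : V} (hv : okV v = true) (h0 : v ≠ (0, 0, 0)) : φv R v ≠ 0 := fun h =>
  h0 (φv_inj R hv rfl (h.trans (funext fun i => by fin_cases i <;> simp [φv, φ_zero])))

theorem smul_subset {m : M} {g : SU} (hg : mat g = φm R m)
    (hm : (ptS.all fun p => Nat.testBit ptMask (encV (normV (mvC m p)))) = true) :
    g.1 • ptSet R = ptSet R := by
  have hS := ptS_check
  simp only [List.all_eq_true, Bool.and_eq_true, bne_iff_ne] at hS
  have hsub : g.1 • ptSet R ⊆ ptSet R := by
    rintro _ ⟨_, ⟨v, hv, h0, rfl⟩, rfl⟩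
    have hbit := List.all_eq_true.1 hm v hv
    have hw : okV (normV (mvC m v)) = true := okV_smulV _ _
    obtain ⟨x, y, z, hxyz⟩ : ∃ x y z, normV (mvC m v) = (x, y, z) := ⟨_, _, _, rfl⟩
    rw [hxyz] at hbit hw
    simp only [okV, Bool.and_eq_true, decide_eq_true_eq] at hw
    have hchk := List.all_eq_true.1 (List.all_eq_true.1 (List.all_eq_true.1 ptMask_check x
      (List.mem_range.2 hw.1.1)) y (List.mem_range.2 hw.1.2)) z (List.mem_range.2 hw.2)
    rw [hbit] at hchk
    simp only [Bool.not_true, Bool.false_or, List.contains_iff_mem] at hchk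
    have hne : φv R (x, y, z) ≠ 0 := φv_ne R (hS _ hchk).1 (hS _ hchk).2
    refine ⟨_, hchk, hne, ?_⟩
    change g.1 • Projectivization.mk F (φv R v) h0 = _
    rw [Projectivization.smul_mk]
    symm
    rw [Projectivization.mk_eq_mk_iff']
    refine ⟨φ R (invC (if (mvC m v).1 != 0 then (mvC m v).1 else if (mvC m v).2.1 != 0 then (mvC m v).2.1
      else (mvC m v).2.2)), ?_⟩
    rw [← hxyz, normV, φv_smulV, φv_mvC, ← hg]
    rfl
  refine Set.eq_of_subset_of_ncard_le hsub ?_ (Set.toFinite _)
  exact (Set.ncard_image_of_injective _ (MulAction.injective g.1)).ge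

theorem upper (R : Root F) : ∃ K' : Subgroup PSU', K'.index = 50 := by
  classical
  set K := (MulAction.stabilizer (Matrix.SpecialLinearGroup (Fin 3) F) (ptSet R)).comap
    (Cfsg.SU 3 F 5).subtype with hK
  have hmem : ∀ g : SU, g ∈ K ↔ g.1 • ptSet R = ptSet R := fun g => Iff.rfl
  have hg : ∀ {L : List M} {n : ℕ}, (isGrp L && decide L.Nodup && decide (L.length = n)) = true →
      (L.all fun m => ptS.all fun p => Nat.testBit ptMask (encV (normV (mvC m p)))) = true →
      n ∣ Nat.card K := by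
    intro L n h1 h2
    simp only [Bool.and_eq_true, decide_eq_true_eq] at h1
    rw [← h1.2]
    exact card_grp R h1.1.1 h1.1.2 fun m hm g e => (hmem g).2 (smul_subset R e (List.all_eq_true.1 h2 m hm))
  have h7560 : 8 * 27 * 5 * 7 ∣ Nat.card K :=
    Nat.Coprime.mul_dvd_of_dvd_of_dvd (by norm_num)
      (Nat.Coprime.mul_dvd_of_dvd_of_dvd (by norm_num)
        (Nat.Coprime.mul_dvd_of_dvd_of_dvd (by norm_num)
          (hg grp8_check grp8_maps) (hg grp27_check grp27_maps)) (hg grp5_check grp5_maps))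
      (hg grp7_check grp7_maps)
  haveI : Fact (Nonempty (Conj F 5)) := ⟨⟨R.conj⟩⟩
  have hZK : Subgroup.center SU ≤ K := by
    intro z hz
    obtain ⟨c, hc⟩ := CfsgLib.Unitary.scalar_of_commute 5 R.conj.card le_rfl (mat z) fun x =>
      congrArg (fun y : SU => mat y) (Subgroup.mem_center_iff.1 hz x)
    refine (hmem z).2 ?_
    have hfix : ∀ p : ℙ F Vn, z.1 • p = p := fun p => by
      induction p using Projectivization.ind with
      | h v hv =>
        rw [Projectivization.smul_mk, Projectivization.mk_eq_mk_iff']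
        exact ⟨c, (show mat z *ᵥ v = c • v by rw [hc, Matrix.smul_mulVec, Matrix.one_mulVec]).symm⟩
    ext p
    constructor
    · rintro ⟨q, hq, rfl⟩
      show z.1 • q ∈ ptSet R
      rw [hfix q]; exact hq
    · exact fun hp => ⟨p, hp, hfix p⟩
  have hKtop : K ≠ ⊤ := by
    intro h
    have ho := outM_check
    simp only [Bool.and_eq_true, List.any_eq_true, List.all_eq_true, List.mem_range, Bool.not_eq_true',
      List.contains_eq_mem, decide_eq_false_iff_not] at ho
    obtain ⟨hU, v, hv, hout⟩ := ho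
    have hmem' := (hmem (suOf R outM hU)).1 (h ▸ Subgroup.mem_top _)
    have hS := ptS_check
    simp only [List.all_eq_true, Bool.and_eq_true, bne_iff_ne] at hS
    have hv0 : φv R v ≠ 0 := φv_ne R (hS v hv).1 (hS v hv).2
    have himg : (suOf R outM hU).1 • Projectivization.mk F (φv R v) hv0 ∈ ptSet R := by
      rw [← hmem']; exact Set.smul_mem_smul_set ⟨v, hv, hv0, rfl⟩
    obtain ⟨u, hu, hu0, e⟩ := himg
    rw [Projectivization.smul_mk] at e
    obtain ⟨c, hc⟩ := (Projectivization.mk_eq_mk_iff' F _ _ _ _).1 e.symm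
    obtain ⟨d, hd, rfl⟩ := φ_surj R c
    refine hout d hd ?_
    rw [show smulV d (mvC outM v) = u from φv_inj R (okV_smulV _ _) (hS u hu).1 ?_]
    · exact hu
    · rw [φv_smulV, φv_mvC, ← suOf_mat R outM hU, ← hc]; rfl
  refine ⟨K.map (QuotientGroup.mk' (Subgroup.center SU)), ?_⟩
  have hidx : (K.map (QuotientGroup.mk' (Subgroup.center SU))).index = K.index :=
    K.index_map_eq (QuotientGroup.mk'_surjective _) (by rw [QuotientGroup.ker_mk']; exact hZK)
  have hne : K.map (QuotientGroup.mk' (Subgroup.center SU)) ≠ ⊤ := fun h => hKtop <| by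
    rw [← Subgroup.index_eq_one, ← hidx, h, Subgroup.index_top]
  have h50 := lower R _ hne
  rw [hidx] at h50 ⊢
  have hmul := K.card_mul_index
  rw [card_su R] at hmul
  obtain ⟨c, hc⟩ := h7560
  rw [hc] at hmul
  have hd : K.index ∣ 50 := ⟨c, by nlinarith⟩
  exact le_antisymm (Nat.le_of_dvd (by norm_num) hd) h50

end
/-- Minimal index of a proper subgroup of PSU₃(5), realised over the field with 25 elements: every proper subgroup has index at least 50, and that index is attained. -/
theorem result {F : Type*} [Field F] [Fintype F] (hF : Fintype.card F = 25) : (∀ H : Subgroup (Cfsg.PSU 3 F 5), H ≠ ⊤ → 50 ≤ H.index) ∧ (∃ H : Subgroup (Cfsg.PSU 3 F 5), H.index = 50) := by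
  obtain ⟨R⟩ := CfsgLib.PSU35.nonempty_root hF
  exact ⟨lower R, upper R⟩

end Cfsg.Agent.S2149
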