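import Cfsg.Statements.S2155
import Cfsg.Agent.Chev.GeoCert
import Cfsg.Agent.Chev.ParabolicCentralizer
import Cfsg.Agent.Components.Basic

set_option autoImplicit false
open Cfsg

namespace Cfsg.Agent.S2155

/-- In a Chevalley group of type G₂, B₂, D₄, F₄, E₆, E₇ or E₈ over a finite field of characteristic p (for types G₂ and B₂ the field is assumed to have at least 3 elements, so that the group is simple), the generalized Fitting subgroup of every proper standard parabolic subgroup P_J is a p-group (P_J is p-constrained with trivial largest normal subgroup of order prime to p). -/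
theorem result {F : Type*} [Field F] [Fintype F] (p : ℕ) [Fact p.Prime] [CharP F p] (D : Cfsg.Lie.ChevalleyDatum) (hD : D ∈ [Cfsg.Lie.chevG2, Cfsg.Lie.chevB2, Cfsg.Lie.chevD4, Cfsg.Lie.chevF4, Cfsg.Lie.chevE6, Cfsg.Lie.chevE7, Cfsg.Lie.chevE8]) (hq : (D = Cfsg.Lie.chevG2 ∨ D = Cfsg.Lie.chevB2) → 3 ≤ Fintype.card F) (J : Set ℕ) (hJ : ∃ i, i < D.rank ∧ i ∉ J) : IsPGroup p ↥(Cfsg.generalizedFittingSubgroup ↥(D.parabolicSubgroup F J)) := by
  obtain ⟨S⟩ := CfsgLib.Chev.exists_sys hD
  have G := CfsgLib.Chev.geo_of_mem hD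
  set P := D.parabolicSubgroup F J with hP
  haveI : Finite (GL D.Idx F) := CfsgLib.Chev.Sys.finite_GL
  have hle : D.posUnipotent F ≤ P := le_sup_of_le_left le_sup_left
  obtain ⟨k, -, hk⟩ := FiniteField.card F p
  have hU : IsPGroup p ((D.posUnipotent F).subgroupOf P) := by
    refine IsPGroup.of_card (n := k * (D.nroots / 2)) ?_
    rw [Nat.card_congr (Subgroup.subgroupOfEquivOfLe hle).toEquiv, S.card_pos,
      Nat.card_eq_fintype_card, hk, pow_mul]
  let R := (D.unipotentRadical F J).subgroupOf P
  have hRle : D.unipotentRadical F J ≤ D.posUnipotent F := by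
    rw [S.unipotentRadical_eq G]; exact S.genBy_le_pos _
  haveI hRn : R.Normal := ⟨fun x hx y => by
    rw [Subgroup.mem_subgroupOf] at hx ⊢
    push_cast
    exact (Subgroup.mem_normalizer_iff.1 (S.parabolic_le_normalizer G J y.2) _).1 hx⟩
  have hRp : IsPGroup p R := hU.to_le fun x hx => hRle hx
  let C := Subgroup.centralizer (R : Set P)
  have hCle : C ≤ (D.posUnipotent F).subgroupOf P := by
    intro x hx
    rw [Subgroup.mem_subgroupOf]
    refine S.centralizer_radical_le G hJ x.2 (Subgroup.mem_centralizer_iff.2 fun y hy => ?_)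
    have hyP : y ∈ P := hle (hRle hy)
    exact congrArg Subtype.val (Subgroup.mem_centralizer_iff.1 hx ⟨y, hyP⟩ hy)
  haveI hCn : C.Normal := inferInstance
  have hCp : C ≤ Cfsg.pCore p P := CfsgLib.Components.le_pCore hCn (hU.to_le hCle)
  rw [(CfsgLib.Components.generalizedFitting_eq_pCore_iff p).2
    ((Subgroup.centralizer_le (CfsgLib.Components.le_pCore hRn hRp)).trans hCp)]
  exact CfsgLib.Components.pCore_isPGroup p

end Cfsg.Agent.S2155
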