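import Cfsg.Statements.S2298
import Cfsg.Agent.SL2Char.GL
-- import your own Cfsg.Agent.* helpers here

set_option autoImplicit false
open Cfsg

namespace Cfsg.Agent.S2298

/-- Over a finite field F with q elements, every irreducible complex character of GL₂ has degree 1, q − 1, q or q + 1; and when q ≥ 3 (so that these four numbers are distinct) there are exactly q − 1 irreducible characters of degree 1, exactly q − 1 of degree q, exactly (q − 1)(q − 2)/2 of degree q + 1 and exactly q(q − 1)/2 of degree q − 1. -/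
theorem result {F : Type*} [Field F] [Fintype F] :
    (∀ χ : Matrix.GeneralLinearGroup (Fin 2) F → ℂ, Cfsg.IsIrrCharacter (Matrix.GeneralLinearGroup (Fin 2) F) χ →
      χ 1 = 1 ∨ χ 1 = (Fintype.card F : ℂ) - 1 ∨ χ 1 = (Fintype.card F : ℂ) ∨ χ 1 = (Fintype.card F : ℂ) + 1) ∧
    (3 ≤ Fintype.card F →
      Nat.card {χ : Cfsg.IrrCharacter (Matrix.GeneralLinearGroup (Fin 2) F) // (χ : Matrix.GeneralLinearGroup (Fin 2) F → ℂ) 1 = 1} = Fintype.card F - 1 ∧
      Nat.card {χ : Cfsg.IrrCharacter (Matrix.GeneralLinearGroup (Fin 2) F) // (χ : Matrix.GeneralLinearGroup (Fin 2) F → ℂ) 1 = (Fintype.card F : ℂ)} = Fintype.card F - 1 ∧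
      Nat.card {χ : Cfsg.IrrCharacter (Matrix.GeneralLinearGroup (Fin 2) F) // (χ : Matrix.GeneralLinearGroup (Fin 2) F → ℂ) 1 = (Fintype.card F : ℂ) + 1} = (Fintype.card F - 1) * (Fintype.card F - 2) / 2 ∧
      Nat.card {χ : Cfsg.IrrCharacter (Matrix.GeneralLinearGroup (Fin 2) F) // (χ : Matrix.GeneralLinearGroup (Fin 2) F → ℂ) 1 = (Fintype.card F : ℂ) - 1} = Fintype.card F * (Fintype.card F - 1) / 2) := by
  classical
  obtain ⟨A, S, P, N, hall, hA, hS, hP, hN, cA, cS, cP, cN⟩ := CfsgLib.SL2Char.GL2.classification (F := F)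
  have h1 := Fintype.one_lt_card (α := F)
  have hsub : ((Fintype.card F - 1 : ℕ) : ℂ) = (Fintype.card F : ℂ) - 1 := by
    rw [Nat.cast_sub h1.le, Nat.cast_one]
  refine ⟨fun χ hχ => ?_, fun h3 => ?_⟩
  · rcases hall ⟨χ, hχ⟩ with h | h | h | h
    · exact Or.inl ((hA _ h).2.trans Nat.cast_one)
    · exact Or.inr (Or.inr (Or.inl (hS _ h).2))
    · exact Or.inr (Or.inr (Or.inr ((hP _ h).2.trans (by push_cast; rfl))))
    · exact Or.inr (Or.inl ((hN _ h).2.trans hsub))
  have key : ∀ (X : Finset (Cfsg.IrrCharacter (Matrix.GeneralLinearGroup (Fin 2) F))) (d : ℕ),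
      (∀ χ ∈ X, (χ : Matrix.GeneralLinearGroup (Fin 2) F → ℂ) 1 = (d : ℂ)) →
      (∀ χ : Cfsg.IrrCharacter (Matrix.GeneralLinearGroup (Fin 2) F), (χ : Matrix.GeneralLinearGroup (Fin 2) F → ℂ) 1 = (d : ℂ) → χ ∈ X) →
      Nat.card {χ : Cfsg.IrrCharacter (Matrix.GeneralLinearGroup (Fin 2) F) // (χ : Matrix.GeneralLinearGroup (Fin 2) F → ℂ) 1 = (d : ℂ)} = X.card := by
    intro X d h h'
    rw [← Fintype.card_coe, ← Nat.card_eq_fintype_card]
    exact Nat.card_congr (Equiv.subtypeEquivRight fun χ => ⟨h' χ, h χ⟩)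
  have un : ∀ (χ : Cfsg.IrrCharacter (Matrix.GeneralLinearGroup (Fin 2) F)) (a b : ℕ), (χ : Matrix.GeneralLinearGroup (Fin 2) F → ℂ) 1 = (a : ℂ) →
      (χ : Matrix.GeneralLinearGroup (Fin 2) F → ℂ) 1 = (b : ℂ) → a = b := fun χ a b ha hb => Nat.cast_injective (ha.symm.trans hb)
  refine ⟨?_, ?_, ?_, ?_⟩
  · rw [← cA, ← key A 1 (fun χ h => (hA χ h).2) fun χ h => ?_, Nat.cast_one]
    rcases hall χ with k | k | k | k
    · exact k
    · have := un χ _ _ h (hS χ k).2; omega
    · have := un χ _ _ h (hP χ k).2; omega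
    · have := un χ _ _ h (hN χ k).2; omega
  · rw [← cS, ← key S (Fintype.card F) (fun χ h => (hS χ h).2) fun χ h => ?_]
    rcases hall χ with k | k | k | k
    · have := un χ _ _ h (hA χ k).2; omega
    · exact k
    · have := un χ _ _ h (hP χ k).2; omega
    · have := un χ _ _ h (hN χ k).2; omega
  · rw [← cP, ← key P (Fintype.card F + 1) (fun χ h => (hP χ h).2) fun χ h => ?_, Nat.cast_add, Nat.cast_one]
    rcases hall χ with k | k | k | k
    · have := un χ _ _ h (hA χ k).2; omega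
    · have := un χ _ _ h (hS χ k).2; omega
    · exact k
    · have := un χ _ _ h (hN χ k).2; omega
  · rw [← cN, ← key N (Fintype.card F - 1) (fun χ h => (hN χ h).2) fun χ h => ?_, hsub]
    rcases hall χ with k | k | k | k
    · have := un χ _ _ h (hA χ k).2; omega
    · have := un χ _ _ h (hS χ k).2; omega
    · have := un χ _ _ h (hP χ k).2; omega
    · exact k

end Cfsg.Agent.S2298
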