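import Cfsg.Statements.S2300
import Cfsg.Agent.SL2Char.Degrees
-- import your own Cfsg.Agent.* helpers here

set_option autoImplicit false
open Cfsg

namespace Cfsg.Agent.S2300

/-- Over a finite field F with q elements, q even, every irreducible complex character of SL₂ has degree 1, q − 1, q or q + 1; and when q ≥ 4 (so that these four numbers are distinct) there are exactly one irreducible character of degree 1, one of degree q, (q − 2)/2 of degree q + 1 and q/2 of degree q − 1. -/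
theorem result {F : Type*} [Field F] [Fintype F] [CharP F 2] :
    (∀ χ : Matrix.SpecialLinearGroup (Fin 2) F → ℂ, Cfsg.IsIrrCharacter (Matrix.SpecialLinearGroup (Fin 2) F) χ →
      χ 1 = 1 ∨ χ 1 = (Fintype.card F : ℂ) - 1 ∨ χ 1 = (Fintype.card F : ℂ) ∨ χ 1 = (Fintype.card F : ℂ) + 1) ∧
    (4 ≤ Fintype.card F →
      Nat.card {χ : Cfsg.IrrCharacter (Matrix.SpecialLinearGroup (Fin 2) F) // (χ : Matrix.SpecialLinearGroup (Fin 2) F → ℂ) 1 = 1} = 1 ∧
      Nat.card {χ : Cfsg.IrrCharacter (Matrix.SpecialLinearGroup (Fin 2) F) // (χ : Matrix.SpecialLinearGroup (Fin 2) F → ℂ) 1 = (Fintype.card F : ℂ)} = 1 ∧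
      Nat.card {χ : Cfsg.IrrCharacter (Matrix.SpecialLinearGroup (Fin 2) F) // (χ : Matrix.SpecialLinearGroup (Fin 2) F → ℂ) 1 = (Fintype.card F : ℂ) + 1} = (Fintype.card F - 2) / 2 ∧
      Nat.card {χ : Cfsg.IrrCharacter (Matrix.SpecialLinearGroup (Fin 2) F) // (χ : Matrix.SpecialLinearGroup (Fin 2) F → ℂ) 1 = (Fintype.card F : ℂ) - 1} = Fintype.card F / 2) := by
  classical
  obtain ⟨C, T⟩ := CfsgLib.SL2Char.exists_torus (F := F)
  have h1 := Fintype.card_pos (α := F)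
  refine ⟨fun χ hχ => ?_, fun h4 => ?_⟩
  · rcases CfsgLib.SL2Char.deg_even T ⟨χ, hχ⟩ with ⟨-, h⟩ | ⟨-, h⟩ | ⟨-, h⟩ | ⟨-, h⟩ <;> replace h : χ 1 = _ := h
    · exact Or.inl (h.trans Nat.cast_one)
    · exact Or.inr (Or.inr (Or.inl h))
    · exact Or.inr (Or.inr (Or.inr (by rw [h]; push_cast; rfl)))
    · exact Or.inr (Or.inl (by rw [h, Nat.cast_sub h1, Nat.cast_one]))
  have heps : CfsgLib.SL2Char.eps F = 1 := CfsgLib.SL2.card_sq_eq_one_even CharTwo.two_eq_zero
  have ht : ∀ x : Cfsg.IrrCharacter (Matrix.SpecialLinearGroup (Fin 2) F),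
      Nat.card {χ : Cfsg.IrrCharacter (Matrix.SpecialLinearGroup (Fin 2) F) // χ = x} = 1 := fun x => Nat.card_unique
  refine ⟨?_, ?_, ?_, ?_⟩
  · refine (Nat.card_congr (Equiv.subtypeEquivRight (q := fun χ => χ = CfsgLib.CharBasics.oneChar) fun χ => ⟨fun hd => ?_, ?_⟩)).trans (ht _)
    · rw [← Nat.cast_one] at hd
      rcases CfsgLib.SL2Char.deg_even T χ with ⟨h', -⟩ | ⟨-, h⟩ | ⟨-, h⟩ | ⟨-, h⟩
      all_goals first
        | exact Subtype.ext h'
        | (rw [hd] at h; have := Nat.cast_injective h; omega)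
    · rintro rfl; rfl
  · refine (Nat.card_congr (Equiv.subtypeEquivRight (q := fun χ => χ = ⟨CfsgLib.SL2Char.St, CfsgLib.SL2Char.isIrr_St⟩) fun χ => ⟨fun hd => Subtype.ext (CfsgLib.SL2Char.eq_St_of_deg χ.2 hd), ?_⟩)).trans (ht _)
    rintro rfl
    exact CfsgLib.SL2Char.St_one
  · have hc := CfsgLib.SL2Char.card_PS (F := F)
    rw [show Nat.card {χ : Cfsg.IrrCharacter (Matrix.SpecialLinearGroup (Fin 2) F) // (χ : Matrix.SpecialLinearGroup (Fin 2) F → ℂ) 1 = (Fintype.card F : ℂ) + 1} = Nat.card {χ : Cfsg.IrrCharacter (Matrix.SpecialLinearGroup (Fin 2) F) // CfsgLib.SL2Char.IsPS (χ : Matrix.SpecialLinearGroup (Fin 2) F → ℂ)} from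
      Nat.card_congr (Equiv.subtypeEquivRight fun χ => ⟨fun hd => ?_, fun h => (CfsgLib.SL2Char.deg_PS h).trans (by push_cast; rfl)⟩)]
    · omega
    · rw [← Nat.cast_one, ← Nat.cast_add] at hd
      rcases CfsgLib.SL2Char.deg_even T χ with ⟨-, h⟩ | ⟨-, h⟩ | ⟨h', -⟩ | ⟨-, h⟩
      all_goals first
        | exact h'
        | (rw [hd] at h; have := Nat.cast_injective h; omega)
  · have hc := CfsgLib.SL2Char.card_CU T
    rw [show Nat.card {χ : Cfsg.IrrCharacter (Matrix.SpecialLinearGroup (Fin 2) F) // (χ : Matrix.SpecialLinearGroup (Fin 2) F → ℂ) 1 = (Fintype.card F : ℂ) - 1} = Nat.card {χ : Cfsg.IrrCharacter (Matrix.SpecialLinearGroup (Fin 2) F) // CfsgLib.SL2Char.IsCU T (χ : Matrix.SpecialLinearGroup (Fin 2) F → ℂ)} from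
      Nat.card_congr (Equiv.subtypeEquivRight fun χ => ⟨fun hd => ?_, fun h => (CfsgLib.SL2Char.deg_CU T h).trans (by rw [Nat.cast_sub h1, Nat.cast_one])⟩)]
    · omega
    · rw [← Nat.cast_one, ← Nat.cast_sub h1] at hd
      rcases CfsgLib.SL2Char.deg_even T χ with ⟨-, h⟩ | ⟨-, h⟩ | ⟨-, h⟩ | ⟨h', -⟩
      all_goals first
        | exact h'
        | (rw [hd] at h; have := Nat.cast_injective h; omega)

end Cfsg.Agent.S2300
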