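import Cfsg.Statements.S2301
import Cfsg.Agent.SL2.PSL
import Cfsg.Agent.SL2.Basic
-- import your own Cfsg.Agent.* helpers here

set_option autoImplicit false
open Cfsg

namespace Cfsg.Agent.S2301

/-- Over a finite field with q elements of odd characteristic p, the elements of order p of SL₂ (the non-identity unipotent elements) fall into exactly two conjugacy classes, each of size (q² − 1)/2; two upper unitriangular matrices with non-zero off-diagonal entries b and b′ are conjugate exactly when bb′ is a square. -/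
theorem result {F : Type*} [Field F] [Fintype F] (p : ℕ) [Fact p.Prime] [CharP F p] (hp : p ≠ 2) :
    Nat.card {C : ConjClasses (Matrix.SpecialLinearGroup (Fin 2) F) // ∃ g : Matrix.SpecialLinearGroup (Fin 2) F, orderOf g = p ∧ ConjClasses.mk g = C} = 2 ∧
    (∀ g : Matrix.SpecialLinearGroup (Fin 2) F, orderOf g = p → Nat.card (ConjClasses.mk g).carrier = (Fintype.card F ^ 2 - 1) / 2) ∧
    ∀ g h : Matrix.SpecialLinearGroup (Fin 2) F, (g : Matrix (Fin 2) (Fin 2) F) 0 0 = 1 → (g : Matrix (Fin 2) (Fin 2) F) 1 1 = 1 → (g : Matrix (Fin 2) (Fin 2) F) 1 0 = 0 → (g : Matrix (Fin 2) (Fin 2) F) 0 1 ≠ 0 →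
      (h : Matrix (Fin 2) (Fin 2) F) 0 0 = 1 → (h : Matrix (Fin 2) (Fin 2) F) 1 1 = 1 → (h : Matrix (Fin 2) (Fin 2) F) 1 0 = 0 → (h : Matrix (Fin 2) (Fin 2) F) 0 1 ≠ 0 →
      (IsConj g h ↔ IsSquare ((g : Matrix (Fin 2) (Fin 2) F) 0 1 * (h : Matrix (Fin 2) (Fin 2) F) 0 1)) := by
  classical
  have h2 : (2 : F) ≠ 0 := by
    intro h
    exact hp ((Nat.prime_dvd_prime_iff_eq Fact.out Nat.prime_two).mp
      ((CharP.cast_eq_zero_iff F p 2).mp (by exact_mod_cast h)))
  have hpp : p.Prime := Fact.out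
  have hkey : ∀ g : Matrix.SpecialLinearGroup (Fin 2) F, orderOf g = p ↔ CfsgLib.SL2.tr g = 2 ∧ g ≠ 1 := by
    intro g
    constructor
    · intro hg
      have hgp : g ^ p = 1 := by rw [← hg]; exact pow_orderOf_eq_one g
      have hne : g ≠ 1 := fun h => hpp.ne_one (by rw [← hg, h, orderOf_one])
      refine ⟨?_, hne⟩
      have hodd : Odd p := hpp.odd_of_ne_two hp
      obtain ⟨n, -, hn⟩ := FiniteField.card F p
      have hq : p ∣ Nat.card F := by rw [Nat.card_eq_fintype_card, hn]; exact dvd_pow_self p n.ne_zero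
      rcases CfsgLib.SL2.type_cases (g := g) with (h | h) | ⟨h4, r, hr⟩ | ⟨-, he⟩
      · exact h
      · exfalso
        have h1 := CfsgLib.SL2.pow_char_of_tr_two p (g := -g) (by rw [CfsgLib.SL2.tr_neg, h, neg_neg])
        rw [hodd.neg_pow, hgp] at h1
        exact CfsgLib.SL2.neg_one_ne_one h2 h1
      · exfalso
        have hd := hg ▸ orderOf_dvd_of_pow_eq_one (CfsgLib.SL2.pow_split h4 hr)
        have h1 : 1 ≤ Nat.card F := Nat.card_pos
        have := Nat.dvd_sub hq hd
        rw [Nat.sub_sub_self h1, Nat.dvd_one] at this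
        exact hpp.ne_one this
      · exfalso
        have hd := hg ▸ orderOf_dvd_of_pow_eq_one (CfsgLib.SL2.pow_elliptic he)
        have := (Nat.dvd_add_right hq).mp hd
        rw [Nat.dvd_one] at this
        exact hpp.ne_one this
    · exact fun ⟨ht, hne⟩ => orderOf_eq_prime (CfsgLib.SL2.pow_char_of_tr_two p ht) hne
  obtain ⟨e, he⟩ := CfsgLib.SL2.exists_nonsquare h2
  have he0 : e ≠ 0 := by rintro rfl; exact he IsSquare.zero
  have hord : ∀ s : F, s ≠ 0 → orderOf (CfsgLib.SL2.upperU s) = p := fun s hs =>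
    (hkey _).mpr ⟨CfsgLib.SL2.tr_upperU s, fun h => CfsgLib.SL2.upperU_not_center hs (by rw [h]; exact one_mem _)⟩
  refine ⟨?_, ?_, ?_⟩
  · have hset : {C : ConjClasses (Matrix.SpecialLinearGroup (Fin 2) F) | ∃ g : Matrix.SpecialLinearGroup (Fin 2) F,
        orderOf g = p ∧ ConjClasses.mk g = C} =
        {ConjClasses.mk (CfsgLib.SL2.upperU 1), ConjClasses.mk (CfsgLib.SL2.upperU e)} := by
      ext C
      constructor
      · rintro ⟨g, hg, rfl⟩
        obtain ⟨ht, hne⟩ := (hkey g).mp hg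
        rcases CfsgLib.SL2.isConj_upperU_one_or h2 he hne ht with h | h
        · exact Or.inl (ConjClasses.mk_eq_mk_iff_isConj.mpr h).symm
        · exact Or.inr (ConjClasses.mk_eq_mk_iff_isConj.mpr h).symm
      · rintro (rfl | rfl)
        · exact ⟨_, hord 1 one_ne_zero, rfl⟩
        · exact ⟨_, hord e he0, rfl⟩
    rw [← Set.coe_ofPred, Nat.card_coe_set_eq, hset, Set.ncard_pair]
    exact fun h => CfsgLib.SL2.not_isConj_upperU_one he (ConjClasses.mk_eq_mk_iff_isConj.mp h)
  · intro g hg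
    obtain ⟨ht, hne⟩ := (hkey g).mp hg
    have hnc : g ∉ Subgroup.center (Matrix.SpecialLinearGroup (Fin 2) F) := fun h => by
      rcases (CfsgLib.SL2.mem_center_iff g).mp h with h | h
      · exact hne h
      · rw [h, CfsgLib.SL2.tr_neg, CfsgLib.SL2.tr_one] at ht
        exact h2 (mul_self_eq_zero.mp (by linear_combination -ht))
    have hc := CfsgLib.SL2.card_class_mul_centralizer g
    rw [CfsgLib.SL2.card_centralizer_unipotent hnc (Or.inl ht), CfsgLib.SL2.card_sq_eq_one_odd h2,
      CfsgLib.SL2.card_SL2, Nat.card_eq_fintype_card (α := F), ← mul_assoc, mul_comm (Fintype.card F)] at hc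
    have h1 := Nat.eq_of_mul_eq_mul_right Fintype.card_pos hc
    omega
  · intro g h g00 g11 g10 g01 h00 h11 h10 h01
    set b := (g : Matrix (Fin 2) (Fin 2) F) 0 1
    set b' := (h : Matrix (Fin 2) (Fin 2) F) 0 1
    rw [show g = CfsgLib.SL2.upperU b from CfsgLib.SL2.ext2 (by simp [g00]) (by simp [b]) (by simp [g10]) (by simp [g11]),
      show h = CfsgLib.SL2.upperU b' from CfsgLib.SL2.ext2 (by simp [h00]) (by simp [b']) (by simp [h10]) (by simp [h11]),
      CfsgLib.SL2.isConj_upperU_iff g01 h01]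
    constructor
    · rintro ⟨u, hu⟩
      exact ⟨u * b, by rw [hu]; ring⟩
    · rintro ⟨r, hr⟩
      exact ⟨r / b, by field_simp; linear_combination hr⟩

end Cfsg.Agent.S2301
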