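import Cfsg.Statements.S2302
import Cfsg.Agent.SL2.Basic
-- import your own Cfsg.Agent.* helpers here

set_option autoImplicit false
open Cfsg

namespace Cfsg.Agent.S2302

/-- Over a finite field with q elements of characteristic 2, the involutions of SL₂ (the non-identity unipotent elements) form a single conjugacy class, of size q² − 1. -/
theorem result {F : Type*} [Field F] [Fintype F] [CharP F 2] (g h : Matrix.SpecialLinearGroup (Fin 2) F) (hg : orderOf g = 2) (hh : orderOf h = 2) :
    IsConj g h ∧ Nat.card (ConjClasses.mk g).carrier = Fintype.card F ^ 2 - 1 := by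
  classical
  let U : Matrix.SpecialLinearGroup (Fin 2) F :=
    ⟨!![1, 1; 0, 1], by simp [Matrix.det_fin_two]⟩
  have hUU : (U : Matrix (Fin 2) (Fin 2) F) = !![1, 1; 0, 1] := rfl
  have two : (2 : F) = 0 := CharTwo.two_eq_zero
  have hsq : ∀ a : F, ∃ s : F, s ^ 2 = a := fun a => by
    obtain ⟨s, hs⟩ := (frobeniusEquiv F 2).surjective a
    exact ⟨s, hs⟩
  have conjU : ∀ x : Matrix.SpecialLinearGroup (Fin 2) F, orderOf x = 2 → IsConj U x := by
    intro x hx
    have hx2 : (x : Matrix (Fin 2) (Fin 2) F) * (x : Matrix (Fin 2) (Fin 2) F) = 1 := by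
      have h := pow_orderOf_eq_one x
      rw [hx, pow_two] at h
      exact congrArg Subtype.val h
    have hdet : (x : Matrix (Fin 2) (Fin 2) F).det = 1 := x.2
    have hx1 : x ≠ 1 := fun h => by rw [h, orderOf_one] at hx; norm_num at hx
    rw [Matrix.det_fin_two] at hdet
    have h00 := congrFun (congrFun hx2 0) 0
    have h10 := congrFun (congrFun hx2 1) 0
    simp [Matrix.mul_apply, Fin.sum_univ_two] at h00 h10
    set a := (x : Matrix (Fin 2) (Fin 2) F) 0 0 with ha
    set b := (x : Matrix (Fin 2) (Fin 2) F) 0 1 with hb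
    set c := (x : Matrix (Fin 2) (Fin 2) F) 1 0 with hc
    set d := (x : Matrix (Fin 2) (Fin 2) F) 1 1 with hd
    have htr : a + d = 0 := by
      by_contra hne
      have hc0 : c = 0 := by
        have : c * (a + d) = 0 := by linear_combination h10
        exact (mul_eq_zero.mp this).resolve_right hne
      have ha1 : a = 1 := by
        have : (a - 1) ^ 2 = 0 := by linear_combination h00 - b * hc0 + (1 - a) * two
        exact sub_eq_zero.mp (pow_eq_zero_iff (two_ne_zero) |>.mp this)
      have hd1 : d = 1 := by linear_combination hdet + b * hc0 - d * ha1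
      exact hne (by linear_combination ha1 + hd1 + two)
    by_cases hc0 : c = 0
    · have ha1 : a = 1 := by
        have : (a - 1) ^ 2 = 0 := by linear_combination h00 - b * hc0 + (1 - a) * two
        exact sub_eq_zero.mp (pow_eq_zero_iff (two_ne_zero) |>.mp this)
      have hd1 : d = 1 := by linear_combination hdet + b * hc0 - d * ha1
      obtain ⟨s, hs⟩ := hsq b
      have hb0 : b ≠ 0 := by
        intro hb0
        apply hx1
        ext i j
        fin_cases i <;> fin_cases j <;> simp <;> first
          | exact ha1 | exact hb0 | exact hc0 | exact hd1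
      have hs0 : s ≠ 0 := by rintro rfl; exact hb0 (by simpa using hs.symm)
      let g : Matrix.SpecialLinearGroup (Fin 2) F :=
        ⟨!![s, 0; 0, s⁻¹], by simp [Matrix.det_fin_two, hs0]⟩
      refine isConj_iff.mpr ⟨g, ?_⟩
      rw [mul_inv_eq_iff_eq_mul]
      apply Subtype.ext
      rw [Matrix.SpecialLinearGroup.coe_mul, Matrix.SpecialLinearGroup.coe_mul,
        Matrix.eta_fin_two (x : Matrix (Fin 2) (Fin 2) F), hUU]
      change !![s, 0; 0, s⁻¹] * !![1, 1; 0, 1] = !![a, b; c, d] * !![s, 0; 0, s⁻¹]
      simp only [Matrix.mul_fin_two]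
      ext i j
      fin_cases i <;> fin_cases j <;> simp [ha1, hc0, hd1, ← hs] <;> field_simp
    · obtain ⟨s, hs⟩ := hsq c
      have hs0 : s ≠ 0 := by rintro rfl; exact hc0 (by simpa using hs.symm)
      let g : Matrix.SpecialLinearGroup (Fin 2) F :=
        ⟨!![(a + 1) / s, 1 / s; c / s, 0], by
          rw [Matrix.det_fin_two]; simp only [Matrix.of_apply, Matrix.cons_val', Matrix.cons_val_zero,
            Matrix.cons_val_one, Matrix.cons_val_fin_one]
          field_simp
          linear_combination (-c) * two - hs⟩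
      refine isConj_iff.mpr ⟨g, ?_⟩
      rw [mul_inv_eq_iff_eq_mul]
      apply Subtype.ext
      rw [Matrix.SpecialLinearGroup.coe_mul, Matrix.SpecialLinearGroup.coe_mul,
        Matrix.eta_fin_two (x : Matrix (Fin 2) (Fin 2) F), hUU]
      change !![(a + 1) / s, 1 / s; c / s, 0] * !![1, 1; 0, 1] = !![a, b; c, d] * !![(a + 1) / s, 1 / s; c / s, 0]
      simp only [Matrix.mul_fin_two]
      ext i j
      fin_cases i <;> fin_cases j <;> simp <;> field_simp
      · linear_combination (-1 : F) * h00
      · linear_combination two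
      · linear_combination (-1 : F) * htr
  refine ⟨(conjU g hg).symm.trans (conjU h hh), ?_⟩
  rw [ConjClasses.mk_eq_mk_iff_isConj.mpr (conjU g hg).symm]
  have hcent : Nat.card (Subgroup.centralizer ({U} : Set (Matrix.SpecialLinearGroup (Fin 2) F))) =
      Fintype.card F := by
    rw [← Nat.card_eq_fintype_card (α := F)]
    symm
    refine Nat.card_congr (Equiv.ofBijective (fun t : F =>
      (⟨(⟨!![1, t; 0, 1], by simp [Matrix.det_fin_two]⟩ : Matrix.SpecialLinearGroup (Fin 2) F), ?_⟩ :
        Subgroup.centralizer ({U} : Set (Matrix.SpecialLinearGroup (Fin 2) F)))) ⟨?_, ?_⟩)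
    · refine Subgroup.mem_centralizer_singleton_iff.mpr ?_
      apply Subtype.ext
      change !![1, t; 0, 1] * !![(1 : F), 1; 0, 1] = !![1, 1; 0, 1] * !![1, t; 0, 1]
      simp [Matrix.mul_fin_two, add_comm]
    · intro s t hst
      have := congrArg (fun m : Subgroup.centralizer ({U} : Set (Matrix.SpecialLinearGroup (Fin 2) F)) =>
        ((m : Matrix.SpecialLinearGroup (Fin 2) F) : Matrix (Fin 2) (Fin 2) F) 0 1) hst
      simpa using this
    · rintro ⟨m, hm⟩
      rw [Subgroup.mem_centralizer_singleton_iff] at hm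
      have hm' := congrArg (fun z : Matrix.SpecialLinearGroup (Fin 2) F => (z : Matrix (Fin 2) (Fin 2) F)) hm
      simp only [Matrix.SpecialLinearGroup.coe_mul, hUU] at hm'
      have e00 := congrFun (congrFun hm' 0) 0
      have e01 := congrFun (congrFun hm' 0) 1
      simp [Matrix.mul_apply, Fin.sum_univ_two] at e00 e01
      have hdet : (m : Matrix (Fin 2) (Fin 2) F).det = 1 := m.2
      rw [Matrix.det_fin_two] at hdet
      set a := (m : Matrix (Fin 2) (Fin 2) F) 0 0 with ha
      set b := (m : Matrix (Fin 2) (Fin 2) F) 0 1 with hb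
      set c := (m : Matrix (Fin 2) (Fin 2) F) 1 0 with hc
      set d := (m : Matrix (Fin 2) (Fin 2) F) 1 1 with hd
      have had : a = d := by linear_combination e01
      have hc0 : c = 0 := by linear_combination e00
      have ha1 : a = 1 := by
        have : (a - 1) ^ 2 = 0 := by linear_combination hdet + a * had + b * hc0 + (1 - a) * two
        exact sub_eq_zero.mp (pow_eq_zero_iff (two_ne_zero) |>.mp this)
      refine ⟨b, ?_⟩
      apply Subtype.ext
      apply Subtype.ext
      change !![1, b; 0, 1] = (m : Matrix (Fin 2) (Fin 2) F)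
      rw [Matrix.eta_fin_two (m : Matrix (Fin 2) (Fin 2) F)]
      rw [← ha, ← hb, ← hc, ← hd, hc0, ← had, ha1]
  have h1 := CfsgLib.SL2.card_class_mul_centralizer U
  rw [hcent, CfsgLib.SL2.card_SL2, mul_comm] at h1
  exact Nat.eq_of_mul_eq_mul_left Fintype.card_pos h1

end Cfsg.Agent.S2302
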