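import Cfsg.Statements.S2303
-- import your own Cfsg.Agent.* helpers here

set_option autoImplicit false
open Cfsg

namespace Cfsg.Agent.S2303

/-- Over a finite field with q elements: a diagonal element of GL₂ with two distinct diagonal entries has centralizer of order (q − 1)² (so q(q + 1) conjugates), and an element of GL₂ with no eigenvector in F² has centralizer of order q² − 1 (so q(q − 1) conjugates). -/
theorem result {F : Type*} [Field F] [Fintype F] (g : Matrix.GeneralLinearGroup (Fin 2) F) :
    ((g : Matrix (Fin 2) (Fin 2) F) 0 1 = 0 → (g : Matrix (Fin 2) (Fin 2) F) 1 0 = 0 → (g : Matrix (Fin 2) (Fin 2) F) 0 0 ≠ (g : Matrix (Fin 2) (Fin 2) F) 1 1 →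
      Nat.card (Subgroup.centralizer ({g} : Set (Matrix.GeneralLinearGroup (Fin 2) F))) = (Fintype.card F - 1) ^ 2) ∧
    ((∀ (c : F) (v : Fin 2 → F), v ≠ 0 → (g : Matrix (Fin 2) (Fin 2) F).mulVec v ≠ c • v) →
      Nat.card (Subgroup.centralizer ({g} : Set (Matrix.GeneralLinearGroup (Fin 2) F))) = Fintype.card F ^ 2 - 1) := by
  classical
  set a := (g : Matrix (Fin 2) (Fin 2) F) 0 0 with ha
  set b := (g : Matrix (Fin 2) (Fin 2) F) 0 1 with hb
  set c := (g : Matrix (Fin 2) (Fin 2) F) 1 0 with hc
  set d := (g : Matrix (Fin 2) (Fin 2) F) 1 1 with hd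
  have hg : (g : Matrix (Fin 2) (Fin 2) F) = !![a, b; c, d] := by
    rw [ha, hb, hc, hd]; exact Matrix.eta_fin_two _
  refine ⟨fun hb0 hc0 hne => ?_, fun hirr => ?_⟩
  · have e : Nat.card (Fˣ × Fˣ) =
        Nat.card (Subgroup.centralizer ({g} : Set (Matrix.GeneralLinearGroup (Fin 2) F))) := by
      refine Nat.card_congr (Equiv.ofBijective (fun u : Fˣ × Fˣ =>
        (⟨Matrix.GeneralLinearGroup.mkOfDetNeZero !![(u.1 : F), 0; 0, (u.2 : F)]
          (by simp [Matrix.det_fin_two]), ?_⟩ :
          Subgroup.centralizer ({g} : Set (Matrix.GeneralLinearGroup (Fin 2) F)))) ⟨?_, ?_⟩)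
      · refine Subgroup.mem_centralizer_singleton_iff.mpr (Units.ext ?_)
        change !![(u.1 : F), 0; 0, (u.2 : F)] * (g : Matrix (Fin 2) (Fin 2) F) =
          (g : Matrix (Fin 2) (Fin 2) F) * !![(u.1 : F), 0; 0, (u.2 : F)]
        rw [hg, hb0, hc0]
        simp [Matrix.mul_fin_two, mul_comm]
      · intro u v huv
        have h := congrArg (fun m : Subgroup.centralizer ({g} : Set (Matrix.GeneralLinearGroup (Fin 2) F)) =>
          ((m : Matrix.GeneralLinearGroup (Fin 2) F) : Matrix (Fin 2) (Fin 2) F)) huv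
        have h0 := congrFun (congrFun h 0) 0
        have h1 := congrFun (congrFun h 1) 1
        exact Prod.ext (Units.ext h0) (Units.ext h1)
      · rintro ⟨m, hm⟩
        rw [Subgroup.mem_centralizer_singleton_iff] at hm
        have hm' : (m : Matrix (Fin 2) (Fin 2) F) * g = (g : Matrix (Fin 2) (Fin 2) F) * m :=
          congrArg Units.val hm
        have e01 := congrFun (congrFun hm' 0) 1
        have e10 := congrFun (congrFun hm' 1) 0
        simp [Matrix.mul_apply, Fin.sum_univ_two, ← ha, ← hb, ← hc, ← hd, hb0, hc0] at e01 e10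
        have m01 : (m : Matrix (Fin 2) (Fin 2) F) 0 1 = 0 := by
          have : (d - a) * (m : Matrix (Fin 2) (Fin 2) F) 0 1 = 0 := by linear_combination e01
          exact (mul_eq_zero.mp this).resolve_left (sub_ne_zero.mpr (Ne.symm hne))
        have m10 : (m : Matrix (Fin 2) (Fin 2) F) 1 0 = 0 := by
          have : (a - d) * (m : Matrix (Fin 2) (Fin 2) F) 1 0 = 0 := by linear_combination e10
          exact (mul_eq_zero.mp this).resolve_left (sub_ne_zero.mpr hne)
        have hdet : (m : Matrix (Fin 2) (Fin 2) F).det ≠ 0 :=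
          ((Matrix.isUnit_iff_isUnit_det _).mp m.isUnit).ne_zero
        rw [Matrix.det_fin_two, m01, m10, mul_zero, sub_zero] at hdet
        refine ⟨(Units.mk0 _ (left_ne_zero_of_mul hdet), Units.mk0 _ (right_ne_zero_of_mul hdet)), ?_⟩
        apply Subtype.ext
        apply Units.ext
        change !![(m : Matrix (Fin 2) (Fin 2) F) 0 0, 0; 0, (m : Matrix (Fin 2) (Fin 2) F) 1 1] = (m : Matrix (Fin 2) (Fin 2) F)
        conv_rhs => rw [Matrix.eta_fin_two (m : Matrix (Fin 2) (Fin 2) F), m01, m10]
    rw [← e, Nat.card_prod, Nat.card_units, Nat.card_eq_fintype_card, pow_two]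
  · have hc0 : c ≠ 0 := by
      intro hc0
      refine hirr a ![1, 0] (by intro h; simpa using congrFun h 0) ?_
      rw [hg, hc0]
      ext i; fin_cases i <;> simp [Matrix.mulVec, dotProduct, Fin.sum_univ_two]
    have e : Nat.card {p : F × F // p ≠ 0} =
        Nat.card (Subgroup.centralizer ({g} : Set (Matrix.GeneralLinearGroup (Fin 2) F))) := by
      refine Nat.card_congr (Equiv.ofBijective (fun u : {p : F × F // p ≠ 0} =>
        (⟨Matrix.GeneralLinearGroup.mkOfDetNeZero !![u.1.1 + u.1.2 * a, u.1.2 * b; u.1.2 * c, u.1.1 + u.1.2 * d]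
          ?_, ?_⟩ :
          Subgroup.centralizer ({g} : Set (Matrix.GeneralLinearGroup (Fin 2) F)))) ⟨?_, ?_⟩)
      · intro hdet
        obtain ⟨v, hv, hv0⟩ := Matrix.exists_mulVec_eq_zero_iff.mpr hdet
        rcases eq_or_ne u.1.2 0 with hy | hy
        · have hx : u.1.1 ≠ 0 := fun hx => u.2 (Prod.ext hx hy)
          apply hv
          ext i
          have := congrFun hv0 i
          fin_cases i <;>
            simpa [Matrix.mulVec, dotProduct, Fin.sum_univ_two, hy, hx] using this
        · refine hirr (-(u.1.1) / u.1.2) v hv ?_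
          rw [hg]
          have h0 := congrFun hv0 0
          have h1 := congrFun hv0 1
          simp [Matrix.mulVec, dotProduct, Fin.sum_univ_two] at h0 h1
          ext i
          fin_cases i <;> simp [Matrix.mulVec, dotProduct, Fin.sum_univ_two] <;> field_simp
          · linear_combination h0
          · linear_combination h1
      · refine Subgroup.mem_centralizer_singleton_iff.mpr (Units.ext ?_)
        change !![u.1.1 + u.1.2 * a, u.1.2 * b; u.1.2 * c, u.1.1 + u.1.2 * d] * (g : Matrix (Fin 2) (Fin 2) F) =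
          (g : Matrix (Fin 2) (Fin 2) F) * !![u.1.1 + u.1.2 * a, u.1.2 * b; u.1.2 * c, u.1.1 + u.1.2 * d]
        rw [hg, Matrix.mul_fin_two, Matrix.mul_fin_two]
        congr 1 <;> ext i j <;> fin_cases i <;> fin_cases j <;> simp <;> ring
      · intro u v huv
        have h := congrArg (fun m : Subgroup.centralizer ({g} : Set (Matrix.GeneralLinearGroup (Fin 2) F)) =>
          ((m : Matrix.GeneralLinearGroup (Fin 2) F) : Matrix (Fin 2) (Fin 2) F)) huv
        have h0 : u.1.1 + u.1.2 * a = v.1.1 + v.1.2 * a := congrFun (congrFun h 0) 0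
        have h1 : u.1.2 * c = v.1.2 * c := congrFun (congrFun h 1) 0
        have hy := mul_right_cancel₀ hc0 h1
        rw [hy] at h0
        exact Subtype.ext (Prod.ext (add_right_cancel h0) hy)
      · rintro ⟨m, hm⟩
        rw [Subgroup.mem_centralizer_singleton_iff] at hm
        have hm' : (m : Matrix (Fin 2) (Fin 2) F) * g = (g : Matrix (Fin 2) (Fin 2) F) * m :=
          congrArg Units.val hm
        have e00 := congrFun (congrFun hm' 0) 0
        have e10 := congrFun (congrFun hm' 1) 0
        simp [Matrix.mul_apply, Fin.sum_univ_two, ← ha, ← hb, ← hc, ← hd] at e00 e10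
        set y := (m : Matrix (Fin 2) (Fin 2) F) 1 0 / c with hy
        set x := (m : Matrix (Fin 2) (Fin 2) F) 0 0 - y * a with hx
        have hyc : y * c = (m : Matrix (Fin 2) (Fin 2) F) 1 0 := div_mul_cancel₀ _ hc0
        have h01 : y * b = (m : Matrix (Fin 2) (Fin 2) F) 0 1 := by
          apply mul_right_cancel₀ hc0
          linear_combination b * hyc - e00
        have h11 : x + y * d = (m : Matrix (Fin 2) (Fin 2) F) 1 1 := by
          apply mul_right_cancel₀ hc0
          rw [hx]
          linear_combination (d - a) * hyc - e10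
        have hmat : !![x + y * a, y * b; y * c, x + y * d] = (m : Matrix (Fin 2) (Fin 2) F) := by
          rw [h01, hyc, h11, show x + y * a = (m : Matrix (Fin 2) (Fin 2) F) 0 0 by rw [hx]; ring]
          exact (Matrix.eta_fin_two _).symm
        have hdet : (m : Matrix (Fin 2) (Fin 2) F).det ≠ 0 :=
          ((Matrix.isUnit_iff_isUnit_det _).mp m.isUnit).ne_zero
        have hne0 : (x, y) ≠ (0 : F × F) := by
          intro h0
          rw [Prod.mk_eq_zero] at h0
          rw [← hmat, h0.1, h0.2] at hdet
          exact hdet (by simp [Matrix.det_fin_two])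
        exact ⟨⟨(x, y), hne0⟩, Subtype.ext (Units.ext hmat)⟩
    rw [← e, Nat.card_eq_fintype_card, Fintype.card_subtype_compl, Fintype.card_subtype_eq, Fintype.card_prod, pow_two]

end Cfsg.Agent.S2303
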