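import Cfsg.Statements.S2305
import Cfsg.Agent.Clifford.PrincipalSeries

set_option autoImplicit false
open Cfsg

namespace Cfsg.Agent.S2305

/-- Over a finite field F, for multiplicative characters α, β, α′, β′ of F, the characters of GL₂ induced from the linear characters b ↦ α(b₁₁) β(b₂₂) and b ↦ α′(b₁₁) β′(b₂₂) of the upper triangular subgroup coincide exactly when {α, β} = {α′, β′} as unordered pairs. -/
theorem result {F : Type*} [Field F] [Fintype F] [DecidableEq F] (α β α' β' : MulChar F ℂ) :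
    Cfsg.indFun (Cfsg.upperTriangularGL 2 F) (fun b => α (((b : Matrix.GeneralLinearGroup (Fin 2) F) : Matrix (Fin 2) (Fin 2) F) 0 0) * β (((b : Matrix.GeneralLinearGroup (Fin 2) F) : Matrix (Fin 2) (Fin 2) F) 1 1)) = Cfsg.indFun (Cfsg.upperTriangularGL 2 F) (fun b => α' (((b : Matrix.GeneralLinearGroup (Fin 2) F) : Matrix (Fin 2) (Fin 2) F) 0 0) * β' (((b : Matrix.GeneralLinearGroup (Fin 2) F) : Matrix (Fin 2) (Fin 2) F) 1 1)) ↔
      (α = α' ∧ β = β') ∨ (α = β' ∧ β = α') := by
  classical
  have := Fintype.ofFinite (Cfsg.upperTriangularGL 2 F)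
  change Cfsg.indFun _ (CfsgLib.PrincipalSeries.borelChar α β) = Cfsg.indFun _ (CfsgLib.PrincipalSeries.borelChar α' β') ↔ _
  have h0 := CfsgLib.PrincipalSeries.inner_principal α β α β
  have h1 := CfsgLib.PrincipalSeries.inner_principal α β α' β'
  constructor
  · intro h
    rw [← h, h0] at h1
    by_contra hh
    rw [not_or] at hh
    rw [if_neg hh.1, if_neg hh.2, if_pos ⟨rfl, rfl⟩] at h1
    split_ifs at h1 <;> norm_num at h1
  · rintro (⟨rfl, rfl⟩ | ⟨rfl, rfl⟩)
    · rfl
    set I := Cfsg.indFun (Cfsg.upperTriangularGL 2 F) (CfsgLib.PrincipalSeries.borelChar α β) with hI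
    set J := Cfsg.indFun (Cfsg.upperTriangularGL 2 F) (CfsgLib.PrincipalSeries.borelChar β α) with hJ
    have h2 := CfsgLib.PrincipalSeries.inner_principal β α α β
    have h3 := CfsgLib.PrincipalSeries.inner_principal β α β α
    have hn : Cfsg.classInner (I - J) (I - J) = 0 := by
      rw [CfsgLib.CharBasics.classInner_eq] at h0 h1 h2 h3 ⊢
      simp only [Pi.sub_apply, map_sub, sub_mul, mul_sub, Finset.sum_sub_distrib] at *
      rw [h0, h1, h2, h3]
      by_cases hab : α = β
      · subst hab; simp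
      · simp [hab, Ne.symm hab]
    rw [CfsgLib.CharBasics.classInner_eq, mul_eq_zero] at hn
    have h4 := hn.resolve_left (inv_ne_zero (Nat.cast_ne_zero.mpr Nat.card_pos.ne'))
    simp only [Complex.mul_conj, ← Complex.ofReal_sum, Complex.ofReal_eq_zero] at h4
    funext g
    exact sub_eq_zero.mp (Complex.normSq_eq_zero.mp
      ((Finset.sum_eq_zero_iff_of_nonneg (fun x _ => Complex.normSq_nonneg _)).mp h4 g (Finset.mem_univ _)))

end Cfsg.Agent.S2305
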