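import Cfsg.Statements.S2306
import Cfsg.Agent.Clifford.PrincipalSeriesSL

set_option autoImplicit false
open Cfsg

namespace Cfsg.Agent.S2306

/-- Over a finite field F, for a multiplicative character α of F, the function induced to SL₂ from the linear character b ↦ α(b₁₁) of the upper triangular subgroup is an irreducible character if and only if α² ≠ 1. -/
theorem result {F : Type*} [Field F] [Fintype F] [DecidableEq F] (α : MulChar F ℂ) :
    Cfsg.IsIrrCharacter (Matrix.SpecialLinearGroup (Fin 2) F) (Cfsg.indFun ((Cfsg.upperTriangularGL 2 F).comap Matrix.SpecialLinearGroup.toGL) (fun b => α (((b : Matrix.SpecialLinearGroup (Fin 2) F) : Matrix (Fin 2) (Fin 2) F) 0 0))) ↔ α ^ 2 ≠ 1 := by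
  classical
  have := Fintype.ofFinite (CfsgLib.PrincipalSeries.slBorel F)
  change Cfsg.IsIrrCharacter _ (Cfsg.indFun (CfsgLib.PrincipalSeries.slBorel F) (CfsgLib.PrincipalSeries.slChar α)) ↔ _
  have hc : Cfsg.IsCharacter _ (Cfsg.indFun (CfsgLib.PrincipalSeries.slBorel F) (CfsgLib.PrincipalSeries.slChar α)) :=
    CfsgLib.CharBasics.isCharacter_indFun _ (CfsgLib.Clifford.isCharacter_of_hom (CfsgLib.PrincipalSeries.slHom α))
  have h := CfsgLib.PrincipalSeries.inner_sl α α
  rw [if_pos rfl, ← sq] at h
  constructor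
  · intro hirr hα
    rw [if_pos hα, CfsgLib.CharBasics.classInner_self hirr] at h
    norm_num at h
  · intro hα
    rw [if_neg hα, add_zero] at h
    exact CfsgLib.CharBasics.isIrr_of_norm_one hc h

end Cfsg.Agent.S2306
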