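import Cfsg.Statements.S2308
-- import your own Cfsg.Agent.* helpers here

set_option autoImplicit false
open Cfsg

namespace Cfsg.Agent.S2308

/-- Values of the permutation character of GL₂ over a finite field F with q elements on the cosets of its upper triangular subgroup (equivalently, the number of lines of F² that an element maps to themselves): q + 1 at a scalar matrix, 2 at a diagonal matrix with two different diagonal entries, 0 at an element with no eigenvector in F², and 1 at an upper triangular matrix with equal diagonal entries and non-zero upper right entry. -/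
theorem result {F : Type*} [Field F] [Fintype F] (g : Matrix.GeneralLinearGroup (Fin 2) F) :
    ((∃ a : F, (g : Matrix (Fin 2) (Fin 2) F) = a • (1 : Matrix (Fin 2) (Fin 2) F)) → Cfsg.fixedPointCharacter (Cfsg.upperTriangularGL 2 F) g = Fintype.card F + 1) ∧
    ((g : Matrix (Fin 2) (Fin 2) F) 0 1 = 0 → (g : Matrix (Fin 2) (Fin 2) F) 1 0 = 0 → (g : Matrix (Fin 2) (Fin 2) F) 0 0 ≠ (g : Matrix (Fin 2) (Fin 2) F) 1 1 →
      Cfsg.fixedPointCharacter (Cfsg.upperTriangularGL 2 F) g = 2) ∧
    ((∀ (c : F) (v : Fin 2 → F), v ≠ 0 → (g : Matrix (Fin 2) (Fin 2) F).mulVec v ≠ c • v) → Cfsg.fixedPointCharacter (Cfsg.upperTriangularGL 2 F) g = 0) ∧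
    ((g : Matrix (Fin 2) (Fin 2) F) 1 0 = 0 → (g : Matrix (Fin 2) (Fin 2) F) 0 0 = (g : Matrix (Fin 2) (Fin 2) F) 1 1 → (g : Matrix (Fin 2) (Fin 2) F) 0 1 ≠ 0 →
      Cfsg.fixedPointCharacter (Cfsg.upperTriangularGL 2 F) g = 1) := by
  classical
  let M : Matrix (Fin 2) (Fin 2) F := (g : Matrix (Fin 2) (Fin 2) F)
  let R : Option F → Matrix.GeneralLinearGroup (Fin 2) F := fun o => o.elim 1
    (fun x => Matrix.GeneralLinearGroup.mkOfDetNeZero !![x, 1; 1, 0] (by simp [Matrix.det_fin_two]))
  let B := Cfsg.upperTriangularGL 2 F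
  have hB : ∀ u : Matrix.GeneralLinearGroup (Fin 2) F, u ∈ B ↔ (u : Matrix (Fin 2) (Fin 2) F) 1 0 = 0 := by
    intro u
    constructor
    · intro h; exact h (show id (0 : Fin 2) < id (1 : Fin 2) by decide)
    · intro h i j hij
      fin_cases i <;> fin_cases j <;> first | exact h | simp at hij
  let D : Matrix.GeneralLinearGroup (Fin 2) F → Matrix.GeneralLinearGroup (Fin 2) F → F := fun u v =>
    (u : Matrix (Fin 2) (Fin 2) F) 0 0 * (v : Matrix (Fin 2) (Fin 2) F) 1 0 -
      (u : Matrix (Fin 2) (Fin 2) F) 1 0 * (v : Matrix (Fin 2) (Fin 2) F) 0 0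
  have hrel : ∀ u v : Matrix.GeneralLinearGroup (Fin 2) F,
      (QuotientGroup.mk u : Matrix.GeneralLinearGroup (Fin 2) F ⧸ B) = QuotientGroup.mk v ↔ D u v = 0 := by
    intro u v
    rw [QuotientGroup.eq, hB, Matrix.GeneralLinearGroup.coe_mul, Matrix.mul_apply, Fin.sum_univ_two]
    have hu := Matrix.isUnit_iff_isUnit_det _ |>.mp u.isUnit
    rw [Matrix.coe_units_inv, Matrix.inv_def, Matrix.adjugate_fin_two]
    simp only [D, Matrix.smul_apply, smul_eq_mul, Ring.inverse_eq_inv', Matrix.of_apply, Matrix.cons_val',
      Matrix.cons_val_zero, Matrix.cons_val_one, Matrix.cons_val_fin_one]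
    constructor
    · intro h
      refine mul_left_cancel₀ (inv_ne_zero hu.ne_zero) ?_
      rw [mul_zero]; linear_combination h
    · intro h
      linear_combination ((u : Matrix (Fin 2) (Fin 2) F).det)⁻¹ * h
  have hbij : Function.Bijective (fun o => (QuotientGroup.mk (R o) : Matrix.GeneralLinearGroup (Fin 2) F ⧸ B)) := by
    constructor
    · intro o o' h
      have h' := (hrel _ _).mp h
      cases o <;> cases o' <;> simp [D, R] at h' <;> first | rfl | (congr 1; linear_combination h')
    · intro c
      obtain ⟨u, rfl⟩ := QuotientGroup.mk_surjective c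
      by_cases hc : (u : Matrix (Fin 2) (Fin 2) F) 1 0 = 0
      · exact ⟨none, (hrel _ _).mpr (by simp [D, R, hc])⟩
      · exact ⟨some ((u : Matrix (Fin 2) (Fin 2) F) 0 0 / (u : Matrix (Fin 2) (Fin 2) F) 1 0),
          (hrel _ _).mpr (by simp [D, R]; field_simp; ring)⟩
  let P : Option F → Prop := fun o => o.elim (M 1 0 = 0) (fun x => M 0 0 * x + M 0 1 = x * (M 1 0 * x + M 1 1))
  have hfix : ∀ o, g • (QuotientGroup.mk (R o) : Matrix.GeneralLinearGroup (Fin 2) F ⧸ B) = QuotientGroup.mk (R o) ↔ P o := by
    intro o
    rw [MulAction.Quotient.smul_mk, smul_eq_mul, hrel]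
    cases o <;> simp [D, R, P, M, Matrix.mul_apply, Fin.sum_univ_two]
    constructor <;> intro h
    · linear_combination h
    · linear_combination h
  have hchar : Cfsg.fixedPointCharacter B g = (Nat.card {o : Option F // P o} : ℂ) := by
    unfold Cfsg.fixedPointCharacter
    congr 1
    exact (Nat.card_congr ((Equiv.ofBijective _ hbij).subtypeEquiv (fun o => ((hfix o).symm.trans (Iff.rfl))))).symm
  rw [show Cfsg.upperTriangularGL 2 F = B from rfl, hchar]
  refine ⟨?_, ?_, ?_, ?_⟩
  · rintro ⟨a, ha⟩
    have hP : ∀ o, P o := by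
      intro o
      cases o <;> simp [P, M, ha]
      ring
    rw [Nat.card_congr (Equiv.subtypeUnivEquiv hP), Nat.card_eq_fintype_card, Fintype.card_option]
    push_cast; ring
  · intro h01 h10 hne
    have hset : {o : Option F | P o} = {none, some 0} := by
      ext o
      cases o with
      | none => simp [P, M, h10]
      | some x =>
        simp only [Set.mem_ofPred_eq, Set.mem_insert_iff, Set.mem_singleton_iff, reduceCtorEq, false_or, Option.some.injEq]
        simp [P, M, h01, h10]
        constructor
        · intro h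
          exact (mul_eq_zero.mp (show ((g : Matrix (Fin 2) (Fin 2) F) 0 0 - (g : Matrix (Fin 2) (Fin 2) F) 1 1) * x = 0 by
            linear_combination h)).resolve_left (sub_ne_zero.mpr hne)
        · rintro rfl; ring
    rw [← Set.coe_ofPred, Nat.card_coe_set_eq, hset, Set.ncard_pair (by simp)]
    norm_num
  · intro h
    have hset : {o : Option F | P o} = ∅ := by
      ext o
      simp only [Set.mem_ofPred_eq, Set.mem_empty_iff_false, iff_false]
      intro ho
      cases o with
      | none =>
        refine h (M 0 0) ![1, 0] (fun hv => one_ne_zero (congrFun hv 0)) ?_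
        simp [P] at ho
        ext i; fin_cases i <;> simp [Matrix.mulVec, dotProduct, Fin.sum_univ_two, M] <;> first | exact ho | skip
      | some x =>
        refine h (M 1 0 * x + M 1 1) ![x, 1] (fun hv => one_ne_zero (congrFun hv 1)) ?_
        simp [P] at ho
        ext i; fin_cases i <;> simp [Matrix.mulVec, dotProduct, Fin.sum_univ_two, M]
        linear_combination ho
    rw [← Set.coe_ofPred, Nat.card_coe_set_eq, hset, Set.ncard_empty]
    norm_num
  · intro h10 heq h01
    have hset : {o : Option F | P o} = {none} := by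
      ext o
      cases o with
      | none => simp [P, M, h10]
      | some x =>
        simp [P, M, h10, heq]
        intro h
        exact h01 (by linear_combination h)
    rw [← Set.coe_ofPred, Nat.card_coe_set_eq, hset, Set.ncard_singleton]
    norm_num

end Cfsg.Agent.S2308
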