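import Cfsg.Statements.S2309
import Cfsg.Agent.SL2Char.GL
-- import your own Cfsg.Agent.* helpers here

set_option autoImplicit false
open Cfsg

namespace Cfsg.Agent.S2309

/-- Over a finite field F with q elements: every irreducible complex character of GL₂ of degree q − 1 vanishes at every diagonal matrix with two distinct entries, and every irreducible complex character of degree q + 1 vanishes at every element with no eigenvector in F². -/
theorem result {F : Type*} [Field F] [Fintype F] (χ : Matrix.GeneralLinearGroup (Fin 2) F → ℂ) (hχ : Cfsg.IsIrrCharacter (Matrix.GeneralLinearGroup (Fin 2) F) χ) (g : Matrix.GeneralLinearGroup (Fin 2) F) :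
    (χ 1 = (Fintype.card F : ℂ) - 1 → (g : Matrix (Fin 2) (Fin 2) F) 0 1 = 0 → (g : Matrix (Fin 2) (Fin 2) F) 1 0 = 0 → (g : Matrix (Fin 2) (Fin 2) F) 0 0 ≠ (g : Matrix (Fin 2) (Fin 2) F) 1 1 → χ g = 0) ∧
    (χ 1 = (Fintype.card F : ℂ) + 1 → (∀ (c : F) (v : Fin 2 → F), v ≠ 0 → (g : Matrix (Fin 2) (Fin 2) F).mulVec v ≠ c • v) → χ g = 0) := by
  classical
  obtain ⟨A, S, P, N, hall, hA, hS, hP, hN, cA, cS, cP, cN⟩ := CfsgLib.SL2Char.GL2.classification (F := F)
  have h1 := Fintype.one_lt_card (α := F)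
  have hsub : ((Fintype.card F - 1 : ℕ) : ℂ) = (Fintype.card F : ℂ) - 1 := by
    rw [Nat.cast_sub h1.le, Nat.cast_one]
  have un : ∀ a : ℕ, ∀ b : ℕ, χ 1 = (a : ℂ) → χ 1 = (b : ℂ) → a = b :=
    fun a b ha hb => Nat.cast_injective (ha.symm.trans hb)
  refine ⟨fun hd h01 h10 hne => ?_, fun hd hel => ?_⟩
  · rw [← hsub] at hd
    rcases hall ⟨χ, hχ⟩ with k | k | k | k
    · have hq := un _ _ hd (hA _ k).2
      have hd0 := CfsgLib.SL2Char.GL2.detG_ne g
      rw [h01, zero_mul, sub_zero] at hd0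
      haveI : Subsingleton Fˣ := Fintype.card_le_one_iff_subsingleton.1 (by rw [Fintype.card_units]; omega)
      exact absurd (congrArg Units.val (Subsingleton.elim (Units.mk0 _ (left_ne_zero_of_mul hd0))
        (Units.mk0 _ (right_ne_zero_of_mul hd0)))) hne
    · have := un _ _ hd (hS _ k).2; omega
    · have := un _ _ hd (hP _ k).2; omega
    · exact CfsgLib.SL2Char.GL2.diag_eq_zero (CfsgLib.CharBasics.isCharacter_of_irr hχ) (hN _ k).1 h01 h10 hne
  · replace hd : χ 1 = ((Fintype.card F + 1 : ℕ) : ℂ) := by rw [hd, Nat.cast_add, Nat.cast_one]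
    rcases hall ⟨χ, hχ⟩ with k | k | k | k
    · have := un _ _ hd (hA _ k).2; omega
    · have := un _ _ hd (hS _ k).2; omega
    · obtain ⟨α, β, -, e⟩ := (hP _ k).1
      replace e : χ = _ := e
      rw [e]; exact CfsgLib.SL2Char.GL2.RG_elliptic α β hel
    · have := un _ _ hd (hN _ k).2; omega

end Cfsg.Agent.S2309
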