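import Cfsg.Statements.S2310
import Cfsg.Agent.SL2Char.GL
-- import your own Cfsg.Agent.* helpers here

set_option autoImplicit false
open Cfsg

namespace Cfsg.Agent.S2310

/-- Over a finite field F with q ≥ 3 elements, let u be the upper unitriangular matrix of GL₂ with off-diagonal entry 1. An irreducible complex character χ of GL₂ takes at u the value 1 if χ has degree 1 or q + 1, the value −1 if χ has degree q − 1, and the value 0 if χ has degree q. -/
theorem result {F : Type*} [Field F] [Fintype F] (hq : 3 ≤ Fintype.card F) (χ : Matrix.GeneralLinearGroup (Fin 2) F → ℂ) (hχ : Cfsg.IsIrrCharacter (Matrix.GeneralLinearGroup (Fin 2) F) χ)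
    (u : Matrix.GeneralLinearGroup (Fin 2) F) (hu : (u : Matrix (Fin 2) (Fin 2) F) = !![1, 1; 0, 1]) :
    (χ 1 = 1 → χ u = 1) ∧ (χ 1 = (Fintype.card F : ℂ) + 1 → χ u = 1) ∧
    (χ 1 = (Fintype.card F : ℂ) - 1 → χ u = -1) ∧ (χ 1 = (Fintype.card F : ℂ) → χ u = 0) := by
  classical
  obtain ⟨A, S, P, N, hall, hA, hS, hP, hN, cA, cS, cP, cN⟩ := CfsgLib.SL2Char.GL2.classification (F := F)
  have h1 := Fintype.one_lt_card (α := F)
  have hsub : ((Fintype.card F - 1 : ℕ) : ℂ) = (Fintype.card F : ℂ) - 1 := by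
    rw [Nat.cast_sub h1.le, Nat.cast_one]
  have un : ∀ a : ℕ, ∀ b : ℕ, χ 1 = (a : ℂ) → χ 1 = (b : ℂ) → a = b :=
    fun a b ha hb => Nat.cast_injective (ha.symm.trans hb)
  have hdet : ((u : Matrix (Fin 2) (Fin 2) F)).det = 1 := by rw [hu]; simp [Matrix.det_fin_two]
  refine ⟨fun hd => ?_, fun hd => ?_, fun hd => ?_, fun hd => ?_⟩
  · replace hd : χ 1 = ((1 : ℕ) : ℂ) := by rw [hd, Nat.cast_one]
    rcases hall ⟨χ, hχ⟩ with k | k | k | k
    · obtain ⟨α, e⟩ := (hA _ k).1
      replace e : χ = _ := e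
      simp [e, CfsgLib.SL2Char.GL2.detChar, hdet]
    · have := un _ _ hd (hS _ k).2; omega
    · have := un _ _ hd (hP _ k).2; omega
    · have := un _ _ hd (hN _ k).2; omega
  · replace hd : χ 1 = ((Fintype.card F + 1 : ℕ) : ℂ) := by rw [hd, Nat.cast_add, Nat.cast_one]
    rcases hall ⟨χ, hχ⟩ with k | k | k | k
    · have := un _ _ hd (hA _ k).2; omega
    · have := un _ _ hd (hS _ k).2; omega
    · obtain ⟨α, β, -, e⟩ := (hP _ k).1
      replace e : χ = _ := e
      rw [e]; exact CfsgLib.SL2Char.GL2.RG_unip α β hu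
    · have := un _ _ hd (hN _ k).2; omega
  · rw [← hsub] at hd
    rcases hall ⟨χ, hχ⟩ with k | k | k | k
    · have := un _ _ hd (hA _ k).2; omega
    · have := un _ _ hd (hS _ k).2; omega
    · have := un _ _ hd (hP _ k).2; omega
    · have hc := CfsgLib.CharBasics.isCharacter_of_irr hχ
      have h0 : CfsgLib.SL2Char.GL2.uSumG χ = 0 := (hN _ k).1
      have hcls : ∀ c ∈ Finset.univ.erase (0 : F), χ (CfsgLib.SL2Char.GL2.borG 1 1 c) = χ u := by
        intro c hc0
        refine (CfsgLib.CharBasics.apply_isConj hc (isConj_iff.mpr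
          ⟨CfsgLib.SL2Char.GL2.mkG c 0 0 1 (by simpa using Finset.ne_of_mem_erase hc0), ?_⟩)).symm
        rw [mul_inv_eq_iff_eq_mul]
        apply CfsgLib.SL2Char.GL2.extG <;> simp [CfsgLib.SL2Char.GL2.borG, CfsgLib.SL2Char.GL2.mulG, hu]
      rw [CfsgLib.SL2Char.GL2.uSumG, ← Finset.add_sum_erase _ _ (Finset.mem_univ (0 : F)),
        Finset.sum_congr rfl hcls, Finset.sum_const, Finset.card_erase_of_mem (Finset.mem_univ _), Finset.card_univ,
        nsmul_eq_mul, show CfsgLib.SL2Char.GL2.borG (1 : Fˣ) 1 (0 : F) = 1 by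
          apply CfsgLib.SL2Char.GL2.extG <;> simp [CfsgLib.SL2Char.GL2.borG], hd] at h0
      have hne : ((Fintype.card F - 1 : ℕ) : ℂ) ≠ 0 := Nat.cast_ne_zero.2 (by omega)
      exact mul_left_cancel₀ hne (by linear_combination h0)
  · rcases hall ⟨χ, hχ⟩ with k | k | k | k
    · have := un _ _ hd (hA _ k).2; omega
    · obtain ⟨α, e⟩ := (hS _ k).1
      replace e : χ = _ := e
      simp [e, CfsgLib.SL2Char.GL2.StG, CfsgLib.SL2Char.GL2.RG_unip _ _ hu, CfsgLib.SL2Char.GL2.detChar, hdet]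
    · have := un _ _ hd (hP _ k).2; omega
    · have := un _ _ hd (hN _ k).2; omega

end Cfsg.Agent.S2310
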