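import Cfsg.Statements.S2315
import Cfsg.Agent.GLOrders.NilCount
-- import your own Cfsg.Agent.* helpers here

set_option autoImplicit false
open Cfsg

namespace Cfsg.Agent.S2315

/-- Steinberg's count of unipotent elements for the general linear group: over a finite field with q elements of characteristic p, the number of elements of GL_n of p-power order (the unipotent matrices) is q^(n(n−1)). -/
theorem result {F : Type*} [Field F] [Fintype F] (p : ℕ) [Fact p.Prime] [CharP F p] (n : ℕ) :
    Nat.card {g : Matrix.GeneralLinearGroup (Fin n) F // ∃ k : ℕ, orderOf g = p ^ k} = Fintype.card F ^ (n * (n - 1)) := by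
  classical
  have hp : p.Prime := Fact.out
  have hchar : ∀ g : Matrix (Fin n) (Fin n) F, ∀ k, (g - 1) ^ p ^ k = g ^ p ^ k - 1 := by
    intro g k
    rcases Nat.eq_zero_or_pos n with rfl | hn
    · exact Subsingleton.elim _ _
    · have : Nonempty (Fin n) := ⟨⟨0, hn⟩⟩
      rw [sub_pow_char_pow_of_commute p k (Commute.one_right g), one_pow]
  rw [← CfsgLib.GLOrders.card_nilMat n]
  refine Nat.card_congr
    { toFun := fun g => ⟨(g.1 : Matrix (Fin n) (Fin n) F) - 1, ?_⟩
      invFun := fun N => ⟨(IsNilpotent.isUnit_one_add N.2).unit, ?_⟩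
      left_inv := fun g => Subtype.ext (Units.ext (by simp))
      right_inv := fun N => Subtype.ext (by simp) }
  · obtain ⟨k, hk⟩ := g.2
    refine ⟨p ^ k, ?_⟩
    rw [hchar, ← Units.val_pow_eq_pow_val, ← hk, pow_orderOf_eq_one, Units.val_one, sub_self]
  · set k := Nat.clog p n with hk
    have h1 : ((IsNilpotent.isUnit_one_add N.2).unit : GL (Fin n) F) ^ p ^ k = 1 := by
      apply Units.ext
      rw [Units.val_pow_eq_pow_val, Units.val_one, IsUnit.unit_spec]
      have h2 := hchar (1 + N.1) k
      rw [add_sub_cancel_left, pow_eq_zero_of_le (Nat.le_pow_clog hp.one_lt n) (CfsgLib.GLOrders.nilMat_pow N.2)] at h2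
      exact sub_eq_zero.mp h2.symm
    obtain ⟨i, -, hi⟩ := (Nat.dvd_prime_pow hp).mp (orderOf_dvd_of_pow_eq_one h1)
    exact ⟨i, hi⟩

end Cfsg.Agent.S2315
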