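import Cfsg.Statements.S2316
import Cfsg.Agent.SpUnipCount.Main

set_option autoImplicit false
open Cfsg

namespace Cfsg.Agent.S2316

/-- Steinberg's count of unipotent elements for the symplectic group: over a finite field with q elements of characteristic p, the number of elements of Sp_{2m} of p-power order is q^(2m²). -/
theorem result {F : Type*} [Field F] [Fintype F] (p : ℕ) [Fact p.Prime] [CharP F p] (m : ℕ) :
    Nat.card {g : ↥(Matrix.symplecticGroup (Fin m) F) // ∃ k : ℕ, orderOf g = p ^ k} = Fintype.card F ^ (2 * m ^ 2) := by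
  rw [← CfsgLib.SpUnipCount.uCount_eq]
  have key : ∀ (A : Matrix (Fin m ⊕ Fin m) (Fin m ⊕ Fin m) F) (k : ℕ), (A - 1) ^ p ^ k = A ^ p ^ k - 1 := fun A k => by
    have h : (Polynomial.X - 1 : Polynomial F) ^ p ^ k = Polynomial.X ^ p ^ k - 1 := by rw [sub_pow_char_pow, one_pow]
    simpa using congrArg (Polynomial.aeval A) h
  refine Nat.card_congr (Equiv.subtypeEquivRight fun g => ⟨?_, ?_⟩)
  · rintro ⟨k, hk⟩
    refine ⟨p ^ k, ?_⟩
    rw [key, ← SubmonoidClass.coe_pow, ← hk,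
      pow_orderOf_eq_one, OneMemClass.coe_one, sub_self]
  · rintro ⟨j, hj⟩
    obtain ⟨k, hk⟩ : ∃ k, j ≤ p ^ k := ⟨j, (Nat.lt_pow_self (Fact.out : p.Prime).one_lt).le⟩
    have h1 : g ^ p ^ k = 1 := Subtype.ext (by
      rw [SubmonoidClass.coe_pow, OneMemClass.coe_one, ← sub_eq_zero]
      have h2 : (g.1 - 1) ^ p ^ k = 0 := pow_eq_zero_of_le hk hj
      rwa [key] at h2)
    obtain ⟨i, -, hi⟩ := (Nat.dvd_prime_pow Fact.out).mp (orderOf_dvd_of_pow_eq_one h1)
    exact ⟨i, hi⟩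

end Cfsg.Agent.S2316
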