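import Cfsg.Statements.S2317
import Cfsg.Agent.NilType.Classes

set_option autoImplicit false
open Cfsg

namespace Cfsg.Agent.S2317

/-- Over a finite field of characteristic p, the conjugacy classes of GL_n consisting of elements of p-power order (the unipotent classes) are as many as the partitions of n. -/
theorem result {F : Type*} [Field F] [Fintype F] (p : ℕ) [Fact p.Prime] [CharP F p] (n : ℕ) :
    Nat.card {C : ConjClasses (Matrix.GeneralLinearGroup (Fin n) F) //
      ∃ g : Matrix.GeneralLinearGroup (Fin n) F, (∃ k : ℕ, orderOf g = p ^ k) ∧ ConjClasses.mk g = C} =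
      Fintype.card (Nat.Partition n) := by
  have e : (fun C : ConjClasses (Matrix.GeneralLinearGroup (Fin n) F) =>
      ∃ g, (∃ k : ℕ, orderOf g = p ^ k) ∧ ConjClasses.mk g = C) =
      fun C => ∃ g, ConjClasses.mk g = C ∧ ∃ k : ℕ, orderOf g = p ^ k :=
    funext fun C => by simp only [and_comm]
  rw [e, ← Finset.card_univ]
  refine CfsgLib.NilType.card_classes (MonoidHom.id _) (fun _ _ h => h) _ _ (fun g => ?_)
    fun μ _ => let ⟨g, hg, _⟩ := CfsgLib.NilType.exists_uniType μ; ⟨g, hg⟩
  rw [CfsgLib.NilType.exists_pow_iff p]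
  simp only [Finset.mem_univ, true_and, MonoidHom.id_apply]

end Cfsg.Agent.S2317
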