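import Cfsg.Statements.S2320
import Cfsg.Agent.SL2Char.GL
-- import your own Cfsg.Agent.* helpers here

set_option autoImplicit false
open Cfsg

namespace Cfsg.Agent.S2320

/-- Over a finite field F with q elements, every irreducible complex character of GL₂ of degree q takes a value of absolute value 1 at every diagonal matrix with two different diagonal entries and at every element with no eigenvector in F². -/
theorem result {F : Type*} [Field F] [Fintype F] (χ : Matrix.GeneralLinearGroup (Fin 2) F → ℂ) (hχ : Cfsg.IsIrrCharacter (Matrix.GeneralLinearGroup (Fin 2) F) χ) (hdeg : χ 1 = (Fintype.card F : ℂ)) (g : Matrix.GeneralLinearGroup (Fin 2) F) :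
    ((g : Matrix (Fin 2) (Fin 2) F) 0 1 = 0 → (g : Matrix (Fin 2) (Fin 2) F) 1 0 = 0 → (g : Matrix (Fin 2) (Fin 2) F) 0 0 ≠ (g : Matrix (Fin 2) (Fin 2) F) 1 1 → ‖χ g‖ = 1) ∧
    ((∀ (c : F) (v : Fin 2 → F), v ≠ 0 → (g : Matrix (Fin 2) (Fin 2) F).mulVec v ≠ c • v) → ‖χ g‖ = 1) := by
  classical
  obtain ⟨A, S, P, N, hall, hA, hS, hP, hN, cA, cS, cP, cN⟩ := CfsgLib.SL2Char.GL2.classification (F := F)
  have h1 := Fintype.one_lt_card (α := F)
  have hsub : ((Fintype.card F - 1 : ℕ) : ℂ) = (Fintype.card F : ℂ) - 1 := by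
    rw [Nat.cast_sub h1.le, Nat.cast_one]
  have un : ∀ a : ℕ, ∀ b : ℕ, χ 1 = (a : ℂ) → χ 1 = (b : ℂ) → a = b :=
    fun a b ha hb => Nat.cast_injective (ha.symm.trans hb)
  rcases hall ⟨χ, hχ⟩ with k | k | k | k
  · have := un _ _ hdeg (hA _ k).2; omega
  · obtain ⟨α, e⟩ := (hS _ k).1
    replace e : χ = _ := e
    have hu : IsUnit ((g : Matrix (Fin 2) (Fin 2) F)).det := (Matrix.isUnit_iff_isUnit_det _).mp g.isUnit
    have hn : ‖α ((g : Matrix (Fin 2) (Fin 2) F)).det‖ = 1 :=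
      Complex.norm_eq_one_of_pow_eq_one (n := Fintype.card F - 1)
        (by rw [← map_pow, FiniteField.pow_card_sub_one_eq_one _ hu.ne_zero, map_one]) (by omega)
    refine ⟨fun h01 h10 hne => ?_, fun hel => ?_⟩
    · rw [e, CfsgLib.SL2Char.GL2.StG, Pi.sub_apply, CfsgLib.SL2Char.GL2.RG_diag α α h10 h01 hne,
        CfsgLib.SL2Char.GL2.detChar]
      rw [Matrix.det_fin_two, h01, zero_mul, sub_zero, map_mul] at hn ⊢
      rw [mul_comm (α _) (α _), add_sub_cancel_right]
      simpa [mul_comm] using hn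
    · rw [e, CfsgLib.SL2Char.GL2.StG, Pi.sub_apply, CfsgLib.SL2Char.GL2.RG_elliptic α α hel,
        CfsgLib.SL2Char.GL2.detChar, zero_sub, norm_neg, hn]
  · have := un _ _ hdeg (hP _ k).2; omega
  · have := un _ _ hdeg (hN _ k).2; omega

end Cfsg.Agent.S2320
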