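import Cfsg.Statements.S2322
import Cfsg.Agent.SL2Char.Values
-- import your own Cfsg.Agent.* helpers here

set_option autoImplicit false
open Cfsg

namespace Cfsg.Agent.S2322

/-- Over a finite field F with q elements, q odd: every irreducible complex character of SL₂ of degree q − 1 or (q − 1)/2 vanishes at every diagonal matrix whose diagonal entry a has a² ≠ 1, and every irreducible complex character of degree q + 1 or (q + 1)/2 vanishes at every element with no eigenvector in F². -/
theorem result {F : Type*} [Field F] [Fintype F] (hodd : Odd (Fintype.card F)) (χ : Matrix.SpecialLinearGroup (Fin 2) F → ℂ) (hχ : Cfsg.IsIrrCharacter (Matrix.SpecialLinearGroup (Fin 2) F) χ) (g : Matrix.SpecialLinearGroup (Fin 2) F) :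
    ((χ 1 = (Fintype.card F : ℂ) - 1 ∨ χ 1 = (((Fintype.card F - 1) / 2 : ℕ) : ℂ)) →
      (g : Matrix (Fin 2) (Fin 2) F) 0 1 = 0 → (g : Matrix (Fin 2) (Fin 2) F) 1 0 = 0 → (g : Matrix (Fin 2) (Fin 2) F) 0 0 ^ 2 ≠ 1 → χ g = 0) ∧
    ((χ 1 = (Fintype.card F : ℂ) + 1 ∨ χ 1 = (((Fintype.card F + 1) / 2 : ℕ) : ℂ)) →
      (∀ (c : F) (v : Fin 2 → F), v ≠ 0 → (g : Matrix (Fin 2) (Fin 2) F).mulVec v ≠ c • v) → χ g = 0) := by
  classical
  have h1 : 1 ≤ Fintype.card F := Fintype.card_pos
  have hlt := Fintype.one_lt_card (α := F)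
  refine ⟨fun hdeg h01 h10 ha => ?_, fun hdeg hvec => ?_⟩
  · obtain ⟨C, T⟩ := CfsgLib.SL2Char.exists_torus (F := F)
    obtain ⟨O⟩ := CfsgLib.SL2Char.nonempty_oddTable hodd T
    have h5 : 5 ≤ Fintype.card F := by
      by_contra hlt
      obtain ⟨k, hk⟩ := hodd
      have h3 : Fintype.card F = 3 := by have := Fintype.one_lt_card (α := F); omega
      have hd := CfsgLib.SL2.det_eq g
      rw [h10, mul_zero, sub_zero] at hd
      have := FiniteField.pow_card_sub_one_eq_one _ (left_ne_zero_of_mul_eq_one hd)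
      rw [h3] at this
      exact ha this
    obtain ⟨k, hk⟩ := hodd
    have hne := (CfsgLib.SL2Char.tr_sq_ne_of_diag h10 ha).1
    have hdeg' : χ 1 = ((Fintype.card F - 1 : ℕ) : ℂ) ∨ χ 1 = (((Fintype.card F - 1) / 2 : ℕ) : ℂ) :=
      hdeg.imp_left fun h => by rw [h, Nat.cast_sub h1, Nat.cast_one]
    rcases O.cases ⟨χ, hχ⟩ with ⟨-, h⟩ | ⟨-, h⟩ | ⟨-, h⟩ | ⟨⟨θ, -, h'⟩, h⟩ | ⟨-, h⟩ | ⟨h', h⟩ <;>
      replace h : χ 1 = _ := h
    all_goals try (exfalso; rcases hdeg' with e | e <;> rw [h] at e <;> have := Nat.cast_injective e <;> omega)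
    · rw [show χ = _ from h', CfsgLib.SL2Char.ff_split T _ θ h10 hne]
    · have hs := O.ssum g
      rw [← O.sswap g, CfsgLib.SL2Char.tau_diag O.e h01 h10, CfsgLib.SL2Char.ff_split T _ _ h10 hne] at hs
      rcases h' with e | e <;> rw [show χ = _ from congrArg Subtype.val e]
      · linear_combination hs / 2
      · rw [← O.sswap g, CfsgLib.SL2Char.tau_diag O.e h01 h10]; linear_combination hs / 2
  · have hg := CfsgLib.SL2Char.noEigen_of_vec hvec
    have T := CfsgLib.SL2Char.isTorus_centralizer hg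
    obtain ⟨O⟩ := CfsgLib.SL2Char.nonempty_oddTable hodd T
    obtain ⟨k, hk⟩ := hodd
    have hdeg' : χ 1 = ((Fintype.card F + 1 : ℕ) : ℂ) ∨ χ 1 = (((Fintype.card F + 1) / 2 : ℕ) : ℂ) :=
      hdeg.imp_left fun h => by rw [h]; push_cast; rfl
    rcases O.cases ⟨χ, hχ⟩ with ⟨-, h⟩ | ⟨-, h⟩ | ⟨⟨a, -, h'⟩, h⟩ | ⟨⟨θ, hθ, h'⟩, h⟩ | ⟨h', h⟩ | ⟨-, h⟩ <;>
      replace h : χ 1 = _ := h
    all_goals try (exfalso; rcases hdeg' with e | e <;> rw [h] at e <;> have := Nat.cast_injective e <;> omega)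
    · rw [show χ = _ from h', CfsgLib.SL2Char.Rf_elliptic a hg]
    · -- three elements in the field
      have hk1 : k = 1 := by
        rcases hdeg' with e | e <;> rw [h] at e <;> have := Nat.cast_injective e <;>
          have := Fintype.one_lt_card (α := F) <;> omega
      have hgz : g ∉ Subgroup.center (Matrix.SpecialLinearGroup (Fin 2) F) :=
        CfsgLib.SL2.not_scalar_of_tr_sq_ne hg.tr_sq_ne
      have hgC : g ∈ Subgroup.centralizer ({g} : Set (Matrix.SpecialLinearGroup (Fin 2) F)) :=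
        Subgroup.mem_centralizer_singleton_iff.2 rfl
      let c : Subgroup.centralizer ({g} : Set (Matrix.SpecialLinearGroup (Fin 2) F)) := ⟨g, hgC⟩
      rw [show χ g = CfsgLib.SL2Char.ff (T.al θ) θ (c : Matrix.SpecialLinearGroup (Fin 2) F) from congrFun h' g,
        CfsgLib.SL2Char.ff_noncentral T (c := c) hgz]
      have hord : orderOf c = 4 := by
        have hd : orderOf c ∣ 2 ^ 2 := by
          have := orderOf_dvd_natCard c
          rwa [T.card, hk, hk1] at this
        obtain ⟨i, hi, hi'⟩ := (Nat.dvd_prime_pow Nat.prime_two).1 hd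
        have hi2 : i ≠ 0 ∧ i ≠ 1 := by
          refine ⟨fun e => ?_, fun e => ?_⟩
          · rw [e, pow_zero, orderOf_eq_one_iff] at hi'
            exact hgz (by rw [show g = 1 from congrArg Subtype.val hi']; exact one_mem _)
          · rw [e, pow_one] at hi'
            have h2 := pow_orderOf_eq_one c
            rw [hi', pow_two] at h2
            exact CfsgLib.SL2.ne_inv_of_tr hg.tr_sq_ne (eq_inv_of_mul_eq_one_left (congrArg Subtype.val h2))
        rw [hi', show i = 2 by omega]; norm_num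
      have hgen : ∀ x, x ∈ Subgroup.zpowers c := by
        have : Subgroup.zpowers c = ⊤ := Subgroup.eq_top_of_card_eq _ (by
          rw [Nat.card_zpowers, hord, T.card, hk, hk1]; all_goals norm_num)
        intro x; rw [this]; trivial
      have h4 : ((θ c : ℂˣ) : ℂ) ^ 4 = 1 := by
        rw [← Units.val_pow_eq_pow_val, ← map_pow, ← hord, pow_orderOf_eq_one, map_one, Units.val_one]
      have h2 : ((θ c : ℂˣ) : ℂ) ^ 2 ≠ 1 := by
        intro e
        refine hθ (MonoidHom.ext fun x => ?_)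
        obtain ⟨i, rfl⟩ := Subgroup.mem_zpowers_iff.1 (hgen x)
        rw [pow_two θ, MonoidHom.mul_apply, map_zpow, ← mul_zpow,
          show θ c * θ c = 1 from Units.ext (by rw [Units.val_mul, ← pow_two, e, Units.val_one]), one_zpow,
          MonoidHom.one_apply]
      have hm1 : ((θ c : ℂˣ) : ℂ) ^ 2 = -1 :=
        (mul_self_eq_one_iff.1 (by rw [← pow_two, ← pow_mul]; exact h4)).resolve_left h2
      have hne : ((θ c : ℂˣ) : ℂ) ≠ 0 := Units.ne_zero _
      rw [map_inv, Units.val_inv_eq_inv_val, neg_eq_zero]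
      field_simp
      linear_combination hm1
    · have hs := O.hsum g
      have hag := CfsgLib.SL2Char.swap_agree (CfsgLib.CharBasics.isCharacter_of_irr O.h₁.2) O.hswap hg.tr_sq_ne
      rw [hag, CfsgLib.SL2Char.Rf_elliptic _ hg] at hs
      rcases h' with e | e <;> rw [show χ = _ from congrArg Subtype.val e]
      · linear_combination hs / 2
      · rw [hag]; linear_combination hs / 2

end Cfsg.Agent.S2322
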