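import Cfsg.Statements.S2323
import Cfsg.Agent.SL2Char.Degrees
-- import your own Cfsg.Agent.* helpers here

set_option autoImplicit false
open Cfsg

namespace Cfsg.Agent.S2323

/-- Over a finite field F with q ≥ 4 elements, let u be the upper unitriangular matrix of SL₂ with off-diagonal entry 1. An irreducible complex character of SL₂ takes at u the value 1 if its degree is q + 1 and the value −1 if its degree is q − 1. -/
theorem result {F : Type*} [Field F] [Fintype F] (hq : 4 ≤ Fintype.card F) (χ : Matrix.SpecialLinearGroup (Fin 2) F → ℂ) (hχ : Cfsg.IsIrrCharacter (Matrix.SpecialLinearGroup (Fin 2) F) χ)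
    (u : Matrix.SpecialLinearGroup (Fin 2) F) (hu : (u : Matrix (Fin 2) (Fin 2) F) = !![1, 1; 0, 1]) :
    (χ 1 = (Fintype.card F : ℂ) + 1 → χ u = 1) ∧ (χ 1 = (Fintype.card F : ℂ) - 1 → χ u = -1) := by
  classical
  obtain ⟨C, T⟩ := CfsgLib.SL2Char.exists_torus (F := F)
  have h1 := Fintype.card_pos (α := F)
  rw [CfsgLib.SL2Char.upperU_eq hu]
  have key : (χ 1 = ((Fintype.card F + 1 : ℕ) : ℂ) → CfsgLib.SL2Char.IsPS χ) ∧
      (χ 1 = ((Fintype.card F - 1 : ℕ) : ℂ) → CfsgLib.SL2Char.IsCU T χ) := by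
    by_cases hodd : Odd (Fintype.card F)
    · obtain ⟨O⟩ := CfsgLib.SL2Char.nonempty_oddTable hodd T
      obtain ⟨k, hk⟩ := hodd
      rcases O.cases ⟨χ, hχ⟩ with ⟨-, h⟩ | ⟨-, h⟩ | ⟨h', h⟩ | ⟨h', h⟩ | ⟨-, h⟩ | ⟨-, h⟩ <;>
        replace h : χ 1 = _ := h <;> refine ⟨?_, ?_⟩ <;> intro hd
      all_goals first
        | exact h'
        | (rw [h] at hd; have := Nat.cast_injective hd; omega)
    · haveI := CfsgLib.SL2Char.charP_two_of_not_odd hodd
      rcases CfsgLib.SL2Char.deg_even T ⟨χ, hχ⟩ with ⟨-, h⟩ | ⟨-, h⟩ | ⟨h', h⟩ | ⟨h', h⟩ <;>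
        replace h : χ 1 = _ := h <;> refine ⟨?_, ?_⟩ <;> intro hd
      all_goals first
        | exact h'
        | (rw [h] at hd; have := Nat.cast_injective hd; omega)
  refine ⟨fun h => ?_, fun h => ?_⟩
  · obtain ⟨a, -, rfl⟩ := key.1 (by rw [h]; push_cast; rfl)
    rw [CfsgLib.SL2Char.Rf_unipotent a _ (by simp) (by simp) (by simp)]
    simp
  · obtain ⟨θ, -, rfl⟩ := key.2 (by rw [h, Nat.cast_sub h1, Nat.cast_one])
    exact CfsgLib.SL2Char.ff_upperU T _ θ one_ne_zero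

end Cfsg.Agent.S2323
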