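import Cfsg.Statements.S2324
import Cfsg.Agent.SL2Char.Values
-- import your own Cfsg.Agent.* helpers here

set_option autoImplicit false
open Cfsg

namespace Cfsg.Agent.S2324

/-- Over a finite field F with q elements, q odd and q ≥ 5, let u be the upper unitriangular matrix of SL₂ with off-diagonal entry 1 and let δ = (−1)^((q−1)/2). Every irreducible complex character χ of SL₂ of degree (q + 1)/2 satisfies (2χ(u) − 1)² = δq, and every irreducible complex character χ of degree (q − 1)/2 satisfies (2χ(u) + 1)² = δq; that is, χ(u) = (1 ± √(δq))/2 in the first case and χ(u) = (−1 ± √(δq))/2 in the second. Moreover two different irreducible characters of degree (q + 1)/2 take the two different values (their values at u add up to 1), and likewise for degree (q − 1)/2 (values adding up to −1). -/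
theorem result {F : Type*} [Field F] [Fintype F] (hodd : Odd (Fintype.card F)) (hq : 5 ≤ Fintype.card F)
    (u : Matrix.SpecialLinearGroup (Fin 2) F) (hu : (u : Matrix (Fin 2) (Fin 2) F) = !![1, 1; 0, 1]) :
    (∀ χ : Matrix.SpecialLinearGroup (Fin 2) F → ℂ, Cfsg.IsIrrCharacter (Matrix.SpecialLinearGroup (Fin 2) F) χ → χ 1 = (((Fintype.card F + 1) / 2 : ℕ) : ℂ) → (2 * χ u - 1) ^ 2 = (-1 : ℂ) ^ ((Fintype.card F - 1) / 2) * (Fintype.card F : ℂ)) ∧
    (∀ χ : Matrix.SpecialLinearGroup (Fin 2) F → ℂ, Cfsg.IsIrrCharacter (Matrix.SpecialLinearGroup (Fin 2) F) χ → χ 1 = (((Fintype.card F - 1) / 2 : ℕ) : ℂ) → (2 * χ u + 1) ^ 2 = (-1 : ℂ) ^ ((Fintype.card F - 1) / 2) * (Fintype.card F : ℂ)) ∧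
    (∀ χ₁ χ₂ : Matrix.SpecialLinearGroup (Fin 2) F → ℂ, Cfsg.IsIrrCharacter (Matrix.SpecialLinearGroup (Fin 2) F) χ₁ → Cfsg.IsIrrCharacter (Matrix.SpecialLinearGroup (Fin 2) F) χ₂ → χ₁ ≠ χ₂ →
      χ₁ 1 = (((Fintype.card F + 1) / 2 : ℕ) : ℂ) → χ₂ 1 = (((Fintype.card F + 1) / 2 : ℕ) : ℂ) → χ₁ u + χ₂ u = 1) ∧
    (∀ χ₁ χ₂ : Matrix.SpecialLinearGroup (Fin 2) F → ℂ, Cfsg.IsIrrCharacter (Matrix.SpecialLinearGroup (Fin 2) F) χ₁ → Cfsg.IsIrrCharacter (Matrix.SpecialLinearGroup (Fin 2) F) χ₂ → χ₁ ≠ χ₂ →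
      χ₁ 1 = (((Fintype.card F - 1) / 2 : ℕ) : ℂ) → χ₂ 1 = (((Fintype.card F - 1) / 2 : ℕ) : ℂ) → χ₁ u + χ₂ u = -1) := by
  classical
  obtain ⟨C, T⟩ := CfsgLib.SL2Char.exists_torus (F := F)
  obtain ⟨O⟩ := CfsgLib.SL2Char.nonempty_oddTable hodd T
  rw [CfsgLib.SL2Char.upperU_eq hu]
  obtain ⟨k, hk⟩ := hodd
  have hk2 : (Fintype.card F - 1) / 2 = k := by omega
  have hk3 : (Fintype.card F + 1) / 2 = k + 1 := by omega
  have hR : ∀ c : F, c ≠ 0 → CfsgLib.SL2Char.Rf O.α₀ (CfsgLib.SL2.upperU c) = 1 := fun c hc => by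
    rw [CfsgLib.SL2Char.Rf_unipotent O.α₀ _ (by simp) (by simp) (by simpa using hc)]
    simp
  have hh := CfsgLib.SL2Char.gauss_pair (CfsgLib.CharBasics.isCharacter_of_irr O.h₁.2)
    (CfsgLib.CharBasics.isCharacter_of_irr O.h₂.2) O.he O.hswap hk (d := k + 1) (m₀ := 1) (by rw [O.hdeg₁, hk3]) le_rfl
    (by rw [(CfsgLib.SL2Char.uSum_swap O.hswap O.hsum).1, CfsgLib.SL2Char.uSum_Rf]; push_cast; ring) 1 (Or.inl rfl)
    (fun c hc => by rw [O.hsum, hR c hc, Int.cast_one]) (by push_cast; ring)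
  have hs := CfsgLib.SL2Char.gauss_pair (CfsgLib.CharBasics.isCharacter_of_irr O.s₁.2)
    (CfsgLib.CharBasics.isCharacter_of_irr O.s₂.2) O.he O.sswap hk (d := k) (m₀ := 0) (by rw [O.sdeg₁, hk2])
    (Nat.zero_le _)
    (by rw [(CfsgLib.SL2Char.uSum_swap O.sswap O.ssum).1, CfsgLib.SL2Char.uSum_ff T]; push_cast; ring) (-1) (Or.inr rfl)
    (fun c hc => by rw [O.ssum, CfsgLib.SL2Char.ff_upperU T _ _ hc]; norm_num) (by push_cast; ring)
  have kh : ∀ χ : Matrix.SpecialLinearGroup (Fin 2) F → ℂ, Cfsg.IsIrrCharacter (Matrix.SpecialLinearGroup (Fin 2) F) χ →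
      χ 1 = (((Fintype.card F + 1) / 2 : ℕ) : ℂ) → χ = O.h₁.1 ∨ χ = O.h₂.1 := by
    intro χ hχ hd
    rcases O.cases ⟨χ, hχ⟩ with ⟨-, h⟩ | ⟨-, h⟩ | ⟨-, h⟩ | ⟨-, h⟩ | ⟨h', -⟩ | ⟨-, h⟩
    all_goals first
      | exact h'.imp (congrArg Subtype.val) (congrArg Subtype.val)
      | (replace h : χ 1 = _ := h; rw [hd] at h; have := Nat.cast_injective h; omega)
  have ks : ∀ χ : Matrix.SpecialLinearGroup (Fin 2) F → ℂ, Cfsg.IsIrrCharacter (Matrix.SpecialLinearGroup (Fin 2) F) χ →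
      χ 1 = (((Fintype.card F - 1) / 2 : ℕ) : ℂ) → χ = O.s₁.1 ∨ χ = O.s₂.1 := by
    intro χ hχ hd
    rcases O.cases ⟨χ, hχ⟩ with ⟨-, h⟩ | ⟨-, h⟩ | ⟨-, h⟩ | ⟨-, h⟩ | ⟨-, h⟩ | ⟨h', -⟩
    all_goals first
      | exact h'.imp (congrArg Subtype.val) (congrArg Subtype.val)
      | (replace h : χ 1 = _ := h; rw [hd] at h; have := Nat.cast_injective h; omega)
  rw [hk2]
  refine ⟨fun χ hχ hd => ?_, fun χ hχ hd => ?_, fun a b ha hb hne hda hdb => ?_, fun a b ha hb hne hda hdb => ?_⟩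
  · rcases kh χ hχ hd with rfl | rfl
    · simpa using hh.1
    · simpa using hh.2
  · rcases ks χ hχ (by rw [hd, hk2]) with rfl | rfl
    · simpa using hs.1
    · simpa using hs.2
  · rcases kh a ha hda with rfl | rfl <;> rcases kh b hb hdb with rfl | rfl
    · exact absurd rfl hne
    · rw [O.hsum, hR _ one_ne_zero]
    · rw [add_comm, O.hsum, hR _ one_ne_zero]
    · exact absurd rfl hne
  · rcases ks a ha (by rw [hda, hk2]) with rfl | rfl <;> rcases ks b hb (by rw [hdb, hk2]) with rfl | rfl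
    · exact absurd rfl hne
    · rw [O.ssum, CfsgLib.SL2Char.ff_upperU T _ _ one_ne_zero]
    · rw [add_comm, O.ssum, CfsgLib.SL2Char.ff_upperU T _ _ one_ne_zero]
    · exact absurd rfl hne

end Cfsg.Agent.S2324
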