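import Cfsg.Statements.S2362
import Cfsg.Agent.SpecBC.OmegaSide
import Cfsg.Agent.Symp.Spectrum
import Cfsg.Agent.InvClass.Omega
-- import your own Cfsg.Agent.* helpers here

set_option autoImplicit false
open Cfsg

namespace Cfsg.Agent.S2362

/-- Let F be a finite field of odd order and n ≥ 3. The simple orthogonal group PΩ(2n+1, F) (type B_n) and the projective symplectic group PSp(2n, F) (type C_n), which have the same order, do not have the same set of element orders. -/
theorem result {F : Type*} [Field F] [Fintype F] (hodd : Odd (Fintype.card F)) (n : ℕ) (hn : 3 ≤ n) :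
    Set.range (orderOf : Cfsg.POmega F (Cfsg.quadFormOdd n F) → ℕ) ≠ Set.range (orderOf : Cfsg.PSp n F → ℕ) := by
  classical
  obtain ⟨p, hchar⟩ := CharP.exists F
  have hp : Fact p.Prime := ⟨CharP.char_is_prime F p⟩
  obtain ⟨f, -, hqf⟩ := FiniteField.card F p
  have h2 : (2 : F) ≠ 0 := fun h => by
    have hp2 : p = 2 := (Nat.prime_dvd_prime_iff_eq hp.out Nat.prime_two).1
      ((CharP.cast_eq_zero_iff F p 2).1 (by exact_mod_cast h))
    rw [hqf, hp2, Nat.odd_pow_iff f.ne_zero] at hodd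
    exact absurd hodd (by decide)
  intro heq
  rw [← CfsgLib.Forms.coe_quadOdd] at heq
  obtain ⟨d, rfl⟩ : ∃ d, n = d + 1 := ⟨n - 1, by omega⟩
  obtain ⟨x, hx⟩ := CfsgLib.Symp.exists_torus_plus (F := F) d (by omega)
  obtain ⟨y, hy⟩ := CfsgLib.Symp.exists_unipotent (F := F) p 1 1 le_rfl (by simpa using hp.out.two_le)
    (fun j hj => by rw [Nat.lt_one_iff.1 hj]; norm_num)
  rw [pow_one] at hy
  rw [Nat.card_eq_fintype_card] at hx
  have hcop : Nat.Coprime (Fintype.card F ^ d + 1) p := Nat.Coprime.symm ((Nat.Prime.coprime_iff_not_dvd hp.out).2 fun h => by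
    have h1 : p ∣ Fintype.card F ^ d := dvd_pow (hqf ▸ dvd_pow_self p f.ne_zero) (by omega)
    exact hp.out.one_lt.ne' (Nat.dvd_one.1 ((Nat.dvd_add_right h1).1 h)))
  set w := CfsgLib.Symp.spBlock F (rfl : d + 1 = d + 1) (x, y) with hw
  have hwo : orderOf w = p * (Fintype.card F ^ d + 1) := by
    rw [hw, CfsgLib.Symp.orderOf_spBlock, hx, hy, hcop.lcm_eq_mul, mul_comm]
  have hmk : orderOf (w : Cfsg.PSp (d + 1) F) = p * (Fintype.card F ^ d + 1) := by
    refine Nat.dvd_antisymm (hwo ▸ orderOf_map_dvd (QuotientGroup.mk' _) w) ?_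
    set k := orderOf (w : Cfsg.PSp (d + 1) F) with hk
    rcases (CfsgLib.Symp.mk_pow_eq_one_iff (by omega) w k).mp (pow_orderOf_eq_one _) with h | h
    · exact hwo ▸ orderOf_dvd_of_pow_eq_one (Subtype.ext (by rw [SubmonoidClass.coe_pow, h, OneMemClass.coe_one]))
    · exfalso
      rw [← SubmonoidClass.coe_pow, hw, ← map_pow, Prod.pow_mk, CfsgLib.Symp.spBlock_eq_neg_one_iff] at h
      apply CfsgLib.Symp.neg_one_ne_one_matrix (ι := Fin 1 ⊕ Fin 1) h2
      have h3 : ((y ^ k : Matrix.symplecticGroup (Fin 1) F) : Matrix (Fin 1 ⊕ Fin 1) (Fin 1 ⊕ Fin 1) F) ^ p = 1 := by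
        rw [← SubmonoidClass.coe_pow, ← pow_mul, mul_comm, pow_mul, ← hy, pow_orderOf_eq_one, one_pow]
        rfl
      have hpodd : Odd p := hp.out.odd_of_ne_two fun e => by
        subst e
        exact h2 (by exact_mod_cast CharP.cast_eq_zero F 2)
      rw [h.2, hpodd.neg_one_pow] at h3
      exact h3
  have hmem : p * (Fintype.card F ^ d + 1) ∈ Set.range (orderOf : Cfsg.POmega F ⇑(CfsgLib.Forms.quadOdd F (d + 1)) → ℕ) :=
    heq ▸ ⟨_, hmk⟩
  obtain ⟨z, hz⟩ := hmem
  obtain ⟨g, rfl⟩ := QuotientGroup.mk_surjective z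
  have hg : orderOf g = p * (Fintype.card F ^ d + 1) := by
    rw [← hz]
    refine (orderOf_injective (QuotientGroup.mk' _) ?_ g).symm
    rw [← MonoidHom.ker_eq_bot_iff, QuotientGroup.ker_mk', Subgroup.eq_bot_iff_forall]
    exact fun c hc => CfsgLib.InvClass.center_trivial h2 (by omega) hc
  refine CfsgLib.SpecBC.main h2 (CfsgLib.Forms.nondegenerate_quadOdd (F := F) (d + 1) h2) (p := p) (d := d)
    (by omega) (by rw [Module.finrank_fintype_fun_eq_card]; simp; omega)
    (CfsgLib.Forms.isoEquiv (CfsgLib.Forms.quadOdd F (d + 1)) g.1) ?_ ?_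
  · exact (CfsgLib.Forms.mem_Omega_iff (CfsgLib.Forms.quadOdd F (d + 1)) g.1).1 g.2
  · rw [MulEquiv.orderOf_eq, ← hg, Subgroup.orderOf_coe]

end Cfsg.Agent.S2362
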