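import Cfsg.Statements.S2363
import Cfsg.Agent.LieOrderBound.Basic
import Cfsg.Agent.S0243
import Cfsg.Agent.S0245
import Cfsg.Agent.S0246
import Cfsg.Agent.S0280
import Cfsg.Agent.S0292
import Cfsg.Agent.S0293
import Cfsg.Agent.S0294
import Cfsg.Agent.S1059
import Cfsg.Agent.S1062
import Cfsg.Agent.S1063
import Cfsg.Agent.S1064
import Cfsg.Agent.S1065
import Cfsg.Agent.S1066
import Cfsg.Agent.S1067
import Cfsg.Agent.S1068
import Cfsg.Agent.S1069
import Cfsg.Agent.S1163

set_option autoImplicit false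
open Cfsg
open CfsgLib.LieOrderBound

namespace Cfsg.Agent.S2363

theorem exists_card (p : ℕ) (_hp : p.Prime) (F : Type) [Field F] [Fintype F] [CharP F p] :
    ∃ f : ℕ, 1 ≤ f ∧ Fintype.card F = p ^ f := by
  obtain ⟨n, -, hn⟩ := FiniteField.card F p
  exact ⟨n, n.2, hn⟩

theorem two_le {p f q : ℕ} (hp : p.Prime) (hf : 1 ≤ f) (hq : q = p ^ f) : 2 ≤ q :=
  hq ▸ hp.two_le.trans (Nat.le_self_pow (by omega) p)

theorem coprime_pred {q : ℕ} (hq : 1 ≤ q) : (q - 1).Coprime q := by
  obtain ⟨a, rfl⟩ : ∃ a, q = a + 1 := ⟨q - 1, by omega⟩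
  simp

theorem coprime_succ (q : ℕ) : (q + 1).Coprime q := by simp

theorem gcd_coprime {d x q : ℕ} (h : x.Coprime q) : (Nat.gcd d x).Coprime q :=
  Nat.Coprime.coprime_dvd_left (Nat.gcd_dvd_right d x) h

theorem coprime_of_pow {x q m : ℕ} (hm : 1 ≤ m) (h : x.Coprime (q ^ m)) : x.Coprime q :=
  Nat.Coprime.coprime_dvd_right (dvd_pow_self q (show m ≠ 0 by omega)) h

theorem prod_linear_form (q n : ℕ) : ∏ i : Fin n, (q ^ n - q ^ (i : ℕ)) =
    q ^ (n * (n - 1) / 2) * ∏ i ∈ Finset.range n, (q ^ (i + 1) - 1) := by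
  rw [Fin.prod_univ_eq_prod_range (fun i => q ^ n - q ^ i) n, ← Finset.sum_range_id, ← Finset.prod_pow_eq_pow_sum,
    ← Finset.prod_range_reflect (fun i => q ^ (i + 1) - 1) n, ← Finset.prod_mul_distrib]
  refine Finset.prod_congr rfl fun i hi => ?_
  have hi' := Finset.mem_range.1 hi
  rw [Nat.mul_sub, mul_one, ← pow_add]
  congr 2
  omega

theorem both {G : Type*} [Group G] [Finite G] {p f q N D R g h : ℕ} (hp : p.Prime) (hf : 1 ≤ f) (hq : q = p ^ f)
    {X : Type*} [Group X] (e : G ≃* X) (h0 : 0 < h) (hh : h ≤ g) (hg : g.Coprime q)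
    (hcard : g * Nat.card X = q ^ N * R) (hR : R < h * q ^ D) (hD : D ≤ 2 * N) (hD' : 3 * D ≤ 5 * N) {P : Prop} :
    Nat.card G < p ^ (3 * (Nat.card G).factorization p) ∧
      (P → Nat.card G ^ 3 < p ^ (8 * (Nat.card G).factorization p)) :=
  have H := bounds hp hf hq Nat.card_pos h0 hh hg ((Nat.card_congr e.toEquiv).symm ▸ hcard) hR hD
  ⟨H.1, fun _ => H.2 hD'⟩

/-- The version with `h = 1`. -/
theorem both_one {G : Type*} [Group G] [Finite G] {p f q D R g : ℕ} (N : ℕ) (hp : p.Prime) (hf : 1 ≤ f) (hq : q = p ^ f)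
    {X : Type*} [Group X] (e : G ≃* X) (h1 : 1 ≤ g) (hg : g.Coprime q)
    (hR : R < q ^ D) (hcard : g * Nat.card X = q ^ N * R) (hD : D ≤ 2 * N) (hD' : 3 * D ≤ 5 * N) {P : Prop} :
    Nat.card G < p ^ (3 * (Nat.card G).factorization p) ∧
      (P → Nat.card G ^ 3 < p ^ (8 * (Nat.card G).factorization p)) :=
  both hp hf hq e one_pos h1 hg hcard ((one_mul (q ^ D)).symm ▸ hR) hD hD'

/-- The symplectic, and odd orthogonal, numerics. -/
theorem arith_C {m : ℕ} (hm : 2 ≤ m) : m * (m + 1) ≤ 2 * m ^ 2 ∧ 3 * (m * (m + 1)) ≤ 5 * m ^ 2 := by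
  constructor <;> nlinarith

/-- The even orthogonal numerics. -/
theorem arith_D {m : ℕ} (hm : 4 ≤ m) :
    (m + 1 + (m - 1) * (m - 1 + 1)) ≤ 2 * (m * (m - 1)) ∧ 3 * (m + 1 + (m - 1) * (m - 1 + 1)) ≤ 5 * (m * (m - 1)) := by
  obtain ⟨k, rfl⟩ : ∃ k, m = k + 1 := ⟨m - 1, by omega⟩
  simp only [Nat.add_sub_cancel]
  constructor <;> nlinarith

/-- The linear and unitary numerics. -/
theorem arith_A {n : ℕ} (hn : 3 ≤ n) : n * (n + 1) / 2 - 1 ≤ 2 * (n * (n - 1) / 2) ∧
    3 * (n * (n + 1) / 2 - 1) ≤ 5 * (n * (n - 1) / 2) := by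
  obtain ⟨k, rfl⟩ : ∃ k, n = k + 1 := ⟨n - 1, by omega⟩
  obtain ⟨b, hb⟩ := Nat.even_mul_succ_self k
  have e1 : (k + 1) * (k + 1 + 1) = 2 * (b + (k + 1)) := by rw [show (k + 1) * (k + 1 + 1) = k * (k + 1) + 2 * (k + 1) by ring, hb]; ring
  have e2 : (k + 1) * (k + 1 - 1) = 2 * b := by rw [Nat.add_sub_cancel, mul_comm, hb]; ring
  have hk : 3 * k ≤ 2 * b := by rw [show 2 * b = k * (k + 1) by omega]; nlinarith
  rw [e1, e2, Nat.mul_div_cancel_left _ two_pos, Nat.mul_div_cancel_left _ two_pos]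
  omega

/-- Let G be a finite simple group of Lie type in characteristic p and let p^k be the exact power of p dividing the order of G. Then the order of G is less than p^(3k); and unless G is isomorphic to PSL(2, F) for the field F with p^k elements, the cube of the order of G is less than p^(8k) (that is, the order is below p^(8k/3)). -/
theorem result {G : Type*} [Group G] [Finite G] (p : ℕ) (hp : p.Prime) (hG : Cfsg.IsLieTypeChar p G) :
    Nat.card G < p ^ (3 * (Nat.card G).factorization p) ∧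
      ((¬ ∃ (F : Type) (_ : Field F) (_ : Fintype F), Fintype.card F = p ^ (Nat.card G).factorization p ∧
          Nonempty (G ≃* Matrix.ProjectiveSpecialLinearGroup (Fin 2) F)) →
        Nat.card G ^ 3 < p ^ (8 * (Nat.card G).factorization p)) := by
  rcases hG with h | h | h | h | h | h | h | h | h | h | h
  · obtain ⟨F, _, _, _, n, hn, -, ⟨e⟩⟩ := h
    obtain ⟨f, hf, hcF⟩ := exists_card p hp F
    have hq := two_le hp hf hcF
    have hcard := Cfsg.Agent.S0243.result (F := F) rfl n hn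
    rw [prod_linear_form, ← mul_assoc] at hcard
    have hR := prod_linear hq n hn
    have hg : (Nat.gcd n (Fintype.card F - 1) * (Fintype.card F - 1)).Coprime (Fintype.card F) :=
      Nat.Coprime.mul_left (gcd_coprime (coprime_pred (by omega))) (coprime_pred (by omega))
    have hh : Fintype.card F - 1 ≤ Nat.gcd n (Fintype.card F - 1) * (Fintype.card F - 1) :=
      Nat.le_mul_of_pos_left _ (Nat.gcd_pos_of_pos_left _ (by omega))
    rcases eq_or_ne n 2 with rfl | hne
    · have hcard' := hcard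
      rw [← Nat.card_congr e.toEquiv] at hcard'
      have H := bounds hp hf hcF Nat.card_pos (by omega) hh hg hcard' hR (by norm_num)
      refine ⟨H.1, fun hno => absurd ⟨F, inferInstance, inferInstance, ?_, ⟨e⟩⟩ hno⟩
      rw [hcF]
      congr 1
      have hdvd : Fintype.card F ^ (2 * (2 - 1) / 2) ∣ Nat.card G :=
        (Nat.Coprime.pow_left _ hg.symm).dvd_of_dvd_mul_left ⟨_, hcard'⟩
      have hR1 : (∏ i ∈ Finset.range 2, (Fintype.card F ^ (i + 1) - 1)).Coprime p := by
        refine Nat.Coprime.prod_left fun i _ => ?_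
        refine coprime_of_pow hf ?_
        rw [← hcF]
        exact coprime_of_pow (by omega : 1 ≤ i + 1) (coprime_pred (Nat.one_le_pow _ _ (by omega)))
      refine le_antisymm ?_ ?_
      · rw [← hp.pow_dvd_iff_le_factorization Nat.card_pos.ne', ← hcF]
        simpa using hdvd
      · have h1 : p ^ (Nat.card G).factorization p ∣
            Fintype.card F ^ (2 * (2 - 1) / 2) * ∏ i ∈ Finset.range 2, (Fintype.card F ^ (i + 1) - 1) :=
          (Nat.ordProj_dvd (Nat.card G) p).trans (Dvd.intro_left _ hcard')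
        have h2 := (Nat.Coprime.pow_left _ hR1.symm).dvd_of_dvd_mul_right h1
        rw [hcF, ← pow_mul] at h2
        simpa using (Nat.pow_dvd_pow_iff_le_right hp.one_lt).1 h2
    · exact both hp hf hcF e (by omega) hh hg hcard hR (arith_A (by omega)).1 (arith_A (by omega)).2
  · obtain ⟨F, _, _, _, m, hm, -, ⟨e⟩⟩ := h
    obtain ⟨f, hf, hcF⟩ := exists_card p hp F
    have hq := two_le hp hf hcF
    refine both_one (m ^ 2) (g := Nat.gcd 2 (Fintype.card F - 1)) hp hf hcF e (Nat.gcd_pos_of_pos_left _ two_pos)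
      (gcd_coprime (coprime_pred (by omega))) (prod_even_lt hq (m := m) (by omega)) ?_ (arith_C hm).1 (arith_C hm).2
    rw [← Cfsg.Agent.S0246.result (F := F) rfl m (by omega), ← Cfsg.Agent.S0245.result (F := F) rfl m, mul_comm]
    exact (Subgroup.card_eq_card_quotient_mul_card_subgroup _).symm
  · obtain ⟨F, _, _, _, n, q, hcF', hn, -, ⟨e⟩⟩ := h
    obtain ⟨f', hf', hcF⟩ := exists_card p hp F
    obtain ⟨f, -, hqf⟩ := (Nat.dvd_prime_pow hp).1 (show q ∣ p ^ f' from hcF ▸ hcF' ▸ dvd_pow_self q two_ne_zero)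
    have hf : 1 ≤ f := by
      rcases Nat.eq_zero_or_pos f with rfl | h0
      · have := two_le hp hf' hcF
        rw [hcF', hqf] at this
        simp at this
      · exact h0
    have hq := two_le hp hf hqf
    have hcard := Cfsg.Agent.S0280.result hcF' n (by omega)
    rw [← mul_assoc] at hcard
    exact both hp hf hqf e (by omega : 0 < q + 1) (Nat.le_mul_of_pos_left _ (Nat.gcd_pos_of_pos_left _ (by omega)))
      (Nat.Coprime.mul_left (gcd_coprime (coprime_succ q)) (coprime_succ q)) hcard (prod_unitary hq n hn)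
      (arith_A hn).1 (arith_A hn).2
  · obtain ⟨F, _, _, _, m, hm, hodd, ⟨e⟩⟩ := h
    obtain ⟨f, hf, hcF⟩ := exists_card p hp F
    have hq := two_le hp hf hcF
    exact both_one _ hp hf hcF e one_le_two (Nat.coprime_two_left.2 hodd) (prod_even_lt hq (m := m) (by omega))
      (Cfsg.Agent.S0292.result rfl hodd m hm) (arith_C (by omega)).1 (arith_C (by omega)).2
  · obtain ⟨F, _, _, _, m, hm, ⟨e⟩⟩ := h
    obtain ⟨f, hf, hcF⟩ := exists_card p hp F
    have hq := two_le hp hf hcF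
    have hcard := Cfsg.Agent.S0293.result (F := F) rfl m hm
    rw [mul_assoc (Fintype.card F ^ _)] at hcard
    refine both_one _ hp hf hcF e (Nat.gcd_pos_of_pos_left _ (by omega))
      (gcd_coprime (coprime_of_pow (m := m) (by omega) (coprime_pred (Nat.one_le_pow _ _ (by omega)))))
      (mul_lt ((sub_one_lt hq m).trans (Nat.pow_lt_pow_right hq (Nat.lt_succ_self m))) (prod_even_lt hq (m := m - 1) (by omega)))
      hcard (arith_D hm).1 (arith_D hm).2
  · obtain ⟨F, _, _, _, m, a, b, hm, hab, ⟨e⟩⟩ := h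
    obtain ⟨f, hf, hcF⟩ := exists_card p hp F
    have hq := two_le hp hf hcF
    have hcard := Cfsg.Agent.S0294.result (F := F) rfl m hm a b hab
    rw [mul_assoc (Fintype.card F ^ _)] at hcard
    exact both_one _ hp hf hcF e (Nat.gcd_pos_of_pos_left _ (by omega))
      (gcd_coprime (coprime_of_pow (m := m) (by omega) (coprime_succ _)))
      (mul_lt (add_one_lt hq (i := m) (by omega)) (prod_even_lt hq (m := m - 1) (by omega)))
      hcard (arith_D hm).1 (arith_D hm).2
  · obtain ⟨F, _, _, _, hcases⟩ := h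
    obtain ⟨f, hf, hcF⟩ := exists_card p hp F
    have hq := two_le hp hf hcF
    have s := fun i => sub_one_lt hq i
    have c1 : (1 : ℕ).Coprime (Fintype.card F) := Nat.coprime_one_left _
    have cq : (Fintype.card F - 1).Coprime (Fintype.card F) := coprime_pred (by omega)
    rcases hcases with ⟨-, ⟨e⟩⟩ | ⟨⟨e⟩⟩ | ⟨⟨e⟩⟩ | ⟨⟨e⟩⟩ | ⟨⟨e⟩⟩
    · refine both_one 6 hp hf hcF e le_rfl c1 (mul_lt (s 2) (s 6)) ?_ (by norm_num) (by norm_num)
      rw [one_mul, Cfsg.Agent.S1059.result rfl, mul_assoc]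
    · refine both_one 24 hp hf hcF e le_rfl c1 (mul_lt (mul_lt (mul_lt (s 2) (s 6)) (s 8)) (s 12)) ?_
        (by norm_num) (by norm_num)
      rw [one_mul, Cfsg.Agent.S1062.result rfl]; ring
    · refine both_one 36 hp hf hcF e (Nat.gcd_pos_of_pos_left _ (show 0 < 3 by norm_num)) (gcd_coprime cq)
        (mul_lt (mul_lt (mul_lt (mul_lt (mul_lt (s 2) (s 5)) (s 6)) (s 8)) (s 9)) (s 12)) ?_ (by norm_num) (by norm_num)
      rw [Cfsg.Agent.S1063.result rfl]; ring
    · refine both_one 63 hp hf hcF e (Nat.gcd_pos_of_pos_left _ (show 0 < 2 by norm_num)) (gcd_coprime cq)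
        (mul_lt (mul_lt (mul_lt (mul_lt (mul_lt (mul_lt (s 2) (s 6)) (s 8)) (s 10)) (s 12)) (s 14)) (s 18)) ?_
        (by norm_num) (by norm_num)
      rw [Cfsg.Agent.S1064.result rfl]; ring
    · refine both_one 120 hp hf hcF e le_rfl c1
        (mul_lt (mul_lt (mul_lt (mul_lt (mul_lt (mul_lt (mul_lt (s 2) (s 8)) (s 12)) (s 14)) (s 18)) (s 20)) (s 24)) (s 30)) ?_
        (by norm_num) (by norm_num)
      rw [one_mul, Cfsg.Agent.S1065.result rfl]; ring
  · obtain ⟨K, _, _, _, q, hqp, hcases⟩ := h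
    obtain ⟨f', hf', hcK⟩ := exists_card p hp K
    have hdvd : q ∣ p ^ f' := by
      rcases hcases with ⟨h, -⟩ | ⟨h, -⟩ <;> rw [← hcK, h] <;> exact dvd_pow_self q (by norm_num)
    obtain ⟨f, -, hqf⟩ := (Nat.dvd_prime_pow hp).1 hdvd
    have hf : 1 ≤ f := by
      rcases Nat.eq_zero_or_pos f with rfl | h0
      · exact absurd (hqf.trans (pow_zero p)) hqp.ne_one
      · exact h0
    have hq := two_le hp hf hqf
    have s := fun i => sub_one_lt hq i
    rcases hcases with ⟨hK, ⟨e⟩⟩ | ⟨hK, ⟨e⟩⟩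
    · refine both_one 36 hp hf hqf e (Nat.gcd_pos_of_pos_left _ (show 0 < 3 by norm_num)) (gcd_coprime (coprime_succ q))
        (mul_lt (mul_lt (mul_lt (mul_lt (mul_lt (s 2) (add_one_lt hq (i := 5) (by omega))) (s 6)) (s 8))
          (add_one_lt hq (i := 9) (by omega))) (s 12)) ?_ (by norm_num) (by norm_num)
      rw [Cfsg.Agent.S1066.result hqp hK]; ring
    · have h84 : q ^ 8 + q ^ 4 + 1 < q ^ 10 := by
        have h1 : q ^ 4 + 1 < q ^ 5 := add_one_lt hq (by omega)
        have h2 : q ^ 5 ≤ q ^ 8 := Nat.pow_le_pow_right (by omega) (by omega)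
        have h3 : q ^ 8 * 4 ≤ q ^ 8 * (q * q) := Nat.mul_le_mul_left _ (Nat.mul_le_mul hq hq)
        have h4 : q ^ 10 = q ^ 8 * (q * q) := by ring
        omega
      refine both_one 12 hp hf hqf e le_rfl (Nat.coprime_one_left _) (mul_lt (mul_lt (s 2) (s 6)) h84) ?_
        (by norm_num) (by norm_num)
      rw [one_mul, Cfsg.Agent.S1067.result hqp hK]; ring
  · obtain ⟨rfl, F, _, _, m, hm, hcF, ⟨e⟩⟩ := h
    have hf : 1 ≤ 2 * m + 1 := by omega
    have hq := two_le hp hf (rfl : 2 ^ (2 * m + 1) = _)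
    refine both_one (D := 3) 2 hp hf rfl e le_rfl (Nat.coprime_one_left _) ?_
      (by rw [one_mul, (Cfsg.Agent.S1163.result hm hcF).1, mul_assoc]) (by norm_num) (by norm_num)
    generalize hQ : 2 ^ (2 * m + 1) = Q at hq ⊢
    obtain ⟨a, rfl⟩ : ∃ a, Q = a + 2 := ⟨Q - 2, by omega⟩
    rw [show a + 2 - 1 = a + 1 by omega]
    nlinarith
  · obtain ⟨rfl, K, _, _, m, hm, hcK, ⟨e⟩⟩ := h
    have hf : 1 ≤ 2 * m + 1 := by omega
    have hq := two_le hp hf (rfl : 2 ^ (2 * m + 1) = _)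
    refine both_one 12 hp hf rfl e le_rfl (Nat.coprime_one_left _)
      (mul_lt (mul_lt (mul_lt (sub_one_lt hq 1) (add_one_lt hq (i := 3) (by omega)))
        (sub_one_lt hq 4)) (add_one_lt hq (i := 6) (by omega))) ?_ (by norm_num) (by norm_num)
    rw [one_mul, Cfsg.Agent.S1068.result hcK, pow_one]; ring
  · obtain ⟨rfl, K, _, _, m, hm, hcK, ⟨e⟩⟩ := h
    have hf : 1 ≤ 2 * m + 1 := by omega
    have hq := two_le hp hf (rfl : 3 ^ (2 * m + 1) = _)
    refine both_one 3 hp hf rfl e le_rfl (Nat.coprime_one_left _)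
      (mul_lt (sub_one_lt hq 1) (add_one_lt hq (i := 3) (by omega))) ?_ (by norm_num) (by norm_num)
    rw [one_mul, Cfsg.Agent.S1069.result hcK, pow_one, mul_assoc]

end Cfsg.Agent.S2363
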