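import Cfsg.Statements.S2364
import Mathlib
import Cfsg.Agent.SLn.Card
import Cfsg.Agent.SL2.Basic
import Cfsg.Agent.CommOrderP.Basic

set_option autoImplicit false
open Cfsg

namespace Cfsg.Agent.S2364

/-- Let F be a finite field of characteristic p, n ≥ 4, and let a, b be commuting elements of PSL(n, F) with a of order p. Then every prime divisor of the order of b divides the order of SL(n − 2, F). -/
theorem result {F : Type*} [Field F] [Fintype F] (p : ℕ) [Fact p.Prime] [CharP F p] (n : ℕ) (hn : 4 ≤ n)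
    (a b : Matrix.ProjectiveSpecialLinearGroup (Fin n) F) (ha : orderOf a = p) (hab : Commute a b) :
    (orderOf b).primeFactors ⊆ (Nat.card (Matrix.SpecialLinearGroup (Fin (n - 2)) F)).primeFactors := by
  classical
  intro r hrmem
  rw [Nat.mem_primeFactors] at hrmem ⊢
  obtain ⟨hr, hrb, -⟩ := hrmem
  refine ⟨hr, ?_, Nat.card_pos.ne'⟩
  obtain ⟨α, hα⟩ := FiniteField.card F p
  set q := Fintype.card F with hqdef
  have hp : p.Prime := Fact.out
  have hq2 : 2 ≤ q := Fintype.one_lt_card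
  have hGL : Nat.card (Matrix.SpecialLinearGroup (Fin (n - 2)) F) * (q - 1)
      = ∏ i : Fin (n - 2), (q ^ (n - 2) - q ^ (i : ℕ)) :=
    (mul_comm _ _).trans (CfsgLib.SLn.card_SL_eq F (n - 2) (by omega))
  have hfac : ∀ i : ℕ, 1 ≤ i → i ≤ n - 2 → q ^ i - 1 ∣ ∏ i : Fin (n - 2), (q ^ (n - 2) - q ^ (i : ℕ)) := by
    intro i hi hi'
    refine dvd_trans ?_ (Finset.dvd_prod_of_mem _ (Finset.mem_univ (⟨n - 2 - i, by omega⟩ : Fin (n - 2))))
    refine ⟨q ^ (n - 2 - i), ?_⟩
    rw [Nat.sub_mul, one_mul, ← pow_add]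
    congr 2
    omega
  have hpair : (q ^ 2 - 1) * (q - 1) ∣ ∏ i : Fin (n - 2), (q ^ (n - 2) - q ^ (i : ℕ)) := by
    have hne : (⟨n - 2 - 2, by omega⟩ : Fin (n - 2)) ≠ ⟨n - 2 - 1, by omega⟩ := by
      intro h; have := congrArg Fin.val h; simp at this; omega
    refine dvd_trans ?_ (Finset.prod_dvd_prod_of_subset {(⟨n - 2 - 2, by omega⟩ : Fin (n - 2)), ⟨n - 2 - 1, by omega⟩} _ _ (Finset.subset_univ _))
    rw [Finset.prod_pair hne]
    refine mul_dvd_mul ⟨q ^ (n - 2 - 2), ?_⟩ ⟨q ^ (n - 2 - 1), ?_⟩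
    · show q ^ (n - 2) - q ^ (n - 2 - 2) = _
      rw [Nat.sub_mul, one_mul, ← pow_add, show 2 + (n - 2 - 2) = n - 2 by omega]
    · show q ^ (n - 2) - q ^ (n - 2 - 1) = _
      rw [Nat.sub_mul, one_mul, ← pow_succ', show n - 2 - 1 + 1 = n - 2 by omega]
  have hSLdvd : q ^ 2 - 1 ∣ Nat.card (Matrix.SpecialLinearGroup (Fin (n - 2)) F) := by
    rw [← hGL] at hpair
    exact Nat.dvd_of_mul_dvd_mul_right (by omega) hpair
  by_cases hr1 : r ∣ q - 1
  · refine (hr1.trans ?_).trans hSLdvd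
    have : q ^ 2 - 1 ^ 2 = (q + 1) * (q - 1) := Nat.sq_sub_sq q 1
    rw [one_pow] at this
    exact Dvd.intro_left _ this.symm
  suffices h : r ∣ ∏ i : Fin (n - 2), (q ^ (n - 2) - q ^ (i : ℕ)) by
    rw [← hGL] at h
    exact (hr.dvd_mul.1 h).resolve_right hr1
  by_cases hrp : r = p
  · refine dvd_trans ?_ (Finset.dvd_prod_of_mem _ (Finset.mem_univ (⟨1, by omega⟩ : Fin (n - 2))))
    show r ∣ q ^ (n - 2) - q ^ 1
    have h1 : r ∣ q := by rw [hrp, hα.2]; exact dvd_pow_self p α.2.ne'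
    exact Nat.dvd_sub (h1.trans (dvd_pow_self q (by omega))) (h1.trans (by rw [pow_one]))
  by_contra hno
  have hm : ∀ i, 1 ≤ i → i ≤ n - 2 → ¬ r ∣ q ^ i - 1 := fun i hi hi' h => hno (h.trans (hfac i hi hi'))
  set Z := Subgroup.center (Matrix.SpecialLinearGroup (Fin n) F) with hZ
  let π : Matrix.SpecialLinearGroup (Fin n) F →* Matrix.ProjectiveSpecialLinearGroup (Fin n) F := QuotientGroup.mk' Z
  have hπs : Function.Surjective π := QuotientGroup.mk'_surjective Z
  have hπ1 : ∀ A, π A = 1 ↔ A ∈ Z := fun A => QuotientGroup.eq_one_iff A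
  -- a unipotent lift of `a`
  obtain ⟨A₀, hA₀⟩ := hπs a
  set A := A₀ ^ ordCompl[p] (orderOf A₀) with hA
  have hApow : A ^ p ^ (orderOf A₀).factorization p = 1 := by
    rw [hA, ← pow_mul, mul_comm, Nat.ordProj_mul_ordCompl_eq_self, pow_orderOf_eq_one]
  set u := (orderOf A₀).factorization p with hu
  have hA1 : A ≠ 1 := by
    intro h
    have h1 : a ^ ordCompl[p] (orderOf A₀) = 1 := by rw [← hA₀, ← map_pow, ← hA, h, map_one]
    have h2 := orderOf_dvd_of_pow_eq_one h1
    rw [ha] at h2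
    exact Nat.not_dvd_ordCompl hp (orderOf_pos A₀).ne' h2
  -- an `r`-lift of a power of `b`
  set b' := b ^ (orderOf b / r) with hb'
  have hb'o : orderOf b' = r := orderOf_pow_orderOf_div (orderOf_pos b).ne' hrb
  obtain ⟨B₀, hB₀⟩ := hπs b'
  set B := B₀ ^ ordCompl[r] (orderOf B₀) with hB
  set v := (orderOf B₀).factorization r with hv
  have hBpow : B ^ r ^ v = 1 := by
    rw [hB, ← pow_mul, mul_comm, hv, Nat.ordProj_mul_ordCompl_eq_self, pow_orderOf_eq_one]
  have hB1 : B ≠ 1 := by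
    intro h
    have h1 : b' ^ ordCompl[r] (orderOf B₀) = 1 := by rw [← hB₀, ← map_pow, ← hB, h, map_one]
    have h2 := orderOf_dvd_of_pow_eq_one h1
    rw [hb'o] at h2
    exact Nat.not_dvd_ordCompl hr (orderOf_pos B₀).ne' h2
  have hscal : ∀ C ∈ Z, ∃ c : F, Matrix.scalar (Fin n) c = (C : Matrix (Fin n) (Fin n) F) := fun C hC => by
    obtain ⟨c, -, hc⟩ := Matrix.SpecialLinearGroup.mem_center_iff.1 hC
    exact ⟨c, hc⟩
  haveI : Nonempty (Fin n) := ⟨⟨0, by omega⟩⟩
  have hzpow : ∀ C ∈ Z, ∀ l : ℕ, C ^ l = 1 → ∀ c : F, Matrix.scalar (Fin n) c = (C : Matrix (Fin n) (Fin n) F) → c ^ l = 1 := by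
    intro C _ l hl c hc
    refine (Matrix.scalar_inj (n := Fin n)).1 ?_
    rw [map_pow, hc, ← Matrix.SpecialLinearGroup.coe_pow, hl, map_one, Matrix.SpecialLinearGroup.coe_one]
  have hBr : B ^ r = 1 := by
    have hZ' : B ^ r ∈ Z := by
      rw [← hπ1, map_pow, hB, map_pow, hB₀, ← pow_mul, mul_comm, pow_mul,
        show b' ^ r = 1 from hb'o ▸ pow_orderOf_eq_one b', one_pow]
    obtain ⟨c, hc⟩ := hscal _ hZ'
    have h1 : c ^ r ^ v = 1 := hzpow _ hZ' _ (by rw [← pow_mul, mul_comm, pow_mul, hBpow, one_pow]) c hc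
    have hc0 : c ≠ 0 := fun h => by rw [h, zero_pow (pow_ne_zero _ hr.ne_zero)] at h1; exact zero_ne_one h1
    have h2 := FiniteField.pow_card_sub_one_eq_one c hc0
    have h3 : c = 1 := by
      have := pow_gcd_eq_one.2 ⟨h1, h2⟩
      rwa [Nat.Coprime.pow_left v ((Nat.Prime.coprime_iff_not_dvd hr).2 hr1), pow_one] at this
    exact Subtype.ext (by rw [← hc, h3, map_one, Matrix.SpecialLinearGroup.coe_one])
  have hcomm : B * A = A * B := by
    set z := B * A * B⁻¹ * A⁻¹ with hz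
    have hzZ : z ∈ Z := by
      rw [← hπ1, hz, map_mul, map_mul, map_mul, map_inv, map_inv, hA, hB, map_pow, map_pow, hA₀, hB₀, hb', ← pow_mul,
        ((hab.symm.pow_left _).pow_right _).eq]
      group
    obtain ⟨c, hc⟩ := hscal _ hzZ
    have hzA : Commute z A := Subgroup.mem_center_iff.1 hzZ A |>.symm
    have h1 : z ^ p ^ u = 1 := by
      have h2 : (z * A) ^ p ^ u = 1 := by
        rw [show z * A = B * A * B⁻¹ by rw [hz]; group, conj_pow, hApow]; group
      rwa [hzA.mul_pow, hApow, mul_one] at h2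
    have hc1 : c = 1 := by
      haveI := hp
      have h3 : (c - 1) ^ p ^ u = 0 := by rw [sub_pow_char_pow, hzpow _ hzZ _ h1 c hc, one_pow, sub_self]
      exact sub_eq_zero.1 (pow_eq_zero_iff (pow_ne_zero _ hp.ne_zero) |>.1 h3)
    have hz1 : z = 1 := Subtype.ext (by rw [← hc, hc1, map_one, Matrix.SpecialLinearGroup.coe_one])
    rw [hz, mul_inv_eq_one, mul_inv_eq_iff_eq_mul] at hz1
    exact hz1
  set e := (Matrix.toLinAlgEquiv' : Matrix (Fin n) (Fin n) F ≃ₐ[F] Module.End F (Fin n → F)) with he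
  let φ : Matrix.SpecialLinearGroup (Fin n) F →* Module.End F (Fin n → F) :=
    { toFun := fun M => e (M : Matrix (Fin n) (Fin n) F)
      map_one' := by rw [Matrix.SpecialLinearGroup.coe_one, map_one]
      map_mul' := fun M M' => by rw [Matrix.SpecialLinearGroup.coe_mul, map_mul] }
  have hφi : Function.Injective φ := fun M M' h => Subtype.ext (e.injective h)
  haveI : Nontrivial (Module.End F (Fin n → F)) := inferInstance
  haveI : CharP (Module.End F (Fin n → F)) p :=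
    charP_of_injective_algebraMap (FaithfulSMul.algebraMap_injective F (Module.End F (Fin n → F))) p
  refine hB1 (hφi ?_)
  rw [map_one]
  refine CfsgLib.CommOrderP.eq_one_of_commute (p := p) hr hrp (by rw [Module.finrank_fin_fun]; omega)
    (by rw [Module.finrank_fin_fun]; exact hm) (φ B) (φ A - 1) (by rw [← map_pow, hBr, map_one]) ⟨p ^ u, ?_⟩ ?_ ?_
  · rw [sub_pow_char_pow_of_commute p u (Commute.one_right (φ A)), ← map_pow, hApow, map_one, one_pow, sub_self]
  · exact fun h => hA1 (hφi (by rw [map_one]; exact sub_eq_zero.1 h))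
  · exact ((show Commute B A from hcomm).map φ).sub_right (Commute.one_right _)


end Cfsg.Agent.S2364
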