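import Cfsg.Statements.S2365
import Cfsg.Agent.UGeom.Center
import Cfsg.Agent.UGeom.Count

set_option autoImplicit false
open Cfsg

namespace Cfsg.Agent.S2365

open Matrix

/-- A matrix commuting with one having pairwise distinct eigenvalues, and of order `p` in characteristic `p`, is trivial. -/
theorem eq_one_of_distinct {K : Type*} [Field K] {m : ℕ} (p : ℕ) [Fact p.Prime] [CharP K p]
    (X U : Matrix (Fin m) (Fin m) K) (f : Fin m → K) (hf : Function.Injective f)
    (hev : ∀ i, (X - f i • 1).det = 0) (hcomm : X * U = U * X) (hU : U ^ p = 1) : U = 1 := by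
  classical
  have hv : ∀ i, ∃ v : Fin m → K, v ≠ 0 ∧ X *ᵥ v = f i • v := fun i => by
    obtain ⟨v, hv, h⟩ := exists_mulVec_eq_zero_iff.2 (hev i)
    exact ⟨v, hv, by rwa [sub_mulVec, smul_mulVec, one_mulVec, sub_eq_zero] at h⟩
  choose v hv0 hvX using hv
  have hli : LinearIndependent K v := Module.End.eigenvectors_linearIndependent' (toLin' X) f hf v
    fun i => ⟨Module.End.mem_eigenspace_iff.2 (by simpa using hvX i), hv0 i⟩
  rcases Nat.eq_zero_or_pos m with hm | hm
  · subst hm; exact Subsingleton.elim _ _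
  haveI : Nonempty (Fin m) := ⟨⟨0, hm⟩⟩
  obtain ⟨b, hb⟩ : ∃ b : Module.Basis (Fin m) K (Fin m → K), ⇑b = v :=
    ⟨basisOfLinearIndependentOfCardEqFinrank hli (by simp), coe_basisOfLinearIndependentOfCardEqFinrank hli _⟩
  have hfix : ∀ i, U *ᵥ v i = v i := by
    intro i
    set c := b.repr (U *ᵥ v i) i with hc
    have hrep : U *ᵥ v i = c • v i := by
      have hsum := b.sum_repr (U *ᵥ v i)
      have h1 : ∀ j, j ≠ i → b.repr (U *ᵥ v i) j = 0 := by
        intro j hj
        have h2 : X *ᵥ (U *ᵥ v i) = f i • (U *ᵥ v i) := by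
          rw [mulVec_mulVec, hcomm, ← mulVec_mulVec, hvX, mulVec_smul]
        have h3 : X *ᵥ (U *ᵥ v i) = ∑ k, (b.repr (U *ᵥ v i) k * f k) • b k := by
          conv_lhs => rw [← hsum]
          rw [mulVec_sum]
          exact Finset.sum_congr rfl fun k _ => by rw [mulVec_smul, hb, hvX, smul_smul]
        have h4 : b.repr (X *ᵥ (U *ᵥ v i)) j = b.repr (U *ᵥ v i) j * f j := by
          rw [h3, b.repr_sum_self]
        rw [h2, map_smul, Finsupp.smul_apply, smul_eq_mul, mul_comm] at h4
        by_contra h5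
        exact hj (hf (mul_left_cancel₀ h5 h4).symm)
      conv_lhs => rw [← hsum]
      rw [Finset.sum_eq_single i (fun j _ hj => by rw [h1 j hj, zero_smul]) (by simp), hb]
    have hpow : ∀ k : ℕ, (U ^ k) *ᵥ v i = c ^ k • v i := by
      intro k
      induction k with
      | zero => simp
      | succ k ih => rw [pow_succ, ← mulVec_mulVec, hrep, mulVec_smul, ih, smul_smul, ← pow_succ']
    have hcp : c ^ p = 1 := by
      have h6 := hpow p
      rw [hU, one_mulVec] at h6
      exact smul_left_injective K (hv0 i) (show c ^ p • v i = (1 : K) • v i by rw [one_smul, ← h6])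
    have hc1 : c = 1 := by
      have : (c - 1) ^ p = 0 := by rw [sub_pow_char, hcp, one_pow, sub_self]
      exact sub_eq_zero.1 (pow_eq_zero_iff (Fact.out : p.Prime).ne_zero |>.1 this)
    rw [hrep, hc1, one_smul]
  refine Matrix.toLin'.injective (b.ext fun i => ?_)
  simp [hb, hfix]

/-- The eigenvalue argument. -/
theorem eq_one_of_primitive {K : Type*} [Field K] [IsAlgClosed K] {m : ℕ} (hm : 4 ≤ m) (p : ℕ)
    [Fact p.Prime] [CharP K p] (k : ℕ) (r : ℕ) [Fact r.Prime] (hrp : r ≠ p)
    (hord : ∀ j, 1 ≤ j → j ≤ m - 2 → (-((p ^ k : ℕ) : ZMod r)) ^ j ≠ 1)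
    (X U : Matrix (Fin m) (Fin m) K) (hX : Xᵀ * X.map (iterateFrobenius K p k) = 1) (hdet : X.det = 1)
    (hXr : X ^ r = 1) (hX1 : X ≠ 1) (hcomm : X * U = U * X) (hU : U ^ p = 1) : U = 1 := by
  classical
  set φ := iterateFrobenius K p k with hφ
  have hφp : ∀ z, φ z = z ^ (p ^ k) := fun z => rfl
  have hroot : ∀ z : K, z ≠ 0 → (X - z • 1).det = 0 → (X - (φ z)⁻¹ • 1).det = 0 := by
    intro z hz h
    have hφz : φ z ≠ 0 := (map_ne_zero φ).2 hz
    have h1 : (X.map φ - φ z • 1).det = 0 := by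
      have h0 := φ.map_det (X - z • 1)
      rw [h, map_zero, RingHom.mapMatrix_apply] at h0
      rw [h0]
      congr 1
      ext i j
      simp [Matrix.one_apply, apply_ite φ]
    have h2 : (Xᵀ * (X.map φ - φ z • 1)).det = 0 := by rw [det_mul, h1, mul_zero]
    rw [mul_sub, hX, Matrix.mul_smul, mul_one, show (1 : Matrix (Fin m) (Fin m) K) - φ z • Xᵀ =
      (-φ z) • (Xᵀ - (φ z)⁻¹ • 1) by
        rw [smul_sub, smul_smul, neg_mul, mul_inv_cancel₀ hφz, neg_smul, neg_smul, one_smul]; abel,
      det_smul, mul_eq_zero, or_iff_right (pow_ne_zero _ (neg_ne_zero.2 hφz))] at h2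
    rw [← det_transpose, transpose_sub, transpose_smul, transpose_one]
    exact h2
  have hrootr : ∀ z : K, (X - z • 1).det = 0 → z ^ r = 1 := by
    intro z h
    obtain ⟨v, hv, hv'⟩ := exists_mulVec_eq_zero_iff.2 h
    rw [sub_mulVec, smul_mulVec, one_mulVec, sub_eq_zero] at hv'
    have hp : ∀ n : ℕ, (X ^ n) *ᵥ v = z ^ n • v := by
      intro n
      induction n with
      | zero => simp
      | succ n ih => rw [pow_succ, ← mulVec_mulVec, hv', mulVec_smul, ih, smul_smul, ← pow_succ']
    have h1 := hp r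
    rw [hXr, one_mulVec] at h1
    exact smul_left_injective K hv (show z ^ r • v = (1 : K) • v by rw [one_smul, ← h1])
  have hmem : ∀ z : K, z ∈ X.charpoly.roots ↔ (X - z • 1).det = 0 := by
    intro z
    rw [Polynomial.mem_roots X.charpoly_monic.ne_zero, Polynomial.IsRoot.def, eval_charpoly]
    rw [show Matrix.scalar (Fin m) z - X = -(X - z • 1) by
      rw [neg_sub, smul_one_eq_diagonal]; rfl, det_neg, mul_eq_zero,
      or_iff_right (pow_ne_zero _ (neg_ne_zero.2 one_ne_zero))]
  -- a nontrivial eigenvalue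
  obtain ⟨lam, hlam, hlam1⟩ : ∃ z : K, (X - z • 1).det = 0 ∧ z ≠ 1 := by
    by_contra hcon
    push Not at hcon
    have hsp : X.charpoly.Splits := IsAlgClosed.splits _
    have hroots : X.charpoly.roots = Multiset.replicate m 1 := by
      rw [Multiset.eq_replicate]
      refine ⟨?_, fun z hz => hcon z ((hmem z).1 hz)⟩
      rw [← hsp.natDegree_eq_card_roots, charpoly_natDegree_eq_dim, Fintype.card_fin]
    have hcp : X.charpoly = (Polynomial.X - Polynomial.C 1) ^ m := by
      conv_lhs => rw [hsp.eq_prod_roots, X.charpoly_monic.leadingCoeff, hroots]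
      simp
    have hnil : (X - 1) ^ m = 0 := by
      have h0 := aeval_self_charpoly X
      rwa [hcp, map_pow, map_sub, Polynomial.aeval_X, Polynomial.aeval_C, map_one] at h0
    haveI : Nonempty (Fin m) := ⟨⟨0, by omega⟩⟩
    haveI : CharP (Matrix (Fin m) (Fin m) K) p := inferInstance
    have hpm : X ^ (p ^ m) = 1 := by
      have h1 : (X - 1) ^ (p ^ m) = 0 := pow_eq_zero_of_le (Nat.lt_pow_self (Fact.out : p.Prime).one_lt).le hnil
      rwa [sub_pow_char_pow_of_commute _ _ (Commute.one_right X), one_pow, sub_eq_zero] at h1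
    refine hX1 ((pow_eq_one_iff_of_coprime (m := r) (n := p ^ m) ?_).1 ⟨hXr, hpm⟩)
    exact Nat.Coprime.pow_right _ ((Nat.coprime_primes (Fact.out : r.Prime) (Fact.out : p.Prime)).2 hrp)
  have hlam0 : lam ≠ 0 := fun h => by
    have := hrootr lam hlam
    rw [h, zero_pow (Fact.out : r.Prime).ne_zero] at this
    exact zero_ne_one this
  have hordlam : orderOf lam = r := orderOf_eq_prime (hrootr lam hlam) hlam1
  let e : ℕ → K := fun j => lam ^ ((-((p ^ k : ℕ) : ℤ)) ^ j)
  have hestep : ∀ j, (φ (e j))⁻¹ = e (j + 1) := fun j => by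
    simp only [e]
    rw [map_zpow₀, hφp, ← zpow_natCast lam, ← _root_.zpow_mul, ← _root_.zpow_neg]
    congr 1
    ring
  have he : ∀ j, (X - e j • 1).det = 0 := by
    intro j
    induction j with
    | zero => simpa [e] using hlam
    | succ j ih => rw [← hestep]; exact hroot _ (zpow_ne_zero _ hlam0) ih
  have hne : ∀ i j, i < j → j ≤ i + (m - 2) → e i ≠ e j := by
    intro i j hij hle h
    set t := -((p ^ k : ℕ) : ℤ) with ht
    have h1 : lam ^ (t ^ i - t ^ j) = 1 := by
      rw [zpow_sub₀ hlam0, show lam ^ t ^ i = lam ^ t ^ j from h, div_self (zpow_ne_zero _ hlam0)]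
    have h2 : (r : ℤ) ∣ t ^ i - t ^ j := by
      have hu : (Units.mk0 lam hlam0) ^ (t ^ i - t ^ j) = 1 := Units.ext (by simpa using h1)
      have := orderOf_dvd_iff_zpow_eq_one.2 hu
      rwa [← orderOf_units, Units.val_mk0, hordlam] at this
    rw [← ZMod.intCast_zmod_eq_zero_iff_dvd, Int.cast_sub, Int.cast_pow, Int.cast_pow, sub_eq_zero] at h2
    have ht' : ((t : ℤ) : ZMod r) = -((p ^ k : ℕ) : ZMod r) := by simp [ht]
    rw [ht'] at h2
    have hne0 : (-((p ^ k : ℕ) : ZMod r)) ≠ 0 := by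
      rw [neg_ne_zero, Ne, ZMod.natCast_eq_zero_iff]
      exact fun hd => hrp ((Nat.prime_dvd_prime_iff_eq Fact.out Fact.out).1
        ((Fact.out : r.Prime).dvd_of_dvd_pow hd))
    have h3 : (-((p ^ k : ℕ) : ZMod r)) ^ (j - i) = 1 := by
      refine mul_left_cancel₀ (pow_ne_zero i hne0) ?_
      rw [← pow_add, Nat.add_sub_cancel' hij.le, mul_one, h2]
    exact hord (j - i) (by omega) (by omega) h3
  obtain ⟨n, rfl⟩ : ∃ n, m = n + 1 := ⟨m - 1, by omega⟩
  have hinj : ∀ i j, i < n → j < n → e i = e j → i = j := by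
    intro i j hi hj h
    rcases lt_trichotomy i j with h' | h' | h'
    · exact absurd h (hne i j h' (by omega))
    · exact h'
    · exact absurd h.symm (hne j i h' (by omega))
  obtain ⟨ν, hν, hνne⟩ : ∃ ν, (X - ν • 1).det = 0 ∧ ∀ i < n, e i ≠ ν := by
    by_cases hcl : e n = e 0
    swap
    · refine ⟨e n, he n, fun i hi h => ?_⟩
      rcases Nat.eq_zero_or_pos i with rfl | hi0
      · exact hcl h.symm
      · exact hne i n hi (by omega) h
    -- the closed orbit
    have hfixP : (φ (∏ i ∈ Finset.range n, e i))⁻¹ = ∏ i ∈ Finset.range n, e i := by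
      rw [map_prod, ← Finset.prod_inv_distrib, Finset.prod_congr rfl fun i _ => hestep i]
      have h1 := Finset.prod_range_succ e n
      have h2 := Finset.prod_range_succ' e n
      rw [h1, hcl] at h2
      exact (mul_right_cancel₀ (zpow_ne_zero _ hlam0) h2).symm
    have hsub : (Finset.range n).val.map e ≤ X.charpoly.roots := by
      rw [Multiset.le_iff_subset]
      · intro z hz
        obtain ⟨i, -, rfl⟩ := Multiset.mem_map.1 hz
        exact (hmem _).2 (he i)
      · exact Multiset.Nodup.map_on (fun i hi j hj h => hinj i j (Finset.mem_range.1 hi) (Finset.mem_range.1 hj) h)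
          (Finset.range n).nodup
    obtain ⟨R, hR⟩ := Multiset.le_iff_exists_add.1 hsub
    have hRc : Multiset.card R = 1 := by
      have := congrArg Multiset.card hR
      rw [← (IsAlgClosed.splits X.charpoly).natDegree_eq_card_roots, charpoly_natDegree_eq_dim,
        Fintype.card_fin, Multiset.card_add, Multiset.card_map] at this
      simp at this
      omega
    obtain ⟨ν, rfl⟩ := Multiset.card_eq_one.1 hRc
    have hprod : (∏ i ∈ Finset.range n, e i) * ν = 1 := by
      have := det_eq_prod_roots_charpoly X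
      rw [hdet, hR, Multiset.prod_add, Multiset.prod_singleton] at this
      exact this.symm
    refine ⟨ν, (hmem ν).1 (hR ▸ Multiset.mem_add.2 (Or.inr (Multiset.mem_singleton_self ν))), fun i hi h => ?_⟩
    have hνe : ν = (∏ i ∈ Finset.range n, e i)⁻¹ := eq_inv_of_mul_eq_one_right hprod
    have h1 : (φ ν)⁻¹ = ν := by rw [hνe, map_inv₀, _root_.inv_inj]; exact hfixP
    rw [← h, hestep] at h1
    exact hne i (i + 1) (by omega) (by omega) h1.symm
  refine eq_one_of_distinct p X U (Fin.snoc (fun i : Fin n => e i) ν) ?_ ?_ hcomm hU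
  · intro i j h
    induction i using Fin.lastCases <;> induction j using Fin.lastCases <;> simp at h
    · rfl
    · exact absurd h.symm (hνne _ (by omega))
    · exact absurd h (hνne _ (by omega))
    · exact congrArg Fin.castSucc (Fin.ext (hinj _ _ (by omega) (by omega) h))
  · intro i
    induction i using Fin.lastCases with
    | last => simpa using hν
    | cast i => simpa using he i

/-- Let q be a power of the prime p, F the field with q² elements, m ≥ 4, and let a, b be commuting elements of PSU(m, q) with a of order p. Then every prime divisor of the order of b divides the order of SU(m − 2, q). -/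
theorem result {F : Type*} [Field F] [Fintype F] (p : ℕ) [Fact p.Prime] [CharP F p] (m q : ℕ) (hm : 4 ≤ m) (hF : Fintype.card F = q ^ 2)
    (a b : Cfsg.PSU m F q) (ha : orderOf a = p) (hab : Commute a b) :
    (orderOf b).primeFactors ⊆ (Nat.card ↥(Cfsg.SU (m - 2) F q)).primeFactors := by
  classical
  obtain ⟨C⟩ := CfsgLib.UGeom.nonempty_conj hF
  have hpp : p.Prime := Fact.out
  obtain ⟨k, hk, hk0⟩ : ∃ k, q = p ^ k ∧ 1 ≤ k := by
    obtain ⟨j, -, hj⟩ := FiniteField.card F p
    have hd : q ∣ p ^ (j : ℕ) := by rw [← hj, hF]; exact dvd_pow_self q two_ne_zero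
    obtain ⟨i, -, hi⟩ := (Nat.dvd_prime_pow hpp).1 hd
    refine ⟨i, hi, Nat.one_le_iff_ne_zero.2 fun h => ?_⟩
    have := C.two_le
    rw [hi, h, pow_zero] at this
    omega
  intro r hr
  rw [Nat.mem_primeFactors] at hr
  obtain ⟨hrp, hrb, -⟩ := hr
  haveI : Fact r.Prime := ⟨hrp⟩
  refine Nat.mem_primeFactors.2 ⟨hrp, ?_, Nat.card_pos.ne'⟩
  by_contra hndvd
  have hmul := CfsgLib.UGeom.card_SU_mul C (n := m - 2) (by omega)
  rw [CfsgLib.UGeom.card_GU C] at hmul
  set d : ℕ → ℕ := fun i => if Even i then q ^ (i + 1) + 1 else q ^ (i + 1) - 1 with hd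
  have hd0 : d 0 = q + 1 := by simp [hd]
  have hsu : Nat.card ↥(Cfsg.SU (m - 2) F q) =
      q ^ ((m - 2) * (m - 2 - 1) / 2) * ∏ i ∈ Finset.range (m - 3), d (i + 1) := by
    refine Nat.eq_of_mul_eq_mul_left (show 0 < q + 1 by omega) ?_
    rw [hmul, show m - 2 = m - 3 + 1 by omega, Finset.prod_range_succ']
    simp only [Nat.even_iff]
    simp [hd, Nat.even_iff]
    ring
  have hfac : ∀ i, 1 ≤ i → i < m - 2 → ¬ r ∣ d i := fun i h1 h2 h => hndvd (by
    obtain ⟨i', rfl⟩ : ∃ i', i = i' + 1 := ⟨i - 1, by omega⟩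
    rw [hsu]
    exact (h.trans (Finset.dvd_prod_of_mem (fun i => d (i + 1)) (Finset.mem_range.2 (show i' < m - 3 by omega)))).mul_left _)
  have hrp' : r ≠ p := fun h => hndvd (by
    rw [hsu, h]
    refine Dvd.dvd.mul_right (dvd_pow (hk ▸ dvd_pow_self p (by omega)) ?_) _
    have : 2 * 1 ≤ (m - 2) * (m - 2 - 1) := Nat.mul_le_mul (by omega) (by omega)
    omega)
  have hq1 : 1 ≤ q := by have := C.two_le; omega
  have hrq : ¬ r ∣ q + 1 := fun h => hfac 1 le_rfl (by omega) (by
    simp only [hd, Nat.not_even_one, if_false]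
    have : q ^ (1 + 1) - 1 = (q + 1) * (q - 1) := by rw [← Nat.sq_sub_sq, one_pow]
    rw [this]
    exact h.mul_right _)
  have hord : ∀ j, 1 ≤ j → j ≤ m - 2 → (-((p ^ k : ℕ) : ZMod r)) ^ j ≠ 1 := by
    intro j hj1 hj2 h
    rw [← hk] at h
    rcases Nat.lt_or_ge j 2 with hj | hj
    · obtain rfl : j = 1 := by omega
      apply hrq
      rw [← ZMod.natCast_eq_zero_iff]
      push_cast
      linear_combination -h
    obtain ⟨i, rfl⟩ : ∃ i, j = i + 1 := ⟨j - 1, by omega⟩
    refine hfac i (by omega) (by omega) ?_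
    rw [← ZMod.natCast_eq_zero_iff]
    rcases Nat.even_or_odd i with hi | hi
    · simp only [hd, if_pos hi]
      rw [hi.add_one.neg_pow] at h
      push_cast
      linear_combination -h
    · simp only [hd, if_neg (Nat.not_even_iff_odd.2 hi)]
      rw [hi.add_one.neg_pow] at h
      rw [Nat.cast_sub (Nat.one_le_pow _ _ hq1)]
      push_cast
      linear_combination h
  -- lifts
  set c := Nat.card (Subgroup.center (Cfsg.SU m F q)) with hc
  have hcd : c ∣ q + 1 := by
    rw [hc, CfsgLib.UGeom.card_center_SU C (by omega)]; exact Nat.gcd_dvd_right _ _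
  have hcr : r.Coprime c := (Nat.Prime.coprime_iff_not_dvd hrp).2 fun h => hrq (h.trans hcd)
  have hcp : p.Coprime c := (Nat.Prime.coprime_iff_not_dvd hpp).2 fun h => by
    have h1 : p ∣ q + 1 := h.trans hcd
    have h2 : p ∣ q := hk ▸ dvd_pow_self p (by omega)
    exact hpp.one_lt.ne' (Nat.dvd_one.1 ((Nat.dvd_add_right h2).1 h1))
  have hzc : ∀ z : Cfsg.SU m F q, z ∈ Subgroup.center (Cfsg.SU m F q) → z ^ c = 1 := fun z hz =>
    congrArg Subtype.val (pow_card_eq_one' (x := (⟨z, hz⟩ : Subgroup.center (Cfsg.SU m F q))))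
  have lift : ∀ (g : Cfsg.PSU m F q) (t : ℕ), t.Coprime c → g ^ t = 1 → g ≠ 1 →
      ∃ x : Cfsg.SU m F q, x ^ t = 1 ∧ x ∉ Subgroup.center (Cfsg.SU m F q) ∧
        QuotientGroup.mk' (Subgroup.center (Cfsg.SU m F q)) x = g ^ c := by
    intro g t ht hg hg1
    obtain ⟨y, rfl⟩ := QuotientGroup.mk'_surjective _ g
    refine ⟨y ^ c, ?_, fun hmem => hg1 ((pow_eq_one_iff_of_coprime ht).1 ⟨hg, ?_⟩), map_pow _ _ _⟩
    · rw [← pow_mul, mul_comm, pow_mul]
      exact hzc _ ((QuotientGroup.eq_one_iff _).1 ((map_pow (QuotientGroup.mk' _) y t).trans hg))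
    · rw [← map_pow]
      exact (QuotientGroup.eq_one_iff _).2 hmem
  obtain ⟨u, hu, huZ, hua⟩ := lift a p hcp (ha ▸ pow_orderOf_eq_one a) (fun h => by
    rw [h, orderOf_one] at ha; exact hpp.one_lt.ne ha)
  have hb0 : orderOf b ≠ 0 := (orderOf_pos b).ne'
  obtain ⟨x, hx, hxZ, hxb⟩ := lift (b ^ (orderOf b / r)) r hcr
    (by rw [← pow_mul, Nat.div_mul_cancel hrb, pow_orderOf_eq_one])
    (fun h => by
      have := orderOf_pow_of_dvd (x := b) (n := orderOf b / r) (Nat.div_pos (Nat.le_of_dvd (by omega) hrb) hrp.pos).ne'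
        (Nat.div_dvd_of_dvd hrb)
      rw [h, orderOf_one, Nat.div_div_self hrb hb0] at this
      exact hrp.one_lt.ne this)
  have hcomm : x * u = u * x := by
    have hz : x * u * x⁻¹ * u⁻¹ ∈ Subgroup.center (Cfsg.SU m F q) := by
      refine (QuotientGroup.eq_one_iff _).1 ?_
      show QuotientGroup.mk' _ (x * u * x⁻¹ * u⁻¹) = 1
      rw [map_mul, map_mul, map_mul, map_inv, map_inv, hxb, hua,
        ((((hab.symm.pow_left (orderOf b / r)).pow_left c).pow_right c)).eq]
      group
    set z := x * u * x⁻¹ * u⁻¹ with hzdef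
    have hconj : x * u * x⁻¹ = z * u := by rw [hzdef]; group
    have hzu : Commute z u := (Subgroup.mem_center_iff.1 hz u).symm
    have h1 : z ^ p = 1 := by
      have h2 : (x * u * x⁻¹) ^ p = 1 := by rw [conj_pow, hu, mul_one, mul_inv_cancel]
      rwa [hconj, hzu.mul_pow, hu, mul_one] at h2
    have hz1 : z = 1 := (pow_eq_one_iff_of_coprime hcp).1 ⟨h1, hzc z hz⟩
    rw [hz1, one_mul, mul_inv_eq_iff_eq_mul] at hconj
    exact hconj
  -- matrices over the algebraic closure
  let K := AlgebraicClosure F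
  haveI : CharP K p := charP_of_injective_algebraMap (algebraMap F K).injective p
  let ρ : Cfsg.SU m F q →* Matrix (Fin m) (Fin m) K :=
    ((algebraMap F K).mapMatrix.toMonoidHom.comp (Cfsg.slToMat m F)).comp (Cfsg.SU m F q).subtype
  have hρ : Function.Injective ρ := fun g h e => Subtype.ext (Subtype.ext
    (Matrix.map_injective (algebraMap F K).injective e))
  have hGU : (ρ x)ᵀ * (ρ x).map (iterateFrobenius K p k) = 1 := by
    have h : (x.1.1)ᵀ * (x.1.1).map C.σ = 1 := by
      ext i j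
      have h := x.2 (Pi.single i 1) (Pi.single j 1)
      change Cfsg.hermForm m F q (x.1.1 *ᵥ _) (x.1.1 *ᵥ _) = _ at h
      rw [CfsgLib.UGeom.form_single_right C, CfsgLib.UGeom.form_eq C] at h
      simp only [Matrix.mulVec_single_one, Matrix.col_apply] at h
      simp only [Matrix.mul_apply, Matrix.transpose_apply, Matrix.map_apply]
      rw [h, Matrix.one_apply, Pi.single_apply]
      simp [eq_comm]
    have h2 := congrArg (algebraMap F K).mapMatrix h
    rw [map_mul, map_one] at h2
    refine Eq.trans ?_ h2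
    refine congrArg₂ (· * ·) ?_ ?_
    · ext i j; simp [ρ]
    · ext i j
      simp [ρ, C.pow, iterateFrobenius_def, hk]
  have hU1 : ρ u = 1 := eq_one_of_primitive hm p k r hrp' hord (ρ x) (ρ u) hGU
    (by
      show ((algebraMap F K).mapMatrix x.1.1).det = 1
      rw [← RingHom.map_det, x.1.2, map_one])
    (by rw [← map_pow, hx, map_one])
    (fun h => hxZ ((hρ (h.trans ρ.map_one.symm)) ▸ one_mem _))
    (by rw [← map_mul, hcomm, map_mul])
    (by rw [← map_pow, hu, map_one])
  exact huZ ((hρ (hU1.trans ρ.map_one.symm)) ▸ one_mem _)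

end Cfsg.Agent.S2365
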