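import Cfsg.Statements.S2367
import Cfsg.Agent.H29.CubePart.Basic

set_option autoImplicit false
open Cfsg

namespace Cfsg.Agent.S2367

/-- Let G be an alternating group of degree at least 5 or a simple group with the order of one of the 26 sporadic groups, and let p be an odd prime such that p³ is the exact power of p dividing the order of G. Then p³ is less than the 2-part of the order of G. -/
theorem result {G : Type*} [Group G] [Finite G] (hG : Cfsg.IsAlternating G ∨ Cfsg.IsSporadic G)
    (p : ℕ) (hp : p.Prime) (hodd : p ≠ 2) (h3 : (Nat.card G).factorization p = 3) :
    p ^ 3 < 2 ^ (Nat.card G).factorization 2 := by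
  exact CfsgLib.H29.CubePart.main hG p hp hodd h3

end Cfsg.Agent.S2367
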