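import Cfsg.Statements.S2368
import Cfsg.Agent.GLOrders.Basic
-- import your own Cfsg.Agent.* helpers here

set_option autoImplicit false
open Cfsg

namespace Cfsg.Agent.S2368

/-- Let F be a finite field of characteristic p and m ≥ 1. Every element of GL(m, F) of p-power order has order less than p·m, and GL(m, F) has an element of p-power order at least m; so the largest order of a p-element of GL(m, F) is the least power of p that is at least m. -/
theorem result {F : Type*} [Field F] [Fintype F] (p : ℕ) [Fact p.Prime] [CharP F p] (m : ℕ) (hm : 1 ≤ m) :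
    (∀ g : Matrix.GeneralLinearGroup (Fin m) F, (∃ j : ℕ, orderOf g = p ^ j) → orderOf g < p * m) ∧
      ∃ g : Matrix.GeneralLinearGroup (Fin m) F, (∃ j : ℕ, orderOf g = p ^ j) ∧ m ≤ orderOf g := by
  classical
  have hp : p.Prime := Fact.out
  have : Nonempty (Fin m) := ⟨⟨0, hm⟩⟩
  set c := Nat.clog p m with hc
  have hle : m ≤ p ^ c := Nat.le_pow_clog hp.one_lt m
  have hlt : ∀ j, j < c → p ^ j < m := by
    intro j hj
    by_contra h
    have := Nat.clog_le_of_le_pow (b := p) (x := m) (y := j) (by omega)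
    omega
  have hclt : p ^ c < p * m := by
    cases hcc : c with
    | zero =>
      rw [pow_zero]
      exact lt_of_lt_of_le hp.one_lt (Nat.le_mul_of_pos_right p hm)
    | succ d =>
      rw [pow_succ, mul_comm]
      exact Nat.mul_lt_mul_of_pos_left (hlt d (by omega)) hp.pos
  refine ⟨fun g ⟨j, hj⟩ => ?_, ?_⟩
  · have h1 : ((g : Matrix (Fin m) (Fin m) F) - 1) ^ p ^ j = 0 := by
      rw [sub_pow_char_pow_of_commute p j (Commute.one_right _), one_pow, ← Units.val_pow_eq_pow_val, ← hj,
        pow_orderOf_eq_one, Units.val_one, sub_self]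
    have h2 : ((g : Matrix (Fin m) (Fin m) F) - 1) ^ m = 0 := by
      have h3 : IsNilpotent ((g : Matrix (Fin m) (Fin m) F) - 1) := ⟨_, h1⟩
      have h4 := Matrix.isNilpotent_charpoly_sub_pow_of_isNilpotent h3
      have h5 := Matrix.aeval_self_charpoly ((g : Matrix (Fin m) (Fin m) F) - 1)
      rw [sub_eq_zero.mp h4.eq_zero, map_pow, Polynomial.aeval_X, Fintype.card_fin] at h5
      exact h5
    have h6 : g ^ p ^ c = 1 := by
      apply Units.ext
      rw [Units.val_pow_eq_pow_val, Units.val_one]
      refine sub_eq_zero.mp ?_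
      have := pow_eq_zero_of_le hle h2
      rwa [sub_pow_char_pow_of_commute p c (Commute.one_right _), one_pow] at this
    exact lt_of_le_of_lt (Nat.le_of_dvd (pow_pos hp.pos c) (orderOf_dvd_of_pow_eq_one h6)) hclt
  · rcases Nat.lt_or_ge m 2 with h | h
    · exact ⟨1, ⟨0, by simp⟩, by rw [orderOf_one]; omega⟩
    · obtain ⟨g, -, hg⟩ := CfsgLib.GLOrders.exists_unipotent (F := F) p m c h hle hlt
      exact ⟨g, ⟨c, hg⟩, hg ▸ hle⟩

end Cfsg.Agent.S2368
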