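import Cfsg.Statements.S2369
import Cfsg.Agent.Chev.Ree4.Local
-- import your own Cfsg.Agent.* helpers here

set_option autoImplicit false
open Cfsg

namespace Cfsg.Agent.S2369

/-- Let q = 2^(2m+1) with m ≥ 1 and let a, b be commuting elements of the large Ree group ²F₄(q) with a an involution. Then every prime divisor of the order of b divides q(q⁴ − 1). -/
theorem result {K : Type*} [Field K] [Fintype K] (m : ℕ) (hm : 1 ≤ m) (hK : Fintype.card K = 2 ^ (2 * m + 1))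
    (a b : ↥(Cfsg.Lie.twistedF4 K (2 ^ m))) (ha : orderOf a = 2) (hab : Commute a b) :
    (orderOf b).primeFactors ⊆ (2 ^ (2 * m + 1) * ((2 ^ (2 * m + 1)) ^ 4 - 1)).primeFactors := by
  have hcard : Nat.card K = 2 ^ (2 * m + 1) := by rw [Nat.card_eq_fintype_card, hK]
  haveI : Fact (Nat.Prime 2) := ⟨Nat.prime_two⟩
  haveI : CharP K 2 := charP_of_card_eq_prime_pow hK
  intro r hr
  obtain ⟨hrp, hrb, -⟩ := Nat.mem_primeFactors.1 hr
  have hfix := fun x : ↥(Cfsg.Lie.twistedF4 K (2 ^ m)) =>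
    ((CfsgLib.Chev.Ree4.twist K m).mem_fixed.1 (CfsgLib.Chev.Ree4.twisted_le_fixed m hcard x.2))
  let a' : Cfsg.Lie.chevF4.group K := ⟨a.1, (hfix a).1⟩
  let b' : Cfsg.Lie.chevF4.group K := ⟨b.1, (hfix b).1⟩
  have ha' : orderOf a' = 2 := by
    rw [← Subgroup.orderOf_coe, show ((a' : Cfsg.Lie.chevF4.group K) : GL Cfsg.Lie.chevF4.Idx K) = a.1 from rfl, Subgroup.orderOf_coe, ha]
  have hσ : (CfsgLib.Chev.Ree4.twist K m).endo a' = a' :=
    Subtype.ext (((CfsgLib.Chev.Ree4.twist K m).ap_of_mem (hfix a).1).symm.trans (hfix a).2)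
  have hb' : r ∣ orderOf b' := by
    rw [← Subgroup.orderOf_coe, show ((b' : Cfsg.Lie.chevF4.group K) : GL Cfsg.Lie.chevF4.Idx K) = b.1 from rfl, Subgroup.orderOf_coe]
    exact hrb
  have hab' : (b.1 : GL Cfsg.Lie.chevF4.Idx K) * a.1 = a.1 * b.1 := by
    have e := hab.eq.symm
    rw [Subtype.ext_iff, Subgroup.coe_mul, Subgroup.coe_mul] at e
    exact e
  have hc : b' * a' = a' * b' := by
    rw [Subtype.ext_iff, Subgroup.coe_mul, Subgroup.coe_mul]
    exact hab'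
  have key := CfsgLib.Chev.Ree4.prime_dvd_of_commute_involution m ha' hσ hc hrp hb'
  rw [hcard] at key
  refine Nat.mem_primeFactors.2 ⟨hrp, key, Nat.mul_ne_zero (by positivity) ?_⟩
  have h1 : 2 ≤ 2 ^ (2 * m + 1) := by
    calc 2 = 2 ^ 1 := rfl
      _ ≤ 2 ^ (2 * m + 1) := Nat.pow_le_pow_right (by norm_num) (by omega)
  have : 2 ^ 4 ≤ (2 ^ (2 * m + 1)) ^ 4 := Nat.pow_le_pow_left h1 4
  omega

end Cfsg.Agent.S2369
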