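import Cfsg.Statements.S2370
import Cfsg.Agent.Chev.ExponentBound
import Cfsg.Agent.Chev.GeoCert
import Cfsg.Agent.Chev.Inst
-- import your own Cfsg.Agent.* helpers here

set_option autoImplicit false
open Cfsg

namespace Cfsg.Agent.S2370

/-- Let q = 2^(2m+1) with m ≥ 1. Every element of 2-power order of the large Ree group ²F₄(q) has order at most 32. -/
theorem result {K : Type*} [Field K] [Fintype K] (m : ℕ) (hm : 1 ≤ m) (hK : Fintype.card K = 2 ^ (2 * m + 1))
    (x : ↥(Cfsg.Lie.twistedF4 K (2 ^ m))) (hx : ∃ j : ℕ, orderOf x = 2 ^ j) : orderOf x ≤ 32 := by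
  classical
  haveI : Fact (Nat.Prime 2) := ⟨Nat.prime_two⟩
  haveI : CharP K 2 := charP_of_card_eq_prime_pow hK
  haveI : Finite K := inferInstance
  let S := CfsgLib.Chev.sysF4
  have hg : (x : GL Cfsg.Lie.chevF4.Idx K) ∈ Cfsg.Lie.chevF4.group K :=
    S.genSubgroup_le_group _ x.2
  have hH : ∀ r < Cfsg.Lie.chevF4.nroots,
      |∑ i ∈ Finset.range Cfsg.Lie.chevF4.rank, CfsgLib.Chev.DataF4.tbl.vecAt r i| ≤ ((11 : ℕ) : ℤ) := by
    decide +kernel
  have ho : orderOf (x : GL Cfsg.Lie.chevF4.Idx K) = orderOf x :=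
    orderOf_injective (Cfsg.Lie.twistedF4 K (2 ^ m)).subtype Subtype.val_injective x
  have h32 := S.pow_eq_one_of_pgroup CfsgLib.Chev.geoF4 hH 2 5 (by norm_num) hg
    (by rw [ho]; exact hx)
  rw [← ho]
  exact Nat.le_of_dvd (by norm_num) (orderOf_dvd_of_pow_eq_one h32)

end Cfsg.Agent.S2370
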