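import Cfsg.Statements.S2371
import Cfsg.Agent.Chev.G2Singer.Main
-- import your own Cfsg.Agent.* helpers here

set_option autoImplicit false
open Cfsg

namespace Cfsg.Agent.S2371

/-- The group G₂(q), q ≥ 3, contains a cyclic subgroup of order q² + q + 1 which is its own centralizer. -/
theorem result {F : Type*} [Field F] [Fintype F] (q : ℕ) (hF : Fintype.card F = q) (hq : 3 ≤ q) :
    ∃ H : Subgroup ↥(Cfsg.Lie.chevG2.group F), IsCyclic ↥H ∧ Nat.card ↥H = q ^ 2 + q + 1 ∧
      Subgroup.centralizer (H : Set ↥(Cfsg.Lie.chevG2.group F)) = H := by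
  exact CfsgLib.Chev.G2Singer.main (by rw [Nat.card_eq_fintype_card, hF]) hq

end Cfsg.Agent.S2371
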