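import Cfsg.Statements.S2376
import Cfsg.Agent.Chev.D4Torus.Cyclic
-- import your own Cfsg.Agent.* helpers here

set_option autoImplicit false
open Cfsg

namespace Cfsg.Agent.S2376

/-- The group ³D₄(q) contains a cyclic subgroup of order (q³ − 1)(q + 1) which is its own centralizer. -/
theorem result {K : Type*} [Field K] [Fintype K] (q : ℕ) (hq : IsPrimePow q) (hK : Fintype.card K = q ^ 3) :
    ∃ H : Subgroup ↥(Cfsg.Lie.twistedD4 K q), IsCyclic ↥H ∧ Nat.card ↥H = (q ^ 3 - 1) * (q + 1) ∧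
      Subgroup.centralizer (H : Set ↥(Cfsg.Lie.twistedD4 K q)) = H := by
  obtain ⟨p, a, hp, ha, rfl⟩ := hq
  have hp' := hp.nat_prime
  obtain ⟨r, hr⟩ := CharP.exists K
  have hrp : r = p := by
    haveI := Fact.mk (CharP.char_is_prime K r)
    obtain ⟨n, -, hn⟩ := FiniteField.card K r
    have h : r ∣ (p ^ a) ^ 3 := hK ▸ hn ▸ dvd_pow_self r n.pos.ne'
    exact (Nat.prime_dvd_prime_iff_eq (CharP.char_is_prime K r) hp').1
      ((CharP.char_is_prime K r).dvd_of_dvd_pow ((CharP.char_is_prime K r).dvd_of_dvd_pow h))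
  subst hrp
  haveI := Fact.mk hp'
  haveI : CharP (AlgebraicClosure K) r :=
    charP_of_injective_algebraMap (algebraMap K (AlgebraicClosure K)).injective r
  exact CfsgLib.Chev.D4Torus.main_of_closure ⟨r, a, hp, ha, rfl⟩ hK
    (algebraMap K (AlgebraicClosure K)) (iterateFrobenius (AlgebraicClosure K) r a)
    (fun t => iterateFrobenius_def r a t)

end Cfsg.Agent.S2376
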