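import Cfsg.Statements.S2379
import Cfsg.Agent.TorusSylow.Embed
import Cfsg.Agent.SLn.Card
-- import your own Cfsg.Agent.* helpers here

set_option autoImplicit false
open Cfsg

namespace Cfsg.Agent.S2379

/-- Sylow subgroups of `SL_n(q)` for large primes. Let `F` be a field with `q` elements and `r` a prime with `r > n` and `r ∤ q` (so `r` does not divide the order `n!` of the Weyl group). Let `d` be the multiplicative order of `q` modulo `r`, `a` the number of integers `i` with `2 ≤ i ≤ n` divisible by `d` (the degrees of the Weyl group are `2, …, n`), and `m` the `r`-part of the value at `q` of the `d`-th cyclotomic polynomial. Then every Sylow `r`-subgroup of `SL_n(q)` is a direct product of `a` cyclic groups of order `m`. -/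
theorem result {F : Type*} [Field F] [Fintype F] {q : ℕ} (hq : Fintype.card F = q) (n : ℕ)
    (r : ℕ) [Fact r.Prime] (hrn : n < r) (hrq : ¬ r ∣ q) (P : Sylow r (Matrix.SpecialLinearGroup (Fin n) F)) :
    Nonempty (↥(P : Subgroup (Matrix.SpecialLinearGroup (Fin n) F)) ≃*
      (Fin ((Finset.Icc 2 n).filter (fun i => orderOf (q : ZMod r) ∣ i)).card →
        Multiplicative (ZMod (r ^ padicValNat r ((Polynomial.cyclotomic (orderOf (q : ZMod r)) ℤ).eval (q : ℤ)).natAbs)))) := by
  classical
  have hq2 : 2 ≤ q := hq ▸ Fintype.one_lt_card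
  have hd := CfsgLib.TorusSylow.orderOf_pos_of_not_dvd hrq
  rw [CfsgLib.TorusSylow.val_eq_cyclotomic hq2 hrq]
  rcases Nat.eq_zero_or_pos n with rfl | hn
  · refine CfsgLib.TorusSylow.sylow_iso P 1 (fun x y _ => funext fun i => ?_) ?_
    · exact absurd i.2 (by simp)
    · rw [Nat.card_of_subsingleton (1 : Matrix.SpecialLinearGroup (Fin 0) F)]; simp
  have hprod : ∏ i ∈ Finset.range n, (q ^ (n - i) - 1) = ∏ i ∈ Finset.Icc 1 n, (q ^ i - 1) :=
    Finset.prod_nbij' (fun i => n - i) (fun i => n - i) (fun i hi => by simp at hi ⊢; omega)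
      (fun i hi => by simp at hi ⊢; omega) (fun i hi => by simp at hi ⊢; omega)
      (fun i hi => by simp at hi ⊢; omega) (fun i _ => rfl)
  have hgl : Nat.card (GL (Fin n) F) = q ^ (n * (n - 1) / 2) * ∏ i ∈ Finset.Icc 1 n, (q ^ i - 1) := by
    rw [Matrix.card_GL_field, CfsgLib.SLn.prod_sub_pow_eq, hq, hprod]
  have hfil : ((Finset.Icc 1 n).filter (fun i => orderOf (q : ZMod r) ∣ i)).card = n / orderOf (q : ZMod r) := by
    rw [← Nat.Ioc_filter_dvd_card_eq_div n (orderOf (q : ZMod r))]
    congr 1
  have hins : Finset.Icc 1 n = insert 1 (Finset.Icc 2 n) := by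
    ext i; simp; omega
  have hsl : Nat.card (Matrix.SpecialLinearGroup (Fin n) F) =
      q ^ (n * (n - 1) / 2) * ∏ i ∈ Finset.Icc 2 n, (q ^ i - 1) := by
    have h := CfsgLib.SL2.card_SL_mul (F := F) n hn
    rw [hgl, hins, Finset.prod_insert (by simp), pow_one, hq, mul_left_comm, mul_comm (q - 1)] at h
    exact Nat.eq_of_mul_eq_mul_right (by omega) h
  have hv : padicValNat r (Nat.card (Matrix.SpecialLinearGroup (Fin n) F)) =
      ((Finset.Icc 2 n).filter (fun i => orderOf (q : ZMod r) ∣ i)).card * CfsgLib.TorusSylow.val r q := by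
    rw [hsl, CfsgLib.TorusSylow.padic_prod_pow hq2 hrq _ _ (fun i => i) (fun i hi => ⟨by
      have := (Finset.mem_Icc.mp hi).1; omega,
      fun h => absurd (Nat.le_of_dvd (by have := (Finset.mem_Icc.mp hi).1; omega) h)
        (by have := (Finset.mem_Icc.mp hi).2; omega)⟩)]
  have hvd : r ^ CfsgLib.TorusSylow.val r q ∣ q ^ orderOf (q : ZMod r) - 1 := pow_padicValNat_dvd
  by_cases hd1 : orderOf (q : ZMod r) = 1
  · obtain ⟨m, rfl⟩ : ∃ m, n = m + 1 := ⟨n - 1, by omega⟩
    have hcard : ((Finset.Icc 2 (m + 1)).filter (fun i => orderOf (q : ZMod r) ∣ i)).card = m := by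
      rw [hd1, Finset.filter_true_of_mem (fun i _ => one_dvd i), Nat.card_Icc]; omega
    rw [hcard] at hv ⊢
    obtain ⟨c, hc⟩ : ∃ u : Fˣ, orderOf u = r ^ CfsgLib.TorusSylow.val r q := by
      refine (CfsgLib.TorusSylow.exists_orderOf_of_dvd ?_)
      rw [Nat.card_units, Nat.card_eq_fintype_card, hq]
      rw [hd1, pow_one] at hvd
      exact hvd
    obtain ⟨g, hg⟩ := CfsgLib.TorusSylow.exists_zmod_hom hc
    let D : (Fin m → Fˣ) →* Matrix.SpecialLinearGroup (Fin (m + 1)) F :=
      { toFun := fun x => ⟨Matrix.diagonal (Fin.snoc (fun j => (x j : F)) (((∏ j, x j)⁻¹ : Fˣ) : F)), by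
          rw [Matrix.det_diagonal, Fin.prod_univ_castSucc]
          simp only [Fin.snoc_castSucc, Fin.snoc_last, ← Units.coe_prod, ← Units.val_mul, mul_inv_cancel, Units.val_one]⟩
        map_one' := Subtype.ext (by
          show Matrix.diagonal _ = _
          rw [Matrix.SpecialLinearGroup.coe_one, ← Matrix.diagonal_one]
          congr 1; funext i
          refine Fin.lastCases ?_ (fun j => ?_) i <;> simp)
        map_mul' := fun x y => Subtype.ext (by
          show Matrix.diagonal _ = Matrix.diagonal _ * Matrix.diagonal _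
          rw [Matrix.diagonal_mul_diagonal]
          congr 1; funext i
          refine Fin.lastCases ?_ (fun j => ?_) i <;> simp [Finset.prod_mul_distrib, mul_comm]) }
    have hD : Function.Injective D := fun x y h => funext fun j => Units.ext (by
      have := congrFun (Matrix.diagonal_injective (congrArg Subtype.val h)) j.castSucc
      simpa using this)
    exact CfsgLib.TorusSylow.sylow_iso P (D.comp (MonoidHom.compLeft g (Fin m))) (hD.comp hg.comp_left) hv
  · have hcard : ((Finset.Icc 2 n).filter (fun i => orderOf (q : ZMod r) ∣ i)).card = n / orderOf (q : ZMod r) := by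
      rw [← hfil, hins, Finset.filter_insert, if_neg (fun h => hd1 (Nat.dvd_one.mp h))]
    rw [hcard] at hv ⊢
    obtain ⟨K, _, _, f, hf, hcK⟩ := CfsgLib.TorusSylow.exists_gl_hom (F := F) (n := n)
      (Nat.div_mul_le_self n (orderOf (q : ZMod r))) hd
    obtain ⟨c, hc⟩ : ∃ u : Kˣ, orderOf u = r ^ CfsgLib.TorusSylow.val r q := by
      refine (CfsgLib.TorusSylow.exists_orderOf_of_dvd ?_)
      rw [Nat.card_units, Nat.card_eq_fintype_card, hcK, Nat.card_eq_fintype_card, hq]
      exact hvd
    obtain ⟨g, hg⟩ := CfsgLib.TorusSylow.exists_zmod_hom hc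
    have hcop : (r ^ CfsgLib.TorusSylow.val r q).Coprime (q - 1) := by
      refine Nat.Coprime.pow_left _ ((Nat.Prime.coprime_iff_not_dvd Fact.out).mpr fun h => hd1 ?_)
      exact Nat.dvd_one.mp ((CfsgLib.TorusSylow.dvd_pow_sub_one_iff (by omega) 1).mp (by rwa [pow_one]))
    set fg := f.comp (MonoidHom.compLeft g (Fin (n / orderOf (q : ZMod r)))) with hfg
    have hdet : ∀ x, ((fg x : GL (Fin n) F) : Matrix (Fin n) (Fin n) F).det = 1 := fun x => by
      have h1 : x ^ (r ^ CfsgLib.TorusSylow.val r q) = 1 := funext fun j => by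
        haveI : NeZero (r ^ CfsgLib.TorusSylow.val r q) := ⟨pow_ne_zero _ (Fact.out : r.Prime).ne_zero⟩
        rw [Pi.pow_apply, Pi.one_apply, ← orderOf_dvd_iff_pow_eq_one]
        have := orderOf_dvd_natCard (x j)
        rwa [Nat.card_congr Multiplicative.toAdd, Nat.card_zmod] at this
      have h2 := congrArg (fun z => Matrix.GeneralLinearGroup.det (fg z)) h1
      simp only [map_pow, map_one] at h2
      have h3 := Nat.dvd_gcd (orderOf_dvd_of_pow_eq_one h2)
        (orderOf_dvd_natCard (Matrix.GeneralLinearGroup.det (fg x)))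
      rw [Nat.card_units, Nat.card_eq_fintype_card (α := F), hq, hcop.gcd_eq_one, Nat.dvd_one, orderOf_eq_one_iff] at h3
      exact congrArg Units.val h3
    refine CfsgLib.TorusSylow.sylow_iso P
      { toFun := fun x => ⟨((fg x : GL (Fin n) F) : Matrix (Fin n) (Fin n) F), hdet x⟩
        map_one' := Subtype.ext (by show ((fg 1 : GL (Fin n) F) : Matrix (Fin n) (Fin n) F) = 1; rw [map_one]; rfl)
        map_mul' := fun x y => Subtype.ext (by
          show ((fg (x * y) : GL (Fin n) F) : Matrix (Fin n) (Fin n) F) = _; rw [map_mul]; rfl) }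
      (fun x y h => (hf.comp hg.comp_left) (Units.ext (congrArg Subtype.val h))) hv

end Cfsg.Agent.S2379
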