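import Cfsg.Statements.S2380
import Cfsg.Agent.TorusSylow.Embed
import Cfsg.Agent.SLn.Card
-- import your own Cfsg.Agent.* helpers here

set_option autoImplicit false
open scoped MatrixGroups
open Cfsg

namespace Cfsg.Agent.S2380

/-- Sylow subgroups of `GL_n(q)` for large primes. Let `F` be a field with `q` elements and `r` a prime with `r > n` and `r ∤ q`. Let `d` be the multiplicative order of `q` modulo `r` and `m` the `r`-part of the value at `q` of the `d`-th cyclotomic polynomial. Then every Sylow `r`-subgroup of `GL_n(q)` is a direct product of `⌊n/d⌋` cyclic groups of order `m` (the degrees of the Weyl group being `1, …, n`). -/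
theorem result {F : Type*} [Field F] [Fintype F] {q : ℕ} (hq : Fintype.card F = q) (n : ℕ)
    (r : ℕ) [Fact r.Prime] (hrn : n < r) (hrq : ¬ r ∣ q) (P : Sylow r (GL (Fin n) F)) :
    Nonempty (↥(P : Subgroup (GL (Fin n) F)) ≃*
      (Fin (n / orderOf (q : ZMod r)) →
        Multiplicative (ZMod (r ^ padicValNat r ((Polynomial.cyclotomic (orderOf (q : ZMod r)) ℤ).eval (q : ℤ)).natAbs)))) := by
  classical
  have hq2 : 2 ≤ q := hq ▸ Fintype.one_lt_card
  have hd := CfsgLib.TorusSylow.orderOf_pos_of_not_dvd hrq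
  rw [CfsgLib.TorusSylow.val_eq_cyclotomic hq2 hrq]
  have hprod : ∏ i ∈ Finset.range n, (q ^ (n - i) - 1) = ∏ i ∈ Finset.Icc 1 n, (q ^ i - 1) :=
    Finset.prod_nbij' (fun i => n - i) (fun i => n - i) (fun i hi => by simp at hi ⊢; omega)
      (fun i hi => by simp at hi ⊢; omega) (fun i hi => by simp at hi ⊢; omega)
      (fun i hi => by simp at hi ⊢; omega) (fun i _ => rfl)
  have hgl : Nat.card (GL (Fin n) F) = q ^ (n * (n - 1) / 2) * ∏ i ∈ Finset.Icc 1 n, (q ^ i - 1) := by
    rw [Matrix.card_GL_field, CfsgLib.SLn.prod_sub_pow_eq, hq, hprod]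
  have hfil : ((Finset.Icc 1 n).filter (fun i => orderOf (q : ZMod r) ∣ i)).card = n / orderOf (q : ZMod r) := by
    rw [← Nat.Ioc_filter_dvd_card_eq_div n (orderOf (q : ZMod r))]
    congr 1
  have hvd : r ^ CfsgLib.TorusSylow.val r q ∣ q ^ orderOf (q : ZMod r) - 1 := pow_padicValNat_dvd
  obtain ⟨K, _, _, f, hf, hcK⟩ := CfsgLib.TorusSylow.exists_gl_hom (F := F) (n := n)
    (Nat.div_mul_le_self n (orderOf (q : ZMod r))) hd
  obtain ⟨c, hc⟩ : ∃ u : Kˣ, orderOf u = r ^ CfsgLib.TorusSylow.val r q := by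
    refine (CfsgLib.TorusSylow.exists_orderOf_of_dvd ?_)
    rw [Nat.card_units, Nat.card_eq_fintype_card, hcK, Nat.card_eq_fintype_card, hq]
    exact hvd
  obtain ⟨g, hg⟩ := CfsgLib.TorusSylow.exists_zmod_hom hc
  refine CfsgLib.TorusSylow.sylow_iso P (f.comp (MonoidHom.compLeft g (Fin (n / orderOf (q : ZMod r)))))
    (hf.comp (hg.comp_left)) ?_
  rw [hgl, CfsgLib.TorusSylow.padic_prod_pow hq2 hrq _ _ (fun i => i) (fun i hi => ⟨(Finset.mem_Icc.mp hi).1,
    fun h => absurd (Nat.le_of_dvd (Finset.mem_Icc.mp hi).1 h) (by have := (Finset.mem_Icc.mp hi).2; omega)⟩), hfil]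

end Cfsg.Agent.S2380
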