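import Cfsg.Statements.S2381
import Cfsg.Agent.TorusSylow.Embed
import Cfsg.Agent.SLn.Card
import Cfsg.Agent.SpGeom.Order
import Cfsg.Agent.S0262
-- import your own Cfsg.Agent.* helpers here

set_option autoImplicit false
open Cfsg

namespace Cfsg.Agent.S2381

/-- Sylow subgroups of `Sp_{2n}(q)` for large primes. Let `F` be a field with `q` elements and `r` an odd prime with `r > n` and `r ∤ q` (so `r` does not divide the order `2^n n!` of the Weyl group). Let `d` be the multiplicative order of `q` modulo `r`, `a` the number of `i` with `1 ≤ i ≤ n` and `d ∣ 2i` (the degrees being `2, 4, …, 2n`), and `m` the `r`-part of the value at `q` of the `d`-th cyclotomic polynomial. Then every Sylow `r`-subgroup of the symplectic group `Sp_{2n}(q)` is a direct product of `a` cyclic groups of order `m`. -/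
theorem result {F : Type*} [Field F] [Fintype F] {q : ℕ} (hq : Fintype.card F = q) (n : ℕ)
    (r : ℕ) [Fact r.Prime] (hr2 : r ≠ 2) (hrn : n < r) (hrq : ¬ r ∣ q) (P : Sylow r ↥(Matrix.symplecticGroup (Fin n) F)) :
    Nonempty (↥(P : Subgroup ↥(Matrix.symplecticGroup (Fin n) F)) ≃*
      (Fin ((Finset.Icc 1 n).filter (fun i => orderOf (q : ZMod r) ∣ 2 * i)).card →
        Multiplicative (ZMod (r ^ padicValNat r ((Polynomial.cyclotomic (orderOf (q : ZMod r)) ℤ).eval (q : ℤ)).natAbs)))) := by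
  classical
  have hq2 : 2 ≤ q := hq ▸ Fintype.one_lt_card
  have hd := CfsgLib.TorusSylow.orderOf_pos_of_not_dvd hrq
  rw [CfsgLib.TorusSylow.val_eq_cyclotomic hq2 hrq]
  have hv : padicValNat r (Nat.card ↥(Matrix.symplecticGroup (Fin n) F)) =
      ((Finset.Icc 1 n).filter (fun i => orderOf (q : ZMod r) ∣ 2 * i)).card * CfsgLib.TorusSylow.val r q := by
    have hprod : ∏ i ∈ Finset.range n, (q ^ (2 * (i + 1)) - 1) = ∏ i ∈ Finset.Icc 1 n, (q ^ (2 * i) - 1) :=
      Finset.prod_nbij' (fun i => i + 1) (fun i => i - 1) (fun i hi => by simp at hi ⊢; omega)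
        (fun i hi => by simp at hi ⊢; omega) (fun i hi => by omega)
        (fun i hi => by simp at hi; omega) (fun i _ => rfl)
    rw [CfsgLib.SpGeom.card_Sp, hq, hprod, CfsgLib.TorusSylow.padic_prod_pow hq2 hrq _ _ (fun i => 2 * i) (fun i hi => ?_)]
    obtain ⟨h1, h2⟩ := Finset.mem_Icc.mp hi
    refine ⟨by omega, fun h => ?_⟩
    rcases (Fact.out : r.Prime).dvd_mul.mp h with h' | h'
    · exact hr2 ((Nat.prime_dvd_prime_iff_eq Fact.out Nat.prime_two).mp h')
    · have := Nat.le_of_dvd (by omega) h'; omega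
  have hvd : r ^ CfsgLib.TorusSylow.val r q ∣ q ^ orderOf (q : ZMod r) - 1 := pow_padicValNat_dvd
  rcases Nat.even_or_odd (orderOf (q : ZMod r)) with ⟨e, he⟩ | hodd
  · have hcard : ((Finset.Icc 1 n).filter (fun i => orderOf (q : ZMod r) ∣ 2 * i)).card = n / e := by
      rw [← Nat.Ioc_filter_dvd_card_eq_div n e]
      congr 1
      ext i
      simp only [Finset.mem_filter, Finset.mem_Icc, Finset.mem_Ioc]
      rw [he, ← two_mul, Nat.mul_dvd_mul_iff_left two_pos]
      omega
    rw [hcard] at hv ⊢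
    obtain ⟨K, _, _, f, hf, hcK⟩ := CfsgLib.TorusSylow.exists_sp_hom (F := F) (n := n)
      (Nat.div_mul_le_self n e) (by omega)
    obtain ⟨p, hp⟩ := CharP.exists K
    haveI := hp
    haveI : Fact p.Prime := ⟨CharP.char_is_prime K p⟩
    obtain ⟨k, hpp, hk⟩ := FiniteField.card K p
    rw [hcK, Nat.card_eq_fintype_card, hq] at hk
    have hrp : r ≠ p := fun h => by
      have h1 : r ∣ q ^ e := by rw [hk, h]; exact dvd_pow_self p k.2.ne'
      exact hrq ((Fact.out : r.Prime).dvd_of_dvd_pow h1)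
    obtain ⟨Q⟩ : Nonempty (Sylow r (Matrix.SpecialLinearGroup (Fin 2) K)) := inferInstance
    haveI := Cfsg.Agent.S0262.result p r hr2 hrp Q
    obtain ⟨c, hc⟩ := CfsgLib.TorusSylow.exists_orderOf_pow Q (v := CfsgLib.TorusSylow.val r q) (by
      rw [CfsgLib.SL2.card_SL2, hcK, Nat.card_eq_fintype_card, hq, ← pow_mul, show e * 2 = orderOf (q : ZMod r) by omega]
      exact dvd_mul_of_dvd_right hvd _)
    obtain ⟨g, hg⟩ := CfsgLib.TorusSylow.exists_zmod_hom hc
    exact CfsgLib.TorusSylow.sylow_iso P (f.comp (MonoidHom.compLeft g (Fin (n / e)))) (hf.comp hg.comp_left) hv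
  · have hcard : ((Finset.Icc 1 n).filter (fun i => orderOf (q : ZMod r) ∣ 2 * i)).card = n / orderOf (q : ZMod r) := by
      rw [← Nat.Ioc_filter_dvd_card_eq_div n (orderOf (q : ZMod r))]
      congr 1
      ext i
      simp only [Finset.mem_filter, Finset.mem_Icc, Finset.mem_Ioc]
      rw [Nat.Coprime.dvd_mul_left hodd.coprime_two_right]
      omega
    rw [hcard] at hv ⊢
    obtain ⟨K, _, _, f, hf, hcK⟩ := CfsgLib.TorusSylow.exists_gl_hom (F := F) (n := n)
      (Nat.div_mul_le_self n (orderOf (q : ZMod r))) hd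
    obtain ⟨f', hf'⟩ := CfsgLib.TorusSylow.exists_gl_sp (F := F) n
    obtain ⟨c, hc⟩ : ∃ u : Kˣ, orderOf u = r ^ CfsgLib.TorusSylow.val r q := by
      refine (CfsgLib.TorusSylow.exists_orderOf_of_dvd ?_)
      rw [Nat.card_units, Nat.card_eq_fintype_card, hcK, Nat.card_eq_fintype_card, hq]
      exact hvd
    obtain ⟨g, hg⟩ := CfsgLib.TorusSylow.exists_zmod_hom hc
    exact CfsgLib.TorusSylow.sylow_iso P (f'.comp (f.comp (MonoidHom.compLeft g (Fin (n / orderOf (q : ZMod r))))))
      (hf'.comp (hf.comp hg.comp_left)) hv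

end Cfsg.Agent.S2381
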