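import Cfsg.Statements.S2382
import Cfsg.Agent.Chev.CurtisRichen.Count

set_option autoImplicit false
open Cfsg

namespace Cfsg.Agent.S2382

open CfsgLib.Chev in
/-- The torus is split of full size when the elementary divisors are prime to `q - 1`. -/
theorem card_torus.{w} {D : Cfsg.Lie.ChevalleyDatum} (C : TorusCert D) (S : Sys.{w} D) (F : Type w) [Field F] [Fintype F]
    (h : ∀ i, (Fintype.card F - 1).gcd (C.d i) = 1) :
    Nat.card (D.diagonalSubgroup F) = (Fintype.card F - 1) ^ D.rank := by
  have := C.card_diagonal S F
  rw [Nat.card_eq_fintype_card (α := F), Finset.prod_eq_one fun i _ => h i, one_mul] at this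
  exact this


/-- Steinberg's count of semisimple classes for the three types whose simply connected and adjoint groups coincide: in the Chevalley group of type G₂, F₄ or E₈ over a field with `q` elements of characteristic `p`, the conjugacy classes of elements of order prime to `p` number exactly `q^l`, `l = 2, 4, 8` the rank. -/
theorem result {F : Type*} [Field F] [Fintype F] {q : ℕ} (hq : Fintype.card F = q) (p : ℕ) [Fact p.Prime] [CharP F p]
    (D : Cfsg.Lie.ChevalleyDatum) (hD : D ∈ [Cfsg.Lie.chevG2, Cfsg.Lie.chevF4, Cfsg.Lie.chevE8]) :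
    Nat.card {c : ConjClasses ↥(D.group F) // ∃ g : ↥(D.group F), ConjClasses.mk g = c ∧ (orderOf g).Coprime p} = q ^ D.rank := by
  obtain ⟨S⟩ := CfsgLib.Chev.exists_sys (D := D) (by
    simp only [List.mem_cons, List.not_mem_nil, or_false] at hD ⊢
    tauto)
  subst hq
  have hH : Nat.card (D.diagonalSubgroup F) = (Fintype.card F - 1) ^ D.rank := by
    simp only [List.mem_cons, List.not_mem_nil, or_false] at hD
    rcases hD with rfl | rfl | rfl
    · exact card_torus CfsgLib.Chev.torG2 S F fun i => by
        rw [show CfsgLib.Chev.torG2.d i = 1 by revert i; decide, Nat.gcd_one_right]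
    · exact card_torus CfsgLib.Chev.torF4 S F fun i => by
        rw [show CfsgLib.Chev.torF4.d i = 1 by revert i; decide, Nat.gcd_one_right]
    · exact card_torus CfsgLib.Chev.torE8 S F fun i => by
        rw [show CfsgLib.Chev.torE8.d i = 1 by revert i; decide, Nat.gcd_one_right]
  rw [← S.card_pRegular_classes F p hH]
  refine Nat.card_congr (Equiv.subtypeEquivRight fun c => exists_congr fun g => and_congr_right fun _ => ?_)
  rw [Nat.coprime_comm, (Fact.out : p.Prime).coprime_iff_not_dvd]

end Cfsg.Agent.S2382
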