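import Cfsg.Statements.S2383
import Cfsg.Agent.Chev.CurtisRichen.Count

set_option autoImplicit false
open Cfsg

namespace Cfsg.Agent.S2383

open CfsgLib.Chev in
/-- The torus is split of full size when the elementary divisors are prime to `q - 1`. -/
theorem card_torus.{w} {D : Cfsg.Lie.ChevalleyDatum} (C : TorusCert D) (S : Sys.{w} D) (F : Type w) [Field F] [Fintype F]
    (h : ∀ i, (Fintype.card F - 1).gcd (C.d i) = 1) :
    Nat.card (D.diagonalSubgroup F) = (Fintype.card F - 1) ^ D.rank := by
  have := C.card_diagonal S F
  rw [Nat.card_eq_fintype_card (α := F), Finset.prod_eq_one fun i _ => h i, one_mul] at this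
  exact this


/-- Steinberg's count of semisimple classes in characteristic 2 for the types B₂, D₄, E₇, where the finite simply connected group has trivial centre and so coincides with the Chevalley group: for the Chevalley group of type B₂, D₄ or E₇ over a field with `q` elements of characteristic 2, the conjugacy classes of elements of odd order number exactly `q^l`, `l` the rank. -/
theorem result {F : Type*} [Field F] [Fintype F] {q : ℕ} (hq : Fintype.card F = q) [CharP F 2]
    (D : Cfsg.Lie.ChevalleyDatum) (hD : D ∈ [Cfsg.Lie.chevB2, Cfsg.Lie.chevD4, Cfsg.Lie.chevE7]) :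
    Nat.card {c : ConjClasses ↥(D.group F) // ∃ g : ↥(D.group F), ConjClasses.mk g = c ∧ Odd (orderOf g)} = q ^ D.rank := by
  obtain ⟨S⟩ := CfsgLib.Chev.exists_sys (D := D) (by
    simp only [List.mem_cons, List.not_mem_nil, or_false] at hD ⊢
    tauto)
  subst hq
  haveI : Fact (Nat.Prime 2) := ⟨Nat.prime_two⟩
  have hodd : ∀ d, d ∣ 2 → (Fintype.card F - 1).gcd d = 1 := fun d hd => by
    refine Nat.Coprime.coprime_dvd_right hd ?_
    rw [Nat.coprime_comm, Nat.prime_two.coprime_iff_not_dvd]
    obtain ⟨n, -, hn⟩ := FiniteField.card F 2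
    have h2 : 2 ∣ Fintype.card F := hn ▸ dvd_pow_self 2 n.pos.ne'
    have := Fintype.one_lt_card (α := F)
    omega
  have hH : Nat.card (D.diagonalSubgroup F) = (Fintype.card F - 1) ^ D.rank := by
    simp only [List.mem_cons, List.not_mem_nil, or_false] at hD
    rcases hD with rfl | rfl | rfl
    · exact card_torus CfsgLib.Chev.torB2 S F fun i => hodd _ (by revert i; decide)
    · exact card_torus CfsgLib.Chev.torD4 S F fun i => hodd _ (by revert i; decide)
    · exact card_torus CfsgLib.Chev.torE7 S F fun i => hodd _ (by revert i; decide)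
  rw [← S.card_pRegular_classes F 2 hH]
  refine Nat.card_congr (Equiv.subtypeEquivRight fun c => exists_congr fun g => and_congr_right fun _ => ?_)
  rw [← Nat.not_even_iff_odd, even_iff_two_dvd]

end Cfsg.Agent.S2383
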