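import Cfsg.Statements.S2569
import Mathlib
import Cfsg.Agent.H29.Semisimple

set_option autoImplicit false
open Cfsg

namespace Cfsg.Agent.S2569

/-- In GL_n over a finite field of characteristic p, the conjugacy class of a semisimple element (an element of order prime to p) under the special linear group is its whole GL-conjugacy class: for every such x and every invertible g there is h of determinant one with h x h⁻¹ = g x g⁻¹. -/
theorem result {F : Type*} [Field F] [Fintype F] {p : ℕ} [Fact p.Prime] [CharP F p] {n : ℕ} (x g : GL (Fin n) F) (hx : (orderOf x).Coprime p) : ∃ h : GL (Fin n) F, (h : Matrix (Fin n) (Fin n) F).det = 1 ∧ h * x * h⁻¹ = g * x * g⁻¹ := by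
  classical
  rcases Nat.eq_zero_or_pos n with rfl | hn
  · exact ⟨1, by simp, Subsingleton.elim _ _⟩
  have hm := H29.Semisimple.exists_pow_unit (F := F) hx
  set a : Module.End F (Fin n → F) := Matrix.toLinAlgEquiv' (x : Matrix (Fin n) (Fin n) F) with ha
  have ham : a ^ orderOf x = 1 := by
    rw [ha, ← map_pow, ← Units.val_pow_eq_pow_val, pow_orderOf_eq_one, Units.val_one, map_one]
  have hgd : (g : Matrix (Fin n) (Fin n) F).det ≠ 0 :=
    ((Matrix.isUnit_iff_isUnit_det _).mp g.isUnit).ne_zero
  obtain ⟨c, hcomm, hdet⟩ := H29.Semisimple.exists_commute_det a hm ham (by simpa using hn)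
    (inv_ne_zero hgd)
  set C := Matrix.toLinAlgEquiv'.symm c with hC
  have hCdet : C.det = (g : Matrix (Fin n) (Fin n) F).det⁻¹ := by
    rw [← LinearMap.det_toLin', ← hdet]
    congr 1
    exact Matrix.toLinAlgEquiv'.apply_symm_apply c
  have hCu : IsUnit C := (Matrix.isUnit_iff_isUnit_det C).mpr (by
    rw [hCdet]; exact (inv_ne_zero hgd).isUnit)
  have hCx : Commute hCu.unit x := by
    refine Units.ext ?_
    show C * (x : Matrix (Fin n) (Fin n) F) = (x : Matrix (Fin n) (Fin n) F) * C
    apply Matrix.toLinAlgEquiv'.injective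
    rw [map_mul, map_mul, hC, AlgEquiv.apply_symm_apply]
    exact hcomm
  refine ⟨g * hCu.unit, ?_, ?_⟩
  · rw [Units.val_mul, Matrix.det_mul, IsUnit.unit_spec, hCdet, mul_inv_cancel₀ hgd]
  · rw [mul_assoc g, hCx.eq]
    group

end Cfsg.Agent.S2569
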