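import Cfsg.Statements.S2388
import Mathlib
import Cfsg.Agent.H29.Semisimple
import Cfsg.Agent.S2569

set_option autoImplicit false
open Cfsg

namespace Cfsg.Agent.S2388

/-- In `SL_n(q)`, `q` a power of the prime `p`, two elements of order prime to `p` with the same characteristic polynomial are conjugate in `SL_n(q)` (not merely in `GL_n`). -/
theorem result {F : Type*} [Field F] [Fintype F] (p : ℕ) [Fact p.Prime] [CharP F p] (n : ℕ)
    (g h : Matrix.SpecialLinearGroup (Fin n) F) (hg : (orderOf g).Coprime p) (hh : (orderOf h).Coprime p)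
    (hc : (g : Matrix (Fin n) (Fin n) F).charpoly = (h : Matrix (Fin n) (Fin n) F).charpoly) : IsConj g h := by
  classical
  set G := Matrix.SpecialLinearGroup.toGL g with hG
  set H := Matrix.SpecialLinearGroup.toGL h with hH
  set m := orderOf g * orderOf h with hmdef
  have hm : (m : F) ≠ 0 := by
    rw [hmdef, Nat.cast_mul]
    exact mul_ne_zero (H29.Semisimple.exists_pow_unit hg) (H29.Semisimple.exists_pow_unit hh)
  set a : Module.End F (Fin n → F) := Matrix.toLinAlgEquiv' (g : Matrix (Fin n) (Fin n) F) with ha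
  set b : Module.End F (Fin n → F) := Matrix.toLinAlgEquiv' (h : Matrix (Fin n) (Fin n) F) with hb
  have ham : a ^ m = 1 := by
    rw [ha, ← map_pow, ← Matrix.SpecialLinearGroup.coe_pow, hmdef, pow_mul, pow_orderOf_eq_one,
      one_pow, Matrix.SpecialLinearGroup.coe_one, map_one]
  have hbm : b ^ m = 1 := by
    rw [hb, ← map_pow, ← Matrix.SpecialLinearGroup.coe_pow, hmdef, mul_comm, pow_mul, pow_orderOf_eq_one,
      one_pow, Matrix.SpecialLinearGroup.coe_one, map_one]
  have hcc : LinearMap.charpoly a = LinearMap.charpoly b := by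
    rw [← LinearMap.charpoly_toMatrix a (Pi.basisFun F (Fin n)),
      ← LinearMap.charpoly_toMatrix b (Pi.basisFun F (Fin n))]
    rw [LinearMap.toMatrix_eq_toMatrix']
    show (LinearMap.toMatrix' (Matrix.toLin' (g : Matrix (Fin n) (Fin n) F))).charpoly =
      (LinearMap.toMatrix' (Matrix.toLin' (h : Matrix (Fin n) (Fin n) F))).charpoly
    rw [LinearMap.toMatrix'_toLin', LinearMap.toMatrix'_toLin', hc]
  obtain ⟨e, he⟩ := H29.Semisimple.similar (Module.finrank F (Fin n → F)) a b hm ham hbm rfl hcc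
  set E := LinearMap.toMatrix' (e : (Fin n → F) →ₗ[F] (Fin n → F)) with hE
  have hEu : IsUnit E := by
    refine ⟨⟨E, LinearMap.toMatrix' (e.symm : (Fin n → F) →ₗ[F] (Fin n → F)), ?_, ?_⟩, rfl⟩
    · rw [hE, ← LinearMap.toMatrix'_comp, e.comp_symm, LinearMap.toMatrix'_id]
    · rw [hE, ← LinearMap.toMatrix'_comp, e.symm_comp, LinearMap.toMatrix'_id]
  have hGH : hEu.unit * G * hEu.unit⁻¹ = H := by
    rw [mul_inv_eq_iff_eq_mul]
    refine Units.ext ?_
    show E * (g : Matrix (Fin n) (Fin n) F) = (h : Matrix (Fin n) (Fin n) F) * E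
    rw [← LinearMap.toMatrix'_toLin' (g : Matrix (Fin n) (Fin n) F),
      ← LinearMap.toMatrix'_toLin' (h : Matrix (Fin n) (Fin n) F), hE, ← LinearMap.toMatrix'_comp,
      ← LinearMap.toMatrix'_comp]
    congr 1
    exact LinearMap.ext he
  obtain ⟨k, hk, hk'⟩ := Cfsg.Agent.S2569.result (p := p) G hEu.unit (by
    rwa [hG, orderOf_injective _ Matrix.SpecialLinearGroup.toGL_injective])
  rw [hGH] at hk'
  obtain ⟨K, hK⟩ : ∃ K : Matrix.SpecialLinearGroup (Fin n) F,
      Matrix.SpecialLinearGroup.toGL K = k := ⟨⟨(k : Matrix (Fin n) (Fin n) F), hk⟩, Units.ext rfl⟩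
  refine isConj_iff.mpr ⟨K, ?_⟩
  apply Matrix.SpecialLinearGroup.toGL_injective
  rw [map_mul, map_mul, map_inv, hK]
  exact hk'

end Cfsg.Agent.S2388
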