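import Cfsg.Statements.S2384
import Mathlib
import Cfsg.Agent.H29.SemisimpleCount
import Cfsg.Agent.S2388

set_option autoImplicit false
open Cfsg

namespace Cfsg.Agent.S2384

/-- In `SL_n(q)`, `q` a power of the prime `p`, the number of conjugacy classes of elements of order prime to `p` (the semisimple classes) is `q^(n-1)`. -/
theorem result {F : Type*} [Field F] [Fintype F] {q : ℕ} (hq : Fintype.card F = q) (p : ℕ) [Fact p.Prime] [CharP F p] (n : ℕ) (hn : 1 ≤ n) :
    Nat.card {c : ConjClasses (Matrix.SpecialLinearGroup (Fin n) F) //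
      ∃ g : Matrix.SpecialLinearGroup (Fin n) F, ConjClasses.mk g = c ∧ (orderOf g).Coprime p} = q ^ (n - 1) := by
  classical
  subst hq
  let Φ : {c : ConjClasses (Matrix.SpecialLinearGroup (Fin n) F) //
      ∃ g : Matrix.SpecialLinearGroup (Fin n) F, ConjClasses.mk g = c ∧ (orderOf g).Coprime p} →
      {c : Fin n → F // c ⟨0, hn⟩ = (-1) ^ n} := fun C =>
    ⟨H29.Semisimple.coeffs (C.2.choose : Matrix (Fin n) (Fin n) F), by
      have h := C.2.choose.2
      rw [Matrix.det_eq_sign_charpoly_coeff, Fintype.card_fin] at h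
      show (Matrix.charpoly (C.2.choose : Matrix (Fin n) (Fin n) F)).coeff 0 = (-1) ^ n
      exact (calc (Matrix.charpoly (C.2.choose : Matrix (Fin n) (Fin n) F)).coeff 0
          = ((-1 : F) ^ n * (-1) ^ n) * (Matrix.charpoly
              (C.2.choose : Matrix (Fin n) (Fin n) F)).coeff 0 := by rw [← mul_pow]; simp
        _ = (-1) ^ n := by rw [mul_assoc, h, mul_one])⟩
  have hΦ : Function.Bijective Φ := by
    constructor
    · intro C D h
      have h' := H29.Semisimple.charpoly_eq_of_coeffs (congrArg Subtype.val h)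
      refine Subtype.ext ?_
      rw [← C.2.choose_spec.1, ← D.2.choose_spec.1, ConjClasses.mk_eq_mk_iff_isConj]
      exact Cfsg.Agent.S2388.result p n _ _ C.2.choose_spec.2 D.2.choose_spec.2 h'
    · rintro ⟨c, hc⟩
      obtain ⟨x, hx, hxc⟩ := H29.Semisimple.exists_coeffs p hn c (by
        rw [hc]; exact pow_ne_zero _ (neg_ne_zero.mpr one_ne_zero))
      have hdet : (x : Matrix (Fin n) (Fin n) F).det = 1 := by
        rw [Matrix.det_eq_sign_charpoly_coeff, Fintype.card_fin,
          show (x : Matrix (Fin n) (Fin n) F).charpoly.coeff 0 = (-1 : F) ^ n from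
            (congrFun hxc ⟨0, hn⟩).trans hc, ← mul_pow]
        simp
      obtain ⟨y, hy⟩ : ∃ y : Matrix.SpecialLinearGroup (Fin n) F,
          (y : Matrix (Fin n) (Fin n) F) = x := ⟨⟨_, hdet⟩, rfl⟩
      have hyo : (orderOf y).Coprime p := by
        rw [← orderOf_injective _ Matrix.SpecialLinearGroup.toGL_injective y,
          show Matrix.SpecialLinearGroup.toGL y = x from Units.ext hy]
        exact hx
      refine ⟨⟨ConjClasses.mk y, y, rfl, hyo⟩, Subtype.ext ?_⟩
      have hex : ∃ g : Matrix.SpecialLinearGroup (Fin n) F,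
          ConjClasses.mk g = ConjClasses.mk y ∧ (orderOf g).Coprime p := ⟨y, rfl, hyo⟩
      have hconj : IsConj (Matrix.SpecialLinearGroup.toGL hex.choose) x := by
        have h := (Matrix.SpecialLinearGroup.toGL (n := Fin n) (R := F)).map_isConj
          (ConjClasses.mk_eq_mk_iff_isConj.mp hex.choose_spec.1)
        rwa [show Matrix.SpecialLinearGroup.toGL y = x from Units.ext hy] at h
      obtain ⟨u, hu⟩ := isConj_iff.mp hconj
      show H29.Semisimple.coeffs (hex.choose : Matrix (Fin n) (Fin n) F) = c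
      rw [← hxc]
      funext i
      simp only [H29.Semisimple.coeffs]
      congr 1
      rw [← hu, Units.val_mul, Units.val_mul, Matrix.charpoly_mul_comm, ← mul_assoc, ← Units.val_mul,
        inv_mul_cancel, Units.val_one, one_mul]
      rfl
  rw [Nat.card_congr (Equiv.ofBijective Φ hΦ)]
  obtain ⟨k, rfl⟩ : ∃ k, n = k + 1 := ⟨n - 1, by omega⟩
  have e : {c : Fin (k + 1) → F // c ⟨0, hn⟩ = (-1) ^ (k + 1)} ≃ (Fin k → F) :=
    { toFun := fun c => Fin.tail c.1
      invFun := fun x => ⟨Fin.cons ((-1 : F) ^ (k + 1)) x, rfl⟩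
      left_inv := fun c => Subtype.ext (by
        show Fin.cons ((-1 : F) ^ (k + 1)) (Fin.tail c.1) = c.1
        exact (congrArg (fun z => Fin.cons z (Fin.tail c.1)) c.2.symm).trans (Fin.cons_self_tail c.1))
      right_inv := fun x => Fin.tail_cons _ _ }
  rw [Nat.card_congr e, Nat.card_fun, Nat.card_eq_fintype_card (α := F)]
  simp

end Cfsg.Agent.S2384
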