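import Cfsg.Statements.S2387
import Mathlib
import Cfsg.Agent.H29.SemisimpleCount

set_option autoImplicit false
open scoped MatrixGroups
open Cfsg

namespace Cfsg.Agent.S2387

/-- In `GL_n(q)` with `n ≥ 1`, `q` a power of the prime `p`, the number of conjugacy classes of elements of order prime to `p` (diagonalisable over the algebraic closure; determined by the characteristic polynomial) is `(q - 1) q^(n-1)`. -/
theorem result {F : Type*} [Field F] [Fintype F] {q : ℕ} (hq : Fintype.card F = q) (p : ℕ) [Fact p.Prime] [CharP F p] (n : ℕ) (hn : 1 ≤ n) :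
    Nat.card {c : ConjClasses (GL (Fin n) F) // ∃ g : GL (Fin n) F, ConjClasses.mk g = c ∧ (orderOf g).Coprime p} = (q - 1) * q ^ (n - 1) := by
  classical
  subst hq
  let Φ : {c : ConjClasses (GL (Fin n) F) // ∃ g : GL (Fin n) F, ConjClasses.mk g = c ∧ (orderOf g).Coprime p} →
      {c : Fin n → F // c ⟨0, hn⟩ ≠ 0} := fun C =>
    ⟨H29.Semisimple.coeffs (C.2.choose : Matrix (Fin n) (Fin n) F), by
      have h := ((Matrix.isUnit_iff_isUnit_det _).mp C.2.choose.isUnit).ne_zero
      rw [Matrix.det_eq_sign_charpoly_coeff] at h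
      exact (mul_ne_zero_iff.mp h).2⟩
  have hΦ : Function.Bijective Φ := by
    constructor
    · intro C D h
      have h' := H29.Semisimple.charpoly_eq_of_coeffs (congrArg Subtype.val h)
      refine Subtype.ext ?_
      rw [← C.2.choose_spec.1, ← D.2.choose_spec.1, ConjClasses.mk_eq_mk_iff_isConj]
      exact H29.Semisimple.gl_conj_of_charpoly _ _ C.2.choose_spec.2 D.2.choose_spec.2 h'
    · rintro ⟨c, hc⟩
      obtain ⟨x, hx, hxc⟩ := H29.Semisimple.exists_coeffs p hn c hc
      refine ⟨⟨ConjClasses.mk x, x, rfl, hx⟩, Subtype.ext ?_⟩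
      have hex : ∃ g : GL (Fin n) F, ConjClasses.mk g = ConjClasses.mk x ∧ (orderOf g).Coprime p := ⟨x, rfl, hx⟩
      obtain ⟨u, hu⟩ := isConj_iff.mp (ConjClasses.mk_eq_mk_iff_isConj.mp hex.choose_spec.1)
      show H29.Semisimple.coeffs (hex.choose : Matrix (Fin n) (Fin n) F) = c
      rw [← hxc]
      funext i
      simp only [H29.Semisimple.coeffs]
      congr 1
      have h := congrArg (fun g : GL (Fin n) F => (g : Matrix (Fin n) (Fin n) F).charpoly) hu
      simp only [Units.val_mul] at h
      rw [Matrix.charpoly_mul_comm, ← mul_assoc, ← Units.val_mul, inv_mul_cancel, Units.val_one, one_mul] at h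
      exact h
  rw [Nat.card_congr (Equiv.ofBijective Φ hΦ)]
  obtain ⟨k, rfl⟩ : ∃ k, n = k + 1 := ⟨n - 1, by omega⟩
  have e : {c : Fin (k + 1) → F // c ⟨0, hn⟩ ≠ 0} ≃ Fˣ × (Fin k → F) :=
    { toFun := fun c => (Units.mk0 (c.1 0) c.2, Fin.tail c.1)
      invFun := fun x => ⟨Fin.cons (x.1 : F) x.2, x.1.ne_zero⟩
      left_inv := fun c => Subtype.ext (Fin.cons_self_tail c.1)
      right_inv := fun x => Prod.ext (Units.ext (by simp)) (funext fun i => by simp [Fin.tail]) }
  rw [Nat.card_congr e, Nat.card_prod, Nat.card_units, Nat.card_fun, Nat.card_eq_fintype_card (α := F)]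
  simp

end Cfsg.Agent.S2387
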