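import Cfsg.Statements.S2390
import Cfsg.Agent.FormConj.SUSemisimple
import Cfsg.Agent.H29.SemisimpleCount
import Cfsg.Agent.Unitary.Basic

set_option autoImplicit false
open Cfsg

namespace Cfsg.Agent.S2390

/-- In the special unitary group `SU_n(q)` (inside `SL_n` over the field with `q²` elements), `q` a power of the prime `p`, two elements of order prime to `p` with the same characteristic polynomial are conjugate in `SU_n(q)`. -/
theorem result {F : Type*} [Field F] [Fintype F] {q : ℕ} (hF : Fintype.card F = q ^ 2) (p : ℕ) [Fact p.Prime] [CharP F p] (n : ℕ)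
    (g h : ↥(Cfsg.SU n F q)) (hg : (orderOf g).Coprime p) (hh : (orderOf h).Coprime p)
    (hc : ((g : Matrix.SpecialLinearGroup (Fin n) F) : Matrix (Fin n) (Fin n) F).charpoly =
      ((h : Matrix.SpecialLinearGroup (Fin n) F) : Matrix (Fin n) (Fin n) F).charpoly) : IsConj g h := by
  classical
  obtain ⟨θ, hq, hθ, hne, -⟩ := CfsgLib.Unitary.exists_conj q hF
  rcases Nat.eq_zero_or_pos n with rfl | hn
  · rw [show g = h from Subtype.ext (Subtype.ext (Subsingleton.elim _ _))]
  set a : Matrix.SpecialLinearGroup (Fin n) F := ↑g with ha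
  set b : Matrix.SpecialLinearGroup (Fin n) F := ↑h with hb
  have hinj : Function.Injective (Matrix.SpecialLinearGroup.toGL : Matrix.SpecialLinearGroup (Fin n) F →* GL (Fin n) F) :=
    Matrix.SpecialLinearGroup.toGL_injective
  have hoa : orderOf (Matrix.SpecialLinearGroup.toGL a) = orderOf g := by
    rw [orderOf_injective _ hinj, ha, Subgroup.orderOf_coe]
  have hob : orderOf (Matrix.SpecialLinearGroup.toGL b) = orderOf h := by
    rw [orderOf_injective _ hinj, hb, Subgroup.orderOf_coe]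
  obtain ⟨c, hconj⟩ := isConj_iff.1 (Cfsg.Agent.H29.Semisimple.gl_conj_of_charpoly (p := p)
    (Matrix.SpecialLinearGroup.toGL a) (Matrix.SpecialLinearGroup.toGL b) (by rw [hoa]; exact hg) (by rw [hob]; exact hh) hc)
  have hPA : (c : Matrix (Fin n) (Fin n) F) * a = (b : Matrix (Fin n) (Fin n) F) * c := by
    have := congrArg (fun z : GL (Fin n) F => (z : Matrix (Fin n) (Fin n) F)) (mul_inv_eq_iff_eq_mul.mp hconj)
    simp only [Units.val_mul] at this
    exact this
  have hA : CfsgLib.FormConj.dag θ (a : Matrix (Fin n) (Fin n) F) * a = 1 := (CfsgLib.Unitary.mem_SU_iff θ q hq hθ a).1 g.2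
  have hB : CfsgLib.FormConj.dag θ (b : Matrix (Fin n) (Fin n) F) * b = 1 := (CfsgLib.Unitary.mem_SU_iff θ q hq hθ b).1 h.2
  obtain ⟨u, hu, huA⟩ := CfsgLib.FormConj.exists_unitary_conj hθ hne hA hB
    ((Matrix.isUnit_iff_isUnit_det _).mp c.isUnit) hPA
  have hdet := congrArg Matrix.det hu
  rw [Matrix.det_mul, CfsgLib.FormConj.det_dag, Matrix.det_one] at hdet
  have hk : ((orderOf g : ℕ) : F) ≠ 0 := fun h0 =>
    (Nat.Prime.coprime_iff_not_dvd (Fact.out : p.Prime)).mp hg.symm ((CharP.cast_eq_zero_iff F p _).mp h0)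
  have hak : (a : Matrix (Fin n) (Fin n) F) ^ orderOf g = 1 := by
    rw [← Matrix.SpecialLinearGroup.coe_pow, ha, ← SubgroupClass.coe_pow, pow_orderOf_eq_one]
    rfl
  obtain ⟨z, hz, hzA, hzd⟩ := CfsgLib.FormConj.Semi.exists_commuting_det hθ hne hn hA hk hak (δ := θ u.det)
    (by rw [hθ, hdet])
  obtain ⟨g', hg'⟩ := CfsgLib.Unitary.exists_SU θ q hq hθ (u * z) (by rw [Matrix.det_mul, hzd, mul_comm, hdet]) (by
    show CfsgLib.FormConj.dag θ (u * z) * (u * z) = 1
    calc CfsgLib.FormConj.dag θ (u * z) * (u * z) =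
          CfsgLib.FormConj.dag θ z * (CfsgLib.FormConj.dag θ u * u) * z := by
          rw [CfsgLib.FormConj.dag_mul]; simp only [Matrix.mul_assoc]
      _ = 1 := by rw [hu, Matrix.mul_one, hz])
  refine isConj_iff.2 ⟨g', mul_inv_eq_iff_eq_mul.2 (Subtype.ext (Subtype.ext ?_))⟩
  show ((g' : Matrix.SpecialLinearGroup (Fin n) F) * a : Matrix.SpecialLinearGroup (Fin n) F).1 =
    (b * (g' : Matrix.SpecialLinearGroup (Fin n) F)).1
  rw [Matrix.SpecialLinearGroup.coe_mul, Matrix.SpecialLinearGroup.coe_mul, hg', Matrix.mul_assoc, hzA,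
    ← Matrix.mul_assoc, huA, Matrix.mul_assoc]

end Cfsg.Agent.S2390
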