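import Cfsg.Statements.S2391
-- import your own Cfsg.Agent.* helpers here

set_option autoImplicit false
open Cfsg

namespace Cfsg.Agent.S2391

/-- A `p`-group acting on a set of order divisible by `p` and fixing `0` fixes another point. -/
theorem fixed_point {p : ℕ} [Fact p.Prime] {G M : Type*} [Group G] [Zero M] [Finite M] (hG : IsPGroup p G)
    (ρ : G → M → M) (h1 : ∀ x, ρ 1 x = x) (hm : ∀ a b x, ρ (a * b) x = ρ a (ρ b x)) (h0 : ∀ a, ρ a 0 = 0)
    (hdvd : p ∣ Nat.card M) : ∃ x : M, (∀ a, ρ a x = x) ∧ x ≠ 0 := by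
  letI : MulAction G M := { smul := ρ, one_smul := h1, mul_smul := hm }
  obtain ⟨x, hx, hne⟩ := hG.exists_fixed_point_of_prime_dvd_card_of_fixed_point _ hdvd (a := (0 : M)) h0
  exact ⟨x, hx, hne.symm⟩

/-- A `p`-subgroup fixes a non-zero element of the quotient by an invariant proper subspace. -/
theorem fixed_outside {F : Type*} [Field F] [Fintype F] (p : ℕ) [Fact p.Prime] [CharP F p] {n : ℕ}
    (U : Subgroup (Matrix.SpecialLinearGroup (Fin n) F)) (hU : IsPGroup p ↥U) (W : Submodule F (Fin n → F))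
    (hW : W ≠ ⊤) (hWU : ∀ u ∈ U, ∀ v ∈ W,
      ((u : Matrix.SpecialLinearGroup (Fin n) F) : Matrix (Fin n) (Fin n) F).mulVec v ∈ W) :
    ∃ v : Fin n → F, (∀ u ∈ U,
      ((u : Matrix.SpecialLinearGroup (Fin n) F) : Matrix (Fin n) (Fin n) F).mulVec v - v ∈ W) ∧ v ∉ W := by
  let ρ : ↥U → ((Fin n → F) ⧸ W) → ((Fin n → F) ⧸ W) := fun u =>
    W.mapQ W (Matrix.mulVecLin ((u : Matrix.SpecialLinearGroup (Fin n) F) : Matrix (Fin n) (Fin n) F)) (hWU _ u.2)
  have hρ1 : ∀ x, ρ 1 x = x := fun x => by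
    obtain ⟨v, rfl⟩ := Submodule.Quotient.mk_surjective _ x
    show Submodule.Quotient.mk _ = _
    congr 1
    show ((1 : Matrix.SpecialLinearGroup (Fin n) F) : Matrix (Fin n) (Fin n) F).mulVec v = v
    rw [Matrix.SpecialLinearGroup.coe_one, Matrix.one_mulVec]
  have hρm : ∀ u w x, ρ (u * w) x = ρ u (ρ w x) := fun u w x => by
    obtain ⟨v, rfl⟩ := Submodule.Quotient.mk_surjective _ x
    show Submodule.Quotient.mk _ = Submodule.Quotient.mk _
    congr 1
    show (((u : Matrix.SpecialLinearGroup (Fin n) F) * w : Matrix.SpecialLinearGroup (Fin n) F) : Matrix (Fin n) (Fin n) F).mulVec v = _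
    rw [Matrix.SpecialLinearGroup.coe_mul, ← Matrix.mulVec_mulVec]
    rfl
  have hdvd : p ∣ Nat.card ((Fin n → F) ⧸ W) := by
    obtain ⟨v, -, hv⟩ := SetLike.exists_of_lt hW.lt_top
    have hv0 : W.mkQ v ≠ 0 := fun h => hv ((Submodule.Quotient.mk_eq_zero W).mp h)
    have hord : addOrderOf (W.mkQ v) = p := by
      refine addOrderOf_eq_prime ?_ hv0
      rw [← map_nsmul, ← Nat.cast_smul_eq_nsmul F, CharP.cast_eq_zero, zero_smul, map_zero]
    exact hord ▸ addOrderOf_dvd_natCard _
  obtain ⟨x, hx, hne⟩ := fixed_point hU ρ hρ1 hρm (fun u => map_zero _) hdvd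
  obtain ⟨v, rfl⟩ := Submodule.Quotient.mk_surjective _ x
  exact ⟨v, fun u hu => (Submodule.Quotient.eq W).mp (hx ⟨u, hu⟩),
    fun h => hne ((Submodule.Quotient.mk_eq_zero W).mpr h)⟩

/-- The Borel–Tits property of `SL_n(q)` in flag form: for a field `F` of characteristic `p` with finitely many elements and a non-trivial `p`-subgroup `U` of `SL_n(F)`, there is a flag `0 = V₀ < V₁ < ⋯ < V_{k+1} = F^n` with at least one proper non-zero member such that every element of the normaliser of `U` maps each `V_i` onto itself and every element of `U` acts trivially on each quotient `V_{i+1}/V_i` (so the normaliser lies in the parabolic subgroup of the flag and `U` in its unipotent radical). -/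
theorem result {F : Type*} [Field F] [Fintype F] (p : ℕ) [Fact p.Prime] [CharP F p] (n : ℕ)
    (U : Subgroup (Matrix.SpecialLinearGroup (Fin n) F)) (hU : IsPGroup p ↥U) (hne : U ≠ ⊥) :
    ∃ (k : ℕ) (V : Fin (k + 2) → Submodule F (Fin n → F)), 1 ≤ k ∧ StrictMono V ∧ V 0 = ⊥ ∧ V (Fin.last (k + 1)) = ⊤ ∧
      (∀ g ∈ Subgroup.normalizer (U : Set (Matrix.SpecialLinearGroup (Fin n) F)), ∀ i, (V i).map (Matrix.mulVecLin (g : Matrix (Fin n) (Fin n) F)) = V i) ∧
      (∀ u ∈ U, ∀ i : Fin (k + 1), ∀ v ∈ V i.succ, (u : Matrix (Fin n) (Fin n) F).mulVec v - v ∈ V (Fin.castSucc i)) := by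
  classical
  let D : ↥U → ((Fin n → F) →ₗ[F] (Fin n → F)) := fun u =>
    Matrix.mulVecLin ((u : Matrix.SpecialLinearGroup (Fin n) F) : Matrix (Fin n) (Fin n) F) - LinearMap.id
  let next : Submodule F (Fin n → F) → Submodule F (Fin n → F) := fun W => ⨅ u : ↥U, W.comap (D u)
  have hnext : ∀ W v, v ∈ next W ↔ ∀ u ∈ U, ((u : Matrix.SpecialLinearGroup (Fin n) F) : Matrix (Fin n) (Fin n) F).mulVec v - v ∈ W := by
    intro W v
    simp [next, D, Submodule.mem_iInf]
  obtain ⟨V, hV0, hVs⟩ : ∃ V : ℕ → Submodule F (Fin n → F), V 0 = ⊥ ∧ ∀ i, V (i + 1) = next (V i) :=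
    ⟨fun i => next^[i] ⊥, rfl, fun i => Function.iterate_succ_apply' next i ⊥⟩
  have hmono : ∀ i, V i ≤ V (i + 1) := by
    intro i
    induction i with
    | zero => rw [hV0]; exact bot_le
    | succ i ih =>
      intro v hv
      rw [hVs i, hnext] at hv
      rw [hVs (i + 1), hnext]
      exact fun u hu => ih (hv u hu)
  have hinv : ∀ g ∈ Subgroup.normalizer (U : Set (Matrix.SpecialLinearGroup (Fin n) F)), ∀ i, ∀ v ∈ V i,
      ((g : Matrix.SpecialLinearGroup (Fin n) F) : Matrix (Fin n) (Fin n) F).mulVec v ∈ V i := by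
    intro g hg i
    induction i with
    | zero => intro v hv; rw [hV0, Submodule.mem_bot] at hv ⊢; rw [hv, Matrix.mulVec_zero]
    | succ i ih =>
      intro v hv
      rw [hVs i, hnext] at hv ⊢
      intro u hu
      have h1 := ih _ (hv (g⁻¹ * u * g) (by simpa using (Subgroup.mem_normalizer_iff.mp (inv_mem hg) u).mp hu))
      rwa [Matrix.mulVec_sub, Matrix.mulVec_mulVec, ← Matrix.SpecialLinearGroup.coe_mul,
        show g * (g⁻¹ * u * g) = u * g by group, Matrix.SpecialLinearGroup.coe_mul, ← Matrix.mulVec_mulVec] at h1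
  have hstrict : ∀ i, V i ≠ ⊤ → V i < V (i + 1) := by
    intro i hi
    refine lt_of_le_of_ne (hmono i) fun heq => ?_
    have hVU : ∀ u ∈ U, ∀ v ∈ V i,
        ((u : Matrix.SpecialLinearGroup (Fin n) F) : Matrix (Fin n) (Fin n) F).mulVec v ∈ V i :=
      fun u hu => hinv u (Subgroup.le_normalizer hu) i
    obtain ⟨v, hv, hvn⟩ := fixed_outside p U hU (V i) hi hVU
    refine hvn ?_
    rw [heq, hVs i, hnext]
    exact hv
  have htop : ∃ i, V i = ⊤ := by
    by_contra hcon
    push Not at hcon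
    haveI : Finite (Submodule F (Fin n → F)) := Finite.of_injective _ SetLike.coe_injective
    exact not_injective_infinite_finite V
      (strictMono_nat_of_lt_succ fun i => hstrict i (hcon i)).injective
  set N := Nat.find htop
  have hN : V N = ⊤ := Nat.find_spec htop
  have hnt : ∃ v : Fin n → F, v ≠ 0 := by
    obtain ⟨u, hu, hu1⟩ := (Subgroup.bot_or_exists_ne_one U).resolve_left hne
    by_contra hcon
    push Not at hcon
    refine hu1 (Subtype.ext (Matrix.ext_iff_mulVec.2 fun v => ?_))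
    rw [hcon v, Matrix.mulVec_zero, Matrix.mulVec_zero]
  have hN2 : 2 ≤ N := by
    by_contra hlt
    have h1 : V 1 = ⊤ := top_le_iff.mp (hN.ge.trans (by
      rcases (show N = 0 ∨ N = 1 by omega) with h | h <;> rw [h]
      exact hmono 0))
    refine hne ((Subgroup.eq_bot_iff_forall U).mpr fun u hu => Subtype.ext (Matrix.ext_iff_mulVec.2 fun v => ?_))
    have hv : v ∈ V 1 := h1 ▸ Submodule.mem_top
    rw [hVs, hnext] at hv
    have := hv u hu
    rw [hV0, Submodule.mem_bot, sub_eq_zero] at this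
    rw [this]
    exact (Matrix.one_mulVec v).symm
  obtain ⟨k, hk⟩ : ∃ k, N = k + 1 := ⟨N - 1, by omega⟩
  refine ⟨k, fun i => V i.val, by omega, ?_, hV0, ?_, ?_, ?_⟩
  · refine Fin.strictMono_iff_lt_succ.mpr fun i => hstrict i.val ?_
    exact Nat.find_min htop (show i.val < N by have := i.isLt; omega)
  · show V (Fin.last (k + 1)).val = ⊤
    rw [Fin.val_last, ← hk]; exact hN
  · intro g hg i
    refine le_antisymm (Submodule.map_le_iff_le_comap.mpr fun v hv => hinv g hg _ v hv) fun v hv => ?_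
    refine ⟨((g⁻¹ : Matrix.SpecialLinearGroup (Fin n) F) : Matrix (Fin n) (Fin n) F).mulVec v, hinv _ (inv_mem hg) _ v hv, ?_⟩
    rw [Matrix.mulVecLin_apply, Matrix.mulVec_mulVec, ← Matrix.SpecialLinearGroup.coe_mul, mul_inv_cancel,
      Matrix.SpecialLinearGroup.coe_one, Matrix.one_mulVec]
  · intro u hu i v hv
    have hv' : v ∈ next (V i.val) := (hVs i.val) ▸ hv
    exact (hnext (V i.val) v).mp hv' u hu

end Cfsg.Agent.S2391
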