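import Cfsg.Statements.S2392
import Cfsg.Agent.MinDegree.SLLower
import Cfsg.Agent.MinDegree.SpCross

set_option autoImplicit false
open Cfsg

namespace Cfsg.Agent.S2392

open Matrix CfsgLib.MinDegree CfsgLib.MinDegree.Mirabolic

/-- A lower bound for representations in cross characteristic: for `n ≥ 3` and a field `F` with `q` elements, every homomorphism from `SL_n(F)` to `GL_d(K)`, `K` a field of characteristic different from that of `F`, whose kernel is central has `d ≥ q^(n-1) - 1`. -/
theorem result {F : Type*} [Field F] [Fintype F] {q : ℕ} (hq : Fintype.card F = q) (n : ℕ) (hn : 3 ≤ n)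
    {K : Type*} [Field K] (hK : ringChar K ≠ ringChar F) {d : ℕ}
    (ρ : Matrix.SpecialLinearGroup (Fin n) F →* GL (Fin d) K) (hker : ρ.ker ≤ Subgroup.center (Matrix.SpecialLinearGroup (Fin n) F)) :
    q ^ (n - 1) - 1 ≤ d := by
  classical
  subst hq
  obtain ⟨m, rfl⟩ : ∃ m, n = m + 1 := ⟨n - 1, by omega⟩
  rw [Nat.add_sub_cancel]
  let L := AlgebraicClosure K
  have hKL : ringChar L ≠ ringChar F := by
    have : CharP L (ringChar K) := charP_of_injective_algebraMap (algebraMap K L).injective (ringChar K)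
    rw [ringChar.eq L (ringChar K)]
    exact hK
  let e : GL (Fin d) K →* Module.End L (Fin d → L) :=
    ((Matrix.toLinAlgEquiv' (R := L) (n := Fin d)).toAlgHom : _ →* _).comp
      ((Units.coeHom _).comp (Matrix.GeneralLinearGroup.map (algebraMap K L)))
  let ρ' : Representation L (Matrix.SpecialLinearGroup (Fin (m + 1)) F) (Fin d → L) := e.comp ρ
  have he : ∀ g, ρ' g = 1 → g ∈ Subgroup.center _ := fun g hg => by
    refine hker (MonoidHom.mem_ker.mpr (Units.ext (Matrix.ext fun i j => (algebraMap K L).injective ?_)))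
    have h1 : ((ρ g).val.map (algebraMap K L)) = (1 : Matrix (Fin d) (Fin d) L) := by
      apply (Matrix.toLinAlgEquiv' (R := L) (n := Fin d)).injective
      rw [map_one]; exact hg
    have := congrFun (congrFun h1 i) j
    simpa [Matrix.one_apply, apply_ite (algebraMap K L)] using this
  let T : (Fin m → F) → Module.End L (Fin d → L) := fun f => ρ' (radSL f)
  have T0 : T 0 = 1 := by
    show ρ' _ = 1
    rw [show radSL (0 : Fin m → F) = 1 from Subtype.ext pmat_one, map_one]
  have Tadd : ∀ f g, T (f + g) = T f * T g := fun f g => by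
    show ρ' _ = ρ' _ * ρ' _
    rw [← map_mul]
    congr 1
    refine Subtype.ext ?_
    show pmat 1 (f + g) 1 = pmat 1 f 1 * pmat 1 g 1
    simp [pmat_mul, add_comm]
  let i0 : Fin m := ⟨0, by omega⟩
  have hne : T (Pi.single i0 1) ≠ 1 := by
    intro h
    obtain ⟨r, -, hr⟩ := Matrix.SpecialLinearGroup.mem_center_iff.mp (he _ h)
    have := congrFun (congrFun hr 0) i0.succ
    simp [radSL, pmat, Matrix.diagonal_apply_ne _ (Fin.succ_ne_zero i0).symm] at this
  have hQ : ((Fintype.card (Fin m → F)) : L) ≠ 0 :=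
    Cross.card_ne_zero hKL fun x => funext fun i => by simp [nsmul_eq_mul]
  obtain ⟨ψ, hψ, hev⟩ := Cross.exists_eigen hQ T T0 Tadd hne
  obtain ⟨θ, hθ⟩ := Cross.exists_addChar (K := L) hKL
  let Ψ : (Fin m → F) → AddChar (Fin m → F) L := fun w =>
    θ.compAddMonoidHom (AddMonoidHom.mk' (fun f => f ⬝ᵥ w) fun a b => add_dotProduct a b w)
  have hΨ : ∀ w f, Ψ w f = θ (f ⬝ᵥ w) := fun w f => rfl
  have hinj : Function.Injective Ψ := by
    intro w w' h
    by_contra hne
    obtain ⟨i, hi⟩ := Function.ne_iff.mp hne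
    refine hθ (DFunLike.ext _ _ fun x => ?_)
    have h1 := DFunLike.congr_fun h (Pi.single i (x / (w i - w' i)))
    rw [hΨ, hΨ, single_dotProduct, single_dotProduct] at h1
    have h2 : x / (w i - w' i) * w i = x + x / (w i - w' i) * w' i := by
      field_simp [sub_ne_zero.mpr hi]
      ring
    rw [h2, AddChar.map_add_eq_mul] at h1
    rw [AddChar.zero_apply]
    exact (mul_eq_right₀ (θ.val_isUnit _).ne_zero).mp h1
  obtain ⟨w₀, hw₀⟩ : ∃ w, Ψ w = ψ := by
    by_contra hno
    push Not at hno
    have h1 := Cross.card_addChar_le (insert ψ (Finset.univ.image Ψ))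
    rw [Finset.card_insert_of_notMem (by simp [hno]), Finset.card_image_of_injective _ hinj, Finset.card_univ] at h1
    omega
  have hw0 : w₀ ≠ 0 := fun e => hψ (by
    rw [← hw₀, e]; ext f; rw [hΨ, dotProduct_zero, AddChar.map_zero_eq_one, AddChar.zero_apply])
  have hall : ∀ φ ∈ (Finset.univ.erase 0).image Ψ, Cross.HasEigenK T φ := by
    intro φ hφ
    obtain ⟨w, hw, rfl⟩ := Finset.mem_image.mp hφ
    have : Nontrivial (Fin m) := Fin.nontrivial_iff_two_le.mpr (by omega)
    obtain ⟨B, hB⟩ := CfsgLib.SLn.exists_smul_eq (Finset.ne_of_mem_erase hw) hw0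
    let A : GL (Fin m) F := Matrix.SpecialLinearGroup.toGL B
    refine hev.comp (fun f => f ᵥ* (A⁻¹).val) (fun f => ?_) (ρ' (leviSL F m A)) (ρ' (leviSL F m A⁻¹)) ?_ ?_
      (fun f => ?_)
    · rw [← hw₀, hΨ, hΨ, ← Matrix.dotProduct_mulVec, ← show A.val *ᵥ w = w₀ from hB, Matrix.mulVec_mulVec,
        ← Units.val_mul, inv_mul_cancel, Units.val_one, Matrix.one_mulVec]
    · rw [← map_mul, ← map_mul, mul_inv_cancel, map_one, map_one]
    · rw [← map_mul, ← map_mul, inv_mul_cancel, map_one, map_one]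
    · show ρ' _ = ρ' _ * ρ' _ * ρ' _
      rw [← map_mul, ← map_mul]
      congr 1
      have hdet : Matrix.GeneralLinearGroup.det A = 1 := Units.ext B.2
      refine Subtype.ext ?_
      show pmat 1 _ 1 = pmat ((Matrix.GeneralLinearGroup.det A)⁻¹ : Fˣ).val 0 A.val * pmat 1 f 1 *
        pmat ((Matrix.GeneralLinearGroup.det A⁻¹)⁻¹ : Fˣ).val 0 (A⁻¹).val
      have h1 : A.val * (A⁻¹).val = 1 := by rw [← Units.val_mul, mul_inv_cancel, Units.val_one]
      simp [map_inv, hdet, pmat_mul, h1]
  have h := Cross.card_le_finrank hQ T _ hall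
  rw [Finset.card_image_of_injective _ hinj, Finset.card_erase_of_mem (Finset.mem_univ _), Finset.card_univ,
    Fintype.card_fun, Fintype.card_fin, Module.finrank_fintype_fun_eq_card, Fintype.card_fin] at h
  exact h

end Cfsg.Agent.S2392
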