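import Cfsg.Statements.S2393
import Cfsg.Agent.MinDegree.SpCross

set_option autoImplicit false
open Cfsg

namespace Cfsg.Agent.S2393

open CfsgLib.MinDegree

/-- A lower bound for representations in cross characteristic: for `n ≥ 2` and a field `F` with `q` elements, `q` odd, every homomorphism from the symplectic group `Sp_{2n}(F)` to `GL_d(K)`, `K` a field of characteristic different from that of `F`, whose kernel is central has `d ≥ q^(n-1)(q-1)/2`. -/
theorem result {F : Type*} [Field F] [Fintype F] {q : ℕ} (hq : Fintype.card F = q) (hodd : Odd q) (n : ℕ) (hn : 2 ≤ n)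
    {K : Type*} [Field K] (hK : ringChar K ≠ ringChar F) {d : ℕ}
    (ρ : ↥(Matrix.symplecticGroup (Fin n) F) →* GL (Fin d) K) (hker : ρ.ker ≤ Subgroup.center ↥(Matrix.symplecticGroup (Fin n) F)) :
    q ^ (n - 1) * (q - 1) / 2 ≤ d := by
  classical
  subst hq
  let L := AlgebraicClosure K
  have hKL : ringChar L ≠ ringChar F := by
    have : CharP L (ringChar K) := charP_of_injective_algebraMap (algebraMap K L).injective (ringChar K)
    rw [ringChar.eq L (ringChar K)]
    exact hK
  let e : GL (Fin d) K →* Module.End L (Fin d → L) :=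
    ((Matrix.toLinAlgEquiv' (R := L) (n := Fin d)).toAlgHom : _ →* _).comp
      ((Units.coeHom _).comp (Matrix.GeneralLinearGroup.map (algebraMap K L)))
  let ρ' : Representation L ↥(Matrix.symplecticGroup (Fin n) F) (Fin d → L) := e.comp ρ
  have he : ∀ g, ρ' g = 1 → g ∈ Subgroup.center _ := fun g hg => by
    refine hker (MonoidHom.mem_ker.mpr (Units.ext (Matrix.ext fun i j => (algebraMap K L).injective ?_)))
    have h1 : ((ρ g).val.map (algebraMap K L)) = (1 : Matrix (Fin d) (Fin d) L) := by
      apply (Matrix.toLinAlgEquiv' (R := L) (n := Fin d)).injective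
      rw [map_one]; exact hg
    have := congrFun (congrFun h1 i) j
    simpa [Matrix.one_apply, apply_ite (algebraMap K L)] using this
  let i0 : Fin n := ⟨0, by omega⟩
  let i1 : Fin n := ⟨1, by omega⟩
  have hS : ρ' (usym (CfsgLib.MinDegree.sq 1 (Pi.single i0 1))) ≠ 1 := by
    intro h
    have : Nontrivial (Fin n) := Fin.nontrivial_iff_two_le.mpr hn
    obtain ⟨A, hA⟩ := CfsgLib.SLn.exists_smul_eq (F := F) (v := (Pi.single i0 1 : Fin n → F))
      (w := Pi.single i1 1) (Pi.single_ne_zero_iff.2 one_ne_zero) (Pi.single_ne_zero_iff.2 one_ne_zero)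
    let A' : GL (Fin n) F := Matrix.SpecialLinearGroup.toGL A
    have hc := Subgroup.mem_center_iff.mp (he _ h) (CfsgLib.WordLaw.toSp F n A')
    have h1 := toSp_usym A' (CfsgLib.MinDegree.sq 1 (Pi.single i0 1))
    rw [hc, mul_assoc, ← map_mul, mul_inv_cancel, map_one, mul_one, congSym_sq,
      show A'.val.mulVec (Pi.single i0 1) = Pi.single i1 1 from hA] at h1
    have h2 := congrArg (fun M : ↥(Matrix.symplecticGroup (Fin n) F) =>
      (M : Matrix (Fin n ⊕ Fin n) (Fin n ⊕ Fin n) F) (Sum.inl i0) (Sum.inr i0)) h1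
    simp [usym, CfsgLib.MinDegree.sq, Matrix.vecMulVec_apply, i0, i1] at h2
  have h := Cross.sp_lower hn hodd hKL ρ' hS
  rw [Module.finrank_fintype_fun_eq_card, Fintype.card_fin] at h
  refine le_trans (Nat.div_le_div_right ?_) h
  obtain ⟨r, rfl⟩ : ∃ r, n = r + 1 := ⟨n - 1, by omega⟩
  have : 1 ≤ Fintype.card F ^ r := Nat.one_le_pow _ _ Fintype.card_pos
  rw [Nat.add_sub_cancel, pow_succ, Nat.mul_sub, mul_one]
  omega

end Cfsg.Agent.S2393
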