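import Cfsg.Statements.S2399
import Cfsg.Agent.Chev.Cover.Central.Data
import Cfsg.Agent.Chev.Cover.Central.Coprime
import Cfsg.Agent.S2395
import Cfsg.Agent.S2397
import Cfsg.Agent.Chev.Cover.Multiplier

set_option autoImplicit false
open scoped MatrixGroups
open Cfsg

namespace Cfsg.Agent.S2399

universe u v

open CfsgLib.Chev in
open scoped commutatorElement in
/-- The finite case. -/
theorem exists_lift_finite {K : Type u} [Field K] [Finite K] {p : ℕ} [Fact p.Prime] [CharP K p]
    {D : Cfsg.Lie.ChevalleyDatum} (S : CfsgLib.Chev.Sys.{u} D) (hg : CfsgLib.Chev.GenOK D)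
    (hC : commutator (D.SteinbergCover K) = ⊤) (e : D.SteinbergCover K ≃* D.SteinbergGroup K)
    (he : ∀ (r : ℕ) (t : K), e (D.scGen K r t) = D.stGen K r t)
    {L : Type v} [Field L] [CharP L p] {n : ℕ}
    (σ : D.SteinbergCover K →* GL (Fin n) L ⧸ Subgroup.center (GL (Fin n) L)) :
    ∃ ψ : D.SteinbergCover K →* GL (Fin n) L,
      (QuotientGroup.mk' (Subgroup.center (GL (Fin n) L))).comp ψ = σ := by
  classical
  set θ := (S.coverLift K).θ
  haveI : Finite (D.SteinbergGroup K) := S.finite_steinberg hg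
  haveI : Finite (D.SteinbergCover K) := Finite.of_equiv _ e.symm.toEquiv
  let π₁ := QuotientGroup.mk' (Subgroup.center (GL (Fin n) L))
  let Γ : Subgroup (D.SteinbergCover K × GL (Fin n) L) :=
    (σ.comp (MonoidHom.fst _ _)).eqLocus (π₁.comp (MonoidHom.snd _ _))
  let ρ : Γ →* D.SteinbergCover K := (MonoidHom.fst _ _).comp Γ.subtype
  have hρs : Function.Surjective ρ := fun x => by
    obtain ⟨g, hg'⟩ := QuotientGroup.mk'_surjective (Subgroup.center (GL (Fin n) L)) (σ x)
    exact ⟨⟨(x, g), hg'.symm⟩, rfl⟩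
  have hsnd : ∀ z : Γ, z ∈ ρ.ker →
      (z : D.SteinbergCover K × GL (Fin n) L).2 ∈ Subgroup.center (GL (Fin n) L) := fun z hz => by
    have h : σ (z : D.SteinbergCover K × GL (Fin n) L).1 = π₁ (z : D.SteinbergCover K × GL (Fin n) L).2 := z.2
    rw [show (z : D.SteinbergCover K × GL (Fin n) L).1 = 1 from hz, map_one] at h
    exact (QuotientGroup.eq_one_iff _).1 h.symm
  have hρc : ρ.ker ≤ Subgroup.center Γ := fun z hz => by
    rw [Subgroup.mem_center_iff]
    intro y
    refine Subtype.ext (Prod.ext ?_ (Subgroup.mem_center_iff.1 (hsnd z hz) _))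
    show (y : D.SteinbergCover K × GL (Fin n) L).1 * (z : D.SteinbergCover K × GL (Fin n) L).1 =
      (z : D.SteinbergCover K × GL (Fin n) L).1 * (y : D.SteinbergCover K × GL (Fin n) L).1
    rw [show (z : D.SteinbergCover K × GL (Fin n) L).1 = 1 from hz, one_mul, mul_one]
  have c : IsCentralOnto ρ := ⟨hρs, hρc⟩
  choose sec hsec using hρs
  haveI : Finite (commutatorSet Γ) := by
    have : commutatorSet Γ ⊆ Set.range fun q : D.SteinbergCover K × D.SteinbergCover K => ⁅sec q.1, sec q.2⁆ := by
      rintro _ ⟨a, b, rfl⟩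
      exact ⟨(ρ a, ρ b), c.comm_eq (hsec _) (hsec _)⟩
    exact ((Set.finite_range _).subset this).to_subtype
  haveI : Finite (commutator Γ) := inferInstance
  let ρ' : commutator Γ →* D.SteinbergCover K := ρ.comp (commutator Γ).subtype
  have hρ's : Function.Surjective ρ' := fun x => by
    have hx : x ∈ (commutator Γ).map ρ := by
      rw [commutator_def, Subgroup.map_commutator, Subgroup.map_top_of_surjective _ c.surj,
        ← commutator_def, hC]
      exact Subgroup.mem_top _
    obtain ⟨d, hd, rfl⟩ := hx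
    exact ⟨⟨d, hd⟩, rfl⟩
  have hθc := (S.coverLift K).θ_ker_le_center hg
  have hcen : (θ.comp ρ').ker ≤ Subgroup.center (commutator Γ) := fun z hz => by
    have h := CfsgLib.Chev.comp_central_of_perfect hρc hC c.surj (z := (z : Γ)) (hθc hz)
    exact Subgroup.mem_center_iff.2 fun y => Subtype.ext (Subgroup.mem_center_iff.1 h y)
  have hθe : (S.stLift K).θ.comp e.toMonoidHom = θ := (S.coverLift K).eq_θ fun r t hr => by
    rw [MonoidHom.comp_apply,
      show e.toMonoidHom ((S.coverLift K).x r t) = (S.stLift K).x r t by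
        rw [S.stLift_x]; exact he r t]
    exact (S.stLift K).θ_x hr t
  have hn : ¬ p ∣ Nat.card (θ.comp ρ').ker := by
    intro hdvd
    obtain ⟨z, hz⟩ := exists_prime_orderOf_dvd_card' p hdvd
    have hzp : ((z : commutator Γ)) ^ p = 1 := by
      rw [← Subgroup.coe_pow, ← hz, pow_orderOf_eq_one]; rfl
    have h1 : e (ρ' z) = 1 := by
      by_contra hne
      have hker : e (ρ' z) ∈ (S.stLift K).θ.ker := by
        rw [MonoidHom.mem_ker]
        have := MonoidHom.mem_ker.1 z.2
        rw [MonoidHom.comp_apply] at this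
        exact (DFunLike.congr_fun hθe _).trans this
      have hpow : (⟨_, hker⟩ : (S.stLift K).θ.ker) ^ p = 1 :=
        Subtype.ext (by rw [Subgroup.coe_pow, Subgroup.coe_one, ← map_pow, ← map_pow, hzp, map_one, map_one])
      have := orderOf_eq_prime hpow fun h => hne (congrArg Subtype.val h)
      exact S.not_dvd_card_ker_stLift (p := p) hg (this ▸ orderOf_dvd_natCard _)
    have h1' : ρ' z = 1 := e.injective (by rw [h1, map_one])
    set g := (((z : commutator Γ) : Γ) : D.SteinbergCover K × GL (Fin n) L).2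
    have hgp : g ^ p = 1 := by
      rw [← Prod.pow_snd, ← Subgroup.coe_pow, ← Subgroup.coe_pow, hzp]; rfl
    have hg1 : g = 1 := by
      cases n with
      | zero => exact Subsingleton.elim _ _
      | succ m =>
        have hmem := hsnd ((z : commutator Γ) : Γ) h1'
        rw [Matrix.GeneralLinearGroup.center_eq_range_scalar] at hmem
        obtain ⟨a, ha⟩ := hmem
        have ha' : Matrix.GeneralLinearGroup.scalar (Fin (m + 1)) a = g := ha
        rw [← ha', ← map_pow] at hgp
        have hap : ((a ^ p : Lˣ) : L) = 1 := by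
          have h := congrArg (fun x : GL (Fin (m + 1)) L => (x : Matrix (Fin (m+1)) (Fin (m+1)) L) 0 0) hgp
          simpa [Matrix.diagonal_pow] using h
        rw [Units.val_pow_eq_pow_val] at hap
        have ha1 : a = 1 := Units.ext (by
          have h := sub_pow_char (a : L) 1 (p := p)
          rw [one_pow, hap, sub_self] at h
          exact sub_eq_zero.1 (pow_eq_zero_iff (Fact.out : p.Prime).ne_zero |>.1 h))
        rw [← ha', ha1, map_one]
    have : (z : commutator Γ) = 1 := Subtype.ext (Subtype.ext (Prod.ext h1' hg1))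
    have hz1 : z = 1 := Subtype.ext this
    rw [hz1, orderOf_one] at hz
    exact (Fact.out : p.Prime).ne_one hz.symm
  obtain ⟨μ, hμ⟩ := S.exists_cover_hom_coprime
    (σ := θ.comp ρ') ((S.coverLift K).θ_surjective.comp hρ's) hcen hn
  have hid : ρ'.comp μ = MonoidHom.id _ :=
    CfsgLib.Chev.hom_eq_of_perfect hC hθc (by rw [MonoidHom.comp_id, ← MonoidHom.comp_assoc]; exact hμ)
  refine ⟨((MonoidHom.snd _ _).comp (Γ.subtype.comp (commutator Γ).subtype)).comp μ,
    MonoidHom.ext fun x => ?_⟩
  have h : σ ((μ x : Γ) : D.SteinbergCover K × GL (Fin n) L).1 =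
      π₁ ((μ x : Γ) : D.SteinbergCover K × GL (Fin n) L).2 := (μ x : Γ).2
  rw [show ((μ x : Γ) : D.SteinbergCover K × GL (Fin n) L).1 = x from DFunLike.congr_fun hid x] at h
  exact h.symm

/-- Projective representations in the natural characteristic lift: for each of the types G₂, B₂, D₄, F₄, E₆, E₇, E₈ over any field `K` (for types B₂ and G₂ the field must have more than two elements — the cases where the Chevalley group is not simple are set aside), every homomorphism from the Chevalley group to `PGL_n(L) = GL_n(L)/Z`, `L` a field of the same characteristic as `K`, lifts uniquely to a homomorphism from the group Δ presented by (R1), (R2) to `GL_n(L)`, compatibly with the projection Δ → Chevalley group sending x̄_r(t) to x_r(t). -/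
theorem result {K : Type*} [Field K] (D : Cfsg.Lie.ChevalleyDatum) (hD : D ∈ [Cfsg.Lie.chevG2, Cfsg.Lie.chevB2, Cfsg.Lie.chevD4, Cfsg.Lie.chevF4, Cfsg.Lie.chevE6, Cfsg.Lie.chevE7, Cfsg.Lie.chevE8]) (hK : D ∈ [Cfsg.Lie.chevB2, Cfsg.Lie.chevG2] → ∃ x : K, x ≠ 0 ∧ x ≠ 1)
    (θ : D.SteinbergCover K →* ↥(D.group K))
    (hθ : ∀ (r : ℕ) (t : K), r < D.nroots → ((θ (D.scGen K r t) : GL D.Idx K) : Matrix D.Idx D.Idx K) = D.x K r t)
    {L : Type*} [Field L] (hL : ringChar L = ringChar K) {n : ℕ}
    (φ : ↥(D.group K) →* GL (Fin n) L ⧸ Subgroup.center (GL (Fin n) L)) :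
    ∃! ψ : D.SteinbergCover K →* GL (Fin n) L, (QuotientGroup.mk' (Subgroup.center (GL (Fin n) L))).comp ψ = φ.comp θ := by
  classical
  have hC := Cfsg.Agent.S2395.result D hD hK
  have hg := CfsgLib.Chev.genOK_of_mem hD
  have hcen : (QuotientGroup.mk' (Subgroup.center (GL (Fin n) L))).ker ≤
      Subgroup.center (GL (Fin n) L) := (QuotientGroup.ker_mk' _).le
  rcases finite_or_infinite K with hfin | hinf
  · obtain ⟨S⟩ := CfsgLib.Chev.exists_sys hD
    obtain ⟨e, he⟩ := Cfsg.Agent.S2397.result (K := K) D hD hK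
    haveI : Fact (ringChar K).Prime := ⟨CharP.char_prime_of_ne_zero K (CharP.ringChar_ne_zero_of_finite K)⟩
    haveI : CharP L (ringChar K) := hL ▸ ringChar.charP L
    obtain ⟨ψ, hψ⟩ := exists_lift_finite (p := ringChar K) S hg hC e he (φ.comp θ)
    exact ⟨ψ, hψ, fun ψ' h' => CfsgLib.Chev.hom_eq_of_perfect hC hcen (h'.trans hψ.symm)⟩
  · obtain ⟨S, C⟩ := CfsgLib.Chev.exists_centralData (F := K) hD
      (by obtain ⟨s, hs⟩ := Infinite.exists_subset_card_eq K 5; exact ⟨s, by omega⟩)
    exact CfsgLib.Chev.exists_unique_lift (S.coverLift K).θ (S.coverLift K).θ_surjective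
      ((S.coverLift K).θ_ker_le_center hg) hC (fun _ _ _ hc => S.exists_cover_hom C hc)
      (QuotientGroup.mk'_surjective _) hcen (φ.comp θ)

end Cfsg.Agent.S2399
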