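import Cfsg.Statements.S2400
import Cfsg.Agent.Chev.Cover.NoCoverB2D4
import Cfsg.Agent.Chev.Cover.NoCoverE6
import Cfsg.Agent.Chev.Cover.NoCoverE7
import Cfsg.Agent.Chev.Cover.Multiplier
import Cfsg.Agent.Chev.SimpleCert
import Cfsg.Agent.Chev.Cover.Perfect
import Cfsg.Agent.Chev.Cover.Cert
-- import your own Cfsg.Agent.* helpers here

set_option autoImplicit false
open Cfsg

namespace Cfsg.Agent.S2400

/-- Over a finite field `K`, the group presented by Steinberg's relators (R1)–(R3) (the universal Chevalley group) of type E₆ or E₇, or of type B₂ or D₄ with `K` of more than two elements, has trivial Schur multiplier: every finite stem extension of it is an isomorphism (Schur multiplier described through stem extensions as in the definitions). Types G₂, F₄ and E₈ are not covered here. -/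
theorem result {K : Type*} [Field K] [Fintype K] (e : Cfsg.Lie.ChevalleyDatum × ℕ)
    (he : e ∈ [(Cfsg.Lie.chevE6, 0), (Cfsg.Lie.chevE7, 0), (Cfsg.Lie.chevB2, 2), (Cfsg.Lie.chevD4, 2)]) (hK : Fintype.card K ≠ e.2) :
    Cfsg.HasCyclicSchurMultiplier (e.1.SteinbergGroup K) 1 := by
  rw [← Nat.card_eq_fintype_card] at hK
  obtain ⟨p, hp⟩ := CharP.exists K
  haveI : Fact p.Prime := ⟨CharP.char_is_prime K p⟩
  have h1 : 1 < Nat.card K := Finite.one_lt_card
  simp only [List.mem_cons, List.not_mem_nil, or_false] at he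
  rcases he with rfl | rfl | rfl | rfl
  · exact CfsgLib.Chev.sysE6.steinberg_multiplier_trivial CfsgLib.Chev.genOK_E6 (CfsgLib.Chev.noPCover_E6 (p := p))
      ((CfsgLib.Chev.sysE6.stLift K).perfect_all' CfsgLib.Chev.genOK_E6 CfsgLib.Chev.perfAll_E6)
  · exact CfsgLib.Chev.sysE7.steinberg_multiplier_trivial CfsgLib.Chev.genOK_E7 (CfsgLib.Chev.noPCover_E7 (p := p))
      ((CfsgLib.Chev.sysE7.stLift K).perfect_all' CfsgLib.Chev.genOK_E7 CfsgLib.Chev.perfAll_E7)
  · have h3 : 3 ≤ Nat.card K := by change Nat.card K ≠ 2 at hK; omega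
    refine CfsgLib.Chev.sysB2.steinberg_multiplier_trivial CfsgLib.Chev.genOK_B2 (CfsgLib.Chev.noPCover_B2 (p := p) h3)
      ((CfsgLib.Chev.sysB2.stLift K).perfect_big' CfsgLib.Chev.genOK_B2 CfsgLib.Chev.perfBig_B2 ?_)
    classical
    haveI := Fintype.ofFinite K
    obtain ⟨a, -, ha⟩ := Finset.exists_mem_notMem_of_card_lt_card (s := ({0, 1} : Finset K)) (t := Finset.univ)
      (lt_of_le_of_lt Finset.card_le_two (by rw [Finset.card_univ, ← Nat.card_eq_fintype_card]; omega))
    simp only [Finset.mem_insert, Finset.mem_singleton, not_or] at ha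
    exact ⟨a, ha⟩
  · have h3 : 3 ≤ Nat.card K := by change Nat.card K ≠ 2 at hK; omega
    exact CfsgLib.Chev.sysD4.steinberg_multiplier_trivial CfsgLib.Chev.genOK_D4 (CfsgLib.Chev.noPCover_D4 (p := p) h3)
      ((CfsgLib.Chev.sysD4.stLift K).perfect_all' CfsgLib.Chev.genOK_D4 CfsgLib.Chev.perfAll_D4)

end Cfsg.Agent.S2400
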