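import Cfsg.Statements.S2404
import Cfsg.Agent.Chev.CurtisRichen.Count

set_option autoImplicit false
open Cfsg

namespace Cfsg.Agent.S2404

open CfsgLib.Chev in
/-- The torus is split of full size when the elementary divisors are prime to `q - 1`. -/
theorem card_torus.{w} {D : Cfsg.Lie.ChevalleyDatum} (C : TorusCert D) (S : Sys.{w} D) (F : Type w) [Field F] [Fintype F]
    (h : ∀ i, (Fintype.card F - 1).gcd (C.d i) = 1) :
    Nat.card (D.diagonalSubgroup F) = (Fintype.card F - 1) ^ D.rank := by
  have := C.card_diagonal S F
  rw [Nat.card_eq_fintype_card (α := F), Finset.prod_eq_one fun i _ => h i, one_mul] at this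
  exact this


/-- Steinberg's count of semisimple classes for type E₆ when the finite simply connected group has trivial centre: over a field with `q` elements of characteristic `p` with `q ≢ 1 (mod 3)`, the simply connected group E₆(q) coincides with the Chevalley group, and the conjugacy classes of elements of order prime to `p` in the Chevalley group of type E₆ number exactly `q^6`. -/
theorem result {F : Type*} [Field F] [Fintype F] {q : ℕ} (hq : Fintype.card F = q) (hq3 : q % 3 ≠ 1) (p : ℕ) [Fact p.Prime] [CharP F p] :
    Nat.card {c : ConjClasses ↥(Cfsg.Lie.chevE6.group F) // ∃ g : ↥(Cfsg.Lie.chevE6.group F), ConjClasses.mk g = c ∧ (orderOf g).Coprime p} = q ^ 6 := by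
  obtain ⟨S⟩ := CfsgLib.Chev.exists_sys (D := Cfsg.Lie.chevE6) (by simp)
  subst hq
  have hH := card_torus CfsgLib.Chev.torE6 S F fun i => by
    have hd : CfsgLib.Chev.torE6.d i ∣ 3 := by revert i; decide
    refine Nat.Coprime.coprime_dvd_right hd ?_
    rw [Nat.coprime_comm, (by norm_num : (3 : ℕ).Prime).coprime_iff_not_dvd]
    have := Fintype.one_lt_card (α := F)
    omega
  rw [show (6 : ℕ) = Cfsg.Lie.chevE6.rank from rfl, ← S.card_pRegular_classes F p hH]
  refine Nat.card_congr (Equiv.subtypeEquivRight fun c => exists_congr fun g => and_congr_right fun _ => ?_)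
  rw [Nat.coprime_comm, (Fact.out : p.Prime).coprime_iff_not_dvd]

end Cfsg.Agent.S2404
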