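import Cfsg.Statements.S2405
import Cfsg.Agent.Chev.TwoGen.Sound
import Cfsg.Agent.Chev.TwoGen.CfgChecks

set_option autoImplicit false
open Cfsg

namespace Cfsg.Agent.S2405

/-- Each Chevalley group of type G₂, B₂, D₄, F₄, E₆, E₇ or E₈ over a finite field is generated by two of its elements (types B₂ and G₂ over the field with two elements, where the group is not simple, excepted). -/
theorem result {F : Type*} [Field F] [Finite F] (D : Cfsg.Lie.ChevalleyDatum) (hD : D ∈ [Cfsg.Lie.chevG2, Cfsg.Lie.chevB2, Cfsg.Lie.chevD4, Cfsg.Lie.chevF4, Cfsg.Lie.chevE6, Cfsg.Lie.chevE7, Cfsg.Lie.chevE8])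
    (hF : D ∈ [Cfsg.Lie.chevB2, Cfsg.Lie.chevG2] → ∃ x : F, x ≠ 0 ∧ x ≠ 1) :
    ∃ a b : ↥(D.group F), Subgroup.closure ({a, b} : Set ↥(D.group F)) = ⊤ := by
  have h3 : D ∈ [Cfsg.Lie.chevB2, Cfsg.Lie.chevG2] → 3 ≤ Nat.card F := fun h => by
    classical
    haveI : Fintype F := Fintype.ofFinite F
    obtain ⟨x, hx0, hx1⟩ := hF h
    rw [Nat.card_eq_fintype_card]
    exact Fintype.two_lt_card_iff.2 ⟨0, 1, x, zero_ne_one, hx0.symm, hx1.symm⟩
  obtain ⟨nD, nE6, nE7, nE8, nF⟩ := CfsgLib.Chev.TwoGen.Cfgs.noSplit_simplyLaced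
  simp only [List.mem_cons, List.not_mem_nil, or_false] at hD
  rcases hD with rfl | rfl | rfl | rfl | rfl | rfl | rfl
  · exact CfsgLib.Chev.TwoGen.exists_two_generators CfsgLib.Chev.DataG2.valid CfsgLib.Chev.TwoGen.Cfgs.okG2
      fun _ => h3 (by simp)
  · exact CfsgLib.Chev.TwoGen.exists_two_generators CfsgLib.Chev.DataB2.valid CfsgLib.Chev.TwoGen.Cfgs.okB2
      fun _ => h3 (by simp)
  · exact CfsgLib.Chev.TwoGen.exists_two_generators CfsgLib.Chev.DataD4.valid CfsgLib.Chev.TwoGen.Cfgs.okD4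
      fun h => by simp [nD] at h
  · exact CfsgLib.Chev.TwoGen.exists_two_generators CfsgLib.Chev.DataF4.valid CfsgLib.Chev.TwoGen.Cfgs.okF4
      fun h => by simp [nF] at h
  · exact CfsgLib.Chev.TwoGen.exists_two_generators CfsgLib.Chev.DataE6.valid CfsgLib.Chev.TwoGen.Cfgs.okE6
      fun h => by simp [nE6] at h
  · exact CfsgLib.Chev.TwoGen.exists_two_generators CfsgLib.Chev.DataE7.valid CfsgLib.Chev.TwoGen.Cfgs.okE7
      fun h => by simp [nE7] at h
  · exact CfsgLib.Chev.TwoGen.exists_two_generators CfsgLib.Chev.DataE8.valid CfsgLib.Chev.TwoGen.Cfgs.okE8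
      fun h => by simp [nE8] at h

end Cfsg.Agent.S2405
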