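import Cfsg.Statements.S2412
import Cfsg.Agent.UTwoGen.CaseTwo

set_option autoImplicit false
open Cfsg

namespace Cfsg.Agent.S2412

/-- The projective special unitary group `PSU_n(q)` with `n ≥ 3`, realised over the field with `q²` elements, `(n, q) ≠ (3, 2)`, is generated by two of its elements. -/
theorem result {F : Type*} [Field F] [Fintype F] {q : ℕ} (hq : IsPrimePow q) (hF : Fintype.card F = q ^ 2) (n : ℕ) (hn : 3 ≤ n) (h32 : n = 3 → q ≠ 2) :
    ∃ a b : Cfsg.PSU n F q, Subgroup.closure ({a, b} : Set (Cfsg.PSU n F q)) = ⊤ := by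
  classical
  obtain ⟨C⟩ := CfsgLib.UGeom.nonempty_conj hF
  obtain ⟨x, y, hxy⟩ : ∃ x y : Cfsg.SU n F q,
      Subgroup.closure ({x, y} : Set (Cfsg.SU n F q)) = ⊤ := by
    rcases Nat.even_or_odd n with ⟨m, hm⟩ | ⟨m, hm⟩
    · obtain ⟨k, rfl⟩ : ∃ k, m = k + 2 := ⟨m - 2, by omega⟩
      obtain ⟨D⟩ := CfsgLib.UTwoGen.nonempty_frame (k := k) (r := 2) C (n := n) (by omega)
      by_cases h2 : q = 2
      · exact CfsgLib.UTwoGen.two_gen_even C (by omega) h2 D
      · exact CfsgLib.UTwoGen.two_gen_large C hn (by have := C.two_le; omega) le_rfl D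
    · obtain ⟨k, rfl⟩ : ∃ k, m = k + 1 := ⟨m - 1, by omega⟩
      obtain ⟨D⟩ := CfsgLib.UTwoGen.nonempty_frame (k := k) (r := 1) C (n := n) (by omega)
      by_cases h2 : q = 2
      · have hn3 : n ≠ 3 := fun e => h32 e h2
        exact CfsgLib.UTwoGen.two_gen_odd C hn h2 (by omega) hn3 D
      · exact CfsgLib.UTwoGen.two_gen_large C hn (by have := C.two_le; omega) (Nat.zero_le 1) D
  refine ⟨QuotientGroup.mk' _ x, QuotientGroup.mk' _ y, ?_⟩
  rw [← Set.image_pair, ← MonoidHom.map_closure, hxy, ← MonoidHom.range_eq_map,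
    MonoidHom.range_eq_top]
  exact QuotientGroup.mk'_surjective _

end Cfsg.Agent.S2412
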