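import Cfsg.Statements.S2413
import Cfsg.Agent.OrthTwoGen.Main
import Cfsg.Agent.S0301
import Cfsg.Agent.S2411

set_option autoImplicit false
open Cfsg

namespace Cfsg.Agent.S2413

/-- The simple orthogonal group `PΩ_{2m+1}(q)` (commutator subgroup of the orthogonal group of `x₀² + Σ x_i y_i` modulo its centre) with `m ≥ 2` and `q` odd is generated by two of its elements. -/
theorem result {F : Type*} [Field F] [Fintype F] (hodd : Odd (Fintype.card F)) (m : ℕ) (hm : 2 ≤ m) :
    ∃ a b : Cfsg.POmega F (Cfsg.quadFormOdd m F), Subgroup.closure ({a, b} : Set (Cfsg.POmega F (Cfsg.quadFormOdd m F))) = ⊤ := by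
  classical
  have h2 : (2 : F) ≠ 0 := CfsgLib.OrthOrder.two_ne_zero_of_odd hodd
  rcases Nat.lt_or_ge m 3 with h3 | h3
  · obtain rfl : m = 2 := by omega
    obtain ⟨e⟩ := Cfsg.Agent.S0301.result hodd
    obtain ⟨a, b, hab⟩ := Cfsg.Agent.S2411.result (F := F) 2 le_rfl (fun _ => by
      have := Fintype.one_lt_card (α := F)
      obtain ⟨c, hc⟩ := hodd
      omega)
    refine ⟨e.symm a, e.symm b, ?_⟩
    rw [← Set.image_pair, ← MulEquiv.coe_toMonoidHom, ← MonoidHom.map_closure, hab,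
      Subgroup.map_top_of_surjective _ e.symm.surjective]
  · obtain ⟨k, rfl⟩ : ∃ k, m = k + 3 := ⟨m - 3, by omega⟩
    rw [← CfsgLib.Forms.coe_quadOdd]
    exact CfsgLib.OrthTwoGen.omega_two_gen (CfsgLib.Forms.nondegenerate_quadOdd _ h2)
      (by simp; omega) (CfsgLib.OrthTwoGen.frameOdd h2 k)

end Cfsg.Agent.S2413
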