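import Cfsg.Statements.S2415
import Cfsg.Agent.OrthTwoGen.Main

set_option autoImplicit false
open Cfsg

namespace Cfsg.Agent.S2415

/-- The simple orthogonal group `PΩ⁻_{2m}(q)` with `m ≥ 4` (commutator subgroup, modulo its centre, of the orthogonal group of `Σ_{i<m−1} x_i y_i + z₁² + a z₁z₂ + b z₂²` with the binary part anisotropic) is generated by two of its elements. -/
theorem result {F : Type*} [Field F] [Fintype F] (m : ℕ) (hm : 4 ≤ m) (a b : F)
    (hab : ∀ z₁ z₂ : F, z₁ ^ 2 + a * z₁ * z₂ + b * z₂ ^ 2 = 0 → z₁ = 0 ∧ z₂ = 0) :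
    ∃ g h : Cfsg.POmega F (Cfsg.quadFormMinus (m - 1) F a b),
      Subgroup.closure ({g, h} : Set (Cfsg.POmega F (Cfsg.quadFormMinus (m - 1) F a b))) = ⊤ := by
  classical
  obtain ⟨k, rfl⟩ : ∃ k, m = k + 4 := ⟨m - 4, by omega⟩
  rw [show k + 4 - 1 = k + 3 by omega, ← CfsgLib.Forms.coe_quadMinus]
  have hc : 2 * (if a ≠ 0 then 0 else 1 : F) + a ≠ 0 := by
    by_cases ha : a = 0
    · subst ha
      simp only [ne_eq, not_true_eq_false, if_false, mul_one, add_zero]
      intro h2
      haveI : CharP F 2 := CharTwo.of_one_ne_zero_of_two_eq_zero one_ne_zero h2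
      obtain ⟨c, rfl⟩ : IsSquare b := FiniteField.isSquare_of_char_two (ringChar.eq F 2) b
      exact one_ne_zero (hab c 1 (by linear_combination (c ^ 2) * h2)).2
    · simp [ha]
  exact CfsgLib.OrthTwoGen.omega_two_gen (CfsgLib.Forms.nondegenerate_quadMinus _ hab)
    (by simp; omega) (CfsgLib.OrthTwoGen.frameMinus k a b _ hc)

end Cfsg.Agent.S2415
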