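import Cfsg.Statements.S2416
import Cfsg.Agent.Chev.GenByRoot
-- import your own Cfsg.Agent.* helpers here

set_option autoImplicit false
open scoped MatrixGroups
open Cfsg

namespace Cfsg.Agent.S2416

/-- A Chevalley group of type G₂, B₂, D₄, F₄, E₆, E₇ or E₈ over a finite field lies in (indeed equals) the subgroup generated by its monomial subgroup `N` and a single fundamental root subgroup `X_p`, where `p` is a short fundamental root if there are two root lengths (any fundamental root otherwise), provided the characteristic is not 2 for types B₂, F₄ and not 3 for type G₂ (and the field has more than two elements for B₂, G₂). -/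
theorem result {K : Type*} [Field K] [Finite K] (D : Cfsg.Lie.ChevalleyDatum) (hD : D ∈ [Cfsg.Lie.chevG2, Cfsg.Lie.chevB2, Cfsg.Lie.chevD4, Cfsg.Lie.chevF4, Cfsg.Lie.chevE6, Cfsg.Lie.chevE7, Cfsg.Lie.chevE8])
    (hK : D ∈ [Cfsg.Lie.chevB2, Cfsg.Lie.chevG2] → ∃ x : K, x ≠ 0 ∧ x ≠ 1)
    (h2 : D ∈ [Cfsg.Lie.chevB2, Cfsg.Lie.chevF4] → ringChar K ≠ 2) (h3 : D = Cfsg.Lie.chevG2 → ringChar K ≠ 3)
    (i : ℕ) (hi : i < D.rank) (hshort : D.isLong (D.simple i) = false) :
    D.group K ≤ D.monomialSubgroup K ⊔ D.rootSubgroup K (D.simple i) := by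
  obtain ⟨S⟩ := CfsgLib.Chev.exists_sys hD
  have hle : ∀ j ∈ [i], j < D.rank →
      D.rootSubgroup K (D.simple j) ≤ D.monomialSubgroup K ⊔ D.rootSubgroup K (D.simple i) := by
    intro j hj _
    rw [List.mem_singleton.1 hj]
    exact le_sup_right
  have two : ringChar K ≠ 2 → ∀ k ∈ [2], ((k : ℕ) : K) ≠ 0 := fun h k hk => by
    rw [List.mem_singleton.1 hk]
    exact_mod_cast Ring.two_ne_zero h
  have three : ringChar K ≠ 3 → ∀ k ∈ [3], ((k : ℕ) : K) ≠ 0 := fun h k hk h0 => by
    rw [List.mem_singleton.1 hk] at h0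
    rcases (Nat.dvd_prime Nat.prime_three).1 (ringChar.dvd h0) with e | e
    · exact CharP.ringChar_ne_one e
    · exact h e
  simp only [List.mem_cons, List.not_mem_nil, or_false] at hD
  have mono : D.monomialSubgroup K ≤ D.monomialSubgroup K ⊔ D.rootSubgroup K (D.simple i) := le_sup_left
  rcases hD with rfl | rfl | rfl | rfl | rfl | rfl | rfl
  · have h := List.all_eq_true.1 CfsgLib.Chev.shortFull_G2 i (List.mem_range.2 hi)
    rw [hshort, Bool.false_or] at h
    exact S.group_le_of_genFull h (three (h3 rfl)) mono hle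
  · have h := List.all_eq_true.1 CfsgLib.Chev.shortFull_B2 i (List.mem_range.2 hi)
    rw [hshort, Bool.false_or] at h
    exact S.group_le_of_genFull h (two (h2 (by simp))) mono hle
  · exact S.group_le_of_genFull (List.all_eq_true.1 CfsgLib.Chev.anyFull_D4 i (List.mem_range.2 hi)) (by simp) mono hle
  · have h := List.all_eq_true.1 CfsgLib.Chev.shortFull_F4 i (List.mem_range.2 hi)
    rw [hshort, Bool.false_or] at h
    exact S.group_le_of_genFull h (two (h2 (by simp))) mono hle
  · exact S.group_le_of_genFull (List.all_eq_true.1 CfsgLib.Chev.anyFull_E6 i (List.mem_range.2 hi)) (by simp) mono hle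
  · exact S.group_le_of_genFull (List.all_eq_true.1 CfsgLib.Chev.anyFull_E7 i (List.mem_range.2 hi)) (by simp) mono hle
  · exact S.group_le_of_genFull (List.all_eq_true.1 CfsgLib.Chev.anyFull_E8 i (List.mem_range.2 hi)) (by simp) mono hle

end Cfsg.Agent.S2416
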