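import Cfsg.Statements.S2417
import Cfsg.Agent.Chev.GenByRoot
-- import your own Cfsg.Agent.* helpers here

set_option autoImplicit false
open scoped MatrixGroups
open Cfsg

namespace Cfsg.Agent.S2417

/-- In the characteristics with an exceptional graph symmetry — type B₂ or F₄ in characteristic 2 (field of more than two elements for B₂) and type G₂ in characteristic 3 — the Chevalley group lies in the subgroup generated by its monomial subgroup `N` and the two fundamental root subgroups `X_a`, `X_b` of a short root `a` and a long root `b` joined in the Dynkin diagram. -/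
theorem result {K : Type*} [Field K] [Finite K] (e : Cfsg.Lie.ChevalleyDatum × ℕ)
    (he : e ∈ [(Cfsg.Lie.chevB2, 2), (Cfsg.Lie.chevF4, 2), (Cfsg.Lie.chevG2, 3)]) [CharP K e.2]
    (hK : e.1 = Cfsg.Lie.chevB2 → ∃ x : K, x ≠ 0 ∧ x ≠ 1)
    (i j : ℕ) (hi : i < e.1.rank) (hj : j < e.1.rank) (hshort : e.1.isLong (e.1.simple i) = false)
    (hlong : e.1.isLong (e.1.simple j) = true) (hbond : e.1.bonds i j ≠ 0) :
    e.1.group K ≤ e.1.monomialSubgroup K ⊔ e.1.rootSubgroup K (e.1.simple i) ⊔ e.1.rootSubgroup K (e.1.simple j) := by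
  obtain ⟨D, p⟩ := e
  simp only [List.mem_cons, List.not_mem_nil, or_false, Prod.mk.injEq] at he
  have hle : ∀ k ∈ [i, j], k < D.rank →
      D.rootSubgroup K (D.simple k) ≤
        D.monomialSubgroup K ⊔ D.rootSubgroup K (D.simple i) ⊔ D.rootSubgroup K (D.simple j) := by
    intro k hk _
    simp only [List.mem_cons, List.not_mem_nil, or_false] at hk
    rcases hk with rfl | rfl
    exacts [le_sup_of_le_left le_sup_right, le_sup_right]
  have key : ∀ (S : CfsgLib.Chev.Sys D), CfsgLib.Chev.pairFull D = true →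
      D.group K ≤ D.monomialSubgroup K ⊔ D.rootSubgroup K (D.simple i) ⊔ D.rootSubgroup K (D.simple j) := by
    intro S h
    have h' := List.all_eq_true.1 (List.all_eq_true.1 h i (List.mem_range.2 hi)) j (List.mem_range.2 hj)
    rw [hshort, hlong, Bool.not_true, Bool.false_or, Bool.false_or] at h'
    exact S.group_le_of_genFull h' (by simp) (le_sup_of_le_left le_sup_left) hle
  rcases he with ⟨rfl, rfl⟩ | ⟨rfl, rfl⟩ | ⟨rfl, rfl⟩
  · exact key CfsgLib.Chev.sysB2 CfsgLib.Chev.pairFull_B2
  · exact key CfsgLib.Chev.sysF4 CfsgLib.Chev.pairFull_F4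
  · exact key CfsgLib.Chev.sysG2 CfsgLib.Chev.pairFull_G2

end Cfsg.Agent.S2417
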