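import Cfsg.Statements.S2419
import Mathlib
import Cfsg.Agent.H29.CoxGen

set_option autoImplicit false
open Cfsg

namespace Cfsg.Agent.S2419

/-- The Coxeter groups of types B₂, G₂, E₆, E₇, E₈ are generated by the Coxeter element `s₁ s₂ ⋯ s_l` together with one suitable reflection (a conjugate of a simple reflection); for types D₄ and F₄ the Coxeter element together with two suitable reflections suffices. -/
theorem result (c : (Σ n : ℕ, CoxeterMatrix (Fin n)) × ℕ)
    (hc : c ∈ [(⟨2, CoxeterMatrix.B 2⟩, 1), (⟨2, CoxeterMatrix.G₂⟩, 1), (⟨4, Cfsg.Lie.coxeterD4⟩, 2), (⟨4, CoxeterMatrix.F₄⟩, 2),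
      (⟨6, CoxeterMatrix.E₆⟩, 1), (⟨7, CoxeterMatrix.E₇⟩, 1), (⟨8, CoxeterMatrix.E₈⟩, 1)]) :
    ∃ T : Finset c.1.2.Group, T.card = c.2 ∧ (∀ t ∈ T, ∃ (g : c.1.2.Group) (i : Fin c.1.1), t = g * c.1.2.simple i * g⁻¹) ∧
      Subgroup.closure (({((List.finRange c.1.1).map c.1.2.simple).prod} : Set c.1.2.Group) ∪ ↑T) = ⊤ := by
  have sys : ∀ {n : ℕ} (M : CoxeterMatrix (Fin n)),
      (∀ i, M.simple i * M.simple i = 1) ∧ (∀ i j, (M.simple i * M.simple j) ^ M i j = 1) ∧
      (∀ H : Subgroup M.Group, (∀ i, M.simple i ∈ H) → H = ⊤) := by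
    intro n M
    refine ⟨fun i => M.toCoxeterSystem.simple_mul_simple_self i,
      fun i j => M.toCoxeterSystem.simple_mul_simple_pow i j, fun H h => ?_⟩
    rw [eq_top_iff, ← M.toCoxeterSystem.subgroup_closure_range_simple, Subgroup.closure_le]
    rintro _ ⟨i, rfl⟩
    exact h i
  have triv : ∀ {n : ℕ} (M : CoxeterMatrix (Fin n)) (t : Fin n) (i : Fin n),
      M.simple t = 1 * M.simple t * 1⁻¹ := fun M t i => by simp
  have mkone : ∀ {n : ℕ} (M : CoxeterMatrix (Fin n)) (t : Fin n),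
      (∀ H : Subgroup M.Group, ((List.finRange n).map M.simple).prod ∈ H → M.simple t ∈ H →
        ∀ i, M.simple i ∈ H) →
      ∃ T : Finset M.Group, T.card = 1 ∧ (∀ x ∈ T, ∃ (g : M.Group) (i : Fin n), x = g * M.simple i * g⁻¹) ∧
        Subgroup.closure (({((List.finRange n).map M.simple).prod} : Set M.Group) ∪ ↑T) = ⊤ := by
    intro n M t h
    refine ⟨{M.simple t}, Finset.card_singleton _, fun x hx => ⟨1, t, ?_⟩, (sys M).2.2 _ ?_⟩
    · rw [Finset.mem_singleton.mp hx]; simp
    · exact h _ (Subgroup.subset_closure (by simp)) (Subgroup.subset_closure (by simp))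
  have mktwo : ∀ {n : ℕ} (M : CoxeterMatrix (Fin n)) (t u : Fin n), M.simple t ≠ M.simple u →
      (∀ H : Subgroup M.Group, ((List.finRange n).map M.simple).prod ∈ H → M.simple t ∈ H →
        M.simple u ∈ H → ∀ i, M.simple i ∈ H) →
      ∃ T : Finset M.Group, T.card = 2 ∧ (∀ x ∈ T, ∃ (g : M.Group) (i : Fin n), x = g * M.simple i * g⁻¹) ∧
        Subgroup.closure (({((List.finRange n).map M.simple).prod} : Set M.Group) ∪ ↑T) = ⊤ := by
    intro n M t u htu h
    classical
    refine ⟨{M.simple t, M.simple u}, Finset.card_pair htu, fun x hx => ?_, (sys M).2.2 _ ?_⟩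
    · rcases Finset.mem_insert.mp hx with rfl | hx
      · exact ⟨1, t, by simp⟩
      · exact ⟨1, u, by rw [Finset.mem_singleton.mp hx]; simp⟩
    · exact h _ (Subgroup.subset_closure (by simp)) (Subgroup.subset_closure (by simp))
        (Subgroup.subset_closure (by simp))
  have rank2 : ∀ (M : CoxeterMatrix (Fin 2)) (H : Subgroup M.Group),
      ((List.finRange 2).map M.simple).prod ∈ H → M.simple 0 ∈ H → ∀ i, M.simple i ∈ H := by
    intro M H hc h0 i
    have : M.simple 1 ∈ H := by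
      have := mul_mem h0 hc
      rw [show List.finRange 2 = [0, 1] by decide] at this
      simp only [List.map_cons, List.map_nil, List.prod_cons, List.prod_nil, mul_one] at this
      rwa [← mul_assoc, (sys M).1, one_mul] at this
    fin_cases i
    · exact h0
    · exact this
  have rankE : ∀ {n : ℕ} (hn : 4 ≤ n) (M : CoxeterMatrix (Fin n)),
      (∀ i j : Fin n, M i j = if (i : ℕ) = j then 1 else
        if ((i : ℕ), (j : ℕ)) ∈ [(0, 2), (2, 0), (1, 3), (3, 1)] ∨
          (2 ≤ (i : ℕ) ∧ 2 ≤ (j : ℕ) ∧ ((i : ℕ) + 1 = j ∨ (j : ℕ) + 1 = i)) then 3 else 2) →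
      ∀ H : Subgroup M.Group, ((List.finRange n).map M.simple).prod ∈ H →
        M.simple ⟨3, by omega⟩ ∈ H → ∀ i, M.simple i ∈ H := by
    intro n hn M hM H hc h3
    obtain ⟨hsq, hrel, -⟩ := sys M
    have hcom : ∀ i j : Fin n, M i j = 2 → Commute (M.simple i) (M.simple j) := fun i j h =>
      H29.CoxGen.comm_of_two (hsq i) (hsq j) (h ▸ hrel i j)
    have hupper : ∀ m, ∀ hm : 3 + m < n, M.simple ⟨3 + m, hm⟩ ∈ H := by
      intro m
      induction m with
      | zero => intro _; exact h3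
      | succ m ih =>
        intro hm
        have e := H29.CoxGen.shift_finRange M.simple hsq (3 + m) (by omega)
          (by
            have := hrel ⟨3 + m, by omega⟩ ⟨3 + m + 1, by omega⟩
            rwa [hM, if_neg (by simp), if_pos (Or.inr ⟨by simp; omega, by simp; omega, Or.inl rfl⟩)] at this)
          (fun j hj => hcom _ _ (by
            rw [hM, if_neg (by simp; omega), if_neg (by simp; omega)]))
          (fun j hj => hcom _ _ (by
            rw [hM, if_neg (by simp; omega), if_neg (by simp; omega)]))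
        have := mul_mem (mul_mem hc (ih (by omega))) (inv_mem hc)
        rwa [e] at this
    obtain ⟨m, rfl⟩ : ∃ m, n = m + 3 := ⟨n - 3, by omega⟩
    rw [List.finRange_succ, List.finRange_succ, List.finRange_succ] at hc
    simp only [List.map_cons, List.map_map, List.prod_cons] at hc
    have hP : ((List.finRange m).map (M.simple ∘ Fin.succ ∘ Fin.succ ∘ Fin.succ)).prod ∈ H := by
      refine list_prod_mem fun x hx => ?_
      obtain ⟨i, -, rfl⟩ := List.mem_map.mp hx
      have := hupper (i : ℕ) (by have := i.isLt; omega)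
      show M.simple (Fin.succ (Fin.succ (Fin.succ i))) ∈ H
      have e : (Fin.succ (Fin.succ (Fin.succ i)) : Fin (m + 3)) = ⟨3 + (i : ℕ), by have := i.isLt; omega⟩ :=
        Fin.ext (by simp only [Fin.val_succ]; omega)
      rw [e]; exact this
    have hval : ∀ (i j : Fin (m + 3)) (a b : ℕ), (i : ℕ) = a → (j : ℕ) = b →
        M i j = if a = b then 1 else
          if (a, b) ∈ [(0, 2), (2, 0), (1, 3), (3, 1)] ∨
            (2 ≤ a ∧ 2 ≤ b ∧ (a + 1 = b ∨ b + 1 = a)) then 3 else 2 := by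
      rintro i j a b rfl rfl; exact hM i j
    let i0 : Fin (m + 3) := ⟨0, by omega⟩
    let i1 : Fin (m + 3) := ⟨1, by omega⟩
    let i2 : Fin (m + 3) := ⟨2, by omega⟩
    obtain ⟨h0, h1, h2⟩ := H29.CoxGen.typeE (hsq i0) (hsq i1) (hsq i2)
      (hsq ⟨3, by omega⟩) (hcom _ _ ((hval i0 i1 0 1 rfl rfl).trans (by simp)))
      (hcom _ _ ((hval i1 i2 1 2 rfl rfl).trans (by simp)))
      (hcom _ _ ((hval i0 ⟨3, by omega⟩ 0 3 rfl rfl).trans (by simp)))
      (by have := hrel i0 i2; rwa [(hval i0 i2 0 2 rfl rfl).trans (if_neg (by simp)), if_pos (by simp)] at this)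
      (by have := hrel i2 ⟨3, by omega⟩; rwa [(hval i2 ⟨3, by omega⟩ 2 3 rfl rfl).trans (if_neg (by simp)), if_pos (by simp)] at this)
      hc hP h3
    intro i
    obtain hi | hi | hi | ⟨j, hj⟩ : (i : ℕ) = 0 ∨ (i : ℕ) = 1 ∨ (i : ℕ) = 2 ∨ ∃ j, (i : ℕ) = 3 + j := by
      rcases Nat.lt_or_ge (i : ℕ) 3 with h | h
      · omega
      · exact Or.inr (Or.inr (Or.inr ⟨(i : ℕ) - 3, by omega⟩))
    · convert h0 using 2; simp [i0, i1, i2, Fin.ext_iff, hi]
    · convert h1 using 2; simp [i0, i1, i2, Fin.ext_iff, hi]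
    · convert h2 using 2; simp [i0, i1, i2, Fin.ext_iff, hi]
    · convert hupper j (by omega) using 2; simp [Fin.ext_iff, hj]
  have sep : ∀ (M : CoxeterMatrix (Fin 4)) (f : Fin 4 → Equiv.Perm (Fin 4)), M.IsLiftable f →
      ∀ t u, f t ≠ f u → M.simple t ≠ M.simple u := by
    intro M f hf t u htu h
    apply htu
    rw [← M.toCoxeterSystem.lift_apply_simple hf t, ← M.toCoxeterSystem.lift_apply_simple hf u]
    exact congrArg _ h
  simp only [List.mem_cons, List.not_mem_nil, or_false] at hc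
  rcases hc with rfl | rfl | rfl | rfl | rfl | rfl | rfl
  · exact mkone _ 0 (rank2 _)
  · exact mkone _ 0 (rank2 _)
  · obtain ⟨hsq, hrel, -⟩ := sys Cfsg.Lie.coxeterD4
    refine mktwo _ 0 2 (sep _ ![Equiv.swap 0 1, Equiv.swap 1 2, Equiv.swap 2 3, Equiv.swap 0 1]
      (by unfold CoxeterMatrix.IsLiftable; decide) 0 2 (by decide)) fun H hc h0 h2 => ?_
    rw [show List.finRange 4 = [0, 1, 2, 3] by decide] at hc
    simp only [List.map_cons, List.map_nil, List.prod_cons, List.prod_nil, mul_one] at hc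
    obtain ⟨h1, h3⟩ := H29.CoxGen.typeD (hsq 0) (hsq 1) (hsq 2) (hsq 3)
      (H29.CoxGen.comm_of_two (hsq 2) (hsq 3) (hrel 2 3))
      (H29.CoxGen.comm_of_two (hsq 0) (hsq 3) (hrel 0 3)) (hrel 0 1) (hrel 1 3) hc h0 h2
    intro i; fin_cases i
    · exact h0
    · exact h1
    · exact h2
    · exact h3
  · obtain ⟨hsq, hrel, -⟩ := sys CoxeterMatrix.F₄
    refine mktwo _ 0 2 (sep _ ![Equiv.swap 0 1, Equiv.swap 0 1, Equiv.swap 2 3, Equiv.swap 2 3]
      (by unfold CoxeterMatrix.IsLiftable; decide) 0 2 (by decide)) fun H hc h0 h2 => ?_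
    have e := H29.CoxGen.shift_finRange (CoxeterMatrix.F₄.simple) hsq 0 (by norm_num) (hrel 0 1)
      (fun j hj => H29.CoxGen.comm_of_two (hsq _) (hsq _) (by
        have := hrel 0 j
        have hj' : j = 2 ∨ j = 3 := by simp only [Fin.ext_iff] at *; omega
        rcases hj' with rfl | rfl <;> exact this))
      (fun j hj => absurd hj (Nat.not_lt_zero _))
    have h1 : CoxeterMatrix.F₄.simple 1 ∈ H := by
      have := mul_mem (mul_mem hc h0) (inv_mem hc)
      exact e ▸ this
    rw [show List.finRange 4 = [0, 1, 2, 3] by decide] at hc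
    simp only [List.map_cons, List.map_nil, List.prod_cons, List.prod_nil, mul_one] at hc
    have h3 : CoxeterMatrix.F₄.simple 3 ∈ H := by
      have := mul_mem (inv_mem h2) (mul_mem (inv_mem h1) (mul_mem (inv_mem h0) hc))
      simpa only [inv_mul_cancel_left] using this
    intro i; fin_cases i
    · exact h0
    · exact h1
    · exact h2
    · exact h3
  · exact mkone _ 3 (rankE (n := 6) (by norm_num) CoxeterMatrix.E₆ (by intro i j; fin_cases i <;> fin_cases j <;> simp [CoxeterMatrix.E₆]))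
  · exact mkone _ 3 (rankE (n := 7) (by norm_num) CoxeterMatrix.E₇ (by intro i j; fin_cases i <;> fin_cases j <;> simp [CoxeterMatrix.E₇]))
  · exact mkone _ 3 (rankE (n := 8) (by norm_num) CoxeterMatrix.E₈ (by intro i j; fin_cases i <;> fin_cases j <;> simp [CoxeterMatrix.E₈]))

end Cfsg.Agent.S2419
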