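import Cfsg.Statements.S2425
import Cfsg.Agent.GLSteinberg.Flags

set_option autoImplicit false
open scoped MatrixGroups
open Cfsg

namespace Cfsg.Agent.S2425

open CfsgLib.GLSteinberg CfsgLib.GLFlag Finset Polynomial

open scoped Classical in
theorem value_eq_mu {F : Type*} [Field F] [Fintype F] [DecidableEq F] {n : ℕ} (x : GL (Fin n) F) (hn : 0 < n) :
    Cfsg.unipotentCharacterGL n F (fun _ => 1) x =
      (((-1 : ℤ) ^ n * mu (x : Matrix (Fin n) (Fin n) F).mulVecLin ⊤ : ℤ) : ℂ) := by
  set f : Module.End F (Fin n → F) := (x : Matrix (Fin n) (Fin n) F).mulVecLin with hf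
  have hval : ∀ S ∈ (Ioo 0 n).powerset, ∀ i : Fin n, (cutPerm n S i).val ≤ i.val + 1 :=
    fun S _ i => cutVal_le S i.val
  have hterm : ∀ S ∈ (Ioo 0 n).powerset,
      ((Equiv.Perm.sign (cutPerm n S) : ℤ) : ℂ) *
        Cfsg.fixedPointCharacter (Cfsg.parabolicGL n F fun i => 1 + i.val - (cutPerm n S i).val) x =
      ∑ C ∈ (tails f ⊤).filter (fun C => C.image (fun U : Submodule F (Fin n → F) => Module.finrank F U) = S),
        (((-1 : ℤ) ^ (n - 1) * (-1) ^ C.card : ℤ) : ℂ) := by
    intro S hS
    have hS' := mem_powerset.1 hS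
    have hμ : (fun i : Fin n => 1 + i.val - (cutPerm n S i).val) = fun i : Fin n => i.val + 1 - (cutPerm n S i).val :=
      funext fun i => by rw [add_comm]
    have hsum : ∑ i : Fin n, (i.val + 1 - (cutPerm n S i).val) = n := by
      rw [← psum_top (fun i : Fin n => i.val + 1 - (cutPerm n S i).val), psum_cutPerm S n le_rfl,
        lastCut_self (Or.inr rfl)]
    rw [sign_cutPerm _ S hS' rfl, hμ]
    show _ * (Nat.card _ : ℂ) = _
    rw [card_fixed_chains hS' _ hsum (psum_cutPerm S) x]
    rw [Finset.sum_congr rfl (g := fun _ => (((-1 : ℤ) ^ (Ioo 0 n \ S).card : ℤ) : ℂ)), Finset.sum_const,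
      nsmul_eq_mul, mul_comm]
    intro C hC
    obtain ⟨hCt, hCS⟩ := mem_filter.1 hC
    have hcard : C.card = S.card := by
      rw [← hCS, card_image_of_injOn]
      exact fun a ha b hb h => chain_eq_of_finrank hCt ha hb h
    have hle : S.card ≤ n - 1 := by simpa using card_le_card hS'
    rw [card_sdiff_of_subset hS', Nat.card_Ioo, Nat.sub_zero, hcard, ← pow_add]
    congr 1
    rw [show n - 1 + S.card = (n - 1 - S.card) + 2 * S.card by omega, pow_add, pow_mul]
    simp
  have hmaps : ∀ C ∈ tails f ⊤, C.image (fun U : Submodule F (Fin n → F) => Module.finrank F U) ∈ (Ioo 0 n).powerset := by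
    intro C hC
    refine mem_powerset.2 fun d hd => ?_
    obtain ⟨U, hU, rfl⟩ := mem_image.1 hd
    obtain ⟨-, h1, h2⟩ := (mem_tails.1 hC).1 U hU
    refine mem_Ioo.2 ⟨Nat.pos_of_ne_zero fun h => h1 (Submodule.finrank_eq_zero.1 h), ?_⟩
    exact (Submodule.finrank_lt h2.ne).trans_eq (Module.finrank_fin_fun F)
  have hnt : (⊤ : Submodule F (Fin n → F)) ≠ ⊥ := by
    intro h
    have := congrArg (fun U : Submodule F (Fin n → F) => Module.finrank F U) h
    simp only [finrank_top, Module.finrank_fin_fun, finrank_bot] at this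
    omega
  have hv : ∀ κ ∈ (univ : Finset (Equiv.Perm (Fin n))).filter
      (fun κ => ∀ i : Fin n, (κ i).val ≤ (fun _ : Fin n => 1) i + i.val), ∀ i : Fin n, (κ i).val ≤ i.val + 1 := by
    intro κ hκ i
    have := (mem_filter.1 hκ).2 i
    simp only at this
    omega
  unfold Cfsg.unipotentCharacterGL
  rw [← Finset.sum_filter]
  rw [Finset.sum_bij' (t := (Ioo 0 n).powerset)
    (g := fun S => ((Equiv.Perm.sign (cutPerm n S) : ℤ) : ℂ) *
      Cfsg.fixedPointCharacter (Cfsg.parabolicGL n F fun i => 1 + i.val - (cutPerm n S i).val) x)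
    (fun κ hκ => (exists_cutPerm κ (hv κ hκ)).choose)
    (fun S _ => cutPerm n S)]
  · rw [sum_congr rfl hterm, Finset.sum_fiberwise_of_maps_to hmaps, mu, if_neg hnt]
    push_cast
    rw [← Finset.mul_sum]
    have e : ((-1 : ℂ)) ^ n = (-1) ^ (n - 1) * (-1) := by
      rw [← pow_succ]; congr 1; omega
    rw [e]
    ring
  · exact fun κ hκ => mem_powerset.2 (exists_cutPerm κ (hv κ hκ)).choose_spec.1
  · exact fun S hS => mem_filter.2 ⟨mem_univ _, fun i => by have := hval S hS i; simp only; omega⟩
  · exact fun κ hκ => (exists_cutPerm κ (hv κ hκ)).choose_spec.2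
  · intro S hS
    obtain ⟨h1, h2⟩ := (exists_cutPerm (cutPerm n S) (hval S hS)).choose_spec
    exact cutPerm_injective h1 (mem_powerset.1 hS) h2
  · intro κ hκ
    rw [(exists_cutPerm κ (hv κ hκ)).choose_spec.2]

theorem compl_of_coprime {F : Type*} [Field F] [Fintype F] {p : ℕ} [Fact p.Prime] [CharP F p] {n : ℕ}
    (x : GL (Fin n) F) (hx : (orderOf x).Coprime p) :
    Compl (x : Matrix (Fin n) (Fin n) F).mulVecLin := by
  classical
  set N := orderOf x with hN
  have hN0 : (N : F) ≠ 0 := by
    rw [Ne, CharP.cast_eq_zero_iff F p]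
    exact fun h => (Fact.out : p.Prime).ne_one ((Nat.coprime_self p).1 (hx.coprime_dvd_left h))
  have hpow : (x : Matrix (Fin n) (Fin n) F).mulVecLin ^ N = 1 := by
    have h1 : ((x : Matrix (Fin n) (Fin n) F) ^ N) = 1 := by
      rw [← Units.val_pow_eq_pow_val, pow_orderOf_eq_one, Units.val_one]
    show (Matrix.toLin' (x : Matrix (Fin n) (Fin n) F)) ^ N = 1
    rw [← Matrix.toLin'_pow, h1, Matrix.toLin'_one]
    rfl
  have hss : Module.End.IsSemisimple (x : Matrix (Fin n) (Fin n) F).mulVecLin :=
    Module.End.isSemisimple_of_squarefree_aeval_eq_zero (p := X ^ N - 1)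
      (X_pow_sub_one_separable_iff.2 hN0).squarefree (by rw [map_sub, map_pow, aeval_X, map_one, hpow, sub_self])
  intro U hU
  obtain ⟨U', h1, h2⟩ := Module.End.isSemisimple_iff.1 hss U hU
  exact ⟨U', h1, h2⟩


/-- Values of the Steinberg character of `GL_n(q)` (the partition-indexed character for `ν = (1,…,1)`, of degree `q^(n(n−1)/2)`) at elements of order prime to the characteristic: if the characteristic polynomial of such an element is `∏ f^(m_f)` over distinct monic irreducible `f`, the value is `∏_f (−1)^((deg f − 1) m_f) q^(deg f · m_f (m_f − 1)/2)`. (At elements of order divisible by the characteristic the value is 0; that is not part of this statement.) -/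
theorem result {F : Type*} [Field F] [Fintype F] [DecidableEq F] {q : ℕ} (hq : Fintype.card F = q) (p : ℕ) [Fact p.Prime] [CharP F p]
    {n : ℕ} (x : GL (Fin n) F) (hx : (orderOf x).Coprime p) :
    Cfsg.unipotentCharacterGL n F (fun _ => 1) x =
      ∏ f ∈ (UniqueFactorizationMonoid.normalizedFactors (x : Matrix (Fin n) (Fin n) F).charpoly).toFinset,
        (-1 : ℂ) ^ ((f.natDegree - 1) * (UniqueFactorizationMonoid.normalizedFactors (x : Matrix (Fin n) (Fin n) F).charpoly).count f) *
          (q : ℂ) ^ (f.natDegree * (UniqueFactorizationMonoid.normalizedFactors (x : Matrix (Fin n) (Fin n) F).charpoly).count f *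
            ((UniqueFactorizationMonoid.normalizedFactors (x : Matrix (Fin n) (Fin n) F).charpoly).count f - 1) / 2) := by
  subst hq
  set f : Module.End F (Fin n → F) := (x : Matrix (Fin n) (Fin n) F).mulVecLin with hf
  set M := UniqueFactorizationMonoid.normalizedFactors (x : Matrix (Fin n) (Fin n) F).charpoly with hM
  rcases Nat.eq_zero_or_pos n with rfl | hn
  · haveI : Subsingleton (GL (Fin 0) F) := ⟨fun a b => Units.ext (Subsingleton.elim _ _)⟩
    have hMe : M = 0 := by rw [hM, show (x : Matrix (Fin 0) (Fin 0) F).charpoly = 1 from Matrix.det_isEmpty, UniqueFactorizationMonoid.normalizedFactors_one]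
    rw [hMe]
    unfold Cfsg.unipotentCharacterGL
    rw [Finset.sum_eq_single (1 : Equiv.Perm (Fin 0)) (fun b _ hb => absurd (Subsingleton.elim b 1) hb) (by simp),
      if_pos (fun i => i.elim0)]
    have hcard : Nat.card (MulAction.fixedBy
        (GL (Fin 0) F ⧸ Cfsg.parabolicGL 0 F fun i => (fun _ : Fin 0 => 1) i + i.val - ((1 : Equiv.Perm (Fin 0)) i).val) x) = 1 := by
      rw [Nat.card_eq_one_iff_unique]
      exact ⟨⟨fun a b => Subtype.ext (Subsingleton.elim _ _)⟩, ⟨⟨((1 : GL (Fin 0) F) : _), Subsingleton.elim _ _⟩⟩⟩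
    simp only [Cfsg.fixedPointCharacter]
    rw [hcard]
    simp
  have htop : Inv f ⊤ := fun _ _ => trivial
  have hcp : cp f ⊤ = (x : Matrix (Fin n) (Fin n) F).charpoly := by
    rw [cp_eq htop, ← (Submodule.topEquiv (R := F) (M := Fin n → F)).charpoly_conj,
      show Submodule.topEquiv.conj (LinearMap.restrict f htop) = f from LinearMap.ext fun v => rfl, hf]
    exact Matrix.charpoly_toLin' _
  rw [value_eq_mu x hn, mu_formula (compl_of_coprime (p := p) x hx) ⊤ htop, hcp, ← hM]
  unfold formula
  have hmonic := Matrix.charpoly_monic (x : Matrix (Fin n) (Fin n) F)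
  have hdeg : n = ∑ g ∈ M.toFinset, g.natDegree * M.count g := by
    have h1 : Associated M.prod (x : Matrix (Fin n) (Fin n) F).charpoly :=
      UniqueFactorizationMonoid.prod_normalizedFactors hmonic.ne_zero
    have h0 : (0 : F[X]) ∉ M := fun h =>
      (UniqueFactorizationMonoid.irreducible_of_normalized_factor _ h).ne_zero rfl
    have h2 := Polynomial.natDegree_eq_of_degree_eq (Polynomial.degree_eq_degree_of_associated h1)
    rw [Polynomial.natDegree_multiset_prod _ h0, Matrix.charpoly_natDegree_eq_dim, Fintype.card_fin] at h2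
    rw [← h2, Finset.sum_multiset_map_count]
    exact Finset.sum_congr rfl fun g _ => by rw [smul_eq_mul, mul_comm]
  push_cast
  rw [show ((-1 : ℂ) ^ n) = ∏ g ∈ M.toFinset, (-1) ^ (g.natDegree * M.count g) by
    rw [Finset.prod_pow_eq_pow_sum, ← hdeg], ← Finset.prod_mul_distrib]
  refine Finset.prod_congr rfl fun g hg => ?_
  have hpos : 0 < g.natDegree :=
    (UniqueFactorizationMonoid.irreducible_of_normalized_factor _ (Multiset.mem_toFinset.1 hg)).natDegree_pos
  have key : g.natDegree * M.count g + M.count g = (g.natDegree - 1) * M.count g + 2 * M.count g := by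
    obtain ⟨d, hd⟩ : ∃ d, g.natDegree = d + 1 := ⟨g.natDegree - 1, by omega⟩
    rw [hd, Nat.add_sub_cancel]
    ring
  rw [← mul_assoc, ← pow_add, key, pow_add _ _ (2 * _), pow_mul _ 2]
  simp

end Cfsg.Agent.S2425
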