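import Cfsg.Statements.S2427
import Cfsg.Agent.SL2.SylowTwo
import Cfsg.Agent.SL2.PSL
-- import your own Cfsg.Agent.* helpers here

set_option autoImplicit false
open Cfsg

namespace Cfsg.Agent.S2427

set_option maxRecDepth 100000

theorem q8_mul : ∀ g h : Matrix.SpecialLinearGroup (Fin 2) (ZMod 3), g ^ 4 = 1 → h ^ 4 = 1 → (g * h) ^ 4 = 1 := by decide

theorem q8_conj : ∀ g h : Matrix.SpecialLinearGroup (Fin 2) (ZMod 3), g * g = -1 → h * h = -1 →
    ∃ x, x * g * x⁻¹ = h := by decide

theorem q8_comm : ∀ g : Matrix.SpecialLinearGroup (Fin 2) (ZMod 3), g ^ 4 ≠ 1 →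
    ∃ x, (g * x * g⁻¹ * x⁻¹) * (g * x * g⁻¹ * x⁻¹) = -1 := by decide

theorem q8_card : (Finset.univ.filter fun g : Matrix.SpecialLinearGroup (Fin 2) (ZMod 3) => g ^ 4 = 1).card = 8 := by
  decide

theorem q8_cases : ∀ g : Matrix.SpecialLinearGroup (Fin 2) (ZMod 3), g ^ 4 = 1 → g = 1 ∨ g = -1 ∨ g * g = -1 := by
  decide

theorem q8_gen : ∃ a b : Matrix.SpecialLinearGroup (Fin 2) (ZMod 3),
    (a * b * a⁻¹ * b⁻¹) * (a * b * a⁻¹ * b⁻¹) = -1 := by decide

/-- The group SL₂ over the field with 3 elements has order 24 and centre of order 2; its commutator subgroup has order 8, is isomorphic to the quaternion group of order 8 and is complemented by every Sylow 3-subgroup (so the group is a semidirect product of a quaternion group of order 8 by a cyclic group of order 3); and its only normal subgroups besides the trivial subgroup and the whole group are the centre and the commutator subgroup. -/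
theorem result :
    Nat.card (Matrix.SpecialLinearGroup (Fin 2) (ZMod 3)) = 24 ∧
    Nat.card (Subgroup.center (Matrix.SpecialLinearGroup (Fin 2) (ZMod 3))) = 2 ∧
    Nat.card (commutator (Matrix.SpecialLinearGroup (Fin 2) (ZMod 3))) = 8 ∧
    Nonempty (commutator (Matrix.SpecialLinearGroup (Fin 2) (ZMod 3)) ≃* QuaternionGroup 2) ∧
    (∀ P : Sylow 3 (Matrix.SpecialLinearGroup (Fin 2) (ZMod 3)),
      Subgroup.IsComplement' (commutator (Matrix.SpecialLinearGroup (Fin 2) (ZMod 3)))
        (P : Subgroup (Matrix.SpecialLinearGroup (Fin 2) (ZMod 3)))) ∧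
    ∀ N : Subgroup (Matrix.SpecialLinearGroup (Fin 2) (ZMod 3)), N.Normal →
      N = ⊥ ∨ N = ⊤ ∨ N = Subgroup.center (Matrix.SpecialLinearGroup (Fin 2) (ZMod 3)) ∨
        N = commutator (Matrix.SpecialLinearGroup (Fin 2) (ZMod 3)) := by
  classical
  have h24 : Nat.card (Matrix.SpecialLinearGroup (Fin 2) (ZMod 3)) = 24 := by
    rw [CfsgLib.SL2.card_SL2, ZMod.card]; rfl
  let Q : Subgroup (Matrix.SpecialLinearGroup (Fin 2) (ZMod 3)) :=
    { carrier := {g | g ^ 4 = 1}
      one_mem' := one_pow 4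
      mul_mem' := fun {g h} hg hh => q8_mul g h hg hh
      inv_mem' := fun {g} hg => by show g⁻¹ ^ 4 = 1; rw [inv_pow, show g ^ 4 = 1 from hg, inv_one] }
  have hQ8 : Nat.card Q = 8 := by
    rw [← q8_card, Nat.card_eq_fintype_card, Fintype.card_subtype]
    congr 1
    ext x
    simp only [Finset.mem_filter]
    exact Iff.rfl
  haveI hQn : Q.Normal := ⟨fun x hx g => by
    show (g * x * g⁻¹) ^ 4 = 1
    rw [conj_pow, show x ^ 4 = 1 from hx, mul_one, mul_inv_cancel]⟩
  have hQ3 : Q.index = 3 := by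
    have := Subgroup.card_mul_index Q
    rw [hQ8, h24] at this
    omega
  have hcen : ∀ g : Matrix.SpecialLinearGroup (Fin 2) (ZMod 3),
      g ∈ Subgroup.center (Matrix.SpecialLinearGroup (Fin 2) (ZMod 3)) ↔ g = 1 ∨ g = -1 := fun g =>
    CfsgLib.SL2.mem_center_iff g
  have hnormal : ∀ N : Subgroup (Matrix.SpecialLinearGroup (Fin 2) (ZMod 3)), N.Normal →
      N = ⊥ ∨ N = ⊤ ∨ N = Subgroup.center (Matrix.SpecialLinearGroup (Fin 2) (ZMod 3)) ∨ N = Q := by
    intro N hN
    have hfour : ∀ g ∈ N, g * g = -1 → Q ≤ N := by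
      intro g hg hg2 h hh
      have hneg : (-1 : Matrix.SpecialLinearGroup (Fin 2) (ZMod 3)) ∈ N := hg2 ▸ mul_mem hg hg
      rcases q8_cases h hh with rfl | rfl | hh2
      · exact one_mem N
      · exact hneg
      · obtain ⟨x, rfl⟩ := q8_conj g h hg2 hh2
        exact hN.conj_mem g hg x
    by_cases h1 : ∃ g ∈ N, g ∉ Q
    · obtain ⟨g, hg, hgQ⟩ := h1
      obtain ⟨x, hx⟩ := q8_comm g hgQ
      have hc : g * x * g⁻¹ * x⁻¹ ∈ N := by
        rw [mul_assoc g x, mul_assoc g (x * g⁻¹)]
        exact mul_mem hg (hN.conj_mem _ (inv_mem hg) x)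
      have hQN := hfour _ hc hx
      refine Or.inr (Or.inl ?_)
      have hidx := Subgroup.index_dvd_of_le hQN
      rw [hQ3] at hidx
      rcases (Nat.dvd_prime Nat.prime_three).mp hidx with h2 | h2
      · exact Subgroup.index_eq_one.mp h2
      · exfalso
        have hlt : Q < N := lt_of_le_of_ne hQN fun e => hgQ (e ▸ hg)
        have := Subgroup.index_strictAnti hlt
        rw [hQ3, h2] at this
        omega
    · push Not at h1
      by_cases h2 : ∃ g ∈ N, g * g = -1
      · obtain ⟨g, hg, hg2⟩ := h2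
        exact Or.inr (Or.inr (Or.inr (le_antisymm h1 (hfour g hg hg2))))
      · push Not at h2
        have hsub : ∀ g ∈ N, g = 1 ∨ g = -1 := fun g hg => by
          rcases q8_cases g (h1 g hg) with h3 | h3 | h3
          · exact Or.inl h3
          · exact Or.inr h3
          · exact absurd h3 (h2 g hg)
        by_cases h3 : (-1 : Matrix.SpecialLinearGroup (Fin 2) (ZMod 3)) ∈ N
        · refine Or.inr (Or.inr (Or.inl (le_antisymm (fun g hg => (hcen g).mpr (hsub g hg)) fun g hg => ?_)))
          rcases (hcen g).mp hg with rfl | rfl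
          · exact one_mem N
          · exact h3
        · refine Or.inl ((Subgroup.eq_bot_iff_forall N).mpr fun g hg => ?_)
          exact (hsub g hg).resolve_right fun e => h3 (e ▸ hg)
  have hcQ : commutator (Matrix.SpecialLinearGroup (Fin 2) (ZMod 3)) = Q := by
    have hle : commutator (Matrix.SpecialLinearGroup (Fin 2) (ZMod 3)) ≤ Q := by
      haveI : IsCyclic (Matrix.SpecialLinearGroup (Fin 2) (ZMod 3) ⧸ Q) :=
        haveI : Fact (Nat.Prime 3) := ⟨Nat.prime_three⟩
        isCyclic_of_prime_card (p := 3) hQ3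
      exact (Subgroup.Normal.quotient_commutative_iff_commutator_le).mp IsCyclic.isMulCommutative
    obtain ⟨a, b, hab⟩ := q8_gen
    have hm : a * b * a⁻¹ * b⁻¹ ∈ commutator (Matrix.SpecialLinearGroup (Fin 2) (ZMod 3)) := by
      rw [commutator_def]; exact Subgroup.commutator_mem_commutator (Subgroup.mem_top a) (Subgroup.mem_top b)
    rcases hnormal (commutator (Matrix.SpecialLinearGroup (Fin 2) (ZMod 3))) (by infer_instance) with h | h | h | h
    · rw [h, Subgroup.mem_bot] at hm
      rw [hm] at hab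
      exact absurd hab (by decide)
    · rw [h, top_le_iff] at hle
      rw [hle, Subgroup.index_top] at hQ3
      omega
    · rw [h] at hm
      rcases (hcen _).mp hm with h' | h' <;> rw [h'] at hab <;> exact absurd hab (by decide)
    · exact h
  obtain ⟨S⟩ := (inferInstance : Nonempty (Sylow 2 (Matrix.SpecialLinearGroup (Fin 2) (ZMod 3))))
  obtain ⟨d⟩ := CfsgLib.SL2.exists_sylowTwoData (by rw [Nat.card_zmod]; decide) S
  have hk : d.k = 1 := by
    have := d.k_pos
    by_contra hk
    have := d.card_mod.mp (by omega)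
    rw [Nat.card_zmod] at this
    omega
  have equat := d.quat
  rw [hk, pow_one] at equat
  obtain ⟨e⟩ := equat
  have hSQ : (S : Subgroup (Matrix.SpecialLinearGroup (Fin 2) (ZMod 3))) = Q := by
    refine Subgroup.eq_of_le_of_card_ge (fun x hx => ?_) ?_
    · show x ^ 4 = 1
      have h4 : ∀ y : QuaternionGroup 2, y ^ 4 = 1 := by decide
      have := congrArg Subtype.val (e.injective ((map_pow e ⟨x, hx⟩ 4).trans ((h4 _).trans (map_one e).symm)))
      simpa using this
    · rw [hQ8, Nat.card_congr e.toEquiv, Nat.card_eq_fintype_card, QuaternionGroup.card]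
  refine ⟨h24, ?_, by rw [hcQ]; exact hQ8, ?_, fun P => ?_, fun N hN => by rw [hcQ]; exact hnormal N hN⟩
  · rw [CfsgLib.SL2.card_center, CfsgLib.SL2.card_sq_eq_one_odd (by decide)]
  · rw [hcQ, ← hSQ]; exact ⟨e⟩
  · have hP : Nat.card (P : Subgroup (Matrix.SpecialLinearGroup (Fin 2) (ZMod 3))) = 3 := by
      haveI : Fact (Nat.Prime 3) := ⟨Nat.prime_three⟩
      rw [P.card_eq_multiplicity, h24]
      rw [show 24 = 2 ^ 3 * 3 ^ 1 from rfl, Nat.factorization_mul (by norm_num) (by norm_num),
        Nat.prime_two.factorization_pow, Nat.prime_three.factorization_pow]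
      simp
    rw [hcQ]
    exact Subgroup.isComplement'_of_coprime (by rw [hQ8, hP, h24]) (by rw [hQ8, hP]; decide)

end Cfsg.Agent.S2427
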