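import Cfsg.Statements.S2428
import Cfsg.Agent.SL2.Tori
-- import your own Cfsg.Agent.* helpers here

set_option autoImplicit false
open Cfsg

namespace Cfsg.Agent.S2428

/-- Let F be a finite field with q elements, q odd, and let d be a diagonal element of SL₂ over F whose diagonal entry a has a² ≠ 1 (such d exist exactly when q > 3). Then the centraliser of d is precisely the diagonal subgroup T; the normaliser of T has order 2(q − 1) and exactly (q + 5)/2 conjugacy classes; and every element of that normaliser outside T has square equal to −1. -/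
theorem result {F : Type*} [Field F] [Fintype F] (hodd : Odd (Fintype.card F))
    (d : Matrix.SpecialLinearGroup (Fin 2) F) (hd01 : (d : Matrix (Fin 2) (Fin 2) F) 0 1 = 0) (hd10 : (d : Matrix (Fin 2) (Fin 2) F) 1 0 = 0) (hda : (d : Matrix (Fin 2) (Fin 2) F) 0 0 ^ 2 ≠ 1) :
    (∀ g : Matrix.SpecialLinearGroup (Fin 2) F, g ∈ Subgroup.centralizer ({d} : Set (Matrix.SpecialLinearGroup (Fin 2) F)) ↔ ((g : Matrix (Fin 2) (Fin 2) F) 0 1 = 0 ∧ (g : Matrix (Fin 2) (Fin 2) F) 1 0 = 0)) ∧
    Nat.card (Subgroup.normalizer ((Subgroup.centralizer ({d} : Set (Matrix.SpecialLinearGroup (Fin 2) F))) : Set (Matrix.SpecialLinearGroup (Fin 2) F))) = 2 * (Fintype.card F - 1) ∧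
    Nat.card (ConjClasses (Subgroup.normalizer ((Subgroup.centralizer ({d} : Set (Matrix.SpecialLinearGroup (Fin 2) F))) : Set (Matrix.SpecialLinearGroup (Fin 2) F)))) = (Fintype.card F + 5) / 2 ∧
    ∀ g : Matrix.SpecialLinearGroup (Fin 2) F, g ∈ Subgroup.normalizer ((Subgroup.centralizer ({d} : Set (Matrix.SpecialLinearGroup (Fin 2) F))) : Set (Matrix.SpecialLinearGroup (Fin 2) F)) →
      g ∉ Subgroup.centralizer ({d} : Set (Matrix.SpecialLinearGroup (Fin 2) F)) → ((g * g) : Matrix (Fin 2) (Fin 2) F) = -1 := by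
  set a := (d : Matrix (Fin 2) (Fin 2) F) 0 0 with ha
  set b := (d : Matrix (Fin 2) (Fin 2) F) 1 1 with hb
  have hab : a * b = 1 := by
    have := CfsgLib.SL2.det_eq d; rw [hd01, zero_mul, sub_zero] at this; exact this
  have ha0 : a ≠ 0 := left_ne_zero_of_mul_eq_one hab
  have hb' : b = a⁻¹ := eq_inv_of_mul_eq_one_right hab
  have htr : CfsgLib.SL2.tr d = a + a⁻¹ := by rw [CfsgLib.SL2.tr, ← ha, ← hb, hb']
  have ht : CfsgLib.SL2.tr d ^ 2 ≠ 4 := htr ▸ CfsgLib.SL2.add_inv_sq_ne_four a ha0 hda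
  have hr : a * a - CfsgLib.SL2.tr d * a + 1 = 0 := by rw [htr]; field_simp; ring
  have h2 : (2 : F) ≠ 0 := Ring.two_ne_zero (fun h => by
    have := FiniteField.even_card_of_char_two h
    rw [Nat.odd_iff] at hodd
    omega)
  have hcardC := CfsgLib.SL2.card_centralizer_split ht hr
  rw [Nat.card_eq_fintype_card (α := F)] at hcardC
  refine ⟨fun g => ?_, ?_, ?_, fun g hg hgC => ?_⟩
  · rw [Subgroup.mem_centralizer_singleton_iff]
    constructor
    · intro h
      obtain ⟨p, hp⟩ := CfsgLib.SL2.exists_linComb (CfsgLib.SL2.not_scalar_of_tr_sq_ne ht) h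
      constructor
      · rw [hp]; simp [CfsgLib.SL2.linComb, hd01]
      · rw [hp]; simp [CfsgLib.SL2.linComb, hd10]
    · rintro ⟨g01, g10⟩
      apply CfsgLib.SL2.ext2 <;> simp only [CfsgLib.SL2.mul00, CfsgLib.SL2.mul01, CfsgLib.SL2.mul10, CfsgLib.SL2.mul11, g01, g10, hd01, hd10] <;> ring
  · rw [CfsgLib.SL2.card_normalizer_centralizer ht, hcardC]
  · have h := CfsgLib.SL2.card_conjClasses_normalizer h2 ht
    rw [hcardC] at h
    rw [Nat.odd_iff] at hodd
    omega
  · have hinv := ((CfsgLib.SL2.mem_normalizer_centralizer_iff ht g).mp hg).resolve_left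
      (fun h => hgC (Subgroup.mem_centralizer_singleton_iff.mpr (mul_inv_eq_iff_eq_mul.mp h)))
    have := congrArg (fun x : Matrix.SpecialLinearGroup (Fin 2) F => (x : Matrix (Fin 2) (Fin 2) F))
      (CfsgLib.SL2.inverting_sq h2 ht hinv)
    simpa using this

end Cfsg.Agent.S2428
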