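import Cfsg.Statements.S2429
import Cfsg.Agent.SL2.Tori
-- import your own Cfsg.Agent.* helpers here

set_option autoImplicit false
open Cfsg

namespace Cfsg.Agent.S2429

/-- Let F be a finite field with q elements, q odd. Then SL₂ over F contains a cyclic subgroup T′ of order q + 1 (a non-split torus) with the following properties: T′ is its own centraliser, and indeed the centraliser of each element of T′ other than 1 and −1 is exactly T′; every element of SL₂ having no eigenvector in F² is conjugate to an element of T′; the normaliser of T′ has order 2(q + 1) and exactly (q + 7)/2 conjugacy classes; and every element of that normaliser outside T′ has square −1. -/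
theorem result {F : Type*} [Field F] [Fintype F] (hodd : Odd (Fintype.card F)) :
    ∃ T' : Subgroup (Matrix.SpecialLinearGroup (Fin 2) F), IsCyclic T' ∧ Nat.card T' = Fintype.card F + 1 ∧
      Subgroup.centralizer ((T' : Set (Matrix.SpecialLinearGroup (Fin 2) F))) = T' ∧
      (∀ g : Matrix.SpecialLinearGroup (Fin 2) F, g ∈ T' → (g : Matrix (Fin 2) (Fin 2) F) ≠ 1 → (g : Matrix (Fin 2) (Fin 2) F) ≠ -1 → Subgroup.centralizer ({g} : Set (Matrix.SpecialLinearGroup (Fin 2) F)) = T') ∧
      (∀ g : Matrix.SpecialLinearGroup (Fin 2) F, (∀ (c : F) (v : Fin 2 → F), v ≠ 0 → (g : Matrix (Fin 2) (Fin 2) F).mulVec v ≠ c • v) → ∃ h : Matrix.SpecialLinearGroup (Fin 2) F, h * g * h⁻¹ ∈ T') ∧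
      Nat.card (Subgroup.normalizer (T' : Set (Matrix.SpecialLinearGroup (Fin 2) F))) = 2 * (Fintype.card F + 1) ∧
      Nat.card (ConjClasses (Subgroup.normalizer (T' : Set (Matrix.SpecialLinearGroup (Fin 2) F)))) = (Fintype.card F + 7) / 2 ∧
      ∀ g : Matrix.SpecialLinearGroup (Fin 2) F, g ∈ Subgroup.normalizer (T' : Set (Matrix.SpecialLinearGroup (Fin 2) F)) → g ∉ T' → ((g * g) : Matrix (Fin 2) (Fin 2) F) = -1 := by
  obtain ⟨z, hz, he, hzC⟩ := CfsgLib.SL2.exists_elliptic_generator F
  rw [Nat.card_eq_fintype_card] at hz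
  have ht := CfsgLib.SL2.IsElliptic.tr_sq_ne he
  have h2 : (2 : F) ≠ 0 := Ring.two_ne_zero (fun h => by
    have := FiniteField.even_card_of_char_two h
    rw [Nat.odd_iff] at hodd
    omega)
  have hnc := CfsgLib.SL2.not_scalar_of_tr_sq_ne ht
  have hcardC := CfsgLib.SL2.card_centralizer_elliptic he
  rw [Nat.card_eq_fintype_card (α := F)] at hcardC
  have hzmem : z ∈ Subgroup.centralizer ({z} : Set (Matrix.SpecialLinearGroup (Fin 2) F)) :=
    Subgroup.mem_centralizer_singleton_iff.mpr rfl
  refine ⟨Subgroup.centralizer ({z} : Set (Matrix.SpecialLinearGroup (Fin 2) F)),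
    CfsgLib.SL2.isCyclic_centralizer ht, hcardC, ?_, ?_, ?_, ?_, ?_, ?_⟩
  · apply le_antisymm
    · exact Subgroup.centralizer_le (Set.singleton_subset_iff.mpr hzmem)
    · have := CfsgLib.SL2.isMulCommutative_centralizer hnc
      exact Subgroup.le_centralizer _
  · intro g hg h1 hm1
    refine CfsgLib.SL2.centralizer_eq_of_mem hnc hg ?_
    intro hc
    rcases (CfsgLib.SL2.mem_center_iff g).mp hc with h | h
    · exact h1 (by rw [h]; simp)
    · exact hm1 (by rw [h]; simp)
  · intro g hg
    have hge : ∀ r : F, r * r - CfsgLib.SL2.tr g * r + 1 ≠ 0 := by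
      intro r hr
      obtain ⟨v, hv, hv0⟩ : ∃ v : Fin 2 → F, v ≠ 0 ∧ ((g : Matrix (Fin 2) (Fin 2) F) - r • 1).mulVec v = 0 := by
        apply Matrix.exists_mulVec_eq_zero_iff.mpr
        have := CfsgLib.SL2.det_eq g
        simp only [CfsgLib.SL2.tr] at hr
        simp [Matrix.det_fin_two]
        linear_combination hr + this
      refine hg r v hv ?_
      rw [Matrix.sub_mulVec, sub_eq_zero] at hv0
      rw [hv0, Matrix.smul_mulVec, Matrix.one_mulVec]
    obtain ⟨h, hh, htr⟩ := CfsgLib.SL2.exists_mem_torus_tr h2 he hge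
    obtain ⟨x, hx⟩ := isConj_iff.mp (CfsgLib.SL2.isConj_of_tr_eq' (CfsgLib.SL2.IsElliptic.tr_sq_ne hge) htr.symm)
    exact ⟨x, by rw [hx]; exact hh⟩
  · rw [CfsgLib.SL2.card_normalizer_centralizer ht, hcardC]
  · have h := CfsgLib.SL2.card_conjClasses_normalizer h2 ht
    rw [hcardC] at h
    rw [Nat.odd_iff] at hodd
    omega
  · intro g hg hgC
    have hinv := ((CfsgLib.SL2.mem_normalizer_centralizer_iff ht g).mp hg).resolve_left
      (fun h => hgC (Subgroup.mem_centralizer_singleton_iff.mpr (mul_inv_eq_iff_eq_mul.mp h)))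
    have := congrArg (fun x : Matrix.SpecialLinearGroup (Fin 2) F => (x : Matrix (Fin 2) (Fin 2) F))
      (CfsgLib.SL2.inverting_sq h2 ht hinv)
    simpa using this

end Cfsg.Agent.S2429
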