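import Cfsg.Statements.S2430
import Cfsg.Agent.SL2.Tori
-- import your own Cfsg.Agent.* helpers here

set_option autoImplicit false
open Cfsg

namespace Cfsg.Agent.S2430

/-- Let F be a finite field with q elements, q odd, ℓ an odd prime, and P a Sylow ℓ-subgroup of SL₂ over F. If ℓ divides q − 1, the centraliser of P is cyclic of order q − 1 (a split torus) and the normaliser of P has order 2(q − 1); if ℓ divides q + 1, the centraliser of P is cyclic of order q + 1 (a non-split torus) and the normaliser of P has order 2(q + 1). -/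
theorem result {F : Type*} [Field F] [Fintype F] (hodd : Odd (Fintype.card F)) (ℓ : ℕ) [Fact ℓ.Prime] (hℓ : ℓ ≠ 2)
    (P : Sylow ℓ (Matrix.SpecialLinearGroup (Fin 2) F)) :
    (ℓ ∣ Fintype.card F - 1 →
      Nat.card (Subgroup.centralizer ((P : Subgroup (Matrix.SpecialLinearGroup (Fin 2) F)) : Set (Matrix.SpecialLinearGroup (Fin 2) F))) = Fintype.card F - 1 ∧
      IsCyclic (Subgroup.centralizer ((P : Subgroup (Matrix.SpecialLinearGroup (Fin 2) F)) : Set (Matrix.SpecialLinearGroup (Fin 2) F))) ∧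
      Nat.card (Subgroup.normalizer ((P : Subgroup (Matrix.SpecialLinearGroup (Fin 2) F)) : Set (Matrix.SpecialLinearGroup (Fin 2) F))) = 2 * (Fintype.card F - 1)) ∧
    (ℓ ∣ Fintype.card F + 1 →
      Nat.card (Subgroup.centralizer ((P : Subgroup (Matrix.SpecialLinearGroup (Fin 2) F)) : Set (Matrix.SpecialLinearGroup (Fin 2) F))) = Fintype.card F + 1 ∧
      IsCyclic (Subgroup.centralizer ((P : Subgroup (Matrix.SpecialLinearGroup (Fin 2) F)) : Set (Matrix.SpecialLinearGroup (Fin 2) F))) ∧
      Nat.card (Subgroup.normalizer ((P : Subgroup (Matrix.SpecialLinearGroup (Fin 2) F)) : Set (Matrix.SpecialLinearGroup (Fin 2) F))) = 2 * (Fintype.card F + 1)) := by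
  have hℓp : ℓ.Prime := Fact.out
  have hl3 : 3 ≤ ℓ := by have := hℓp.two_le; omega
  have hq := Fintype.one_lt_card (α := F)
  have main : ∀ (m : ℕ), ℓ ∣ m → ℓ ∣ Fintype.card F - 1 ∨ ℓ ∣ Fintype.card F + 1 →
      (∀ z : Matrix.SpecialLinearGroup (Fin 2) F, CfsgLib.SL2.tr z ^ 2 ≠ 4 → ℓ ∣ orderOf z →
        Nat.card (Subgroup.centralizer ({z} : Set (Matrix.SpecialLinearGroup (Fin 2) F))) = m) →
      Nat.card (Subgroup.centralizer ((P : Subgroup (Matrix.SpecialLinearGroup (Fin 2) F)) : Set (Matrix.SpecialLinearGroup (Fin 2) F))) = m ∧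
      IsCyclic (Subgroup.centralizer ((P : Subgroup (Matrix.SpecialLinearGroup (Fin 2) F)) : Set (Matrix.SpecialLinearGroup (Fin 2) F))) ∧
      Nat.card (Subgroup.normalizer ((P : Subgroup (Matrix.SpecialLinearGroup (Fin 2) F)) : Set (Matrix.SpecialLinearGroup (Fin 2) F))) = 2 * m := by
    intro m _ hdvd hm
    have hnq : ¬ ℓ ∣ Fintype.card F := by
      intro h
      rcases hdvd with h' | h'
      · have := Nat.dvd_sub h h'
        rw [show Fintype.card F - (Fintype.card F - 1) = 1 by omega, Nat.dvd_one] at this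
        omega
      · have := (Nat.dvd_add_right h).mp h'
        rw [Nat.dvd_one] at this
        omega
    have hne : (P : Subgroup (Matrix.SpecialLinearGroup (Fin 2) F)) ≠ ⊥ := by
      refine P.ne_bot_of_dvd_card ?_
      rw [CfsgLib.SL2.card_SL2]
      refine dvd_mul_of_dvd_right ?_ _
      have e : Fintype.card F ^ 2 - 1 = (Fintype.card F + 1) * (Fintype.card F - 1) := by
        rw [← Nat.sq_sub_sq, one_pow]
      rw [e]
      rcases hdvd with h' | h'
      · exact dvd_mul_of_dvd_right h' _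
      · exact dvd_mul_of_dvd_left h' _
    obtain ⟨c, hc1⟩ : ∃ c : Subgroup.center ↥(P : Subgroup (Matrix.SpecialLinearGroup (Fin 2) F)), c ≠ 1 := by
      have : Nontrivial ↥(P : Subgroup (Matrix.SpecialLinearGroup (Fin 2) F)) := (Subgroup.nontrivial_iff_ne_bot _).mpr hne
      have := P.2.center_nontrivial
      exact exists_ne 1
    set z : Matrix.SpecialLinearGroup (Fin 2) F := c.1.1
    have hz1 : z ≠ 1 := fun h => hc1 (Subtype.ext (Subtype.ext h))
    have hzP : z ∈ (P : Subgroup (Matrix.SpecialLinearGroup (Fin 2) F)) := c.1.2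
    obtain ⟨k, hk⟩ := P.2 c.1
    have hk' : z ^ ℓ ^ k = 1 := congrArg Subtype.val hk
    obtain ⟨j, -, hj⟩ := (Nat.dvd_prime_pow hℓp).mp (orderOf_dvd_of_pow_eq_one hk')
    have hj0 : j ≠ 0 := fun h => hz1 (orderOf_eq_one_iff.mp (by rw [hj, h, pow_zero]))
    have hlz : ℓ ∣ orderOf z := hj ▸ dvd_pow_self ℓ hj0
    have hnotcen : z ∉ Subgroup.center (Matrix.SpecialLinearGroup (Fin 2) F) := by
      intro hcen
      have h2 : z * z = 1 := by
        rcases (CfsgLib.SL2.mem_center_iff z).mp hcen with h | h <;> rw [h] <;> simp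
      have := Nat.le_of_dvd (by norm_num) (hlz.trans (orderOf_dvd_of_pow_eq_one (by rw [pow_two]; exact h2) : orderOf z ∣ 2))
      omega
    obtain ⟨p, hp⟩ := CharP.exists F
    have hpp : p.Prime := CharP.char_is_prime F p
    have htr : CfsgLib.SL2.tr z ^ 2 ≠ 4 := by
      intro h4
      have h1 := CfsgLib.SL2.proj_pow_char p (g := z) (sq_eq_sq_iff_eq_or_eq_neg.mp (h4.trans (by norm_num)))
      rw [← map_pow] at h1
      have h2 : (z ^ p) * (z ^ p) = 1 := by
        rcases CfsgLib.SL2.proj_eq_one_iff.mp h1 with h | h <;> rw [h] <;> simp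
      have h3 : ℓ ∣ p * 2 := hlz.trans (orderOf_dvd_of_pow_eq_one (by rw [pow_mul, pow_two]; exact h2))
      rcases (Nat.Prime.dvd_mul hℓp).mp h3 with h | h
      · obtain ⟨n, -, hn⟩ := FiniteField.card F p
        exact hnq (hn ▸ dvd_pow ((Nat.prime_dvd_prime_iff_eq hℓp hpp).mp h).dvd n.pos.ne')
      · have := Nat.le_of_dvd (by norm_num) h
        omega
    have hPC : (P : Subgroup (Matrix.SpecialLinearGroup (Fin 2) F)) ≤ Subgroup.centralizer ({z} : Set (Matrix.SpecialLinearGroup (Fin 2) F)) := by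
      intro y hy
      exact Subgroup.mem_centralizer_singleton_iff.mpr (congrArg Subtype.val (Subgroup.mem_center_iff.mp c.2 ⟨y, hy⟩))
    have hCP : Subgroup.centralizer ((P : Subgroup (Matrix.SpecialLinearGroup (Fin 2) F)) : Set (Matrix.SpecialLinearGroup (Fin 2) F)) =
        Subgroup.centralizer ({z} : Set (Matrix.SpecialLinearGroup (Fin 2) F)) := by
      refine le_antisymm (Subgroup.centralizer_le (Set.singleton_subset_iff.mpr hzP)) ?_
      intro y hy
      exact Subgroup.mem_centralizer_iff.mpr fun w hw => CfsgLib.SL2.centralizer_comm hnotcen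
        (Subgroup.mem_centralizer_singleton_iff.mp (hPC hw)) (Subgroup.mem_centralizer_singleton_iff.mp hy)
    rw [hCP]
    refine ⟨hm z htr hlz, CfsgLib.SL2.isCyclic_centralizer htr, ?_⟩
    rw [CfsgLib.SL2.card_normalizer_tori htr hPC hzP hnotcen, hm z htr hlz]
  have excl : ℓ ∣ Fintype.card F - 1 → ¬ ℓ ∣ Fintype.card F + 1 := by
    intro h h'
    have := Nat.le_of_dvd (by norm_num) (show ℓ ∣ 2 by
      have h2 := Nat.dvd_sub h' h
      rwa [show Fintype.card F + 1 - (Fintype.card F - 1) = 2 by omega] at h2)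
    omega
  refine ⟨fun h => main _ h (Or.inl h) ?_, fun h => main _ h (Or.inr h) ?_⟩
  · intro z hz hlz
    rcases CfsgLib.SL2.type_cases (g := z) with h' | ⟨-, r, hr⟩ | ⟨-, he⟩
    · exact absurd (by rcases h' with h' | h' <;> rw [h'] <;> norm_num) hz
    · rw [CfsgLib.SL2.card_centralizer_split hz hr, Nat.card_eq_fintype_card]
    · have := hlz.trans (orderOf_dvd_of_pow_eq_one (CfsgLib.SL2.pow_elliptic he))
      rw [Nat.card_eq_fintype_card] at this
      exact absurd this (excl h)
  · intro z hz hlz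
    rcases CfsgLib.SL2.type_cases (g := z) with h' | ⟨-, r, hr⟩ | ⟨-, he⟩
    · exact absurd (by rcases h' with h' | h' <;> rw [h'] <;> norm_num) hz
    · have := hlz.trans (orderOf_dvd_of_pow_eq_one (CfsgLib.SL2.pow_split hz hr))
      rw [Nat.card_eq_fintype_card] at this
      exact absurd h (excl this)
    · rw [CfsgLib.SL2.card_centralizer_elliptic he, Nat.card_eq_fintype_card]

end Cfsg.Agent.S2430
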