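import Cfsg.Statements.S2431
import Cfsg.Agent.SL2.SylowTwoNormalizer
-- import your own Cfsg.Agent.* helpers here

set_option autoImplicit false
open Cfsg

namespace Cfsg.Agent.S2431

/-- Let F be a finite field with q elements, q odd, and S a Sylow 2-subgroup of SL₂ over F. The centraliser of S is the centre of SL₂ (of order 2); S is its own normaliser when q ≡ ±1 mod 8, and has index 3 in its normaliser when q ≡ ±3 mod 8. -/
theorem result {F : Type*} [Field F] [Fintype F] (hodd : Odd (Fintype.card F)) (S : Sylow 2 (Matrix.SpecialLinearGroup (Fin 2) F)) :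
    Subgroup.centralizer ((S : Subgroup (Matrix.SpecialLinearGroup (Fin 2) F)) : Set (Matrix.SpecialLinearGroup (Fin 2) F)) = Subgroup.center (Matrix.SpecialLinearGroup (Fin 2) F) ∧
    ((Fintype.card F % 8 = 1 ∨ Fintype.card F % 8 = 7) →
      Subgroup.normalizer ((S : Subgroup (Matrix.SpecialLinearGroup (Fin 2) F)) : Set (Matrix.SpecialLinearGroup (Fin 2) F)) = (S : Subgroup (Matrix.SpecialLinearGroup (Fin 2) F))) ∧
    ((Fintype.card F % 8 = 3 ∨ Fintype.card F % 8 = 5) →
      Nat.card (Subgroup.normalizer ((S : Subgroup (Matrix.SpecialLinearGroup (Fin 2) F)) : Set (Matrix.SpecialLinearGroup (Fin 2) F))) = 3 * Nat.card S) := by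
  classical
  obtain ⟨d⟩ := CfsgLib.SL2.exists_sylowTwoData (by rwa [Nat.card_eq_fintype_card]) S
  have h2 : (2 : F) ≠ 0 := by
    intro h
    have : CharP F 2 := CharTwo.of_one_ne_zero_of_two_eq_zero one_ne_zero h
    have := FiniteField.even_card_iff_char_two.mp (ringChar.eq F 2)
    have := Nat.odd_iff.mp hodd
    omega
  refine ⟨d.centralizer_eq h2, fun h => ?_, fun h => ?_⟩
  · exact d.normalizer_eq h2 (d.card_mod.mpr (by rwa [Nat.card_eq_fintype_card]))
  · refine d.card_normalizer S rfl h2 ?_
    have := d.k_pos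
    by_contra hk
    have h' := d.card_mod.mp (by omega)
    rw [Nat.card_eq_fintype_card] at h'
    omega

end Cfsg.Agent.S2431
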