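import Cfsg.Statements.S2434
import Cfsg.Agent.SL2Char.Values
-- import your own Cfsg.Agent.* helpers here

set_option autoImplicit false
open Cfsg

namespace Cfsg.Agent.S2434

/-- Let F be a finite field with q elements, q odd, and C a cyclic subgroup of order q + 1 of SL₂ over F (a non-split torus; it contains the centre). For every homomorphism θ from C to the non-zero complex numbers with θ² ≠ 1 there is an irreducible complex character χ of degree q − 1 such that χ(c) = −θ(c) − θ(c)⁻¹ for every non-central c in C, χ(zg) = θ(z)χ(g) for central z in C, χ vanishes at diagonal elements with entry a, a² ≠ 1, and χ takes the value −1 at every upper unitriangular element other than 1. Conversely every irreducible character of degree q − 1 has, for some such θ, the values −θ(c) − θ(c)⁻¹ at the non-central elements c of C (for q ≥ 5 these are exactly the cuspidal characters of degree q − 1). -/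
theorem result {F : Type*} [Field F] [Fintype F] (hodd : Odd (Fintype.card F))
    (C : Subgroup (Matrix.SpecialLinearGroup (Fin 2) F)) (hC : IsCyclic C) (hcard : Nat.card C = Fintype.card F + 1) :
    (∀ θ : C →* ℂˣ, (∃ c : C, θ c ^ 2 ≠ 1) →
      ∃ χ : Matrix.SpecialLinearGroup (Fin 2) F → ℂ, Cfsg.IsIrrCharacter (Matrix.SpecialLinearGroup (Fin 2) F) χ ∧ χ 1 = (Fintype.card F : ℂ) - 1 ∧
        (∀ c : C, (c : Matrix.SpecialLinearGroup (Fin 2) F) ∉ Subgroup.center (Matrix.SpecialLinearGroup (Fin 2) F) → χ c = -((θ c).val + (θ c)⁻¹.val)) ∧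
        (∀ c : C, (c : Matrix.SpecialLinearGroup (Fin 2) F) ∈ Subgroup.center (Matrix.SpecialLinearGroup (Fin 2) F) → ∀ g : Matrix.SpecialLinearGroup (Fin 2) F, χ ((c : Matrix.SpecialLinearGroup (Fin 2) F) * g) = (θ c).val * χ g) ∧
        (∀ g : Matrix.SpecialLinearGroup (Fin 2) F, (g : Matrix (Fin 2) (Fin 2) F) 0 1 = 0 → (g : Matrix (Fin 2) (Fin 2) F) 1 0 = 0 → (g : Matrix (Fin 2) (Fin 2) F) 0 0 ^ 2 ≠ 1 → χ g = 0) ∧
        (∀ g : Matrix.SpecialLinearGroup (Fin 2) F, (g : Matrix (Fin 2) (Fin 2) F) 1 0 = 0 → (g : Matrix (Fin 2) (Fin 2) F) 0 0 = 1 → (g : Matrix (Fin 2) (Fin 2) F) 1 1 = 1 → (g : Matrix (Fin 2) (Fin 2) F) 0 1 ≠ 0 → χ g = -1)) ∧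
    (∀ χ : Matrix.SpecialLinearGroup (Fin 2) F → ℂ, Cfsg.IsIrrCharacter (Matrix.SpecialLinearGroup (Fin 2) F) χ → χ 1 = (Fintype.card F : ℂ) - 1 →
      ∃ θ : C →* ℂˣ, (∃ c : C, θ c ^ 2 ≠ 1) ∧
        ∀ c : C, (c : Matrix.SpecialLinearGroup (Fin 2) F) ∉ Subgroup.center (Matrix.SpecialLinearGroup (Fin 2) F) → χ c = -((θ c).val + (θ c)⁻¹.val)) := by
  classical
  have T : CfsgLib.SL2Char.IsTorus C := ⟨hC, hcard⟩
  have h1 : 1 ≤ Fintype.card F := Fintype.card_pos
  have hlt := Fintype.one_lt_card (α := F)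
  refine ⟨fun θ hθ => ?_, fun χ hχ hd => ?_⟩
  · obtain ⟨c₀, hc₀⟩ := hθ
    have hθ2 : θ ^ 2 ≠ 1 := fun e => hc₀ (by
      rw [pow_two, ← MonoidHom.mul_apply, ← pow_two θ, e, MonoidHom.one_apply])
    have hcomp := T.al_compat θ
    have hirr := CfsgLib.SL2Char.isIrr_ff T hcomp hθ2
    refine ⟨_, hirr, CfsgLib.SL2Char.ff_unit T, fun c hc => ?_, fun c hc g => ?_, fun g h01 h10 ha => ?_,
      fun g h10 h00 h11 h01 => ?_⟩
    · rw [CfsgLib.SL2Char.ff_noncentral T hc, map_inv]
    · have h := CfsgLib.CharBasics.center_mul hirr hc g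
      rw [CfsgLib.SL2Char.ff_central T hcomp hc, CfsgLib.SL2Char.ff_unit T] at h
      have hq : (Fintype.card F : ℂ) - 1 ≠ 0 :=
        sub_ne_zero.2 (by exact_mod_cast (Fintype.one_lt_card (α := F)).ne')
      exact mul_left_cancel₀ hq (by linear_combination h)
    · exact CfsgLib.SL2Char.ff_split T _ θ h10 (CfsgLib.SL2Char.tr_sq_ne_of_diag h10 ha).1
    · rw [CfsgLib.SL2Char.ff_unipotent T _ θ h10 (h00.trans h11.symm) h01, h00, map_one]
  · obtain ⟨O⟩ := CfsgLib.SL2Char.nonempty_oddTable hodd T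
    obtain ⟨k, hk⟩ := hodd
    have hex : ∀ θ : C →* ℂˣ, θ ^ 2 ≠ 1 → ∃ c : C, θ c ^ 2 ≠ 1 := fun θ hθ => by
      by_contra hcon
      push Not at hcon
      exact hθ (MonoidHom.ext fun c => by rw [pow_two θ, MonoidHom.mul_apply, ← pow_two, hcon c, MonoidHom.one_apply])
    rw [← Nat.cast_one, ← Nat.cast_sub h1] at hd
    rcases O.cases ⟨χ, hχ⟩ with ⟨-, h⟩ | ⟨-, h⟩ | ⟨-, h⟩ | ⟨⟨θ, hθ, h'⟩, h⟩ | ⟨h', h⟩ | ⟨-, h⟩ <;>
      replace h : χ 1 = _ := h
    all_goals try (exfalso; rw [hd] at h; have := Nat.cast_injective h; omega)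
    · refine ⟨θ, hex θ hθ, fun c hc => ?_⟩
      rw [show χ = _ from h', CfsgLib.SL2Char.ff_noncentral T hc, map_inv]
    · -- three elements in the field
      have hk1 : k = 1 := by
        rw [hd] at h
        have := Nat.cast_injective h
        have := Fintype.one_lt_card (α := F)
        omega
      haveI : Finite (C →* ℂˣ) := CfsgLib.Blocks.FpfExc.finite_homs fun a b => Subtype.ext (T.comm a.2 b.2)
      haveI : Fintype (C →* ℂˣ) := Fintype.ofFinite _
      obtain ⟨θ, hθ⟩ : ∃ θ : C →* ℂˣ, θ ^ 2 ≠ 1 := by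
        by_contra hcon
        push Not at hcon
        have h2 := T.card_dual.2
        rw [(CfsgLib.SL2Char.eps_odd (F := F) ⟨k, hk⟩).2, Nat.card_congr (Equiv.subtypeUnivEquiv hcon), T.card_dual.1] at h2
        omega
      refine ⟨θ, hex θ hθ, fun c hc => ?_⟩
      obtain ⟨hne, htr, -⟩ := T.noncentral c.2 hc
      have hlhs : χ c = 0 := by
        have hs := O.hsum c
        have hag := CfsgLib.SL2Char.swap_agree (CfsgLib.CharBasics.isCharacter_of_irr O.h₁.2) O.hswap htr
        rw [hag, CfsgLib.SL2Char.Rf_elliptic _ hne] at hs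
        rcases h' with e | e <;> rw [show χ = _ from congrArg Subtype.val e]
        · linear_combination hs / 2
        · rw [hag]; linear_combination hs / 2
      have hord : orderOf c = 4 := by
        have hd : orderOf c ∣ 2 ^ 2 := by
          have := orderOf_dvd_natCard c
          rwa [T.card, hk, hk1] at this
        obtain ⟨i, hi, hi'⟩ := (Nat.dvd_prime_pow Nat.prime_two).1 hd
        have hi2 : i ≠ 0 ∧ i ≠ 1 := by
          refine ⟨fun e => ?_, fun e => ?_⟩
          · rw [e, pow_zero, orderOf_eq_one_iff] at hi'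
            exact hc (by rw [hi']; exact one_mem _)
          · rw [e, pow_one] at hi'
            have h2 := pow_orderOf_eq_one c
            rw [hi', pow_two] at h2
            exact CfsgLib.SL2.ne_inv_of_tr htr (eq_inv_of_mul_eq_one_left (congrArg Subtype.val h2))
        rw [hi', show i = 2 by omega]; norm_num
      have hgen : ∀ x, x ∈ Subgroup.zpowers c := by
        have : Subgroup.zpowers c = ⊤ := Subgroup.eq_top_of_card_eq _ (by
          rw [Nat.card_zpowers, hord, T.card, hk, hk1]; all_goals norm_num)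
        intro x; rw [this]; trivial
      have h4 : ((θ c : ℂˣ) : ℂ) ^ 4 = 1 := by
        rw [← Units.val_pow_eq_pow_val, ← map_pow, ← hord, pow_orderOf_eq_one, map_one, Units.val_one]
      have h2 : ((θ c : ℂˣ) : ℂ) ^ 2 ≠ 1 := by
        intro e
        refine hθ (MonoidHom.ext fun x => ?_)
        obtain ⟨i, rfl⟩ := Subgroup.mem_zpowers_iff.1 (hgen x)
        rw [pow_two θ, MonoidHom.mul_apply, map_zpow, ← mul_zpow,
          show θ c * θ c = 1 from Units.ext (by rw [Units.val_mul, ← pow_two, e, Units.val_one]), one_zpow,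
          MonoidHom.one_apply]
      have hm1 : ((θ c : ℂˣ) : ℂ) ^ 2 = -1 :=
        (mul_self_eq_one_iff.1 (by rw [← pow_two, ← pow_mul]; exact h4)).resolve_left h2
      have hne : ((θ c : ℂˣ) : ℂ) ≠ 0 := Units.ne_zero _
      rw [hlhs, Units.val_inv_eq_inv_val]
      field_simp
      linear_combination hm1

end Cfsg.Agent.S2434
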