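import Cfsg.Statements.S2435
import Cfsg.Agent.SL2Char.Values
-- import your own Cfsg.Agent.* helpers here

set_option autoImplicit false
open Cfsg

namespace Cfsg.Agent.S2435

/-- Let F be a finite field with q elements, q odd and q ≥ 5, and χ an irreducible complex character of SL₂ over F. If χ has degree (q + 1)/2, then at a diagonal element with entry a, a² ≠ 1, χ takes the value 1 when a is a square in F and −1 otherwise. If χ has degree (q − 1)/2, then at an element g with no eigenvector in F² (so g has order dividing q + 1), χ takes the value −1 when g raised to the power (q + 1)/2 is the identity and the value 1 otherwise. -/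
theorem result {F : Type*} [Field F] [Fintype F] (hodd : Odd (Fintype.card F)) (hq : 5 ≤ Fintype.card F)
    (χ : Matrix.SpecialLinearGroup (Fin 2) F → ℂ) (hχ : Cfsg.IsIrrCharacter (Matrix.SpecialLinearGroup (Fin 2) F) χ) (g : Matrix.SpecialLinearGroup (Fin 2) F) :
    (χ 1 = (((Fintype.card F + 1) / 2 : ℕ) : ℂ) → (g : Matrix (Fin 2) (Fin 2) F) 0 1 = 0 → (g : Matrix (Fin 2) (Fin 2) F) 1 0 = 0 → (g : Matrix (Fin 2) (Fin 2) F) 0 0 ^ 2 ≠ 1 →
      (IsSquare ((g : Matrix (Fin 2) (Fin 2) F) 0 0) → χ g = 1) ∧ (¬ IsSquare ((g : Matrix (Fin 2) (Fin 2) F) 0 0) → χ g = -1)) ∧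
    (χ 1 = (((Fintype.card F - 1) / 2 : ℕ) : ℂ) → (∀ (c : F) (v : Fin 2 → F), v ≠ 0 → (g : Matrix (Fin 2) (Fin 2) F).mulVec v ≠ c • v) →
      (((g ^ ((Fintype.card F + 1) / 2)) : Matrix (Fin 2) (Fin 2) F) = 1 → χ g = -1) ∧ (((g ^ ((Fintype.card F + 1) / 2)) : Matrix (Fin 2) (Fin 2) F) ≠ 1 → χ g = 1)) := by
  classical
  obtain ⟨k, hk⟩ := hodd
  refine ⟨fun hdeg h01 h10 ha => ?_, fun hdeg hvec => ?_⟩
  · obtain ⟨C, T⟩ := CfsgLib.SL2Char.exists_torus (F := F)
    obtain ⟨O⟩ := CfsgLib.SL2Char.nonempty_oddTable ⟨k, hk⟩ T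
    obtain ⟨hne, htr⟩ := CfsgLib.SL2Char.tr_sq_ne_of_diag h10 ha
    have hd := CfsgLib.SL2.det_eq g
    rw [h10, mul_zero, sub_zero] at hd
    have hsq : ∀ x : F, x ≠ 0 → O.α₀ x * O.α₀ x = 1 := fun x hx => by
      have h := congrArg (fun α : MulChar F ℂ => α x) O.hα₀
      simpa [pow_two, MulChar.mul_apply, MulChar.one_apply (IsUnit.mk0 x hx)] using h
    set a := (g : Matrix (Fin 2) (Fin 2) F) 0 0 with hadef
    have ha0 : a ≠ 0 := left_ne_zero_of_mul_eq_one hd
    have hval : χ g = O.α₀ a := by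
      have hR : CfsgLib.SL2Char.Rf O.α₀ g = 2 * O.α₀ a := by
        rw [CfsgLib.SL2Char.Rf_split _ g h10 hne]
        have e : O.α₀ a * O.α₀ ((g : Matrix (Fin 2) (Fin 2) F) 1 1) = 1 := by rw [← map_mul, hd, map_one]
        linear_combination O.α₀ a * e - O.α₀ ((g : Matrix (Fin 2) (Fin 2) F) 1 1) * hsq a ha0
      have hs := O.hsum g
      rw [← O.hswap g, CfsgLib.SL2Char.tau_diag O.e h01 h10, hR] at hs
      rcases O.cases ⟨χ, hχ⟩ with ⟨-, h⟩ | ⟨-, h⟩ | ⟨-, h⟩ | ⟨-, h⟩ | ⟨h', h⟩ | ⟨-, h⟩ <;> replace h : χ 1 = _ := h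
      all_goals try (exfalso; rw [hdeg] at h; have := Nat.cast_injective h; omega)
      rcases h' with e | e <;> rw [show χ = _ from congrArg Subtype.val e]
      · linear_combination hs / 2
      · rw [← O.hswap g, CfsgLib.SL2Char.tau_diag O.e h01 h10]; linear_combination hs / 2
    rw [hval]
    refine ⟨fun hs => ?_, fun hns => ?_⟩
    · obtain ⟨w, hw⟩ := hs
      have hw0 : w ≠ 0 := fun e => ha0 (by rw [hw, e, mul_zero])
      rw [hw, map_mul, hsq w hw0]
    · refine (mul_self_eq_one_iff.1 (hsq a ha0)).resolve_left fun h1 => O.hα₀1 ?_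
      refine MulChar.ext fun u => ?_
      rw [MulChar.one_apply u.isUnit]
      by_cases hu : IsSquare (u : F)
      · obtain ⟨w, hw⟩ := hu
        rw [hw, map_mul]
        exact hsq w fun e => u.ne_zero (by rw [hw, e, mul_zero])
      · have hchar : ringChar F ≠ 2 := fun hr => (CfsgLib.SL2Char.eps_odd (F := F) ⟨k, hk⟩).1 (by
          haveI : CharP F 2 := ringChar.of_eq hr
          exact CharTwo.two_eq_zero)
        obtain ⟨w, hw⟩ : IsSquare (a * (u : F)) := (FiniteField.isSquare_iff hchar (mul_ne_zero ha0 u.ne_zero)).mpr (by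
          rw [mul_pow, (FiniteField.pow_dichotomy hchar ha0).resolve_left
              (fun h => hns ((FiniteField.isSquare_iff hchar ha0).mpr h)),
            (FiniteField.pow_dichotomy hchar u.ne_zero).resolve_left
              (fun h => hu ((FiniteField.isSquare_iff hchar u.ne_zero).mpr h))]
          norm_num)
        have h : O.α₀ (a * (u : F)) = 1 := by
          rw [hw, map_mul]; exact hsq w fun e => mul_ne_zero ha0 u.ne_zero (by rw [hw, e, mul_zero])
        rwa [map_mul, h1, one_mul] at h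
  · have hg := CfsgLib.SL2Char.noEigen_of_vec hvec
    have T := CfsgLib.SL2Char.isTorus_centralizer hg
    obtain ⟨O⟩ := CfsgLib.SL2Char.nonempty_oddTable ⟨k, hk⟩ T
    have hgz : g ∉ Subgroup.center (Matrix.SpecialLinearGroup (Fin 2) F) :=
      CfsgLib.SL2.not_scalar_of_tr_sq_ne hg.tr_sq_ne
    have hgC : g ∈ Subgroup.centralizer ({g} : Set (Matrix.SpecialLinearGroup (Fin 2) F)) :=
      Subgroup.mem_centralizer_singleton_iff.2 rfl
    let c : Subgroup.centralizer ({g} : Set (Matrix.SpecialLinearGroup (Fin 2) F)) := ⟨g, hgC⟩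
    have hsq : ∀ x, ((O.θ₀ x : ℂˣ) : ℂ) * ((O.θ₀ x : ℂˣ) : ℂ) = 1 := fun x => by
      have h := DFunLike.congr_fun O.hθ₀ x
      rw [pow_two O.θ₀, MonoidHom.mul_apply, MonoidHom.one_apply] at h
      rw [← Units.val_mul, h, Units.val_one]
    have hval : χ g = -((O.θ₀ c : ℂˣ) : ℂ) := by
      have hs := O.ssum g
      have hag := CfsgLib.SL2Char.swap_agree (CfsgLib.CharBasics.isCharacter_of_irr O.s₁.2) O.sswap hg.tr_sq_ne
      have hff := CfsgLib.SL2Char.ff_noncentral T (α := T.al O.θ₀) (θ := O.θ₀) (c := c) hgz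
      rw [map_inv, Units.val_inv_eq_inv_val, inv_eq_of_mul_eq_one_right (hsq c)] at hff
      rw [hag, show CfsgLib.SL2Char.ff (T.al O.θ₀) O.θ₀ g = _ from hff] at hs
      rcases O.cases ⟨χ, hχ⟩ with ⟨-, h⟩ | ⟨-, h⟩ | ⟨-, h⟩ | ⟨-, h⟩ | ⟨-, h⟩ | ⟨h', h⟩ <;> replace h : χ 1 = _ := h
      all_goals try (exfalso; rw [hdeg] at h; have := Nat.cast_injective h; omega)
      rcases h' with e | e <;> rw [show χ = _ from congrArg Subtype.val e]
      · linear_combination hs / 2
      · rw [hag]; linear_combination hs / 2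
    have hk2 : (Fintype.card F + 1) / 2 = k + 1 := by omega
    have hiff : ((O.θ₀ c : ℂˣ) : ℂ) = 1 ↔ g ^ (k + 1) = 1 := by
      haveI := T.cyclic
      obtain ⟨z, hz⟩ := IsCyclic.exists_generator (α := Subgroup.centralizer ({g} : Set (Matrix.SpecialLinearGroup (Fin 2) F)))
      have hzord : orderOf z = 2 * (k + 1) := by
        rw [orderOf_eq_card_of_forall_mem_zpowers hz, T.card, hk]; ring
      have hz1 : ((O.θ₀ z : ℂˣ) : ℂ) = -1 := (mul_self_eq_one_iff.1 (hsq z)).resolve_left fun e => O.hθ₀1 (by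
        refine MonoidHom.ext fun x => ?_
        obtain ⟨i, rfl⟩ := Subgroup.mem_zpowers_iff.1 (hz x)
        rw [map_zpow, show O.θ₀ z = 1 from Units.ext e, one_zpow, MonoidHom.one_apply])
      obtain ⟨i, hi⟩ := (mem_powers_iff_mem_zpowers (x := z) (y := c)).mpr (hz c)
      replace hi : z ^ i = c := hi
      have hgc : g ^ (k + 1) = 1 ↔ c ^ (k + 1) = 1 :=
        ⟨fun e => Subtype.ext e, fun e => congrArg Subtype.val e⟩
      rw [hgc, ← hi, map_pow, Units.val_pow_eq_pow_val, hz1, ← pow_mul, ← orderOf_dvd_iff_pow_eq_one (x := z), hzord,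
        Nat.mul_dvd_mul_iff_right (Nat.succ_pos k), neg_one_pow_eq_one_iff_even (by norm_num), even_iff_two_dvd]
    rw [hval, hk2]
    refine ⟨fun h => ?_, fun h => ?_⟩
    · rw [hiff.2 (Subtype.ext (by simpa using h))]
    · rw [(mul_self_eq_one_iff.1 (hsq c)).resolve_left fun e => h (by
        simpa using congrArg Subtype.val (hiff.1 e))]
      norm_num

end Cfsg.Agent.S2435
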