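import Cfsg.Statements.S2437
import Cfsg.Agent.SL2.GLTwo
-- import your own Cfsg.Agent.* helpers here

set_option autoImplicit false
open Cfsg

namespace Cfsg.Agent.S2437

/-- Over a finite field F with q elements, q odd, the upper triangular subgroup of SL₂ (a Borel subgroup, of order q(q − 1)) has exactly q + 3 conjugacy classes. -/
theorem result {F : Type*} [Field F] [Fintype F] (hodd : Odd (Fintype.card F)) :
    Nat.card (ConjClasses ((Cfsg.upperTriangularGL 2 F).comap Matrix.SpecialLinearGroup.toGL)) = Fintype.card F + 3 := by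
  classical
  set B := (Cfsg.upperTriangularGL 2 F).comap Matrix.SpecialLinearGroup.toGL with hB
  have hmem : ∀ g : Matrix.SpecialLinearGroup (Fin 2) F, g ∈ B ↔ g.1 1 0 = 0 := fun g => by
    rw [hB, Subgroup.mem_comap, CfsgLib.SL2.GLTwo.mem_borel]; rfl
  have hunit : ∀ g : B, g.1.1 0 0 * g.1.1 1 1 = 1 := fun g => by
    have := CfsgLib.SL2.det_eq g.1
    rwa [(hmem g.1).mp g.2, mul_zero, sub_zero] at this
  let e : B ≃ Fˣ × F :=
    { toFun := fun g => (Units.mk0 (g.1.1 0 0) (fun h => by have := hunit g; rw [h, zero_mul] at this; exact zero_ne_one this), g.1.1 0 1)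
      invFun := fun x => ⟨CfsgLib.SL2.mk2 (x.1 : F) x.2 0 ((x.1⁻¹ : Fˣ) : F) (by simp), (hmem _).mpr rfl⟩
      left_inv := fun g => by
        refine Subtype.ext (CfsgLib.SL2.ext2 ?_ ?_ ?_ ?_) <;> simp
        · exact ((hmem g.1).mp g.2).symm
        · exact inv_eq_of_mul_eq_one_right (hunit g)
      right_inv := fun x => by simp }
  have hcomm : ∀ x y : Fˣ × F, Commute (e.symm x) (e.symm y) ↔
      y.2 * ((x.1 : F) - (x.1 : F)⁻¹) = x.2 * ((y.1 : F) - (y.1 : F)⁻¹) := by
    intro x y
    constructor
    · intro h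
      have h1 : (e.symm x * e.symm y).1.1 0 1 = (e.symm y * e.symm x).1.1 0 1 := by rw [h.eq]
      simp [e, CfsgLib.SL2.mul01] at h1
      linear_combination h1
    · intro h
      refine Subtype.ext (CfsgLib.SL2.ext2 ?_ ?_ ?_ ?_) <;>
        simp [e, CfsgLib.SL2.mul00, CfsgLib.SL2.mul01, CfsgLib.SL2.mul10, CfsgLib.SL2.mul11]
      · ring
      · linear_combination h
      · ring
  set q := Fintype.card F with hq
  have h2 : (2 : F) ≠ 0 := by
    intro h
    have : CharP F 2 := CharTwo.of_one_ne_zero_of_two_eq_zero one_ne_zero h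
    have := FiniteField.even_card_iff_char_two.mp (ringChar.eq F 2)
    have := Nat.odd_iff.mp hodd
    omega
  have hsq : ∀ a : Fˣ, (a : F) - (a : F)⁻¹ = 0 ↔ (a = 1 ∨ a = -1) := by
    intro a
    have ha := a.ne_zero
    constructor
    · intro h
      have h' : ((a : F) - 1) * ((a : F) + 1) = 0 := by field_simp at h; linear_combination h
      rcases mul_eq_zero.mp h' with h' | h'
      · exact Or.inl (Units.ext (sub_eq_zero.mp h'))
      · exact Or.inr (Units.ext (by simpa using eq_neg_of_add_eq_zero_left h'))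
    · rintro (rfl | rfl) <;> simp
  have hpm : (Finset.univ.filter fun a : Fˣ => (a : F) - (a : F)⁻¹ = 0).card = 2 := by
    have : (Finset.univ.filter fun a : Fˣ => (a : F) - (a : F)⁻¹ = 0) = {1, -1} := by
      ext a; simp [hsq]
    rw [this, Finset.card_pair]
    intro h
    apply h2
    have h' : (1 : F) = -1 := by simpa using congrArg Units.val h
    linear_combination h'
  have hcount : ∀ x : Fˣ × F, Nat.card {y : Fˣ × F // y.2 * ((x.1 : F) - (x.1 : F)⁻¹) = x.2 * ((y.1 : F) - (y.1 : F)⁻¹)} =
      if (x.1 : F) - (x.1 : F)⁻¹ = 0 then (if x.2 = 0 then q * (q - 1) else 2 * q) else q - 1 := by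
    intro x
    split_ifs with h1 h2'
    · rw [Nat.card_congr (Equiv.subtypeUnivEquiv fun y => by rw [h1, h2', mul_zero, zero_mul]), Nat.card_prod,
        Nat.card_units, Nat.card_eq_fintype_card, mul_comm]
    · rw [Nat.card_congr (β := {a : Fˣ // (a : F) - (a : F)⁻¹ = 0} × F)
        { toFun := fun y => (⟨y.1.1, (mul_eq_zero.mp (y.2.symm.trans (mul_eq_zero_of_right _ h1))).resolve_left h2'⟩, y.1.2)
          invFun := fun z => ⟨(z.1.1, z.2), (mul_eq_zero_of_right _ h1).trans (mul_eq_zero_of_right _ z.1.2).symm⟩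
          left_inv := fun y => rfl
          right_inv := fun z => rfl }, Nat.card_prod, Nat.card_eq_fintype_card, Nat.card_eq_fintype_card,
        Fintype.card_subtype, hpm]
    · rw [Nat.card_congr (β := Fˣ)
        { toFun := fun y => y.1.1
          invFun := fun a => ⟨(a, x.2 * ((a : F) - (a : F)⁻¹) / ((x.1 : F) - (x.1 : F)⁻¹)), div_mul_cancel₀ _ h1⟩
          left_inv := fun y => by
            refine Subtype.ext (Prod.ext rfl ?_)
            exact ((eq_div_iff h1).mpr y.2).symm
          right_inv := fun z => rfl }, Nat.card_units, Nat.card_eq_fintype_card]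
  have hpairs : Nat.card {p : B × B // Commute p.1 p.2} = q * (q - 1) * (q + 3) := by
    rw [Nat.card_congr ((e.prodCongr e).subtypeEquiv (q := fun p : (Fˣ × F) × (Fˣ × F) =>
        p.2.2 * ((p.1.1 : F) - (p.1.1 : F)⁻¹) = p.1.2 * ((p.2.1 : F) - (p.2.1 : F)⁻¹)) (fun p => by
        have := hcomm (e p.1) (e p.2)
        rw [e.symm_apply_apply, e.symm_apply_apply] at this
        exact this)),
      Nat.card_congr (Equiv.subtypeProdEquivSigmaSubtype (fun x y : Fˣ × F =>
        y.2 * ((x.1 : F) - (x.1 : F)⁻¹) = x.2 * ((y.1 : F) - (y.1 : F)⁻¹))), Nat.card_sigma]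
    simp only [hcount]
    rw [Fintype.sum_prod_type]
    have hinner : ∀ a : Fˣ, ∑ b : F, (if (a : F) - (a : F)⁻¹ = 0 then (if b = 0 then q * (q - 1) else 2 * q) else q - 1) =
        q * (q - 1) + if (a : F) - (a : F)⁻¹ = 0 then 2 * (q * (q - 1)) else 0 := by
      intro a
      by_cases h : (a : F) - (a : F)⁻¹ = 0
      · simp only [h, if_true]
        rw [← Finset.add_sum_erase _ _ (Finset.mem_univ (0 : F)), if_pos rfl,
          Finset.sum_congr rfl (fun b hb => if_neg (Finset.ne_of_mem_erase hb)), Finset.sum_const,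
          Finset.card_erase_of_mem (Finset.mem_univ _), Finset.card_univ, smul_eq_mul]
        ring
      · simp [h, hq]
    simp only [hinner, Finset.sum_add_distrib, Finset.sum_const, Finset.card_univ, Fintype.card_units, smul_eq_mul,
      Finset.sum_ite, mul_zero, add_zero, hpm]
    obtain ⟨r, hr⟩ : ∃ r, q = r + 1 := ⟨q - 1, by have := Fintype.card_pos (α := F); omega⟩
    rw [← hq, hr, Nat.add_sub_cancel]
    ring
  have hB' : Nat.card B = q * (q - 1) := by
    rw [Nat.card_congr e, Nat.card_prod, Nat.card_units, Nat.card_eq_fintype_card, mul_comm]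
  have h := card_comm_eq_card_conjClasses_mul_card B
  rw [hpairs, hB', mul_comm (Nat.card _)] at h
  have hpos : 0 < q * (q - 1) := hB' ▸ Nat.card_pos
  exact (Nat.eq_of_mul_eq_mul_left hpos h).symm

end Cfsg.Agent.S2437
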