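import Cfsg.Statements.S2438
import Cfsg.Agent.SL2Char.Degrees
-- import your own Cfsg.Agent.* helpers here

set_option autoImplicit false
open Cfsg

namespace Cfsg.Agent.S2438

/-- Let F be a finite field with q elements, q odd, q ≥ 5, U the upper unitriangular subgroup of SL₂ over F, and χ an irreducible complex character. The sum of the values of χ over U equals 2q, q, 0, q, 0 according as the degree of χ is q + 1, q, q − 1, (q + 1)/2, (q − 1)/2; so among these five degrees the sum vanishes exactly for the degrees q − 1 and (q − 1)/2, i.e. the irreducible characters of those two degrees are the ones whose restriction to U does not contain the trivial character (the cuspidal characters), while those of degree q + 1, q and (q + 1)/2 are not cuspidal. -/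
theorem result {F : Type*} [Field F] [Fintype F] [DecidableEq F] (hodd : Odd (Fintype.card F)) (hq : 5 ≤ Fintype.card F)
    (χ : Matrix.SpecialLinearGroup (Fin 2) F → ℂ) (hχ : Cfsg.IsIrrCharacter (Matrix.SpecialLinearGroup (Fin 2) F) χ) :
    (χ 1 = (Fintype.card F : ℂ) + 1 →
      (∑ g : Matrix.SpecialLinearGroup (Fin 2) F, if (g : Matrix (Fin 2) (Fin 2) F) 1 0 = 0 ∧ (g : Matrix (Fin 2) (Fin 2) F) 0 0 = 1 ∧ (g : Matrix (Fin 2) (Fin 2) F) 1 1 = 1 then χ g else 0) = 2 * (Fintype.card F : ℂ)) ∧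
    (χ 1 = (Fintype.card F : ℂ) →
      (∑ g : Matrix.SpecialLinearGroup (Fin 2) F, if (g : Matrix (Fin 2) (Fin 2) F) 1 0 = 0 ∧ (g : Matrix (Fin 2) (Fin 2) F) 0 0 = 1 ∧ (g : Matrix (Fin 2) (Fin 2) F) 1 1 = 1 then χ g else 0) = (Fintype.card F : ℂ)) ∧
    (χ 1 = (Fintype.card F : ℂ) - 1 →
      (∑ g : Matrix.SpecialLinearGroup (Fin 2) F, if (g : Matrix (Fin 2) (Fin 2) F) 1 0 = 0 ∧ (g : Matrix (Fin 2) (Fin 2) F) 0 0 = 1 ∧ (g : Matrix (Fin 2) (Fin 2) F) 1 1 = 1 then χ g else 0) = 0) ∧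
    (χ 1 = (((Fintype.card F + 1) / 2 : ℕ) : ℂ) →
      (∑ g : Matrix.SpecialLinearGroup (Fin 2) F, if (g : Matrix (Fin 2) (Fin 2) F) 1 0 = 0 ∧ (g : Matrix (Fin 2) (Fin 2) F) 0 0 = 1 ∧ (g : Matrix (Fin 2) (Fin 2) F) 1 1 = 1 then χ g else 0) = (Fintype.card F : ℂ)) ∧
    (χ 1 = (((Fintype.card F - 1) / 2 : ℕ) : ℂ) →
      (∑ g : Matrix.SpecialLinearGroup (Fin 2) F, if (g : Matrix (Fin 2) (Fin 2) F) 1 0 = 0 ∧ (g : Matrix (Fin 2) (Fin 2) F) 0 0 = 1 ∧ (g : Matrix (Fin 2) (Fin 2) F) 1 1 = 1 then χ g else 0) = 0) := by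
  classical
  obtain ⟨C, T⟩ := CfsgLib.SL2Char.exists_torus (F := F)
  obtain ⟨O⟩ := CfsgLib.SL2Char.nonempty_oddTable hodd T
  have h1 := Fintype.card_pos (α := F)
  obtain ⟨k, hk⟩ := hodd
  rw [CfsgLib.SL2Char.filter_sum_eq χ]
  have key : (χ 1 = ((Fintype.card F + 1 : ℕ) : ℂ) → CfsgLib.SL2Char.uSum χ = 2 * (Fintype.card F : ℂ)) ∧
      (χ 1 = ((Fintype.card F : ℕ) : ℂ) → CfsgLib.SL2Char.uSum χ = (Fintype.card F : ℂ)) ∧
      (χ 1 = ((Fintype.card F - 1 : ℕ) : ℂ) → CfsgLib.SL2Char.uSum χ = 0) ∧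
      (χ 1 = (((Fintype.card F + 1) / 2 : ℕ) : ℂ) → CfsgLib.SL2Char.uSum χ = (Fintype.card F : ℂ)) ∧
      (χ 1 = (((Fintype.card F - 1) / 2 : ℕ) : ℂ) → CfsgLib.SL2Char.uSum χ = 0) := by
    rcases O.cases ⟨χ, hχ⟩ with ⟨-, h⟩ | ⟨h', h⟩ | ⟨⟨a, -, h'⟩, h⟩ | ⟨⟨θ, -, h'⟩, h⟩ | ⟨h', h⟩ | ⟨h', h⟩ <;>
      replace h : χ 1 = _ := h <;> refine ⟨?_, ?_, ?_, ?_, ?_⟩ <;> intro hd
    all_goals first
      | (rw [h] at hd; have := Nat.cast_injective hd; omega)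
      | skip
    · rw [show χ = _ from h', CfsgLib.SL2Char.uSum_St]
    · rw [show χ = _ from h', CfsgLib.SL2Char.uSum_Rf]
    · rw [show χ = _ from h', CfsgLib.SL2Char.uSum_ff T]
    · obtain ⟨a, b⟩ := CfsgLib.SL2Char.uSum_swap O.hswap O.hsum
      rcases h' with e | e <;> rw [show χ = _ from congrArg Subtype.val e]
      · rw [a, CfsgLib.SL2Char.uSum_Rf]; ring
      · rw [b, CfsgLib.SL2Char.uSum_Rf]; ring
    · obtain ⟨a, b⟩ := CfsgLib.SL2Char.uSum_swap O.sswap O.ssum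
      rcases h' with e | e <;> rw [show χ = _ from congrArg Subtype.val e]
      · rw [a, CfsgLib.SL2Char.uSum_ff T]; ring
      · rw [b, CfsgLib.SL2Char.uSum_ff T]; ring
  obtain ⟨k1, k2, k3, k4, k5⟩ := key
  exact ⟨fun h => k1 (by rw [h]; push_cast; rfl), k2, fun h => k3 (by rw [h, Nat.cast_sub h1, Nat.cast_one]), k4, k5⟩

end Cfsg.Agent.S2438
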