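import Cfsg.Statements.S2441
import Cfsg.Agent.Chev.BorelTits.Radical
import Cfsg.Agent.Chev.GeoCert
import Cfsg.Agent.Chev.Inst
import Cfsg.Agent.Chev.UniqueSt.Final
import Cfsg.Agent.S0914
import Cfsg.Agent.Blocks.RegularRank
import Cfsg.Agent.S0955
import Cfsg.Agent.Blocks.SylowDefectCount
import Cfsg.Agent.Blocks.DefectConj
import Cfsg.Agent.Blocks.DefectGroup

set_option autoImplicit false
open Cfsg

namespace Cfsg.Agent.S2441

open CfsgLib.CharBasics in
/-- Two blocks: the Steinberg character and a single block of full defect. -/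
theorem two_blocks {F : Type} [Field F] [Fintype F] (p : ℕ) [Fact p.Prime] [CharP F p] {D : Cfsg.Lie.ChevalleyDatum}
    (hD : D ∈ [Cfsg.Lie.chevG2, Cfsg.Lie.chevB2, Cfsg.Lie.chevD4, Cfsg.Lie.chevF4, Cfsg.Lie.chevE6, Cfsg.Lie.chevE7, Cfsg.Lie.chevE8])
    (h0 : 0 < D.rank)
    (huniq : ∀ χ : IrrCharacter (D.group F),
      p ^ (Nat.card (D.group F)).factorization p ∣ charDegree (χ : D.group F → ℂ) →
      (χ : D.group F → ℂ) = D.steinbergCharacter F)
    (M : Ideal Cfsg.AlgInt) (hM : Cfsg.IsPModular p M) :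
    Nat.card {B : Set (IrrCharacter (D.group F)) // IsPBlock M B} = 2 := by
  classical
  obtain ⟨S⟩ := CfsgLib.Chev.exists_sys hD
  have hGeo := CfsgLib.Chev.geo_of_mem hD
  have := S.finite_W (F := F)
  haveI := CfsgLib.Chev.Sys.finite_group (D := D) (F := F)
  haveI := CfsgLib.Chev.Sys.finite_GL (D := D) (F := F)
  haveI := Fintype.ofFinite (D.group F)
  haveI : Fintype (IrrCharacter (D.group F)) := @Fintype.ofFinite _ finite_irrCharacter
  have hp : p.Prime := Fact.out
  set a := (Nat.card (D.group F)).factorization p with ha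
  obtain ⟨e, -, he⟩ := FiniteField.card F p
  have hU : IsPGroup p ((D.posUnipotent F).subgroupOf (D.group F)) :=
    IsPGroup.of_card (n := (e : ℕ) * (D.nroots / 2)) (by
      rw [Nat.card_congr (Subgroup.subgroupOfEquivOfLe S.pos_le_group).toEquiv, S.card_pos,
        Nat.card_eq_fintype_card, he, pow_mul])
  set P : Sylow p (D.group F) := hU.toSylow (S.not_dvd_index_pos p) with hPdef
  have hPne : (P : Subgroup (D.group F)) ≠ ⊥ := by
    intro h
    have hm : (⟨S.xU (D.simple 0) 1, S.xU_mem_group _ _⟩ : D.group F) ∈ (P : Subgroup (D.group F)) :=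
      Subgroup.mem_subgroupOf.2 (S.xU_mem_posUnipotent (S.simple_pos 0 h0).1 (S.simple_lt h0) 1)
    rw [h, Subgroup.mem_bot] at hm
    exact one_ne_zero (S.xU_pos_eq_zero (S.simple_lt h0) (congrArg Subtype.val hm))
  have hpG : a ≠ 0 := fun h => hPne (Subgroup.eq_bot_of_card_eq _ (by rw [P.card_eq_multiplicity, ← ha, h, pow_zero]))
  have hPa : Nat.card (P : Subgroup (D.group F)) = p ^ a := P.card_eq_multiplicity
  -- the Steinberg character
  let T : IrrCharacter (D.group F) := ⟨D.steinbergCharacter F, (S.steinberg_main hGeo).1⟩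
  have hTd : p ^ a ∣ charDegree (T : D.group F → ℂ) := by
    refine dvd_of_eq ?_
    have h1 := apply_one (isCharacter_of_irr T.2)
    rw [show (T : D.group F → ℂ) 1 = D.steinbergCharacter F 1 from rfl, S.steinberg_one hGeo, ← Nat.cast_pow,
      Nat.cast_inj] at h1
    rw [← h1, ← hPa, hPdef]
    show Nat.card ((D.posUnipotent F).subgroupOf (D.group F)) = _
    rw [Nat.card_congr (Subgroup.subgroupOfEquivOfLe S.pos_le_group).toEquiv, S.card_pos]
  have hdef0 : ∀ χ : IrrCharacter (D.group F), p ^ a ∣ charDegree (χ : D.group F → ℂ) →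
      blockDefect p (blockOf M (χ : D.group F → ℂ)) = 0 := by
    intro χ hd
    have hle : a ≤ (charDegree (χ : D.group F → ℂ)).factorization p :=
      (hp.pow_dvd_iff_le_factorization (charDegree_pos χ.2).ne').1 hd
    have hnd : ¬ p ∣ Nat.card (D.group F) / charDegree (χ : D.group F → ℂ) := by
      intro h
      have hq0 : Nat.card (D.group F) / charDegree (χ : D.group F → ℂ) ≠ 0 :=
        (Nat.div_pos (Nat.le_of_dvd Nat.card_pos (degree_dvd χ)) (charDegree_pos χ.2)).ne'
      have h1 := hp.factorization_pos_of_dvd hq0 h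
      rw [ha, ← Nat.mul_div_cancel' (degree_dvd χ),
        Nat.factorization_mul (charDegree_pos χ.2).ne' hq0, Finsupp.add_apply] at hle
      omega
    have hs := (Cfsg.Agent.S0914.result p M hM χ).1 hnd
    rw [blockDefect, hs, Set.image_singleton, csInf_singleton, Nat.sub_eq_zero_iff_le]
    exact hle
  -- a block of positive defect has the Sylow subgroup as defect group
  have hfull : ∀ B : Set (IrrCharacter (D.group F)), IsPBlock M B → blockDefect p B ≠ 0 →
      IsDefectGroup p M B (P : Subgroup (D.group F)) := by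
    intro B hB hne
    obtain ⟨g, hg⟩ := CfsgLib.Blocks.exists_defectClass hM hB
    obtain ⟨R⟩ : Nonempty (Sylow p (Subgroup.centralizer ({g} : Set (D.group F)))) := inferInstance
    set Q := (R : Subgroup (Subgroup.centralizer ({g} : Set (D.group F)))).map
      (Subgroup.centralizer ({g} : Set (D.group F))).subtype with hQ
    have hQG : IsDefectGroup p M B Q := ⟨g, hg, R, rfl⟩
    have hcard := CfsgLib.Blocks.card_defectGroup hM hB hQG
    have hbot : Q ≠ ⊥ := fun h => by
      rw [h, Subgroup.card_bot] at hcard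
      exact (one_lt_pow₀ hp.one_lt hne).ne hcard
    have hreg : ¬ p ∣ orderOf g := by
      intro h
      apply hg.2.1
      rw [CfsgLib.Blocks.blockCoeff_eq_zero hM hB h]
      exact CfsgLib.Blocks.memLocalIdeal_zero hM
    have hg1 := S.eq_one_of_centralizes_radical hGeo h0 p (R.2.map _) hbot
      (Cfsg.Agent.S0955.result p M hM B hB Q hQG) (x := g) (fun d hd => by
        obtain ⟨y, -, rfl⟩ := Subgroup.mem_map.1 hd
        exact Subgroup.mem_centralizer_singleton_iff.1 y.2) hreg
    have htop : Subgroup.centralizer ({g} : Set (D.group F)) = ⊤ := by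
      rw [eq_top_iff]
      intro x _
      rw [Subgroup.mem_centralizer_singleton_iff, hg1, one_mul, mul_one]
    have hQc : Nat.card Q = p ^ a := by
      rw [hQ, Subgroup.card_map_of_injective (Subgroup.centralizer ({g} : Set (D.group F))).subtype_injective,
        R.card_eq_multiplicity, htop, Subgroup.card_top, ha]
    obtain ⟨T', hT'⟩ := (CfsgLib.Blocks.isPGroup_of_isDefectGroup hQG).exists_le_sylow
    have hQT : Q = (T' : Subgroup (D.group F)) := Subgroup.eq_of_le_of_card_ge hT' (by
      rw [hQc, T'.card_eq_multiplicity])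
    obtain ⟨c, hc⟩ := MulAction.exists_smul_eq (D.group F) T' P
    have := CfsgLib.Blocks.isDefectGroup_map_conj hM hB hQG c
    rwa [hQT, show (T' : Subgroup (D.group F)).map (MulAut.conj c).toMonoidHom = (P : Subgroup (D.group F)) by
      rw [← hc, Sylow.coe_subgroup_smul]; rfl] at this
  have hrad : (Cfsg.pCore p (Subgroup.normalizer ((P : Subgroup (D.group F)) : Set (D.group F)))).map
      (Subgroup.normalizer ((P : Subgroup (D.group F)) : Set (D.group F))).subtype = (P : Subgroup (D.group F)) := by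
    refine P.3 ((CfsgLib.PReduced.isPGroup_pCore p _).map _) ?_
    exact CfsgLib.PReduced.le_pCoreOf Subgroup.le_normalizer le_rfl P.isPGroup'
  have hcount : Nat.card {B : Set (IrrCharacter (D.group F)) //
      IsPBlock M B ∧ IsDefectGroup p M B (P : Subgroup (D.group F))} = 1 := by
    rw [CfsgLib.Blocks.card_blocks_sylow_defect hM P, Nat.card_eq_one_iff_unique]
    refine ⟨⟨fun C C' => Subtype.ext ?_⟩, ⟨⟨ConjClasses.mk 1, fun m hm => ?_⟩⟩⟩
    · obtain ⟨C, hC⟩ := C
      obtain ⟨C', hC'⟩ := C'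
      obtain ⟨m, rfl⟩ := Quotient.exists_rep C
      obtain ⟨m', rfl⟩ := Quotient.exists_rep C'
      have key : ∀ m : Subgroup.normalizer ((P : Subgroup (D.group F)) : Set (D.group F)),
          ¬ p ∣ orderOf m ∧ (m : D.group F) ∈ Subgroup.centralizer ((P : Subgroup (D.group F)) : Set (D.group F)) →
          m = 1 := fun m ⟨hm1, hm2⟩ => Subtype.ext (S.eq_one_of_centralizes_radical hGeo h0 p P.isPGroup' hPne hrad
            (fun d hd => Subgroup.mem_centralizer_iff.1 hm2 d hd) (by rwa [Subgroup.orderOf_coe]))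
      show Quotient.mk _ m = Quotient.mk _ m'
      rw [key m (hC m rfl), key m' (hC' m' rfl)]
    · obtain ⟨c, hc⟩ := isConj_iff.1 (ConjClasses.mk_eq_mk_iff_isConj.1 hm.symm)
      rw [mul_one, mul_inv_cancel] at hc
      subst hc
      exact ⟨by rw [orderOf_one, Nat.dvd_one]; exact hp.ne_one, Subgroup.one_mem _⟩
  have hzero : Nat.card {B : Set (IrrCharacter (D.group F)) // IsPBlock M B ∧ blockDefect p B = 0} = 1 := by
    rw [Nat.card_eq_one_iff_unique]
    refine ⟨⟨fun B B' => Subtype.ext ?_⟩, ⟨⟨_, CfsgLib.Blocks.isPBlock_blockOf M T, hdef0 T hTd⟩⟩⟩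
    obtain ⟨x, hx⟩ := CfsgLib.Blocks.IsPBlock.nonempty hM B.2.1
    obtain ⟨y, hy⟩ := CfsgLib.Blocks.IsPBlock.nonempty hM B'.2.1
    have hfull' : ∀ {B : Set (IrrCharacter (D.group F))}, IsPBlock M B → blockDefect p B = 0 → ∀ z ∈ B,
        p ^ a ∣ charDegree (z : D.group F → ℂ) := by
      intro B hB h0' z hz
      rw [blockDefect, Nat.sub_eq_zero_iff_le, ← ha] at h0'
      exact (hp.pow_dvd_iff_le_factorization (charDegree_pos z.2).ne').2
        (h0'.trans (Nat.sInf_le ⟨z, hz, rfl⟩))
    have hxy : x = y := Subtype.ext ((huniq x (hfull' B.2.1 B.2.2 x hx)).trans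
      (huniq y (hfull' B'.2.1 B'.2.2 y hy)).symm)
    exact CfsgLib.Blocks.IsPBlock.eq_of_mem hM B.2.1 B'.2.1 hx (hxy ▸ hy)
  let e1 : {B : Set (IrrCharacter (D.group F)) // IsPBlock M B ∧ blockDefect p B = 0} ⊕
      {B : Set (IrrCharacter (D.group F)) // IsPBlock M B ∧ IsDefectGroup p M B (P : Subgroup (D.group F))} →
      {B : Set (IrrCharacter (D.group F)) // IsPBlock M B} :=
    Sum.elim (fun B => ⟨B.1, B.2.1⟩) (fun B => ⟨B.1, B.2.1⟩)
  have hdis : ∀ B : Set (IrrCharacter (D.group F)), IsPBlock M B → blockDefect p B = 0 →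
      ¬ IsDefectGroup p M B (P : Subgroup (D.group F)) := fun B hB h1 h2 => by
    have := CfsgLib.Blocks.card_defectGroup hM hB h2
    rw [h1, pow_zero, hPa] at this
    exact (one_lt_pow₀ hp.one_lt hpG).ne' this
  rw [← Nat.card_eq_of_bijective e1 ⟨?_, ?_⟩, Nat.card_sum, hzero, hcount]
  · rintro (x | x) (y | y) h <;> have h' := congrArg Subtype.val h <;> simp only [e1, Sum.elim_inl, Sum.elim_inr] at h'
    · exact congrArg Sum.inl (Subtype.ext h')
    · exact absurd (h' ▸ y.2.2) (hdis _ x.2.1 x.2.2)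
    · exact absurd (h'.symm ▸ x.2.2) (hdis _ y.2.1 y.2.2)
    · exact congrArg Sum.inr (Subtype.ext h')
  · rintro ⟨B, hB⟩
    by_cases h : blockDefect p B = 0
    · exact ⟨Sum.inl ⟨B, hB, h⟩, rfl⟩
    · exact ⟨Sum.inr ⟨B, hB, hfull B hB h⟩, rfl⟩

/-- For a prime p, the Chevalley groups of types G₂, F₄ and E₈ over the field with p elements (types for which the simply connected and adjoint groups coincide, so the group has trivial centre) each have exactly two p-blocks relative to any maximal ideal of the algebraic integers containing p (only the count is asserted; it arises as the defect-zero block of the Steinberg character plus a single block of maximal defect). -/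
theorem result (p : ℕ) [Fact p.Prime] (M : Ideal Cfsg.AlgInt) (hM : Cfsg.IsPModular p M) :
    Nat.card {B : Set (Cfsg.IrrCharacter (Cfsg.Lie.chevG2.group (ZMod p))) // Cfsg.IsPBlock M B} = 2 ∧
    Nat.card {B : Set (Cfsg.IrrCharacter (Cfsg.Lie.chevF4.group (ZMod p))) // Cfsg.IsPBlock M B} = 2 ∧
    Nat.card {B : Set (Cfsg.IrrCharacter (Cfsg.Lie.chevE8.group (ZMod p))) // Cfsg.IsPBlock M B} = 2 := by
  haveI : NeZero p := ⟨(Fact.out : p.Prime).ne_zero⟩
  refine ⟨?_, ?_, ?_⟩ <;>
    exact two_blocks p (by simp) (by decide)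
      (fun χ hd => CfsgLib.Chev.eq_steinberg_of_full p (by simp) χ hd) M hM

end Cfsg.Agent.S2441
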