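import Cfsg.Statements.S2531
import Mathlib

set_option autoImplicit false
open Cfsg

namespace Cfsg.Agent.S2531

open Projectivization

variable {F : Type*} [Field F] [Finite F] {n : ℕ}

/-- The points of a subspace. -/
def pts (U : Submodule F (Fin n → F)) : Set (Projectivization F (Fin n → F)) := {x | x.submodule ≤ U}

theorem mk_mem_pts (U : Submodule F (Fin n → F)) (v : Fin n → F) (hv : v ≠ 0) :
    Projectivization.mk F v hv ∈ pts U ↔ v ∈ U := by
  show (Projectivization.mk F v hv).submodule ≤ U ↔ _
  rw [Projectivization.submodule_mk, Submodule.span_singleton_le_iff_mem]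

theorem card_pts (U : Submodule F (Fin n → F)) :
    (pts U).ncard * (Nat.card F - 1) + 1 = Nat.card F ^ Module.finrank F U := by
  have h := Projectivization.card' (k := F) (V := U)
  rw [← Module.natCard_eq_pow_finrank (K := F) (V := U), h]
  congr 2
  have hr : Set.range (Projectivization.map U.subtype U.injective_subtype) = pts U := by
    ext x
    constructor
    · rintro ⟨u, rfl⟩
      induction u using Projectivization.ind with
      | h v hv => rw [Projectivization.map_mk, mk_mem_pts]; exact v.2
    · intro hx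
      induction x using Projectivization.ind with
      | h v hv =>
        refine ⟨Projectivization.mk F (⟨v, (mk_mem_pts U v hv).1 hx⟩ : U) (fun h => hv (congrArg Subtype.val h)), ?_⟩
        rw [Projectivization.map_mk]; rfl
  rw [← hr, ← Nat.card_coe_set_eq, Nat.card_range_of_injective (Projectivization.map_injective (τ := RingHom.id F) _ _)]

theorem main (hn : 3 ≤ n) (S : Set (Equiv.Perm (Projectivization F (Fin n → F))))
    (hS : ∀ s ∈ S, ∃ (σ : F ≃+* F) (f : (Fin n → F) →ₛₗ[(σ : F →+* F)] (Fin n → F)) (hf : Function.Injective f),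
      ∀ x, s x = Projectivization.map f hf x)
    (hsharp : ∀ a b c d : Projectivization F (Fin n → F), a ≠ b → c ≠ d → ∃! s, s ∈ S ∧ s a = c ∧ s b = d) : False := by
  classical
  haveI : Fintype (Projectivization F (Fin n → F)) := Fintype.ofFinite _
  set q := Nat.card F with hq
  have hq2 : 2 ≤ q := Finite.one_lt_card
  have hfinV : Module.finrank F (Fin n → F) = n := Module.finrank_fin_fun F
  obtain ⟨a⟩ : Nonempty (Projectivization F (Fin n → F)) :=
    ⟨Projectivization.mk F (Pi.single ⟨0, by omega⟩ 1) (fun h => one_ne_zero (α := F) (by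
      simpa using congrFun h ⟨0, by omega⟩))⟩
  -- hyperplanes missing a point
  have hyp : ∀ b : Projectivization F (Fin n → F), ∃ H : Submodule F (Fin n → F),
      Module.finrank F H = n - 1 ∧ b ∉ pts H := by
    intro b
    obtain ⟨H, hH⟩ := b.submodule.exists_isCompl
    refine ⟨H, ?_, fun hb => ?_⟩
    · have := Submodule.finrank_add_eq_of_isCompl hH
      rw [Projectivization.finrank_submodule, hfinV] at this
      omega
    · have h0 : b.submodule = ⊥ := hH.disjoint.eq_bot_of_le hb
      have := Projectivization.finrank_submodule b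
      rw [h0, finrank_bot] at this
      omega
  obtain ⟨Ha, hHa, haH⟩ := hyp a
  obtain ⟨W, hWH, hW⟩ : ∃ W : Submodule F (Fin n → F), W ≤ Ha ∧ Module.finrank F W = 2 := by
    let bs := Module.finBasisOfFinrankEq F Ha hHa
    let g : Fin 2 → (Fin n → F) := fun i => (bs ⟨i.1, by have := i.2; omega⟩ : Fin n → F)
    have hli : LinearIndependent F g :=
      (bs.linearIndependent.map' Ha.subtype Ha.ker_subtype).comp (fun i : Fin 2 => (⟨i.1, by have := i.2; omega⟩ : Fin (n - 1)))
        (fun i j h => Fin.ext (by simpa using h))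
    refine ⟨Submodule.span F (Set.range g), Submodule.span_le.2 ?_, ?_⟩
    · rintro _ ⟨i, rfl⟩; exact (bs _).2
    · rw [finrank_span_eq_card hli, Fintype.card_fin]
  have haW : a ∉ pts W := fun h => haH (h.trans hWH)
  obtain ⟨b, -⟩ : ∃ b : Projectivization F (Fin n → F), b = a := ⟨a, rfl⟩
  obtain ⟨Hb, hHb, hbH⟩ := hyp b
  let B : Finset (Projectivization F (Fin n → F)) := (pts W).toFinset
  let C : Finset (Projectivization F (Fin n → F)) := ((pts Hb)ᶜ \ {b}).toFinset
  let T : Finset (Equiv.Perm (Projectivization F (Fin n → F))) := Finset.univ.filter fun s => s ∈ S ∧ s a = b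
  have hcount : ∑ s ∈ T, (B.filter fun x => s x ∈ C).card = B.card * C.card := by
    simp only [Finset.card_filter]
    rw [Finset.sum_comm, Finset.card_eq_sum_ones B, Finset.sum_mul]
    refine Finset.sum_congr rfl fun x hx => ?_
    rw [one_mul, ← Finset.card_filter]
    have hxa : a ≠ x := fun h => haW (h ▸ Set.mem_toFinset.1 hx)
    refine Finset.card_bij (fun s _ => s x) (fun s hs => (Finset.mem_filter.1 hs).2) ?_ ?_
    · intro s hs t ht hst
      simp only [T, Finset.mem_filter, Finset.mem_univ, true_and] at hs ht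
      have hne : s a ≠ s x := s.injective.ne hxa
      exact (hsharp a x (s a) (s x) hxa hne).unique ⟨hs.1.1, rfl, rfl⟩ ⟨ht.1.1, ht.1.2.trans hs.1.2.symm, hst.symm⟩
    · intro y hy
      have hby : b ≠ y := by
        intro h
        simp only [C, Set.mem_toFinset, Set.mem_sdiff, Set.mem_singleton_iff] at hy
        exact hy.2 h.symm
      obtain ⟨s, ⟨hs, h1, h2⟩, -⟩ := hsharp a x b y hxa hby
      exact ⟨s, by simp [T, hs, h1, h2, hy], h2⟩
  have hdiv : ∀ s ∈ T, q ∣ (B.filter fun x => s x ∈ C).card := by
    intro s hs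
    simp only [T, Finset.mem_filter, Finset.mem_univ, true_and] at hs
    obtain ⟨σ, f, hf, hmap⟩ := hS s hs.1
    haveI : RingHomSurjective (σ : F →+* F) := ⟨σ.surjective⟩
    let W' : Submodule F (Fin n → F) := W.map f
    have hcard : Nat.card W' = Nat.card W := by
      refine (Nat.card_congr ?_).symm
      exact Equiv.ofBijective (fun w : W => (⟨f w, Submodule.mem_map_of_mem w.2⟩ : W'))
        ⟨fun u v h => Subtype.ext (hf (congrArg Subtype.val h)), fun w => by
          obtain ⟨u, hu, huw⟩ := Submodule.mem_map.1 w.2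
          exact ⟨⟨u, hu⟩, Subtype.ext huw⟩⟩
    have hW' : Module.finrank F W' = 2 := by
      rw [Module.natCard_eq_pow_finrank (K := F) (V := W'), Module.natCard_eq_pow_finrank (K := F) (V := W), hW] at hcard
      exact Nat.pow_right_injective hq2 hcard
    have hpts : ∀ x, s x ∈ pts W' ↔ x ∈ pts W := by
      intro x
      rw [hmap]
      induction x using Projectivization.ind with
      | h v hv =>
        rw [Projectivization.map_mk, mk_mem_pts, mk_mem_pts]
        exact ⟨fun h => by obtain ⟨u, hu, huv⟩ := Submodule.mem_map.1 h; exact hf huv ▸ hu,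
          fun h => Submodule.mem_map_of_mem h⟩
    have hbW' : b ∉ pts W' := fun h => haW ((hpts a).1 (hs.2.symm ▸ h))
    have himg : (B.filter fun x => s x ∈ C).card = (pts W' \ pts Hb).ncard := by
      rw [Set.ncard_eq_toFinset_card']
      refine Finset.card_bij (fun x _ => s x) ?_ (fun x _ y _ h => s.injective h) ?_
      · intro x hx
        simp only [B, C, Finset.mem_filter, Set.mem_toFinset, Set.mem_sdiff, Set.mem_compl_iff] at hx ⊢
        exact ⟨(hpts x).2 hx.1, hx.2.1⟩
      · intro y hy
        simp only [Set.mem_toFinset, Set.mem_sdiff] at hy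
        obtain ⟨x, rfl⟩ := s.surjective y
        refine ⟨x, ?_, rfl⟩
        simp only [B, C, Finset.mem_filter, Set.mem_toFinset, Set.mem_sdiff, Set.mem_compl_iff, Set.mem_singleton_iff]
        exact ⟨(hpts x).1 hy.1, hy.2, fun h => hbW' (h ▸ hy.1)⟩
    rw [himg]
    by_cases hle : W' ≤ Hb
    · have : pts W' \ pts Hb = ∅ := Set.diff_eq_empty.2 fun x (hx : x.submodule ≤ W') => le_trans hx hle
      rw [this, Set.ncard_empty]; exact dvd_zero q
    · have hsup : W' ⊔ Hb = ⊤ := by
        refine Submodule.eq_top_of_finrank_eq ?_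
        have h1 : Module.finrank F ↥(W' ⊔ Hb) ≤ n := (Submodule.finrank_le (W' ⊔ Hb)).trans_eq hfinV
        have h2 : Hb < W' ⊔ Hb := lt_of_le_of_ne le_sup_right fun h => hle (le_sup_left.trans h.symm.le)
        have h3 := Submodule.finrank_lt_finrank_of_lt h2
        rw [hfinV]; omega
      have hinf : Module.finrank F ↥(W' ⊓ Hb) = 1 := by
        have := Submodule.finrank_sup_add_finrank_inf_eq W' Hb
        rw [hsup, finrank_top, hfinV] at this
        omega
      have hi : pts W' ∩ pts Hb = pts (W' ⊓ Hb) := Set.ext fun x => ⟨fun h => (le_inf h.1 h.2 : x.submodule ≤ W' ⊓ Hb), fun (h : x.submodule ≤ W' ⊓ Hb) => ⟨(h.trans inf_le_left : x.submodule ≤ W'), (h.trans inf_le_right : x.submodule ≤ Hb)⟩⟩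
      have h4 := Set.ncard_inter_add_ncard_diff_eq_ncard (pts W') (pts Hb) (Set.toFinite _)
      rw [hi] at h4
      have h5 := card_pts (F := F) W'
      have h6 := card_pts (F := F) (W' ⊓ Hb)
      rw [hW', ← hq] at h5
      rw [hinf, ← hq] at h6
      obtain ⟨r, hr⟩ : ∃ r, q = r + 1 := ⟨q - 1, by omega⟩
      rw [hr, add_tsub_cancel_right] at h5 h6
      refine ⟨1, ?_⟩
      have hr0 : 0 < r := by omega
      nlinarith
  have hmain : q ∣ B.card * C.card := hcount ▸ Finset.dvd_sum hdiv
  have hBc : B.card * (q - 1) + 1 = q ^ 2 := by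
    rw [← Set.ncard_eq_toFinset_card', card_pts, hW]
  have hCc : C.card * (q - 1) + q ^ (n - 1) + (q - 1) = q ^ n := by
    have h1 := card_pts (F := F) Hb
    have h2 := Projectivization.card' (k := F) (V := Fin n → F)
    rw [Module.natCard_eq_pow_finrank (K := F) (V := Fin n → F), hfinV, ← hq] at h2
    rw [hHb, ← hq] at h1
    have h3 : C.card + 1 + (pts Hb).ncard = Nat.card (Projectivization F (Fin n → F)) := by
      rw [← Set.ncard_eq_toFinset_card', Set.ncard_diff_singleton_of_mem hbH,
        ← Set.ncard_add_ncard_compl (pts Hb), Nat.sub_add_cancel ((Set.ncard_pos (Set.toFinite _)).2 ⟨b, hbH⟩), add_comm]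
    rw [h2, ← h3, ← h1]
    ring
  obtain ⟨z, hz⟩ := hmain
  obtain ⟨r, hr⟩ : ∃ r, q = r + 1 := ⟨q - 1, by omega⟩
  obtain ⟨j, hj⟩ : ∃ j, n = j + 3 := ⟨n - 3, by omega⟩
  rw [hr, add_tsub_cancel_right] at hBc hCc
  rw [hr] at hz
  subst hj
  rw [show j + 3 - 1 = j + 2 by omega] at hCc
  have hr0 : 0 < r := by omega
  have hB : B.card = r + 2 := by nlinarith
  have hP : (r + 1) ^ (j + 3) = (r + 1) ^ (j + 2) * (r + 1) := pow_succ _ _
  have hC : C.card + 1 = (r + 1) ^ (j + 2) := by
    rw [hP] at hCc
    have : (C.card + 1) * r = (r + 1) ^ (j + 2) * r := by linarith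
    exact Nat.eq_of_mul_eq_mul_right hr0 this
  have h7 : (r + 2) * (C.card + 1) = (r + 1) * z + (r + 2) := by rw [mul_add, mul_one, ← hB, hz]
  rw [hC, pow_succ] at h7
  have h8 : (r + 1) ∣ (r + 2) := by
    have : (r + 1) ∣ (r + 2) * ((r + 1) ^ (j + 1) * (r + 1)) := ⟨(r + 2) * (r + 1) ^ (j + 1), by ring⟩
    rw [h7] at this
    exact (Nat.dvd_add_right (Dvd.intro _ rfl)).1 this
  have h9 : (r + 1) ∣ 1 := (Nat.dvd_add_right (dvd_refl _)).1 h8
  have := Nat.le_of_dvd one_pos h9
  omega

/-- Let `F` be a finite field and `n ≥ 3`. No set of permutations of the points of the projective space of `Fⁿ`, each induced by an invertible semilinear transformation of `Fⁿ` (so a subset of the full projective semilinear group), is sharply 2-transitive on the points: it is impossible that for all pairs of distinct points `(a, b)` and `(c, d)` exactly one member of the set sends `a` to `c` and `b` to `d`. -/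
theorem result {F : Type*} [Field F] [Finite F]
    (n : ℕ) (hn : 3 ≤ n) (S : Set (Equiv.Perm (Projectivization F (Fin n → F))))
    (hS : ∀ s ∈ S, ∃ (σ : F ≃+* F) (f : (Fin n → F) →ₛₗ[(σ : F →+* F)] (Fin n → F)) (hf : Function.Injective f),
      ∀ x, s x = Projectivization.map f hf x) :
    ¬ (∀ a b c d : Projectivization F (Fin n → F), a ≠ b → c ≠ d →
        ∃! s, s ∈ S ∧ s a = c ∧ s b = d) := by
  exact fun h => main hn S hS h

end Cfsg.Agent.S2531
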