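import Cfsg.Statements.S2532
import Mathlib

set_option autoImplicit false
open Cfsg

namespace Cfsg.Agent.S2532


open MulAction in
theorem exists_orbits {A α : Type*} [Group A] [Finite A] [MulAction A α] [Finite α] (r : ℕ)
    (h : 2 ^ Nat.card A * (Nat.card A * r) < Nat.card α) :
    ∃ (L : Subgroup A) (x : Fin r → α), (∀ i, stabilizer A (x i) = L) ∧
      ∀ i j, ∀ a b : A, a • x i = b • x j → i = j := by
  classical
  haveI := Fintype.ofFinite α
  haveI := Fintype.ofFinite A
  haveI := Fintype.ofFinite (Subgroup A)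
  have hsub : Fintype.card (Subgroup A) ≤ 2 ^ Nat.card A := by
    rw [Nat.card_eq_fintype_card, ← Fintype.card_set]
    exact Fintype.card_le_of_injective (fun L => (L : Set A)) SetLike.coe_injective
  obtain ⟨L, -, hL⟩ := Finset.exists_lt_card_fiber_of_mul_lt_card_of_maps_to (s := (Finset.univ : Finset α))
    (t := (Finset.univ : Finset (Subgroup A))) (f := fun x => stabilizer A x) (n := Nat.card A * r)
    (fun _ _ => Finset.mem_univ _) (by
      rw [Finset.card_univ, Finset.card_univ, ← Nat.card_eq_fintype_card (α := α)]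
      exact lt_of_le_of_lt (Nat.mul_le_mul_right _ hsub) h)
  set S := (Finset.univ : Finset α).filter fun x => stabilizer A x = L with hS
  have hfib := Finset.card_le_mul_card_image (f := fun x => (Quotient.mk (orbitRel A α) x)) S (Nat.card A) (fun q hq => by
    obtain ⟨y, -, rfl⟩ := Finset.mem_image.1 hq
    refine le_trans (Finset.card_le_card (t := Finset.univ.image fun a : A => a • y) fun z hz => ?_)
      (le_trans Finset.card_image_le (by rw [Finset.card_univ, Nat.card_eq_fintype_card]))
    obtain ⟨a, ha⟩ := Quotient.exact (Finset.mem_filter.1 hz).2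
    exact Finset.mem_image.2 ⟨a, Finset.mem_univ _, ha⟩)
  have hr : r ≤ (S.image fun x => (Quotient.mk (orbitRel A α) x)).card := by
    by_contra hlt
    have : Nat.card A * r < Nat.card A * (S.image fun x => (Quotient.mk (orbitRel A α) x)).card := lt_of_lt_of_le hL hfib
    have := Nat.lt_of_mul_lt_mul_left this
    omega
  obtain ⟨T, hT, hTcard⟩ := Finset.exists_subset_card_eq hr
  let e := (T.equivFinOfCardEq hTcard).symm
  have hmem : ∀ i : Fin r, ∃ x ∈ S, Quotient.mk (orbitRel A α) x = (e i : Quotient (orbitRel A α)) := fun i =>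
    Finset.mem_image.1 (hT (e i).2)
  choose x hxS hx using hmem
  refine ⟨L, x, fun i => (Finset.mem_filter.1 (hxS i)).2, fun i j a b hab => ?_⟩
  refine e.injective (Subtype.ext ?_)
  rw [← hx i, ← hx j]
  exact Quotient.sound ⟨a⁻¹ * b, by show (a⁻¹ * b) • x j = x i; rw [mul_smul, ← hab, inv_smul_smul]⟩

open MulAction in
theorem exists_commuting_hom {A α : Type*} [Group A] [MulAction A α] {r : ℕ} (L : Subgroup A) (x : Fin r → α)
    (hx : ∀ i, stabilizer A (x i) = L) (hd : ∀ i j, ∀ a b : A, a • x i = b • x j → i = j) :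
    ∃ π : Equiv.Perm (Fin r) →* Equiv.Perm α, Function.Injective π ∧ ∀ σ (a : A) y, π σ (a • y) = a • π σ y := by
  classical
  obtain ⟨f, hfa⟩ : ∃ f : (A ⧸ L) × Fin r → α, ∀ a i, f (QuotientGroup.mk a, i) = a • x i :=
    ⟨fun q => Quotient.liftOn' q.1 (fun a => a • x q.2) (fun a b hab => by
      rw [QuotientGroup.leftRel_apply, ← hx q.2, mem_stabilizer_iff, mul_smul, inv_smul_eq_iff] at hab
      exact hab.symm), fun a i => rfl⟩
  have hf : Function.Injective f := by
    rintro ⟨q, i⟩ ⟨q', j⟩ h
    induction q using QuotientGroup.induction_on with | _ a =>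
    induction q' using QuotientGroup.induction_on with | _ b =>
    rw [hfa, hfa] at h
    obtain rfl := hd i j a b h
    refine Prod.ext ?_ rfl
    rw [QuotientGroup.eq, ← hx i, mem_stabilizer_iff, mul_smul, ← h, inv_smul_smul]
  obtain ⟨θ, hθ⟩ : ∃ θ : Equiv.Perm (Fin r) →* Equiv.Perm ((A ⧸ L) × Fin r), ∀ σ q i, θ σ (q, i) = (q, σ i) :=
    ⟨{ toFun := fun σ => Equiv.prodCongr (Equiv.refl _) σ
       map_one' := rfl
       map_mul' := fun _ _ => rfl }, fun σ q i => rfl⟩
  refine ⟨(Equiv.Perm.extendDomainHom (Equiv.ofInjective f hf)).comp θ, ?_, fun σ (a : A) (y : α) => ?_⟩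
  · intro σ τ h
    rw [MonoidHom.comp_apply, MonoidHom.comp_apply] at h
    have h' := Equiv.Perm.extendDomainHom_injective (Equiv.ofInjective f hf) h
    ext i
    have h1 := congrArg Prod.snd (Equiv.congr_fun h' ((QuotientGroup.mk 1 : A ⧸ L), i))
    rw [hθ, hθ] at h1
    exact congrArg Fin.val h1
  · rw [MonoidHom.comp_apply, Equiv.Perm.extendDomainHom_apply]
    have himg : ∀ (b : A) (i : Fin r), (θ σ).extendDomain (Equiv.ofInjective f hf) (b • x i) = b • x (σ i) := by
      intro b i
      have h1 := Equiv.Perm.extendDomain_apply_image (θ σ) (Equiv.ofInjective f hf) ((b : A ⧸ L), i)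
      rw [hθ, Equiv.ofInjective_apply, Equiv.ofInjective_apply] at h1
      rw [← hfa b i, ← hfa b (σ i)]
      exact h1
    by_cases hy : ∃ (b : A) (i : Fin r), b • x i = y
    · obtain ⟨b, i, rfl⟩ := hy
      rw [smul_smul, himg, himg, smul_smul]
    · push Not at hy
      have hout : ∀ z, (∀ (b : A) (i : Fin r), b • x i ≠ z) → (θ σ).extendDomain (Equiv.ofInjective f hf) z = z := by
        intro z hz
        refine Equiv.Perm.extendDomain_apply_not_subtype _ _ ?_
        rintro ⟨⟨q, i⟩, hq⟩
        induction q using QuotientGroup.induction_on with | _ b =>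
        exact hz b i ((hfa b i).symm.trans hq)
      rw [hout y hy, hout]
      intro b i hb
      exact hy (a⁻¹ * b) i (by rw [mul_smul, hb, inv_smul_smul])

theorem map_eq_one_of_alternating {r : ℕ} (φ : Equiv.Perm (Fin r) →* ℤˣ) {σ : Equiv.Perm (Fin r)}
    (hσ : σ ∈ alternatingGroup (Fin r)) : φ σ = 1 := by
  have h : alternatingGroup (Fin r) ≤ φ.ker := by
    rw [← Equiv.Perm.closure_three_cycles_eq_alternating, Subgroup.closure_le]
    intro c hc
    have h3 : c ^ 3 = 1 := by rw [← hc.orderOf]; exact pow_orderOf_eq_one c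
    have h4 : φ c ^ 3 = 1 := by rw [← map_pow, h3, map_one]
    rw [SetLike.mem_coe, MonoidHom.mem_ker]
    rcases Int.units_eq_one_or (φ c) with h | h
    · exact h
    · rw [h] at h4; exact absurd h4 (by decide)
  exact h hσ


/-- There is a function `f` of two natural-number arguments such that, whenever `m ≥ f(n, r)`, every subgroup of order `n` of the alternating group of degree `m` centralizes some subgroup of that alternating group isomorphic to the alternating group of degree `r`. -/
theorem result :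
    ∃ f : ℕ → ℕ → ℕ, ∀ (m r : ℕ) (H : Subgroup ↥(alternatingGroup (Fin m))), f (Nat.card H) r ≤ m →
      ∃ K : Subgroup ↥(alternatingGroup (Fin m)), Nonempty (↥K ≃* ↥(alternatingGroup (Fin r))) ∧
        K ≤ Subgroup.centralizer (H : Set ↥(alternatingGroup (Fin m))) := by
  refine ⟨fun n r => 2 ^ n * (n * r) + 1, fun m r H hm => ?_⟩
  letI : MulAction ↥H (Fin m) := MulAction.compHom _ ((alternatingGroup (Fin m)).subtype.comp H.subtype)
  obtain ⟨L, x, hx, hd⟩ := exists_orbits (A := ↥H) (α := Fin m) r (by rw [Nat.card_fin]; exact hm)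
  obtain ⟨π, hπ, hc⟩ := exists_commuting_hom L x hx hd
  have hsgn : ∀ σ : alternatingGroup (Fin r), π σ ∈ alternatingGroup (Fin m) := fun σ =>
    Equiv.Perm.mem_alternatingGroup.2 (map_eq_one_of_alternating (Equiv.Perm.sign.comp π) σ.2)
  let ψ : alternatingGroup (Fin r) →* alternatingGroup (Fin m) := (π.comp (alternatingGroup (Fin r)).subtype).codRestrict _ hsgn
  have hψ : Function.Injective ψ := fun a b h => Subtype.ext (hπ (congrArg Subtype.val h))
  refine ⟨ψ.range, ⟨(MonoidHom.ofInjective hψ).symm⟩, ?_⟩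
  rintro _ ⟨σ, rfl⟩
  rw [Subgroup.mem_centralizer_iff]
  intro h hh
  refine Subtype.ext (Equiv.ext fun y => ?_)
  exact (hc σ ⟨h, hh⟩ y).symm

end Cfsg.Agent.S2532
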