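import Cfsg.Statements.S2533
import Cfsg.Agent.KroneckerBrick.Main
-- import your own Cfsg.Agent.* helpers here

set_option autoImplicit false
open Cfsg

namespace Cfsg.Agent.S2533

/-- For every odd prime `p` there is a finite group `H` of order `2p³` which, for infinitely many `n`, embeds in the projective special linear group `PSL(n, p)` as a subgroup with trivial centralizer. -/
theorem result
    (p : ℕ) [Fact p.Prime] (hp : p ≠ 2) :
    ∃ (H : Type) (_ : Group H) (_ : Finite H), Nat.card H = 2 * p ^ 3 ∧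
      ∀ N : ℕ, ∃ n, N ≤ n ∧ ∃ φ : H →* Matrix.ProjectiveSpecialLinearGroup (Fin n) (ZMod p),
        Function.Injective φ ∧ Subgroup.centralizer (φ.range : Set (Matrix.ProjectiveSpecialLinearGroup (Fin n) (ZMod p))) = ⊥ := by
  refine ⟨CfsgLib.KroneckerBrick.Grp p, inferInstance, ?_, CfsgLib.KroneckerBrick.card_grp p, fun N => ?_⟩
  · exact Finite.of_equiv _ SemidirectProduct.equivProd.symm
  · have hm : Even (2 * N + 3 + 1) := ⟨N + 2, by omega⟩
    obtain ⟨φ, hφ, hc⟩ := CfsgLib.KroneckerBrick.exists_hom (p := p) hp hm (by omega)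
    exact ⟨_, by omega, φ, hφ, hc⟩

end Cfsg.Agent.S2533
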