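import Cfsg.Statements.S2538
import Cfsg.Agent.HallAlt.Primitive

set_option autoImplicit false
open Cfsg

namespace Cfsg.Agent.S2538

open Equiv Equiv.Perm CfsgLib.HallAlt

/-- from an odd element to the Hall property -/
theorem hall_of_extension {α : Type*} [Fintype α] [DecidableEq α] {π : Set ℕ}
    {N M₀ : Subgroup (Perm α)} (hN : N ≤ alternatingGroup α)
    (hidx : ∀ p : ℕ, p.Prime → p ∈ π → ¬ p ∣ N.relIndex (alternatingGroup α))
    (hle : N ≤ M₀) (hπ : ∀ p : ℕ, p.Prime → p ∣ Nat.card M₀ → p ∈ π)
    (hodd : ∃ y ∈ M₀, sign y = -1) :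
    IsPiHall π M₀ ∧ M₀ ⊓ alternatingGroup α = N := by
  classical
  set A := alternatingGroup α with hA
  obtain ⟨y, hy, hys⟩ := hodd
  have hA2 : A.index = 2 := by
    haveI : Nontrivial α := by
      rw [← not_subsingleton_iff_nontrivial]
      intro h
      rw [Subsingleton.elim y 1, map_one] at hys
      exact absurd hys (by decide)
    exact alternatingGroup.index_eq_two
  have heq : M₀ ⊓ A = N := by
    refine le_antisymm ?_ (le_inf hle hN)
    rw [← Subgroup.relIndex_eq_one]
    by_contra hne
    obtain ⟨p, hp, hdvd⟩ := Nat.exists_prime_and_dvd hne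
    have h1 : p ∈ π := hπ p hp ((hdvd.trans (Subgroup.relIndex_dvd_card _ _)).trans
      (Subgroup.card_dvd_of_le inf_le_left))
    exact hidx p hp h1 (hdvd.trans
      (Dvd.intro _ (Subgroup.relIndex_mul_relIndex N (M₀ ⊓ A) A (le_inf hle hN) inf_le_right)))
  have hA0 : A.relIndex M₀ = 2 := by
    have h1 : A.relIndex M₀ ∣ 2 := hA2 ▸ Subgroup.relIndex_dvd_index_of_normal A M₀
    rcases (Nat.dvd_prime Nat.prime_two).mp h1 with h | h
    · have := Subgroup.relIndex_eq_one.mp h hy
      rw [hA, mem_alternatingGroup, hys] at this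
      exact absurd this (by decide)
    · exact h
  refine ⟨⟨hπ, fun p hp hpπ hdvd => hidx p hp hpπ ?_⟩, heq⟩
  have e1 : N.relIndex A * A.index = N.index := Subgroup.relIndex_mul_index hN
  have e2 : N.relIndex M₀ * M₀.index = N.index := Subgroup.relIndex_mul_index hle
  have e3 : N.relIndex M₀ = 2 := by
    rw [← heq, Subgroup.inf_relIndex_left]; exact hA0
  rw [e3, ← e1, hA2] at e2
  have : M₀.index = N.relIndex A := by omega
  rwa [← this]

theorem forward {α : Type*} [Fintype α] [DecidableEq α] {π : Set ℕ} {N : Subgroup (Perm α)}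
    (hN : N ≤ alternatingGroup α) (hπ : ∀ p : ℕ, p.Prime → p ∣ Nat.card N → p ∈ π)
    (hidx : ∀ p : ℕ, p.Prime → p ∈ π → ¬ p ∣ N.relIndex (alternatingGroup α)) :
    ∃ M₀ : Subgroup (Perm α), IsPiHall π M₀ ∧ M₀ ⊓ alternatingGroup α = N := by
  classical
  rcases subsingleton_or_nontrivial α with hsub | hnt
  · refine ⟨⊤, ⟨fun p hp h => ?_, fun p hp _ h => ?_⟩, ?_⟩
    · rw [Subgroup.card_top, Nat.card_unique] at h
      exact absurd h hp.not_dvd_one
    · rw [Subgroup.index_top] at h
      exact hp.not_dvd_one h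
    · ext x
      rw [Subsingleton.elim x 1]
      simp
  by_cases h2 : 2 ∈ π
  · have hext : ∃ M₀ : Subgroup (Perm α), N ≤ M₀ ∧ PiOrd π M₀ ∧ ∃ y ∈ M₀, sign y = -1 := by
      rcases le_or_gt 4 (Fintype.card α) with h4 | h4
      · exact exists_extension hN hπ hidx h2 h4
      obtain ⟨a, b, hab⟩ := exists_pair_ne α
      by_cases hN1 : N = ⊥
      · refine ⟨Subgroup.zpowers (swap a b), by simp [hN1], ?_, _, Subgroup.mem_zpowers _,
          sign_swap hab⟩
        intro p hp hdvd
        rw [Nat.card_zpowers, (swap_isSwap_iff.mpr hab).orderOf] at hdvd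
        rw [(Nat.prime_dvd_prime_iff_eq hp Nat.prime_two).mp hdvd]; exact h2
      refine ⟨⊤, le_top, ?_, _, Subgroup.mem_top _, sign_swap hab⟩
      have hcA : 2 * Nat.card (alternatingGroup α) = (Fintype.card α).factorial := by
        rw [Nat.card_eq_fintype_card, two_mul_card_alternatingGroup, Fintype.card_perm]
      have hc : Fintype.card α = 2 ∨ Fintype.card α = 3 := by
        have := Fintype.one_lt_card (α := α); omega
      have hne : Nat.card N ≠ 1 := fun h => hN1 (Subgroup.card_eq_one.mp h)
      have hdvd := Subgroup.card_dvd_of_le hN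
      intro p hp hpd
      rw [Subgroup.card_top, Nat.card_perm, Nat.card_eq_fintype_card] at hpd
      rcases hc with hc | hc <;> rw [hc] at hpd hcA
      · rw [(Nat.prime_dvd_prime_iff_eq hp Nat.prime_two).mp (by simpa using hpd)]; exact h2
      · simp only [show Nat.factorial 3 = 6 from rfl] at hcA hpd
        have hA3 : Nat.card (alternatingGroup α) = 3 := by omega
        rw [hA3] at hdvd
        have h3 : 3 ∈ π := hπ 3 Nat.prime_three
          (by rw [((Nat.dvd_prime Nat.prime_three).mp hdvd).resolve_left hne])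
        rcases hp.dvd_mul.mp (show p ∣ 2 * 3 from hpd) with h | h
        · rw [(Nat.prime_dvd_prime_iff_eq hp Nat.prime_two).mp h]; exact h2
        · rw [(Nat.prime_dvd_prime_iff_eq hp Nat.prime_three).mp h]; exact h3
    obtain ⟨M₀, hle, hπ0, hodd⟩ := hext
    exact ⟨M₀, hall_of_extension hN hidx hle hπ0 hodd⟩
  · refine ⟨N, ⟨hπ, fun p hp hpπ h => ?_⟩, inf_eq_left.mpr hN⟩
    rw [← Subgroup.relIndex_mul_index hN] at h
    rcases hp.dvd_mul.mp h with h | h
    · exact hidx p hp hpπ h
    · refine h2 ?_
      rw [alternatingGroup.index_eq_two] at h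
      rwa [← (Nat.prime_dvd_prime_iff_eq hp Nat.prime_two).mp h]

/-- For every `n` and every set of primes `π`, a subgroup of the alternating group of degree `n` is a Hall `π`-subgroup of it if and only if it is the intersection with the alternating group of some Hall `π`-subgroup of the symmetric group of degree `n`. -/
theorem result (n : ℕ) (π : Set ℕ)
    (M : Subgroup ↥(alternatingGroup (Fin n))) :
    Cfsg.IsPiHall π M ↔ ∃ M₀ : Subgroup (Equiv.Perm (Fin n)), Cfsg.IsPiHall π M₀ ∧ M = M₀.subgroupOf (alternatingGroup (Fin n)) := by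
  constructor
  · rintro ⟨hπ, hidx⟩
    have hN : M.map (alternatingGroup (Fin n)).subtype ≤ (alternatingGroup (Fin n)) := Subgroup.map_subtype_le M
    have hback : (M.map (alternatingGroup (Fin n)).subtype).subgroupOf (alternatingGroup (Fin n)) = M :=
      Subgroup.comap_map_eq_self_of_injective (alternatingGroup (Fin n)).subtype_injective M
    obtain ⟨M₀, h0, heq⟩ := forward hN
      (fun p hp h => hπ p hp (by rwa [Subgroup.card_subtype] at h))
      (fun p hp hpπ => by
        rw [Subgroup.relIndex, hback]; exact hidx p hp hpπ)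
    refine ⟨M₀, h0, ?_⟩
    rw [← Subgroup.inf_subgroupOf_right M₀ (alternatingGroup (Fin n)), heq, hback]
  · rintro ⟨M₀, ⟨hπ, hidx⟩, rfl⟩
    refine ⟨fun p hp h => hπ p hp ?_, fun p hp hpπ h => ?_⟩
    · refine h.trans ?_
      rw [← Subgroup.card_subtype]
      exact Subgroup.card_dvd_of_le (Subgroup.map_comap_le _ _)
    · have h' : p ∣ (M₀ ⊓ (alternatingGroup (Fin n))).index := by
        rw [← Subgroup.relIndex_mul_index (inf_le_right : M₀ ⊓ (alternatingGroup (Fin n)) ≤ (alternatingGroup (Fin n))), Subgroup.inf_relIndex_right]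
        exact Dvd.dvd.mul_right h _
      rw [← Subgroup.relIndex_mul_index (inf_le_left : M₀ ⊓ (alternatingGroup (Fin n)) ≤ M₀),
        Subgroup.inf_relIndex_left] at h'
      rcases hp.dvd_mul.mp h' with h'' | h''
      · rcases subsingleton_or_nontrivial (Fin n) with hs | hs
        · have : (alternatingGroup (Fin n)).relIndex M₀ = 1 := Subgroup.relIndex_eq_one.mpr fun x _ => by
            rw [Subsingleton.elim x 1]; exact one_mem (alternatingGroup (Fin n))
          rw [this] at h''
          exact hp.not_dvd_one h''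
        have h2 : (alternatingGroup (Fin n)).relIndex M₀ ∣ 2 := alternatingGroup.index_eq_two (α := Fin n) ▸
          Subgroup.relIndex_dvd_index_of_normal (alternatingGroup (Fin n)) M₀
        have hp2 : p = 2 := (Nat.prime_dvd_prime_iff_eq hp Nat.prime_two).mp (h''.trans h2)
        subst hp2
        have h1 : (M₀ ⊓ (alternatingGroup (Fin n))).relIndex (alternatingGroup (Fin n)) * (alternatingGroup (Fin n)).index = (M₀ ⊓ (alternatingGroup (Fin n))).relIndex M₀ * M₀.index := by
          rw [Subgroup.relIndex_mul_index inf_le_right, Subgroup.relIndex_mul_index inf_le_left]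
        rw [Subgroup.inf_relIndex_right, Subgroup.inf_relIndex_left,
          alternatingGroup.index_eq_two] at h1
        have hr2 : (alternatingGroup (Fin n)).relIndex M₀ = 2 := by
          rcases (Nat.dvd_prime Nat.prime_two).mp h2 with e | e
          · rw [e] at h''; exact absurd h'' (by decide)
          · exact e
        rw [hr2] at h1
        refine hidx 2 hp hpπ ?_
        rw [show M₀.index = M₀.relIndex (alternatingGroup (Fin n)) by omega]
        exact h
      · exact hidx p hp hpπ h''

end Cfsg.Agent.S2538
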