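import Cfsg.Statements.S2534
import Cfsg.Agent.HallSym.Std
import Cfsg.Agent.S2538
-- import your own Cfsg.Agent.* helpers here

set_option autoImplicit false
open Cfsg

namespace Cfsg.Agent.S2534

open scoped Pointwise Nat
open Equiv Equiv.Perm MulAction CfsgLib.HallSym

theorem card_stab_family {n : ℕ} (C : Finset (Finset (Fin n))) (hcov : ∀ x, ∃ U ∈ C, x ∈ U) :
    Nat.card (stabilizer (Perm (Fin n)) C) ∣ (∏ U ∈ C, (U.card)!) * C.card ! := by
  classical
  have h := card_dvd_of_invariant (stabilizer (Perm (Fin n)) C)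
    (C.image (fun U : Finset (Fin n) => (U : Set (Fin n))))
    (fun x => by
      obtain ⟨U, hU, hx⟩ := hcov x
      exact ⟨U, Finset.mem_image_of_mem _ hU, hx⟩)
    (fun g hg V hV => by
      obtain ⟨U, hU, rfl⟩ := Finset.mem_image.mp hV
      rw [← Finset.coe_smul_finset]
      refine Finset.mem_image_of_mem _ ?_
      have h' : g • U ∈ g • C := Finset.smul_mem_smul_finset hU
      rwa [mem_stabilizer_iff.mp hg] at h')
  rw [Finset.card_image_of_injective _ Finset.coe_injective,
    Finset.prod_image (fun a _ b _ e => Finset.coe_injective e)] at h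
  simpa only [Set.ncard_coe_finset] using h

def x7 : Perm (Fin 7) := swap 0 1 * swap 1 2 * swap 3 4 * swap 4 5
def y7 : Perm (Fin 7) := swap 0 3 * swap 1 4 * swap 2 5 * swap 0 1
def x8 : Perm (Fin 8) := swap 0 1 * swap 1 2 * swap 3 4 * swap 4 5
def y8 : Perm (Fin 8) := swap 0 3 * swap 1 4 * swap 2 5 * swap 0 1

theorem no_four_set : ∀ U : Finset (Fin 7), U.card = 4 → ¬ (x7 • U = U ∧ y7 • U = U) := by
  decide +kernel

theorem no_pair : ∀ U : Finset (Fin 8), U.card = 4 →
    ¬ ((x8 • U = U ∨ x8 • U = Uᶜ) ∧ (y8 • U = U ∨ y8 • U = Uᶜ)) := by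
  decide +kernel

/-- For `n ≥ 5` and a set of primes `π`, the alternating group of degree `n` satisfies the full Sylow analogue for `π` (its maximal `π`-subgroups are pairwise conjugate; for a finite group this says Hall `π`-subgroups exist, are all conjugate, and contain every `π`-subgroup up to conjugacy) if and only if either at most one prime of `π` divides its order or every prime dividing its order lies in `π`. -/
theorem result (n : ℕ) (hn : 5 ≤ n) (π : Set ℕ) :
    Cfsg.IsDPiGroup π ↥(alternatingGroup (Fin n)) ↔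
      ((∀ r s : ℕ, r.Prime → s.Prime → r ∈ π → s ∈ π → r ∣ Nat.card ↥(alternatingGroup (Fin n)) → s ∣ Nat.card ↥(alternatingGroup (Fin n)) → r = s) ∨
        ∀ r : ℕ, r.Prime → r ∣ Nat.card ↥(alternatingGroup (Fin n)) → r ∈ π) := by
  have hcn : Fintype.card (Fin n) = n := Fintype.card_fin n
  refine ⟨fun hD => ?_, fun h => (trivial_cases h).2⟩
  by_contra hc
  push_neg at hc
  obtain ⟨⟨r, s, hr, hs, hrπ, hsπ, hrd, hsd, hrs⟩, t, ht, htd, htπ⟩ := hc
  have h2 : TwoPi π n := ⟨r, s, hr, hs, hrs, hrπ, hsπ, hcn ▸ le_of_dvd_alt hr hrd,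
    hcn ▸ le_of_dvd_alt hs hsd⟩
  have hm : Miss π n := ⟨t, ht, hcn ▸ le_of_dvd_alt ht htd, htπ⟩
  set A := alternatingGroup (Fin n) with hA
  -- every `π`-subgroup of `A` lies in a standard subgroup
  have key : ∀ P : Subgroup (Perm (Fin n)), (∀ p : ℕ, p.Prime → p ∣ Nat.card P → p ∈ π) →
      ∃ L₀ : Subgroup (Perm (Fin n)), IsStd π L₀ ∧ ∀ z ∈ P, sign z = 1 → z ∈ L₀ := by
    intro P hP
    have hP' : Cfsg.IsPiSubgroup π (P.subgroupOf A) := fun p hp hd => hP p hp (hd.trans (by
      rw [← Subgroup.card_subtype]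
      exact Subgroup.card_dvd_of_le (Subgroup.map_comap_le _ _)))
    obtain ⟨L, hPL, hL⟩ := exists_maximal hP'
    obtain ⟨L₀, hL₀, rfl⟩ := (Cfsg.Agent.S2538.result n π L).mp (hall_of_maximal hD hL)
    refine ⟨L₀, isStd_of_hall hL₀ (by rwa [hcn]) (by rwa [hcn]), fun z hz hz1 => ?_⟩
    exact hPL (x := ⟨z, mem_alternatingGroup.mpr hz1⟩) hz
  obtain ⟨L, hLstd, -⟩ := key ⊥ (fun p hp hd => absurd hd
    (by rw [Subgroup.card_bot]; exact hp.not_dvd_one))
  rcases hLstd with ⟨hp, hc, -, -⟩ | ⟨hn', h23, -, -⟩ | ⟨hn', h23, -, -⟩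
  · rw [hcn] at hp hc
    let a : Fin n := ⟨0, by omega⟩
    let b : Fin n := ⟨1, by omega⟩
    have hab : a ≠ b := by simp [a, b, Fin.ext_iff]
    have hne : ({a, b} : Finset (Fin n)) ≠ ({a, b} : Finset (Fin n))ᶜ := fun e => by
      have h1 : a ∈ ({a, b} : Finset (Fin n)) := by simp
      exact Finset.mem_compl.mp (e ▸ h1) h1
    set C : Finset (Finset (Fin n)) := {{a, b}, ({a, b} : Finset (Fin n))ᶜ} with hC
    have hP : ∀ p : ℕ, p.Prime → p ∣ Nat.card (stabilizer (Perm (Fin n)) C) → p ∈ π := by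
      intro p hpp hd
      have h := hd.trans (card_stab_family C (fun x => by
        by_cases hx : x ∈ ({a, b} : Finset (Fin n))
        · exact ⟨_, by simp [hC], hx⟩
        · exact ⟨({a, b} : Finset (Fin n))ᶜ, by simp [hC], Finset.mem_compl.mpr hx⟩))
      rw [hC, Finset.prod_pair hne, Finset.card_pair hne, Finset.card_compl, hcn,
        Finset.card_pair hab] at h
      have hlt : p < n := by
        rcases hpp.dvd_mul.mp h with h | h
        · rcases hpp.dvd_mul.mp h with h | h <;> have := (hpp.dvd_factorial).mp h <;> omega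
        · have := (hpp.dvd_factorial).mp h; omega
      exact (hc p hpp hlt.le).mpr hlt
    obtain ⟨L₀, hstd, hin⟩ := key _ hP
    rcases hstd with ⟨-, -, x, rfl⟩ | ⟨h7, h', -, -⟩ | ⟨h8, h', -, -⟩
    · have hmem : ∀ z : Perm (Fin n), z • ({a, b} : Finset (Fin n)) = {a, b} → sign z = 1 →
          z x = x := by
        intro z hz hz1
        refine hin z ?_ hz1
        rw [mem_stabilizer_iff, hC, Finset.smul_finset_insert, Finset.smul_finset_singleton, hz]
        congr 1
        rw [Finset.singleton_inj]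
        ext w
        rw [← Finset.inv_smul_mem_iff, Finset.mem_compl, Finset.mem_compl,
          Finset.inv_smul_mem_iff, hz]
      obtain ⟨c, d, e, hc', hd', he', hcd, hce, hde⟩ : ∃ c d e : Fin n,
          c ∉ ({a, b} : Finset (Fin n)) ∧ d ∉ ({a, b} : Finset (Fin n)) ∧
          e ∉ ({a, b} : Finset (Fin n)) ∧ c ≠ d ∧ c ≠ e ∧ d ≠ e := by
        refine ⟨⟨2, by omega⟩, ⟨3, by omega⟩, ⟨4, by omega⟩, ?_, ?_, ?_, ?_, ?_, ?_⟩ <;>
          simp [a, b, Fin.ext_iff]
      simp only [Finset.mem_insert, Finset.mem_singleton, not_or] at hc' hd' he'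
      by_cases hx : x = a ∨ x = b
      · have h1 := hmem (swap a b * swap c d) ?_
          (by rw [map_mul, sign_swap hab, sign_swap hcd]; rfl)
        · rcases hx with e1 | e1 <;> rw [e1, Perm.mul_apply] at h1
          · rw [swap_apply_of_ne_of_ne (Ne.symm hc'.1) (Ne.symm hd'.1), swap_apply_left] at h1
            exact hab h1.symm
          · rw [swap_apply_of_ne_of_ne (Ne.symm hc'.2) (Ne.symm hd'.2), swap_apply_right] at h1
            exact hab h1
        · rw [Finset.smul_finset_insert, Finset.smul_finset_singleton, Perm.smul_def, Perm.smul_def,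
            Perm.mul_apply, Perm.mul_apply, swap_apply_of_ne_of_ne (Ne.symm hc'.1) (Ne.symm hd'.1),
            swap_apply_of_ne_of_ne (Ne.symm hc'.2) (Ne.symm hd'.2), swap_apply_left, swap_apply_right,
            Finset.pair_comm]
      · push_neg at hx
        obtain ⟨u, v, hu, hv, huv, hux, hvx⟩ : ∃ u v : Fin n, (u ≠ a ∧ u ≠ b) ∧ (v ≠ a ∧ v ≠ b) ∧
            u ≠ v ∧ u ≠ x ∧ v ≠ x := by
          by_cases h1 : x = c
          · exact ⟨d, e, hd', he', hde, h1 ▸ hcd.symm, h1 ▸ hce.symm⟩
          by_cases h2 : x = d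
          · exact ⟨c, e, hc', he', hce, Ne.symm h1, h2 ▸ hde.symm⟩
          exact ⟨c, d, hc', hd', hcd, Ne.symm h1, Ne.symm h2⟩
        have h1 := hmem (swap x u * swap u v) ?_
          (by rw [map_mul, sign_swap hux.symm, sign_swap huv]; rfl)
        · rw [Perm.mul_apply, swap_apply_of_ne_of_ne hux.symm hvx.symm, swap_apply_left] at h1
          exact hux h1
        · rw [Finset.smul_finset_insert, Finset.smul_finset_singleton, Perm.smul_def, Perm.smul_def,
            Perm.mul_apply, Perm.mul_apply, swap_apply_of_ne_of_ne (Ne.symm hu.1) (Ne.symm hv.1),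
            swap_apply_of_ne_of_ne (Ne.symm hu.2) (Ne.symm hv.2), swap_apply_of_ne_of_ne hx.1.symm (Ne.symm hu.1),
            swap_apply_of_ne_of_ne hx.2.symm (Ne.symm hu.2)]
    · rw [hcn] at h7 h'
      exact only23_not_all hp (by omega) h' hc
    · rw [hcn] at h8 h'
      exact only23_not_all hp (by omega) h' hc
  · rw [hcn] at hn' h23
    subst hn'
    let C : Finset (Finset (Fin 7)) := {{0, 1, 2}, {3, 4, 5}, {6}}
    have hP : ∀ p : ℕ, p.Prime → p ∣ Nat.card (stabilizer (Perm (Fin 7)) C) → p ∈ π :=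
      fun p hpp hd => only23_primes h23 (by omega) hpp
        (hd.trans (card_stab_family C (by decide))) (by decide)
    obtain ⟨L₀, hstd, hin⟩ := key _ hP
    rcases hstd with ⟨-, hc, -, -⟩ | ⟨-, -, U, hU, rfl⟩ | ⟨h8, -, -, -⟩
    · rw [hcn] at hc
      exact only23_not_all (by norm_num) (by omega) h23 hc
    · have hx := hin x7 (by rw [mem_stabilizer_iff]; decide +kernel) (by decide +kernel)
      have hy := hin y7 (by rw [mem_stabilizer_iff]; decide +kernel) (by decide +kernel)
      rw [mem_stabilizer_iff] at hx hy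
      classical
      refine no_four_set U.toFinset (by rw [← Set.ncard_eq_toFinset_card', hU]) ⟨?_, ?_⟩ <;>
        apply Finset.coe_injective <;> rw [Finset.coe_smul_finset, Set.coe_toFinset]
      exacts [hx, hy]
    · omega
  · rw [hcn] at hn' h23
    subst hn'
    let C : Finset (Finset (Fin 8)) := {{0, 1, 2}, {3, 4, 5}, {6, 7}}
    have hP : ∀ p : ℕ, p.Prime → p ∣ Nat.card (stabilizer (Perm (Fin 8)) C) → p ∈ π :=
      fun p hpp hd => only23_primes h23 (by omega) hpp
        (hd.trans (card_stab_family C (by decide))) (by decide)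
    obtain ⟨L₀, hstd, hin⟩ := key _ hP
    rcases hstd with ⟨h, -, -, -⟩ | ⟨h7, -, -, -⟩ | ⟨-, -, U, hU, rfl⟩
    · rw [hcn] at h
      exact absurd h (by norm_num)
    · omega
    · classical
      have conv : ∀ z : Perm (Fin 8), z • ({U, Uᶜ} : Set (Set (Fin 8))) = {U, Uᶜ} →
          z • U.toFinset = U.toFinset ∨ z • U.toFinset = U.toFinsetᶜ := by
        intro z hz
        have h' : z • U ∈ z • ({U, Uᶜ} : Set (Set (Fin 8))) :=
          Set.smul_mem_smul_set (by simp)
        rw [hz] at h'
        rcases h' with e | e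
        · left; apply Finset.coe_injective; rw [Finset.coe_smul_finset, Set.coe_toFinset, e]
        · right; apply Finset.coe_injective
          rw [Finset.coe_smul_finset, Finset.coe_compl, Set.coe_toFinset, e]
      have hx := hin x8 (by rw [mem_stabilizer_iff]; decide +kernel) (by decide +kernel)
      have hy := hin y8 (by rw [mem_stabilizer_iff]; decide +kernel) (by decide +kernel)
      rw [mem_stabilizer_iff] at hx hy
      exact no_pair U.toFinset (by rw [← Set.ncard_eq_toFinset_card', hU])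
        ⟨conv _ hx, conv _ hy⟩

end Cfsg.Agent.S2534
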