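import Cfsg.Statements.S2535
import Cfsg.Agent.HallSym.Std
import Cfsg.Agent.S2538
-- import your own Cfsg.Agent.* helpers here

set_option autoImplicit false
open Cfsg

namespace Cfsg.Agent.S2535

open Equiv Equiv.Perm CfsgLib.HallSym

theorem conj_subgroupOf {G : Type*} [Group G] (A : Subgroup G) [A.Normal] (H : Subgroup G)
    (g : A) : (H.subgroupOf A).map (MulAut.conj g).toMonoidHom =
      (H.map (MulAut.conj (g : G)).toMonoidHom).subgroupOf A := by
  ext x
  simp only [Subgroup.mem_map, Subgroup.mem_subgroupOf, MulEquiv.coe_toMonoidHom,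
    MulAut.conj_apply]
  constructor
  · rintro ⟨y, hy, rfl⟩
    exact ⟨y, hy, by simp⟩
  · rintro ⟨y, hy, hyx⟩
    refine ⟨g⁻¹ * x * g, ?_, by group⟩
    have : ((g⁻¹ * x * g : A) : G) = y := by
      simp only [Subgroup.coe_mul, Subgroup.coe_inv, ← hyx]
      group
    rw [this]; exact hy

theorem conj_self {G : Type*} [Group G] {H : Subgroup G} {y : G} (hy : y ∈ H) :
    H.map (MulAut.conj y).toMonoidHom = H := by
  ext x
  simp only [Subgroup.mem_map, MulEquiv.coe_toMonoidHom, MulAut.conj_apply]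
  constructor
  · rintro ⟨z, hz, rfl⟩
    exact mul_mem (mul_mem hy hz) (inv_mem hy)
  · intro hx
    exact ⟨y⁻¹ * x * y, mul_mem (mul_mem (inv_mem hy) hx) hy, by group⟩

/-- For every `n` and every set of primes `π`, the following are equivalent for the symmetric group `S` of degree `n` and its alternating subgroup `A`: `S` has a Hall `π`-subgroup; `S` has a Hall `π`-subgroup and all of them are conjugate; `A` has a Hall `π`-subgroup; `A` has a Hall `π`-subgroup and all of them are conjugate. -/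
theorem result (n : ℕ) (π : Set ℕ) :
    (Cfsg.IsEPiGroup π (Equiv.Perm (Fin n)) ↔ Cfsg.IsCPiGroup π (Equiv.Perm (Fin n))) ∧
    (Cfsg.IsEPiGroup π (Equiv.Perm (Fin n)) ↔ Cfsg.IsEPiGroup π ↥(alternatingGroup (Fin n))) ∧
    (Cfsg.IsEPiGroup π ↥(alternatingGroup (Fin n)) ↔ Cfsg.IsCPiGroup π ↥(alternatingGroup (Fin n))) := by
  by_cases h : TwoPi π n ∧ Miss π n
  · obtain ⟨h2, hm⟩ := h
    have h5 := five_le h2 hm
    have hstd : ∀ H : Subgroup (Equiv.Perm (Fin n)), Cfsg.IsPiHall π H → IsStd π H :=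
      fun H hH => isStd_of_hall hH (by rwa [Fintype.card_fin]) (by rwa [Fintype.card_fin])
    have hCS : Cfsg.IsEPiGroup π (Equiv.Perm (Fin n)) → Cfsg.IsCPiGroup π (Equiv.Perm (Fin n)) :=
      fun hE => ⟨hE, fun H K hH hK => isStd_conj (hstd H hH) (hstd K hK)⟩
    have hCA : Cfsg.IsEPiGroup π ↥(alternatingGroup (Fin n)) →
        Cfsg.IsCPiGroup π ↥(alternatingGroup (Fin n)) := by
      refine fun hE => ⟨hE, fun M N hM hN => ?_⟩
      obtain ⟨M₀, hM₀, rfl⟩ := (Cfsg.Agent.S2538.result n π M).mp hM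
      obtain ⟨N₀, hN₀, rfl⟩ := (Cfsg.Agent.S2538.result n π N).mp hN
      obtain ⟨g, hg⟩ := isStd_conj (hstd _ hM₀) (hstd _ hN₀)
      obtain ⟨g', hg', hge⟩ : ∃ g' : Equiv.Perm (Fin n), sign g' = 1 ∧
          N₀ = M₀.map (MulAut.conj g').toMonoidHom := by
        rcases Int.units_eq_one_or (sign g) with e | e
        · exact ⟨g, e, hg⟩
        · obtain ⟨y, hy, hys⟩ := isStd_odd (hstd _ hM₀) (by rw [Fintype.card_fin]; omega)
          refine ⟨g * y, by rw [map_mul, e, hys]; rfl, ?_⟩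
          rw [hg]
          conv_lhs => rw [← conj_self hy]
          rw [Subgroup.map_map]
          congr 1
      refine ⟨⟨g', mem_alternatingGroup.mpr hg'⟩, ?_⟩
      rw [conj_subgroupOf, hge]
    refine ⟨⟨hCS, fun h => h.1⟩, ⟨?_, ?_⟩, ⟨hCA, fun h => h.1⟩⟩
    · rintro ⟨H, hH⟩
      exact ⟨_, (Cfsg.Agent.S2538.result n π _).mpr ⟨H, hH, rfl⟩⟩
    · rintro ⟨M, hM⟩
      obtain ⟨M₀, hM₀, -⟩ := (Cfsg.Agent.S2538.result n π M).mp hM
      exact ⟨M₀, hM₀⟩
  · have hS : Cfsg.IsCPiGroup π (Equiv.Perm (Fin n)) := by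
      refine (trivial_cases (π := π) ?_).1
      by_contra hc
      push_neg at hc
      obtain ⟨⟨r, s, hr, hs, hrπ, hsπ, hrd, hsd, hrs⟩, t, ht, htd, htπ⟩ := hc
      rw [prime_dvd_perm hr, Fintype.card_fin] at hrd
      rw [prime_dvd_perm hs, Fintype.card_fin] at hsd
      rw [prime_dvd_perm ht, Fintype.card_fin] at htd
      exact h ⟨⟨r, s, hr, hs, hrs, hrπ, hsπ, hrd, hsd⟩, t, ht, htd, htπ⟩
    have hA : Cfsg.IsCPiGroup π ↥(alternatingGroup (Fin n)) := by
      refine (trivial_cases (π := π) ?_).1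
      by_contra hc
      push_neg at hc
      obtain ⟨⟨r, s, hr, hs, hrπ, hsπ, hrd, hsd, hrs⟩, t, ht, htd, htπ⟩ := hc
      have hr' := le_of_dvd_alt hr hrd
      have hs' := le_of_dvd_alt hs hsd
      have ht' := le_of_dvd_alt ht htd
      rw [Fintype.card_fin] at hr' hs' ht'
      exact h ⟨⟨r, s, hr, hs, hrs, hrπ, hsπ, hr', hs'⟩, t, ht, ht', htπ⟩
    exact ⟨⟨fun _ => hS, fun h => h.1⟩, ⟨fun _ => hA.1, fun _ => hS.1⟩,
      ⟨fun _ => hA, fun h => h.1⟩⟩

end Cfsg.Agent.S2535
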