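import Cfsg.Statements.S2536
import Cfsg.Agent.HallSym.Std
-- import your own Cfsg.Agent.* helpers here

set_option autoImplicit false
open Cfsg

namespace Cfsg.Agent.S2536

/-- Let `π` be a set of primes and `n` a natural number such that at least two primes of `π` divide `n!` but not every prime dividing `n!` lies in `π`. Then the symmetric group of degree `n` has a Hall `π`-subgroup if and only if either `n` is prime and the primes of `π` dividing `n!` are exactly the primes smaller than `n` (a point stabilizer is then such a subgroup), or `n ∈ {7, 8}` and the primes of `π` dividing `n!` are exactly 2 and 3. -/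
theorem result (n : ℕ) (π : Set ℕ)
    (h2 : ∃ r s : ℕ, r.Prime ∧ s.Prime ∧ r ≠ s ∧ r ∈ π ∧ s ∈ π ∧ r ≤ n ∧ s ≤ n)
    (hns : ∃ r : ℕ, r.Prime ∧ r ≤ n ∧ r ∉ π) :
    Cfsg.IsEPiGroup π (Equiv.Perm (Fin n)) ↔
      ((n.Prime ∧ ∀ r : ℕ, r.Prime → r ≤ n → (r ∈ π ↔ r < n)) ∨
       ((n = 7 ∨ n = 8) ∧ ∀ r : ℕ, r.Prime → r ≤ n → (r ∈ π ↔ (r = 2 ∨ r = 3)))) := by
  have h2' : CfsgLib.HallSym.TwoPi π (Fintype.card (Fin n)) := by
    rw [Fintype.card_fin]; exact h2
  have hns' : CfsgLib.HallSym.Miss π (Fintype.card (Fin n)) := by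
    rw [Fintype.card_fin]; exact hns
  constructor
  · rintro ⟨H, hH⟩
    have h := CfsgLib.HallSym.classify hH h2' hns'
    simp only [Fintype.card_fin] at h
    rcases h with ⟨hp, hc, -⟩ | ⟨hn, hc, -⟩ | ⟨hn, hc, -⟩
    · exact Or.inl ⟨hp, hc⟩
    · exact Or.inr ⟨Or.inl hn, hc⟩
    · exact Or.inr ⟨Or.inr hn, hc⟩
  · rintro (⟨hp, hc⟩ | ⟨hn | hn, hc⟩)
    · exact CfsgLib.HallSym.ePi_prime (by rwa [Fintype.card_fin])
        (by rw [Fintype.card_fin]; exact hc)
    · exact CfsgLib.HallSym.ePi_seven (by rwa [Fintype.card_fin])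
        (by rw [Fintype.card_fin]; exact hc)
    · exact CfsgLib.HallSym.ePi_eight (by rwa [Fintype.card_fin])
        (by rw [Fintype.card_fin]; exact hc)

end Cfsg.Agent.S2536
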