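import Cfsg.Statements.S2540
import Cfsg.Agent.SLn.Simple
-- import your own Cfsg.Agent.* helpers here

set_option autoImplicit false
open Cfsg
open scoped commutatorElement

namespace Cfsg.Agent.S2540

/-- Let F be a finite field and n ≥ 1, excluding the case n = 2 with #F ≤ 3. A subgroup of GL_n(F) that is normalized by every element of SL_n(F) either consists of scalar matrices or contains SL_n(F). -/
theorem result {F : Type*} [Field F] [Fintype F] (n : ℕ) (hn : 1 ≤ n) (hex : ¬ (n = 2 ∧ Fintype.card F ≤ 3)) (G : Subgroup (Matrix.GeneralLinearGroup (Fin n) F)) (hG : ∀ s : Matrix.SpecialLinearGroup (Fin n) F, ∀ g ∈ G, (Matrix.SpecialLinearGroup.toGL s) * g * (Matrix.SpecialLinearGroup.toGL s)⁻¹ ∈ G) : (∀ g ∈ G, ∃ c : F, (g : Matrix (Fin n) (Fin n) F) = c • (1 : Matrix (Fin n) (Fin n) F)) ∨ (Matrix.SpecialLinearGroup.toGL : Matrix.SpecialLinearGroup (Fin n) F →* _).range ≤ G := by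
  classical
  rcases Nat.lt_or_ge n 2 with hlt | hge
  · obtain rfl : n = 1 := by omega
    refine Or.inl fun g _ => ⟨(g : Matrix (Fin 1) (Fin 1) F) 0 0, ?_⟩
    ext i j
    fin_cases i; fin_cases j; simp
  haveI : Nontrivial (Fin n) := Fin.nontrivial_iff_two_le.mpr hge
  have hcond : 3 ≤ Fintype.card (Fin n) ∨ ∃ x : F, x ≠ 0 ∧ x ^ 2 ≠ 1 := by
    rw [Fintype.card_fin]
    by_cases h3 : 3 ≤ n
    · exact Or.inl h3
    · refine Or.inr ?_
      by_contra hcon
      push Not at hcon
      have hq : 4 ≤ Fintype.card F := by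
        by_contra h; exact hex ⟨by omega, by omega⟩
      have hsub : (Finset.univ : Finset F) ⊆ {0, 1, -1} := by
        intro x _
        by_cases hx : x = 0
        · simp [hx]
        · rcases sq_eq_one_iff.mp (hcon x hx) with h | h <;> simp [h]
      have := (Finset.card_le_card hsub).trans Finset.card_le_three
      rw [Finset.card_univ] at this
      omega
  have hperf := CfsgLib.SLn.commutator_eq_top (ι := Fin n) (F := F) hcond
  have hsimple := CfsgLib.SLn.isSimpleGroup_PSL (ι := Fin n) (F := F) hcond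
  by_cases hall : ∀ g ∈ G, ∃ c : F, (g : Matrix (Fin n) (Fin n) F) = c • (1 : Matrix (Fin n) (Fin n) F)
  · exact Or.inl hall
  refine Or.inr ?_
  push Not at hall
  obtain ⟨g, hg, hgc⟩ := hall
  set H := G.comap (Matrix.SpecialLinearGroup.toGL : Matrix.SpecialLinearGroup (Fin n) F →* _) with hH
  haveI hHn : H.Normal := ⟨fun h hh s => by
    show Matrix.SpecialLinearGroup.toGL (s * h * s⁻¹) ∈ G
    rw [map_mul, map_mul, map_inv]
    exact hG s _ hh⟩
  set Z := Subgroup.center (Matrix.SpecialLinearGroup (Fin n) F)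
  haveI hmn : (H.map (QuotientGroup.mk' Z)).Normal := hHn.map _ (QuotientGroup.mk'_surjective _)
  rcases hsimple.eq_bot_or_eq_top_of_normal _ hmn with hbot | htop
  · exfalso
    have hHZ : H ≤ Z := by
      intro h hh
      have : QuotientGroup.mk' Z h ∈ H.map (QuotientGroup.mk' Z) := ⟨h, hh, rfl⟩
      rw [hbot, Subgroup.mem_bot] at this
      exact (QuotientGroup.eq_one_iff h).mp this
    have hcomm : ∀ s : Matrix.SpecialLinearGroup (Fin n) F, ∃ z ∈ Z,
        Matrix.SpecialLinearGroup.toGL z = Matrix.SpecialLinearGroup.toGL s * g * (Matrix.SpecialLinearGroup.toGL s)⁻¹ * g⁻¹ := by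
      intro s
      have hd : (Matrix.SpecialLinearGroup.toGL s * g * (Matrix.SpecialLinearGroup.toGL s)⁻¹ * g⁻¹ : Matrix.GeneralLinearGroup (Fin n) F).1.det = 1 := by
        have h1 : Matrix.GeneralLinearGroup.det (Matrix.SpecialLinearGroup.toGL s * g * (Matrix.SpecialLinearGroup.toGL s)⁻¹ * g⁻¹) = 1 := by
          simp [map_mul, map_inv]
        exact congrArg Units.val h1
      refine ⟨⟨_, hd⟩, hHZ ?_, Units.ext rfl⟩
      show Matrix.SpecialLinearGroup.toGL (⟨_, hd⟩ : Matrix.SpecialLinearGroup (Fin n) F) ∈ G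
      rw [show Matrix.SpecialLinearGroup.toGL (⟨_, hd⟩ : Matrix.SpecialLinearGroup (Fin n) F) =
        Matrix.SpecialLinearGroup.toGL s * g * (Matrix.SpecialLinearGroup.toGL s)⁻¹ * g⁻¹ from Units.ext rfl]
      exact mul_mem (hG s g hg) (inv_mem hg)
    choose z hz hzeq using hcomm
    have hinj : Function.Injective (Matrix.SpecialLinearGroup.toGL : Matrix.SpecialLinearGroup (Fin n) F →* _) :=
      fun a b h => Subtype.ext (congrArg Units.val h)
    have hmul : ∀ s t, z (s * t) = z s * z t := by
      intro s t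
      apply hinj
      have hc : Matrix.SpecialLinearGroup.toGL s * Matrix.SpecialLinearGroup.toGL (z t) =
          Matrix.SpecialLinearGroup.toGL (z t) * Matrix.SpecialLinearGroup.toGL s := by
        rw [← map_mul, ← map_mul, Subgroup.mem_center_iff.mp (hz t) s]
      rw [Subgroup.mem_center_iff.mp (hz t) (z s), map_mul, hzeq s, hzeq (s * t), map_mul]
      calc _ = Matrix.SpecialLinearGroup.toGL s * Matrix.SpecialLinearGroup.toGL (z t) * g * (Matrix.SpecialLinearGroup.toGL s)⁻¹ * g⁻¹ := by
            rw [hzeq t]; group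
        _ = _ := by rw [hc]; group
    let φ : Matrix.SpecialLinearGroup (Fin n) F →* Z := MonoidHom.mk' (fun s => ⟨z s, hz s⟩) fun s t => Subtype.ext (hmul s t)
    have hker : commutator (Matrix.SpecialLinearGroup (Fin n) F) ≤ φ.ker := by
      rw [commutator_def, Subgroup.commutator_le]
      intro a _ b _
      rw [MonoidHom.mem_ker, map_commutatorElement, commutatorElement_eq_one_iff_mul_comm]
      exact Subtype.ext (Subgroup.mem_center_iff.mp (φ b).2 (φ a).1)
    have hcent : ∀ s : Matrix.SpecialLinearGroup (Fin n) F, Matrix.SpecialLinearGroup.toGL s * g = g * Matrix.SpecialLinearGroup.toGL s := by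
      intro s
      have h1 : z s = 1 := congrArg Subtype.val (MonoidHom.mem_ker.mp (hker (by rw [hperf]; exact Subgroup.mem_top s)))
      have h2 := hzeq s
      rw [h1, map_one] at h2
      exact mul_inv_eq_iff_eq_mul.mp (mul_inv_eq_one.mp h2.symm)
    have h0n : 0 < n := by omega
    refine hgc (g.1 ⟨0, h0n⟩ ⟨0, h0n⟩) ?_
    have key : ∀ (a b : Fin n) (hab : a ≠ b), (∀ x, x ≠ a → g.1 x a = 0) ∧ g.1 a a = g.1 b b := by
      intro a b hab
      have e : ((1 : Matrix (Fin n) (Fin n) F) + Matrix.single a b 1) * g.1 = g.1 * (1 + Matrix.single a b 1) := by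
        have h := congrArg Units.val (hcent (Matrix.SpecialLinearGroup.transvection hab (1 : F)))
        exact h
      rw [Matrix.add_mul, Matrix.mul_add, Matrix.one_mul, Matrix.mul_one, add_right_inj] at e
      refine ⟨fun x hx => ?_, ?_⟩
      · have := congrFun (congrFun e x) b
        rw [Matrix.mul_single_apply_same, Matrix.single_mul_apply_of_ne _ _ _ _ _ hx, mul_one] at this
        exact this.symm
      · have := congrFun (congrFun e a) b
        rw [Matrix.mul_single_apply_same, Matrix.single_mul_apply_same, mul_one, one_mul] at this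
        exact this.symm
    ext i j
    rw [Matrix.smul_apply, Matrix.one_apply, smul_eq_mul]
    by_cases hij : i = j
    · subst hij
      rw [if_pos rfl, mul_one]
      by_cases hi : i = ⟨0, h0n⟩
      · subst hi; rfl
      · exact (key i _ hi).2
    · rw [if_neg hij, mul_zero]
      exact (key j i (Ne.symm hij)).1 i hij
  · have hcl : commutator (Matrix.SpecialLinearGroup (Fin n) F) ≤ H := by
      rw [commutator_def, Subgroup.commutator_le]
      intro a _ b _
      obtain ⟨a', ha', hae⟩ : QuotientGroup.mk' Z a ∈ H.map (QuotientGroup.mk' Z) := by rw [htop]; trivial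
      obtain ⟨w, hw, rfl⟩ : ∃ w ∈ Z, a' * w = a := ⟨a'⁻¹ * a, QuotientGroup.eq.mp hae, mul_inv_cancel_left _ _⟩
      have : ⁅a' * w, b⁆ = a' * (b * a'⁻¹ * b⁻¹) := by
        have hc := Subgroup.mem_center_iff.mp hw
        rw [commutatorElement_def, mul_inv_rev, mul_assoc a' w b, ← hc b]
        group
      rw [this]
      exact mul_mem ha' (hHn.conj_mem _ (inv_mem ha') b)
    rintro _ ⟨s, rfl⟩
    exact hcl (by rw [hperf]; exact Subgroup.mem_top s)

end Cfsg.Agent.S2540
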