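import Cfsg.Statements.S2541
-- import your own Cfsg.Agent.* helpers here

set_option autoImplicit false
open Cfsg

namespace Cfsg.Agent.S2541

/-- Let F be a field with 9 elements. The symmetric group S_6 is not isomorphic to PGL_2(F) (although both have index-2 subgroups isomorphic to A_6). -/
theorem result {F : Type*} [Field F] [Fintype F] (hF : Fintype.card F = 9) : ¬ Nonempty (Equiv.Perm (Fin 6) ≃* Matrix.ProjGenLinGroup (Fin 2) F) := by
  classical
  rintro ⟨e⟩
  obtain ⟨w, hw⟩ := IsCyclic.exists_generator (α := Fˣ)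
  have hw8 : orderOf w = 8 := by
    rw [orderOf_eq_card_of_forall_mem_zpowers hw, Nat.card_eq_fintype_card, Fintype.card_units, hF]
  let φ : Fˣ →* GL (Fin 2) F :=
    MonoidHom.mk' (fun u => Matrix.GeneralLinearGroup.mkOfDetNeZero !![(u : F), 0; 0, 1] (by simp))
      (fun a b => by
        apply Units.ext
        ext i j
        fin_cases i <;> fin_cases j <;> simp [Matrix.mul_apply, Fin.sum_univ_two, Matrix.GeneralLinearGroup.mkOfDetNeZero])
  let π : GL (Fin 2) F →* Matrix.ProjGenLinGroup (Fin 2) F := Matrix.ProjGenLinGroup.mk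
  have hinj : Function.Injective (π.comp φ) := by
    rw [injective_iff_map_eq_one]
    intro u hu
    rw [MonoidHom.comp_apply] at hu
    have hu' : φ u ∈ Subgroup.center (GL (Fin 2) F) := by
      exact (QuotientGroup.eq_one_iff (φ u)).mp hu
    rw [Matrix.GeneralLinearGroup.center_eq_range_scalar] at hu'
    obtain ⟨c, hc⟩ := hu'
    have h := congrArg (fun g : GL (Fin 2) F => (g : Matrix (Fin 2) (Fin 2) F)) hc
    have h0 := congrFun (congrFun h 0) 0
    have h1 := congrFun (congrFun h 1) 1
    simp [φ, Matrix.GeneralLinearGroup.mkOfDetNeZero] at h0 h1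
    apply Units.ext
    simp [← h0, h1]
  let ψ : Fˣ →* Equiv.Perm (Fin 6) := e.symm.toMonoidHom.comp (π.comp φ)
  have hψ : Function.Injective ψ := e.symm.injective.comp hinj
  have h8 : orderOf (ψ w) = 8 := by rw [orderOf_injective ψ hψ, hw8]
  obtain ⟨x, hx⟩ : ∃ x : Equiv.Perm (Fin 6), orderOf x = 8 := ⟨_, h8⟩
  have hl := Equiv.Perm.lcm_cycleType x
  have hsum : x.cycleType.sum ≤ 6 := by
    rw [Equiv.Perm.sum_cycleType]; simpa using x.support.card_le_univ
  have hdvd : ∀ c ∈ x.cycleType, c ∣ 4 := by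
    intro c hc
    have h1 : c ∣ 8 := by rw [← hx]; exact Equiv.Perm.dvd_of_mem_cycleType hc
    have h2 : c ≤ 6 := (Multiset.le_sum_of_mem hc).trans hsum
    have h3 : c ∈ (Nat.divisors 8) := Nat.mem_divisors.mpr ⟨h1, by norm_num⟩
    fin_cases h3 <;> omega
  have := Multiset.lcm_dvd.mpr hdvd
  rw [hl, hx] at this
  omega

end Cfsg.Agent.S2541
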