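import Cfsg.Statements.S2542
import Cfsg.Agent.H29.PSLEleven.Basic

set_option autoImplicit false
open Cfsg

namespace Cfsg.Agent.S2542

/-- Let F be a field with 11 elements. PSL_2(F) has a subgroup H of index 11 isomorphic to the alternating group A_5, and the action of PSL_2(F) on the cosets of H is 2-transitive (of degree 11). -/
theorem result {F : Type*} [Field F] [Fintype F] (hF : Fintype.card F = 11) : ∃ H : Subgroup (Matrix.ProjectiveSpecialLinearGroup (Fin 2) F), H.index = 11 ∧ Nonempty (H ≃* alternatingGroup (Fin 5)) ∧ MulAction.IsMultiplyPretransitive (Matrix.ProjectiveSpecialLinearGroup (Fin 2) F) ((Matrix.ProjectiveSpecialLinearGroup (Fin 2) F) ⧸ H) 2 := by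
  let f : ZMod 11 ≃+* F := ZMod.ringEquivOfPrime F (by norm_num) hF
  let e := CfsgLib.H29.PSLEleven.pslEquivOfRingEquiv f
  refine ⟨(CfsgLib.H29.PSLEleven.St true 0).map e.toMonoidHom, ?_, ?_,
    CfsgLib.H29.PSLEleven.coset_two_pretransitive e⟩
  · rw [MulEquiv.toMonoidHom_eq_coe, Subgroup.index_map_equiv]
    exact CfsgLib.H29.PSLEleven.index_St true 0
  · exact ⟨((CfsgLib.H29.PSLEleven.St true 0).equivMapOfInjective e.toMonoidHom e.injective).symm.trans
      (CfsgLib.H29.PSLEleven.nonempty_iso_A5 true 0).some⟩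

end Cfsg.Agent.S2542
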