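import Cfsg.Statements.S2543
import Cfsg.Agent.H29.PSLEleven.Basic

set_option autoImplicit false
open scoped Pointwise
open Cfsg

namespace Cfsg.Agent.S2543

/-- Let F be a field with 11 elements. PSL_2(F) has exactly 22 subgroups isomorphic to the alternating group A_5, and they form two conjugacy classes: there are two such subgroups that are not conjugate, and every such subgroup is conjugate to one of these two. -/
theorem result {F : Type*} [Field F] [Fintype F] (hF : Fintype.card F = 11) : Nat.card {H : Subgroup (Matrix.ProjectiveSpecialLinearGroup (Fin 2) F) // Nonempty (H ≃* alternatingGroup (Fin 5))} = 22 ∧ ∃ H K : Subgroup (Matrix.ProjectiveSpecialLinearGroup (Fin 2) F), Nonempty (H ≃* alternatingGroup (Fin 5)) ∧ Nonempty (K ≃* alternatingGroup (Fin 5)) ∧ (∀ g : Matrix.ProjectiveSpecialLinearGroup (Fin 2) F, MulAut.conj g • H ≠ K) ∧ ∀ L : Subgroup (Matrix.ProjectiveSpecialLinearGroup (Fin 2) F), Nonempty (L ≃* alternatingGroup (Fin 5)) → ∃ g : Matrix.ProjectiveSpecialLinearGroup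 (Fin 2) F, MulAut.conj g • L = H ∨ MulAut.conj g • L = K := by
  let f : ZMod 11 ≃+* F := ZMod.ringEquivOfPrime F (by norm_num) hF
  let e := CfsgLib.H29.PSLEleven.pslEquivOfRingEquiv f
  have hiso : ∀ H : Subgroup CfsgLib.H29.PSLEleven.G0,
      Nonempty (H.map e.toMonoidHom ≃* alternatingGroup (Fin 5)) ↔
        Nonempty (H ≃* alternatingGroup (Fin 5)) := fun H =>
    ⟨fun ⟨i⟩ => ⟨(H.equivMapOfInjective e.toMonoidHom e.injective).trans i⟩,
      fun ⟨i⟩ => ⟨(H.equivMapOfInjective e.toMonoidHom e.injective).symm.trans i⟩⟩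
  let E : {H : Subgroup CfsgLib.H29.PSLEleven.G0 // Nonempty (H ≃* alternatingGroup (Fin 5))} ≃
      {H : Subgroup (Matrix.ProjectiveSpecialLinearGroup (Fin 2) F) //
        Nonempty (H ≃* alternatingGroup (Fin 5))} :=
    Equiv.subtypeEquiv e.mapSubgroup.toEquiv fun H => (hiso H).symm
  refine ⟨(Nat.card_congr E.symm).trans CfsgLib.H29.PSLEleven.card_A5_subgroups,
    (CfsgLib.H29.PSLEleven.St true 0).map e.toMonoidHom,
    (CfsgLib.H29.PSLEleven.St false 0).map e.toMonoidHom,
    (hiso _).mpr (CfsgLib.H29.PSLEleven.nonempty_iso_A5 true 0),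
    (hiso _).mpr (CfsgLib.H29.PSLEleven.nonempty_iso_A5 false 0), ?_, ?_⟩
  · intro g h
    obtain ⟨g, rfl⟩ := e.surjective g
    have hc : ∀ H : Subgroup CfsgLib.H29.PSLEleven.G0,
        MulAut.conj (e g) • H.map e.toMonoidHom = (MulAut.conj g • H).map e.toMonoidHom := by
      intro H
      ext x
      obtain ⟨x, rfl⟩ := e.surjective x
      rw [Subgroup.mem_pointwise_smul_iff_inv_smul_mem, Subgroup.mem_map_equiv,
        Subgroup.mem_map_equiv, Subgroup.mem_pointwise_smul_iff_inv_smul_mem]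
      simp [MulAut.smul_def, MulAut.conj_apply]
    rw [hc, CfsgLib.H29.PSLEleven.St_conj] at h
    exact CfsgLib.H29.PSLEleven.St_true_ne_false _ _ (Subgroup.map_injective e.injective h)
  · intro L hL
    obtain ⟨b, j, hbj⟩ := CfsgLib.H29.PSLEleven.eq_St_of_A5 (L.comap e.toMonoidHom) (by
      rw [← hiso, Subgroup.map_comap_eq_self_of_surjective (f := e.toMonoidHom) (by exact e.surjective) L]; exact hL)
    set t := CfsgLib.H29.PSLEleven.mk0 (CfsgLib.H29.PSLEleven.mat 1 j 0 1 (by ring)) with ht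
    refine ⟨e t⁻¹, ?_⟩
    have hj : CfsgLib.H29.PSLEleven.act b t⁻¹ j = 0 := by
      rw [map_inv, Equiv.Perm.inv_eq_iff_eq, CfsgLib.H29.PSLEleven.act_trans b j]
    have hL' : MulAut.conj (e t⁻¹) • L = (CfsgLib.H29.PSLEleven.St b 0).map e.toMonoidHom := by
      rw [← hj, ← CfsgLib.H29.PSLEleven.St_conj, ← hbj]
      ext x
      obtain ⟨x, rfl⟩ := e.surjective x
      rw [Subgroup.mem_pointwise_smul_iff_inv_smul_mem, Subgroup.mem_map_equiv,
        Subgroup.mem_pointwise_smul_iff_inv_smul_mem]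
      simp [MulAut.smul_def, MulAut.conj_apply]
    cases b
    · exact Or.inr hL'
    · exact Or.inl hL'

end Cfsg.Agent.S2543
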