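import Cfsg.Statements.S2544
import Cfsg.Agent.SLBlocks.Steinberg
import Cfsg.Agent.Blocks.Glauberman

set_option autoImplicit false
open Cfsg

namespace Cfsg.Agent.S2544

/-- Let F be a finite field of characteristic p and consider the projective special linear group PSL_n(F) with n ≥ 2. This group has an irreducible complex character χ whose degree equals the order of a Sylow p-subgroup (namely q^(n(n−1)/2) when #F = q) and whose restriction to any Sylow p-subgroup P is the regular character of P: χ vanishes on the non-identity elements of P. (This is the Steinberg character.) -/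
theorem result {F : Type*} [Field F] [Fintype F] (p : ℕ) [Fact p.Prime] [CharP F p] (n : ℕ) (hn : 2 ≤ n) : ∃ χ : Matrix.ProjectiveSpecialLinearGroup (Fin n) F → ℂ, Cfsg.IsIrrCharacter (Matrix.ProjectiveSpecialLinearGroup (Fin n) F) χ ∧ ∀ P : Sylow p (Matrix.ProjectiveSpecialLinearGroup (Fin n) F), χ 1 = Nat.card P ∧ ∀ x : Matrix.ProjectiveSpecialLinearGroup (Fin n) F, x ∈ P → x ≠ 1 → χ x = 0 := by
  classical
  haveI : NeZero n := ⟨by omega⟩
  haveI := Fintype.ofFinite (Matrix.SpecialLinearGroup (Fin n) F)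
  haveI := Fintype.ofFinite (CfsgLib.SLBlocks.borel F n)
  haveI := Fintype.ofFinite (CfsgLib.SLn.Unip.upperUni F n)
  haveI := Fintype.ofFinite (CfsgLib.SLBlocks.torus F n)
  have hp : p.Prime := Fact.out
  obtain ⟨M, hM⟩ := CfsgLib.Blocks.exists_modular hp
  obtain ⟨χ, hχ, hc⟩ := CfsgLib.SLBlocks.exists_vanish_central (F := F) (n := n) hn hM
  set G := Matrix.SpecialLinearGroup (Fin n) F
  obtain ⟨m, -, hdeg, hm⟩ := CfsgLib.SLBlocks.exists_degree χ hχ
  have hm1 : m = 1 := by exact_mod_cast hm.symm.trans (CfsgLib.SLBlocks.amult_one (p := p) χ hn hχ).2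
  obtain ⟨P₀, hP₀⟩ := CfsgLib.SLn.Unip.exists_sylow_eq_upperUni (K := F) (n := n) p
  obtain ⟨ψ, hψ⟩ := CfsgLib.CharBasics.exists_quotient_irr χ (Subgroup.center G) hc
  refine ⟨ψ, ψ.2, fun P => ⟨?_, fun x hxP hx1 => ?_⟩⟩
  · have hsurj := QuotientGroup.mk'_surjective (Subgroup.center G)
    have hbot : P₀ = P₀ ∧ (P₀ : Subgroup G) ⊓ Subgroup.center G = ⊥ := by
      refine ⟨rfl, (Subgroup.eq_bot_iff_forall _).2 ?_⟩
      rintro z ⟨hz, hzc⟩
      obtain ⟨k, hk⟩ := P₀.isPGroup' ⟨z, hz⟩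
      exact CfsgLib.SLn.Unip.center_eq_one_of_pow p hzc k (congrArg Subtype.val hk)
    have hcard : Nat.card ((P₀.mapSurjective hsurj : Sylow p (G ⧸ Subgroup.center G)) : Subgroup (G ⧸ Subgroup.center G)) =
        Nat.card (P₀ : Subgroup G) := by
      rw [Sylow.coe_mapSurjective]
      refine (Nat.card_congr (Equiv.ofBijective
        (fun y : (P₀ : Subgroup G) => (⟨QuotientGroup.mk' _ y.1, Subgroup.mem_map_of_mem _ y.2⟩ :
          ((P₀ : Subgroup G).map (QuotientGroup.mk' (Subgroup.center G)) : Subgroup _))) ⟨fun a b h => ?_, ?_⟩)).symm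
      · have h' : (QuotientGroup.mk' (Subgroup.center G)) a.1 = QuotientGroup.mk' _ b.1 := congrArg Subtype.val h
        have : (a : G)⁻¹ * b ∈ (P₀ : Subgroup G) ⊓ Subgroup.center G := ⟨(a⁻¹ * b).2, QuotientGroup.eq.1 h'⟩
        rw [hbot.2, Subgroup.mem_bot, inv_mul_eq_one] at this
        exact Subtype.ext this
      · rintro ⟨_, y, hy, rfl⟩
        exact ⟨⟨y, hy⟩, rfl⟩
    calc (ψ : G ⧸ Subgroup.center G → ℂ) 1 = (χ : G → ℂ) 1 := by rw [← hψ 1]; rfl
      _ = (Nat.card (P₀ : Subgroup G) : ℂ) := by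
        rw [CfsgLib.CharBasics.apply_one (CfsgLib.CharBasics.isCharacter_of_irr χ.2), hdeg, hm1, one_mul, hP₀]
      _ = (Nat.card P : ℂ) := by
        rw [← hcard]
        exact congrArg Nat.cast (Nat.card_congr (Sylow.equiv _ P).toEquiv)
  · obtain ⟨y, rfl⟩ := QuotientGroup.mk_surjective x
    rw [hψ y]
    apply hχ
    obtain ⟨k, hk⟩ := IsPGroup.iff_orderOf.1 P.isPGroup' ⟨_, hxP⟩
    rw [Subgroup.orderOf_mk] at hk
    refine dvd_trans ?_ (orderOf_map_dvd (QuotientGroup.mk' (Subgroup.center G)) y)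
    rw [QuotientGroup.mk'_apply, hk]
    refine dvd_pow_self p fun h0 => hx1 ?_
    rw [← orderOf_eq_one_iff, hk, h0, pow_zero]

end Cfsg.Agent.S2544
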