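import Cfsg.Statements.S2546
import Cfsg.Agent.StChar.SU

set_option autoImplicit false
open Cfsg

namespace Cfsg.Agent.S2546

/-- Let F be a finite field of characteristic p and consider the projective special unitary group PSU_n(q), n ≥ 2, realised over the field F with q² elements. This group has an irreducible complex character χ whose degree equals the order of a Sylow p-subgroup (namely q^(n(n−1)/2)) and whose restriction to any Sylow p-subgroup P is the regular character of P: χ vanishes on the non-identity elements of P. (This is the Steinberg character.) -/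
theorem result {F : Type*} [Field F] [Fintype F] (p : ℕ) [Fact p.Prime] [CharP F p] (n q : ℕ) (hn : 2 ≤ n) (hF : Fintype.card F = q ^ 2) : ∃ χ : Cfsg.PSU n F q → ℂ, Cfsg.IsIrrCharacter (Cfsg.PSU n F q) χ ∧ ∀ P : Sylow p (Cfsg.PSU n F q), χ 1 = Nat.card P ∧ ∀ x : Cfsg.PSU n F q, x ∈ P → x ≠ 1 → χ x = 0 := by
  classical
  obtain ⟨C⟩ := CfsgLib.UGeom.nonempty_conj hF
  obtain ⟨k, r, hr, hn'⟩ : ∃ k r, r ≤ 1 ∧ n = (k + 1) + (k + 1) + r :=
    ⟨n / 2 - 1, n % 2, by omega, by omega⟩
  haveI : Subsingleton (Fin r) := ⟨fun a b => Fin.ext (by omega)⟩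
  obtain ⟨D⟩ := CfsgLib.UTwoGen.nonempty_frame C hn'
  exact (CfsgLib.StChar.SU.sys D).exists_steinberg
    (fun g hg hp => CfsgLib.StChar.SU.hblock D g hg hp)
    (QuotientGroup.mk' (Subgroup.center (Cfsg.SU n F q)))
    (QuotientGroup.mk'_surjective _) (le_of_eq (QuotientGroup.ker_mk' _))

end Cfsg.Agent.S2546
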