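import Cfsg.Statements.S2547
import Cfsg.Agent.StChar.OSmall
import Cfsg.Agent.S0298
import Cfsg.Agent.S2544
import Cfsg.Agent.OrthOrder.Center

set_option autoImplicit false
open Cfsg

namespace Cfsg.Agent.S2547

/-- Let F be a finite field of characteristic p and consider the group PΩ_{2m+1}(F) of the quadratic form x₀² + Σ x_i y_i, where m ≥ 1 and #F is odd. This group has an irreducible complex character χ whose degree equals the order of a Sylow p-subgroup (namely q^(m²) when #F = q) and whose restriction to any Sylow p-subgroup P is the regular character of P: χ vanishes on the non-identity elements of P. (This is the Steinberg character.) -/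
theorem result {F : Type*} [Field F] [Fintype F] (p : ℕ) [Fact p.Prime] [CharP F p] (hodd : Odd (Fintype.card F)) (m : ℕ) (hm : 1 ≤ m) : ∃ χ : Cfsg.POmega F (Cfsg.quadFormOdd m F) → ℂ, Cfsg.IsIrrCharacter (Cfsg.POmega F (Cfsg.quadFormOdd m F)) χ ∧ ∀ P : Sylow p (Cfsg.POmega F (Cfsg.quadFormOdd m F)), χ 1 = Nat.card P ∧ ∀ x : Cfsg.POmega F (Cfsg.quadFormOdd m F), x ∈ P → x ≠ 1 → χ x = 0 := by
  obtain ⟨k, rfl⟩ : ∃ k, m = k + 1 := ⟨m - 1, by omega⟩
  rcases Nat.eq_zero_or_pos k with rfl | hk
  · obtain ⟨e⟩ := Cfsg.Agent.S0298.result (F := F) hodd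
    haveI : Finite (Cfsg.POmega F (Cfsg.quadFormOdd 1 F)) := Finite.of_equiv _ e.symm.toEquiv
    exact CfsgLib.StChar.Orth.steinberg_of_equiv e (Cfsg.Agent.S2544.result p 2 le_rfl)
  · have h2 := CfsgLib.OrthOrder.two_ne_zero_of_odd hodd
    have h := CfsgLib.StChar.Orth.steinberg_B (p := p) (CfsgLib.StChar.Orth.oframeOdd (F := F) k) Nat.one_pos
      (by omega) (CfsgLib.Forms.nondegenerate_quadOdd (k + 1) h2) (by simp; omega)
    rw [CfsgLib.Forms.coe_quadOdd] at h
    exact h

end Cfsg.Agent.S2547
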