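import Cfsg.Statements.S2566
import Mathlib
import Cfsg.Agent.OrthOrder.Orders
-- import your own Cfsg.Agent.* helpers here

set_option autoImplicit false
open Cfsg

namespace Cfsg.Agent.S2566

open Matrix

abbrev I4 := Fin 2 ⊕ Fin 2

/-- The three non-zero vectors of a plane over two elements. -/
def nz : Fin 3 → Fin 2 → ZMod 2 := ![![1, 0], ![0, 1], ![1, 1]]

/-- Row of a coordinate in the two by two array. -/
def rowOf : I4 → Fin 2 := Sum.elim (fun _ => 0) (fun _ => 1)

/-- Column of a coordinate in the two by two array. -/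
def colOf : I4 → Fin 2 := Sum.elim id (fun i => 1 - i)

/-- Transposition of the array. -/
def tp : Equiv.Perm I4 := Equiv.swap (.inl 1) (.inr 1)

/-- Left multiplication. -/
def lmat (σ : Equiv.Perm (Fin 3)) : Matrix I4 I4 (ZMod 2) :=
  Matrix.of fun p q => if colOf p = colOf q then nz (σ (rowOf q).castSucc) (rowOf p) else 0

/-- Right multiplication. -/
def rmat (σ : Equiv.Perm (Fin 3)) : Matrix I4 I4 (ZMod 2) :=
  Matrix.of fun p q => lmat σ (tp p) (tp q)

/-- The transposition matrix. -/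
def tmat : Matrix I4 I4 (ZMod 2) := Matrix.of fun p q => if tp p = q then 1 else 0

theorem lmat_one : lmat 1 = 1 := by decide
theorem rmat_one : rmat 1 = 1 := by decide
theorem lmat_mul : ∀ σ τ, lmat (σ * τ) = lmat σ * lmat τ := by decide
theorem rmat_mul : ∀ σ τ, rmat (σ * τ) = rmat σ * rmat τ := by decide
theorem lmat_iso : ∀ σ v, Cfsg.quadFormPlus 2 (ZMod 2) (lmat σ *ᵥ v) = Cfsg.quadFormPlus 2 (ZMod 2) v := by
  unfold Cfsg.quadFormPlus
  decide
theorem rmat_iso : ∀ σ v, Cfsg.quadFormPlus 2 (ZMod 2) (rmat σ *ᵥ v) = Cfsg.quadFormPlus 2 (ZMod 2) v := by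
  unfold Cfsg.quadFormPlus
  decide
theorem tmat_iso : ∀ v, Cfsg.quadFormPlus 2 (ZMod 2) (tmat *ᵥ v) = Cfsg.quadFormPlus 2 (ZMod 2) v := by
  unfold Cfsg.quadFormPlus
  decide
theorem tmat_sq : tmat * tmat = 1 := by decide
theorem conj_eq : ∀ σ, tmat * lmat σ * tmat = rmat σ := by decide
theorem lr_comm : ∀ σ τ, lmat σ * rmat τ = rmat τ * lmat σ := by decide
theorem lr_eq : ∀ σ τ, lmat σ = rmat τ → σ = 1 := by decide
theorem lmat_inj : ∀ σ, lmat σ = 1 → σ = 1 := by decide
theorem rmat_inj : ∀ σ, rmat σ = 1 → σ = 1 := by decide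

/-- Left multiplications as isometries. -/
def lhom : Equiv.Perm (Fin 3) →* ↥(Cfsg.isometryGroup (ZMod 2) (Cfsg.quadFormPlus 2 (ZMod 2))) :=
  (({ toFun := lmat, map_one' := lmat_one, map_mul' := lmat_mul } :
    Equiv.Perm (Fin 3) →* Matrix I4 I4 (ZMod 2)).toHomUnits).codRestrict _ fun σ =>
      CfsgLib.Forms.mem_isometryGroup.2 (lmat_iso σ)

/-- Right multiplications as isometries. -/
def rhom : Equiv.Perm (Fin 3) →* ↥(Cfsg.isometryGroup (ZMod 2) (Cfsg.quadFormPlus 2 (ZMod 2))) :=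
  (({ toFun := rmat, map_one' := rmat_one, map_mul' := rmat_mul } :
    Equiv.Perm (Fin 3) →* Matrix I4 I4 (ZMod 2)).toHomUnits).codRestrict _ fun σ =>
      CfsgLib.Forms.mem_isometryGroup.2 (rmat_iso σ)

/-- The transposition as an isometry. -/
def telt : ↥(Cfsg.isometryGroup (ZMod 2) (Cfsg.quadFormPlus 2 (ZMod 2))) :=
  ⟨⟨tmat, tmat, tmat_sq, tmat_sq⟩, CfsgLib.Forms.mem_isometryGroup.2 tmat_iso⟩

/-- The underlying matrix. -/
abbrev matOf (g : ↥(Cfsg.isometryGroup (ZMod 2) (Cfsg.quadFormPlus 2 (ZMod 2)))) : Matrix I4 I4 (ZMod 2) :=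
  ((g : GL I4 (ZMod 2)) : Matrix I4 I4 (ZMod 2))

theorem card_grp : Nat.card ↥(Cfsg.isometryGroup (ZMod 2) (Cfsg.quadFormPlus 2 (ZMod 2))) = 72 := by
  rw [CfsgLib.OrthOrder.natCard_isometryGroup (CfsgLib.Forms.quadPlus (ZMod 2) 2) (CfsgLib.Forms.coe_quadPlus _ 2),
    CfsgLib.OrthOrder.card_isom_plus]
  simp


/-- The full orthogonal group of the plus-type form x₁y₁ + x₂y₂ in dimension 4 over the field of two elements has order 72 and is isomorphic to the wreath product of the symmetric group of degree 3 by a group of order 2: it has a normal subgroup isomorphic to the direct product of two symmetric groups of degree 3, of index 2, whose two direct factors are interchanged by conjugation by some element. -/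
theorem result :
    Nat.card ↥(Cfsg.isometryGroup (ZMod 2) (Cfsg.quadFormPlus 2 (ZMod 2))) = 72 ∧
    ∃ (A B : Subgroup ↥(Cfsg.isometryGroup (ZMod 2) (Cfsg.quadFormPlus 2 (ZMod 2)))),
      Nonempty (↥A ≃* Equiv.Perm (Fin 3)) ∧ Nonempty (↥B ≃* Equiv.Perm (Fin 3)) ∧ A ⊓ B = ⊥ ∧ (∀ a ∈ A, ∀ b ∈ B, a * b = b * a) ∧
      (A ⊔ B).index = 2 ∧ ∃ g : ↥(Cfsg.isometryGroup (ZMod 2) (Cfsg.quadFormPlus 2 (ZMod 2))), A.map (MulAut.conj g).toMonoidHom = B := by
  classical
  have hext : ∀ x y : ↥(Cfsg.isometryGroup (ZMod 2) (Cfsg.quadFormPlus 2 (ZMod 2))), matOf x = matOf y → x = y :=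
    fun x y h => Subtype.ext (Units.ext h)
  have hl : Function.Injective lhom := (injective_iff_map_eq_one _).2 fun σ h => lmat_inj σ (congrArg matOf h)
  have hr : Function.Injective rhom := (injective_iff_map_eq_one _).2 fun σ h => rmat_inj σ (congrArg matOf h)
  refine ⟨card_grp, lhom.range, rhom.range, ⟨(MonoidHom.ofInjective hl).symm⟩, ⟨(MonoidHom.ofInjective hr).symm⟩, ?_, ?_, ?_, telt, ?_⟩
  · refine (eq_bot_iff).2 fun x hx => ?_
    obtain ⟨⟨σ, rfl⟩, τ, hτ⟩ := hx
    rw [lr_eq σ τ (congrArg matOf hτ).symm, map_one]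
    exact one_mem _
  · rintro _ ⟨σ, rfl⟩ _ ⟨τ, rfl⟩
    exact hext _ _ (lr_comm σ τ)
  · have hc : ∀ m n, Commute (lhom m) (rhom n) := fun m n => hext _ _ (lr_comm m n)
    have hinj : Function.Injective (MonoidHom.noncommCoprod lhom rhom hc) := by
      refine (injective_iff_map_eq_one _).2 fun x h => ?_
      obtain ⟨σ, τ⟩ := x
      rw [MonoidHom.noncommCoprod_apply, mul_eq_one_iff_eq_inv, ← map_inv] at h
      have h1 : σ = 1 := lr_eq σ τ⁻¹ (congrArg matOf h)
      subst h1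
      rw [map_one] at h
      have h2 : τ⁻¹ = 1 := hr (h.symm.trans rhom.map_one.symm)
      rw [inv_eq_one.1 h2]
      rfl
    rw [← MonoidHom.noncommCoprod_range lhom rhom hc]
    have h := Subgroup.index_mul_card (MonoidHom.noncommCoprod lhom rhom hc).range
    rw [← Nat.card_congr (MonoidHom.ofInjective hinj).toEquiv, card_grp, Nat.card_prod, Nat.card_eq_fintype_card,
      Fintype.card_perm, Fintype.card_fin, show Nat.factorial 3 = 6 from rfl] at h
    omega
  · rw [MonoidHom.map_range]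
    congr 1
    refine MonoidHom.ext fun σ => hext _ _ ?_
    show tmat * lmat σ * tmat = rmat σ
    exact conj_eq σ

end Cfsg.Agent.S2566
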