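import Cfsg.Statements.S2548
import Cfsg.Agent.StChar.OPlusTwo
import Cfsg.Agent.S0299

set_option autoImplicit false
open Cfsg

namespace Cfsg.Agent.S2548

/-- Let F be a finite field of characteristic p and consider the group PΩ⁺_{2m}(F) of the hyperbolic quadratic form Σ x_i y_i with m ≥ 1, where Ω denotes the commutator subgroup of the full isometry group. This group has an irreducible complex character χ whose degree equals the order of a Sylow p-subgroup (equal to q^(m(m−1)) when #F = q, except in the degenerate case m = 2, q = 2, where this commutator subgroup has order 18 and its Sylow 2-subgroups have order 2) and whose restriction to any Sylow p-subgroup P is the regular character of P: χ vanishes on the non-identity elements of P. (This is the Steinberg character.) -/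
theorem result {F : Type*} [Field F] [Fintype F] (p : ℕ) [Fact p.Prime] [CharP F p] (m : ℕ) (hm : 1 ≤ m) : ∃ χ : Cfsg.POmega F (Cfsg.quadFormPlus m F) → ℂ, Cfsg.IsIrrCharacter (Cfsg.POmega F (Cfsg.quadFormPlus m F)) χ ∧ ∀ P : Sylow p (Cfsg.POmega F (Cfsg.quadFormPlus m F)), χ 1 = Nat.card P ∧ ∀ x : Cfsg.POmega F (Cfsg.quadFormPlus m F), x ∈ P → x ≠ 1 → χ x = 0 := by
  rcases (show m = 1 ∨ m = 2 ∨ ∃ k, m = k + 3 from
    if h : m ≤ 2 then (by omega) else Or.inr (Or.inr ⟨m - 3, by omega⟩)) with rfl | rfl | ⟨k, rfl⟩
  · have h := CfsgLib.StChar.Orth.steinberg_dim_two (p := p) (CfsgLib.Forms.nondegenerate_quadPlus (F := F) 1) (by simp)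
    rw [CfsgLib.Forms.coe_quadPlus] at h
    exact h
  · by_cases h3 : 3 ≤ Fintype.card F
    · obtain ⟨e⟩ := Cfsg.Agent.S0299.result (F := F) h3
      haveI : Finite (Cfsg.POmega F (Cfsg.quadFormPlus 2 F)) := Finite.of_equiv _ e.symm.toEquiv
      exact CfsgLib.StChar.Orth.steinberg_of_equiv e (CfsgLib.StChar.Orth.steinberg_prod
        (Cfsg.Agent.S2544.result p 2 le_rfl) (Cfsg.Agent.S2544.result p 2 le_rfl))
    · exact CfsgLib.StChar.OPlusTwo.steinberg_plus_two p (by have := Fintype.one_lt_card (α := F); omega)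
  · have h := CfsgLib.StChar.Orth.steinberg_D (p := p) (CfsgLib.StChar.Orth.oframePlus (F := F) (k + 2))
      (CfsgLib.Forms.nondegenerate_quadPlus (k + 3)) (by simp; omega)
    rw [CfsgLib.Forms.coe_quadPlus] at h
    exact h

end Cfsg.Agent.S2548
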