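import Cfsg.Statements.S2549
import Cfsg.Agent.StChar.OSmall
import Cfsg.Agent.S0300
import Cfsg.Agent.S2544
import Mathlib.FieldTheory.Finite.GaloisField

set_option autoImplicit false
open Cfsg

namespace Cfsg.Agent.S2549

/-- Let F be a finite field of characteristic p and consider the group PΩ⁻_{2m+2}(F) of the quadratic form Σ_{i<m} x_i y_i + (z₁² + a z₁ z₂ + b z₂²) with anisotropic binary part, m ≥ 0. This group has an irreducible complex character χ whose degree equals the order of a Sylow p-subgroup (namely q^(m(m+1)) when #F = q) and whose restriction to any Sylow p-subgroup P is the regular character of P: χ vanishes on the non-identity elements of P. (This is the Steinberg character.) -/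
theorem result {F : Type*} [Field F] [Fintype F] (p : ℕ) [Fact p.Prime] [CharP F p] (m : ℕ) (a b : F) (hab : ∀ z₁ z₂ : F, z₁ ^ 2 + a * z₁ * z₂ + b * z₂ ^ 2 = 0 → z₁ = 0 ∧ z₂ = 0) : ∃ χ : Cfsg.POmega F (Cfsg.quadFormMinus m F a b) → ℂ, Cfsg.IsIrrCharacter (Cfsg.POmega F (Cfsg.quadFormMinus m F a b)) χ ∧ ∀ P : Sylow p (Cfsg.POmega F (Cfsg.quadFormMinus m F a b)), χ 1 = Nat.card P ∧ ∀ x : Cfsg.POmega F (Cfsg.quadFormMinus m F a b), x ∈ P → x ≠ 1 → χ x = 0 := by
  rcases Nat.eq_zero_or_pos m with rfl | hm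
  · have h := CfsgLib.StChar.Orth.steinberg_dim_two (p := p) (CfsgLib.Forms.nondegenerate_quadMinus 0 hab) (by simp)
    rw [CfsgLib.Forms.coe_quadMinus] at h
    exact h
  obtain ⟨k, rfl⟩ : ∃ k, m = k + 1 := ⟨m - 1, by omega⟩
  rcases Nat.eq_zero_or_pos k with rfl | hk
  · obtain ⟨n, hn, hcard⟩ := FiniteField.card F p
    have hcard2 : Nat.card (GaloisField p (2 * (n : ℕ))) = Fintype.card F ^ 2 := by
      rw [GaloisField.card p _ (by positivity), hcard, ← pow_mul, mul_comm]
    letI : Fintype (GaloisField p (2 * (n : ℕ))) := Fintype.ofFinite _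
    rw [Nat.card_eq_fintype_card] at hcard2
    obtain ⟨e⟩ := Cfsg.Agent.S0300.result (K := GaloisField p (2 * (n : ℕ))) rfl hcard2 a b hab
    haveI : Finite (Cfsg.POmega F (Cfsg.quadFormMinus 1 F a b)) := Finite.of_equiv _ e.symm.toEquiv
    exact CfsgLib.StChar.Orth.steinberg_of_equiv e (Cfsg.Agent.S2544.result p 2 le_rfl)
  · have h := CfsgLib.StChar.Orth.steinberg_B (p := p) (CfsgLib.StChar.Orth.oframeMinus k hab) Nat.two_pos
      le_rfl (CfsgLib.Forms.nondegenerate_quadMinus (k + 1) hab) (by simp; omega)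
    rw [CfsgLib.Forms.coe_quadMinus] at h
    exact h

end Cfsg.Agent.S2549
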