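import Cfsg.Statements.S2550
import Mathlib
import Cfsg.Agent.H29.SLThreeFour
import Cfsg.Agent.SLn.Card

set_option autoImplicit false
open Cfsg

namespace Cfsg.Agent.S2550

/-- Let F be a field with 2 elements and K a field with 4 elements. PSL_4(F) and PSL_3(K) have the same order (20160) but are not isomorphic. -/
theorem result {F K : Type*} [Field F] [Fintype F] [Field K] [Fintype K] (hF : Fintype.card F = 2) (hK : Fintype.card K = 4) : Nat.card (Matrix.ProjectiveSpecialLinearGroup (Fin 4) F) = Nat.card (Matrix.ProjectiveSpecialLinearGroup (Fin 3) K) ∧ ¬ Nonempty (Matrix.ProjectiveSpecialLinearGroup (Fin 4) F ≃* Matrix.ProjectiveSpecialLinearGroup (Fin 3) K) := by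
  classical
  constructor
  · have h1 := CfsgLib.SLn.card_PSL_eq F 4 (by norm_num)
    have h2 := CfsgLib.SLn.card_PSL_eq K 3 (by norm_num)
    rw [hF, Fin.prod_univ_four] at h1
    rw [hK, Fin.prod_univ_three] at h2
    norm_num [show Nat.gcd 3 3 = 3 from rfl, show Nat.gcd 4 1 = 1 from rfl] at h1 h2
    rw [Nat.card_eq_fintype_card, Nat.card_eq_fintype_card]
    omega
  · rintro ⟨e⟩
    have hc : CharP F 2 := by
      have h := FiniteField.even_card_iff_char_two.mpr (show Fintype.card F % 2 = 0 by rw [hF])
      exact h ▸ ringChar.charP F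
    let f : ZMod 2 →+* F := ZMod.castHom (dvd_refl 2) F
    let C : Matrix.SpecialLinearGroup (Fin 4) (ZMod 2) :=
      ⟨!![0, 0, 0, 1; 1, 0, 0, 1; 0, 1, 0, 0; 0, 0, 1, 0], by
        simp [Matrix.det_succ_row_zero, Fin.sum_univ_four, Fin.sum_univ_three, Fin.succAbove]⟩
    have hC : orderOf C = 15 := by
      rw [orderOf_eq_iff (by norm_num)]
      refine ⟨by decide, ?_⟩
      intro m hm hm0
      interval_cases m <;> decide
    let c := Matrix.SpecialLinearGroup.map (n := Fin 4) f C
    have hc15 : orderOf c = 15 := by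
      rw [← hC]
      refine orderOf_injective _ ?_ C
      intro u v h
      ext i j
      exact f.injective (congrFun (congrFun (congrArg Subtype.val h) i) j)
    have hinj : Function.Injective (QuotientGroup.mk' (Subgroup.center (Matrix.SpecialLinearGroup (Fin 4) F))) := by
      rw [← MonoidHom.ker_eq_bot_iff, QuotientGroup.ker_mk', ← Subgroup.card_eq_one,
        CfsgLib.SLn.card_center_SL F 4 (by norm_num), hF]
      decide
    have := H29.SLThreeFour.no_order_fifteen hK (e (QuotientGroup.mk' _ c))
    rw [MulEquiv.orderOf_eq, orderOf_injective _ hinj, hc15] at this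
    exact this rfl

end Cfsg.Agent.S2550
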