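import Cfsg.Statements.S2552
import Mathlib

set_option autoImplicit false
open Cfsg

namespace Cfsg.Agent.S2552

/-- Let F be a finite field and n ≥ 1. For every k, the special linear group SL_n(F) acts transitively on the set of k-dimensional subspaces of F^n: any two subspaces of the same dimension are carried onto each other by some matrix of determinant 1. -/
theorem result {F : Type*} [Field F] [Fintype F] (n : ℕ) (hn : 1 ≤ n) (U₁ U₂ : Submodule F (Fin n → F)) (h : Module.finrank F U₁ = Module.finrank F U₂) : ∃ g : Matrix.SpecialLinearGroup (Fin n) F, U₁.map ((Matrix.SpecialLinearGroup.toLin' g : (Fin n → F) ≃ₗ[F] (Fin n → F)) : (Fin n → F) →ₗ[F] (Fin n → F)) = U₂ := by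
  classical
  obtain ⟨C₁, hC₁⟩ := Submodule.exists_isCompl U₁
  obtain ⟨C₂, hC₂⟩ := Submodule.exists_isCompl U₂
  by_cases hbot : U₁ = ⊥
  · refine ⟨1, ?_⟩
    have h2 : U₂ = ⊥ := Submodule.finrank_eq_zero.1 (by rw [← h, hbot, finrank_bot])
    rw [hbot, Submodule.map_bot, h2]
  have hC : Module.finrank F C₁ = Module.finrank F C₂ := by
    have h1 := Submodule.finrank_add_eq_of_isCompl hC₁
    have h2 := Submodule.finrank_add_eq_of_isCompl hC₂
    omega
  let e : (Fin n → F) ≃ₗ[F] (Fin n → F) := (Submodule.prodEquivOfIsCompl _ _ hC₁).symm ≪≫ₗ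
    ((LinearEquiv.ofFinrankEq U₁ U₂ h).prodCongr (LinearEquiv.ofFinrankEq C₁ C₂ hC)) ≪≫ₗ
    Submodule.prodEquivOfIsCompl _ _ hC₂
  have he : ∀ u ∈ U₁, e u ∈ U₂ := by
    intro u hu
    have : e ((⟨u, hu⟩ : U₁) : Fin n → F) = ((LinearEquiv.ofFinrankEq U₁ U₂ h ⟨u, hu⟩ : U₂) : Fin n → F) := by
      have hs : (Submodule.prodEquivOfIsCompl _ _ hC₁).symm u = (⟨u, hu⟩, 0) := by
        rw [LinearEquiv.symm_apply_eq, Submodule.coe_prodEquivOfIsCompl']; simp
      simp only [e, LinearEquiv.trans_apply, hs, LinearEquiv.prodCongr_apply, map_zero,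
        Submodule.coe_prodEquivOfIsCompl', ZeroMemClass.coe_zero, add_zero]
    have : e u = ((LinearEquiv.ofFinrankEq U₁ U₂ h ⟨u, hu⟩ : U₂) : Fin n → F) := this
    rw [this]; exact Subtype.coe_prop _
  obtain ⟨v, hvU, hv0⟩ := Submodule.exists_mem_ne_zero_of_ne_bot hbot
  obtain ⟨φ, hφ⟩ : ∃ φ : Module.Dual F (Fin n → F), φ v = 1 :=
    Module.Projective.exists_dual_eq_one F hv0
  set d := LinearMap.det (e : (Fin n → F) →ₗ[F] (Fin n → F))
  have hd : d ≠ 0 := (LinearEquiv.isUnit_det' e).ne_zero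
  let T : (Fin n → F) →ₗ[F] (Fin n → F) := LinearMap.transvection ((d⁻¹ - 1) • φ) v
  have hT : LinearMap.det T = d⁻¹ := by
    rw [LinearMap.transvection.det]; simp [hφ]
  let g₀ : (Fin n → F) →ₗ[F] (Fin n → F) := (e : (Fin n → F) →ₗ[F] (Fin n → F)) ∘ₗ T
  have hg : (LinearMap.toMatrix' g₀).det = 1 := by
    rw [LinearMap.det_toMatrix', LinearMap.det_comp, hT]; exact mul_inv_cancel₀ hd
  refine ⟨⟨LinearMap.toMatrix' g₀, hg⟩, ?_⟩
  show Submodule.map (Matrix.toLin' (LinearMap.toMatrix' g₀)) U₁ = U₂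
  rw [Matrix.toLin'_toMatrix']
  refine Submodule.eq_of_le_of_finrank_le ?_ ?_
  · rintro _ ⟨u, hu, rfl⟩
    refine he _ ?_
    show u + _ • v ∈ U₁
    exact add_mem hu (U₁.smul_mem _ hvU)
  · have hinj : Function.Injective g₀ := by
      have hne : LinearMap.det g₀ ≠ 0 := by
        rw [← LinearMap.det_toMatrix', hg]; exact one_ne_zero
      exact ((Module.End.isUnit_iff g₀).1 ((LinearMap.isUnit_iff_isUnit_det g₀).2 hne.isUnit)).1
    rw [← h, (Submodule.equivMapOfInjective g₀ hinj U₁).finrank_eq]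

end Cfsg.Agent.S2552
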