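import Cfsg.Statements.S2562
import Cfsg.Agent.Forms.Standard

set_option autoImplicit false
open Cfsg

namespace Cfsg.Agent.S2562

/-- Witt indices over the field of two elements, m ≥ 1: for the plus-type form Σ xᵢyᵢ in dimension 2m some m-dimensional subspace is totally singular and no totally singular subspace has larger dimension; for the minus-type form Σ xᵢyᵢ + (z₁² + z₁z₂ + z₂²) in dimension 2m the maximal dimension of a totally singular subspace is m − 1. -/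
theorem result (m : ℕ) (hm : 1 ≤ m) :
    (∃ U : Submodule (ZMod 2) (Fin m ⊕ Fin m → ZMod 2), (∀ u ∈ U, Cfsg.quadFormPlus m (ZMod 2) u = 0) ∧ Module.finrank (ZMod 2) ↥U = m) ∧
    (∀ U : Submodule (ZMod 2) (Fin m ⊕ Fin m → ZMod 2), (∀ u ∈ U, Cfsg.quadFormPlus m (ZMod 2) u = 0) → Module.finrank (ZMod 2) ↥U ≤ m) ∧
    (∃ U : Submodule (ZMod 2) ((Fin (m - 1) ⊕ Fin (m - 1)) ⊕ Fin 2 → ZMod 2), (∀ u ∈ U, Cfsg.quadFormMinus (m - 1) (ZMod 2) 1 1 u = 0) ∧ Module.finrank (ZMod 2) ↥U = m - 1) ∧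
    (∀ U : Submodule (ZMod 2) ((Fin (m - 1) ⊕ Fin (m - 1)) ⊕ Fin 2 → ZMod 2), (∀ u ∈ U, Cfsg.quadFormMinus (m - 1) (ZMod 2) 1 1 u = 0) → Module.finrank (ZMod 2) ↥U ≤ m - 1) := by
  have h11 : ∀ z₁ z₂ : ZMod 2, z₁ ^ 2 + 1 * z₁ * z₂ + 1 * z₂ ^ 2 = 0 → z₁ = 0 ∧ z₂ = 0 := by decide
  refine ⟨?_, fun U hU => ?_, ?_, fun U hU => CfsgLib.Forms.finrank_le_of_singular_minus h11 hU⟩
  · refine ⟨LinearMap.ker (LinearMap.funLeft (ZMod 2) (ZMod 2) (Sum.inr : Fin m → Fin m ⊕ Fin m)),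
      fun u hu => ?_, ?_⟩
    · have : ∀ i, u (Sum.inr i) = 0 := fun i => congrFun (LinearMap.mem_ker.1 hu) i
      simp [Cfsg.quadFormPlus, this]
    · have hs : Function.Surjective
          (LinearMap.funLeft (ZMod 2) (ZMod 2) (Sum.inr : Fin m → Fin m ⊕ Fin m)) := fun w =>
        ⟨Sum.elim 0 w, funext fun i => rfl⟩
      have := LinearMap.finrank_range_add_finrank_ker
        (LinearMap.funLeft (ZMod 2) (ZMod 2) (Sum.inr : Fin m → Fin m ⊕ Fin m))
      rw [LinearMap.range_eq_top.2 hs, finrank_top] at this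
      simp at this
      omega
  · have := CfsgLib.Forms.two_finrank_le_of_singular (Q := CfsgLib.Forms.quadPlus (ZMod 2) m)
      (CfsgLib.Forms.nondegenerate_quadPlus m) (U := U) (by simpa using hU)
    simp at this
    omega
  · let κ : Fin (m - 1) ⊕ Fin 2 → (Fin (m - 1) ⊕ Fin (m - 1)) ⊕ Fin 2 :=
      Sum.elim (fun i => Sum.inl (Sum.inr i)) (fun k => Sum.inr k)
    refine ⟨LinearMap.ker (LinearMap.funLeft (ZMod 2) (ZMod 2) κ), fun u hu => ?_, ?_⟩
    · have h : ∀ j, u (κ j) = 0 := fun j => congrFun (LinearMap.mem_ker.1 hu) j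
      have h1 : ∀ i, u (Sum.inl (Sum.inr i)) = 0 := fun i => h (Sum.inl i)
      have h2 : ∀ k, u (Sum.inr k) = 0 := fun k => h (Sum.inr k)
      simp [Cfsg.quadFormMinus, h1, h2]
    · have hs : Function.Surjective (LinearMap.funLeft (ZMod 2) (ZMod 2) κ) := fun w =>
        ⟨Sum.elim (Sum.elim 0 (fun i => w (Sum.inl i))) (fun k => w (Sum.inr k)),
          funext fun j => by rcases j with i | k <;> rfl⟩
      have := LinearMap.finrank_range_add_finrank_ker (LinearMap.funLeft (ZMod 2) (ZMod 2) κ)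
      rw [LinearMap.range_eq_top.2 hs, finrank_top] at this
      simp at this
      omega

end Cfsg.Agent.S2562
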