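import Cfsg.Statements.S2563
import Cfsg.Agent.Forms.EvenSubsets
import Cfsg.Agent.Forms.Maximal
import Cfsg.Agent.Forms.Matrix
import Cfsg.Agent.S0760

set_option autoImplicit false
open Cfsg

namespace Cfsg.Agent.S2563

section Helpers

open QuadraticMap CfsgLib.Forms.EvenSubsets

/-- Generators of the extended Hamming code. -/
def hamming : Fin 4 → Fin 8 → ZMod 2 :=
  ![![1, 1, 1, 1, 0, 0, 0, 0], ![0, 0, 1, 1, 1, 1, 0, 0], ![0, 0, 0, 0, 1, 1, 1, 1], ![0, 1, 0, 1, 0, 1, 0, 1]]

theorem hamming_weight : ∀ c : Fin 4 → ZMod 2,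
    4 ∣ (Finset.univ.filter fun p => ∑ r, c r * hamming r p ≠ 0).card := by decide +kernel

theorem hamming_dual : ∀ w : Fin 8 → ZMod 2, (∀ r, ∑ p, hamming r p * w p = 0) →
    ∃ c : Fin 4 → ZMod 2, ∀ p, w p = ∑ r, c r * hamming r p := by decide +kernel

theorem hamming_inj : ∀ c : Fin 4 → ZMod 2, (∀ p, ∑ r, c r * hamming r p = 0) → c = 0 := by decide +kernel

theorem hamming_one : ∀ p, ∑ r, (![1, 0, 1, 0] : Fin 4 → ZMod 2) r * hamming r p = 1 := by decide

theorem small_even : ∀ w : Fin 4 → ZMod 2, (Finset.univ.filter fun i => w i ≠ 0).card % 4 = 0 →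
    w = 0 ∨ w = fun _ => 1 := by decide +kernel

variable {j r : ℕ}

/-- The code map. -/
def code (j r : ℕ) : (Fin j × Fin 4 → ZMod 2) →ₗ[ZMod 2] ((Fin j × Fin 8) ⊕ Fin r → ZMod 2) where
  toFun c := Sum.elim (fun bp => ∑ x, c (bp.1, x) * hamming x bp.2) 0
  map_add' c d := by funext z; rcases z with z | z <;> simp [add_mul, Finset.sum_add_distrib]
  map_smul' a c := by funext z; rcases z with z | z <;> simp [Finset.mul_sum, mul_assoc]

theorem wt_code (c : Fin j × Fin 4 → ZMod 2) : 4 ∣ wt (code j r c) := by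
  rw [wt_eq, Fintype.sum_sum_type, Fintype.sum_prod_type]
  refine dvd_add (Finset.dvd_sum fun b _ => ?_) (by simp [code])
  have := hamming_weight fun x => c (b, x)
  rwa [Finset.card_filter] at this

theorem half_code (c : Fin j × Fin 4 → ZMod 2) : half (code j r c) = 0 := by
  obtain ⟨t, ht⟩ := wt_code (r := r) c
  rw [half, ht, show 4 * t / 2 = 2 * t by omega, Nat.cast_mul]
  rw [show ((2 : ℕ) : ZMod 2) = 0 from rfl, zero_mul]

theorem total_code (c : Fin j × Fin 4 → ZMod 2) : total _ (code j r c) = 0 := by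
  rw [← wt_cast, ZMod.natCast_eq_zero_iff_even, even_iff_two_dvd]
  exact (show 2 ∣ 4 by norm_num).trans (wt_code c)

theorem code_injective : Function.Injective (code j r) := by
  refine (injective_iff_map_eq_zero _).2 fun c hc => funext fun bx => ?_
  have := hamming_inj (fun x => c (bx.1, x)) fun p => congrFun hc (Sum.inl (bx.1, p))
  exact congrFun this bx.2

/-- The code in the quotient. -/
noncomputable def codeV (h4 : 4 ∣ Fintype.card ((Fin j × Fin 8) ⊕ Fin r)) :
    (Fin j × Fin 4 → ZMod 2) →ₗ[ZMod 2] V h4 :=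
  (mk h4).comp ((code j r).codRestrict _ fun c => LinearMap.mem_ker.2 (total_code c))

theorem form_codeV (h4 : 4 ∣ Fintype.card ((Fin j × Fin 8) ⊕ Fin r)) (c : Fin j × Fin 4 → ZMod 2) :
    form h4 (codeV h4 c) = 0 := (form_mk h4 _).trans (half_code c)

theorem codeV_eq_zero (h4 : 4 ∣ Fintype.card ((Fin j × Fin 8) ⊕ Fin r)) {c : Fin j × Fin 4 → ZMod 2}
    (hc : codeV h4 c = 0) : ∃ t : ZMod 2, ∀ i, code j r c i = t := by
  obtain ⟨t, ht⟩ := (mk_eq_mk h4).1 (hc.trans (map_zero (mk h4)).symm)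
  exact ⟨t, fun i => (ht i).trans (zero_add t)⟩

theorem plus_half (h4 : 4 ∣ Fintype.card ((Fin j × Fin 8) ⊕ Fin r)) :
    4 * j ≤ Module.finrank (ZMod 2) (LinearMap.range (codeV h4)) + 1 := by
  have h := (codeV h4).finrank_range_add_finrank_ker
  rw [Module.finrank_fintype_fun_eq_card] at h
  simp at h
  have hle : LinearMap.ker (codeV h4) ≤ Submodule.span (ZMod 2) {fun bx : Fin j × Fin 4 => (![1, 0, 1, 0] : Fin 4 → ZMod 2) bx.2} := by
    intro c hc
    obtain ⟨t, ht⟩ := codeV_eq_zero h4 hc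
    refine Submodule.mem_span_singleton.2 ⟨t, code_injective (r := r) (funext fun i => ?_)⟩
    rcases i with ⟨b, p⟩ | i
    · rw [map_smul, ht]; show t * _ = t
      rw [show code j r (fun bx : Fin j × Fin 4 => (![1, 0, 1, 0] : Fin 4 → ZMod 2) bx.2) (Sum.inl (b, p)) = 1 from
        hamming_one p, mul_one]
    · show code j r _ (Sum.inr i) = code j r c (Sum.inr i)
      rfl
  have h1 := Submodule.finrank_mono hle
  have h2 := (finrank_span_le_card (R := ZMod 2) ({fun bx : Fin j × Fin 4 => (![1, 0, 1, 0] : Fin 4 → ZMod 2) bx.2} : Set _)).trans_eq (by simp : _ = 1)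
  omega

theorem minus_no_half (h4 : 4 ∣ Fintype.card ((Fin j × Fin 8) ⊕ Fin 4)) :
    ¬ ∃ S : Submodule (ZMod 2) (V h4), (∀ v ∈ S, form h4 v = 0) ∧ 4 * j + 1 ≤ Module.finrank (ZMod 2) S := by
  have : Nonempty ((Fin j × Fin 8) ⊕ Fin 4) := ⟨Sum.inr 0⟩
  have hnd := nondegenerate h4
  have hfd := finrank_V h4
  simp only [Fintype.card_sum, Fintype.card_prod, Fintype.card_fin] at hfd
  rintro ⟨S, hS, hSd⟩
  set U := LinearMap.range (codeV (r := 4) h4)
  have hU : Module.finrank (ZMod 2) U = 4 * j := by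
    rw [LinearMap.finrank_range_of_inj]
    · simp; ring
    · refine (injective_iff_map_eq_zero _).2 fun c hc => ?_
      obtain ⟨t, ht⟩ := codeV_eq_zero h4 hc
      have ht0 : t = 0 := (ht (Sum.inr 0)).symm
      refine code_injective (r := 4) ((funext fun i => ?_).trans (map_zero _).symm)
      rw [ht i, ht0]; rfl
  have hmax : ∀ X : Submodule (ZMod 2) (V h4), U ≤ X → (∀ x ∈ X, form h4 x = 0) → X = U := by
    intro X hUX hX
    refine le_antisymm (fun x hx => ?_) hUX
    obtain ⟨u, rfl⟩ := Submodule.mkQ_surjective _ x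
    have horth : ∀ c, ∑ i, u.1 i * code j 4 c i = 0 := fun c => by
      have hm : codeV h4 c ∈ X := hUX ⟨c, rfl⟩
      rw [← CfsgLib.Forms.polar_eq_zero_of_singular hX hx hm]
      exact (polar_mk h4 u ⟨code j 4 c, LinearMap.mem_ker.2 (total_code c)⟩).symm
    have hblock : ∀ b, ∃ c : Fin 4 → ZMod 2, ∀ p, u.1 (Sum.inl (b, p)) = ∑ x, c x * hamming x p := by
      intro b
      refine hamming_dual _ fun x => ?_
      have h1 := horth (Pi.single (b, x) 1)
      rw [Fintype.sum_sum_type, Fintype.sum_prod_type, Finset.sum_eq_single b] at h1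
      · simp [code, Pi.single_apply, Prod.ext_iff] at h1
        rw [← h1]
        exact Finset.sum_congr rfl fun p _ => mul_comm _ _
      · intro b' _ hb'; simp [code, Pi.single_apply, Prod.ext_iff, hb']
      · simp
    choose c hc using hblock
    set C : Fin j × Fin 4 → ZMod 2 := fun bx => c bx.1 bx.2
    let R : (Fin j × Fin 8) ⊕ Fin 4 → ZMod 2 := Sum.elim 0 fun i => u.1 (Sum.inr i)
    have hu : u.1 = code j 4 C + R := by
      funext i
      rcases i with ⟨b, p⟩ | i
      · simpa [code, R, C] using hc b p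
      · simp [code, R]
    have hR : total _ R = 0 := by
      have := LinearMap.mem_ker.1 u.2
      rw [hu, map_add, total_code, zero_add] at this
      exact this
    have hq : half R = 0 := by
      have := hX _ hx
      rw [form_mk, hu, half_add (total_code C) hR, half_code, zero_add] at this
      have h0 : ∑ i, code j 4 C i * R i = 0 := by
        rw [Fintype.sum_sum_type]; simp [code, R]
      rwa [h0, add_zero] at this
    have h4' : (Finset.univ.filter fun i : Fin 4 => u.1 (Sum.inr i) ≠ 0).card % 4 = 0 := by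
      obtain ⟨a, ha⟩ := even_wt hR
      rw [half, ha, show (a + a) / 2 = a by omega, ZMod.natCast_eq_zero_iff_even] at hq
      obtain ⟨b, rfl⟩ := hq
      have e : wt R = ∑ i : Fin 4, if u.1 (Sum.inr i) ≠ 0 then 1 else 0 := by
        rw [wt_eq, Fintype.sum_sum_type]
        simp [R]
        exact Finset.sum_congr rfl fun i _ => by split_ifs <;> simp_all
      rw [Finset.card_filter, ← e]
      omega
    rcases small_even _ h4' with h | h
    · refine ⟨C, (mk_eq_mk h4).2 ⟨0, fun i => ?_⟩⟩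
      show code j 4 C i = u.1 i + 0
      rw [hu, Pi.add_apply, add_zero]
      rcases i with i | i
      · simp [R]
      · have := congrFun h i
        simp [R, this]
    · refine ⟨C + fun bx => (![1, 0, 1, 0] : Fin 4 → ZMod 2) bx.2, (mk_eq_mk h4).2 ⟨1, fun i => ?_⟩⟩
      show code j 4 (C + _) i = u.1 i + 1
      rw [map_add, hu, Pi.add_apply, Pi.add_apply]
      rcases i with ⟨b, p⟩ | i
      · rw [show code j 4 (fun bx => (![1, 0, 1, 0] : Fin 4 → ZMod 2) bx.2) (Sum.inl (b, p)) = 1 from hamming_one p]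
        simp [R]
      · have := congrFun h i
        simp [R, code, this, show (1 : ZMod 2) + 1 = 0 from rfl]
  have hbound : ∀ X : Submodule (ZMod 2) (V h4), (∀ x ∈ X, form h4 x = 0) →
      2 * Module.finrank (ZMod 2) X ≤ Module.finrank (ZMod 2) (V h4) := fun X hX =>
    CfsgLib.Forms.two_finrank_le_of_singular hnd hX
  have hSmax : ∀ X : Submodule (ZMod 2) (V h4), S ≤ X → (∀ x ∈ X, form h4 x = 0) → X = S := fun X hle hX =>
    (Submodule.eq_of_le_of_finrank_le hle (by have := hbound X hX; omega)).symm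
  have := (Cfsg.Agent.S0760.result (form h4) hnd U S
    (fun w ⟨c, hc⟩ => hc ▸ form_codeV h4 c) hS hmax hSmax).1
  omega

end Helpers

/-- For k ≥ 1 the symmetric group of degree 4k + 4 embeds in a full orthogonal group in dimension 4k + 2 over the field of two elements: in the isometry group of the plus-type form Σ xᵢyᵢ when k is odd, and in that of the minus-type form Σ xᵢyᵢ + (z₁² + z₁z₂ + z₂²) when k is even (through its action on even partitions of a (4k+4)-set, with the form 'half the size of a part, modulo 2'). -/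
theorem result (k : ℕ) (hk : 1 ≤ k) :
    (Odd k → ∃ φ : Equiv.Perm (Fin (4 * k + 4)) →* ↥(Cfsg.isometryGroup (ZMod 2) (Cfsg.quadFormPlus (2 * k + 1) (ZMod 2))), Function.Injective φ) ∧
    (Even k → ∃ φ : Equiv.Perm (Fin (4 * k + 4)) →* ↥(Cfsg.isometryGroup (ZMod 2) (Cfsg.quadFormMinus (2 * k) (ZMod 2) 1 1)), Function.Injective φ) := by
  classical
  -- transport an isometry with the standard form into an embedding of the symmetric group
  have main : ∀ (ι κ : Type) [Fintype ι] [DecidableEq ι] [Fintype κ] [DecidableEq κ] (h4 : 4 ∣ Fintype.card ι)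
      (e : Fin (4 * k + 4) ≃ ι) (P : (κ → ZMod 2) → ZMod 2)
      (g : CfsgLib.Forms.EvenSubsets.V h4 ≃ₗ[ZMod 2] (κ → ZMod 2)),
      (∀ v, P (g v) = CfsgLib.Forms.EvenSubsets.form h4 v) →
      ∃ φ : Equiv.Perm (Fin (4 * k + 4)) →* ↥(Cfsg.isometryGroup (ZMod 2) P), Function.Injective φ := by
    intro ι κ _ _ _ _ h4 e P g hg
    let M : Equiv.Perm (Fin (4 * k + 4)) →* Matrix κ κ (ZMod 2) :=
      { toFun := fun σ => LinearMap.toMatrix' ((g : _ →ₗ[ZMod 2] _) ∘ₗ
          CfsgLib.Forms.EvenSubsets.act h4 (e.permCongrHom σ) ∘ₗ (g.symm : _ →ₗ[ZMod 2] _))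
        map_one' := by
          rw [show e.permCongrHom 1 = 1 from map_one _, map_one, ← LinearMap.toMatrix'_id]
          congr 1; exact LinearMap.ext fun v => g.apply_symm_apply v
        map_mul' := fun σ τ => by
          rw [← LinearMap.toMatrix'_comp]
          congr 1
          refine LinearMap.ext fun v => ?_
          simp [map_mul] }
    have hM : ∀ σ v, (M σ).mulVec v = g (CfsgLib.Forms.EvenSubsets.act h4 (e.permCongrHom σ) (g.symm v)) :=
      fun σ v => LinearMap.toMatrix'_mulVec _ v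
    refine ⟨M.toHomUnits.codRestrict _ fun σ => CfsgLib.Forms.mem_isometryGroup.2 fun v => ?_, fun σ τ h => ?_⟩
    · rw [MonoidHom.coe_toHomUnits, hM, hg, CfsgLib.Forms.EvenSubsets.act_form]
      exact (hg _).symm.trans (congrArg P (g.apply_symm_apply v))
    · have h' : M σ = M τ := congrArg Units.val (congrArg Subtype.val h)
      refine e.permCongrHom.injective (CfsgLib.Forms.EvenSubsets.act_injective h4 (by
        rw [← Fintype.card_congr e, Fintype.card_fin]; omega) (LinearMap.ext fun v => g.injective ?_))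
      have := hM σ (g v)
      rw [h', hM, g.symm_apply_apply] at this
      exact this.symm
  constructor
  · rintro ⟨i, rfl⟩
    have hcard : Fintype.card ((Fin (i + 1) × Fin 8) ⊕ Fin 0) = 8 * i + 8 := by
      simp only [Fintype.card_sum, Fintype.card_prod, Fintype.card_fin]; ring
    have h4 : 4 ∣ Fintype.card ((Fin (i + 1) × Fin 8) ⊕ Fin 0) := ⟨2 * i + 2, by rw [hcard]; ring⟩
    have : Nonempty ((Fin (i + 1) × Fin 8) ⊕ Fin 0) := ⟨Sum.inl (0, 0)⟩
    have hfd := CfsgLib.Forms.EvenSubsets.finrank_V h4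
    have hp := plus_half h4
    obtain ⟨g, hg⟩ := CfsgLib.Forms.exists_isometry_plus (m := 2 * (2 * i + 1) + 1) (by omega) (by omega)
      (CfsgLib.Forms.EvenSubsets.nondegenerate h4) (LinearMap.range (codeV h4))
      (fun v ⟨c, hc⟩ => hc ▸ form_codeV h4 c) (by omega)
    exact main _ _ h4 (Fintype.equivFinOfCardEq (by rw [hcard]; ring)).symm _ g hg
  · rintro ⟨i, rfl⟩
    have hcard : Fintype.card ((Fin i × Fin 8) ⊕ Fin 4) = 8 * i + 4 := by
      simp only [Fintype.card_sum, Fintype.card_prod, Fintype.card_fin]; ring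
    have h4 : 4 ∣ Fintype.card ((Fin i × Fin 8) ⊕ Fin 4) := ⟨2 * i + 1, by rw [hcard]; ring⟩
    have : Nonempty ((Fin i × Fin 8) ⊕ Fin 4) := ⟨Sum.inr 0⟩
    have hfd := CfsgLib.Forms.EvenSubsets.finrank_V h4
    obtain ⟨g, hg⟩ := CfsgLib.Forms.exists_isometry_minus (m := 2 * (i + i) + 1) (by omega) (by omega)
      (CfsgLib.Forms.EvenSubsets.nondegenerate h4)
      (fun ⟨S, hS, hSd⟩ => minus_no_half h4 ⟨S, hS, by omega⟩)
      (a := (1 : ZMod 2)) (b := 1) (by decide)
    exact main _ _ h4 (Fintype.equivFinOfCardEq (by rw [hcard]; ring)).symm _ g hg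

end Cfsg.Agent.S2563
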