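import Cfsg.Statements.S2564
import Cfsg.Agent.Forms.Arf

set_option autoImplicit false
open Cfsg

namespace Cfsg.Agent.S2564

/-- On the 2m-dimensional space over the field of two elements (m ≥ 1) let f be the alternating form obtained by polarizing the plus-type form Σ xᵢyᵢ, and let q be any quadratic form polarizing to f. For a vector w, the function q + f(·, w) again polarizes to f, and it is equivalent to q under an invertible linear map (that is, has the same type) if and only if q(w) = 0. -/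
theorem result (m : ℕ) (hm : 1 ≤ m) (q : (Fin m ⊕ Fin m → ZMod 2) → ZMod 2) (hq : (∀ u v : (Fin m ⊕ Fin m → ZMod 2), q (u + v) = q u + q v + (Cfsg.quadFormPlus m (ZMod 2) (u + v) - Cfsg.quadFormPlus m (ZMod 2) u - Cfsg.quadFormPlus m (ZMod 2) v))) (w : (Fin m ⊕ Fin m → ZMod 2)) :
    (∀ u v : (Fin m ⊕ Fin m → ZMod 2), (q (u + v) + (Cfsg.quadFormPlus m (ZMod 2) (u + v + w) - Cfsg.quadFormPlus m (ZMod 2) (u + v) - Cfsg.quadFormPlus m (ZMod 2) w)) =
        (q u + (Cfsg.quadFormPlus m (ZMod 2) (u + w) - Cfsg.quadFormPlus m (ZMod 2) u - Cfsg.quadFormPlus m (ZMod 2) w)) + (q v + (Cfsg.quadFormPlus m (ZMod 2) (v + w) - Cfsg.quadFormPlus m (ZMod 2) v - Cfsg.quadFormPlus m (ZMod 2) w)) +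
        (Cfsg.quadFormPlus m (ZMod 2) (u + v) - Cfsg.quadFormPlus m (ZMod 2) u - Cfsg.quadFormPlus m (ZMod 2) v)) ∧
    ((∃ g : (Fin m ⊕ Fin m → ZMod 2) ≃ₗ[ZMod 2] (Fin m ⊕ Fin m → ZMod 2), ∀ v, q v + (Cfsg.quadFormPlus m (ZMod 2) (v + w) - Cfsg.quadFormPlus m (ZMod 2) v - Cfsg.quadFormPlus m (ZMod 2) w) = q (g v)) ↔ q w = 0) := by
  refine ⟨fun u v => ?_, ?_⟩
  · rw [hq u v]
    have := QuadraticMap.polar_add_left (CfsgLib.Forms.quadPlus (ZMod 2) m) u v w
    simp only [QuadraticMap.polar, CfsgLib.Forms.coe_quadPlus] at this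
    linear_combination this
  obtain ⟨a, rfl⟩ := CfsgLib.Forms.Arf.exists_twist hq
  have hval : ∀ v, (⇑(CfsgLib.Forms.Arf.twist a) : (Fin m ⊕ Fin m → ZMod 2) → ZMod 2) v + (Cfsg.quadFormPlus m (ZMod 2) (v + w) - Cfsg.quadFormPlus m (ZMod 2) v - Cfsg.quadFormPlus m (ZMod 2) w) = CfsgLib.Forms.Arf.twist (a + w) v := fun v => by
    rw [CfsgLib.Forms.Arf.twist_apply, CfsgLib.Forms.Arf.twist_apply, QuadraticMap.polar_add_right]
    simp only [QuadraticMap.polar, CfsgLib.Forms.coe_quadPlus]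
    ring
  simp only [hval]
  constructor
  · rintro ⟨g, hg⟩
    have key : CfsgLib.Forms.Arf.IsPlus ⇑(CfsgLib.Forms.Arf.twist (a + w)) ↔ CfsgLib.Forms.Arf.IsPlus ⇑(CfsgLib.Forms.Arf.twist a) :=
      ⟨fun ⟨h, hh⟩ => ⟨g.symm ≪≫ₗ h, fun v => by
        rw [LinearEquiv.trans_apply, ← hh, hg, g.apply_symm_apply]⟩,
        fun ⟨h, hh⟩ => ⟨g ≪≫ₗ h, fun v => by rw [LinearEquiv.trans_apply, ← hh, hg]⟩⟩
    rw [CfsgLib.Forms.Arf.isPlus_twist_iff hm, CfsgLib.Forms.Arf.isPlus_twist_iff hm,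
      QuadraticMap.map_add (⇑(CfsgLib.Forms.Arf.q0 m)) a w] at key
    rw [CfsgLib.Forms.Arf.twist_apply, QuadraticMap.polar_comm]
    revert key
    generalize CfsgLib.Forms.Arf.q0 m a = x; generalize CfsgLib.Forms.Arf.q0 m w = y
    generalize QuadraticMap.polar (⇑(CfsgLib.Forms.Arf.q0 m)) a w = z
    revert x y z; decide
  · intro h
    obtain ⟨g, hg⟩ := CfsgLib.Forms.Arf.exists_transvection h
    refine ⟨g, fun v => ?_⟩
    rw [hg, CfsgLib.Forms.Arf.twist_apply, CfsgLib.Forms.Arf.twist_apply, QuadraticMap.polar_add_right]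
    rw [show QuadraticMap.polar (⇑(CfsgLib.Forms.Arf.twist a)) v w = QuadraticMap.polar (⇑(CfsgLib.Forms.Arf.q0 m)) v w by
      rw [← QuadraticMap.polarBilin_apply_apply, CfsgLib.Forms.Arf.polarBilin_twist]; rfl]
    abel

end Cfsg.Agent.S2564
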