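import Cfsg.Statements.S2565
import Cfsg.Agent.S0302
import Cfsg.Agent.A8GL4.Basic
import Cfsg.Agent.Forms.OrthBasics
import Cfsg.Agent.OrthOrder.Center

set_option autoImplicit false
open Cfsg

namespace Cfsg.Agent.S2565

/-- The commutator subgroup of the full orthogonal group of the plus-type form Σ xᵢyᵢ in dimension 6 over the field of two elements (the group Ω⁺₆(2), of index 2) is isomorphic to the alternating group of degree 8. -/
theorem result :
    (Cfsg.Omega (ZMod 2) (Cfsg.quadFormPlus 3 (ZMod 2))).index = 2 ∧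
    Nonempty (↥(Cfsg.Omega (ZMod 2) (Cfsg.quadFormPlus 3 (ZMod 2))) ≃* alternatingGroup (Fin 8)) := by
  classical
  haveI : Fact (Nat.Prime 2) := ⟨Nat.prime_two⟩
  have h2 : (2 : ZMod 2) = 0 := rfl
  have hQ := CfsgLib.Forms.nondegenerate_quadPlus (F := ZMod 2) 3
  have hn : 5 ≤ Fintype.card (Fin 3 ⊕ Fin 3) := by simp
  have hidx := CfsgLib.Forms.index_Omega_two h2 hQ (Or.inr (by simp)) (by simp)
  have hc := CfsgLib.OrthOrder.card_center_char_two h2 hQ hn
  rw [CfsgLib.Forms.coe_quadPlus] at hidx hc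
  obtain ⟨e₁⟩ := Cfsg.Agent.S0302.result (F := ZMod 2)
  obtain ⟨e₂⟩ := CfsgLib.A8GL4.nonempty_equiv
  refine ⟨hidx, ⟨?_⟩⟩
  refine ((QuotientGroup.quotientBot).symm.trans (QuotientGroup.quotientMulEquivOfEq
    (Subgroup.card_eq_one.1 hc).symm)).trans (e₁.trans ?_)
  exact ((QuotientGroup.quotientMulEquivOfEq (CfsgLib.A8GL4.center_eq_bot (ZMod 2) (ZMod.card 2))).trans
    QuotientGroup.quotientBot).trans e₂

end Cfsg.Agent.S2565
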