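import Cfsg.Statements.S2567
import Mathlib

set_option autoImplicit false
open Cfsg

namespace Cfsg.Agent.S2567

/-- Lifting elements of prime order from PGL to GL: let F be a finite field with q elements, r a prime not dividing q − 1, and x an element of order r in GL_n(F) modulo its centre (the scalar matrices). Then x has exactly one preimage in GL_n(F) of order r. -/
theorem result {F : Type*} [Field F] [Fintype F] {q n r : ℕ} (hF : Fintype.card F = q) (hr : r.Prime) (hdiv : ¬ r ∣ q - 1) (x : GL (Fin n) F ⧸ Subgroup.center (GL (Fin n) F)) (hx : orderOf x = r) : ∃! g : GL (Fin n) F, (QuotientGroup.mk g : GL (Fin n) F ⧸ Subgroup.center (GL (Fin n) F)) = x ∧ orderOf g = r := by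
  obtain ⟨g, hgx⟩ := QuotientGroup.mk_surjective x
  rw [← hgx] at hx ⊢
  clear hgx x
  classical
  set Z := Subgroup.center (GL (Fin n) F)
  have hcop : (Nat.card Z).Coprime r := by
    refine ((Nat.Prime.coprime_iff_not_dvd hr).2 fun hdvd => hdiv ?_).symm
    refine hdvd.trans ?_
    have hu : Nat.card Fˣ = q - 1 := by rw [Nat.card_units, Nat.card_eq_fintype_card, hF]
    rw [← hu]
    have : Z = (Matrix.GeneralLinearGroup.scalar (Fin n)).range :=
      Matrix.GeneralLinearGroup.center_eq_range_scalar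
    rw [this]
    exact Subgroup.card_range_dvd _
  have hgr : g ^ r ∈ Z := (QuotientGroup.eq_one_iff _).1 (by
    rw [QuotientGroup.mk_pow, ← hx]; exact pow_orderOf_eq_one _)
  obtain ⟨w, hw⟩ := (powCoprime hcop).surjective ⟨g ^ r, hgr⟩
  replace hw : (w : GL (Fin n) F) ^ r = g ^ r := by
    simpa [powCoprime] using congrArg Subtype.val hw
  have hcomm : Commute g (w : GL (Fin n) F)⁻¹ := (Subgroup.mem_center_iff.1 (Z.inv_mem w.2) g)
  have hne : (QuotientGroup.mk g : GL (Fin n) F ⧸ Z) ≠ 1 := fun hc => hr.one_lt.ne' (by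
    rw [← hx]; exact orderOf_eq_one_iff.2 hc)
  have hmk : (QuotientGroup.mk (g * (w : GL (Fin n) F)⁻¹) : GL (Fin n) F ⧸ Z) = QuotientGroup.mk g :=
    QuotientGroup.eq.2 (by simpa using Z.mul_mem w.2 (Z.one_mem))
  haveI : Fact r.Prime := ⟨hr⟩
  have hord : orderOf (g * (w : GL (Fin n) F)⁻¹) = r := by
    refine orderOf_eq_prime ?_ fun hc => hne ?_
    · rw [hcomm.mul_pow, inv_pow, hw, mul_inv_cancel]
    · rw [← hmk, hc, QuotientGroup.mk_one]
  refine ⟨_, ⟨hmk, hord⟩, ?_⟩
  rintro y ⟨hy1, hy2⟩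
  set a := g * (w : GL (Fin n) F)⁻¹
  have hz : a⁻¹ * y ∈ Z := QuotientGroup.eq.1 (hmk.trans hy1.symm)
  have hc : Commute a (a⁻¹ * y) := Subgroup.mem_center_iff.1 hz a
  have hp : (a⁻¹ * y) ^ r = 1 := by
    have h1 : y ^ r = 1 := by rw [← hy2]; exact pow_orderOf_eq_one y
    have h2 : a ^ r = 1 := by rw [← hord]; exact pow_orderOf_eq_one a
    have := hc.mul_pow r
    rw [mul_inv_cancel_left, h1, h2, one_mul] at this
    exact this.symm
  have h1 : (⟨a⁻¹ * y, hz⟩ : Z) = 1 := (powCoprime hcop).injective (Subtype.ext (by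
    simpa [powCoprime] using hp))
  exact (inv_mul_eq_one.1 (congrArg Subtype.val h1)).symm

end Cfsg.Agent.S2567
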