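import Cfsg.Statements.S2568
import Cfsg.Agent.PrimeClasses.GL
-- import your own Cfsg.Agent.* helpers here

set_option autoImplicit false
open Cfsg

namespace Cfsg.Agent.S2568

/-- Number of conjugacy classes of elements of a given prime order r, coprime to the characteristic, in GL_n(q): if i is the multiplicative order of q modulo r and t = (r − 1)/i, the classes correspond to the non-zero t-tuples of natural numbers (a_1, …, a_t) with i(a_1 + ⋯ + a_t) ≤ n (a_j is the multiplicity of the j-th Frobenius orbit of nontrivial r-th roots of unity among the eigenvalues), so there are exactly C(⌊n/i⌋ + t, t) − 1 of them. -/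
theorem result {F : Type*} [Field F] [Fintype F] {p q : ℕ} [Fact p.Prime] [CharP F p] (hF : Fintype.card F = q) (n r i t : ℕ) (hr : r.Prime) (hrp : r ≠ p) (hi : i = orderOf (q : ZMod r)) (ht : t * i = r - 1) : Nat.card {C : ConjClasses (GL (Fin n) F) // ∃ g : GL (Fin n) F, ConjClasses.mk g = C ∧ orderOf g = r} = Nat.choose (n / i + t) t - 1 := by
  classical
  subst hF
  haveI := Fact.mk hr
  have hi0 : 0 < i := by
    rcases Nat.eq_zero_or_pos i with h | h
    · rw [h, mul_zero] at ht; have := hr.two_le; omega
    · exact h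
  obtain ⟨S, hS, hall, hSd, hcard⟩ := CfsgLib.PrimeClasses.exists_factors (F := F) hr hrp
  rw [← hi] at hcard
  have hcS : Fintype.card S = t := by rw [Fintype.card_coe, hcard, ← ht, Nat.mul_div_cancel _ hi0]
  have hrF : (r : F) ≠ 0 := fun h =>
    hrp ((Nat.prime_dvd_prime_iff_eq (Fact.out : p.Prime) hr).mp ((CharP.cast_eq_zero_iff F p r).mp h)).symm
  let ms : (S → ℕ) → Multiset (Polynomial F) := fun a =>
    Multiset.replicate (n - i * ∑ P, a P) (Polynomial.X - Polynomial.C 1) + ∑ P : S, Multiset.replicate (a P) P.1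
  have hms : ∀ a, ∀ P ∈ ms a, P.Monic ∧ Irreducible P ∧ P ∣ Polynomial.X ^ r - 1 := by
    intro a P hP
    rcases Multiset.mem_add.mp hP with h | h
    · rw [Multiset.eq_of_mem_replicate h]
      refine ⟨Polynomial.monic_X_sub_C 1, Polynomial.irreducible_X_sub_C 1, ?_⟩
      rw [Polynomial.dvd_iff_isRoot]
      simp
    · obtain ⟨Q, -, hQ⟩ := Multiset.mem_sum.mp h
      rw [Multiset.eq_of_mem_replicate hQ]
      exact ⟨(hS _ Q.2).1, (hS _ Q.2).2.1, hSd _ Q.2⟩
  have hnf : ∀ a, UniqueFactorizationMonoid.normalizedFactors (ms a).prod = ms a := by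
    intro a
    rw [UniqueFactorizationMonoid.normalizedFactors_prod_eq _ fun P hP => (hms a P hP).2.1]
    exact (Multiset.map_congr rfl fun P hP => (hms a P hP).1.normalize_eq_self).trans (Multiset.map_id' _)
  have hcnt : ∀ a (P : S), (ms a).count P.1 = a P := by
    intro a P
    simp only [ms, Multiset.count_add, Multiset.count_sum', Multiset.count_replicate]
    rw [if_neg (Ne.symm (hS _ P.2).2.2.2), zero_add, Finset.sum_eq_single P (fun Q _ hQ => if_neg (fun h => hQ (Subtype.ext h)))
      (fun h => absurd (Finset.mem_univ P) h), if_pos rfl]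
  have hmon : ∀ a, (ms a).prod.Monic := fun a =>
    Polynomial.monic_multiset_prod_of_monic _ id (fun P hP => (hms a P hP).1) |> fun h => by simpa using h
  have hdeg : ∀ a, ∑ P, a P ≤ n / i → (ms a).prod.natDegree = n := by
    intro a ha
    have h2 : i * ∑ P, a P ≤ n := (Nat.mul_le_mul_left i ha).trans (Nat.mul_div_le n i)
    rw [Polynomial.natDegree_multiset_prod_of_monic _ fun P hP => (hms a P hP).1]
    simp only [ms, Multiset.map_add, Multiset.sum_add, Multiset.map_replicate, Polynomial.natDegree_X_sub_C,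
      Multiset.sum_replicate, smul_eq_mul, mul_one]
    rw [show ∀ g : S → Multiset (Polynomial F), (∑ P, g P).map Polynomial.natDegree = ∑ P, (g P).map Polynomial.natDegree from fun g => map_sum (Multiset.mapAddMonoidHom Polynomial.natDegree) g _, Multiset.sum_sum]
    simp only [Multiset.map_replicate, Multiset.sum_replicate, smul_eq_mul]
    rw [show ∑ P : S, a P * P.1.natDegree = ∑ P : S, a P * i from Finset.sum_congr rfl fun P _ => by rw [(hS _ P.2).2.2.1, ← hi], ← Finset.sum_mul, mul_comm _ i]
    omega
  have hev : ∀ a, (ms a).prod.eval 0 ≠ 0 := by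
    intro a h
    rw [Polynomial.eval_multiset_prod, Multiset.prod_eq_zero_iff, Multiset.mem_map] at h
    obtain ⟨P, hP, h0⟩ := h
    have := Polynomial.eval_dvd (x := (0 : F)) (hms a P hP).2.2
    simp [h0, zero_pow hr.ne_zero] at this
  have hex : ∀ a : {a : S → ℕ // ∑ P, a P ≤ n / i}, ∃ x : GL (Fin n) F, (orderOf x).Coprime p ∧ x ^ r = 1 ∧
      (x : Matrix (Fin n) (Fin n) F).charpoly = (ms a.1).prod := by
    intro a
    obtain ⟨x, hx, hc⟩ := Cfsg.Agent.H29.Semisimple.exists_matrix p _ (hmon a.1) (hdeg _ a.2) (hev a.1)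
    refine ⟨x, hx, CfsgLib.PrimeClasses.pow_eq_one_of_factors hrF x hx fun P hP hd => ?_, hc⟩
    rw [hc] at hd
    obtain ⟨Q, hQ, hPQ⟩ := hP.prime.exists_mem_multiset_dvd hd
    exact hPQ.trans (hms _ Q hQ).2.2
  choose x hxc hxr hxp using hex
  have hcop : ∀ g : GL (Fin n) F, g ^ r = 1 → (orderOf g).Coprime p := fun g hg =>
    Nat.Coprime.coprime_dvd_left (orderOf_dvd_of_pow_eq_one hg)
      ((Nat.coprime_primes hr Fact.out).mpr hrp)
  let Φ : {a : S → ℕ // ∑ P, a P ≤ n / i} → {C : ConjClasses (GL (Fin n) F) // ∃ g, ConjClasses.mk g = C ∧ g ^ r = 1} :=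
    fun a => ⟨ConjClasses.mk (x a), x a, rfl, hxr a⟩
  have hΦ : Function.Bijective Φ := by
    constructor
    · intro a b h
      obtain ⟨u, hu⟩ := isConj_iff.mp (ConjClasses.mk_eq_mk_iff_isConj.mp (congrArg Subtype.val h))
      have hp' : (ms a.1).prod = (ms b.1).prod := by
        rw [← hxp, ← hxp, ← hu, Units.val_mul, Units.val_mul, Matrix.charpoly_mul_comm, ← mul_assoc, ← Units.val_mul,
          inv_mul_cancel, Units.val_one, one_mul]
      have h' := congrArg UniqueFactorizationMonoid.normalizedFactors hp'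
      rw [hnf, hnf] at h'
      exact Subtype.ext (funext fun P => by rw [← hcnt a.1 P, h', hcnt])
    · rintro ⟨C, g, hC, hg⟩
      set M := (g : Matrix (Fin n) (Fin n) F) with hM
      have hMr : M ^ r = 1 := by rw [hM, ← Units.val_pow_eq_pow_val, hg, Units.val_one]
      set f := M.charpoly with hf
      have hfm : f.Monic := Matrix.charpoly_monic M
      set N := UniqueFactorizationMonoid.normalizedFactors f with hN
      have hmemN : ∀ P ∈ N, P = Polynomial.X - Polynomial.C 1 ∨ P ∈ S := fun P hP => by
        obtain ⟨hi', hn', hd'⟩ := (UniqueFactorizationMonoid.mem_normalizedFactors_iff' hfm.ne_zero).mp hP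
        refine hall P ?_ hi' (CfsgLib.PrimeClasses.factor_dvd M hMr hi' hd')
        rw [← hn']
        exact Polynomial.monic_normalize hi'.ne_zero
      let a : S → ℕ := fun P => N.count P.1
      set c := N.count (Polynomial.X - Polynomial.C 1) with hc
      have hN' : N = Multiset.replicate c (Polynomial.X - Polynomial.C 1) + ∑ P : S, Multiset.replicate (a P) P.1 := by
        ext Q
        simp only [Multiset.count_add, Multiset.count_sum', Multiset.count_replicate]
        by_cases hQ : Q = Polynomial.X - Polynomial.C 1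
        · rw [if_pos hQ.symm, Finset.sum_eq_zero fun P _ => if_neg (fun h => (hS _ P.2).2.2.2 (h.trans hQ)), add_zero, hQ]
        · rw [if_neg (Ne.symm hQ), zero_add]
          by_cases hQS : Q ∈ S
          · rw [Finset.sum_eq_single ⟨Q, hQS⟩ (fun P _ hP => if_neg (fun h => hP (Subtype.ext h)))
              (fun h => absurd (Finset.mem_univ _) h), if_pos rfl]
          · rw [Multiset.count_eq_zero.mpr fun h => (hmemN Q h).elim hQ hQS,
              Finset.sum_eq_zero fun P _ => if_neg (fun h : P.1 = Q => hQS (h ▸ P.2))]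
      have hNm : ∀ P ∈ N, Polynomial.Monic P := fun P hP => by
        rw [← UniqueFactorizationMonoid.normalize_normalized_factor P hP]
        exact Polynomial.monic_normalize (UniqueFactorizationMonoid.irreducible_of_normalized_factor P hP).ne_zero
      have hNp : N.prod.Monic := by
        simpa using Polynomial.monic_multiset_prod_of_monic N id hNm
      have hprod : N.prod = f :=
        Polynomial.eq_of_monic_of_associated hNp hfm (UniqueFactorizationMonoid.prod_normalizedFactors hfm.ne_zero)
      have hd : n = c + i * ∑ P, a P := by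
        have h1 : f.natDegree = n := by rw [hf, Matrix.charpoly_natDegree_eq_dim, Fintype.card_fin]
        have h2 : Polynomial.natDegree N.prod = (N.map Polynomial.natDegree).sum :=
          Polynomial.natDegree_multiset_prod _ (UniqueFactorizationMonoid.zero_notMem_normalizedFactors _)
        rw [hprod, h1, hN'] at h2
        simp only [Multiset.map_add, Multiset.sum_add, Multiset.map_replicate, Polynomial.natDegree_X_sub_C,
          Multiset.sum_replicate, smul_eq_mul, mul_one] at h2
        rw [show ∀ g : S → Multiset (Polynomial F), (∑ P, g P).map Polynomial.natDegree = ∑ P, (g P).map Polynomial.natDegree from fun g => map_sum (Multiset.mapAddMonoidHom Polynomial.natDegree) g _, Multiset.sum_sum] at h2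
        simp only [Multiset.map_replicate, Multiset.sum_replicate, smul_eq_mul] at h2
        rw [show ∑ P : S, a P * P.1.natDegree = ∑ P : S, a P * i from Finset.sum_congr rfl fun P _ => by rw [(hS _ P.2).2.2.1, ← hi], ← Finset.sum_mul, mul_comm _ i] at h2
        exact h2
      have ha : ∑ P, a P ≤ n / i := by
        rw [Nat.le_div_iff_mul_le hi0, mul_comm]; omega
      refine ⟨⟨a, ha⟩, Subtype.ext ?_⟩
      show ConjClasses.mk (x ⟨a, ha⟩) = C
      rw [← hC, ConjClasses.mk_eq_mk_iff_isConj]
      refine Cfsg.Agent.H29.Semisimple.gl_conj_of_charpoly _ g (hxc _) (hcop g hg) ?_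
      rw [hxp]
      show (ms a).prod = f
      rw [← hprod, hN']
      simp only [ms]
      rw [show n - i * ∑ P, a P = c by omega]
  have h1 : Nat.card {C : ConjClasses (GL (Fin n) F) // ∃ g, ConjClasses.mk g = C ∧ g ^ r = 1} =
      Nat.choose (n / i + t) t := by
    rw [← Nat.card_congr (Equiv.ofBijective Φ hΦ), CfsgLib.PrimeClasses.card_sum_le, hcS]
  have h2 : {C : ConjClasses (GL (Fin n) F) | ∃ g, ConjClasses.mk g = C ∧ orderOf g = r} =
      {C : ConjClasses (GL (Fin n) F) | ∃ g, ConjClasses.mk g = C ∧ g ^ r = 1} \ {ConjClasses.mk 1} := by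
    ext C
    simp only [Set.mem_setOf_eq, Set.mem_diff, Set.mem_singleton_iff]
    constructor
    · rintro ⟨g, rfl, hg⟩
      refine ⟨⟨g, rfl, hg ▸ pow_orderOf_eq_one g⟩, fun h => ?_⟩
      have := isConj_one_right.mp (ConjClasses.mk_eq_mk_iff_isConj.mp h).symm
      rw [this, orderOf_one] at hg
      exact hr.one_lt.ne hg
    · rintro ⟨⟨g, rfl, hg⟩, h1⟩
      exact ⟨g, rfl, orderOf_eq_prime hg (fun h => h1 (by rw [h]))⟩
  show Nat.card ({C : ConjClasses (GL (Fin n) F) | ∃ g, ConjClasses.mk g = C ∧ orderOf g = r} : Set _) = _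
  rw [h2, Nat.card_coe_set_eq, Set.ncard_diff_singleton_of_mem (by exact ⟨1, rfl, one_pow r⟩), ← Nat.card_coe_set_eq]
  exact congrArg (· - 1) h1

end Cfsg.Agent.S2568
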