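import Cfsg.Statements.S2571
import Cfsg.Agent.GLOrders.Regular
-- import your own Cfsg.Agent.* helpers here

set_option autoImplicit false
open Cfsg

namespace Cfsg.Agent.S2571

/-- Centraliser of a regular unipotent element in GL_n(q): if u is an invertible n × n matrix over the field with q elements, n ≥ 1, with (u − 1)^n = 0 and rank(u − 1) = n − 1 (a single unipotent Jordan block), then its centraliser in GL_n(q) has order (q − 1) q^(n−1). -/
theorem result {F : Type*} [Field F] [Fintype F] {q n : ℕ} (hF : Fintype.card F = q) (hn : 1 ≤ n) (u : GL (Fin n) F) (hnil : ((u : Matrix (Fin n) (Fin n) F) - 1) ^ n = 0) (hreg : ((u : Matrix (Fin n) (Fin n) F) - 1).rank = n - 1) : Nat.card ↥(Subgroup.centralizer ({u} : Set (GL (Fin n) F))) = (q - 1) * q ^ (n - 1) := by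
  classical
  open CfsgLib.GLOrders in
  obtain ⟨P, hP⟩ := exists_conj_shiftMat hn _ hnil hreg
  have hu : ∀ x : GL (Fin n) F, x ∈ Subgroup.centralizer ({u} : Set (GL (Fin n) F)) ↔
      ((P⁻¹ * x * P : GL (Fin n) F) : Matrix (Fin n) (Fin n) F) * CfsgLib.GLOrders.shiftMat F n =
        CfsgLib.GLOrders.shiftMat F n * ((P⁻¹ * x * P : GL (Fin n) F) : Matrix (Fin n) (Fin n) F) := by
    intro x
    rw [Subgroup.mem_centralizer_singleton_iff]
    set S := CfsgLib.GLOrders.shiftMat F n
    have e : (u : Matrix (Fin n) (Fin n) F) = (P : Matrix (Fin n) (Fin n) F) * (1 + S) * ((P⁻¹ : GL (Fin n) F) : Matrix (Fin n) (Fin n) F) := by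
      rw [Matrix.mul_add, Matrix.mul_one, ← hP, Matrix.add_mul, Matrix.mul_assoc, ← Units.val_mul, mul_inv_cancel,
        Units.val_one, Matrix.mul_one]
      abel
    rw [Units.ext_iff, Units.val_mul, Units.val_mul, e, Units.val_mul, Units.val_mul]
    set Pm := (P : Matrix (Fin n) (Fin n) F)
    set Pi := ((P⁻¹ : GL (Fin n) F) : Matrix (Fin n) (Fin n) F)
    set X := (x : Matrix (Fin n) (Fin n) F)
    have h1 : Pi * Pm = 1 := by rw [← Units.val_mul, inv_mul_cancel, Units.val_one]
    have h2 : Pm * Pi = 1 := by rw [← Units.val_mul, mul_inv_cancel, Units.val_one]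
    have h3 : ∀ A B : Matrix (Fin n) (Fin n) F, A = B ↔ Pi * A * Pm = Pi * B * Pm := by
      intro A B
      constructor
      · intro h; rw [h]
      · intro h
        have h4 := congrArg (fun M => Pm * M * Pi) h
        simp only [← Matrix.mul_assoc, h2, Matrix.one_mul] at h4
        simpa only [Matrix.mul_assoc, h2, Matrix.mul_one] using h4
    rw [h3 (X * _)]
    have h5 : Pi * (X * (Pm * (1 + S) * Pi)) * Pm = Pi * X * Pm * (1 + S) := by
      simp only [Matrix.mul_assoc, h1, Matrix.mul_one]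
    have h6 : Pi * (Pm * (1 + S) * Pi * X) * Pm = (1 + S) * (Pi * X * Pm) := by
      simp only [← Matrix.mul_assoc, h1, Matrix.one_mul]
    rw [h5, h6, Matrix.mul_add, Matrix.add_mul, Matrix.mul_one, Matrix.one_mul]
    exact add_right_inj _
  have e : ↥(Subgroup.centralizer ({u} : Set (GL (Fin n) F))) ≃ {v : Fin n → F // v ⟨0, hn⟩ ≠ 0} :=
    { toFun := fun x => ⟨fun i => ((P⁻¹ * x.1 * P : GL (Fin n) F) : Matrix (Fin n) (Fin n) F) i ⟨0, hn⟩, by
        intro h0
        have h1 := (CfsgLib.GLOrders.commute_shiftMat_iff hn _).mp ((hu x.1).mp x.2)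
        have h2 := ((Matrix.isUnit_iff_isUnit_det _).mp (P⁻¹ * x.1 * P).isUnit).ne_zero
        rw [h1, CfsgLib.GLOrders.det_toeplitz hn] at h2
        simp only at h0 h2
        exact h2 (by rw [h0]; exact zero_pow (by omega))⟩
      invFun := fun v => ⟨P * Matrix.GeneralLinearGroup.mk'' (CfsgLib.GLOrders.toeplitz v.1)
          (by rw [CfsgLib.GLOrders.det_toeplitz hn]; exact (isUnit_iff_ne_zero.mpr v.2).pow n) * P⁻¹, by
        rw [hu]
        simp only [mul_assoc, inv_mul_cancel_left, inv_mul_cancel, mul_one]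
        exact (CfsgLib.GLOrders.commute_shiftMat_iff hn _).mpr
          (congrArg CfsgLib.GLOrders.toeplitz (CfsgLib.GLOrders.toeplitz_col hn v.1).symm)⟩
      left_inv := fun x => by
        apply Subtype.ext
        have h1 := (CfsgLib.GLOrders.commute_shiftMat_iff hn _).mp ((hu x.1).mp x.2)
        show P * Matrix.GeneralLinearGroup.mk'' _ _ * P⁻¹ = x.1
        have h2 : ∀ hA, Matrix.GeneralLinearGroup.mk'' (CfsgLib.GLOrders.toeplitz fun i => ((P⁻¹ * x.1 * P : GL (Fin n) F) : Matrix (Fin n) (Fin n) F) i ⟨0, hn⟩) hA = P⁻¹ * x.1 * P := fun hA => Units.ext h1.symm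
        rw [h2]
        simp [mul_assoc]
      right_inv := fun v => by
        apply Subtype.ext
        funext i
        simp only [mul_assoc, inv_mul_cancel_left, inv_mul_cancel, mul_one]
        exact congrFun (CfsgLib.GLOrders.toeplitz_col hn v.1) i }
  obtain ⟨k, rfl⟩ : ∃ k, n = k + 1 := ⟨n - 1, by omega⟩
  have e2 : {v : Fin (k + 1) → F // v ⟨0, hn⟩ ≠ 0} ≃ {a : F // a ≠ 0} × (Fin k → F) :=
    { toFun := fun v => (⟨v.1 0, v.2⟩, Fin.tail v.1)
      invFun := fun z => ⟨Fin.cons z.1.1 z.2, z.1.2⟩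
      left_inv := fun v => Subtype.ext (Fin.cons_self_tail v.1)
      right_inv := fun z => by
        refine Prod.ext (Subtype.ext ?_) ?_
        · rfl
        · funext i; rfl }
  rw [Nat.card_congr (e.trans e2), Nat.card_prod, Nat.card_eq_fintype_card, Nat.card_eq_fintype_card, Fintype.card_fun,
    Fintype.card_fin, Fintype.card_subtype_compl, Fintype.card_subtype_eq, hF, Nat.add_sub_cancel]

end Cfsg.Agent.S2571
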