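import Cfsg.Statements.S2572
import Mathlib
import Cfsg.Agent.H29.TransvectionCard

set_option autoImplicit false
open Cfsg

namespace Cfsg.Agent.S2572

/-- Centraliser of a transvection in GL_n(q), n ≥ 2: if t − 1 has rank one and square zero, the centraliser of t in GL_n(q) has order q^(2n−3) (q − 1) |GL_(n−2)(q)| (a group of order q^(2n−3) extended by GL_1(q) × GL_(n−2)(q)). -/
theorem result {F : Type*} [Field F] [Fintype F] {q n : ℕ} (hF : Fintype.card F = q) (hn : 2 ≤ n) (t : GL (Fin n) F) (ht : Cfsg.IsTransvection (t : Matrix (Fin n) (Fin n) F)) : Nat.card ↥(Subgroup.centralizer ({t} : Set (GL (Fin n) F))) = q ^ (2 * n - 3) * (q - 1) * ∏ i : Fin (n - 2), (q ^ (n - 2) - q ^ (i : ℕ)) := by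
  obtain ⟨m, rfl⟩ : ∃ m, n = m + 2 := ⟨n - 2, by omega⟩
  subst hF
  simp only [show m + 2 - 2 = m by omega, show 2 * (m + 2) - 3 = 2 * m + 1 by omega]
  exact H29.TransvectionCard.card_centralizer t ht

end Cfsg.Agent.S2572
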