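import Cfsg.Statements.S2573
import Cfsg.Agent.Invol.NilpotentChain

set_option autoImplicit false
open Cfsg

namespace Cfsg.Agent.S2573

/-- The invariant subspaces of a regular unipotent matrix form a chain: over a finite field, if u is an n × n matrix with (u − 1)^n = 0 and rank(u − 1) = n − 1, then every subspace W of F^n with u W ⊆ W is the kernel of (u − 1)^(dim W); so u has at most one invariant subspace of each dimension. -/
theorem result {F : Type*} [Field F] [Finite F] {n : ℕ} (u : Matrix (Fin n) (Fin n) F) (hnil : (u - 1) ^ n = 0) (hreg : (u - 1).rank = n - 1) (W : Submodule F (Fin n → F)) (hW : ∀ v ∈ W, u.mulVec v ∈ W) : W = LinearMap.ker (Matrix.mulVecLin ((u - 1) ^ Module.finrank F W)) := by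
  set f : Module.End F (Fin n → F) := Matrix.toLinAlgEquiv' (u - 1) with hf
  have happ : ∀ v, f v = (u - 1).mulVec v := fun v => Matrix.toLinAlgEquiv'_apply _ v
  have hpow : ∀ k, LinearMap.ker (Matrix.mulVecLin ((u - 1) ^ k)) = LinearMap.ker (f ^ k) := fun k => by
    ext v
    rw [LinearMap.mem_ker, LinearMap.mem_ker, hf, ← map_pow, Matrix.toLinAlgEquiv'_apply, Matrix.mulVecLin_apply]
  have hker : Module.finrank F (LinearMap.ker f) ≤ 1 := by
    have h1 := LinearMap.finrank_range_add_finrank_ker (Matrix.mulVecLin (u - 1))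
    rw [show Module.finrank F (LinearMap.range (Matrix.mulVecLin (u - 1))) = (u - 1).rank from rfl, hreg,
      Module.finrank_fin_fun] at h1
    have h2 := hpow 1
    rw [pow_one, pow_one] at h2
    rw [← h2]
    omega
  rw [hpow]
  refine CfsgLib.Invol.eq_ker_pow f (n := n) (by rw [hf, ← map_pow, hnil, map_zero]) hker W fun v hv => ?_
  rw [happ, Matrix.sub_mulVec, Matrix.one_mulVec]
  exact W.sub_mem (hW v hv) hv

end Cfsg.Agent.S2573
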