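import Cfsg.Statements.S2574
import Cfsg.Agent.Invol.NilpotentChain

set_option autoImplicit false
open Cfsg

namespace Cfsg.Agent.S2574

/-- A regular unipotent element of the symplectic group has totally isotropic small invariant subspaces: over a finite field, if u ∈ Sp_2m(F) satisfies (u − 1)^(2m) = 0 and rank(u − 1) = 2m − 1, and W is a u-invariant subspace with 2 dim W ≤ 2m, then the alternating form vanishes identically on W. -/
theorem result {F : Type*} [Field F] [Finite F] {m : ℕ} (u : Matrix.symplecticGroup (Fin m) F) (hnil : ((u : Matrix (Fin m ⊕ Fin m) (Fin m ⊕ Fin m) F) - 1) ^ (2 * m) = 0) (hreg : ((u : Matrix (Fin m ⊕ Fin m) (Fin m ⊕ Fin m) F) - 1).rank = 2 * m - 1) (W : Submodule F (Fin m ⊕ Fin m → F)) (hW : ∀ v ∈ W, (u : Matrix (Fin m ⊕ Fin m) (Fin m ⊕ Fin m) F).mulVec v ∈ W) (hdim : 2 * Module.finrank F W ≤ 2 * m) : ∀ v ∈ W, ∀ w ∈ W, Cfsg.sympForm m F v w = 0 := by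
  set U : Matrix (Fin m ⊕ Fin m) (Fin m ⊕ Fin m) F := (u : Matrix (Fin m ⊕ Fin m) (Fin m ⊕ Fin m) F) with hU
  set f : Module.End F (Fin m ⊕ Fin m → F) := Matrix.toLinAlgEquiv' (U - 1) with hf
  have happ : ∀ v, f v = U.mulVec v - v := fun v => by
    rw [hf, Matrix.toLinAlgEquiv'_apply, Matrix.sub_mulVec, Matrix.one_mulVec]
  have hdim2 : Module.finrank F (Fin m ⊕ Fin m → F) = 2 * m := by
    rw [Module.finrank_pi]; simp; omega
  have hker : Module.finrank F (LinearMap.ker f) ≤ 1 := by
    have h1 := LinearMap.finrank_range_add_finrank_ker (Matrix.mulVecLin (U - 1))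
    rw [show Module.finrank F (LinearMap.range (Matrix.mulVecLin (U - 1))) = (U - 1).rank from rfl, hreg, hdim2] at h1
    have h2 : LinearMap.ker (Matrix.mulVecLin (U - 1)) = LinearMap.ker f := by
      ext v; rw [LinearMap.mem_ker, LinearMap.mem_ker, hf, Matrix.toLinAlgEquiv'_apply, Matrix.mulVecLin_apply]
    rw [← h2]
    omega
  have hn0 : f ^ Module.finrank F (Fin m ⊕ Fin m → F) = 0 := by rw [hdim2, hf, ← map_pow, hnil, map_zero]
  have hWf : ∀ v ∈ W, f v ∈ W := fun v hv => by rw [happ]; exact W.sub_mem (hW v hv) hv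
  have hWeq := CfsgLib.Invol.eq_range_pow f hn0 hker W hWf
  rw [hdim2] at hn0 hWeq
  -- the form is invariant
  have hJ : U.transpose * Matrix.J (Fin m) F * U = Matrix.J (Fin m) F := SymplecticGroup.mem_iff'.1 u.2
  have hinv : ∀ x y, Cfsg.sympForm m F (U.mulVec x) (U.mulVec y) = Cfsg.sympForm m F x y := fun x y => by
    unfold Cfsg.sympForm
    rw [Matrix.mulVec_mulVec, ← Matrix.vecMul_transpose, ← Matrix.dotProduct_mulVec, Matrix.mulVec_mulVec,
      ← Matrix.mul_assoc, hJ]
  have hsub : ∀ a b y, Cfsg.sympForm m F (a - b) y = Cfsg.sympForm m F a y - Cfsg.sympForm m F b y :=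
    fun a b y => sub_dotProduct _ _ _
  have hsub' : ∀ a b y, Cfsg.sympForm m F y (a - b) = Cfsg.sympForm m F y a - Cfsg.sympForm m F y b := fun a b y => by
    unfold Cfsg.sympForm
    rw [Matrix.mulVec_sub, dotProduct_sub]
  have hstep : ∀ x y, Cfsg.sympForm m F (f x) y = - Cfsg.sympForm m F (U.mulVec x) (f y) := fun x y => by
    rw [happ, happ, hsub, hsub', hinv]
    ring
  have hzero : ∀ a x y, (f ^ a) y = 0 → Cfsg.sympForm m F ((f ^ a) x) y = 0 := by
    intro a
    induction a with
    | zero =>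
      intro x y hy
      rw [pow_zero, Module.End.one_apply] at hy
      subst hy
      unfold Cfsg.sympForm
      rw [Matrix.mulVec_zero, dotProduct_zero]
    | succ a ih =>
      intro x y hy
      have hc : U.mulVec ((f ^ a) x) = (f ^ a) (U.mulVec x) := by
        have e1 : U.mulVec ((f ^ a) x) = f ((f ^ a) x) + (f ^ a) x := by rw [happ]; abel
        have e2 : (f ^ a) (U.mulVec x) = (f ^ a) (f x) + (f ^ a) x := by rw [← map_add, happ]; congr 1; abel
        rw [e1, e2, ← Module.End.mul_apply, ← Module.End.mul_apply, (Commute.self_pow f a).eq]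
      rw [pow_succ, Module.End.mul_apply] at hy
      rw [pow_succ', Module.End.mul_apply, hstep, hc, ih _ _ hy, neg_zero]
  intro v hv w hw
  rw [hWeq] at hv hw
  obtain ⟨x, rfl⟩ := hv
  obtain ⟨y, rfl⟩ := hw
  refine hzero _ x _ ?_
  rw [← Module.End.mul_apply, ← pow_add]
  rw [show 2 * m - Module.finrank F W + (2 * m - Module.finrank F W) = 2 * m + (2 * m - 2 * Module.finrank F W) by omega,
    pow_add, hn0, zero_mul, LinearMap.zero_apply]

end Cfsg.Agent.S2574
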