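import Cfsg.Statements.S2575
import Mathlib

set_option autoImplicit false
open Cfsg

namespace Cfsg.Agent.S2575

theorem neg_one_pow_two_eq {F : Type*} [Field F] [Fintype F] (hF2 : ringChar F ≠ 2) (a : ℕ) :
    (∃ c : F, c ^ 2 ^ a = -1) ↔ a < padicValNat 2 (Fintype.card F - 1) := by
  have hne : (-1 : F) ≠ 1 := Ring.neg_one_ne_one_of_char_ne_two hF2
  have hq : Fintype.card F - 1 ≠ 0 := by have := Fintype.one_lt_card (α := F); omega
  haveI : Fact (Nat.Prime 2) := ⟨Nat.prime_two⟩
  constructor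
  · rintro ⟨c, hc⟩
    have hc0 : c ≠ 0 := fun h => by
      rw [h, zero_pow (pow_ne_zero _ two_ne_zero)] at hc; exact one_ne_zero (neg_eq_zero.1 hc.symm)
    have ho : orderOf c = 2 ^ (a + 1) := orderOf_eq_prime_pow (by rw [hc]; exact hne)
      (by rw [pow_succ, pow_mul, hc]; ring)
    have hd : 2 ^ (a + 1) ∣ Fintype.card F - 1 :=
      ho ▸ orderOf_dvd_of_pow_eq_one (FiniteField.pow_card_sub_one_eq_one c hc0)
    exact (padicValNat_dvd_iff_le hq).1 hd
  · intro h
    obtain ⟨k, hk⟩ := (padicValNat_dvd_iff_le (p := 2) hq).2 (Nat.succ_le_of_lt h)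
    obtain ⟨g, hg⟩ := IsCyclic.exists_ofOrder_eq_natCard (α := Fˣ)
    rw [Nat.card_units, Nat.card_eq_fintype_card, hk] at hg
    refine ⟨((g ^ k : Fˣ) : F), ?_⟩
    rw [← Units.val_pow_eq_pow_val]
    set u := (g ^ k) ^ 2 ^ a with hu
    have h2 : u ^ 2 = 1 := by
      rw [hu, ← pow_mul, ← pow_mul, show k * (2 ^ a * 2) = orderOf g by rw [hg, pow_succ]; ring]
      exact pow_orderOf_eq_one g
    have h1 : u ≠ 1 := by
      rw [hu, ← pow_mul]
      refine pow_ne_one_of_lt_orderOf (mul_ne_zero ?_ (pow_ne_zero _ two_ne_zero)) ?_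
      · rintro rfl; omega
      · have hk0 : 0 < k := by
          rcases Nat.eq_zero_or_pos k with rfl | h0
          · omega
          · exact h0
        rw [hg, pow_succ]; nlinarith [Nat.one_le_two_pow (n := a)]
    have h2' : ((u : F)) ^ 2 = 1 := by rw [← Units.val_pow_eq_pow_val, h2, Units.val_one]
    rcases sq_eq_one_iff.1 h2' with h3 | h3
    · exact absurd (Units.ext h3) h1
    · exact h3

/-- Which diagonal involutions of PGL_n(q) lie in PSL_n(q), q odd: for the diagonal matrix t with i entries −1 and n − i entries 1, some non-zero scalar multiple of t has determinant one if and only if i is even or the 2-part of q − 1 exceeds the 2-part of n (that is, −1 is an n-th power in the field exactly in the latter case). -/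
theorem result {F : Type*} [Field F] [Fintype F] {q : ℕ} (hF : Fintype.card F = q) (hq : Odd q) {n : ℕ} (hn : 1 ≤ n) (i : ℕ) (hi : i ≤ n) : (∃ c : F, c ≠ 0 ∧ (c • Matrix.diagonal (fun j : Fin n => if (j : ℕ) < i then (-1 : F) else 1)).det = 1) ↔ (Even i ∨ padicValNat 2 n < padicValNat 2 (q - 1)) := by
  subst hF
  have hF2 : ringChar F ≠ 2 := by
    rw [Ne, FiniteField.even_card_iff_char_two, Nat.odd_iff.1 hq]
    exact one_ne_zero
  have hdet : ∀ c : F, (c • Matrix.diagonal (fun j : Fin n => if (j : ℕ) < i then (-1 : F) else 1)).det =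
      c ^ n * (-1) ^ i := by
    intro c
    rw [Matrix.det_smul, Matrix.det_diagonal, Fintype.card_fin, Finset.prod_ite, Finset.prod_const,
      Finset.prod_const_one, mul_one]
    congr 2
    rw [Fin.card_filter_val_lt, min_eq_right hi]
  simp only [hdet]
  rcases Nat.even_or_odd i with he | ho
  · refine ⟨fun _ => Or.inl he, fun _ => ⟨1, one_ne_zero, by rw [he.neg_one_pow, one_pow, one_mul]⟩⟩
  · have hnot : ¬ Even i := Nat.not_even_iff_odd.2 ho
    simp only [ho.neg_one_pow, hnot, false_or]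
    haveI : Fact (Nat.Prime 2) := ⟨Nat.prime_two⟩
    obtain ⟨a, m, hm, rfl⟩ := Nat.exists_eq_two_pow_mul_odd (n := n) (by omega)
    have hv : padicValNat 2 (2 ^ a * m) = a := by
      rw [padicValNat.mul (pow_ne_zero _ two_ne_zero) (by rcases hm with ⟨k, rfl⟩; omega),
        padicValNat.prime_pow, padicValNat.eq_zero_of_not_dvd (by rcases hm with ⟨k, rfl⟩; omega), add_zero]
    rw [hv, ← neg_one_pow_two_eq hF2]
    constructor
    · rintro ⟨c, -, hc⟩
      refine ⟨c ^ m, ?_⟩
      rw [← pow_mul, mul_comm m]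
      linear_combination -hc
    · rintro ⟨c, hc⟩
      refine ⟨c, fun h => ?_, ?_⟩
      · rw [h, zero_pow (pow_ne_zero _ two_ne_zero)] at hc; exact one_ne_zero (neg_eq_zero.1 hc.symm)
      · rw [pow_mul, hc, hm.neg_one_pow]; ring

end Cfsg.Agent.S2575
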