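import Cfsg.Statements.S2576
import Mathlib

set_option autoImplicit false
open Cfsg

namespace Cfsg.Agent.S2576

/-- Which involutions of PGL_2m(q) coming from a scalar of the quadratic extension field lie in PSL_2m(q), q odd: let μ generate the Sylow 2-subgroup of the multiplicative group of the field with q elements (μ has order the 2-part of q − 1) and let t be the block-diagonal matrix with m diagonal blocks [[0, 1], [μ, 0]] (so t² is the scalar μ and t is an involution modulo scalars). Then some non-zero scalar multiple of t has determinant one if and only if q ≡ 3 (mod 4) or the 2-part of q − 1 is less than the 2-part of 2m. -/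
theorem result {F : Type*} [Field F] [Fintype F] {q : ℕ} (hF : Fintype.card F = q) (hq : Odd q) {m : ℕ} (hm : 1 ≤ m) (μ : F) (hμ : orderOf μ = 2 ^ padicValNat 2 (q - 1)) : (∃ c : F, c ≠ 0 ∧ (c • Matrix.blockDiagonal (fun _ : Fin m => !![(0 : F), 1; μ, 0])).det = 1) ↔ (q % 4 = 3 ∨ padicValNat 2 (q - 1) < padicValNat 2 (2 * m)) := by
  classical
  subst hF
  haveI : Fact (Nat.Prime 2) := ⟨Nat.prime_two⟩
  have hF2 : ringChar F ≠ 2 := by
    rw [Ne, FiniteField.even_card_iff_char_two, Nat.odd_iff.1 hq]
    exact one_ne_zero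
  set v := padicValNat 2 (Fintype.card F - 1) with hv
  have hdet : ∀ c : F, (c • Matrix.blockDiagonal (fun _ : Fin m => !![(0 : F), 1; μ, 0])).det =
      (c ^ 2 * -μ) ^ m := by
    intro c
    rw [Matrix.det_smul, Matrix.det_blockDiagonal, Finset.prod_const, Finset.card_univ, Fintype.card_prod,
      Fintype.card_fin, Fintype.card_fin, Matrix.det_fin_two, mul_pow, ← pow_mul]
    simp
  simp only [hdet]
  have hq3 : 3 ≤ Fintype.card F := by
    have := Fintype.one_lt_card (α := F); rcases hq with ⟨k, hk⟩; omega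
  have hv1 : 1 ≤ v := one_le_padicValNat_of_dvd (by omega) (by rcases hq with ⟨k, hk⟩; omega)
  have hμv : μ ^ 2 ^ v = 1 := by rw [← hμ]; exact pow_orderOf_eq_one μ
  have hdvd : 2 ^ v ∣ Fintype.card F - 1 := pow_padicValNat_dvd
  have hv2 : 2 * m ≠ 0 := by omega
  have hm2 : padicValNat 2 (2 * m) = padicValNat 2 m + 1 := by
    rw [padicValNat.mul two_ne_zero (by omega), padicValNat.self one_lt_two]; omega
  constructor
  · rintro ⟨c, hc0, hc⟩
    by_contra hcon
    push Not at hcon
    obtain ⟨h3, hle⟩ := hcon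
    rw [hm2] at hle
    have hv2' : 2 ≤ v := by
      rw [hv]; refine (padicValNat_dvd_iff_le (p := 2) (by omega)).1 ?_
      rcases hq with ⟨k, hk⟩; omega
    -- `-μ` is a nonsquare
    have hns : ¬ IsSquare (-μ) := by
      rintro ⟨z, hz⟩
      have hord : orderOf z = 2 ^ (v + 1) := by
        refine orderOf_eq_prime_pow (fun h1 => ?_) ?_
        · obtain ⟨w, hw⟩ : ∃ w, v = w + 1 := ⟨v - 1, by omega⟩
          have h2 : μ ^ 2 ^ w ≠ 1 := fun h2 => by
            have h4 := orderOf_dvd_of_pow_eq_one h2
            rw [hμ] at h4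
            have := Nat.le_of_dvd (by positivity) h4
            have : 2 ^ w < 2 ^ v := Nat.pow_lt_pow_right one_lt_two (by omega)
            omega
          refine h2 ?_
          have : (-μ) ^ 2 ^ w = 1 := by
            rw [hz, ← pow_two, ← pow_mul, show 2 * 2 ^ w = 2 ^ v by rw [hw]; ring]
            exact h1
          rwa [Even.neg_pow (Nat.even_pow.2 ⟨even_two, by omega⟩)] at this
        · rw [show 2 ^ (v + 1) = 2 * 2 ^ v by ring, pow_mul, pow_two, ← hz,
            Even.neg_pow (Nat.even_pow.2 ⟨even_two, by omega⟩), hμv]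
      have hz0 : z ≠ 0 := fun h => by
        rw [h, orderOf_zero] at hord; exact absurd hord.symm (pow_ne_zero _ two_ne_zero)
      have := orderOf_dvd_of_pow_eq_one (FiniteField.pow_card_sub_one_eq_one z hz0)
      rw [hord] at this
      have := (padicValNat_dvd_iff_le (p := 2) (by omega)).1 this
      omega
    set y := c ^ 2 * -μ with hy
    have hy0 : y ≠ 0 := fun h => by rw [h, zero_pow (by omega)] at hc; exact zero_ne_one hc
    have hyns : ¬ IsSquare y := by
      rintro ⟨r, hr⟩
      exact hns ⟨r / c, by field_simp; linear_combination hr⟩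
    refine hyns ((FiniteField.isSquare_iff hF2 hy0).2 ?_)
    rw [← orderOf_dvd_iff_pow_eq_one]
    have h1 : orderOf y ∣ m := orderOf_dvd_of_pow_eq_one hc
    have h2 : orderOf y ∣ Fintype.card F - 1 :=
      orderOf_dvd_of_pow_eq_one (FiniteField.pow_card_sub_one_eq_one y hy0)
    obtain ⟨s, hs⟩ := h2
    have hs2 : 2 ∣ s := by
      by_contra hs2
      have h4 : 2 ^ v ∣ orderOf y := by
        have : Nat.Coprime (2 ^ v) s := Nat.Coprime.pow_left _ ((Nat.Prime.coprime_iff_not_dvd Nat.prime_two).2 hs2)
        exact this.dvd_of_dvd_mul_right (hs ▸ hdvd)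
      have := (padicValNat_dvd_iff_le (p := 2) (by omega : m ≠ 0)).1 (h4.trans h1)
      omega
    obtain ⟨t, rfl⟩ := hs2
    refine ⟨t, ?_⟩
    have : Fintype.card F = 2 * (orderOf y * t) + 1 := by rw [show 2 * (orderOf y * t) = orderOf y * (2 * t) by ring, ← hs]; omega
    omega
  · intro h
    refine ⟨1, one_ne_zero, ?_⟩
    rw [one_pow, one_mul]
    rcases h with h | h
    · have hve : v = 1 := by
        refine le_antisymm ?_ hv1
        by_contra hc
        have := (padicValNat_dvd_iff_le (p := 2) (show Fintype.card F - 1 ≠ 0 by omega)).2 (show 2 ≤ padicValNat 2 (Fintype.card F - 1) by omega)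
        omega
      have hne : μ ≠ 1 := fun h1 => by rw [h1, orderOf_one, hve] at hμ; norm_num at hμ
      rw [hve, pow_one, sq_eq_one_iff] at hμv
      rcases hμv with h1 | h1
      · exact absurd h1 hne
      · simp [h1]
    · rw [hm2] at h
      have hle : v ≤ padicValNat 2 m := by omega
      obtain ⟨k, hk⟩ := ((padicValNat_dvd_iff_le (p := 2) (by omega : m ≠ 0)).2 hle : 2 ^ v ∣ m)
      rw [hk, pow_mul, Even.neg_pow (Nat.even_pow.2 ⟨even_two, by omega⟩), hμv, one_pow]

end Cfsg.Agent.S2576
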