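import Cfsg.Statements.S2578
import Cfsg.Agent.GLOrders.Regular
import Mathlib.GroupTheory.SpecificGroups.Cyclic
-- import your own Cfsg.Agent.* helpers here

set_option autoImplicit false
open Cfsg

namespace Cfsg.Agent.S2578

/-- Regular unipotent classes of SL_n(q): for n ≥ 2 over the field with q elements, the matrices u of determinant one with (u − 1)^n = 0 and rank(u − 1) = n − 1 form a single GL_n(q)-class which splits into exactly gcd(n, q − 1) conjugacy classes of SL_n(q). -/
theorem result {F : Type*} [Field F] [Fintype F] {q : ℕ} (hF : Fintype.card F = q) {n : ℕ} (hn : 2 ≤ n) : Nat.card {C : ConjClasses (Matrix.SpecialLinearGroup (Fin n) F) // ∃ u : Matrix.SpecialLinearGroup (Fin n) F, ConjClasses.mk u = C ∧ ((u : Matrix (Fin n) (Fin n) F) - 1) ^ n = 0 ∧ ((u : Matrix (Fin n) (Fin n) F) - 1).rank = n - 1} = Nat.gcd n (q - 1) := by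
  classical
  open CfsgLib.GLOrders in
  set S := shiftMat F n with hS
  have hn1 : 1 ≤ n := by omega
  have hSdet : (1 + S).det = 1 := by
    rw [Matrix.det_of_isLowerTriangular]
    · simp [hS, CfsgLib.GLOrders.shiftMat]
    · intro i j hij
      have h : i.val < j.val := hij
      rw [Matrix.add_apply, Matrix.one_apply_ne (fun e => by rw [e] at h; omega), hS, CfsgLib.GLOrders.shiftMat,
        Matrix.of_apply, if_neg (by omega), add_zero]
  let u₀ : Matrix.SpecialLinearGroup (Fin n) F := ⟨1 + S, hSdet⟩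
  let D : Fˣ → GL (Fin n) F := fun d => Matrix.GeneralLinearGroup.mk''
    (Matrix.diagonal (Function.update (fun _ => (1 : F)) ⟨0, hn1⟩ (d : F)))
    (by rw [Matrix.det_diagonal, Finset.prod_update_of_mem (Finset.mem_univ _)]; simp)
  have hDdet : ∀ d, Matrix.GeneralLinearGroup.det (D d) = d := by
    intro d
    apply Units.ext
    show (Matrix.diagonal _).det = _
    rw [Matrix.det_diagonal, Finset.prod_update_of_mem (Finset.mem_univ _)]
    simp
  let conjS : GL (Fin n) F → Matrix.SpecialLinearGroup (Fin n) F := fun g =>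
    ⟨(g : Matrix (Fin n) (Fin n) F) * (1 + S) * ((g⁻¹ : GL (Fin n) F) : Matrix (Fin n) (Fin n) F), by
      rw [Matrix.det_mul, Matrix.det_mul, hSdet, mul_one, ← Matrix.det_mul, ← Units.val_mul, mul_inv_cancel,
        Units.val_one, Matrix.det_one]⟩
  have hreg : ∀ g, ((conjS g : Matrix (Fin n) (Fin n) F) - 1) ^ n = 0 ∧ ((conjS g : Matrix (Fin n) (Fin n) F) - 1).rank = n - 1 := by
    intro g
    set G := (g : Matrix (Fin n) (Fin n) F)
    set Gi := ((g⁻¹ : GL (Fin n) F) : Matrix (Fin n) (Fin n) F)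
    have h2 : G * Gi = 1 := by rw [← Units.val_mul, mul_inv_cancel, Units.val_one]
    have h1 : Gi * G = 1 := by rw [← Units.val_mul, inv_mul_cancel, Units.val_one]
    have e : G * (1 + S) * Gi - 1 = G * S * Gi := by rw [Matrix.mul_add, Matrix.mul_one, Matrix.add_mul, h2]; abel
    show (G * (1 + S) * Gi - 1) ^ n = 0 ∧ (G * (1 + S) * Gi - 1).rank = n - 1
    rw [e]
    constructor
    · rw [Units.conj_pow g S, hS, CfsgLib.GLOrders.shiftMat_pow_self, Matrix.mul_zero, Matrix.zero_mul]
    · rw [Matrix.rank_mul_eq_left_of_isUnit_det, Matrix.rank_mul_eq_right_of_isUnit_det, hS,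
        CfsgLib.GLOrders.rank_shiftMat hn1]
      · exact (Matrix.isUnit_iff_isUnit_det _).mp g.isUnit
      · exact (Matrix.isUnit_iff_isUnit_det _).mp (g⁻¹).isUnit
  let pw : Fˣ →* Fˣ := powMonoidHom n
  have hclass : ∀ g h : GL (Fin n) F, ConjClasses.mk (conjS g) = ConjClasses.mk (conjS h) ↔
      (Matrix.GeneralLinearGroup.det g)⁻¹ * Matrix.GeneralLinearGroup.det h ∈ pw.range := by
    intro g h
    rw [ConjClasses.mk_eq_mk_iff_isConj, isConj_iff]
    constructor
    · rintro ⟨c, hc⟩
      let cg : GL (Fin n) F := Matrix.SpecialLinearGroup.toGL c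
      have hcomm : ((h⁻¹ * cg * g : GL (Fin n) F) : Matrix (Fin n) (Fin n) F) * S = S * ((h⁻¹ * cg * g : GL (Fin n) F) : Matrix (Fin n) (Fin n) F) := by
        have h1 : (cg : Matrix (Fin n) (Fin n) F) * ((g : Matrix (Fin n) (Fin n) F) * (1 + S) * ((g⁻¹ : GL (Fin n) F) : Matrix (Fin n) (Fin n) F)) * ((cg⁻¹ : GL (Fin n) F) : Matrix (Fin n) (Fin n) F) =
            (h : Matrix (Fin n) (Fin n) F) * (1 + S) * ((h⁻¹ : GL (Fin n) F) : Matrix (Fin n) (Fin n) F) := by
          have h0 := congrArg (fun y : Matrix.SpecialLinearGroup (Fin n) F => (y : Matrix (Fin n) (Fin n) F)) hc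
          have h2 : ((cg⁻¹ : GL (Fin n) F) : Matrix (Fin n) (Fin n) F) = ((c⁻¹ : Matrix.SpecialLinearGroup (Fin n) F) : Matrix (Fin n) (Fin n) F) := by
            rw [← map_inv]; rfl
          rw [h2]
          exact h0
        have h2 := congrArg (fun M => ((h⁻¹ : GL (Fin n) F) : Matrix (Fin n) (Fin n) F) * M * (((cg * g) : GL (Fin n) F) : Matrix (Fin n) (Fin n) F)) h1
        simp only [Units.val_mul, Matrix.mul_assoc, Units.inv_mul_cancel_left, Units.mul_inv_cancel_left] at h2 ⊢
        simp only [Units.inv_mul, Matrix.mul_one] at h2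
        rw [Matrix.mul_add, Matrix.add_mul] at h2
        simp only [Matrix.mul_add, Matrix.mul_one, Matrix.one_mul] at h2
        exact add_left_cancel h2
      have hT := (CfsgLib.GLOrders.commute_shiftMat_iff hn1 _).mp hcomm
      have hd : (Matrix.GeneralLinearGroup.det (h⁻¹ * cg * g) : F) = _ ^ n :=
        (congrArg Matrix.det hT).trans (CfsgLib.GLOrders.det_toeplitz hn1 _)
      set a := ((h⁻¹ * cg * g : GL (Fin n) F) : Matrix (Fin n) (Fin n) F) ⟨0, hn1⟩ ⟨0, hn1⟩
      have ha : a ≠ 0 := by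
        intro h0
        rw [h0, zero_pow (by omega : n ≠ 0)] at hd
        exact Units.ne_zero _ hd
      refine ⟨(Units.mk0 a ha)⁻¹, ?_⟩
      show ((Units.mk0 a ha)⁻¹) ^ n = _
      have hd' : Matrix.GeneralLinearGroup.det (h⁻¹ * cg * g) = Units.mk0 a ha ^ n := Units.ext (by rw [hd, Units.val_pow_eq_pow_val]; rfl)
      have hc1 : Matrix.GeneralLinearGroup.det cg = 1 := Units.ext c.2
      rw [inv_pow, ← hd', map_mul, map_mul, map_inv, hc1, mul_one, mul_inv, inv_inv, mul_comm]
    · rintro ⟨a, ha⟩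
      let A : GL (Fin n) F := Matrix.GeneralLinearGroup.mk'' ((a⁻¹ : Fˣ).val • (1 : Matrix (Fin n) (Fin n) F))
        (by rw [Matrix.det_smul]; simp)
      let k : GL (Fin n) F := h * A * g⁻¹
      have hk : Matrix.GeneralLinearGroup.det k = 1 := by
        have hA : Matrix.GeneralLinearGroup.det A = a⁻¹ ^ n := Units.ext (by
          show ((a⁻¹ : Fˣ).val • (1 : Matrix (Fin n) (Fin n) F)).det = _
          simp)
        show Matrix.GeneralLinearGroup.det (h * A * g⁻¹) = 1
        rw [map_mul, map_mul, hA, map_inv, inv_pow]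
        have ha' : a ^ n = (Matrix.GeneralLinearGroup.det g)⁻¹ * Matrix.GeneralLinearGroup.det h := ha
        rw [ha']
        group
      let c : Matrix.SpecialLinearGroup (Fin n) F := ⟨(k : Matrix (Fin n) (Fin n) F), congrArg Units.val hk⟩
      refine ⟨c, ?_⟩
      have hck : Matrix.SpecialLinearGroup.toGL c = k := Units.ext rfl
      apply Subtype.ext
      show (k : Matrix (Fin n) (Fin n) F) * ((g : Matrix (Fin n) (Fin n) F) * (1 + S) * ((g⁻¹ : GL (Fin n) F) : Matrix (Fin n) (Fin n) F)) * ((c⁻¹ : Matrix.SpecialLinearGroup (Fin n) F) : Matrix (Fin n) (Fin n) F) = _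
      have hci : ((c⁻¹ : Matrix.SpecialLinearGroup (Fin n) F) : Matrix (Fin n) (Fin n) F) = ((k⁻¹ : GL (Fin n) F) : Matrix (Fin n) (Fin n) F) := by
        rw [← hck, ← map_inv]; rfl
      rw [hci]
      show _ = (h : Matrix (Fin n) (Fin n) F) * (1 + S) * ((h⁻¹ : GL (Fin n) F) : Matrix (Fin n) (Fin n) F)
      have hAc : ∀ M : Matrix (Fin n) (Fin n) F, (A : Matrix (Fin n) (Fin n) F) * M * ((A⁻¹ : GL (Fin n) F) : Matrix (Fin n) (Fin n) F) = M := by
        intro M
        have : Commute (A : Matrix (Fin n) (Fin n) F) M := (Commute.one_left M).smul_left _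
        rw [this.eq, Matrix.mul_assoc, ← Units.val_mul, mul_inv_cancel, Units.val_one, Matrix.mul_one]
      conv_rhs => rw [← hAc (1 + S)]
      simp only [k, _root_.mul_inv_rev, inv_inv, Units.val_mul, Matrix.mul_assoc, Units.inv_mul_cancel_left]
  let Φ : Fˣ ⧸ pw.range → {C : ConjClasses (Matrix.SpecialLinearGroup (Fin n) F) //
      ∃ u : Matrix.SpecialLinearGroup (Fin n) F, ConjClasses.mk u = C ∧ ((u : Matrix (Fin n) (Fin n) F) - 1) ^ n = 0 ∧
        ((u : Matrix (Fin n) (Fin n) F) - 1).rank = n - 1} :=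
    Quotient.lift (fun d => ⟨ConjClasses.mk (conjS (D d)), conjS (D d), rfl, hreg _⟩) (by
      intro d d' hdd
      apply Subtype.ext
      refine (hclass _ _).mpr ?_
      rw [hDdet, hDdet]
      exact QuotientGroup.leftRel_apply.mp hdd)
  have hbij : Function.Bijective Φ := by
    constructor
    · intro x y
      refine Quotient.inductionOn₂ x y fun d d' h => ?_
      apply Quotient.sound
      have h1 := (hclass _ _).mp (congrArg Subtype.val h)
      rw [hDdet, hDdet] at h1
      exact QuotientGroup.leftRel_apply.mpr h1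
    · rintro ⟨C, u, hC, hu1, hu2⟩
      obtain ⟨P, hP⟩ := CfsgLib.GLOrders.exists_conj_shiftMat hn1 _ hu1 hu2
      refine ⟨QuotientGroup.mk (Matrix.GeneralLinearGroup.det P), Subtype.ext ?_⟩
      show ConjClasses.mk (conjS (D (Matrix.GeneralLinearGroup.det P))) = C
      rw [← hC, show u = conjS P from Subtype.ext ?_, hclass, hDdet, inv_mul_cancel]
      · exact one_mem _
      · show (u : Matrix (Fin n) (Fin n) F) = (P : Matrix (Fin n) (Fin n) F) * (1 + S) * ((P⁻¹ : GL (Fin n) F) : Matrix (Fin n) (Fin n) F)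
        rw [Matrix.mul_add, Matrix.mul_one, hS, ← hP, Matrix.add_mul, Matrix.mul_assoc, ← Units.val_mul, mul_inv_cancel,
          Units.val_one, Matrix.mul_one]
        abel
  rw [← Nat.card_eq_of_bijective Φ hbij, ← Subgroup.index_eq_card, IsCyclic.index_powMonoidHom_range, Nat.card_units,
    Nat.card_eq_fintype_card, hF, Nat.gcd_comm]

end Cfsg.Agent.S2578
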