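import Cfsg.Statements.S2582
import Cfsg.Agent.NilType.Combine

set_option autoImplicit false
open Cfsg

namespace Cfsg.Agent.S2582

/-- Which unipotent Jordan types occur in the finite symplectic group: over a finite field, a unipotent matrix with Jordan block sizes d_1, …, d_t (sum 2m, all at least 1) is similar to an element of Sp_2m(F) if and only if every odd block size occurs an even number of times. -/
theorem result {F : Type*} [Field F] [Fintype F] {m t : ℕ} (d : Fin t → ℕ) (hd : ∀ k, 1 ≤ d k) (hsum : ∑ k, d k = 2 * m) : (∃ e : ((k : Fin t) × Fin (d k)) ≃ (Fin m ⊕ Fin m), ∃ A : Matrix.symplecticGroup (Fin m) F, IsConj (Matrix.reindex e e (Cfsg.jordanTypeMatrix d F)) (A : Matrix (Fin m ⊕ Fin m) (Fin m ⊕ Fin m) F)) ↔ ∀ j : ℕ, Odd j → Even (Finset.univ.filter (fun k : Fin t => d k = j)).card := by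
  classical
  have hs : (Finset.univ.val.map d).sum = 2 * m := hsum
  have hiff := CfsgLib.NilType.exists_equiv_isConj_iff (F := F) (κ := Fin m ⊕ Fin m) d
    (G := {A | A ∈ Matrix.symplecticGroup (Fin m) F})
  constructor
  · rintro ⟨e, A, hc⟩ j hj
    obtain ⟨A', hA', h1, h2⟩ := hiff.1 ⟨e, A.1, A.2, hc⟩
    rw [CfsgLib.NilType.count_eq_filter]
    exact CfsgLib.NilType.even_count_odd_of_alt (G := Matrix.J (Fin m) F) (Matrix.isUnit_det_J _ _)
      (SymplecticGroup.mem_iff'.1 hA') (fun x => CfsgLib.SpGeom.form_self x) h1 h2 hj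
  · intro h
    obtain ⟨A, hA, h1, h2⟩ := CfsgLib.NilType.exists_symp (F := F)
      (CfsgLib.NilType.RealSp.of_count (Finset.univ.val.map d)
        (fun a ha => by obtain ⟨k, -, rfl⟩ := Multiset.mem_map.1 ha; exact hd k)
        fun j hj => by rw [← CfsgLib.NilType.count_eq_filter]; exact h j hj) hs
    obtain ⟨e, A', hA', hc⟩ := hiff.2 ⟨A, hA, h1, h2⟩
    exact ⟨e, ⟨A', hA'⟩, hc⟩

end Cfsg.Agent.S2582
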