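import Cfsg.Statements.S2584
import Cfsg.Agent.NilType.Combine

set_option autoImplicit false
open Cfsg

namespace Cfsg.Agent.S2584

/-- Which unipotent Jordan types occur in a finite orthogonal group in characteristic two: over a finite field of characteristic 2 and in even dimension 2m, a unipotent matrix with Jordan block sizes d_1, …, d_t (sum 2m, all at least 1) is similar to an isometry of some quadratic form on F^(2m) with non-degenerate polar form if and only if every odd block size occurs an even number of times (the same condition as for the symplectic group, which contains these orthogonal groups). -/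
theorem result {F : Type*} [Field F] [Fintype F] [CharP F 2] {m t : ℕ} (d : Fin t → ℕ) (hd : ∀ k, 1 ≤ d k) (hsum : ∑ k, d k = 2 * m) : (∃ Q : QuadraticForm F (Fin (2 * m) → F), (QuadraticMap.polarBilin Q).Nondegenerate ∧ ∃ e : ((k : Fin t) × Fin (d k)) ≃ Fin (2 * m), ∃ A : ↥(Cfsg.isometryGroup F ⇑Q), IsConj (Matrix.reindex e e (Cfsg.jordanTypeMatrix d F)) ((A : Matrix.GeneralLinearGroup (Fin (2 * m)) F) : Matrix (Fin (2 * m)) (Fin (2 * m)) F)) ↔ ∀ j : ℕ, Odd j → Even (Finset.univ.filter (fun k : Fin t => d k = j)).card := by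
  classical
  have hiff : ∀ Q : QuadraticForm F (Fin (2 * m) → F), _ := fun Q =>
    CfsgLib.NilType.exists_equiv_isConj_iff (F := F) (κ := Fin (2 * m)) d
      (G := {A | ∃ g : ↥(Cfsg.isometryGroup F ⇑Q), (g : Matrix.GeneralLinearGroup (Fin (2 * m)) F).1 = A})
  constructor
  · rintro ⟨Q, hQ, e, A, hc⟩ j hj
    obtain ⟨_, ⟨g, rfl⟩, h1, h3⟩ := (hiff Q).1 ⟨e, _, ⟨A, rfl⟩, hc⟩
    rw [CfsgLib.NilType.count_eq_filter]
    obtain ⟨G, hGdef⟩ : ∃ G, G = LinearMap.toMatrix₂' F (QuadraticMap.polarBilin Q) := ⟨_, rfl⟩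
    have hGp : ∀ x y, x ⬝ᵥ G.mulVec y = QuadraticMap.polar Q x y := fun x y => by
      rw [← Matrix.toLinearMap₂'_apply', hGdef, Matrix.toLinearMap₂'_toMatrix', QuadraticMap.polarBilin_apply_apply]
    have hG : IsUnit G.det := by
      rw [← Matrix.isUnit_iff_isUnit_det, ← Matrix.mulVec_injective_iff_isUnit]
      refine (injective_iff_map_eq_zero G.mulVecLin).2 fun v hv => hQ.2 v fun w => ?_
      rw [Matrix.mulVecLin_apply] at hv
      rw [QuadraticMap.polarBilin_apply_apply, ← hGp, hv, dotProduct_zero]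
    have hGs : G.transpose = G := by
      ext a b
      rw [Matrix.transpose_apply, hGdef, LinearMap.toMatrix₂'_apply, LinearMap.toMatrix₂'_apply,
        QuadraticMap.polarBilin_apply_apply, QuadraticMap.polarBilin_apply_apply, QuadraticMap.polar_comm]
    have hiso : ∀ g : Matrix.GeneralLinearGroup (Fin (2 * m)) F, g ∈ Cfsg.isometryGroup F ⇑Q →
        g.1.transpose * G * g.1 = G := fun g hg => by
      refine Matrix.ext_of_mulVec_single fun a => dotProduct_eq _ _ fun u => ?_
      rw [dotProduct_comm, dotProduct_comm _ u, ← Matrix.mulVec_mulVec, ← Matrix.mulVec_mulVec,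
        Matrix.dotProduct_mulVec u g.1.transpose, Matrix.vecMul_transpose, hGp, hGp]
      simp only [QuadraticMap.polar, ← Matrix.mulVec_add, CfsgLib.Forms.mem_isometryGroup.1 hg]
    exact CfsgLib.NilType.even_count_odd_of_alt hG (hiso _ g.2)
      (fun x => by rw [hGp, QuadraticMap.polar_self, two_nsmul, CharTwo.add_self_eq_zero]) h1 h3 hj
  · intro h
    obtain ⟨Q, hQ, g, h1, h3⟩ := CfsgLib.NilType.exists_orth (F := F)
      (CfsgLib.NilType.RealQ.of_count_two _ (fun a ha => by obtain ⟨k, -, rfl⟩ := Multiset.mem_map.1 ha; exact hd k)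
        (by intro j hj; rw [← CfsgLib.NilType.count_eq_filter]; exact h j hj))
      (show (Finset.univ.val.map d).sum = (2 * m) from hsum)
    obtain ⟨e, _, ⟨A, rfl⟩, hc⟩ := (hiff Q).2 ⟨_, ⟨g, rfl⟩, h1, h3⟩
    exact ⟨Q, hQ, e, A, hc⟩

end Cfsg.Agent.S2584
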