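import Cfsg.Statements.S2585
import Cfsg.Agent.Forms.Standard
import Mathlib

set_option autoImplicit false
open Cfsg Matrix

namespace Cfsg.Agent.S2585

/-- Over a finite field of characteristic two every element of the symplectic group is orthogonal for a suitable quadratic form: for each A in Sp_2m(F) there is a quadratic form Q on F^(2m) whose polar form is the alternating form defining Sp_2m(F) (so Q is non-degenerate) and which A preserves. Equivalently, for m ≥ 1, Sp_2m(F) is the union of the conjugates of its two orthogonal subgroups O⁺_2m(F) and O⁻_2m(F). -/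
theorem result {F : Type*} [Field F] [Fintype F] [CharP F 2] {m : ℕ} (A : Matrix.symplecticGroup (Fin m) F) : ∃ Q : QuadraticForm F (Fin m ⊕ Fin m → F), (∀ u v : Fin m ⊕ Fin m → F, QuadraticMap.polar ⇑Q u v = Cfsg.sympForm m F u v) ∧ ∀ v : Fin m ⊕ Fin m → F, Q ((A : Matrix (Fin m ⊕ Fin m) (Fin m ⊕ Fin m) F).mulVec v) = Q v := by
  obtain ⟨A, hA⟩ := A
  have hA' := SymplecticGroup.mem_iff'.1 hA
  set Q₀ := CfsgLib.Forms.quadPlus F m with hQ₀
  have htwo : (2 : F) = 0 := CharTwo.two_eq_zero
  have hpol : ∀ u v, QuadraticMap.polar Q₀ u v = Cfsg.sympForm m F u v := by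
    intro u v
    rw [CfsgLib.Forms.coe_quadPlus, CfsgLib.Forms.polar_plus, Cfsg.sympForm, dotProduct, Fintype.sum_sum_type,
      Finset.sum_add_distrib]
    have hinl : ∀ i, (Matrix.J (Fin m) F *ᵥ v) (Sum.inl i) = v (Sum.inr i) := fun i => by
      simp [Matrix.J, Matrix.mulVec, dotProduct, Matrix.one_apply, CharTwo.neg_eq]
    have hinr : ∀ i, (Matrix.J (Fin m) F *ᵥ v) (Sum.inr i) = v (Sum.inl i) := fun i => by
      simp [Matrix.J, Matrix.mulVec, dotProduct, Matrix.one_apply, CharTwo.neg_eq]
    simp only [hinl, hinr, mul_comm (v (Sum.inl _))]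
  have hinv : ∀ u v, Cfsg.sympForm m F (A *ᵥ u) (A *ᵥ v) = Cfsg.sympForm m F u v := by
    intro u v
    simp only [Cfsg.sympForm]
    rw [dotProduct_mulVec, ← Matrix.vecMul_transpose, Matrix.vecMul_vecMul, dotProduct_mulVec,
      Matrix.vecMul_vecMul, ← dotProduct_mulVec, hA']
  let D : QuadraticForm F (Fin m ⊕ Fin m → F) := Q₀.comp (Matrix.mulVecLin A) - Q₀
  have hadd : ∀ u v, D (u + v) = D u + D v := by
    intro u v
    have h1 : QuadraticMap.polar Q₀ (A *ᵥ u) (A *ᵥ v) = QuadraticMap.polar Q₀ u v := by rw [hpol, hpol, hinv]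
    simp only [D, QuadraticMap.sub_apply, QuadraticMap.comp_apply, Matrix.mulVecLin_apply, Matrix.mulVec_add,
      QuadraticMap.map_add (⇑Q₀)]
    linear_combination h1
  have hex : ∀ v, ∃ r : F, r ^ 2 = D v := fun v => by
    obtain ⟨r, hr⟩ := CfsgLib.Forms.exists_sq htwo (D v)
    exact ⟨r, by linear_combination hr⟩
  choose root hroot using hex
  have hinj : ∀ a b : F, a ^ 2 = b ^ 2 → a = b := fun a b h => by
    have h2 : (a - b) ^ 2 = 0 := by linear_combination h + (b ^ 2 - a * b) * htwo
    exact sub_eq_zero.1 (pow_eq_zero_iff two_ne_zero |>.1 h2)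
  let l : (Fin m ⊕ Fin m → F) →ₗ[F] F :=
    { toFun := root
      map_add' := fun u v => hinj _ _ (by
        rw [hroot, hadd, ← hroot u, ← hroot v]; linear_combination -(root u * root v) * htwo)
      map_smul' := fun c v => hinj _ _ (by
        rw [hroot, QuadraticMap.map_smul, RingHom.id_apply, smul_eq_mul, smul_eq_mul, ← hroot v]; ring) }
  set N : (Fin m ⊕ Fin m → F) →ₗ[F] (Fin m ⊕ Fin m → F) := Matrix.mulVecLin A - LinearMap.id
  have hker : l ∈ (LinearMap.ker N).dualAnnihilator := by
    rw [Submodule.mem_dualAnnihilator]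
    intro v hv
    rw [LinearMap.mem_ker, LinearMap.sub_apply, LinearMap.id_apply, sub_eq_zero, Matrix.mulVecLin_apply] at hv
    refine (pow_eq_zero_iff two_ne_zero).1 ((hroot v).trans ?_)
    simp [D, hv]
  rw [← LinearMap.range_dualMap_eq_dualAnnihilator_ker] at hker
  obtain ⟨lam, hlam⟩ := hker
  refine ⟨Q₀ + QuadraticMap.linMulLin lam lam, fun u v => ?_, fun v => ?_⟩
  · rw [← hpol]
    simp only [QuadraticMap.polar, QuadraticMap.add_apply, QuadraticMap.linMulLin_apply, map_add]
    linear_combination (lam u * lam v) * htwo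
  · have h1 : lam (A *ᵥ v) - lam v = root v := by
      have := LinearMap.congr_fun hlam v
      simpa [N, l] using this
    have h2 : root v ^ 2 = Q₀ (A *ᵥ v) - Q₀ v := by rw [hroot]; simp [D]
    simp only [QuadraticMap.add_apply, QuadraticMap.linMulLin_apply]
    linear_combination (lam (A *ᵥ v) + lam v + root v) * h1 - h2 + (root v ^ 2 + root v * lam v) * htwo

end Cfsg.Agent.S2585
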