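import Cfsg.Statements.S2586
import Mathlib
import Cfsg.Agent.H29.Similar

set_option autoImplicit false
open Cfsg

namespace Cfsg.Agent.S2586

/-- Over a finite field, every element of the symplectic group Sp_2m(F) is conjugate by an invertible matrix to its inverse. -/
theorem result {F : Type*} [Field F] [Finite F] {m : ℕ} (A : Matrix.symplecticGroup (Fin m) F) : IsConj (A : Matrix (Fin m ⊕ Fin m) (Fin m ⊕ Fin m) F) ((A⁻¹ : Matrix.symplecticGroup (Fin m) F) : Matrix (Fin m ⊕ Fin m) (Fin m ⊕ Fin m) F) := by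
  refine (H29.Similar.isConj_transpose (A : Matrix (Fin m ⊕ Fin m) (Fin m ⊕ Fin m) F)).trans ?_
  have hJ : IsUnit (Matrix.J (Fin m) F) :=
    (Matrix.isUnit_iff_isUnit_det _).mpr (Matrix.isUnit_det_J _ _)
  obtain ⟨u, hu⟩ := hJ
  refine ⟨-u, ?_⟩
  rw [SemiconjBy, SymplecticGroup.coe_inv]
  simp only [Units.val_neg, hu]
  have hJ2 : Matrix.J (Fin m) F * Matrix.J (Fin m) F = -1 := Matrix.J_squared _ _
  simp only [neg_mul, mul_neg, Matrix.mul_assoc, neg_neg, hJ2, mul_one]

end Cfsg.Agent.S2586
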