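import Cfsg.Statements.S2590
import Cfsg.Agent.FormConj.Orth
import Cfsg.Agent.Forms.Matrix

set_option autoImplicit false
open Cfsg

namespace Cfsg.Agent.S2590

/-- Two semisimple elements of odd order of a finite orthogonal group (isometry group of a quadratic form on F^n with non-degenerate polar form, F finite of characteristic p; the elements have odd order prime to p) are conjugate in the orthogonal group if and only if they are conjugate in GL_n(F). -/
theorem result {F : Type*} [Field F] [Fintype F] {p : ℕ} [Fact p.Prime] [CharP F p] {n : ℕ} (Q : QuadraticForm F (Fin n → F)) (hQ : (QuadraticMap.polarBilin Q).Nondegenerate) (A B : ↥(Cfsg.isometryGroup F ⇑Q)) (hodd : Odd (orderOf A)) (hA : (orderOf A).Coprime p) : IsConj A B ↔ IsConj ((A : Matrix.GeneralLinearGroup (Fin n) F) : Matrix (Fin n) (Fin n) F) ((B : Matrix.GeneralLinearGroup (Fin n) F) : Matrix (Fin n) (Fin n) F) := by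
  refine ⟨fun h => ((Units.coeHom _).comp (Cfsg.isometryGroup F ⇑Q).subtype).map_isConj h, fun ⟨c, hc⟩ => ?_⟩
  have hk : ((orderOf A : ℕ) : F) ≠ 0 := by
    rw [Ne, CharP.cast_eq_zero_iff F p]
    exact fun h => (Fact.out : p.Prime).ne_one (Nat.dvd_one.1 (hA ▸ Nat.dvd_gcd h dvd_rfl))
  obtain ⟨g, hg, hgA⟩ := CfsgLib.FormConj.exists_orth_conj Q hQ (A := (A : GL (Fin n) F).1)
    (B := (B : GL (Fin n) F).1) (P := c.1) hk
    (by rw [← Units.val_pow_eq_pow_val, ← SubgroupClass.coe_pow, pow_orderOf_eq_one]; rfl) hodd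
    (CfsgLib.Forms.mem_isometryGroup.1 A.2) (CfsgLib.Forms.mem_isometryGroup.1 B.2)
    (Matrix.isUnits_det_units c) hc
  let g' := (CfsgLib.Forms.isoEquiv Q).symm ⟨g, hg⟩
  have hg' : ∀ v, Matrix.mulVec ((g' : GL (Fin n) F) : Matrix (Fin n) (Fin n) F) v = g v := fun v => by
    rw [← CfsgLib.Forms.glEquiv_apply, ← CfsgLib.Forms.coe_isoEquiv, MulEquiv.apply_symm_apply]
  refine isConj_iff.2 ⟨g', mul_inv_eq_iff_eq_mul.2 (Subtype.ext (Units.ext (Matrix.ext_of_mulVec_single fun i => ?_)))⟩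
  simp only [Subgroup.coe_mul, Units.val_mul, ← Matrix.mulVec_mulVec, hg', hgA]

end Cfsg.Agent.S2590
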