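import Cfsg.Statements.S2591
import Cfsg.Agent.FormConj.RegSp
import Cfsg.Agent.FormConj.RegExist
import Cfsg.Agent.FormConj.RegSU
import Cfsg.Agent.AutPSp.Unique
import Cfsg.Agent.AutPSp.Field

set_option autoImplicit false
open Cfsg

namespace Cfsg.Agent.S2591

/-- Over a finite field of odd order and for m ≥ 1, the regular unipotent elements of Sp_2m(F) (u − 1 nilpotent of rank 2m − 1, a single Jordan block) form exactly two conjugacy classes of Sp_2m(F) (one class under the similarity group, which splits in two). -/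
theorem result {F : Type*} [Field F] [Fintype F] {q : ℕ} (hF : Fintype.card F = q) (hq : Odd q) {m : ℕ} (hm : 1 ≤ m) : Nat.card {C : ConjClasses ↥(Matrix.symplecticGroup (Fin m) F) // ∃ u : Matrix.symplecticGroup (Fin m) F, ConjClasses.mk u = C ∧ ((u : Matrix (Fin m ⊕ Fin m) (Fin m ⊕ Fin m) F) - 1) ^ (2 * m) = 0 ∧ ((u : Matrix (Fin m ⊕ Fin m) (Fin m ⊕ Fin m) F) - 1).rank = 2 * m - 1} = 2 := by
  classical
  have h2 : (2 : F) ≠ 0 := Ring.two_ne_zero fun h => by
    have := FiniteField.even_card_of_char_two h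
    rw [hF] at this
    exact Nat.not_even_iff_odd.2 hq (Nat.even_iff.2 this)
  obtain ⟨u₀, hu1, hu2⟩ := CfsgLib.FormConj.exists_reg_symp F m hm
  have hpos : 1 ≤ 2 * m := by omega
  have hcard : Fintype.card (Fin m ⊕ Fin m) = 2 * m := by simp [two_mul]
  have hG := Matrix.isUnit_det_J (Fin m) F
  have ha : ∀ x, x ⬝ᵥ (Matrix.J (Fin m) F).mulVec x = 0 := fun x => CfsgLib.SpGeom.form_self x
  have hu := SymplecticGroup.mem_iff'.1 u₀.2
  have hD : Function.Surjective (CfsgLib.AutPSp.multHom (F := F) (m := m) hm) :=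
    CfsgLib.AutPSp.multHom_surjective hm
  have hι : Function.Injective (CfsgLib.AutPSp.toGS (F := F) (m := m)) := fun x y h =>
    Subtype.ext (congrArg (fun g : Cfsg.GSp m F => (g : GL (Fin m ⊕ Fin m) F).1) h)
  have hr : (CfsgLib.AutPSp.toGS (F := F) (m := m)).range = (CfsgLib.AutPSp.multHom hm).ker := by
    ext g
    rw [MonoidHom.mem_range, MonoidHom.mem_ker]
    refine ⟨?_, fun h => ?_⟩
    · rintro ⟨A, rfl⟩
      exact CfsgLib.AutPSp.multHom_toGS hm A
    · have h' := CfsgLib.AutPSp.mult_matrix g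
      rw [show CfsgLib.AutPSp.mult g = 1 from h, Units.val_one, one_smul] at h'
      exact ⟨⟨_, SymplecticGroup.mem_iff'.2 h'⟩, Subtype.ext (Units.ext rfl)⟩
  rw [CfsgLib.FormConj.card_split_classes (CfsgLib.AutPSp.multHom hm) hD CfsgLib.AutPSp.toGS hι hr
    (CfsgLib.AutPSp.toGS u₀) (CfsgLib.AutPSp.multHom_toGS hm u₀) _ (fun w => ?_)]
  · have hR : (Subgroup.centralizer {CfsgLib.AutPSp.toGS u₀}).map (CfsgLib.AutPSp.multHom hm) =
        (powMonoidHom 2 : Fˣ →* Fˣ).range := by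
      ext l
      constructor
      · rintro ⟨z, hz, rfl⟩
        have hzu : (z : GL (Fin m ⊕ Fin m) F).1 * u₀.1 = u₀.1 * (z : GL (Fin m ⊕ Fin m) F).1 :=
          congrArg (fun g : Cfsg.GSp m F => (g : GL (Fin m ⊕ Fin m) F).1) (Subgroup.mem_centralizer_singleton_iff.1 hz)
        obtain ⟨c, -, hc⟩ := CfsgLib.FormConj.sq_residue (CfsgLib.FormConj.regNil_skew h2 hcard hpos hu1 hu2) hG
          (CfsgLib.FormConj.adj_skew hG ha hu)
          ((CfsgLib.FormConj.commute_skew_iff h2 hcard hpos hu1 hu2).2 hzu) (CfsgLib.AutPSp.mult_matrix z)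
        have hc0 : c ≠ 0 := fun h0 => (CfsgLib.AutPSp.mult z).ne_zero (by rw [← hc, h0, mul_zero])
        exact ⟨Units.mk0 c hc0, Units.ext (by
          show ((Units.mk0 c hc0 ^ 2 : Fˣ) : F) = _
          rw [Units.val_pow_eq_pow_val, Units.val_mk0, sq, hc]
          rfl)⟩
      · rintro ⟨a, rfl⟩
        refine ⟨CfsgLib.AutPSp.scalarGS a, Subgroup.mem_centralizer_singleton_iff.2 (Subtype.ext (Units.ext ?_)), ?_⟩
        · show Matrix.scalar (Fin m ⊕ Fin m) (a : F) * u₀.1 = u₀.1 * Matrix.scalar (Fin m ⊕ Fin m) (a : F)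
          exact (Matrix.scalar_commute (a : F) (fun r => Commute.all _ r) u₀.1).eq
        · rw [CfsgLib.AutPSp.multHom_scalarGS]
          rfl
    rw [hR, IsCyclic.index_powMonoidHom_range, Nat.card_units, Nat.card_eq_fintype_card, hF]
    obtain ⟨k, rfl⟩ := hq
    rw [show 2 * k + 1 - 1 = 2 * k by omega, Nat.gcd_eq_right (dvd_mul_right 2 k)]
  · constructor
    · rintro ⟨h1, h3⟩
      obtain ⟨P, hP, hPu⟩ : ∃ P : Matrix (Fin m ⊕ Fin m) (Fin m ⊕ Fin m) F, IsUnit P.det ∧ P * u₀.1 = w.1 * P := by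
        let e : Fin m ⊕ Fin m ≃ Fin (2 * m) := Fintype.equivFinOfCardEq hcard
        let R := Matrix.reindexAlgEquiv F F e
        have hreg : ∀ N : Matrix (Fin m ⊕ Fin m) (Fin m ⊕ Fin m) F, N ^ (2 * m) = 0 → N.rank = 2 * m - 1 →
            ∃ Q : GL (Fin (2 * m)) F, R N * Q.1 = Q.1 * CfsgLib.GLOrders.shiftMat F (2 * m) := fun N hN hN' =>
          CfsgLib.GLOrders.exists_conj_shiftMat hpos _ (by rw [← map_pow, hN, map_zero])
            (show (Matrix.reindex e e N).rank = _ by rw [Matrix.rank_reindex, hN'])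
        obtain ⟨Q, hQ⟩ := hreg _ hu1 hu2
        obtain ⟨Q', hQ'⟩ := hreg _ h1 h3
        obtain ⟨T, hT⟩ : ∃ T, T = Q' * Q⁻¹ := ⟨_, rfl⟩
        have hT1 : T.1 * R (u₀.1 - 1) = R (w.1 - 1) * T.1 := by
          rw [hT, Units.val_mul, ← mul_assoc (R (w.1 - 1)), hQ', mul_assoc, mul_assoc]
          congr 1
          calc (Q⁻¹ : GL (Fin (2 * m)) F).1 * R (u₀.1 - 1) =
              (Q⁻¹ : GL (Fin (2 * m)) F).1 * (R (u₀.1 - 1) * Q.1) * (Q⁻¹ : GL (Fin (2 * m)) F).1 := by
                simp only [mul_assoc, Units.mul_inv, mul_one]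
            _ = _ := by rw [hQ, Units.inv_mul_cancel_left]
        refine ⟨R.symm T.1, ?_, R.injective ?_⟩
        · exact (Matrix.isUnit_iff_isUnit_det _).1 (T.isUnit.map R.symm)
        · rw [map_mul, map_mul, AlgEquiv.apply_symm_apply]
          rw [map_sub, map_sub, map_one, mul_sub, sub_mul, mul_one, one_mul, sub_left_inj] at hT1
          exact hT1
      obtain ⟨g, l, hl, hg, hgu⟩ := CfsgLib.FormConj.exists_similitude_conj rfl h2 hcard hpos hu1 hu2 hG ha hu
        (SymplecticGroup.mem_iff'.1 w.2) hP hPu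
      have hgdet : IsUnit g.det := by
        have h := congrArg Matrix.det hg
        rw [Matrix.det_mul, Matrix.det_smul] at h
        refine isUnit_of_mul_isUnit_right (x := (g.transpose * Matrix.J (Fin m) F).det) ?_
        rw [h]
        exact ((Ne.isUnit hl).pow _).mul hG
      exact isConj_iff.2 ⟨⟨Matrix.GeneralLinearGroup.mk'' g hgdet, CfsgLib.AutPSp.mem_GS_of_matrix hl hg⟩,
        mul_inv_eq_iff_eq_mul.2 (Subtype.ext (Units.ext hgu))⟩
    · intro h
      obtain ⟨g, hg⟩ := isConj_iff.1 h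
      have hc : (g : GL (Fin m ⊕ Fin m) F).1 * (u₀.1 - 1) = (w.1 - 1) * (g : GL (Fin m ⊕ Fin m) F).1 := by
        have h' := congrArg (fun x : Cfsg.GSp m F => (x : GL (Fin m ⊕ Fin m) F).1) (mul_inv_eq_iff_eq_mul.1 hg)
        rw [mul_sub, sub_mul, mul_one, one_mul]
        exact congrArg (· - (g : GL (Fin m ⊕ Fin m) F).1) h'
      refine ⟨?_, ?_⟩
      · have h' := (SemiconjBy.pow_right (show SemiconjBy _ _ _ from hc) (2 * m)).eq
        rw [hu1, mul_zero] at h'
        exact (g : GL (Fin m ⊕ Fin m) F).isUnit.mul_left_eq_zero.1 h'.symm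
      · have h' := congrArg Matrix.rank hc
        rw [Matrix.rank_mul_eq_right_of_isUnit_det _ _ (Matrix.isUnits_det_units _),
          Matrix.rank_mul_eq_left_of_isUnit_det _ _ (Matrix.isUnits_det_units _)] at h'
        rw [← h', hu2]

end Cfsg.Agent.S2591
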