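import Cfsg.Statements.S2592
import Cfsg.Agent.FormConj.RegSp
import Cfsg.Agent.SpGeom.Basic

set_option autoImplicit false
open Cfsg

namespace Cfsg.Agent.S2592

/-- Over a finite field with q elements, q odd, the centraliser in Sp_2m(F) (m ≥ 1) of a regular unipotent element (u − 1 nilpotent of rank 2m − 1) has order 2 q^m. -/
theorem result {F : Type*} [Field F] [Fintype F] {q : ℕ} (hF : Fintype.card F = q) (hq : Odd q) {m : ℕ} (hm : 1 ≤ m) (u : Matrix.symplecticGroup (Fin m) F) (hnil : ((u : Matrix (Fin m ⊕ Fin m) (Fin m ⊕ Fin m) F) - 1) ^ (2 * m) = 0) (hreg : ((u : Matrix (Fin m ⊕ Fin m) (Fin m ⊕ Fin m) F) - 1).rank = 2 * m - 1) : Nat.card ↥(Subgroup.centralizer ({u} : Set ↥(Matrix.symplecticGroup (Fin m) F))) = 2 * q ^ m := by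
  have h2 : (2 : F) ≠ 0 := Ring.two_ne_zero fun h => by
    have := FiniteField.even_card_of_char_two h
    rw [hF] at this
    exact Nat.not_even_iff_odd.2 hq (Nat.even_iff.2 this)
  rw [← hF, ← Nat.card_eq_fintype_card, ← CfsgLib.FormConj.card_centralizer (G := Matrix.J (Fin m) F) (u := u.1) rfl h2
    (by simp [two_mul]) (by omega) hnil hreg (Matrix.isUnit_det_J _ _) (fun x => CfsgLib.SpGeom.form_self x)
    (SymplecticGroup.mem_iff'.1 u.2)]
  exact Nat.card_congr
    { toFun := fun C => ⟨C.1.1, SymplecticGroup.mem_iff'.1 C.1.2,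
        congrArg Subtype.val (Subgroup.mem_centralizer_singleton_iff.1 C.2)⟩
      invFun := fun C => ⟨⟨C.1, SymplecticGroup.mem_iff'.2 C.2.1⟩,
        Subgroup.mem_centralizer_singleton_iff.2 (Subtype.ext C.2.2)⟩
      left_inv := fun C => rfl
      right_inv := fun C => rfl }

end Cfsg.Agent.S2592
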