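import Cfsg.Statements.S2594
import Cfsg.Agent.SpGeom.Order

set_option autoImplicit false
open Cfsg Matrix CfsgLib.SpGeom

namespace Cfsg.Agent.S2594

/-- Over a finite field with q elements, q even, an element t of Sp_2m(F) with rank(t − 1) = 1 (a symplectic transvection) has centraliser in Sp_2m(F) of order q^(2m−1) · |Sp_(2m−2)(q)| = q^(2m−1) · q^((m−1)²) · Π_(i=1)^(m−1) (q^(2i) − 1). -/
theorem result {F : Type*} [Field F] [Fintype F] [CharP F 2] {q : ℕ} (hF : Fintype.card F = q) {m : ℕ} (hm : 1 ≤ m) (t : Matrix.symplecticGroup (Fin m) F) (ht : ((t : Matrix (Fin m ⊕ Fin m) (Fin m ⊕ Fin m) F) - 1).rank = 1) : Nat.card ↥(Subgroup.centralizer ({t} : Set ↥(Matrix.symplecticGroup (Fin m) F))) = q ^ (2 * m - 1) * (q ^ ((m - 1) ^ 2) * ∏ i : Fin (m - 1), (q ^ (2 * ((i : ℕ) + 1)) - 1)) := by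
  classical
  subst hF
  obtain ⟨v, hv, rfl⟩ : ∃ v, v ≠ 0 ∧ t = tv v 1 := by
    obtain ⟨⟨v, hv⟩, hv0, hspan⟩ := finrank_eq_one_iff'.1
      (show Module.finrank F (LinearMap.range ((t : Matrix (Fin m ⊕ Fin m) (Fin m ⊕ Fin m) F) - 1).mulVecLin) = 1 from ht)
    have hv' : v ≠ 0 := fun e => hv0 (Subtype.ext e)
    have hφ : ∀ x, ∃ c : F, (t : Matrix (Fin m ⊕ Fin m) (Fin m ⊕ Fin m) F) *ᵥ x = x + c • v := by
      intro x
      obtain ⟨c, hc⟩ := hspan ⟨_, LinearMap.mem_range_self _ x⟩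
      refine ⟨c, ?_⟩
      have hc' : c • v = ((t : Matrix (Fin m ⊕ Fin m) (Fin m ⊕ Fin m) F) - 1) *ᵥ x := congrArg Subtype.val hc
      rw [hc', sub_mulVec, one_mulVec, add_sub_cancel]
    choose φ hφ using hφ
    obtain ⟨y₀, hy₀⟩ := exists_form_ne_zero hv'
    obtain ⟨y, hy1⟩ : ∃ y, Cfsg.sympForm m F v y = 1 := ⟨(Cfsg.sympForm m F v y₀)⁻¹ • y₀, by rw [form_smul_right, inv_mul_cancel₀ hy₀]⟩
    have key : ∀ x, φ x = -φ y * Cfsg.sympForm m F x v := by
      intro x
      have h1 := form_mulVec t x y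
      rw [hφ x, hφ y] at h1
      simp only [form_add_left, form_add_right, form_smul_left, form_smul_right, form_self, mul_zero, add_zero,
        hy1, mul_one] at h1
      linear_combination h1
    have htv : t = tv v (-φ y) := ext_mulVec fun x => by rw [hφ, key, tv_mulVec]
    obtain ⟨a, ha⟩ := FiniteField.isSquare_of_char_two (ringChar.eq F 2) (-φ y)
    have ha0 : a ≠ 0 := by
      rintro rfl
      rw [htv, ha, zero_mul, tv_zero, coe_one', sub_self, rank_zero] at ht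
      exact zero_ne_one ht
    exact ⟨a • v, smul_ne_zero ha0 hv', by rw [htv, tv_smul, mul_one, ha, pow_two]⟩
  have hstab : ∀ g : Matrix.symplecticGroup (Fin m) F, ∀ w, w ≠ 0 → (tv w (1 : F) = tv v 1 ↔ w = v) := by
    refine fun g w hw => ⟨fun e => ?_, fun e => by rw [e]⟩
    obtain ⟨y, hy⟩ := exists_form_ne_zero hv
    have h1 : ∀ x, Cfsg.sympForm m F x w • w = Cfsg.sympForm m F x v • v := fun x => by
      have := tv_mulVec v (1 : F) x
      rw [← e, tv_mulVec, one_mul, one_mul] at this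
      exact add_left_cancel this
    obtain ⟨a, rfl⟩ : ∃ a : F, a • v = w := by
      obtain ⟨x, hx⟩ := exists_form_ne_zero hw
      have hx' : Cfsg.sympForm m F x w ≠ 0 := by rw [form_skew w x]; exact neg_ne_zero.2 hx
      exact ⟨(Cfsg.sympForm m F x w)⁻¹ * Cfsg.sympForm m F x v, by rw [← smul_smul, ← h1, smul_smul, inv_mul_cancel₀ hx', one_smul]⟩
    have h2 := h1 y
    rw [form_smul_right, smul_smul] at h2
    have h3 := smul_left_injective F hv h2
    have hy' : Cfsg.sympForm m F y v ≠ 0 := by rw [form_skew v y]; exact neg_ne_zero.2 hy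
    have ha : a * a = 1 := mul_right_cancel₀ hy' (by linear_combination h3)
    rcases mul_self_eq_one_iff.1 ha with rfl | rfl
    · rw [one_smul]
    · rw [CharTwo.neg_eq, one_smul]
  have hC : Nat.card ↥(Subgroup.centralizer ({tv v (1 : F)} : Set ↥(Matrix.symplecticGroup (Fin m) F))) =
      Nat.card {g : Matrix.symplecticGroup (Fin m) F // g.1 *ᵥ v = v} := by
    refine Nat.card_congr (Equiv.subtypeEquivRight fun g => ?_)
    rw [Subgroup.mem_centralizer_singleton_iff, ← hstab g _ (mulVec_ne_zero g hv), ← tv_conj g v 1, mul_inv_eq_iff_eq_mul]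
  have horb : Nat.card (Matrix.symplecticGroup (Fin m) F) =
      Nat.card {w : Fin m ⊕ Fin m → F // w ≠ 0} * Nat.card {g : Matrix.symplecticGroup (Fin m) F // g.1 *ᵥ v = v} := by
    choose sec hsec using fun w : {w : Fin m ⊕ Fin m → F // w ≠ 0} => exists_mulVec_eq (F := F) hv w.2
    rw [← Nat.card_prod]
    refine Nat.card_congr
      { toFun := fun g => (⟨g.1 *ᵥ v, mulVec_ne_zero g hv⟩, ⟨(sec ⟨g.1 *ᵥ v, mulVec_ne_zero g hv⟩)⁻¹ * g, ?_⟩)
        invFun := fun p => sec p.1 * p.2.1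
        left_inv := fun g => by simp
        right_inv := fun p => ?_ }
    · rw [coe_mul', ← mulVec_mulVec]
      exact (congrArg (fun w => _ *ᵥ w) (hsec ⟨g.1 *ᵥ v, mulVec_ne_zero g hv⟩).symm).trans (inv_mulVec _ v)
    · have e : (⟨(sec p.1 * p.2.1).1 *ᵥ v, mulVec_ne_zero (sec p.1 * p.2.1) hv⟩ : {w : Fin m ⊕ Fin m → F // w ≠ 0}) = p.1 :=
        Subtype.ext (by show (sec p.1 * p.2.1).1 *ᵥ v = p.1.1; rw [coe_mul', ← mulVec_mulVec, p.2.2]; exact hsec p.1)
      refine Prod.ext e (Subtype.ext ?_)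
      simp only [e, inv_mul_cancel_left]
  obtain ⟨n, rfl⟩ : ∃ n, m = n + 1 := ⟨m - 1, by omega⟩
  have hne : Nat.card {w : Fin (n + 1) ⊕ Fin (n + 1) → F // w ≠ 0} = Fintype.card F ^ (2 * (n + 1)) - 1 := by
    rw [Nat.card_eq_fintype_card, Fintype.card_subtype_compl, Fintype.card_subtype_eq, Fintype.card_fun,
      Fintype.card_sum, Fintype.card_fin, two_mul]
  rw [card_step, card_Sp, hne] at horb
  rw [hC, Fin.prod_univ_eq_prod_range (fun i => Fintype.card F ^ (2 * (i + 1)) - 1) (n + 1 - 1)]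
  refine Nat.eq_of_mul_eq_mul_left ?_ (horb.symm.trans ?_)
  · have : 1 < Fintype.card F ^ (2 * (n + 1)) := one_lt_pow₀ Fintype.one_lt_card (by omega)
    omega
  · rw [show n + 1 - 1 = n by omega, show 2 * (n + 1) - 1 = 2 * n + 1 by omega]; ring

end Cfsg.Agent.S2594
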