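import Cfsg.Statements.S2595
import Cfsg.Agent.InvTwo.StdFam
import Cfsg.Agent.InvTwo.Classes

set_option autoImplicit false
open Cfsg

namespace Cfsg.Agent.S2595

/-- Number of conjugacy classes of involutions in the full orthogonal group O⁺_2m(F) of the hyperbolic quadratic form Σ x_i y_i over a finite field of characteristic two (m ≥ 1): one class for each odd s ≤ m and two for each even s with 2 ≤ s ≤ m, where s = rank(t − 1); in all m + ⌊m/2⌋. -/
theorem result {F : Type*} [Field F] [Fintype F] [CharP F 2] {m : ℕ} (hm : 1 ≤ m) : Nat.card {C : ConjClasses ↥(Cfsg.isometryGroup F (Cfsg.quadFormPlus m F)) // ∃ g : ↥(Cfsg.isometryGroup F (Cfsg.quadFormPlus m F)), ConjClasses.mk g = C ∧ orderOf g = 2} = m + m / 2 := by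
  have key : ∀ φ : (Fin m ⊕ Fin m → F) → F, φ = ⇑(CfsgLib.Forms.quadPlus F m) →
      Nat.card {C : ConjClasses ↥(Cfsg.isometryGroup F φ) // ∃ g : ↥(Cfsg.isometryGroup F φ), ConjClasses.mk g = C ∧ orderOf g = 2} = m + m / 2 := by
    rintro φ rfl
    have h2 : (2 : F) = 0 := CharTwo.two_eq_zero
    exact CfsgLib.InvTwo.card_classes_O h2 (CfsgLib.Forms.nondegenerate_quadPlus m) (by simp; omega) (fun t _ h => by omega)
      (fun s h1 hs => CfsgLib.InvTwo.exists_nonalt_plus h2 h1 hs) (fun r hr => CfsgLib.InvTwo.exists_alt_plus h2 (by omega))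
  exact key _ (CfsgLib.Forms.coe_quadPlus (F := F) m).symm

end Cfsg.Agent.S2595
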