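import Cfsg.Statements.S2596
import Cfsg.Agent.InvTwo.StdFam
import Cfsg.Agent.InvTwo.Classes

set_option autoImplicit false
open Cfsg

namespace Cfsg.Agent.S2596

/-- Number of conjugacy classes of involutions in the full orthogonal group O⁻_2m(F) of an elliptic quadratic form (Σ_(i<m−1) x_i y_i plus an anisotropic binary form) over a finite field of characteristic two (m ≥ 1): one class for each odd s ≤ m, two for each even s with 2 ≤ s < m and one for s = m when m is even, where s = rank(t − 1); in all m + ⌊(m − 1)/2⌋. -/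
theorem result {F : Type*} [Field F] [Fintype F] [CharP F 2] {m : ℕ} (hm : 1 ≤ m) (a b : F) (hab : ∀ z₁ z₂ : F, z₁ ^ 2 + a * z₁ * z₂ + b * z₂ ^ 2 = 0 → z₁ = 0 ∧ z₂ = 0) : Nat.card {C : ConjClasses ↥(Cfsg.isometryGroup F (Cfsg.quadFormMinus (m - 1) F a b)) // ∃ g : ↥(Cfsg.isometryGroup F (Cfsg.quadFormMinus (m - 1) F a b)), ConjClasses.mk g = C ∧ orderOf g = 2} = m + (m - 1) / 2 := by
  have key : ∀ φ : ((Fin (m - 1) ⊕ Fin (m - 1)) ⊕ Fin 2 → F) → F, φ = ⇑(CfsgLib.Forms.quadMinus F (m - 1) a b) →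
      Nat.card {C : ConjClasses ↥(Cfsg.isometryGroup F φ) // ∃ g : ↥(Cfsg.isometryGroup F φ), ConjClasses.mk g = C ∧ orderOf g = 2} = m + (m - 1) / 2 := by
    rintro φ rfl
    have h2 : (2 : F) = 0 := CharTwo.two_eq_zero
    exact CfsgLib.InvTwo.card_classes_O h2 (CfsgLib.Forms.nondegenerate_quadMinus (m - 1) hab) (by simp; omega)
      (fun t ha _ => by have := CfsgLib.InvTwo.not_alt_full_minus h2 hab t ha; omega)
      (fun s h1 hs => CfsgLib.InvTwo.exists_nonalt_minus h2 hab h1 (by omega))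
      (fun r hr => CfsgLib.InvTwo.exists_alt_minus h2 hab (by omega))
  exact key _ (CfsgLib.Forms.coe_quadMinus (F := F) (m - 1) a b).symm

end Cfsg.Agent.S2596
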