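import Cfsg.Statements.S2597
import Cfsg.Agent.InvTwo.StdFam
import Cfsg.Agent.InvTwo.Classes

set_option autoImplicit false
open Cfsg

namespace Cfsg.Agent.S2597

/-- Number of conjugacy classes of involutions in Ω⁺_2m(F) (the commutator subgroup of the orthogonal group of Σ x_i y_i) over a finite field F of characteristic two, m ≥ 1, excluding the case m = 2 over the field of two elements: the involutions of Ω are those with s = rank(t − 1) even, giving two O-classes for each even s with 2 ≤ s ≤ m, each of which is a single Ω-class except that for m even the class with s = m and v ↦ f(v, tv) identically zero splits in two; in all 2⌊m/2⌋ + 1 classes if m is even and 2⌊m/2⌋ if m is odd. -/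
theorem result {F : Type*} [Field F] [Fintype F] [CharP F 2] {m : ℕ} (hm : 1 ≤ m) (h : Fintype.card F ≠ 2 ∨ m ≠ 2) : Nat.card {C : ConjClasses ↥(Cfsg.Omega F (Cfsg.quadFormPlus m F)) // ∃ g : ↥(Cfsg.Omega F (Cfsg.quadFormPlus m F)), ConjClasses.mk g = C ∧ orderOf g = 2} = 2 * (m / 2) + (if Even m then 1 else 0) := by
  have key : ∀ φ : (Fin m ⊕ Fin m → F) → F, φ = ⇑(CfsgLib.Forms.quadPlus F m) →
      Nat.card {C : ConjClasses ↥(Cfsg.Omega F φ) // ∃ g : ↥(Cfsg.Omega F φ), ConjClasses.mk g = C ∧ orderOf g = 2} = 2 * (m / 2) + (if Even m then 1 else 0) := by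
    rintro φ rfl
    have h2 : (2 : F) = 0 := CharTwo.two_eq_zero
    have hQ := CfsgLib.Forms.nondegenerate_quadPlus (F := F) m
    have hgen := CfsgLib.InvTwo.gen_of_hd hQ (by rcases h with h | h; exacts [.inl (by rwa [Nat.card_eq_fintype_card]), .inr (by simp; omega)])
    by_cases he : Even m
    · rw [if_pos he, two_mul]
      exact CfsgLib.InvTwo.card_classes_Omega_split h2 hQ hgen (by simp; omega) hm he
        (fun s h1 hs => CfsgLib.InvTwo.exists_nonalt_plus h2 h1 hs) (fun r hr => CfsgLib.InvTwo.exists_alt_plus h2 (by omega))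
    · rw [if_neg he, add_zero, two_mul]
      refine CfsgLib.InvTwo.card_classes_Omega h2 hQ hgen (by simp; omega) (fun t _ h => by omega)
        (fun s h1 hs => CfsgLib.InvTwo.exists_nonalt_plus h2 h1 hs) (fun r hr => CfsgLib.InvTwo.exists_alt_plus h2 (by omega))
        fun t ht htO => ?_
      rcases CfsgLib.InvTwo.fixed_or_singular h2 hQ (t := t) with h0 | h0
      · exact h0
      · have h1 := (CfsgLib.InvTwo.of_singular h2 hQ t ht h0).1
        have h3 := (CfsgLib.InvTwo.mem_Omega_iff_rank h2 hQ hgen t).1 htO
        rw [CfsgLib.InvTwo.rank_eq] at h3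
        simp at h1
        exact absurd (by rwa [show Module.finrank F _ = m by omega] at h3) he
  exact key _ (CfsgLib.Forms.coe_quadPlus (F := F) m).symm

end Cfsg.Agent.S2597
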