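import Cfsg.Statements.S2598
import Cfsg.Agent.InvTwo.StdFam
import Cfsg.Agent.InvTwo.Classes

set_option autoImplicit false
open Cfsg

namespace Cfsg.Agent.S2598

/-- Number of conjugacy classes of involutions in Ω⁻_2m(F) (the commutator subgroup of the orthogonal group of an elliptic quadratic form, Σ_(i<m−1) x_i y_i plus an anisotropic binary form) over a finite field F of characteristic two, m ≥ 1: the involutions of Ω are those with s = rank(t − 1) even, one O-class for each even s with 2 ≤ s ≤ m on which v ↦ f(v, tv) is not identically zero and one for each even s with 2 ≤ s < m on which it is zero (f the polar form; in characteristic 2, f(v, tv) = Q(v + tv)), none of which splits in Ω; in all ⌊m/2⌋ + ⌊(m − 1)/2⌋. -/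
theorem result {F : Type*} [Field F] [Fintype F] [CharP F 2] {m : ℕ} (hm : 1 ≤ m) (a b : F) (hab : ∀ z₁ z₂ : F, z₁ ^ 2 + a * z₁ * z₂ + b * z₂ ^ 2 = 0 → z₁ = 0 ∧ z₂ = 0) : Nat.card {C : ConjClasses ↥(Cfsg.Omega F (Cfsg.quadFormMinus (m - 1) F a b)) // ∃ g : ↥(Cfsg.Omega F (Cfsg.quadFormMinus (m - 1) F a b)), ConjClasses.mk g = C ∧ orderOf g = 2} = m / 2 + (m - 1) / 2 := by
  have key : ∀ φ : ((Fin (m - 1) ⊕ Fin (m - 1)) ⊕ Fin 2 → F) → F, φ = ⇑(CfsgLib.Forms.quadMinus F (m - 1) a b) →
      Nat.card {C : ConjClasses ↥(Cfsg.Omega F φ) // ∃ g : ↥(Cfsg.Omega F φ), ConjClasses.mk g = C ∧ orderOf g = 2} = m / 2 + (m - 1) / 2 := by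
    rintro φ rfl
    have h2 : (2 : F) = 0 := CharTwo.two_eq_zero
    have hQ := CfsgLib.Forms.nondegenerate_quadMinus (m - 1) hab
    have hgen : CfsgLib.Forms.reflGroup (CfsgLib.Forms.quadMinus F (m - 1) a b) = CfsgLib.Forms.isom (CfsgLib.Forms.quadMinus F (m - 1) a b) := by
      by_cases hm2 : m = 2
      · refine CfsgLib.InvTwo.gen_of_no_plane hQ fun U hU => ?_
        by_contra hh
        push Not at hh
        have := CfsgLib.Forms.finrank_le_of_singular_minus hab (U := U) fun u hu => by simpa using hh u hu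
        omega
      · exact CfsgLib.InvTwo.gen_of_hd hQ (.inr (by simp; omega))
    refine CfsgLib.InvTwo.card_classes_Omega h2 hQ hgen (by simp; omega)
      (fun t ha _ => by have := CfsgLib.InvTwo.not_alt_full_minus h2 hab t ha; omega)
      (fun s h1 hs => CfsgLib.InvTwo.exists_nonalt_minus h2 hab h1 (by omega))
      (fun r hr => CfsgLib.InvTwo.exists_alt_minus h2 hab (by omega)) fun t ht _ => ?_
    rcases CfsgLib.InvTwo.fixed_or_singular h2 hQ (t := t) with h0 | h0
    · exact h0
    · have h1 := CfsgLib.InvTwo.finrank_ker_ge h2 hQ t ht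
      have h3 := CfsgLib.Forms.finrank_le_of_singular_minus hab (U := LinearMap.ker (CfsgLib.InvTwo.nil t)) fun v hv => by
        simpa using h0 v hv
      simp at h1
      omega
  exact key _ (CfsgLib.Forms.coe_quadMinus (F := F) (m - 1) a b).symm

end Cfsg.Agent.S2598
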