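import Cfsg.Statements.S2599
import Cfsg.Agent.Forms.Matrix

set_option autoImplicit false
open Cfsg

namespace Cfsg.Agent.S2599

theorem charP_of_two_eq_zero {R : Type*} [Field R] (h : (2 : R) = 0) : CharP R 2 :=
  CharTwo.of_one_ne_zero_of_two_eq_zero one_ne_zero h

theorem CharP.neg_eq_self_of_two_eq_zero {R : Type*} [Field R] (h : (2 : R) = 0) (a : R) : -a = a := by
  linear_combination (-a) * h

/-- An irreducible invariant subspace of a semisimple isometry is non-degenerate or totally singular: let Q be a quadratic form on F^n (F finite of characteristic p) with non-degenerate polar form f, x an isometry of Q of order prime to p, and U a non-zero x-invariant subspace containing no x-invariant subspace other than 0 and U. Then U meets its f-orthogonal trivially, or Q vanishes on U, or p = 2, U is a line spanned by a non-singular vector and x fixes U pointwise. -/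
theorem result {F : Type*} [Field F] [Fintype F] {p : ℕ} [Fact p.Prime] [CharP F p] {n : ℕ} (Q : QuadraticForm F (Fin n → F)) (hQ : (QuadraticMap.polarBilin Q).Nondegenerate) (x : ↥(Cfsg.isometryGroup F ⇑Q)) (hx : (orderOf x).Coprime p) (U : Submodule F (Fin n → F)) (hU0 : U ≠ ⊥) (hUx : ∀ u ∈ U, ((x : Matrix.GeneralLinearGroup (Fin n) F) : Matrix (Fin n) (Fin n) F).mulVec u ∈ U) (hirr : ∀ W : Submodule F (Fin n → F), W ≤ U → (∀ w ∈ W, ((x : Matrix.GeneralLinearGroup (Fin n) F) : Matrix (Fin n) (Fin n) F).mulVec w ∈ W) → W = ⊥ ∨ W = U) : U ⊓ LinearMap.BilinForm.orthogonal (QuadraticMap.polarBilin Q) U = ⊥ ∨ (∀ u ∈ U, Q u = 0) ∨ (p = 2 ∧ Module.finrank F U = 1 ∧ (∃ u ∈ U, Q u ≠ 0) ∧ ∀ u ∈ U, ((x : Matrix.GeneralLinearGroup (Fin n) F) : Matrix (Fin n) (Fin n) F).mulVec u = u) := by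
  set M : Matrix (Fin n) (Fin n) F := ((x : Matrix.GeneralLinearGroup (Fin n) F) : Matrix (Fin n) (Fin n) F)
  have hxQ : ∀ v, Q (M.mulVec v) = Q v := CfsgLib.Forms.mem_isometryGroup.1 x.2
  have hxp : ∀ u v, QuadraticMap.polar Q (M.mulVec u) (M.mulVec v) = QuadraticMap.polar Q u v := fun u v => by
    simp only [QuadraticMap.polar, ← Matrix.mulVec_add, hxQ]
  have hinj : Function.Injective M.mulVec :=
    Matrix.mulVec_injective_iff_isUnit.2 (x : Matrix.GeneralLinearGroup (Fin n) F).isUnit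
  have hsurj : ∀ u ∈ U, ∃ u' ∈ U, M.mulVec u' = u := by
    intro u hu
    have hmap : U.map (Matrix.mulVecLin M) = U := by
      refine Submodule.eq_of_le_of_finrank_le ?_ ?_
      · rintro _ ⟨v, hv, rfl⟩; exact hUx v hv
      · rw [(Submodule.equivMapOfInjective (Matrix.mulVecLin M) hinj U).finrank_eq]
    rw [← hmap] at hu
    obtain ⟨v, hv, rfl⟩ := hu
    exact ⟨v, hv, rfl⟩
  rcases hirr (U ⊓ LinearMap.BilinForm.orthogonal (QuadraticMap.polarBilin Q) U) inf_le_left
    (fun w hw => ⟨hUx w hw.1, LinearMap.BilinForm.mem_orthogonal_iff.2 fun u hu => by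
      obtain ⟨u', hu', rfl⟩ := hsurj u hu
      show QuadraticMap.polar Q (M.mulVec u') (M.mulVec w) = 0
      rw [hxp]; exact LinearMap.BilinForm.mem_orthogonal_iff.1 hw.2 u' hu'⟩) with h | h
  · exact Or.inl h
  have hiso : ∀ u ∈ U, ∀ v ∈ U, QuadraticMap.polar Q u v = 0 := fun u hu v hv =>
    LinearMap.BilinForm.mem_orthogonal_iff.1 (inf_eq_left.1 h hv) u hu
  by_cases h0 : ∀ u ∈ U, Q u = 0
  · exact Or.inr (Or.inl h0)
  have h2 : (2 : F) = 0 := by
    by_contra h2
    refine h0 fun u hu => ?_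
    have := hiso u hu u hu
    rw [QuadraticMap.polar_self, nsmul_eq_mul, Nat.cast_ofNat] at this
    exact (mul_eq_zero.1 this).resolve_left h2
  have hp : p = 2 := by
    haveI := charP_of_two_eq_zero h2
    exact CharP.eq F ‹CharP F p› ‹CharP F 2›
  have hadd : ∀ u ∈ U, ∀ v ∈ U, Q (u + v) = Q u + Q v := fun u hu v hv => by
    rw [QuadraticMap.map_add (⇑Q) u v, hiso u hu v hv, add_zero]
  let K : Submodule F (Fin n → F) :=
    { carrier := {u | u ∈ U ∧ Q u = 0}
      add_mem' := fun {a b} ha hb => ⟨add_mem ha.1 hb.1, by rw [hadd a ha.1 b hb.1, ha.2, hb.2, add_zero]⟩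
      zero_mem' := ⟨U.zero_mem, QuadraticMap.map_zero Q⟩
      smul_mem' := fun c a ha => ⟨U.smul_mem c ha.1, by rw [QuadraticMap.map_smul, ha.2, smul_zero]⟩ }
  rcases hirr K (fun u hu => hu.1) (fun w hw => ⟨hUx w hw.1, by rw [hxQ]; exact hw.2⟩) with hK | hK
  swap
  · exact absurd (fun u hu => ((hK ▸ hu : u ∈ K)).2) h0
  have hQinj : ∀ u ∈ U, ∀ v ∈ U, Q u = Q v → u = v := fun u hu v hv he => by
    have : u + v ∈ K := ⟨add_mem hu hv, by rw [hadd u hu v hv, he, ← two_mul, h2, zero_mul]⟩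
    rw [hK, Submodule.mem_bot] at this
    rw [eq_neg_of_add_eq_zero_left this]
    funext i
    simp [CharP.neg_eq_self_of_two_eq_zero h2]
  push Not at h0
  obtain ⟨u₀, hu₀, hu₀0⟩ := h0
  refine Or.inr (Or.inr ⟨hp, ?_, ⟨u₀, hu₀, hu₀0⟩, fun u hu => hQinj _ (hUx u hu) u hu (hxQ u)⟩)
  have hne : (⟨u₀, hu₀⟩ : U) ≠ 0 := fun hc => hu₀0 (by
    rw [show u₀ = 0 from congrArg Subtype.val hc, QuadraticMap.map_zero])
  refine finrank_eq_one_iff'.2 ⟨⟨u₀, hu₀⟩, hne, fun w => ?_⟩
  obtain ⟨a, ha⟩ := CfsgLib.Forms.exists_sq h2 (Q w / Q u₀)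
  refine ⟨a, Subtype.ext (hQinj _ (U.smul_mem a hu₀) _ w.2 ?_)⟩
  show Q (a • u₀) = _
  rw [QuadraticMap.map_smul, smul_eq_mul]
  field_simp at ha
  linear_combination ha

end Cfsg.Agent.S2599
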