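import Cfsg.Statements.S2601
import Cfsg.Agent.AutPSL.Diag

set_option autoImplicit false
open Cfsg

namespace Cfsg.Agent.S2601

/-- Structure of the outer automorphism group of PSL_n(q), n ≥ 3, q = p^f: it has a normal cyclic subgroup of order gcd(n, q − 1) (the diagonal automorphisms) whose quotient is the direct product of a cyclic group of order f (field automorphisms) and a group of order 2 (the inverse-transpose graph automorphism). -/
theorem result {F : Type*} [Field F] [Fintype F] {p f n : ℕ} [Fact p.Prime] (hf : 1 ≤ f) (hF : Fintype.card F = p ^ f) (hn : 3 ≤ n) : ∃ φ : Cfsg.Out (Matrix.ProjectiveSpecialLinearGroup (Fin n) F) →* Multiplicative (ZMod f × ZMod 2), Function.Surjective φ ∧ IsCyclic φ.ker ∧ Nat.card φ.ker = Nat.gcd n (p ^ f - 1) := by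
  haveI : NeZero n := ⟨by omega⟩
  haveI : CharP F p := charP_of_card_eq_prime_pow hF
  obtain ⟨χ, hsurj, hker, -⟩ := CfsgLib.AutPSL.exists_partHom (F := F) (n := n) hn
  -- the Galois group is cyclic of order f
  letI := ZMod.algebra F p
  have hfr : Module.finrank (ZMod p) F = f := by
    have h := Module.card_eq_pow_finrank (K := ZMod p) (V := F)
    rw [hF, ZMod.card] at h
    exact (Nat.pow_right_injective (Fact.out : p.Prime).two_le h).symm
  let eR : (F ≃ₐ[ZMod p] F) ≃* RingAut F :=
    { toFun := fun a => a.toRingEquiv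
      invFun := fun σ => AlgEquiv.ofRingEquiv (f := σ) (fun x => by
        exact RingHom.congr_fun (RingHom.ext_zmod ((σ : F →+* F).comp (algebraMap (ZMod p) F)) (algebraMap (ZMod p) F)) x)
      left_inv := fun a => AlgEquiv.ext fun x => rfl
      right_inv := fun σ => RingEquiv.ext fun x => rfl
      map_mul' := fun a b => rfl }
  haveI : IsCyclic (RingAut F) := isCyclic_of_surjective eR.toMonoidHom eR.surjective
  have hcardR : Nat.card (RingAut F) = f := by
    rw [← Nat.card_congr eR.toEquiv, IsGalois.card_aut_eq_finrank, hfr]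
  subst hcardR
  let e : RingAut F × Multiplicative (ZMod 2) ≃* Multiplicative (ZMod (Nat.card (RingAut F)) × ZMod 2) :=
    (MulEquiv.prodCongr (zmodCyclicMulEquiv ‹IsCyclic (RingAut F)›).symm (MulEquiv.refl _)).trans
      (MulEquiv.prodMultiplicative _ _).symm
  have hinn : Cfsg.Inn (Matrix.ProjectiveSpecialLinearGroup (Fin n) F) ≤ χ.ker := by
    rintro _ ⟨x, rfl⟩
    obtain ⟨h, rfl⟩ := CfsgLib.AutPSL.proj_surjective x
    rw [hker]
    exact ⟨_, CfsgLib.AutPSL.conjPSL_toGL h⟩
  let φ := QuotientGroup.lift (Cfsg.Inn (Matrix.ProjectiveSpecialLinearGroup (Fin n) F)) (e.toMonoidHom.comp χ)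
    (fun α hα => by
      change e (χ α) = 1
      rw [MonoidHom.mem_ker.mp (hinn hα), map_one])
  refine ⟨φ, QuotientGroup.lift_surjective_of_surjective _ _ (e.surjective.comp hsurj) _, ?_⟩
  have hkerφ : φ.ker = χ.ker.map (QuotientGroup.mk' (Cfsg.Inn (Matrix.ProjectiveSpecialLinearGroup (Fin n) F))) := by
    ext x
    obtain ⟨α, rfl⟩ := QuotientGroup.mk_surjective x
    constructor
    · intro h
      refine ⟨α, ?_, rfl⟩
      have h' : e (χ α) = 1 := h
      exact MonoidHom.mem_ker.mpr (e.injective (h'.trans (map_one e).symm))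
    · rintro ⟨β, hβ, hβα⟩
      rw [← hβα]
      change e (χ β) = 1
      rw [MonoidHom.mem_ker.mp hβ, map_one]
  rw [hkerφ, hker, ← hF]
  exact CfsgLib.AutPSL.card_diag_image hn _ rfl

end Cfsg.Agent.S2601
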