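import Cfsg.Statements.S2602
import Cfsg.Agent.SL2.Automorphisms
-- import your own Cfsg.Agent.* helpers here

set_option autoImplicit false
open Cfsg

namespace Cfsg.Agent.S2602

/-- Structure of the outer automorphism group of PSL_2(q), q = p^f ≥ 4: it has a normal cyclic subgroup of order gcd(2, q − 1) (diagonal automorphisms) with cyclic quotient of order f (field automorphisms); there is no graph automorphism in dimension 2. -/
theorem result {F : Type*} [Field F] [Fintype F] {p f : ℕ} [Fact p.Prime] (hf : 1 ≤ f) (hF : Fintype.card F = p ^ f) (h4 : 4 ≤ p ^ f) : ∃ φ : Cfsg.Out (Matrix.ProjectiveSpecialLinearGroup (Fin 2) F) →* Multiplicative (ZMod f), Function.Surjective φ ∧ IsCyclic φ.ker ∧ Nat.card φ.ker = Nat.gcd 2 (p ^ f - 1) := by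
  classical
  haveI : CharP F p := charP_of_card_eq_prime_pow hF
  choose gf σf hdec using CfsgLib.SL2.exists_decomposition (F := F)
  let χ : MulAut (Matrix.ProjectiveSpecialLinearGroup (Fin 2) F) →* RingAut F := MonoidHom.mk' σf (by
    intro α β
    obtain ⟨g', hg'⟩ := CfsgLib.SL2.fieldPSL_conjPSL (σf α) (gf β)
    refine CfsgLib.SL2.decomposition_unique (g := gf (α * β)) (g' := gf α * g') ?_
    rw [← hdec, map_mul, map_mul]
    conv_lhs => rw [hdec α, hdec β]
    rw [mul_assoc, ← mul_assoc (CfsgLib.SL2.fieldPSL (σf α)), hg', mul_assoc, mul_assoc])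
  have hχ : ∀ (g : GL (Fin 2) F) (σ : RingAut F), χ (CfsgLib.SL2.conjPSL g * CfsgLib.SL2.fieldPSL σ) = σ :=
    fun g σ => (CfsgLib.SL2.decomposition_unique (hdec (CfsgLib.SL2.conjPSL g * CfsgLib.SL2.fieldPSL σ))).symm
  have hsurj : Function.Surjective χ := fun σ => ⟨_, hχ 1 σ⟩
  have hker : χ.ker = (CfsgLib.SL2.conjPSL (F := F)).range := by
    ext α
    constructor
    · intro hα
      refine ⟨gf α, ?_⟩
      have h1 : σf α = 1 := hα
      conv_rhs => rw [hdec α, h1, map_one, mul_one]
    · rintro ⟨g, rfl⟩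
      have := hχ g 1
      rwa [map_one, mul_one] at this
  have hinn : Cfsg.Inn (Matrix.ProjectiveSpecialLinearGroup (Fin 2) F) ≤ χ.ker := by
    rintro _ ⟨x, rfl⟩
    obtain ⟨h, rfl⟩ := CfsgLib.SL2.proj_surjective x
    rw [hker]
    exact ⟨_, CfsgLib.SL2.conjPSL_toGL h⟩
  -- the Galois group is cyclic of order f
  letI := ZMod.algebra F p
  have hfr : Module.finrank (ZMod p) F = f := by
    have h := Module.card_eq_pow_finrank (K := ZMod p) (V := F)
    rw [hF, ZMod.card] at h
    exact (Nat.pow_right_injective (Fact.out : p.Prime).two_le h).symm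
  let eR : (F ≃ₐ[ZMod p] F) ≃* RingAut F :=
    { toFun := fun a => a.toRingEquiv
      invFun := fun σ => AlgEquiv.ofRingEquiv (f := σ) (fun x => by
        exact RingHom.congr_fun (RingHom.ext_zmod ((σ : F →+* F).comp (algebraMap (ZMod p) F)) (algebraMap (ZMod p) F)) x)
      left_inv := fun a => AlgEquiv.ext fun x => rfl
      right_inv := fun σ => RingEquiv.ext fun x => rfl
      map_mul' := fun a b => rfl }
  haveI : IsCyclic (RingAut F) := isCyclic_of_surjective eR.toMonoidHom eR.surjective
  have hcardR : Nat.card (RingAut F) = f := by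
    rw [← Nat.card_congr eR.toEquiv, IsGalois.card_aut_eq_finrank, hfr]
  subst hcardR
  let e : RingAut F ≃* Multiplicative (ZMod (Nat.card (RingAut F))) := (zmodCyclicMulEquiv ‹IsCyclic (RingAut F)›).symm
  let φ := QuotientGroup.lift (Cfsg.Inn (Matrix.ProjectiveSpecialLinearGroup (Fin 2) F)) (e.toMonoidHom.comp χ)
    (fun α hα => by
      change e (χ α) = 1
      rw [MonoidHom.mem_ker.mp (hinn hα), map_one])
  refine ⟨φ, QuotientGroup.lift_surjective_of_surjective _ _ (e.surjective.comp hsurj) _, ?_⟩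
  -- the kernel
  have hkerφ : φ.ker = χ.ker.map (QuotientGroup.mk' (Cfsg.Inn (Matrix.ProjectiveSpecialLinearGroup (Fin 2) F))) := by
    ext x
    obtain ⟨α, rfl⟩ := QuotientGroup.mk_surjective x
    constructor
    · intro h
      refine ⟨α, ?_, rfl⟩
      have h' : e (χ α) = 1 := h
      exact MonoidHom.mem_ker.mpr (e.injective (h'.trans (map_one e).symm))
    · rintro ⟨β, hβ, hβα⟩
      rw [← hβα]
      change e (χ β) = 1
      rw [MonoidHom.mem_ker.mp hβ, map_one]
  -- cardinalities
  set I := Cfsg.Inn (Matrix.ProjectiveSpecialLinearGroup (Fin 2) F) with hI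
  have hidx : Nat.card φ.ker * Nat.card I = Nat.card χ.ker := by
    rw [hkerφ]
    let r := (QuotientGroup.mk' I).comp χ.ker.subtype
    have hr : r.range = χ.ker.map (QuotientGroup.mk' I) := by
      rw [MonoidHom.range_comp, Subgroup.range_subtype]
    have hrk : r.ker = I.subgroupOf χ.ker := by
      ext x
      simp [r, Subgroup.mem_subgroupOf, QuotientGroup.eq_one_iff]
    rw [← hr, ← Nat.card_congr (QuotientGroup.quotientKerEquivRange r).toEquiv, hrk,
      ← Nat.card_congr (Subgroup.subgroupOfEquivOfLe hinn).toEquiv,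
      ← Subgroup.card_eq_card_quotient_mul_card_subgroup]
  have hM : Nat.card χ.ker * (Fintype.card F - 1) = Nat.card (GL (Fin 2) F) := by
    rw [hker, ← Nat.card_congr (QuotientGroup.quotientKerEquivRange (CfsgLib.SL2.conjPSL (F := F))).toEquiv]
    have hk : Nat.card (CfsgLib.SL2.conjPSL (F := F)).ker = Fintype.card F - 1 := by
      let sc : Fˣ →* GL (Fin 2) F := Units.map (algebraMap F (Matrix (Fin 2) (Fin 2) F)).toMonoidHom
      have hsc : Function.Injective sc := Units.map_injective (algebraMap F (Matrix (Fin 2) (Fin 2) F)).injective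
      have heq : (CfsgLib.SL2.conjPSL (F := F)).ker = sc.range := by
        ext g
        constructor
        · intro hg
          obtain ⟨⟨a, ha⟩, -⟩ := CfsgLib.SL2.eq_one_of_conjPSL_eq_fieldPSL (g := g) (σ := 1)
            ((MonoidHom.mem_ker.mp hg).trans (map_one _).symm)
          have ha0 : a ≠ 0 := by
            rintro rfl
            rw [zero_smul] at ha
            have := Units.mul_inv g
            rw [ha, Matrix.zero_mul] at this
            exact zero_ne_one this
          exact ⟨Units.mk0 a ha0, Units.ext (by rw [ha]; exact Algebra.algebraMap_eq_smul_one a)⟩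
        · rintro ⟨a, rfl⟩
          rw [MonoidHom.mem_ker]
          have : CfsgLib.SL2.conjSL (sc a) = 1 := by
            refine MulEquiv.ext fun x => Subtype.ext ?_
            change (sc a).1 * x.1 * ((sc a)⁻¹ : GL (Fin 2) F).1 = x.1
            have h1 : (sc a).1 * x.1 = x.1 * (sc a).1 := Algebra.commutes (a : F) x.1
            rw [h1, Matrix.mul_assoc, ← Units.val_mul, mul_inv_cancel, Units.val_one, Matrix.mul_one]
          rw [CfsgLib.SL2.conjPSL, MonoidHom.comp_apply, this, map_one]
      rw [heq, ← Nat.card_congr (MonoidHom.ofInjective hsc).toEquiv, Nat.card_units, Nat.card_eq_fintype_card]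
    rw [← hk, ← Subgroup.card_eq_card_quotient_mul_card_subgroup]
  have hGL : Nat.card (GL (Fin 2) F) = Nat.card (Matrix.SpecialLinearGroup (Fin 2) F) * (Fintype.card F - 1) := by
    rw [CfsgLib.SL2.card_SL2]
    rw [Matrix.card_GL_field]
    simp [Fin.prod_univ_two]
    have h1 : 1 ≤ Fintype.card F := Fintype.card_pos
    obtain ⟨k, hk⟩ : ∃ k, Fintype.card F = k + 1 := ⟨Fintype.card F - 1, by omega⟩
    rw [hk]
    simp only [Nat.add_sub_cancel]
    have e1 : (k + 1) ^ 2 - 1 = k * (k + 2) := by
      rw [add_sq]; ring_nf; omega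
    have e2 : (k + 1) ^ 2 - (k + 1) = k * (k + 1) := by
      rw [add_sq]; ring_nf; omega
    rw [e1, e2]; ring
  have hLtriv : Function.Injective (MulAut.conj : Matrix.ProjectiveSpecialLinearGroup (Fin 2) F →* MulAut (Matrix.ProjectiveSpecialLinearGroup (Fin 2) F)) := by
    rw [injective_iff_map_eq_one]
    intro x hx
    obtain ⟨h, rfl⟩ := CfsgLib.SL2.proj_surjective x
    rw [← CfsgLib.SL2.conjPSL_toGL] at hx
    obtain ⟨⟨a, ha⟩, -⟩ := CfsgLib.SL2.eq_one_of_conjPSL_eq_fieldPSL (σ := 1) (hx.trans (map_one _).symm)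
    refine CfsgLib.SL2.proj_eq_one_iff.mpr (CfsgLib.SL2.eq_one_or_neg_one_of_scalar h ?_ ?_ ?_)
    · have := congrFun (congrFun ha 0) 1; simpa using this
    · have := congrFun (congrFun ha 1) 0; simpa using this
    · have e0 := congrFun (congrFun ha 0) 0
      have e1 := congrFun (congrFun ha 1) 1
      simp at e0 e1
      rw [e0, e1]
  have hcI : Nat.card I = Nat.card (Matrix.ProjectiveSpecialLinearGroup (Fin 2) F) := by
    rw [hI, ← Nat.card_congr (MonoidHom.ofInjective hLtriv).toEquiv]
  have hd := CfsgLib.SL2.card_center_eq_gcd F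
  have hq1 : 0 < Fintype.card F - 1 := by omega
  have hχc : Nat.card χ.ker = Nat.card (Matrix.SpecialLinearGroup (Fin 2) F) :=
    Nat.eq_of_mul_eq_mul_right hq1 (hM.trans hGL)
  have hcard : Nat.card φ.ker = Nat.gcd 2 (Fintype.card F - 1) := by
    have h1 := Subgroup.card_eq_card_quotient_mul_card_subgroup (Subgroup.center (Matrix.SpecialLinearGroup (Fin 2) F))
    rw [hd] at h1
    rw [hcI, hχc, h1] at hidx
    refine Nat.eq_of_mul_eq_mul_right (Nat.card_pos (α := Matrix.ProjectiveSpecialLinearGroup (Fin 2) F)) ?_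
    rw [hidx]
    exact mul_comm _ _
  rw [← hF]
  refine ⟨?_, hcard⟩
  rcases (Nat.dvd_prime Nat.prime_two).mp (Nat.gcd_dvd_left 2 (Fintype.card F - 1)) with h | h
  · haveI : Subsingleton φ.ker := (Nat.card_eq_one_iff_unique.mp (hcard.trans h)).1
    exact isCyclic_of_subsingleton
  · haveI : Fact (Nat.Prime 2) := ⟨Nat.prime_two⟩
    exact isCyclic_of_prime_card (hcard.trans h)

end Cfsg.Agent.S2602
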