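import Cfsg.Statements.S2603
import Cfsg.Agent.AutPSU.Unique
import Cfsg.Agent.AutPSL.GraphField

set_option autoImplicit false
open Cfsg

namespace Cfsg.Agent.S2603

/-- Structure of the outer automorphism group of PSU_n(q), n ≥ 3, (n, q) ≠ (3, 2), q = p^f, realised over the field with q² elements: it has a normal cyclic subgroup of order gcd(n, q + 1) (diagonal automorphisms) with cyclic quotient of order 2f (generated by the Frobenius field automorphism of the field with q² elements, whose f-th power is the graph automorphism). -/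
theorem result {K : Type*} [Field K] [Fintype K] {p f q n : ℕ} [Fact p.Prime] (hf : 1 ≤ f) (hq : q = p ^ f) (hK : Fintype.card K = q ^ 2) (hn : 3 ≤ n) (h32 : ¬ (n = 3 ∧ q = 2)) : ∃ φ : Cfsg.Out (Cfsg.PSU n K q) →* Multiplicative (ZMod (2 * f)), Function.Surjective φ ∧ IsCyclic φ.ker ∧ Nat.card φ.ker = Nat.gcd n (q + 1) := by
  obtain ⟨C⟩ := CfsgLib.UGeom.nonempty_conj hK
  obtain ⟨χ, hsurj, hker, -⟩ := CfsgLib.AutPSU.exists_partHom (n := n) C hn h32
  haveI : IsCyclic (RingAut K) := CfsgLib.AutPSL.isCyclic_ringAut K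
  have hcardR : Nat.card (RingAut K) = 2 * f := CfsgLib.AutPSU.card_ringAut_sq hq hK
  rw [← hcardR]
  let e : RingAut K ≃* Multiplicative (ZMod (Nat.card (RingAut K))) :=
    (zmodCyclicMulEquiv ‹IsCyclic (RingAut K)›).symm
  have hinn : Cfsg.Inn (Cfsg.PSU n K q) ≤ χ.ker := hker ▸ CfsgLib.AutPSU.inn_le_range
  let φ := QuotientGroup.lift (Cfsg.Inn (Cfsg.PSU n K q)) (e.toMonoidHom.comp χ)
    (fun α hα => by
      change e (χ α) = 1
      rw [MonoidHom.mem_ker.mp (hinn hα), map_one])
  refine ⟨φ, QuotientGroup.lift_surjective_of_surjective _ _ (e.surjective.comp hsurj) _, ?_⟩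
  have hkerφ : φ.ker = χ.ker.map (QuotientGroup.mk' (Cfsg.Inn (Cfsg.PSU n K q))) := by
    ext x
    obtain ⟨α, rfl⟩ := QuotientGroup.mk_surjective x
    constructor
    · intro h
      exact ⟨α, MonoidHom.mem_ker.mpr (e.injective ((show e (χ α) = 1 from h).trans (map_one e).symm)), rfl⟩
    · rintro ⟨β, hβ, hβα⟩
      rw [← hβα]
      change e (χ β) = 1
      rw [MonoidHom.mem_ker.mp hβ, map_one]
  rw [hkerφ, hker]
  exact CfsgLib.AutPSU.diag_image C hn h32 _ rfl

end Cfsg.Agent.S2603
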