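import Cfsg.Statements.S2604
import Cfsg.Agent.AutPO.OddStd

set_option autoImplicit false
open Cfsg

namespace Cfsg.Agent.S2604

/-- Outer automorphism group of the simple orthogonal group Ω_(2m+1)(q), m ≥ 3, q = p^f odd: it is the direct product of a group of order 2 (diagonal automorphisms, from SO) and a cyclic group of order f (field automorphisms). -/
theorem result {F : Type*} [Field F] [Fintype F] {p f m : ℕ} [Fact p.Prime] (hf : 1 ≤ f) (hF : Fintype.card F = p ^ f) (hp : p ≠ 2) (hm : 3 ≤ m) : Nonempty (Cfsg.Out (Cfsg.POmega F (Cfsg.quadFormOdd m F)) ≃* Multiplicative (ZMod 2 × ZMod f)) := by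
  haveI : NeZero f := ⟨by omega⟩
  have hq : Odd (Fintype.card F) := by rw [hF]; exact ((Fact.out : p.Prime).odd_of_ne_two hp).pow
  rw [← CfsgLib.Forms.coe_quadOdd]
  exact CfsgLib.AutPO.out_zmod (CfsgLib.AutPO.go_odd hq hm) hF

end Cfsg.Agent.S2604
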