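import Cfsg.Statements.S2605
import Cfsg.Agent.AutPE.Minus

set_option autoImplicit false
open Cfsg CfsgLib.Forms CfsgLib.AutPE

namespace Cfsg.Agent.S2605

/-- Outer automorphism group of PΩ⁻_2m(q), m ≥ 4, q = 2^f: cyclic of order 2f, generated by a semilinear map inducing the Frobenius automorphism of the field (its f-th power is a graph automorphism, an orthogonal transvection). -/
theorem result {F : Type*} [Field F] [Fintype F] {f m : ℕ} (hf : 1 ≤ f) (hF : Fintype.card F = 2 ^ f) (hm : 4 ≤ m) (a b : F) (hab : ∀ z₁ z₂ : F, z₁ ^ 2 + a * z₁ * z₂ + b * z₂ ^ 2 = 0 → z₁ = 0 ∧ z₂ = 0) : IsCyclic (Cfsg.Out (Cfsg.POmega F (Cfsg.quadFormMinus (m - 1) F a b))) ∧ Nat.card (Cfsg.Out (Cfsg.POmega F (Cfsg.quadFormMinus (m - 1) F a b))) = 2 * f := by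
  obtain ⟨n, rfl⟩ : ∃ n, m = n + 1 := ⟨m - 1, by omega⟩
  rw [Nat.add_sub_cancel, ← coe_quadMinus]
  haveI : Fact (Nat.Prime 2) := ⟨Nat.prime_two⟩
  haveI : CharP F 2 := charP_of_card_eq_prime_pow hF
  have h := CfsgLib.AutPO.gh_minus (m := n) (by omega) hab
  have hg := gen_of_frob h hF (α := phiTwo hab) (tau_stdAut h (isSemi_frobTwo hab))
  have hu : quadMinus F n a b (Pi.single (Sum.inr 0) 1) ≠ 0 := by
    simp [Cfsg.quadFormMinus, Pi.single_apply]
  refine hg.cyclic (card_outKer_two h CharTwo.two_eq_zero) ?_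
  rw [phiTwo_pow_card hab hF hu]
  exact isoOut_refl_ne_one h CharTwo.two_eq_zero hu

end Cfsg.Agent.S2605
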