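import Cfsg.Statements.S2607
import Cfsg.Agent.AutPE.OutAbs
import Cfsg.Agent.AutPE.Plus
import Cfsg.Agent.AutPE.Two
import Cfsg.Agent.AutPE.Eight

set_option autoImplicit false
open Cfsg

namespace Cfsg.Agent.S2607

/-- Outer automorphism group of PΩ⁺_2m(q), q = 2^f: for m ≥ 5 it is the direct product of a group of order 2 (graph automorphism, an orthogonal transvection) and a cyclic group of order f (field automorphisms); for m = 4 triality enlarges it to S_3 × C_f. -/
theorem result {F : Type*} [Field F] [Fintype F] {f m : ℕ} (hf : 1 ≤ f) (hF : Fintype.card F = 2 ^ f) (hm : 4 ≤ m) : if m = 4 then Nonempty (Cfsg.Out (Cfsg.POmega F (Cfsg.quadFormPlus m F)) ≃* Equiv.Perm (Fin 3) × Multiplicative (ZMod f)) else Nonempty (Cfsg.Out (Cfsg.POmega F (Cfsg.quadFormPlus m F)) ≃* Multiplicative (ZMod 2 × ZMod f)) := by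
  rcases Nat.eq_or_lt_of_le hm with rfl | h5
  · rw [if_pos rfl]; exact CfsgLib.AutPE.Eight.out_two (by omega) hF
  rw [if_neg (show m ≠ 4 by omega), ← CfsgLib.Forms.coe_quadPlus]
  haveI : Fact (Nat.Prime 2) := ⟨Nat.prime_two⟩
  haveI : CharP F 2 := charP_of_card_eq_prime_pow hF
  have h := CfsgLib.AutPO.gh_plus (F := F) (m := m) h5
  have hgen := CfsgLib.AutPE.gen_of_frob h hF (α := CfsgLib.AutPE.fieldP (m := m) (CfsgLib.AutPE.frob F 2))
    (CfsgLib.AutPE.tau_fieldP h _)
  have hcard := CfsgLib.AutPE.card_outKer_two h CharTwo.two_eq_zero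
  haveI : IsCyclic (CfsgLib.AutPE.outTau h).ker := by
    haveI : Fact (Nat.Prime 2) := ⟨Nat.prime_two⟩
    exact isCyclic_of_prime_card hcard
  let ψ : Multiplicative (ZMod 2) ≃* (CfsgLib.AutPE.outTau h).ker :=
    mulEquivOfCyclicCardEq (by rw [hcard, Nat.card_congr Multiplicative.toAdd, Nat.card_zmod])
  obtain ⟨e⟩ := hgen.split ψ (CfsgLib.AutPE.out_fieldP_pow (m := m) (p := 2) hF)
    (CfsgLib.AutPE.comm_of_card_two hcard _)
  exact ⟨e.trans (MulEquiv.prodMultiplicative _ _).symm⟩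

end Cfsg.Agent.S2607
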