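import Cfsg.Statements.S2610
import Cfsg.Agent.Forms.Classify

set_option autoImplicit false
open Cfsg

namespace Cfsg.Agent.S2610

/-- For a quadratic form Q on F^n with non-degenerate polar form, F finite of odd order and n ≥ 2 even, the isometry −1 lies in Ω (the commutator subgroup of the orthogonal group) if and only if the discriminant of Q (the determinant of the Gram matrix of its polar form) is a square. -/
theorem result {F : Type*} [Field F] [Fintype F] (h2 : (2 : F) ≠ 0) {n : ℕ} (hn : 2 ≤ n) (he : Even n) (Q : QuadraticForm F (Fin n → F)) (hQ : (QuadraticMap.polarBilin Q).Nondegenerate) : (∃ g : ↥(Cfsg.isometryGroup F ⇑Q), g ∈ Cfsg.Omega F ⇑Q ∧ ((g : Matrix.GeneralLinearGroup (Fin n) F) : Matrix (Fin n) (Fin n) F) = -1) ↔ IsSquare (Matrix.of (fun i j : Fin n => QuadraticMap.polar ⇑Q (Pi.single i 1) (Pi.single j 1))).det := by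
  classical
  set B := Pi.basisFun F (Fin n)
  obtain ⟨b, hb⟩ := CfsgLib.Forms.orth_basis h2 Q
  have hcard : Module.finrank F (Fin n → F) = n := by simp
  have hb0 : ∀ i, Q (b i) ≠ 0 := fun i h0 => by
    refine b.ne_zero i (CfsgLib.Forms.polar_ext hQ fun y => ?_)
    rw [QuadraticMap.polar_comm, ← b.sum_repr y, CfsgLib.Forms.polar_sum_left]
    refine Finset.sum_eq_zero fun j _ => ?_
    rw [QuadraticMap.polar_smul_left]
    rcases eq_or_ne j i with rfl | hj
    · rw [QuadraticMap.polar_self, h0]; simp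
    · rw [hb j i hj, smul_zero]
  let vs : List (Fin n → F) := List.ofFn fun i => b i
  have hvs : ∀ v ∈ vs, Q v ≠ 0 := by
    intro v hv; obtain ⟨i, rfl⟩ := List.mem_ofFn.1 hv; exact hb0 i
  -- the product of all these reflections is minus one
  have hact : ∀ (l : List (Fin (Module.finrank F (Fin n → F)))), l.Nodup → ∀ j,
      ((l.map fun i => Cfsg.reflectionMatrix ⇑Q (b i)).prod).mulVec (b j) = if j ∈ l then -b j else b j := by
    intro l
    induction l with
    | nil => intro _ j; simp
    | cons a l ih =>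
      intro hnd j
      obtain ⟨ha, hl⟩ := List.nodup_cons.1 hnd
      rw [List.map_cons, List.prod_cons, ← Matrix.mulVec_mulVec, ih hl j]
      have hself : (Cfsg.reflectionMatrix ⇑Q (b a)).mulVec (b a) = -b a := by
        rw [CfsgLib.Forms.reflectionMatrix_mulVec, QuadraticMap.polar_self, nsmul_eq_mul, Nat.cast_ofNat]
        have := hb0 a
        match_scalars
        field_simp
        ring
      have hother : ∀ j, j ≠ a → (Cfsg.reflectionMatrix ⇑Q (b a)).mulVec (b j) = b j := fun j hj => by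
        rw [CfsgLib.Forms.reflectionMatrix_mulVec, hb j a hj]; simp
      rcases eq_or_ne j a with rfl | hj
      · simp [ha, hself]
      · split_ifs with h1 h2 h2 <;> simp_all [Matrix.mulVec_neg]
  have hM : (vs.map fun v => Cfsg.reflectionMatrix ⇑Q v).prod = (-1 : Matrix (Fin n) (Fin n) F) := by
    refine Matrix.mulVec_injective (funext fun v => ?_)
    rw [← b.sum_repr v, Matrix.mulVec_sum, Matrix.mulVec_sum]
    refine Finset.sum_congr rfl fun j _ => ?_
    rw [Matrix.mulVec_smul, Matrix.mulVec_smul, List.map_ofFn]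
    have := hact (List.finRange _) (List.nodup_finRange _) j
    simp only [List.mem_finRange, if_true] at this
    rw [show List.ofFn ((fun v => Cfsg.reflectionMatrix ⇑Q v) ∘ fun i => b i) =
      (List.finRange _).map (fun i => Cfsg.reflectionMatrix ⇑Q (b i)) by rw [List.ofFn_eq_map]; rfl, this]
    simp [Matrix.neg_mulVec]
  have hlen : Even vs.length := by simpa [vs, hcard] using he
  have hprod : (vs.map fun v => Q v).prod = ∏ i, Q (b i) := by
    rw [List.map_ofFn, List.prod_ofFn]; rfl
  have hdet : IsSquare (∏ i, Q (b i)) ↔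
      IsSquare (Matrix.of (fun i j : Fin n => QuadraticMap.polar ⇑Q (Pi.single i 1) (Pi.single j 1))).det := by
    have e1 : Matrix.of (fun i j : Fin n => QuadraticMap.polar ⇑Q (Pi.single i 1) (Pi.single j 1)) =
        CfsgLib.Forms.gram ⇑Q ⇑B := by ext i j; simp [CfsgLib.Forms.gram, B]
    rw [e1, ← CfsgLib.Forms.isSquare_det_gram_iff Q b B, CfsgLib.Forms.det_gram_orth Q b hb]
    obtain ⟨k, hk⟩ : ∃ k, Fintype.card (Fin (Module.finrank F (Fin n → F))) = k + k := by
      obtain ⟨k, hk⟩ := he
      exact ⟨k, by rw [Fintype.card_fin, hcard, hk]⟩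
    rw [hk]
    have : (2 : F) ^ k ≠ 0 := pow_ne_zero _ h2
    rw [pow_add]
    exact ⟨fun ⟨r, hr⟩ => ⟨2 ^ k * r, by rw [hr]; ring⟩, fun ⟨r, hr⟩ => ⟨r / 2 ^ k, by field_simp; linear_combination hr⟩⟩
  rw [← hdet, ← hprod]
  constructor
  · rintro ⟨g, hg, hg1⟩
    exact ((CfsgLib.Forms.mem_Omega_list Q h2 hQ (by simpa using hn) g vs hvs (hg1.trans hM.symm)).1 hg).2
  · intro hsq
    let g : ↥(Cfsg.isometryGroup F ⇑Q) := ⟨-1, CfsgLib.Forms.mem_isometryGroup.2 fun v => by
      rw [Units.val_neg, Units.val_one, Matrix.neg_mulVec, Matrix.one_mulVec, QuadraticMap.map_neg]⟩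
    have hg : ((g : GL (Fin n) F) : Matrix (Fin n) (Fin n) F) = -1 := by simp [g]
    exact ⟨g, (CfsgLib.Forms.mem_Omega_list Q h2 hQ (by simpa using hn) g vs hvs (hg.trans hM.symm)).2 ⟨hlen, hsq⟩, hg⟩

end Cfsg.Agent.S2610
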