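import Cfsg.Statements.S2611
import Cfsg.Agent.Forms.Levi

set_option autoImplicit false
open Cfsg

namespace Cfsg.Agent.S2611

/-- For the hyperbolic quadratic form Σ x_i y_i on F^(2m) (F finite, m ≥ 1, excluding m = 2 over the field of two elements) and an invertible m × m matrix A, the block-diagonal isometry diag(A, (A⁻¹)ᵀ), which stabilises the two maximal totally singular subspaces x = 0 and y = 0, lies in Ω⁺_2m(F) (the commutator subgroup of the orthogonal group) if and only if det A is a square in F. -/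
theorem result {F : Type*} [Field F] [Fintype F] {m : ℕ} (hm : 1 ≤ m) (h : Fintype.card F ≠ 2 ∨ m ≠ 2) (A : GL (Fin m) F) : (∃ g : ↥(Cfsg.isometryGroup F (Cfsg.quadFormPlus m F)), g ∈ Cfsg.Omega F (Cfsg.quadFormPlus m F) ∧ ((g : Matrix.GeneralLinearGroup (Fin m ⊕ Fin m) F) : Matrix (Fin m ⊕ Fin m) (Fin m ⊕ Fin m) F) = Matrix.fromBlocks (A : Matrix (Fin m) (Fin m) F) 0 0 ((A : Matrix (Fin m) (Fin m) F)⁻¹).transpose) ↔ IsSquare (A : Matrix (Fin m) (Fin m) F).det := by
  rw [← CfsgLib.Forms.coe_quadPlus F m]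
  set M := (A : Matrix (Fin m) (Fin m) F)
  have hd : M.det ≠ 0 := by
    have := (Matrix.isUnit_iff_isUnit_det M).1 A.isUnit
    exact this.ne_zero
  have hQ := CfsgLib.Forms.nondegenerate_quadPlus (F := F) m
  have hm2 : Nat.card F ≠ 2 ∨ m ≠ 2 := h.imp_left fun h => by rwa [Nat.card_eq_fintype_card]
  have hq : Nat.card F ≠ 2 ∨ Fintype.card (Fin m ⊕ Fin m) ≠ 4 := hm2.imp_right fun h => by simp; omega
  obtain ⟨l, hl, hle, hls⟩ := CfsgLib.Forms.leviList hm2 M hd
  have hv := CfsgLib.Forms.valueProd_ne_zero l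
  have hmat : ((CfsgLib.Forms.listGL (CfsgLib.Forms.quadPlus F m) l : GL (Fin m ⊕ Fin m) F) : Matrix (Fin m ⊕ Fin m) (Fin m ⊕ Fin m) F) = Matrix.fromBlocks M 0 0 (M⁻¹).transpose := by
    refine Matrix.ext_iff_mulVec.2 fun v => ?_
    rw [← hl, ← CfsgLib.Forms.glEquiv_apply, ← CfsgLib.Forms.coe_isoEquiv, CfsgLib.Forms.isoEquiv_listGL]
  have key := (CfsgLib.Forms.mem_Omega_of_list hQ hq (CfsgLib.Forms.isoEquiv_listGL l)).trans (and_iff_right hle)
  constructor
  · rintro ⟨g, hg, hgM⟩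
    rw [show g = CfsgLib.Forms.listGL (CfsgLib.Forms.quadPlus F m) l from Subtype.ext (Units.ext (hgM.trans hmat.symm)), key] at hg
    exact ((CfsgLib.Forms.isSquare_mul_iff' hv hd).1 hls).1 hg
  · intro hsq
    exact ⟨_, key.2 (((CfsgLib.Forms.isSquare_mul_iff' hv hd).1 hls).2 hsq), hmat⟩

end Cfsg.Agent.S2611
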