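import Cfsg.Statements.S2612
import Cfsg.Agent.Forms.Levi

set_option autoImplicit false
open Cfsg

namespace Cfsg.Agent.S2612

/-- For the hyperbolic quadratic form Σ x_i y_i on F^(2m) (F finite, m ≥ 1, excluding m = 2 over the field of two elements), Ω⁺_2m(F) (the commutator subgroup of the orthogonal group) contains an element interchanging the two complementary maximal totally singular subspaces {y = 0} and {x = 0} if and only if m is even (dimension divisible by 4). -/
theorem result {F : Type*} [Field F] [Fintype F] {m : ℕ} (hm : 1 ≤ m) (h : Fintype.card F ≠ 2 ∨ m ≠ 2) : (∃ g : ↥(Cfsg.isometryGroup F (Cfsg.quadFormPlus m F)), g ∈ Cfsg.Omega F (Cfsg.quadFormPlus m F) ∧ (∀ v : Fin m ⊕ Fin m → F, (∀ i, v (Sum.inr i) = 0) → ∀ i, (((g : Matrix.GeneralLinearGroup (Fin m ⊕ Fin m) F) : Matrix (Fin m ⊕ Fin m) (Fin m ⊕ Fin m) F).mulVec v) (Sum.inl i) = 0) ∧ (∀ v : Fin m ⊕ Fin m → F, (∀ i, v (Sum.inl i) = 0) → ∀ i, (((g : Matrix.GeneralLinearGroup (Fin m ⊕ Fin m) F) : Matrix (Fin m ⊕ Fin m) (Fin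 m ⊕ Fin m) F).mulVec v) (Sum.inr i) = 0)) ↔ Even m := by
  rw [← CfsgLib.Forms.coe_quadPlus F m]
  have hQ := CfsgLib.Forms.nondegenerate_quadPlus (F := F) m
  have hq : Nat.card F ≠ 2 ∨ Fintype.card (Fin m ⊕ Fin m) ≠ 4 :=
    h.imp (fun h => by rwa [Nat.card_eq_fintype_card]) (fun h => by simp; omega)
  have hp := CfsgLib.Forms.standard_pairs (F := F) m
  constructor
  · rintro ⟨g, hg, hgW, -⟩
    obtain ⟨l, hl⟩ := CfsgLib.Forms.exists_list hQ hq g
    obtain ⟨he, -⟩ := (CfsgLib.Forms.mem_Omega_of_list hQ hq hl).1 hg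
    let W : Submodule F (Fin m ⊕ Fin m → F) := LinearMap.ker (LinearMap.funLeft F F (Sum.inr : Fin m → Fin m ⊕ Fin m))
    have hW : Module.finrank F W = m := by
      have hs : Function.Surjective (LinearMap.funLeft F F (Sum.inr : Fin m → Fin m ⊕ Fin m)) := fun w => ⟨Sum.elim 0 w, funext fun i => rfl⟩
      have := LinearMap.finrank_range_add_finrank_ker (LinearMap.funLeft F F (Sum.inr : Fin m → Fin m ⊕ Fin m))
      rw [LinearMap.range_eq_top.2 hs, finrank_top] at this
      change _ + Module.finrank F W = _ at this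
      simp at this
      omega
    have hmax : CfsgLib.Forms.IsMaxSingular (CfsgLib.Forms.quadPlus F m) W := ⟨by rw [hW]; simp; ring, fun u hu => by
      have hu0 : ∀ i, u (Sum.inr i) = 0 := fun i => congrFun (LinearMap.mem_ker.1 hu) i
      simp [Cfsg.quadFormPlus, hu0]⟩
    have hinf : W ⊓ W.map (CfsgLib.Forms.reflProd (CfsgLib.Forms.quadPlus F m) l : (Fin m ⊕ Fin m → F) →ₗ[F] (Fin m ⊕ Fin m → F)) = ⊥ := by
      refine (Submodule.eq_bot_iff _).2 fun z hz => ?_
      obtain ⟨v, hv, rfl⟩ := hz.2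
      have h1 := hgW v fun i => congrFun (LinearMap.mem_ker.1 hv) i
      rw [← CfsgLib.Forms.glEquiv_apply, ← CfsgLib.Forms.coe_isoEquiv, hl] at h1
      funext k
      rcases k with i | i
      · exact h1 i
      · exact congrFun (LinearMap.mem_ker.1 hz.1) i
    have hpar := CfsgLib.Forms.finrank_inf_map_reflProd hQ hmax l
    rw [hinf, finrank_bot, hW] at hpar
    rw [Nat.even_iff] at he ⊢
    omega
  · intro hm2
    classical
    set Q := CfsgLib.Forms.quadPlus F m with hQdef
    set u : Fin m → (Fin m ⊕ Fin m → F) := fun i => Pi.single (Sum.inl i) 1 - Pi.single (Sum.inr i) 1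
    have hqu : ∀ i, Q (u i) = -1 := fun i => by
      rw [CfsgLib.Forms.map_sub', hp.qe, hp.qf, hp.ef, if_pos rfl]; ring
    let swap : Finset (Fin m) → (Fin m ⊕ Fin m → F) → (Fin m ⊕ Fin m → F) := fun s v =>
      Sum.elim (fun i => if i ∈ s then v (Sum.inr i) else v (Sum.inl i)) (fun i => if i ∈ s then v (Sum.inl i) else v (Sum.inr i))
    have main : ∀ s : Finset (Fin m), ∃ l : List {z : Fin m ⊕ Fin m → F // Q z ≠ 0},
        (∀ v, CfsgLib.Forms.reflProd Q l v = swap s v) ∧ l.length = s.card ∧ CfsgLib.Forms.valueProd Q l = (-1) ^ s.card := by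
      intro s
      induction s using Finset.induction_on with
      | empty =>
        refine ⟨[], fun v => ?_, rfl, by simp [CfsgLib.Forms.valueProd]⟩
        funext k
        rcases k with i | i <;> simp [swap, CfsgLib.Forms.reflProd]
      | insert a s ha ih =>
        obtain ⟨l, hl, hll, hlv⟩ := ih
        refine ⟨⟨u a, by rw [hqu]; simp⟩ :: l, fun v => ?_, by rw [List.length_cons, hll, Finset.card_insert_of_notMem ha], ?_⟩
        · show CfsgLib.Forms.refl Q (u a) (by rw [hqu]; simp) (CfsgLib.Forms.reflProd Q l v) = _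
          rw [hl, CfsgLib.Forms.refl_apply, hqu]
          have hpol : QuadraticMap.polar Q (swap s v) (u a) = v (Sum.inr a) - v (Sum.inl a) := by
            rw [QuadraticMap.polar_sub_right, (CfsgLib.Forms.polar_single (swap s v) a).1, (CfsgLib.Forms.polar_single (swap s v) a).2]
            simp [swap, ha]
          rw [hpol]
          funext k
          rcases k with i | i <;> by_cases hia : i = a
          all_goals first
            | (simp [swap, u, hia, ha]; done)
            | (simp [swap, u, hia, ha]; ring)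
        · rw [CfsgLib.Forms.valueProd] at hlv ⊢
          rw [List.map_cons, List.prod_cons, hlv, Finset.card_insert_of_notMem ha, pow_succ', hqu]
    obtain ⟨l, hl, hll, hlv⟩ := main Finset.univ
    rw [Finset.card_univ, Fintype.card_fin] at hll hlv
    refine ⟨CfsgLib.Forms.listGL Q l, (CfsgLib.Forms.mem_Omega_of_list hQ hq (CfsgLib.Forms.isoEquiv_listGL l)).2
      ⟨by rw [hll]; exact hm2, by rw [hlv, hm2.neg_one_pow]; exact IsSquare.one⟩, ?_, ?_⟩ <;>
    · intro v hv i
      rw [← CfsgLib.Forms.glEquiv_apply, ← CfsgLib.Forms.coe_isoEquiv, CfsgLib.Forms.isoEquiv_listGL]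
      show CfsgLib.Forms.reflProd Q l v _ = 0
      rw [hl]
      simp [swap, hv i]

end Cfsg.Agent.S2612
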