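import Cfsg.Statements.S2614
import Cfsg.Agent.Forms.Classify

set_option autoImplicit false
open Cfsg

namespace Cfsg.Agent.S2614

/-- For the form x_0² + Σ x_j y_j on F^(2m+1), F finite with q elements, q odd, and 1 ≤ i ≤ m: the involution of determinant one negating the first i hyperbolic pairs (and fixing x_0 and the other pairs) lies in Ω_(2m+1)(q) (commutator subgroup of the orthogonal group) if and only if q^i ≡ 1 (mod 4); its (−1)-eigenspace is a hyperbolic 2i-space. -/
theorem result {F : Type*} [Field F] [Fintype F] {q : ℕ} (hF : Fintype.card F = q) (hq : Odd q) {m : ℕ} (i : ℕ) (hi : 1 ≤ i) (him : i ≤ m) : (∃ g : ↥(Cfsg.isometryGroup F (Cfsg.quadFormOdd m F)), g ∈ Cfsg.Omega F (Cfsg.quadFormOdd m F) ∧ ((g : Matrix.GeneralLinearGroup (Unit ⊕ (Fin m ⊕ Fin m)) F) : Matrix (Unit ⊕ (Fin m ⊕ Fin m)) (Unit ⊕ (Fin m ⊕ Fin m)) F) = Matrix.diagonal (fun k : Unit ⊕ (Fin m ⊕ Fin m) => if (Sum.elim (fun _ : Unit => i) (Sum.elim (fun j : Fin m => (j : ℕ)) (fun j : Fin m => (j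 : ℕ))) k) < i then (-1 : F) else 1)) ↔ q ^ i % 4 = 1 := by
  have h2 : (2 : F) ≠ 0 := by
    refine Ring.two_ne_zero fun h => ?_
    have h' := FiniteField.even_card_of_char_two h
    have := Nat.odd_iff.1 hq
    omega
  let s : Finset (Fin m) := Finset.univ.filter fun j => (j : ℕ) < i
  have hs : s.card = i := by
    show (Finset.univ.filter fun j : Fin _ => (j : ℕ) < i).card = i
    rw [Fin.card_filter_val_lt]; omega
  rw [← CfsgLib.Forms.isSquare_neg_one_pow hF hq, ← hs, ← CfsgLib.Forms.coe_quadOdd]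
  have hhyp : CfsgLib.Forms.IsHyp (CfsgLib.Forms.quadOdd F m)
      (fun j => Pi.single (Sum.inr (Sum.inl j)) (1 : F)) (fun j => Pi.single (Sum.inr (Sum.inr j)) 1) := by
    constructor <;> intro j <;>
      first
        | (simp [Cfsg.quadFormOdd, Pi.single_apply]; done)
        | (intro l; simp [CfsgLib.Forms.polar_odd, Pi.single_apply, eq_comm])
  refine CfsgLib.Forms.neg_pairs_mem_Omega h2 (CfsgLib.Forms.nondegenerate_quadOdd m h2) (by simp; omega)
    hhyp s _ fun v => ?_
  funext k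
  rcases k with k | k | k <;>
    simp [Matrix.mulVec_diagonal, CfsgLib.Forms.polar_odd, Pi.single_apply, Finset.sum_ite_eq, s, hs] <;>
    split_ifs <;> simp [*] <;> ring

end Cfsg.Agent.S2614
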