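import Cfsg.Statements.S2615
import Cfsg.Agent.Forms.Classify

set_option autoImplicit false
open Cfsg

namespace Cfsg.Agent.S2615

/-- For an elliptic form Σ_(j<m−1) x_j y_j + (z₁² + a z₁z₂ + b z₂²) (anisotropic binary part) on F^(2m), F finite with q elements, q odd, and 1 ≤ i ≤ m − 1: the involution negating the first i hyperbolic pairs and fixing the rest lies in Ω⁻_2m(q) (commutator subgroup of the orthogonal group) if and only if q^i ≡ 1 (mod 4). -/
theorem result {F : Type*} [Field F] [Fintype F] {q : ℕ} (hF : Fintype.card F = q) (hq : Odd q) {m : ℕ} (a b : F) (hab : ∀ z₁ z₂ : F, z₁ ^ 2 + a * z₁ * z₂ + b * z₂ ^ 2 = 0 → z₁ = 0 ∧ z₂ = 0) (i : ℕ) (hi : 1 ≤ i) (him : i + 1 ≤ m) : (∃ g : ↥(Cfsg.isometryGroup F (Cfsg.quadFormMinus (m - 1) F a b)), g ∈ Cfsg.Omega F (Cfsg.quadFormMinus (m - 1) F a b) ∧ ((g : Matrix.GeneralLinearGroup ((Fin (m - 1) ⊕ Fin (m - 1)) ⊕ Fin 2) F) : Matrix ((Fin (m - 1) ⊕ Fin (m - 1)) ⊕ Fin 2) ((Fin (m -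 1) ⊕ Fin (m - 1)) ⊕ Fin 2) F) = Matrix.diagonal (fun k : (Fin (m - 1) ⊕ Fin (m - 1)) ⊕ Fin 2 => if (Sum.elim (Sum.elim (fun j : Fin (m - 1) => (j : ℕ)) (fun j : Fin (m - 1) => (j : ℕ))) (fun _ : Fin 2 => i) k) < i then (-1 : F) else 1)) ↔ q ^ i % 4 = 1 := by
  have h2 : (2 : F) ≠ 0 := by
    refine Ring.two_ne_zero fun h => ?_
    have h' := FiniteField.even_card_of_char_two h
    have := Nat.odd_iff.1 hq
    omega
  let s : Finset (Fin (m - 1)) := Finset.univ.filter fun j => (j : ℕ) < i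
  have hs : s.card = i := by
    show (Finset.univ.filter fun j : Fin _ => (j : ℕ) < i).card = i
    rw [Fin.card_filter_val_lt]; omega
  rw [← CfsgLib.Forms.isSquare_neg_one_pow hF hq, ← hs, ← CfsgLib.Forms.coe_quadMinus]
  have hhyp : CfsgLib.Forms.IsHyp (CfsgLib.Forms.quadMinus F (m - 1) a b)
      (fun j => Pi.single (Sum.inl (Sum.inl j)) (1 : F)) (fun j => Pi.single (Sum.inl (Sum.inr j)) 1) := by
    constructor <;> intro j <;>
      first
        | (simp [Cfsg.quadFormMinus, Pi.single_apply]; done)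
        | (intro l; simp [CfsgLib.Forms.polar_minus, Pi.single_apply, eq_comm])
  refine CfsgLib.Forms.neg_pairs_mem_Omega h2 (CfsgLib.Forms.nondegenerate_quadMinus _ hab) (by simp)
    hhyp s _ fun v => ?_
  funext k
  rcases k with (k | k) | k <;>
    simp [Matrix.mulVec_diagonal, CfsgLib.Forms.polar_minus, Pi.single_apply, Finset.sum_ite_eq, s, hs] <;>
    split_ifs <;> simp [*] <;> ring

end Cfsg.Agent.S2615
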