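import Cfsg.Statements.S2616
import Cfsg.Agent.Forms.Hyperbolic

set_option autoImplicit false
open Cfsg

namespace Cfsg.Agent.S2616

/-- Standard bases of a non-degenerate quadratic space of even dimension 2m over a finite field: either there is a hyperbolic basis e_i, f_i (Q(e_i) = Q(f_i) = 0, B(e_i, f_j) = δ_ij, the e's pairwise orthogonal and the f's pairwise orthogonal, B the polar form), or there is an elliptic basis: hyperbolic pairs e_i, f_i for i < m − 1 together with x, y orthogonal to them with Q(x) = 1, B(x, y) = 1, Q(y) = ζ where t² + t + ζ has no root in the field. -/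
theorem result {F V : Type*} [Field F] [Finite F] [AddCommGroup V] [Module F V] [FiniteDimensional F V] {m : ℕ} (hm : 1 ≤ m) (hV : Module.finrank F V = 2 * m) (Q : QuadraticForm F V) (hQ : (QuadraticMap.polarBilin Q).Nondegenerate) : (∃ b : Module.Basis (Fin m ⊕ Fin m) F V, (∀ i, Q (b (Sum.inl i)) = 0 ∧ Q (b (Sum.inr i)) = 0) ∧ (∀ i j, QuadraticMap.polar ⇑Q (b (Sum.inl i)) (b (Sum.inr j)) = if i = j then 1 else 0) ∧ (∀ i j, QuadraticMap.polar ⇑Q (b (Sum.inl i)) (b (Sum.inl j)) = 0 ∧ QuadraticMap.polar ⇑Q (b (Sum.inr i)) (b (Sum.inr j)) = 0)) ∨ (∃ (b : Module.Basis ((Fin (m - 1) ⊕ Fin (m - 1)) ⊕ Fin 2) F V) (ζ : F), (∀ t : F, t ^ 2 + t + ζ ≠ 0) ∧ (∀ i, Q (b (Sum.inl (Sum.inl i))) = 0 ∧ Q (b (Sum.inl (Sum.inr i))) = 0) ∧ (∀ i j, QuadraticMap.polar ⇑Q (b (Sum.inl (Sum.inl i))) (b (Sum.inl (Sum.inr j))) = if i = j then 1 else 0) ∧ (∀ i j, QuadraticMap.polar ⇑Q (b (Sum.inl (Sum.inl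 i))) (b (Sum.inl (Sum.inl j))) = 0 ∧ QuadraticMap.polar ⇑Q (b (Sum.inl (Sum.inr i))) (b (Sum.inl (Sum.inr j))) = 0) ∧ (∀ i (k : Fin 2), QuadraticMap.polar ⇑Q (b (Sum.inl (Sum.inl i))) (b (Sum.inr k)) = 0 ∧ QuadraticMap.polar ⇑Q (b (Sum.inl (Sum.inr i))) (b (Sum.inr k)) = 0) ∧ Q (b (Sum.inr 0)) = 1 ∧ QuadraticMap.polar ⇑Q (b (Sum.inr 0)) (b (Sum.inr 1)) = 1 ∧ Q (b (Sum.inr 1)) = ζ) := by
  rcases CfsgLib.Forms.exists_basis_even hm hV hQ with ⟨e, f, b, h, hb⟩ | ⟨e, f, x, y, b, h, hx, hy, hx1, hxy, ht, hb⟩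
  · refine Or.inl ⟨b, fun i => ?_, fun i j => ?_, fun i j => ?_⟩ <;> simp only [hb, Sum.elim_inl, Sum.elim_inr]
    exacts [⟨h.qe i, h.qf i⟩, h.ef i j, ⟨h.ee i j, h.ff i j⟩]
  · rw [CfsgLib.Forms.mem_perp_pairSpan] at hx hy
    refine Or.inr ⟨b, Q y, ht, fun i => ?_, fun i j => ?_, fun i j => ?_, fun i k => ?_, ?_, ?_, ?_⟩ <;>
      simp only [hb, Sum.elim_inl, Sum.elim_inr]
    · exact ⟨h.qe i, h.qf i⟩
    · exact h.ef i j
    · exact ⟨h.ee i j, h.ff i j⟩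
    · fin_cases k <;> simp [QuadraticMap.polar_comm Q (e i), QuadraticMap.polar_comm Q (f i), hx.1, hx.2, hy.1, hy.2]
    · simpa using hx1
    · simpa using hxy
    · simp

end Cfsg.Agent.S2616
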