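import Cfsg.Statements.S2617
import Cfsg.Agent.Forms.Standard

set_option autoImplicit false
open Cfsg

namespace Cfsg.Agent.S2617

/-- The two standard quadratic forms of even dimension 2m over a finite field are not isometric: there is no linear isomorphism carrying the elliptic form Σ_(i<m−1) x_i y_i + z₁² + z₁z₂ + ζ z₂² (t² + t + ζ without roots) to the hyperbolic form Σ_(i<m) x_i y_i (they have different Witt index). -/
theorem result {F : Type*} [Field F] [Finite F] {m : ℕ} (hm : 1 ≤ m) (ζ : F) (hζ : ∀ t : F, t ^ 2 + t + ζ ≠ 0) (g : (Fin m ⊕ Fin m → F) ≃ₗ[F] ((Fin (m - 1) ⊕ Fin (m - 1)) ⊕ Fin 2 → F)) : ¬ (∀ v : Fin m ⊕ Fin m → F, Cfsg.quadFormMinus (m - 1) F 1 ζ (g v) = Cfsg.quadFormPlus m F v) := by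
  intro hg
  have hab : ∀ z₁ z₂ : F, z₁ ^ 2 + 1 * z₁ * z₂ + ζ * z₂ ^ 2 = 0 → z₁ = 0 ∧ z₂ = 0 := by
    intro z₁ z₂ h
    by_cases hz : z₂ = 0
    · subst hz
      simpa using h
    · exact absurd (by field_simp; linear_combination h) (hζ (z₁ / z₂))
  let U := (LinearMap.ker (LinearMap.funLeft F F (Sum.inr : Fin m → Fin m ⊕ Fin m))).map g.toLinearMap
  have h1 : Module.finrank F U ≤ m - 1 := by
    refine CfsgLib.Forms.finrank_le_of_singular_minus hab ?_
    rintro _ ⟨u, hu, rfl⟩
    have : ∀ i, u (Sum.inr i) = 0 := fun i => congrFun (LinearMap.mem_ker.1 hu) i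
    rw [LinearEquiv.coe_coe, hg]
    simp [Cfsg.quadFormPlus, this]
  have h2 : m ≤ Module.finrank F U := by
    rw [LinearEquiv.finrank_map_eq]
    have hs : Function.Surjective (LinearMap.funLeft F F (Sum.inr : Fin m → Fin m ⊕ Fin m)) := fun w =>
      ⟨Sum.elim 0 w, funext fun i => rfl⟩
    have := LinearMap.finrank_range_add_finrank_ker (LinearMap.funLeft F F (Sum.inr : Fin m → Fin m ⊕ Fin m))
    rw [LinearMap.range_eq_top.2 hs, finrank_top] at this
    simp at this
    omega
  omega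

end Cfsg.Agent.S2617
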