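import Cfsg.Statements.S2619
import Mathlib

set_option autoImplicit false
open Cfsg

namespace Cfsg.Agent.S2619

/-- Over a finite field of characteristic two, given an alternating bilinear form B on a finite-dimensional space, a basis (v_i) and scalars (λ_i), there is exactly one quadratic form whose polar form is B and whose value at each v_i is λ_i. -/
theorem result {F V ι : Type*} [Field F] [Finite F] [CharP F 2] [AddCommGroup V] [Module F V] [Fintype ι] (b : Module.Basis ι F V) (B : LinearMap.BilinForm F V) (hB : B.IsAlt) (c : ι → F) : ∃! Q : QuadraticForm F V, QuadraticMap.polarBilin Q = B ∧ ∀ i, Q (b i) = c i := by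
  classical
  let e := Fintype.equivFin ι
  let M : Matrix ι ι F := fun i j => if e i < e j then B (b i) (b j) else if i = j then c i else 0
  let B' : LinearMap.BilinForm F V := Matrix.toBilin b M
  have hB' : ∀ i j, B' (b i) (b j) = M i j := fun i j => by
    show Matrix.toBilin b M (b i) (b j) = M i j
    rw [← LinearMap.BilinForm.toMatrix_apply b, LinearMap.BilinForm.toMatrix_toBilin]
  have htwo : (2 : F) = 0 := CharTwo.two_eq_zero
  have hpB : QuadraticMap.polarBilin (LinearMap.BilinMap.toQuadraticMap B') = B := by
    rw [LinearMap.BilinMap.polarBilin_toQuadraticMap]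
    refine LinearMap.BilinForm.ext_basis b fun i j => ?_
    rw [LinearMap.add_apply, LinearMap.add_apply, LinearMap.flip_apply, hB', hB']
    rcases lt_trichotomy (e i) (e j) with h | h | h
    · have hij : i ≠ j := fun hh => h.ne (by rw [hh])
      simp [M, h, not_lt.2 h.le, hij.symm]
    · have hij : i = j := e.injective h
      subst hij
      simp only [M, lt_irrefl, if_false, if_true]
      rw [hB (b i), ← two_mul, htwo, zero_mul]
    · have hij : i ≠ j := fun hh => h.ne' (by rw [hh])
      simp only [M, h, not_lt.2 h.le, hij, if_false, if_true, zero_add]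
      have h0 : B (b i + b j) (b i + b j) = 0 := hB _
      simp only [map_add, LinearMap.add_apply, hB (b i), hB (b j)] at h0
      linear_combination h0 - B (b i) (b j) * htwo
  refine ⟨LinearMap.BilinMap.toQuadraticMap B', ⟨?_, fun i => ?_⟩, ?_⟩
  · exact hpB
  · rw [LinearMap.BilinMap.toQuadraticMap_apply, hB']; simp [M]
  · rintro Q ⟨hQ, hQc⟩
    set R := LinearMap.BilinMap.toQuadraticMap B' with hR
    have hpol : ∀ u v, Q (u + v) - R (u + v) = (Q u - R u) + (Q v - R v) := by
      intro u v
      have h1 : QuadraticMap.polar Q u v = QuadraticMap.polar R u v := by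
        rw [← QuadraticMap.polarBilin_apply_apply, ← QuadraticMap.polarBilin_apply_apply, hQ, hR, hpB]
      simp only [QuadraticMap.polar] at h1
      linear_combination h1
    ext v
    have key : Q v - R v = 0 := by
      rw [← b.sum_repr v]
      refine Finset.sum_induction _ (fun x => Q x - R x = 0) (fun x y hx hy => by rw [hpol, hx, hy, add_zero])
        (by simp) (fun i _ => ?_)
      rw [QuadraticMap.map_smul, QuadraticMap.map_smul, hQc, hR, LinearMap.BilinMap.toQuadraticMap_apply, hB']
      simp [M]
    exact sub_eq_zero.1 key

end Cfsg.Agent.S2619
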