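import Cfsg.Statements.S2622
import Cfsg.Agent.Forms.Basic
import Mathlib

set_option autoImplicit false
open Cfsg

namespace Cfsg.Agent.S2622

/-- Over a finite field of characteristic two, a non-degenerate symmetric bilinear form that is not alternating (some vector v has B(v, v) ≠ 0) admits an orthonormal basis. -/
theorem result {F V : Type*} [Field F] [Finite F] [CharP F 2] [AddCommGroup V] [Module F V] [FiniteDimensional F V] {n : ℕ} (hV : Module.finrank F V = n) (B : LinearMap.BilinForm F V) (hS : B.IsSymm) (hB : B.Nondegenerate) (hna : ∃ v : V, B v v ≠ 0) : ∃ b : Module.Basis (Fin n) F V, ∀ i j, B (b i) (b j) = if i = j then 1 else 0 := by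
  classical
  have htwo : (2 : F) = 0 := CharTwo.two_eq_zero
  have hsymm : ∀ x y, B x y = B y x := fun x y => hS.eq x y
  suffices aux : ∀ k, ∀ W : Submodule F V, Module.finrank F W = k →
      (∀ x ∈ W, (∀ y ∈ W, B x y = 0) → x = 0) → (k = 0 ∨ ∃ w ∈ W, B w w ≠ 0) →
      ∃ u : Fin k → V, (∀ i, u i ∈ W) ∧ ∀ i j, B (u i) (u j) = if i = j then 1 else 0 by
    obtain ⟨u, -, hu⟩ := aux n ⊤ (by rw [finrank_top, hV])
      (fun x _ hx => hB.1 x fun y => hx y Submodule.mem_top) (Or.inr (hna.imp fun v hv => ⟨Submodule.mem_top, hv⟩))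
    have hli : LinearIndependent F u := by
      rw [Fintype.linearIndependent_iff]
      intro c hc i
      have := congrArg (fun x => B x (u i)) hc
      simpa [map_sum, hu] using this
    rcases Nat.eq_zero_or_pos n with rfl | hn
    · obtain ⟨v, hv⟩ := hna
      haveI : Subsingleton V := Module.finrank_zero_iff.1 hV
      exact absurd (by rw [Subsingleton.elim v 0]; simp) hv
    haveI : Nonempty (Fin n) := ⟨⟨0, hn⟩⟩
    refine ⟨basisOfLinearIndependentOfCardEqFinrank hli (by simp [hV]), fun i j => ?_⟩
    rw [coe_basisOfLinearIndependentOfCardEqFinrank]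
    exact hu i j
  intro k
  induction k with
  | zero => exact fun W _ _ _ => ⟨Fin.elim0, fun i => i.elim0, fun i => i.elim0⟩
  | succ k ih =>
    intro W hW hnd hna'
    obtain ⟨v₀, hv₀W, hv₀⟩ := hna'.resolve_left (Nat.succ_ne_zero k)
    have hker : ∀ (P : Submodule F V) (v : V), Module.finrank F P ≤ Module.finrank F ↥(P ⊓ LinearMap.ker (B v)) + 1 := by
      intro P v
      have h1 := Submodule.finrank_sup_add_finrank_inf_eq P (LinearMap.ker (B v))
      have h2 := Submodule.finrank_le (P ⊔ LinearMap.ker (B v))
      have h3 := LinearMap.finrank_range_add_finrank_ker (B v)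
      have h4 := Submodule.finrank_le (LinearMap.range (B v))
      rw [Module.finrank_self] at h4
      omega
    obtain ⟨v, hvW, hv, hrest⟩ : ∃ v ∈ W, B v v ≠ 0 ∧ (k = 0 ∨ ∃ y ∈ W ⊓ LinearMap.ker (B v), B y y ≠ 0) := by
      by_cases hk : k = 0
      · exact ⟨v₀, hv₀W, hv₀, Or.inl hk⟩
      by_contra hcon
      push Not at hcon
      have key : ∀ v ∈ W, B v v ≠ 0 → ∀ z ∈ W, B z z = 0 → B v z = 0 := by
        intro v hv hvv z hz hzz
        by_contra hvz
        have hy : z - (B v z / B v v) • v ∈ W ⊓ LinearMap.ker (B v) := by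
          refine ⟨sub_mem hz (W.smul_mem _ hv), ?_⟩
          show B v _ = 0
          simp [map_sub, div_mul_cancel₀ _ hvv]
        have h0 := (hcon v hv hvv).2 _ hy
        simp only [map_sub, map_smul, LinearMap.sub_apply, LinearMap.smul_apply, smul_eq_mul, hzz, hsymm z v] at h0
        field_simp at h0
        refine hvz (pow_eq_zero_iff (two_ne_zero) |>.1 (?_ : B v z ^ 2 = 0))
        linear_combination h0 + (B v z ^ 2) * htwo
      have hiso : ∀ z ∈ W, B z z = 0 → z = 0 := by
        intro z hz hzz
        refine hnd z hz fun y hy => ?_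
        by_cases hyy : B y y = 0
        · have h1 := key _ (add_mem hv₀W hy) (by
            simp only [map_add, LinearMap.add_apply, hsymm y v₀, key v₀ hv₀W hv₀ y hy hyy, hyy, add_zero]
            exact hv₀) z hz hzz
          rw [map_add, LinearMap.add_apply, key v₀ hv₀W hv₀ z hz hzz, zero_add] at h1
          rw [hsymm]; exact h1
        · rw [hsymm]; exact key y hy hyy z hz hzz
      obtain ⟨y, hy, hy0⟩ := Submodule.exists_mem_ne_zero_of_ne_bot (p := W ⊓ LinearMap.ker (B v₀)) (fun h => by
        have := hker W v₀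
        rw [h, finrank_bot, hW] at this
        omega)
      exact hy0 (hiso y hy.1 ((hcon v₀ hv₀W hv₀).2 y hy))
    obtain ⟨s, hs⟩ := CfsgLib.Forms.exists_sq htwo ((B v v)⁻¹)
    set w := s • v with hw
    have hww : B w w = 1 := by
      simp only [hw, map_smul, LinearMap.smul_apply, smul_eq_mul]
      rw [← mul_assoc, hs, inv_mul_cancel₀ hv]
    set W' := W ⊓ LinearMap.ker (B v) with hW'
    have hdim : Module.finrank F W' = k := by
      have h2 : Module.finrank F W' < Module.finrank F W :=
        Submodule.finrank_lt_finrank_of_lt (lt_of_le_of_ne inf_le_left fun h => hv ((h.ge hvW).2))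
      have h3 := hker W v
      rw [← hW'] at h3
      omega
    obtain ⟨u, huW, hu⟩ := ih W' hdim (fun x hx hxy => hnd x hx.1 fun y hy => by
      have hy' : y - (B v y / B v v) • v ∈ W' := by
        refine ⟨sub_mem hy (W.smul_mem _ hvW), ?_⟩
        show B v _ = 0
        simp [map_sub, div_mul_cancel₀ _ hv]
      have := hxy _ hy'
      rw [map_sub, map_smul, hsymm x v, show B v x = 0 from hx.2, smul_zero, sub_zero] at this
      exact this) hrest
    have hwu : ∀ i, B w (u i) = 0 := fun i => by
      rw [hw, map_smul, LinearMap.smul_apply, show B v (u i) = 0 from (huW i).2, smul_zero]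
    refine ⟨Fin.cons w u, Fin.cases (by simpa using W.smul_mem s hvW) (fun i => by simpa using (huW i).1), ?_⟩
    intro i j
    induction i using Fin.cases <;> induction j using Fin.cases <;>
      simp [hww, hwu, hu, hsymm (u _) w, Fin.succ_ne_zero, (Fin.succ_ne_zero _).symm]

end Cfsg.Agent.S2622
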