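import Cfsg.Statements.S2624
import Cfsg.Agent.Forms.Classify

set_option autoImplicit false
open Cfsg

namespace Cfsg.Agent.S2624

/-- For a quadratic form Q on F^n with non-degenerate polar form, F finite and n ≥ 2 even, every non-zero scalar c is the multiplier of some similarity: there is an invertible linear map g with Q(g v) = c·Q(v) for all v. -/
theorem result {F : Type*} [Field F] [Fintype F] {n : ℕ} (hn : 2 ≤ n) (he : Even n) (Q : QuadraticForm F (Fin n → F)) (hQ : (QuadraticMap.polarBilin Q).Nondegenerate) (c : F) (hc : c ≠ 0) : ∃ g : (Fin n → F) ≃ₗ[F] (Fin n → F), ∀ v, Q (g v) = c * Q v := by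
  classical
  by_cases h2 : (2 : F) = 0
  · obtain ⟨r, hr⟩ := CfsgLib.Forms.exists_sq h2 c
    have hr0 : r ≠ 0 := fun h => hc (by rw [← hr, h, mul_zero])
    refine ⟨LinearEquiv.smulOfUnit (Units.mk0 r hr0), fun v => ?_⟩
    show Q (r • v) = _
    rw [QuadraticMap.map_smul, hr, smul_eq_mul]
  · have hnd : (QuadraticMap.polarBilin (c • Q)).Nondegenerate := by
      refine CfsgLib.Forms.nondegenerate_iff.2 fun x hx => CfsgLib.Forms.polar_ext hQ fun y => ?_
      have := hx y
      rw [QuadraticMap.coeFn_smul, QuadraticMap.polar_smul, smul_eq_mul, mul_eq_zero] at this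
      exact this.resolve_left hc
    set e := Pi.basisFun F (Fin n)
    have hgram : CfsgLib.Forms.gram ⇑(c • Q) ⇑e = c • CfsgLib.Forms.gram ⇑Q ⇑e := by
      ext i j
      simp [CfsgLib.Forms.gram, QuadraticMap.polar_smul]
    obtain ⟨g, hg⟩ := CfsgLib.Forms.exists_isometry_of_isSquare h2 hnd hQ e (by
      obtain ⟨k, rfl⟩ := he
      rw [hgram, Matrix.det_smul, Fintype.card_fin]
      exact ⟨c ^ k * (CfsgLib.Forms.gram ⇑Q ⇑e).det, by ring⟩)
    exact ⟨g, fun v => by rw [hg v]; simp⟩

end Cfsg.Agent.S2624
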