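import Cfsg.Statements.S2625
import Cfsg.Agent.Forms.Gram

set_option autoImplicit false
open Cfsg

namespace Cfsg.Agent.S2625

/-- For a quadratic form Q on F^n with non-degenerate polar form, F finite and n odd (so |F| is odd), the multiplier of any similarity is a square: if g is an invertible linear map with Q(g v) = c·Q(v) for all v then c is a square. -/
theorem result {F : Type*} [Field F] [Fintype F] {n : ℕ} (hn : Odd n) (Q : QuadraticForm F (Fin n → F)) (hQ : (QuadraticMap.polarBilin Q).Nondegenerate) (g : (Fin n → F) ≃ₗ[F] (Fin n → F)) (c : F) (hg : ∀ v, Q (g v) = c * Q v) : IsSquare c := by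
  classical
  have hdet0 := CfsgLib.Forms.det_gram_ne_zero hQ (Pi.basisFun F (Fin n))
  have h1 := CfsgLib.Forms.det_gram_change Q (Pi.basisFun F (Fin n)) ((Pi.basisFun F (Fin n)).map g)
  have h2 : CfsgLib.Forms.gram ⇑Q ⇑((Pi.basisFun F (Fin n)).map g) =
      c • CfsgLib.Forms.gram ⇑Q ⇑(Pi.basisFun F (Fin n)) := by
    ext i j
    simp only [CfsgLib.Forms.gram, Matrix.of_apply, Matrix.smul_apply, Module.Basis.map_apply, QuadraticMap.polar,
      ← map_add, hg, smul_eq_mul]
    ring
  rw [h2, Matrix.det_smul, Fintype.card_fin] at h1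
  have h3 := mul_right_cancel₀ hdet0 h1
  obtain ⟨k, rfl⟩ := hn
  set t := ((Pi.basisFun F (Fin (2 * k + 1))).toMatrix ⇑((Pi.basisFun F (Fin (2 * k + 1))).map g)).det
  by_cases hc : c = 0
  · exact hc ▸ IsSquare.zero
  · refine ⟨t / c ^ k, ?_⟩
    field_simp
    linear_combination h3

end Cfsg.Agent.S2625
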