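import Cfsg.Statements.S2629
import Cfsg.Agent.Forms.OmegaMatrix

set_option autoImplicit false
open Cfsg

namespace Cfsg.Agent.S2629

theorem std_max {F : Type*} [Field F] {m : ℕ} :
    CfsgLib.Forms.IsMaxSingular (CfsgLib.Forms.quadPlus F m)
      (LinearMap.ker (LinearMap.funLeft F F (Sum.inr : Fin m → Fin m ⊕ Fin m))) := by
  refine ⟨?_, fun u hu => ?_⟩
  · have hs : Function.Surjective (LinearMap.funLeft F F (Sum.inr : Fin m → Fin m ⊕ Fin m)) := fun w =>
      ⟨Sum.elim 0 w, funext fun i => rfl⟩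
    have := LinearMap.finrank_range_add_finrank_ker (LinearMap.funLeft F F (Sum.inr : Fin m → Fin m ⊕ Fin m))
    rw [LinearMap.range_eq_top.2 hs, finrank_top] at this
    simp at this ⊢
    omega
  · have : ∀ i, u (Sum.inr i) = 0 := fun i => congrFun (LinearMap.mem_ker.1 hu) i
    simp [Cfsg.quadFormPlus, this]

/-- For the hyperbolic form Σ x_i y_i on F^(2m) over a finite field of odd order (m ≥ 1), an isometry g preserves the class of the maximal totally singular subspace U₀ = {y = 0} (that is, m − dim(U₀ ∩ gU₀) is even) if and only if det g = 1: the stabiliser of each of the two classes of maximal totally singular subspaces is SO. -/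
theorem result {F : Type*} [Field F] [Fintype F] (h2 : (2 : F) ≠ 0) {m : ℕ} (hm : 1 ≤ m) (g : ↥(Cfsg.isometryGroup F (Cfsg.quadFormPlus m F))) : Even (m - Module.finrank F ↥(LinearMap.ker (LinearMap.funLeft F F (Sum.inr : Fin m → Fin m ⊕ Fin m)) ⊓ (LinearMap.ker (LinearMap.funLeft F F (Sum.inr : Fin m → Fin m ⊕ Fin m))).map (Matrix.mulVecLin ((g : Matrix.GeneralLinearGroup (Fin m ⊕ Fin m) F) : Matrix (Fin m ⊕ Fin m) (Fin m ⊕ Fin m) F)))) ↔ ((g : Matrix.GeneralLinearGroup (Fin m ⊕ Fin m) F) : Matrix (Fin m ⊕ Fin m) (Fin m ⊕ Fin m) F).det = 1 := by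
  revert g
  rw [← CfsgLib.Forms.coe_quadPlus F m]
  intro g
  set W := LinearMap.ker (LinearMap.funLeft F F (Sum.inr : Fin m → Fin m ⊕ Fin m))
  obtain ⟨l, hl⟩ := CfsgLib.Forms.exists_list (CfsgLib.Forms.nondegenerate_quadPlus m)
    (Or.inl (CfsgLib.Forms.natCard_ne_two h2)) g
  have hpar : (Module.finrank F ↥(W ⊓ W.map (CfsgLib.Forms.reflProd (CfsgLib.Forms.quadPlus F m) l : _ →ₗ[F] _)) + l.length) % 2 =
      Module.finrank F W % 2 := CfsgLib.Forms.finrank_inf_map_reflProd (CfsgLib.Forms.nondegenerate_quadPlus m) (std_max (F := F) (m := m)) l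
  have hWdim : Module.finrank F W = m := by
    have h1 := (std_max (F := F) (m := m)).1
    have h2 : Module.finrank F (Fin m ⊕ Fin m → F) = 2 * m := by simp; omega
    change 2 * Module.finrank F W = _ at h1
    omega
  have hle : Module.finrank F ↥(W ⊓ W.map (CfsgLib.Forms.reflProd (CfsgLib.Forms.quadPlus F m) l : _ →ₗ[F] _)) ≤ m :=
    (Submodule.finrank_mono inf_le_left).trans_eq hWdim
  rw [CfsgLib.Forms.mulVecLin_eq, hl, CfsgLib.Forms.det_of_list hl]
  rw [hWdim] at hpar
  show Even (m - Module.finrank F ↥(W ⊓ W.map (CfsgLib.Forms.reflProd (CfsgLib.Forms.quadPlus F m) l : _ →ₗ[F] _))) ↔ _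
  constructor
  · intro he
    rw [Nat.even_iff] at he
    exact Even.neg_one_pow (Nat.even_iff.2 (by omega))
  · intro hd
    rcases Nat.even_or_odd l.length with he | ho
    · rw [Nat.even_iff] at he ⊢; omega
    · rw [ho.neg_one_pow] at hd
      exact absurd (by linear_combination -hd : (2 : F) = 0) h2

end Cfsg.Agent.S2629
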