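import Cfsg.Statements.S2630
import Cfsg.Agent.Forms.OmegaMatrix

set_option autoImplicit false
open Cfsg

namespace Cfsg.Agent.S2630

theorem std_max {F : Type*} [Field F] {m : ℕ} :
    CfsgLib.Forms.IsMaxSingular (CfsgLib.Forms.quadPlus F m)
      (LinearMap.ker (LinearMap.funLeft F F (Sum.inr : Fin m → Fin m ⊕ Fin m))) := by
  refine ⟨?_, fun u hu => ?_⟩
  · have hs : Function.Surjective (LinearMap.funLeft F F (Sum.inr : Fin m → Fin m ⊕ Fin m)) := fun w =>
      ⟨Sum.elim 0 w, funext fun i => rfl⟩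
    have := LinearMap.finrank_range_add_finrank_ker (LinearMap.funLeft F F (Sum.inr : Fin m → Fin m ⊕ Fin m))
    rw [LinearMap.range_eq_top.2 hs, finrank_top] at this
    simp at this ⊢
    omega
  · have : ∀ i, u (Sum.inr i) = 0 := fun i => congrFun (LinearMap.mem_ker.1 hu) i
    simp [Cfsg.quadFormPlus, this]

/-- For the hyperbolic form Σ x_i y_i on F^(2m) over a finite field of characteristic two (m ≥ 1, excluding m = 2 over the field of two elements), an isometry g preserves the class of the maximal totally singular subspace U₀ = {y = 0} (m − dim(U₀ ∩ gU₀) even) if and only if g lies in Ω (the commutator subgroup of the orthogonal group): the stabiliser of each class is Ω. -/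
theorem result {F : Type*} [Field F] [Fintype F] [CharP F 2] {m : ℕ} (hm : 1 ≤ m) (h : Fintype.card F ≠ 2 ∨ m ≠ 2) (g : ↥(Cfsg.isometryGroup F (Cfsg.quadFormPlus m F))) : Even (m - Module.finrank F ↥(LinearMap.ker (LinearMap.funLeft F F (Sum.inr : Fin m → Fin m ⊕ Fin m)) ⊓ (LinearMap.ker (LinearMap.funLeft F F (Sum.inr : Fin m → Fin m ⊕ Fin m))).map (Matrix.mulVecLin ((g : Matrix.GeneralLinearGroup (Fin m ⊕ Fin m) F) : Matrix (Fin m ⊕ Fin m) (Fin m ⊕ Fin m) F)))) ↔ g ∈ Cfsg.Omega F (Cfsg.quadFormPlus m F) := by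
  revert g
  rw [← CfsgLib.Forms.coe_quadPlus F m]
  intro g
  set W := LinearMap.ker (LinearMap.funLeft F F (Sum.inr : Fin m → Fin m ⊕ Fin m))
  have hq : Nat.card F ≠ 2 ∨ Fintype.card (Fin m ⊕ Fin m) ≠ 4 := by
    rcases h with h | h
    · exact Or.inl (by rwa [Nat.card_eq_fintype_card])
    · exact Or.inr (by simp; omega)
  obtain ⟨l, hl⟩ := CfsgLib.Forms.exists_list (CfsgLib.Forms.nondegenerate_quadPlus m) hq g
  have hpar : (Module.finrank F ↥(W ⊓ W.map (CfsgLib.Forms.reflProd (CfsgLib.Forms.quadPlus F m) l : _ →ₗ[F] _)) + l.length) % 2 =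
      Module.finrank F W % 2 := CfsgLib.Forms.finrank_inf_map_reflProd (CfsgLib.Forms.nondegenerate_quadPlus m) (std_max (F := F) (m := m)) l
  have hWdim : Module.finrank F W = m := by
    have h1 := (std_max (F := F) (m := m)).1
    have h2 : Module.finrank F (Fin m ⊕ Fin m → F) = 2 * m := by simp; omega
    change 2 * Module.finrank F W = _ at h1
    omega
  have hle : Module.finrank F ↥(W ⊓ W.map (CfsgLib.Forms.reflProd (CfsgLib.Forms.quadPlus F m) l : _ →ₗ[F] _)) ≤ m :=
    (Submodule.finrank_mono inf_le_left).trans_eq hWdim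
  rw [CfsgLib.Forms.mulVecLin_eq, hl, CfsgLib.Forms.mem_Omega_of_list (CfsgLib.Forms.nondegenerate_quadPlus m) hq hl]
  rw [hWdim] at hpar
  show Even (m - Module.finrank F ↥(W ⊓ W.map (CfsgLib.Forms.reflProd (CfsgLib.Forms.quadPlus F m) l : _ →ₗ[F] _))) ↔ _
  obtain ⟨r, hr⟩ := CfsgLib.Forms.exists_sq CharTwo.two_eq_zero (CfsgLib.Forms.valueProd (CfsgLib.Forms.quadPlus F m) l)
  rw [Nat.even_iff, Nat.even_iff]
  exact ⟨fun he => ⟨by omega, r, hr.symm⟩, fun he => by have := he.1; omega⟩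

end Cfsg.Agent.S2630
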