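import Cfsg.Statements.S2631
import Cfsg.Agent.Forms.OmegaMatrix

set_option autoImplicit false
open Cfsg

namespace Cfsg.Agent.S2631

theorem exists_map_singular {F V : Type*} [Field F] [AddCommGroup V] [Module F V] [FiniteDimensional F V]
    {Q : QuadraticForm F V} (hQ : (QuadraticMap.polarBilin Q).Nondegenerate) {U W : Submodule F V}
    (hd : Module.finrank F U = Module.finrank F W) (hU : ∀ u ∈ U, Q u = 0) (hW : ∀ w ∈ W, Q w = 0) :
    ∃ g : V ≃ₗ[F] V, g ∈ CfsgLib.Forms.isom Q ∧ U.map (g : V →ₗ[F] V) = W := by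
  obtain ⟨e⟩ : Nonempty (U ≃ₗ[F] W) := ⟨LinearEquiv.ofFinrankEq _ _ hd⟩
  obtain ⟨g, hg, hge⟩ := CfsgLib.Forms.witt hQ U (W.subtype.comp e.toLinearMap)
    (Subtype.val_injective.comp e.injective) (fun x => (hW _ (e x).2).trans (hU _ x.2).symm)
  refine ⟨g, hg, ?_⟩
  ext z
  constructor
  · rintro ⟨a, ha, rfl⟩
    rw [LinearEquiv.coe_coe, hge ⟨a, ha⟩]
    exact (e ⟨a, ha⟩).2
  · intro hz
    refine ⟨(e.symm ⟨z, hz⟩ : U), (e.symm ⟨z, hz⟩).2, ?_⟩
    rw [LinearEquiv.coe_coe, hge]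
    exact congrArg Subtype.val (e.apply_symm_apply ⟨z, hz⟩)

/-- For the hyperbolic form Σ x_i y_i on F^(2m) over a finite field (m ≥ 1, excluding m = 2 over the field of two elements), Ω (the commutator subgroup of the orthogonal group) acts transitively on each of the two classes of maximal totally singular subspaces: if U and W are m-dimensional totally singular subspaces with m − dim(U ∩ W) even, some element of Ω carries U to W. -/
theorem result {F : Type*} [Field F] [Fintype F] {m : ℕ} (hm : 1 ≤ m) (h : Fintype.card F ≠ 2 ∨ m ≠ 2) (U W : Submodule F (Fin m ⊕ Fin m → F)) (hU : Module.finrank F U = m) (hW : Module.finrank F W = m) (hU0 : ∀ u ∈ U, Cfsg.quadFormPlus m F u = 0) (hW0 : ∀ w ∈ W, Cfsg.quadFormPlus m F w = 0) (he : Even (m - Module.finrank F ↥(U ⊓ W))) : ∃ g : ↥(Cfsg.isometryGroup F (Cfsg.quadFormPlus m F)), g ∈ Cfsg.Omega F (Cfsg.quadFormPlus m F) ∧ U.map (Matrix.mulVecLin ((g : Matrix.GeneralLinearGroup (Fin m ⊕ Fin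 m) F) : Matrix (Fin m ⊕ Fin m) (Fin m ⊕ Fin m) F)) = W := by
  revert he hW0 hU0
  rw [← CfsgLib.Forms.coe_quadPlus F m]
  intro hU0 hW0 he
  set Q := CfsgLib.Forms.quadPlus F m
  have hQ := CfsgLib.Forms.nondegenerate_quadPlus (F := F) m
  have hq : Nat.card F ≠ 2 ∨ Fintype.card (Fin m ⊕ Fin m) ≠ 4 := by
    rcases h with h | h
    · exact Or.inl (by rwa [Nat.card_eq_fintype_card])
    · exact Or.inr (by simp; omega)
  obtain ⟨g, hg, hgU⟩ := exists_map_singular hQ (hU.trans hW.symm) hU0 hW0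
  refine CfsgLib.Forms.exists_Omega_map hQ hq U W g hg hgU fun l hl => ?_
  have hmax : CfsgLib.Forms.IsMaxSingular Q U := ⟨by rw [hU]; simp; ring, hU0⟩
  have hpar := CfsgLib.Forms.finrank_inf_map_reflProd hQ hmax l
  rw [← hl, hgU, hU] at hpar
  have hle : Module.finrank F ↥(U ⊓ W) ≤ m := (Submodule.finrank_mono inf_le_left).trans_eq hU
  have heven : Even l.length := by rw [Nat.even_iff] at he ⊢; omega
  obtain ⟨d, hdU, hd0⟩ := Submodule.exists_mem_ne_zero_of_ne_bot (p := U) (fun hbot => by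
    rw [hbot, finrank_bot] at hU; omega)
  have hdp : d ∈ CfsgLib.Forms.perp Q U := by rw [hmax.perp_eq hQ]; exact hdU
  obtain ⟨f, -, hf, hdf⟩ := CfsgLib.Forms.exists_partner hQ (U := ⊥) (d := d)
    (CfsgLib.Forms.mem_perp.2 fun z hz => by rw [(Submodule.mem_bot F).1 hz]; exact QuadraticMap.polar_zero_right Q d)
    (hU0 d hdU) (by simpa using hd0)
  have hv := CfsgLib.Forms.valueProd_ne_zero l
  obtain ⟨s, hs1, hs2, hs3⟩ := CfsgLib.Forms.scale_list (hU0 d hdU) hf hdf hv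
  refine ⟨s, ?_, ?_, ?_⟩
  · rw [hs3]; exact CfsgLib.Forms.scale_map_eq (hU0 d hdU) hf hdf hv hdU hdp
  · rw [hs1]; exact heven.add even_two
  · rw [hs2, mul_inv_cancel₀ hv]; exact IsSquare.one

end Cfsg.Agent.S2631
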