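import Cfsg.Statements.S2632
import Cfsg.Agent.Forms.OmegaMatrix

set_option autoImplicit false
open Cfsg

namespace Cfsg.Agent.S2632

/-- Ω is transitive on non-degenerate subspaces of each isometry type: for a quadratic form Q on F^n, n ≥ 3, with non-degenerate polar form (F finite; excluding dimension 4 over the field of two elements), if U and W are subspaces on which the polar form is non-degenerate and there is a Q-preserving linear isomorphism U → W, then some element of Ω (the commutator subgroup of the orthogonal group) carries U to W. (In dimension 2 this fails: Ω can be {±1}, which fixes every line.) -/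
theorem result {F : Type*} [Field F] [Fintype F] {n : ℕ} (hn : 3 ≤ n) (h : Fintype.card F ≠ 2 ∨ n ≠ 4) (Q : QuadraticForm F (Fin n → F)) (hQ : (QuadraticMap.polarBilin Q).Nondegenerate) (U W : Submodule F (Fin n → F)) (hU : U ⊓ LinearMap.BilinForm.orthogonal (QuadraticMap.polarBilin Q) U = ⊥) (hW : W ⊓ LinearMap.BilinForm.orthogonal (QuadraticMap.polarBilin Q) W = ⊥) (e : U ≃ₗ[F] W) (he : ∀ u : U, Q (e u : Fin n → F) = Q (u : Fin n → F)) : ∃ g : ↥(Cfsg.isometryGroup F ⇑Q), g ∈ Cfsg.Omega F ⇑Q ∧ U.map (Matrix.mulVecLin ((g : Matrix.GeneralLinearGroup (Fin n) F) : Matrix (Fin n) (Fin n) F)) = W := by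
  have hq : Nat.card F ≠ 2 ∨ Fintype.card (Fin n) ≠ 4 := by simpa [Nat.card_eq_fintype_card] using h
  obtain ⟨g, hg, hge⟩ := CfsgLib.Forms.witt hQ U (W.subtype.comp e.toLinearMap)
    (Subtype.val_injective.comp e.injective) he
  have hgU : U.map (g : (Fin n → F) →ₗ[F] (Fin n → F)) = W := by
    ext z
    constructor
    · rintro ⟨a, ha, rfl⟩
      rw [LinearEquiv.coe_coe, hge ⟨a, ha⟩]
      exact (e ⟨a, ha⟩).2
    · intro hz
      refine ⟨(e.symm ⟨z, hz⟩ : U), (e.symm ⟨z, hz⟩).2, ?_⟩
      rw [LinearEquiv.coe_coe, hge]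
      exact congrArg Subtype.val (e.apply_symm_apply ⟨z, hz⟩)
  have hdisj : Disjoint U (CfsgLib.Forms.perp Q U) := disjoint_iff.2 hU
  have hval : ∀ c : F, c ≠ 0 → ∃ u : Fin n → F, Q u = c ∧ (u ∈ U ∨ u ∈ CfsgLib.Forms.perp Q U) := by
    intro c hc
    by_cases h2U : 2 ≤ Module.finrank F U
    · obtain ⟨u, hu⟩ := CfsgLib.Forms.exists_value (CfsgLib.Forms.nondegenerate_comp_subtype hdisj) h2U hc
      exact ⟨u, hu, Or.inl u.2⟩
    · obtain ⟨u, hu⟩ := CfsgLib.Forms.exists_value (V := CfsgLib.Forms.perp Q U)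
        (Q := Q.comp (CfsgLib.Forms.perp Q U).subtype)
        (CfsgLib.Forms.nondegenerate_comp_subtype (by rw [CfsgLib.Forms.perp_perp hQ]; exact hdisj.symm))
        (by rw [CfsgLib.Forms.finrank_perp hQ]; simp; omega) hc
      exact ⟨u, hu, Or.inr u.2⟩
  exact CfsgLib.Forms.exists_Omega_map hQ hq U W g hg hgU
    (fun l _ => CfsgLib.Forms.exists_correction hval l)

end Cfsg.Agent.S2632
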