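import Cfsg.Statements.S2633
import Cfsg.Agent.Forms.OmegaMatrix

set_option autoImplicit false
open Cfsg

namespace Cfsg.Agent.S2633

theorem exists_map_singular {F V : Type*} [Field F] [AddCommGroup V] [Module F V] [FiniteDimensional F V]
    {Q : QuadraticForm F V} (hQ : (QuadraticMap.polarBilin Q).Nondegenerate) {U W : Submodule F V}
    (hd : Module.finrank F U = Module.finrank F W) (hU : ∀ u ∈ U, Q u = 0) (hW : ∀ w ∈ W, Q w = 0) :
    ∃ g : V ≃ₗ[F] V, g ∈ CfsgLib.Forms.isom Q ∧ U.map (g : V →ₗ[F] V) = W := by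
  obtain ⟨e⟩ : Nonempty (U ≃ₗ[F] W) := ⟨LinearEquiv.ofFinrankEq _ _ hd⟩
  obtain ⟨g, hg, hge⟩ := CfsgLib.Forms.witt hQ U (W.subtype.comp e.toLinearMap)
    (Subtype.val_injective.comp e.injective) (fun x => (hW _ (e x).2).trans (hU _ x.2).symm)
  refine ⟨g, hg, ?_⟩
  ext z
  constructor
  · rintro ⟨a, ha, rfl⟩
    rw [LinearEquiv.coe_coe, hge ⟨a, ha⟩]
    exact (e ⟨a, ha⟩).2
  · intro hz
    refine ⟨(e.symm ⟨z, hz⟩ : U), (e.symm ⟨z, hz⟩).2, ?_⟩
    rw [LinearEquiv.coe_coe, hge]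
    exact congrArg Subtype.val (e.apply_symm_apply ⟨z, hz⟩)

/-- Ω is transitive on totally singular subspaces of each dimension less than half the dimension: for a quadratic form Q on F^n with non-degenerate polar form (F finite; excluding dimension 4 over the field of two elements), if U and W are subspaces of the same dimension k with 2k < n on which Q vanishes, then some element of Ω (the commutator subgroup of the orthogonal group) carries U to W. -/
theorem result {F : Type*} [Field F] [Fintype F] {n : ℕ} (h : Fintype.card F ≠ 2 ∨ n ≠ 4) (Q : QuadraticForm F (Fin n → F)) (hQ : (QuadraticMap.polarBilin Q).Nondegenerate) (U W : Submodule F (Fin n → F)) {k : ℕ} (hk : 2 * k < n) (hU : Module.finrank F U = k) (hW : Module.finrank F W = k) (hU0 : ∀ u ∈ U, Q u = 0) (hW0 : ∀ w ∈ W, Q w = 0) : ∃ g : ↥(Cfsg.isometryGroup F ⇑Q), g ∈ Cfsg.Omega F ⇑Q ∧ U.map (Matrix.mulVecLin ((g : Matrix.GeneralLinearGroup (Fin n) F) : Matrix (Fin n) (Fin n)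 F)) = W := by
  have hq : Nat.card F ≠ 2 ∨ Fintype.card (Fin n) ≠ 4 := by simpa [Nat.card_eq_fintype_card] using h
  obtain ⟨g, hg, hgU⟩ := exists_map_singular hQ (hU.trans hW.symm) hU0 hW0
  by_cases hk0 : k = 0
  · refine ⟨1, one_mem _, ?_⟩
    rw [Submodule.finrank_eq_zero.1 (hU.trans hk0), Submodule.finrank_eq_zero.1 (hW.trans hk0), Submodule.map_bot]
  refine CfsgLib.Forms.exists_Omega_map hQ hq U W g hg hgU fun l _ => ?_
  obtain ⟨d, hdU, hd0⟩ := Submodule.exists_mem_ne_zero_of_ne_bot (p := U) (fun hbot => by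
    rw [hbot, finrank_bot] at hU; omega)
  have hle : U ≤ CfsgLib.Forms.perp Q U := fun a ha => CfsgLib.Forms.mem_perp.2 fun b hb =>
    CfsgLib.Forms.polar_eq_zero_of_singular hU0 ha hb
  obtain ⟨w, hwp, hw0⟩ : ∃ w ∈ CfsgLib.Forms.perp Q U, Q w ≠ 0 := by
    by_contra hall
    push Not at hall
    have := CfsgLib.Forms.two_finrank_le_of_singular hQ hall
    rw [CfsgLib.Forms.finrank_perp hQ, hU] at this
    simp at this
    omega
  obtain ⟨f, -, hf, hdf⟩ := CfsgLib.Forms.exists_partner hQ (U := ⊥) (d := d)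
    (CfsgLib.Forms.mem_perp.2 fun z hz => by rw [(Submodule.mem_bot F).1 hz]; exact QuadraticMap.polar_zero_right Q d)
    (hU0 d hdU) (by simpa using hd0)
  have hv := CfsgLib.Forms.valueProd_ne_zero l
  rcases Nat.even_or_odd l.length with he | ho
  · obtain ⟨s, hs1, hs2, hs3⟩ := CfsgLib.Forms.scale_list (hU0 d hdU) hf hdf hv
    refine ⟨s, ?_, ?_, ?_⟩
    · rw [hs3]; exact CfsgLib.Forms.scale_map_eq (hU0 d hdU) hf hdf hv hdU (hle hdU)
    · rw [hs1]; exact he.add even_two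
    · rw [hs2, mul_inv_cancel₀ hv]; exact IsSquare.one
  · have hc : CfsgLib.Forms.valueProd Q l * Q w ≠ 0 := mul_ne_zero hv hw0
    obtain ⟨s, hs1, hs2, hs3⟩ := CfsgLib.Forms.scale_list (hU0 d hdU) hf hdf hc
    refine ⟨⟨w, hw0⟩ :: s, ?_, ?_, ?_⟩
    · have : (CfsgLib.Forms.reflProd Q (⟨w, hw0⟩ :: s) : (Fin n → F) →ₗ[F] (Fin n → F)) =
          (CfsgLib.Forms.refl Q w hw0 : (Fin n → F) →ₗ[F] (Fin n → F)) ∘ₗ
            (CfsgLib.Forms.reflProd Q s : (Fin n → F) →ₗ[F] (Fin n → F)) := rfl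
      rw [this, Submodule.map_comp, hs3, CfsgLib.Forms.scale_map_eq (hU0 d hdU) hf hdf hc hdU (hle hdU)]
      exact CfsgLib.Forms.refl_map_eq_of_mem hw0 (Or.inr hwp)
    · rw [List.length_cons, hs1]; exact ho.add_odd (by decide)
    · rw [show CfsgLib.Forms.valueProd Q (⟨w, hw0⟩ :: s) = Q w * CfsgLib.Forms.valueProd Q s by
        simp [CfsgLib.Forms.valueProd], hs2]
      refine ⟨1, ?_⟩
      field_simp

end Cfsg.Agent.S2633
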