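import Cfsg.Statements.S2634
import Cfsg.Agent.Forms.OmegaMatrix

set_option autoImplicit false
open Cfsg

namespace Cfsg.Agent.S2634

/-- Over a finite field of characteristic two, Ω (the commutator subgroup of the orthogonal group of a quadratic form Q on F^n with non-degenerate polar form; excluding dimension 4 over the field of two elements) acts transitively on the non-singular 1-spaces: for u, v with Q(u) ≠ 0 and Q(v) ≠ 0 some element of Ω carries the line through u to the line through v. -/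
theorem result {F : Type*} [Field F] [Fintype F] [CharP F 2] {n : ℕ} (h : Fintype.card F ≠ 2 ∨ n ≠ 4) (Q : QuadraticForm F (Fin n → F)) (hQ : (QuadraticMap.polarBilin Q).Nondegenerate) (u v : Fin n → F) (hu : Q u ≠ 0) (hv : Q v ≠ 0) : ∃ g : ↥(Cfsg.isometryGroup F ⇑Q), g ∈ Cfsg.Omega F ⇑Q ∧ (F ∙ ((g : Matrix.GeneralLinearGroup (Fin n) F) : Matrix (Fin n) (Fin n) F).mulVec u) = F ∙ v := by
  have h2 : (2 : F) = 0 := CharTwo.two_eq_zero
  have hq : Nat.card F ≠ 2 ∨ Fintype.card (Fin n) ≠ 4 := by simpa [Nat.card_eq_fintype_card] using h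
  obtain ⟨t, ht⟩ := CfsgLib.Forms.exists_sq h2 (Q u / Q v)
  have hQtv : Q (t • v) = Q u := by rw [QuadraticMap.map_smul, smul_eq_mul, ht, div_mul_cancel₀ _ hv]
  have htv : t • v ≠ 0 := fun h0 => hu (by rw [← hQtv, h0, QuadraticMap.map_zero])
  have hu0 : u ≠ 0 := fun h0 => hu (by rw [h0, QuadraticMap.map_zero])
  let sp := LinearEquiv.toSpanNonzeroSingleton F (Fin n → F) u hu0
  let φ : (F ∙ u) →ₗ[F] (Fin n → F) := (LinearMap.toSpanSingleton F (Fin n → F) (t • v)).comp sp.symm.toLinearMap
  obtain ⟨g, hg, hge⟩ := CfsgLib.Forms.witt hQ (F ∙ u) φ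
    (fun a b e => sp.symm.injective (smul_left_injective F htv e))
    (fun x => by
      show Q (sp.symm x • t • v) = _
      conv_rhs => rw [← sp.apply_symm_apply x]
      show _ = Q (sp.symm x • u)
      rw [QuadraticMap.map_smul, hQtv, QuadraticMap.map_smul])
  have hgu : g u = t • v := by
    rw [hge ⟨u, Submodule.mem_span_singleton_self u⟩]
    show sp.symm _ • t • v = _
    have e : sp.symm ⟨u, Submodule.mem_span_singleton_self u⟩ = 1 := by
      rw [LinearEquiv.symm_apply_eq]; exact Subtype.ext (one_smul F u).symm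
    rw [e, one_smul]
  have ht0 : t ≠ 0 := fun h0 => htv (by rw [h0, zero_smul])
  obtain ⟨x, hx, hxU⟩ := CfsgLib.Forms.exists_Omega_map hQ hq (F ∙ u) (F ∙ v) g hg (by
      rw [Submodule.map_span, Set.image_singleton, LinearEquiv.coe_coe, hgu,
        Submodule.span_singleton_smul_eq (IsUnit.mk0 t ht0)])
    (fun l _ => CfsgLib.Forms.exists_correction (fun c hc => by
      obtain ⟨a, ha⟩ := CfsgLib.Forms.exists_sq h2 (c / Q u)
      exact ⟨a • u, by rw [QuadraticMap.map_smul, smul_eq_mul, ha, div_mul_cancel₀ _ hu],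
        Or.inl (Submodule.smul_mem _ _ (Submodule.mem_span_singleton_self u))⟩) l)
  refine ⟨x, hx, ?_⟩
  rw [← hxU, Submodule.map_span, Set.image_singleton]
  rfl

end Cfsg.Agent.S2634
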