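import Cfsg.Statements.S2635
import Cfsg.Agent.Forms.OmegaMatrix

set_option autoImplicit false
open Cfsg

namespace Cfsg.Agent.S2635

/-- Over a finite field of characteristic two, for a quadratic form Q on F^n with non-degenerate polar form, n ≥ 2, other than dimension 4 over the field of two elements, Ω (the commutator subgroup of the orthogonal group) is exactly the subgroup generated by the products of two reflections (orthogonal transvections) x ↦ x − Q(v)⁻¹ f(x, v) v, Q(v) ≠ 0: the products of an even number of reflections. -/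
theorem result {F : Type*} [Field F] [Fintype F] [CharP F 2] {n : ℕ} (hn : 2 ≤ n) (h : Fintype.card F ≠ 2 ∨ n ≠ 4) (Q : QuadraticForm F (Fin n → F)) (hQ : (QuadraticMap.polarBilin Q).Nondegenerate) : Cfsg.Omega F ⇑Q = Subgroup.closure {g : ↥(Cfsg.isometryGroup F ⇑Q) | ∃ u v : Fin n → F, Q u ≠ 0 ∧ Q v ≠ 0 ∧ ((g : Matrix.GeneralLinearGroup (Fin n) F) : Matrix (Fin n) (Fin n) F) = Cfsg.reflectionMatrix ⇑Q u * Cfsg.reflectionMatrix ⇑Q v} := by
  have h2 : (2 : F) = 0 := CharTwo.two_eq_zero
  have hq : Nat.card F ≠ 2 ∨ Fintype.card (Fin n) ≠ 4 := by simpa [Nat.card_eq_fintype_card] using h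
  refine le_antisymm (fun g hg => ?_) ((Subgroup.closure_le _).2 ?_)
  · obtain ⟨l, hl⟩ := CfsgLib.Forms.exists_list hQ hq g
    have he := ((CfsgLib.Forms.mem_Omega_of_list hQ hq hl).1 hg).1
    have hg' : g = CfsgLib.Forms.listGL Q l :=
      (CfsgLib.Forms.isoEquiv Q).injective (hl.trans (CfsgLib.Forms.isoEquiv_listGL l).symm)
    rw [hg']
    clear hg' hl hg
    -- pair up the factors
    revert he
    suffices ∀ (k : ℕ) (l : List {u : Fin n → F // Q u ≠ 0}), l.length ≤ k → Even l.length →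
        CfsgLib.Forms.listGL Q l ∈ _ from this l.length l le_rfl
    intro k
    induction k with
    | zero =>
      intro l hk _
      obtain rfl : l = [] := List.eq_nil_of_length_eq_zero (Nat.le_zero.1 hk)
      have : CfsgLib.Forms.listGL Q [] = 1 := (CfsgLib.Forms.isoEquiv Q).symm.map_one
      rw [this]; exact one_mem _
    | succ k ih =>
      intro l hk hl
      match l, hk, hl with
      | [], _, _ =>
        have : CfsgLib.Forms.listGL Q [] = 1 := (CfsgLib.Forms.isoEquiv Q).symm.map_one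
        rw [this]; exact one_mem _
      | [u], _, hl => simp at hl
      | u :: w :: t, hk, hl =>
        have e : CfsgLib.Forms.listGL Q (u :: w :: t) =
            (CfsgLib.Forms.reflGL Q u.1 u.2 * CfsgLib.Forms.reflGL Q w.1 w.2) * CfsgLib.Forms.listGL Q t := by
          apply (CfsgLib.Forms.isoEquiv Q).injective
          simp only [map_mul, CfsgLib.Forms.isoEquiv_listGL, CfsgLib.Forms.reflGL, MulEquiv.apply_symm_apply]
          exact Subtype.ext (mul_assoc _ _ _).symm
        rw [e]
        refine mul_mem (Subgroup.subset_closure ⟨u.1, w.1, u.2, w.2, ?_⟩) (ih t ?_ ?_)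
        · rw [Subgroup.coe_mul, Units.val_mul, CfsgLib.Forms.coe_reflGL, CfsgLib.Forms.coe_reflGL]
        · simp at hk; omega
        · simpa [Nat.even_add_one] using hl
  · rintro g ⟨u, v, hu, hv, hg⟩
    have e : g = CfsgLib.Forms.listGL Q [⟨u, hu⟩, ⟨v, hv⟩] := by
      refine Subtype.ext (Units.ext (hg.trans ?_))
      rw [← CfsgLib.Forms.coe_reflGL Q u hu, ← CfsgLib.Forms.coe_reflGL Q v hv, ← Units.val_mul, ← Subgroup.coe_mul]
      refine congrArg _ (congrArg _ ?_)
      apply (CfsgLib.Forms.isoEquiv Q).injective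
      simp only [map_mul, CfsgLib.Forms.isoEquiv_listGL, CfsgLib.Forms.reflGL, MulEquiv.apply_symm_apply]
      rfl
    show g ∈ Cfsg.Omega F ⇑Q
    rw [CfsgLib.Forms.mem_Omega_of_list hQ hq (l := [⟨u, hu⟩, ⟨v, hv⟩]) (e ▸ CfsgLib.Forms.isoEquiv_listGL _)]
    obtain ⟨r, hr⟩ := CfsgLib.Forms.exists_sq h2 (CfsgLib.Forms.valueProd Q [⟨u, hu⟩, ⟨v, hv⟩])
    exact ⟨⟨1, rfl⟩, r, hr.symm⟩

end Cfsg.Agent.S2635
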