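import Cfsg.Statements.S2636
import Mathlib

set_option autoImplicit false
open Cfsg

namespace Cfsg.Agent.S2636

/-- Centraliser of a field automorphism in PGL_n: let F be the field with q = q₀^r elements, σ a field automorphism of F of prime order r (so its fixed field has q₀ elements) and n ≥ 1. The invertible matrices g whose entrywise image under σ is a scalar multiple of g — those whose coset modulo scalars is fixed by σ — number (q − 1)/(q₀ − 1) · |GL_n(q₀)|; equivalently the centraliser in PGL_n(q) of the induced automorphism has the order of PGL_n(q₀). -/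
theorem result {F : Type*} [Field F] [Fintype F] {q₀ r n : ℕ} (hr : r.Prime) (hn : 1 ≤ n) (hF : Fintype.card F = q₀ ^ r) (σ : F ≃+* F) (hσ : orderOf σ = r) : Nat.card {g : GL (Fin n) F // ∃ c : F, c ≠ 0 ∧ (g : Matrix (Fin n) (Fin n) F).map σ = c • (g : Matrix (Fin n) (Fin n) F)} = (q₀ ^ r - 1) / (q₀ - 1) * ∏ i : Fin n, (q₀ ^ n - q₀ ^ (i : ℕ)) := by
  classical
  let H : Subgroup (RingAut F) := Subgroup.zpowers (σ : RingAut F)
  let K := FixedPoints.subfield H F
  haveI : Finite H := Nat.finite_of_card_ne_zero (by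
    show Nat.card (Subgroup.zpowers (σ : RingAut F)) ≠ 0
    rw [Nat.card_zpowers]; exact fun h => hr.ne_zero (hσ.symm.trans h))
  haveI : Fintype H := Fintype.ofFinite H
  haveI : FaithfulSMul H F := ⟨fun {a b} h => Subtype.ext (RingEquiv.ext fun x => h x)⟩
  have hH : Nat.card H = r := by
    show Nat.card (Subgroup.zpowers (σ : RingAut F)) = r
    rw [Nat.card_zpowers]; exact hσ
  have hfr : Module.finrank K F = r := by
    rw [FixedPoints.finrank_eq_card, ← Nat.card_eq_fintype_card, hH]
  have hKc : Nat.card K = q₀ := by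
    have h := Module.natCard_eq_pow_finrank (K := K) (V := F)
    rw [hfr, Nat.card_eq_fintype_card (α := F), hF] at h
    exact (Nat.pow_left_injective hr.ne_zero h).symm
  have hfix : ∀ x : F, x ∈ K ↔ σ x = x := by
    intro x
    constructor
    · intro hx; exact hx ⟨σ, Subgroup.mem_zpowers _⟩
    · intro hx m
      have : (σ : RingAut F) ∈ MulAction.stabilizer (RingAut F) x := hx
      exact ((Subgroup.zpowers_le.2 this) m.2 : _)
  let S : Subgroup (GL (Fin n) F) :=
    { carrier := {g | ∃ c : F, c ≠ 0 ∧ (g : Matrix (Fin n) (Fin n) F).map σ = c • (g : Matrix (Fin n) (Fin n) F)}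
      mul_mem' := by
        rintro a b ⟨c, hc, ha⟩ ⟨d, hd, hb⟩
        refine ⟨c * d, mul_ne_zero hc hd, ?_⟩
        rw [Units.val_mul, Matrix.map_mul, ha, hb, Matrix.smul_mul, Matrix.mul_smul, smul_smul]
      one_mem' := ⟨1, one_ne_zero, by rw [Units.val_one, Matrix.map_one _ (map_zero σ) (map_one σ), one_smul]⟩
      inv_mem' := by
        rintro a ⟨c, hc, ha⟩
        refine ⟨c⁻¹, inv_ne_zero hc, ?_⟩
        have h1 : ((a⁻¹ : GL (Fin n) F) : Matrix (Fin n) (Fin n) F).map σ * (a : Matrix (Fin n) (Fin n) F).map σ = 1 := by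
          rw [← Matrix.map_mul, ← Units.val_mul, inv_mul_cancel, Units.val_one, Matrix.map_one _ (map_zero σ) (map_one σ)]
        rw [ha, Matrix.mul_smul, ← Matrix.smul_mul] at h1
        have h2 : c • ((a⁻¹ : GL (Fin n) F) : Matrix (Fin n) (Fin n) F).map σ = ((a⁻¹ : GL (Fin n) F) : Matrix (Fin n) (Fin n) F) :=
          (Units.mul_eq_one_iff_eq_inv.1 h1 : _)
        conv_rhs => rw [← h2]
        rw [smul_smul, inv_mul_cancel₀ hc, one_smul] }
  have hentry : ∀ g : GL (Fin n) F, ∃ i j, (g : Matrix (Fin n) (Fin n) F) i j ≠ 0 := by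
    intro g
    by_contra h
    push Not at h
    haveI : Nonempty (Fin n) := ⟨⟨0, hn⟩⟩
    exact g.ne_zero (Matrix.ext h)
  have huniq : ∀ (g : GL (Fin n) F) (c d : F), c • (g : Matrix (Fin n) (Fin n) F) = d • (g : Matrix (Fin n) (Fin n) F) → c = d := by
    intro g c d h
    obtain ⟨i, j, hij⟩ := hentry g
    exact mul_right_cancel₀ hij (by simpa using congrFun (congrFun h i) j)
  let χ : S →* Fˣ := MonoidHom.mk' (fun g => Units.mk0 g.2.choose g.2.choose_spec.1) fun a b => by
    refine Units.ext (huniq (a * b : S) _ _ ((a * b).2.choose_spec.2.symm.trans ?_))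
    have e := congrArg₂ (fun P Q : Matrix (Fin n) (Fin n) F => P * Q) a.2.choose_spec.2 b.2.choose_spec.2
    rw [Units.val_mul, Units.val_mk0, Units.val_mk0, Subgroup.coe_mul, Units.val_mul]
    refine Matrix.map_mul.trans (e.trans ?_)
    simp only [Matrix.smul_mul, Matrix.mul_smul, smul_smul]
    congr 1; exact mul_comm _ _
  have hχ : ∀ g : S, ((g : GL (Fin n) F) : Matrix (Fin n) (Fin n) F).map σ = (χ g : F) • ((g : GL (Fin n) F) : Matrix (Fin n) (Fin n) F) :=
    fun g => g.2.choose_spec.2
  let ψ : Fˣ →* Fˣ := Units.map (σ : F →* F) / MonoidHom.id Fˣ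
  have hψ : ∀ d : Fˣ, (ψ d : F) = σ d / d := fun d => by
    simp [ψ, div_eq_mul_inv]
  have hrange : χ.range = ψ.range := by
    refine le_antisymm ?_ ?_
    · rintro _ ⟨g, rfl⟩
      obtain ⟨i, j, hij⟩ := hentry (g : GL (Fin n) F)
      refine ⟨Units.mk0 _ hij, Units.ext ?_⟩
      rw [hψ, Units.val_mk0]
      have := congrFun (congrFun (hχ g) i) j
      rw [Matrix.map_apply, Matrix.smul_apply, smul_eq_mul] at this
      rw [this, mul_div_assoc, div_self hij, mul_one]
    · rintro _ ⟨d, rfl⟩
      have hm : Matrix.GeneralLinearGroup.scalar (Fin n) d ∈ S := by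
        refine ⟨σ d / d, div_ne_zero ((map_ne_zero σ).2 d.ne_zero) d.ne_zero, ?_⟩
        ext i j
        simp only [Matrix.GeneralLinearGroup.scalar, Matrix.map_apply, Matrix.smul_apply, smul_eq_mul]
        by_cases h : i = j
        · subst h; simp [div_mul_cancel₀]
        · simp [h]
      refine ⟨⟨_, hm⟩, Units.ext (huniq (Matrix.GeneralLinearGroup.scalar (Fin n) d) _ _ ?_)⟩
      rw [← hχ ⟨_, hm⟩, hψ]
      ext i j
      simp only [Matrix.GeneralLinearGroup.scalar, Matrix.map_apply, Matrix.smul_apply, smul_eq_mul]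
      by_cases h : i = j
      · subst h; simp [div_mul_cancel₀]
      · simp [h]
  have hkψ : Nat.card ψ.ker = q₀ - 1 := by
    rw [← hKc, ← Nat.card_units]
    refine (Nat.card_congr (Equiv.ofBijective (fun u : Kˣ => (⟨Units.map (K.subtype : K →* F) u, ?_⟩ : ψ.ker)) ⟨?_, ?_⟩)).symm
    · refine MonoidHom.mem_ker.2 (Units.ext ?_)
      rw [hψ, Units.val_one]
      show σ ((u : K) : F) / ((u : K) : F) = 1
      rw [(hfix _).1 (u : K).2, div_self]
      exact fun h => u.ne_zero (Subtype.ext h)
    · intro a b h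
      exact Units.ext (Subtype.ext (congrArg (fun z : ψ.ker => ((z : Fˣ) : F)) h))
    · rintro ⟨d, hd⟩
      have h1 : σ (d : F) = d := by
        have := congrArg Units.val (MonoidHom.mem_ker.1 hd)
        rw [hψ, Units.val_one, div_eq_one_iff_eq d.ne_zero] at this
        exact this
      exact ⟨Units.mk0 ⟨(d : F), (hfix _).2 h1⟩ (fun h => d.ne_zero (congrArg Subtype.val h)), Subtype.ext (Units.ext rfl)⟩
  have hkχ : Nat.card χ.ker = Nat.card (GL (Fin n) K) := by
    let ι : GL (Fin n) K →* GL (Fin n) F := Matrix.GeneralLinearGroup.map K.subtype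
    have hι : Function.Injective ι := fun a b h => Units.ext (Matrix.map_injective Subtype.val_injective (congrArg Units.val h))
    have hmap : χ.ker.map S.subtype = ι.range := by
      ext g
      constructor
      · rintro ⟨⟨g, hg⟩, hk, rfl⟩
        have hone : (χ ⟨g, hg⟩ : F) = 1 := by rw [MonoidHom.mem_ker.1 hk]; rfl
        have h1 : (g : Matrix (Fin n) (Fin n) F).map σ = g := by
          have := hχ ⟨g, hg⟩; rwa [hone, one_smul] at this
        have h2 : ((g⁻¹ : GL (Fin n) F) : Matrix (Fin n) (Fin n) F).map σ = (g⁻¹ : GL (Fin n) F) := by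
          refine (Units.mul_eq_one_iff_eq_inv (u := g)).1 ?_
          rw [← h1, ← Matrix.map_mul, ← Units.val_mul, inv_mul_cancel, Units.val_one, Matrix.map_one _ (map_zero σ) (map_one σ)]
        let A : Matrix (Fin n) (Fin n) K := fun i j => ⟨_, (hfix _).2 (congrFun (congrFun h1 i) j)⟩
        let B : Matrix (Fin n) (Fin n) K := fun i j => ⟨_, (hfix _).2 (congrFun (congrFun h2 i) j)⟩
        have hA : A.map K.subtype = g := rfl
        have hB : B.map K.subtype = (g⁻¹ : GL (Fin n) F) := rfl
        refine ⟨⟨A, B, Matrix.map_injective Subtype.val_injective ?_, Matrix.map_injective Subtype.val_injective ?_⟩, Units.ext rfl⟩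
        · show (A * B).map K.subtype = (1 : Matrix (Fin n) (Fin n) K).map K.subtype
          rw [Matrix.map_mul, hA, hB, Units.mul_inv, Matrix.map_one _ (map_zero _) (map_one _)]
        · show (B * A).map K.subtype = (1 : Matrix (Fin n) (Fin n) K).map K.subtype
          rw [Matrix.map_mul, hA, hB, Units.inv_mul, Matrix.map_one _ (map_zero _) (map_one _)]
      · rintro ⟨a, rfl⟩
        have h1 : ((ι a : GL (Fin n) F) : Matrix (Fin n) (Fin n) F).map σ = (1 : F) • ((ι a : GL (Fin n) F) : Matrix (Fin n) (Fin n) F) := by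
          rw [one_smul]; ext i j; exact (hfix _).1 ((a : Matrix (Fin n) (Fin n) K) i j).2
        refine ⟨⟨ι a, 1, one_ne_zero, h1⟩, MonoidHom.mem_ker.2 (Units.ext (huniq (ι a) _ _ ?_)), rfl⟩
        rw [← hχ ⟨ι a, 1, one_ne_zero, h1⟩, Units.val_one]
        exact h1
    rw [Nat.card_congr (χ.ker.equivMapOfInjective S.subtype S.subtype_injective).toEquiv, hmap]
    exact Nat.card_congr (MonoidHom.ofInjective hι).toEquiv.symm
  have hrψ : Nat.card ψ.range = (q₀ ^ r - 1) / (q₀ - 1) := by
    have h := Subgroup.card_eq_card_quotient_mul_card_subgroup ψ.ker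
    rw [Nat.card_congr (QuotientGroup.quotientKerEquivRange ψ).toEquiv, hkψ, Nat.card_units,
      Nat.card_eq_fintype_card, hF] at h
    have hq : 2 ≤ q₀ := by rw [← hKc]; exact Finite.one_lt_card
    rw [h, Nat.mul_div_cancel _ (by omega)]
  have h := Subgroup.card_eq_card_quotient_mul_card_subgroup χ.ker
  rw [Nat.card_congr (QuotientGroup.quotientKerEquivRange χ).toEquiv, hrange, hrψ, hkχ] at h
  show Nat.card S = _
  rw [h]
  haveI : Fintype K := Fintype.ofFinite K
  rw [Matrix.card_GL_field, ← Nat.card_eq_fintype_card, hKc]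

end Cfsg.Agent.S2636
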