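import Cfsg.Statements.S2637
import Cfsg.Agent.UGeom.Count
import Cfsg.Agent.S0755

set_option autoImplicit false
open Cfsg

namespace Cfsg.Agent.S2637

open Matrix Polynomial

/-- The alternating form of `Matrix.J`. -/
def sform {F : Type*} [CommRing F] (m : ℕ) (u v : Fin m ⊕ Fin m → F) : F :=
  u ⬝ᵥ (Matrix.J (Fin m) F *ᵥ v)

theorem sform_mulVec_iff {F : Type*} [CommRing F] {m : ℕ}
    (A : Matrix (Fin m ⊕ Fin m) (Fin m ⊕ Fin m) F) :
    A ∈ Matrix.symplecticGroup (Fin m) F ↔ ∀ u v, sform m (A *ᵥ u) (A *ᵥ v) = sform m u v := by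
  have key : ∀ u v, sform m (A *ᵥ u) (A *ᵥ v) = u ⬝ᵥ ((Aᵀ * Matrix.J (Fin m) F * A) *ᵥ v) := by
    intro u v
    rw [sform, ← Matrix.vecMul_transpose, ← Matrix.dotProduct_mulVec, Matrix.mulVec_mulVec,
      Matrix.mulVec_mulVec, Matrix.mul_assoc]
  rw [SymplecticGroup.mem_iff']
  constructor
  · intro h u v
    rw [key, h, sform]
  · intro h
    refine Matrix.ext fun i j => ?_
    have h1 := h (Pi.single i 1) (Pi.single j 1)
    rw [key, sform] at h1
    simpa using h1

theorem sform_self {F : Type*} [CommRing F] {m : ℕ} (v : Fin m ⊕ Fin m → F) : sform m v v = 0 := by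
  simp [sform, Matrix.J, Matrix.fromBlocks_mulVec, dotProduct, Fintype.sum_sum_type, Matrix.neg_mulVec,
    mul_comm]

theorem sform_nondeg {F : Type*} [CommRing F] {m : ℕ} {u : Fin m ⊕ Fin m → F}
    (h : ∀ v, sform m u v = 0) : u = 0 := by
  funext i
  have h1 := h ((-Matrix.J (Fin m) F) *ᵥ Pi.single i 1)
  rw [sform, Matrix.mulVec_mulVec, Matrix.mul_neg, Matrix.J_squared, neg_neg, Matrix.one_mulVec] at h1
  simpa using h1

set_option maxHeartbeats 1600000 in
theorem card_centralizer {F : Type*} [Field F] [Fintype F] {q : ℕ} (hF : Fintype.card F = q) (hq : q % 3 = 2)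
    {m : ℕ} (x : Matrix.symplecticGroup (Fin m) F) (hx3 : x ^ 3 = 1)
    (hfpf : IsUnit ((x : Matrix (Fin m ⊕ Fin m) (Fin m ⊕ Fin m) F) - 1)) :
    Nat.card ↥(Subgroup.centralizer ({x} : Set ↥(Matrix.symplecticGroup (Fin m) F))) =
      q ^ (m * (m - 1) / 2) * ∏ i ∈ Finset.range m, (if Even i then q ^ (i + 1) + 1 else q ^ (i + 1) - 1) := by
  classical
  set X : Matrix (Fin m ⊕ Fin m) (Fin m ⊕ Fin m) F := x.1 with hX
  have hX3 : X ^ 3 = 1 := by
    have := congrArg (fun g : Matrix.symplecticGroup (Fin m) F => g.1) hx3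
    simpa [hX] using this
  have hquad : X ^ 2 + X + 1 = 0 := by
    have h1 : (X - 1) * (X ^ 2 + X + 1) = 0 := by
      calc (X - 1) * (X ^ 2 + X + 1) = X ^ 3 - 1 := by noncomm_ring
        _ = 0 := by rw [hX3, sub_self]
    exact hfpf.mul_right_eq_zero.1 h1
  have h3 : (3 : F) ≠ 0 := by
    intro h
    haveI : CharP F 3 := (CharP.charP_iff_prime_eq_zero Nat.prime_three).2 (by exact_mod_cast h)
    obtain ⟨n, -, hn⟩ := FiniteField.card F 3
    have : 3 ∣ q := hF ▸ hn ▸ dvd_pow_self 3 n.ne_zero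
    omega
  let f : F[X] := Polynomial.X ^ 2 + Polynomial.X + 1
  have hdeg : f.natDegree = 2 := by simp only [f]; compute_degree!
  have hnoroot : ∀ r : F, r ^ 2 + r + 1 ≠ 0 := by
    intro r hr
    have hr3 : r ^ 3 = 1 := by linear_combination (r - 1) * hr
    have hr1 : r ≠ 1 := by rintro rfl; exact h3 (by linear_combination hr)
    have hr0 : r ≠ 0 := by rintro rfl; simp at hr
    have ho : orderOf r = 3 := orderOf_eq_prime hr3 hr1
    have h := orderOf_dvd_of_pow_eq_one (FiniteField.pow_card_sub_one_eq_one r hr0)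
    rw [ho, hF] at h
    omega
  have hirr : Irreducible f := by
    refine (Polynomial.irreducible_iff_roots_eq_zero_of_degree_le_three (by omega) (by omega)).2 ?_
    refine Multiset.eq_zero_of_forall_notMem fun r hr => hnoroot r ?_
    simpa [f] using Polynomial.isRoot_of_mem_roots hr
  haveI := Fact.mk hirr
  let K := AdjoinRoot f
  let ω : K := AdjoinRoot.root f
  have hω : ω ^ 2 + ω + 1 = 0 := by
    have := AdjoinRoot.eval₂_root f
    simpa [f] using this
  let pb := AdjoinRoot.powerBasis hirr.ne_zero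
  haveI : Module.Finite F K := pb.finite
  haveI : Finite K := Module.finite_of_finite F
  letI : Fintype K := Fintype.ofFinite K
  have hfinK : Module.finrank F K = 2 := by
    rw [pb.finrank]; exact hdeg
  have hK : Fintype.card K = q ^ 2 := by
    rw [Module.card_eq_pow_finrank (K := F) (V := K), hF, hfinK]
  obtain ⟨C⟩ := CfsgLib.UGeom.nonempty_conj hK
  have hσF : ∀ a : F, C.σ (algebraMap F K a) = algebraMap F K a := fun a => by
    rw [C.pow, ← map_pow, ← hF, FiniteField.pow_card]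
  have hσω : C.σ ω = -1 - ω := by
    have hω3 : ω ^ 3 = 1 := by linear_combination (ω - 1) * hω
    rw [C.pow, ← Nat.div_add_mod q 3, hq, pow_add, pow_mul, hω3, one_pow, one_mul]
    linear_combination hω
  let V := Fin m ⊕ Fin m → F
  let T : Module.End F V := Matrix.toLinAlgEquiv' X
  have hT : Polynomial.aeval T f = 0 := by
    have h1 : Polynomial.aeval X f = 0 := by simpa [f] using hquad
    show Polynomial.aeval ((Matrix.toLinAlgEquiv' : Matrix _ _ F ≃ₐ[F] Module.End F V) X) f = 0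
    rw [Polynomial.aeval_algHom_apply, h1, map_zero]
  let φ : K →ₐ[F] Module.End F V := Ideal.Quotient.liftₐ (Ideal.span ({f} : Set F[X])) (Polynomial.aeval T)
    (fun p hp => by
      obtain ⟨c, rfl⟩ := Ideal.mem_span_singleton'.1 hp
      rw [map_mul, hT, mul_zero])
  have hφω : φ ω = T := Polynomial.aeval_X T
  letI instK : Module K V := Module.compHom V (φ : K →+* Module.End F V)
  have hsmul : ∀ (k : K) (v : V), k • v = φ k v := fun _ _ => rfl
  haveI : IsScalarTower F K V := ⟨fun a k v => by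
    rw [hsmul, hsmul, map_smul]; rfl⟩
  have hωv : ∀ v : V, ω • v = X *ᵥ v := fun v => by rw [hsmul, hφω]; rfl
  have hcoord : ∀ k : K, ∃ a b : F, k = algebraMap F K a + algebraMap F K b * ω := by
    intro k
    obtain ⟨p, rfl⟩ := AdjoinRoot.mk_surjective k
    have hp : AdjoinRoot.mk f p = AdjoinRoot.mk f (p %ₘ f) :=
      AdjoinRoot.mk_eq_mk.2 ⟨p /ₘ f, by
        have := Polynomial.modByMonic_add_div p f
        linear_combination -this⟩
    have hmonic : f.Monic := by simp only [f]; monicity!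
    have hd : (p %ₘ f).natDegree ≤ 1 := by
      have := Polynomial.natDegree_modByMonic_lt p hmonic (fun h => by rw [h] at hdeg; simp at hdeg)
      omega
    refine ⟨(p %ₘ f).coeff 0, (p %ₘ f).coeff 1, ?_⟩
    rw [hp, Polynomial.eq_X_add_C_of_natDegree_le_one hd]
    simp [ω, add_comm]
    rfl
  have huniq : ∀ a b : F, algebraMap F K a - ω * algebraMap F K b = 0 → a = 0 ∧ b = 0 := by
    intro a b h
    by_cases hb : b = 0
    · subst hb
      simp only [map_zero, mul_zero, sub_zero, map_eq_zero] at h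
      exact ⟨h, rfl⟩
    · exfalso
      have hr : ω = algebraMap F K (a / b) := by
        rw [map_div₀, eq_div_iff ((_root_.map_ne_zero _).2 hb)]; linear_combination -h
      apply hnoroot (a / b)
      apply (algebraMap F K).injective
      rw [map_zero, map_add, map_add, map_pow, map_one, ← hr, hω]
  -- the form
  let B : V → V → F := sform m
  have hBadd : ∀ u u' v, B (u + u') v = B u v + B u' v := fun u u' v => add_dotProduct ..
  have hBadd' : ∀ u v v', B u (v + v') = B u v + B u v' := fun u v v' => by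
    show _ ⬝ᵥ _ = _
    rw [Matrix.mulVec_add, dotProduct_add]; rfl
  have hBsmul : ∀ (a : F) u v, B (a • u) v = a * B u v := fun a u v => smul_dotProduct ..
  have hBsmul' : ∀ (a : F) u v, B u (a • v) = a * B u v := fun a u v => by
    show _ ⬝ᵥ _ = _
    rw [Matrix.mulVec_smul, dotProduct_smul]; rfl
  have hskew : ∀ u v, B v u = - B u v := fun u v => by
    have h := sform_self (u + v)
    change B (u + v) (u + v) = 0 at h
    rw [hBadd, hBadd', hBadd', show B u u = 0 from sform_self u, show B v v = 0 from sform_self v] at h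
    linear_combination h
  have hinv : ∀ u v, B (X *ᵥ u) (X *ᵥ v) = B u v := (sform_mulVec_iff X).1 x.2
  have hX2 : ∀ v : V, X *ᵥ (X *ᵥ v) = (-1 : F) • (X *ᵥ v) + (-1 : F) • v := fun v => by
    have : X ^ 2 = -(X + 1) := by rw [eq_neg_iff_add_eq_zero, ← add_assoc]; exact hquad
    rw [Matrix.mulVec_mulVec, ← sq, this, Matrix.neg_mulVec, Matrix.add_mulVec, Matrix.one_mulVec]
    module
  have hXu : ∀ u v, B (X *ᵥ u) v = - B u (X *ᵥ v) - B u v := fun u v => by
    have h := hinv u (X *ᵥ v)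
    rw [hX2, hBadd', hBsmul', hBsmul', hinv] at h
    linear_combination -h
  let hh : V → V → K := fun u v => algebraMap F K (B u (X *ᵥ v)) - ω * algebraMap F K (B u v)
  have hk1 : ∀ (k : K) u v, hh (k • u) v = k * hh u v := by
    intro k u v
    obtain ⟨a, b, rfl⟩ := hcoord k
    rw [add_smul, mul_smul, hωv, algebraMap_smul, algebraMap_smul]
    simp only [hh, hBadd, hBsmul, hinv, hXu, map_add, map_mul, map_sub, map_neg]
    linear_combination (algebraMap F K b * algebraMap F K (B u v)) * hω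
  have hhsym : ∀ u v, C.σ (hh u v) = hh v u := by
    intro u v
    simp only [hh, map_sub, map_mul, hσF, hσω]
    rw [hskew (X *ᵥ u) v, hskew u v, hXu u v]
    simp only [map_sub, map_neg]
    ring
  have hk2 : ∀ (k : K) u v, hh u (k • v) = C.σ k * hh u v := by
    intro k u v
    rw [← hhsym, hk1, map_mul, hhsym]
  have hhadd : ∀ u u' v, hh (u + u') v = hh u v + hh u' v := fun u u' v => by
    simp only [hh, hBadd, map_add]; ring
  have hhadd' : ∀ u v v', hh u (v + v') = hh u v + hh u v' := fun u v v' => by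
    simp only [hh]
    rw [show X *ᵥ (v + v') = X *ᵥ v + X *ᵥ v' from Matrix.mulVec_add X v v', hBadd', hBadd', map_add, map_add]
    ring
  let Bk : V →ₛₗ[C.σ] V →ₗ[K] K := LinearMap.mk₂'ₛₗ C.σ (RingHom.id K) (fun a b => hh b a)
    (fun a a' b => hhadd' b a a') (fun k a b => hk2 k b a)
    (fun a b b' => hhadd b b' a) (fun k a b => hk1 k b a)
  have hS : Bk.IsSymm := ⟨fun a b => hhsym b a⟩
  have hN : Bk.Nondegenerate := by
    have hsep : ∀ u : V, (∀ v, hh u v = 0) → u = 0 := fun u hu =>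
      sform_nondeg fun v => (huniq _ _ (hu v)).2
    exact ⟨fun a ha => hsep a fun v => by rw [← hhsym, show hh v a = 0 from ha v, map_zero],
      fun b hb => hsep b fun v => hb v⟩
  haveI : Module.Finite K V := Module.Finite.of_restrictScalars_finite F K V
  obtain ⟨b₀, hb₀⟩ := Cfsg.Agent.S0755.result C.σ C.ne_id C.invol Bk hS hN
  have hfinV : Module.finrank K V = m := by
    have h := Module.finrank_mul_finrank F K V
    rw [hfinK, show Module.finrank F V = m + m by simp [V]] at h
    omega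
  let bm := b₀.reindex (finCongr hfinV)
  let e : V ≃ₗ[K] (Fin m → K) := bm.equivFun
  have hform : ∀ u v, hh u v = Cfsg.hermForm m K q (e u) (e v) := by
    intro u v
    have hb : ∀ i j, Bk (bm i) (bm j) = if i = j then 1 else 0 := fun i j => by
      simp [bm, hb₀, Fin.ext_iff]
    show Bk v u = _
    conv_lhs => rw [← bm.sum_equivFun v, ← bm.sum_equivFun u]
    rw [CfsgLib.UGeom.form_eq C]
    simp only [map_sum, LinearMap.map_smulₛₗ, LinearMap.sum_apply, LinearMap.smul_apply, map_smul,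
      smul_eq_mul, hb, mul_ite, mul_one, mul_zero, Finset.sum_ite_eq, Finset.mem_univ, if_true,
      RingHom.id_apply]
    refine Finset.sum_congr rfl fun i _ => ?_
    rw [Finset.sum_ite_eq', if_pos (Finset.mem_univ i)]
  rw [← CfsgLib.UGeom.card_GU C m]
  -- `K`-linear maps from elements of the centraliser
  have hlin : ∀ g : Subgroup.centralizer ({x} : Set ↥(Matrix.symplecticGroup (Fin m) F)), ∀ (k : K) (v : V),
      ((g.1 : Matrix (Fin m ⊕ Fin m) (Fin m ⊕ Fin m) F)) *ᵥ (k • v) = k • ((g.1 : Matrix (Fin m ⊕ Fin m) (Fin m ⊕ Fin m) F) *ᵥ v) := by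
    intro g k v
    obtain ⟨a, b, rfl⟩ := hcoord k
    have hc : (g.1 : Matrix (Fin m ⊕ Fin m) (Fin m ⊕ Fin m) F) * X = X * (g.1).1 := by
      have := congrArg (fun w : Matrix.symplecticGroup (Fin m) F => (w : Matrix (Fin m ⊕ Fin m) (Fin m ⊕ Fin m) F))
        (Subgroup.mem_centralizer_singleton_iff.1 g.2)
      simpa [hX] using this
    rw [add_smul, add_smul, mul_smul, mul_smul, hωv, hωv, algebraMap_smul, algebraMap_smul,
      algebraMap_smul, algebraMap_smul, Matrix.mulVec_add, Matrix.mulVec_smul, Matrix.mulVec_smul,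
      Matrix.mulVec_mulVec, hc, ← Matrix.mulVec_mulVec]
  let lin : Subgroup.centralizer ({x} : Set ↥(Matrix.symplecticGroup (Fin m) F)) → (V →ₗ[K] V) := fun g =>
    { toFun := fun v => (g.1 : Matrix (Fin m ⊕ Fin m) (Fin m ⊕ Fin m) F) *ᵥ v
      map_add' := Matrix.mulVec_add _
      map_smul' := hlin g }
  let mt : Subgroup.centralizer ({x} : Set ↥(Matrix.symplecticGroup (Fin m) F)) → Matrix (Fin m) (Fin m) K :=
    fun g => LinearMap.toMatrix' ((e : V →ₗ[K] (Fin m → K)) ∘ₗ lin g ∘ₗ (e.symm : (Fin m → K) →ₗ[K] V))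
  have hmt : ∀ g (w : Fin m → K), mt g *ᵥ w = e ((g.1 : Matrix (Fin m ⊕ Fin m) (Fin m ⊕ Fin m) F) *ᵥ e.symm w) := by
    intro g w
    rw [← Matrix.toLin'_apply, Matrix.toLin'_toMatrix']
    rfl
  have hmtdet : ∀ g, (mt g).det ≠ 0 := by
    intro g
    refine left_ne_zero_of_mul_eq_one (b := (mt g⁻¹).det) ?_
    rw [← Matrix.det_mul, show mt g * mt g⁻¹ = 1 from Matrix.ext_iff_mulVec.2 fun w => ?_, Matrix.det_one]
    rw [← Matrix.mulVec_mulVec, hmt, hmt, e.symm_apply_apply, Matrix.mulVec_mulVec, Matrix.one_mulVec]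
    have h1 : (g.1 : Matrix (Fin m ⊕ Fin m) (Fin m ⊕ Fin m) F) * ((g⁻¹).1).1 = 1 := by
      have := congrArg (fun y : Subgroup.centralizer ({x} : Set ↥(Matrix.symplecticGroup (Fin m) F)) =>
        (y.1 : Matrix (Fin m ⊕ Fin m) (Fin m ⊕ Fin m) F)) (mul_inv_cancel g)
      exact this
    rw [h1, Matrix.one_mulVec, e.apply_symm_apply]
  have hmtform : ∀ g (u v : Fin m → K),
      Cfsg.hermForm m K q (mt g *ᵥ u) (mt g *ᵥ v) = Cfsg.hermForm m K q u v := by
    intro g u v
    rw [hmt, hmt, ← hform]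
    conv_rhs => rw [← e.apply_symm_apply u, ← e.apply_symm_apply v, ← hform]
    simp only [hh]
    rw [← hωv, ← hlin, hωv]
    congr 2
    · exact (sform_mulVec_iff _).1 g.1.2 _ _
    · exact congrArg _ ((sform_mulVec_iff _).1 g.1.2 _ _)
  let Φ : Subgroup.centralizer ({x} : Set ↥(Matrix.symplecticGroup (Fin m) F)) → Cfsg.GU m K q := fun g =>
    ⟨Matrix.GeneralLinearGroup.mkOfDetNeZero (mt g) (hmtdet g), fun u v => hmtform g u v⟩
  refine Nat.card_congr (Equiv.ofBijective Φ ⟨?_, ?_⟩)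
  · intro g g' h
    refine Subtype.ext (Subtype.ext (Matrix.ext_iff_mulVec.2 fun v => e.injective ?_))
    have h' : mt g = mt g' := congrArg (fun A : Cfsg.GU m K q => (A.1 : Matrix (Fin m) (Fin m) K)) h
    have := congrArg (fun A : Matrix (Fin m) (Fin m) K => A *ᵥ e v) h'
    simpa [hmt] using this
  · intro A
    let L : V →ₗ[K] V :=
      (e.symm : (Fin m → K) →ₗ[K] V) ∘ₗ Matrix.toLin' (A.1 : Matrix (Fin m) (Fin m) K) ∘ₗ (e : V →ₗ[K] (Fin m → K))
    let gm : Matrix (Fin m ⊕ Fin m) (Fin m ⊕ Fin m) F := LinearMap.toMatrix' (L.restrictScalars F)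
    have hgm : ∀ v, gm *ᵥ v = L v := fun v => by
      rw [← Matrix.toLin'_apply, Matrix.toLin'_toMatrix']; rfl
    have hL : ∀ u v, hh (L u) (L v) = hh u v := fun u v => by
      rw [hform, hform]
      show Cfsg.hermForm m K q (e (e.symm _)) (e (e.symm _)) = _
      rw [e.apply_symm_apply, e.apply_symm_apply]
      exact CfsgLib.UGeom.GU_form A (e u) (e v)
    have hsp : gm ∈ Matrix.symplecticGroup (Fin m) F := by
      rw [sform_mulVec_iff]
      intro u v
      rw [hgm, hgm]
      have h := hL u v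
      simp only [hh] at h
      have h' : algebraMap F K (B (L u) (X *ᵥ L v) - B u (X *ᵥ v)) -
          ω * algebraMap F K (B (L u) (L v) - B u v) = 0 := by
        rw [map_sub, map_sub]; linear_combination h
      exact sub_eq_zero.1 (huniq _ _ h').2
    have hcomm : (⟨gm, hsp⟩ : Matrix.symplecticGroup (Fin m) F) * x = x * ⟨gm, hsp⟩ := by
      refine Subtype.ext (Matrix.ext_iff_mulVec.2 fun v => ?_)
      show (gm * X) *ᵥ v = (X * gm) *ᵥ v
      rw [← Matrix.mulVec_mulVec, ← Matrix.mulVec_mulVec, hgm, hgm, ← hωv, map_smul, hωv]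
    refine ⟨⟨⟨gm, hsp⟩, Subgroup.mem_centralizer_singleton_iff.2 hcomm⟩, Subtype.ext (Units.ext ?_)⟩
    refine Matrix.ext_iff_mulVec.2 fun w => ?_
    show mt _ *ᵥ w = _
    rw [hmt]
    show e (gm *ᵥ e.symm w) = _
    rw [hgm]
    simp [L]

/-- Centraliser of a fixed-point-free element of order three in Sp_2m(q) when q ≡ 2 (mod 3): if x ∈ Sp_2m(F) (|F| = q, m ≥ 1) satisfies x³ = 1 and x − 1 is invertible, then its centraliser in Sp_2m(F) has the order of the unitary group GU_m(q), namely q^(m(m−1)/2) Π_(i=1)^m (q^i − (−1)^i) (x lies in the centre of a subgroup GU_m(q) of Sp_2m(q)). -/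
theorem result {F : Type*} [Field F] [Fintype F] {q : ℕ} (hF : Fintype.card F = q) (hq : q % 3 = 2) {m : ℕ} (hm : 1 ≤ m) (x : Matrix.symplecticGroup (Fin m) F) (hx3 : x ^ 3 = 1) (hfpf : IsUnit ((x : Matrix (Fin m ⊕ Fin m) (Fin m ⊕ Fin m) F) - 1)) : (Nat.card ↥(Subgroup.centralizer ({x} : Set ↥(Matrix.symplecticGroup (Fin m) F))) : ℤ) = (q : ℤ) ^ (m * (m - 1) / 2) * ∏ i : Fin m, ((q : ℤ) ^ ((i : ℕ) + 1) - (-1) ^ ((i : ℕ) + 1)) := by
  rw [card_centralizer hF hq x hx3 hfpf, Nat.cast_mul, Nat.cast_pow, Nat.cast_prod,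
    Fin.prod_univ_eq_prod_range (fun i => (q : ℤ) ^ (i + 1) - (-1) ^ (i + 1)) m]
  congr 1
  refine Finset.prod_congr rfl fun i _ => ?_
  have hq0 : 0 < q := by omega
  split_ifs with h
  · rw [(h.add_one).neg_one_pow]
    push_cast
    ring
  · rw [((Nat.not_even_iff_odd.1 h).add_one).neg_one_pow]
    push_cast [Nat.cast_sub (Nat.one_le_pow _ _ hq0)]
    ring

end Cfsg.Agent.S2637
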