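import Cfsg.Statements.S2638
import Cfsg.Agent.GraphLie.Basic
-- import your own Cfsg.Agent.* helpers here

set_option autoImplicit false
open Cfsg

namespace Cfsg.Agent.S2638

/-- If an element x of GL_n(q), n ≥ 1, has prime order r and the multiplicative order of q modulo r is n (r is a primitive prime divisor of q^n − 1, so x acts irreducibly), then the centraliser of x in GL_n(q) is cyclic of order q^n − 1 (the multiplicative group of the field with q^n elements, a Singer cycle). -/
theorem result {F : Type*} [Field F] [Fintype F] {p q : ℕ} [Fact p.Prime] [CharP F p] (hF : Fintype.card F = q) {n r : ℕ} (hn : 1 ≤ n) (hr : r.Prime) (hrp : r ≠ p) (hi : orderOf (q : ZMod r) = n) (x : GL (Fin n) F) (hx : orderOf x = r) : IsCyclic ↥(Subgroup.centralizer ({x} : Set (GL (Fin n) F))) ∧ Nat.card ↥(Subgroup.centralizer ({x} : Set (GL (Fin n) F))) = q ^ n - 1 := by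
  classical
  open Polynomial UniqueFactorizationMonoid in
  have : Fact r.Prime := ⟨hr⟩
  have : Nonempty (Fin n) := ⟨⟨0, hn⟩⟩
  have hrq : ¬ r ∣ q := hF ▸ CfsgLib.GraphLie.not_dvd_card (F := F) p hr hrp
  set A := (x : Matrix (Fin n) (Fin n) F) with hA
  have hApow : A ^ r = 1 := by rw [hA, ← Units.val_pow_eq_pow_val, ← hx, pow_orderOf_eq_one, Units.val_one]
  obtain ⟨f, hf, hf1⟩ : ∃ f ∈ normalizedFactors A.charpoly, ¬ f ∣ X - 1 := by
    by_contra hc
    push Not at hc
    have h2 := CfsgLib.GLOrders.pow_eq_scalar_of_factors p A 1 n (Nat.clog p n) 1 (Nat.le_pow_clog (Fact.out : p.Prime).one_lt n)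
      (fun f hf => by rw [map_one, pow_one]; exact hc f hf) (fun f hf => by
        have h1 := CfsgLib.GraphLie.sum_count_natDegree A {f}
        rw [Finset.sum_singleton, Fintype.card_fin] at h1
        exact le_trans (Nat.le_mul_of_pos_right _ (irreducible_of_normalized_factor f hf).natDegree_pos) h1)
    rw [one_mul, one_pow, one_smul] at h2
    have h3 : x ^ p ^ Nat.clog p n = 1 := Units.ext (by rw [Units.val_pow_eq_pow_val, Units.val_one]; exact h2)
    have h4 := orderOf_dvd_of_pow_eq_one h3
    rw [hx] at h4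
    exact hrp ((Nat.prime_dvd_prime_iff_eq hr Fact.out).mp (hr.dvd_of_dvd_pow h4))
  have hfi := irreducible_of_normalized_factor f hf
  have hfA := dvd_of_mem_normalizedFactors hf
  have hfr : f ∣ X ^ r - 1 := CfsgLib.GraphLie.factor_dvd_of_pow_eq_one p A r 0 (by rw [pow_zero, mul_one, hApow]) hfi hfA
  have hf0 : f.coeff 0 ≠ 0 := by
    intro h0
    obtain ⟨c, hc⟩ := hfr
    have h := congrArg (fun P => coeff P 0) hc
    simp [coeff_X_pow, h0, hr.ne_zero.symm] at h
  have hdeg : f.natDegree = n := by
    have hle : f.natDegree ≤ n := by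
      have := natDegree_le_of_dvd hfA A.charpoly_monic.ne_zero
      rwa [Matrix.charpoly_natDegree_eq_dim, Fintype.card_fin] at this
    refine le_antisymm hle (Nat.le_of_dvd hfi.natDegree_pos ?_)
    rw [← hi, ← CfsgLib.GraphLie.dvd_pow_sub_one_iff hrq]
    by_contra hnd
    apply hf1
    have h := CfsgLib.GraphLie.dvd_X_pow_gcd hfr (CfsgLib.GLOrders.irreducible_dvd_X_pow_sub_one hfi hf0)
    rw [Nat.card_eq_fintype_card, hF, (hr.coprime_iff_not_dvd.mpr hnd).gcd_eq_one, pow_one] at h
    exact h
  have hchi : Irreducible A.charpoly := by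
    refine (associated_of_dvd_dvd hfA ?_).irreducible hfi
    obtain ⟨c, hc⟩ := hfA
    have hc0 : c ≠ 0 := by rintro rfl; exact A.charpoly_monic.ne_zero (by rw [hc, mul_zero])
    have h := congrArg natDegree hc
    rw [natDegree_mul hfi.ne_zero hc0, Matrix.charpoly_natDegree_eq_dim, Fintype.card_fin, hdeg] at h
    have hu : IsUnit c := by
      rw [eq_C_of_natDegree_eq_zero (show c.natDegree = 0 by omega)]
      refine (isUnit_iff_ne_zero.mpr fun h0 => hc0 ?_).map C
      rw [eq_C_of_natDegree_eq_zero (show c.natDegree = 0 by omega), h0, map_zero]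
    rw [hc]
    exact (associated_mul_unit_left f c hu).dvd
  have : Fact (Irreducible A.charpoly) := ⟨hchi⟩
  let K := AdjoinRoot A.charpoly
  have : Module.Finite F K := PowerBasis.finite (AdjoinRoot.powerBasis hchi.ne_zero)
  have : Finite K := Module.finite_of_finite F
  let ψ : K →ₐ[F] Matrix (Fin n) (Fin n) F := Ideal.Quotient.liftₐ (Ideal.span {A.charpoly}) (aeval A) (fun P hP => by
    obtain ⟨c, rfl⟩ := Ideal.mem_span_singleton.mp hP
    rw [map_mul, Matrix.aeval_self_charpoly, zero_mul])
  have hψinj : Function.Injective ψ := ψ.toRingHom.injective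
  have hψmk : ∀ P : F[X], ψ (AdjoinRoot.mk A.charpoly P) = aeval A P := fun P => rfl
  let Ψ : Kˣ →* GL (Fin n) F := Units.map ψ.toRingHom.toMonoidHom
  have hΨinj : Function.Injective Ψ := Units.map_injective hψinj
  have hrange : Ψ.range = Subgroup.centralizer ({x} : Set (GL (Fin n) F)) := by
    ext M
    rw [Subgroup.mem_centralizer_singleton_iff, MonoidHom.mem_range]
    constructor
    · rintro ⟨k, rfl⟩
      apply Units.ext
      show ψ k * A = A * ψ k
      have h := congrArg ψ (mul_comm (k : K) (AdjoinRoot.mk A.charpoly X))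
      rw [map_mul, map_mul, hψmk, aeval_X] at h
      exact h
    · intro hM
      have hMA : (M : Matrix (Fin n) (Fin n) F) * A = A * M := congrArg Units.val hM
      let v : Fin n → F := Pi.single ⟨0, hn⟩ 1
      let T : K →ₗ[F] (Fin n → F) :=
        { toFun := fun k => (ψ k).mulVec v
          map_add' := fun a b => by rw [map_add, Matrix.add_mulVec]
          map_smul' := fun c a => by rw [map_smul, Matrix.smul_mulVec, RingHom.id_apply] }
      have hv : v ≠ 0 := fun h => one_ne_zero (α := F) (by simpa [v] using congrFun h ⟨0, hn⟩)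
      have hTinj : Function.Injective T := by
        rw [injective_iff_map_eq_zero]
        intro k hk
        by_contra hk0
        apply hv
        have h := congrArg (fun w => (ψ k⁻¹).mulVec w) (show (ψ k).mulVec v = 0 from hk)
        simp only [Matrix.mulVec_mulVec, ← map_mul, inv_mul_cancel₀ hk0, map_one, Matrix.one_mulVec, Matrix.mulVec_zero] at h
        exact h
      have hfin : Module.finrank F K = Module.finrank F (Fin n → F) := by
        rw [Module.finrank_fin_fun, (AdjoinRoot.powerBasis hchi.ne_zero).finrank, AdjoinRoot.powerBasis_dim,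
          Matrix.charpoly_natDegree_eq_dim, Fintype.card_fin]
      have hTsurj : Function.Surjective T := (LinearMap.injective_iff_surjective_of_finrank_eq_finrank hfin).mp hTinj
      obtain ⟨k, hk⟩ := hTsurj ((M : Matrix (Fin n) (Fin n) F).mulVec v)
      have hcomm : ∀ l : K, (M : Matrix (Fin n) (Fin n) F) * ψ l = ψ l * M := by
        intro l
        obtain ⟨P, rfl⟩ := AdjoinRoot.mk_surjective l
        rw [hψmk]
        induction P using Polynomial.induction_on with
        | C c => rw [aeval_C]; exact (Algebra.commutes c _).symm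
        | add P Q hP hQ => rw [map_add, mul_add, add_mul, hP, hQ]
        | monomial m c ih => rw [pow_succ, ← mul_assoc, map_mul, aeval_X, ← mul_assoc, ih, mul_assoc, hMA, mul_assoc]
      have hMk : (M : Matrix (Fin n) (Fin n) F) = ψ k := by
        refine Matrix.ext_of_mulVec_single fun i => ?_
        obtain ⟨l, hl⟩ := hTsurj (Pi.single i 1)
        rw [← hl]
        show (M : Matrix (Fin n) (Fin n) F).mulVec ((ψ l).mulVec v) = (ψ k).mulVec ((ψ l).mulVec v)
        rw [Matrix.mulVec_mulVec, hcomm, ← Matrix.mulVec_mulVec, ← hk]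
        show (ψ l).mulVec ((ψ k).mulVec v) = _
        rw [Matrix.mulVec_mulVec, Matrix.mulVec_mulVec, ← map_mul, ← map_mul, mul_comm]
      have hk0 : k ≠ 0 := by
        rintro rfl
        rw [map_zero] at hMk
        exact M.ne_zero hMk
      exact ⟨Units.mk0 k hk0, Units.ext hMk.symm⟩
  rw [← hrange]
  let e : Kˣ ≃* Ψ.range := MonoidHom.ofInjective hΨinj
  refine ⟨isCyclic_of_surjective e e.surjective, ?_⟩
  rw [← Nat.card_congr e.toEquiv, Nat.card_units, Module.natCard_eq_pow_finrank (K := F),
    (AdjoinRoot.powerBasis hchi.ne_zero).finrank, AdjoinRoot.powerBasis_dim, Matrix.charpoly_natDegree_eq_dim,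
    Fintype.card_fin, Nat.card_eq_fintype_card, hF]

end Cfsg.Agent.S2638
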