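import Cfsg.Statements.S2639
import Cfsg.Agent.Forms.SympEmbed
import Cfsg.Prelude.Def_LieClassical

set_option autoImplicit false
open Cfsg Matrix

namespace Cfsg.Agent.S2639

/-- The unitary group embeds in the symplectic group of twice the dimension over the subfield: for a field K with q² elements and a field F with q elements (isomorphic to the subfield of K of order q), there is an injective homomorphism GU_m(q) → Sp_2m(F). -/
theorem result {K F : Type*} [Field K] [Fintype K] [Field F] [Fintype F] {q : ℕ} (hK : Fintype.card K = q ^ 2) (hF : Fintype.card F = q) (m : ℕ) : ∃ φ : ↥(Cfsg.GU m K q) →* ↥(Matrix.symplecticGroup (Fin m) F), Function.Injective φ := by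
  obtain ⟨f⟩ := CfsgLib.Forms.Unitary.exists_algebra hK hF
  letI := f.toAlgebra
  subst hF
  classical
  let σ := CfsgLib.Forms.Unitary.frob F K
  have hσσ : ∀ x, σ (σ x) = x := CfsgLib.Forms.Unitary.frob_frob hK
  obtain ⟨x₀, hx₀⟩ := CfsgLib.Forms.Unitary.exists_frob_ne hK
  set δ : K := x₀ - σ x₀
  have hδ : δ ≠ 0 := sub_ne_zero.2 (Ne.symm hx₀)
  have hσδ : σ δ = -δ := by simp only [δ, map_sub, hσσ]; ring
  have hex : ∀ u v : Fin m → K, ∃ a : F, algebraMap F K a = δ * ∑ i, (u i * σ (v i) - v i * σ (u i)) := fun u v =>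
    CfsgLib.Forms.Unitary.exists_of_fixed hK (by
      show σ _ = _
      rw [map_mul, hσδ, map_sum, Finset.mul_sum, Finset.mul_sum]
      refine Finset.sum_congr rfl fun i _ => ?_
      rw [map_sub, map_mul, map_mul, hσσ, hσσ]; ring)
  choose b hb using hex
  let B : LinearMap.BilinForm F (Fin m → K) := LinearMap.mk₂ F b
    (fun u u' v => (algebraMap F K).injective (by
      rw [map_add, hb, hb, hb, ← mul_add, ← Finset.sum_add_distrib]
      congr 1; refine Finset.sum_congr rfl fun i _ => ?_
      rw [Pi.add_apply, map_add]; ring))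
    (fun c u v => (algebraMap F K).injective (by
      rw [smul_eq_mul, map_mul, hb, hb, mul_left_comm (algebraMap F K c) δ, Finset.mul_sum (a := algebraMap F K c)]
      congr 1; refine Finset.sum_congr rfl fun i _ => ?_
      rw [Pi.smul_apply, Algebra.smul_def, map_mul, AlgHom.commutes]; ring))
    (fun u v v' => (algebraMap F K).injective (by
      rw [map_add, hb, hb, hb, ← mul_add, ← Finset.sum_add_distrib]
      congr 1; refine Finset.sum_congr rfl fun i _ => ?_
      rw [Pi.add_apply, map_add]; ring))
    (fun c u v => (algebraMap F K).injective (by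
      rw [smul_eq_mul, map_mul, hb, hb, mul_left_comm (algebraMap F K c) δ, Finset.mul_sum (a := algebraMap F K c)]
      congr 1; refine Finset.sum_congr rfl fun i _ => ?_
      rw [Pi.smul_apply, Algebra.smul_def, map_mul, AlgHom.commutes]; ring))
  have hB : ∀ u v, algebraMap F K (B u v) = δ * ∑ i, (u i * σ (v i) - v i * σ (u i)) := hb
  let ρ : ↥(Cfsg.GU m K (Fintype.card F)) →* Module.End F (Fin m → K) :=
    { toFun := fun x => (Matrix.mulVecLin ((x : GL (Fin m) K) : Matrix (Fin m) (Fin m) K)).restrictScalars F
      map_one' := LinearMap.ext fun v => Matrix.one_mulVec v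
      map_mul' := fun x y => LinearMap.ext fun v => (Matrix.mulVec_mulVec v _ _).symm }
  refine CfsgLib.Forms.exists_symp_hom (n := m) (by rw [Module.finrank_pi_fintype, CfsgLib.Forms.Unitary.finrank_eq hK]; simp; ring) B
    (fun u => (algebraMap F K).injective (by simp [hB])) (fun u hu => ?_) ρ (fun x u v => (algebraMap F K).injective ?_) ?_
  · funext i
    refine CfsgLib.Forms.Unitary.eq_zero_of_trace (F := F) hK fun c => ?_
    have := congrArg (algebraMap F K) (hu (Pi.single i (-(σ (c / δ)))))
    rw [hB, map_zero, Finset.sum_eq_single i (fun j _ hj => by simp [hj]) (by simp), Pi.single_eq_same] at this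
    simp only [map_neg, hσσ] at this
    show u i * c + σ (u i * c) = 0
    have e : σ (u i * c) = σ (u i) * (σ (c / δ) * σ δ) := by rw [← map_mul σ (c / δ), div_mul_cancel₀ _ hδ, map_mul]
    rw [e, hσδ]
    field_simp at this ⊢
    linear_combination -this
  · rw [hB, hB]
    have h : ∀ a b : Fin m → K, ∑ i, ((ρ x a) i * σ ((ρ x b) i)) = ∑ i, a i * σ (b i) := fun a b => by
      simp only [σ, CfsgLib.Forms.Unitary.frob_apply]
      exact x.2 a b
    rw [Finset.sum_sub_distrib, Finset.sum_sub_distrib, h u v, h v u]
  · intro x y h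
    exact Subtype.ext (Units.ext (Matrix.ext_iff_mulVec.2 fun v => LinearMap.congr_fun h v))

end Cfsg.Agent.S2639
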