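import Cfsg.Statements.S2640
import Cfsg.Agent.Forms.Unitary

set_option autoImplicit false
open Cfsg

namespace Cfsg.Agent.S2640

/-- For m even, the unitary group GU_m(q) (over the field with q² elements) embeds in the orthogonal group O⁺_2m(q) of the hyperbolic form Σ x_i y_i over the field with q elements (there is an injective homomorphism). -/
theorem result {K F : Type*} [Field K] [Fintype K] [Field F] [Fintype F] {q : ℕ} (hK : Fintype.card K = q ^ 2) (hF : Fintype.card F = q) (m : ℕ) (hm : Even m) : ∃ φ : ↥(Cfsg.GU m K q) →* ↥(Cfsg.isometryGroup F (Cfsg.quadFormPlus m F)), Function.Injective φ := by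
  obtain ⟨f⟩ := CfsgLib.Forms.Unitary.exists_algebra hK hF
  letI := f.toAlgebra
  subst hF
  obtain ⟨k, rfl⟩ := hm
  rcases Nat.eq_zero_or_pos k with rfl | hk
  · haveI : Subsingleton ↥(Cfsg.GU (0 + 0) K (Fintype.card F)) :=
      ⟨fun a b => Subtype.ext (Units.ext (Matrix.ext fun i => i.elim0))⟩
    exact ⟨1, fun a b _ => Subsingleton.elim a b⟩
  obtain ⟨t, ht⟩ := CfsgLib.Forms.Unitary.exists_norm_eq (F := F) hK (y := -1)
    (by rw [map_neg, map_one]) (neg_ne_zero.2 one_ne_zero)
  let e : Fin (k + k) ≃ (Fin k ⊕ Fin k) ⊕ Fin 0 := finSumFinEquiv.symm.trans (Equiv.sumEmpty _ _).symm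
  let L : ((Fin k ⊕ Fin k) ⊕ Fin 0 → K) →ₗ[F] (Fin (k + k) → K) := LinearMap.funLeft F K e
  have hLinj : Function.Injective L := LinearMap.funLeft_injective_of_surjective F K e e.surjective
  obtain ⟨g, hg⟩ := CfsgLib.Forms.exists_isometry_plus (V := Fin (k + k) → K) (Q := CfsgLib.Forms.Unitary.normForm hK)
    (m := k + k) (by omega) (by rw [Module.finrank_pi_fintype, CfsgLib.Forms.Unitary.finrank_eq hK]; simp; ring)
    (CfsgLib.Forms.Unitary.nondegenerate hK) ((LinearMap.range (CfsgLib.Forms.Unitary.pairMap (F := F) k 0 t)).map L)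
    (by
      rintro _ ⟨v, hv, rfl⟩
      show CfsgLib.Forms.Unitary.normForm hK (v ∘ e) = 0
      rw [CfsgLib.Forms.Unitary.normForm_reindex]
      exact CfsgLib.Forms.Unitary.exists_half_singular hK k 0 t ht v hv)
    (by rw [← (Submodule.equivMapOfInjective L hLinj _).finrank_eq, CfsgLib.Forms.Unitary.finrank_range_pairMap hK]; omega)
  exact CfsgLib.Forms.Unitary.exists_embedding hK _ g hg

end Cfsg.Agent.S2640
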