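import Cfsg.Statements.S2641
import Cfsg.Agent.Forms.Unitary

set_option autoImplicit false
open Cfsg

namespace Cfsg.Agent.S2641

/-- For m odd, the unitary group GU_m(q) (over the field with q² elements) embeds in the orthogonal group O⁻_2m(q) of an elliptic form (Σ_(i<m−1) x_i y_i plus an anisotropic binary form) over the field with q elements (there is an injective homomorphism). -/
theorem result {K F : Type*} [Field K] [Fintype K] [Field F] [Fintype F] {q : ℕ} (hK : Fintype.card K = q ^ 2) (hF : Fintype.card F = q) (m : ℕ) (hm : Odd m) (a b : F) (hab : ∀ z₁ z₂ : F, z₁ ^ 2 + a * z₁ * z₂ + b * z₂ ^ 2 = 0 → z₁ = 0 ∧ z₂ = 0) : ∃ φ : ↥(Cfsg.GU m K q) →* ↥(Cfsg.isometryGroup F (Cfsg.quadFormMinus (m - 1) F a b)), Function.Injective φ := by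
  obtain ⟨f⟩ := CfsgLib.Forms.Unitary.exists_algebra hK hF
  letI := f.toAlgebra
  subst hF
  obtain ⟨k, rfl⟩ := hm
  obtain ⟨t, ht⟩ := CfsgLib.Forms.Unitary.exists_norm_eq (F := F) hK (y := -1)
    (by rw [map_neg, map_one]) (neg_ne_zero.2 one_ne_zero)
  let e : Fin (2 * k + 1) ≃ (Fin k ⊕ Fin k) ⊕ Fin 1 :=
    (finCongr (by omega)).trans ((finSumFinEquiv (m := k + k) (n := 1)).symm.trans (Equiv.sumCongr finSumFinEquiv.symm (Equiv.refl _)))
  let L : (Fin (2 * k + 1) → K) →ₗ[F] ((Fin k ⊕ Fin k) ⊕ Fin 1 → K) := LinearMap.funLeft F K e.symm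
  have hLinj : Function.Injective L := LinearMap.funLeft_injective_of_surjective F K e.symm e.symm.surjective
  obtain ⟨g, hg⟩ := CfsgLib.Forms.exists_isometry_minus (V := Fin (2 * k + 1) → K) (Q := CfsgLib.Forms.Unitary.normForm hK)
    (m := 2 * k + 1) (by omega) (by rw [Module.finrank_pi_fintype, CfsgLib.Forms.Unitary.finrank_eq hK]; simp; ring)
    (CfsgLib.Forms.Unitary.nondegenerate hK)
    (fun ⟨S, hS, hSd⟩ => CfsgLib.Forms.Unitary.no_singular_half hK k t ht ⟨S.map L, by
      rintro _ ⟨v, hv, rfl⟩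
      show CfsgLib.Forms.Unitary.normForm hK (v ∘ e.symm) = 0
      rw [CfsgLib.Forms.Unitary.normForm_reindex]
      exact hS v hv, by rw [← (Submodule.equivMapOfInjective L hLinj _).finrank_eq]; omega⟩) hab
  exact CfsgLib.Forms.Unitary.exists_embedding hK _ g hg

end Cfsg.Agent.S2641
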