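import Cfsg.Statements.S2642
import Cfsg.Agent.NilType.Classes
import Cfsg.Agent.S2587
import Cfsg.Agent.S2588

set_option autoImplicit false
open Cfsg

namespace Cfsg.Agent.S2642

/-- Number of conjugacy classes of elements of order p in the general unitary group GU_n(q), q a power of p: every unipotent Jordan type occurs and the classes correspond to the partitions of n with all parts at most p other than the all-ones partition, exactly as in GL_n; so there are (number of partitions of n with parts ≤ p) − 1 classes. -/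
theorem result {K : Type*} [Field K] [Fintype K] {p q n : ℕ} [Fact p.Prime] [CharP K p] (hK : Fintype.card K = q ^ 2) : Nat.card {C : ConjClasses ↥(Cfsg.GU n K q) // ∃ g : ↥(Cfsg.GU n K q), ConjClasses.mk g = C ∧ orderOf g = p} = (Finset.univ.filter (fun μ : Nat.Partition n => ∀ a ∈ μ.parts, a ≤ p)).card - 1 := by
  refine CfsgLib.NilType.card_order_p_classes p (Cfsg.GU n K q).subtype Subtype.val_injective
    (fun a b h => (Cfsg.Agent.S2587.result hK a b).2 h) fun μ => ?_
  obtain ⟨θ, hq, hθ, hne, -⟩ := CfsgLib.Unitary.exists_conj q hK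
  obtain ⟨g, hg, hgf⟩ := CfsgLib.NilType.exists_uniType (F := K) μ
  have hmap : (g.1.map fun x : K => x ^ q) = g.1 := by
    rw [show (fun x : K => x ^ q) = ⇑θ from funext fun x => (hq x).symm]
    exact hgf θ
  obtain ⟨u, hu⟩ : ∃ u : GL (Fin n) K, u.1 = g.1.transpose⁻¹ := by
    refine ⟨Matrix.GeneralLinearGroup.mk'' _ ?_, rfl⟩
    exact Matrix.isUnit_nonsing_inv_det _ (by rw [Matrix.det_transpose]; exact Matrix.isUnits_det_units g)
  have hd : IsUnit g.1.transpose.det := by rw [Matrix.det_transpose]; exact Matrix.isUnits_det_units g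
  have hu1 : u.1 - 1 = -(g.1.transpose⁻¹ * (g.1 - 1).transpose) := by
    rw [hu, Matrix.transpose_sub, Matrix.transpose_one, Matrix.mul_sub, Matrix.nonsing_inv_mul _ hd, Matrix.mul_one,
      neg_sub]
  have hpow : ∀ m, (u.1 - 1) ^ m = (-1 : Matrix (Fin n) (Fin n) K) ^ m * g.1.transpose⁻¹ ^ m * ((g.1 - 1) ^ m).transpose := by
    intro m
    rw [hu1, neg_pow, Commute.mul_pow ?_, Matrix.transpose_pow, mul_assoc]
    rw [Matrix.transpose_sub, Matrix.transpose_one]
    refine Commute.sub_right ?_ (Commute.one_right _)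
    show _ = _
    rw [Matrix.nonsing_inv_mul _ hd, Matrix.mul_nonsing_inv _ hd]
  have hut : CfsgLib.NilType.UniType u μ := by
    refine ⟨?_, fun m => ?_⟩
    · obtain ⟨k, hk⟩ := hg.1
      exact ⟨k, by rw [hpow, hk, Matrix.transpose_zero, mul_zero]⟩
    · rw [hpow, Matrix.rank_mul_eq_right_of_isUnit_det _ _ ?_, Matrix.rank_transpose]
      · exact hg.2 m
      · rw [Matrix.det_mul, Matrix.det_pow, Matrix.det_pow, Matrix.det_neg, Matrix.det_one, mul_one]
        exact ((isUnit_one.neg.pow _).pow _).mul ((Matrix.isUnit_nonsing_inv_det _ hd).pow _)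
  have hc : IsConj g.1 ((g.1.map fun x : K => x ^ q).transpose)⁻¹ := by
    rw [hmap, ← hu]
    exact (Units.coeHom _).map_isConj (hg.isConj hut)
  obtain ⟨B, hB⟩ := (Cfsg.Agent.S2588.result hK g).2 hc
  refine ⟨B, ?_⟩
  have hnil : IsNilpotent ((B : GL (Fin n) K).1 - 1) := by
    obtain ⟨c, hcB⟩ := CfsgLib.NilType.isConj_sub_one.1 hB
    obtain ⟨k, hk⟩ := hg.1
    refine ⟨k, ?_⟩
    have h := (SemiconjBy.pow_right (a := (c : Matrix (Fin n) (Fin n) K)) hcB k).eq
    rw [hk, mul_zero] at h
    exact c.isUnit.mul_left_eq_zero.1 h.symm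
  obtain ⟨ν, hν⟩ := CfsgLib.NilType.exists_type hnil
  have := hg.eq_of_isConj (h := (B : GL (Fin n) K)) ⟨hnil, hν⟩ hB
  subst this
  exact ⟨hnil, hν⟩

end Cfsg.Agent.S2642
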