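import Cfsg.Statements.S2643
import Cfsg.Agent.FormConj.RegSU
import Cfsg.Agent.S2587
import Cfsg.Agent.S2588
import Cfsg.Agent.NilType.Classes

set_option autoImplicit false
open Cfsg

namespace Cfsg.Agent.S2643

/-- Regular unipotent classes of SU_n(q), n ≥ 2: the elements u of the special unitary group (isometries of Σ u_i v_i^q of determinant one over the field with q² elements) with (u − 1)^n = 0 and rank(u − 1) = n − 1 form exactly gcd(n, q + 1) conjugacy classes of SU_n(q). -/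
theorem result {K : Type*} [Field K] [Fintype K] {q n : ℕ} (hK : Fintype.card K = q ^ 2) (hn : 2 ≤ n) : Nat.card {C : ConjClasses ↥(Cfsg.SU n K q) // ∃ u : ↥(Cfsg.SU n K q), ConjClasses.mk u = C ∧ (((u : GL (Fin n) K) : Matrix (Fin n) (Fin n) K) - 1) ^ n = 0 ∧ (((u : GL (Fin n) K) : Matrix (Fin n) (Fin n) K) - 1).rank = n - 1} = Nat.gcd n (q + 1) := by
  classical
  obtain ⟨θ, hq, hθ, hne, hq2⟩ := CfsgLib.Unitary.exists_conj q hK
  haveI : NeZero n := ⟨by omega⟩
  have hn1 : 1 ≤ n := by omega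
  obtain ⟨ι, hι⟩ : ∃ ι : ↥(Cfsg.SU n K q) →* ↥(Cfsg.GU n K q), ∀ x,
      ((ι x : GL (Fin n) K) : Matrix (Fin n) (Fin n) K) = ((x : Matrix.SpecialLinearGroup (Fin n) K) : Matrix (Fin n) (Fin n) K) :=
    ⟨MonoidHom.codRestrict (Matrix.SpecialLinearGroup.toGL.comp (Cfsg.SU n K q).subtype) _ fun x =>
      (CfsgLib.FormConj.mem_GU_dag q hq hθ _).2 ((CfsgLib.Unitary.mem_SU_iff θ q hq hθ x.1).1 x.2), fun x => rfl⟩
  let N1 : Subgroup Kˣ := (powMonoidHom (q + 1)).ker
  have hN1 : ∀ a : Kˣ, a ∈ N1 ↔ θ (a : K) * a = 1 := fun a => by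
    rw [MonoidHom.mem_ker, powMonoidHom_apply, hq, ← pow_succ, Units.ext_iff, Units.val_pow_eq_pow_val, Units.val_one]
  obtain ⟨D, hDv⟩ : ∃ D : ↥(Cfsg.GU n K q) →* N1, ∀ g, ((D g : Kˣ) : K) = (g : GL (Fin n) K).1.det :=
    ⟨MonoidHom.codRestrict (Matrix.GeneralLinearGroup.det.comp (Cfsg.GU n K q).subtype) _ fun g => (hN1 _).2 (by
      show θ (g : GL (Fin n) K).1.det * (g : GL (Fin n) K).1.det = 1
      rw [← CfsgLib.FormConj.det_dag, ← Matrix.det_mul, (CfsgLib.FormConj.mem_GU_dag q hq hθ _).1 g.2, Matrix.det_one]),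
      fun g => rfl⟩
  have hD : Function.Surjective D := fun a => by
    have ha := (hN1 a.1).1 a.2
    have hd : CfsgLib.FormConj.dag θ (Matrix.diagonal (Function.update (1 : Fin n → K) 0 (a : Kˣ).val)) *
        Matrix.diagonal (Function.update (1 : Fin n → K) 0 (a : Kˣ).val) = 1 := by
      rw [CfsgLib.FormConj.dag, Matrix.diagonal_map (map_zero θ), Matrix.diagonal_transpose, Matrix.diagonal_mul_diagonal]
      ext i j
      rw [Matrix.diagonal_apply, Matrix.one_apply]
      split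
      · by_cases hi : i = 0
        · subst hi; simp [ha]
        · simp [hi]
      · rfl
    refine ⟨⟨Matrix.GeneralLinearGroup.mk'' _ (Matrix.isUnit_det_of_left_inverse hd),
      (CfsgLib.FormConj.mem_GU_dag q hq hθ _).2 hd⟩, Subtype.ext (Units.ext ?_)⟩
    rw [hDv]
    show (Matrix.diagonal _).det = _
    rw [Matrix.det_diagonal, Finset.prod_update_of_mem (Finset.mem_univ _)]
    simp
  have hιi : Function.Injective ι := fun x y h => Subtype.ext (Subtype.ext (by rw [← hι, ← hι, h]))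
  have hr : ι.range = D.ker := by
    ext g
    rw [MonoidHom.mem_range, MonoidHom.mem_ker]
    refine ⟨?_, fun h => ?_⟩
    · rintro ⟨x, rfl⟩
      refine Subtype.ext (Units.ext ?_)
      rw [hDv, hι, Matrix.SpecialLinearGroup.det_coe]
      rfl
    · have hdet : (g : GL (Fin n) K).1.det = 1 := by rw [← hDv, h]; rfl
      obtain ⟨x, hx⟩ := CfsgLib.Unitary.exists_SU θ q hq hθ _ hdet ((CfsgLib.FormConj.mem_GU_dag q hq hθ _).1 g.2)
      exact ⟨x, Subtype.ext (Units.ext (by rw [hι, hx]))⟩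
  let S := CfsgLib.GLOrders.shiftMat K n
  have hS : IsNilpotent S := ⟨n, CfsgLib.GLOrders.shiftMat_pow_self⟩
  let A : GL (Fin n) K := (IsNilpotent.isUnit_one_add hS).unit
  have hA : A.1 - 1 = S := by rw [IsUnit.unit_spec, add_sub_cancel_left]
  have hreg : ∀ {g h : GL (Fin n) K}, (g.1 - 1) ^ n = 0 → (g.1 - 1).rank = n - 1 → (h.1 - 1) ^ n = 0 →
      (h.1 - 1).rank = n - 1 → IsConj g h := by
    intro g h g1 g2 h1 h2
    obtain ⟨P, hP⟩ := CfsgLib.GLOrders.exists_conj_shiftMat hn1 _ g1 g2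
    obtain ⟨Q, hQ⟩ := CfsgLib.GLOrders.exists_conj_shiftMat hn1 _ h1 h2
    refine CfsgLib.NilType.isConj_sub_one.2 ⟨(P * Q⁻¹)⁻¹, ?_⟩
    show ((P * Q⁻¹)⁻¹ : GL (Fin n) K).1 * (g.1 - 1) = (h.1 - 1) * ((P * Q⁻¹)⁻¹ : GL (Fin n) K).1
    rw [mul_inv_rev, inv_inv, Units.val_mul, ← mul_assoc (h.1 - 1), hQ, mul_assoc, mul_assoc]
    congr 1
    rw [eq_comm]
    calc CfsgLib.GLOrders.shiftMat K n * (P⁻¹ : GL (Fin n) K).1 =
          (P⁻¹ : GL (Fin n) K).1 * ((g.1 - 1) * P.1) * (P⁻¹ : GL (Fin n) K).1 := by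
            rw [hP, Units.inv_mul_cancel_left]
      _ = _ := by simp only [mul_assoc, Units.mul_inv, mul_one]
  have hAT : IsConj A.1 ((A.1.map fun x : K => x ^ q).transpose)⁻¹ := by
    have hmap : (A.1.map fun x : K => x ^ q) = A.1 := by
      rw [show (fun x : K => x ^ q) = ⇑θ from funext fun x => (hq x).symm, IsUnit.unit_spec,
        Matrix.map_add θ (map_add θ), Matrix.map_one θ (map_zero θ) (map_one θ)]
      congr 1
      ext i j
      simp [S, CfsgLib.GLOrders.shiftMat, apply_ite θ]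
    have hd : IsUnit A.1.transpose.det := by rw [Matrix.det_transpose]; exact Matrix.isUnits_det_units A
    rw [hmap]
    let u : GL (Fin n) K := Matrix.GeneralLinearGroup.mk'' _ (Matrix.isUnit_nonsing_inv_det _ hd)
    have hu1 : u.1 - 1 = -(A.1.transpose⁻¹ * S.transpose) := by
      show A.1.transpose⁻¹ - 1 = _
      rw [← hA, Matrix.transpose_sub, Matrix.transpose_one, Matrix.mul_sub, Matrix.nonsing_inv_mul _ hd, Matrix.mul_one,
        neg_sub]
    have hc : Commute A.1.transpose⁻¹ S.transpose := by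
      rw [← hA, Matrix.transpose_sub, Matrix.transpose_one]
      refine Commute.sub_right ?_ (Commute.one_right _)
      show _ = _
      rw [Matrix.nonsing_inv_mul _ hd, Matrix.mul_nonsing_inv _ hd]
    refine (Units.coeHom _).map_isConj (hreg (g := A) (h := u) (by rw [hA]; exact CfsgLib.GLOrders.shiftMat_pow_self)
      (by rw [hA]; exact CfsgLib.GLOrders.rank_shiftMat hn1) ?_ ?_)
    · rw [hu1, neg_pow, hc.mul_pow, ← Matrix.transpose_pow, CfsgLib.GLOrders.shiftMat_pow_self, Matrix.transpose_zero,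
        mul_zero, mul_zero]
    · rw [hu1, ← Matrix.neg_mul, Matrix.rank_mul_eq_right_of_isUnit_det _ _ ?_, Matrix.rank_transpose]
      · exact CfsgLib.GLOrders.rank_shiftMat hn1
      · rw [Matrix.det_neg]; exact (isUnit_one.neg.pow _).mul (Matrix.isUnit_nonsing_inv_det _ hd)
  obtain ⟨u, hu⟩ := (Cfsg.Agent.S2588.result hK A).2 hAT
  obtain ⟨hu1, hu2⟩ : ((u : GL (Fin n) K).1 - 1) ^ n = 0 ∧ ((u : GL (Fin n) K).1 - 1).rank = n - 1 := by
    have h := CfsgLib.NilType.isConj_sub_one.1 hu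
    rw [hA] at h
    refine ⟨?_, ?_⟩
    · obtain ⟨c, hc⟩ := h
      have h' := (SemiconjBy.pow_right (a := (c : Matrix (Fin n) (Fin n) K)) hc n).eq
      rw [CfsgLib.GLOrders.shiftMat_pow_self, mul_zero] at h'
      exact c.isUnit.mul_left_eq_zero.1 h'.symm
    · rw [← pow_one ((u : GL (Fin n) K).1 - 1), ← CfsgLib.NilType.rank_of_isConj h 1, pow_one]
      exact CfsgLib.GLOrders.rank_shiftMat hn1
  have hDu : D u = 1 := Subtype.ext (Units.ext (by
    have h := CfsgLib.NilType.isConj_sub_one.1 hu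
    obtain ⟨P, hP⟩ := CfsgLib.GLOrders.exists_conj_shiftMat hn1 _ hu1 hu2
    rw [hDv]
    show _ = 1
    have e : (u : GL (Fin n) K).1 = P.1 * (1 + S) * (P⁻¹ : GL (Fin n) K).1 := by
      rw [mul_add, mul_one, add_mul, ← hP, Units.mul_inv, mul_assoc, Units.mul_inv, mul_one, add_sub_cancel]
    rw [e, Matrix.det_units_conj, Matrix.det_of_isLowerTriangular]
    · simp [S, CfsgLib.GLOrders.shiftMat]
    · intro i j hij
      have h : i.val < j.val := hij
      rw [Matrix.add_apply, Matrix.one_apply_ne (fun e => by rw [e] at h; omega)]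
      simp [S, CfsgLib.GLOrders.shiftMat]
      omega))
  rw [CfsgLib.FormConj.card_split_classes D hD ι hιi hr u hDu _ (fun h_ => ?_)]
  · have hR : (Subgroup.centralizer {u}).map D = (powMonoidHom n : N1 →* N1).range := by
      ext a
      constructor
      · rintro ⟨z, hz, rfl⟩
        have hc : (z : GL (Fin n) K).1 * ((u : GL (Fin n) K).1 - 1) = ((u : GL (Fin n) K).1 - 1) * (z : GL (Fin n) K).1 := by
          have := congrArg (fun g : ↥(Cfsg.GU n K q) => (g : GL (Fin n) K).1) (Subgroup.mem_centralizer_singleton_iff.1 hz)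
          rw [mul_sub, sub_mul, mul_one, one_mul]
          exact congrArg (· - (z : GL (Fin n) K).1) this
        obtain ⟨v, hv, hvd⟩ := CfsgLib.FormConj.det_of_commute (θ := θ) hn1 hu1 hu2 hc
          ((CfsgLib.FormConj.mem_GU_dag q hq hθ _).1 z.2)
        have hv0 : v ≠ 0 := fun h => by rw [h, mul_zero] at hv; exact zero_ne_one hv
        exact ⟨⟨Units.mk0 v hv0, (hN1 _).2 hv⟩, Subtype.ext (Units.ext (by
          rw [hDv, hvd]; simp))⟩
      · rintro ⟨b, rfl⟩
        have hb := (hN1 b.1).1 b.2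
        obtain ⟨M, hM⟩ : ∃ M, M = algebraMap K (Matrix (Fin n) (Fin n) K) (b : Kˣ).val := ⟨_, rfl⟩
        have hMu : CfsgLib.FormConj.dag θ M * M = 1 := by
          rw [hM, CfsgLib.FormConj.dag_algebraMap, ← map_mul, hb, map_one]
        refine ⟨⟨Matrix.GeneralLinearGroup.mk'' M (Matrix.isUnit_det_of_left_inverse hMu),
          (CfsgLib.FormConj.mem_GU_dag q hq hθ _).2 hMu⟩, Subgroup.mem_centralizer_singleton_iff.2 (Subtype.ext (Units.ext ?_)),
          Subtype.ext (Units.ext ?_)⟩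
        · show M * _ = _ * M
          rw [hM]
          exact Algebra.commutes _ _
        · rw [hDv]
          show M.det = _
          rw [hM, Algebra.algebraMap_eq_smul_one, Matrix.det_smul, Matrix.det_one, mul_one, Fintype.card_fin]
          simp
    have hc : Nat.card N1 = q + 1 := by
      rw [show N1 = (powMonoidHom (q + 1)).ker from rfl, IsCyclic.card_powMonoidHom_ker, Nat.card_units,
        Nat.card_eq_fintype_card, hK]
      exact Nat.gcd_eq_right ⟨q - 1, by
        obtain ⟨k, rfl⟩ : ∃ k, q = k + 1 := ⟨q - 1, by omega⟩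
        simp only [Nat.add_sub_cancel]
        rw [show (k + 1) ^ 2 = (k + 1 + 1) * k + 1 by ring, Nat.add_sub_cancel]⟩
    rw [hR, IsCyclic.index_powMonoidHom_range, hc, Nat.gcd_comm]
  · refine ⟨fun ⟨h1, h2⟩ => ?_, fun hh => ?_⟩
    · refine (Cfsg.Agent.S2587.result hK _ _).2 (hreg hu1 hu2 ?_ ?_)
      · rw [hι]; exact h1
      · rw [hι]; exact h2
    · have h := CfsgLib.NilType.isConj_sub_one.1 ((Cfsg.GU n K q).subtype.map_isConj hh)
      simp only [Subgroup.coe_subtype, hι] at h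
      refine ⟨?_, ?_⟩
      · obtain ⟨c, hc⟩ := h
        have h' := (SemiconjBy.pow_right (a := (c : Matrix (Fin n) (Fin n) K)) hc n).eq
        rw [hu1, mul_zero] at h'
        exact c.isUnit.mul_left_eq_zero.1 h'.symm
      · have h' := CfsgLib.NilType.rank_of_isConj h 1
        rw [pow_one, pow_one, hu2] at h'
        exact h'.symm

end Cfsg.Agent.S2643
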