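import Cfsg.Statements.S2646
import Cfsg.Agent.JordanCentralizer.Unitary

set_option autoImplicit false
open Cfsg

namespace Cfsg.Agent.S2646

/-- Order of the centraliser in the general unitary group GU_n(q) of a unipotent element of given Jordan type: if u ∈ GU_n(q) (isometries of Σ u_i v_i^q over the field with q² elements) is similar to the unipotent matrix with a_i Jordan blocks of size i (all sizes at least 1), then its centraliser in GU_n(q) has order q^γ · Π_i |GU_(a_i)(q)| with γ = 2 Σ_(i<j) i a_i a_j + Σ_i (i − 1) a_i², the same exponent as in GL_n(q), where |GU_a(q)| = q^(a(a−1)/2) Π_(k=1)^a (q^k − (−1)^k). -/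
theorem result {K : Type*} [Field K] [Fintype K] {q n t : ℕ} (hK : Fintype.card K = q ^ 2) (d : Fin t → ℕ) (hd : ∀ k, 1 ≤ d k) (e : ((k : Fin t) × Fin (d k)) ≃ Fin n) (u : ↥(Cfsg.GU n K q)) (hu : IsConj (Matrix.reindex e e (Cfsg.jordanTypeMatrix d K)) ((u : GL (Fin n) K) : Matrix (Fin n) (Fin n) K)) : (Nat.card ↥(Subgroup.centralizer ({u} : Set ↥(Cfsg.GU n K q))) : ℤ) = (q : ℤ) ^ (2 * (∑ i ∈ Finset.range (Finset.univ.sup d + 1), ∑ j ∈ Finset.range (Finset.univ.sup d + 1), if i < j then i * (Finset.univ.filter (fun k : Fin t => d k = i)).card * (Finset.univ.filter (fun k : Fin t => d k = j)).card else 0) + ∑ i ∈ Finset.range (Finset.univ.sup d + 1), (i - 1) * (Finset.univ.filter (fun k : Fin t => d k = i)).card ^ 2) * ∏ i ∈ Finset.range (Finset.univ.sup d + 1), ((q : ℤ) ^ ((Finset.univ.filter (fun k : Fin t => d k = i)).card * ((Finset.univ.filter (fun k : Fin t => d k = i)).card - 1) / 2) * ∏ j : Fin (Finset.univ.filter (fun k : Fin t => d k = i)).card, ((q : ℤ) ^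 ((j : ℕ) + 1) - (-1) ^ ((j : ℕ) + 1))) := by
  obtain ⟨C⟩ := CfsgLib.UGeom.nonempty_conj hK
  rw [CfsgLib.JordanCentralizer.card_centralizer_unitary C hd e u hu,
    CfsgLib.JordanCentralizer.exponent_eq d hd,
    Fin.prod_univ_eq_prod_range (fun i => Nat.card (Cfsg.GU (CfsgLib.JordanCentralizer.size d i) K q)) _,
    Nat.cast_mul, Nat.cast_pow, Nat.cast_prod]
  refine congrArg₂ (· * ·) rfl (Finset.prod_congr rfl fun i _ => ?_)
  rw [CfsgLib.UGeom.card_GU C, Nat.cast_mul, Nat.cast_pow, Nat.cast_prod,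
    ← Fin.prod_univ_eq_prod_range (fun j => ((if Even j then q ^ (j + 1) + 1 else q ^ (j + 1) - 1 : ℕ) : ℤ))]
  refine congrArg₂ (· * ·) rfl (Finset.prod_congr rfl fun j _ => ?_)
  rw [pow_succ (-1 : ℤ)]
  rcases Nat.even_or_odd (j : ℕ) with h | h
  · rw [if_pos h, h.neg_one_pow]
    push_cast
    ring
  · rw [if_neg (Nat.not_even_iff_odd.mpr h), h.neg_one_pow,
      Nat.cast_sub (Nat.one_le_pow _ _ (by have := C.two_le; omega))]
    push_cast
    ring

end Cfsg.Agent.S2646
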