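import Cfsg.Statements.S2661
import Cfsg.Agent.Ree4Sections.Main

set_option autoImplicit false
open scoped MatrixGroups
open Cfsg

namespace Cfsg.Agent.S2661

/-- Alternating sections of the large Ree groups ²F₄. Let `m ≥ 1`, let `K` be a field with `2^(2m+1)` elements and let `G` be the large Ree group ²F₄(2^(2m+1)) realised over `K`. If some subgroup of `G` has a quotient isomorphic to the alternating group of degree `r`, then `r ≤ 6`. (Only an upper bound is asserted.) -/
theorem result {K : Type*} [Field K] [Fintype K] {m : ℕ} (hm : 1 ≤ m)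
    (hK : Fintype.card K = 2 ^ (2 * m + 1)) (r : ℕ) (H : Subgroup ↥(Cfsg.Lie.twistedF4 K (2 ^ m))) (N : Subgroup ↥H) [N.Normal]
    (h : Nonempty (↥H ⧸ N ≃* ↥(alternatingGroup (Fin r)))) :
    r ≤ 6 := by
  haveI := CfsgLib.Chev.Ree4.charP_two hK
  have hK' : Nat.card K = 2 ^ (2 * m + 1) := by rw [Nat.card_eq_fintype_card, hK]
  obtain ⟨e⟩ := h
  exact CfsgLib.Chev.Ree4Sections.alternating_bound m hK' H (e.toMonoidHom.comp (QuotientGroup.mk' N))
    (e.surjective.comp (QuotientGroup.mk'_surjective N))

end Cfsg.Agent.S2661
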