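import Cfsg.Statements.S2665
import Mathlib
import Cfsg.Agent.H29.Lang

set_option autoImplicit false
open scoped MatrixGroups
open Cfsg

namespace Cfsg.Agent.S2665

/-- The Lang–Steinberg Theorem for the general linear group. Let `K` be an algebraically closed field of prime characteristic `p`, let `q = p^f` with `f ≥ 1`, and let `σ` be the endomorphism of GL_n(K) raising every matrix entry to the `q`-th power. Then every element `g` of GL_n(K) can be written `g = x · σ(x)⁻¹` for some `x` in GL_n(K): the map `x ↦ x σ(x)⁻¹` is surjective. -/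
theorem result {K : Type*} [Field K] [IsAlgClosed K] (p : ℕ) [Fact p.Prime] [CharP K p]
    (f : ℕ) (hf : 1 ≤ f) (n : ℕ) (g : GL (Fin n) K) :
    ∃ x : GL (Fin n) K, g = x * (Matrix.GeneralLinearGroup.map (iterateFrobenius K p f) x)⁻¹ := by
  classical
  set σ : K →+* K := iterateFrobenius K p f with hσ
  have hσv : ∀ c : K, σ c = c ^ (p ^ f) := fun c => iterateFrobenius_def p f c
  have hq : 1 < p ^ f := Nat.one_lt_pow (by omega) (Fact.out (p := p.Prime)).one_lt
  let F : (Fin n → K) →+ (Fin n → K) :=
    { toFun := fun v => (g : Matrix (Fin n) (Fin n) K).mulVec (σ ∘ v)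
      map_zero' := by
        rw [show σ ∘ (0 : Fin n → K) = 0 from funext fun i => map_zero σ, Matrix.mulVec_zero]
      map_add' := fun v w => by
        rw [← Matrix.mulVec_add]; congr 1; funext i; simp }
  have hF : ∀ (c : K) (v : Fin n → K), F (c • v) = c ^ (p ^ f) • F v := by
    intro c v
    show Matrix.mulVec _ (σ ∘ (c • v)) = _
    rw [show σ ∘ (c • v) = c ^ (p ^ f) • (σ ∘ v) from funext fun i => by simp [hσv, mul_pow],
      Matrix.mulVec_smul]
    rfl
  have hinj : Function.Injective F := by
    intro v w h
    have h' := Matrix.mulVec_injective_iff_isUnit.mpr g.isUnit h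
    funext i
    exact σ.injective (congrFun h' i)
  have hspan := H29.Lang.fixed_span (p ^ f) hq F hF hinj
  let b := Module.Basis.ofSpan (le_of_eq hspan.symm)
  let b' := b.reindex (b.indexEquiv (Pi.basisFun K (Fin n)))
  have hfix : ∀ j, F (b' j) = b' j := by
    intro j
    have : b ((b.indexEquiv (Pi.basisFun K (Fin n))).symm j) ∈ {v | F v = v} := Module.Basis.ofSpan_subset (le_of_eq hspan.symm) ⟨_, rfl⟩
    simpa [b'] using this
  let M : Matrix (Fin n) (Fin n) K := (Pi.basisFun K (Fin n)).toMatrix b'
  have hM : IsUnit M := @isUnit_of_invertible _ _ _ ((Pi.basisFun K (Fin n)).invertibleToMatrix b')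
  let x : GL (Fin n) K := hM.unit
  have hx : g * Matrix.GeneralLinearGroup.map σ x = x := by
    apply Units.ext
    ext i j
    have := congrFun (hfix j) i
    simp only [F, AddMonoidHom.coe_mk, ZeroHom.coe_mk, Matrix.mulVec, dotProduct,
      Function.comp_apply] at this
    rw [Units.val_mul, Matrix.mul_apply]
    simpa [x, M, Module.Basis.toMatrix_apply] using this
  exact ⟨x, by rw [eq_mul_inv_iff_mul_eq]; exact hx⟩

end Cfsg.Agent.S2665
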