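import Cfsg.Statements.S2669
import Mathlib

set_option autoImplicit false
open Cfsg

namespace Cfsg.Agent.S2669

/-- Shintani descent preserves numbers of fixed points on coset spaces (abstract form). Let `σ` be an automorphism of a group `X` and `e ≥ 1`; write `G` for the fixed points of `σᵉ` and `H` for the fixed points of `σ`, and assume `G` is finite. Let `Y` be a `σ`-stable subgroup of `X` on which the maps `a ↦ a σ(a)⁻¹` and `a ↦ a σᵉ(a)⁻¹` are surjective (as for a closed connected `σ`-stable subgroup of an algebraic group). Let `g ∈ G`, let `a ∈ X` satisfy `g = a σ(a)⁻¹` and put `x = σᵉ(a)⁻¹ a` (the Shintani image, an element of `H`). The element `g σ` of the semidirect product acts on the cosets of `Y ∩ G` in `G` by `k (Y ∩ G) ↦ g σ(k) (Y ∩ G)`, fixing that coset exactly when `k⁻¹ g σ(k) ∈ Y`; and `x` fixes the coset `h (Y ∩ H)` of `H` exactly when `h⁻¹ x h ∈ Y`. Then the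 two numbers of fixed cosets agree; in cross-multiplied form, `#{k ∈ G : k⁻¹ g σ(k) ∈ Y} · |Y ∩ H| = #{h ∈ H : h⁻¹ x h ∈ Y} · |Y ∩ G|`. -/
theorem result {X : Type*} [Group X] (σ : MulAut X) (e : ℕ) (he : 1 ≤ e)
    [Finite ↥((MulEquiv.toMonoidHom (σ ^ e)).eqLocus (MonoidHom.id X))]
    (Y : Subgroup X) (hY : ∀ y : X, y ∈ Y ↔ σ y ∈ Y)
    (hYL : ∀ y ∈ Y, ∃ a ∈ Y, y = a * (σ a)⁻¹) (hYLe : ∀ y ∈ Y, ∃ a ∈ Y, y = a * ((σ ^ e) a)⁻¹)
    (g : X) (hg : g ∈ (MulEquiv.toMonoidHom (σ ^ e)).eqLocus (MonoidHom.id X)) (a : X) (ha : g = a * (σ a)⁻¹) :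
    Nat.card {k : ↥((MulEquiv.toMonoidHom (σ ^ e)).eqLocus (MonoidHom.id X)) // (k : X)⁻¹ * g * σ k ∈ Y} *
        Nat.card ↥(Y ⊓ (MulEquiv.toMonoidHom σ).eqLocus (MonoidHom.id X)) =
      Nat.card {h : ↥((MulEquiv.toMonoidHom σ).eqLocus (MonoidHom.id X)) // (h : X)⁻¹ * (((σ ^ e) a)⁻¹ * a) * h ∈ Y} *
        Nat.card ↥(Y ⊓ (MulEquiv.toMonoidHom (σ ^ e)).eqLocus (MonoidHom.id X)) := by
  classical
  set G := (MulEquiv.toMonoidHom (σ ^ e)).eqLocus (MonoidHom.id X) with hG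
  set H := (MulEquiv.toMonoidHom σ).eqLocus (MonoidHom.id X) with hH
  have memG : ∀ {x : X}, x ∈ G ↔ (σ ^ e) x = x := fun {x} => Iff.rfl
  have memH : ∀ {x : X}, x ∈ H ↔ σ x = x := fun {x} => Iff.rfl
  have hσe : ∀ {d : X}, d ∈ H → (σ ^ e) d = d := by
    intro d hd
    have : ∀ i : ℕ, (σ ^ i) d = d := by
      intro i
      induction i with
      | zero => simp
      | succ i ih => rw [pow_succ, MulAut.mul_apply, memH.mp hd, ih]
    exact this e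
  set x := ((σ ^ e) a)⁻¹ * a with hx
  have L1 : ∀ k c : X, k⁻¹ * g * σ k = c * (σ c)⁻¹ → σ (c⁻¹ * k⁻¹ * a) = c⁻¹ * k⁻¹ * a := by
    intro k c hck
    have : (σ c)⁻¹ = c⁻¹ * (k⁻¹ * g * σ k) := by rw [hck]; group
    simp only [map_mul, map_inv]
    rw [this, ha]; group
  have L2 : ∀ h b : X, (σ ^ e) h = h → (h⁻¹ * x * h)⁻¹ = b * ((σ ^ e) b)⁻¹ →
      (σ ^ e) (a * h * b⁻¹⁻¹) = a * h * b⁻¹⁻¹ := by
    intro h b hh hbh
    have h1 : (σ ^ e) b = (h⁻¹ * x * h) * b := by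
      rw [← inv_inv (h⁻¹ * x * h), hbh]; group
    simp only [inv_inv, map_mul]
    rw [hh, h1, hx]; group
  have L3 : ∀ k c d : X, σ d = d → a = k * c * d → k⁻¹ * g * σ k = c * (σ c)⁻¹ := by
    intro k c d hd ht
    rw [ha, ht]
    simp only [map_mul, hd]
    group
  have L4 : ∀ k c d : X, (σ ^ e) d = d → (σ ^ e) k = k → a = k * c * d →
      d⁻¹⁻¹ * x * d⁻¹ = ((σ ^ e) c)⁻¹ * c := by
    intro k c d hd hk ht
    rw [hx, ht]
    simp only [map_mul, hd, hk, inv_inv]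
    group
  have L5 : ∀ k c d f : X, a = k * c * d → f⁻¹ * c = (f⁻¹ * k⁻¹ * a) * d⁻¹ := by
    intro k c d f ht; rw [ht]; group
  have L6 : ∀ k c d f : X, a = k * c * d → c * f⁻¹ = k⁻¹ * (a * d⁻¹ * f⁻¹) := by
    intro k c d f ht; rw [ht]; group
  let T := {t : G × Y × H // a = (t.1 : X) * t.2.1 * t.2.2}
  let A := {k : G // (k : X)⁻¹ * g * σ k ∈ Y}
  let B := {h : H // (h : X)⁻¹ * x * h ∈ Y}
  have ex1 : ∀ k : A, ∃ c : Y, (c : X)⁻¹ * (k.1 : X)⁻¹ * a ∈ H := by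
    intro k
    obtain ⟨c, hc, hck⟩ := hYL _ k.2
    exact ⟨⟨c, hc⟩, memH.mpr (L1 _ _ hck)⟩
  choose f hf using ex1
  have ex2 : ∀ h : B, ∃ c : Y, a * (h.1 : X) * (c : X)⁻¹ ∈ G := by
    intro h
    obtain ⟨b, hb, hbh⟩ := hYLe _ (inv_mem h.2)
    exact ⟨⟨b⁻¹, inv_mem hb⟩, memG.mpr (L2 _ _ (hσe h.1.2) hbh)⟩
  choose f' hf' using ex2
  have hAT : ∀ t : T, (t.1.1 : X)⁻¹ * g * σ t.1.1 ∈ Y := by
    intro t
    rw [L3 _ _ _ (memH.mp t.1.2.2.2) t.2]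
    exact mul_mem t.1.2.1.2 (inv_mem ((hY _).mp t.1.2.1.2))
  have hYe : ∀ y ∈ Y, (σ ^ e) y ∈ Y := by
    intro y hy
    have : ∀ i : ℕ, (σ ^ i) y ∈ Y := by
      intro i
      induction i generalizing y with
      | zero => simpa
      | succ i ih => rw [pow_succ, MulAut.mul_apply]; exact ih _ ((hY _).mp hy)
    exact this e
  have hBT : ∀ t : T, ((t.1.2.2⁻¹ : H) : X)⁻¹ * x * (t.1.2.2⁻¹ : H) ∈ Y := by
    intro t
    rw [InvMemClass.coe_inv, L4 _ _ _ (hσe t.1.2.2.2) (memG.mp t.1.1.2) t.2]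
    exact mul_mem (inv_mem (hYe _ t.1.2.1.2)) t.1.2.1.2
  let e1 : T ≃ A × ↥(Y ⊓ H) :=
    { toFun := fun t => (⟨t.1.1, hAT t⟩,
        ⟨(f ⟨t.1.1, hAT t⟩ : X)⁻¹ * t.1.2.1, Y.mul_mem (Y.inv_mem (f _).2) t.1.2.1.2, by
          have h1 := hf ⟨t.1.1, hAT t⟩
          simp only [] at h1
          rw [L5 _ _ _ _ t.2]
          exact H.mul_mem h1 (H.inv_mem t.1.2.2.2)⟩)
      invFun := fun p => ⟨(p.1.1, ⟨f p.1 * (p.2 : X), mul_mem (f p.1).2 p.2.2.1⟩,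
        ⟨(p.2 : X)⁻¹ * ((f p.1 : X)⁻¹ * (p.1.1 : X)⁻¹ * a), H.mul_mem (H.inv_mem p.2.2.2) (hf p.1)⟩),
          by simp only; group⟩
      left_inv := fun t => by
        refine Subtype.ext (Prod.ext rfl (Prod.ext (Subtype.ext ?_) (Subtype.ext ?_)))
        · simp
        · simp only
          rw [L5 _ _ _ _ t.2]; group
      right_inv := fun p => by
        refine Prod.ext rfl (Subtype.ext ?_)
        simp }
  let e2 : T ≃ B × ↥(Y ⊓ G) :=
    { toFun := fun t => (⟨t.1.2.2⁻¹, hBT t⟩,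
        ⟨(t.1.2.1 : X) * (f' ⟨t.1.2.2⁻¹, hBT t⟩ : X)⁻¹, Y.mul_mem t.1.2.1.2 (Y.inv_mem (f' _).2), by
          have h1 := hf' ⟨t.1.2.2⁻¹, hBT t⟩
          simp only [InvMemClass.coe_inv] at h1
          rw [L6 _ _ _ _ t.2]
          exact G.mul_mem (G.inv_mem t.1.1.2) h1⟩)
      invFun := fun p => ⟨(⟨(a * (p.1.1 : X) * (f' p.1 : X)⁻¹) * (p.2 : X)⁻¹,
            G.mul_mem (hf' p.1) (G.inv_mem p.2.2.2)⟩,
          ⟨(p.2 : X) * f' p.1, mul_mem p.2.2.1 (f' p.1).2⟩, p.1.1⁻¹),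
          by simp only [InvMemClass.coe_inv]; group⟩
      left_inv := fun t => by
        refine Subtype.ext (Prod.ext (Subtype.ext ?_) (Prod.ext (Subtype.ext ?_) (inv_inv _)))
        · simp only [InvMemClass.coe_inv]
          rw [L6 _ _ _ _ t.2]; group
        · simp
      right_inv := fun p => by
        have hp : ∀ h, (⟨(p.1.1⁻¹)⁻¹, h⟩ : B) = p.1 := fun h => Subtype.ext (inv_inv _)
        refine Prod.ext (hp _) (Subtype.ext ?_)
        simp [hp] }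
  have h1 := Nat.card_congr (e1.symm.trans e2)
  rw [Nat.card_prod, Nat.card_prod] at h1
  exact h1

end Cfsg.Agent.S2669
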