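import Cfsg.Statements.S2671
import Cfsg.Agent.SemiClasses.Setup
import Cfsg.Agent.S2587
import Cfsg.Agent.S2588

set_option autoImplicit false
open Cfsg

namespace Cfsg.Agent.S2671

/-- Number of conjugacy classes of elements of odd prime order r in the general unitary group GU_n(q), for r not dividing q(q + 1): let i be the multiplicative order of q modulo r, b = i if i is odd and b = i/2 if i is even, and s = (r − 1)/b. If i ≢ 2 (mod 4) the eigenvalue orbits pair off into dual pairs of totally isotropic blocks and there are C(⌊n/(2b)⌋ + s/2, s/2) − 1 classes; if i ≡ 2 (mod 4) each orbit gives a non-degenerate block of dimension i/2 and there are C(⌊2n/i⌋ + s, s) − 1 classes. -/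
theorem result {K : Type*} [Field K] [Fintype K] {p q n r i b s : ℕ} [Fact p.Prime] [CharP K p] (hK : Fintype.card K = q ^ 2) (hr : r.Prime) (hr2 : r ≠ 2) (hrp : r ≠ p) (hi : i = orderOf (q : ZMod r)) (hi2 : i ≠ 2) (hb : b = if Odd i then i else i / 2) (hs : s * b = r - 1) : Nat.card {C : ConjClasses ↥(Cfsg.GU n K q) // ∃ g : ↥(Cfsg.GU n K q), ConjClasses.mk g = C ∧ orderOf g = r} = if i % 4 = 2 then Nat.choose (2 * n / i + s) s - 1 else Nat.choose (n / (2 * b) + s / 2) (s / 2) - 1 := by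
  classical
  haveI := Fact.mk hr
  obtain ⟨θ, hq, hθ, -, -⟩ := CfsgLib.Unitary.exists_conj q hK
  obtain ⟨k, hk⟩ : ∃ k, q = p ^ k := by
    obtain ⟨e, -, he⟩ := FiniteField.card K p
    have hd : q ∣ p ^ (e : ℕ) := he ▸ hK ▸ dvd_pow_self q two_ne_zero
    obtain ⟨k, -, hk⟩ := (Nat.dvd_prime_pow Fact.out).mp hd
    exact ⟨k, hk⟩
  obtain ⟨u, hu⟩ := CfsgLib.SemiClasses.exists_unit_card (F := K) (r := r) (p := p) (q := q)
    (hK ▸ dvd_pow_self q two_ne_zero) hrp
  obtain ⟨P, hP, hLfin, hζ⟩ := CfsgLib.SemiClasses.exists_root_field K hr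
    (CfsgLib.SemiClasses.natCast_ne_zero hrp)
  let inv : ↥(Cfsg.GU n K q) → (ZMod r → ℕ) := fun g =>
    CfsgLib.SemiClasses.mult (AdjoinRoot.root P) ((g : GL (Fin n) K) : Matrix (Fin n) (Fin n) K)
  have hr1 : ∀ g : ↥(Cfsg.GU n K q), g ^ r = 1 → (g : GL (Fin n) K) ^ r = 1 := fun g hg => by
    rw [← SubmonoidClass.coe_pow, hg, OneMemClass.coe_one]
  have hr1' : ∀ g : GL (Fin n) K, g ^ r = 1 → (g : Matrix (Fin n) (Fin n) K) ^ r = 1 := fun g hg => by
    rw [← Units.val_pow_eq_pow_val, hg, Units.val_one]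
  have hmapr : ∀ M : Matrix (Fin n) (Fin n) K, M ^ r = 1 → (M.map θ) ^ r = 1 := fun M hM => by
    show (θ.mapMatrix M) ^ r = 1
    rw [← map_pow, hM, map_one]
  have hmult : ∀ M : Matrix (Fin n) (Fin n) K, M ^ r = 1 → ∀ x : ZMod r,
      CfsgLib.SemiClasses.mult (AdjoinRoot.root P) ((M.map θ).transpose)⁻¹ (x * ((-u : (ZMod r)ˣ) : ZMod r)) =
        CfsgLib.SemiClasses.mult (AdjoinRoot.root P) M x := fun M hM x => by
    rw [Units.val_neg, mul_neg, CfsgLib.SemiClasses.mult_inv hζ hrp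
      (by rw [← Matrix.transpose_pow, hmapr M hM, Matrix.transpose_one]),
      CfsgLib.SemiClasses.mult_transpose, hu, hk]
    exact CfsgLib.SemiClasses.mult_map hζ hrp θ k (fun a => by rw [hq, hk]) M x
  haveI := CfsgLib.SemiClasses.finite_invariant (-u) n
  rw [CfsgLib.SemiClasses.card_classes inv
    (fun f => (∀ x, f (x * ((-u : (ZMod r)ˣ) : ZMod r)) = f x) ∧ ∑ x, f x = n) ?_ ?_ ?_,
    CfsgLib.SemiClasses.card_invariant]
  · have hui : orderOf u = i := by rw [← orderOf_units, hu, ← hi]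
    have hi0 : 0 < i := hui ▸ orderOf_pos u
    rcases Nat.even_or_odd i with hev | hodd
    · rw [CfsgLib.SemiClasses.orderOf_neg_even u hr2 (hui.symm ▸ hev), hui]
      rw [if_neg (Nat.not_odd_iff_even.mpr hev)] at hb
      obtain ⟨j, hj⟩ := hev
      have hj0 : 0 < j := by omega
      have hbj : b = j := by omega
      subst hbj
      split_ifs with h4
      · rw [show i / 2 = b by omega, ← hs, Nat.mul_div_cancel _ hj0, hj, ← two_mul,
          Nat.mul_div_mul_left _ _ two_pos]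
      · rw [hj, ← two_mul, ← hs, Nat.mul_div_mul_right _ _ hj0]
    · rw [CfsgLib.SemiClasses.orderOf_neg_odd u hr2 (hui.symm ▸ hodd), hui]
      rw [if_pos hodd] at hb
      have hodd' := Nat.odd_iff.mp hodd
      rw [if_neg (by omega), hb, ← hs, hb, Nat.mul_div_mul_right _ _ hi0]
  · intro g h hg hh
    rw [Cfsg.Agent.S2587.result hK]
    constructor
    · intro hc
      obtain ⟨c, hc⟩ := isConj_iff.mp hc
      refine CfsgLib.SemiClasses.mult_of_similar (Matrix.isUnits_det_units c) ?_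
      rw [← Units.val_mul, ← Units.val_mul, ← hc, inv_mul_cancel_right]
    · exact fun e => CfsgLib.SemiClasses.gl_conj_of_mult hζ hrp _ _ (hr1 g hg) (hr1 h hh) (congrFun e)
  · intro g hg
    refine ⟨fun x => ?_, by
      rw [CfsgLib.SemiClasses.sum_mult hζ (hr1' _ (hr1 g hg)), Fintype.card_fin]⟩
    have hg' := hr1' _ (hr1 g hg)
    have hunit := (CfsgLib.FormConj.mem_GU_dag q hq hθ _).mp g.2
    have he : (((g : GL (Fin n) K) : Matrix (Fin n) (Fin n) K).map θ).transpose⁻¹ =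
        ((g : GL (Fin n) K) : Matrix (Fin n) (Fin n) K) := Matrix.inv_eq_right_inv hunit
    have := hmult _ hg' x
    rwa [he] at this
  · rintro f ⟨hf, hsum⟩
    have hf2 : ∀ x, f (x * (Fintype.card K : ZMod r)) = f x := fun x => by
      rw [hK, pow_two, Nat.cast_mul, ← hu, ← neg_mul_neg (u : ZMod r) (u : ZMod r), ← Units.val_neg]
      exact CfsgLib.SemiClasses.invariant_sq f _ hf x
    obtain ⟨A, hA, hAf⟩ := CfsgLib.SemiClasses.exists_of_mult (p := p) hζ hrp f hf2 hsum
    have hA' := hr1' A hA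
    have hM : ((A.1.map θ).transpose⁻¹) ^ r = 1 := by
      rw [Matrix.inv_pow', ← Matrix.transpose_pow, hmapr _ hA', Matrix.transpose_one, inv_one]
    obtain ⟨Q, hQ, hQA⟩ := CfsgLib.SemiClasses.exists_similar hζ hrp (Equiv.refl (Fin n)) hA' hM fun x => by
      obtain ⟨y, rfl⟩ : ∃ y, y * ((-u : (ZMod r)ˣ) : ZMod r) = x := ⟨x * ((-u)⁻¹ : (ZMod r)ˣ), by rw [Units.inv_mul_cancel_right]⟩
      rw [hmult _ hA', hAf, hAf, hf]
    rw [Matrix.reindex_refl_refl] at hQA
    obtain ⟨B, hB⟩ := (Cfsg.Agent.S2588.result hK A).mpr (by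
      rw [show (fun x : K => x ^ q) = ⇑θ from funext fun x => (hq x).symm]
      exact ⟨((Matrix.isUnit_iff_isUnit_det Q).mpr hQ).unit, hQA⟩)
    obtain ⟨c, hc⟩ := isConj_iff.mp hB
    refine ⟨B, Subtype.ext ?_, funext fun x => ?_⟩
    · rw [SubmonoidClass.coe_pow, OneMemClass.coe_one, ← hc, conj_pow, hA, mul_one, mul_inv_cancel]
    · rw [← hAf x]
      refine (congrFun (CfsgLib.SemiClasses.mult_of_similar (Matrix.isUnits_det_units c) ?_) x).symm
      rw [← Units.val_mul, ← Units.val_mul, ← hc, inv_mul_cancel_right]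

end Cfsg.Agent.S2671
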