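import Cfsg.Statements.S2672
import Cfsg.Agent.SemiClasses.QuotCenter
import Cfsg.Agent.S2587
import Cfsg.Agent.S2588
import Cfsg.Agent.UGeom.Center
import Cfsg.Agent.AutPSU.Field

set_option autoImplicit false
open Cfsg

namespace Cfsg.Agent.S2672

/-- Number of conjugacy classes of elements of odd prime order r in PGU_n(q) = GU_n(q)/scalars (n ≥ 3) when r divides q + 1: as in the linear case with q − 1 replaced by q + 1, the classes correspond to the rotation orbits on r-tuples of eigenvalue multiplicities summing to n with every entry < n, plus r − 1 further classes when r divides n; in all (C(n+r−1, r−1) − r − [r ∣ n])/r + r·[r ∣ n]. -/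
theorem result {K : Type*} [Field K] [Fintype K] {q n r : ℕ} (hK : Fintype.card K = q ^ 2) (hn : 3 ≤ n) (hr : r.Prime) (hr2 : r ≠ 2) (hrq : r ∣ q + 1) : Nat.card {C : ConjClasses (↥(Cfsg.GU n K q) ⧸ Subgroup.center ↥(Cfsg.GU n K q)) // ∃ g : ↥(Cfsg.GU n K q) ⧸ Subgroup.center ↥(Cfsg.GU n K q), ConjClasses.mk g = C ∧ orderOf g = r} = (Nat.choose (n + r - 1) (r - 1) - r - (if r ∣ n then 1 else 0)) / r + r * (if r ∣ n then 1 else 0) := by
  classical
  haveI := Fact.mk hr
  obtain ⟨θ, hq, hθ, -, -⟩ := CfsgLib.Unitary.exists_conj q hK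
  obtain ⟨C⟩ := CfsgLib.UGeom.nonempty_conj hK
  obtain ⟨p, hchar⟩ := CharP.exists K
  haveI := hchar
  haveI : Fact p.Prime := ⟨CharP.char_is_prime K p⟩
  have hq1 : 1 ≤ q := by
    rcases Nat.eq_zero_or_pos q with h | h
    · exfalso; have := Fintype.one_lt_card (α := K); rw [hK, h] at this; simp at this
    · exact h
  have hsq : (q + 1) * (q - 1) = q ^ 2 - 1 := by rw [← Nat.sq_sub_sq, one_pow]
  have hrK : r ∣ Fintype.card K - 1 := by rw [hK, ← hsq]; exact hrq.mul_right _
  have hrcop : (q - 1).Coprime r := by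
    refine ((Nat.Prime.coprime_iff_not_dvd hr).mpr fun h => ?_).symm
    have := Nat.dvd_sub hrq h
    rw [show q + 1 - (q - 1) = 2 by omega] at this
    exact hr2 ((Nat.prime_dvd_prime_iff_eq hr Nat.prime_two).mp this)
  obtain ⟨T, hTdef⟩ : ∃ T, T = (powMonoidHom (q + 1) : Kˣ →* Kˣ).ker := ⟨_, rfl⟩
  have hTm : ∀ t : Kˣ, t ∈ T ↔ t ^ (q + 1) = 1 := fun t => by rw [hTdef, MonoidHom.mem_ker, powMonoidHom_apply]
  have hTq : ∀ t : Kˣ, t ∈ T ↔ θ (t : K) * t = 1 := fun t => by
    rw [hTm, hq, ← pow_succ, ← Units.val_pow_eq_pow_val, Units.val_eq_one]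
  have hscq : ∀ t : Kˣ, (CfsgLib.PrimeClasses.sc n t : GL (Fin n) K).1 = Matrix.diagonal fun _ => (t : K) := fun t => by
    rw [CfsgLib.PrimeClasses.sc_coe, Matrix.algebraMap_eq_diagonal]; rfl
  have hdagd : ∀ d : Fin n → K, CfsgLib.FormConj.dag θ (Matrix.diagonal d) = Matrix.diagonal fun i => θ (d i) := fun d => by
    rw [CfsgLib.FormConj.dag, Matrix.diagonal_map (map_zero θ), Matrix.diagonal_transpose]
  have hroot : ∀ t ∈ T, (∃ s : Kˣ, s ^ r = t) → ∃ s ∈ T, s ^ r = t := by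
    rintro t ht ⟨s, rfl⟩
    obtain ⟨c, e, hce⟩ : ∃ c e, (q - 1) * c = 1 + r * e := by
      obtain ⟨c, hc⟩ := Nat.exists_mul_mod_eq_one_of_coprime hrcop hr.one_lt
      exact ⟨c, (q - 1) * c / r, by conv_lhs => rw [← Nat.mod_add_div ((q - 1) * c) r, hc.2]⟩
    refine ⟨s ^ ((q - 1) * c) * ((s ^ r) ^ e)⁻¹, mul_mem ?_ (inv_mem (pow_mem ht e)), ?_⟩
    · rw [hTm, ← pow_mul, show (q - 1) * c * (q + 1) = (q + 1) * (q - 1) * c by ring, hsq, pow_mul, ← hK,
        ← Fintype.card_units, pow_card_eq_one, one_pow]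
    · rw [hce, pow_add, pow_mul, pow_one, mul_inv_cancel_right]
  have key := CfsgLib.SemiClasses.card_quotient_center (F := K) (n := n) (r := r) (by omega) hrK (Cfsg.GU n K q) T ?_ hroot
    ?_ ?_ (fun a b h => (Cfsg.Agent.S2587.result hK a b).mpr h) ?_ ?_
  · exact key
  · rw [hTdef, IsCyclic.card_powMonoidHom_ker, Nat.card_units, Nat.card_eq_fintype_card, hK, ← hsq]
    exact Nat.dvd_gcd (hrq.mul_right _) hrq
  · intro t
    rw [CfsgLib.FormConj.mem_GU_dag q hq hθ, hscq, hdagd, Matrix.diagonal_mul_diagonal, ← Matrix.diagonal_one,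
      Matrix.diagonal_eq_diagonal_iff, hTq]
    exact ⟨fun h => h ⟨0, by omega⟩, fun h _ => h⟩
  · intro g
    constructor
    · intro hg
      have hcomm : ∀ x : Cfsg.SU n K q, x.1.1 * (g.1 : Matrix (Fin n) (Fin n) K) = (g.1 : Matrix (Fin n) (Fin n) K) * x.1.1 :=
        fun x => congrArg (fun y : ↥(Cfsg.GU n K q) => (y.1 : Matrix (Fin n) (Fin n) K))
          (Subgroup.mem_center_iff.1 hg (CfsgLib.UGeom.toGU n K q x))
      obtain ⟨c, hc⟩ := CfsgLib.Unitary.scalar_of_commute q C.card hn _ hcomm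
      have hc0 : c ≠ 0 := by
        intro h
        have hz := Matrix.isUnits_det_units (g : GL (Fin n) K)
        haveI : Nonempty (Fin n) := ⟨⟨0, by omega⟩⟩
        simp [hc, h] at hz
      refine ⟨Units.mk0 c hc0, Units.ext ?_⟩
      rw [hc, hscq, Matrix.smul_one_eq_diagonal]
      rfl
    · rintro ⟨t, ht⟩
      refine Subgroup.mem_center_iff.mpr fun x => Subtype.ext ?_
      rw [Subgroup.coe_mul, Subgroup.coe_mul, ht]
      exact Subgroup.mem_center_iff.mp (CfsgLib.PrimeClasses.sc_center t) _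
  · intro z w hz
    rw [CfsgLib.FormConj.mem_GU_dag q hq hθ, CfsgLib.PrimeClasses.diagElt_coe, hdagd, Matrix.diagonal_mul_diagonal,
      ← Matrix.diagonal_one, Matrix.diagonal_eq_diagonal_iff]
    exact fun i => (hTq _).mp (hz _)
  · intro t ht hnt hrn
    have hrp : r ≠ p := by
      intro h
      obtain ⟨f, hp, hf⟩ := FiniteField.card K p
      have h2 := Nat.dvd_sub (show r ∣ Fintype.card K by rw [hf, h]; exact dvd_pow_self p f.2.ne') hrK
      rw [Nat.sub_sub_self Fintype.card_pos] at h2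
      exact hr.one_lt.ne' (Nat.dvd_one.mp h2)
    have hrF : (r : K) ≠ 0 := fun h =>
      hrp ((Nat.prime_dvd_prime_iff_eq (Fact.out : p.Prime) hr).mp ((CharP.cast_eq_zero_iff K p r).mp h)).symm
    have htn : ∀ b : K, b ^ r ≠ (t : K) := fun b hb => by
      have hb0 : b ≠ 0 := fun h => t.ne_zero (by rw [← hb, h, zero_pow hr.ne_zero])
      exact hnt (hroot t ht ⟨Units.mk0 b hb0, Units.ext (by simpa using hb)⟩)
    obtain ⟨g, hg, hgc⟩ := Cfsg.Agent.H29.Semisimple.exists_matrix (n := n) p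
      ((Polynomial.X ^ r - Polynomial.C (t : K)) ^ (n / r))
      ((Polynomial.monic_X_pow_sub_C _ hr.ne_zero).pow _)
      (by rw [Polynomial.natDegree_pow, Polynomial.natDegree_X_pow_sub_C, Nat.div_mul_cancel hrn])
      (by simp [zero_pow hr.ne_zero])
    have hgr : g ^ r = CfsgLib.PrimeClasses.sc n t := by
      refine Units.ext ?_
      rw [Units.val_pow_eq_pow_val, CfsgLib.PrimeClasses.sc_coe]
      refine CfsgLib.PrimeClasses.pow_eq_scalar_of_factors hrF t.ne_zero g hg fun P hP hd => ?_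
      rw [hgc] at hd
      exact hP.prime.dvd_of_dvd_pow hd
    obtain ⟨h, hh⟩ : ∃ h : GL (Fin n) K, h.1 = ((g.1.map θ).transpose)⁻¹ := by
      refine ⟨(Matrix.GeneralLinearGroup.mk'' _ (Matrix.isUnit_nonsing_inv_det _ ?_)), rfl⟩
      exact CfsgLib.FormConj.isUnit_det_dag θ (Matrix.isUnits_det_units g)
    have hhr : h ^ r = CfsgLib.PrimeClasses.sc n t := by
      refine Units.ext ?_
      rw [Units.val_pow_eq_pow_val, hh, Matrix.inv_pow', ← Matrix.transpose_pow,
        show (g.1.map θ) ^ r = (g.1 ^ r).map θ from (map_pow θ.mapMatrix g.1 r).symm, ← Units.val_pow_eq_pow_val, hgr,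
        hscq, Matrix.diagonal_map (map_zero θ), Matrix.diagonal_transpose]
      refine Matrix.inv_eq_left_inv ?_
      rw [Matrix.diagonal_mul_diagonal, ← Matrix.diagonal_one, Matrix.diagonal_eq_diagonal_iff]
      exact fun _ => by rw [mul_comm]; exact (hTq t).mp ht
    obtain ⟨B, hB⟩ := (Cfsg.Agent.S2588.result hK g).mpr (by
      rw [show (fun x : K => x ^ q) = ⇑θ from funext fun x => (hq x).symm, ← hh]
      exact (Units.coeHom (Matrix (Fin n) (Fin n) K)).map_isConj
        (Cfsg.Agent.H29.Semisimple.gl_conj_of_charpoly (p := p) g h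
          (CfsgLib.PrimeClasses.coprime_of_pow_scalar hrK hgr) (CfsgLib.PrimeClasses.coprime_of_pow_scalar hrK hhr)
          (by rw [(CfsgLib.SemiClasses.charpoly_of_pow_scalar g t hgr htn).2,
            (CfsgLib.SemiClasses.charpoly_of_pow_scalar h t hhr htn).2])))
    obtain ⟨u, hu⟩ := isConj_iff.mp hB
    refine ⟨(B : GL (Fin n) K), B.2, ?_⟩
    rw [← hu, conj_pow, hgr, Subgroup.mem_center_iff.mp (CfsgLib.PrimeClasses.sc_center t) u, mul_inv_cancel_right]

end Cfsg.Agent.S2672
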