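import Cfsg.Statements.S2673
import Cfsg.Agent.SemiClasses.OrthCount

set_option autoImplicit false
open Cfsg

namespace Cfsg.Agent.S2673

/-- Number of conjugacy classes of elements of odd prime order r ≠ p in the orthogonal group O_(2m+1)(q) of x_0² + Σ x_j y_j, q odd: with i the multiplicative order of q mod r and t = (r − 1)/i, there are C(⌊m/i⌋ + t/2, t/2) − 1 classes if i is odd (dual pairs of totally singular i-blocks) and C(⌊(2m+1)/i⌋ + t, t) − 1 if i is even (elliptic i-blocks). -/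
theorem result {F : Type*} [Field F] [Fintype F] {p q : ℕ} [Fact p.Prime] [CharP F p] (hF : Fintype.card F = q) (hq : Odd q) (m r i t : ℕ) (hr : r.Prime) (hr2 : r ≠ 2) (hrp : r ≠ p) (hi : i = orderOf (q : ZMod r)) (ht : t * i = r - 1) : Nat.card {C : ConjClasses ↥(Cfsg.isometryGroup F (Cfsg.quadFormOdd m F)) // ∃ g : ↥(Cfsg.isometryGroup F (Cfsg.quadFormOdd m F)), ConjClasses.mk g = C ∧ orderOf g = r} = if Odd i then Nat.choose (m / i + t / 2) (t / 2) - 1 else Nat.choose ((2 * m + 1) / i + t) t - 1 := by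
  classical
  haveI := Fact.mk hr
  subst hF
  obtain ⟨u, hu⟩ := CfsgLib.SemiClasses.exists_unit_card (F := F) (r := r) (p := p) (q := Fintype.card F)
    dvd_rfl hrp
  have hui : orderOf u = i := by rw [← orderOf_units, hu, ← hi]
  have hi0 : 0 < i := hui ▸ orderOf_pos u
  have h2 : (2 : F) ≠ 0 := by
    intro h
    have hp2 : ringChar F = 2 := by
      haveI := Fact.mk Nat.prime_two
      haveI : CharP F 2 := CharP.charP_iff_prime_eq_zero Nat.prime_two |>.mpr h
      exact ringChar.eq F 2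
    exact (Nat.not_even_iff_odd.mpr hq) (Nat.even_iff.mpr (FiniteField.even_card_iff_char_two.mp hp2))
  have key : ∀ φ : (Unit ⊕ (Fin m ⊕ Fin m) → F) → F, φ = ⇑(CfsgLib.Forms.quadOdd F m) →
      Nat.card {C : ConjClasses ↥(Cfsg.isometryGroup F φ) //
        ∃ g : ↥(Cfsg.isometryGroup F φ), ConjClasses.mk g = C ∧ orderOf g = r} =
      if Odd i then Nat.choose (m / i + t / 2) (t / 2) - 1 else Nat.choose ((2 * m + 1) / i + t) t - 1 := by
    rintro φ rfl
    rw [CfsgLib.SemiClasses.card_orth_odd hrp hr2 h2 hu m, hui, ← ht]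
    split_ifs with ho
    · rw [Nat.mul_div_mul_right _ _ hi0, ← Nat.div_div_eq_div_mul, show (2 * m + 1) / 2 = m by omega]
    · rw [Nat.mul_div_cancel _ hi0]
  exact key _ (CfsgLib.Forms.coe_quadOdd (F := F) m).symm

end Cfsg.Agent.S2673
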