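import Cfsg.Statements.S2675
import Cfsg.Agent.SemiClasses.OrthCount

set_option autoImplicit false
open Cfsg

namespace Cfsg.Agent.S2675

/-- Number of conjugacy classes of elements of odd prime order r ≠ p in the orthogonal group O⁻_2m(q) of an elliptic form Σ_(j<m−1) x_j y_j + z₁² + a z₁z₂ + c z₂² (binary part anisotropic, m ≥ 1): with i the multiplicative order of q mod r and t = (r − 1)/i — if i is odd, C(⌊m/i⌋ + t/2, t/2) − 1 minus, when i divides m, the C(m/i + t/2 − 1, t/2 − 1) tuples filling the whole space (dual pairs of totally singular blocks fill a hyperbolic space); if i is even, C(⌊2m/i⌋ + t, t) − 1 minus, when i divides 2m with even quotient, the C(2m/i + t − 1, t − 1) tuples filling the whole space with an even number of elliptic blocks. -/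
theorem result {F : Type*} [Field F] [Fintype F] {p q : ℕ} [Fact p.Prime] [CharP F p] (hF : Fintype.card F = q) (m r i t : ℕ) (hm : 1 ≤ m) (a c : F) (hac : ∀ z₁ z₂ : F, z₁ ^ 2 + a * z₁ * z₂ + c * z₂ ^ 2 = 0 → z₁ = 0 ∧ z₂ = 0) (hr : r.Prime) (hr2 : r ≠ 2) (hrp : r ≠ p) (hi : i = orderOf (q : ZMod r)) (ht : t * i = r - 1) : Nat.card {C : ConjClasses ↥(Cfsg.isometryGroup F (Cfsg.quadFormMinus (m - 1) F a c)) // ∃ g : ↥(Cfsg.isometryGroup F (Cfsg.quadFormMinus (m - 1) F a c)), ConjClasses.mk g = C ∧ orderOf g = r} = if Odd i then Nat.choose (m / i + t / 2) (t / 2) - 1 - (if i ∣ m then Nat.choose (m / i + t / 2 - 1) (t / 2 - 1) else 0) else Nat.choose (2 * m / i + t) t - 1 - (if i ∣ 2 * m ∧ Even (2 * m / i) then Nat.choose (2 * m / i + t - 1) (t - 1) else 0) := by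
  classical
  haveI := Fact.mk hr
  subst hF
  obtain ⟨u, hu⟩ := CfsgLib.SemiClasses.exists_unit_card (F := F) (r := r) (p := p) (q := Fintype.card F)
    dvd_rfl hrp
  have hui : orderOf u = i := by rw [← orderOf_units, hu, ← hi]
  have hi0 : 0 < i := hui ▸ orderOf_pos u
  have key : ∀ φ : ((Fin (m - 1) ⊕ Fin (m - 1)) ⊕ Fin 2 → F) → F, φ = ⇑(CfsgLib.Forms.quadMinus F (m - 1) a c) →
      Nat.card {C : ConjClasses ↥(Cfsg.isometryGroup F φ) //
        ∃ g : ↥(Cfsg.isometryGroup F φ), ConjClasses.mk g = C ∧ orderOf g = r} =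
      if Odd i then Nat.choose (m / i + t / 2) (t / 2) - 1 -
        (if i ∣ m then Nat.choose (m / i + t / 2 - 1) (t / 2 - 1) else 0)
      else Nat.choose (2 * m / i + t) t - 1 -
        (if i ∣ 2 * m ∧ Even (2 * m / i) then Nat.choose (2 * m / i + t - 1) (t - 1) else 0) := by
    rintro φ rfl
    rw [CfsgLib.SemiClasses.card_orth_even hrp hr2 hu _ (CfsgLib.Forms.nondegenerate_quadMinus (m - 1) hac) (m := m)
      (by simp; omega) (s := False) (iff_false_intro (CfsgLib.SemiClasses.not_hasHalf_quadMinus (m - 1) hac)), hui, ← ht]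
    by_cases ho : Odd i
    · simp only [ho, true_or, false_iff, not_true_eq_false, not_false_eq_true, and_true, if_true,
        Nat.mul_dvd_mul_iff_left two_pos]
      rw [Nat.mul_div_mul_right _ _ hi0, Nat.mul_div_mul_left _ _ two_pos]
      omega
    · simp only [ho, false_or, false_iff, not_not, if_false, Nat.mul_div_cancel _ hi0]
      omega
  exact key _ (CfsgLib.Forms.coe_quadMinus (F := F) (m - 1) a c).symm

end Cfsg.Agent.S2675
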