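import Cfsg.Statements.S2676
import Cfsg.Agent.SignedClasses.Unipotent
import Cfsg.Agent.NilType.Combine

set_option autoImplicit false
open Classical
open Cfsg

namespace Cfsg.Agent.S2676

open CfsgLib.SignedClasses

theorem exists_equiv {F : Type*} [Field F] (n : ℕ) (e : Fin n ⊕ Fin n ≃ Fin (2 * n)) : ∃ G : Matrix (Fin (2 * n)) (Fin (2 * n)) F,
    IsUnit G.det ∧ G.transpose = (-1 : F) • G ∧
      ∃ E : ↥(Matrix.symplecticGroup (Fin n) F) ≃* ↥(isoGroup G), ∀ a, (E a).1.1 = Matrix.reindexAlgEquiv F F e a.1 := by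
  obtain ⟨Φ, hΦ⟩ : ∃ Φ : Matrix (Fin n ⊕ Fin n) (Fin n ⊕ Fin n) F ≃ₐ[F] Matrix (Fin (2 * n)) (Fin (2 * n)) F,
      Φ = Matrix.reindexAlgEquiv F F e := ⟨_, rfl⟩
  have hΦt : ∀ A, Φ A.transpose = (Φ A).transpose := fun A => by rw [hΦ]; rfl
  rw [← hΦ]
  refine ⟨Φ (Matrix.J (Fin n) F), ?_, ?_, ?_⟩
  · rw [hΦ, Matrix.coe_reindexAlgEquiv, Matrix.det_reindex_self]; exact Matrix.isUnit_det_J _ _
  · rw [← hΦt, Matrix.J_transpose, map_neg, neg_one_smul]
  have hgl : ∀ a : ↥(Matrix.symplecticGroup (Fin n) F),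
      Φ a.1 * Φ (a⁻¹).1 = 1 ∧ Φ (a⁻¹).1 * Φ a.1 = 1 := fun a => by
    rw [← map_mul, ← map_mul, ← map_one Φ]
    exact ⟨congrArg Φ (congrArg Subtype.val (mul_inv_cancel a)), congrArg Φ (congrArg Subtype.val (inv_mul_cancel a))⟩
  let f : ↥(Matrix.symplecticGroup (Fin n) F) →* ↥(isoGroup (Φ (Matrix.J (Fin n) F))) :=
    MonoidHom.mk' (fun a => ⟨⟨Φ a.1, Φ (a⁻¹).1, (hgl a).1, (hgl a).2⟩, by
        rw [mem_isoGroup]
        show (Φ a.1).transpose * _ * Φ a.1 = _
        rw [← hΦt, ← map_mul, ← map_mul, SymplecticGroup.mem_iff'.mp a.2]⟩)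
      fun a b => Subtype.ext (Units.ext (map_mul Φ a.1 b.1))
  refine ⟨MulEquiv.ofBijective f ⟨fun a b h => Subtype.ext (Φ.injective (congrArg (fun u => u.1.1) h :)), fun u => ?_⟩, fun a => rfl⟩
  have hu := mem_isoGroup.mp u.2
  refine ⟨⟨Φ.symm u.1.1, SymplecticGroup.mem_iff'.mpr (Φ.injective ?_)⟩, Subtype.ext (Units.ext (Φ.apply_symm_apply _))⟩
  rw [map_mul, map_mul, hΦt, Φ.apply_symm_apply, hu]

/-- Number of conjugacy classes of elements of order p in Sp_2m(q), q a power of the odd prime p: the classes correspond to the signed partitions of 2m — partitions with all parts at most p in which every odd part has even multiplicity, each even part size that occurs carrying a sign — other than the all-ones partition; so the count is the sum over such partitions of 2^(number of distinct even parts), minus one. -/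
theorem result {F : Type*} [Field F] [Fintype F] {p : ℕ} [Fact p.Prime] [CharP F p] (hp : p ≠ 2) (m : ℕ) : Nat.card {C : ConjClasses ↥(Matrix.symplecticGroup (Fin m) F) // ∃ g : Matrix.symplecticGroup (Fin m) F, ConjClasses.mk g = C ∧ orderOf g = p} = (∑ μ ∈ Finset.univ.filter (fun μ : Nat.Partition (2 * m) => (∀ a ∈ μ.parts, a ≤ p) ∧ ∀ j : ℕ, Odd j → Even (μ.parts.count j)), 2 ^ ((μ.parts.toFinset.filter (fun j : ℕ => Even j)).card)) - 1 := by
  have h2 : (2 : F) ≠ 0 := fun h => hp ((Nat.prime_dvd_prime_iff_eq Fact.out Nat.prime_two).mp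
    ((CharP.cast_eq_zero_iff F p 2).mp (by exact_mod_cast h)))
  obtain ⟨e, -⟩ : ∃ _e : Fin m ⊕ Fin m ≃ Fin (2 * m), True :=
    ⟨finSumFinEquiv.trans (finCongr (two_mul m).symm), trivial⟩
  obtain ⟨G, hG, hs, E, hE⟩ := exists_equiv (F := F) m e
  obtain ⟨H, hH⟩ : ∃ H, H = isoGroup G := ⟨_, rfl⟩
  obtain ⟨S, hS⟩ : ∃ S, S = Finset.univ.filter (fun μ : Nat.Partition (2 * m) =>
      (∀ a ∈ μ.parts, a ≤ p) ∧ ∀ j : ℕ, Odd j → Even (μ.parts.count j)) := ⟨_, rfl⟩
  let one : Nat.Partition (2 * m) := ⟨Multiset.replicate (2 * m) 1,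
    fun {i} hi => by rw [Multiset.eq_of_mem_replicate hi]; norm_num, by rw [Multiset.sum_replicate]; simp⟩
  have hone : ∀ μ : Nat.Partition (2 * m), (∀ a ∈ μ.parts, a ≤ 1) ↔ μ = one := fun μ => by
    refine ⟨fun h => Nat.Partition.ext ?_, fun h a ha => by subst h; rw [Multiset.eq_of_mem_replicate ha]⟩
    have he : μ.parts = Multiset.replicate (Multiset.card μ.parts) 1 :=
      Multiset.eq_replicate_card.2 fun a ha => le_antisymm (h a ha) (μ.parts_pos ha)
    have hsum := μ.parts_sum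
    rw [he, Multiset.sum_replicate, smul_eq_mul, mul_one] at hsum
    rw [he, hsum]
  have h1S : one ∈ S := by
    rw [hS, Finset.mem_filter]
    refine ⟨Finset.mem_univ _, fun a ha => ?_, fun j _ => ?_⟩
    · exact ((hone one).2 rfl a ha).trans (Fact.out : p.Prime).one_le
    · rw [show one.parts = Multiset.replicate (2 * m) 1 from rfl, Multiset.count_replicate]
      split_ifs
      · exact even_two_mul m
      · exact ⟨0, rfl⟩
  have hreal : ∀ μ ∈ S, ∃ g : isoGroup G, CfsgLib.NilType.UniType g.1 μ := fun μ hμ => by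
    rw [hS, Finset.mem_filter] at hμ
    obtain ⟨A, hA, hAn, hAs⟩ := CfsgLib.NilType.exists_symp (F := F) (m := m)
      (CfsgLib.NilType.RealSp.of_count μ.parts (fun a ha => μ.parts_pos ha) hμ.2.2) μ.parts_sum
    have hsub : (E ⟨A, hA⟩).1.1 - 1 = Matrix.reindex e e (A - 1) := by
      rw [hE, ← map_one (Matrix.reindexAlgEquiv F F e), ← map_sub, Matrix.coe_reindexAlgEquiv]
    obtain ⟨k, hk⟩ := hAn
    refine ⟨E ⟨A, hA⟩, ⟨k, ?_⟩, fun l => ?_⟩
    · rw [hsub, ← Matrix.coe_reindexAlgEquiv F F e, ← map_pow, hk, map_zero]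
    · rw [hsub, ← Matrix.coe_reindexAlgEquiv F F e, ← map_pow, Matrix.coe_reindexAlgEquiv, Matrix.rank_reindex]
      exact hAs l
  choose g₀ hg₀ using hreal
  let T := fun μ : ↥(S.erase one) => {C : ConjClasses (isoGroup G) //
    ∃ g : isoGroup G, ConjClasses.mk g = C ∧ CfsgLib.NilType.UniType g.1 μ.1}
  have hord : ∀ g : isoGroup G, ∀ μ, μ ∈ S.erase one → CfsgLib.NilType.UniType g.1 μ → orderOf g = p := fun g μ hμ hg => by
    obtain ⟨hne, hμS⟩ := Finset.mem_erase.mp hμ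
    rw [hS, Finset.mem_filter] at hμS
    rw [← Subgroup.orderOf_coe]
    exact (CfsgLib.NilType.orderOf_eq_iff_type p g.1).mpr ⟨μ, ⟨hμS.2.1, fun h => hne ((hone μ).1 h)⟩, hg⟩
  let Φ : (Σ μ, T μ) → {C : ConjClasses (isoGroup G) // ∃ g : isoGroup G, ConjClasses.mk g = C ∧ orderOf g = p} :=
    fun x => ⟨x.2.1, x.2.2.choose, x.2.2.choose_spec.1, hord _ _ x.1.2 x.2.2.choose_spec.2⟩
  have hΦ : Function.Bijective Φ := by
    constructor
    · rintro ⟨⟨μ, hμ⟩, C, g, hgC, hg⟩ ⟨⟨ν, hν⟩, D, g', hgD, hg'⟩ h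
      obtain rfl : C = D := congrArg Subtype.val h
      obtain rfl : μ = ν := hg.eq_of_isConj hg'
        ((isoGroup G).subtype.map_isConj (ConjClasses.mk_eq_mk_iff_isConj.mp (hgC.trans hgD.symm)))
      rfl
    · rintro ⟨C, g, hgC, hg⟩
      rw [← Subgroup.orderOf_coe] at hg
      obtain ⟨μ, ⟨hle, hne⟩, hμ⟩ := (CfsgLib.NilType.orderOf_eq_iff_type p g.1).mp hg
      have hμS : μ ∈ S.erase one := Finset.mem_erase.mpr ⟨fun h => hne ((hone μ).2 h), by
        rw [hS, Finset.mem_filter]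
        exact ⟨Finset.mem_univ _, hle, fun j hj => even_count_odd h2 hG hs g hμ hj⟩⟩
      exact ⟨⟨⟨μ, hμS⟩, ⟨C, g, hgC, hμ⟩⟩, rfl⟩
  let ε : {C : ConjClasses ↥(Matrix.symplecticGroup (Fin m) F) // ∃ g : Matrix.symplecticGroup (Fin m) F, ConjClasses.mk g = C ∧ orderOf g = p} →
      {C : ConjClasses (isoGroup G) // ∃ g : isoGroup G, ConjClasses.mk g = C ∧ orderOf g = p} :=
    fun C => ⟨ConjClasses.map E.toMonoidHom C.1, C.2.elim fun g hg => ⟨E g, by rw [← hg.1]; rfl, by rw [MulEquiv.orderOf_eq E, hg.2]⟩⟩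
  have hε : Function.Bijective ε := by
    constructor
    · rintro ⟨C, g, rfl, hg⟩ ⟨D, g', rfl, hg'⟩ h
      have h' : IsConj (E g) (E g') := ConjClasses.mk_eq_mk_iff_isConj.mp (congrArg Subtype.val h)
      have h'' := E.symm.toMonoidHom.map_isConj h'
      simp only [MulEquiv.coe_toMonoidHom, MulEquiv.symm_apply_apply] at h''
      exact Subtype.ext (ConjClasses.mk_eq_mk_iff_isConj.mpr h'')
    · rintro ⟨C, g, rfl, hg⟩
      exact ⟨⟨ConjClasses.mk (E.symm g), E.symm g, rfl, by rw [MulEquiv.orderOf_eq E.symm, hg]⟩,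
        Subtype.ext (congrArg ConjClasses.mk (E.apply_symm_apply g))⟩
  rw [Nat.card_congr ((Equiv.ofBijective ε hε).trans (Equiv.ofBijective Φ hΦ).symm), Nat.card_sigma, ← hS]
  rw [Finset.sum_congr rfl fun μ _ => show Nat.card (T μ) = _ from
    card_type_classes h2 hG hs (g₀ μ.1 (Finset.mem_of_mem_erase μ.2)) (hg₀ _ _)]
  have hsplit := Finset.add_sum_erase S
    (fun μ : Nat.Partition (2 * m) => 2 ^ (μ.parts.toFinset.filter (fun j : ℕ => Even j)).card) h1S
  have hzero : (one.parts.toFinset.filter (fun j : ℕ => Even j)).card = 0 := by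
    rw [Finset.card_eq_zero, Finset.filter_eq_empty_iff]
    intro a ha
    rw [Multiset.mem_toFinset] at ha
    rw [Multiset.eq_of_mem_replicate ha]
    exact Nat.not_even_one
  rw [hzero, pow_zero] at hsplit
  rw [← hsplit, Nat.add_sub_cancel_left]
  exact Finset.sum_coe_sort (S.erase one)
    (fun μ : Nat.Partition (2 * m) => 2 ^ (μ.parts.toFinset.filter (fun j : ℕ => Even j)).card)

end Cfsg.Agent.S2676
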