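import Cfsg.Statements.S2677
import Cfsg.Agent.S0277
import Cfsg.Agent.AutPSU.Field
import Mathlib

set_option autoImplicit false
open Cfsg

namespace Cfsg.Agent.S2677

/-- Centraliser of a field automorphism of odd prime order in PGU_n(q): let q = q₀^r with r an odd prime, K the field with q² elements and σ a field automorphism of K of order r (fixed field of order q₀²). The elements g of GU_n(q) whose entrywise image under σ is a scalar multiple of g — those whose coset modulo the q + 1 unitary scalars is fixed by σ — number (q + 1)/(q₀ + 1) · |GU_n(q₀)|; equivalently the centraliser in PGU_n(q) of the induced automorphism has the order of PGU_n(q₀). -/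
theorem result {K : Type*} [Field K] [Fintype K] {q₀ q r n : ℕ} (hr : r.Prime) (hr2 : r ≠ 2) (hn : 1 ≤ n) (hq : q = q₀ ^ r) (hK : Fintype.card K = q ^ 2) (σ : K ≃+* K) (hσ : orderOf σ = r) : (Nat.card {g : ↥(Cfsg.GU n K q) // ∃ c : K, c ≠ 0 ∧ ((g : GL (Fin n) K) : Matrix (Fin n) (Fin n) K).map σ = c • ((g : GL (Fin n) K) : Matrix (Fin n) (Fin n) K)} : ℤ) = ((q + 1) / (q₀ + 1) : ℕ) * ((q₀ : ℤ) ^ (n * (n - 1) / 2) * ∏ i : Fin n, ((q₀ : ℤ) ^ ((i : ℕ) + 1) - (-1) ^ ((i : ℕ) + 1))) := by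
  classical
  obtain ⟨p, hp⟩ := CharP.exists K
  haveI : Fact p.Prime := ⟨CharP.char_is_prime K p⟩
  obtain ⟨j, hp', hj⟩ := FiniteField.card K p
  have hq0 : q ∣ p ^ (j : ℕ) := by rw [← hj, hK]; exact dvd_pow_self q two_ne_zero
  obtain ⟨f, -, hqf⟩ := (Nat.dvd_prime_pow hp').mp hq0
  obtain ⟨e, -, hqe⟩ := (Nat.dvd_prime_pow hp').mp
    (hq ▸ dvd_pow_self q₀ hr.ne_zero |>.trans hq0 : q₀ ∣ p ^ (j : ℕ))
  have hfe : f = e * r := Nat.pow_right_injective hp'.two_le (by show p ^ f = p ^ (e * r); rw [← hqf, hq, hqe, ← pow_mul])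
  have hfr : f / r = e := by rw [hfe, Nat.mul_div_cancel _ hr.pos]
  have hf : 0 < f := by
    rcases Nat.eq_zero_or_pos f with h0 | h0
    · have := Fintype.one_lt_card (α := K)
      rw [hK, hqf, h0] at this
      simp at this
    · exact h0
  have he : 0 < e := by
    rcases Nat.eq_zero_or_pos e with h0 | h0
    · rw [h0, zero_mul] at hfe; omega
    · exact h0
  obtain ⟨C⟩ := CfsgLib.UGeom.nonempty_conj hK
  haveI : Fintype (GaloisField p (2 * e)) := Fintype.ofFinite _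
  obtain ⟨-, C₀, ι, S⟩ := CfsgLib.AutPSU.exists_sub (p := p) (f := f) C hqf σ
    (hσ ▸ hr.odd_of_ne_two hr2) (F₀ := GaloisField p (2 * e)) (by
      rw [hσ, hfr, ← Nat.card_eq_fintype_card, GaloisField.card]; omega)
  have hq₀ : p ^ (f / orderOf σ) = q₀ := by rw [hσ, hfr, hqe]
  have hF₀ : Fintype.card (GaloisField p (2 * e)) = (p ^ (f / orderOf σ)) ^ 2 := C₀.card
  have hGU₀ := Cfsg.Agent.S0277.result hF₀ n
  let N := CfsgLib.AutPSU.N1 K q
  let Φ : N × ↥(Cfsg.GU n (GaloisField p (2 * e)) (p ^ (f / orderOf σ))) →* ↥(Cfsg.GU n K q) :=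
    MonoidHom.mk' (fun x => CfsgLib.AutPSU.scalarGU C n x.1 * CfsgLib.AutPSU.mapGU S n x.2) fun x y => by
      have hc : ∀ (u : N) (g : ↥(Cfsg.GU n K q)),
          CfsgLib.AutPSU.scalarGU C n u * g = g * CfsgLib.AutPSU.scalarGU C n u := fun u g => by
        refine Subtype.ext (Units.ext ?_)
        change (CfsgLib.AutPSU.scalarGU C n u).1.1 * g.1.1 = g.1.1 * (CfsgLib.AutPSU.scalarGU C n u).1.1
        rw [CfsgLib.AutPSU.scalarGU_val, Matrix.smul_mul, Matrix.mul_smul, Matrix.one_mul, Matrix.mul_one]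
      rw [Prod.fst_mul, Prod.snd_mul, map_mul, map_mul, mul_assoc,
        ← mul_assoc (CfsgLib.AutPSU.scalarGU C n y.1), hc y.1, mul_assoc, mul_assoc]
  let i₀ : Fin n := ⟨0, hn⟩
  have hrange : {g : ↥(Cfsg.GU n K q) | ∃ c : K, c ≠ 0 ∧
      ((g : GL (Fin n) K) : Matrix (Fin n) (Fin n) K).map σ =
        c • ((g : GL (Fin n) K) : Matrix (Fin n) (Fin n) K)} = (Φ.range : Set ↥(Cfsg.GU n K q)) := by
    ext g
    constructor
    · rintro ⟨c, hc0, hc⟩
      have hu : ∃ u : N, (u.1 : K) = c := by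
        let gσ : ↥(Cfsg.GU n K q) := CfsgLib.AutPSU.fieldGU σ g
        have : (gσ * g⁻¹).1.1 = c • (1 : Matrix (Fin n) (Fin n) K) := by
          change g.1.1.map σ * (g.1⁻¹).1 = _
          rw [hc, Matrix.smul_mul, ← Units.val_mul, mul_inv_cancel, Units.val_one]
        exact CfsgLib.AutPSU.scalar_mem_N1 C hn this
      obtain ⟨u, hu⟩ := hu
      have hent : ∀ i k, σ (g.1.1 i k) = c * g.1.1 i k := fun i k => congrFun (congrFun hc i) k
      have hpow : ∀ k : ℕ, ∀ i l, (σ ^ k : RingAut K) (g.1.1 i l) =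
          (CfsgLib.AutPSL.normHom σ k u.1 : K) * g.1.1 i l := by
        intro k
        induction k with
        | zero => intro i l; simp [CfsgLib.AutPSL.normHom]
        | succ k ih =>
          intro i l
          rw [pow_succ, RingAut.mul_apply, hent, map_mul, ih, ← hu, CfsgLib.AutPSL.normHom_val,
            CfsgLib.AutPSL.normHom_val, Finset.prod_range_succ]
          ring
      obtain ⟨l, hl⟩ : ∃ l, g.1.1 i₀ l ≠ 0 := by
        by_contra hno
        push Not at hno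
        exact g.1.det_ne_zero (Matrix.det_eq_zero_of_row_eq_zero i₀ hno)
      have hNu : CfsgLib.AutPSL.normHom σ (orderOf σ) u.1 = 1 := by
        have h1 := hpow (orderOf σ) i₀ l
        rw [pow_orderOf_eq_one, RingAut.one_apply] at h1
        refine Units.ext (mul_right_cancel₀ hl ?_)
        rw [← h1, Units.val_one, one_mul]
      obtain ⟨b, hb⟩ := CfsgLib.AutPSU.exists_twist S hNu
      have hfix : CfsgLib.AutPSU.fieldGU σ (CfsgLib.AutPSU.scalarGU C n b * g) =
          CfsgLib.AutPSU.scalarGU C n b * g := by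
        refine Subtype.ext (Units.ext (Matrix.ext fun i k => ?_))
        change σ (((CfsgLib.AutPSU.scalarGU C n b).1.1 * g.1.1) i k) =
          ((CfsgLib.AutPSU.scalarGU C n b).1.1 * g.1.1) i k
        rw [CfsgLib.AutPSU.scalarGU_val, Matrix.smul_mul, Matrix.one_mul]
        simp only [Matrix.smul_apply, smul_eq_mul, map_mul, hent, ← hu]
        linear_combination (g.1.1 i k) * hb
      obtain ⟨g₀, hg₀⟩ := CfsgLib.AutPSU.exists_mapGU_eq S hfix
      refine ⟨(b⁻¹, g₀), ?_⟩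
      change CfsgLib.AutPSU.scalarGU C n b⁻¹ * CfsgLib.AutPSU.mapGU S n g₀ = g
      rw [hg₀, map_inv, inv_mul_cancel_left]
    · rintro ⟨⟨u, g₀⟩, rfl⟩
      have hu0 : (u.1 : K) ≠ 0 := u.1.ne_zero
      refine ⟨σ (u.1 : K) / (u.1 : K), div_ne_zero ((map_ne_zero σ).2 hu0) hu0, ?_⟩
      ext i k
      change σ (((CfsgLib.AutPSU.scalarGU C n u).1.1 * (CfsgLib.AutPSU.mapGU S n g₀).1.1) i k) = _ * (((CfsgLib.AutPSU.scalarGU C n u).1.1 * (CfsgLib.AutPSU.mapGU S n g₀).1.1) i k)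
      rw [CfsgLib.AutPSU.scalarGU_val, Matrix.smul_mul, Matrix.one_mul]
      simp only [Matrix.smul_apply, smul_eq_mul, map_mul]
      rw [show σ ((CfsgLib.AutPSU.mapGU S n g₀).1.1 i k) = (CfsgLib.AutPSU.mapGU S n g₀).1.1 i k from
        (S.fix _).2 ⟨_, rfl⟩]
      field_simp
  have hker : Nat.card Φ.ker = q₀ + 1 := by
    rw [← hq₀, ← CfsgLib.AutPSU.card_N1 C₀]
    have hj : ∀ w : CfsgLib.AutPSU.N1 (GaloisField p (2 * e)) (p ^ (f / orderOf σ)),
        Units.map (ι : GaloisField p (2 * e) →* K) w.1 ∈ N := fun w => by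
      refine CfsgLib.AutPSU.mem_N1.2 ?_
      change ι (w.1 : GaloisField p (2 * e)) * ι (w.1 : GaloisField p (2 * e)) ^ q = 1
      rw [← C.pow, S.conj, C₀.pow, ← map_mul, CfsgLib.AutPSU.mem_N1.1 w.2, map_one]
    let ψ : CfsgLib.AutPSU.N1 (GaloisField p (2 * e)) (p ^ (f / orderOf σ)) → Φ.ker := fun w =>
      ⟨(⟨_, hj w⟩, CfsgLib.AutPSU.scalarGU C₀ n w⁻¹), by
        refine Subtype.ext (Units.ext ?_)
        change (CfsgLib.AutPSU.scalarGU C n ⟨_, hj w⟩).1.1 *
          ι.mapMatrix (CfsgLib.AutPSU.scalarGU C₀ n w⁻¹).1.1 = 1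
        rw [CfsgLib.AutPSU.scalarGU_val, CfsgLib.AutPSU.scalarGU_val, Matrix.smul_mul, Matrix.one_mul]
        ext i k
        simp [Matrix.one_apply]
        split_ifs <;> simp⟩
    refine (Nat.card_congr (Equiv.ofBijective ψ ⟨?_, ?_⟩)).symm
    · intro w w' h
      have := congrArg (fun z : Φ.ker => (z.1.1.1 : K)) h
      exact Subtype.ext (Units.ext (ι.injective this))
    · rintro ⟨⟨u, g₀⟩, hk⟩
      have hk' : (u.1 : K) • ι.mapMatrix g₀.1.1 = 1 := by
        have := congrArg (fun z : ↥(Cfsg.GU n K q) => z.1.1) (MonoidHom.mem_ker.1 hk)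
        change (CfsgLib.AutPSU.scalarGU C n u).1.1 * ι.mapMatrix g₀.1.1 = 1 at this
        rwa [CfsgLib.AutPSU.scalarGU_val, Matrix.smul_mul, Matrix.one_mul] at this
      have hent : ∀ i k, (u.1 : K) * ι (g₀.1.1 i k) = (1 : Matrix (Fin n) (Fin n) K) i k := fun i k =>
        congrFun (congrFun hk' i) k
      have hg : g₀.1.1 = g₀.1.1 i₀ i₀ • (1 : Matrix (Fin n) (Fin n) (GaloisField p (2 * e))) := by
        ext i k
        refine ι.injective (mul_left_cancel₀ u.1.ne_zero ?_)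
        rw [hent, Matrix.smul_apply, smul_eq_mul, map_mul, ← mul_assoc, hent]
        simp [Matrix.one_apply]
      obtain ⟨w, hw⟩ := CfsgLib.AutPSU.scalar_mem_N1 C₀ hn hg
      refine ⟨w⁻¹, Subtype.ext (Prod.ext (Subtype.ext (Units.ext ?_)) (Subtype.ext (Units.ext ?_)))⟩
      · change ι ((w.1⁻¹ : (GaloisField p (2 * e))ˣ) : GaloisField p (2 * e)) = (u.1 : K)
        have h1 := hent i₀ i₀
        rw [← hw, Matrix.one_apply_eq] at h1
        rw [Units.val_inv_eq_inv_val, map_inv₀]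
        exact inv_eq_of_mul_eq_one_left h1
      · change (CfsgLib.AutPSU.scalarGU C₀ n w⁻¹⁻¹).1.1 = g₀.1.1
        rw [inv_inv, CfsgLib.AutPSU.scalarGU_val, hw]
        exact hg.symm
  have hcard : Nat.card Φ.range * (q₀ + 1) =
      (q + 1) * Nat.card ↥(Cfsg.GU n (GaloisField p (2 * e)) (p ^ (f / orderOf σ))) := by
    rw [← hker, ← Nat.card_congr (QuotientGroup.quotientKerEquivRange Φ).toEquiv,
      ← Subgroup.card_eq_card_quotient_mul_card_subgroup, Nat.card_prod, CfsgLib.AutPSU.card_N1 C]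
  have hdvd : q₀ + 1 ∣ q + 1 := by
    rw [hq]
    have := (hr.odd_of_ne_two hr2).nat_add_dvd_pow_add_pow q₀ 1
    rwa [one_pow] at this
  have hT : Nat.card {g : ↥(Cfsg.GU n K q) // ∃ c : K, c ≠ 0 ∧
      ((g : GL (Fin n) K) : Matrix (Fin n) (Fin n) K).map σ =
        c • ((g : GL (Fin n) K) : Matrix (Fin n) (Fin n) K)} =
      (q + 1) / (q₀ + 1) * Nat.card ↥(Cfsg.GU n (GaloisField p (2 * e)) (p ^ (f / orderOf σ))) := by
    refine Eq.trans (Nat.card_congr (Equiv.setCongr hrange)) ?_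
    refine Nat.eq_of_mul_eq_mul_right (show 0 < q₀ + 1 by omega) ?_
    rw [show Nat.card ↥(Φ.range : Set ↥(Cfsg.GU n K q)) = Nat.card Φ.range from rfl, hcard,
      mul_right_comm, Nat.div_mul_cancel hdvd]
  rw [hT, hGU₀, hq₀, Nat.cast_mul]
  congr 1
  rw [Nat.cast_mul, Nat.cast_pow, Nat.cast_prod, Fin.prod_univ_eq_prod_range
    (fun i : ℕ => ((q₀ : ℤ) ^ (i + 1) - (-1) ^ (i + 1))) n]
  congr 1
  refine Finset.prod_congr rfl fun i _ => ?_
  have h1 : 1 ≤ q₀ ^ (i + 1) := Nat.one_le_pow _ _ (by rw [hqe]; exact pow_pos hp'.pos _)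
  rcases Nat.even_or_odd i with hi | hi
  · rw [if_pos hi, hi.add_one.neg_one_pow]
    push_cast
    ring
  · rw [if_neg (Nat.not_even_iff_odd.2 hi), hi.add_one.neg_one_pow, Nat.cast_sub h1]
    push_cast
    ring

end Cfsg.Agent.S2677
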