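import Cfsg.Statements.S2678
import Cfsg.Agent.Forms.SympEmbed

set_option autoImplicit false
open Cfsg Matrix

namespace Cfsg.Agent.S2678

/-- Field-extension embedding of symplectic groups: for a field K with q² elements and a field F with q elements there is an injective homomorphism Sp_2a(K) → Sp_4a(F). -/
theorem result {K F : Type*} [Field K] [Fintype K] [Field F] [Fintype F] {q : ℕ} (hK : Fintype.card K = q ^ 2) (hF : Fintype.card F = q) (a : ℕ) : ∃ φ : ↥(Matrix.symplecticGroup (Fin a) K) →* ↥(Matrix.symplecticGroup (Fin (2 * a)) F), Function.Injective φ := by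
  obtain ⟨f⟩ := CfsgLib.Forms.Unitary.exists_algebra hK hF
  letI := f.toAlgebra
  subst hF
  classical
  let B : LinearMap.BilinForm F (Fin a ⊕ Fin a → K) := LinearMap.mk₂ F (fun u v => Algebra.trace F K (Cfsg.sympForm a K u v))
    (fun u u' v => by rw [CfsgLib.SpGeom.form_add_left, map_add])
    (fun c u v => by rw [← algebraMap_smul K c u, CfsgLib.SpGeom.form_smul_left, ← Algebra.smul_def, map_smul])
    (fun u v v' => by rw [CfsgLib.SpGeom.form_add_right, map_add])
    (fun c u v => by rw [← algebraMap_smul K c v, CfsgLib.SpGeom.form_smul_right, ← Algebra.smul_def, map_smul])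
  let ρ : ↥(Matrix.symplecticGroup (Fin a) K) →* Module.End F (Fin a ⊕ Fin a → K) :=
    { toFun := fun x => (Matrix.mulVecLin (x : Matrix (Fin a ⊕ Fin a) (Fin a ⊕ Fin a) K)).restrictScalars F
      map_one' := LinearMap.ext fun v => Matrix.one_mulVec v
      map_mul' := fun x y => LinearMap.ext fun v => (Matrix.mulVec_mulVec v _ _).symm }
  refine CfsgLib.Forms.exists_symp_hom (n := 2 * a) (by rw [Module.finrank_pi_fintype, CfsgLib.Forms.Unitary.finrank_eq hK]; simp; ring) B
    (fun u => by simp [B, CfsgLib.SpGeom.form_self]) (fun u hu => ?_) ρ (fun x u v => congrArg (Algebra.trace F K) (CfsgLib.SpGeom.form_mulVec x u v)) ?_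
  · by_contra hne
    obtain ⟨w, hw⟩ := CfsgLib.SpGeom.exists_form_ne_zero hne
    obtain ⟨z, hz⟩ : ∃ z : K, Algebra.trace F K z ≠ 0 := by
      by_contra h
      push Not at h
      exact Algebra.trace_ne_zero F K (LinearMap.ext h)
    refine hz ?_
    have := hu ((z / Cfsg.sympForm a K u w) • w)
    simp only [B, LinearMap.mk₂_apply, CfsgLib.SpGeom.form_smul_right, div_mul_cancel₀ _ hw] at this
    exact this
  · intro x y h
    exact Subtype.ext (Matrix.ext_iff_mulVec.2 fun v => LinearMap.congr_fun h v)

end Cfsg.Agent.S2678
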