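import Cfsg.Statements.S2679
import Cfsg.Agent.Forms.Unitary

set_option autoImplicit false
open Cfsg Matrix

namespace Cfsg.Agent.S2679

/-- An elliptic orthogonal group embeds in the hyperbolic orthogonal group of the same dimension over the quadratic extension: for a field F with q elements and a field K with q² elements there is an injective homomorphism from O⁻_2m(F) (isometries of Σ_(j<m−1) x_j y_j + z₁² + a z₁z₂ + c z₂², binary part anisotropic) to O⁺_2m(K) (isometries of Σ_(j<m) x_j y_j over K). -/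
theorem result {F K : Type*} [Field F] [Fintype F] [Field K] [Fintype K] {q : ℕ} (hF : Fintype.card F = q) (hK : Fintype.card K = q ^ 2) {m : ℕ} (hm : 1 ≤ m) (a c : F) (hac : ∀ z₁ z₂ : F, z₁ ^ 2 + a * z₁ * z₂ + c * z₂ ^ 2 = 0 → z₁ = 0 ∧ z₂ = 0) : ∃ φ : ↥(Cfsg.isometryGroup F (Cfsg.quadFormMinus (m - 1) F a c)) →* ↥(Cfsg.isometryGroup K (Cfsg.quadFormPlus m K)), Function.Injective φ := by
  obtain ⟨f⟩ := CfsgLib.Forms.Unitary.exists_algebra hK hF
  letI := f.toAlgebra
  subst hF
  classical
  obtain ⟨θ, hθ⟩ : ∃ θ : K, θ ^ 2 + algebraMap F K a * θ + algebraMap F K c = 0 := by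
    let p : Polynomial F := Polynomial.X ^ 2 + Polynomial.C a * Polynomial.X + Polynomial.C c
    have hdeg : p.natDegree = 2 := by simp only [p]; compute_degree!
    have hirr : Irreducible p := by
      refine (Polynomial.irreducible_iff_roots_eq_zero_of_degree_le_three (by omega) (by omega)).2 ?_
      refine Multiset.eq_zero_of_forall_notMem fun z hz => ?_
      have := (Polynomial.mem_roots'.1 hz).2
      simp only [p, Polynomial.IsRoot, Polynomial.eval_add, Polynomial.eval_pow, Polynomial.eval_X,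
        Polynomial.eval_mul, Polynomial.eval_C] at this
      exact one_ne_zero (hac z 1 (by linear_combination this)).2
    haveI : Fact (Irreducible p) := ⟨hirr⟩
    haveI : Module.Finite F (AdjoinRoot p) := (AdjoinRoot.powerBasis hirr.ne_zero).finite
    have hd : Module.finrank F (AdjoinRoot p) = 2 := by
      rw [(AdjoinRoot.powerBasis hirr.ne_zero).finrank, AdjoinRoot.powerBasis_dim, hdeg]
    obtain ⟨φ⟩ := FiniteField.nonempty_algHom_of_finrank_dvd (F := F) (K := AdjoinRoot p) (L := K)
      (by rw [hd, CfsgLib.Forms.Unitary.finrank_eq hK])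
    refine ⟨φ (AdjoinRoot.root p), ?_⟩
    have := congrArg φ (AdjoinRoot.eval₂_root p)
    simp only [p, Polynomial.eval₂_add, Polynomial.eval₂_pow, Polynomial.eval₂_X, Polynomial.eval₂_mul,
      Polynomial.eval₂_C, map_add, map_pow, map_mul, map_zero, ← AdjoinRoot.algebraMap_eq, AlgHom.commutes] at this
    exact this
  set a' := algebraMap F K a
  set c' := algebraMap F K c
  have hdet : (2 : K) * (2 * c') - a' * a' ≠ 0 := by
    have hF : (2 : F) * (2 * c) - a * a ≠ 0 := by
      intro h
      by_cases h2 : (2 : F) = 0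
      · have ha : a = 0 := by
          have : a * a = 0 := by linear_combination -h + (2 * c) * h2
          simpa using this
        obtain ⟨r, hr⟩ := CfsgLib.Forms.exists_sq h2 c
        exact one_ne_zero (hac r 1 (by subst ha; linear_combination hr + c * h2)).2
      · exact one_ne_zero (hac (-a / 2) 1 (by field_simp; linear_combination h)).2
    intro h
    refine hF ((algebraMap F K).injective ?_)
    simp only [map_sub, map_mul, map_ofNat, map_zero]
    exact h
  obtain ⟨k, rfl⟩ : ∃ k, m = k + 1 := ⟨m - 1, by omega⟩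
  show ∃ φ : ↥(Cfsg.isometryGroup F (Cfsg.quadFormMinus k F a c)) →* _, Function.Injective φ
  let P : QuadraticForm K ((Fin k ⊕ Fin k) ⊕ Fin 2 → K) := CfsgLib.Forms.quadMinus K k a' c'
  have hP : (QuadraticMap.polarBilin P).Nondegenerate := by
    refine CfsgLib.Forms.nondegenerate_iff.2 fun x hx => ?_
    simp only [P, CfsgLib.Forms.coe_quadMinus, CfsgLib.Forms.polar_minus] at hx
    have h1 : ∀ i, x (.inl (.inl i)) = 0 := fun i => by
      simpa [Pi.single_apply] using hx (Pi.single (Sum.inl (Sum.inr i)) 1)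
    have h2 : ∀ i, x (.inl (.inr i)) = 0 := fun i => by
      simpa [Pi.single_apply] using hx (Pi.single (Sum.inl (Sum.inl i)) 1)
    have e0 : 2 * x (.inr 0) + a' * x (.inr 1) = 0 := by
      simpa [Pi.single_apply] using hx (Pi.single (Sum.inr 0) 1)
    have e1 : a' * x (.inr 0) + 2 * c' * x (.inr 1) = 0 := by
      simpa [Pi.single_apply] using hx (Pi.single (Sum.inr 1) 1)
    have k0 : x (.inr 0) = 0 :=
      (mul_eq_zero.1 (show (2 * (2 * c') - a' * a') * x (.inr 0) = 0 by linear_combination (2 * c') * e0 - a' * e1)).resolve_left hdet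
    have k1 : x (.inr 1) = 0 :=
      (mul_eq_zero.1 (show (2 * (2 * c') - a' * a') * x (.inr 1) = 0 by linear_combination 2 * e1 - a' * e0)).resolve_left hdet
    funext j
    rcases j with (i | i) | i
    · exact h1 i
    · exact h2 i
    · fin_cases i
      · exact k0
      · exact k1
  let L : (Fin k → K) × K →ₗ[K] ((Fin k ⊕ Fin k) ⊕ Fin 2 → K) :=
    { toFun := fun p => Sum.elim (Sum.elim p.1 0) ![θ * p.2, p.2]
      map_add' := fun p q => by
        funext z; rcases z with (z | z) | z
        · rfl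
        · simp
        · fin_cases z <;> simp [mul_add]
      map_smul' := fun r p => by
        funext z; rcases z with (z | z) | z
        · rfl
        · simp
        · fin_cases z <;> simp [mul_left_comm] }
  have hLinj : Function.Injective L := fun p q h => Prod.ext
    (funext fun i => congrFun h (Sum.inl (Sum.inl i))) (congrFun h (Sum.inr 1))
  obtain ⟨g, hg⟩ := CfsgLib.Forms.exists_isometry_plus (Q := P) (m := k + 1) (by omega) (by simp; omega) hP
    (LinearMap.range L) (by
      rintro _ ⟨p, rfl⟩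
      simp only [P, CfsgLib.Forms.coe_quadMinus, Cfsg.quadFormMinus, L, LinearMap.coe_mk, AddHom.coe_mk,
        Sum.elim_inl, Sum.elim_inr, Pi.zero_apply, mul_zero, Finset.sum_const_zero, zero_add,
        Matrix.cons_val_zero, Matrix.cons_val_one, Matrix.cons_val_fin_one]
      linear_combination (p.2 * p.2) * hθ)
    (by rw [LinearMap.finrank_range_of_inj hLinj]; simp)
  let up : ↥(Cfsg.isometryGroup F (Cfsg.quadFormMinus k F a c)) →* GL (Fin (k + 1) ⊕ Fin (k + 1)) K :=
    MonoidHom.mk' (fun x => CfsgLib.Forms.glEquiv.symm (g.symm ≪≫ₗ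
      CfsgLib.Forms.glEquiv (Matrix.GeneralLinearGroup.map (algebraMap F K) (x : GL _ F)) ≪≫ₗ g)) fun x y => by
      rw [← map_mul]
      refine congrArg CfsgLib.Forms.glEquiv.symm (LinearEquiv.ext fun v => ?_)
      simp [map_mul]
  have hup : ∀ x v, ((up x : GL _ K) : Matrix (Fin (k + 1) ⊕ Fin (k + 1)) (Fin (k + 1) ⊕ Fin (k + 1)) K) *ᵥ v =
      g (((x : GL ((Fin k ⊕ Fin k) ⊕ Fin 2) F) : Matrix ((Fin k ⊕ Fin k) ⊕ Fin 2) ((Fin k ⊕ Fin k) ⊕ Fin 2) F).map (algebraMap F K) *ᵥ g.symm v) := fun x v => by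
    rw [← CfsgLib.Forms.glEquiv_apply]
    simp only [up, MonoidHom.mk'_apply, MulEquiv.apply_symm_apply]
    simp
  refine ⟨up.codRestrict _ fun x => CfsgLib.Forms.mem_isometryGroup.2 fun v => ?_, fun x y h => ?_⟩
  · set M : Matrix ((Fin k ⊕ Fin k) ⊕ Fin 2) ((Fin k ⊕ Fin k) ⊕ Fin 2) F := ((x : GL ((Fin k ⊕ Fin k) ⊕ Fin 2) F) : Matrix ((Fin k ⊕ Fin k) ⊕ Fin 2) ((Fin k ⊕ Fin k) ⊕ Fin 2) F)
    have hx : ∀ w, Cfsg.quadFormMinus k F a c (M *ᵥ w) = Cfsg.quadFormMinus k F a c w := fun w => x.2 w w
    have hmap : ∀ w : (Fin k ⊕ Fin k) ⊕ Fin 2 → F, P (algebraMap F K ∘ w) = algebraMap F K (Cfsg.quadFormMinus k F a c w) := fun w => by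
      simp [P, Cfsg.quadFormMinus, map_add, map_sum, map_mul, map_pow, a', c']
    have hcol : ∀ w : (Fin k ⊕ Fin k) ⊕ Fin 2 → F, M.map (algebraMap F K) *ᵥ (algebraMap F K ∘ w) = algebraMap F K ∘ (M *ᵥ w) :=
      fun w => funext fun i => (RingHom.map_mulVec (algebraMap F K) M w i).symm
    have key : P.comp (Matrix.mulVecLin (M.map (algebraMap F K))) = P := by
      have hsingle : ∀ i, (Pi.single i (1 : K) : (Fin k ⊕ Fin k) ⊕ Fin 2 → K) = algebraMap F K ∘ Pi.single i 1 := fun i => by
        funext j; by_cases hj : j = i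
        · subst hj; simp
        · simp [hj]
      refine CfsgLib.Forms.eq_of_basis (Pi.basisFun K _) (fun i => ?_) (fun i j => ?_)
      · rw [Pi.basisFun_apply, QuadraticMap.comp_apply, Matrix.mulVecLin_apply, hsingle, hcol, hmap, hmap, hx]
      · rw [Pi.basisFun_apply, Pi.basisFun_apply, hsingle, hsingle]
        have hadd : (algebraMap F K ∘ (Pi.single i 1 : _ → F)) + (algebraMap F K ∘ (Pi.single j 1 : _ → F)) = algebraMap F K ∘ ((Pi.single i 1 : _ → F) + Pi.single j 1) := by
          funext z; simp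
        simp only [QuadraticMap.polar, QuadraticMap.comp_apply, Matrix.mulVecLin_apply, hadd, hcol, hmap, hx]
    rw [hup, hg]
    conv_rhs => rw [← g.apply_symm_apply v, hg]
    exact DFunLike.congr_fun key (g.symm v)
  · have hxy : up x = up y := congrArg Subtype.val h
    have h1 : ((x : GL ((Fin k ⊕ Fin k) ⊕ Fin 2) F) : Matrix ((Fin k ⊕ Fin k) ⊕ Fin 2) ((Fin k ⊕ Fin k) ⊕ Fin 2) F).map (algebraMap F K) =
        ((y : GL ((Fin k ⊕ Fin k) ⊕ Fin 2) F) : Matrix ((Fin k ⊕ Fin k) ⊕ Fin 2) ((Fin k ⊕ Fin k) ⊕ Fin 2) F).map (algebraMap F K) := by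
      refine Matrix.ext_iff_mulVec.2 fun v => g.injective ?_
      have h2 := hup x (g v)
      rw [hxy, hup, g.symm_apply_apply] at h2
      exact h2.symm
    exact Subtype.ext (Units.ext (Matrix.map_injective (algebraMap F K).injective h1))

end Cfsg.Agent.S2679
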