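import Cfsg.Statements.S2680
import Cfsg.Agent.InvTwo.CentPlus

set_option autoImplicit false
open Cfsg

namespace Cfsg.Agent.S2680

/-- Centraliser order of an involution t of Sp_2m(q), q even, with s = rank(t − 1) odd (type b_s): |C(t)| = q^(2ms − (3s² − s)/2) · |Sp_(s−1)(q)| · |Sp_(2m−2s)(q)|, where |Sp_2k(q)| = q^(k²) Π_(i=1)^k (q^(2i) − 1). -/
theorem result {F : Type*} [Field F] [Fintype F] [CharP F 2] {q : ℕ} (hF : Fintype.card F = q) {m s : ℕ} (t : Matrix.symplecticGroup (Fin m) F) (ht : t ^ 2 = 1) (hs : ((t : Matrix (Fin m ⊕ Fin m) (Fin m ⊕ Fin m) F) - 1).rank = s) (hodd : Odd s) : Nat.card ↥(Subgroup.centralizer ({t} : Set ↥(Matrix.symplecticGroup (Fin m) F))) = q ^ (2 * m * s - (3 * s ^ 2 - s) / 2) * ((q : ℕ) ^ (((s - 1) / 2) ^ 2) * ∏ i : Fin ((s - 1) / 2), (q ^ (2 * ((i : ℕ) + 1)) - 1)) * ((q : ℕ) ^ ((m - s) ^ 2) * ∏ i : Fin (m - s), (q ^ (2 * ((i : ℕ) +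 1)) - 1)) := by
  have h2 : (2 : F) = 0 := CharTwo.two_eq_zero
  have ht' : t * t = 1 := by rw [← pow_two]; exact ht
  have hN := CfsgLib.InvTwo.selfAdj_sp h2 ht'
  have hle := CfsgLib.InvTwo.rank_le hN
  rw [hs] at hle
  obtain ⟨j, rfl⟩ := hodd
  rw [CfsgLib.InvTwo.card_centralizer_sp_diag h2 t ht' hs fun ha => (Nat.not_even_iff_odd.2 ⟨j, rfl⟩) (hs ▸ CfsgLib.InvTwo.even_of_alt hN ha),
    CfsgLib.InvTwo.card_orth_odd h2, CfsgLib.InvTwo.spOrd_fin, CfsgLib.InvTwo.spOrd_fin, hF, show (2 * j + 1 - 1) / 2 = j by omega,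
    (CfsgLib.InvTwo.exponent_eqs (s := 2 * j + 1) (k := m - (2 * j + 1)) (by omega)).1,
    show 2 * j + 1 + (m - (2 * j + 1)) = m by omega]
  ring

end Cfsg.Agent.S2680
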