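import Cfsg.Statements.S2682
import Cfsg.Agent.InvTwo.CentPlus

set_option autoImplicit false
open Cfsg

namespace Cfsg.Agent.S2682

/-- Centraliser order of an involution t of Sp_2m(q), q even, with s = rank(t − 1) even and f(v, tv) ≠ 0 for some v, f the symplectic form (type c_s): |C(t)| = q^(2ms − (3s² − 3s)/2 − 1) · |Sp_(s−2)(q)| · |Sp_(2m−2s)(q)|. -/
theorem result {F : Type*} [Field F] [Fintype F] [CharP F 2] {q : ℕ} (hF : Fintype.card F = q) {m s : ℕ} (t : Matrix.symplecticGroup (Fin m) F) (ht : t ^ 2 = 1) (hs : ((t : Matrix (Fin m ⊕ Fin m) (Fin m ⊕ Fin m) F) - 1).rank = s) (heven : Even s) (hna : ∃ v : Fin m ⊕ Fin m → F, Cfsg.sympForm m F v ((t : Matrix (Fin m ⊕ Fin m) (Fin m ⊕ Fin m) F).mulVec v) ≠ 0) : Nat.card ↥(Subgroup.centralizer ({t} : Set ↥(Matrix.symplecticGroup (Fin m) F))) = q ^ (2 * m * s - (3 * s ^ 2 - 3 * s) / 2 - 1) * ((q : ℕ) ^ (((s - 2) / 2) ^ 2) * ∏ i :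 Fin ((s - 2) / 2), (q ^ (2 * ((i : ℕ) + 1)) - 1)) * ((q : ℕ) ^ ((m - s) ^ 2) * ∏ i : Fin (m - s), (q ^ (2 * ((i : ℕ) + 1)) - 1)) := by
  have h2 : (2 : F) = 0 := CharTwo.two_eq_zero
  have ht' : t * t = 1 := by rw [← pow_two]; exact ht
  have hN := CfsgLib.InvTwo.selfAdj_sp h2 ht'
  have hle := CfsgLib.InvTwo.rank_le hN
  rw [hs] at hle
  have hna' : ¬ CfsgLib.InvTwo.IsAltN (QuadraticMap.polarBilin (CfsgLib.Forms.quadPlus F m))
      (CfsgLib.InvTwo.nilM (t : Matrix (Fin m ⊕ Fin m) (Fin m ⊕ Fin m) F)) := fun h => by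
    obtain ⟨v, hv⟩ := hna
    exact hv (by rw [CfsgLib.InvTwo.sympForm_mulVec_eq h2]; exact h v)
  have h0 : s ≠ 0 := fun h0 => hna' fun v => by
    subst h0
    rw [CfsgLib.InvTwo.rank_nilM, Submodule.finrank_eq_zero, LinearMap.range_eq_bot] at hs
    rw [hs]; exact map_zero _
  obtain ⟨j, rfl⟩ : ∃ j, s = 2 * j + 2 := by
    obtain ⟨i, rfl⟩ := heven
    exact ⟨i - 1, by omega⟩
  rw [CfsgLib.InvTwo.card_centralizer_sp_diag h2 t ht' hs hna', CfsgLib.InvTwo.card_orth_even h2, CfsgLib.InvTwo.spOrd_fin, CfsgLib.InvTwo.spOrd_fin, hF,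
    show (2 * j + 2 - 2) / 2 = j by omega]
  have e := (CfsgLib.InvTwo.exponent_eqs (s := 2 * j + 2) (k := m - (2 * j + 2)) (by omega)).2.2.2.1 (by omega)
  rw [show 2 * j + 2 + (m - (2 * j + 2)) = m by omega] at e
  rw [← e, show 2 * j + 2 - 1 = 2 * j + 1 by omega]
  ring

end Cfsg.Agent.S2682
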