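import Cfsg.Statements.S2684
import Cfsg.Agent.InvTwo.CentPlus

set_option autoImplicit false
open Cfsg

namespace Cfsg.Agent.S2684

/-- For the hyperbolic form Q = Σ x_j y_j on F^(2m) over a finite field with q elements, q even (excluding m = 2 over the field of two elements), and an involution x ≠ 1 of the orthogonal group with s = rank(x − 1) even and Q vanishing on the image of x − 1 (equivalently f(v, xv) = 0 for all v, where f(u, w) = Q(u + w) − Q(u) − Q(w) is the bilinear form of Q; type a_s, which lies in Ω): its centraliser in Ω (the commutator subgroup of the orthogonal group) has order q^(2ms − (3s² + s)/2) · |Sp_s(q)| · |Ω⁺_(2m−2s)(q)|, where |Ω⁺_2k(q)| = q^(k(k−1)) (q^k − 1) Π_(i=1)^(k−1) (q^(2i) − 1) for k ≥ 1 and the last factor is 1 when s = m. -/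
theorem result {F : Type*} [Field F] [Fintype F] [CharP F 2] {q : ℕ} (hF : Fintype.card F = q) {m s : ℕ} (h : Fintype.card F ≠ 2 ∨ m ≠ 2) (x : ↥(Cfsg.isometryGroup F (Cfsg.quadFormPlus m F))) (hx : x ^ 2 = 1) (hx1 : x ≠ 1) (hs : (((x : Matrix.GeneralLinearGroup (Fin m ⊕ Fin m) F) : Matrix (Fin m ⊕ Fin m) (Fin m ⊕ Fin m) F) - 1).rank = s) (heven : Even s) (halt : ∀ v : Fin m ⊕ Fin m → F, Cfsg.quadFormPlus m F ((((x : Matrix.GeneralLinearGroup (Fin m ⊕ Fin m) F) : Matrix (Fin m ⊕ Fin m) (Fin m ⊕ Fin m) F) - 1).mulVec v) = 0) : Nat.card {g : ↥(Cfsg.Omega F (Cfsg.quadFormPlus m F)) // (g : ↥(Cfsg.isometryGroup F (Cfsg.quadFormPlus m F))) * x = x * (g : ↥(Cfsg.isometryGroup F (Cfsg.quadFormPlus m F)))} = q ^ (2 * m * s - (3 * s ^ 2 + s) / 2) * ((q : ℕ) ^ ((s / 2) ^ 2) * ∏ i : Fin (s / 2), (q ^ (2 * ((i : ℕ) + 1)) - 1)) * (if s = m then 1 else q ^ ((m - s) * (m - s - 1)) * (q ^ (m - s) - 1) * ∏ i : Fin (m - s - 1), (q ^ (2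 * ((i : ℕ) + 1)) - 1)) := by
  have key : ∀ φ : (Fin m ⊕ Fin m → F) → F, φ = ⇑(CfsgLib.Forms.quadPlus F m) → ∀ x : ↥(Cfsg.isometryGroup F φ), x ^ 2 = 1 →
      x ≠ 1 → ((x : GL (Fin m ⊕ Fin m) F).1 - 1).rank = s →
      (∀ v, φ (((x : GL (Fin m ⊕ Fin m) F).1 - 1).mulVec v) = 0) →
      Nat.card {g : ↥(Cfsg.Omega F φ) // (g : ↥(Cfsg.isometryGroup F φ)) * x = x * (g : ↥(Cfsg.isometryGroup F φ))} =
        q ^ (2 * m * s - (3 * s ^ 2 + s) / 2) * ((q : ℕ) ^ ((s / 2) ^ 2) * ∏ i : Fin (s / 2), (q ^ (2 * ((i : ℕ) + 1)) - 1)) *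
          (if s = m then 1 else q ^ ((m - s) * (m - s - 1)) * (q ^ (m - s) - 1) *
            ∏ i : Fin (m - s - 1), (q ^ (2 * ((i : ℕ) + 1)) - 1)) := by
    rintro φ rfl x hx hx1 hs halt
    have h2 : (2 : F) = 0 := CharTwo.two_eq_zero
    have hx' : x * x = 1 := by rw [← pow_two]; exact hx
    have hN := CfsgLib.InvTwo.selfAdj_iso h2 (CfsgLib.Forms.nondegenerate_quadPlus (F := F) m) hx'
    have hle := CfsgLib.InvTwo.rank_le hN
    have h1 : 1 ≤ s := by
      have := CfsgLib.InvTwo.rank_ne_zero (CfsgLib.InvTwo.iso_ne_one hx1)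
      omega
    rw [hs] at hle
    have hc := CfsgLib.InvTwo.card_cent_Omega_alt h2 (by rwa [Nat.card_eq_fintype_card]) x hx' hs h1 fun v => by
      rw [← CfsgLib.InvTwo.Q_nilM h2]; exact halt v
    rw [← CfsgLib.InvTwo.plusOrd_half, hF] at hc
    rw [CfsgLib.InvTwo.spOrd_fin]
    have e := (CfsgLib.InvTwo.exponent_eqs (s := s) (k := m - s) h1).2.2.1
    rw [show s + (m - s) = m by omega] at e
    rw [← e]
    by_cases hsm : s = m
    · rw [if_pos hsm, if_pos (by omega : m - s = 0), if_pos (by omega : m - s = 0), one_mul] at hc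
      rw [if_pos hsm, hc]
      ring
    · rw [if_neg hsm, if_neg (by omega : ¬ m - s = 0), if_neg (by omega : ¬ m - s = 0)] at hc
      rw [if_neg hsm]
      refine Nat.eq_of_mul_eq_mul_left (show 0 < 2 by omega) (hc.trans ?_)
      ring
  exact key _ (CfsgLib.Forms.coe_quadPlus (F := F) m).symm x hx hx1 hs halt

end Cfsg.Agent.S2684
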