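import Cfsg.Statements.S2685
import Cfsg.Agent.InvTwo.CentPlus

set_option autoImplicit false
open Cfsg

namespace Cfsg.Agent.S2685

/-- For the hyperbolic form Q = Σ x_j y_j on F^(2m) over a finite field with q elements, q even (excluding m = 2 over the field of two elements), and an involution x of the orthogonal group with s = rank(x − 1) even and Q not vanishing on the image of x − 1 (f(v, xv) ≠ 0 for some v, where f(u, w) = Q(u + w) − Q(u) − Q(w) is the bilinear form of Q; type c_s, which lies in Ω): its centraliser in Ω (the commutator subgroup of the orthogonal group) has order q^(2m(s−1) − (3s² − 5s)/2 − 1) · |Sp_(s−2)(q)| · |Sp_(2m−2s)(q)|. -/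
theorem result {F : Type*} [Field F] [Fintype F] [CharP F 2] {q : ℕ} (hF : Fintype.card F = q) {m s : ℕ} (h : Fintype.card F ≠ 2 ∨ m ≠ 2) (x : ↥(Cfsg.isometryGroup F (Cfsg.quadFormPlus m F))) (hx : x ^ 2 = 1) (hs : (((x : Matrix.GeneralLinearGroup (Fin m ⊕ Fin m) F) : Matrix (Fin m ⊕ Fin m) (Fin m ⊕ Fin m) F) - 1).rank = s) (heven : Even s) (hna : ∃ v : Fin m ⊕ Fin m → F, Cfsg.quadFormPlus m F ((((x : Matrix.GeneralLinearGroup (Fin m ⊕ Fin m) F) : Matrix (Fin m ⊕ Fin m) (Fin m ⊕ Fin m) F) - 1).mulVec v) ≠ 0) : Nat.card {g : ↥(Cfsg.Omega F (Cfsg.quadFormPlus m F)) // (g : ↥(Cfsg.isometryGroup F (Cfsg.quadFormPlus m F))) * x = x * (g : ↥(Cfsg.isometryGroup F (Cfsg.quadFormPlus m F)))} = q ^ (2 * m * (s - 1) - (3 * s ^ 2 - 5 * s) / 2 - 1) * ((q : ℕ) ^ (((s - 2) / 2) ^ 2) * ∏ i : Fin ((s - 2) / 2), (q ^ (2 * ((i : ℕ) + 1)) - 1)) * ((q : ℕ) ^ ((m - s) ^ 2) * ∏ i : Fin (m - s), (q ^ (2 * ((i : ℕ) + 1)) - 1))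 := by
  have key : ∀ φ : (Fin m ⊕ Fin m → F) → F, φ = ⇑(CfsgLib.Forms.quadPlus F m) → ∀ x : ↥(Cfsg.isometryGroup F φ), x ^ 2 = 1 →
      ((x : GL (Fin m ⊕ Fin m) F).1 - 1).rank = s →
      (∃ v, φ (((x : GL (Fin m ⊕ Fin m) F).1 - 1).mulVec v) ≠ 0) →
      Nat.card {g : ↥(Cfsg.Omega F φ) // (g : ↥(Cfsg.isometryGroup F φ)) * x = x * (g : ↥(Cfsg.isometryGroup F φ))} =
        q ^ (2 * m * (s - 1) - (3 * s ^ 2 - 5 * s) / 2 - 1) *
          ((q : ℕ) ^ (((s - 2) / 2) ^ 2) * ∏ i : Fin ((s - 2) / 2), (q ^ (2 * ((i : ℕ) + 1)) - 1)) *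
          ((q : ℕ) ^ ((m - s) ^ 2) * ∏ i : Fin (m - s), (q ^ (2 * ((i : ℕ) + 1)) - 1)) := by
    rintro φ rfl x hx hs hna
    have h2 : (2 : F) = 0 := CharTwo.two_eq_zero
    have hx' : x * x = 1 := by rw [← pow_two]; exact hx
    have hN := CfsgLib.InvTwo.selfAdj_iso h2 (CfsgLib.Forms.nondegenerate_quadPlus (F := F) m) hx'
    have hle := CfsgLib.InvTwo.rank_le hN
    rw [hs] at hle
    have hna' : ¬ CfsgLib.InvTwo.IsAltN (QuadraticMap.polarBilin (CfsgLib.Forms.quadPlus F m))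
        (CfsgLib.InvTwo.nilM (x : GL (Fin m ⊕ Fin m) F).1) := fun h => by
      obtain ⟨v, hv⟩ := hna
      refine hv ?_
      have := h v
      rw [← CfsgLib.InvTwo.Q_nilM h2] at this
      exact this
    have h0 : s ≠ 0 := fun h0 => hna' fun v => by
      subst h0
      rw [CfsgLib.InvTwo.rank_nilM, Submodule.finrank_eq_zero, LinearMap.range_eq_bot] at hs
      rw [hs]; exact map_zero _
    obtain ⟨j, rfl⟩ : ∃ j, s = 2 * j + 2 := by
      obtain ⟨i, rfl⟩ := heven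
      exact ⟨i - 1, by omega⟩
    rw [CfsgLib.InvTwo.card_cent_Omega_diag h2 (by rwa [Nat.card_eq_fintype_card]) x hx' hs (by omega) hna',
      CfsgLib.InvTwo.card_orth_even h2, CfsgLib.InvTwo.spOrd_fin, CfsgLib.InvTwo.spOrd_fin, hF, show (2 * j + 2 - 2) / 2 = j by omega]
    have e := (CfsgLib.InvTwo.exponent_eqs (s := 2 * j + 2) (k := m - (2 * j + 2)) (by omega)).2.2.2.2 (by omega)
    rw [show 2 * j + 2 + (m - (2 * j + 2)) = m by omega] at e
    rw [← e, show 2 * j + 2 - 1 = 2 * j + 1 by omega]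
    ring
  exact key _ (CfsgLib.Forms.coe_quadPlus (F := F) m).symm x hx hs hna

end Cfsg.Agent.S2685
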