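import Cfsg.Statements.S2697
import Cfsg.Agent.AutPSL.CosetGeneral

set_option autoImplicit false
open Cfsg

namespace Cfsg.Agent.S2697

/-- Let T = PSL_n(F) be simple over a finite field (n ≥ 2; |F| ≥ 4 when n = 2) and let x be a field automorphism or a graph-field automorphism of T of prime order r. Then an element y of the coset Inndiag(T)·x (that is, y = δ x with δ in the inner-diagonal group, the image of PGL_n(F)) has order r if and only if y is conjugate to x by an element of Inndiag(T). -/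
theorem result {F : Type*} [Field F] [Fintype F] {p f : ℕ} [Fact p.Prime] (hF : Fintype.card F = p ^ f) (hf : 1 ≤ f) {n : ℕ} (hn : 2 ≤ n) (hs : n = 2 → 4 ≤ Fintype.card F) (x δ : MulAut (Matrix.ProjectiveSpecialLinearGroup (Fin n) F)) (hx : Cfsg.IsFieldAutClassPSL x ∨ Cfsg.IsGraphFieldAutClassPSL x) {r : ℕ} (hr : r.Prime) (hxr : orderOf x = r) (hδ : δ ∈ Cfsg.inndiagPSL n F) :
    orderOf (δ * x) = r ↔ Cfsg.IsConjUnder (Cfsg.inndiagPSL n F) x (δ * x) := by
  haveI : NeZero n := ⟨by omega⟩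
  haveI hN : (Cfsg.inndiagPSL n F).Normal := by
    rw [CfsgLib.AutPSL.inndiagPSL_eq_range]; exact CfsgLib.AutPSL.range_conjPSL_normal hn
  constructor
  swap
  · rintro ⟨h, -, e⟩
    rw [e, ← hxr]
    exact orderOf_injective (MulAut.conj h).toMonoidHom (MulAut.conj h).injective x
  intro hy
  have hord : ∀ (α z : MulAut (Matrix.ProjectiveSpecialLinearGroup (Fin n) F)), orderOf (α * z * α⁻¹) = orderOf z :=
    fun α z => orderOf_injective (MulAut.conj α).toMonoidHom (MulAut.conj α).injective z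
  rcases hx with ⟨α, σ, -, hφ⟩ | ⟨h3, α, φ, γ, σ, hσ, hφ, hγ, he⟩
  · have hφ' := CfsgLib.AutPSL.eq_fieldPSL_of_isStdField hφ
    obtain ⟨g, hg⟩ : α * δ * α⁻¹ ∈ (CfsgLib.AutPSL.conjPSL (F := F) (n := n)).range := by
      rw [← CfsgLib.AutPSL.inndiagPSL_eq_range]
      exact hN.conj_mem δ hδ α
    have hy' : α * (δ * x) * α⁻¹ = CfsgLib.AutPSL.conjPSL g * CfsgLib.AutPSL.fieldPSL σ := by
      rw [hg, ← hφ']; group
    have hσr : orderOf σ = r := by
      rw [← orderOf_injective _ (CfsgLib.AutPSL.fieldPSL_injective hn) σ, ← hφ', hord, hxr]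
    obtain ⟨k, hk⟩ := CfsgLib.AutPSL.exists_conj_field hn g σ
      (by rw [← hy', hσr, ← hy, ← hord α (δ * x), pow_orderOf_eq_one])
    rw [← CfsgLib.AutPSL.isConjUnder_conj_iff _ α, hy', hφ']
    exact ⟨_, by rw [CfsgLib.AutPSL.inndiagPSL_eq_range]; exact ⟨k, rfl⟩, hk⟩
  · obtain rfl := CfsgLib.AutPSL.eq_fieldPSL_of_isStdField hφ
    obtain rfl := CfsgLib.AutPSL.eq_graphPSL_of_isInverseTranspose hγ
    obtain ⟨g, hg⟩ : α * δ * α⁻¹ ∈ (CfsgLib.AutPSL.conjPSL (F := F) (n := n)).range := by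
      rw [← CfsgLib.AutPSL.inndiagPSL_eq_range]
      exact hN.conj_mem δ hδ α
    have hy' : α * (δ * x) * α⁻¹ =
        CfsgLib.AutPSL.conjPSL g * CfsgLib.AutPSL.fieldPSL σ * CfsgLib.AutPSL.graphPSL := by
      rw [mul_assoc (CfsgLib.AutPSL.conjPSL g), ← he, hg]; group
    obtain ⟨hr2, hσ2⟩ := CfsgLib.AutPSL.graphField_prime_order h3 σ hr (by rw [← he, hord, hxr])
    obtain ⟨k, hk⟩ := CfsgLib.AutPSL.exists_conj_graphField h3 g σ hσ hσ2
      (by rw [← hy', ← hr2, ← hy, ← hord α (δ * x), pow_orderOf_eq_one])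
    rw [← CfsgLib.AutPSL.isConjUnder_conj_iff _ α, hy', he]
    exact ⟨_, by rw [CfsgLib.AutPSL.inndiagPSL_eq_range]; exact ⟨k, rfl⟩, hk⟩

end Cfsg.Agent.S2697
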