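import Cfsg.Statements.S2698
import Cfsg.Agent.AutPSL.FieldAut
import Cfsg.Agent.AutPSL.FixedField

set_option autoImplicit false
open Cfsg

namespace Cfsg.Agent.S2698

/-- Let T = PSL_n(F) be simple over the field F with p^f elements (n ≥ 2; p^f ≥ 4 when n = 2), G = Inndiag(T) the image of PGL_n(F) in Aut(T), and x a field automorphism of T of prime order r. Then r divides f; the centralizer C_G(x) is isomorphic to PGL_n(F₀) for the subfield size |F₀| = p^(f/r); and the G-class of x is the union of exactly gcd(n, (p^f − 1)/(p^(f/r) − 1)) classes under conjugation by T (the inner automorphism group). -/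
theorem result {F : Type*} [Field F] [Fintype F] {p f : ℕ} [Fact p.Prime] (hF : Fintype.card F = p ^ f) (hf : 1 ≤ f) {n : ℕ} (hn : 2 ≤ n) (hs : n = 2 → 4 ≤ Fintype.card F) (x : MulAut (Matrix.ProjectiveSpecialLinearGroup (Fin n) F)) (hx : Cfsg.IsFieldAutClassPSL x) {r : ℕ} (hr : r.Prime) (hxr : orderOf x = r) (F₀ : Type*) [Field F₀] [Fintype F₀] (hF₀ : Fintype.card F₀ = p ^ (f / r)) :
    r ∣ f ∧ Nonempty (↥(Cfsg.inndiagPSL n F ⊓ Subgroup.centralizer {x}) ≃* Matrix.ProjGenLinGroup (Fin n) F₀) ∧ Cfsg.splitClassCount (Cfsg.inndiagPSL n F) (Cfsg.Inn (Matrix.ProjectiveSpecialLinearGroup (Fin n) F)) x = Nat.gcd n ((p ^ f - 1) / (p ^ (f / r) - 1)) := by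
  classical
  obtain ⟨α, σ, -, hφ⟩ := hx
  have hφ' : α * x * α⁻¹ = CfsgLib.AutPSL.fieldPSL σ := CfsgLib.AutPSL.eq_fieldPSL_of_isStdField hφ
  have hσr : orderOf σ = r := by
    rw [← hxr, ← orderOf_injective _ (CfsgLib.AutPSL.fieldPSL_injective hn) σ, ← hφ']
    exact orderOf_injective (MulAut.conj α).toMonoidHom (MulAut.conj α).injective x
  obtain ⟨hrf, hfield⟩ := CfsgLib.AutPSL.fixed_field_facts (Fact.out : p.Prime) hF σ
  rw [hσr] at hrf hfield
  obtain ⟨ι, hfix⟩ := hfield F₀ hF₀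
  haveI := CfsgLib.AutPSL.range_conjPSL_normal (F := F) hn
  haveI hN : (Cfsg.inndiagPSL n F).Normal := by rw [CfsgLib.AutPSL.inndiagPSL_eq_range]; infer_instance
  refine ⟨hrf, ?_, ?_⟩
  · obtain ⟨e⟩ := CfsgLib.AutPSL.centralizer_equiv hn hfix
    have hmap : (Cfsg.inndiagPSL n F ⊓ Subgroup.centralizer {x}).map (MulAut.conj α).toMonoidHom =
        (CfsgLib.AutPSL.conjPSL (F := F) (n := n)).range ⊓ Subgroup.centralizer {CfsgLib.AutPSL.fieldPSL σ} := by
      rw [← hφ', ← CfsgLib.AutPSL.inndiagPSL_eq_range]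
      ext y
      constructor
      · rintro ⟨z, ⟨hz1, hz2⟩, rfl⟩
        refine ⟨hN.conj_mem z hz1 α, Subgroup.mem_centralizer_singleton_iff.mpr ?_⟩
        have hz : z * x = x * z := Subgroup.mem_centralizer_singleton_iff.mp hz2
        change MulAut.conj α z * MulAut.conj α x = MulAut.conj α x * MulAut.conj α z
        rw [← map_mul, ← map_mul, hz]
      · rintro ⟨hy1, hy2⟩
        refine ⟨α⁻¹ * y * α, ⟨by simpa using hN.conj_mem y hy1 α⁻¹, Subgroup.mem_centralizer_singleton_iff.mpr ?_⟩, ?_⟩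
        · have hy : y * (α * x * α⁻¹) = (α * x * α⁻¹) * y := Subgroup.mem_centralizer_singleton_iff.mp hy2
          calc α⁻¹ * y * α * x = α⁻¹ * (y * (α * x * α⁻¹)) * α := by group
            _ = _ := by rw [hy]; group
        · change α * (α⁻¹ * y * α) * α⁻¹ = y
          group
    exact ⟨((Subgroup.equivMapOfInjective _ (MulAut.conj α).toMonoidHom (MulAut.conj α).injective).trans
      (MulEquiv.subgroupCongr hmap)).trans e⟩
  haveI : (Cfsg.Inn (Matrix.ProjectiveSpecialLinearGroup (Fin n) F)).Normal := inferInstance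
  rw [← CfsgLib.AutPSL.splitClassCount_conj (Cfsg.inndiagPSL n F)
    (Cfsg.Inn (Matrix.ProjectiveSpecialLinearGroup (Fin n) F)) x α, hφ', CfsgLib.AutPSL.inndiagPSL_eq_range]
  haveI : NeZero n := ⟨by omega⟩
  let P : Subgroup Fˣ := (powMonoidHom n : Fˣ →* Fˣ).range ⊔ (Units.map (ι : F₀ →* F)).range
  let π : GL (Fin n) F →* Fˣ ⧸ P := (QuotientGroup.mk' P).comp Matrix.GeneralLinearGroup.det
  have hπ : (CfsgLib.AutPSL.conjPSL (F := F) (n := n)).rangeRestrict.ker ≤ π.ker := by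
    intro g hg
    rw [MonoidHom.ker_rangeRestrict, MonoidHom.mem_ker] at hg
    obtain ⟨a, ha⟩ := (CfsgLib.AutPSL.conjPSL_eq_one_iff hn).mp hg
    have hdet : (Matrix.GeneralLinearGroup.det g : F) = a ^ n := by
      change g.1.det = _
      rw [ha, Matrix.det_smul, Matrix.det_one, mul_one, Fintype.card_fin]
    have ha0 : a ≠ 0 := by
      rintro rfl
      rw [zero_pow (NeZero.ne n)] at hdet
      exact (Matrix.GeneralLinearGroup.det g).ne_zero hdet
    exact (QuotientGroup.eq_one_iff _).mpr (Subgroup.mem_sup_left ⟨Units.mk0 a ha0, Units.ext hdet.symm⟩)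
  let θ := MonoidHom.liftOfSurjective (CfsgLib.AutPSL.conjPSL (F := F) (n := n)).rangeRestrict
    (MonoidHom.rangeRestrict_surjective _) ⟨π, hπ⟩
  have hθ : ∀ g, θ ((CfsgLib.AutPSL.conjPSL (F := F) (n := n)).rangeRestrict g) = π g := fun g =>
    MonoidHom.liftOfRightInverse_comp_apply _ _ (Function.rightInverse_surjInv _) ⟨π, hπ⟩ g
  have hπmap : ∀ g₀ : GL (Fin n) F₀, π (CfsgLib.AutPSL.mapGL ι g₀) = 1 := fun g₀ => by
    refine (QuotientGroup.eq_one_iff _).mpr (Subgroup.mem_sup_right ⟨Matrix.GeneralLinearGroup.det g₀, Units.ext ?_⟩)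
    exact RingHom.map_det ι g₀.1
  rw [CfsgLib.AutPSL.splitClassCount_eq_card (A := Fˣ ⧸ P) _ _ _ CfsgLib.AutPSL.inn_le_range θ ?_ ?_]
  · rw [← Subgroup.index_eq_card, CfsgLib.AutPSL.index_scalars_sup_subfield ι ?_ n, hF, hF₀]
    rw [hF, hF₀]
    simpa using Nat.pow_sub_one_dvd_pow_sub_one p (Nat.div_dvd_of_dvd hrf)
  · intro a
    obtain ⟨a, rfl⟩ := QuotientGroup.mk_surjective a
    obtain ⟨g, rfl⟩ := CfsgLib.AutPSL.detHom_surjective (n := n) a
    exact ⟨_, hθ g⟩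
  · intro h
    obtain ⟨g, rfl⟩ := MonoidHom.rangeRestrict_surjective _ h
    rw [hθ]
    constructor
    · intro hg
      obtain ⟨u, ⟨a, rfl⟩, v, ⟨b, rfl⟩, huv⟩ := Subgroup.mem_sup.mp ((QuotientGroup.eq_one_iff _).mp hg)
      obtain ⟨g₀, rfl⟩ := CfsgLib.AutPSL.detHom_surjective (F := F₀) (n := n) b
      have hk : CfsgLib.AutPSL.conjPSL (g * (CfsgLib.AutPSL.mapGL ι g₀)⁻¹) ∈
          (MulAut.conj : Matrix.ProjectiveSpecialLinearGroup (Fin n) F →* _).range := by
        refine CfsgLib.AutPSL.conjPSL_mem_inn_of_det _ ⟨a, ?_⟩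
        rw [map_mul, map_inv, ← huv]
        have : Units.map (ι : F₀ →* F) (Matrix.GeneralLinearGroup.det g₀) =
            Matrix.GeneralLinearGroup.det (CfsgLib.AutPSL.mapGL ι g₀) := Units.ext (RingHom.map_det ι g₀.1)
        rw [this, mul_inv_cancel_right]
      refine ⟨_, hk, CfsgLib.AutPSL.conjPSL (CfsgLib.AutPSL.mapGL ι g₀), ⟨⟨_, rfl⟩,
        Subgroup.mem_centralizer_singleton_iff.mpr ((CfsgLib.AutPSL.conjPSL_commute_fieldPSL_iff hn _ σ).mpr
          ⟨1, by rw [CfsgLib.AutPSL.fieldGL_mapGL hfix, one_smul]⟩)⟩, ?_⟩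
      rw [← map_mul, inv_mul_cancel_right]
      rfl
    · rintro ⟨_, ⟨y, rfl⟩, _, ⟨⟨g₁, rfl⟩, hc⟩, e⟩
      obtain ⟨s, rfl⟩ := CfsgLib.AutPSL.proj_surjective y
      obtain ⟨g₀, c, -, hg₁⟩ := CfsgLib.AutPSL.exists_descend_of_commute hn hfix
        (Subgroup.mem_centralizer_singleton_iff.mp hc)
      have e' : CfsgLib.AutPSL.conjPSL g = CfsgLib.AutPSL.conjPSL
          (Matrix.SpecialLinearGroup.toGL s * CfsgLib.AutPSL.mapGL ι g₀) := by
        rw [map_mul, CfsgLib.AutPSL.conjPSL_toGL, ← CfsgLib.AutPSL.conjPSL_eq_of_smul hg₁]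
        exact e
      rw [← hθ, show (CfsgLib.AutPSL.conjPSL (F := F) (n := n)).rangeRestrict g =
        (CfsgLib.AutPSL.conjPSL (F := F) (n := n)).rangeRestrict
          (Matrix.SpecialLinearGroup.toGL s * CfsgLib.AutPSL.mapGL ι g₀) from Subtype.ext e', hθ, map_mul, hπmap, mul_one]
      refine (QuotientGroup.eq_one_iff _).mpr ?_
      rw [show Matrix.GeneralLinearGroup.det (Matrix.SpecialLinearGroup.toGL s) = 1 from Units.ext s.2]
      exact one_mem P

end Cfsg.Agent.S2698
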