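import Cfsg.Statements.S2702
import Cfsg.Agent.GraphInv.PSL
import Cfsg.Agent.Forms.SimilitudeStd

set_option autoImplicit false
open Cfsg

namespace Cfsg.Agent.S2702

/-- Let T = PSL_n(F) over the field with q = p^f elements, n ≥ 3, G = Inndiag(T) the image of PGL_n(F), and γ an involutory graph automorphism of T. The G-class of γ is the union of exactly c T-classes, where: if n is even and q is odd, c = gcd(n/2, q − 1) when C_G(γ) is isomorphic to the projective conformal symplectic group PGSp_n(F) (symplectic type) and c = gcd(n, q − 1)/2 otherwise; and c = gcd(n, q − 1) when n is odd or q is even. -/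
theorem result {F : Type*} [Field F] [Fintype F] {p f : ℕ} [Fact p.Prime] (hF : Fintype.card F = p ^ f) (hf : 1 ≤ f) {n : ℕ} (hn : 3 ≤ n) (γ : MulAut (Matrix.ProjectiveSpecialLinearGroup (Fin n) F)) (hγ : Cfsg.IsGraphAutClassPSL γ) (hγ2 : orderOf γ = 2) :
    ((Even n ∧ Odd p ∧ Nonempty (↥(Cfsg.inndiagPSL n F ⊓ Subgroup.centralizer {γ}) ≃* Cfsg.PGSp (n / 2) F)) → Cfsg.splitClassCount (Cfsg.inndiagPSL n F) (Cfsg.Inn (Matrix.ProjectiveSpecialLinearGroup (Fin n) F)) γ = Nat.gcd (n / 2) (p ^ f - 1)) ∧ ((Even n ∧ Odd p ∧ ¬ Nonempty (↥(Cfsg.inndiagPSL n F ⊓ Subgroup.centralizer {γ}) ≃* Cfsg.PGSp (n / 2) F)) → Cfsg.splitClassCount (Cfsg.inndiagPSL n F) (Cfsg.Inn (Matrix.ProjectiveSpecialLinearGroup (Fin n) F)) γ = Nat.gcd n (p ^ f - 1) / 2) ∧ (¬ (Even n ∧ Odd p) → Cfsg.splitClassCount (Cfsg.inndiagPSL n F) (Cfsg.Inn (Matrix.ProjectiveSpecialLinearGroup (Fin n) F)) γ = Nat.gcd n (p ^ f - 1)) := by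
  classical
  obtain ⟨G, hr⟩ := CfsgLib.GraphInv.exists_rep_psl hn hγ hγ2
  have hG := ((CfsgLib.GraphInv.setupPSL (K := F) hn).rep_det hr).1
  obtain ⟨e⟩ := (CfsgLib.GraphInv.setupPSL (K := F) hn).centralizer hr
  rw [show (CfsgLib.GraphInv.setupPSL (K := F) hn).H = Cfsg.inndiagPSL n F from
    CfsgLib.AutPSL.inndiagPSL_eq_range.symm] at e
  have hcard : Nat.card Fˣ = p ^ f - 1 := by rw [Nat.card_units, Nat.card_eq_fintype_card, hF]
  have hdet2 : ∀ a ∈ CfsgLib.GraphInv.Sim G, ∃ y : Fˣ, y ^ n = Matrix.GeneralLinearGroup.det a ^ 2 := by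
    rintro a ⟨c, hc⟩
    refine ⟨c, Units.ext ?_⟩
    have := CfsgLib.GraphInv.det_sq_sim hG hc
    rw [Fintype.card_fin] at this
    simp only [Units.val_pow_eq_pow_val]
    exact this.symm
  have hscal : ∀ y : Fˣ, ∃ a ∈ CfsgLib.GraphInv.Sim G, Matrix.GeneralLinearGroup.det a = y ^ n := fun y =>
    ⟨CfsgLib.GraphInv.scalarU y, CfsgLib.GraphInv.scalarU_mem_sim y G, Units.ext (by
      simp [CfsgLib.GraphInv.scalarU_val])⟩
  have hodd : Odd p → (2 : F) ≠ 0 := fun hp =>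
    (CfsgLib.Forms.Simil.two_ne_of_odd (hF ▸ hp.pow)).2
  have heven : Odd p → Even (Nat.card Fˣ) := fun hp => by
    rw [hcard]; exact Nat.Odd.sub_odd hp.pow odd_one
  have hn2 : Even n → n = 2 * (n / 2) := fun h => (Nat.two_mul_div_two_of_even h).symm
  refine ⟨?_, ?_, ?_⟩
  · rintro ⟨hev, hp, ⟨e'⟩⟩
    have h2 := hodd hp
    have hs : G.transpose = -G := hr.1.resolve_left fun hs =>
      CfsgLib.GraphInv.not_pgsp_of_sym h2 (by have := hn2 hev; omega : 2 ≤ n / 2) (hn2 hev) hG hs ⟨e.symm.trans e'⟩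
    have hJ := (CfsgLib.GraphInv.even_normal h2 (hn2 hev) hG).1 hs
    rw [CfsgLib.GraphInv.split_psl hn hr (powMonoidHom (n / 2) : Fˣ →* Fˣ).range ?_ ?_ ?_,
      CfsgLib.GraphInv.index_powers hcard]
    · rintro _ ⟨y, rfl⟩
      exact ⟨y ^ 2, by simp only [powMonoidHom_apply, ← pow_mul]; rw [← hn2 hev]⟩
    · rintro a ⟨c, hc⟩
      exact ⟨c, Units.ext (by
        rw [powMonoidHom_apply, Units.val_pow_eq_pow_val]; exact (CfsgLib.GraphInv.det_sim_of_cong_J hJ hc).symm)⟩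
    · rintro _ ⟨y, rfl⟩
      obtain ⟨a, ha, hd⟩ := CfsgLib.GraphInv.exists_sim_of_cong_J hJ y
      exact ⟨a, ⟨y, ha⟩, Units.ext (by rw [powMonoidHom_apply, Units.val_pow_eq_pow_val]; exact hd)⟩
  · rintro ⟨hev, hp, hne⟩
    have h2 := hodd hp
    have hs : G.transpose = G := hr.1.resolve_right fun hs => hne (by
      obtain ⟨e'⟩ := CfsgLib.GraphInv.pgsp_equiv_of_cong
        ((CfsgLib.GraphInv.even_normal h2 (hn2 hev) hG).1 hs)
      exact ⟨e.trans e'⟩)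
    rw [CfsgLib.GraphInv.split_psl hn hr (CfsgLib.GraphInv.sqPow Fˣ n) ?_ ?_ ?_,
      CfsgLib.GraphInv.index_sqPow hcard hev (hcard ▸ heven hp)]
    · rintro _ ⟨y, rfl⟩
      exact ⟨y ^ 2, by simp only [powMonoidHom_apply, ← pow_mul, mul_comm]⟩
    · intro a ha
      exact CfsgLib.GraphInv.mem_sqPow.2 (hdet2 a ha)
    · intro x hx
      obtain ⟨y, hy⟩ := CfsgLib.GraphInv.mem_sqPow.1 hx
      have hy' : (x : F) ^ 2 = ((y : F) ^ (n / 2)) ^ 2 := by
        rw [← pow_mul, mul_comm, ← hn2 hev, ← Units.val_pow_eq_pow_val, ← Units.val_pow_eq_pow_val, hy]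
      obtain ⟨s, hs1, hxs⟩ : ∃ s : F, (s = 1 ∨ s = -1) ∧ (x : F) = s * (y : F) ^ (n / 2) := by
        rcases sq_eq_sq_iff_eq_or_eq_neg.1 hy' with h | h
        · exact ⟨1, Or.inl rfl, by rw [h, one_mul]⟩
        · exact ⟨-1, Or.inr rfl, by rw [h]; ring⟩
      obtain ⟨a, ha, hd⟩ := CfsgLib.GraphInv.exists_sim_sym h2 (by have := hn2 hev; omega : 0 < n / 2) (hn2 hev) hG hs y hs1
      exact ⟨a, ⟨y, ha⟩, Units.ext (hd.trans hxs.symm)⟩
  · intro hnot
    rw [CfsgLib.GraphInv.split_psl hn hr (powMonoidHom n : Fˣ →* Fˣ).range le_rfl ?_ ?_,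
      CfsgLib.GraphInv.index_powers hcard]
    · intro a ha
      obtain ⟨y, hy⟩ := hdet2 a ha
      refine CfsgLib.GraphInv.mem_powers_of_odd hcard ?_ hy.symm
      by_cases hev : Even n
      · right
        have hp : ¬ Odd p := fun hp => hnot ⟨hev, hp⟩
        exact Nat.Even.sub_odd (Nat.one_le_pow _ _ (Fact.out : p.Prime).pos)
          (Nat.even_pow.2 ⟨Nat.not_odd_iff_even.1 hp, by omega⟩) odd_one
      · exact Or.inl (Nat.not_even_iff_odd.1 hev)
    · rintro _ ⟨y, rfl⟩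
      obtain ⟨a, ha, hd⟩ := hscal y
      exact ⟨a, ha, hd⟩

end Cfsg.Agent.S2702
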