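import Cfsg.Statements.S2703
import Cfsg.Agent.GraphInv.PSL
import Cfsg.Agent.Forms.SimilitudeStd

set_option autoImplicit false
open Cfsg

namespace Cfsg.Agent.S2703

/-- Let T = PSL_n(F) over the field with q elements, q odd, n = 2m ≥ 4 even, and ι the inverse-transpose automorphism. Its centralizer in G = Inndiag(T) (the image of PGL_n(F)) is isomorphic to the projective conformal orthogonal group of the plus-type form Σ xᵢ yᵢ in dimension n when n(q − 1)/4 is even, and to that of a minus-type form (Σ xᵢ yᵢ + z₁² + a z₁ z₂ + b z₂² with anisotropic binary part) when n(q − 1)/4 is odd. -/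
theorem result {F : Type*} [Field F] [Fintype F] (hodd : Odd (Fintype.card F)) {n m : ℕ} (hm : 2 ≤ m) (hnm : n = 2 * m) (ι : MulAut (Matrix.ProjectiveSpecialLinearGroup (Fin n) F)) (hι : Cfsg.IsInverseTransposeAutPSL ι) :
    (Even (n * (Fintype.card F - 1) / 4) → Nonempty (↥(Cfsg.inndiagPSL n F ⊓ Subgroup.centralizer {ι}) ≃* Cfsg.PGO F (Cfsg.quadFormPlus m F))) ∧ (¬ Even (n * (Fintype.card F - 1) / 4) → ∃ a b : F, (∀ z₁ z₂ : F, z₁ ^ 2 + a * z₁ * z₂ + b * z₂ ^ 2 = 0 → z₁ = 0 ∧ z₂ = 0) ∧ Nonempty (↥(Cfsg.inndiagPSL n F ⊓ Subgroup.centralizer {ι}) ≃* Cfsg.PGO F (Cfsg.quadFormMinus (m - 1) F a b))) := by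
  classical
  have h2 : (2 : F) ≠ 0 := (CfsgLib.Forms.Simil.two_ne_of_odd hodd).2
  have hn : 3 ≤ n := by omega
  obtain rfl := CfsgLib.AutPSL.eq_graphPSL_of_isInverseTranspose hι
  obtain ⟨e⟩ := CfsgLib.GraphInv.mem_range_centralizer (1 : GL (Fin n) F) hn
  rw [map_one, one_mul, inv_one, Units.val_one, ← CfsgLib.AutPSL.inndiagPSL_eq_range] at e
  have hd : (1 : Matrix (Fin n) (Fin n) F).det ≠ 0 := by rw [Matrix.det_one]; exact one_ne_zero
  have hiff : CfsgLib.GraphInv.IsPlusDet m (1 : Matrix (Fin n) (Fin n) F) ↔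
      Even (n * (Fintype.card F - 1) / 4) := by
    rw [CfsgLib.GraphInv.IsPlusDet, Matrix.det_one, mul_one, CfsgLib.Forms.isSquare_neg_one_pow rfl hodd,
      ← CfsgLib.Forms.even_half_iff hodd, hnm, show 2 * m * (Fintype.card F - 1) = 2 * (m * (Fintype.card F - 1)) by ring,
      show (4 : ℕ) = 2 * 2 from rfl, Nat.mul_div_mul_left _ _ (by norm_num : (0 : ℕ) < 2)]
  constructor
  · intro h
    obtain ⟨e'⟩ := CfsgLib.GraphInv.pgo_plus_of_sym h2 hnm hd Matrix.transpose_one (hiff.2 h)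
    exact ⟨e.trans e'⟩
  · intro h
    obtain ⟨a, b, hab⟩ := CfsgLib.GraphInv.exists_aniso (K := F) h2
    obtain ⟨e'⟩ := CfsgLib.GraphInv.pgo_minus_of_sym h2 (by omega) hnm hd Matrix.transpose_one (mt hiff.1 h) hab
    exact ⟨a, b, hab, ⟨e.trans e'⟩⟩

end Cfsg.Agent.S2703
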