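import Cfsg.Statements.S2704
import Cfsg.Agent.AutPSL.GraphField

set_option autoImplicit false
open Cfsg

namespace Cfsg.Agent.S2704

/-- Let T = PSL_n(F) over the field F with p^f elements, n ≥ 3, and G = Inndiag(T) the image of PGL_n(F). If x is an involutory graph-field automorphism of T then f is even; x is G-conjugate to every other involutory graph-field automorphism; C_G(x) is isomorphic to the projective general unitary group PGU_n(q₀) with q₀² = p^f, realised over F itself through the Hermitian form Σ uᵢ vᵢ^{q₀}; and the G-class of x is the union of exactly gcd(n, q₀ − 1) T-classes. -/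
theorem result {F : Type*} [Field F] [Fintype F] {p f : ℕ} [Fact p.Prime] (hF : Fintype.card F = p ^ f) (hf : 1 ≤ f) {n : ℕ} (hn : 3 ≤ n) (x : MulAut (Matrix.ProjectiveSpecialLinearGroup (Fin n) F)) (hx : Cfsg.IsGraphFieldAutClassPSL x) (hx2 : orderOf x = 2) :
    Even f ∧ (∀ y : MulAut (Matrix.ProjectiveSpecialLinearGroup (Fin n) F), Cfsg.IsGraphFieldAutClassPSL y → orderOf y = 2 → Cfsg.IsConjUnder (Cfsg.inndiagPSL n F) x y) ∧ Nonempty (↥(Cfsg.inndiagPSL n F ⊓ Subgroup.centralizer {x}) ≃* Cfsg.PGU n F (p ^ (f / 2))) ∧ Cfsg.splitClassCount (Cfsg.inndiagPSL n F) (Cfsg.Inn (Matrix.ProjectiveSpecialLinearGroup (Fin n) F)) x = Nat.gcd n (p ^ (f / 2) - 1) := by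
  classical
  haveI : NeZero n := ⟨by omega⟩
  have hp : p.Prime := Fact.out
  haveI hN : (Cfsg.inndiagPSL n F).Normal := by
    rw [CfsgLib.AutPSL.inndiagPSL_eq_range]; exact CfsgLib.AutPSL.range_conjPSL_normal (by omega)
  -- every involution of the class is Inndiag-conjugate to a standard one
  have hstd : ∀ y : MulAut (Matrix.ProjectiveSpecialLinearGroup (Fin n) F),
      Cfsg.IsGraphFieldAutClassPSL y → orderOf y = 2 → ∃ σ : RingAut F, σ ≠ 1 ∧ σ * σ = 1 ∧
        ∃ k : GL (Fin n) F, y = CfsgLib.AutPSL.conjPSL k *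
          (CfsgLib.AutPSL.fieldPSL σ * CfsgLib.AutPSL.graphPSL) * (CfsgLib.AutPSL.conjPSL k)⁻¹ := by
    rintro y ⟨-, α, φ, γ, σ, hσ, hφ, hγ, he⟩ hy2
    obtain rfl := CfsgLib.AutPSL.eq_fieldPSL_of_isStdField hφ
    obtain rfl := CfsgLib.AutPSL.eq_graphPSL_of_isInverseTranspose hγ
    obtain ⟨-, hσ2⟩ := CfsgLib.AutPSL.graphField_prime_order hn σ Nat.prime_two
      (by rw [← he, ← hy2]; exact orderOf_injective (MulAut.conj α).toMonoidHom (MulAut.conj α).injective y)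
    refine ⟨σ, hσ, hσ2, ?_⟩
    obtain ⟨h, τ, b, hα⟩ := CfsgLib.AutPSL.exists_decomposition hn α⁻¹
    refine ⟨h, ?_⟩
    set x₀ : MulAut (Matrix.ProjectiveSpecialLinearGroup (Fin n) F) :=
      CfsgLib.AutPSL.fieldPSL σ * CfsgLib.AutPSL.graphPSL with hx₀
    have hf : Commute (CfsgLib.AutPSL.fieldPSL τ) x₀ := by
      refine Commute.mul_right ?_ ?_
      · change _ * _ = _ * _
        rw [← map_mul, ← map_mul, CfsgLib.AutPSL.ringAut_comm]
      · exact (CfsgLib.AutPSL.graphPSL_mul_fieldPSL τ).symm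
    have hg : Commute (CfsgLib.AutPSL.graphIf b) x₀ := by
      cases b
      · rw [CfsgLib.AutPSL.graphIf_false]; exact Commute.one_left _
      · rw [CfsgLib.AutPSL.graphIf_true]
        exact Commute.mul_right (CfsgLib.AutPSL.graphPSL_mul_fieldPSL σ) (Commute.refl _)
    have hy : y = α⁻¹ * x₀ * α⁻¹⁻¹ := by rw [← he]; group
    rw [hy, hα]
    calc CfsgLib.AutPSL.conjPSL h * CfsgLib.AutPSL.fieldPSL τ * CfsgLib.AutPSL.graphIf b * x₀ *
          (CfsgLib.AutPSL.conjPSL h * CfsgLib.AutPSL.fieldPSL τ * CfsgLib.AutPSL.graphIf b)⁻¹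
        = CfsgLib.AutPSL.conjPSL h * ((CfsgLib.AutPSL.fieldPSL τ * CfsgLib.AutPSL.graphIf b) * x₀) *
          (CfsgLib.AutPSL.fieldPSL τ * CfsgLib.AutPSL.graphIf b)⁻¹ * (CfsgLib.AutPSL.conjPSL h)⁻¹ := by group
      _ = CfsgLib.AutPSL.conjPSL h * (x₀ * (CfsgLib.AutPSL.fieldPSL τ * CfsgLib.AutPSL.graphIf b)) *
          (CfsgLib.AutPSL.fieldPSL τ * CfsgLib.AutPSL.graphIf b)⁻¹ * (CfsgLib.AutPSL.conjPSL h)⁻¹ := by
        rw [(hf.mul_left hg).eq]
      _ = _ := by group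
  obtain ⟨σ, hσ, hσ2, k, hk⟩ := hstd x hx hx2
  obtain ⟨hdvd, -⟩ := CfsgLib.AutPSL.fixed_field_facts.{_, 0} hp hF σ
  rw [orderOf_eq_prime (by rw [sq]; exact hσ2) hσ] at hdvd
  have heven : Even f := even_iff_two_dvd.mpr hdvd
  have hq : Fintype.card F = (p ^ (f / 2)) ^ 2 := by rw [hF, ← pow_mul, Nat.div_mul_cancel hdvd]
  obtain ⟨s, hs, hs2, hsne, -⟩ := CfsgLib.Unitary.exists_conj _ hq
  have hσq : ∀ z, σ z = z ^ (p ^ (f / 2)) := by
    let τ : RingAut F := RingEquiv.ofBijective s s.injective.bijective_of_finite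
    have hτ : τ ≠ 1 := fun h => hsne (RingHom.ext fun z => RingEquiv.congr_fun h z)
    rw [CfsgLib.AutPSL.involution_unique hσ hσ2 hτ (RingEquiv.ext hs2)]
    exact hs
  refine ⟨heven, ?_, ?_, ?_⟩
  · intro y hy hy2
    obtain ⟨σ', hσ', hσ'2, k', hk'⟩ := hstd y hy hy2
    obtain rfl := CfsgLib.AutPSL.involution_unique hσ hσ2 hσ' hσ'2
    refine ⟨CfsgLib.AutPSL.conjPSL (k' * k⁻¹), ?_, ?_⟩
    · rw [CfsgLib.AutPSL.inndiagPSL_eq_range]; exact ⟨_, rfl⟩
    · rw [hk', hk, map_mul, map_inv]; group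
  · obtain ⟨e⟩ := CfsgLib.AutPSL.graphField_centralizer_equiv (F := F) (n := n) (by omega) hσ hσ2 _ hσq
    have hmap : (Cfsg.inndiagPSL n F ⊓ Subgroup.centralizer {x}).map
        (MulAut.conj (CfsgLib.AutPSL.conjPSL k)⁻¹).toMonoidHom =
        (CfsgLib.AutPSL.conjPSL (F := F) (n := n)).range ⊓
          Subgroup.centralizer {CfsgLib.AutPSL.fieldPSL σ * CfsgLib.AutPSL.graphPSL} := by
      set a := CfsgLib.AutPSL.conjPSL k with ha
      set x₀ : MulAut (Matrix.ProjectiveSpecialLinearGroup (Fin n) F) :=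
        CfsgLib.AutPSL.fieldPSL σ * CfsgLib.AutPSL.graphPSL
      rw [← CfsgLib.AutPSL.inndiagPSL_eq_range]
      ext z
      constructor
      · rintro ⟨w, ⟨hw1, hw2⟩, rfl⟩
        refine ⟨hN.conj_mem w hw1 a⁻¹, Subgroup.mem_centralizer_singleton_iff.mpr ?_⟩
        have hw : w * x = x * w := Subgroup.mem_centralizer_singleton_iff.mp hw2
        have e0 : x₀ = MulAut.conj a⁻¹ x := by rw [hk, MulAut.conj_apply]; group
        change MulAut.conj a⁻¹ w * x₀ = x₀ * MulAut.conj a⁻¹ w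
        rw [e0, ← map_mul, ← map_mul, hw]
      · rintro ⟨hz1, hz2⟩
        refine ⟨a * z * a⁻¹, ⟨hN.conj_mem z hz1 a, Subgroup.mem_centralizer_singleton_iff.mpr ?_⟩, ?_⟩
        · have hz : z * x₀ = x₀ * z := Subgroup.mem_centralizer_singleton_iff.mp hz2
          rw [hk]
          calc a * z * a⁻¹ * (a * x₀ * a⁻¹) = a * (z * x₀) * a⁻¹ := by group
            _ = _ := by rw [hz]; group
        · change a⁻¹ * (a * z * a⁻¹) * a⁻¹⁻¹ = z
          group
    exact ⟨((Subgroup.equivMapOfInjective _ (MulAut.conj (CfsgLib.AutPSL.conjPSL k)⁻¹).toMonoidHom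
      (MulAut.conj _).injective).trans (MulEquiv.subgroupCongr hmap)).trans e⟩
  · rw [hk, CfsgLib.AutPSL.splitClassCount_conj, CfsgLib.AutPSL.inndiagPSL_eq_range]
    exact CfsgLib.AutPSL.graphField_splitClassCount hn hσ hσ2 _ hσq hq

end Cfsg.Agent.S2704
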