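import Cfsg.Statements.S2705
import Cfsg.Agent.AutPSU.Field

set_option autoImplicit false
open Cfsg

namespace Cfsg.Agent.S2705

/-- Let T = PSU_n(q) be simple (n ≥ 3, (n, q) ≠ (3, 2), q = p^f), realised over the field F with q² elements, G = Inndiag(T) the image of PGU_n(q) in Aut(T), and x a field automorphism of T (conjugate to a standard field automorphism of odd order) of odd prime order r. Then r divides f; C_G(x) is isomorphic to PGU_n(q₀) with q₀ = p^(f/r), realised over a field F₀ with q₀² elements; and the G-class of x is the union of exactly gcd(n, (q + 1)/(q₀ + 1)) T-classes. -/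
theorem result {F : Type*} [Field F] [Fintype F] {p f q : ℕ} [Fact p.Prime] (hq : q = p ^ f) (hf : 1 ≤ f) (hF : Fintype.card F = q ^ 2) {n : ℕ} (hn : 3 ≤ n) (hs : ¬ (n = 3 ∧ q = 2)) (x : MulAut (Cfsg.PSU n F q)) (hx : Cfsg.IsFieldAutClassPSU x) {r : ℕ} (hr : r.Prime) (hro : Odd r) (hxr : orderOf x = r) (F₀ : Type*) [Field F₀] [Fintype F₀] (hF₀ : Fintype.card F₀ = p ^ (2 * (f / r))) :
    r ∣ f ∧ Nonempty (↥(Cfsg.inndiagPSU n F q ⊓ Subgroup.centralizer {x}) ≃* Cfsg.PGU n F₀ (p ^ (f / r))) ∧ Cfsg.splitClassCount (Cfsg.inndiagPSU n F q) (Cfsg.Inn (Cfsg.PSU n F q)) x = Nat.gcd n ((q + 1) / (p ^ (f / r) + 1)) := by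
  classical
  obtain ⟨C⟩ := CfsgLib.UGeom.nonempty_conj hF
  obtain ⟨α, φ, σ, -, hodd, hφ, he⟩ := hx
  have hφ' : α * x * α⁻¹ = CfsgLib.AutPSU.fieldPSU σ := he.trans (CfsgLib.AutPSU.eq_fieldPSU_of_isField hφ)
  have hσr : orderOf σ = r := (CfsgLib.AutPSU.orderOf_of_isFieldAutClass C hn hφ').trans hxr
  subst hσr
  obtain ⟨hrf, C₀, ι, S⟩ := CfsgLib.AutPSU.exists_sub C hq σ hodd hF₀
  haveI := CfsgLib.AutPSU.range_conjPSU_normal (n := n) C hn hs
  haveI hN : (Cfsg.inndiagPSU n F q).Normal := by rw [CfsgLib.AutPSU.inndiagPSU_eq_range]; infer_instance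
  refine ⟨hrf, ?_, ?_⟩
  · obtain ⟨e⟩ := CfsgLib.AutPSU.centralizer_equiv (n := n) S hn
    have hmap : (Cfsg.inndiagPSU n F q ⊓ Subgroup.centralizer {x}).map (MulAut.conj α).toMonoidHom =
        (CfsgLib.AutPSU.conjPSU (F := F) (n := n) (q := q)).range ⊓
          Subgroup.centralizer {CfsgLib.AutPSU.fieldPSU σ} := by
      rw [← hφ', ← CfsgLib.AutPSU.inndiagPSU_eq_range]
      ext y
      constructor
      · rintro ⟨z, ⟨hz1, hz2⟩, rfl⟩
        refine ⟨hN.conj_mem z hz1 α, Subgroup.mem_centralizer_singleton_iff.mpr ?_⟩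
        have hz : z * x = x * z := Subgroup.mem_centralizer_singleton_iff.mp hz2
        change MulAut.conj α z * MulAut.conj α x = MulAut.conj α x * MulAut.conj α z
        rw [← map_mul, ← map_mul, hz]
      · rintro ⟨hy1, hy2⟩
        refine ⟨α⁻¹ * y * α, ⟨by simpa using hN.conj_mem y hy1 α⁻¹, Subgroup.mem_centralizer_singleton_iff.mpr ?_⟩, ?_⟩
        · have hy : y * (α * x * α⁻¹) = (α * x * α⁻¹) * y := Subgroup.mem_centralizer_singleton_iff.mp hy2
          calc α⁻¹ * y * α * x = α⁻¹ * (y * (α * x * α⁻¹)) * α := by group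
            _ = _ := by rw [hy]; group
        · change α * (α⁻¹ * y * α) * α⁻¹ = y
          group
    exact ⟨((Subgroup.equivMapOfInjective _ (MulAut.conj α).toMonoidHom (MulAut.conj α).injective).trans
      (MulEquiv.subgroupCongr hmap)).trans e⟩
  haveI : (Cfsg.Inn (Cfsg.PSU n F q)).Normal := inferInstance
  rw [← CfsgLib.AutPSL.splitClassCount_conj (Cfsg.inndiagPSU n F q)
    (Cfsg.Inn (Cfsg.PSU n F q)) x α, hφ', CfsgLib.AutPSU.inndiagPSU_eq_range]
  exact CfsgLib.AutPSU.splitClassCount_field S hn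

end Cfsg.Agent.S2705
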