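import Cfsg.Statements.S2708
import Cfsg.Agent.GraphInv.PSUSplit
import Cfsg.Agent.Forms.SimilitudeStd

set_option autoImplicit false
open Cfsg

namespace Cfsg.Agent.S2708

/-- Let T = PSU_n(q) with n = 2m ≥ 4 even and q even, realised over the field F (of characteristic 2) with q² elements, and G = Inndiag(T) the image of PGU_n(q). The involutory graph automorphisms of T fall into exactly two G-classes, with representatives whose centralizers in G are isomorphic respectively to the symplectic group Sp_n(F₀) and to the centralizer in Sp_n(F₀) of a symplectic transvection, F₀ a field with q elements. -/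
theorem result {F : Type*} [Field F] [Fintype F] [CharP F 2] {q : ℕ} (hF : Fintype.card F = q ^ 2) {n m : ℕ} (hm : 2 ≤ m) (hnm : n = 2 * m) (F₀ : Type*) [Field F₀] [Fintype F₀] (hF₀ : Fintype.card F₀ = q) :
    ∃ (γ₁ γ₃ : MulAut (Cfsg.PSU n F q)) (t : ↥(Matrix.symplecticGroup (Fin m) F₀)), Cfsg.IsTransvection (t : Matrix (Fin m ⊕ Fin m) (Fin m ⊕ Fin m) F₀) ∧ Cfsg.IsGraphAutClassPSU γ₁ ∧ orderOf γ₁ = 2 ∧ Cfsg.IsGraphAutClassPSU γ₃ ∧ orderOf γ₃ = 2 ∧ ¬ Cfsg.IsConjUnder (Cfsg.inndiagPSU n F q) γ₁ γ₃ ∧ (∀ γ : MulAut (Cfsg.PSU n F q), Cfsg.IsGraphAutClassPSU γ → orderOf γ = 2 → Cfsg.IsConjUnder (Cfsg.inndiagPSU n F q) γ₁ γ ∨ Cfsg.IsConjUnder (Cfsg.inndiagPSU n F q) γ₃ γ) ∧ Nonempty (↥(Cfsg.inndiagPSU n F q ⊓ Subgroup.centralizer {γ₁}) ≃* ↥(Matrix.symplecticGroup (Fin m) F₀)) ∧ Nonempty (↥(Cfsg.inndiagPSU n F q ⊓ Subgroup.centralizer {γ₃}) ≃* ↥(Subgroup.centralizer ({t}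 : Set ↥(Matrix.symplecticGroup (Fin m) F₀)))) := by
  classical
  obtain ⟨C⟩ := CfsgLib.UGeom.nonempty_conj hF
  obtain ⟨D⟩ := CfsgLib.GraphInv.nonempty_fixed C hF₀
  have h2 : (2 : F₀) = 0 := D.ι.injective (by rw [map_zero, map_ofNat]; exact CharTwo.two_eq_zero)
  obtain ⟨γ₁, γ₃, t, ht, ⟨g₁, o₁⟩, ⟨g₃, o₃⟩, h13, hall, c₁, c₃⟩ :=
    (CfsgLib.GraphInv.setupPSU (n := n) D (by omega : 3 ≤ n)).even_two h2 hm hnm
  rw [CfsgLib.AutPSU.inndiagPSU_eq_range]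
  exact ⟨γ₁, γ₃, t, ht, g₁, o₁, g₃, o₃, h13, fun γ hγ hγ2 => hall γ ⟨hγ, hγ2⟩, c₁, c₃⟩

end Cfsg.Agent.S2708
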