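import Cfsg.Statements.S2709
import Cfsg.Agent.GraphInv.PSUSplit
import Cfsg.Agent.Forms.SimilitudeStd

set_option autoImplicit false
open Cfsg

namespace Cfsg.Agent.S2709

/-- Let T = PSU_n(q) be simple (n ≥ 3, (n,q) ≠ (3,2), q = p^f), realised over the field F with q² elements, G = Inndiag(T) the image of PGU_n(q), and γ an involutory graph automorphism of T. The G-class of γ is the union of exactly c T-classes, where: if n is even and q is odd, c = gcd(n/2, q + 1) when C_G(γ) is isomorphic to PGSp_n(F₀) for a field F₀ with q elements (symplectic type) and c = gcd(n, q + 1)/2 otherwise; and c = gcd(n, q + 1) when n is odd or q is even. -/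
theorem result {F : Type*} [Field F] [Fintype F] {p f q : ℕ} [Fact p.Prime] (hq : q = p ^ f) (hf : 1 ≤ f) (hF : Fintype.card F = q ^ 2) {n : ℕ} (hn : 3 ≤ n) (hs : ¬ (n = 3 ∧ q = 2)) (F₀ : Type*) [Field F₀] [Fintype F₀] (hF₀ : Fintype.card F₀ = q) (γ : MulAut (Cfsg.PSU n F q)) (hγ : Cfsg.IsGraphAutClassPSU γ) (hγ2 : orderOf γ = 2) :
    ((Even n ∧ Odd q ∧ Nonempty (↥(Cfsg.inndiagPSU n F q ⊓ Subgroup.centralizer {γ}) ≃* Cfsg.PGSp (n / 2) F₀)) → Cfsg.splitClassCount (Cfsg.inndiagPSU n F q) (Cfsg.Inn (Cfsg.PSU n F q)) γ = Nat.gcd (n / 2) (q + 1)) ∧ ((Even n ∧ Odd q ∧ ¬ Nonempty (↥(Cfsg.inndiagPSU n F q ⊓ Subgroup.centralizer {γ}) ≃* Cfsg.PGSp (n / 2) F₀)) → Cfsg.splitClassCount (Cfsg.inndiagPSU n F q) (Cfsg.Inn (Cfsg.PSU n F q)) γ = Nat.gcd n (q + 1) / 2) ∧ (¬ (Even n ∧ Odd q) → Cfsg.splitClassCount (Cfsg.inndiagPSU n F q) (Cfsg.Inn (Cfsg.PSU n F q)) γ = Nat.gcd n (q + 1)) := by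
  classical
  obtain ⟨C⟩ := CfsgLib.UGeom.nonempty_conj hF
  obtain ⟨D⟩ := CfsgLib.GraphInv.nonempty_fixed C hF₀
  obtain ⟨G, hr⟩ := CfsgLib.GraphInv.exists_rep_psu D hn hγ hγ2
  obtain ⟨e⟩ := CfsgLib.GraphInv.centralizer_psu D hn hr
  rw [← CfsgLib.AutPSU.inndiagPSU_eq_range] at e
  have h2 : Odd q → (2 : F₀) ≠ 0 := fun h => (CfsgLib.Forms.Simil.two_ne_of_odd (hF₀.symm ▸ h)).2
  have hn2 : Even n → n = 2 * (n / 2) := fun h => (Nat.two_mul_div_two_of_even h).symm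
  refine ⟨?_, ?_, ?_⟩
  · rintro ⟨hev, hqo, ⟨e'⟩⟩
    have hs : G.transpose = -G := hr.2.1.resolve_left fun hs =>
      CfsgLib.GraphInv.not_pgsp_of_sym (h2 hqo) (by have := hn2 hev; omega : 2 ≤ n / 2) (hn2 hev) hr.1 hs
        ⟨e.symm.trans e'⟩
    exact CfsgLib.GraphInv.split_psu_sp D hn (h2 hqo) (hn2 hev) hr hs
  · rintro ⟨hev, hqo, hne⟩
    have hs : G.transpose = G := hr.2.1.resolve_right fun hs => hne (by
      obtain ⟨e'⟩ := CfsgLib.GraphInv.pgsp_equiv_of_cong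
        ((CfsgLib.GraphInv.even_normal (h2 hqo) (hn2 hev) hr.1).1 hs)
      exact ⟨e.trans e'⟩)
    exact CfsgLib.GraphInv.split_psu_orth D hn (h2 hqo) (hqo.add_odd odd_one) (hn2 hev) hr hs
  · intro hnot
    refine CfsgLib.GraphInv.split_psu_powers D hn ?_ hr
    by_cases hev : Even n
    · exact Or.inr ((Nat.not_odd_iff_even.1 fun h => hnot ⟨hev, h⟩).add_one)
    · exact Or.inl (Nat.not_even_iff_odd.1 hev)

end Cfsg.Agent.S2709
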