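import Cfsg.Statements.S2710
import Cfsg.Agent.GraphInv.PSUSplit
import Cfsg.Agent.Forms.SimilitudeStd

set_option autoImplicit false
open Cfsg

namespace Cfsg.Agent.S2710

/-- Let T = PSU_n(q) with n ≥ 4 divisible by 4 (n = 2m) and q odd, realised over the field F with q² elements, G = Inndiag(T) the image of PGU_n(q), and φ the standard field automorphism of T attached to the q-th power map of F (it induces inverse-transpose on the unitary matrices and is a graph automorphism). Its centralizer in G is isomorphic to the projective conformal orthogonal group of the plus-type form Σ xᵢ yᵢ in dimension n over a field F₀ with q elements. (Dimensions n ≡ 2 (mod 4) are not covered.) -/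
theorem result {F : Type*} [Field F] [Fintype F] {q : ℕ} (hodd : Odd q) (hF : Fintype.card F = q ^ 2) {n m : ℕ} (hm : 2 ≤ m) (hnm : n = 2 * m) (h4 : 4 ∣ n) (F₀ : Type*) [Field F₀] [Fintype F₀] (hF₀ : Fintype.card F₀ = q) (σ : F ≃+* F) (hσ : ∀ a : F, σ a = a ^ q) (φ : MulAut (Cfsg.PSU n F q)) (hφ : Cfsg.IsFieldAutPSUOf σ φ) :
    Nonempty (↥(Cfsg.inndiagPSU n F q ⊓ Subgroup.centralizer {φ}) ≃* Cfsg.PGO F₀ (Cfsg.quadFormPlus m F₀)) := by
  classical
  obtain ⟨C⟩ := CfsgLib.UGeom.nonempty_conj hF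
  obtain ⟨D⟩ := CfsgLib.GraphInv.nonempty_fixed C hF₀
  have h2 : (2 : F₀) ≠ 0 := (CfsgLib.Forms.Simil.two_ne_of_odd (hF₀.symm ▸ hodd)).2
  have hn : 3 ≤ n := by omega
  obtain rfl := CfsgLib.AutPSU.eq_fieldPSU_of_isField hφ
  obtain rfl : σ = D.σ := RingEquiv.ext fun x => by rw [D.eq, C.pow, hσ]
  have hr : CfsgLib.GraphInv.RepPSU D (CfsgLib.AutPSU.fieldPSU (n := n) (q := q) D.σ)
      (1 : Matrix (Fin n) (Fin n) F₀) := by
    refine ⟨by rw [Matrix.det_one]; exact one_ne_zero, Or.inl Matrix.transpose_one, 1, 1, 1, 1, one_ne_zero,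
      one_ne_zero, ?_, ?_, ?_⟩
    · rw [Units.val_one, CfsgLib.Unitary.adj_one, Matrix.one_mul, map_one, one_smul]
    · rw [one_smul, CfsgLib.GraphInv.cob, inv_one, Units.val_one, map_one, Matrix.one_mul]; rfl
    · rw [map_one, one_mul]
  obtain ⟨e⟩ := CfsgLib.GraphInv.centralizer_psu D hn hr
  rw [← CfsgLib.AutPSU.inndiagPSU_eq_range] at e
  obtain ⟨e'⟩ := CfsgLib.GraphInv.pgo_plus_of_sym h2 hnm (G := (1 : Matrix (Fin n) (Fin n) F₀))
    (by rw [Matrix.det_one]; exact one_ne_zero) Matrix.transpose_one (by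
      obtain ⟨k, hk⟩ : Even m := even_iff_two_dvd.2 (by omega)
      exact ⟨(-1) ^ k, by rw [Matrix.det_one, mul_one, hk, pow_add]⟩)
  exact ⟨e.trans e'⟩

end Cfsg.Agent.S2710
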