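import Cfsg.Statements.S2711
import Cfsg.Agent.AutPSU.Field
import Cfsg.Agent.AutPSL.CosetGeneral

set_option autoImplicit false
open Cfsg

namespace Cfsg.Agent.S2711

/-- Let T = PSU_n(q) be simple (n ≥ 3, (n,q) ≠ (3,2)), realised over the field F with q² elements, and let x be a field automorphism of T (conjugate to a standard field automorphism of odd order) of prime order r. Then an element y of the coset Inndiag(T)·x (y = δ x with δ in the image of PGU_n(q)) has order r if and only if y is conjugate to x by an element of Inndiag(T). (T has no graph-field automorphisms.) -/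
theorem result {F : Type*} [Field F] [Fintype F] {p f q : ℕ} [Fact p.Prime] (hq : q = p ^ f) (hf : 1 ≤ f) (hF : Fintype.card F = q ^ 2) {n : ℕ} (hn : 3 ≤ n) (hs : ¬ (n = 3 ∧ q = 2)) (x δ : MulAut (Cfsg.PSU n F q)) (hx : Cfsg.IsFieldAutClassPSU x) {r : ℕ} (hr : r.Prime) (hxr : orderOf x = r) (hδ : δ ∈ Cfsg.inndiagPSU n F q) :
    orderOf (δ * x) = r ↔ Cfsg.IsConjUnder (Cfsg.inndiagPSU n F q) x (δ * x) := by
  classical
  obtain ⟨C⟩ := CfsgLib.UGeom.nonempty_conj hF
  haveI := CfsgLib.AutPSU.range_conjPSU_normal (n := n) C hn hs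
  haveI hN : (Cfsg.inndiagPSU n F q).Normal := by rw [CfsgLib.AutPSU.inndiagPSU_eq_range]; infer_instance
  constructor
  swap
  · rintro ⟨h, -, e⟩
    rw [e, ← hxr]
    exact orderOf_injective (MulAut.conj h).toMonoidHom (MulAut.conj h).injective x
  intro hy
  obtain ⟨α, φ, σ, -, hodd, hφ, he⟩ := hx
  have hφ' : α * x * α⁻¹ = CfsgLib.AutPSU.fieldPSU σ := he.trans (CfsgLib.AutPSU.eq_fieldPSU_of_isField hφ)
  have hσr : orderOf σ = r := (CfsgLib.AutPSU.orderOf_of_isFieldAutClass C hn hφ').trans hxr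
  obtain ⟨g, hg⟩ : α * δ * α⁻¹ ∈ (CfsgLib.AutPSU.conjPSU (F := F) (n := n) (q := q)).range := by
    rw [← CfsgLib.AutPSU.inndiagPSU_eq_range]
    exact hN.conj_mem δ hδ α
  have hy' : α * (δ * x) * α⁻¹ = CfsgLib.AutPSU.conjPSU g * CfsgLib.AutPSU.fieldPSU σ := by
    rw [hg, ← hφ']; group
  have hrf : r ∣ f := by
    have hF' : Fintype.card F = p ^ (2 * f) := by rw [hF, hq, ← pow_mul, mul_comm]
    have h := (CfsgLib.AutPSL.fixed_field_facts.{_, 0} (Fact.out : p.Prime) hF' σ).1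
    rw [hσr] at h
    exact (Nat.coprime_two_right.2 (hσr ▸ hodd)).dvd_of_dvd_mul_left h
  haveI : Fintype (GaloisField p (2 * (f / r))) := Fintype.ofFinite _
  have hF₀ : Fintype.card (GaloisField p (2 * (f / r))) = p ^ (2 * (f / orderOf σ)) := by
    rw [hσr, ← Nat.card_eq_fintype_card, GaloisField.card]
    have := Nat.div_pos (Nat.le_of_dvd hf hrf) hr.pos
    omega
  obtain ⟨-, C₀, ι, S⟩ := CfsgLib.AutPSU.exists_sub C hq σ hodd hF₀
  obtain ⟨k, hk⟩ := CfsgLib.AutPSU.exists_conj_field S hn g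
    (by
      rw [← hy', hσr, ← hy, ← orderOf_injective (MulAut.conj α).toMonoidHom (MulAut.conj α).injective (δ * x)]
      exact pow_orderOf_eq_one _)
  rw [← CfsgLib.AutPSL.isConjUnder_conj_iff _ α, hy', hφ']
  exact ⟨_, by rw [CfsgLib.AutPSU.inndiagPSU_eq_range]; exact ⟨k, rfl⟩, hk⟩

end Cfsg.Agent.S2711
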