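import Cfsg.Statements.S2712
import Cfsg.Agent.AutPSp.Field
import Cfsg.Agent.AutPSL.CosetGeneral
-- import your own Cfsg.Agent.* helpers here

set_option autoImplicit false
open Cfsg

namespace Cfsg.Agent.S2712

/-- Let T = PSp_{2m}(F) be simple over the field F with p^f elements (m ≥ 2, (2m, |F|) ≠ (4, 2)), G = Inndiag(T) the image of the projective conformal symplectic group PGSp_{2m}(F), and x a field automorphism of T of prime order r. Then r divides f; C_G(x) is isomorphic to PGSp_{2m}(F₀) for a field F₀ with p^(f/r) elements; and the G-class of x is the union of exactly gcd(gcd(2, p^f − 1), r) T-classes. -/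
theorem result {F : Type*} [Field F] [Fintype F] {p f : ℕ} [Fact p.Prime] (hF : Fintype.card F = p ^ f) (hf : 1 ≤ f) {m : ℕ} (hm : 2 ≤ m) (hs : m = 2 → 3 ≤ Fintype.card F) (x : MulAut (Cfsg.PSp m F)) (hx : Cfsg.IsFieldAutClassPSp x) {r : ℕ} (hr : r.Prime) (hxr : orderOf x = r) (F₀ : Type*) [Field F₀] [Fintype F₀] (hF₀ : Fintype.card F₀ = p ^ (f / r)) :
    r ∣ f ∧ Nonempty (↥(Cfsg.inndiagPSp m F ⊓ Subgroup.centralizer {x}) ≃* Cfsg.PGSp m F₀) ∧ Cfsg.splitClassCount (Cfsg.inndiagPSp m F) (Cfsg.Inn (Cfsg.PSp m F)) x = Nat.gcd (Nat.gcd 2 (p ^ f - 1)) r := by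
  classical
  obtain ⟨α, σ, -, hφ⟩ := hx
  have hφ' : α * x * α⁻¹ = CfsgLib.AutPSp.fieldPSp σ := CfsgLib.AutPSp.eq_fieldPSp_of_isStdField hφ
  have hσr : orderOf σ = r := (CfsgLib.AutPSp.orderOf_of_isFieldAutClass hm hφ').trans hxr
  obtain ⟨hrf, hfield⟩ := CfsgLib.AutPSL.fixed_field_facts (Fact.out : p.Prime) hF σ
  rw [hσr] at hrf hfield
  obtain ⟨ι, hι⟩ := hfield F₀ hF₀
  haveI hR := CfsgLib.AutPSp.range_conjPSp_normal (F := F) (m := m) hm
  haveI hN : (Cfsg.inndiagPSp m F).Normal := by rw [CfsgLib.AutPSp.inndiagPSp_eq_range]; exact hR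
  refine ⟨hrf, ?_, ?_⟩
  · obtain ⟨e⟩ := CfsgLib.AutPSp.centralizer_equiv (m := m) hm hι
    have hmap : (Cfsg.inndiagPSp m F ⊓ Subgroup.centralizer {x}).map (MulAut.conj α).toMonoidHom =
        (CfsgLib.AutPSp.conjPSp (F := F) (m := m)).range ⊓
          Subgroup.centralizer {CfsgLib.AutPSp.fieldPSp σ} := by
      rw [← hφ', ← CfsgLib.AutPSp.inndiagPSp_eq_range]
      ext y
      constructor
      · rintro ⟨z, ⟨hz1, hz2⟩, rfl⟩
        refine ⟨hN.conj_mem z hz1 α, Subgroup.mem_centralizer_singleton_iff.mpr ?_⟩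
        have hz : z * x = x * z := Subgroup.mem_centralizer_singleton_iff.mp hz2
        change MulAut.conj α z * MulAut.conj α x = MulAut.conj α x * MulAut.conj α z
        rw [← map_mul, ← map_mul, hz]
      · rintro ⟨hy1, hy2⟩
        refine ⟨α⁻¹ * y * α, ⟨by simpa using hN.conj_mem y hy1 α⁻¹, Subgroup.mem_centralizer_singleton_iff.mpr ?_⟩, ?_⟩
        · have hy : y * (α * x * α⁻¹) = (α * x * α⁻¹) * y := Subgroup.mem_centralizer_singleton_iff.mp hy2
          calc α⁻¹ * y * α * x = α⁻¹ * (y * (α * x * α⁻¹)) * α := by group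
            _ = _ := by rw [hy]; group
        · change α * (α⁻¹ * y * α) * α⁻¹ = y
          group
    exact ⟨((Subgroup.equivMapOfInjective _ (MulAut.conj α).toMonoidHom (MulAut.conj α).injective).trans
      (MulEquiv.subgroupCongr hmap)).trans e⟩
  haveI : (Cfsg.Inn (Cfsg.PSp m F)).Normal := inferInstance
  rw [← CfsgLib.AutPSL.splitClassCount_conj (Cfsg.inndiagPSp m F)
    (Cfsg.Inn (Cfsg.PSp m F)) x α, hφ', CfsgLib.AutPSp.inndiagPSp_eq_range,
    CfsgLib.AutPSp.splitClassCount_field hm hι (by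
      rw [hF, hF₀]; exact Nat.pow_sub_one_dvd_pow_sub_one p (Nat.div_dvd_of_dvd hrf)), hF, hF₀]
  have he : 1 ≤ f / r := Nat.div_pos (Nat.le_of_dvd hf hrf) hr.pos
  conv_lhs => rw [← Nat.div_mul_cancel hrf]
  rw [Nat.mul_div_cancel _ hr.pos]
  rw [CfsgLib.AutPSp.gcd_two_geom (Fact.out : p.Prime) he hr.pos, Nat.div_mul_cancel hrf]

end Cfsg.Agent.S2712
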