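import Cfsg.Statements.S2713
import Cfsg.Agent.AutPSp.Field
import Cfsg.Agent.AutPSL.CosetGeneral
-- import your own Cfsg.Agent.* helpers here

set_option autoImplicit false
open Cfsg

namespace Cfsg.Agent.S2713

/-- Let T = PSp_{2m}(F) be simple over a finite field (m ≥ 2, (2m, |F|) ≠ (4, 2)) and let x be a field automorphism of T of prime order r. Then an element y of the coset Inndiag(T)·x (y = δ x with δ in the image of the projective conformal symplectic group) has order r if and only if y is conjugate to x by an element of Inndiag(T). -/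
theorem result {F : Type*} [Field F] [Fintype F] {m : ℕ} (hm : 2 ≤ m) (hs : m = 2 → 3 ≤ Fintype.card F) (x δ : MulAut (Cfsg.PSp m F)) (hx : Cfsg.IsFieldAutClassPSp x) {r : ℕ} (hr : r.Prime) (hxr : orderOf x = r) (hδ : δ ∈ Cfsg.inndiagPSp m F) :
    orderOf (δ * x) = r ↔ Cfsg.IsConjUnder (Cfsg.inndiagPSp m F) x (δ * x) := by
  classical
  haveI hR := CfsgLib.AutPSp.range_conjPSp_normal (F := F) (m := m) hm
  haveI hN : (Cfsg.inndiagPSp m F).Normal := by rw [CfsgLib.AutPSp.inndiagPSp_eq_range]; exact hR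
  constructor
  swap
  · rintro ⟨h, -, e⟩
    rw [e, ← hxr]
    exact orderOf_injective (MulAut.conj h).toMonoidHom (MulAut.conj h).injective x
  intro hy
  obtain ⟨α, σ, -, hφ⟩ := hx
  have hφ' : α * x * α⁻¹ = CfsgLib.AutPSp.fieldPSp σ := CfsgLib.AutPSp.eq_fieldPSp_of_isStdField hφ
  have hσr : orderOf σ = r := (CfsgLib.AutPSp.orderOf_of_isFieldAutClass hm hφ').trans hxr
  obtain ⟨g, hg⟩ : α * δ * α⁻¹ ∈ (CfsgLib.AutPSp.conjPSp (F := F) (m := m)).range := by
    rw [← CfsgLib.AutPSp.inndiagPSp_eq_range]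
    exact hN.conj_mem δ hδ α
  have hy' : α * (δ * x) * α⁻¹ = CfsgLib.AutPSp.conjPSp g * CfsgLib.AutPSp.fieldPSp σ := by
    rw [hg, ← hφ']; group
  obtain ⟨p, hp⟩ := CharP.exists F
  haveI : Fact p.Prime := ⟨CharP.char_is_prime F p⟩
  obtain ⟨f, -, hF⟩ := FiniteField.card F p
  obtain ⟨hrf, hfield⟩ := CfsgLib.AutPSL.fixed_field_facts.{_, 0} (Fact.out : p.Prime) hF σ
  rw [hσr] at hrf hfield
  haveI : Fintype (GaloisField p ((f : ℕ) / r)) := Fintype.ofFinite _
  obtain ⟨ι, hι⟩ := hfield (GaloisField p ((f : ℕ) / r)) (by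
    rw [← Nat.card_eq_fintype_card, GaloisField.card]
    have := Nat.div_pos (Nat.le_of_dvd f.pos hrf) hr.pos
    omega)
  obtain ⟨k, hk⟩ := CfsgLib.AutPSp.exists_conj_field hm hι g
    (by
      rw [← hy', hσr, ← hy, ← orderOf_injective (MulAut.conj α).toMonoidHom (MulAut.conj α).injective (δ * x)]
      exact pow_orderOf_eq_one _)
  rw [← CfsgLib.AutPSL.isConjUnder_conj_iff _ α, hy', hφ']
  exact ⟨_, by rw [CfsgLib.AutPSp.inndiagPSp_eq_range]; exact ⟨k, rfl⟩, hk⟩

end Cfsg.Agent.S2713
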