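import Cfsg.Statements.S2721
import Cfsg.Agent.OrthFusion.Fusion
import Cfsg.Agent.AutPE.Inndiag
import Cfsg.Agent.Forms.SimilitudeStd

set_option autoImplicit false
open Cfsg

namespace Cfsg.Agent.S2721

/-- Let T = PΩ⁻_{2m+2}(F) (m ≥ 3, F finite of odd characteristic p), G = Inndiag(T), and let x be an automorphism of T induced by a similarity of the form (an element of the image G̃ of the conformal orthogonal group) of odd prime order r ≠ p. Then the T-class, the PSO-class and the G-class of x coincide (conjugacy under inner automorphisms, under the image of the special orthogonal group, and under G), and the PO-class of x coincides with its G̃-class. (In characteristic 2 the first equality fails: there the special orthogonal group is the full orthogonal group and some such classes split.) -/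
theorem result {F : Type*} [Field F] [Fintype F] {p : ℕ} [Fact p.Prime] [CharP F p] (hp : p ≠ 2) {m : ℕ} (hm : 3 ≤ m) (a b : F) (hab : (∀ z₁ z₂ : F, z₁ ^ 2 + a * z₁ * z₂ + b * z₂ ^ 2 = 0 → z₁ = 0 ∧ z₂ = 0)) (x : MulAut (Cfsg.POmega F (Cfsg.quadFormMinus m F a b))) (hx : x ∈ Cfsg.pgoAut F (Cfsg.quadFormMinus m F a b)) {r : ℕ} (hr : r.Prime) (hro : Odd r) (hrp : r ≠ p) (hxr : orderOf x = r) :
    (∀ y : MulAut (Cfsg.POmega F (Cfsg.quadFormMinus m F a b)), (Cfsg.IsConjUnder (Cfsg.Inn (Cfsg.POmega F (Cfsg.quadFormMinus m F a b))) x y ↔ Cfsg.IsConjUnder (Cfsg.inndiagPOmegaMinus m F a b) x y) ∧ (Cfsg.IsConjUnder (Cfsg.psoAut F (Cfsg.quadFormMinus m F a b)) x y ↔ Cfsg.IsConjUnder (Cfsg.inndiagPOmegaMinus m F a b) x y)) ∧ (∀ y : MulAut (Cfsg.POmega F (Cfsg.quadFormMinus m F a b)), Cfsg.IsConjUnder (Cfsg.poAut F (Cfsg.quadFormMinus m F a b)) x y ↔ Cfsg.IsConjUnder (Cfsg.pgoAut F (Cfsg.quadFormMinus m F a b)) x y) := by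
  have hodd : Odd (Fintype.card F) := by
    obtain ⟨f, -, hF⟩ := FiniteField.card F p
    rw [hF]
    exact ((Fact.out : p.Prime).odd_of_ne_two hp).pow
  have hrF : (r : F) ≠ 0 := by
    rw [Ne, CharP.cast_eq_zero_iff F p]
    exact fun h => hrp ((Nat.prime_dvd_prime_iff_eq Fact.out hr).mp h).symm
  have key : ∀ (φ : (((Fin m ⊕ Fin m) ⊕ Fin 2) → F) → F), φ = ⇑(CfsgLib.Forms.quadMinus F m a b) →
      ∀ x : MulAut (Cfsg.POmega F φ), x ∈ Cfsg.pgoAut F φ → x ^ r = 1 →
        (∀ y, (Cfsg.IsConjUnder (Cfsg.Inn (Cfsg.POmega F φ)) x y ↔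
            Cfsg.IsConjUnder (CfsgLib.AutPE.classSub φ (Cfsg.PreservesSingularClassesMinus m a b)) x y) ∧
          (Cfsg.IsConjUnder (Cfsg.psoAut F φ) x y ↔
            Cfsg.IsConjUnder (CfsgLib.AutPE.classSub φ (Cfsg.PreservesSingularClassesMinus m a b)) x y)) ∧
          ∀ y, Cfsg.IsConjUnder (Cfsg.poAut F φ) x y ↔ Cfsg.IsConjUnder (Cfsg.pgoAut F φ) x y := by
    rintro φ rfl x hx hxr
    have hg := CfsgLib.Forms.Simil.good_minus hodd hm hab
    exact CfsgLib.OrthFusion.class_fusion hg hx hro hrF hxr _ (CfsgLib.AutPE.inndiag_minus_eq hab hodd hm hg)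
  exact key _ (CfsgLib.Forms.coe_quadMinus (F := F) m a b).symm x hx (by rw [← hxr]; exact pow_orderOf_eq_one x)

end Cfsg.Agent.S2721
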