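import Cfsg.Statements.S2734
import Cfsg.Agent.Chev.Twisted.FoldInst
-- import your own Cfsg.Agent.* helpers here

set_option autoImplicit false
open Cfsg

namespace Cfsg.Agent.S2734

/-- In the Chevalley group of type D₄ over a finite field F (the matrix group generated by the root elements), a graph automorphism attached to a symmetry π of the Dynkin diagram (sending each fundamental root element x_p(t) to x_{π(p)}(t) and each x_{−p}(t) to x_{−π(p)}(t)) that has order 3 — a standard triality graph automorphism, π being a 3-cycle of the three outer nodes — has fixed-point subgroup isomorphic to the Chevalley group of type G₂ over F. -/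
theorem result {F : Type*} [Field F] [Fintype F] (τ : MulAut ↥(Cfsg.Lie.chevD4.group F)) (hτ : Cfsg.Lie.chevD4.IsGraphAut τ) (hτ3 : orderOf τ = 3) :
    Nonempty (↥(MonoidHom.eqLocus τ.toMonoidHom (MonoidHom.id ↥(Cfsg.Lie.chevD4.group F))) ≃* ↥(Cfsg.Lie.chevG2.group F)) := by
  haveI : Finite F := inferInstance
  let S : CfsgLib.Chev.Sys Cfsg.Lie.chevD4 := CfsgLib.Chev.DataD4.valid.toSys
  obtain ⟨π, hsym, hπ⟩ := hτ
  have hlong : (List.range Cfsg.Lie.chevD4.rank).all
      (fun i => Cfsg.Lie.chevD4.isLong (Cfsg.Lie.chevD4.simple i) == Cfsg.Lie.chevD4.isLong (Cfsg.Lie.chevD4.simple 0)) = true := by decide +kernel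
  have hgen : ∀ (i : Fin Cfsg.Lie.chevD4.rank) (t : F),
      τ (S.xG (Cfsg.Lie.chevD4.simple i) t) = S.xG (Cfsg.Lie.chevD4.simple (π i)) t ∧
      τ (S.xG (Cfsg.Lie.chevD4.neg (Cfsg.Lie.chevD4.simple i)) t) =
        S.xG (Cfsg.Lie.chevD4.neg (Cfsg.Lie.chevD4.simple (π i))) t := by
    intro i t
    constructor
    · have h := S.eq_xG ((hπ (S.xG (Cfsg.Lie.chevD4.simple i) t) i t).1 (S.coe_xU _ t))
      rwa [CfsgLib.Chev.Twisted.graphExp_one hlong, pow_one] at h
    · have h := S.eq_xG ((hπ (S.xG (Cfsg.Lie.chevD4.neg (Cfsg.Lie.chevD4.simple i)) t) i t).2 (S.coe_xU _ t))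
      rwa [CfsgLib.Chev.Twisted.graphExp_one hlong, pow_one] at h
  have h1 : π ≠ 1 := by
    rintro rfl
    have : τ.toMonoidHom = MonoidHom.id _ := S.hom_ext_simple fun i hi t =>
      ⟨(hgen ⟨i, hi⟩ t).1, (hgen ⟨i, hi⟩ t).2⟩
    have : τ = 1 := MulEquiv.ext fun x => DFunLike.congr_fun this x
    simp [this] at hτ3
  have h3 : π ^ 3 = 1 := by
    refine Equiv.ext fun i => ?_
    have e : (τ ^ 3) (S.xG (Cfsg.Lie.chevD4.simple i) 1) =
        S.xG (Cfsg.Lie.chevD4.simple ((π ^ 3) i)) 1 := by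
      show τ (τ (τ _)) = _
      rw [(hgen i 1).1, (hgen (π i) 1).1, (hgen (π (π i)) 1).1]
      rfl
    rw [show τ ^ 3 = 1 from hτ3 ▸ pow_orderOf_eq_one τ, MulAut.one_apply] at e
    have := S.root_eq_of_xU (S.simple_lt i.2) (S.simple_lt ((π ^ 3) i).2) (c := 1)
      (congrArg Subtype.val e)
    exact (Fin.ext (S.simple_inj i.2 ((π ^ 3) i).2 this)).symm
  have hcases : (∀ i : Fin 4, (π i : ℕ) = CfsgLib.Chev.Twisted.D4.graph.tau i) ∨
      (∀ i j : Fin 4, (π i : ℕ) = j → CfsgLib.Chev.Twisted.D4.graph.tau j = i) := by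
    have key : ∀ l ∈ CfsgLib.Chev.syms Cfsg.Lie.chevD4,
        (∀ i : Fin 4, l.getD (l.getD (l.getD (i : ℕ) 0) 0) 0 = (i : ℕ)) →
        ¬ (∀ i : Fin 4, l.getD (i : ℕ) 0 = (i : ℕ)) →
        (∀ i : Fin 4, l.getD (i : ℕ) 0 = CfsgLib.Chev.Twisted.D4.graph.tau i) ∨
        (∀ i j : Fin 4, l.getD (i : ℕ) 0 = (j : ℕ) →
          CfsgLib.Chev.Twisted.D4.graph.tau j = i) := by
      decide +kernel
    have hget : ∀ i : Fin 4, (CfsgLib.Chev.permList π).getD (i : ℕ) 0 = (π i : ℕ) := by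
      intro i
      have hi : (i : ℕ) < Cfsg.Lie.chevD4.rank := i.2
      simp [CfsgLib.Chev.permList, List.getD_eq_getElem?_getD, hi]
      rfl
    have h := key _ (CfsgLib.Chev.permList_mem_syms hsym)
      (fun i => by
        rw [hget i, hget (π i), hget (π (π i))]
        exact congrArg Fin.val (DFunLike.congr_fun h3 i))
      (fun hid => h1 (Equiv.ext fun i => Fin.ext ((hget i).symm.trans (hid i))))
    simp only [hget] at h
    exact h
  rcases hcases with hτπ | hτπ
  · exact CfsgLib.Chev.Twisted.fixed_iso CfsgLib.Chev.Twisted.certD4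
      (fun z _ hz => CfsgLib.Chev.Twisted.torusD4 z hz) τ
      (fun i hi t => by
        have := hgen ⟨i, hi⟩ t
        rwa [show ((π ⟨i, hi⟩ : Fin Cfsg.Lie.chevD4.rank) : ℕ) =
          CfsgLib.Chev.Twisted.D4.graph.tau i from hτπ ⟨i, hi⟩] at this)
      _ (fun g => Iff.rfl)
  · refine CfsgLib.Chev.Twisted.fixed_iso CfsgLib.Chev.Twisted.certD4
      (fun z _ hz => CfsgLib.Chev.Twisted.torusD4 z hz) τ.symm (fun i hi t => ?_) _ (fun g => ?_)
    · obtain ⟨k, hk⟩ := π.surjective ⟨i, hi⟩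
      have e : CfsgLib.Chev.Twisted.D4.graph.tau i = (k : ℕ) :=
        hτπ k ⟨i, hi⟩ (congrArg Fin.val hk)
      have h := hgen k t
      rw [hk] at h
      rw [e]
      exact ⟨τ.symm_apply_eq.2 h.1.symm, τ.symm_apply_eq.2 h.2.symm⟩
    · show τ g = g ↔ τ.symm g = g
      rw [MulEquiv.symm_apply_eq]
      exact eq_comm

end Cfsg.Agent.S2734
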