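import Cfsg.Statements.S2736
import Cfsg.Agent.AutPE.FieldType

set_option autoImplicit false
open Cfsg

namespace Cfsg.Agent.S2736

/-- Let T = PΩ⁺_{2m}(F) with m ≥ 5 (dimension ≠ 8) and x a field automorphism or a graph-field automorphism of T of prime order r. Then an element y of the coset Inndiag(T)·x (y = δ x with δ induced by a class-preserving similarity) has order r if and only if y is conjugate to x by an element of Inndiag(T). -/
theorem result {F : Type*} [Field F] [Fintype F] {m : ℕ} (hm : 5 ≤ m) (x δ : MulAut (Cfsg.POmega F (Cfsg.quadFormPlus m F))) (hx : Cfsg.IsFieldAutClassPOmega (Cfsg.quadFormPlus m F) x ∨ Cfsg.IsGraphFieldAutClassPOmegaPlus m x) {r : ℕ} (hr : r.Prime) (hxr : orderOf x = r) (hδ : δ ∈ Cfsg.inndiagPOmegaPlus m F) :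
    orderOf (δ * x) = r ↔ Cfsg.IsConjUnder (Cfsg.inndiagPOmegaPlus m F) x (δ * x) := by
  have key : ∀ (φ : (Fin m ⊕ Fin m → F) → F), φ = ⇑(CfsgLib.Forms.quadPlus F m) →
      ∀ x δ : MulAut (Cfsg.POmega F φ),
        (Cfsg.IsFieldAutClassPOmega φ x ∨
          ∃ (α γ ψ : MulAut (Cfsg.POmega F φ)) (σ : F ≃+* F) (v : Fin m ⊕ Fin m → F) (g : GL (Fin m ⊕ Fin m) F),
            σ ≠ RingEquiv.refl F ∧ φ v ≠ 0 ∧ (∀ i, σ (v i) = v i) ∧
            (g : Matrix (Fin m ⊕ Fin m) (Fin m ⊕ Fin m) F) = Cfsg.reflectionMatrix φ v ∧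
            Cfsg.IsInducedBySemilinearPOmega φ g (RingEquiv.refl F) γ ∧
            Cfsg.IsFieldAutPOmegaOf φ σ ψ ∧ α * x * α⁻¹ = γ * ψ) →
        orderOf x = r → δ ∈ CfsgLib.AutPE.classSub φ (Cfsg.PreservesSingularClasses φ) →
        (orderOf (δ * x) = r ↔
          Cfsg.IsConjUnder (CfsgLib.AutPE.classSub φ (Cfsg.PreservesSingularClasses φ)) x (δ * x)) := by
    rintro φ rfl x δ h hxr hδ
    refine CfsgLib.AutPE.plus_coset_iff hm hr ?_ hxr hδ
    rcases h with h | h
    · exact (CfsgLib.AutPE.field_class hm h).1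
    · exact (CfsgLib.AutPE.graph_field_class hm h).1
  exact key _ (CfsgLib.Forms.coe_quadPlus (F := F) m).symm x δ hx hxr hδ

end Cfsg.Agent.S2736
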