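import Cfsg.Statements.S2737
import Cfsg.Agent.AutPE.FieldMinus

set_option autoImplicit false
open Cfsg

namespace Cfsg.Agent.S2737

/-- Let T = PΩ⁻_{2m+2}(F) (m ≥ 3; form with anisotropic binary part) and x a field automorphism of T of prime order r. Then an element y of the coset Inndiag(T)·x has order r if and only if y is conjugate to x by an element of Inndiag(T). (T has no graph-field automorphisms.) -/
theorem result {F : Type*} [Field F] [Fintype F] {m : ℕ} (hm : 3 ≤ m) (a b : F) (hab : (∀ z₁ z₂ : F, z₁ ^ 2 + a * z₁ * z₂ + b * z₂ ^ 2 = 0 → z₁ = 0 ∧ z₂ = 0)) (x δ : MulAut (Cfsg.POmega F (Cfsg.quadFormMinus m F a b))) (hx : Cfsg.IsFieldAutClassPOmegaMinus m x) {r : ℕ} (hr : r.Prime) (hxr : orderOf x = r) (hδ : δ ∈ Cfsg.inndiagPOmegaMinus m F a b) :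
    orderOf (δ * x) = r ↔ Cfsg.IsConjUnder (Cfsg.inndiagPOmegaMinus m F a b) x (δ * x) := by
  obtain ⟨a', b', ψ, σ, h1, h2, h3, h4, h5⟩ := hx
  have key : ∀ (φ : ((Fin m ⊕ Fin m) ⊕ Fin 2 → F) → F), φ = ⇑(CfsgLib.Forms.quadMinus F m a b) →
      ∀ (φ' : ((Fin m ⊕ Fin m) ⊕ Fin 2 → F) → F), φ' = ⇑(CfsgLib.Forms.quadMinus F m a' b') →
      ∀ (x δ : MulAut (Cfsg.POmega F φ)) (ψ : Cfsg.POmega F φ ≃* Cfsg.POmega F φ'),
        Cfsg.IsFieldAutPOmegaOf φ' σ ((ψ.symm.trans x).trans ψ) →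
        orderOf x = r → δ ∈ CfsgLib.AutPE.classSub φ (Cfsg.PreservesSingularClassesMinus m a b) →
        (orderOf (δ * x) = r ↔
          Cfsg.IsConjUnder (CfsgLib.AutPE.classSub φ (Cfsg.PreservesSingularClassesMinus m a b)) x (δ * x)) := by
    rintro φ rfl φ' rfl x δ ψ h hxr hδ
    exact CfsgLib.AutPE.minus_coset_iff hm hab hr
      (CfsgLib.AutPE.field_class_minus hm hab ⟨a', b', ψ, σ, h1, h2, h3, h4, h⟩).1 hxr hδ
  exact key _ (CfsgLib.Forms.coe_quadMinus (F := F) m a b).symm _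
    (CfsgLib.Forms.coe_quadMinus (F := F) m a' b').symm x δ ψ h5 hxr hδ

end Cfsg.Agent.S2737
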