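import Cfsg.Statements.S2738
import Mathlib
import Cfsg.Agent.SLn.Card
import Cfsg.Agent.S0248

set_option autoImplicit false
open Cfsg

namespace Cfsg.Agent.S2738

/-- The special linear group SL(3, 4) has centre of order 3 and does not split over it: no subgroup is a complement to the centre (so SL(3, 4) is a non-split central extension of PSL(3, 4) by a group of order 3). -/
theorem result (F : Type*) [Field F] [Fintype F] (hF : Fintype.card F = 4) : Nat.card ↥(Subgroup.center (Matrix.SpecialLinearGroup (Fin 3) F)) = 3 ∧ ¬ ∃ K : Subgroup (Matrix.SpecialLinearGroup (Fin 3) F), Subgroup.IsComplement' (Subgroup.center (Matrix.SpecialLinearGroup (Fin 3) F)) K := by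
  have hc : Nat.card ↥(Subgroup.center (Matrix.SpecialLinearGroup (Fin 3) F)) = 3 := by
    rw [CfsgLib.SLn.card_center_SL F 3 (by norm_num), hF]
    rfl
  refine ⟨hc, ?_⟩
  rintro ⟨K, hK⟩
  have hperf := Cfsg.Agent.S0248.result (F := F) 3 le_rfl
  have hn : K.Normal := by
    refine ⟨fun k hk g => ?_⟩
    obtain ⟨⟨⟨z, hz⟩, ⟨k', hk'⟩⟩, rfl⟩ := hK.2 g
    have hzc := Subgroup.mem_center_iff.mp hz (k' * k * k'⁻¹)
    have : (z * k') * k * (z * k')⁻¹ = k' * k * k'⁻¹ := by
      rw [show (z * k') * k * (z * k')⁻¹ = z * (k' * k * k'⁻¹) * z⁻¹ by group, ← hzc, mul_inv_cancel_right]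
    exact this.symm ▸ K.mul_mem (K.mul_mem hk' hk) (K.inv_mem hk')
  have hle : commutator (Matrix.SpecialLinearGroup (Fin 3) F) ≤ K := by
    rw [← Subgroup.Normal.quotient_commutative_iff_commutator_le]
    refine ⟨⟨fun a b => ?_⟩⟩
    induction a using QuotientGroup.induction_on with
    | H a =>
      induction b using QuotientGroup.induction_on with
      | H b =>
        obtain ⟨⟨⟨z, hz⟩, ⟨k, hk⟩⟩, rfl⟩ := hK.2 a
        have e : ((z * k : Matrix.SpecialLinearGroup (Fin 3) F) : Matrix.SpecialLinearGroup (Fin 3) F ⧸ K) = z := by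
          rw [QuotientGroup.mk_mul, (QuotientGroup.eq_one_iff k).mpr hk, mul_one]
        change ((z * k : Matrix.SpecialLinearGroup (Fin 3) F) : Matrix.SpecialLinearGroup (Fin 3) F ⧸ K) * b =
          b * ((z * k : Matrix.SpecialLinearGroup (Fin 3) F) : Matrix.SpecialLinearGroup (Fin 3) F ⧸ K)
        rw [e, ← QuotientGroup.mk_mul, ← QuotientGroup.mk_mul, ← Subgroup.mem_center_iff.mp hz b]
  rw [hperf, top_le_iff] at hle
  subst hle
  have := hK.disjoint.eq_bot
  simp [disjoint_top] at this
  rw [show Subgroup.center (Matrix.SpecialLinearGroup (Fin 3) F) = ⊥ from this, Subgroup.card_bot] at hc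
  norm_num at hc

end Cfsg.Agent.S2738
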