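import Cfsg.Statements.S2739
import Mathlib
import Cfsg.Agent.H29.SLThreeFour

set_option autoImplicit false
open scoped Pointwise
open Cfsg

namespace Cfsg.Agent.S2739

/-- In the projective special linear group PSL(3, 4) all subgroups of order 3 are conjugate. -/
theorem result (F : Type*) [Field F] [Fintype F] (hF : Fintype.card F = 4) (X Y : Subgroup (Matrix.ProjectiveSpecialLinearGroup (Fin 3) F)) (hX : Nat.card ↥X = 3) (hY : Nat.card ↥Y = 3) : ∃ g : Matrix.ProjectiveSpecialLinearGroup (Fin 3) F, MulAut.conj g • X = Y := by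
  obtain ⟨w, hw0, hw1, hw⟩ := H29.SLThreeFour.exists_omega hF
  have key : ∀ Z : Subgroup (Matrix.ProjectiveSpecialLinearGroup (Fin 3) F), Nat.card Z = 3 →
      ∃ z, orderOf z = 3 ∧ Z = Subgroup.zpowers z := by
    intro Z hZ
    have := Fact.mk (show Nat.Prime 3 by norm_num)
    obtain ⟨z, hz⟩ := exists_prime_orderOf_dvd_card' (G := Z) 3 (by rw [hZ])
    refine ⟨z, by rw [Subgroup.orderOf_coe, hz], (Subgroup.eq_of_le_of_card_ge
      (Subgroup.zpowers_le.mpr z.2) ?_).symm⟩
    rw [Nat.card_zpowers, Subgroup.orderOf_coe, hz, hZ]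
  obtain ⟨x, hx, rfl⟩ := key X hX
  obtain ⟨y, hy, rfl⟩ := key Y hY
  obtain ⟨g, hg⟩ := isConj_iff.mp ((H29.SLThreeFour.lift_order_three hF hw0 hw1 hw x hx).symm.trans
    (H29.SLThreeFour.lift_order_three hF hw0 hw1 hw y hy))
  refine ⟨g, ?_⟩
  rw [show MulAut.conj g • Subgroup.zpowers x =
    (Subgroup.zpowers x).map (MulAut.conj g).toMonoidHom from rfl, MonoidHom.map_zpowers]
  exact congrArg Subgroup.zpowers hg

end Cfsg.Agent.S2739
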