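import Cfsg.Statements.S2758
import Cfsg.Agent.S0206
import Cfsg.Agent.ZJ.Involves
import Mathlib.Tactic

set_option autoImplicit false
open Cfsg
open scoped commutatorElement

namespace Cfsg.Agent.S2758

/-- For an odd prime p and a finite group G the following are equivalent: the dihedral group of order 2p is involved in G; some element of 2-power order normalizes but does not centralize some p-subgroup of G; some element of 2-power order inverts some nonidentity element of p-power order. -/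
theorem result {G : Type*} [Group G] [Finite G] {p : ℕ} [Fact p.Prime] (hp : p ≠ 2) : (Cfsg.Involves (DihedralGroup p) G ↔ ∃ (x : G) (P : Subgroup G), (∃ k : ℕ, orderOf x = 2 ^ k) ∧ IsPGroup p ↥P ∧ x ∈ Subgroup.normalizer (P : Set G) ∧ x ∉ Subgroup.centralizer (P : Set G)) ∧ (Cfsg.Involves (DihedralGroup p) G ↔ ∃ x y : G, (∃ k : ℕ, orderOf x = 2 ^ k) ∧ (∃ k : ℕ, orderOf y = p ^ k) ∧ y ≠ 1 ∧ x * y * x⁻¹ = y⁻¹) := by
  have hpp : p.Prime := Fact.out
  have h1 : (∃ (x : G) (P : Subgroup G), (∃ k : ℕ, orderOf x = 2 ^ k) ∧ IsPGroup p ↥P ∧ x ∈ Subgroup.normalizer (P : Set G) ∧ x ∉ Subgroup.centralizer (P : Set G)) →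
      ∃ x y : G, (∃ k : ℕ, orderOf x = 2 ^ k) ∧ (∃ k : ℕ, orderOf y = p ^ k) ∧ y ≠ 1 ∧ x * y * x⁻¹ = y⁻¹ := by
    rintro ⟨x, P, ⟨k, hk⟩, hP, hxN, hxC⟩
    -- the last power of `x` not centralizing `P`
    have hex : ∃ j, x ^ 2 ^ j ∈ Subgroup.centralizer (P : Set G) :=
      ⟨k, by rw [← hk, pow_orderOf_eq_one]; exact Subgroup.one_mem _⟩
    classical
    obtain ⟨j, hj⟩ : ∃ j, Nat.find hex = j + 1 := by
      refine Nat.exists_eq_succ_of_ne_zero fun h0 => hxC ?_
      have h := Nat.find_spec hex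
      rwa [h0, pow_zero, pow_one] at h
    have hC : x ^ 2 ^ (j + 1) ∈ Subgroup.centralizer (P : Set G) := hj ▸ Nat.find_spec hex
    have hn : x ^ 2 ^ j ∉ Subgroup.centralizer (P : Set G) := Nat.find_min hex (by omega)
    rw [Subgroup.mem_centralizer_iff] at hn
    push Not at hn
    obtain ⟨v, hv, hvx⟩ := hn
    set x' := x ^ 2 ^ j with hx'
    have hNP : ∀ w ∈ P, x' * w * x'⁻¹ ∈ P := fun w hw => (Subgroup.mem_normalizer_iff.1 (Subgroup.pow_mem _ hxN _) w).1 hw
    set y := v⁻¹ * (x' * v * x'⁻¹) with hy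
    have hyP : y ∈ P := P.mul_mem (P.inv_mem hv) (hNP v hv)
    have hinv : x' * y * x'⁻¹ = y⁻¹ := by
      have h2 : x' * x' * v * (x' * x')⁻¹ = v := by
        have h3 : x' * x' ∈ Subgroup.centralizer (P : Set G) := by
          rw [hx', ← pow_add, ← two_mul, ← pow_succ']
          exact hC
        rw [← Subgroup.mem_centralizer_iff.1 h3 v hv, mul_inv_cancel_right]
      calc x' * y * x'⁻¹ = x' * v⁻¹ * x'⁻¹ * (x' * x' * v * (x' * x')⁻¹) := by rw [hy]; group
        _ = x' * v⁻¹ * x'⁻¹ * v := by rw [h2]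
        _ = y⁻¹ := by rw [hy]; group
    refine ⟨x', y, ?_, ?_, ?_, hinv⟩
    · obtain ⟨i, -, hi⟩ := (Nat.dvd_prime_pow Nat.prime_two).1 (hk ▸ orderOf_pow_dvd (2 ^ j) : orderOf x' ∣ 2 ^ k)
      exact ⟨i, hi⟩
    · obtain ⟨i, hi⟩ := IsPGroup.iff_orderOf.1 hP ⟨y, hyP⟩
      exact ⟨i, (Subgroup.orderOf_coe (⟨y, hyP⟩ : P)).trans hi⟩
    · intro e
      rw [hy, inv_mul_eq_one] at e
      exact hvx (mul_inv_eq_iff_eq_mul.1 e.symm).symm
  have hp2 : ¬ p ∣ 2 := fun h => hp ((Nat.prime_dvd_prime_iff_eq hpp Nat.prime_two).1 h)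
  have h2 : (∃ x y : G, (∃ k : ℕ, orderOf x = 2 ^ k) ∧ (∃ k : ℕ, orderOf y = p ^ k) ∧ y ≠ 1 ∧ x * y * x⁻¹ = y⁻¹) →
      Cfsg.Involves (DihedralGroup p) G := by
    rintro ⟨x, y₀, ⟨a, ha⟩, ⟨b, hb⟩, hy₀, hinv₀⟩
    obtain ⟨b, rfl⟩ : ∃ c, b = c + 1 := Nat.exists_eq_succ_of_ne_zero fun h => hy₀ (by
      rw [h, pow_zero, orderOf_eq_one_iff] at hb; exact hb)
    -- an element of order `p`
    set y := y₀ ^ p ^ b with hy
    have hyo : orderOf y = p := by
      rw [hy, orderOf_pow, hb, Nat.gcd_eq_right (pow_dvd_pow p b.le_succ), pow_succ, Nat.mul_div_cancel_left p (pow_pos hpp.pos b)]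
    have hinv : x * y * x⁻¹ = y⁻¹ := by rw [hy, ← conj_pow, hinv₀, inv_pow]
    set K := Subgroup.closure ({x, y} : Set G) with hK
    have hxK : x ∈ K := Subgroup.subset_closure (Or.inl rfl)
    have hyK : y ∈ K := Subgroup.subset_closure (Or.inr rfl)
    set X : K := ⟨x, hxK⟩ with hX
    set Y : K := ⟨y, hyK⟩ with hY
    have hXY : X * Y * X⁻¹ = Y⁻¹ := Subtype.ext hinv
    have hcomm : Commute (X ^ 2) Y := by
      have h : X ^ 2 * Y * (X ^ 2)⁻¹ = Y := by
        calc X ^ 2 * Y * (X ^ 2)⁻¹ = X * (X * Y * X⁻¹) * X⁻¹ := by rw [pow_two]; group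
          _ = X * Y⁻¹ * X⁻¹ := by rw [hXY]
          _ = (X * Y * X⁻¹)⁻¹ := by group
          _ = Y := by rw [hXY, inv_inv]
      exact mul_inv_eq_iff_eq_mul.1 h
    set R := Subgroup.zpowers (X ^ 2) with hR
    have htop : Subgroup.closure ({X, Y} : Set K) = ⊤ := by
      refine Subgroup.map_injective K.subtype_injective ?_
      rw [MonoidHom.map_closure, Set.image_pair, ← MonoidHom.range_eq_map, Subgroup.range_subtype]
      rfl
    haveI : R.Normal := by
      refine ⟨fun r hr w => ?_⟩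
      obtain ⟨i, rfl⟩ := Subgroup.mem_zpowers_iff.1 hr
      have hw : w ∈ Subgroup.centralizer ({X ^ 2} : Set K) := by
        have hle : Subgroup.closure ({X, Y} : Set K) ≤ Subgroup.centralizer ({X ^ 2} : Set K) := by
          rw [Subgroup.closure_le]
          rintro w (hw | hw) <;> rw [hw]
          · exact Subgroup.mem_centralizer_singleton_iff.2 ((Commute.refl X).pow_right 2).eq
          · exact Subgroup.mem_centralizer_singleton_iff.2 hcomm.symm.eq
        exact hle (htop ▸ Subgroup.mem_top w)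
      rw [((show Commute w (X ^ 2) from Subgroup.mem_centralizer_singleton_iff.1 hw).zpow_right i).eq, mul_inv_cancel_right]
      exact Subgroup.zpow_mem _ (Subgroup.mem_zpowers _) i
    let π := QuotientGroup.mk' R
    have hπY : π Y ≠ 1 := fun e => by
      have hmem : Y ∈ R := (QuotientGroup.eq_one_iff Y).1 e
      obtain ⟨i, hi⟩ := Subgroup.mem_zpowers_iff.1 hmem
      have h3 : orderOf Y ∣ 2 ^ a := by
        rw [← hi, ← zpow_natCast, ← zpow_mul]
        exact (orderOf_dvd_of_mem_zpowers (Subgroup.mem_zpowers_iff.2 ⟨_, rfl⟩)).trans (by rw [← Subgroup.orderOf_coe, hX]; exact ha.dvd)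
      rw [← Subgroup.orderOf_coe, hY] at h3
      change orderOf y ∣ 2 ^ a at h3
      rw [hyo] at h3
      exact hp2 (hpp.dvd_of_dvd_pow h3)
    have hYo : orderOf (π Y) = p := orderOf_eq_prime (by
      rw [← map_pow, show Y ^ p = 1 from Subtype.ext (by rw [Subgroup.coe_pow, hY, Subgroup.coe_one, ← hyo, pow_orderOf_eq_one]), map_one]) hπY
    have hinv' : π X * π Y * (π X)⁻¹ = (π Y)⁻¹ := by rw [← map_inv, ← map_mul, ← map_mul, hXY, map_inv]
    have hX2 : π X * π X = 1 := by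
      rw [← map_mul, ← pow_two]
      exact (QuotientGroup.eq_one_iff _).2 (Subgroup.mem_zpowers _)
    have hX1 : π X ≠ 1 := fun e => by
      rw [e, one_mul, inv_one, mul_one] at hinv'
      have h3 : (π Y) ^ 2 = 1 := by rw [pow_two]; nth_rewrite 1 [hinv']; exact inv_mul_cancel _
      exact hp2 (hYo ▸ orderOf_dvd_of_pow_eq_one h3)
    have ha' : orderOf (π X) = 2 := orderOf_eq_prime (by rw [pow_two, hX2]) hX1
    have hb1 : π X * π Y ≠ 1 := fun e => by
      have h3 : π Y = π X := by rw [← mul_right_inj (π X), hX2]; exact e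
      rw [h3, ha'] at hYo
      exact hp hYo.symm
    have hb' : orderOf (π X * π Y) = 2 := orderOf_eq_prime (by
      rw [pow_two]
      calc π X * π Y * (π X * π Y) = π X * π Y * (π X)⁻¹ * (π X * π X) * π Y := by group
        _ = 1 := by rw [hinv', hX2]; group) hb1
    obtain ⟨e⟩ := Cfsg.Agent.S0206.result (π X) (π X * π Y) ha' hb' (fun h => hπY (mul_eq_left.1 h.symm))
    have htop' : Subgroup.closure ({π X, π X * π Y} : Set (↥K ⧸ R)) = ⊤ := by
      rw [eq_top_iff, ← Subgroup.map_top_of_surjective π (QuotientGroup.mk'_surjective R), ← htop, MonoidHom.map_closure, Subgroup.closure_le]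
      rintro _ ⟨w, (rfl | rfl), rfl⟩
      · exact Subgroup.subset_closure (Or.inl rfl)
      · have h3 := mul_mem (Subgroup.inv_mem _ (Subgroup.subset_closure (k := ({π X, π X * π Y} : Set (↥K ⧸ R))) (Or.inl rfl))) (Subgroup.subset_closure (Or.inr rfl))
        rwa [inv_mul_cancel_left] at h3
    have hord : orderOf (π X * (π X * π Y)) = p := by rw [← mul_assoc, hX2, one_mul, hYo]
    let e' : (↥K ⧸ R) ≃* DihedralGroup (orderOf (π X * (π X * π Y))) :=
      (Subgroup.topEquiv.symm.trans (MulEquiv.subgroupCongr htop'.symm)).trans e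
    rw [← hord]
    exact CfsgLib.ZJ.involves_of_hom K (e'.toMonoidHom.comp π) (e'.surjective.comp (QuotientGroup.mk'_surjective R))
  have h3 : Cfsg.Involves (DihedralGroup p) G →
      ∃ (x : G) (P : Subgroup G), (∃ k : ℕ, orderOf x = 2 ^ k) ∧ IsPGroup p ↥P ∧ x ∈ Subgroup.normalizer (P : Set G) ∧ x ∉ Subgroup.centralizer (P : Set G) := by
    intro h
    obtain ⟨L, φ, hφ⟩ := CfsgLib.ZJ.exists_hom_of_involves h
    set Rot := Subgroup.zpowers (DihedralGroup.r 1 : DihedralGroup p) with hRot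
    haveI hRotn : Rot.Normal := by
      refine ⟨fun r hr w => ?_⟩
      obtain ⟨i, rfl⟩ := Subgroup.mem_zpowers_iff.1 hr
      rw [DihedralGroup.r_one_zpow]
      rcases w with j | j
      · rw [DihedralGroup.inv_r, DihedralGroup.r_mul_r, DihedralGroup.r_mul_r]
        exact Subgroup.mem_zpowers_iff.2 ⟨i, by rw [DihedralGroup.r_one_zpow]; congr 1; abel⟩
      · rw [DihedralGroup.inv_sr, DihedralGroup.sr_mul_r, DihedralGroup.sr_mul_sr]
        exact Subgroup.mem_zpowers_iff.2 ⟨-i, by rw [DihedralGroup.r_one_zpow]; congr 1; push_cast; abel⟩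
    set M := Rot.comap φ with hM
    obtain ⟨P⟩ : Nonempty (Sylow p ↥M) := inferInstance
    set P₀ := (P : Subgroup ↥M).map M.subtype with hP₀
    have hfr : Subgroup.normalizer (P₀ : Set L) ⊔ M = ⊤ := Sylow.normalizer_sup_eq_top P
    obtain ⟨w, hw⟩ := hφ (DihedralGroup.sr 0)
    obtain ⟨n, hn, m, hm, hnm⟩ := Subgroup.mem_sup_of_normal_right.1 (hfr.ge (Subgroup.mem_top w))
    have hn' : φ n ∉ Rot := by
      intro h4
      have h5 := Rot.mul_mem h4 (show φ m ∈ Rot from hm)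
      rw [← map_mul, hnm, hw] at h5
      obtain ⟨i, hi⟩ := Subgroup.mem_zpowers_iff.1 h5
      rw [DihedralGroup.r_one_zpow] at hi
      cases hi
    -- its `2`-part
    obtain ⟨c, o, hdec⟩ : ∃ c o : ℕ, orderOf n = 2 ^ c * o ∧ Odd o := by
      refine ⟨(orderOf n).factorization 2, orderOf n / 2 ^ (orderOf n).factorization 2, (Nat.ordProj_mul_ordCompl_eq_self _ 2).symm, ?_⟩
      exact Nat.odd_iff.2 (Nat.two_dvd_ne_zero.1 (Nat.not_dvd_ordCompl Nat.prime_two (orderOf_pos n).ne'))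
    set x := n ^ o with hxdef
    have hxo : orderOf x = 2 ^ c := by
      rw [hxdef, orderOf_pow, hdec.1, Nat.gcd_eq_right (dvd_mul_left o _), Nat.mul_div_cancel _ hdec.2.pos]
    have hx' : φ x ∉ Rot := by
      obtain ⟨l, hl⟩ := hdec.2
      rw [hxdef, map_pow]
      rcases hfn : φ n with j | j
      · exact absurd (hfn ▸ Subgroup.mem_zpowers_iff.2 ⟨(j.val : ℤ), by rw [DihedralGroup.r_one_zpow]; simp⟩) hn'
      · rw [hl, pow_succ, pow_mul, pow_two, DihedralGroup.sr_mul_self, one_pow, one_mul, ← hfn]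
        exact hn'
    obtain ⟨q₀, hq₀, hq₀'⟩ : ∃ q ∈ P₀, φ q ∉ (⊥ : Subgroup (DihedralGroup p)) := by
      by_contra hcon
      push Not at hcon
      have hle : (P : Subgroup ↥M) ≤ φ.ker.subgroupOf M := fun q hq => MonoidHom.mem_ker.2 (hcon _ ⟨q, hq, rfl⟩)
      have h6 : ¬ p ∣ (φ.ker.subgroupOf M).index := fun h => P.not_dvd_index (h.trans (Subgroup.index_dvd_of_le hle))
      have h7 : (φ.ker.subgroupOf M).index = p := by
        have h8 : φ.ker = (⊥ : Subgroup (DihedralGroup p)).comap φ := rfl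
        show φ.ker.relIndex M = p
        rw [h8, hM, Subgroup.relIndex_comap, Subgroup.map_comap_eq_self_of_surjective hφ, Subgroup.relIndex_bot_left, hRot, Nat.card_zpowers, DihedralGroup.orderOf_r_one]
      exact h6 (by rw [h7])
    refine ⟨(x : G), P₀.map L.subtype, ⟨c, by rw [Subgroup.orderOf_coe]; exact hxo⟩, (P.isPGroup'.map _).map _,
      Subgroup.le_normalizer_map _ ⟨x, pow_mem hn o, rfl⟩, fun hc => ?_⟩
    have h9 : Commute (φ q₀) (φ x) := (show Commute q₀ x from Subtype.ext (Subgroup.mem_centralizer_iff.1 hc (q₀ : G) ⟨q₀, hq₀, rfl⟩)).map φ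
    have hqR : φ q₀ ∈ Rot := by
      obtain ⟨q, -, rfl⟩ := hq₀
      exact q.2
    obtain ⟨i, hi⟩ := Subgroup.mem_zpowers_iff.1 hqR
    rw [DihedralGroup.r_one_zpow] at hi
    rcases hfx : φ x with j | j
    · exact hx' (hfx ▸ Subgroup.mem_zpowers_iff.2 ⟨(j.val : ℤ), by rw [DihedralGroup.r_one_zpow]; simp⟩)
    · rw [hfx, ← hi] at h9
      have h10 := h9.eq
      rw [DihedralGroup.r_mul_sr, DihedralGroup.sr_mul_r] at h10
      injection h10 with h11
      have h12 : ((2 * i : ℤ) : ZMod p) = 0 := by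
        push_cast
        linear_combination -h11
      rw [ZMod.intCast_zmod_eq_zero_iff_dvd] at h12
      refine hq₀' (Subgroup.mem_bot.2 ?_)
      rw [← hi, show ((i : ℤ) : ZMod p) = 0 from (ZMod.intCast_zmod_eq_zero_iff_dvd i p).2
        (((Nat.prime_iff_prime_int.1 hpp).dvd_or_dvd h12).resolve_left fun h => hp2 (Int.natCast_dvd_natCast.1 h))]
      exact DihedralGroup.r_zero
  exact ⟨⟨h3, fun h => h2 (h1 h)⟩, ⟨fun h => h1 (h3 h), h2⟩⟩

end Cfsg.Agent.S2758
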