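import Cfsg.Statements.S2760
import Cfsg.Agent.PReduced.CharP

set_option autoImplicit false
open Cfsg

namespace Cfsg.Agent.S2760

/-- Let G be a finite group with C_G(O₂(G)) ≤ O₂(G) and H a subgroup of G such that H is normal in G, or the subgroup O²(H) generated by the elements of H of odd order is normal in G. Then C_H(O₂(H)) ≤ O₂(H). -/
theorem result {G : Type*} [Group G] [Finite G] (hchar : Subgroup.centralizer (Cfsg.pCore 2 G : Set G) ≤ Cfsg.pCore 2 G) (H : Subgroup G) (hH : H.Normal ∨ ((Cfsg.pResidual 2 ↥H).map H.subtype).Normal) : Subgroup.centralizer (Cfsg.pCore 2 ↥H : Set ↥H) ≤ Cfsg.pCore 2 ↥H := by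
  open CfsgLib.PReduced in
  refine (charPOf_iff (p := 2) H).1 ?_
  have htop : CharPOf 2 (⊤ : Subgroup G) := fun x _ hco hc => by
    have h1 : x ∈ Cfsg.pCore 2 G := hchar (Subgroup.centralizer_le (fun y hy => by
      refine le_pCoreOf (L := ⊤) le_top ?_ (isPGroup_pCore 2 G) hy
      haveI := CfsgLib.PCore.pCore_characteristic 2 G
      exact (Subgroup.normalizer_eq_top_iff.2 inferInstance).ge) hc)
    obtain ⟨k, hk⟩ := IsPGroup.iff_orderOf.1 (isPGroup_pCore 2 G) ⟨x, h1⟩
    rw [Subgroup.orderOf_mk] at hk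
    rw [hk] at hco
    rcases k with _ | k
    · exact orderOf_eq_one_iff.1 (by simpa using hk)
    · exact absurd ((Nat.coprime_pow_left_iff (Nat.succ_pos k) 2 2).1 hco) (by norm_num)
  rcases hH with hn | hn
  · exact htop.of_normal le_top (Subgroup.normalizer_eq_top_iff.2 hn).ge
  set K := (Cfsg.pResidual 2 ↥H).map H.subtype with hK
  have hKc := htop.of_normal (K := K) le_top (Subgroup.normalizer_eq_top_iff.2 hn).ge
  intro x hx hco hc
  have hxK : x ∈ K := ⟨⟨x, hx⟩, Subgroup.subset_closure (by simpa using hco), rfl⟩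
  refine hKc x hxK hco (Subgroup.centralizer_le ?_ hc)
  exact le_pCoreOf ((pCoreOf_le K).trans (Subgroup.map_subtype_le _))
    (fun y hy => normalizer_le_normalizer_pCoreOf _ ((Subgroup.normalizer_eq_top_iff.2 hn).ge (Subgroup.mem_top y)))
    (isPGroup_pCoreOf K)

end Cfsg.Agent.S2760
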