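import Cfsg.Statements.S2761
import Mathlib

set_option autoImplicit false
open Cfsg

namespace Cfsg.Agent.S2761

/-- The group Qd(2), the natural semidirect product of an elementary abelian group of order 4 by SL₂(2) (realised as the affine subgroup of SL₃(2)), is isomorphic to the symmetric group of degree 4. -/
theorem result : Nonempty (↥(Cfsg.qd 2) ≃* Equiv.Perm (Fin 4)) := by
  let P : Fin 4 → ZMod 2 × ZMod 2 := ![(0, 0), (1, 0), (0, 1), (1, 1)]
  let M : Equiv.Perm (Fin 4) → Matrix (Fin 3) (Fin 3) (ZMod 2) := fun σ =>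
    !![(P (σ 1)).1 - (P (σ 0)).1, (P (σ 2)).1 - (P (σ 0)).1, (P (σ 0)).1;
       (P (σ 1)).2 - (P (σ 0)).2, (P (σ 2)).2 - (P (σ 0)).2, (P (σ 0)).2;
       0, 0, 1]
  have hdet : ∀ σ, (M σ).det = 1 := by
    have : ∀ σ, (M σ) 0 0 * (M σ) 1 1 - (M σ) 0 1 * (M σ) 1 0 = 1 := by decide +kernel
    intro σ
    rw [Matrix.det_fin_three]
    have h := this σ
    simp [M] at h ⊢
    exact h
  have hmul : ∀ σ τ, M (σ * τ) = M σ * M τ := by decide +kernel
  have hinj : ∀ σ τ, M σ = M τ → σ = τ := by decide +kernel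
  have hsur : ∀ a b c d e f : ZMod 2, a * e - b * d = 1 → ∃ σ, M σ = !![a, b, c; d, e, f; 0, 0, 1] := by
    decide +kernel
  let φ : Equiv.Perm (Fin 4) →* Matrix.SpecialLinearGroup (Fin 3) (ZMod 2) :=
    MonoidHom.mk' (fun σ => ⟨M σ, hdet σ⟩) fun σ τ => Subtype.ext (hmul σ τ)
  have hφ : Function.Injective φ := fun σ τ h => hinj σ τ (congrArg Subtype.val h)
  have hrange : φ.range = Cfsg.qd 2 := by
    refine le_antisymm ?_ ((Subgroup.closure_le _).mpr ?_)
    · rintro _ ⟨σ, rfl⟩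
      exact Subgroup.subset_closure ⟨rfl, rfl, rfl⟩
    · rintro A ⟨h0, h1, h2⟩
      obtain ⟨σ, hσ⟩ := hsur (A 0 0) (A 0 1) (A 0 2) (A 1 0) (A 1 1) (A 1 2) (by
        have := A.2
        rw [Matrix.det_fin_three, h0, h1, h2] at this
        simpa using this)
      refine ⟨σ, Subtype.ext (hσ.trans ?_)⟩
      ext i j
      fin_cases i <;> fin_cases j <;> simp [h0, h1, h2]
  exact ⟨((MonoidHom.ofInjective hφ).trans (MulEquiv.subgroupCongr hrange)).symm⟩

end Cfsg.Agent.S2761
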