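import Cfsg.Statements.S2770
import Cfsg.Agent.Fusion.GlaubermanFactor

set_option autoImplicit false
open Cfsg

namespace Cfsg.Agent.S2770

/-- Let G be a finite group and p a prime with C_G(O_p(G)) ≤ O_p(G), S a Sylow p-subgroup lying in exactly one maximal subgroup of G, and G/K ≅ PSL₂(p^n) for some normal K and n ≥ 1. If Z(S) is not elementary abelian, then either ℧¹(Z(S)) (the subgroup generated by the p-th powers of the elements of Z(S)) is normal in G or C_S(Z(J(S))) is normal in G, J(S) being generated by the abelian subgroups of S of largest order. -/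
theorem result {G : Type*} [Group G] [Finite G] {p : ℕ} [Fact p.Prime] (S : Sylow p G) (hE₁ : Subgroup.centralizer (Cfsg.pCore p G : Set G) ≤ Cfsg.pCore p G) (hE₂ : ∃! M : Subgroup G, IsCoatom M ∧ (S : Subgroup G) ≤ M) (K : Subgroup G) [K.Normal] (F : Type) [Field F] [Fintype F] (n : ℕ) (hn : 1 ≤ n) (hF : Fintype.card F = p ^ n) (hE₃ : Nonempty (G ⧸ K ≃* Matrix.ProjectiveSpecialLinearGroup (Fin 2) F)) (h : ¬ Cfsg.IsElementaryAbelian p ((S : Subgroup G) ⊓ Subgroup.centralizer ((S : Subgroup G) : Set G))) : (Cfsg.powerClosure p 1 ((S : Subgroup G) ⊓ Subgroup.centralizer ((S : Subgroup G) : Set G))).Normal ∨ (((S : Subgroup G) ⊓ Subgroup.centralizer (Cfsg.centerThompsonAOf (S : Subgroup G) : Set G))).Normal := by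
  classical
  obtain ⟨M, ⟨hM, hSM⟩, huniq⟩ := hE₂
  have hbig : ∀ H : Subgroup G, (S : Subgroup G) ≤ H → H ≠ ⊤ → H ≤ M := by
    intro H hSH hH
    obtain ⟨M', hM', hHM'⟩ := (eq_top_or_exists_le_coatom H).resolve_left hH
    rwa [← huniq M' ⟨hM', hSH.trans hHM'⟩]
  set Z₁ := Cfsg.powerClosure p 1 ((S : Subgroup G) ⊓ Subgroup.centralizer ((S : Subgroup G) : Set G)) with hZ₁
  set C₁ := Subgroup.centralizer (Z₁ : Set G) with hC₁
  by_cases hC₁top : C₁ = ⊤
  · left
    refine ⟨fun z hz g => ?_⟩
    have hg : g ∈ C₁ := hC₁top.ge (Subgroup.mem_top g)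
    rw [← Subgroup.mem_centralizer_iff.1 hg z hz, mul_inv_cancel_right]
    exact hz
  right
  have hSC₁ : (S : Subgroup G) ≤ C₁ := by
    refine fun s hs => Subgroup.mem_centralizer_iff.2 fun y hy => ?_
    induction hy using Subgroup.closure_induction with
    | mem z hz =>
      obtain ⟨x, hx, rfl⟩ := hz
      exact ((show Commute s x from Subgroup.mem_centralizer_iff.1 hx.2 s hs).pow_right _).eq.symm
    | one => simp
    | mul a b _ _ ha hb => exact ((show Commute a s from ha).mul_left hb).eq
    | inv a _ ha => exact (show Commute a s from ha).inv_left.eq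
  -- the factorization
  set J := Cfsg.thompsonSubgroupAOf (S : Subgroup G) with hJ
  have hgen : ∀ g : G, g ∈ C₁ ⊔ Subgroup.normalizer (J : Set G) := by
    intro g
    refine CfsgLib.Fusion.fusion_factor G S hE₁ (fun _ g => g ∈ C₁ ⊔ Subgroup.normalizer (J : Set G))
      (fun D g _ _ hg => Subgroup.mem_sup_left (Subgroup.mem_centralizer_iff.2 fun y hy => ?_))
      (fun D g _ _ hg => Subgroup.mem_sup_right (by rwa [hJ, CfsgLib.ZJ.thompsonSubgroupAOf_eq p]))
      (fun D m n _ _ _ h1 h2 => mul_mem h2 h1) ⊥ g bot_le ?_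
    · induction hy using Subgroup.closure_induction with
      | mem z hz =>
        obtain ⟨x, hx, rfl⟩ := hz
        rw [pow_one]
        exact (hg x hx.1 fun t ht => Subgroup.mem_centralizer_iff.1 hx.2 t ht).symm
      | one => simp
      | mul a b _ _ ha hb => exact ((show Commute a g from ha).mul_left hb).eq
      | inv a _ ha => exact (show Commute a g from ha).inv_left.eq
    · intro x hx
      rw [Subgroup.mem_bot.1 hx, mul_one, mul_inv_cancel]
      exact one_mem _
  have hSJ : (S : Subgroup G) ≤ Subgroup.normalizer (J : Set G) := by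
    rw [hJ, CfsgLib.ZJ.thompsonSubgroupAOf_eq p]
    exact Subgroup.le_normalizer.trans (CfsgLib.ZJ.normalizer_le_normalizer_J _)
  have hJn : Subgroup.normalizer (J : Set G) = ⊤ := by
    by_contra h'
    exact hM.1 (top_le_iff.1 fun g _ => sup_le (hbig _ hSC₁ hC₁top) (hbig _ hSJ h') (hgen g))
  haveI hJnn : J.Normal := Subgroup.normalizer_eq_top_iff.1 hJn
  set W := Cfsg.centerThompsonAOf (S : Subgroup G) with hW
  haveI hWn : W.Normal := by
    rw [hW, Cfsg.centerThompsonAOf, ← hJ]
    infer_instance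
  set C := Subgroup.centralizer (W : Set G) with hC
  haveI hCn : C.Normal := Subgroup.normal_centralizer
  -- `C` lies in the core of `M`
  have hCM : C ≤ M := by
    by_contra hCM
    have htop : (S : Subgroup G) ⊔ C = ⊤ := by
      by_contra h'
      exact hCM (le_sup_right.trans (hbig _ le_sup_left h'))
    refine hC₁top (top_le_iff.1 (htop.ge.trans (sup_le hSC₁ fun c hc => Subgroup.mem_centralizer_iff.2 fun y hy => ?_)))
    induction hy using Subgroup.closure_induction with
    | mem z hz =>
      obtain ⟨x, hx, rfl⟩ := hz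
      have hxW : x ∈ W := by
        rw [hW, CfsgLib.ZJ.centerThompsonAOf_eq p]
        obtain ⟨A, hA⟩ := CfsgLib.ZJ.maxGood_nonempty p false (S : Subgroup G)
        refine Subgroup.subset_closure ⟨⟨CfsgLib.ZJ.maxGood_le_J hA (CfsgLib.ZJ.mem_of_maxGood hA hx.1
          (fun a ha => Subgroup.mem_centralizer_iff.1 hx.2 a (hA.1 ha)) (by simp)), ?_⟩, by simp⟩
        exact Subgroup.centralizer_le (CfsgLib.ZJ.J_le _) hx.2
      exact ((show Commute x c from Subgroup.mem_centralizer_iff.1 hc x hxW).pow_left _).eq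
    | one => simp
    | mul a b _ _ ha hb => exact ((show Commute a c from ha).mul_left hb).eq
    | inv a _ ha => exact (show Commute a c from ha).inv_left.eq
  set N := M.normalCore with hN
  obtain ⟨T, hT⟩ := CfsgLib.Transfer.exists_sylow_map_eq_inf S N
  have hfr := Sylow.normalizer_sup_eq_top T
  rw [hT] at hfr
  have hTn : ((S : Subgroup G) ⊓ N).Normal := by
    rw [← Subgroup.normalizer_eq_top_iff]
    by_contra h'
    refine hM.1 (top_le_iff.1 (hfr.ge.trans (sup_le (hbig _ ?_ h') M.normalCore_le)))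
    exact fun t ht => Subgroup.mem_normalizer_fintype fun y hy =>
      ⟨S.mul_mem (S.mul_mem ht hy.1) (S.inv_mem ht), (inferInstance : N.Normal).conj_mem y hy.2 t⟩
  have heq : (S : Subgroup G) ⊓ C = ((S : Subgroup G) ⊓ N) ⊓ C := by
    rw [inf_assoc, inf_eq_right.2 (Subgroup.normal_le_normalCore.2 hCM)]
  rw [heq]
  haveI := hTn
  infer_instance

end Cfsg.Agent.S2770
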