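import Cfsg.Statements.S2772
import Mathlib
import Cfsg.Agent.CubicAmalgam.Apply

set_option autoImplicit false
open Cfsg

namespace Cfsg.Agent.S2772

/-- Sims' Theorem in local form: let H be a finite non-abelian simple group and G a maximal subgroup of H with C_G(O₂(G)) ≤ O₂(G), such that N_H(S) is not contained in G for a Sylow 2-subgroup S of G and G/O₂(G) is dihedral of order 2q for a prime q. Then G is isomorphic to the symmetric group of degree 4 or to its direct product with a group of order 2. -/
theorem result {H : Type*} [Group H] [Finite H] [IsSimpleGroup H] (hna : ¬ IsMulCommutative H) (G : Subgroup H) (hG : IsCoatom G) (hchar : Subgroup.centralizer (Cfsg.pCore 2 ↥G : Set ↥G) ≤ Cfsg.pCore 2 ↥G) (S : Sylow 2 ↥G) (hN : ¬ Subgroup.normalizer (((S : Subgroup ↥G).map G.subtype : Subgroup H) : Set H) ≤ G) (q : ℕ) (hq : q.Prime) (hD : Nonempty (↥G ⧸ Cfsg.pCore 2 ↥G ≃* DihedralGroup q)) : Nonempty (↥G ≃* Equiv.Perm (Fin 4)) ∨ Nonempty (↥G ≃* Equiv.Perm (Fin 4) × Multiplicative (ZMod 2)) := by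
  classical
  haveI : Fact (Nat.Prime 2) := ⟨Nat.prime_two⟩
  set T : Subgroup H := (S : Subgroup ↥G).map G.subtype with hTdef
  have hTG : T ≤ G := Subgroup.map_subtype_le _
  have hSeq : (S : Subgroup ↥G) = T.subgroupOf G :=
    (Subgroup.comap_map_eq_self_of_injective G.subtype_injective _).symm
  have hidx : (Cfsg.pCore 2 ↥G).index = 2 * q := by
    obtain ⟨e⟩ := hD
    rw [Subgroup.index_eq_card, Nat.card_congr e.toEquiv, DihedralGroup.nat_card]
  have hq2 : q ≠ 2 := by
    rintro rfl
    have htop : Cfsg.pCore 2 ↥G = ⊤ := by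
      refine top_le_iff.1 (CfsgLib.PReduced.le_pCore (inferInstance : (⊤ : Subgroup ↥G).Normal) ?_)
      intro g
      have h4 : (g : ↥G) ^ (Cfsg.pCore 2 ↥G).index ∈ Cfsg.pCore 2 ↥G := Subgroup.pow_index_mem _ _
      obtain ⟨k, hk⟩ := CfsgLib.PReduced.isPGroup_pCore 2 ↥G ⟨_, h4⟩
      refine ⟨2 + k, ?_⟩
      have hk' : ((g : ↥G) ^ (Cfsg.pCore 2 ↥G).index) ^ 2 ^ k = 1 := congrArg Subtype.val hk
      rw [hidx, ← pow_mul] at hk'
      refine Subtype.ext ?_
      rw [Subgroup.coe_pow, Subgroup.coe_one, pow_add]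
      exact hk'
    rw [htop, Subgroup.index_top] at hidx
    norm_num at hidx
  obtain ⟨hTp, hTidx, hTnn, hQT, hQidx, hQn⟩ := CfsgLib.CubicAmalgam.facts hTG S hSeq hq hq2 hidx
  obtain ⟨x, hxT, hxG⟩ := SetLike.not_le_iff_exists.1 hN
  set f := (MulAut.conj x).toMonoidHom
  have hinj : Function.Injective f := (MulAut.conj x).injective
  set G' := G.map f with hG'
  have hfT : T.map f = T := CfsgLib.CubicAmalgam.cj_eq_self hxT
  have hGtop : Subgroup.normalizer (G : Set H) = G := by
    rcases hG.le_iff.1 (Subgroup.le_normalizer (H := G)) with h | h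
    · exfalso
      haveI : G.Normal := Subgroup.normalizer_eq_top_iff.1 h
      rcases IsSimpleGroup.eq_bot_or_eq_top_of_normal G ‹_› with h' | h'
      · have h1 : (Cfsg.pCore 2 ↥G).index ∣ Nat.card ↥G := Subgroup.index_dvd_card _
        rw [hidx, Subgroup.card_eq_one.2 h'] at h1
        have := Nat.le_of_dvd one_pos h1
        have := hq.two_le
        omega
      · exact hG.1 h'
    · exact h
  have hne : G' ≠ G := by
    intro h
    refine hxG (hGtop ▸ CfsgLib.CubicAmalgam.mem_normalizer_of_le fun y hy => ?_)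
    have : f y ∈ G' := ⟨y, hy, rfl⟩
    rw [h] at this
    exact this
  have hsup : G ⊔ G' = ⊤ := by
    rcases hG.le_iff.1 (le_sup_left : G ≤ G ⊔ G') with h | h
    · exact h
    · exfalso
      have hle : G' ≤ G := h ▸ le_sup_right
      exact hne (Subgroup.eq_of_le_of_card_ge hle (le_of_eq (Subgroup.card_map_of_injective hinj).symm))
  have hTG' : T ≤ G' := hfT ▸ Subgroup.map_mono hTG
  have hinf : G ⊓ G' = T := by
    have h1 := Subgroup.relIndex_mul_relIndex T (G ⊓ G') G (le_inf hTG hTG') inf_le_left
    rw [hTidx] at h1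
    rcases hq.eq_one_or_self_of_dvd _ (Dvd.intro _ h1) with h | h
    · exact le_antisymm (Subgroup.relIndex_eq_one.1 h) (le_inf hTG hTG')
    · exfalso
      rw [h] at h1
      have h2 : (G ⊓ G').relIndex G = 1 :=
        Nat.eq_of_mul_eq_mul_left hq.pos (by simpa using h1)
      have h3 : G ≤ G' := (Subgroup.relIndex_eq_one.1 h2).trans inf_le_right
      exact hne (Subgroup.eq_of_le_of_card_ge h3
        (le_of_eq (Subgroup.card_map_of_injective hinj))).symm
  set Q := CfsgLib.Components.pCoreIn 2 G
  have hcharG : G ⊓ Subgroup.centralizer (Q : Set H) ≤ Q := (CfsgLib.Components.isCharP_iff 2 G).2 hchar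
  have hTne : T ≠ ⊥ := by
    intro h
    rw [h] at hQidx
    simp [Subgroup.relIndex_bot_right] at hQidx
  obtain ⟨z, hzT, hz2, hz1, hzc⟩ := CfsgLib.CubicAmalgam.exists_central_invol hTp hTne
  have hxinv : x⁻¹ ∈ Subgroup.normalizer (T : Set H) := inv_mem hxT
  have hact : ∃ m ∈ G, ∃ z ∈ T, z * z = 1 ∧ (∀ t ∈ T, t * z = z * t) ∧ m * z ≠ z * m := by
    by_contra hcon
    push_neg at hcon
    have key : Subgroup.centralizer ({z} : Set H) = ⊤ := top_le_iff.1 <| hsup ▸ sup_le
      (fun m hm => Subgroup.mem_centralizer_singleton_iff.2 (hcon m hm z hzT hz2 hzc)) (by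
        rintro _ ⟨m, hm, rfl⟩
        have h1 : x⁻¹ * z * x ∈ T := by
          simpa using CfsgLib.CubicAmalgam.conj_mem_of_normalizer hxinv hzT
        have h2 := hcon m hm _ h1 (by
          rw [show x⁻¹ * z * x * (x⁻¹ * z * x) = x⁻¹ * (z * z) * x by group, hz2]; group) (fun t ht => by
          have h3 := hzc _ (CfsgLib.CubicAmalgam.conj_mem_of_normalizer hxT ht)
          calc t * (x⁻¹ * z * x) = x⁻¹ * ((x * t * x⁻¹) * z) * x := by group
            _ = x⁻¹ * (z * (x * t * x⁻¹)) * x := by rw [h3]
            _ = x⁻¹ * z * x * t := by group)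
        refine Subgroup.mem_centralizer_singleton_iff.2 ?_
        show x * m * x⁻¹ * z = z * (x * m * x⁻¹)
        calc x * m * x⁻¹ * z = x * (m * (x⁻¹ * z * x)) * x⁻¹ := by group
          _ = x * (x⁻¹ * z * x * m) * x⁻¹ := by rw [h2]
          _ = z * (x * m * x⁻¹) := by group)
    have hzZ : z ∈ Subgroup.center H := Subgroup.mem_center_iff.2 fun g =>
      Subgroup.mem_centralizer_singleton_iff.1 (key.symm ▸ Subgroup.mem_top g : g ∈ Subgroup.centralizer ({z} : Set H))
    rcases IsSimpleGroup.eq_bot_or_eq_top_of_normal (Subgroup.center H) inferInstance with h | h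
    · exact hz1 (Subgroup.mem_bot.1 (h ▸ hzZ))
    · exact hna ⟨⟨fun a b => (Subgroup.mem_center_iff.1 (h.symm ▸ Subgroup.mem_top b : b ∈ Subgroup.center H) a)⟩⟩
  let D : CfsgLib.CubicAmalgam.Data H :=
    { P := fun i => cond i G G', T := T, Q := fun i => cond i Q (Q.map f), q := q, hq := hq, hq2 := hq2
      fin := fun i => inferInstance, hinf := hinf, h2 := hTp
      hidx := by
        rintro (_ | _)
        · show T.relIndex G' = q
          rw [← hfT, hG', Subgroup.relIndex_map_map_of_injective _ _ hinj]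
          exact hTidx
        · exact hTidx
      hnn := by
        rintro (_ | _)
        · intro h
          refine hTnn fun m hm => ?_
          have := h (show f m ∈ G' from ⟨m, hm, rfl⟩)
          have h' := mul_mem (mul_mem hxinv this) hxT
          show m ∈ Subgroup.normalizer (T : Set H)
          have e : x⁻¹ * f m * x = m := by simp [f, mul_assoc]
          exact e ▸ h'
        · exact hTnn
      hQT := by
        rintro (_ | _)
        · exact hfT ▸ Subgroup.map_mono hQT
        · exact hQT
      hQidx := by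
        rintro (_ | _)
        · show (Q.map f).relIndex T = 2
          rw [← hfT, Subgroup.relIndex_map_map_of_injective _ _ hinj]
          exact hQidx
        · exact hQidx
      hQn := by
        rintro (_ | _)
        · exact (Subgroup.map_mono hQn).trans (Subgroup.le_normalizer_map _)
        · exact hQn
      hchar := by
        rintro (_ | _)
        · rintro _ ⟨⟨m, hm, rfl⟩, hc⟩
          refine ⟨m, hcharG ⟨hm, Subgroup.mem_centralizer_iff.2 fun y hy => hinj ?_⟩, rfl⟩
          rw [map_mul, map_mul]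
          exact Subgroup.mem_centralizer_iff.1 hc (f y) ⟨y, hy, rfl⟩
        · exact hcharG
      act := by
        rintro (_ | _)
        · obtain ⟨m, hm, w, hw, w1, w2, w3⟩ := hact
          refine ⟨f m, ⟨m, hm, rfl⟩, f w, hfT ▸ ⟨w, hw, rfl⟩, by rw [← map_mul, w1, map_one], fun t ht => ?_,
            fun h => w3 (hinj (by rw [map_mul, map_mul, h]))⟩
          obtain ⟨t', ht', rfl⟩ := (show t ∈ T.map f from hfT.symm ▸ ht)
          rw [← map_mul, w2 t' ht', map_mul]
        · exact hact
      hcore := fun X hX hn => by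
        haveI hXn : X.Normal := Subgroup.normalizer_eq_top_iff.1 (top_le_iff.1
          (hsup ▸ sup_le (hn true) (hn false)))
        rcases IsSimpleGroup.eq_bot_or_eq_top_of_normal X hXn with h | h
        · exact h
        · exact absurd (top_le_iff.1 (h ▸ hX.trans hTG)) hG.1 }
  rcases D.structure_iso.1 with h | h
  · exact Or.inl (h true)
  · exact Or.inr (h true)

end Cfsg.Agent.S2772
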