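import Cfsg.Statements.S2781
import Cfsg.Agent.PReduced.Average
import Cfsg.Agent.PReduced.Basic
import Cfsg.Agent.Transfer.Residual
import Cfsg.Agent.PCore.AxB

set_option autoImplicit false
open Cfsg

namespace Cfsg.Agent.S2781

/-- Let H act faithfully by conjugation on the elementary abelian p-subgroup V of a finite group, let O^p(H) be the subgroup of H generated by its elements of order prime to p, and T a Sylow p-subgroup of O^p(H). If V is generated by the H-conjugates of C_V(T) (V is the smallest H-invariant subgroup containing C_V(T)), then V = [V, O^p(H)]·C_V(O^p(H)). -/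
theorem result {G : Type*} [Group G] [Finite G] {p : ℕ} [Fact p.Prime] (V H : Subgroup G) (hV : Cfsg.IsElementaryAbelian p V) (hHV : H ≤ Subgroup.normalizer (V : Set G)) (hf : H ⊓ Subgroup.centralizer (V : Set G) = ⊥) (R : Subgroup G) (hR : R = (Cfsg.pResidual p ↥H).map H.subtype) (S : Sylow p ↥R) (T : Subgroup G) (hT : T = ((S : Subgroup ↥R).map R.subtype)) (hgen : ∀ W : Subgroup G, H ≤ Subgroup.normalizer (W : Set G) → (V ⊓ Subgroup.centralizer ((T : Subgroup G) : Set G)) ≤ W → V ≤ W) : ⁅V, R⁆ ⊔ (V ⊓ Subgroup.centralizer ((R : Subgroup G) : Set G)) = V := by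
  open Subgroup in
  have hRH : R ≤ H := hR ▸ map_subtype_le _
  open Subgroup in
  have hRV : R ≤ normalizer (V : Set G) := hRH.trans hHV
  open Subgroup in
  have hcV : ⁅V, R⁆ ≤ V := CfsgLib.PCore.commutator_le_of_le_normalizer hRV
  open Subgroup in
  have hHR : H ≤ normalizer (R : Set G) := by
    haveI := CfsgLib.Transfer.pResidual_normal (p := p) (G := ↥H)
    rw [hR]
    exact CfsgLib.PReduced.le_normalizer_map_subtype H _
  refine le_antisymm (sup_le hcV inf_le_left) (hgen _ ?_ ?_)
  · intro h hh
    refine CfsgLib.PReduced.normalizer_inf_le_normalizer_sup _ _ ⟨CfsgLib.PCore.le_normalizer_commutator hHV hHR hh,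
      Subgroup.inf_normalizer_le_normalizer_inf ⟨hHV hh, ?_⟩⟩
    exact CfsgLib.PReduced.normalizer_le_normalizer_centralizer _ (hHR hh)
  · intro v hv
    obtain ⟨hvV, hvT⟩ := Subgroup.mem_inf.mp hv
    haveI := hV.1
    have hTR : T ≤ R := hT ▸ Subgroup.map_subtype_le _
    have hidx : (T.relIndex R).Coprime p := by
      rw [Nat.coprime_comm, (Fact.out : p.Prime).coprime_iff_not_dvd, hT, Subgroup.relIndex,
        Subgroup.subgroupOf, Subgroup.comap_map_eq_self_of_injective R.subtype_injective]
      exact S.not_dvd_index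
    obtain ⟨c, hc, d, hd, rfl, hcR, -⟩ := CfsgLib.PReduced.average_split V R T hV.2 hRV hidx hvV
      (fun t ht => by rw [Subgroup.mem_centralizer_iff.mp hvT t ht.2, mul_inv_cancel_right])
    exact mul_mem (Subgroup.mem_sup_right ⟨hc, hcR⟩) (Subgroup.mem_sup_left hd)

end Cfsg.Agent.S2781
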