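import Cfsg.Statements.S2787
import Cfsg.Agent.PLocalBasics.SL2Section
import Cfsg.Agent.SL2.PElementNormalizing
import Cfsg.Agent.SL2.SylowTwo
import Cfsg.Agent.Chev.Ree.Involutions
import Cfsg.Agent.Chev.Ree.Results

set_option autoImplicit false
open Cfsg

namespace Cfsg.Agent.S2787

open scoped commutatorElement
open Matrix (SpecialLinearGroup ProjectiveSpecialLinearGroup)

/-- A Sylow 2-subgroup with an abelian part outside which all squares are trivial excludes `SL(2,p)`. -/
theorem not_involves_of_thin {p : ℕ} [Fact p.Prime] (hp2 : p ≠ 2) {G : Type*} [Group G] [Finite G]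
    (T : Sylow 2 G) (hT : ∃ C : Subgroup G, IsMulCommutative C ∧ ∀ t ∈ (T : Subgroup G), t ∉ C → t * t = 1) :
    ¬ Cfsg.Involves (SpecialLinearGroup (Fin 2) (ZMod p)) G := by
  intro h
  obtain ⟨C, hC, hTC⟩ := hT
  obtain ⟨L, φ, hφ⟩ := CfsgLib.ZJ.exists_hom_of_involves h
  obtain ⟨x, y, hQ, hxy⟩ := CfsgLib.PLocalBasics.exists_two_group_sl2 (p := p) hp2
  set Q := Subgroup.closure {x, y}
  obtain ⟨S⟩ : Nonempty (Sylow 2 ↥(Q.comap φ)) := inferInstance
  have hsurj : Function.Surjective (φ.subgroupComap Q) := φ.subgroupComap_surjective_of_surjective Q hφ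
  have h1 : ((S.mapSurjective hsurj : Sylow 2 Q) : Subgroup Q) = ⊤ :=
    ((S.mapSurjective hsurj).3 (hQ.of_equiv Subgroup.topEquiv.symm) le_top).symm
  rw [Sylow.coe_mapSurjective] at h1
  set SG := ((S : Subgroup ↥(Q.comap φ)).map (Q.comap φ).subtype).map L.subtype with hSG
  obtain ⟨T', hT'⟩ := ((S.isPGroup'.map _).map _ : IsPGroup 2 SG).exists_le_sylow
  obtain ⟨g, hg⟩ := MulAction.exists_smul_eq G T T'
  have hmem : ∀ z ∈ Q, ∃ s : L, (s : G) ∈ SG ∧ φ s = z := by
    intro z hz
    obtain ⟨s, hs, hsz⟩ := h1.ge (Subgroup.mem_top (⟨z, hz⟩ : Q))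
    exact ⟨(s : L), ⟨_, ⟨s, hs, rfl⟩, rfl⟩, congrArg Subtype.val hsz⟩
  have hconjT : ∀ u ∈ SG, g⁻¹ * u * g ∈ (T : Subgroup G) := by
    intro u hu
    have hu' := hT' hu
    rw [← hg, Sylow.coe_subgroup_smul, Subgroup.mem_pointwise_smul_iff_inv_smul_mem] at hu'
    simpa [MulAut.smul_def, mul_assoc] using hu'
  obtain ⟨s, hs, rfl⟩ := hmem x (Subgroup.subset_closure (Set.mem_insert _ _))
  obtain ⟨t, ht, rfl⟩ := hmem y (Subgroup.subset_closure (Set.mem_insert_of_mem _ rfl))
  have hout : ∀ u : L, (u : G) ∈ SG → g⁻¹ * u * g ∉ C → φ u = 1 ∨ φ u = -1 := by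
    intro u hu hne
    have h2 := hTC _ (hconjT _ hu) hne
    have h3 : u * u = 1 := Subtype.ext (by
      show (u : G) * u = 1
      calc (u : G) * u = g * ((g⁻¹ * u * g) * (g⁻¹ * u * g)) * g⁻¹ := by group
        _ = 1 := by rw [h2, mul_one, mul_inv_cancel])
    exact CfsgLib.SL2PElement.eq_one_or_neg_one_of_sq (p := p) hp2 (by rw [← map_mul, h3, map_one])
  by_cases hsC : g⁻¹ * (s : G) * g ∈ C
  · by_cases htC : g⁻¹ * (t : G) * g ∈ C
    · have h4 := congrArg Subtype.val (hC.is_comm.comm (⟨_, hsC⟩ : C) ⟨_, htC⟩)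
      simp only [Subgroup.coe_mul] at h4
      have h5 : s * t = t * s := Subtype.ext (by
        show (s : G) * t = t * s
        calc (s : G) * t = g * ((g⁻¹ * s * g) * (g⁻¹ * t * g)) * g⁻¹ := by group
          _ = t * s := by rw [h4]; group)
      exact hxy (by rw [← map_mul, h5, map_mul])
    · rcases hout t ht htC with e | e <;> exact hxy (by rw [e]; simp)
  · rcases hout s hs hsC with e | e <;> exact hxy (by rw [e]; simp)

theorem thin_psl {F : Type} [Field F] [Fintype F] (hodd : Odd (Fintype.card F)) :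
    ∃ T : Sylow 2 (ProjectiveSpecialLinearGroup (Fin 2) F), ∃ C : Subgroup (ProjectiveSpecialLinearGroup (Fin 2) F),
      IsMulCommutative C ∧ ∀ t ∈ (T : Subgroup (ProjectiveSpecialLinearGroup (Fin 2) F)), t ∉ C → t * t = 1 := by
  classical
  haveI : Fact (Nat.Prime 2) := ⟨Nat.prime_two⟩
  obtain ⟨P⟩ : Nonempty (Sylow 2 (SpecialLinearGroup (Fin 2) F)) := inferInstance
  obtain ⟨D⟩ := CfsgLib.SL2.exists_sylowTwoData (by rwa [Nat.card_eq_fintype_card]) P
  obtain ⟨e⟩ := D.quat
  set π := QuotientGroup.mk' (Subgroup.center (SpecialLinearGroup (Fin 2) F))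
  refine ⟨P.mapSurjective (f := π) (QuotientGroup.mk'_surjective _),
    Subgroup.zpowers (π (e.symm (QuaternionGroup.a 1) : P).1), inferInstance, ?_⟩
  intro t ht htC
  rw [Sylow.coe_mapSurjective] at ht
  obtain ⟨u, hu, rfl⟩ := ht
  have hcases : ∀ v, v = e ⟨u, hu⟩ → π u * π u = 1 := by
    rintro (i | i) hv
    · exfalso
      apply htC
      have h1 : (⟨u, hu⟩ : P) = (e.symm (QuaternionGroup.a 1)) ^ i.val := by
        rw [← map_pow, QuaternionGroup.a_one_pow, MulEquiv.eq_symm_apply, ← hv, ZMod.natCast_zmod_val]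
      rw [show u = ((⟨u, hu⟩ : P) : SpecialLinearGroup (Fin 2) F) from rfl, h1, Subgroup.coe_pow, map_pow]
      exact Subgroup.pow_mem _ (Subgroup.mem_zpowers _) _
    · have h1 : (⟨u, hu⟩ : P) ^ 4 = 1 := e.injective (by
        rw [map_pow, ← hv, map_one, ← QuaternionGroup.orderOf_xa i, pow_orderOf_eq_one])
      have h2 : (u * u) * (u * u) = 1 := by
        have h3 := congrArg Subtype.val h1
        have h4 : u ^ 4 = 1 := h3
        rw [← h4, pow_succ, pow_succ, pow_two]; group
      have hchar : (2 : F) ≠ 0 := by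
        intro h2F
        haveI : CharP F 2 := CharTwo.of_one_ne_zero_of_two_eq_zero one_ne_zero h2F
        have h4 := FiniteField.even_card_iff_char_two.mp (ringChar.eq F 2)
        rw [Nat.odd_iff] at hodd
        omega
      have hz : u * u ∈ Subgroup.center (SpecialLinearGroup (Fin 2) F) := by
        rcases CfsgLib.SLTwoSq.sq_eq_one hchar (u * u) h2 with h5 | h5
        · rw [h5]; exact Subgroup.one_mem _
        · rw [Subgroup.mem_center_iff]
          intro w
          have h6 : u * u = -1 := h5.trans (by apply Subtype.ext; ext i j; fin_cases i <;> fin_cases j <;> simp [CfsgLib.SLTwoSq.negOne])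
          rw [h6, mul_neg, neg_mul, mul_one, one_mul]
      rw [← map_mul]
      exact (QuotientGroup.eq_one_iff _).2 hz
  exact hcases _ rfl

theorem no_quadratic {G : Type*} [Group G] [Finite G] {p : ℕ} [Fact p.Prime] (hp2 : p ≠ 2) (V H : Subgroup G)
    (hV : Cfsg.IsElementaryAbelian p V) (hHV : H ≤ Subgroup.normalizer (V : Set G))
    (hirr : ∀ U : Subgroup G, U ≤ V → H ≤ Subgroup.normalizer (U : Set G) → U = ⊥ ∨ U = V)
    [hn : ((Subgroup.centralizer (V : Set G)).subgroupOf H).Normal]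
    (hninv : ¬ Cfsg.Involves (SpecialLinearGroup (Fin 2) (ZMod p))
      (↥H ⧸ (Subgroup.centralizer (V : Set G)).subgroupOf H))
    (A : Subgroup G) (hA : A ≤ H) (hquad : ⁅⁅V, A⁆, A⁆ = ⊥) : ⁅V, A⁆ = ⊥ := by
  classical
  haveI := hV.1
  let φ : H →* MulAut V :=
    { toFun := fun h => MulEquiv.mk
        ⟨fun v => ⟨(h : G) * v * (h : G)⁻¹, (Subgroup.mem_normalizer_iff.1 (hHV h.2) v).1 v.2⟩,
          fun v => ⟨(h : G)⁻¹ * v * (h : G), by
            have := (Subgroup.mem_normalizer_iff.1 ((Subgroup.normalizer (V : Set G)).inv_mem (hHV h.2)) v).1 v.2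
            rwa [inv_inv] at this⟩,
          fun v => Subtype.ext (by show (h : G)⁻¹ * ((h : G) * v * (h : G)⁻¹) * h = v; group),
          fun v => Subtype.ext (by show (h : G) * ((h : G)⁻¹ * v * h) * (h : G)⁻¹ = v; group)⟩
        (fun v w => Subtype.ext (by show (h : G) * (v * w) * (h : G)⁻¹ = _; push_cast; group))
      map_one' := MulEquiv.ext fun v => Subtype.ext (by show (1 : G) * v * (1 : G)⁻¹ = v; group)
      map_mul' := fun a b => MulEquiv.ext fun v => Subtype.ext (by
        show ((a : G) * b) * v * ((a : G) * b)⁻¹ = a * ((b : G) * v * (b : G)⁻¹) * (a : G)⁻¹; group) }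
  have hφ : ∀ (h : H) (v : V), ((φ h v : V) : G) = h * v * (h : G)⁻¹ := fun h v => rfl
  have hker : φ.ker = (Subgroup.centralizer (V : Set G)).subgroupOf H := by
    ext h
    rw [MonoidHom.mem_ker, Subgroup.mem_subgroupOf, Subgroup.mem_centralizer_iff]
    constructor
    · intro h1 v hv
      have h2 := congrArg (fun f : MulAut V => ((f ⟨v, hv⟩ : V) : G)) h1
      simp only [hφ, MulAut.one_apply] at h2
      calc v * h = (h : G) * v * (h : G)⁻¹ * h := by rw [h2]
        _ = h * v := by group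
    · intro h1
      refine MulEquiv.ext fun v => Subtype.ext ?_
      rw [hφ, MulAut.one_apply, ← h1 v v.2, mul_inv_cancel_right]
  set R := φ.range
  have hninv' : ¬ Cfsg.Involves (SpecialLinearGroup (Fin 2) (ZMod p)) R := by
    intro hi
    apply hninv
    obtain ⟨L, θ, hθ⟩ := CfsgLib.ZJ.exists_hom_of_involves hi
    let e : (↥H ⧸ (Subgroup.centralizer (V : Set G)).subgroupOf H) ≃* R :=
      (QuotientGroup.quotientMulEquivOfEq hker.symm).trans (QuotientGroup.quotientKerEquivRange φ)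
    refine CfsgLib.ZJ.involves_of_hom (L.comap e.toMonoidHom) (θ.comp (e.toMonoidHom.subgroupComap L)) ?_
    exact hθ.comp (e.toMonoidHom.subgroupComap_surjective_of_surjective L e.surjective)
  have hVp : IsPGroup p V := fun v => ⟨1, Subtype.ext (by rw [pow_one]; exact hV.2 _ v.2)⟩
  -- no normal p-subgroup acts nontrivially
  have hcore : Cfsg.pCore p R = ⊥ := by
    by_cases hV1 : V = ⊥
    · rw [Subgroup.eq_bot_iff_forall]
      intro r _
      refine Subtype.ext (MulEquiv.ext fun v => Subtype.ext ?_)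
      have h1 : ∀ w : V, (w : G) = 1 := fun w => Subgroup.mem_bot.1 (hV1 ▸ w.2)
      rw [h1, h1]
    have hP := CfsgLib.PCore.isPGroup_pCore p R
    have hd : p ∣ Nat.card V := by
      obtain ⟨n, hn'⟩ := IsPGroup.iff_card.1 hVp
      rw [hn']
      refine dvd_pow_self p fun h0 => hV1 ?_
      rw [h0, pow_zero] at hn'
      exact Subgroup.card_eq_one.1 hn'
    obtain ⟨v0, hv0, hne⟩ := hP.exists_fixed_point_of_prime_dvd_card_of_fixed_point (α := V) hd
      (a := 1) (fun r => map_one ((r : R) : MulAut V))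
    let U : Subgroup G :=
      { carrier := {u | ∃ hu : u ∈ V, ∀ r ∈ Cfsg.pCore p R, (r : MulAut V) ⟨u, hu⟩ = ⟨u, hu⟩}
        one_mem' := ⟨V.one_mem, fun r _ => map_one _⟩
        mul_mem' := fun {a b} ha hb => by
          obtain ⟨ha, ha'⟩ := ha
          obtain ⟨hb, hb'⟩ := hb
          refine ⟨V.mul_mem ha hb, fun r hr => ?_⟩
          rw [show (⟨a * b, V.mul_mem ha hb⟩ : V) = ⟨a, ha⟩ * ⟨b, hb⟩ from rfl, map_mul, ha' r hr, hb' r hr]
        inv_mem' := fun {a} ha => by
          obtain ⟨ha, ha'⟩ := ha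
          refine ⟨V.inv_mem ha, fun r hr => ?_⟩
          rw [show (⟨a⁻¹, V.inv_mem ha⟩ : V) = (⟨a, ha⟩ : V)⁻¹ from rfl, map_inv, ha' r hr] }
    have hconj : ∀ h ∈ H, ∀ u ∈ U, h * u * h⁻¹ ∈ U := by
      intro h hh u hu
      obtain ⟨hu, hu'⟩ := hu
      refine ⟨(Subgroup.mem_normalizer_iff.1 (hHV hh) u).1 hu, fun r hr => ?_⟩
      set k : R := ⟨φ ⟨h, hh⟩, ⟨_, rfl⟩⟩ with hk
      have h1 := hu' _ (Subgroup.Normal.conj_mem inferInstance r hr k⁻¹)
      rw [inv_inv] at h1
      have h2 := congrArg (k : MulAut V) h1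
      rw [← MulAut.mul_apply, ← Subgroup.coe_mul, show k * (k⁻¹ * r * k) = r * k by group, Subgroup.coe_mul,
        MulAut.mul_apply] at h2
      exact h2
    have hUN : H ≤ Subgroup.normalizer (U : Set G) := by
      intro h hh
      rw [Subgroup.mem_normalizer_iff]
      intro u
      refine ⟨hconj h hh u, fun h1 => ?_⟩
      have h2 := hconj h⁻¹ (H.inv_mem hh) _ h1
      rwa [inv_inv, show h⁻¹ * (h * u * h⁻¹) * h = u by group] at h2
    rcases hirr U (fun u hu => hu.1) hUN with h | h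
    · exfalso
      apply hne
      have h1 : (v0 : G) ∈ U := ⟨v0.2, fun r hr => hv0 ⟨r, hr⟩⟩
      rw [h, Subgroup.mem_bot] at h1
      exact (Subtype.ext h1).symm
    · rw [Subgroup.eq_bot_iff_forall]
      intro r hr
      refine Subtype.ext (MulEquiv.ext fun v => ?_)
      have h0 : (v : G) ∈ U := by rw [h]; exact v.2
      obtain ⟨_, h1⟩ := h0
      exact h1 r hr
  -- the semidirect product
  let M := SemidirectProduct V R R.subtype
  haveI : Finite M := Finite.of_equiv _ SemidirectProduct.equivProd.symm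
  set V1 : Subgroup M := (SemidirectProduct.inl : V →* M).range
  set H1 : Subgroup M := (SemidirectProduct.inr : R →* M).range
  haveI : IsMulCommutative V1 := ⟨⟨by
    rintro ⟨_, a, rfl⟩ ⟨_, b, rfl⟩
    exact Subtype.ext (by
      show SemidirectProduct.inl a * SemidirectProduct.inl b = SemidirectProduct.inl b * SemidirectProduct.inl a
      rw [← map_mul, ← map_mul, hV.1.is_comm.comm a b])⟩⟩
  have hV1e : Cfsg.IsElementaryAbelian p V1 := ⟨inferInstance, by
    rintro _ ⟨a, rfl⟩
    rw [← map_pow, show a ^ p = 1 from Subtype.ext (hV.2 _ a.2), map_one]⟩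
  have hV1n : V1.Normal := by
    rw [show V1 = (SemidirectProduct.rightHom : M →* R).ker from SemidirectProduct.range_inl_eq_ker_rightHom]
    infer_instance
  have hH1 : H1 ≤ Subgroup.normalizer (V1 : Set M) := by rw [Subgroup.normalizer_eq_top V1]; exact le_top
  have hf1 : H1 ⊓ Subgroup.centralizer (V1 : Set M) = ⊥ := by
    rw [Subgroup.eq_bot_iff_forall]
    rintro _ ⟨⟨r, rfl⟩, hr⟩
    have hr1 : r = 1 := by
      refine Subtype.ext (MulEquiv.ext fun v => ?_)
      have h1 := Subgroup.mem_centralizer_iff.1 hr _ ⟨v, rfl⟩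
      have h2 : SemidirectProduct.inl (φ := R.subtype) (R.subtype r v) = SemidirectProduct.inl v := by
        rw [SemidirectProduct.inl_aut, map_inv, ← h1, mul_inv_cancel_right]
      exact SemidirectProduct.inl_injective h2
    rw [hr1, map_one]
  rw [Subgroup.commutator_eq_bot_iff_le_centralizer]
  intro v hv
  rw [Subgroup.mem_centralizer_iff]
  intro a ha
  suffices hφa : φ ⟨a, hA ha⟩ = 1 by
    have h2 := congrArg (fun f : MulAut V => ((f ⟨v, hv⟩ : V) : G)) hφa
    simp only [hφ, MulAut.one_apply] at h2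
    calc a * v = a * v * a⁻¹ * a := by group
      _ = v * a := by rw [h2]
  by_contra hne
  set r : R := ⟨φ ⟨a, hA ha⟩, ⟨_, rfl⟩⟩ with hr
  set ι : R →* M := SemidirectProduct.inr with hι
  have hrel : ∀ (s : R) (v : V), ι s * SemidirectProduct.inl v * (ι s)⁻¹ = SemidirectProduct.inl ((s : MulAut V) v) := by
    intro s v
    rw [hι, ← map_inv]
    exact (SemidirectProduct.inl_aut s v).symm
  have hzp : ∀ n : ℤ, ((r ^ n : R) : MulAut V) = φ ⟨a ^ n, hA (A.zpow_mem ha n)⟩ := fun n => by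
    rw [Subgroup.coe_zpow, hr, ← map_zpow]
    exact congrArg φ (Subtype.ext (by push_cast; rfl))
  have hq : ⁅⁅V1, Subgroup.zpowers (ι r)⁆, Subgroup.zpowers (ι r)⁆ = ⊥ := by
    rw [Subgroup.commutator_eq_bot_iff_le_centralizer, Subgroup.commutator_le]
    rintro _ ⟨w, rfl⟩ _ ⟨i, rfl⟩
    rw [Subgroup.mem_centralizer_iff]
    rintro _ ⟨j, rfl⟩
    dsimp only
    rw [← map_zpow, ← map_zpow]
    have hc : ⁅(SemidirectProduct.inl w : M), ι (r ^ i)⁆ =
        SemidirectProduct.inl (w * ((r ^ i : R) : MulAut V) w⁻¹) := by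
      rw [commutatorElement_def, map_mul, ← hrel (r ^ i) w⁻¹, map_inv]; simp only [mul_assoc]
    rw [hc]
    set c := w * ((r ^ i : R) : MulAut V) w⁻¹ with hcdef
    have hcG : (c : G) = ⁅(w : G), a ^ i⁆ := by
      rw [hcdef, hzp]
      push_cast
      rw [hφ, commutatorElement_def]
      push_cast
      group
    have hfix : ((r ^ j : R) : MulAut V) c = c := Subtype.ext (by
      rw [hzp, hφ]
      show a ^ j * (c : G) * (a ^ j)⁻¹ = c
      have h1 : ⁅(w : G), a ^ i⁆ ∈ ⁅V, A⁆ := Subgroup.commutator_mem_commutator w.2 (A.zpow_mem ha i)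
      have h2 := Subgroup.mem_centralizer_iff.1 (Subgroup.commutator_eq_bot_iff_le_centralizer.1 hquad h1) (a ^ j)
        (A.zpow_mem ha j)
      rw [hcG, h2, mul_inv_cancel_right])
    calc ι (r ^ j) * SemidirectProduct.inl c = ι (r ^ j) * SemidirectProduct.inl c * (ι (r ^ j))⁻¹ * ι (r ^ j) := by
          rw [inv_mul_cancel_right]
      _ = SemidirectProduct.inl c * ι (r ^ j) := by rw [hrel, hfix]
  have hinv := CfsgLib.PLocalBasics.involves_sl2_of_quadratic (p := p) hp2 V1 H1 hV1e hH1 hf1 (ι r) ⟨r, rfl⟩ hq (by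
    intro hm
    obtain ⟨⟨z, ⟨r', rfl⟩⟩, hz1, hz2⟩ := Subgroup.mem_map.1 hm
    let eR : R ≃* H1 := MonoidHom.ofInjective (f := ι) SemidirectProduct.inr_injective
    have h1 : (Cfsg.pCore p H1).comap eR.toMonoidHom ≤ Cfsg.pCore p R :=
      CfsgLib.PCore.le_pCore inferInstance
        ((CfsgLib.PCore.isPGroup_pCore p H1).comap_of_injective eR.toMonoidHom eR.injective)
    have h2 : r' ∈ (Cfsg.pCore p H1).comap eR.toMonoidHom := hz1
    have h3 := h1 h2
    rw [hcore, Subgroup.mem_bot] at h3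
    have hr1 : r = 1 := by
      apply SemidirectProduct.inr_injective (φ := R.subtype)
      rw [map_one]
      have h4 : ι r' = ι r := hz2
      rw [h3, map_one] at h4
      exact h4.symm
    exact hne (congrArg Subtype.val hr1))
  apply hninv'
  obtain ⟨L, θ, hθ⟩ := CfsgLib.ZJ.exists_hom_of_involves hinv
  let eR : R ≃* H1 := MonoidHom.ofInjective (f := ι) SemidirectProduct.inr_injective
  refine CfsgLib.ZJ.involves_of_hom (L.comap eR.toMonoidHom) (θ.comp (eR.toMonoidHom.subgroupComap L)) ?_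
  exact hθ.comp (eR.toMonoidHom.subgroupComap_surjective_of_surjective L eR.surjective)

theorem not_involves_congr {X Y Z : Type*} [Group X] [Group Y] [Group Z] (e : X ≃* Y) (h : ¬ Cfsg.Involves Z Y) :
    ¬ Cfsg.Involves Z X := by
  intro hi
  apply h
  obtain ⟨L, θ, hθ⟩ := CfsgLib.ZJ.exists_hom_of_involves hi
  refine CfsgLib.ZJ.involves_of_hom (L.comap e.symm.toMonoidHom) (θ.comp (e.symm.toMonoidHom.subgroupComap L)) ?_
  exact hθ.comp (e.symm.toMonoidHom.subgroupComap_surjective_of_surjective L e.symm.surjective)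

/-- Let p be a prime and let H act by conjugation on the elementary abelian p-subgroup V of a finite group, irreducibly (no H-invariant subgroups of V other than 1 and V) and nontrivially, and suppose H/C_H(V) is isomorphic to PSL₂(F) for a field F with p^n elements, p^n odd, or p = 3 and H/C_H(V) is isomorphic to a Ree group ²G₂(3^(2m+1)), m ≥ 1. Then no subgroup A of H acting nontrivially on V acts quadratically: [V, A, A] = 1 forces [V, A] = 1. -/
theorem result {G : Type*} [Group G] [Finite G] {p : ℕ} [Fact p.Prime] (V H : Subgroup G) (hV : Cfsg.IsElementaryAbelian p V) (hHV : H ≤ Subgroup.normalizer (V : Set G)) (hirr : ∀ U : Subgroup G, U ≤ V → H ≤ Subgroup.normalizer (U : Set G) → U = ⊥ ∨ U = V) (hnt : ¬ H ≤ Subgroup.centralizer (V : Set G)) [hn : ((Subgroup.centralizer (V : Set G)).subgroupOf H).Normal] (hq : (∃ (F : Type) (_ : Field F) (_ : Fintype F) (n : ℕ), Fintype.card F = p ^ n ∧ Odd (Fintype.card F) ∧ Nonempty (↥H ⧸ (Subgroup.centralizer (V : Set G)).subgroupOf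 H ≃* Matrix.ProjectiveSpecialLinearGroup (Fin 2) F)) ∨ (p = 3 ∧ Cfsg.Lie.IsoRee (↥H ⧸ (Subgroup.centralizer (V : Set G)).subgroupOf H))) (A : Subgroup G) (hA : A ≤ H) (hquad : ⁅⁅V, A⁆, A⁆ = ⊥) : ⁅V, A⁆ = ⊥ := by
  rcases hq with ⟨F, _, _, n, hcard, hodd, ⟨e⟩⟩ | ⟨rfl, K, _, _, m, hm, hK, ⟨e⟩⟩
  · have hp2 : p ≠ 2 := by
      rintro rfl
      rw [hcard] at hodd
      have h1 : n = 0 := by
        by_contra hn0
        exact Nat.not_odd_iff_even.2 (even_two.pow_of_ne_zero hn0) hodd
      have h2 := Fintype.one_lt_card (α := F)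
      rw [hcard, h1] at h2
      simp at h2
    refine no_quadratic hp2 V H hV hHV hirr ?_ A hA hquad
    refine not_involves_congr e ?_
    obtain ⟨T, hT⟩ := thin_psl (F := F) hodd
    exact not_involves_of_thin hp2 T hT
  · haveI : CharP K 3 := CfsgLib.Chev.Ree.charP_three hK
    refine no_quadratic (by norm_num) V H hV hHV hirr ?_ A hA hquad
    refine not_involves_congr e ?_
    obtain ⟨T⟩ : Nonempty (Sylow 2 (Cfsg.Lie.twistedG2 K (3 ^ m))) := inferInstance
    refine not_involves_of_thin (by norm_num) T ⟨⊥, inferInstance, fun t ht _ => ?_⟩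
    exact CfsgLib.Chev.Ree.sylow_sq m (by rw [Nat.card_eq_fintype_card, hK]) T ht

end Cfsg.Agent.S2787
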