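import Cfsg.Statements.S2788
import Mathlib
import Cfsg.Agent.PrimitiveModule.Bound

set_option autoImplicit false
open Cfsg

namespace Cfsg.Agent.S2788

/-- Let H act faithfully by conjugation on the elementary abelian p-subgroup V of a finite group with H ≅ SL₂(F), F a field with p^n elements, S a Sylow p-subgroup of H, and A ≤ S a subgroup of order at least 3 acting quadratically on V ([V, A, A] = 1). Then |V/C_V(a)| ≥ p^n for every nonidentity a ∈ A. -/
theorem result {G : Type*} [Group G] [Finite G] {p : ℕ} [Fact p.Prime] (V H : Subgroup G) (hV : Cfsg.IsElementaryAbelian p V) (hHV : H ≤ Subgroup.normalizer (V : Set G)) (hf : H ⊓ Subgroup.centralizer (V : Set G) = ⊥) {F : Type*} [Field F] [Fintype F] (n : ℕ) (hF : Fintype.card F = p ^ n) (hiso : Nonempty (↥H ≃* Matrix.SpecialLinearGroup (Fin 2) F)) (S : Sylow p ↥H) (T : Subgroup G) (hT : T = ((S : Subgroup ↥H).map H.subtype)) (A : Subgroup G) (hA : A ≤ T) (hA3 : 3 ≤ Nat.card A) (hquad : ⁅⁅V, A⁆, A⁆ = ⊥) : ∀ a ∈ A, a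 ≠ 1 → p ^ n ≤ ((V ⊓ Subgroup.centralizer ({a} : Set G))).relIndex V := by
  obtain ⟨e⟩ := hiso
  intro a ha ha1
  subst hT
  obtain ⟨s, hs, rfl⟩ := Subgroup.mem_map.1 (hA ha)
  obtain ⟨i, hi⟩ := S.isPGroup' ⟨s, hs⟩
  have hsi : s ^ p ^ i = 1 := by simpa using congrArg Subtype.val hi
  haveI : CharP F p := charP_of_card_eq_prime_pow hF
  have hs1 : s ≠ 1 := fun h => ha1 (by rw [h, map_one])
  refine (CfsgLib.PrimitiveModule.pow_le_of_psl (CfsgLib.PrimitiveModule.isPGroup_of_elementary hV) hHV hf hF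
    (CfsgLib.SL2.proj.comp e.toMonoidHom) (CfsgLib.SL2.proj_surjective.comp e.surjective) s hsi ?_).1
  intro h
  have htr := CfsgLib.PrimitiveModule.tr_two_of_pow_eq_one (p := p) (i := i) (x := e s)
    (by rw [← map_pow, hsi, map_one])
  have hne : e s ≠ 1 := fun h => hs1 (by rw [← e.map_eq_one_iff, h])
  rcases CfsgLib.SL2.proj_eq_one_iff.1 h with h | h
  · exact hne h
  · change e s = -1 at h
    rw [h, CfsgLib.SL2.tr_neg, CfsgLib.SL2.tr_one] at htr
    have h4 : (2 : F) + 2 = 0 := by linear_combination -htr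
    have h2 : (2 : F) = 0 := by
      have : (2 : F) * 2 = 0 := by linear_combination h4
      exact mul_self_eq_zero.1 this
    refine hne (h.trans ?_)
    apply CfsgLib.SL2.ext2 <;> simp [Matrix.SpecialLinearGroup.coe_neg] <;> linear_combination -h2

end Cfsg.Agent.S2788
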