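import Cfsg.Statements.S2791
import Cfsg.Agent.Fusion.StronglyClosedAbelian

set_option autoImplicit false
open Cfsg

namespace Cfsg.Agent.S2791

/-- Let S be a Sylow p-subgroup of the finite group G and A an abelian subgroup of S that is strongly closed in S with respect to G. Then A controls strong fusion in G: for some Sylow p-subgroup T containing A, whenever a subset of T is conjugated into T by an element of G, the same elementwise conjugation is induced by an element of N_G(A). -/
theorem result {G : Type*} [Group G] [Finite G] {p : ℕ} [Fact p.Prime] (S : Sylow p G) (A : Subgroup G) (hA : IsMulCommutative ↥A) (hsc : Cfsg.IsStronglyClosed A (S : Subgroup G)) : Cfsg.ControlsStrongFusion p A := by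
  refine ⟨S, hsc.1, fun X hX => ⟨hX, fun g hg => ?_⟩⟩
  obtain ⟨c, hc, n, hn, hcn⟩ := CfsgLib.GroupAlperin.exists_centralizer_mul_normalizer S hA hsc
    (T := Subgroup.closure X) (g := g⁻¹) ((Subgroup.closure_le _).2 hX) (by
      rw [CfsgLib.GroupAlperin.cj, MonoidHom.map_closure, Subgroup.closure_le]
      rintro _ ⟨a, ha, rfl⟩
      exact hg ⟨a, ha, by simp⟩)
  refine ⟨n⁻¹, (Subgroup.normalizer (A : Set G)).inv_mem hn, fun a ha => ?_⟩
  have hgn : g = n⁻¹ * c⁻¹ := by rw [← mul_inv_rev, hcn, inv_inv]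
  have hcomm := Subgroup.mem_centralizer_iff.1 hc a (Subgroup.subset_closure ha)
  rw [hgn]
  calc n⁻¹ * c⁻¹ * a * (n⁻¹ * c⁻¹)⁻¹ = n⁻¹ * (c⁻¹ * (a * c)) * n⁻¹⁻¹ := by group
    _ = _ := by rw [hcomm, inv_mul_cancel_left]

end Cfsg.Agent.S2791
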