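import Cfsg.Statements.S2792
import Cfsg.Agent.Transfer.HallWielandt
import Cfsg.Agent.Transfer.Focal

set_option autoImplicit false
open Cfsg

namespace Cfsg.Agent.S2792

/-- Let S be a Sylow p-subgroup of the finite group G and W a subgroup of S weakly closed in S with respect to G. If S ∩ G' ≠ S ∩ (N_G(W))', then there are x ∈ S, z ∈ W and a maximal subgroup W₀ of W such that the iterated commutator [x, z; p−1] (with [x, z] = x⁻¹z⁻¹xz and [x, z; i+1] = [[x, z; i], z]) lies in W₀ but not in the Frattini subgroup of W₀; in particular [x, z; p−1] ≠ 1. -/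
theorem result {G : Type*} [Group G] [Finite G] {p : ℕ} [Fact p.Prime] (S : Sylow p G) (W : Subgroup G) (hW : Cfsg.IsWeaklyClosed W (S : Subgroup G)) (h : (S : Subgroup G) ⊓ commutator G ≠ (S : Subgroup G) ⊓ ⁅Subgroup.normalizer (W : Set G), Subgroup.normalizer (W : Set G)⁆) : ∃ x ∈ (S : Subgroup G), ∃ z ∈ W, ∃ W₀ : Subgroup ↥W, IsCoatom W₀ ∧ (fun y : G => y⁻¹ * z⁻¹ * y * z)^[p - 1] x ∈ W₀.map W.subtype ∧ (fun y : G => y⁻¹ * z⁻¹ * y * z)^[p - 1] x ∉ ((frattini ↥W₀).map W₀.subtype).map W.subtype := by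
  by_contra hh
  push Not at hh
  have he : CfsgLib.HallWielandt.WeakEngel p (S : Subgroup G) W := fun u hu z hz W₀ hW₀ hm => hh u hu z hz W₀ hW₀ hm
  have heq := CfsgLib.HallWielandt.pResidualOf_eq_of_weakEngel S W hW he
  set N := Subgroup.normalizer (W : Set G) with hN
  have hSN : (S : Subgroup G) ≤ N := fun x hx =>
    Subgroup.mem_normalizer_iff_map_conj_eq.mpr (hW.2 x fun _ ⟨z, hz, e⟩ =>
      e ▸ (S : Subgroup G).mul_mem ((S : Subgroup G).mul_mem hx (hW.1 hz)) ((S : Subgroup G).inv_mem hx))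
  refine h (le_antisymm ?_ (inf_le_inf_left _ (Subgroup.commutator_mono le_top le_top)))
  haveI : (Cfsg.pResidual p G).Normal := CfsgLib.Transfer.pResidual_normal
  set π := QuotientGroup.mk' (Cfsg.pResidual p G) with hπ
  rintro x ⟨hxS, hxG⟩
  refine ⟨hxS, ?_⟩
  have hSt : (S : Subgroup G).map π = ⊤ := by
    rw [← Subgroup.map_top_of_surjective π (QuotientGroup.mk'_surjective _),
      ← CfsgLib.Transfer.pResidual_sup_sylow S, Subgroup.map_sup, hπ, QuotientGroup.map_mk'_self, bot_sup_eq]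
  obtain ⟨c, hc, hcx⟩ : π x ∈ (⁅(S : Subgroup G), (S : Subgroup G)⁆).map π := by
    rw [Subgroup.map_commutator, hSt, ← Subgroup.map_top_of_surjective π (QuotientGroup.mk'_surjective _),
      ← Subgroup.map_commutator]
    exact ⟨x, hxG, rfl⟩
  have hcN : c ∈ ⁅N, N⁆ := Subgroup.commutator_mono hSN hSN hc
  have hcS : c ∈ (S : Subgroup G) := Subgroup.commutator_le_self _ hc
  have hr : c⁻¹ * x ∈ Cfsg.pResidual p G := QuotientGroup.eq.1 hcx
  have hrS : c⁻¹ * x ∈ (S : Subgroup G) := mul_mem (inv_mem hcS) hxS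
  obtain ⟨r', hr', hre⟩ := heq.ge (show c⁻¹ * x ∈ Cfsg.pResidual p G ⊓ N from ⟨hr, hSN hrS⟩)
  have hr'S : r' ∈ ((S.subtype hSN : Sylow p N) : Subgroup N) := by
    show (r' : G) ∈ (S : Subgroup G)
    rw [show (r' : G) = c⁻¹ * x from hre]
    exact hrS
  have h1 := Subgroup.focalSubgroup_le_commutator _ (CfsgLib.Transfer.inf_pResidual_le_focal (S.subtype hSN) ⟨hr'S, hr'⟩)
  have h2 : c⁻¹ * x ∈ ⁅N, N⁆ := by
    rw [← hre]
    exact Subgroup.map_subtype_commutator N ▸ Subgroup.mem_map_of_mem N.subtype h1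
  simpa using mul_mem hcN h2

end Cfsg.Agent.S2792
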