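import Cfsg.Statements.S2794
import Cfsg.Agent.QdFree.SectionControl
-- import your own Cfsg.Agent.* helpers here

set_option autoImplicit false
open Cfsg

namespace Cfsg.Agent.S2794

/-- For an odd prime p and a finite group G, the group Qd(p) is not involved in G if and only if in every section K/R of G, for every Sylow p-subgroup S* of K/R, the centre of J(S*) (J generated by the abelian subgroups of largest order) controls strong fusion in K/R. -/
theorem result {G : Type*} [Group G] [Finite G] {p : ℕ} [Fact p.Prime] (hp : p ≠ 2) : ¬ Cfsg.Involves ↥(Cfsg.qd p) G ↔ ∀ (K R : Subgroup G) [hR : (R.subgroupOf K).Normal], ∀ T : Sylow p (K ⧸ R.subgroupOf K), Cfsg.ControlsStrongFusion p (Cfsg.centerThompsonAOf (T : Subgroup (K ⧸ R.subgroupOf K))) := by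
  constructor
  · intro h K R hR T
    exact CfsgLib.QdFree.controlsStrongFusion_centerThompsonAOf hp (CfsgLib.QdFree.not_involves_section h K R) T
  · intro h
    rintro ⟨K, R, hn, ⟨e⟩⟩
    haveI := hn
    exact CfsgLib.QdFree.not_controlsStrongFusion_centerThompsonAOf e (Classical.arbitrary _) (h K R _)


end Cfsg.Agent.S2794
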