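import Cfsg.Statements.S2807
import Cfsg.Agent.Fusion.Yoshida
import Cfsg.Agent.Fusion.Group
import Cfsg.Agent.Transfer.Focal

set_option autoImplicit false
open Cfsg
open scoped commutatorElement

namespace Cfsg.Agent.S2807

/-- Let S be a Sylow p-subgroup of the finite group G. If S ∩ G' ≠ S ∩ (N_G(S))' (derived subgroups), then the wreath product Z_p ≀ Z_p — realised as a Sylow p-subgroup of the symmetric group of degree p² — is a homomorphic image of S. -/
theorem result {G : Type*} [Group G] [Finite G] {p : ℕ} [Fact p.Prime] (S : Sylow p G) (h : (S : Subgroup G) ⊓ commutator G ≠ (S : Subgroup G) ⊓ ⁅Subgroup.normalizer ((S : Subgroup G) : Set G), Subgroup.normalizer ((S : Subgroup G) : Set G)⁆) : ∃ (P : Sylow p (Equiv.Perm (Fin (p ^ 2)))) (f : ↥(S : Subgroup G) →* ↥(P : Subgroup (Equiv.Perm (Fin (p ^ 2))))), Function.Surjective f := by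
  by_contra hw
  refine h (le_antisymm (le_inf inf_le_left ?_) (inf_le_inf_left _ (Subgroup.commutator_mono le_top le_top)))
  set F := Cfsg.groupFusionSystem (S : Subgroup G) with hFdef
  have hF : F.IsSaturated p := CfsgLib.Fusion.isSaturated_group (p := p) S
  rw [CfsgLib.Transfer.inf_commutator_eq_focal]
  have h1 : (S : Subgroup G).focalSubgroup ≤ F.focalSubgroup := by
    refine CfsgLib.Transfer.focalSubgroup_le_of_forall fun x hx g hg => ?_
    refine Subgroup.subset_closure ⟨Subgroup.zpowers x, Cfsg.conjHom _ g, ⟨x⁻¹, Subgroup.inv_mem _ (Subgroup.mem_zpowers x)⟩,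
      CfsgLib.Fusion.conjHom_mem_group (Subgroup.zpowers_le.2 hx) ?_, ?_⟩
    · rintro _ ⟨_, ⟨i, rfl⟩, rfl⟩
      show g * x ^ i * g⁻¹ ∈ (S : Subgroup G)
      rw [← conj_zpow]
      exact (S : Subgroup G).zpow_mem hg i
    · show x * (g * x⁻¹ * g⁻¹) = x⁻¹⁻¹ * (g * x⁻¹ * g⁻¹)
      rw [inv_inv]
  refine h1.trans ?_
  rw [← CfsgLib.Fusion.focal_eq_of_no_wreath S.2 hF hw]
  refine (Subgroup.closure_le _).2 ?_
  rintro _ ⟨P, φ, x, ⟨-, hP, -, ψ, hψ, hag, hψS⟩, rfl⟩
  obtain ⟨-, -, a, ha⟩ := hψ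
  have haN : a ∈ Subgroup.normalizer ((S : Subgroup G) : Set G) := Subgroup.mem_normalizer_fintype fun y hy => by
    have h2 : ψ ⟨y, Subgroup.mem_sup_right hy⟩ ∈ (S : Subgroup G) := hψS.le ⟨⟨y, Subgroup.mem_sup_right hy⟩, hy, rfl⟩
    rw [ha] at h2
    exact h2
  have hxN : (x : G) ∈ Subgroup.normalizer ((S : Subgroup G) : Set G) := (hP x.2).2
  have he : (x : G)⁻¹ * φ x = ⁅(x : G)⁻¹, a⁆ := by
    rw [← hag x, ha]
    simp [commutatorElement_def, mul_assoc]
  rw [he]
  exact Subgroup.commutator_mem_commutator (inv_mem hxN) haN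

end Cfsg.Agent.S2807
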