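import Cfsg.Statements.S2944
import Cfsg.Agent.JComp.LocalGroups

set_option autoImplicit false
open Cfsg

namespace Cfsg.Agent.S2944

open CfsgLib.JComp

/-- Let G be a finite group of characteristic 2 type in which every 2-local subgroup is solvable and the centralizer of Ω₁(Z(S)) lies in N_G(S) for every Sylow 2-subgroup S, and let T be a nontrivial 2-subgroup (below, J is the Thompson subgroup generated by the elementary abelian 2-subgroups of largest order) and K a J(T)-component such that J(T) is the Thompson subgroup of every Sylow 2-subgroup of N_G(W_K) containing J(T), where W_K = [Ω₁(Z(O₂(K))), K]. Then N_G(K) = N_G(W_K), and K is a J(Tᵍ)-component for every conjugate Tᵍ of T with J(Tᵍ) ≤ N_G(W_K). -/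
theorem result {G : Type*} [Group G] [Finite G] (hL : Cfsg.IsCharacteristicTwoType G) (hN : ∀ N : Subgroup G, Cfsg.IsTwoLocal N → Group.IsSolvable ↥N)
    (hZ : ∀ S : Sylow 2 G, Subgroup.centralizer (Cfsg.omegaCenterOf (S : Subgroup G) : Set G) ≤ Subgroup.normalizer ((S : Subgroup G) : Set G)) (T : Subgroup G) (hT : IsPGroup 2 ↥T) (hT1 : T ≠ ⊥) (K : Subgroup G) (hK : K ∈ Cfsg.jComponentsZero T) :
    Subgroup.normalizer (K : Set G) = Subgroup.normalizer (Cfsg.wOf K : Set G) ∧
      ∀ g : G, Cfsg.thompsonSubgroupOf 2 (T.map (MulAut.conj g).toMonoidHom) ≤ Subgroup.normalizer (Cfsg.wOf K : Set G) →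
        Cfsg.IsJComponent (T.map (MulAut.conj g).toMonoidHom) K := by
  haveI : Fact (Nat.Prime 2) := ⟨Nat.prime_two⟩
  obtain ⟨hK, hK0⟩ := hK
  set W := Cfsg.wOf K with hW
  have hWp : IsPGroup 2 ↥W := fun w => ⟨1, Subtype.ext (by
    rw [SubmonoidClass.coe_pow, pow_one, pow_two]; exact hK.2.2.2.2.2 w w.2)⟩
  have hW1 : W ≠ ⊥ := fun h => by
    have := hK.2.2.2.2.1
    rw [← hW, h, Subgroup.card_bot] at this
    omega
  have cx := ctx_of_normalizer hL hN hZ hWp hW1
  have hKW : Subgroup.normalizer (K : Set G) ≤ Subgroup.normalizer (W : Set G) := by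
    intro g hg
    rw [Subgroup.mem_normalizer_iff]
    refine fun x => ⟨conj_mem_wOf fun y hy => (Subgroup.mem_normalizer_iff.1 hg y).1 hy, fun h => ?_⟩
    have := conj_mem_wOf (fun y hy =>
      (Subgroup.mem_normalizer_iff.1 ((Subgroup.normalizer (K : Set G)).inv_mem hg) y).1 hy) h
    rwa [show g⁻¹ * (g * x * g⁻¹) * g⁻¹⁻¹ = x by group] at this
  have hKN : K ≤ Subgroup.normalizer (W : Set G) := Subgroup.le_normalizer.trans hKW
  have hJN : Cfsg.thompsonSubgroupOf 2 T ≤ Subgroup.normalizer (W : Set G) := (J_normalizes hK).trans hKW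
  obtain ⟨S, hJS, hS⟩ := exists_sylowTwoIn (isPGroup_thompson hT) hJN
  have hJS' := hK0 S hJS hS
  have hS1 : S ≠ ⊥ := fun h => thompson_ne_bot hK (eq_bot_iff.2 (h ▸ hJS))
  have hKS : Cfsg.IsJComponent S K := CfsgLib.JComp.IsJComponent.of_J_eq hJS' hK
  have hconjN : ∀ g ∈ Subgroup.normalizer (W : Set G),
      (Subgroup.normalizer (W : Set G)).map (MulAut.conj g).toMonoidHom = Subgroup.normalizer (W : Set G) :=
    fun g hg => Subgroup.mem_normalizer_iff_map_conj_eq.1 (Subgroup.le_normalizer hg)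
  have heq : ∀ g ∈ Subgroup.normalizer (W : Set G), K.map (MulAut.conj g).toMonoidHom = K := by
    intro g hg
    have hSg := isSylowTwoIn_map (MulAut.conj g) hS
    rw [hconjN g hg] at hSg
    refine component_unique cx hS hS1 hKS hKN hSg (fun h => hS1 ((Subgroup.map_eq_bot_iff_of_injective _
      (MulAut.conj g).injective).1 h)) (CfsgLib.JComp.IsJComponent.map (MulAut.conj g) hKS) ((Subgroup.map_mono hKN).trans (hconjN g hg).le) ?_
    have hWg : W.map (MulAut.conj g).toMonoidHom = W := Subgroup.mem_normalizer_iff_map_conj_eq.1 hg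
    rw [wOf_map, ← hW, hWg, inf_idem]
    exact hW1
  refine ⟨le_antisymm hKW fun g hg => Subgroup.mem_normalizer_iff_map_conj_eq.2 (heq g hg), fun g hg => ?_⟩
  obtain ⟨h, hh, hhx⟩ := sylow_conj hS
    (isPGroup_thompson (hT.map (MulAut.conj g).toMonoidHom)) hg
  have hh' := (Subgroup.normalizer (W : Set G)).inv_mem hh
  set S' := S.map (MulAut.conj h⁻¹).toMonoidHom with hS'
  have hle : Cfsg.thompsonSubgroupOf 2 (T.map (MulAut.conj g).toMonoidHom) ≤ S' := fun x hx =>
    ⟨h * x * h⁻¹, hhx x hx, by simp [MulAut.conj_apply, mul_assoc]⟩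
  have hJ' : Cfsg.thompsonSubgroupOf 2 S' =
      (Cfsg.thompsonSubgroupOf 2 T).map (MulAut.conj h⁻¹).toMonoidHom := by
    rw [hS', thompson_map, hJS']
  have hfin := card_thompson_conj hJ' hle
  have hKS' := CfsgLib.JComp.IsJComponent.map (MulAut.conj h⁻¹) hKS
  rw [heq h⁻¹ hh'] at hKS'
  exact CfsgLib.JComp.IsJComponent.of_J_eq hfin hKS'

end Cfsg.Agent.S2944
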