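import Cfsg.Statements.S2950
import Cfsg.Agent.JComp.Unique

set_option autoImplicit false
open Cfsg

namespace Cfsg.Agent.S2950

open CfsgLib.JComp

/-- Uniqueness of the maximal 2-local overgroup. Let G be a finite group of characteristic 2 type in which every 2-local subgroup is solvable and the centralizer of Ω₁(Z(S)) lies in N_G(S) for every Sylow 2-subgroup S; suppose O₂(G) = 1, fix a Sylow 2-subgroup S and a 2-local subgroup M containing N_G(J(S)) (J the Thompson subgroup generated by the elementary abelian 2-subgroups of largest order). Let T be maximal (for the order of a largest elementary abelian subgroup, then the order of J(T), then the order of T) among the nontrivial 2-subgroups of M lying in a 2-local subgroup not inside M, and let K be a J(T)-component not contained in M with J(T) the Thompson subgroup of every Sylow 2-subgroup of N_G(W_K) containing J(T), and O₂(⟨K, T⟩) ≠ 1. Then there is exactly one maximal 2-local subgroup L of G containing ⟨K, J(T)⟩;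 moreover K is subnormal in L and T is a Sylow 2-subgroup of L. -/
theorem result {G : Type*} [Group G] [Finite G] (hL : Cfsg.IsCharacteristicTwoType G) (hN : ∀ N : Subgroup G, Cfsg.IsTwoLocal N → Group.IsSolvable ↥N)
    (hZ : ∀ S : Sylow 2 G, Subgroup.centralizer (Cfsg.omegaCenterOf (S : Subgroup G) : Set G) ≤ Subgroup.normalizer ((S : Subgroup G) : Set G)) (hO : Cfsg.pCore 2 G = ⊥) (S : Sylow 2 G) (M : Subgroup G) (hM : Cfsg.IsTwoLocal M)
    (hMJ : Subgroup.normalizer (Cfsg.thompsonSubgroupOf 2 (S : Subgroup G) : Set G) ≤ M) (T : Subgroup G) (hT : T ∈ Cfsg.maxStraddlingTwoSubgroups M)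
    (K : Subgroup G) (hK : K ∈ Cfsg.jComponentsOutside M T) :
    ∃ L : Subgroup G, Cfsg.IsMaximalTwoLocal L ∧ K ⊔ Cfsg.thompsonSubgroupOf 2 T ≤ L ∧
      (∀ L' : Subgroup G, Cfsg.IsMaximalTwoLocal L' → K ⊔ Cfsg.thompsonSubgroupOf 2 T ≤ L' → L' = L) ∧
      (K.subgroupOf L).IsSubnormal ∧ Cfsg.IsSylowTwoIn T L := by
  obtain ⟨⟨hKc, -⟩, hKM, hO2⟩ := hK
  set P := K ⊔ T with hP
  have hPN : P ≤ Subgroup.normalizer (Cfsg.pCoreOf 2 P : Set G) := fun x hx =>
    Subgroup.mem_normalizer_fintype fun y hy =>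
      conj_mem_pCoreOf (fun h hh => P.mul_mem (P.mul_mem hx hh) (P.inv_mem hx)) hy
  obtain ⟨L, hLmax, hle⟩ := exists_maximalTwoLocal (G := G) ⟨_, isPGroup_pCoreOf P, hO2, rfl⟩
  have hKL : K ≤ L := le_sup_left.trans (hPN.trans hle)
  have hTL : T ≤ L := le_sup_right.trans (hPN.trans hle)
  have hX : K ⊔ Cfsg.thompsonSubgroupOf 2 T ≤ L := sup_le hKL ((thompson_le_self T).trans hTL)
  obtain ⟨T₁, hTT₁, hT₁⟩ := exists_sylowTwoIn hT.1.1 hTL
  obtain ⟨-, -, -, g4, -⟩ := straddle_main hL hN hZ S hMJ hT hLmax.1 (fun h => hKM (hKL.trans h)) hT₁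
    ((thompson_le_self T).trans hTT₁)
  have hTs : Cfsg.IsSylowTwoIn T L := (g4 hTL hTT₁).symm ▸ hT₁
  refine ⟨L, hLmax, hX, fun L' hL' hX' => ?_,
    component_subnormal (isTwoLocal_ctx hL hN hZ hLmax.1) hTs hT.1.2.1 hKc hKL, hTs⟩
  rw [(maximal_overgroup hL hN hZ S hMJ hT hKc hKM hL' hX').1,
    ← (maximal_overgroup hL hN hZ S hMJ hT hKc hKM hLmax hX).1]

end Cfsg.Agent.S2950
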