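import Cfsg.Statements.S2951
import Cfsg.Agent.JComp.Final

set_option autoImplicit false
open Cfsg

namespace Cfsg.Agent.S2951

open CfsgLib.JComp

theorem omega_ne_bot {G : Type*} [Group G] [Finite G] {P : Subgroup G} (hP : IsPGroup 2 ↥P) (hP1 : P ≠ ⊥) :
    Cfsg.omegaCenterOf P ≠ ⊥ := by
  haveI : Fact (Nat.Prime 2) := ⟨Nat.prime_two⟩
  intro e
  haveI : Nontrivial ↥P := (Subgroup.nontrivial_iff_ne_bot P).2 hP1
  haveI := hP.center_nontrivial
  obtain ⟨k, hk0, hk⟩ := (hP.to_subgroup (Subgroup.center ↥P)).nontrivial_iff_card.1 inferInstance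
  obtain ⟨y, hy⟩ := exists_prime_orderOf_dvd_card' (G := ↥(Subgroup.center ↥P)) 2
    (by rw [hk]; exact dvd_pow_self 2 (by omega))
  have hy2 : ((y : ↥P) : G) * ((y : ↥P) : G) = 1 := by
    have := pow_orderOf_eq_one y
    rw [hy, pow_two] at this
    simpa using congrArg (fun q : ↥(Subgroup.center ↥P) => ((q : ↥P) : G)) this
  have hyZ : ((y : ↥P) : G) ∈ Cfsg.omegaCenterOf P := mem_omegaCenterOf.2 ⟨(y : ↥P).2,
    fun q hq => congrArg Subtype.val (Subgroup.mem_center_iff.1 y.2 ⟨q, hq⟩), hy2⟩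
  rw [e, Subgroup.mem_bot] at hyZ
  have : y = 1 := Subtype.ext (Subtype.ext hyZ)
  rw [this, orderOf_one] at hy
  omega

/-- Let G be a finite group of characteristic 2 type in which every 2-local subgroup is solvable and the centralizer of Ω₁(Z(S)) lies in N_G(S) for every Sylow 2-subgroup S; suppose O₂(G) = 1, fix a Sylow 2-subgroup S and a 2-local subgroup M containing N_G(J(S)) (J the Thompson subgroup generated by the elementary abelian 2-subgroups of largest order), and put Z = Ω₁(Z(S)). Let T ≤ S be maximal (for the order of a largest elementary abelian subgroup, then the order of J(T), then the order of T) among the nontrivial 2-subgroups of M lying in a 2-local subgroup not inside M, K a J(T)-component not contained in M with J(T) the Thompson subgroup of every Sylow 2-subgroup of N_G(W_K) containing J(T), and O₂(⟨K, T⟩) ≠ 1, L a maximal 2-local subgroup containing ⟨K, J(T)⟩ (there is only one), and Z₀ = Ω₁(Z(J(T))). Then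 Z₀ ∩ W_K ≠ 1, and one of: Z = Z₀ has order 2; Z = Z₀ has order 4 and T = S; Ω₁(Z(T)) = Z₀ has order 4 and C_L(Z₀) has index 2 in N_G(Z₀). -/
theorem result {G : Type*} [Group G] [Finite G] (hL : Cfsg.IsCharacteristicTwoType G) (hN : ∀ N : Subgroup G, Cfsg.IsTwoLocal N → Group.IsSolvable ↥N)
    (hZ : ∀ S : Sylow 2 G, Subgroup.centralizer (Cfsg.omegaCenterOf (S : Subgroup G) : Set G) ≤ Subgroup.normalizer ((S : Subgroup G) : Set G)) (hO : Cfsg.pCore 2 G = ⊥) (S : Sylow 2 G) (M : Subgroup G) (hM : Cfsg.IsTwoLocal M)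
    (hMJ : Subgroup.normalizer (Cfsg.thompsonSubgroupOf 2 (S : Subgroup G) : Set G) ≤ M) (T : Subgroup G) (hT : T ∈ Cfsg.maxStraddlingTwoSubgroups M)
    (hTS : T ≤ (S : Subgroup G)) (K : Subgroup G) (hK : K ∈ Cfsg.jComponentsOutside M T)
    (L : Subgroup G) (hLmax : Cfsg.IsMaximalTwoLocal L) (hKL : K ⊔ Cfsg.thompsonSubgroupOf 2 T ≤ L)
    (Z Z₀ : Subgroup G) (hZdef : Z = Cfsg.omegaCenterOf (S : Subgroup G)) (hZ₀ : Z₀ = Cfsg.omegaCenterOf (Cfsg.thompsonSubgroupOf 2 T)) :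
    Z₀ ⊓ Cfsg.wOf K ≠ ⊥ ∧
      ((Z = Z₀ ∧ Nat.card ↥Z₀ = 2) ∨ (Z = Z₀ ∧ Nat.card ↥Z₀ = 4 ∧ T = (S : Subgroup G)) ∨
        (Cfsg.omegaCenterOf T = Z₀ ∧ Nat.card ↥Z₀ = 4 ∧
          (L ⊓ Subgroup.centralizer (Z₀ : Set G)).relIndex (Subgroup.normalizer (Z₀ : Set G)) = 2)) := by
  classical
  haveI : Fact (Nat.Prime 2) := ⟨Nat.prime_two⟩
  have c : StraddleCtx S M T := ⟨hL, hN, hZ, hMJ, hT⟩
  have hnorm := Cfsg.Agent.S2952.result hL hN hZ hO S M hM hMJ T hT K hK
  have hTK : T ≤ Subgroup.normalizer (K : Set G) :=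
    le_sup_right.trans ((Subgroup.normal_subgroupOf_iff_le_normalizer le_sup_left).1 hnorm)
  obtain ⟨L₀, hL₀, hKL₀, hTL₀⟩ := c.exists_local hK
  obtain ⟨⟨hKc, -⟩, hKM, -⟩ := hK
  have hJT := thompson_le_self T
  obtain rfl : L = L₀ := c.eq_of_maximal hKc hKM hL₀ (sup_le hKL₀ (hJT.trans hTL₀.1)) hLmax hKL
  obtain ⟨hH2, hZ4⟩ := c.bound hO hKc hKM hLmax hTL₀ hKL₀
  have hzc := c.z0_central hO hKc hKM hLmax hTL₀ hKL₀ hTK
  obtain ⟨w, hw, hw1⟩ := c.exists_w hKc
  subst hZ₀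
  have hzeq : z0Of T = Cfsg.omegaCenterOf T := le_antisymm hzc (omegaCenterOf_le T)
  have hOT : Cfsg.pCoreOf 2 L ≤ T := core_le_sylow hTL₀
  have hZle : Z ≤ z0Of T := by
    intro z hz
    rw [hZdef] at hz
    obtain ⟨-, hzc', hz2⟩ := mem_omegaCenterOf.1 hz
    have hzO : z ∈ Cfsg.pCoreOf 2 L := (c.ctx hLmax.1).cent
      (Subgroup.mem_centralizer_iff.2 fun y hy => hzc' y (hTS (hOT hy)))
    rw [hzeq]
    exact mem_omegaCenterOf.2 ⟨hOT hzO, fun y hy => hzc' y (hTS hy), hz2⟩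
  have hS1 : (S : Subgroup G) ≠ ⊥ := fun e => c.T_ne_bot (eq_bot_iff.2 (e ▸ hTS))
  have hZ1 : Z ≠ ⊥ := hZdef ▸ omega_ne_bot S.isPGroup' hS1
  refine ⟨fun e => hw1 (Subgroup.mem_bot.1 (e.le hw)), ?_⟩
  have hp : IsPGroup 2 ↥(z0Of T) := isPGroup_of_sq fun y hy => (mem_omegaCenterOf.1 hy).2.2
  obtain ⟨m, hm⟩ := hp.exists_card_eq
  have hm' : Nat.card ↥(z0Of T) = 2 ∨ Nat.card ↥(z0Of T) = 4 := by
    have h2 : m ≤ 2 := (Nat.pow_le_pow_iff_right (by norm_num : 1 < 2)).1 (by rw [← hm]; simpa using hZ4)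
    have h1 : m ≠ 0 := fun e => by
      rw [e, pow_zero] at hm
      exact hw1 (Subgroup.mem_bot.1 ((Subgroup.eq_bot_of_card_eq _ hm).le hw.1))
    have : m = 1 ∨ m = 2 := by omega
    rcases this with e | e <;> rw [e] at hm <;> [left; right] <;> simpa using hm
  rcases hm' with h2 | h4
  · refine Or.inl ⟨Subgroup.eq_of_le_of_card_ge hZle ?_, h2⟩
    haveI : Nontrivial ↥Z := (Subgroup.nontrivial_iff_ne_bot Z).2 hZ1
    rw [show Nat.card ↥(Cfsg.omegaCenterOf (Cfsg.thompsonSubgroupOf 2 T)) = 2 from h2]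
    exact Finite.one_lt_card
  by_cases hTS' : T = (S : Subgroup G)
  · refine Or.inr (Or.inl ⟨le_antisymm hZle ?_, h4, hTS'⟩)
    rw [hZdef, ← hTS']; exact hzc
  refine Or.inr (Or.inr ⟨hzeq.symm, h4, ?_⟩)
  obtain ⟨x, hx, hxT, hx2, hxn⟩ := exists_normalizing S.isPGroup' hTS fun h => hTS' (le_antisymm hTS h)
  have hxL := c.not_mem_sylow hTL₀ S.isPGroup' hTS hx hxT
  have hxJ : x ∈ Subgroup.normalizer (Cfsg.thompsonSubgroupOf 2 T : Set G) :=
    normalizer_le_thompson T (Subgroup.mem_normalizer_fintype fun y hy => hxn y hy)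
  have hxN : x ∈ Subgroup.normalizer (z0Of T : Set G) :=
    Subgroup.mem_normalizer_fintype fun y hy => conj_mem_omegaCenterOf hxJ hy
  have hX := sup_le hKL₀ (hJT.trans hTL₀.1)
  obtain ⟨h, hh, hh1⟩ : ∃ h ∈ hOf T K, h ≠ 1 := by
    refine (Subgroup.bot_or_exists_ne_one _).resolve_left fun e => ?_
    have h1 := c.card_z0_le hKc
    rw [h4, e, Subgroup.card_bot] at h1
    omega
  have hxh : x * h * x⁻¹ ≠ h := fun e =>
    hh1 (c.disjoint_conj hKc hKM hKc hKM hLmax hX hX hxJ hxL hh (e.symm ▸ hh))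
  obtain ⟨z, hz, hz1⟩ := (Subgroup.bot_or_exists_ne_one _).resolve_left hZ1
  have hxfix : ∀ y ∈ Z, x * y * x⁻¹ = y := fun y hy => by
    rw [hZdef] at hy
    rw [(mem_omegaCenterOf.1 hy).2.1 x hx, mul_inv_cancel_right]
  have hzh : z ≠ h := fun e => hxh (e ▸ hxfix z hz)
  have hsq : ∀ y ∈ z0Of T, y * y = 1 := fun y hy => (mem_omegaCenterOf.1 hy).2.2
  have hfour : ∀ y ∈ z0Of T, y = 1 ∨ y = z ∨ y = h ∨ y = z * h := fun y hy =>
    four_cases h4 hsq (hZle hz) hh.1 hz1 hh1 hzh hy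
  have hxh' : x * h * x⁻¹ = z * h := by
    rcases hfour _ (conj_mem_omegaCenterOf hxJ hh.1) with e | e | e | e
    · exact absurd (by simpa using e) hh1
    · refine absurd ?_ hzh
      exact (mul_left_cancel (mul_right_cancel (e.trans (hxfix z hz).symm))).symm
    · exact absurd e hxh
    · exact e
  have hZz : ∀ y ∈ Z, y = 1 ∨ y = z := fun y hy => by
    rcases hfour y (hZle hy) with e | e | e | e
    · exact Or.inl e
    · exact Or.inr e
    · exact absurd (e ▸ hxfix y hy) hxh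
    · have h1 := hxfix y hy
      rw [e, show x * (z * h) * x⁻¹ = (x * z * x⁻¹) * (x * h * x⁻¹) by group, hxfix z hz] at h1
      exact absurd (mul_left_cancel h1) hxh
  have hno : ∀ y : G, y * z * y⁻¹ ≠ h := by
    intro y e
    set T' := T.map (MulAut.conj y⁻¹).toMonoidHom with hT'
    set K' := K.map (MulAut.conj y⁻¹).toMonoidHom with hK'
    have hK'c : Cfsg.IsJComponent T' K' := CfsgLib.JComp.IsJComponent.map (MulAut.conj y⁻¹) hKc
    have hinZ : ∀ q : G, q * h = h * q → (MulAut.conj y⁻¹).toMonoidHom q ∈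
        Subgroup.centralizer (Cfsg.omegaCenterOf (S : Subgroup G) : Set G) := by
      intro q hq
      refine Subgroup.mem_centralizer_iff.2 fun r hr => ?_
      rcases hZz r (by rw [hZdef]; exact hr) with rfl | rfl
      · simp
      · have := conj_comm y⁻¹ hq.symm
        rw [show y⁻¹ * h * y⁻¹⁻¹ = r by rw [← e]; group] at this
        exact this
    have hKn : K' ≤ Subgroup.normalizer ((S : Subgroup G) : Set G) := by
      rintro _ ⟨q, hq, rfl⟩
      exact hZ S (hinZ q (Subgroup.mem_centralizer_iff.1 hh.2 q hq))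
    have hJn : Cfsg.thompsonSubgroupOf 2 T' ≤ (S : Subgroup G) := by
      have h1 : Cfsg.thompsonSubgroupOf 2 T' ≤ Subgroup.normalizer ((S : Subgroup G) : Set G) := by
        rw [hT', thompson_map]
        rintro _ ⟨q, hq, rfl⟩
        exact hZ S (hinZ q ((mem_omegaCenterOf.1 hh.1).2.1 q hq))
      have hp' : IsPGroup 2 ↥((S : Subgroup G) ⊔ Cfsg.thompsonSubgroupOf 2 T') :=
        S.isPGroup'.to_sup_of_normal_left' (isPGroup_thompson (c.two.map _)) h1
      rw [← S.is_maximal' hp' le_sup_left]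
      exact le_sup_right
    have hK'S : K' ≤ (S : Subgroup G) := by
      rw [← hK'c.2.1]
      refine Subgroup.commutator_le.2 fun p hp j hj => ?_
      rw [commutatorElement_def]
      exact (S : Subgroup G).mul_mem ((Subgroup.mem_normalizer_iff.1 (hKn hp) j).1 (hJn hj))
        ((S : Subgroup G).inv_mem (hJn hj))
    obtain ⟨k, hk, hko, hkQ⟩ := exists_odd_notMem hK'c
    obtain ⟨n, hn⟩ := S.isPGroup' ⟨k, hK'S hk⟩
    have h1 : k = 1 := orderOf_eq_one_iff.1 (Nat.eq_one_of_dvd_coprimes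
      ((Nat.coprime_two_right.2 hko).pow_right n) dvd_rfl
      (orderOf_dvd_of_pow_eq_one (by simpa using congrArg Subtype.val hn)))
    exact hkQ (h1 ▸ (Cfsg.pCoreOf 2 K').one_mem)
  have hgz : ∀ g ∈ Subgroup.normalizer (z0Of T : Set G), g * z * g⁻¹ = z := by
    intro g hg
    rcases hfour _ ((Subgroup.mem_normalizer_iff.1 hg z).1 (hZle hz)) with e | e | e | e
    · exact absurd (by simpa using e) hz1
    · exact e
    · exact absurd e (hno g)
    · refine absurd ?_ (hno (x⁻¹ * g))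
      calc x⁻¹ * g * z * (x⁻¹ * g)⁻¹ = x⁻¹ * (g * z * g⁻¹) * x := by group
        _ = x⁻¹ * (x * h * x⁻¹) * x := by rw [e, hxh']
        _ = h := by group
  have hC : ∀ g ∈ Subgroup.normalizer (z0Of T : Set G),
      g ∈ L ⊓ Subgroup.centralizer (z0Of T : Set G) ↔ g * h * g⁻¹ = h := by
    intro g hg
    refine ⟨fun hgC => by rw [← Subgroup.mem_centralizer_iff.1 hgC.2 h hh.1, mul_inv_cancel_right], fun e => ?_⟩
    have e' : g * h = h * g := mul_inv_eq_iff_eq_mul.1 e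
    refine ⟨c.cent_le hKc hKM hLmax hX hh hh1 (Subgroup.mem_centralizer_singleton_iff.2 e'), ?_⟩
    refine Subgroup.mem_centralizer_iff.2 fun y hy => ?_
    have ez : g * z = z * g := mul_inv_eq_iff_eq_mul.1 (hgz g hg)
    rcases hfour y hy with rfl | rfl | rfl | rfl
    · simp
    · exact ez.symm
    · exact e'.symm
    · exact (((show Commute g z from ez).mul_right (show Commute g h from e')).eq).symm
  rw [Subgroup.relIndex, Subgroup.index_eq_two_iff]
  refine ⟨⟨x, hxN⟩, fun g => ?_⟩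
  show Xor' ((g : G) * x ∈ L ⊓ Subgroup.centralizer (z0Of T : Set G))
    ((g : G) ∈ L ⊓ Subgroup.centralizer (z0Of T : Set G))
  rw [hC _ g.2, hC _ (Subgroup.mul_mem _ g.2 hxN)]
  have hgx : (g : G) * x * h * ((g : G) * x)⁻¹ = z * ((g : G) * h * (g : G)⁻¹) := by
    calc (g : G) * x * h * ((g : G) * x)⁻¹ = (g : G) * (x * h * x⁻¹) * (g : G)⁻¹ := by group
      _ = ((g : G) * z * (g : G)⁻¹) * ((g : G) * h * (g : G)⁻¹) := by rw [hxh']; group
      _ = _ := by rw [hgz _ g.2]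
  rw [hgx]
  rcases hfour _ ((Subgroup.mem_normalizer_iff.1 g.2 h).1 hh.1) with e | e | e | e
  · exact absurd (by simpa using e) hh1
  · refine absurd ?_ hzh
    exact (mul_left_cancel (mul_right_cancel (e.trans (hgz _ g.2).symm))).symm
  · refine Or.inr ⟨e, fun h1 => hz1 ?_⟩
    rw [e] at h1
    exact mul_right_cancel (b := h) (by rw [one_mul]; exact h1)
  · refine Or.inl ⟨by rw [e, ← mul_assoc, hsq z (hZle hz), one_mul], fun h1 => hz1 ?_⟩
    rw [e] at h1
    exact mul_right_cancel (b := h) (by rw [one_mul]; exact h1)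

end Cfsg.Agent.S2951
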