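import Cfsg.Statements.S3084
import Cfsg.Agent.PReduced.PauliNormalizer

set_option autoImplicit false
open Cfsg

namespace Cfsg.Agent.S3084

open CfsgLib.Pauli Matrix
open scoped commutatorElement

theorem zmod_two_cases : ∀ t : ZMod 2, t = 0 ∨ t = 1 := by decide

/-- A form of plus type is the standard one in suitable coordinates. -/
theorem exists_coords {U : Type*} [AddCommGroup U] [Module (ZMod 2) U] [Module.Finite (ZMod 2) U] (n : ℕ)
    (hn : Module.finrank (ZMod 2) U = 2 * n) (q : QuadraticForm (ZMod 2) U)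
    (hnd : (QuadraticMap.polarBilin q).Nondegenerate)
    (hplus : ∃ W : Submodule (ZMod 2) U, Module.finrank (ZMod 2) ↥W = n ∧ ∀ w ∈ W, q w = 0) :
    ∃ e : U ≃ₗ[ZMod 2] UU n, ∀ u, q u = qq (e u) := by
  classical
  obtain ⟨W, hW, hqW⟩ := hplus
  let w : Module.Basis (Fin n) (ZMod 2) W := Module.finBasisOfFinrankEq (ZMod 2) W hW
  set B := QuadraticMap.polarBilin q with hB
  have hBapp : ∀ u v, B u v = q (u + v) - q u - q v := fun u v => rfl
  have hBs : ∀ u v, B u v = B v u := fun u v => by rw [hBapp, hBapp, add_comm u v]; ring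
  have hBd : ∀ u, B u u = 0 := fun u => by
    have h2 : u + u = (0 : U) := by rw [← two_smul (ZMod 2) u, show (2 : ZMod 2) = 0 from rfl, zero_smul]
    rw [hBapp, h2, QuadraticMap.map_zero, zero_sub, sub_eq_add_neg, ← neg_add, CharTwo.add_self_eq_zero, neg_zero]
  have hqadd : ∀ u v, q (u + v) = q u + q v + B u v := fun u v => by rw [hBapp]; ring
  have hqs : ∀ (c : ZMod 2) (u : U), q (c • u) = c * q u := fun c u => by
    rw [QuadraticMap.map_smul, smul_eq_mul]
    have : c * c = c := by revert c; decide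
    rw [this]
  have hBW : ∀ x ∈ W, ∀ y ∈ W, B x y = 0 := fun x hx y hy => by
    rw [hBapp, hqW _ (W.add_mem hx hy), hqW _ hx, hqW _ hy]; simp
  -- dual vectors
  have hsurj : Function.Surjective (W.subtype.dualMap ∘ₗ B) := by
    have hinj : Function.Injective B := by
      rw [injective_iff_map_eq_zero]
      exact fun x hx => hnd.1 x fun y => by rw [hx]; rfl
    have hB' : Function.Surjective B :=
      (LinearMap.injective_iff_surjective_of_finrank_eq_finrank (Subspace.dual_finrank_eq).symm).1 hinj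
    exact (LinearMap.dualMap_surjective_of_injective W.subtype_injective).comp hB'
  choose f hf using fun i => hsurj (w.coord i)
  have hfw : ∀ i j, B (f i) (w j : U) = if i = j then 1 else 0 := fun i j => by
    have := LinearMap.congr_fun (hf i) (w j)
    simp only [LinearMap.comp_apply, LinearMap.dualMap_apply, Submodule.subtype_apply, Module.Basis.coord_apply,
      Module.Basis.repr_self, Finsupp.single_apply] at this
    rw [this]
    simp [eq_comm]
  let c : Fin n → Fin n → ZMod 2 := fun i j => if i = j then q (f i) else if i < j then B (f i) (f j) else 0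
  let f' : Fin n → U := fun i => f i + ∑ j, c i j • (w j : U)
  have hWsum : ∀ a : Fin n → ZMod 2, ∑ j, a j • (w j : U) ∈ W := fun a =>
    W.sum_mem fun j _ => W.smul_mem _ (w j).2
  have hBsum : ∀ i (a : Fin n → ZMod 2), B (f i) (∑ j, a j • (w j : U)) = a i := fun i a => by
    rw [map_sum]
    simp [map_smul, hfw]
  have hf'w : ∀ i j, B (f' i) (w j : U) = if i = j then 1 else 0 := fun i j => by
    rw [map_add, LinearMap.add_apply, hBW _ (hWsum _) _ (w j).2, add_zero, hfw]
  have hqf : ∀ i, q (f' i) = 0 := fun i => by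
    show q (f i + _) = 0
    rw [hqadd, hqW _ (hWsum _), hBsum, add_zero]
    simp [c, CharTwo.add_self_eq_zero]
  have hBf : ∀ i j, B (f' i) (f' j) = 0 := by
    intro i j
    by_cases hij : i = j
    · subst hij; exact hBd _
    show B (f i + _) (f j + _) = 0
    rw [LinearMap.map_add₂, map_add, map_add, hBW _ (hWsum _) _ (hWsum _), hBs (∑ k, _) (f j), hBsum, hBsum]
    simp only [c, if_neg hij, if_neg (Ne.symm hij), add_zero]
    rcases lt_trichotomy i j with h | h | h
    · rw [if_pos h, if_neg (not_lt.2 h.le), add_zero, CharTwo.add_self_eq_zero]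
    · exact absurd h hij
    · rw [if_neg (not_lt.2 h.le), if_pos h, add_zero, hBs (f j), CharTwo.add_self_eq_zero]
  have hqsum : ∀ (s : Finset (Fin n)) (b : Fin n → ZMod 2), q (∑ i ∈ s, b i • f' i) = 0 := by
    intro s b
    induction s using Finset.induction_on with
    | empty => simp
    | insert k s hk ih =>
      rw [Finset.sum_insert hk, hqadd, ih, hqs, hqf, mul_zero, zero_add, zero_add, map_sum]
      refine Finset.sum_eq_zero fun i _ => ?_
      simp [map_smul, hBf]
  let Λ : UU n →ₗ[ZMod 2] U :=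
    { toFun := fun u => ∑ i, u.1 i • (w i : U) + ∑ i, u.2 i • f' i
      map_add' := fun u v => by simp [add_smul, Finset.sum_add_distrib]; abel
      map_smul' := fun a u => by simp [smul_smul, Finset.smul_sum] }
  have hΛ : ∀ u, Λ u = ∑ i, u.1 i • (w i : U) + ∑ i, u.2 i • f' i := fun u => rfl
  have hBΛ : ∀ (b : Fin n → ZMod 2) j, B (∑ i, b i • f' i) (w j : U) = b j := fun b j => by
    rw [map_sum, LinearMap.sum_apply]
    simp [map_smul, hf'w]
  have hinj : Function.Injective Λ := by
    rw [injective_iff_map_eq_zero]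
    intro u hu
    rw [hΛ] at hu
    have hb : u.2 = 0 := funext fun j => by
      have h1 : B (∑ i, u.1 i • (w i : U) + ∑ i, u.2 i • f' i) (w j : U) = 0 := by rw [hu]; simp
      rw [map_add, LinearMap.add_apply, hBW _ (hWsum _) _ (w j).2, zero_add, hBΛ] at h1
      exact h1
    have ha : ∑ i, u.1 i • w i = 0 := by
      apply Subtype.ext
      simp only [hb, Pi.zero_apply, zero_smul, Finset.sum_const_zero, add_zero] at hu
      simpa using hu
    exact Prod.ext (funext fun i => Fintype.linearIndependent_iff.1 w.linearIndependent u.1 ha i) hb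
  have hdim : Module.finrank (ZMod 2) (UU n) = Module.finrank (ZMod 2) U := by
    rw [Module.finrank_prod, Module.finrank_fin_fun, hn]; omega
  refine ⟨(LinearEquiv.ofBijective Λ ⟨hinj, (LinearMap.injective_iff_surjective_of_finrank_eq_finrank hdim).1 hinj⟩).symm, fun u => ?_⟩
  obtain ⟨v, rfl⟩ := (LinearMap.injective_iff_surjective_of_finrank_eq_finrank hdim).1 hinj u
  rw [show (LinearEquiv.ofBijective Λ ⟨hinj, (LinearMap.injective_iff_surjective_of_finrank_eq_finrank hdim).1 hinj⟩).symm (Λ v) = v from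
    (LinearEquiv.ofBijective Λ ⟨hinj, (LinearMap.injective_iff_surjective_of_finrank_eq_finrank hdim).1 hinj⟩).symm_apply_apply v]
  rw [hΛ, hqadd, hqsum, hqW _ (hWsum _), zero_add, zero_add, hBs]
  show _ = v.2 ⬝ᵥ v.1
  rw [map_sum]
  simp only [map_smul, smul_eq_mul, hBΛ]
  exact Finset.sum_congr rfl fun i _ => mul_comm _ _

/-- Let K be a group acting faithfully and linearly on a finite-dimensional vector space U of dimension 2n ≥ 2 over the field with two elements, preserving a quadratic form q whose polar bilinear form is non-degenerate and which vanishes on some n-dimensional subspace (a non-singular form of plus type). Then there is a finite group R with a normal extraspecial 2-subgroup Q of order 2^(2n+1), an isomorphism of R/Q with K, and a surjective homomorphism χ from Q onto (the additive group of) U with kernel the centre of Q, such that χ carries conjugation by any r in R to the action of the image of r in K, and an element a of Q squares to the identity exactly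 when q vanishes at χ(a). -/
theorem result {K : Type*} [Group K] {U : Type*} [AddCommGroup U] [Module (ZMod 2) U] [Module.Finite (ZMod 2) U] (n : ℕ) (hn1 : 1 ≤ n) (hn : Module.finrank (ZMod 2) U = 2 * n) (ρ : Representation (ZMod 2) K U) (hρ : Function.Injective ρ) (q : QuadraticForm (ZMod 2) U) (hq : ∀ (k : K) (u : U), q (ρ k u) = q u) (hnd : (QuadraticMap.polarBilin q).Nondegenerate) (hplus : ∃ W : Submodule (ZMod 2) U, Module.finrank (ZMod 2) ↥W = n ∧ ∀ w ∈ W, q w = 0) : ∃ (R : Type) (_ : Group R) (_ : Finite R) (Q : Subgroup R) (hN : Q.Normal) (e : R ⧸ Q ≃* K) (χ : ↥Q →* Multiplicative U), Cfsg.IsExtraspecial 2 ↥Q ∧ Nat.card ↥Q = 2 ^ (2 * n + 1) ∧ Function.Surjective χ ∧ χ.ker = Subgroup.center ↥Q ∧ (∀ (r : R) (a : ↥Q), χ ⟨r * a * r⁻¹, hN.conj_mem (a : R) a.2 r⟩ = Multiplicative.ofAdd (ρ (e (r : R ⧸ Q)) (Multiplicative.toAdd (χ a)))) ∧ ∀ a : ↥Q, a * a = 1 ↔ q (Multiplicative.toAdd (χ a)) = 0 := by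
  classical
  obtain ⟨e₀, he₀⟩ := exists_coords n hn q hnd hplus
  let ρ' : K →* (UU n ≃ₗ[ZMod 2] UU n) :=
    { toFun := fun k => e₀.symm ≪≫ₗ (LinearEquiv.ofLinearMap (ρ k) (ρ k⁻¹)
        (by rw [← Module.End.mul_eq_comp, ← map_mul, mul_inv_cancel, map_one]; rfl)
        (by rw [← Module.End.mul_eq_comp, ← map_mul, inv_mul_cancel, map_one]; rfl)) ≪≫ₗ e₀
      map_one' := LinearEquiv.ext fun u => by simp
      map_mul' := fun a b => LinearEquiv.ext fun u => by simp }
  have hρ'app : ∀ k u, ρ' k (e₀ u) = e₀ (ρ k u) := fun k u => by simp [ρ']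
  have hρ'inj : Function.Injective ρ' := fun a b h => hρ (LinearMap.ext fun u => e₀.injective (by
    rw [← hρ'app, ← hρ'app, h]))
  have hiso : ∀ σ ∈ ρ'.range, ∀ v, qq (σ v) = qq v := by
    rintro _ ⟨k, rfl⟩ v
    obtain ⟨u, rfl⟩ := e₀.surjective v
    rw [hρ'app, ← he₀, ← he₀, hq]
  haveI : Finite (E n ≃ₗ[ZMod 3] E n) := Finite.of_injective _ DFunLike.coe_injective
  haveI : Finite (UU n ≃ₗ[ZMod 2] UU n) := Finite.of_injective _ DFunLike.coe_injective
  set R₀ := R n ρ'.range
  set Q₀ : Subgroup ↥R₀ := (pauli n).subgroupOf R₀ with hQ₀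
  let π : ↥R₀ →* ↥ρ'.range :=
    ((MonoidHom.snd _ _).comp R₀.subtype).codRestrict ρ'.range fun x => x.2.1
  have hker : π.ker = Q₀ := by
    ext x
    rw [MonoidHom.mem_ker, hQ₀, Subgroup.mem_subgroupOf]
    constructor
    · intro h
      have h2 : (x : (E n ≃ₗ[ZMod 3] E n) × (UU n ≃ₗ[ZMod 2] UU n)).2 = 1 := congrArg Subtype.val h
      refine ⟨h2, eq_P_of_trivial fun u => ?_⟩
      obtain ⟨t, ht⟩ := x.2.2 u
      exact ⟨t, by rw [ht, h2]; rfl⟩
    · intro h; exact Subtype.ext h.1
  haveI hN : Q₀.Normal := hker ▸ π.normal_ker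
  have hπ : Function.Surjective π := by
    intro σ
    obtain ⟨g, hg⟩ := exists_lift (σ : UU n ≃ₗ[ZMod 2] UU n) (hiso _ σ.2)
    exact ⟨⟨(g, σ), σ.2, hg⟩, rfl⟩
  let eq : ↥R₀ ⧸ Q₀ ≃* K := ((QuotientGroup.quotientMulEquivOfEq hker.symm).trans
    (QuotientGroup.quotientKerEquivOfSurjective π hπ)).trans (MonoidHom.ofInjective hρ'inj).symm
  have heq : ∀ r : ↥R₀, ρ' (eq (r : ↥R₀ ⧸ Q₀)) = (r : (E n ≃ₗ[ZMod 3] E n) × (UU n ≃ₗ[ZMod 2] UU n)).2 := fun r => by
    have h1 := (MonoidHom.ofInjective hρ'inj).apply_symm_apply (π r)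
    exact congrArg Subtype.val h1
  have hex : ∀ a : ↥Q₀, ∃ u t, ((a : ↥R₀) : (E n ≃ₗ[ZMod 3] E n) × (UU n ≃ₗ[ZMod 2] UU n)) = (P u t, 1) := by
    intro a
    obtain ⟨h2, u, t, h⟩ := Subgroup.mem_subgroupOf.1 a.2
    exact ⟨u, t, Prod.ext h h2⟩
  choose uOf tOf hOf using hex
  let mkQ : UU n → ZMod 2 → ↥Q₀ := fun u t =>
    ⟨⟨(P u t, 1), P_mem_R _ u t⟩, Subgroup.mem_subgroupOf.2 ⟨rfl, u, t, rfl⟩⟩
  have huOf : ∀ u t, uOf (mkQ u t) = u ∧ tOf (mkQ u t) = t := fun u t => by
    obtain ⟨h1, h2⟩ := P_injective (congrArg Prod.fst (hOf (mkQ u t))).symm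
    exact ⟨h1, h2⟩
  have hmk : ∀ a, mkQ (uOf a) (tOf a) = a := fun a => Subtype.ext (Subtype.ext (hOf a).symm)
  have hmul : ∀ u v t s, mkQ u t * mkQ v s = mkQ (u + v) (t + s + bil u v) := fun u v t s =>
    Subtype.ext (Subtype.ext (Prod.ext (P_mul u v t s) (one_mul _)))
  have hcomm : ∀ u v t s, (mkQ u t * mkQ v s = mkQ v s * mkQ u t ↔ bil u v = bil v u) := by
    intro u v t s
    rw [hmul, hmul, add_comm v u, add_comm s t]
    constructor
    · intro h
      have := congrArg tOf h
      rw [(huOf _ _).2, (huOf _ _).2] at this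
      exact add_left_cancel this
    · intro h; rw [h]
  let χ : ↥Q₀ →* Multiplicative U := MonoidHom.mk' (fun a => Multiplicative.ofAdd (e₀.symm (uOf a))) fun a b => by
    conv_lhs => rw [← hmk a, ← hmk b, hmul, (huOf _ _).1, map_add, ofAdd_add]
  have hχ : ∀ a, Multiplicative.toAdd (χ a) = e₀.symm (uOf a) := fun a => rfl
  -- the centre
  have hcen : ∀ a, a ∈ Subgroup.center ↥Q₀ ↔ uOf a = 0 := by
    intro a
    constructor
    · intro h
      have h1 : ∀ v, bil (uOf a) v = bil v (uOf a) := fun v => by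
        have h2 := Subgroup.mem_center_iff.1 h (mkQ v 0)
        rw [← hmk a] at h2
        exact ((hcomm _ _ _ _).1 h2.symm)
      refine Prod.ext (funext fun i => ?_) (funext fun i => ?_)
      · have := h1 (0, Pi.single i 1)
        simpa [bil, single_dotProduct, eq_comm] using this
      · have := h1 (Pi.single i 1, 0)
        simpa [bil, dotProduct_single] using this
    · intro h
      refine Subgroup.mem_center_iff.2 fun b => ?_
      rw [← hmk a, ← hmk b, h]
      exact (hcomm _ _ _ _).2 (by simp [bil])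
  have hcard : Nat.card ↥Q₀ = 2 ^ (2 * n + 1) := by
    have e : UU n × ZMod 2 ≃ ↥Q₀ :=
      ⟨fun x => mkQ x.1 x.2, fun a => (uOf a, tOf a), fun x => Prod.ext (huOf _ _).1 (huOf _ _).2, hmk⟩
    rw [← Nat.card_congr e, Nat.card_prod, Nat.card_prod, Nat.card_fun, Nat.card_zmod, Nat.card_fin, pow_succ, two_mul, pow_add]
  have hp2 : IsPGroup 2 ↥Q₀ := IsPGroup.of_card hcard
  haveI : Fact (Nat.Prime 2) := ⟨Nat.prime_two⟩
  have hcomle : commutator ↥Q₀ ≤ Subgroup.center ↥Q₀ := by
    rw [commutator_def, Subgroup.commutator_le]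
    intro a _ b _
    rw [hcen]
    have hu : ∀ x y, uOf (x * y) = uOf x + uOf y := fun x y => by
      conv_lhs => rw [← hmk x, ← hmk y, hmul, (huOf _ _).1]
    have hinv : ∀ x, uOf x⁻¹ = uOf x := fun x => by
      have h1 := hu x⁻¹ x
      rw [inv_mul_cancel, show uOf 1 = 0 from by
        have h0 := hu 1 1
        rw [mul_one] at h0
        exact left_eq_add.1 h0] at h1
      calc uOf x⁻¹ = uOf x⁻¹ + (uOf x + uOf x) := by rw [CfsgLib.Pauli.add_self, add_zero]
        _ = uOf x := by rw [← add_assoc, ← h1, zero_add]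
    rw [commutatorElement_def, hu, hu, hu, hinv, hinv]
    rw [add_right_comm (uOf a), CfsgLib.Pauli.add_self, zero_add, CfsgLib.Pauli.add_self]
  have hzero : mkQ 0 0 = 1 := Subtype.ext (Subtype.ext (Prod.ext P_one rfl))
  have hcenle : Subgroup.center ↥Q₀ ≤ commutator ↥Q₀ := by
    intro a ha
    rw [← hmk a, (hcen a).1 ha]
    rcases zmod_two_cases (tOf a) with ht | ht
    · rw [ht, hzero]; exact one_mem _
    · obtain ⟨i⟩ : Nonempty (Fin n) := ⟨⟨0, hn1⟩⟩
      have : mkQ 0 (tOf a) = ⁅mkQ (0, Pi.single i 1) 0, mkQ (Pi.single i 1, 0) 0⁆ := by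
        rw [commutatorElement_def, eq_mul_inv_iff_mul_eq, eq_mul_inv_iff_mul_eq, hmul, hmul, hmul, ht]
        congr 1
        · rw [zero_add, add_comm]
        · simp [bil, dotProduct_single]
      rw [this]
      exact Subgroup.commutator_mem_commutator (Subgroup.mem_top _) (Subgroup.mem_top _)
  have hfrat : frattini ↥Q₀ ≤ Subgroup.center ↥Q₀ := by
    intro a ha
    rw [hcen]
    by_contra hne
    obtain ⟨c, hc⟩ : ∃ c : UU n, bil c (uOf a) + bil (uOf a) c = 1 := by
      by_cases h1 : (uOf a).1 = 0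
      · have h2 : (uOf a).2 ≠ 0 := fun h => hne (Prod.ext h1 h)
        obtain ⟨i, hi⟩ := Function.ne_iff.1 h2
        exact ⟨(Pi.single i 1, 0), by simpa [bil, h1, dotProduct_single] using (zmod_two_cases _).resolve_left hi⟩
      · obtain ⟨i, hi⟩ := Function.ne_iff.1 h1
        exact ⟨(0, Pi.single i 1), by simpa [bil, single_dotProduct] using (zmod_two_cases _).resolve_left hi⟩
    let lam : ↥Q₀ →* Multiplicative (ZMod 2) := MonoidHom.mk'
      (fun x => Multiplicative.ofAdd (bil c (uOf x) + bil (uOf x) c)) fun x y => by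
        conv_lhs => rw [← hmk x, ← hmk y, hmul, (huOf _ _).1, bil_add_left, bil_add_right]
        rw [← ofAdd_add]
        congr 1
        abel
    have hla : lam a ≠ 1 := fun h => by
      have h2 : bil c (uOf a) + bil (uOf a) c = 0 := h
      rw [hc] at h2
      exact one_ne_zero h2
    have hlsurj : Function.Surjective lam := by
      intro y
      rcases (show y = 1 ∨ y = lam a by
        have hy : lam a = Multiplicative.ofAdd 1 := congrArg Multiplicative.ofAdd hc
        rw [hy]
        rcases zmod_two_cases (Multiplicative.toAdd y) with h | h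
        · exact Or.inl (Multiplicative.toAdd.injective h)
        · exact Or.inr (Multiplicative.toAdd.injective h)) with rfl | rfl
      · exact ⟨1, map_one _⟩
      · exact ⟨a, rfl⟩
    have hidx : lam.ker.index = 2 := by
      rw [Subgroup.index_ker, MonoidHom.range_eq_top.2 hlsurj, Subgroup.card_top, Nat.card_congr Multiplicative.toAdd,
        Nat.card_zmod]
    have hco : IsCoatom lam.ker := by
      refine ⟨fun h => by rw [h, Subgroup.index_top] at hidx; norm_num at hidx, fun H hH => ?_⟩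
      have h1 := Subgroup.relIndex_mul_index hH.le
      rw [hidx] at h1
      rcases (Nat.dvd_prime Nat.prime_two).1 (Dvd.intro_left _ h1) with h2 | h2
      · exact Subgroup.index_eq_one.1 h2
      · rw [h2] at h1
        have h3 : lam.ker.relIndex H = 1 := by omega
        exact absurd (Subgroup.relIndex_eq_one.1 h3) hH.not_ge
    exact hla (frattini_le_coatom hco ha)
  have hspec : Cfsg.IsExtraspecial 2 ↥Q₀ := by
    refine ⟨⟨hp2, le_antisymm hfrat (hcenle.trans (CfsgLib.PGroup.commutator_le_frattini hp2)),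
      le_antisymm hcomle hcenle⟩, ?_⟩
    have e : ZMod 2 ≃ ↥(Subgroup.center ↥Q₀) :=
      ⟨fun t => ⟨mkQ 0 t, (hcen _).2 (huOf _ _).1⟩, fun a => tOf a.1, fun t => (huOf _ _).2,
        fun a => Subtype.ext (by
          show mkQ 0 (tOf a.1) = a.1
          conv_lhs => rw [← (hcen _).1 a.2]
          exact hmk _)⟩
    rw [← Nat.card_congr e, Nat.card_zmod]
  refine ⟨↥R₀, inferInstance, inferInstance, Q₀, hN, eq, χ, hspec, hcard, ?_, ?_, ?_, ?_⟩
  · intro x
    refine ⟨mkQ (e₀ (Multiplicative.toAdd x)) 0, Multiplicative.toAdd.injective ?_⟩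
    rw [hχ, (huOf _ _).1, e₀.symm_apply_apply]
  · ext a
    rw [MonoidHom.mem_ker, hcen, ← toAdd_eq_zero, hχ, LinearEquiv.map_eq_zero_iff]
  · intro r a
    apply Multiplicative.toAdd.injective
    rw [toAdd_ofAdd, hχ, hχ]
    obtain ⟨s, hs⟩ := r.2.2 (uOf a)
    have h1 : (⟨r * a * r⁻¹, hN.conj_mem (a : ↥R₀) a.2 r⟩ : ↥Q₀) =
        mkQ ((r : (E n ≃ₗ[ZMod 3] E n) × (UU n ≃ₗ[ZMod 2] UU n)).2 (uOf a)) (tOf a + s) := by
      refine Subtype.ext (Subtype.ext (Prod.ext ?_ ?_))
      · show (r : (E n ≃ₗ[ZMod 3] E n) × (UU n ≃ₗ[ZMod 2] UU n)).1 *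
          ((a : ↥R₀) : (E n ≃ₗ[ZMod 3] E n) × (UU n ≃ₗ[ZMod 2] UU n)).1 *
          ((r : (E n ≃ₗ[ZMod 3] E n) × (UU n ≃ₗ[ZMod 2] UU n)).1)⁻¹ = P _ _
        rw [hOf a]
        show _ * P (uOf a) (tOf a) * _ = _
        rw [P_eq_mul (uOf a), ← mul_assoc, P_central, mul_assoc (P 0 (tOf a)), mul_assoc (P 0 (tOf a)), hs, P_mul]
        simp [bil]
      · show _ * ((a : ↥R₀) : (E n ≃ₗ[ZMod 3] E n) × (UU n ≃ₗ[ZMod 2] UU n)).2 * _ = 1
        rw [hOf a]
        show _ * 1 * _ = _
        rw [mul_one]; exact mul_inv_cancel _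
    rw [h1, (huOf _ _).1, ← heq]
    apply e₀.injective
    rw [e₀.apply_symm_apply, ← hρ'app, e₀.apply_symm_apply]
  · intro a
    rw [hχ, he₀, e₀.apply_symm_apply]
    conv_lhs => rw [← hmk a, hmul, CfsgLib.Pauli.add_self, CharTwo.add_self_eq_zero, zero_add, ← hzero]
    constructor
    · intro h
      have := congrArg tOf h
      rw [(huOf _ _).2, (huOf _ _).2] at this
      exact this
    · intro h; rw [show bil (uOf a) (uOf a) = 0 from h]

end Cfsg.Agent.S3084
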