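import Cfsg.Statements.S3104
import Cfsg.Agent.RankFourTwo.Image

set_option autoImplicit false
open Cfsg

namespace Cfsg.Agent.S3104

/-- Let X be a finite nonsolvable 2-constrained group with no nontrivial normal subgroup of odd order such that O₂(X) has sectional 2-rank at most 4, and write Q for X/O₂(X). Then Q is isomorphic to the projective special linear group of dimension 3 over the field with 2 elements, to an alternating group of degree n with 5 ≤ n ≤ 8, to a symmetric group of degree n with 5 ≤ n ≤ 7, or else O₃(Q) has order 3 and Q/O₃(Q) is isomorphic to the alternating or the symmetric group of degree 5 (so Q is the direct product of a group of order 3 with the alternating group of degree 5, or an extension of that direct product by a group of order 2). If moreover X itself has sectional 2-rank at most 4, then Q is not isomorphic to the symmetric group of degree 6 or 7 nor to the alternating group of degree 8. -/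
theorem result {X : Type*} [Group X] [Finite X] (hns : ¬ Group.IsSolvable X) (hc : Cfsg.IsPConstrained 2 X) (hO : Cfsg.oddCore X = ⊥)
    (h4 : Cfsg.SectionalPRankLE 2 4 ↥(Cfsg.pCore 2 X)) :
    ((∃ (F : Type) (_ : Field F) (_ : Fintype F), Fintype.card F = 2 ∧
          Nonempty (X ⧸ Cfsg.pCore 2 X ≃* Matrix.ProjectiveSpecialLinearGroup (Fin 3) F)) ∨
        (∃ n : ℕ, 5 ≤ n ∧ n ≤ 8 ∧ Nonempty (X ⧸ Cfsg.pCore 2 X ≃* ↥(alternatingGroup (Fin n)))) ∨
        (∃ n : ℕ, 5 ≤ n ∧ n ≤ 7 ∧ Nonempty (X ⧸ Cfsg.pCore 2 X ≃* Equiv.Perm (Fin n))) ∨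
        (Nat.card ↥(Cfsg.pCore 3 (X ⧸ Cfsg.pCore 2 X)) = 3 ∧
          (Nonempty ((X ⧸ Cfsg.pCore 2 X) ⧸ Cfsg.pCore 3 (X ⧸ Cfsg.pCore 2 X) ≃* ↥(alternatingGroup (Fin 5))) ∨
            Nonempty ((X ⧸ Cfsg.pCore 2 X) ⧸ Cfsg.pCore 3 (X ⧸ Cfsg.pCore 2 X) ≃* Equiv.Perm (Fin 5))))) ∧
      (Cfsg.SectionalPRankLE 2 4 X →
        ¬ (Nonempty (X ⧸ Cfsg.pCore 2 X ≃* Equiv.Perm (Fin 6)) ∨ Nonempty (X ⧸ Cfsg.pCore 2 X ≃* Equiv.Perm (Fin 7)) ∨
            Nonempty (X ⧸ Cfsg.pCore 2 X ≃* ↥(alternatingGroup (Fin 8))))) := by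
  classical
  haveI : Fact (Nat.Prime 2) := ⟨Nat.prime_two⟩
  obtain ⟨f₀, hf₀⟩ := Cfsg.Agent.S3103.result hc hO h4
  haveI hRn : (Cfsg.pCore 2 X).Normal := Subgroup.sSup_normal _ fun _ h => h.1
  set f : X ⧸ Cfsg.pCore 2 X →* Equiv.Perm (Fin 8) := (alternatingGroup (Fin 8)).subtype.comp f₀ with hfdef
  have hf : Function.Injective f := Subtype.val_injective.comp hf₀
  have hev : ∀ q, f q ∈ alternatingGroup (Fin 8) := fun q => (f₀ q).2
  have hQns : ¬ Group.IsSolvable (X ⧸ Cfsg.pCore 2 X) := by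
    intro hs
    haveI := hs
    haveI : Group.IsNilpotent (Cfsg.pCore 2 X) := (CfsgLib.PCore.isPGroup_pCore 2 X).isNilpotent
    exact hns (Group.isSolvable_of_ker_le_range (Cfsg.pCore 2 X).subtype (QuotientGroup.mk' (Cfsg.pCore 2 X))
      (by rw [QuotientGroup.ker_mk', Subgroup.range_subtype]))
  haveI : Nontrivial (X ⧸ Cfsg.pCore 2 X) := by
    by_contra h
    haveI := not_nontrivial_iff_subsingleton.mp h
    exact hQns inferInstance
  have h2Q : Cfsg.pCore 2 (X ⧸ Cfsg.pCore 2 X) = ⊥ := CfsgLib.PCore.pCore_quotient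
  refine ⟨?_, ?_⟩
  · by_cases hO' : Cfsg.pPrimeCore 2 (X ⧸ Cfsg.pCore 2 X) = ⊥
    · rcases CfsgLib.A8GL4.classify ⟨h2Q, hO'⟩ f hf hev with h | h | h | ⟨⟨e⟩⟩
      · exact Or.inr (Or.inl h)
      · exact Or.inr (Or.inr (Or.inl ⟨5, le_rfl, by norm_num, h⟩))
      · exact Or.inr (Or.inr (Or.inl ⟨6, by norm_num, by norm_num, h⟩))
      · refine Or.inl ⟨ZMod 2, inferInstance, inferInstance, ZMod.card 2, ?_⟩
        haveI := CfsgLib.SLn.isSimpleGroup_PSL (ι := Fin 3) (F := ZMod 2) (Or.inl (by simp))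
        have hcard : Nat.card (Matrix.ProjectiveSpecialLinearGroup (Fin 3) (ZMod 2)) = 168 := by
          have h := CfsgLib.SLn.card_PSL_eq (ZMod 2) 3 (by norm_num)
          rw [ZMod.card, Fin.prod_univ_three] at h
          simpa using h
        obtain ⟨e'⟩ := CfsgLib.A8GL4.iso_GL3 hcard
        exact ⟨e.trans e'.symm⟩
    · obtain ⟨h3, -, h⟩ := CfsgLib.RankFourTwo.radical_cases hQns f hf hev hO'
      exact Or.inr (Or.inr (Or.inr ⟨h3, h⟩))
  · intro h4X hbad
    have hA8 : Nat.card (alternatingGroup (Fin 8)) = 20160 := by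
      rw [nat_card_alternatingGroup, Nat.card_eq_fintype_card, Fintype.card_fin]; rfl
    have hperm : ∀ n, Nat.card (Equiv.Perm (Fin n)) = n.factorial := fun n => by
      rw [Nat.card_perm, Nat.card_fin]
    have hQ : Nat.card (X ⧸ Cfsg.pCore 2 X) = 720 ∨ Nat.card (X ⧸ Cfsg.pCore 2 X) = 20160 := by
      rcases hbad with ⟨⟨e⟩⟩ | ⟨⟨e⟩⟩ | ⟨⟨e⟩⟩
      · exact Or.inl (by rw [Nat.card_congr e.toEquiv, hperm]; rfl)
      · exfalso
        haveI : IsSimpleGroup (alternatingGroup (Fin 8)) := alternatingGroup.isSimpleGroup (by simp)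
        have hr : Nat.card f₀.range = 5040 := by
          rw [← Nat.card_congr (MonoidHom.ofInjective hf₀).toEquiv, Nat.card_congr e.toEquiv, hperm]; rfl
        have hi : f₀.range.index = 4 := by
          have := f₀.range.card_mul_index
          rw [hr, hA8] at this
          omega
        have hne : f₀.range ≠ ⊤ := fun h => by rw [h, Subgroup.index_top] at hi; norm_num at hi
        have := Nat.card_le_card_of_injective _ (CfsgLib.H29.Dickson.toPermHom_injective hne)
        rw [hA8, Nat.card_perm, show Nat.card (alternatingGroup (Fin 8) ⧸ f₀.range) = 4 from hi] at this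
        norm_num [Nat.factorial] at this
      · exact Or.inr (by rw [Nat.card_congr e.toEquiv, hA8])
    obtain ⟨A, π, hker, hlin⟩ := CfsgLib.RankFourTwo.exists_lin hc hO h4 (by omega)
    have eR : (X ⧸ Cfsg.pCore 2 X) ≃* A.range :=
      (QuotientGroup.quotientMulEquivOfEq hker.symm).trans (QuotientGroup.quotientKerEquivRange A)
    rcases hQ with h720 | hbig
    · have hT : CfsgLib.A8GL4.TrivCores A.range := by
        refine CfsgLib.A8GL4.TrivCores.of_equiv ⟨h2Q, ?_⟩ eR
        by_contra hne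
        obtain ⟨-, hc', -⟩ := CfsgLib.RankFourTwo.radical_cases hQns f hf hev hne
        omega
      obtain ⟨a, b, hab, hiso⟩ := CfsgLib.RankFourTwo.exists_pair A.range
        (by rw [← Nat.card_congr eR.toEquiv, h720]) hT
      exact CfsgLib.RankFourTwo.not_rank_four_of_isometries h4X hlin hab hiso
    · have htop : A.range = ⊤ := Subgroup.eq_top_of_card_eq _ (by
        rw [← Nat.card_congr eR.toEquiv, hbig, CfsgLib.A8GL4.card_SL])
      exact CfsgLib.RankFourTwo.not_rank_four_of_isometries h4X hlin (show (0 : Fin 8) ≠ 1 by decide)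
        (fun g _ => htop ▸ Subgroup.mem_top g)

end Cfsg.Agent.S3104
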