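import Cfsg.Statements.S3106
import Cfsg.Agent.RankFourTwo.Five.Main

set_option autoImplicit false
open Cfsg

namespace Cfsg.Agent.S3106

/-- Let X be a finite nonsolvable 2-constrained group with no nontrivial normal subgroup of odd order and of sectional 2-rank at most 4, and suppose X/O₂(X) contains a subgroup isomorphic to the alternating group of degree 5. Then O₂(X) is elementary abelian of order 16, or O₂(X) is a central product of a quaternion group of order 8 and a dihedral group of order 8 (it has order 32 and is generated by two elementwise-commuting subgroups, one quaternion of order 8 and one dihedral of order 8, meeting in the centre). -/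
theorem result {X : Type*} [Group X] [Finite X] (hns : ¬ Group.IsSolvable X) (hc : Cfsg.IsPConstrained 2 X) (hO : Cfsg.oddCore X = ⊥)
    (h4 : Cfsg.SectionalPRankLE 2 4 X)
    (hQ : ∃ A : Subgroup (X ⧸ Cfsg.pCore 2 X), Nonempty (↥A ≃* ↥(alternatingGroup (Fin 5)))) :
    (Cfsg.IsElementaryAbelian 2 (Cfsg.pCore 2 X) ∧ Nat.card ↥(Cfsg.pCore 2 X) = 16) ∨
      (Nat.card ↥(Cfsg.pCore 2 X) = 32 ∧ ∃ A B : Subgroup ↥(Cfsg.pCore 2 X),
        Nonempty (↥A ≃* QuaternionGroup 2) ∧ Nonempty (↥B ≃* DihedralGroup 4) ∧ (∀ a ∈ A, ∀ b ∈ B, a * b = b * a) ∧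
          A ⊔ B = ⊤ ∧ A ⊓ B = Subgroup.center ↥(Cfsg.pCore 2 X)) := by
  classical
  haveI : Fact (Nat.Prime 2) := ⟨Nat.prime_two⟩
  obtain ⟨A₀, ⟨e₀⟩⟩ := hQ
  have hC := (CfsgLib.PCore.isPConstrained_iff_of_core_eq_bot hO).mp hc
  set R := Cfsg.pCore 2 X with hR
  haveI hRn : R.Normal := Subgroup.sSup_normal _ fun _ h => h.1
  have hRp : IsPGroup 2 R := CfsgLib.PCore.isPGroup_pCore 2 X
  let M : Subgroup X := A₀.comap (QuotientGroup.mk' R)
  have hRM : R ≤ M := fun x hx => by
    show QuotientGroup.mk' R x ∈ A₀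
    rw [show QuotientGroup.mk' R x = 1 from (QuotientGroup.eq_one_iff x).mpr hx]
    exact A₀.one_mem
  let f : M →* alternatingGroup (Fin 5) := e₀.toMonoidHom.comp ((QuotientGroup.mk' R).subgroupComap A₀)
  have hf : Function.Surjective f := e₀.surjective.comp
    ((QuotientGroup.mk' R).subgroupComap_surjective_of_surjective A₀ (QuotientGroup.mk'_surjective R))
  have hker : f.ker = R.subgroupOf M := by
    ext x
    rw [MonoidHom.mem_ker, Subgroup.mem_subgroupOf]
    show e₀ ((QuotientGroup.mk' R).subgroupComap A₀ x) = 1 ↔ _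
    rw [EmbeddingLike.map_eq_one_iff]
    exact ⟨fun h => (QuotientGroup.eq_one_iff _).mp (congrArg Subtype.val h),
      fun h => Subtype.ext ((QuotientGroup.eq_one_iff _).mpr h)⟩
  haveI : (R.subgroupOf M).Normal := hRn.subgroupOf M
  have hCM : Subgroup.centralizer (R.subgroupOf M : Set M) ≤ R.subgroupOf M := by
    intro x hx
    rw [Subgroup.mem_subgroupOf]
    refine hC (Subgroup.mem_centralizer_iff.mpr fun r hr => ?_)
    exact congrArg Subtype.val (Subgroup.mem_centralizer_iff.mp hx ⟨r, hRM hr⟩ (Subgroup.mem_subgroupOf.mpr hr))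
  have hcard : Nat.card (R.subgroupOf M) = Nat.card R := Nat.card_congr (Subgroup.subgroupOfEquivOfLe hRM).toEquiv
  rcases CfsgLib.RankFourTwo.Five.radical_over_five (CfsgLib.RankTwoTwo.Four.sectional_of_subgroup h4 M)
      (hRp.of_equiv (Subgroup.subgroupOfEquivOfLe hRM).symm) hCM f hf hker with
    ⟨hsq, hcomm, h16⟩ | ⟨h32, A, B, ⟨eA⟩, ⟨eB⟩, hAB, hsup, hcen⟩
  · refine Or.inl ⟨⟨⟨⟨fun a b => ?_⟩⟩, fun a ha => ?_⟩, hcard ▸ h16⟩
    · exact Subtype.ext (congrArg Subtype.val
        (hcomm ⟨a, hRM a.2⟩ (Subgroup.mem_subgroupOf.mpr a.2) ⟨b, hRM b.2⟩ (Subgroup.mem_subgroupOf.mpr b.2)) : _)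
    · exact (congrArg Subtype.val (hsq ⟨a, hRM ha⟩ (Subgroup.mem_subgroupOf.mpr ha)) : _)
  · refine Or.inr ⟨hcard ▸ h32, ?_⟩
    let j : (R.subgroupOf M) ≃* R := Subgroup.subgroupOfEquivOfLe hRM
    have hA : A ≤ R.subgroupOf M := hsup ▸ le_sup_left
    have hB : B ≤ R.subgroupOf M := hsup ▸ le_sup_right
    refine ⟨(A.subgroupOf (R.subgroupOf M)).map j.toMonoidHom, (B.subgroupOf (R.subgroupOf M)).map j.toMonoidHom,
      ⟨(((Subgroup.equivMapOfInjective _ j.toMonoidHom j.injective).symm.trans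
        (Subgroup.subgroupOfEquivOfLe hA)).trans eA)⟩,
      ⟨(((Subgroup.equivMapOfInjective _ j.toMonoidHom j.injective).symm.trans
        (Subgroup.subgroupOfEquivOfLe hB)).trans eB)⟩, ?_, ?_, ?_⟩
    · rintro _ ⟨a, ha, rfl⟩ _ ⟨b, hb, rfl⟩
      rw [← map_mul, ← map_mul]
      exact congrArg _ (Subtype.ext (hAB a ha b hb))
    · rw [← Subgroup.map_sup, ← Subgroup.subgroupOf_sup hA hB, hsup, Subgroup.subgroupOf_self,
        Subgroup.map_top_of_surjective _ j.surjective]
    · rw [← Subgroup.map_inf _ _ _ j.injective]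
      ext x
      obtain ⟨x, rfl⟩ := j.surjective x
      rw [Subgroup.mem_center_iff]
      constructor
      · rintro ⟨w, ⟨hwA, hwB⟩, e⟩ g
        obtain ⟨g, rfl⟩ := j.surjective g
        obtain rfl := j.injective e
        rw [← map_mul, ← map_mul]
        exact congrArg _ (Subtype.ext (((hcen w w.2).mpr ⟨hwA, hwB⟩ g g.2).symm))
      · intro h
        obtain ⟨h1, h2⟩ := (hcen x x.2).mp fun g hg => by
          have := h (j ⟨g, hg⟩)
          rw [← map_mul, ← map_mul] at this
          exact (congrArg Subtype.val (j.injective this)).symm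
        exact ⟨x, ⟨h1, h2⟩, rfl⟩

end Cfsg.Agent.S3106
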