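import Cfsg.Statements.S3356
-- import your own Cfsg.Agent.* helpers here

set_option autoImplicit false
open Cfsg

namespace Cfsg.Agent.S3356


open scoped Pointwise

/-- A finite set stable under a finite group, all of whose orbits have `e` elements, has size divisible by `e`. -/
theorem dvd_ncard_of_orbits {J β : Type*} [Group J] [MulAction J β] (e : ℕ) (X : Set β) (hX : X.Finite)
    (hinv : ∀ (j : J), ∀ x ∈ X, j • x ∈ X) (he : ∀ x ∈ X, (MulAction.orbit J x).ncard = e) : e ∣ X.ncard := by
  induction hn : X.ncard using Nat.strong_induction_on generalizing X with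
  | _ n ih =>
    subst hn
    rcases X.eq_empty_or_nonempty with rfl | ⟨x, hx⟩
    · simp
    have hsub : MulAction.orbit J x ⊆ X := by rintro _ ⟨j, rfl⟩; exact hinv j x hx
    have hlt : (X \ MulAction.orbit J x).ncard < X.ncard :=
      Set.ncard_lt_ncard ⟨fun y hy => hy.1, fun h => (h hx).2 (MulAction.mem_orbit_self x)⟩ hX
    have h1 := ih _ hlt (X \ MulAction.orbit J x) hX.sdiff (by
      rintro j y ⟨hy, hy'⟩
      exact ⟨hinv j y hy, fun ⟨i, hi⟩ => hy' ⟨j⁻¹ * i, show (j⁻¹ * i) • x = y by rw [mul_smul, show i • x = j • y from hi, inv_smul_smul]⟩⟩) (fun y hy => he y hy.1) rfl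
    rw [← Set.ncard_sdiff_add_ncard_of_subset hsub hX, he x hx]
    exact Nat.dvd_add h1 dvd_rfl

/-- Let G be a finite 3/2-transitive permutation group: G acts faithfully and transitively on a finite set, the point stabilizers are non-trivial, and for each point a all orbits of G_a on the remaining points have the same size. Suppose G has a regular normal subgroup N and G is not a Frobenius group (some two-point stabilizer is non-trivial). Then N is an elementary abelian p-group for some prime p, and every non-trivial normal subgroup of G contains N (so N is the unique minimal normal subgroup). -/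
theorem result {G Ω : Type*} [Group G] [Finite G]
    [MulAction G Ω] [FaithfulSMul G Ω] [Finite Ω] (htrans : MulAction.IsPretransitive G Ω)
    (hne : ∀ a : Ω, MulAction.stabilizer G a ≠ ⊥)
    (hhalf : ∀ a b c : Ω, b ≠ a → c ≠ a →
      Nat.card (MulAction.orbit (MulAction.stabilizer G a) b) = Nat.card (MulAction.orbit (MulAction.stabilizer G a) c))
    (N : Subgroup G) [hN : N.Normal] (hNt : MulAction.IsPretransitive N Ω) (hNr : ∀ a : Ω, MulAction.stabilizer N a = ⊥)
    (hnotF : ∃ a b : Ω, a ≠ b ∧ MulAction.stabilizer G a ⊓ MulAction.stabilizer G b ≠ ⊥) :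
    (∃ p : ℕ, p.Prime ∧ IsMulCommutative N ∧ ∀ x ∈ N, x ^ p = 1) ∧
    (∀ M : Subgroup G, M.Normal → M ≠ ⊥ → N ≤ M) := by
  classical
  obtain ⟨a, b, hab, hSab⟩ := hnotF
  set H := MulAction.stabilizer G a with hH
  have hsur : ∀ c : Ω, ∃ n : N, (n : G) • a = c := fun c => MulAction.exists_smul_eq N a c
  have hinj : ∀ m n : N, (m : G) • a = (n : G) • a → m = n := by
    intro m n h
    have : n⁻¹ * m ∈ MulAction.stabilizer N a := by
      show ((n⁻¹ * m : N) : G) • a = a
      rw [Subgroup.coe_mul, mul_smul, h, ← mul_smul, Subgroup.coe_inv, inv_mul_cancel, one_smul]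
    rw [hNr a, Subgroup.mem_bot, inv_mul_eq_one] at this
    exact this.symm
  let φ : H →* MulAut N := MulAut.conjNormal.comp H.subtype
  letI : MulDistribMulAction H N := MulDistribMulAction.compHom N φ
  have hact : ∀ (h : H) (n : N), ((h • n : N) : G) = (h : G) * n * (h : G)⁻¹ := fun h n =>
    MulAut.conjNormal_apply _ _
  have hpt : ∀ (h : H) (n : N), (h : G) • ((n : G) • a) = ((h • n : N) : G) • a := by
    intro h n
    rw [hact, mul_smul, mul_smul, show (h : G)⁻¹ • a = a from (inv_mem h.2 : (h : G)⁻¹ ∈ H)]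
  have horb : ∀ n : N, MulAction.orbit H ((n : G) • a) = (fun m : N => (m : G) • a) '' MulAction.orbit H n := by
    intro n
    ext c
    constructor
    · rintro ⟨h, rfl⟩; exact ⟨h • n, ⟨h, rfl⟩, (hpt h n).symm⟩
    · rintro ⟨_, ⟨h, rfl⟩, rfl⟩; exact ⟨h, hpt h n⟩
  have hne_a : ∀ n : N, n ≠ 1 → (n : G) • a ≠ a := fun n hn h =>
    hn (hinj n 1 (by rw [h, Subgroup.coe_one, one_smul]))
  obtain ⟨n₀, rfl⟩ := hsur b
  have hn₀ : n₀ ≠ 1 := fun h => hab (by rw [h, Subgroup.coe_one, one_smul])
  have hcard : ∀ n : N, n ≠ 1 → (MulAction.orbit H n).ncard = (MulAction.orbit H n₀).ncard := by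
    intro n hn
    have h2 := hhalf a _ _ (hne_a n hn) (hne_a n₀ hn₀)
    rw [Nat.card_coe_set_eq, Nat.card_coe_set_eq, horb, horb,
      Set.ncard_image_of_injective _ (fun m m' => hinj m m'),
      Set.ncard_image_of_injective _ (fun m m' => hinj m m')] at h2
    exact h2
  set k := (MulAction.orbit H n₀).ncard with hk
  have hkcop : k.Coprime (Nat.card N) := by
    have h1 : k ∣ ({1}ᶜ : Set N).ncard := dvd_ncard_of_orbits k _ (Set.toFinite _)
      (fun h x hx e => hx (smul_left_cancel h ((show h • x = 1 from e).trans (smul_one h).symm))) (fun x hx => hcard x hx)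
    rw [Set.ncard_compl, Set.ncard_singleton] at h1
    have hpos : 0 < Nat.card N := Nat.card_pos
    refine Nat.eq_one_of_dvd_one ?_
    have h2 := Nat.dvd_sub (Nat.gcd_dvd_right k (Nat.card N)) ((Nat.gcd_dvd_left k (Nat.card N)).trans h1)
    rwa [show Nat.card N - (Nat.card N - 1) = 1 by omega] at h2
  let S : N → Subgroup H := fun x => MulAction.stabilizer H x
  have hScard : ∀ x : N, x ≠ 1 → Nat.card (S x) * k = Nat.card H := fun x hx => by
    rw [← hcard x hx, ← MulAction.index_stabilizer, Subgroup.card_mul_index]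
  have heqS : ∀ x y : N, x ≠ 1 → y ≠ 1 → S x ≤ S y → S x = S y := by
    intro x y hx hy h
    refine SetLike.coe_injective (Set.eq_of_subset_of_ncard_le h (le_of_eq ?_) (Set.toFinite _))
    rw [← Nat.card_coe_set_eq, ← Nat.card_coe_set_eq]
    have hkpos : 0 < k := (Set.ncard_pos (Set.toFinite _)).2 ⟨n₀, MulAction.mem_orbit_self n₀⟩
    exact Nat.eq_of_mul_eq_mul_right hkpos ((hScard y hy).trans (hScard x hx).symm)
  -- a set of size dividing |N| permuted as a block has constant stabilisers
  have hblock : ∀ (X : Set N), X.ncard ∣ Nat.card N → (1 : N) ∉ X →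
      (∀ h : H, ∀ y ∈ X, h • y ∈ X → h • X = X) → ∀ x ∈ X, ∀ y ∈ X, S x = S y := by
    intro X hXd hX1 hXb x hx y hy
    refine heqS x y (fun e => hX1 (e ▸ hx)) (fun e => hX1 (e ▸ hy)) ?_
    set J := MulAction.stabilizer H X with hJ
    have hle : ∀ z ∈ X, S z ≤ J := fun z hz h hh => hXb h z hz (by rw [show h • z = z from hh]; exact hz)
    have hJinv : ∀ (j : J), ∀ z ∈ X, j • z ∈ X := by
      intro j z hz
      have := Set.smul_mem_smul_set (a := (j : H)) hz
      rwa [show (j : H) • X = X from j.2] at this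
    have hJorb : ∀ z ∈ X, (MulAction.orbit J z).ncard * Nat.card (S z) = Nat.card J := by
      intro z hz
      rw [← MulAction.index_stabilizer, mul_comm]
      have : MulAction.stabilizer J z = (S z).subgroupOf J := by ext j; rfl
      rw [this, ← Nat.card_congr (Subgroup.subgroupOfEquivOfLe (hle z hz)).toEquiv, Subgroup.card_mul_index]
    set e := (MulAction.orbit J x).ncard with he
    have h1 : e ∣ X.ncard := by
      refine dvd_ncard_of_orbits e X (Set.toFinite _) hJinv fun z hz => ?_
      have hz1 : z ≠ 1 := fun e => hX1 (e ▸ hz)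
      have hx1 : x ≠ 1 := fun e => hX1 (e ▸ hx)
      have h3 : Nat.card (S z) = Nat.card (S x) := by
        rw [show Nat.card (S z) = Nat.card (S x) from ?_]
        have hkpos : 0 < k := (Set.ncard_pos (Set.toFinite _)).2 ⟨n₀, MulAction.mem_orbit_self n₀⟩
        exact Nat.eq_of_mul_eq_mul_right hkpos ((hScard z hz1).trans (hScard x hx1).symm)
      have h4 := (hJorb z hz).trans (hJorb x hx).symm
      rw [h3] at h4
      exact Nat.eq_of_mul_eq_mul_right Nat.card_pos h4
    have h2 : e ∣ k := by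
      have h3 := Subgroup.card_subgroup_dvd_card J
      rw [← hJorb x hx, ← hScard x (fun e => hX1 (e ▸ hx)), mul_comm (Nat.card (S x))] at h3
      exact Nat.dvd_of_mul_dvd_mul_right Nat.card_pos h3
    have he1 : e = 1 := Nat.eq_one_of_dvd_coprimes hkcop h2 (h1.trans hXd)
    intro h hh
    have h5 : Nat.card (S y) = Nat.card J := by
      have h6 := hJorb x hx
      rw [← he, he1, one_mul] at h6
      have hkpos : 0 < k := (Set.ncard_pos (Set.toFinite _)).2 ⟨n₀, MulAction.mem_orbit_self n₀⟩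
      rw [← h6]
      exact Nat.eq_of_mul_eq_mul_right hkpos
        ((hScard y (fun e => hX1 (e ▸ hy))).trans (hScard x (fun e => hX1 (e ▸ hx))).symm)
    have h7 : S y = J := SetLike.coe_injective (Set.eq_of_subset_of_ncard_le (hle y hy)
      (by rw [← Nat.card_coe_set_eq, ← Nat.card_coe_set_eq]; exact h5.ge) (Set.toFinite _))
    rw [h7]; exact hle x hx hh
  have hclass : ∀ x g : N, x ≠ 1 → S x = S (g * x * g⁻¹) := by
    intro x g hx
    refine hblock (MulAction.orbit (ConjAct N) x) ?_ ?_ ?_ x (MulAction.mem_orbit_self x) _ ⟨ConjAct.toConjAct g, rfl⟩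
    · rw [← MulAction.index_stabilizer]
      exact (Subgroup.index_dvd_card _).trans (dvd_of_eq rfl)
    · rintro ⟨c, hc⟩
      exact hx (smul_left_cancel c ((show c • x = 1 from hc).trans (smul_one c).symm))
    · rintro h y ⟨c, rfl⟩ ⟨d, hd⟩
      have key : ∀ (c : ConjAct N) (z : N), h • (c • z) = ConjAct.toConjAct (h • ConjAct.ofConjAct c) • (h • z) := by
        intro c z
        rw [ConjAct.smul_def, ConjAct.smul_def, ConjAct.ofConjAct_toConjAct, smul_mul', smul_mul', smul_inv']
      have hm : h • x ∈ MulAction.orbit (ConjAct N) x := by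
        refine ⟨(ConjAct.toConjAct (h • ConjAct.ofConjAct c))⁻¹ * d, ?_⟩
        show _ • x = h • x
        rw [mul_smul]
        exact inv_smul_eq_iff.2 (hd.trans (key c x))
      refine (Set.eq_of_subset_of_ncard_le ?_ ?_ (Set.toFinite _))
      · rintro _ ⟨_, ⟨c', rfl⟩, rfl⟩
        show h • (c' • x) ∈ _
        rw [key]
        exact MulAction.mem_orbit_of_mem_orbit _ hm
      · rw [Set.ncard_smul_set]
  have hcomm : ∀ x y : N, x ≠ 1 → y ≠ 1 → S x ≠ S y → x * y = y * x := by
    intro x y hx hy hS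
    by_contra hne
    have hc : x * (y * x⁻¹ * y⁻¹) ≠ 1 := fun e => hne (by
      have := congrArg (fun t => t * y * x) e
      simpa [mul_assoc] using this)
    have hx' : S x = S (x * (y * x⁻¹ * y⁻¹)) := heqS _ _ hx hc fun h hh => by
      have h1 : h • x = x := hh
      have h2 : h • (y * x⁻¹ * y⁻¹) = y * x⁻¹ * y⁻¹ := by
        have : S x = S (y * x⁻¹ * y⁻¹) := by
          rw [← hclass x⁻¹ y (inv_ne_one.2 hx)]
          ext h'
          show h' • x = x ↔ h' • x⁻¹ = x⁻¹
          rw [smul_inv', inv_inj]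
        exact (this ▸ hh : h ∈ S (y * x⁻¹ * y⁻¹))
      show h • _ = _
      rw [smul_mul', h1, h2]
    have hy' : S y = S (x * (y * x⁻¹ * y⁻¹)) := heqS _ _ hy hc fun h hh => by
      have h1 : h • y⁻¹ = y⁻¹ := by rw [smul_inv', show h • y = y from hh]
      have h2 : h • (x * y * x⁻¹) = x * y * x⁻¹ := ((hclass y x hy) ▸ hh : h ∈ S (x * y * x⁻¹))
      show h • _ = _
      rw [show x * (y * x⁻¹ * y⁻¹) = (x * y * x⁻¹) * y⁻¹ by group, smul_mul', h1, h2]
    exact hS (hx'.trans hy'.symm)
  have hpowS : ∀ (x : N) (i : ℕ), x ^ i ≠ 1 → S x = S (x ^ i) := fun x i hi =>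
    heqS _ _ (fun e => hi (by rw [e, one_pow])) hi fun h hh => by
      show h • x ^ i = x ^ i
      rw [smul_pow', show h • x = x from hh]
  have hdiff : ∀ x : N, x ≠ 1 → ∃ y : N, y ≠ 1 ∧ S x ≠ S y := by
    intro x hx
    by_contra hc
    push Not at hc
    refine hSab ((Subgroup.eq_bot_iff_forall _).2 fun g hg => eq_of_smul_eq_smul fun c : Ω => ?_)
    obtain ⟨m, rfl⟩ := hsur c
    have hgn : (⟨g, hg.1⟩ : H) ∈ S n₀ := by
      refine hinj _ _ ?_
      rw [← hpt]; exact hg.2
    rw [← hc n₀ hn₀] at hgn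
    rw [one_smul]
    rcases eq_or_ne m 1 with rfl | hm
    · rw [Subgroup.coe_one, one_smul]; exact hg.1
    · rw [hc m hm] at hgn
      have := hpt ⟨g, hg.1⟩ m
      rw [show (⟨g, hg.1⟩ : H) • m = m from hgn] at this
      exact this
  have hdvd : ∀ x y : N, x ≠ 1 → y ≠ 1 → S x ≠ S y → orderOf y ∣ orderOf x := by
    intro x y hx hy hS
    rw [orderOf_dvd_iff_pow_eq_one]
    by_contra hn
    have hxy : x * y ≠ 1 := fun e => hS (by
      rw [eq_inv_of_mul_eq_one_right e]
      ext h
      show h • x = x ↔ h • x⁻¹ = x⁻¹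
      rw [smul_inv', inv_inj])
    have h1 : (x * y) ^ orderOf x = y ^ orderOf x := by
      rw [(show Commute x y from hcomm x y hx hy hS).mul_pow, pow_orderOf_eq_one, one_mul]
    have h2 : S (x * y) = S y := by rw [hpowS (x * y) _ (h1 ▸ hn), h1, ← hpowS y _ hn]
    refine hS (heqS _ _ hy hx fun h hh => ?_).symm
    have h3 : h • (x * y) = x * y := (h2 ▸ hh : h ∈ S (x * y))
    rw [smul_mul', show h • y = y from hh] at h3
    exact mul_right_cancel h3
  have hord : ∀ x y : N, x ≠ 1 → y ≠ 1 → S x ≠ S y → orderOf x = orderOf y := fun x y hx hy hS =>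
    Nat.dvd_antisymm (hdvd y x hy hx hS.symm) (hdvd x y hx hy hS)
  obtain ⟨y₀, hy₀, hS₀⟩ := hdiff n₀ hn₀
  set p := orderOf n₀ with hpdef
  have hall : ∀ z : N, z ≠ 1 → orderOf z = p := by
    intro z hz
    by_cases h : S z = S n₀
    · rw [hord z y₀ hz hy₀ (h ▸ hS₀), hpdef, hord n₀ y₀ hn₀ hy₀ hS₀]
    · exact hord z n₀ hz hn₀ h
  have hp : p.Prime := by
    obtain ⟨l, hl, hld⟩ := Nat.exists_prime_and_dvd (n := p) (fun e => hn₀ (orderOf_eq_one_iff.1 e))
    rcases eq_or_ne (n₀ ^ l) 1 with h | h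
    · have : p ∣ l := orderOf_dvd_of_pow_eq_one h
      rwa [Nat.dvd_antisymm this hld]
    · have h1 := hall _ h
      rw [orderOf_pow' n₀ hl.ne_zero, ← hpdef, Nat.gcd_eq_right hld] at h1
      have hppos : 0 < p := orderOf_pos n₀
      have := Nat.div_lt_self hppos hl.one_lt
      omega
  have hab' : ∀ x y : N, x * y = y * x := by
    intro x y
    rcases eq_or_ne x 1 with rfl | hx
    · simp
    rcases eq_or_ne y 1 with rfl | hy
    · simp
    by_cases hS : S x = S y
    · obtain ⟨z, hz, hSz⟩ := hdiff x hx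
      have hxz : x * z ≠ 1 := fun e => hSz (by
        rw [eq_inv_of_mul_eq_one_right e]
        ext h
        show h • x = x ↔ h • x⁻¹ = x⁻¹
        rw [smul_inv', inv_inj])
      have h1 : S (x * z) ≠ S y := fun e => hSz (heqS _ _ hx hz fun h hh => by
        have h3 : h • (x * z) = x * z := ((e.trans hS.symm).symm ▸ hh : h ∈ S (x * z))
        rw [smul_mul', show h • x = x from hh] at h3
        exact mul_left_cancel h3)
      have c1 : Commute (x * z) y := hcomm _ _ hxz hy h1
      have c2 : Commute z y := hcomm _ _ hz hy (hS ▸ hSz.symm)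
      have := c1.mul_left c2.inv_left
      rw [mul_inv_cancel_right] at this
      exact this
    · exact hcomm x y hx hy hS
  refine ⟨⟨p, hp, ⟨⟨fun x y => hab' x y⟩⟩, fun x hx => ?_⟩, fun M hM hMne => ?_⟩
  · rcases eq_or_ne (⟨x, hx⟩ : N) 1 with h | h
    · rw [show x = 1 from congrArg Subtype.val h, one_pow]
    · have := pow_orderOf_eq_one (⟨x, hx⟩ : N)
      rw [hall _ h] at this
      exact congrArg Subtype.val this
  · set K : Subgroup N := M.subgroupOf N with hK
    have hKinv : ∀ (h : H), ∀ y ∈ K, h • y ∈ K := fun h y hy => by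
      show ((h • y : N) : G) ∈ M
      rw [hact]; exact hM.conj_mem _ hy _
    have hKne : K ≠ ⊥ := by
      intro hKb
      have hMN : ∀ m ∈ M, m ∈ N → m = 1 := fun m hm hn => by
        have : (⟨m, hn⟩ : N) ∈ K := hm
        rw [hKb, Subgroup.mem_bot] at this
        exact congrArg Subtype.val this
      refine hMne ((Subgroup.eq_bot_iff_forall _).2 fun m hm => ?_)
      obtain ⟨n, hn⟩ := hsur (m • a)
      have hcmn : ∀ z ∈ N, m * z = z * m := fun z hz => by
        have h1 := hMN (m * z * m⁻¹ * z⁻¹) (by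
          rw [show m * z * m⁻¹ * z⁻¹ = m * (z * m⁻¹ * z⁻¹) by group]
          exact mul_mem hm (hM.conj_mem _ (inv_mem hm) z)) (mul_mem (hN.conj_mem z hz m) (inv_mem hz))
        rwa [mul_inv_eq_one, mul_inv_eq_iff_eq_mul] at h1
      have h0 : (n : G)⁻¹ * m = 1 := by
        refine eq_of_smul_eq_smul fun c : Ω => ?_
        obtain ⟨z, rfl⟩ := hsur c
        have hzn : (n : G)⁻¹ * z = z * (n : G)⁻¹ := congrArg Subtype.val (hab' n⁻¹ z)
        rw [one_smul, ← mul_smul, mul_assoc, hcmn z z.2, ← mul_assoc, hzn, mul_assoc, mul_smul, mul_smul,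
          ← hn, inv_smul_smul]
      rw [inv_mul_eq_one] at h0
      exact hMN m hm (h0 ▸ n.2)
    by_contra hNM
    obtain ⟨x, hx⟩ : ∃ x : N, x ∉ K := by
      by_contra hc; push Not at hc
      exact hNM fun z hz => hc ⟨z, hz⟩
    obtain ⟨⟨u, huK⟩, hu⟩ : ∃ u : K, u ≠ 1 := by
      haveI := (Subgroup.nontrivial_iff_ne_bot K).2 hKne
      exact exists_ne _
    have hu1 : u ≠ 1 := fun e => hu (Subtype.ext e)
    have hkey : ∀ x : N, x ∉ K → ∀ y : N, y ∈ K → y ≠ 1 → S x = S y := by
      intro x hx y hy hy1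
      have hxk : ∀ z ∈ K, S x = S (x * z) := fun z hz => by
        refine hblock ((fun w => x * w) '' (K : Set N)) ?_ ?_ ?_ x ⟨1, one_mem _, mul_one x⟩ _ ⟨z, hz, rfl⟩
        · rw [Set.ncard_image_of_injective _ (mul_right_injective x), ← Nat.card_coe_set_eq]
          exact Subgroup.card_subgroup_dvd_card K
        · rintro ⟨w, hw, e⟩
          exact hx (eq_inv_of_mul_eq_one_left e ▸ inv_mem hw)
        · rintro h _ ⟨w, hw, rfl⟩ ⟨w', hw', e⟩
          have hhx : x⁻¹ * (h • x) ∈ K := by
            rw [smul_mul'] at e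
            rw [show x⁻¹ * (h • x) = w' * (h • w)⁻¹ by
              rw [eq_mul_inv_iff_mul_eq, mul_assoc, ← e]; simp]
            exact mul_mem hw' (inv_mem (hKinv h w hw))
          refine Set.eq_of_subset_of_ncard_le ?_ (by rw [Set.ncard_smul_set]) (Set.toFinite _)
          rintro _ ⟨_, ⟨v, hv, rfl⟩, rfl⟩
          refine ⟨x⁻¹ * (h • x) * (h • v), mul_mem hhx (hKinv h v hv), ?_⟩
          show x * _ = h • (x * v)
          rw [smul_mul', ← mul_assoc, mul_inv_cancel_left]
      refine heqS _ _ (fun e => hx (e ▸ one_mem K)) hy1 fun h hh => ?_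
      have h3 : h • (x * y) = x * y := ((hxk y hy) ▸ hh : h ∈ S (x * y))
      rw [smul_mul', show h • x = x from hh] at h3
      exact mul_left_cancel h3
    obtain ⟨y, hy1, hSy⟩ := hdiff u hu1
    by_cases hy : y ∈ K
    · exact hSy ((hkey x hx u huK hu1).symm.trans (hkey x hx y hy hy1))
    · exact hSy (hkey y hy u huK hu1).symm

end Cfsg.Agent.S3356
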