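import Cfsg.Statements.S3357
import Cfsg.Agent.Frob.Structure

set_option autoImplicit false
open Cfsg

namespace Cfsg.Agent.S3357

open Matrix in
/-- A minimal invariant subspace of a fixed-point-free matrix representation. -/
theorem exists_irreducible {G : Type*} [Group G] {k : Type*} [Field k] {n : ℕ}
    (M : G →* Matrix (Fin n) (Fin n) k) (hn : 0 < n) (hM : ∀ g : G, g ≠ 1 → ∀ v, M g *ᵥ v = v → v = 0) :
    ∃ (m : ℕ) (N : G →* Matrix (Fin m) (Fin m) k), 0 < m ∧
      (∀ W : Submodule k (Fin m → k), (∀ g : G, ∀ w ∈ W, N g *ᵥ w ∈ W) → W = ⊥ ∨ W = ⊤) ∧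
      ∀ g : G, g ≠ 1 → ∀ v, N g *ᵥ v = v → v = 0 := by
  haveI : Nonempty (Fin n) := ⟨⟨0, hn⟩⟩
  obtain ⟨W, ⟨hW0, hWs⟩, hmin⟩ := wellFounded_lt.has_min
    {W : Submodule k (Fin n → k) | W ≠ ⊥ ∧ ∀ g : G, ∀ w ∈ W, M g *ᵥ w ∈ W}
    ⟨⊤, top_ne_bot, fun _ _ _ => Submodule.mem_top⟩
  let σ : Representation k G W :=
    { toFun := fun g => (Matrix.mulVecLin (M g)).restrict (fun x hx => hWs g x hx)
      map_one' := LinearMap.ext fun x => Subtype.ext (by
        show M 1 *ᵥ (x : Fin n → k) = x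
        rw [map_one, one_mulVec])
      map_mul' := fun a b => LinearMap.ext fun x => Subtype.ext (by
        show M (a * b) *ᵥ (x : Fin n → k) = M a *ᵥ (M b *ᵥ (x : Fin n → k))
        rw [map_mul, mulVec_mulVec]) }
  let b := Module.finBasis k W
  let N : G →* Matrix (Fin (Module.finrank k W)) (Fin (Module.finrank k W)) k :=
    (LinearMap.toMatrixAlgEquiv b).toAlgHom.toMonoidHom.comp σ
  have hN : ∀ g v, N g *ᵥ v = b.equivFun (σ g (b.equivFun.symm v)) := by
    intro g v
    have h2 : (LinearMap.toMatrixAlgEquiv b (σ g)) *ᵥ ⇑(b.repr (b.equivFun.symm v)) =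
        ⇑(b.repr (σ g (b.equivFun.symm v))) := LinearMap.toMatrix_mulVec_repr b b (σ g) _
    have h3 : ⇑(b.repr (b.equivFun.symm v)) = v := b.equivFun.apply_symm_apply v
    rw [h3] at h2
    exact h2
  haveI : Nontrivial W := Submodule.nontrivial_iff_ne_bot.mpr hW0
  refine ⟨_, N, Module.finrank_pos, fun U hU => ?_, fun g hg v hv => ?_⟩
  · set f : (Fin (Module.finrank k W) → k) →ₗ[k] (Fin n → k) :=
      W.subtype.comp b.equivFun.symm.toLinearMap with hf
    have hfi : Function.Injective f := W.injective_subtype.comp b.equivFun.symm.injective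
    rcases eq_or_ne U ⊥ with h | h
    · exact Or.inl h
    right
    have hUW : U.map f = W := by
      refine eq_of_le_of_not_lt (fun x hx => ?_) (hmin _ ⟨?_, ?_⟩)
      · obtain ⟨u, -, rfl⟩ := hx
        exact (b.equivFun.symm u).2
      · exact fun e => h (Submodule.map_injective_of_injective hfi (e.trans (Submodule.map_bot f).symm))
      · rintro g _ ⟨u, hu, rfl⟩
        refine ⟨N g *ᵥ u, hU g u hu, ?_⟩
        show ((b.equivFun.symm (N g *ᵥ u) : W) : Fin n → k) = _
        rw [hN, LinearEquiv.symm_apply_apply]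
        rfl
    rw [Submodule.eq_top_iff']
    intro u
    obtain ⟨u', hu', he⟩ : f u ∈ U.map f := hUW.symm ▸ (b.equivFun.symm u).2
    exact hfi he ▸ hu'
  · rw [hN] at hv
    have h1 : σ g (b.equivFun.symm v) = b.equivFun.symm v := by
      apply b.equivFun.injective
      rw [hv, LinearEquiv.apply_symm_apply]
    have h2 : ((b.equivFun.symm v : W) : Fin n → k) = 0 := hM g hg _ (congrArg Subtype.val h1)
    have h3 : b.equivFun.symm v = 0 := Subtype.ext h2
    exact (LinearEquiv.map_eq_zero_iff _).mp h3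

/-- Let G be a finite group that occurs as a Frobenius complement. Then G has a faithful irreducible representation over an algebraic closure of the rationals in which no non-identity element of G has 1 as an eigenvalue: there are n ≥ 1 and an injective homomorphism ρ from G to GL(n) over that field, with no invariant subspace other than 0 and the whole space, such that for g ≠ 1 the only vector fixed by ρ(g) is 0. -/
theorem result {G : Type*} [Group G] [Finite G]
    (hFC : ∃ (L : Type) (_ : Group L) (_ : Finite L) (H : Subgroup L), Cfsg.IsFrobeniusComplement H ∧ Nonempty (G ≃* H)) :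
    ∃ (n : ℕ) (ρ : G →* GL (Fin n) (AlgebraicClosure ℚ)), 0 < n ∧ Function.Injective ρ ∧
      (∀ W : Submodule (AlgebraicClosure ℚ) (Fin n → AlgebraicClosure ℚ),
        (∀ g : G, ∀ w ∈ W, ((ρ g : GL (Fin n) (AlgebraicClosure ℚ)) : Matrix (Fin n) (Fin n) (AlgebraicClosure ℚ)).mulVec w ∈ W) → W = ⊥ ∨ W = ⊤) ∧
      ∀ g : G, g ≠ 1 → ∀ v : Fin n → AlgebraicClosure ℚ,
        ((ρ g : GL (Fin n) (AlgebraicClosure ℚ)) : Matrix (Fin n) (Fin n) (AlgebraicClosure ℚ)).mulVec v = v → v = 0 := by
  obtain ⟨n, M, hn, hM⟩ := (CfsgLib.Frob.latFpf_of_hasFC hFC).mapRing (AlgebraicClosure ℚ)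
    (fun q => Nat.cast_ne_zero.mpr (orderOf_pos q).ne')
  obtain ⟨m, N, hm, hirr, hfix⟩ := exists_irreducible M hn hM
  refine ⟨m, N.toHomUnits, hm, ?_, hirr, hfix⟩
  rw [injective_iff_map_eq_one]
  intro g hg
  by_contra hg1
  haveI : Nonempty (Fin m) := ⟨⟨0, hm⟩⟩
  obtain ⟨v, hv⟩ := exists_ne (0 : Fin m → AlgebraicClosure ℚ)
  refine hv (hfix g hg1 v ?_)
  rw [show N g = 1 from congrArg Units.val hg, Matrix.one_mulVec]

end Cfsg.Agent.S3357
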