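import Cfsg.Statements.S3358
import Cfsg.Agent.Zass.ZQuot
import Cfsg.Agent.Zass.Presentation

set_option autoImplicit false
open Cfsg

namespace Cfsg.Agent.S3358

/-- Structure of solvable Frobenius complements. Let G be a finite solvable group that occurs as a Frobenius complement. Then G has a normal subgroup G₀ such that G/G₀ is isomorphic to a subgroup of Sym(4) (G₀ is the kernel of a homomorphism to Sym(4)), all Sylow subgroups of G₀ are cyclic, and G₀ has a presentation ⟨x, y | x^n = 1, y^m = 1, x⁻¹ y x = y^r⟩ with n, m ≥ 1, gcd(r − 1, m) = gcd(n, m) = 1 and r^(n/n′) ≡ 1 (mod m), where n′ is the product of the distinct primes dividing n. -/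
theorem result {G : Type*} [Group G] [Finite G] (hsol : Group.IsSolvable G)
    (hFC : ∃ (L : Type) (_ : Group L) (_ : Finite L) (H : Subgroup L), Cfsg.IsFrobeniusComplement H ∧ Nonempty (G ≃* H)) :
    ∃ G₀ : Subgroup G, G₀.Normal ∧
      (∃ f : G →* Equiv.Perm (Fin 4), f.ker = G₀) ∧
      (∀ (p : ℕ) [Fact p.Prime] (P : Sylow p G₀), IsCyclic P) ∧
      ∃ n m r : ℕ, 0 < n ∧ 0 < m ∧ Nat.Coprime (r - 1) m ∧ Nat.Coprime n m ∧ 1 ≤ r ∧
        r ^ (n / ∏ p ∈ n.primeFactors, p) % m = 1 % m ∧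
        Nonempty (G₀ ≃* PresentedGroup
          ({FreeGroup.of (0 : Fin 2) ^ n, FreeGroup.of (1 : Fin 2) ^ m,
            (FreeGroup.of (0 : Fin 2))⁻¹ * FreeGroup.of 1 * FreeGroup.of 0 * (FreeGroup.of (1 : Fin 2) ^ r)⁻¹} :
            Set (FreeGroup (Fin 2)))) := by
  obtain ⟨N, hNn, hNZ, hN⟩ := CfsgLib.Zass.exists_solvQ (CfsgLib.Frob.latFpf_of_hasFC hFC)
  haveI := hNZ
  refine ⟨N, hNn, ?_, fun p _ P => hNZ.isZGroup p Fact.out P, ?_⟩
  · have comp : ∀ {Q : Type} [Group Q] (f : G →* Q) (ι : Q →* Equiv.Perm (Fin 4)), Function.Injective ι →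
        f.ker = N → ∃ f : G →* Equiv.Perm (Fin 4), f.ker = N := by
      intro Q _ f ι hι hf
      refine ⟨ι.comp f, ?_⟩
      rw [← hf]
      ext v
      simp only [MonoidHom.mem_ker, MonoidHom.comp_apply]
      exact map_eq_one_iff ι hι
    rcases hN with rfl | ⟨f, -, hf⟩ | ⟨f, -, hf⟩ | ⟨f, -, hf⟩
    · exact ⟨1, MonoidHom.ker_one⟩
    · let e : DihedralGroup 2 ≃ Fin 4 := Fintype.equivFinOfCardEq (by rw [DihedralGroup.card])
      refine comp f (e.permCongrHom.toMonoidHom.comp (MulAction.toPermHom (DihedralGroup 2) (DihedralGroup 2))) ?_ hf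
      exact e.permCongrHom.injective.comp MulAction.toPerm_injective
    · exact comp f (alternatingGroup (Fin 4)).subtype Subtype.val_injective hf
    · exact comp f (MonoidHom.id _) (fun _ _ h => h) hf
  · exact CfsgLib.Zass.exists_presentation ((CfsgLib.Frob.latFpf_of_hasFC hFC).comp N.subtype N.subtype_injective)

end Cfsg.Agent.S3358
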