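import Cfsg.Statements.S3362
import Mathlib
import Cfsg.Agent.H29.PermChain

set_option autoImplicit false
open Cfsg

namespace Cfsg.Agent.S3362

/-- An explicit construction of the Mathieu groups of degrees 11 and 12. On the points 0, …, 11 let s = (3 4 5)(6 7 8)(9 10 11), t = (3 6 9)(4 7 10)(5 8 11), u = (4 6 5 9)(7 8 11 10), v = (4 7 5 11)(6 10 9 8), w = (4 10 5 8)(6 11 9 7), x₁ = (0 3)(6 7)(8 10)(9 11), x₂ = (0 1)(6 9)(7 10)(8 11), x₃ = (1 2)(6 11)(7 9)(8 10) (each written as a product of transpositions). Then the group M₁₂ generated by all eight permutations is sharply 5-transitive on the 12 points and has order 95040, and the group M₁₁ generated by the first seven has order 7920 and is the stabilizer of the point 2 in M₁₂. -/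
theorem result
    (s t u v w x₁ x₂ x₃ : Equiv.Perm (Fin 12))
    (hs : s = Equiv.swap (3 : Fin 12) 5 * Equiv.swap (3 : Fin 12) 4 * Equiv.swap (6 : Fin 12) 8 * Equiv.swap (6 : Fin 12) 7 * Equiv.swap (9 : Fin 12) 11 * Equiv.swap (9 : Fin 12) 10) (ht : t = Equiv.swap (3 : Fin 12) 9 * Equiv.swap (3 : Fin 12) 6 * Equiv.swap (4 : Fin 12) 10 * Equiv.swap (4 : Fin 12) 7 * Equiv.swap (5 : Fin 12) 11 * Equiv.swap (5 : Fin 12) 8)
    (hu : u = Equiv.swap (4 : Fin 12) 9 * Equiv.swap (4 : Fin 12) 5 * Equiv.swap (4 : Fin 12) 6 * Equiv.swap (7 : Fin 12) 10 * Equiv.swap (7 : Fin 12) 11 * Equiv.swap (7 : Fin 12) 8) (hv : v = Equiv.swap (4 : Fin 12) 11 * Equiv.swap (4 : Fin 12) 5 * Equiv.swap (4 : Fin 12) 7 * Equiv.swap (6 : Fin 12) 8 * Equiv.swap (6 : Fin 12) 9 * Equiv.swap (6 : Fin 12) 10) (hw : w = Equiv.swap (4 : Fin 12) 8 * Equiv.swap (4 : Fin 12) 5 * Equiv.swap (4 : Fin 12) 10 * Equiv.swap (6 : Fin 12) 7 * Equiv.swap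 (6 : Fin 12) 9 * Equiv.swap (6 : Fin 12) 11)
    (hx₁ : x₁ = Equiv.swap (0 : Fin 12) 3 * Equiv.swap (6 : Fin 12) 7 * Equiv.swap (8 : Fin 12) 10 * Equiv.swap (9 : Fin 12) 11) (hx₂ : x₂ = Equiv.swap (0 : Fin 12) 1 * Equiv.swap (6 : Fin 12) 9 * Equiv.swap (7 : Fin 12) 10 * Equiv.swap (8 : Fin 12) 11)
    (hx₃ : x₃ = Equiv.swap (1 : Fin 12) 2 * Equiv.swap (6 : Fin 12) 11 * Equiv.swap (7 : Fin 12) 9 * Equiv.swap (8 : Fin 12) 10)
    (M₁₂ M₁₁ : Subgroup (Equiv.Perm (Fin 12))) (hM₁₂ : M₁₂ = Subgroup.closure {s, t, u, v, w, x₁, x₂, x₃})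
    (hM₁₁ : M₁₁ = Subgroup.closure {s, t, u, v, w, x₁, x₂}) :
    MulAction.IsMultiplyPretransitive M₁₂ (Fin 12) 5 ∧ (∀ y : Fin 5 ↪ Fin 12, MulAction.stabilizer M₁₂ y = ⊥) ∧
    Nat.card M₁₂ = 95040 ∧ Nat.card M₁₁ = 7920 ∧
    M₁₁ = M₁₂ ⊓ MulAction.stabilizer (Equiv.Perm (Fin 12)) (2 : Fin 12) := by
  let C : List (CfsgLib.H29.PermChain.Lev 12) := [⟨2, [s, t, u, v, w, x₁, x₂, x₃], 8⟩,
    ⟨1, [s, t, u, v, w, x₁, x₂], 8⟩, ⟨0, [s, t, u, v, w, x₁], 8⟩, ⟨3, [s, t, u, v, w], 8⟩,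
    ⟨4, [u, v, w], 4⟩]
  have hok : CfsgLib.H29.PermChain.ok C = true := by
    subst hs ht hu hv hw hx₁ hx₂ hx₃
    decide +kernel
  have hlen : (C.map fun L => (CfsgLib.H29.PermChain.reps L).length) = [12, 11, 10, 9, 8] := by
    subst hs ht hu hv hw hx₁ hx₂ hx₃
    decide +kernel
  have h12 : M₁₂ = CfsgLib.H29.PermChain.head C := by
    rw [hM₁₂]
    exact congrArg Subgroup.closure (Set.ext fun g => by simp [C])
  have h11 : M₁₁ = CfsgLib.H29.PermChain.head C.tail := by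
    rw [hM₁₁]
    exact congrArg Subgroup.closure (Set.ext fun g => by simp [C])
  have c12 : Nat.card M₁₂ = 95040 := by
    rw [h12, CfsgLib.H29.PermChain.card_eq C hok, hlen]
    rfl
  have hok' : CfsgLib.H29.PermChain.ok C.tail = true := (CfsgLib.H29.PermChain.ok_cons hok).2.2.2.2.2
  have c11 : Nat.card M₁₁ = 7920 := by
    rw [h11, CfsgLib.H29.PermChain.card_eq C.tail hok', List.map_tail, hlen]
    rfl
  let x0 : Fin 5 ↪ Fin 12 := ⟨![2, 1, 0, 3, 4], by decide⟩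
  have hinj : Function.Injective (fun g : M₁₂ => g • x0) := by
    intro g g' e
    have h1 : ((g'⁻¹ * g : M₁₂) : Equiv.Perm (Fin 12)) = 1 := by
      refine CfsgLib.H29.PermChain.eq_one_of_base C hok _ (h12 ▸ (g'⁻¹ * g : M₁₂).2) ?_
      intro L hL
      have e' : ∀ i, (g : Equiv.Perm (Fin 12)) (x0 i) = (g' : Equiv.Perm (Fin 12)) (x0 i) :=
        fun i => congrArg (fun f : Fin 5 ↪ Fin 12 => f i) e
      have key : ∀ i, ((g'⁻¹ * g : M₁₂) : Equiv.Perm (Fin 12)) (x0 i) = x0 i := fun i => by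
        rw [Subgroup.coe_mul, Subgroup.coe_inv, Equiv.Perm.mul_apply, Equiv.Perm.inv_eq_iff_eq, e' i]
      simp only [C, List.mem_cons, List.not_mem_nil, or_false] at hL
      rcases hL with rfl | rfl | rfl | rfl | rfl
      exacts [key 0, key 1, key 2, key 3, key 4]
    exact (inv_mul_eq_one.mp (Subtype.ext h1 : g'⁻¹ * g = 1)).symm
  have hbij : Function.Bijective (fun g : M₁₂ => g • x0) := by
    rw [Nat.bijective_iff_injective_and_card]
    refine ⟨hinj, ?_⟩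
    rw [c12, Nat.card_eq_fintype_card, Fintype.card_embedding_eq, Fintype.card_fin, Fintype.card_fin]
    rfl
  refine ⟨⟨fun y z => ?_⟩, fun y => ?_, c12, c11, ?_⟩
  · obtain ⟨g, rfl⟩ := hbij.2 y
    obtain ⟨g', rfl⟩ := hbij.2 z
    exact ⟨g' * g⁻¹, by ext i; simp [Function.Embedding.smul_apply, Subgroup.smul_def, mul_smul]⟩
  · obtain ⟨k, rfl⟩ := hbij.2 y
    refine (Subgroup.eq_bot_iff_forall _).mpr fun g hg => ?_
    have := hinj (show (g * k) • x0 = k • x0 from Function.Embedding.ext fun i => by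
      simpa [Function.Embedding.smul_apply, Subgroup.smul_def, mul_smul] using
        congrArg (fun f : Fin 5 ↪ Fin 12 => f i) hg)
    exact mul_eq_right.mp this
  · rw [h11, h12]
    exact CfsgLib.H29.PermChain.stab_eq hok

end Cfsg.Agent.S3362
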