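import Cfsg.Statements.S3371
import Cfsg.Agent.PassmanHalf.Mono
import Cfsg.Agent.PassmanHalf.Field

set_option autoImplicit false
open Cfsg

namespace Cfsg.Agent.S3371

/-- Let q be a prime, V a non-trivial finite vector space over the field with q elements, and G a finite p-group (p prime) acting faithfully and linearly on V such that all G-orbits on the non-zero vectors have the same size. Then one of the following holds: G is cyclic or generalized quaternion and acts semiregularly on the non-zero vectors; or V has q² elements with q = 2^m − 1 and G is dihedral of order 2^(m+1) or semidihedral of order 2^(m+2); or V has q² elements with q = 2^m + 1 and, in suitable coordinates V = F_q², G is exactly the group of maps (x, y) ↦ (a x, ± a⁻¹ y) and (x, y) ↦ (± a⁻¹ y, a x) with a ≠ 0; or V has 81 elements (q = 3) and G is a 2-group. -/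
theorem result (q : ℕ) [Fact q.Prime] {V : Type*} [AddCommGroup V] [Module (ZMod q) V] [Finite V] [Nontrivial V]
    {G : Type*} [Group G] [Finite G] (p : ℕ) [Fact p.Prime] (hG : IsPGroup p G)
    (ρ : G →* (V ≃ₗ[ZMod q] V)) (hρ : Function.Injective ρ)
    (hhalf : ∀ v w : V, v ≠ 0 → w ≠ 0 → Nat.card {u : V | ∃ g : G, ρ g v = u} = Nat.card {u : V | ∃ g : G, ρ g w = u}) :
    ((IsCyclic G ∨ ∃ n : ℕ, Nonempty (G ≃* QuaternionGroup n)) ∧ ∀ v : V, v ≠ 0 → ∀ g : G, ρ g v = v → g = 1) ∨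
    (Nat.card V = q ^ 2 ∧ ∃ m : ℕ, q = 2 ^ m - 1 ∧
      (Nonempty (G ≃* DihedralGroup (2 ^ m)) ∨ (Cfsg.IsQuasiDihedral G ∧ Nat.card G = 2 ^ (m + 2)))) ∨
    (Nat.card V = q ^ 2 ∧ (∃ m : ℕ, q = 2 ^ m + 1) ∧
      ∃ e : V ≃ₗ[ZMod q] (Fin 2 → ZMod q), ∀ f : (Fin 2 → ZMod q) ≃ₗ[ZMod q] (Fin 2 → ZMod q),
        (∃ g : G, f = e.symm.trans ((ρ g).trans e)) ↔
        ∃ a s : ZMod q, a ≠ 0 ∧ (s = 1 ∨ s = -1) ∧
          ((∀ v, f v = ![a * v 0, s * a⁻¹ * v 1]) ∨ (∀ v, f v = ![s * a⁻¹ * v 1, a * v 0]))) ∨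
    (Nat.card V = 81 ∧ q = 3 ∧ p = 2) := by
  classical
  open CfsgLib.PassmanHalf in
  by_cases hsr : ∀ w : V, w ≠ 0 → ∀ g : G, ρ g w = w → g = 1
  · left
    by_cases hqp : q = p
    · -- a p-group in characteristic p fixes a non-zero vector
      subst hqp
      letI : MulAction G V := MulAction.compHom V ρ
      have hdvd : q ∣ Nat.card V := by
        rw [Module.natCard_eq_pow_finrank (K := ZMod q), Nat.card_zmod]
        exact dvd_pow_self q Module.finrank_pos.ne'
      obtain ⟨v, hv, hv0⟩ := hG.exists_fixed_point_of_prime_dvd_card_of_fixed_point V hdvd (a := 0) (fun g => map_zero (ρ g))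
      have htriv : ∀ g : G, g = 1 := fun g => hsr v (Ne.symm hv0) g (hv g)
      haveI : Subsingleton G := ⟨fun g h => (htriv g).trans (htriv h).symm⟩
      exact ⟨Or.inl inferInstance, hsr⟩
    exact ⟨cyclic_or_quaternion ρ hG hqp hsr, hsr⟩
  have hqp : q ≠ p := by
    rintro rfl
    letI : MulAction G V := MulAction.compHom V ρ
    have hdvd : q ∣ Nat.card V := by
      rw [Module.natCard_eq_pow_finrank (K := ZMod q), Nat.card_zmod]
      exact dvd_pow_self q Module.finrank_pos.ne'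
    obtain ⟨v, hv, hv0⟩ := hG.exists_fixed_point_of_prime_dvd_card_of_fixed_point V hdvd (a := 0) (fun g => map_zero (ρ g))
    have hfix : ∀ w : V, w ≠ 0 → ∀ g : G, ρ g w = w := by
      intro w hw g
      have h2 : stab ρ v = ⊤ := top_le_iff.1 fun k _ => hv k
      have h3 : stab ρ w = ⊤ := Subgroup.eq_top_of_card_eq _ (by
        rw [stab_card_eq ρ hhalf hw (Ne.symm hv0), h2, Subgroup.card_top])
      exact (h3 ▸ Subgroup.mem_top g : g ∈ stab ρ w)
    refine hsr fun w hw g _ => hρ (LinearEquiv.ext fun u => ?_)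
    rw [act_one]
    rcases eq_or_ne u 0 with rfl | hu
    · exact map_zero _
    · exact hfix u hu g
  obtain ⟨A, ⟨hAn, hAab⟩, hAmax⟩ := Set.Finite.exists_maximal
    (s := {A : Subgroup G | A.Normal ∧ IsMulCommutative A}) (Set.toFinite _) ⟨⊥, inferInstance, inferInstance⟩
  haveI := hAn
  have hCA := CfsgLib.RankOneP.centralizer_eq_of_maximal hG hAn hAab
    (fun B h1 h2 h3 => le_antisymm (hAmax ⟨h1, h2⟩ h3) h3)
  have hA : ∀ x ∈ A, ∀ y ∈ A, x * y = y * x := fun x hx y hy =>
    congrArg Subtype.val (hAab.is_comm.comm (⟨x, hx⟩ : A) ⟨y, hy⟩)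
  have hcop : (Nat.card A).Coprime q := by
    obtain ⟨k, hk⟩ := IsPGroup.iff_card.1 (hG.to_subgroup A)
    rw [hk]
    exact Nat.Coprime.pow_left _ ((Nat.coprime_primes Fact.out Fact.out).2 (Ne.symm hqp))
  rcases idempotent_or_injective ρ A hA hcop with ⟨e, heR, hee, he0, he1⟩ | hinj
  · obtain ⟨H, π, hHn, hidx, hπ0, hππ, hH, hperp, hspan⟩ := exists_block ρ hρ hG hhalf hsr (algOf ρ A)
      (algOf_comm ρ A hA) (algOf_stable ρ A) heR hee he0 he1
    haveI := hHn
    by_cases hp2 : p = 2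
    · subst hp2
      rcases block_two ρ hρ hG hqp hhalf hsr H hidx π hπ0 hππ hH hperp hspan with h | ⟨h1, h2⟩
      · exact Or.inr (Or.inr (Or.inl h))
      · exact Or.inr (Or.inr (Or.inr ⟨h1, h2, rfl⟩))
    · exact absurd (semiregular_of_block_odd ρ hρ hp2 hhalf H hidx π hπ0 hππ hH hperp hspan) hsr
  · exact Or.inr (Or.inl (field_case ρ hρ hG hqp hhalf hsr A hA hCA hinj))

end Cfsg.Agent.S3371
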