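import Cfsg.Statements.S3374
import Cfsg.Agent.Frob.SL2Embed
import Cfsg.Agent.Frob.Semidirect

set_option autoImplicit false
open Cfsg

namespace Cfsg.Agent.S3374

open CfsgLib.Frob.SL2Embed in
/-- Images of the upper root subgroup. -/
def tabU : ZMod 5 → M4 11 := ![(1, 0, 0, 1), (0, 1, 10, 3), (10, 3, 8, 8), (8, 8, 3, 10), (3, 10, 1, 0)]

open CfsgLib.Frob.SL2Embed in
/-- Images of the lower root subgroup. -/
def tabL : ZMod 5 → M4 11 := ![(1, 0, 0, 1), (3, 5, 2, 0), (8, 4, 6, 10), (10, 7, 5, 8), (0, 6, 9, 3)]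

open CfsgLib.Frob.SL2Embed in
theorem tab_inv : ∀ c : ZMod 5, c ≠ 0 → c ^ 3 * c = 1 := by decide +kernel

open CfsgLib.Frob.SL2Embed in
theorem tab_det : ∀ a b c d : ZMod 5, a * d - b * c = 1 → det4 (img (fun c : ZMod 5 => c ^ 3) tabU tabL a b c d) = 1 := by decide +kernel

open CfsgLib.Frob.SL2Embed in
theorem tab_one : img (fun c : ZMod 5 => c ^ 3) tabU tabL 1 0 0 1 = one4 11 := by decide +kernel

open CfsgLib.Frob.SL2Embed in
theorem tab_upper : ∀ a b c d : ZMod 5, a * d - b * c = 1 →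
    img (fun c : ZMod 5 => c ^ 3) tabU tabL (a + c) (b + d) c d = mul4 (img (fun c : ZMod 5 => c ^ 3) tabU tabL 1 1 0 1) (img (fun c : ZMod 5 => c ^ 3) tabU tabL a b c d) := by decide +kernel

open CfsgLib.Frob.SL2Embed in
theorem tab_lower : ∀ a b c d : ZMod 5, a * d - b * c = 1 →
    img (fun c : ZMod 5 => c ^ 3) tabU tabL a b (a + c) (b + d) = mul4 (img (fun c : ZMod 5 => c ^ 3) tabU tabL 1 0 1 1) (img (fun c : ZMod 5 => c ^ 3) tabU tabL a b c d) := by decide +kernel

set_option synthInstance.maxSize 2000 in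
set_option synthInstance.maxHeartbeats 200000 in
open CfsgLib.Frob.SL2Embed in
theorem tab_inj : ∀ a b c d : ZMod 5, a * d - b * c = 1 → img (fun c : ZMod 5 => c ^ 3) tabU tabL a b c d = one4 11 →
    a = 1 ∧ b = 0 ∧ c = 0 ∧ d = 1 := by decide +kernel

/-- SL(2,5) occurs as a Frobenius complement: there is a finite group L with a subgroup H isomorphic to SL(2,5) which is a non-trivial proper subgroup meeting each conjugate gHg⁻¹ with g outside H trivially. -/
theorem result :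
    ∃ (L : Type) (_ : Group L) (_ : Finite L) (H : Subgroup L),
      Cfsg.IsFrobeniusComplement H ∧ Nonempty (H ≃* Matrix.SpecialLinearGroup (Fin 2) (ZMod 5)) := by
  haveI : Fact (Nat.Prime 5) := ⟨by norm_num⟩
  haveI : Fact (Nat.Prime 11) := ⟨by norm_num⟩
  obtain ⟨f, hf⟩ := CfsgLib.Frob.SL2Embed.exists_hom (fun c : ZMod 5 => c ^ 3) tabU tabL
    tab_inv tab_det tab_one tab_upper tab_lower tab_inj
  have hcard : Nat.card (Matrix.SpecialLinearGroup (Fin 2) (ZMod 5)) = 120 := by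
    rw [Nat.card_eq_fintype_card]
    decide +kernel
  haveI : Nontrivial (Matrix.SpecialLinearGroup (Fin 2) (ZMod 5)) := by
    rw [← Finite.one_lt_card_iff_nontrivial, hcard]; norm_num
  obtain ⟨L, i1, i2, C, hC, ⟨e⟩⟩ := CfsgLib.Frob.hasFC_of_SL2 f hf (fun x h0 => by
    have h1 : 11 ∣ orderOf x := (ZMod.natCast_eq_zero_iff _ _).mp h0
    have h2 : orderOf x ∣ 120 := hcard ▸ orderOf_dvd_natCard x
    have := h1.trans h2
    norm_num at this)
  exact ⟨L, i1, i2, C, hC, ⟨e.symm⟩⟩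

end Cfsg.Agent.S3374
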