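import Cfsg.Statements.S3375
-- import your own Cfsg.Agent.* helpers here

set_option autoImplicit false
open Cfsg

namespace Cfsg.Agent.S3375

/-- Let γ be an automorphism of order 2 of a finite group H. (i) If γ fixes only the identity, then H is abelian and γ inverts every element. (ii) If γ has exactly two fixed points and H has a subgroup of index 2, then H has a γ-invariant abelian subgroup of index 2 on which γ acts by inversion. -/
theorem result {H : Type*} [Group H] [Finite H] (γ : MulAut H) (hγ : orderOf γ = 2) :
    ((∀ h : H, γ h = h → h = 1) → (∀ a b : H, a * b = b * a) ∧ ∀ h : H, γ h = h⁻¹) ∧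
    ((Nat.card {h : H // γ h = h} = 2 ∧ ∃ M : Subgroup H, M.index = 2) →
      ∃ A : Subgroup H, A.index = 2 ∧ IsMulCommutative A ∧ (∀ a ∈ A, γ a ∈ A) ∧ ∀ a ∈ A, γ a = a⁻¹) := by
  have hγ2 : ∀ h, γ (γ h) = h := by
    intro h
    have := congrArg (fun e : MulAut H => e h) (hγ ▸ pow_orderOf_eq_one γ : γ ^ 2 = 1)
    simpa [sq] using this
  have hf : ∀ h, γ (h⁻¹ * γ h) = (h⁻¹ * γ h)⁻¹ := by intro h; simp [hγ2]
  have heq : ∀ x y : H, x⁻¹ * γ x = y⁻¹ * γ y ↔ γ (y * x⁻¹) = y * x⁻¹ := by
    intro x y
    rw [map_mul, map_inv, mul_inv_eq_iff_eq_mul]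
    constructor
    · intro h; rw [mul_assoc, h]; group
    · intro h; rw [h]; group
  constructor
  · intro hfix
    have hsurj : Function.Surjective fun h => h⁻¹ * γ h := by
      apply Finite.injective_iff_surjective.mp
      intro x y h
      exact mul_inv_eq_one.mp (hfix _ ((heq y x).mp h.symm))
    have hinv : ∀ h, γ h = h⁻¹ := by
      intro h; obtain ⟨x, rfl⟩ := hsurj h; exact hf x
    refine ⟨fun a b => ?_, hinv⟩
    have h := map_mul γ a⁻¹ b⁻¹
    simp only [hinv, mul_inv_rev, inv_inv] at h
    exact h.symm
  · rintro ⟨hc, M, hM⟩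
    haveI : Fintype H := Fintype.ofFinite H
    let M' := M.comap γ.toMonoidHom
    have hM' : M'.index = 2 := by
      rw [Subgroup.index_comap_of_surjective _ γ.surjective, hM]
    obtain ⟨N, hN, hNinv⟩ : ∃ N : Subgroup H, N.index = 2 ∧ ∀ x, γ x ∈ N ↔ x ∈ N := by
      by_cases heq' : M' = M
      · refine ⟨M, hM, fun x => ?_⟩
        constructor
        · intro h; rw [← heq']; exact h
        · intro h; rw [← heq'] at h; exact h
      · -- the index two subgroup of elements lying in both or neither of `M` and its image
        refine ⟨{ carrier := {x | x ∈ M ↔ x ∈ M'}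
                  one_mem' := by simp
                  mul_mem' := ?_
                  inv_mem' := ?_ }, ?_, ?_⟩
        · intro x y hx hy
          simp only [Set.mem_setOf_eq] at *
          rw [Subgroup.mul_mem_iff_of_index_two hM, Subgroup.mul_mem_iff_of_index_two hM', hx, hy]
        · intro x hx; simpa using hx
        · obtain ⟨a, ha⟩ : ∃ a, ¬ (a ∈ M ↔ a ∈ M') := by
            by_contra h; push_neg at h; exact heq' (SetLike.ext fun x => (h x).symm)
          rw [Subgroup.index_eq_two_iff]
          refine ⟨a, fun b => ?_⟩
          simp only [xor_def, Subgroup.mem_mk, Submonoid.mem_mk, Subsemigroup.mem_mk, Set.mem_setOf_eq]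
          rw [Subgroup.mul_mem_iff_of_index_two hM, Subgroup.mul_mem_iff_of_index_two hM']
          tauto
        · intro x
          simp only [Subgroup.mem_mk, Submonoid.mem_mk, Subsemigroup.mem_mk, Set.mem_setOf_eq, M', Subgroup.mem_comap,
            MulEquiv.coe_toMonoidHom, hγ2]
          exact Iff.comm
    let f : H → N := fun h => ⟨h⁻¹ * γ h, by
      rw [Subgroup.mul_mem_iff_of_index_two hN, inv_mem_iff, hNinv]⟩
    have hfsurj : Function.Surjective f := by
      classical
      have hfib : ∀ n : N, (Finset.univ.filter fun h => f h = n).card ≤ 2 := by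
        intro n
        rcases (Finset.univ.filter fun h => f h = n).eq_empty_or_nonempty with he | ⟨x, hx⟩
        · simp [he]
        · calc (Finset.univ.filter fun h => f h = n).card
              ≤ (Finset.univ.filter fun c : H => γ c = c).card := by
                refine Finset.card_le_card_of_injOn (fun y => y * x⁻¹) ?_ ?_
                · intro y hy
                  simp only [Finset.coe_filter, Finset.mem_univ, true_and, Set.mem_setOf_eq, Finset.mem_filter] at hy hx ⊢
                  exact (heq x y).mp (congrArg Subtype.val (hx.trans hy.symm))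
                · intro a _ b _ h; simpa using h
            _ = 2 := by rw [← hc, Nat.card_eq_fintype_card, Fintype.card_subtype]
      intro n
      by_contra hn; push_neg at hn
      have h1 : (Finset.univ : Finset H).card ≤ 2 * (Finset.univ.image f).card :=
        Finset.card_le_mul_card_image _ 2 fun a _ => hfib a
      have h2 : (Finset.univ.image f).card < Nat.card N := by
        rw [Nat.card_eq_fintype_card, ← Finset.card_univ]
        refine Finset.card_lt_card ((Finset.ssubset_univ_iff).mpr ?_)
        intro h
        have : n ∈ Finset.univ.image f := h ▸ Finset.mem_univ n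
        obtain ⟨x, -, hx⟩ := Finset.mem_image.mp this
        exact hn x hx
      have h3 := N.card_mul_index
      rw [hN] at h3
      simp only [Nat.card_eq_fintype_card, Finset.card_univ] at h1 h2 h3 ⊢
      omega
    have hinv : ∀ a ∈ N, γ a = a⁻¹ := by
      intro a ha; obtain ⟨x, hx⟩ := hfsurj ⟨a, ha⟩
      have : x⁻¹ * γ x = a := congrArg Subtype.val hx
      subst this; exact hf x
    refine ⟨N, hN, ⟨⟨fun a b => ?_⟩⟩, fun a ha => (hNinv a).mpr ha, hinv⟩
    apply Subtype.ext
    have h := map_mul γ (a : H)⁻¹ (b : H)⁻¹
    rw [hinv _ (N.mul_mem (N.inv_mem a.2) (N.inv_mem b.2)), hinv _ (N.inv_mem a.2), hinv _ (N.inv_mem b.2)] at h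
    simpa using h.symm

end Cfsg.Agent.S3375
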