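import Cfsg.Statements.S3377
import Mathlib
import Cfsg.Agent.H29.A5Pres

set_option autoImplicit false
open Cfsg

namespace Cfsg.Agent.S3377

/-- The alternating group of degree 5 has the presentation ⟨x, y | x³ = 1, y⁵ = 1, (xy)² = 1⟩: the group so presented is isomorphic to Alt(5). -/
theorem result :
    Nonempty (PresentedGroup ({FreeGroup.of (0 : Fin 2) ^ 3, FreeGroup.of (1 : Fin 2) ^ 5,
        (FreeGroup.of (0 : Fin 2) * FreeGroup.of 1) ^ 2} : Set (FreeGroup (Fin 2))) ≃* alternatingGroup (Fin 5)) := by
  classical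
  set R : Set (FreeGroup (Fin 2)) := {FreeGroup.of (0 : Fin 2) ^ 3, FreeGroup.of (1 : Fin 2) ^ 5,
        (FreeGroup.of (0 : Fin 2) * FreeGroup.of 1) ^ 2} with hR
  set P := PresentedGroup R
  let x : P := PresentedGroup.of 0
  let y : P := PresentedGroup.of 1
  have rel : ∀ r ∈ R, PresentedGroup.mk R r = 1 := fun r hr =>
    (PresentedGroup.one_of_mem hr)
  have hx : x ^ 3 = 1 := by
    have := rel _ (Set.mem_insert _ _); rw [map_pow] at this; exact this
  have hy : y ^ 5 = 1 := by
    have := rel _ (Set.mem_insert_of_mem _ (Set.mem_insert _ _)); rw [map_pow] at this; exact this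
  have hxy : (x * y) ^ 2 = 1 := by
    have := rel _ (Set.mem_insert_of_mem _ (Set.mem_insert_of_mem _ rfl))
    rw [map_pow, map_mul] at this
    exact this
  set t := x * y with htdef
  have ht : t * t = 1 := by rw [← pow_two]; exact hxy
  have h3 : (y * t) ^ 3 = 1 := by
    have e : y * t = x⁻¹ := by
      have h0 : x * (y * t) = 1 := by rw [← mul_assoc, ← htdef, ht]
      exact eq_inv_of_mul_eq_one_right h0
    rw [e, inv_pow, hx, inv_one]
  have hgen : Subgroup.closure ({t, y} : Set P) = ⊤ := by
    rw [eq_top_iff, ← PresentedGroup.closure_range_of R, Subgroup.closure_le]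
    rintro _ ⟨i, rfl⟩
    fin_cases i
    · have h1 : t ∈ Subgroup.closure ({t, y} : Set P) := Subgroup.subset_closure (by simp)
      have h2 : y ∈ Subgroup.closure ({t, y} : Set P) := Subgroup.subset_closure (by simp)
      have := mul_mem h1 (inv_mem h2)
      rwa [htdef, mul_inv_cancel_right] at this
    · exact Subgroup.subset_closure (by simp [y])
  have hsurj := H29.A5Pres.surjective t y ht hy h3 hgen
  have : Finite P := Finite.of_surjective _ hsurj
  have hcard : Nat.card P ≤ 60 := by
    refine (Nat.card_le_card_of_surjective _ hsurj).trans ?_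
    simp
  let X : alternatingGroup (Fin 5) :=
    ⟨Equiv.swap 0 1 * Equiv.swap 1 2, by rw [Equiv.Perm.mem_alternatingGroup]; decide⟩
  let Y : alternatingGroup (Fin 5) :=
    ⟨finRotate 5 * finRotate 5, by rw [Equiv.Perm.mem_alternatingGroup]; decide⟩
  let φ : P →* alternatingGroup (Fin 5) := PresentedGroup.toGroup (f := ![X, Y]) (by
    intro r hr
    rw [hR] at hr
    rcases hr with rfl | rfl | rfl
    · simp [map_pow, FreeGroup.lift_apply_of]; decide
    · simp [map_pow, FreeGroup.lift_apply_of]; decide
    · simp [map_pow, map_mul, FreeGroup.lift_apply_of]; decide)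
  have hφx : φ x = X := PresentedGroup.toGroup.of _
  have hφy : φ y = Y := PresentedGroup.toGroup.of _
  have hA : Nat.card (alternatingGroup (Fin 5)) = 60 := by
    rw [nat_card_alternatingGroup]; simp [Nat.card_eq_fintype_card, Nat.factorial]
  have htop : φ.range = ⊤ := by
    have mx : X ∈ φ.range := ⟨x, hφx⟩
    have my : Y ∈ φ.range := ⟨y, hφy⟩
    have d3 : 3 ∣ Nat.card φ.range := by
      have h : orderOf (⟨X, mx⟩ : φ.range) = 3 := by
        rw [← Subgroup.orderOf_coe]
        show orderOf X = 3
        exact orderOf_eq_prime (p := 3) (by decide) (by decide)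
      exact (h.symm.dvd).trans (orderOf_dvd_natCard _)
    have d5 : 5 ∣ Nat.card φ.range := by
      have := Fact.mk (show Nat.Prime 5 by norm_num)
      have h : orderOf (⟨Y, my⟩ : φ.range) = 5 := by
        rw [← Subgroup.orderOf_coe]
        show orderOf Y = 5
        exact orderOf_eq_prime (p := 5) (by decide) (by decide)
      exact (h.symm.dvd).trans (orderOf_dvd_natCard _)
    have d2 : 2 ∣ Nat.card φ.range := by
      have h : orderOf (⟨X * Y, mul_mem mx my⟩ : φ.range) = 2 := by
        rw [← Subgroup.orderOf_coe]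
        show orderOf (X * Y) = 2
        exact orderOf_eq_prime (p := 2) (by decide) (by decide)
      exact (h.symm.dvd).trans (orderOf_dvd_natCard _)
    have hdvd : Nat.card φ.range ∣ 60 := hA ▸ Subgroup.card_subgroup_dvd_card _
    have hmul := φ.range.card_mul_index
    rw [hA] at hmul
    have h30 : 30 ∣ Nat.card φ.range :=
      Nat.Coprime.mul_dvd_of_dvd_of_dvd (by norm_num)
        (Nat.Coprime.mul_dvd_of_dvd_of_dvd (by norm_num) d2 d3) d5
    obtain ⟨c, hc⟩ := h30
    rw [hc, mul_assoc] at hmul
    have h2 : c * φ.range.index = 2 := by omega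
    have hi : φ.range.index ∣ 2 := Dvd.intro_left _ h2
    rcases (Nat.dvd_prime Nat.prime_two).mp hi with h | h
    · exact Subgroup.index_eq_one.mp h
    · have := Subgroup.normal_of_index_eq_two h
      rcases this.eq_bot_or_eq_top with h' | h'
      · rw [h', Subgroup.index_bot, hA] at h; norm_num at h
      · exact h'
  have hbij : Function.Bijective φ := by
    rw [Nat.bijective_iff_surjective_and_card]
    refine ⟨MonoidHom.range_eq_top.mp htop, ?_⟩
    have := Nat.card_le_card_of_surjective φ (MonoidHom.range_eq_top.mp htop)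
    rw [hA] at this ⊢
    omega
  exact ⟨MulEquiv.ofBijective φ hbij⟩

end Cfsg.Agent.S3377
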