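import Cfsg.Statements.S3378
import Cfsg.Agent.Zass.Recognition
import Cfsg.Agent.Zass.CosetTable
import Cfsg.Agent.Zass.Odd

set_option autoImplicit false
open Cfsg

namespace Cfsg.Agent.S3378

theorem quat8_one_involution : ∀ x y : QuaternionGroup 2, x * x = 1 → y * y = 1 → x ≠ 1 → y ≠ 1 → x = y := by
  decide +kernel

theorem perfect_of_quat {G : Type*} [Group G] [Finite G] (hcard : Nat.card G = 120) (hns : ¬ Group.IsSolvable G)
    (hQ : ∀ P : Sylow 2 G, Nonempty ((P : Subgroup G) ≃* QuaternionGroup 2)) : commutator G = ⊤ := by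
  haveI : Fact (Nat.Prime 2) := ⟨Nat.prime_two⟩
  obtain ⟨T, -, hT1, hTp⟩ := CfsgLib.Zass.exists_perfect_normal hns
  haveI : Nontrivial T := (Subgroup.nontrivial_iff_ne_bot T).mpr hT1
  have hperf : commutator T = ⊤ := by
    apply Subgroup.map_injective T.subtype_injective
    rw [Subgroup.map_subtype_commutator, ← MonoidHom.range_eq_map, Subgroup.range_subtype, hTp]
  rcases CfsgLib.Zass.card_of_perfect hperf (hcard ▸ T.card_subgroup_dvd_card) with e | e
  · exfalso
    obtain ⟨P⟩ : Nonempty (Sylow 2 T) := inferInstance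
    apply CfsgLib.Zass.not_cyclic_sylow_two hperf (by rw [e]; norm_num) P
    have hP4 : Nat.card (P : Subgroup T) = 4 := by
      obtain ⟨k, hk⟩ := IsPGroup.iff_card.mp P.isPGroup'
      have h1 : 2 ^ k ∣ 4 * 15 := hk ▸ (Subgroup.card_subgroup_dvd_card _).trans (dvd_of_eq (e.trans (by norm_num)))
      have h2 : 2 ^ k ∣ 2 ^ 2 := by
        refine Nat.Coprime.dvd_of_dvd_mul_right ?_ h1
        exact Nat.Coprime.pow_left k (by norm_num)
      have h3 : 2 ^ 2 ∣ Nat.card (P : Subgroup T) := P.pow_dvd_card_of_pow_dvd_card (by rw [e]; norm_num)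
      exact Nat.dvd_antisymm (hk ▸ h2) h3
    have hPp : IsPGroup 2 ((P : Subgroup T).map T.subtype) := P.isPGroup'.map _
    obtain ⟨R, hR⟩ := hPp.exists_le_sylow
    obtain ⟨ι⟩ := hQ R
    let f : (P : Subgroup T) →* QuaternionGroup 2 :=
      (ι.toMonoidHom.comp (Subgroup.inclusion hR)).comp
        ((P : Subgroup T).equivMapOfInjective T.subtype T.subtype_injective).toMonoidHom
    have hf : Function.Injective f :=
      (ι.injective.comp (Subgroup.inclusion_injective hR)).comp (MulEquiv.injective _)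
    by_contra hnc
    haveI := Fintype.ofFinite (P : Subgroup T)
    have hsq : ∀ x : (P : Subgroup T), x * x = 1 := by
      intro x
      have hd : orderOf x ∣ 2 ^ 2 := by rw [show (2 ^ 2 : ℕ) = 4 from rfl, ← hP4]; exact orderOf_dvd_natCard x
      obtain ⟨i, hi, hi'⟩ := (Nat.dvd_prime_pow Nat.prime_two).mp hd
      interval_cases i
      · rw [orderOf_eq_one_iff.mp hi', one_mul]
      · rw [← pow_two]; have h := pow_orderOf_eq_one x; rw [hi', pow_one] at h; exact h
      · exact absurd (isCyclic_of_orderOf_eq_card x (by rw [hi', hP4]; norm_num)) hnc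
    have hall : ∀ x y : (P : Subgroup T), x ≠ 1 → y ≠ 1 → x = y := fun x y hx hy =>
      hf (quat8_one_involution _ _ (by rw [← map_mul, hsq, map_one]) (by rw [← map_mul, hsq, map_one])
        (fun h => hx (hf (h.trans (map_one f).symm))) (fun h => hy (hf (h.trans (map_one f).symm))))
    classical
    obtain ⟨x, hx⟩ := Fintype.exists_ne_of_one_lt_card
      (by rw [← Nat.card_eq_fintype_card, hP4]; norm_num) (1 : (P : Subgroup T))
    have hle : (Finset.univ : Finset (P : Subgroup T)) ⊆ {1, x} := fun y _ => by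
      rcases eq_or_ne y 1 with rfl | hy
      · simp
      · simp [hall y x hy hx]
    have h5 := (Finset.card_le_card hle).trans Finset.card_le_two
    rw [Finset.card_univ, ← Nat.card_eq_fintype_card, hP4] at h5
    omega
  · have hT : T = ⊤ := Subgroup.eq_top_of_card_eq T (e.trans hcard.symm)
    subst hT
    exact hTp

/-- The three generators in `SL(2,5)`. -/
def genSL : Fin 3 → Matrix.SpecialLinearGroup (Fin 2) (ZMod 5) :=
  ![⟨!![0, 4; 1, 4], by decide⟩, ⟨!![1, 1; 0, 1], by decide⟩, ⟨!![4, 0; 0, 4], by decide⟩]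

theorem genSL_facts : genSL 0 ^ 3 = 1 ∧ genSL 1 ^ 5 = 1 ∧ genSL 2 ^ 2 = 1 ∧
    (genSL 2)⁻¹ * genSL 0 * genSL 2 * (genSL 0)⁻¹ = 1 ∧ (genSL 2)⁻¹ * genSL 1 * genSL 2 * (genSL 1)⁻¹ = 1 ∧
    (genSL 0 * genSL 1) ^ 2 * (genSL 2)⁻¹ = 1 ∧ genSL 0 ≠ 1 ∧ genSL 1 ≠ 1 ∧ (genSL 0 * genSL 1) ^ 2 ≠ 1 ∧
    (genSL 0 * genSL 1) ^ 4 = 1 := by decide +kernel


/-- Every non-solvable group of order 120 whose Sylow 2-subgroups are quaternion of order 8 is isomorphic to SL(2,5), and SL(2,5) has the presentation ⟨x, y, z | x³ = y⁵ = z² = 1, z⁻¹xz = x, z⁻¹yz = y, (xy)² = z⟩. -/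
theorem result :
    (∀ (G : Type*) [Group G] [Finite G], Nat.card G = 120 → ¬ Group.IsSolvable G →
      (∀ P : Sylow 2 G, Nonempty ((P : Subgroup G) ≃* QuaternionGroup 2)) →
      Nonempty (G ≃* Matrix.SpecialLinearGroup (Fin 2) (ZMod 5))) ∧
    Nonempty (PresentedGroup ({FreeGroup.of (0 : Fin 3) ^ 3, FreeGroup.of (1 : Fin 3) ^ 5, FreeGroup.of (2 : Fin 3) ^ 2,
        (FreeGroup.of (2 : Fin 3))⁻¹ * FreeGroup.of 0 * FreeGroup.of 2 * (FreeGroup.of (0 : Fin 3))⁻¹,
        (FreeGroup.of (2 : Fin 3))⁻¹ * FreeGroup.of 1 * FreeGroup.of 2 * (FreeGroup.of (1 : Fin 3))⁻¹,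
        (FreeGroup.of (0 : Fin 3) * FreeGroup.of 1) ^ 2 * (FreeGroup.of (2 : Fin 3))⁻¹} : Set (FreeGroup (Fin 3)))
      ≃* Matrix.SpecialLinearGroup (Fin 2) (ZMod 5)) := by
  refine ⟨fun G _ _ hcard hns hQ => CfsgLib.Zass.iso_SL25 (perfect_of_quat hcard hns hQ) hcard, ?_⟩
  obtain ⟨f1, f2, f3, f4, f5, f6, g1, g2, g3, g4⟩ := genSL_facts
  generalize hgs : genSL = gs at f1 f2 f3 f4 f5 f6 g1 g2 g3 g4
  set rels : Set (FreeGroup (Fin 3)) := {FreeGroup.of (0 : Fin 3) ^ 3, FreeGroup.of (1 : Fin 3) ^ 5, FreeGroup.of (2 : Fin 3) ^ 2,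
        (FreeGroup.of (2 : Fin 3))⁻¹ * FreeGroup.of 0 * FreeGroup.of 2 * (FreeGroup.of (0 : Fin 3))⁻¹,
        (FreeGroup.of (2 : Fin 3))⁻¹ * FreeGroup.of 1 * FreeGroup.of 2 * (FreeGroup.of (1 : Fin 3))⁻¹,
        (FreeGroup.of (0 : Fin 3) * FreeGroup.of 1) ^ 2 * (FreeGroup.of (2 : Fin 3))⁻¹} with hrels
  set X : PresentedGroup rels := PresentedGroup.of 0 with hX
  set Y : PresentedGroup rels := PresentedGroup.of 1 with hY
  set Z : PresentedGroup rels := PresentedGroup.of 2 with hZ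
  have one : ∀ r ∈ rels, PresentedGroup.mk rels r = 1 := fun r hr => PresentedGroup.one_of_mem hr
  have rX : X ^ 3 = 1 := by
    have := one (FreeGroup.of (0 : Fin 3) ^ 3) (by simp [hrels])
    rwa [map_pow] at this
  have rY : Y ^ 5 = 1 := by
    have := one (FreeGroup.of (1 : Fin 3) ^ 5) (by simp [hrels])
    rwa [map_pow] at this
  have rZ : Z ^ 2 = 1 := by
    have := one (FreeGroup.of (2 : Fin 3) ^ 2) (by simp [hrels])
    rwa [map_pow] at this
  have rZX : Commute Z X := by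
    have := one ((FreeGroup.of (2 : Fin 3))⁻¹ * FreeGroup.of 0 * FreeGroup.of 2 * (FreeGroup.of (0 : Fin 3))⁻¹) (by simp [hrels])
    simp only [map_mul, map_inv] at this
    rw [mul_inv_eq_one, mul_assoc, inv_mul_eq_iff_eq_mul] at this
    exact this.symm
  have rZY : Commute Z Y := by
    have := one ((FreeGroup.of (2 : Fin 3))⁻¹ * FreeGroup.of 1 * FreeGroup.of 2 * (FreeGroup.of (1 : Fin 3))⁻¹) (by simp [hrels])
    simp only [map_mul, map_inv] at this
    rw [mul_inv_eq_one, mul_assoc, inv_mul_eq_iff_eq_mul] at this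
    exact this.symm
  have rXY : (X * Y) ^ 2 = Z := by
    have := one ((FreeGroup.of (0 : Fin 3) * FreeGroup.of 1) ^ 2 * (FreeGroup.of (2 : Fin 3))⁻¹) (by simp [hrels])
    simp only [map_mul, map_inv, map_pow] at this
    exact mul_inv_eq_one.mp this
  have hgen : Subgroup.closure ({X, Y, Z} : Set (PresentedGroup rels)) = ⊤ := by
    rw [eq_top_iff, ← PresentedGroup.closure_range_of rels]
    refine Subgroup.closure_mono ?_
    rintro _ ⟨i, rfl⟩
    fin_cases i <;> simp [hX, hY, hZ]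
  have hzc : ∀ x, Commute Z x := by
    intro x
    have hle : Subgroup.closure ({X, Y, Z} : Set (PresentedGroup rels)) ≤ Subgroup.centralizer {Z} := by
      rw [Subgroup.closure_le]
      intro g hg
      simp only [Set.mem_insert_iff, Set.mem_singleton_iff] at hg
      rcases hg with rfl | rfl | rfl
      · exact Subgroup.mem_centralizer_singleton_iff.mpr rZX.symm
      · exact Subgroup.mem_centralizer_singleton_iff.mpr rZY.symm
      · exact Subgroup.mem_centralizer_singleton_iff.mpr rfl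
    exact (Subgroup.mem_centralizer_singleton_iff.mp (hle (hgen ▸ Subgroup.mem_top x))).symm
  obtain ⟨hfin, hle⟩ := CfsgLib.Zass.card_le_of_table rX rY rZ hzc rXY hgen
  haveI := hfin
  have hrel : ∀ r ∈ rels, FreeGroup.lift gs r = 1 := by
    intro r hr
    simp only [hrels, Set.mem_insert_iff, Set.mem_singleton_iff] at hr
    rcases hr with rfl | rfl | rfl | rfl | rfl | rfl <;>
      simp only [map_mul, map_pow, map_inv, FreeGroup.lift_apply_of]
    exacts [f1, f2, f3, f4, f5, f6]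
  let φ := PresentedGroup.toGroup hrel
  have hmem : ∀ i, gs i ∈ φ.range := fun i => ⟨PresentedGroup.of i, PresentedGroup.toGroup.of hrel⟩
  have hsurj : Function.Surjective φ := by
    have h3 : 3 ∣ Nat.card φ.range := by
      haveI : Fact (Nat.Prime 3) := ⟨Nat.prime_three⟩
      exact (orderOf_eq_prime f1 g1).symm.dvd.trans (Subgroup.orderOf_dvd_natCard _ (hmem 0))
    have h5 : 5 ∣ Nat.card φ.range := by
      haveI : Fact (Nat.Prime 5) := ⟨by norm_num⟩
      exact (orderOf_eq_prime f2 g2).symm.dvd.trans (Subgroup.orderOf_dvd_natCard _ (hmem 1))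
    have h4 : 4 ∣ Nat.card φ.range := by
      haveI : Fact (Nat.Prime 2) := ⟨Nat.prime_two⟩
      have h : orderOf (gs 0 * gs 1) = 2 ^ (1 + 1) :=
        orderOf_eq_prime_pow (by rw [pow_one]; exact g3) g4
      exact (dvd_of_eq ((show 4 = 2 ^ (1 + 1) from rfl).trans h.symm)).trans (Subgroup.orderOf_dvd_natCard _ (mul_mem (hmem 0) (hmem 1)))
    have h60 : 60 ∣ Nat.card φ.range := (Nat.Coprime.mul_dvd_of_dvd_of_dvd (by norm_num : Nat.Coprime 12 5)
      (Nat.Coprime.mul_dvd_of_dvd_of_dvd (by norm_num : Nat.Coprime 4 3) h4 h3) h5)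
    obtain ⟨t, ht⟩ := h60
    have h1 := φ.range.card_mul_index
    rw [CfsgLib.Zass.card_SL25, ht, mul_assoc] at h1
    have h2 : φ.range.index ∣ 2 := ⟨t, by
      exact (Nat.eq_of_mul_eq_mul_left (by norm_num : 0 < 60)
        (h1.trans (by norm_num : 120 = 60 * 2))).symm.trans (mul_comm _ _)⟩
    rcases (Nat.dvd_prime Nat.prime_two).mp h2 with e | e
    · exact MonoidHom.range_eq_top.mp (Subgroup.index_eq_one.mp e)
    · exfalso
      haveI := Subgroup.normal_of_index_eq_two e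
      haveI : IsCyclic (Matrix.SpecialLinearGroup (Fin 2) (ZMod 5) ⧸ φ.range) :=
        isCyclic_of_prime_card (p := 2) (by rw [← Subgroup.index_eq_card, e])
      haveI : Nontrivial (Matrix.SpecialLinearGroup (Fin 2) (ZMod 5) ⧸ φ.range) := by
        rw [← Finite.one_lt_card_iff_nontrivial, ← Subgroup.index_eq_card, e]; norm_num
      exact CfsgLib.Zass.not_solvable_of_perfect (CfsgLib.Zass.commutator_eq_top_of_surjective
        (QuotientGroup.mk' φ.range) (QuotientGroup.mk'_surjective _) CfsgLib.Zass.perfect_SL25) inferInstance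
  refine ⟨MulEquiv.ofBijective φ ((Nat.bijective_iff_surjective_and_card _).mpr ⟨hsurj, le_antisymm ?_ ?_⟩)⟩
  · rw [CfsgLib.Zass.card_SL25]; exact hle
  · exact Nat.card_le_card_of_surjective φ hsurj

end Cfsg.Agent.S3378
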