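import Cfsg.Statements.S3379
-- no helpers

set_option autoImplicit false
open Cfsg

namespace Cfsg.Agent.S3379

/-- Let G be a finite group all of whose Sylow subgroups are cyclic. Then G is generated by two elements x and y of coprime orders n and m with x⁻¹yx = y^r, where gcd(r − 1, m) = 1 and r^n ≡ 1 (mod m). -/
theorem result {G : Type*} [Group G] [Finite G]
    (hZ : ∀ (p : ℕ) [Fact p.Prime] (P : Sylow p G), IsCyclic (P : Subgroup G)) :
    ∃ (x y : G) (n m r : ℕ), Subgroup.closure {x, y} = ⊤ ∧ orderOf x = n ∧ orderOf y = m ∧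
      x⁻¹ * y * x = y ^ r ∧ Nat.Coprime (r - 1) m ∧ Nat.Coprime n m ∧ 1 ≤ r ∧ r ^ n % m = 1 % m := by
  classical
  haveI : IsZGroup G := ⟨fun p hp P => by haveI := Fact.mk hp; exact hZ p P⟩
  obtain ⟨⟨y, hy⟩, hgen⟩ := (IsZGroup.isCyclic_commutator G).exists_generator
  have hcy : commutator G = Subgroup.zpowers y := by
    refine le_antisymm (fun g hg => ?_) (Subgroup.zpowers_le.mpr hy)
    obtain ⟨k, hk⟩ := hgen ⟨g, hg⟩
    exact ⟨k, congrArg Subtype.val hk⟩
  set m := orderOf y with hm
  have hm' : Nat.card (commutator G) = m := by rw [hcy, Nat.card_zpowers]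
  set n := (commutator G).index with hn
  have hcop : Nat.Coprime n m := by rw [← hm']; exact (IsZGroup.coprime_commutator_index G).symm
  obtain ⟨q, hq⟩ := (IsZGroup.isCyclic_abelianization (G := G)).exists_generator
  obtain ⟨x₀, rfl⟩ := QuotientGroup.mk_surjective q
  have hord : orderOf ((x₀ : G ⧸ commutator G)) = n := by
    rw [hn, Subgroup.index_eq_card]
    exact orderOf_eq_card_of_forall_mem_zpowers hq
  have hgcd : Nat.Coprime m (orderOf (x₀ : G ⧸ commutator G)) := by rw [hord]; exact hcop.symm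
  set x := x₀ ^ m with hx
  have hxq : ((x : G) : G ⧸ commutator G) = (x₀ : G ⧸ commutator G) ^ m := QuotientGroup.mk_pow _ x₀ m
  have hox : orderOf x = n := by
    have h1 : orderOf (x : G ⧸ commutator G) = n := by rw [hxq, Nat.Coprime.orderOf_pow hgcd.symm, hord]
    refine Nat.dvd_antisymm (orderOf_dvd_of_pow_eq_one ?_) (h1 ▸ orderOf_map_dvd (QuotientGroup.mk' _) x)
    have h2 : x₀ ^ n ∈ commutator G := by
      rw [← QuotientGroup.eq_one_iff, QuotientGroup.mk_pow, ← hord, pow_orderOf_eq_one]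
    obtain ⟨k, hk⟩ := hcy ▸ h2
    rw [hx, ← pow_mul, mul_comm, pow_mul]
    simp only at hk
    rw [← hk, ← zpow_natCast, ← zpow_mul, mul_comm, zpow_mul, zpow_natCast, hm, pow_orderOf_eq_one, one_zpow]
  have htop : Subgroup.closure {x, y} = ⊤ := by
    rw [Subgroup.eq_top_iff']
    intro g
    have hxmem : x ∈ Subgroup.closure {x, y} := Subgroup.subset_closure (by simp)
    have hymem : y ∈ Subgroup.closure {x, y} := Subgroup.subset_closure (by simp)
    obtain ⟨a, ha⟩ : ∃ a : ℤ, (g : G ⧸ commutator G) = (x : G ⧸ commutator G) ^ a := by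
      obtain ⟨a, ha⟩ := hq (g : G ⧸ commutator G)
      obtain ⟨b, hb⟩ : (x₀ : G ⧸ commutator G) ∈ Subgroup.zpowers ((x : G ⧸ commutator G)) := by
        rw [hxq, mem_zpowers_pow_iff]; exact hgcd
      refine ⟨b * a, ?_⟩
      simp only at ha hb
      rw [zpow_mul, hb]; exact ha.symm
    rw [← QuotientGroup.mk_zpow, QuotientGroup.eq, hcy] at ha
    obtain ⟨k, hk⟩ := ha
    simp only at hk
    have : g = x ^ a * (y ^ k)⁻¹ := by rw [hk]; group
    rw [this]; exact mul_mem (zpow_mem hxmem _) (inv_mem (zpow_mem hymem _))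
  obtain ⟨r, hr1, hr⟩ : ∃ r : ℕ, 1 ≤ r ∧ x⁻¹ * y * x = y ^ r := by
    have h : x⁻¹ * y * x ∈ Subgroup.zpowers y := by
      rw [← hcy]
      simpa using (inferInstance : (commutator G).Normal).conj_mem y hy x⁻¹
    rw [← mem_powers_iff_mem_zpowers] at h
    obtain ⟨r, hr⟩ := h
    refine ⟨r + m, ?_, ?_⟩
    · have := orderOf_pos y; omega
    · rw [pow_add, hm, pow_orderOf_eq_one, mul_one]; exact hr.symm
  have hpow : ∀ i : ℕ, (x ^ i)⁻¹ * y * x ^ i = y ^ r ^ i := by
    intro i
    induction i with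
    | zero => simp
    | succ i ih =>
      calc (x ^ (i + 1))⁻¹ * y * x ^ (i + 1) = x⁻¹ * ((x ^ i)⁻¹ * y * x ^ i) * x := by rw [pow_succ]; group
        _ = (x⁻¹ * y * x) ^ (r ^ i) := by
            rw [ih]; have := conj_pow (i := r ^ i) (a := x⁻¹) (b := y); rw [inv_inv] at this; exact this.symm
        _ = y ^ r ^ (i + 1) := by rw [hr, ← pow_mul, pow_succ']
  refine ⟨x, y, n, m, r, htop, hox, hm.symm, hr, ?_, hcop, hr1, ?_⟩
  · -- the commutator subgroup is generated by `y ^ (r - 1)`
    set N := Subgroup.zpowers (y ^ (r - 1))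
    have hNn : N.Normal := by
      refine ⟨fun a ha g => ?_⟩
      obtain ⟨k, rfl⟩ := ha
      have hg : g ∈ Subgroup.closure {x, y} := htop ▸ Subgroup.mem_top g
      obtain ⟨j, hj⟩ : g * y * g⁻¹ ∈ Subgroup.zpowers y := by
        rw [← hcy]; exact (inferInstance : (commutator G).Normal).conj_mem y hy g
      refine ⟨j * k, ?_⟩
      simp only at hj ⊢
      rw [← conj_zpow, ← conj_pow, ← hj, ← zpow_natCast, ← zpow_natCast, ← zpow_mul, ← zpow_mul, ← zpow_mul]
      ring_nf
    have hsub : commutator G ≤ N := by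
      rw [commutator_def, Subgroup.commutator_le]
      have hc : Commute (x : G ⧸ N) (y : G ⧸ N) := by
        have : x⁻¹ * y * x * y⁻¹ ∈ N := by
          refine ⟨1, ?_⟩
          simp only [zpow_one]
          rw [hr, eq_mul_inv_iff_mul_eq, ← pow_succ]
          congr 1; omega
        rw [← QuotientGroup.eq_one_iff] at this
        simp only [QuotientGroup.mk_mul, QuotientGroup.mk_inv] at this
        have h2 := mul_inv_eq_one.mp this
        rw [mul_assoc, inv_mul_eq_iff_eq_mul] at h2
        exact h2.symm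
      intro a _ b _
      have hab : Commute (a : G ⧸ N) (b : G ⧸ N) := by
        have hgen2 : ∀ g : G, (g : G ⧸ N) ∈ Subgroup.closure {(x : G ⧸ N), (y : G ⧸ N)} := by
          intro g
          have hg : g ∈ Subgroup.closure {x, y} := htop ▸ Subgroup.mem_top g
          have := Subgroup.mem_map_of_mem (QuotientGroup.mk' N) hg
          rwa [MonoidHom.map_closure, Set.image_pair] at this
        haveI := Subgroup.isMulCommutative_closure (k := ({(x : G ⧸ N), (y : G ⧸ N)} : Set (G ⧸ N))) (by
          rintro u (rfl | rfl) v (rfl | rfl) <;> first | rfl | exact hc.eq | exact hc.eq.symm)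
        exact congrArg Subtype.val (mul_comm' (⟨_, hgen2 a⟩ : Subgroup.closure {(x : G ⧸ N), (y : G ⧸ N)}) ⟨_, hgen2 b⟩)
      have : ((a * b * a⁻¹ * b⁻¹ : G) : G ⧸ N) = 1 := by
        simp only [QuotientGroup.mk_mul, QuotientGroup.mk_inv]
        rw [hab.eq]; group
      rw [commutatorElement_def]
      exact (QuotientGroup.eq_one_iff _).mp this
    have := hsub hy
    rw [mem_zpowers_pow_iff] at this
    exact this
  · have h1 : y ^ 1 = y ^ r ^ n := by
      rw [pow_one, ← hpow n, ← hox, pow_orderOf_eq_one]; group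
    exact (pow_eq_pow_iff_modEq.mp h1).symm

end Cfsg.Agent.S3379
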