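import Cfsg.Statements.S3381
-- import your own Cfsg.Agent.* helpers here

set_option autoImplicit false
open Cfsg

namespace Cfsg.Agent.S3381

/-- Let G be a finite group acting faithfully and linearly on a non-trivial finite vector space V over the field with q elements (q prime) so that every non-zero vector has a stabilizer of order 2, and suppose G has a central involution. Then V has q^(2r) elements for some r and G contains exactly q^r + 1 non-central involutions. -/
theorem result
    (q : ℕ) [Fact q.Prime] {V : Type*} [AddCommGroup V] [Module (ZMod q) V] [Finite V] [Nontrivial V]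
    {G : Type*} [Group G] [Finite G] (ρ : G →* (V ≃ₗ[ZMod q] V)) (hρ : Function.Injective ρ)
    (hstab : ∀ v : V, v ≠ 0 → Nat.card {g : G // ρ g v = v} = 2)
    (z : G) (hz : orderOf z = 2) (hzc : z ∈ Subgroup.center G) :
    ∃ r : ℕ, Nat.card V = q ^ (2 * r) ∧
      Nat.card {g : G // orderOf g = 2 ∧ g ∉ Subgroup.center G} = q ^ r + 1 := by
  classical
  haveI : Fintype G := Fintype.ofFinite G
  have hz2 : z ^ 2 = 1 := hz ▸ pow_orderOf_eq_one z
  have hone : ∀ (v : V), ρ 1 v = v := fun v => by rw [map_one]; rfl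
  have hmul : ∀ (g h : G) (v : V), ρ (g * h) v = ρ g (ρ h v) := fun g h v => by rw [map_mul]; rfl
  have hext : ∀ g : G, (∀ v, ρ g v = v) → g = 1 := fun g h => hρ (LinearEquiv.ext fun v => (h v).trans (hone v).symm)
  have huniq : ∀ v : V, v ≠ 0 → ∀ s t : G, s ≠ 1 → t ≠ 1 → ρ s v = v → ρ t v = v → s = t := by
    intro v hv s t hs ht hsv htv
    by_contra hst
    have h3 : Function.Injective ![(⟨1, hone v⟩ : {g : G // ρ g v = v}), ⟨s, hsv⟩, ⟨t, htv⟩] := by
      intro i j h
      have h' := congrArg Subtype.val h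
      fin_cases i <;> fin_cases j <;> first
        | rfl
        | exact absurd h' hs | exact absurd h'.symm hs
        | exact absurd h' ht | exact absurd h'.symm ht
        | exact absurd h' hst | exact absurd h'.symm hst
    have := Nat.card_le_card_of_injective _ h3
    rw [hstab v hv, Nat.card_fin] at this
    omega
  have hexist : ∀ v : V, v ≠ 0 → ∃ t : G, orderOf t = 2 ∧ ρ t v = v := by
    intro v hv
    haveI : Nontrivial {g : G // ρ g v = v} := Finite.one_lt_card_iff_nontrivial.1 (by rw [hstab v hv]; norm_num)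
    obtain ⟨⟨t, ht⟩, hne⟩ := exists_ne (⟨1, hone v⟩ : {g : G // ρ g v = v})
    have ht1 : t ≠ 1 := fun e => hne (Subtype.ext e)
    have htt : ρ (t * t) v = v := by rw [hmul, ht, ht]
    refine ⟨t, orderOf_eq_prime ?_ ht1, ht⟩
    rw [sq]
    by_contra h2
    have := huniq v hv t (t * t) ht1 h2 ht htt
    exact ht1 (mul_left_cancel (a := t) (by rw [← this, mul_one]))
  have hinv : ∀ (t : G), orderOf t = 2 → ∀ v, ρ t (ρ t v) = v := fun t ht v => by
    rw [← hmul, ← sq, ← ht, pow_orderOf_eq_one, hone]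
  have hne1 : ∀ t : G, orderOf t = 2 → t ≠ 1 := fun t ht e => by rw [e, orderOf_one] at ht; omega
  have hcentral : ∀ c : G, orderOf c = 2 → c ∈ Subgroup.center G → ∀ v, ρ c v = v → v = 0 := by
    intro c hc hcc v hcv
    by_contra hv
    obtain ⟨w, hw⟩ : ∃ w, ρ c w ≠ w := by
      by_contra h
      push Not at h
      exact hne1 c hc (hext c h)
    have hcomm : ∀ (t : G) x, ρ c (ρ t x) = ρ t (ρ c x) := fun t x => by
      rw [← hmul, ← hmul, Subgroup.mem_center_iff.1 hcc t]
    have key : ∀ x : V, x ≠ 0 → ρ c x ≠ x → ∀ t : G, t ≠ 1 → ρ t x = x → ρ t v ≠ v := by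
      intro x _ hx t ht htx htv
      rw [huniq v hv t c ht (hne1 c hc) htv hcv] at htx
      exact hx htx
    set w' := w - ρ c w with hw'
    have hw'0 : w' ≠ 0 := sub_ne_zero.2 (Ne.symm hw)
    have hcw' : ρ c w' = -w' := by rw [hw', map_sub, hinv c hc, neg_sub]
    by_cases hq2 : q = 2
    · have hxx : ∀ x : V, x + x = 0 := fun x => by
        rw [← two_smul (ZMod q) x, show (2 : ZMod q) = ((2 : ℕ) : ZMod q) by norm_num,
          show ((2 : ℕ) : ZMod q) = 0 by rw [ZMod.natCast_eq_zero_iff, hq2], zero_smul]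
      have hw0 : w ≠ 0 := fun e => hw (by rw [e, map_zero])
      obtain ⟨t, ht, htw⟩ := hexist w hw0
      have hnv : ρ t v ≠ v := key w hw0 hw t (hne1 t ht) htw
      have hs : v + ρ t v ≠ 0 := fun h => hnv (by
        rw [← add_left_cancel_iff (a := v), h, hxx])
      have e1 : ρ t (v + ρ t v) = v + ρ t v := by rw [map_add, hinv t ht, add_comm]
      have e2 : ρ c (v + ρ t v) = v + ρ t v := by rw [map_add, hcv, hcomm, hcv]
      exact hw (by rw [← huniq _ hs t c (hne1 t ht) (hne1 c hc) e1 e2]; exact htw)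
    · have h2' : (2 : ZMod q) ≠ 0 := fun h => by
        rw [show (2 : ZMod q) = ((2 : ℕ) : ZMod q) by norm_num, ZMod.natCast_eq_zero_iff] at h
        exact hq2 ((Nat.prime_dvd_prime_iff_eq Fact.out Nat.prime_two).1 h)
      have hhalf : ∀ x y : V, x + x = y + y → x = y := fun x y h => by
        rw [← two_smul (ZMod q) x, ← two_smul (ZMod q) y] at h
        exact smul_right_injective V h2' h
      have hx : ρ c (v + w') = v - w' := by rw [map_add, hcv, hcw', ← sub_eq_add_neg]
      have hx0 : v + w' ≠ 0 := fun h => by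
        have := congrArg (ρ c) h
        rw [hx, map_zero] at this
        exact hv (hhalf v 0 (by rw [add_zero]; linear_combination (norm := abel) h + this))
      obtain ⟨t, ht, htx⟩ := hexist _ hx0
      have htx' : ρ t (v - w') = v - w' := by rw [← hx, ← hcomm, htx]
      refine key (v + w') hx0 ?_ t (hne1 t ht) htx (hhalf _ _ ?_)
      · rw [hx]; intro e
        exact hw'0 (hhalf w' 0 (by rw [add_zero]; linear_combination (norm := abel) (e.symm)))
      · have := congrArg₂ (· + ·) htx htx'
        simp only [map_add, map_sub] at this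
        linear_combination (norm := abel) this
  -- the central involution is `-1`
  have hzneg : ∀ v, ρ z v = -v := fun v => eq_neg_of_add_eq_zero_left
    (hcentral z hz hzc (ρ z v + v) (by rw [map_add, hinv z hz, add_comm]))
  have hq : q ≠ 2 := by
    intro hq2
    obtain ⟨v, hv⟩ := exists_ne (0 : V)
    refine hv (hcentral z hz hzc v ?_)
    rw [hzneg, neg_eq_iff_add_eq_zero, ← two_smul (ZMod q) v,
      show (2 : ZMod q) = ((2 : ℕ) : ZMod q) by norm_num,
      show ((2 : ℕ) : ZMod q) = 0 by rw [ZMod.natCast_eq_zero_iff, hq2], zero_smul]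
  have h2' : (2 : ZMod q) ≠ 0 := fun h => by
    rw [show (2 : ZMod q) = ((2 : ℕ) : ZMod q) by norm_num, ZMod.natCast_eq_zero_iff] at h
    exact hq ((Nat.prime_dvd_prime_iff_eq Fact.out Nat.prime_two).1 h)
  let I := {g : G // orderOf g = 2 ∧ g ∉ Subgroup.center G}
  have hI : ∀ t : G, orderOf t = 2 → ∀ v : V, v ≠ 0 → ρ t v = v → t ∉ Subgroup.center G :=
    fun t ht v hv htv hc => hv (hcentral t ht hc v htv)
  let W : G → Submodule (ZMod q) V := fun t => LinearMap.ker ((ρ t).toLinearMap - LinearMap.id)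
  have hW : ∀ t v, v ∈ W t ↔ ρ t v = v := fun t v => by simp [W, sub_eq_zero]
  have hzt : ∀ t : I, orderOf (z * t.1) = 2 ∧ z * t.1 ∉ Subgroup.center G := by
    intro t
    have hne : z * t.1 ≠ 1 := fun e => t.2.2 (by
      rw [eq_inv_of_mul_eq_one_right e]; exact inv_mem hzc)
    refine ⟨orderOf_eq_prime ?_ hne, fun hc => t.2.2 ?_⟩
    · have ht : t.1 ^ 2 = 1 := by
        have := pow_orderOf_eq_one t.1
        rwa [t.2.1] at this
      rw [(show Commute z t.1 from (Subgroup.mem_center_iff.1 hzc t.1).symm).mul_pow, hz2, ht, one_mul]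
    · simpa using mul_mem (inv_mem hzc) hc
  let flip : I → I := fun t => ⟨z * t.1, hzt t⟩
  have hflipne : ∀ t : I, flip t ≠ t := fun t e => by
    have h : z * t.1 = t.1 := congrArg Subtype.val e
    exact hne1 z hz (mul_eq_right.1 h)
  have hdim : ∀ t : I, Module.finrank (ZMod q) (W t.1) + Module.finrank (ZMod q) (W (flip t).1) =
      Module.finrank (ZMod q) V := by
    intro t
    rw [← Submodule.finrank_sup_add_finrank_inf_eq, show W t.1 ⊓ W (flip t).1 = ⊥ from ?_, finrank_bot, add_zero,
      show W t.1 ⊔ W (flip t).1 = ⊤ from ?_, finrank_top]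
    · rw [eq_top_iff]
      intro v _
      have hv : v = (2 : ZMod q)⁻¹ • (v + ρ t.1 v) + (2 : ZMod q)⁻¹ • (v - ρ t.1 v) := by
        rw [← smul_add, show v + ρ t.1 v + (v - ρ t.1 v) = v + v by abel, ← two_smul (ZMod q) v, smul_smul,
          inv_mul_cancel₀ h2', one_smul]
      rw [hv]
      refine Submodule.add_mem_sup (Submodule.smul_mem _ _ ((hW _ _).2 ?_)) (Submodule.smul_mem _ _ ((hW _ _).2 ?_))
      · rw [map_add, hinv _ t.2.1, add_comm]
      · show ρ (z * t.1) (v - ρ t.1 v) = v - ρ t.1 v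
        rw [hmul, hzneg, map_sub, hinv _ t.2.1, neg_sub]
    · rw [Submodule.eq_bot_iff]
      intro v hv
      by_contra hv0
      exact hflipne t (Subtype.ext (huniq v hv0 _ _ (hne1 _ (hzt t).1) (hne1 _ t.2.1) ((hW _ _).1 hv.2) ((hW _ _).1 hv.1)))
  have hdisj : ∀ s t : I, s ≠ t →
      Module.finrank (ZMod q) (W s.1) + Module.finrank (ZMod q) (W t.1) ≤ Module.finrank (ZMod q) V := by
    intro s t hst
    rw [← Submodule.finrank_sup_add_finrank_inf_eq, show W s.1 ⊓ W t.1 = ⊥ from ?_, finrank_bot, add_zero]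
    · exact Submodule.finrank_le _
    · rw [Submodule.eq_bot_iff]
      intro v hv
      by_contra hv0
      exact hst (Subtype.ext (huniq v hv0 _ _ (hne1 _ s.2.1) (hne1 _ t.2.1) ((hW _ _).1 hv.1) ((hW _ _).1 hv.2)))
  have hcov : ∀ v : V, v ≠ 0 → ∃ t : I, v ∈ W t.1 := fun v hv => by
    obtain ⟨t, ht, htv⟩ := hexist v hv
    exact ⟨⟨t, ht, hI t ht v hv htv⟩, (hW _ _).2 htv⟩
  have heq : ∀ t : I, Module.finrank (ZMod q) (W t.1) = Module.finrank (ZMod q) (W (flip t).1) := by
    by_contra hc
    push Not at hc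
    obtain ⟨t, ht⟩ := hc
    have hall : ∀ s : I, s = t ∨ s = flip t := by
      intro s
      by_contra hs
      push Not at hs
      have hsf : flip s ≠ t ∧ flip s ≠ flip t := by
        have h1 : flip s ≠ flip t := fun e => hs.1 (Subtype.ext (mul_left_cancel (congrArg Subtype.val e)))
        refine ⟨fun e => hs.2 ?_, h1⟩
        have h2 : z * s.1 = t.1 := congrArg Subtype.val e
        refine Subtype.ext (show s.1 = z * t.1 from ?_)
        rw [← h2, ← mul_assoc, ← sq, hz2, one_mul]
      have := hdisj s t hs.1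
      have := hdisj s (flip t) hs.2
      have := hdisj (flip s) t hsf.1
      have := hdisj (flip s) (flip t) hsf.2
      have := hdim s
      have := hdim t
      omega
    obtain ⟨u, hu⟩ := exists_ne (0 : V)
    have hpos : ∀ s : I, W s.1 ≠ ⊤ := fun s h => hne1 _ s.2.1 (hext _ fun v => (hW _ _).1 (h ▸ Submodule.mem_top))
    obtain ⟨x, hx⟩ : ∃ x, x ∉ W t.1 := by
      by_contra h; push Not at h; exact hpos t (eq_top_iff.2 fun v _ => h v)
    obtain ⟨y, hy⟩ : ∃ y, y ∉ W (flip t).1 := by
      by_contra h; push Not at h; exact hpos (flip t) (eq_top_iff.2 fun v _ => h v)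
    have hmem : ∀ v, v ∈ W t.1 ∨ v ∈ W (flip t).1 := fun v => by
      by_cases hv : v = 0
      · exact Or.inl (hv ▸ Submodule.zero_mem _)
      · obtain ⟨s, hs⟩ := hcov v hv
        rcases hall s with rfl | rfl
        · exact Or.inl hs
        · exact Or.inr hs
    have hx' := (hmem x).resolve_left hx
    have hy' := (hmem y).resolve_right hy
    rcases hmem (x + y) with h | h
    · exact hx (by simpa using Submodule.sub_mem _ h hy')
    · exact hy (by simpa using Submodule.sub_mem _ h hx')
  obtain ⟨v₀, hv₀⟩ := exists_ne (0 : V)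
  obtain ⟨t₀, ht₀⟩ := hcov v₀ hv₀
  set r := Module.finrank (ZMod q) (W t₀.1) with hr
  have hn : Module.finrank (ZMod q) V = 2 * r := by rw [← hdim t₀, ← heq t₀]; omega
  have hr' : ∀ t : I, Module.finrank (ZMod q) (W t.1) = r := fun t => by
    have := hdim t
    have := heq t
    omega
  refine ⟨r, by rw [Module.natCard_eq_pow_finrank (K := ZMod q), Nat.card_zmod, hn], ?_⟩
  -- the fixed spaces partition the non-zero vectors
  have hF : Function.Bijective (fun x : Σ t : I, {v : W t.1 // v ≠ 0} => (⟨(x.2.1 : V), fun h => x.2.2 (Subtype.ext h)⟩ : {v : V // v ≠ 0})) := by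
    constructor
    · rintro ⟨s, ⟨⟨v, hv⟩, hv0⟩⟩ ⟨t, ⟨⟨v', hv'⟩, hv0'⟩⟩ h
      obtain rfl : v = v' := congrArg Subtype.val h
      obtain rfl : s = t := Subtype.ext (huniq v (fun e => hv0 (Subtype.ext e)) _ _ (hne1 _ s.2.1) (hne1 _ t.2.1) ((hW _ _).1 hv) ((hW _ _).1 hv'))
      rfl
    · rintro ⟨v, hv⟩
      obtain ⟨t, ht⟩ := hcov v hv
      exact ⟨⟨t, ⟨⟨v, ht⟩, fun e => hv (congrArg Subtype.val e)⟩⟩, rfl⟩
  have hsub : ∀ (X : Type _) [Finite X] [Zero X], Nat.card {v : X // v ≠ 0} = Nat.card X - 1 := by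
    intro X _ _
    haveI := Fintype.ofFinite X
    rw [Nat.card_eq_fintype_card, Nat.card_eq_fintype_card, Fintype.card_subtype_compl, Fintype.card_subtype_eq]
  haveI : Fintype I := Fintype.ofFinite I
  have hc := Nat.card_congr (Equiv.ofBijective _ hF)
  rw [Nat.card_sigma, hsub V, Finset.sum_congr rfl (g := fun _ => q ^ r - 1) (fun t _ => by
    rw [hsub, Module.natCard_eq_pow_finrank (K := ZMod q), Nat.card_zmod, hr']), Finset.sum_const, Finset.card_univ,
    smul_eq_mul, Module.natCard_eq_pow_finrank (K := ZMod q), Nat.card_zmod, hn, ← Nat.card_eq_fintype_card] at hc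
  have hrpos : 0 < r := by
    have : 0 < Module.finrank (ZMod q) V := Module.finrank_pos
    omega
  have h1q : 1 < q ^ r := Nat.one_lt_pow hrpos.ne' (Fact.out : q.Prime).one_lt
  refine Nat.eq_of_mul_eq_mul_right (show 0 < q ^ r - 1 by omega) ?_
  rw [hc, pow_mul']
  have := Nat.sq_sub_sq (q ^ r) 1
  rw [one_pow] at this
  omega

end Cfsg.Agent.S3381
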