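import Cfsg.Statements.S3382
import Mathlib

set_option autoImplicit false
open Cfsg

namespace Cfsg.Agent.S3382

variable {q : ℕ} [Fact q.Prime]

/-- diagonal maps -/
def mk2 : (ZMod q)ˣ × (ZMod q)ˣ →* ((Fin 2 → ZMod q) ≃ₗ[ZMod q] (Fin 2 → ZMod q)) where
  toFun p :=
    { toFun := fun v => ![(p.1 : ZMod q) * v 0, (p.2 : ZMod q) * v 1]
      invFun := fun v => ![((p.1⁻¹ : (ZMod q)ˣ) : ZMod q) * v 0, ((p.2⁻¹ : (ZMod q)ˣ) : ZMod q) * v 1]
      map_add' := fun v w => by ext i; fin_cases i <;> simp [mul_add]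
      map_smul' := fun c v => by ext i; fin_cases i <;> simp [mul_left_comm]
      left_inv := fun v => by ext i; fin_cases i <;> simp [-ZMod.inv_coe_unit, -Units.val_inv_eq_inv_val]
      right_inv := fun v => by ext i; fin_cases i <;> simp [-ZMod.inv_coe_unit, -Units.val_inv_eq_inv_val] }
  map_one' := by ext v i; fin_cases i <;> simp [-ZMod.inv_coe_unit, -Units.val_inv_eq_inv_val]
  map_mul' := fun p r => by ext v i; fin_cases i <;> simp [-ZMod.inv_coe_unit, -Units.val_inv_eq_inv_val, LinearEquiv.mul_eq_trans, mul_assoc]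

/-- the coordinate swap -/
def sw (q : ℕ) [Fact q.Prime] : (Fin 2 → ZMod q) ≃ₗ[ZMod q] (Fin 2 → ZMod q) where
  toFun v := ![v 1, v 0]
  invFun v := ![v 1, v 0]
  map_add' v w := by ext i; fin_cases i <;> simp
  map_smul' c v := by ext i; fin_cases i <;> simp
  left_inv v := by ext i; fin_cases i <;> simp
  right_inv v := by ext i; fin_cases i <;> simp

lemma sw_mk2 (a b : (ZMod q)ˣ) : sw q * mk2 (a, b) = mk2 (b, a) * sw q := by
  ext v i; fin_cases i <;> simp [-ZMod.inv_coe_unit, -Units.val_inv_eq_inv_val, sw, mk2, LinearEquiv.mul_eq_trans]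

lemma sw_sw : sw q * sw q = (1 : (Fin 2 → ZMod q) ≃ₗ[ZMod q] (Fin 2 → ZMod q)) := by
  ext v i; fin_cases i <;> simp [sw, LinearEquiv.mul_eq_trans]

lemma mk2_inj {p r : (ZMod q)ˣ × (ZMod q)ˣ} (h : mk2 p = mk2 r) : p = r := by
  have h0 := congrArg (fun f : (Fin 2 → ZMod q) ≃ₗ[ZMod q] (Fin 2 → ZMod q) => f (fun _ => 1) 0) h
  have h1 := congrArg (fun f : (Fin 2 → ZMod q) ≃ₗ[ZMod q] (Fin 2 → ZMod q) => f (fun _ => 1) 1) h
  simp only [mk2, MonoidHom.coe_mk, OneHom.coe_mk, LinearEquiv.coe_mk, LinearMap.coe_mk, AddHom.coe_mk,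
    Matrix.cons_val_zero, Matrix.cons_val_one, mul_one] at h0 h1
  exact Prod.ext (Units.ext h0) (Units.ext h1)

lemma mk2_ne_sw (p r : (ZMod q)ˣ × (ZMod q)ˣ) : mk2 p ≠ mk2 r * sw q := by
  intro h
  have h0 := congrArg (fun f : (Fin 2 → ZMod q) ≃ₗ[ZMod q] (Fin 2 → ZMod q) => f (![1, 0]) 0) h
  simp [-ZMod.inv_coe_unit, -Units.val_inv_eq_inv_val, mk2, sw, LinearEquiv.mul_eq_trans] at h0

lemma sw_sq (a b : (ZMod q)ˣ) :
    mk2 (a, b) * sw q * (mk2 (a, b) * sw q) = mk2 ((a, b) * (b, a)) := by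
  rw [show mk2 (a, b) * sw q * (mk2 (a, b) * sw q) = mk2 (a, b) * (sw q * mk2 (a, b)) * sw q by simp [mul_assoc],
    sw_mk2, ← mul_assoc, mul_assoc _ (sw q) (sw q), sw_sw, mul_one, ← map_mul]

lemma aut_isPGroup {T : Type*} [Group T] [Finite T] (h : ∀ φ : MulAut T, Odd (orderOf φ) → φ = 1) :
    IsPGroup 2 (MulAut T) := by
  haveI : Finite (MulAut T) := inferInstance
  intro φ
  obtain ⟨k, m, hm, hkm⟩ := Nat.exists_eq_two_pow_mul_odd (orderOf_pos φ).ne'
  refine ⟨k, h _ ?_⟩
  rw [orderOf_pow, Nat.gcd_eq_right (hkm ▸ dvd_mul_right _ _), hkm, Nat.mul_div_cancel_left m (Nat.two_pow_pos k)]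
  exact hm

lemma pow_apply_pow {T : Type*} [Group T] (φ : MulAut T) (x : T) (i : ℕ) (h : φ x = x ^ i) :
    ∀ n : ℕ, (φ ^ n) x = x ^ i ^ n := by
  intro n
  induction n with
  | zero => simp
  | succ n ih => rw [pow_succ', MulAut.mul_apply, ih, map_pow, h, ← pow_mul, pow_succ']

lemma fix_of_mul {T : Type*} [Group T] (φ : MulAut T) (hφ : Odd (orderOf φ)) (x c : T) (h : φ x = x * c)
    (hc : φ c = c) (k : ℕ) (hk : c ^ 2 ^ k = 1) : φ x = x := by
  have hp : ∀ n : ℕ, (φ ^ n) x = x * c ^ n := by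
    intro n
    induction n with
    | zero => simp
    | succ n ih => rw [pow_succ', MulAut.mul_apply, ih, map_mul, map_pow, h, hc, mul_assoc, pow_succ']
  have h1 : c ^ orderOf φ = 1 := by
    have := hp (orderOf φ)
    rw [pow_orderOf_eq_one, MulAut.one_apply] at this
    exact mul_eq_left.mp this.symm
  have : c = 1 := by
    rw [← orderOf_eq_one_iff]
    exact Nat.eq_one_of_dvd_coprimes ((Nat.coprime_two_right.mpr hφ).pow_right k).symm
      (orderOf_dvd_of_pow_eq_one hk) (orderOf_dvd_of_pow_eq_one h1)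
  rw [h, this, mul_one]

lemma fix_of_pow {T : Type*} [Group T] [Finite T] (φ : MulAut T) (hφ : Odd (orderOf φ)) (x : T) (i : ℕ)
    (h : φ x = x ^ i) (k : ℕ) (hk : orderOf x = 2 ^ k) : φ x = x := by
  have h1 : x ^ i ^ orderOf φ = x := by rw [← pow_apply_pow φ x i h, pow_orderOf_eq_one, MulAut.one_apply]
  have h2 : i ^ orderOf φ ≡ 1 [MOD 2 ^ k] := by
    rw [← hk]; exact pow_eq_pow_iff_modEq.mp (h1.trans (pow_one x).symm)
  rcases Nat.eq_zero_or_pos k with rfl | hk0
  · rw [pow_zero, orderOf_eq_one_iff] at hk; rw [hk, map_one]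
  have h3 : (i : ZMod (2 ^ k)) ^ orderOf φ = 1 := by
    simpa using (ZMod.natCast_eq_natCast_iff _ _ (2 ^ k)).mpr h2
  have hn : orderOf φ ≠ 0 := (orderOf_pos φ).ne'
  obtain ⟨u, hu⟩ : IsUnit (i : ZMod (2 ^ k)) := (isUnit_pow_iff hn).mp (h3 ▸ isUnit_one)
  have h4 : u ^ orderOf φ = 1 := Units.ext (by rw [Units.val_pow_eq_pow_val, hu]; exact h3)
  have h5 : u ^ 2 ^ (k - 1) = 1 := by
    have : u ^ Nat.card (ZMod (2 ^ k))ˣ = 1 := pow_card_eq_one'
    rwa [Nat.card_eq_fintype_card, ZMod.card_units_eq_totient, Nat.totient_prime_pow Nat.prime_two hk0,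
      show (2 : ℕ) - 1 = 1 from rfl, mul_one] at this
  have h6 : u = 1 := by
    rw [← orderOf_eq_one_iff]
    exact Nat.eq_one_of_dvd_coprimes ((Nat.coprime_two_right.mpr hφ).pow_right (k - 1)).symm
      (orderOf_dvd_of_pow_eq_one h5) (orderOf_dvd_of_pow_eq_one h4)
  have h7 : i ≡ 1 [MOD orderOf x] := by
    rw [hk, ← ZMod.natCast_eq_natCast_iff, Nat.cast_one, ← hu, h6, Units.val_one]
  rw [h, pow_eq_pow_iff_modEq.mpr h7, pow_one]

theorem odd_trivial (q m : ℕ) [Fact q.Prime] (hq : q = 2 ^ m + 1) (hq5 : q ≠ 5)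
    (T : Subgroup ((Fin 2 → ZMod q) ≃ₗ[ZMod q] (Fin 2 → ZMod q)))
    (hmem : ∀ f, f ∈ T ↔ ∃ a b : (ZMod q)ˣ, (a * b) * (a * b) = 1 ∧ (f = mk2 (a, b) ∨ f = mk2 (a, b) * sw q))
    (φ : MulAut T) (hφ : Odd (orderOf φ)) : φ = 1 := by
  classical
  haveI : Finite ((Fin 2 → ZMod q) ≃ₗ[ZMod q] (Fin 2 → ZMod q)) :=
    Finite.of_injective (fun f => (f : (Fin 2 → ZMod q) → (Fin 2 → ZMod q))) DFunLike.coe_injective
  have hD : ∀ a b : (ZMod q)ˣ, (a * b) * (a * b) = 1 → mk2 (a, b) ∈ T := fun a b h =>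
    (hmem _).mpr ⟨a, b, h, Or.inl rfl⟩
  let W : T := ⟨sw q, (hmem _).mpr ⟨1, 1, by simp, Or.inr (by rw [show ((1, 1) : (ZMod q)ˣ × (ZMod q)ˣ) = 1 from rfl, map_one, one_mul])⟩⟩
  -- elements of two-power order
  have hpm : ∀ t : T, t ^ 2 ^ (m + 2) = 1 := by
    have hu : ∀ u : (ZMod q)ˣ, u ^ 2 ^ m = 1 := fun u => by
      have : u ^ Nat.card (ZMod q)ˣ = 1 := pow_card_eq_one'
      rwa [Nat.card_eq_fintype_card, ZMod.card_units, Nat.sub_eq_of_eq_add hq] at this
    have hp : ∀ (p : (ZMod q)ˣ × (ZMod q)ˣ) (j : ℕ), m ≤ j → (mk2 p) ^ 2 ^ j = 1 := by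
      intro p j hj
      obtain ⟨i, rfl⟩ := Nat.exists_eq_add_of_le hj
      rw [← map_pow, show p ^ 2 ^ (m + i) = 1 from Prod.ext ?_ ?_, map_one] <;>
        simp [pow_add, pow_mul, hu]
    rintro ⟨f, hf⟩
    obtain ⟨a, b, -, rfl | rfl⟩ := (hmem f).mp hf
    · exact Subtype.ext (hp _ _ (by omega))
    · apply Subtype.ext
      rw [Subgroup.coe_pow, show 2 ^ (m + 2) = 2 * 2 ^ (m + 1) by ring, pow_mul, pow_two,
        show mk2 (a, b) * sw q * (mk2 (a, b) * sw q) = mk2 (a, b) * (sw q * mk2 (a, b)) * sw q by simp [mul_assoc],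
        sw_mk2, ← mul_assoc, ← map_mul, mul_assoc, sw_sw, mul_one]
      exact hp _ _ (by omega)
  have h2fix : ∀ x z : T, φ z = z → z * z = 1 → φ x = x ∨ φ x = x * z → φ x = x := by
    intro x z hz hzz h
    rcases h with h | h
    · exact h
    · exact fix_of_mul φ hφ x z h hz 1 (by rw [pow_one, pow_two]; exact hzz)
  -- it suffices to fix generators
  suffices key : (∀ a b h, φ ⟨mk2 (a, b), hD a b h⟩ = ⟨mk2 (a, b), hD a b h⟩) ∧ φ W = W by
    ext ⟨f, hf⟩ : 1
    obtain ⟨a, b, h, rfl | rfl⟩ := (hmem f).mp hf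
    · exact key.1 a b h
    · have : (⟨mk2 (a, b) * sw q, hf⟩ : T) = ⟨mk2 (a, b), hD a b h⟩ * W := Subtype.ext rfl
      rw [MulAut.one_apply, this, map_mul, key.1 a b h, key.2]
  have hneg : ((-1 : (ZMod q)ˣ) * -1) * (-1 * -1) = 1 := by simp
  let Z : T := ⟨mk2 (-1, -1), hD _ _ hneg⟩
  have hZZ : Z * Z = 1 := Subtype.ext (by
    show mk2 _ * mk2 _ = 1
    rw [← map_mul, show ((-1, -1) : (ZMod q)ˣ × (ZMod q)ˣ) * (-1, -1) = 1 from Prod.ext (by simp) (by simp), map_one])
  have hm3 : m = 0 ∨ m = 1 ∨ 3 ≤ m := by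
    have : m ≠ 2 := fun h => hq5 (by subst h; simpa using hq)
    omega
  rcases hm3 with rfl | rfl | hm3
  · -- only the swap
    have hu : ∀ u : (ZMod q)ˣ, u = 1 := fun u => by
      have : u ^ Nat.card (ZMod q)ˣ = 1 := pow_card_eq_one'
      rw [Nat.card_eq_fintype_card, ZMod.card_units, show q - 1 = 1 by omega, pow_one] at this
      exact this
    have h1 : ∀ a b h, (⟨mk2 (a, b), hD a b h⟩ : T) = 1 := fun a b h => Subtype.ext (by
      obtain rfl := hu a; obtain rfl := hu b; exact map_one mk2)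
    refine ⟨fun a b h => by rw [h1 a b h]; exact map_one φ, ?_⟩
    obtain ⟨a, b, h, hW | hW⟩ := (hmem _).mp (φ W).2
    · exfalso
      have : φ W = φ 1 := by rw [map_one]; exact (Subtype.ext hW).trans (h1 a b h)
      have := congrArg Subtype.val (φ.injective this)
      exact mk2_ne_sw 1 1 (by rw [map_one, one_mul]; exact this.symm)
    · apply Subtype.ext
      rw [hW, hu a, hu b, show ((1, 1) : (ZMod q)ˣ × (ZMod q)ˣ) = 1 from rfl, map_one, one_mul]
  · -- `q = 3`
    have hu : ∀ u : (ZMod q)ˣ, u = 1 ∨ u = -1 := fun u => by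
      have : u ^ Nat.card (ZMod q)ˣ = 1 := pow_card_eq_one'
      rw [Nat.card_eq_fintype_card, ZMod.card_units, show q - 1 = 2 by omega, pow_two] at this
      exact (mul_self_eq_one_iff.mp (by simpa using congrArg Units.val this)).imp
        (fun h => Units.ext h) (fun h => Units.ext h)
    have hne : (-1 : (ZMod q)ˣ) ≠ 1 := by
      intro h
      have h' : (-1 : ZMod q) = 1 := congrArg Units.val h
      haveI : Fact (2 < q) := ⟨by omega⟩
      exact ZMod.neg_one_ne_one h'
    let J : T := ⟨mk2 (1, -1) * sw q, (hmem _).mpr ⟨1, -1, by simp, Or.inr rfl⟩⟩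
    have hJJ : J * J = Z := Subtype.ext (by
      show mk2 _ * sw q * (mk2 _ * sw q) = mk2 _
      rw [show mk2 (1, -1) * sw q * (mk2 (1, -1) * sw q) = mk2 (1, -1) * (sw q * mk2 (1, -1)) * sw q by
        simp [mul_assoc], sw_mk2, ← mul_assoc, ← map_mul, mul_assoc, sw_sw, mul_one]
      simp)
    have hsq : ∀ x : T, (x * x = 1) ∨ (x * x = Z ∧ (x = J ∨ x = J * Z)) := by
      rintro ⟨f, hf⟩
      obtain ⟨a, b, -, rfl | rfl⟩ := (hmem f).mp hf
      · left; apply Subtype.ext
        show mk2 _ * mk2 _ = 1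
        rw [← map_mul, show ((a, b) : (ZMod q)ˣ × (ZMod q)ˣ) * (a, b) = 1 from ?_, map_one]
        rcases hu a with rfl | rfl <;> rcases hu b with rfl | rfl <;> simp
      · have hsw : mk2 (a, b) * sw q * (mk2 (a, b) * sw q) = mk2 (a * b, b * a) := by
          rw [show mk2 (a, b) * sw q * (mk2 (a, b) * sw q) = mk2 (a, b) * (sw q * mk2 (a, b)) * sw q by
            simp [mul_assoc], sw_mk2, ← mul_assoc, ← map_mul, mul_assoc, sw_sw, mul_one]
          rfl
        have hJZ : (J * Z : T).1 = mk2 (-1, 1) * sw q := by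
          show mk2 _ * sw q * mk2 _ = _
          rw [mul_assoc, sw_mk2, ← mul_assoc, ← map_mul]; simp
        rcases hu a with rfl | rfl <;> rcases hu b with rfl | rfl
        · left; apply Subtype.ext; show _ * _ = _; rw [hsw, mul_one]; exact map_one mk2
        · right; exact ⟨Subtype.ext (by show _ * _ = _; rw [hsw]; simp [Z]), Or.inl rfl⟩
        · right; exact ⟨Subtype.ext (by show _ * _ = _; rw [hsw]; simp [Z]), Or.inr (Subtype.ext hJZ.symm)⟩
        · left; apply Subtype.ext; show _ * _ = _; rw [hsw]; simp [show ((1, 1) : (ZMod q)ˣ × (ZMod q)ˣ) = 1 from rfl]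
    have hZ1 : Z ≠ 1 := fun h => hne (congrArg Prod.fst (mk2_inj (q := q) (p := (-1, -1)) (r := 1)
      (by rw [map_one]; exact congrArg Subtype.val h)))
    have hφJJ : φ J * φ J = φ Z := by rw [← map_mul, hJJ]
    rcases hsq (φ J) with h | ⟨h, hJ⟩
    · exact absurd (φ.injective (show φ Z = φ 1 by rw [← hφJJ, h, map_one])) hZ1
    have hZf : φ Z = Z := hφJJ.symm.trans h
    have hJf : φ J = J := h2fix J Z hZf hZZ hJ
    -- the whole group lies in two cosets of the powers of `J`
    have hfixd : ∀ a b h, φ ⟨mk2 (a, b), hD a b h⟩ = ⟨mk2 (a, b), hD a b h⟩ := by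
      let Ee : T := ⟨mk2 (1, -1), hD _ _ (by simp)⟩
      have hEf : φ Ee = Ee := by
        have key : ∃ c : T, φ Ee = Ee * c ∧ φ c = c := by
          obtain ⟨a, b, h, hh | hh⟩ := (hmem _).mp (φ Ee).2
          · rcases hu a with rfl | rfl <;> rcases hu b with rfl | rfl
            · exfalso
              have : φ Ee = φ 1 := by rw [map_one]; exact Subtype.ext (hh.trans (map_one mk2))
              exact hne (congrArg Prod.snd (mk2_inj (q := q) (p := (1, -1)) (r := 1)
                (by rw [map_one]; exact congrArg Subtype.val (φ.injective this))))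
            · exact ⟨1, by rw [mul_one]; exact Subtype.ext hh, map_one φ⟩
            · refine ⟨Z, Subtype.ext (hh.trans ?_), hZf⟩
              show _ = mk2 _ * mk2 _
              rw [← map_mul]; simp
            · exfalso
              have h0 : φ Ee = φ Z := (Subtype.ext hh).trans hZf.symm
              exact hne (congrArg Prod.fst (mk2_inj (q := q) (congrArg Subtype.val (φ.injective h0)))).symm
          · obtain ⟨u, v, huv, huu, hvv⟩ : ∃ u v : (ZMod q)ˣ, (u, v) = (a, -b) ∧ True ∧ True := ⟨a, -b, rfl, trivial, trivial⟩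
            refine ⟨⟨mk2 (a, -b) * sw q, (hmem _).mpr ⟨a, -b, ?_, Or.inr rfl⟩⟩, Subtype.ext (hh.trans ?_), ?_⟩
            · rcases hu a with rfl | rfl <;> rcases hu b with rfl | rfl <;> simp
            · show _ = mk2 _ * (mk2 _ * sw q)
              rw [← mul_assoc, ← map_mul]; simp
            · have hJ3 : φ (J * Z) = J * Z := by rw [map_mul, hJf, hZf]
              -- involutions of the form antidiagonal are excluded
              have hinv : φ Ee * φ Ee = 1 := by
                rw [← map_mul, show Ee * Ee = 1 from Subtype.ext (by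
                  show mk2 _ * mk2 _ = 1
                  rw [← map_mul]; simp [show ((1, 1) : (ZMod q)ˣ × (ZMod q)ˣ) = 1 from rfl]), map_one]
              have hab : a * b = 1 := by
                have hv := congrArg Subtype.val hinv
                simp only [Subgroup.coe_mul, Subgroup.coe_one, hh] at hv
                rw [show mk2 (a, b) * sw q * (mk2 (a, b) * sw q) = mk2 (a, b) * (sw q * mk2 (a, b)) * sw q by
                  simp [mul_assoc], sw_mk2, ← mul_assoc, ← map_mul, mul_assoc, sw_sw, mul_one, ← map_one mk2] at hv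
                exact congrArg Prod.fst (mk2_inj hv)
              rcases hu a with rfl | rfl <;> rcases hu b with rfl | rfl
              · exact hJf
              · simp at hab; exact absurd hab hne
              · simp at hab; exact absurd hab hne
              · have : (⟨mk2 (-1, - -1) * sw q, (hmem _).mpr ⟨-1, - -1, by simp, Or.inr rfl⟩⟩ : T) = J * Z := Subtype.ext (by
                  show mk2 (-1, - -1) * sw q = mk2 (1, -1) * sw q * mk2 (-1, -1)
                  rw [mul_assoc, sw_mk2, ← mul_assoc, ← map_mul]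
                  congr 2
                  simp)
                rw [this]; exact hJ3
        obtain ⟨c, hc1, hc2⟩ := key
        exact fix_of_mul φ hφ Ee c hc1 hc2 _ (hpm c)
      intro a b h
      rcases hu a with rfl | rfl <;> rcases hu b with rfl | rfl
      · rw [show (⟨mk2 (1, 1), hD 1 1 h⟩ : T) = 1 from Subtype.ext (map_one mk2), map_one]
      · exact hEf
      · rw [show (⟨mk2 (-1, 1), hD _ _ h⟩ : T) = Ee * Z from Subtype.ext (by
          show _ = mk2 _ * mk2 _
          rw [← map_mul]; simp), map_mul, hEf, hZf]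
      · exact hZf
    refine ⟨hfixd, ?_⟩
    have hWJ : W = ⟨mk2 (1, -1), hD _ _ (by simp)⟩ * J := Subtype.ext (by
      show sw q = mk2 _ * (mk2 _ * sw q)
      rw [← mul_assoc, ← map_mul]; simp [show ((1, 1) : (ZMod q)ˣ × (ZMod q)ˣ) = 1 from rfl])
    rw [hWJ, map_mul, hfixd _ _ (by simp), hJf]
  · -- the diagonal subgroup is the centralizer of all squares
    obtain ⟨ζ, hζ⟩ := IsCyclic.exists_generator (α := (ZMod q)ˣ)
    have hζo : orderOf ζ = 2 ^ m := by
      rw [orderOf_eq_card_of_forall_mem_zpowers hζ, Nat.card_eq_fintype_card, ZMod.card_units]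
      calc q - 1 = 2 ^ m + 1 - 1 := by rw [← hq]
        _ = 2 ^ m := by simp
    have h8 : 8 ≤ 2 ^ m := by
      calc 8 = 2 ^ 3 := rfl
        _ ≤ 2 ^ m := Nat.pow_le_pow_right (by norm_num) hm3
    let P : T → Prop := fun t => ∀ x : T, t * (x * x) = (x * x) * t
    let d : T := ⟨mk2 (ζ, ζ⁻¹), hD _ _ (by simp)⟩
    let e : T := ⟨mk2 (1, -1), hD _ _ (by simp)⟩
    have hP : ∀ t : T, P t ↔ ∃ p, t.1 = mk2 p := by
      intro t
      constructor
      · intro h
        obtain ⟨a, b, -, hh | hh⟩ := (hmem _).mp t.2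
        · exact ⟨_, hh⟩
        · exfalso
          have h1 := congrArg Subtype.val (h d)
          simp only [Subgroup.coe_mul, hh, d] at h1
          rw [← map_mul, mul_assoc, sw_mk2, ← mul_assoc, ← map_mul, ← mul_assoc, ← map_mul] at h1
          have h2 := congrArg Prod.fst (mk2_inj (mul_right_cancel h1))
          simp at h2
          have h3 : ζ ^ 4 = 1 := by
            have h4 : ζ⁻¹ * ζ⁻¹ = ζ * ζ := by
              rw [mul_comm (ζ * ζ) a] at h2
              exact mul_left_cancel h2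
            calc ζ ^ 4 = (ζ * ζ) * (ζ * ζ) := by rw [pow_succ, pow_succ, pow_succ, pow_one]; simp [mul_assoc]
              _ = 1 := by nth_rewrite 1 [← h4]; group
          have h5 := Nat.le_of_dvd (by norm_num) (orderOf_dvd_of_pow_eq_one h3)
          omega
      · rintro ⟨p, hp⟩ ⟨f, hf⟩
        obtain ⟨a, b, -, rfl | rfl⟩ := (hmem f).mp hf <;> apply Subtype.ext <;>
          simp only [Subgroup.coe_mul, hp]
        · rw [← map_mul, ← map_mul, ← map_mul, mul_comm]
        · rw [sw_sq, ← map_mul mk2, ← map_mul mk2]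
          exact congrArg mk2 (mul_comm _ _)
    have hPφ : ∀ t, P (φ t) ↔ P t := fun t => by
      constructor
      · intro h x
        apply φ.injective
        simp only [map_mul]; exact h (φ x)
      · intro h x
        obtain ⟨y, rfl⟩ := φ.surjective x
        simp only [← map_mul, h y]
    have hcomm : ∀ s t, P s → P t → s * t = t * s := by
      intro s t hs ht
      obtain ⟨p, hp⟩ := (hP s).mp hs
      obtain ⟨r, hr⟩ := (hP t).mp ht
      exact Subtype.ext (by simp only [Subgroup.coe_mul, hp, hr, ← map_mul, mul_comm])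
    -- every diagonal element is `d ^ i` or `d ^ i * e`
    have hform : ∀ t, P t → ∃ i : ℕ, t = d ^ i ∨ t = d ^ i * e := by
      intro t ht
      obtain ⟨a, b, hab, hh | hh⟩ := (hmem _).mp t.2
      · obtain ⟨i, hi⟩ := mem_powers_iff_mem_zpowers.mpr (hζ a)
        refine ⟨i, ?_⟩
        simp only at hi
        rcases mul_self_eq_one_iff.mp (show ((a * b : (ZMod q)ˣ) : ZMod q) * (a * b : (ZMod q)ˣ) = 1 by
            rw [← Units.val_mul, hab, Units.val_one]) with h | h
        · left; apply Subtype.ext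
          rw [hh, Subgroup.coe_pow]
          show mk2 (a, b) = mk2 _ ^ i
          rw [← map_pow]
          congr 1
          refine Prod.ext (by simp [hi]) ?_
          simp [hi, eq_inv_of_mul_eq_one_right (Units.ext h)]
        · right; apply Subtype.ext
          rw [hh]
          show mk2 (a, b) = (d ^ i).1 * mk2 _
          rw [Subgroup.coe_pow]
          show mk2 (a, b) = mk2 _ ^ i * mk2 _
          rw [← map_pow, ← map_mul]
          congr 1
          refine Prod.ext (by simp [hi]) ?_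
          have h' : a * b = -1 := Units.ext (by simpa using h)
          have : b = a⁻¹ * -1 := by rw [← h']; group
          simp [hi, this]
      · obtain ⟨p, hp⟩ := (hP t).mp ht
        exact absurd (hp.symm.trans hh) (mk2_ne_sw p (a, b))
    have hPd : P d := (hP d).mpr ⟨_, rfl⟩
    have hPe : P e := (hP e).mpr ⟨_, rfl⟩
    have hee : e * e = 1 := Subtype.ext (by
      show mk2 _ * mk2 _ = 1
      rw [← map_mul]; simp [show ((1, 1) : (ZMod q)ˣ × (ZMod q)ˣ) = 1 from rfl])
    have hdo : orderOf d = 2 ^ m := by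
      rw [← Subgroup.orderOf_coe, ← hζo]
      show orderOf (mk2 _) = _
      rw [orderOf_injective mk2 (fun p r h => mk2_inj h), Prod.orderOf_mk, orderOf_inv, Nat.lcm_self]
    have hdd : φ (d * d) = d * d := by
      obtain ⟨i, hi⟩ := hform _ ((hPφ d).mpr hPd)
      have h1 : φ (d * d) = (d * d) ^ i := by
        rw [map_mul]
        rcases hi with hi | hi <;> rw [hi]
        · rw [(Commute.refl d).mul_pow]
        · rw [mul_assoc, ← mul_assoc e, (Commute.pow_right (hcomm e d hPe hPd) i).eq, mul_assoc _ e e, hee, mul_one,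
            (Commute.refl d).mul_pow]
      refine fix_of_pow φ hφ _ i h1 (m - 1) ?_
      rw [← pow_two, orderOf_pow, hdo, Nat.gcd_eq_right ((pow_one 2) ▸ Nat.pow_dvd_pow 2 (by omega : 1 ≤ m))]
      obtain ⟨j, rfl⟩ := Nat.exists_eq_add_of_le (by omega : 1 ≤ m)
      simp [pow_add]
    have hZd : Z = (d * d) ^ 2 ^ (m - 2) := by
      have h1 : ζ ^ 2 ^ (m - 1) = -1 := by
        have h2 : (ζ ^ 2 ^ (m - 1)) * (ζ ^ 2 ^ (m - 1)) = 1 := by
          rw [← pow_add, ← two_mul, ← pow_succ', show m - 1 + 1 = m by omega, ← hζo, pow_orderOf_eq_one]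
        rcases mul_self_eq_one_iff.mp (by simpa using congrArg Units.val h2) with h | h
        · exfalso
          have := Nat.le_of_dvd (Nat.two_pow_pos _) (orderOf_dvd_of_pow_eq_one
            (Units.ext (by simpa using h) : ζ ^ 2 ^ (m - 1) = 1))
          rw [hζo] at this
          have : 2 ^ (m - 1) < 2 ^ m := Nat.pow_lt_pow_right (by norm_num) (by omega)
          omega
        · exact Units.ext (by simpa using h)
      apply Subtype.ext
      rw [← pow_two, ← pow_mul, ← pow_succ', show m - 2 + 1 = m - 1 by omega, Subgroup.coe_pow]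
      show mk2 _ = mk2 _ ^ _
      rw [← map_pow]
      simp [h1]
    have hZf : φ Z = Z := by rw [hZd, map_pow, hdd]
    have hZd' : P Z := (hP Z).mpr ⟨_, rfl⟩
    have hinvol : ∀ t, P t → t * t = 1 → t = 1 ∨ t = Z ∨ t = e ∨ t = e * Z := by
      intro t ht htt
      obtain ⟨p, hp⟩ := (hP t).mp ht
      have h1 : p * p = 1 := mk2_inj (by
        rw [map_mul, map_one, ← hp]; exact congrArg Subtype.val htt)
      have ha := mul_self_eq_one_iff.mp (show (p.1 : ZMod q) * p.1 = 1 by
        simpa using congrArg (fun r => ((Prod.fst r : (ZMod q)ˣ) : ZMod q)) h1)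
      have hb := mul_self_eq_one_iff.mp (show (p.2 : ZMod q) * p.2 = 1 by
        simpa using congrArg (fun r => ((Prod.snd r : (ZMod q)ˣ) : ZMod q)) h1)
      rcases ha with ha | ha <;> rcases hb with hb | hb
      · left; apply Subtype.ext; rw [hp, show p = 1 from Prod.ext (Units.ext ha) (Units.ext hb), map_one]; rfl
      · right; right; left; apply Subtype.ext; rw [hp]
        exact congrArg mk2 (Prod.ext (Units.ext ha) (Units.ext (by simpa using hb)))
      · right; right; right; apply Subtype.ext; rw [hp]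
        show _ = mk2 _ * mk2 _
        rw [← map_mul]
        exact congrArg mk2 (Prod.ext (Units.ext (by simpa using ha)) (Units.ext (by simpa using hb)))
      · right; left; apply Subtype.ext; rw [hp]
        exact congrArg mk2 (Prod.ext (Units.ext (by simpa using ha)) (Units.ext (by simpa using hb)))
    have hne : (-1 : (ZMod q)ˣ) ≠ 1 := by
      intro h
      have h' : (-1 : ZMod q) = 1 := congrArg Units.val h
      haveI : Fact (2 < q) := ⟨by omega⟩
      exact ZMod.neg_one_ne_one h'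
    have hef : φ e = e := by
      rcases hinvol _ ((hPφ e).mpr hPe) (by rw [← map_mul, hee, map_one]) with h | h | h | h
      · exact absurd (congrArg Prod.snd (mk2_inj (q := q) (p := (1, -1)) (r := 1)
          (by rw [map_one]; exact congrArg Subtype.val (φ.injective (h.trans (map_one φ).symm))))) hne
      · exact absurd (congrArg Prod.fst (mk2_inj (q := q) (congrArg Subtype.val (φ.injective (h.trans hZf.symm))))).symm hne
      · exact h
      · exact h2fix e Z hZf hZZ (Or.inr h)
    have hdf : φ d = d := by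
      set c := d⁻¹ * φ d with hc
      have hPc : P c := by
        obtain ⟨p, hp⟩ := (hP d).mp hPd
        obtain ⟨r, hr⟩ := (hP (φ d)).mp ((hPφ d).mpr hPd)
        exact (hP c).mpr ⟨p⁻¹ * r, by rw [map_mul, map_inv, ← hp, ← hr]; rfl⟩
      have hcc : c * c = 1 := by
        have h1 : φ d * φ d = d * d := by rw [← map_mul, hdd]
        have h2 : Commute d⁻¹ (φ d) := Commute.inv_left (hcomm d _ hPd ((hPφ d).mpr hPd))
        rw [hc, ← mul_assoc, mul_assoc d⁻¹ (φ d) d⁻¹, ← h2.eq, ← mul_assoc, mul_assoc _ (φ d) (φ d), h1]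
        group
      have hcf : φ c = c := by
        rcases hinvol c hPc hcc with h | h | h | h <;> rw [h]
        · exact map_one φ
        · exact hZf
        · exact hef
        · rw [map_mul, hef, hZf]
      exact fix_of_mul φ hφ d c (by rw [hc]; group) hcf 1 (by rw [pow_one, pow_two]; exact hcc)
    have hAf : ∀ t, P t → φ t = t := by
      intro t ht
      obtain ⟨i, h | h⟩ := hform t ht <;> rw [h] <;> simp [map_mul, map_pow, hdf, hef]
    refine ⟨fun a b h => hAf _ ((hP _).mpr ⟨_, rfl⟩), ?_⟩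
    have hWn : ¬ P W := fun h => by
      obtain ⟨p, hp⟩ := (hP W).mp h
      exact mk2_ne_sw p 1 (by rw [map_one, one_mul]; exact hp.symm)
    have hc : P (W⁻¹ * φ W) := by
      obtain ⟨a, b, -, hh | hh⟩ := (hmem _).mp (φ W).2
      · exact absurd ((hPφ W).mp ((hP _).mpr ⟨_, hh⟩)) hWn
      · refine (hP _).mpr ⟨(b, a), ?_⟩
        rw [Subgroup.coe_mul, Subgroup.coe_inv, hh]
        show (sw q)⁻¹ * _ = _
        rw [inv_eq_of_mul_eq_one_right (sw_sw (q := q)), ← mul_assoc, sw_mk2, mul_assoc, sw_sw, mul_one]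
    exact fix_of_mul φ hφ W _ (by group) (hAf _ hc) _ (hpm _)

/-- Let q = 2^m + 1 be a prime other than 5. Then the automorphism group of the group of linear maps of F_q² of the forms (x, y) ↦ (a x, ± a⁻¹ y) and (x, y) ↦ (± a⁻¹ y, a x) with a ≠ 0 is itself a 2-group. -/
theorem result (q m : ℕ) [Fact q.Prime] (hq : q = 2 ^ m + 1) (hq5 : q ≠ 5)
    (T : Subgroup ((Fin 2 → ZMod q) ≃ₗ[ZMod q] (Fin 2 → ZMod q)))
    (hT : ∀ f, f ∈ T ↔ ∃ a s : ZMod q, a ≠ 0 ∧ (s = 1 ∨ s = -1) ∧
      ((∀ v, f v = ![a * v 0, s * a⁻¹ * v 1]) ∨ (∀ v, f v = ![s * a⁻¹ * v 1, a * v 0]))) :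
    IsPGroup 2 (MulAut T) := by
  classical
  haveI : Finite ((Fin 2 → ZMod q) ≃ₗ[ZMod q] (Fin 2 → ZMod q)) :=
    Finite.of_injective (fun f => (f : (Fin 2 → ZMod q) → (Fin 2 → ZMod q))) DFunLike.coe_injective
  refine aut_isPGroup fun φ hφ => ?_
  set diag := mk2 (q := q) with hdiag
  have hmem : ∀ f, f ∈ T ↔ ∃ a b : (ZMod q)ˣ, (a * b) * (a * b) = 1 ∧ (f = mk2 (a, b) ∨ f = mk2 (a, b) * sw q) := by
    intro f
    rw [hT f]
    constructor
    · rintro ⟨a, s, ha, hs, h | h⟩
      · have hs0 : s ≠ 0 := by rcases hs with rfl | rfl <;> simp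
        refine ⟨Units.mk0 a ha, Units.mk0 (s * a⁻¹) (mul_ne_zero hs0 (inv_ne_zero ha)), Units.ext ?_, Or.inl (LinearEquiv.ext fun v => ?_)⟩
        · simp only [Units.val_mul, Units.val_mk0, Units.val_one]
          rw [show a * (s * a⁻¹) = s * (a * a⁻¹) by ring, mul_inv_cancel₀ ha, mul_one]
          rcases hs with rfl | rfl <;> ring
        · rw [h v]; rfl
      · have hs0 : s ≠ 0 := by rcases hs with rfl | rfl <;> simp
        refine ⟨Units.mk0 (s * a⁻¹) (mul_ne_zero hs0 (inv_ne_zero ha)), Units.mk0 a ha, Units.ext ?_, Or.inr (LinearEquiv.ext fun v => ?_)⟩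
        · simp only [Units.val_mul, Units.val_mk0, Units.val_one]
          rw [show s * a⁻¹ * a = s * (a⁻¹ * a) by ring, inv_mul_cancel₀ ha, mul_one]
          rcases hs with rfl | rfl <;> ring
        · rw [h v]; simp [-ZMod.inv_coe_unit, -Units.val_inv_eq_inv_val, mk2, sw, LinearEquiv.mul_eq_trans]
    · rintro ⟨a, b, hab, h | h⟩
      · refine ⟨a, a * b, a.ne_zero, ?_, Or.inl fun v => ?_⟩
        · exact mul_self_eq_one_iff.mp (by simpa using congrArg Units.val hab)
        · rw [h]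
          simp [-ZMod.inv_coe_unit, -Units.val_inv_eq_inv_val, mk2, show (a : ZMod q) * b * (a : ZMod q)⁻¹ = b by field_simp]
      · refine ⟨b, a * b, b.ne_zero, ?_, Or.inr fun v => ?_⟩
        · exact mul_self_eq_one_iff.mp (by simpa using congrArg Units.val hab)
        · rw [h]
          simp [-ZMod.inv_coe_unit, -Units.val_inv_eq_inv_val, mk2, sw, show (a : ZMod q) * b * (b : ZMod q)⁻¹ = a by field_simp]
  exact odd_trivial q m hq hq5 T hmem φ hφ

end Cfsg.Agent.S3382
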