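import Cfsg.Statements.S3383
import Cfsg.Agent.Frob.Structure

set_option autoImplicit false
open Cfsg

namespace Cfsg.Agent.S3383

/-- Let H be a Frobenius complement in a finite group L and K the Frobenius kernel (as a subgroup). Then K is characteristic in L, and every normal subgroup of L either contains K or is contained in K. -/
theorem result {L : Type*} [Group L] [Finite L]
    (H : Subgroup L) (hH : Cfsg.IsFrobeniusComplement H)
    (K : Subgroup L) (hK : (K : Set L) = Cfsg.frobeniusKernel H) :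
    K.Characteristic ∧ ∀ N : Subgroup L, N.Normal → K ≤ N ∨ N ≤ K := by
  have hKe : K = CfsgLib.Frob.kernel hH :=
    SetLike.coe_injective (hK.trans (CfsgLib.Frob.coe_kernel hH).symm)
  subst hKe
  refine ⟨CfsgLib.Frob.kernel_characteristic hH, fun N hN => ?_⟩
  by_cases hle : N ≤ CfsgLib.Frob.kernel hH
  · exact Or.inr hle
  left
  obtain ⟨n, hn, hnK⟩ := SetLike.not_le_iff_exists.mp hle
  obtain ⟨hn1, g, hg⟩ := CfsgLib.Frob.not_mem_kernel_iff.mp
    (fun h => hnK ((CfsgLib.Frob.mem_kernel hH).mpr h))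
  haveI := CfsgLib.Frob.kernel_normal hH
  set h := g⁻¹ * n * g with hh
  have hhN : h ∈ N := by
    simpa [hh, mul_assoc] using hN.conj_mem n hn g⁻¹
  have hh1 : h ≠ 1 := fun e => hn1 (by
    calc n = g * h * g⁻¹ := by rw [hh]; group
      _ = 1 := by rw [e]; group)
  let f : CfsgLib.Frob.kernel hH → CfsgLib.Frob.kernel hH := fun k =>
    ⟨(k : L)⁻¹ * (h * k * h⁻¹), (CfsgLib.Frob.kernel hH).mul_mem ((CfsgLib.Frob.kernel hH).inv_mem k.2)
      ((CfsgLib.Frob.kernel_normal hH).conj_mem _ k.2 h)⟩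
  have hf : Function.Injective f := by
    intro a b hab
    have e := congrArg Subtype.val hab
    change (a : L)⁻¹ * (h * a * h⁻¹) = (b : L)⁻¹ * (h * b * h⁻¹) at e
    have hc : Commute h ((b : L) * (a : L)⁻¹) := by
      change h * ((b : L) * (a : L)⁻¹) = (b : L) * (a : L)⁻¹ * h
      calc h * ((b : L) * (a : L)⁻¹) = (h * b * h⁻¹) * (h * a * h⁻¹)⁻¹ * h := by group
        _ = (b : L) * ((b : L)⁻¹ * (h * b * h⁻¹)) * (h * a * h⁻¹)⁻¹ * h := by group
        _ = (b : L) * ((a : L)⁻¹ * (h * a * h⁻¹)) * (h * a * h⁻¹)⁻¹ * h := by rw [e]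
        _ = _ := by group
    have hm : (b : L) * (a : L)⁻¹ ∈ CfsgLib.Frob.kernel hH ⊓ Subgroup.centralizer {h} :=
      ⟨(CfsgLib.Frob.kernel hH).mul_mem b.2 ((CfsgLib.Frob.kernel hH).inv_mem a.2),
        Subgroup.mem_centralizer_singleton_iff.mpr hc.symm⟩
    rw [CfsgLib.Frob.kernel_inf_centralizer hH hg hh1, Subgroup.mem_bot, mul_inv_eq_one] at hm
    exact Subtype.ext hm.symm
  intro k hk
  obtain ⟨a, ha⟩ := (Finite.injective_iff_surjective.mp hf) ⟨k, hk⟩
  have e : k = (a : L)⁻¹ * (h * a * h⁻¹) := (congrArg Subtype.val ha).symm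
  rw [e, show (a : L)⁻¹ * (h * a * h⁻¹) = ((a : L)⁻¹ * h * a) * h⁻¹ by group]
  exact N.mul_mem (by simpa using hN.conj_mem h hhN (a : L)⁻¹) (N.inv_mem hhN)

end Cfsg.Agent.S3383
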