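import Cfsg.Statements.S3421
import Cfsg.Agent.SpecPSLTwo.Even
import Cfsg.Agent.SpecPSLTwo.Main
import Cfsg.Agent.SL2.PSLData
-- import your own Cfsg.Agent.* helpers here

set_option autoImplicit false
open Cfsg

namespace Cfsg.Agent.S3421

open Matrix

/-- Base change of `PSL₂` along an isomorphism of fields. -/
noncomputable def pslFieldCongr {K L : Type*} [Field K] [Field L] (f : K ≃+* L) :
    ProjectiveSpecialLinearGroup (Fin 2) K ≃* ProjectiveSpecialLinearGroup (Fin 2) L :=
  let φ : SpecialLinearGroup (Fin 2) K ≃* SpecialLinearGroup (Fin 2) L :=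
    MulEquiv.ofBijective (Matrix.SpecialLinearGroup.map (f : K →+* L))
      ⟨fun a b h => by
        ext i j
        exact f.injective (congrArg (fun m : SpecialLinearGroup (Fin 2) L => m i j) h),
       fun b => ⟨Matrix.SpecialLinearGroup.map (f.symm : L →+* K) b, by
        ext i j
        exact f.apply_symm_apply (b i j)⟩⟩
  QuotientGroup.congr _ _ φ (by
    ext y
    show y ∈ Subgroup.map φ.toMonoidHom _ ↔ _
    rw [Subgroup.mem_map_equiv, Subgroup.mem_center_iff, Subgroup.mem_center_iff]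
    constructor
    · intro h x
      exact φ.symm.injective (by rw [map_mul, map_mul]; exact h _)
    · intro h x
      exact φ.injective (by rw [map_mul, map_mul, φ.apply_symm_apply]; exact h _))


/-- Let F be a finite field with more than 3 elements. A finite group G is isomorphic to PSL(2, F) if and only if G has the same set of element orders and the same order as PSL(2, F). -/
theorem result {G : Type*} [Group G] [Finite G] {F : Type*} [Field F] [Fintype F] (hF : 3 < Fintype.card F) :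
    Nonempty (G ≃* Matrix.ProjectiveSpecialLinearGroup (Fin 2) F) ↔
      (Set.range (orderOf : G → ℕ) = Set.range (orderOf : Matrix.ProjectiveSpecialLinearGroup (Fin 2) F → ℕ) ∧
        Nat.card G = Nat.card (Matrix.ProjectiveSpecialLinearGroup (Fin 2) F)) := by
  classical
  have hG2 := CfsgLib.SL2.card_PSL_mul F
  rw [CfsgLib.SL2.card_center_eq_gcd] at hG2
  constructor
  · rintro ⟨e⟩
    refine ⟨Set.ext fun n => ⟨?_, ?_⟩, Nat.card_congr e.toEquiv⟩
    · rintro ⟨g, rfl⟩; exact ⟨e g, MulEquiv.orderOf_eq e g⟩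
    · rintro ⟨g, rfl⟩; exact ⟨e.symm g, MulEquiv.orderOf_eq e.symm g⟩
  rintro ⟨hset, hcard⟩
  rw [← hcard] at hG2
  obtain ⟨p, hch⟩ := CharP.exists F
  obtain ⟨n, hp, hn⟩ := FiniteField.card F p
  haveI := Fact.mk hp
  rw [CfsgLib.SL2.range_orderOf_PSL p] at hset
  have hspec : ∀ g : G, orderOf g ∣ p ∨
      orderOf g ∣ (Fintype.card F - 1) / Nat.gcd 2 (Fintype.card F - 1) ∨
      orderOf g ∣ (Fintype.card F + 1) / Nat.gcd 2 (Fintype.card F - 1) :=
    fun g => hset.le ⟨g, rfl⟩
  have hex : ∀ k : ℕ, (k ∣ p ∨ k ∣ (Fintype.card F - 1) / Nat.gcd 2 (Fintype.card F - 1) ∨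
      k ∣ (Fintype.card F + 1) / Nat.gcd 2 (Fintype.card F - 1)) → ∃ g : G, orderOf g = k :=
    fun k hk => hset.ge hk
  have hpow : ∃ f, Fintype.card F = p ^ f := ⟨n, hn⟩
  have hpq : p ∣ Fintype.card F := hn ▸ dvd_pow_self p n.pos.ne'
  generalize hq : Fintype.card F = q at hG2 hspec hex hpow hpq hF
  rcases hp.eq_two_or_odd with rfl | hodd
  · obtain ⟨f, hf⟩ := hpow
    have h2q : 2 ∣ q := hpq
    have hg : Nat.gcd 2 (q - 1) = 1 := Nat.prime_two.coprime_iff_not_dvd.2 (by omega)
    rw [hg] at hG2 hspec hex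
    simp only [Nat.div_one, mul_one] at hG2 hspec hex
    obtain ⟨K, _, _, hK, ⟨e⟩⟩ := CfsgLib.SpecPSLTwo.even_case f q hf (by omega) hG2 hspec
      (hex (q + 1) (Or.inr (Or.inr dvd_rfl)))
    exact ⟨e.trans (pslFieldCongr (FiniteField.ringEquivOfCardEq (hK.trans hq.symm)))⟩
  · have hq2 : ¬ 2 ∣ q := by
      obtain ⟨f, hf⟩ := hpow
      intro h
      have := (Nat.prime_dvd_prime_iff_eq Nat.prime_two hp).1 (Nat.prime_two.dvd_of_dvd_pow (hf ▸ h))
      omega
    obtain ⟨k, hk⟩ : ∃ k, q = 2 * k + 1 := ⟨q / 2, by omega⟩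
    have hg : Nat.gcd 2 (q - 1) = 2 := Nat.gcd_eq_left (by omega)
    rw [hg] at hG2 hspec hex
    rw [show (q - 1) / 2 = k by omega, show (q + 1) / 2 = k + 1 by omega] at hspec hex
    have hcardG : Nat.card G = q * k * (2 * (k + 1)) := by
      have h1 : q ^ 2 - 1 = 2 * k * (2 * (k + 1)) := by
        rw [hk, show (2 * k + 1) ^ 2 = 2 * k * (2 * (k + 1)) + 1 by ring, Nat.add_sub_cancel]
      rw [h1] at hG2
      exact Nat.eq_of_mul_eq_mul_right two_pos (hG2.trans (by ring))
    have hF' : 2 * Nat.card G = q * (q + 1) * (q - 1) := by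
      rw [hcardG, show q + 1 = 2 * (k + 1) by omega, show q - 1 = 2 * k by omega]; ring
    rw [← hq] at hF'
    rcases Nat.even_or_odd k with ⟨j, hj⟩ | ⟨j, hj⟩
    · exact CfsgLib.BSW.Structured.nonempty_iso (CfsgLib.SpecPSLTwo.odd_case (p := p) (q := q) (a := k + 1) (c := k)
        ⟨hp, by omega, hpow, hpq, by omega, by omega, by omega, Or.inr ⟨by omega, rfl⟩, by rw [hcardG]; ring,
          fun g => (hspec g).imp_right Or.symm, hex _ (Or.inr (Or.inr dvd_rfl)), hex _ (Or.inr (Or.inl dvd_rfl))⟩) hF'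
    · exact CfsgLib.BSW.Structured.nonempty_iso (CfsgLib.SpecPSLTwo.odd_case (p := p) (q := q) (a := k) (c := k + 1)
        ⟨hp, by omega, hpow, hpq, by omega, by omega, by omega, Or.inl ⟨hk, rfl⟩, by rw [hcardG]; ring,
          hspec, hex _ (Or.inr (Or.inl dvd_rfl)), hex _ (Or.inr (Or.inr dvd_rfl))⟩) hF'


end Cfsg.Agent.S3421
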