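import Cfsg.Statements.S3430
import Cfsg.Agent.NumTheory.PrimitivePartTable

set_option autoImplicit false
open Cfsg

namespace Cfsg.Agent.S3430

/-- A large primitive divisor yields a large primitive prime divisor. -/
theorem large_prime {q n m : ℕ} (hq0 : 0 < q) (hn : 3 ≤ n)
    (hm : CfsgLib.PrimitivePart.IsPrimDiv q n m) (hbig : n + 2 ≤ m) :
    ∃ p : ℕ, p.Prime ∧ p ∣ q ^ n - 1 ∧ (∀ i : ℕ, 1 ≤ i → i < n → ¬ p ∣ q ^ i - 1) ∧
      (n + 1 < p ∨ p ^ 2 ∣ q ^ n - 1) := by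
  have hprim : ∀ p : ℕ, p.Prime → p ∣ m → ∀ i : ℕ, 1 ≤ i → i < n → ¬ p ∣ q ^ i - 1 :=
    fun p hp hpm i hi hin hpi => hp.one_lt.ne'
      (Nat.dvd_one.mp ((hm.2 i hi hin).gcd_eq_one ▸ Nat.dvd_gcd hpm hpi))
  by_contra hcon
  push Not at hcon
  obtain ⟨p, hp, hpm⟩ := Nat.exists_prime_and_dvd (show m ≠ 1 by omega)
  have hsmall : ∀ r : ℕ, r.Prime → r ∣ m → r = n + 1 := by
    intro r hr hrm
    obtain ⟨hle, -⟩ := hcon r hr (hrm.trans hm.1) (hprim r hr hrm)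
    have : Fact r.Prime := ⟨hr⟩
    rcases eq_or_ne r (n + 1) with h | h
    · exact h
    exfalso
    have hqr : ¬ r ∣ q := fun h => by
      have h1 : r ∣ q ^ n := dvd_pow h (by omega)
      have h2 := Nat.dvd_sub h1 (hrm.trans hm.1)
      rw [Nat.sub_sub_self (Nat.one_le_pow _ _ hq0)] at h2
      exact hr.one_lt.ne' (Nat.dvd_one.mp h2)
    have h1 : r ∣ q ^ (r - 1) - 1 := by
      apply (CharP.cast_eq_zero_iff (ZMod r) r _).mp
      rw [Nat.cast_sub (Nat.one_le_pow _ _ hq0), Nat.cast_pow, Nat.cast_one,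
        ZMod.pow_card_sub_one_eq_one, sub_self]
      exact fun h0 => hqr ((CharP.cast_eq_zero_iff (ZMod r) r q).mp h0)
    have := hr.two_le
    exact hprim r hr hrm (r - 1) (by omega) (by omega) h1
  obtain ⟨c, hc⟩ := hpm
  have hp1 : p = n + 1 := hsmall p hp ⟨c, hc⟩
  have hc1 : c ≠ 1 := fun h => by rw [h, mul_one] at hc; omega
  obtain ⟨r, hr, hrc⟩ := Nat.exists_prime_and_dvd hc1
  have hr1 : r = n + 1 := hsmall r hr (hc ▸ hrc.trans (dvd_mul_left c p))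
  have hrp : r = p := hr1.trans hp1.symm
  subst hrp
  refine (hcon r hp ((hc ▸ dvd_mul_right r c).trans hm.1) (hprim r hp (hc ▸ dvd_mul_right r c))).2 ?_
  exact (sq r).symm ▸ (mul_dvd_mul_left r hrc).trans (hc ▸ hm.1)

/-- Let q, n ≥ 2 be integers. Unless (n = 2 and q + 1 = 2^s·3^t for some s ≥ 0 and t ≤ 1), or (q = 2 and n ∈ {4, 6, 10, 12, 18}), or (q = 3 and n ∈ {4, 6}), or (q, n) = (5, 6), there is a prime p dividing q^n − 1 but no q^i − 1 with 1 ≤ i < n (a primitive prime divisor), such that p > n + 1 or p² divides q^n − 1. -/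
theorem result (q n : ℕ) (hq : 2 ≤ q) (hn : 2 ≤ n)
    (h1 : ¬ (n = 2 ∧ ∃ s t : ℕ, t ≤ 1 ∧ q + 1 = 2 ^ s * 3 ^ t))
    (h2 : ¬ (q = 2 ∧ (n = 4 ∨ n = 6 ∨ n = 10 ∨ n = 12 ∨ n = 18)))
    (h3 : ¬ (q = 3 ∧ (n = 4 ∨ n = 6))) (h4 : ¬ (q = 5 ∧ n = 6)) :
    ∃ p : ℕ, p.Prime ∧ p ∣ q ^ n - 1 ∧ (∀ i : ℕ, 1 ≤ i → i < n → ¬ p ∣ q ^ i - 1) ∧ (n + 1 < p ∨ p ^ 2 ∣ q ^ n - 1) := by
  rcases Nat.lt_or_ge n 3 with hn3 | hn3
  · obtain rfl : n = 2 := by omega
    have hfact : q ^ 2 - 1 = (q + 1) * (q - 1) := by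
      rw [← Nat.sq_sub_sq, one_pow]
    have hone : ∀ p : ℕ, 3 ≤ p → p ∣ q + 1 →
        ∀ i : ℕ, 1 ≤ i → i < 2 → ¬ p ∣ q ^ i - 1 := by
      intro p hp hpq i hi hi2 hpi
      obtain rfl : i = 1 := by omega
      rw [pow_one] at hpi
      have h := Nat.dvd_sub hpq hpi
      rw [show q + 1 - (q - 1) = 2 by omega] at h
      have := Nat.le_of_dvd two_pos h
      omega
    by_cases hp5 : ∃ p : ℕ, p.Prime ∧ 5 ≤ p ∧ p ∣ q + 1
    · obtain ⟨p, hp, h5, hpq⟩ := hp5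
      exact ⟨p, hp, hfact ▸ hpq.trans (dvd_mul_right _ _), hone p (by omega) hpq, Or.inl (by omega)⟩
    push Not at hp5
    have h23 : ∀ p : ℕ, p.Prime → p ∣ q + 1 → p = 2 ∨ p = 3 := by
      intro p hp hpq
      have h5 : p < 5 := by
        by_contra h
        exact hp5 p hp (by omega) hpq
      have := hp.two_le
      interval_cases p
      · exact Or.inl rfl
      · exact Or.inr rfl
      · exact absurd hp (by decide)
    by_cases h9 : 9 ∣ q + 1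
    · exact ⟨3, Nat.prime_three, hfact ▸ ((by norm_num : 3 ∣ 9).trans h9).trans (dvd_mul_right _ _),
        hone 3 le_rfl ((by norm_num : 3 ∣ 9).trans h9),
        Or.inr (hfact ▸ (show 3 ^ 2 ∣ q + 1 from h9).trans (dvd_mul_right _ _))⟩
    exfalso
    obtain ⟨s, m, hm2, hm⟩ := Nat.exists_eq_pow_mul_and_not_dvd (n := q + 1) (by omega) 2 (by norm_num)
    have hm0 : m ≠ 0 := fun h => by rw [h, mul_zero] at hm; omega
    by_cases hm1 : m = 1
    · exact h1 ⟨rfl, s, 0, zero_le_one, by rw [hm, hm1, pow_zero]⟩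
    obtain ⟨p, hp, hpm⟩ := Nat.exists_prime_and_dvd hm1
    rcases h23 p hp (hm ▸ hpm.trans (dvd_mul_left m _)) with rfl | rfl
    · exact hm2 hpm
    obtain ⟨c, rfl⟩ := hpm
    by_cases hc1 : c = 1
    · exact h1 ⟨rfl, s, 1, le_rfl, by rw [hm, hc1, pow_one, mul_one]⟩
    obtain ⟨r, hr, hrc⟩ := Nat.exists_prime_and_dvd hc1
    rcases h23 r hr (hm ▸ hrc.trans ((dvd_mul_left c 3).trans (dvd_mul_left _ _))) with rfl | rfl
    · exact hm2 (hrc.trans (dvd_mul_left c 3))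
    · exact h9 (hm ▸ (mul_dvd_mul_left 3 hrc).trans (dvd_mul_left _ _))
  by_cases hex : (q, n) ∈ CfsgLib.PrimitivePart.excList
  · have key : ∀ x ∈ CfsgLib.PrimitivePart.excList,
        (x.1 = 2 ∧ (x.2 = 4 ∨ x.2 = 6 ∨ x.2 = 10 ∨ x.2 = 12 ∨ x.2 = 18)) ∨
          (x.1 = 3 ∧ (x.2 = 4 ∨ x.2 = 6)) ∨ (x.1 = 5 ∧ x.2 = 6) ∨
          (CfsgLib.PrimitivePart.part x.1 x.2 ∣ x.1 ^ x.2 - 1 ∧
            (∀ i ∈ List.range x.2, 1 ≤ i →
              Nat.gcd (CfsgLib.PrimitivePart.part x.1 x.2) (x.1 ^ i - 1) = 1) ∧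
            x.2 + 2 ≤ CfsgLib.PrimitivePart.part x.1 x.2) := by
      decide +kernel
    rcases key (q, n) hex with h | h | h | ⟨ha, hb, hc⟩
    · exact absurd h h2
    · exact absurd h h3
    · exact absurd h h4
    · exact large_prime (by omega) hn3 ⟨ha, fun i hi hin => hb i (List.mem_range.mpr hin) hi⟩ hc
  · obtain ⟨m, hm, hbig⟩ := CfsgLib.PrimitivePart.exists_large hq hn3 hex
    exact large_prime (by omega) hn3 hm (by omega)

end Cfsg.Agent.S3430
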