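import Cfsg.Statements.S3431
import Cfsg.Agent.NseSmall.Alt
import Cfsg.Agent.NseSmall.Recognise
import Cfsg.Agent.S0497
import Cfsg.Agent.H29.Dickson.GroupIso
-- import your own Cfsg.Agent.* helpers here

set_option autoImplicit false
set_option linter.style.haveILetI false
open Cfsg

namespace Cfsg.Agent.S3431

open CfsgLib.NseSmall

/-- A group of order `12` with eight elements of order `3` is the alternating group of degree four. -/
theorem iso_four {G : Type*} [Group G] [Finite G] (h : Nat.card G = 12) (h3 : cnt G 3 = 8) :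
    Nonempty (G ≃* ↥(alternatingGroup (Fin 4))) := by
  classical
  haveI : Fact (Nat.Prime 3) := ⟨Nat.prime_three⟩
  haveI : Fintype G := Fintype.ofFinite G
  obtain ⟨P⟩ : Nonempty (Sylow 3 G) := inferInstance
  have hcard : ∀ Q : Sylow 3 G, Nat.card Q = 3 := fun Q => by
    rw [Q.card_eq_multiplicity, h]
    rw [show (12 : ℕ) = 3 ^ 1 * 4 by norm_num, Nat.factorization_mul (by norm_num) (by norm_num),
      Finsupp.add_apply, Nat.prime_three.factorization_pow, Finsupp.single_eq_same,
      Nat.factorization_eq_zero_of_not_dvd (by norm_num : ¬ 3 ∣ 4)]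
    norm_num
  have hn : Nat.card (Sylow 3 G) = 4 := by
    have hi : (P : Subgroup G).index = 4 := by
      have := (P : Subgroup G).card_mul_index
      rw [hcard P, h] at this
      omega
    have hd : Nat.card (Sylow 3 G) ∣ 4 := hi ▸ P.card_dvd_index
    have hm : Nat.card (Sylow 3 G) ≡ 1 [MOD 3] := card_sylow_modEq_one 3 G
    have hle := Nat.le_of_dvd (by norm_num) hd
    have hne : Nat.card (Sylow 3 G) ≠ 1 := fun e => by
      obtain ⟨hs, -⟩ := Nat.card_eq_one_iff_unique.1 e
      have hle3 : cnt G 3 ≤ Nat.card P := by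
        refine Nat.card_le_card_of_injective (fun g => ⟨g.1, ?_⟩) fun a b e' => Subtype.ext (by simpa using e')
        obtain ⟨Q, hQ⟩ := (IsPGroup.of_card (n := 1) (by rw [Nat.card_zpowers, g.2, pow_one] :
          Nat.card (Subgroup.zpowers g.1) = 3 ^ 1)).exists_le_sylow
        exact hs.elim Q P ▸ hQ (Subgroup.mem_zpowers _)
      rw [hcard P] at hle3
      omega
    unfold Nat.ModEq at hm
    interval_cases Nat.card (Sylow 3 G) <;> omega
  -- the action on the Sylow subgroups is faithful
  have hN : Subgroup.normalizer ((P : Subgroup G) : Set G) = (P : Subgroup G) := by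
    refine (Subgroup.eq_of_le_of_card_ge Subgroup.le_normalizer ?_).symm
    have := (Subgroup.normalizer ((P : Subgroup G) : Set G)).card_mul_index
    rw [show (Subgroup.normalizer ((P : Subgroup G) : Set G)).index = 4 from (P.card_eq_index_normalizer.symm.trans hn), h] at this
    rw [show Nat.card (P : Subgroup G) = 3 from hcard P]
    omega
  let f : G →* Equiv.Perm (Sylow 3 G) := MulAction.toPermHom G (Sylow 3 G)
  have hker : ∀ g, f g = 1 → g = 1 := by
    intro g hg
    have hmem : ∀ Q : Sylow 3 G, g ∈ Subgroup.normalizer ((Q : Subgroup G) : Set G) := fun Q =>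
      Sylow.smul_eq_iff_mem_normalizer.1 (Equiv.congr_fun hg Q)
    have hgP : g ∈ (P : Subgroup G) := hN ▸ hmem P
    have : Nontrivial (Sylow 3 G) := Finite.one_lt_card_iff_nontrivial.1 (by omega)
    obtain ⟨Q, hQ⟩ := exists_ne P
    by_contra hg1
    apply hQ
    obtain ⟨c, hc⟩ := MulAction.exists_smul_eq G P Q
    have hQN : Subgroup.normalizer ((Q : Subgroup G) : Set G) = (Q : Subgroup G) := by
      refine (Subgroup.eq_of_le_of_card_ge Subgroup.le_normalizer ?_).symm
      have := (Subgroup.normalizer ((Q : Subgroup G) : Set G)).card_mul_index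
      rw [show (Subgroup.normalizer ((Q : Subgroup G) : Set G)).index = 4 from (Q.card_eq_index_normalizer.symm.trans hn), h] at this
      rw [show Nat.card (Q : Subgroup G) = 3 from hcard Q]
      omega
    have hgQ : g ∈ (Q : Subgroup G) := hQN ▸ hmem Q
    have hzP : Subgroup.zpowers g = (P : Subgroup G) := by
      refine Subgroup.eq_of_le_of_card_ge (Subgroup.zpowers_le.2 hgP) ?_
      rw [show Nat.card (P : Subgroup G) = 3 from hcard P, Nat.card_zpowers]
      have hd : orderOf g ∣ 3 := hcard P ▸ (Subgroup.orderOf_mk g hgP).symm.dvd.trans (orderOf_dvd_natCard _)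
      rcases (Nat.dvd_prime Nat.prime_three).1 hd with e | e
      · exact absurd (orderOf_eq_one_iff.1 e) hg1
      · omega
    refine Sylow.ext (Subgroup.eq_of_le_of_card_ge (hzP ▸ Subgroup.zpowers_le.2 hgQ) ?_).symm
    exact le_of_eq ((hcard Q).trans (hcard P).symm)
  have hinj : Function.Injective f := (injective_iff_map_eq_one f).2 hker
  let e : Sylow 3 G ≃ Fin 4 := (Finite.equivFin _).trans (finCongr hn)
  let f' : G →* Equiv.Perm (Fin 4) := e.permCongrHom.toMonoidHom.comp f
  have hinj' : Function.Injective f' := e.permCongrHom.injective.comp hinj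
  have hc12 : Nat.card f'.range = 12 := by
    rw [← Nat.card_congr (MonoidHom.ofInjective hinj').toEquiv, h]
  have hA : f'.range = alternatingGroup (Fin 4) := by
    refine Equiv.Perm.eq_alternatingGroup_of_index_eq_two ?_
    have := f'.range.card_mul_index
    rw [hc12, Nat.card_eq_fintype_card, Fintype.card_perm, Fintype.card_fin, Nat.factorial] at this
    norm_num [Nat.factorial] at this
    omega
  exact ⟨(MonoidHom.ofInjective hinj').trans (MulEquiv.subgroupCongr hA)⟩

/-- Let n be 4, 5 or 6 and let G be a finite group whose set of sizes of same-order classes (the set of numbers #{g : o(g) = m} over the element orders m of G) equals that of the alternating group of degree n. Then G is isomorphic to that alternating group. -/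
theorem result {G : Type*} [Group G] [Finite G] (n : ℕ) (hn : n = 4 ∨ n = 5 ∨ n = 6)
    (h : ((fun m : ℕ => Nat.card {g : G // orderOf g = m}) '' Set.range (orderOf : G → ℕ)) = ((fun m : ℕ => Nat.card {g : ↥(alternatingGroup (Fin n)) // orderOf g = m}) '' Set.range (orderOf : ↥(alternatingGroup (Fin n)) → ℕ))) :
    Nonempty (G ≃* ↥(alternatingGroup (Fin n))) := by
  rcases hn with rfl | rfl | rfl
  · obtain ⟨hN, h3, -⟩ := counts_four (countFn (G := G) (h.trans alt_four))
    exact iso_four hN h3
  · obtain ⟨hN, h3, h5, ho⟩ := counts_five (countFn (G := G) (h.trans alt_five))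
    haveI := isSimple (Or.inl ⟨hN, h3, h5⟩) ho
    exact CfsgLib.H29.Dickson.iso_alternating_five_of_simple hN
  · obtain ⟨hN, h3, h5, ho⟩ := counts_six (countFn (G := G) (h.trans alt_six))
    haveI := isSimple (Or.inr ⟨hN, h3, h5⟩) ho
    exact Cfsg.Agent.S0497.result hN

end Cfsg.Agent.S3431
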