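import Cfsg.Statements.S3704
import Mathlib

set_option autoImplicit false
open Cfsg

namespace Cfsg.Agent.S3704

private theorem two_sets {G Ω : Type*} [Group G] [Finite G] [MulAction G Ω] [Finite Ω]
    (h2 : MulAction.IsMultiplyPretransitive G Ω 2) (H : Subgroup G) (hidx : H.index = Nat.card Ω)
    (O P : Set Ω) (hO : ∀ h ∈ H, ∀ x, x ∈ O → h • x ∈ O) (hP : ∀ h ∈ H, ∀ x, x ∈ P → h • x ∈ P)
    (hOne : O.Nonempty) (hPne : P.Nonempty) (hdis : ∀ x ∈ O, x ∉ P) (hout : ∃ x, x ∉ O ∧ x ∉ P) : False := by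
  classical
  have h2' : ∀ {a b c d : Ω}, a ≠ b → c ≠ d → ∃ g : G, g • a = c ∧ g • b = d :=
    MulAction.is_two_pretransitive_iff.1 h2
  haveI := Fintype.ofFinite Ω
  haveI := Fintype.ofFinite (G ⧸ H)
  have hC : Fintype.card (G ⧸ H) = Fintype.card Ω := by
    rw [← Nat.card_eq_fintype_card, ← Nat.card_eq_fintype_card, ← hidx]; rfl
  let M : (G ⧸ H) → Set Ω → Ω → ℚ := fun c S α => if c.out⁻¹ • α ∈ S then 1 else 0
  have Hiff : ∀ S : Set Ω, (∀ h ∈ H, ∀ x, x ∈ S → h • x ∈ S) → ∀ (g : G) (α : Ω),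
      ((QuotientGroup.mk g : G ⧸ H).out⁻¹ • α ∈ S ↔ g⁻¹ • α ∈ S) := by
    intro S hS g α
    obtain ⟨h, hh⟩ := QuotientGroup.mk_out_eq_mul H g
    rw [hh, mul_inv_rev, mul_smul]
    constructor
    · intro hm
      simpa using hS _ h.2 _ hm
    · intro hm
      exact hS _ (inv_mem h.2) _ hm
  have Minv : ∀ S : Set Ω, (∀ h ∈ H, ∀ x, x ∈ S → h • x ∈ S) → ∀ (g : G) (c : G ⧸ H) (α : Ω),
      M (g • c) S (g • α) = M c S α := by
    intro S hS g c α
    obtain ⟨k, rfl⟩ := QuotientGroup.mk_surjective c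
    have e : g • (QuotientGroup.mk k : G ⧸ H) = QuotientGroup.mk (g * k) := rfl
    simp only [M, e, Hiff S hS, mul_inv_rev, mul_smul, inv_smul_smul]
  let N : Set Ω → Set Ω → Ω → Ω → ℚ := fun S T α β => ∑ c, M c S α * M c T β
  have Ninv : ∀ S T : Set Ω, (∀ h ∈ H, ∀ x, x ∈ S → h • x ∈ S) → (∀ h ∈ H, ∀ x, x ∈ T → h • x ∈ T) →
      ∀ (g : G) (α β : Ω), N S T (g • α) (g • β) = N S T α β := by
    intro S T hS hT g α β
    symm
    refine Fintype.sum_equiv (MulAction.toPerm g) _ _ fun c => ?_
    simp only [MulAction.toPerm_apply, Minv S hS, Minv T hT]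
  obtain ⟨o, ho⟩ := hOne
  obtain ⟨q, hq⟩ := hPne
  obtain ⟨z, hzO, hzP⟩ := hout
  have hoz : o ≠ z := fun e => hzO (e ▸ ho)
  have hdiag : ∀ S T : Set Ω, (∀ h ∈ H, ∀ x, x ∈ S → h • x ∈ S) → (∀ h ∈ H, ∀ x, x ∈ T → h • x ∈ T) →
      ∀ α β, N S T α β = N S T o z + if α = β then N S T o o - N S T o z else 0 := by
    intro S T hS hT α β
    by_cases h : α = β
    · subst h
      haveI := h2
      haveI := MulAction.isPretransitive_of_is_two_pretransitive (G := G) (α := Ω)
      obtain ⟨g, hg⟩ := MulAction.exists_smul_eq G o α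
      rw [if_pos rfl, add_sub_cancel, ← hg, Ninv S T hS hT]
    · obtain ⟨g, hg1, hg2⟩ := h2' hoz h
      rw [if_neg h, add_zero, ← hg1, ← hg2, Ninv S T hS hT]
  have Mnn : ∀ c S α, 0 ≤ M c S α := fun c S α => by simp only [M]; split <;> norm_num
  have hlam : 0 ≤ N O O o z := Finset.sum_nonneg fun c _ => mul_nonneg (Mnn _ _ _) (Mnn _ _ _)
  have hMsq : ∀ c S α, M c S α * M c S α = M c S α := fun c S α => by simp only [M]; split <;> norm_num
  have ha : 0 < N O O o o - N O O o z := by
    simp only [N, ← Finset.sum_sub_distrib]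
    refine Finset.sum_pos' (fun c _ => ?_) ⟨QuotientGroup.mk 1, Finset.mem_univ _, ?_⟩
    · simp only [M]; split <;> split <;> norm_num
    · simp [M, Hiff O hO, ho, hzO]
  set a := N O O o o - N O O o z with haE
  set l := N O O o z with hlE
  let S : (Ω → ℚ) →ₗ[ℚ] ((G ⧸ H) → ℚ) :=
    { toFun := fun v c => ∑ α, M c O α * v α
      map_add' := fun u v => by ext c; simp [mul_add, Finset.sum_add_distrib]
      map_smul' := fun r v => by ext c; simp [Finset.mul_sum, mul_left_comm] }
  let T : ((G ⧸ H) → ℚ) →ₗ[ℚ] (Ω → ℚ) :=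
    { toFun := fun w α => ∑ c, M c O α * w c
      map_add' := fun u v => by ext c; simp [mul_add, Finset.sum_add_distrib]
      map_smul' := fun r v => by ext c; simp [Finset.mul_sum, mul_left_comm] }
  have hTS : ∀ v α, T (S v) α = a * v α + l * ∑ β, v β := by
    intro v α
    change ∑ c, M c O α * ∑ β, M c O β * v β = _
    simp only [Finset.mul_sum]
    rw [Finset.sum_comm]
    have : ∀ β, ∑ c, M c O α * (M c O β * v β) = N O O α β * v β := fun β => by
      simp only [N, Finset.sum_mul, mul_assoc]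
    simp only [this, hdiag O O hO hO α, ← haE, ← hlE, add_mul, Finset.sum_add_distrib, ite_mul, zero_mul,
      Finset.sum_ite_eq, Finset.mem_univ, if_true]
    ring
  have hker : ∀ v, T (S v) = 0 → v = 0 := by
    intro v hv
    have h0 : ∀ α, a * v α + l * ∑ β, v β = 0 := fun α => by rw [← hTS, hv]; rfl
    have hsum : (a + l * Fintype.card Ω) * ∑ β, v β = 0 := by
      have := Finset.sum_eq_zero (s := (Finset.univ : Finset Ω)) (fun α _ => h0 α)
      rw [Finset.sum_add_distrib, ← Finset.mul_sum, Finset.sum_const, nsmul_eq_mul, Finset.card_univ] at this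
      rw [← this]; ring
    have hne : a + l * (Fintype.card Ω : ℚ) ≠ 0 := by positivity
    have hs := (mul_eq_zero.1 hsum).resolve_left hne
    funext α
    have := h0 α
    rw [hs, mul_zero, add_zero] at this
    exact (mul_eq_zero.1 this).resolve_left ha.ne'
  have hSinj : Function.Injective S := by
    rw [injective_iff_map_eq_zero]
    exact fun v hv => hker v (by rw [hv, map_zero])
  have hSsur : Function.Surjective S :=
    (LinearMap.injective_iff_surjective_of_finrank_eq_finrank (by simp [Module.finrank_fintype_fun_eq_card, hC])).1 hSinj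
  have hTinj : ∀ w, T w = 0 → w = 0 := by
    intro w hw
    obtain ⟨v, rfl⟩ := hSsur w
    rw [hker v hw, map_zero]
  -- the incidence of `P` is an affine function of that of `O`
  set c0 := N O P o o - N O P o z with hc0
  set d0 := N O P o z with hd0
  have huniv : ∀ α, ∑ c, M c O α = N O O o o := fun α => by
    have := hdiag O O hO hO α α
    rw [if_pos rfl, add_sub_cancel] at this
    rw [← this]
    exact Finset.sum_congr rfl fun c _ => (hMsq c O α).symm
  have hr : N O O o o ≠ 0 := by
    have : (0 : ℚ) < N O O o o := by linarith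
    exact this.ne'
  set x0 := c0 / a with hx0
  set y0 := (d0 - x0 * l) / N O O o o with hy0
  have hPeq : ∀ β c, M c P β = x0 * M c O β + y0 := by
    intro β c
    let w : (G ⧸ H) → ℚ := fun c => M c P β - x0 * M c O β - y0
    have hw : T w = 0 := by
      funext α
      change ∑ c, M c O α * (M c P β - x0 * M c O β - y0) = 0
      have e1 : ∑ c, M c O α * (M c P β - x0 * M c O β - y0) =
          N O P α β - x0 * N O O α β - y0 * ∑ c, M c O α := by
        simp only [N, Finset.mul_sum, ← Finset.sum_sub_distrib]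
        exact Finset.sum_congr rfl fun c _ => by ring
      rw [e1, hdiag O P hO hP α β, hdiag O O hO hO α β, huniv, ← haE, ← hlE, ← hc0, ← hd0, hy0, hx0]
      have := ha.ne'
      split <;> · field_simp; ring
    have := congrFun (hTinj w hw) c
    simp only [w, Pi.zero_apply] at this
    linarith
  have hy : y0 = 0 := by
    have := hPeq z (QuotientGroup.mk 1)
    simpa [M, Hiff O hO, Hiff P hP, hzO, hzP, eq_comm] using this
  have hx : x0 = 0 := by
    have := hPeq o (QuotientGroup.mk 1)
    simpa [M, Hiff O hO, Hiff P hP, ho, hdis o ho, hy, eq_comm] using this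
  have := hPeq q (QuotientGroup.mk 1)
  simp [M, Hiff P hP, hq, hx, hy] at this

/-- Let G be a finite group acting faithfully and 2-transitively on a finite set Ω of size n, and let H be a subgroup of index n in G which is not transitive on Ω and fixes no point of Ω. Then H has exactly two orbits on Ω. -/
theorem result {G Ω : Type*} [Group G] [Finite G] [MulAction G Ω] [FaithfulSMul G Ω] [Finite Ω] (h2 : MulAction.IsMultiplyPretransitive G Ω 2) (H : Subgroup G) (hidx : H.index = Nat.card Ω) (hnt : ¬ MulAction.IsPretransitive H Ω) (hfix : ∀ a : Ω, ∃ h : H, h • a ≠ a) : Nat.card (MulAction.orbitRel.Quotient H Ω) = 2 := by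
  classical
  have hinv : ∀ a : Ω, ∀ h ∈ H, ∀ x, x ∈ MulAction.orbit H a → h • x ∈ MulAction.orbit H a := by
    intro a h hh x hx
    obtain ⟨k, rfl⟩ := hx
    exact ⟨⟨h, hh⟩ * k, by simp [mul_smul]⟩
  have key : ∀ q₁ q₂ q₃ : MulAction.orbitRel.Quotient H Ω, q₁ ≠ q₂ → q₁ ≠ q₃ → q₂ ≠ q₃ → False := by
    intro q₁ q₂ q₃
    induction q₁ using Quotient.inductionOn' with
    | h a =>
    induction q₂ using Quotient.inductionOn' with
    | h b =>
    induction q₃ using Quotient.inductionOn' with
    | h c =>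
    intro hab hac hbc
    have hne : ∀ u v : Ω, u ∈ MulAction.orbit H v →
        (Quotient.mk'' u : MulAction.orbitRel.Quotient H Ω) = Quotient.mk'' v := fun u v h => Quotient.sound' h
    refine two_sets h2 H hidx (MulAction.orbit H a) (MulAction.orbit H b) (hinv a) (hinv b)
      ⟨a, MulAction.mem_orbit_self a⟩ ⟨b, MulAction.mem_orbit_self b⟩ (fun x hxa hxb => hab ?_)
      ⟨c, fun h => hac (hne c a h).symm, fun h => hbc (hne c b h).symm⟩
    rw [← hne x a hxa, hne x b hxb]
  rw [MulAction.isPretransitive_iff] at hnt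
  push Not at hnt
  obtain ⟨a, b, hab⟩ := hnt
  rw [Nat.card_eq_two_iff]
  refine ⟨Quotient.mk'' a, Quotient.mk'' b, fun e => ?_, Set.eq_univ_of_forall fun q => ?_⟩
  · obtain ⟨h, hh⟩ := (Quotient.exact' e.symm : MulAction.orbitRel H Ω b a)
    exact hab h hh
  · by_contra hq
    simp only [Set.mem_insert_iff, Set.mem_singleton_iff, not_or] at hq
    refine key _ _ q (fun e => ?_) (Ne.symm hq.1) (Ne.symm hq.2)
    obtain ⟨h, hh⟩ := (Quotient.exact' e.symm : MulAction.orbitRel H Ω b a)
    exact hab h hh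

end Cfsg.Agent.S3704
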