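import Cfsg.Statements.S3733
import Mathlib

set_option autoImplicit false
open Cfsg

namespace Cfsg.Agent.S3733

/-- Let A and V be subgroups of a finite group with V abelian and nontrivial and A normalizing V. Suppose a nonempty finite family of proper subgroups of A partitions A: every non-identity element of A lies in exactly one member. If the number of members minus one is coprime to the order of V, then some member B of the family has a non-identity fixed point on V, that is V ∩ C(B) ≠ 1. -/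
theorem result {G : Type*} [Group G] [Finite G] (A V : Subgroup G) (hVab : IsMulCommutative V) (hV : V ≠ ⊥) (hAV : A ≤ Subgroup.normalizer (V : Set G)) (𝒜 : Finset (Subgroup G)) (hne : 𝒜.Nonempty) (hprop : ∀ B ∈ 𝒜, B < A) (hpart : ∀ a ∈ A, a ≠ 1 → ∃! B, B ∈ 𝒜 ∧ a ∈ B) (hk : (𝒜.card - 1).Coprime (Nat.card V)) : ∃ B ∈ 𝒜, V ⊓ Subgroup.centralizer (B : Set G) ≠ ⊥ := by
  classical
  haveI := Fintype.ofFinite G
  letI : CommGroup V := { (inferInstance : Group V) with mul_comm := hVab.is_comm.comm }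
  by_contra hno
  push Not at hno
  obtain ⟨v, hv, hv1⟩ := (Subgroup.bot_or_exists_ne_one V).resolve_left hV
  have hconj : ∀ a ∈ A, ∀ w ∈ V, a * w * a⁻¹ ∈ V := fun a ha w hw => (Subgroup.mem_normalizer_iff.1 (hAV ha) w).1 hw
  let F : G → V := fun a => if ha : a ∈ A then ⟨a * v * a⁻¹, hconj a ha v hv⟩ else 1
  let nrm : Subgroup G → V := fun B => ∏ a ∈ Finset.univ.filter (fun a => a ∈ B), F a
  have hFmul : ∀ a ∈ A, ∀ b ∈ A, (F (b * a) : G) = b * (F a : G) * b⁻¹ := by
    intro a ha b hb
    simp only [F, dif_pos ha, dif_pos (mul_mem hb ha)]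
    simp [mul_assoc]
  have hnrm : ∀ B : Subgroup G, B ≤ A → (nrm B : G) ∈ V ⊓ Subgroup.centralizer (B : Set G) := by
    intro B hBA
    refine ⟨(nrm B).2, ?_⟩
    refine Subgroup.mem_centralizer_iff.2 fun b hb => ?_
    rw [← mul_inv_eq_iff_eq_mul]
    let c : V →* V := MonoidHom.mk' (fun w => ⟨b * w * b⁻¹, hconj b (hBA hb) w w.2⟩)
      (fun u w => Subtype.ext (by simp [mul_assoc]))
    have : c (nrm B) = nrm B := by
      simp only [nrm, map_prod]
      refine Finset.prod_nbij' (fun a => b * a) (fun a => b⁻¹ * a) ?_ ?_ ?_ ?_ ?_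
      · intro a ha; simp only [Finset.mem_filter, Finset.mem_univ, true_and] at ha ⊢; exact mul_mem hb ha
      · intro a ha; simp only [Finset.mem_filter, Finset.mem_univ, true_and] at ha ⊢; exact mul_mem (inv_mem hb) ha
      · intro a _; simp
      · intro a _; simp
      · intro a ha
        simp only [Finset.mem_filter, Finset.mem_univ, true_and] at ha
        exact Subtype.ext (hFmul a (hBA ha) b (hBA hb)).symm
    exact congrArg Subtype.val this
  have hB1 : ∀ B ∈ 𝒜, nrm B = 1 := fun B hB => Subtype.ext (by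
    have := hnrm B (hprop B hB).le
    rw [hno B hB, Subgroup.mem_bot] at this
    exact this)
  obtain ⟨B0, hB0⟩ := hne
  have hA1 : nrm A = 1 := Subtype.ext (by
    have h1 := hnrm A le_rfl
    have : (nrm A : G) ∈ V ⊓ Subgroup.centralizer (B0 : Set G) :=
      ⟨h1.1, Subgroup.centralizer_le (SetLike.coe_subset_coe.2 (hprop B0 hB0).le) h1.2⟩
    rw [hno B0 hB0, Subgroup.mem_bot] at this
    exact this)
  let ers : Subgroup G → Finset G := fun B => (Finset.univ.filter (fun a => a ∈ B)).erase 1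
  have hsplit : ∀ B : Subgroup G, nrm B = F 1 * ∏ a ∈ ers B, F a := fun B => by
    simp only [nrm, ers]
    rw [Finset.mul_prod_erase _ _ (by simp)]
  have hunion : ∏ a ∈ ers A, F a = ∏ B ∈ 𝒜, ∏ a ∈ ers B, F a := by
    rw [← Finset.prod_biUnion]
    · congr 1
      ext a
      simp only [ers, Finset.mem_erase, Finset.mem_filter, Finset.mem_univ, true_and, Finset.mem_biUnion]
      constructor
      · rintro ⟨h1, h2⟩
        obtain ⟨B, ⟨hB, haB⟩, -⟩ := hpart a h2 h1
        exact ⟨B, hB, h1, haB⟩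
      · rintro ⟨B, hB, h1, haB⟩
        exact ⟨h1, (hprop B hB).le haB⟩
    · intro B hB C hC hBC
      rw [Function.onFun, Finset.disjoint_left]
      intro a haB haC
      simp only [ers, Finset.mem_erase, Finset.mem_filter, Finset.mem_univ, true_and] at haB haC
      exact hBC ((hpart a ((hprop B hB).le haB.2) haB.1).unique ⟨hB, haB.2⟩ ⟨hC, haC.2⟩)
  have hprod : (1 : V) = F 1 ^ 𝒜.card * ∏ B ∈ 𝒜, ∏ a ∈ ers B, F a := by
    have : ∏ B ∈ 𝒜, nrm B = 1 := Finset.prod_eq_one hB1
    simp only [hsplit, Finset.prod_mul_distrib, Finset.prod_const] at this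
    exact this.symm
  have hk1 : F 1 ^ (𝒜.card - 1) = 1 := by
    have hAe : F 1 * ∏ B ∈ 𝒜, ∏ a ∈ ers B, F a = 1 := by rw [← hunion, ← hsplit, hA1]
    obtain ⟨j, hj⟩ := Nat.exists_eq_add_of_le' (Finset.card_pos.2 ⟨B0, hB0⟩)
    rw [hj, pow_succ, mul_assoc, hAe, mul_one] at hprod
    rw [hj, Nat.add_sub_cancel]
    exact hprod.symm
  have hF1 : F 1 = 1 := by
    rw [← orderOf_eq_one_iff]
    exact Nat.eq_one_of_dvd_coprimes hk (orderOf_dvd_of_pow_eq_one hk1) (orderOf_dvd_natCard _)
  apply hv1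
  have := congrArg Subtype.val hF1
  simpa [F] using this

end Cfsg.Agent.S3733
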