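import Cfsg.Statements.S3734
import Cfsg.Agent.CoprimeAction.Action
import Cfsg.Agent.CoprimeAction.Basic

set_option autoImplicit false
open Cfsg
open scoped commutatorElement

namespace Cfsg.Agent.S3734


universe u

theorem norm_cent {X : Type u} [Group X] {A K : Subgroup X} (hA : ∀ a ∈ A, ∀ b ∈ A, a * b = b * a)
    (hAK : A ≤ Subgroup.normalizer (K : Set X)) {B : Subgroup X} (hB : B ≤ A) :
    A ≤ Subgroup.normalizer ((K ⊓ Subgroup.centralizer (B : Set X) : Subgroup X) : Set X) := by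
  rw [Subgroup.le_normalizer_iff]
  intro a ha x hx
  obtain ⟨hxK, hxB⟩ := Subgroup.mem_inf.1 hx
  refine Subgroup.mem_inf.2 ⟨CfsgLib.CoprimeAction.conj_mem hAK ha hxK, Subgroup.mem_centralizer_iff.2 fun b hb => ?_⟩
  have h1 : Commute b x := Subgroup.mem_centralizer_iff.1 hxB b hb
  have h2 : Commute b a := hA b (hB hb) a ha
  exact (h2.mul_right h1).mul_right h2.inv_right

theorem cocyclic_gen {X : Type u} [Group X] [Finite X] (A : Subgroup X) [IsMulCommutative A] :
    ∀ (n : ℕ) (K : Subgroup X), Nat.card K = n → A ≤ Subgroup.normalizer (K : Set X) →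
      (Nat.card A).Coprime (Nat.card K) →
      K ≤ ⨆ B ∈ {B : Subgroup X | B ≤ A ∧ ∃ a ∈ A, B ⊔ Subgroup.zpowers a = A},
        K ⊓ Subgroup.centralizer (B : Set X) := by
  intro n
  induction n using Nat.strong_induction_on with
  | _ n ih =>
  intro K hn hAK hcop
  have hA : ∀ a ∈ A, ∀ b ∈ A, a * b = b * a := fun a ha b hb =>
    congrArg Subtype.val (IsMulCommutative.is_comm.comm (⟨a, ha⟩ : A) ⟨b, hb⟩)
  set f : A →* MulAut K := (Subgroup.normalizerMonoidHom K).comp (Subgroup.inclusion hAK) with hf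
  have hfa : ∀ (a : A) (k : K), ((f a k : K) : X) = (a : X) * k * (a : X)⁻¹ := fun a k => rfl
  by_cases hc : IsCyclic f.range
  · obtain ⟨⟨_, a, rfl⟩, hgen⟩ := hc.exists_generator
    refine le_iSup₂_of_le (f.ker.map A.subtype) ⟨Subgroup.map_subtype_le _, (a : X), a.2, ?_⟩ (le_inf le_rfl ?_)
    · refine le_antisymm (sup_le (Subgroup.map_subtype_le _) (Subgroup.zpowers_le.2 a.2)) fun x hx => ?_
      obtain ⟨i, hi⟩ := hgen ⟨f ⟨x, hx⟩, ⟨x, hx⟩, rfl⟩
      have hi' : f (a ^ i) = f ⟨x, hx⟩ := by rw [map_zpow]; exact congrArg Subtype.val hi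
      have hk : (⟨x, hx⟩ : A) * (a ^ i)⁻¹ ∈ f.ker := by rw [MonoidHom.mem_ker, map_mul, map_inv, hi', mul_inv_cancel]
      have he : x = (((⟨x, hx⟩ : A) * (a ^ i)⁻¹ : A) : X) * (a : X) ^ i := by
        rw [Subgroup.coe_mul, InvMemClass.coe_inv, SubgroupClass.coe_zpow, inv_mul_cancel_right]
      rw [he]
      exact Subgroup.mul_mem_sup ⟨_, hk, rfl⟩ ⟨i, rfl⟩
    · intro k hk
      rw [Subgroup.mem_centralizer_iff]
      rintro _ ⟨b, hb, rfl⟩
      have h1 := congrArg (fun φ : MulAut K => ((φ ⟨k, hk⟩ : K) : X)) (MonoidHom.mem_ker.1 hb)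
      simp only [hfa, MulAut.one_apply] at h1
      exact mul_inv_eq_iff_eq_mul.1 h1
  · intro x hx
    haveI : IsMulCommutative f.range := ⟨⟨by
      rintro ⟨_, a, rfl⟩ ⟨_, b, rfl⟩
      exact Subtype.ext (by
        show f a * f b = f b * f a
        rw [← map_mul, ← map_mul, show a * b = b * a from Std.Commutative.comm a b])⟩⟩
    haveI : Finite (MulAut K) := Finite.of_injective (fun e : MulAut K => (e : K → K)) DFunLike.coe_injective
    have hcl := CfsgLib.CoprimeAction.mem_closure_fixed f.range.subtype hc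
      (hcop.coprime_dvd_left (Subgroup.card_range_dvd f)) ⟨x, hx⟩
    have key : ∀ y : K, y ∈ Subgroup.closure {y : K | ∃ α : f.range, α ≠ 1 ∧ f.range.subtype α y = y} →
        (y : X) ∈ ⨆ B ∈ {B : Subgroup X | B ≤ A ∧ ∃ a ∈ A, B ⊔ Subgroup.zpowers a = A},
          K ⊓ Subgroup.centralizer (B : Set X) := by
      intro y hy
      induction hy using Subgroup.closure_induction with
      | mem y hy =>
        obtain ⟨⟨_, a, rfl⟩, hne, hfix⟩ := hy
        set K' := K ⊓ Subgroup.centralizer ((Subgroup.zpowers (a : X)) : Set X) with hK'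
        have hyK' : (y : X) ∈ K' := by
          refine Subgroup.mem_inf.2 ⟨y.2, ?_⟩
          rw [Subgroup.mem_centralizer_iff]
          rintro _ ⟨i, rfl⟩
          exact (Commute.zpow_left (show Commute (a : X) (y : X) from mul_inv_eq_iff_eq_mul.1 (congrArg Subtype.val hfix)) i).eq
        have hlt : Nat.card K' < n := by
          rw [← hn]
          refine lt_of_le_of_ne (Subgroup.card_le_of_le inf_le_left) fun he => hne ?_
          have heq : K' = K := Subgroup.eq_of_le_of_card_ge inf_le_left he.ge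
          refine Subtype.ext (MulEquiv.ext fun k => Subtype.ext ?_)
          show (a : X) * k * (a : X)⁻¹ = k
          have h3 := (Subgroup.mem_inf.1 (heq.symm ▸ k.2 : (k : X) ∈ K')).2
          rw [Subgroup.mem_centralizer_iff] at h3
          rw [h3 _ (Subgroup.mem_zpowers _), mul_inv_cancel_right]
        have hmono : (⨆ B ∈ {B : Subgroup X | B ≤ A ∧ ∃ a ∈ A, B ⊔ Subgroup.zpowers a = A},
            K' ⊓ Subgroup.centralizer (B : Set X)) ≤
            ⨆ B ∈ {B : Subgroup X | B ≤ A ∧ ∃ a ∈ A, B ⊔ Subgroup.zpowers a = A},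
              K ⊓ Subgroup.centralizer (B : Set X) :=
          iSup₂_mono fun B _ => inf_le_inf_right _ inf_le_left
        exact hmono (ih _ hlt K' rfl (norm_cent hA hAK (Subgroup.zpowers_le.2 a.2))
          (hcop.coprime_dvd_right (Subgroup.card_dvd_of_le inf_le_left)) hyK')
      | one => exact one_mem _
      | mul y z _ _ ihy ihz => exact mul_mem ihy ihz
      | inv y _ ih => exact inv_mem ih
    exact key _ hcl


/-- Let A and G be subgroups of a finite group with A abelian, A normalizing G and the orders of A and G coprime. Then G is generated by the fixed-point subgroups C_G(B) of those subgroups B of A for which A/B is cyclic (that is, A = ⟨B, a⟩ for some a), and [G, A] is generated by the commutator subgroups [C_G(B), A] over the same subgroups B. -/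
theorem result {X : Type*} [Group X] [Finite X] (A G : Subgroup X) (hAab : IsMulCommutative A) (hAG : A ≤ Subgroup.normalizer (G : Set X)) (hcop : (Nat.card A).Coprime (Nat.card G)) : (⨆ B ∈ {B : Subgroup X | B ≤ A ∧ ∃ a ∈ A, B ⊔ Subgroup.zpowers a = A}, G ⊓ Subgroup.centralizer (B : Set X)) = G ∧ (⨆ B ∈ {B : Subgroup X | B ≤ A ∧ ∃ a ∈ A, B ⊔ Subgroup.zpowers a = A}, ⁅G ⊓ Subgroup.centralizer (B : Set X), A⁆) = ⁅G, A⁆ := by
  haveI := hAab
  have hA : ∀ a ∈ A, ∀ b ∈ A, a * b = b * a := fun a ha b hb =>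
    congrArg Subtype.val (IsMulCommutative.is_comm.comm (⟨a, ha⟩ : A) ⟨b, hb⟩)
  set 𝓑 := {B : Subgroup X | B ≤ A ∧ ∃ a ∈ A, B ⊔ Subgroup.zpowers a = A} with h𝓑
  have h1 : (⨆ B ∈ 𝓑, G ⊓ Subgroup.centralizer (B : Set X)) = G :=
    le_antisymm (iSup₂_le fun B _ => inf_le_left) (cocyclic_gen A _ G rfl hAG hcop)
  refine ⟨h1, le_antisymm (iSup₂_le fun B _ => Subgroup.commutator_mono inf_le_left le_rfl) ?_⟩
  set T := ⨆ B ∈ 𝓑, ⁅G ⊓ Subgroup.centralizer (B : Set X), A⁆ with hT
  have hnorm : ∀ g : X, (∀ B ∈ 𝓑, g ∈ Subgroup.normalizer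
      ((⁅G ⊓ Subgroup.centralizer (B : Set X), A⁆ : Subgroup X) : Set X)) →
      g ∈ Subgroup.normalizer (T : Set X) := by
    intro g hg
    rw [Subgroup.mem_normalizer_iff_map_conj_eq, hT, Subgroup.map_iSup]
    refine iSup_congr fun B => ?_
    rw [Subgroup.map_iSup]
    exact iSup_congr fun hB => Subgroup.mem_normalizer_iff_map_conj_eq.1 (hg B hB)
  set C := G ⊓ Subgroup.centralizer (A : Set X) with hC
  have hAT : A ≤ Subgroup.normalizer (T : Set X) := fun a ha => hnorm a fun B hB =>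
    CfsgLib.CoprimeAction.le_normalizer_commutator (norm_cent hA hAG hB.1) ha
  have hCT : C ≤ Subgroup.normalizer (T : Set X) := fun c hc => hnorm c fun B hB => by
    refine CfsgLib.CoprimeAction.self_le_normalizer_commutator (Subgroup.mem_inf.2 ⟨(Subgroup.mem_inf.1 hc).1, ?_⟩)
    exact Subgroup.centralizer_le hB.1 (Subgroup.mem_inf.1 hc).2
  have hG : G ≤ C ⊔ T := by
    conv_lhs => rw [← h1]
    refine iSup₂_le fun B hB => ?_
    rw [← CfsgLib.CoprimeAction.commutator_sup_centralizer (norm_cent hA hAG hB.1)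
      (hcop.coprime_dvd_right (Subgroup.card_dvd_of_le inf_le_left))
      (Or.inl (Group.isSolvable_of_comm fun x y => Std.Commutative.comm x y))]
    exact sup_le (le_sup_of_le_right (le_iSup₂_of_le (f := fun B (_ : B ∈ 𝓑) =>
      ⁅G ⊓ Subgroup.centralizer (B : Set X), A⁆) B hB le_rfl))
      (le_sup_of_le_left (inf_le_inf_right _ inf_le_left))
  rw [Subgroup.commutator_le]
  intro g hg a ha
  obtain ⟨c, hc, t, ht, rfl⟩ := CfsgLib.CoprimeAction.exists_mul_of_mem_sup hCT (hG hg)
  have hca : Commute a c := Subgroup.mem_centralizer_iff.1 (Subgroup.mem_inf.1 hc).2 a ha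
  have he : ⁅c * t, a⁆ = c * (t * (a * t⁻¹ * a⁻¹)) * c⁻¹ := by
    rw [commutatorElement_def, mul_inv_rev,
      show c * t * a * (t⁻¹ * c⁻¹) * a⁻¹ = c * t * a * t⁻¹ * (c⁻¹ * a⁻¹) by group,
      ← hca.inv_inv.eq]
    group
  rw [he]
  exact CfsgLib.CoprimeAction.conj_mem hCT hc (mul_mem ht (CfsgLib.CoprimeAction.conj_mem hAT ha (inv_mem ht)))

end Cfsg.Agent.S3734
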