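import Cfsg.Statements.S3735
import Mathlib

set_option autoImplicit false
open Cfsg

namespace Cfsg.Agent.S3735

private theorem conj_inv {G : Type*} [Group G] {A U : Subgroup G} (h : A ≤ Subgroup.normalizer (U : Set G))
    {a : G} (ha : a ∈ A) : U.map (MulAut.conj a).toMonoidHom = U :=
  Subgroup.mem_normalizer_iff_map_conj_eq.1 (h ha)

private theorem inv_of {G : Type*} [Group G] {A U : Subgroup G}
    (h : ∀ a ∈ A, U.map (MulAut.conj a).toMonoidHom = U) : A ≤ Subgroup.normalizer (U : Set G) :=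
  fun a ha => Subgroup.mem_normalizer_iff_map_conj_eq.2 (h a ha)

/-- Clifford's Theorem for actions on finite abelian groups, first part. Let H and V be subgroups of a finite group with V abelian and H normalizing V, and let A be a normal subgroup of H. If every H-invariant subgroup of V has an H-invariant complement in V, then every A-invariant subgroup of V has an A-invariant complement in V. -/
theorem result {G : Type*} [Group G] [Finite G] (H A V : Subgroup G) (hVab : IsMulCommutative V) (hHV : H ≤ Subgroup.normalizer (V : Set G)) (hAH : A ≤ H) (hAn : H ≤ Subgroup.normalizer (A : Set G)) (hss : ∀ U : Subgroup G, U ≤ V → H ≤ Subgroup.normalizer (U : Set G) → ∃ W : Subgroup G, W ≤ V ∧ H ≤ Subgroup.normalizer (W : Set G) ∧ U ⊓ W = ⊥ ∧ U ⊔ W = V) (U : Subgroup G) (hUV : U ≤ V) (hAU : A ≤ Subgroup.normalizer (U : Set G)) : ∃ W : Subgroup G, W ≤ V ∧ A ≤ Subgroup.normalizer (W : Set G) ∧ U ⊓ W = ⊥ ∧ U ⊔ W = V := by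
  classical
  let P : Subgroup G → Prop := fun M => M ≤ V ∧ A ≤ Subgroup.normalizer (M : Set G)
  let Atom : Subgroup G → Prop := fun M => P M ∧ M ≠ ⊥ ∧ ∀ N, P N → N ≤ M → N = ⊥ ∨ N = M
  have hsup : ∀ M N, P M → P N → P (M ⊔ N) := fun M N hM hN =>
    ⟨sup_le hM.1 hN.1, inv_of fun a ha => by rw [Subgroup.map_sup, conj_inv hM.2 ha, conj_inv hN.2 ha]⟩
  have hinf : ∀ M N, P M → P N → P (M ⊓ N) := fun M N hM hN =>
    ⟨inf_le_left.trans hM.1, inv_of fun a ha => by
      rw [Subgroup.map_inf _ _ _ (MulAut.conj a).injective, conj_inv hM.2 ha, conj_inv hN.2 ha]⟩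
  have atom_below : ∀ M, P M → M ≠ ⊥ → ∃ N, Atom N ∧ N ≤ M := by
    intro M hM hne
    obtain ⟨N, hN, hmin⟩ := Set.Finite.exists_minimal (s := {N | P N ∧ N ≠ ⊥ ∧ N ≤ M}) (Set.toFinite _) ⟨M, hM, hne, le_rfl⟩
    refine ⟨N, ⟨hN.1, hN.2.1, fun K hK hKN => ?_⟩, hN.2.2⟩
    rcases eq_or_ne K ⊥ with h | h
    · exact Or.inl h
    · exact Or.inr (le_antisymm hKN (hmin ⟨hK, h, hKN.trans hN.2.2⟩ hKN))
  set S := sSup {M | Atom M} with hS
  have hSV : S ≤ V := sSup_le fun M hM => hM.1.1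
  have cid : ∀ h : G, (MulAut.conj h).toMonoidHom.comp (MulAut.conj h⁻¹).toMonoidHom = MonoidHom.id G := by
    intro h; ext; simp [mul_assoc]
  have ccomm : ∀ h a : G, (MulAut.conj a).toMonoidHom.comp (MulAut.conj h).toMonoidHom
      = (MulAut.conj h).toMonoidHom.comp (MulAut.conj (h⁻¹ * a * h)).toMonoidHom := by
    intro h a; ext; simp [mul_assoc]
  have hconjP : ∀ h ∈ H, ∀ M, P M → P (M.map (MulAut.conj h).toMonoidHom) := by
    intro h hh M hM
    refine ⟨(Subgroup.map_mono hM.1).trans (conj_inv hHV hh).le, inv_of fun a ha => ?_⟩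
    have ha' : h⁻¹ * a * h ∈ A := by
      have := (Subgroup.mem_normalizer_iff.1 (hAn (inv_mem hh)) a).1 ha
      simpa using this
    rw [Subgroup.map_map, ccomm, ← Subgroup.map_map, conj_inv hM.2 ha']
  have hSH : H ≤ Subgroup.normalizer (S : Set G) := by
    refine inv_of fun h hh => ?_
    have hle : ∀ h ∈ H, S.map (MulAut.conj h).toMonoidHom ≤ S := by
      intro h hh
      rw [Subgroup.map_le_iff_le_comap]
      refine sSup_le fun M hM => ?_
      rw [← Subgroup.map_le_iff_le_comap]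
      refine le_sSup ⟨hconjP h hh M hM.1, fun e => hM.2.1 ?_, fun N hN hNM => ?_⟩
      · exact (Subgroup.map_eq_bot_iff_of_injective M (MulAut.conj h).injective).1 e
      · have e2 : (MulAut.conj h⁻¹).toMonoidHom.comp (MulAut.conj h).toMonoidHom = MonoidHom.id G := by
          simpa using cid h⁻¹
        have h1 : N.map (MulAut.conj h⁻¹).toMonoidHom ≤ M := by
          refine (Subgroup.map_mono hNM).trans ?_
          rw [Subgroup.map_map, e2, Subgroup.map_id]
        have back : N = (N.map (MulAut.conj h⁻¹).toMonoidHom).map (MulAut.conj h).toMonoidHom := by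
          rw [Subgroup.map_map, cid h, Subgroup.map_id]
        rcases hM.2.2 _ (hconjP h⁻¹ (inv_mem hh) N hN) h1 with e | e
        · exact Or.inl (by rw [back, e, Subgroup.map_bot])
        · exact Or.inr (by rw [back, e])
    refine le_antisymm (hle h hh) ?_
    calc S = (S.map (MulAut.conj h⁻¹).toMonoidHom).map (MulAut.conj h).toMonoidHom := by
          rw [Subgroup.map_map, cid h, Subgroup.map_id]
      _ ≤ _ := Subgroup.map_mono (hle h⁻¹ (inv_mem hh))
  obtain ⟨W0, hW0V, hW0H, hint, hjoin⟩ := hss S hSV hSH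
  have hW0 : W0 = ⊥ := by
    by_contra hne
    obtain ⟨N, hN, hNW⟩ := atom_below W0 ⟨hW0V, hAH.trans hW0H⟩ hne
    exact hN.2.1 (le_bot_iff.1 (hint ▸ le_inf (le_sSup hN) hNW))
  rw [hW0, sup_bot_eq] at hjoin
  obtain ⟨W, hW, hmax⟩ := Set.Finite.exists_maximal (s := {W | P W ∧ U ⊓ W = ⊥}) (Set.toFinite _)
    ⟨⊥, ⟨bot_le, inv_of fun a _ => Subgroup.map_bot _⟩, inf_bot_eq U⟩
  refine ⟨W, hW.1.1, hW.1.2, hW.2, le_antisymm (sup_le hUV hW.1.1) ?_⟩
  rw [← hjoin]
  refine sSup_le fun M hM => ?_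
  by_contra hle
  rcases hM.2.2 _ (hinf _ _ hM.1 (hsup U W ⟨hUV, hAU⟩ hW.1)) inf_le_left with e | e
  swap
  · exact hle (e ▸ inf_le_right)
  have hnew : U ⊓ (W ⊔ M) = ⊥ := by
    rw [Subgroup.eq_bot_iff_forall]
    rintro u ⟨huU, huWM⟩
    have hWM : W ≤ Subgroup.normalizer (M : Set G) := by
      intro w hw
      apply Subgroup.centralizer_le_normalizer
      rw [Subgroup.mem_centralizer_iff]
      intro m hm
      exact congrArg Subtype.val (hVab.is_comm.comm (⟨m, hM.1.1 hm⟩ : V) ⟨w, hW.1.1 hw⟩)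
    replace huWM : u ∈ ((W ⊔ M : Subgroup G) : Set G) := huWM
    rw [Subgroup.coe_mul_of_left_le_normalizer_right W M hWM] at huWM
    obtain ⟨w, hw, m, hm, hwm⟩ := huWM
    simp only at hwm
    have hm1 : m ∈ M ⊓ (U ⊔ W) := by
      refine ⟨hm, ?_⟩
      have : m = w⁻¹ * u := by rw [← hwm, inv_mul_cancel_left]
      change m ∈ U ⊔ W
      rw [this]
      exact mul_mem (inv_mem (Subgroup.mem_sup_right hw)) (Subgroup.mem_sup_left huU)
    rw [e, Subgroup.mem_bot] at hm1
    rw [hm1, mul_one] at hwm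
    subst hwm
    exact (Subgroup.eq_bot_iff_forall _).1 hW.2 w ⟨huU, hw⟩
  exact hle ((le_sup_right : M ≤ W ⊔ M).trans ((hmax ⟨hsup W M hW.1 hM.1, hnew⟩ le_sup_left).trans le_sup_right))

end Cfsg.Agent.S3735
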