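import Cfsg.Statements.S3737
import Cfsg.Agent.PCore.OmegaFix

set_option autoImplicit false
open Cfsg

namespace Cfsg.Agent.S3737

/-- Thompson's strengthening of the P × Q lemma for odd primes. Let p be an odd prime and let P, Q and G be subgroups of a finite group with P a p-group, Q of order prime to p and normalized by P, and G a p-group normalized by both P and Q. If every element of G centralized by P is centralized by Q, then Q centralizes G. -/
theorem result {X : Type*} [Group X] [Finite X] {p : ℕ} [Fact p.Prime] (hp : p ≠ 2) (P Q G : Subgroup X) (hP : IsPGroup p P) (hQ : (Nat.card Q).Coprime p) (hPQ : P ≤ Subgroup.normalizer (Q : Set X)) (hG : IsPGroup p G) (hPG : P ≤ Subgroup.normalizer (G : Set X)) (hQG : Q ≤ Subgroup.normalizer (G : Set X)) (hC : G ⊓ Subgroup.centralizer (P : Set X) ≤ Subgroup.centralizer (Q : Set X)) : Q ≤ Subgroup.centralizer (G : Set X) := by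
  refine CfsgLib.PCore.le_centralizer_of_fixed_omega hp hG hP hQ hPG hQG hPQ fun x hx _ hfix => hC ?_
  exact Subgroup.mem_inf.2 ⟨hx, Subgroup.mem_centralizer_iff.2 hfix⟩

end Cfsg.Agent.S3737
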