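import Cfsg.Statements.S3738
import Cfsg.Agent.Transfer.Blackburn
import Cfsg.Agent.PGroup.ClassTwoRank

set_option autoImplicit false
open Cfsg
open scoped commutatorElement

namespace Cfsg.Agent.S3738

open CfsgLib.PCore in
/-- A minimal invariant subgroup on which `f` acts nontrivially. -/
theorem exists_minimal {X : Type*} [Group X] [Finite X] {D F P : Subgroup X} (hFD : F ≤ D)
    (hDF : D ≤ Subgroup.normalizer (F : Set X)) (hF : Nat.Coprime (Nat.card F) 2) (hP : IsPGroup 2 P)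
    (hDP : D ≤ Subgroup.normalizer (P : Set X)) (hne : ¬ F ≤ Subgroup.centralizer (P : Set X)) :
    ∃ Q : Subgroup X, Q ≤ P ∧ D ≤ Subgroup.normalizer (Q : Set X) ∧ ¬ F ≤ Subgroup.centralizer (Q : Set X) ∧
      (∀ a b : Q, ⁅a, b⁆ ∈ Subgroup.center Q) ∧ (∀ a : Q, a ^ 4 = 1) ∧
      (∀ a : Q, a ^ 2 ∈ Subgroup.center Q) ∧
      (∀ c : Q, (c : X) ∈ Subgroup.centralizer (F : Set X) → c ∈ Subgroup.center Q) ∧
      (∀ c : Q, c ∈ frattini Q → (c : X) ∈ Subgroup.centralizer (F : Set X)) := by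
  have : Fact (Nat.Prime 2) := ⟨Nat.prime_two⟩
  obtain ⟨Q, ⟨hQP, hDQ, hQne⟩, hmin⟩ := (Set.toFinite {Q : Subgroup X | Q ≤ P ∧ D ≤ Subgroup.normalizer (Q : Set X) ∧
    ¬ F ≤ Subgroup.centralizer (Q : Set X)}).exists_minimal ⟨P, le_refl P, hDP, hne⟩
  refine ⟨Q, hQP, hDQ, hQne, ?_⟩
  have hQ : IsPGroup 2 Q := hP.to_le hQP
  have hFQ : F ≤ Subgroup.normalizer (Q : Set X) := hFD.trans hDQ
  obtain ⟨k, hk⟩ := IsPGroup.iff_card.mp hQ
  have hcop : (Nat.card F).Coprime (Nat.card Q) := hk ▸ hF.pow_right k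
  have hsub : ∀ T : Subgroup X, T ≤ Q → T ≠ Q → D ≤ Subgroup.normalizer (T : Set X) →
      T ≤ Subgroup.centralizer (F : Set X) := by
    intro T hTQ hne' hDT
    refine Subgroup.le_centralizer_iff.1 ?_
    by_contra hc
    exact hne' (le_antisymm hTQ (hmin ⟨hTQ.trans hQP, hDT, hc⟩ hTQ))
  have hchar : ∀ S : Subgroup Q, S.Characteristic → D ≤ Subgroup.normalizer (S.map Q.subtype : Set X) := by
    intro S hS
    rw [Subgroup.le_normalizer_iff]
    rintro g hg _ ⟨y, hy, rfl⟩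
    refine ⟨Q.normalizerMonoidHom ⟨g, hDQ hg⟩ y, ?_, rfl⟩
    have := Subgroup.characteristic_iff_map_eq.1 hS (Q.normalizerMonoidHom ⟨g, hDQ hg⟩)
    rw [← this]
    exact ⟨y, hy, rfl⟩
  have hQ0 : Q ≠ ⊥ := by
    rintro rfl
    exact hQne fun b _ => Subgroup.mem_centralizer_iff.2 fun x hx => by simp [Subgroup.mem_bot.1 hx]
  have hRQ : ⁅Q, F⁆ = Q := by
    by_contra hne'
    exact hQne (le_centralizer_of_stabilizes hcop (commutator_le_of_le_normalizer hFQ)
      (hsub _ (commutator_le_of_le_normalizer hFQ) hne' (le_normalizer_commutator hDQ hDF)))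
  have hD : ⁅Q, Q⁆ ≤ Subgroup.centralizer (F : Set X) :=
    hsub _ (commutator_le_of_le_normalizer Subgroup.le_normalizer)
      (commutator_ne_of_isPGroup hQ hQ Subgroup.le_normalizer hQ0) (le_normalizer_commutator hDQ hDQ)
  set C := Q ⊓ Subgroup.centralizer (F : Set X) with hC
  have hCc : ⁅Q, C⁆ = ⊥ := commutator_eq_bot_of_centralized hRQ
    (Subgroup.le_centralizer_iff.1 inf_le_right)
    ((Subgroup.le_centralizer_iff.1 hD).trans
      (Subgroup.centralizer_le (Subgroup.commutator_mono le_rfl inf_le_left)))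
  have hcentral : ∀ c : Q, (c : X) ∈ Subgroup.centralizer (F : Set X) → c ∈ Subgroup.center Q := fun c hc =>
    Subgroup.mem_center_iff.2 fun x => Subtype.ext (commutatorElement_eq_one_iff_mul_comm.1
      (Subgroup.mem_bot.1 (hCc ▸ Subgroup.commutator_mem_commutator x.2 ⟨c.2, hc⟩)))
  have hQnt : Nontrivial Q := Q.nontrivial_iff_ne_bot.2 hQ0
  have hΦne : (frattini Q).map Q.subtype ≠ Q := fun h => by
    have htop : frattini Q = ⊤ := by
      apply Subgroup.map_injective (Subgroup.subtype_injective Q)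
      rw [h, ← MonoidHom.range_eq_map, Subgroup.range_subtype]
    obtain ⟨M, hM, -⟩ := (eq_top_or_exists_le_coatom (⊥ : Subgroup Q)).resolve_left bot_ne_top
    exact hM.1 (top_le_iff.mp (htop ▸ frattini_le_coatom hM))
  have hΦC := hsub _ (Subgroup.map_subtype_le _) hΦne (hchar _ inferInstance)
  have hΦ : ∀ c : Q, c ∈ frattini Q → (c : X) ∈ Subgroup.centralizer (F : Set X) := fun c hc => hΦC ⟨c, hc, rfl⟩
  have hzR : ∀ a b : Q, ⁅a, b⁆ ∈ Subgroup.center Q := fun a b => hcentral _ (hΦ _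
    (CfsgLib.PGroup.commutator_le_frattini hQ (Subgroup.commutator_mem_commutator (Subgroup.mem_top a) (Subgroup.mem_top b))))
  have hsq : ∀ a : Q, a ^ 2 ∈ Subgroup.center Q := fun a =>
    hcentral _ (hΦ _ (CfsgLib.PGroup.pow_mem_frattini hQ a))
  refine ⟨hzR, ?_, hsq, hcentral, hΦ⟩
  have hcp : ∀ a b : Q, ⁅a, b⁆ ^ 2 = 1 := fun a b => by
    rw [← commutatorElement_pow_left_of_class_two hzR, commutatorElement_eq_one_iff_mul_comm]
    exact (Subgroup.mem_center_iff.1 (hsq a) b).symm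
  have hmp : ∀ a b : Q, (a * b) ^ 4 = a ^ 4 * b ^ 4 := fun a b => by
    rw [mul_pow_of_class_two hzR, show 4 * (4 - 1) / 2 = 2 * 3 from rfl, pow_mul, hcp, one_pow, mul_one]
  let Ω : Subgroup Q :=
    { carrier := {x | x ^ 4 = 1}
      one_mem' := one_pow 4
      mul_mem' := fun {a b} ha hb => by
        show (a * b) ^ 4 = 1
        rw [hmp, ha, hb, one_mul]
      inv_mem' := fun {a} ha => by
        show a⁻¹ ^ 4 = 1
        rw [inv_pow, ha, inv_one] }
  have hΩc : Ω.Characteristic := Subgroup.characteristic_iff_le_map.2 fun φ x hx =>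
    ⟨φ.symm x, by show (φ.symm x) ^ 4 = 1; rw [← map_pow, show x ^ 4 = 1 from hx, map_one], φ.apply_symm_apply x⟩
  by_contra hcon
  have hne' : Ω.map Q.subtype ≠ Q := fun h => hcon fun a => by
    obtain ⟨y, hy, hya⟩ : (a : X) ∈ Ω.map Q.subtype := by rw [h]; exact a.2
    rw [← Subtype.ext (a1 := y) (a2 := a) hya]
    exact hy
  have hΩF := hsub _ (Subgroup.map_subtype_le _) hne' (hchar _ hΩc)
  refine hQne (CfsgLib.Transfer.le_centralizer_of_fixes_four hQ hF hFQ fun x hx hx4 => ?_)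
  exact hΩF ⟨⟨x, hx⟩, Subtype.ext hx4, rfl⟩

/-- Let d be a non-identity 3-element of a finite group and P a 2-subgroup normalized by d on which ⟨d⟩ acts faithfully (no non-identity power of d centralizes P) and without non-identity fixed points (C_P(d) = 1). If every abelian subgroup of P has 2-rank at most 2, then d has order 3. -/
theorem result {X : Type*} [Group X] [Finite X] (d : X) (n : ℕ) (hn : 1 ≤ n) (hd : orderOf d = 3 ^ n) (P : Subgroup X) (hP : IsPGroup 2 P) (hdP : d ∈ Subgroup.normalizer (P : Set X)) (hfaith : Subgroup.zpowers d ⊓ Subgroup.centralizer (P : Set X) = ⊥) (hfpf : P ⊓ Subgroup.centralizer {d} = ⊥) (hrank : ∀ V : Subgroup X, V ≤ P → IsMulCommutative V → Cfsg.PRankLE 2 2 V) : orderOf d = 3 := by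
  have : Fact (Nat.Prime 2) := ⟨Nat.prime_two⟩
  by_contra hne3
  have hn2 : 2 ≤ n := by
    by_contra h
    obtain rfl : n = 1 := by omega
    exact hne3 (by rw [hd, pow_one])
  set D := Subgroup.zpowers d with hD
  set f := d ^ (3 ^ (n - 1)) with hf
  have hfo : orderOf f = 3 := by
    rw [hf, orderOf_pow_of_dvd (by positivity) (hd ▸ pow_dvd_pow 3 (Nat.sub_le n 1)), hd,
      Nat.pow_div (Nat.sub_le n 1) (by norm_num), show n - (n - 1) = 1 by omega, pow_one]
  have hfD : f ∈ D := pow_mem (Subgroup.mem_zpowers d) _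
  have hDF : D ≤ Subgroup.normalizer (Subgroup.zpowers f : Set X) := by
    refine (Subgroup.zpowers_le.2 ?_).trans (Subgroup.centralizer_le_normalizer _)
    rw [Subgroup.mem_centralizer_iff]
    intro g hg
    obtain ⟨i, rfl⟩ := Subgroup.mem_zpowers_iff.1 hg
    exact ((Commute.refl d).pow_left _).zpow_left i
  have hne : ¬ Subgroup.zpowers f ≤ Subgroup.centralizer (P : Set X) := fun h => by
    have : f ∈ D ⊓ Subgroup.centralizer (P : Set X) := ⟨hfD, h (Subgroup.mem_zpowers f)⟩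
    rw [hfaith, Subgroup.mem_bot] at this
    rw [this, orderOf_one] at hfo
    norm_num at hfo
  obtain ⟨Q, hQP, hDQ, hQne, hzQ, hexp, hsq, hcen, hΦ⟩ := exists_minimal (Subgroup.zpowers_le.2 hfD) hDF
    (by rw [Nat.card_zpowers, hfo]; norm_num) hP (Subgroup.zpowers_le.2 hdP) hne
  have hQ : IsPGroup 2 Q := hP.to_le hQP
  -- the Frattini subgroup of `Q`
  let S : Subgroup Q :=
    { carrier := {x | x ∈ Subgroup.center Q ∧ x ^ 2 = 1}
      one_mem' := ⟨one_mem _, one_pow 2⟩
      mul_mem' := fun {a b} ha hb => ⟨mul_mem ha.1 hb.1, by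
        rw [Commute.mul_pow (Subgroup.mem_center_iff.1 hb.1 a), ha.2, hb.2, one_mul]⟩
      inv_mem' := fun {a} ha => ⟨inv_mem ha.1, by rw [inv_pow, ha.2, inv_one]⟩ }
  have hle : frattini Q ≤ S := CfsgLib.PGroup.frattini_le_of_elementary (p := 2)
    (fun a b => ⟨hzQ a b, by
      rw [← CfsgLib.PCore.commutatorElement_pow_left_of_class_two hzQ, commutatorElement_eq_one_iff_mul_comm]
      exact (Subgroup.mem_center_iff.1 (hsq a) b).symm⟩)
    (fun a => ⟨hsq a, by rw [← pow_mul]; exact hexp a⟩)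
  have hcenQ : frattini Q ≤ Subgroup.center Q := fun x hx => (hle hx).1
  have hel : Cfsg.IsElementaryAbelian 2 (frattini Q) :=
    ⟨⟨⟨fun a b => Subtype.ext (Subgroup.mem_center_iff.1 (hcenQ b.2) a)⟩⟩, fun a ha => (hle ha).2⟩
  -- `⟨d⟩` acts freely outside the fixed points
  set C : Subgroup Q := (Subgroup.centralizer (Subgroup.zpowers f : Set X)).subgroupOf Q with hC
  have hCtop : C ≠ ⊤ := fun h => hQne (Subgroup.le_centralizer_iff.1 fun x hx => by
    have : (⟨x, hx⟩ : Q) ∈ C := h ▸ Subgroup.mem_top _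
    exact this)
  have hinv : ∀ g ∈ D, ∀ x ∈ Subgroup.centralizer (Subgroup.zpowers f : Set X),
      g * x * g⁻¹ ∈ Subgroup.centralizer (Subgroup.zpowers f : Set X) := by
    intro g hg x hx
    refine mul_mem (mul_mem ?_ hx) (inv_mem ?_) <;>
    · rw [Subgroup.mem_centralizer_iff]
      intro y hy
      obtain ⟨i, rfl⟩ := Subgroup.mem_zpowers_iff.1 hy
      obtain ⟨j, rfl⟩ := Subgroup.mem_zpowers_iff.1 hg
      exact (((Commute.refl d).pow_left _).zpow_zpow i j).eq
  let Y := {x : Q // x ∉ C}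
  letI : MulAction D Y :=
    { smul := fun g x => ⟨⟨(g : X) * (x.1 : X) * (g : X)⁻¹,
          Subgroup.le_normalizer_iff.1 hDQ g g.2 x.1 x.1.2⟩, fun h => x.2 (by
        have h' := hinv _ (inv_mem g.2) _ (Subgroup.mem_subgroupOf.1 h)
        refine Subgroup.mem_subgroupOf.2 ?_
        simpa [mul_assoc] using h')⟩
      one_smul := fun x => by
        apply Subtype.ext; apply Subtype.ext
        show ((1 : D) : X) * (x.1 : X) * ((1 : D) : X)⁻¹ = (x.1 : X)
        simp
      mul_smul := fun g h x => by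
        apply Subtype.ext; apply Subtype.ext
        show ((g * h : D) : X) * (x.1 : X) * ((g * h : D) : X)⁻¹ = (g : X) * ((h : X) * (x.1 : X) * (h : X)⁻¹) * (g : X)⁻¹
        simp [mul_assoc] }
  have hstab : ∀ x : Y, MulAction.stabilizer D x = ⊥ := by
    intro x
    rw [eq_bot_iff]
    intro g hg
    by_contra hg1
    rw [Subgroup.mem_bot] at hg1
    apply x.2
    refine Subgroup.mem_subgroupOf.2 ?_
    have hgx : Commute (g : X) (x.1 : X) := by
      have := congrArg (fun y : Y => ((y.1 : Q) : X)) hg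
      exact mul_inv_eq_iff_eq_mul.1 this
    -- `f` is a power of `g`
    obtain ⟨i, hi, hgo⟩ : ∃ i ≤ n, orderOf (g : X) = 3 ^ i := (Nat.dvd_prime_pow Nat.prime_three).1
      ((Subgroup.orderOf_dvd_natCard D g.2).trans (by rw [hD, Nat.card_zpowers, hd]))
    have hi0 : i ≠ 0 := by
      rintro rfl
      rw [pow_zero, orderOf_eq_one_iff] at hgo
      exact hg1 (Subtype.ext hgo)
    obtain ⟨j, hj⟩ := Subgroup.mem_zpowers_iff.1 g.2
    have heq : Subgroup.zpowers f ≤ Subgroup.zpowers (g : X) := by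
      obtain ⟨w, hw, hwc⟩ : ∃ w ∈ Subgroup.zpowers (g : X), orderOf w = 3 :=
        ⟨(g : X) ^ 3 ^ (i - 1), pow_mem (Subgroup.mem_zpowers _) _, by
          rw [orderOf_pow_of_dvd (by positivity) (hgo ▸ pow_dvd_pow 3 (Nat.sub_le i 1)), hgo,
            Nat.pow_div (Nat.sub_le i 1) (by norm_num), show i - (i - 1) = 1 by omega, pow_one]⟩
      have : Subgroup.zpowers f = Subgroup.zpowers w := by
        refine (Subgroup.eq_of_le_of_card_ge ?_ (by rw [Nat.card_zpowers, Nat.card_zpowers, hfo, hwc])).symm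
        obtain ⟨z, rfl⟩ := Subgroup.mem_zpowers_iff.1 ((Subgroup.zpowers_le.2 g.2) hw : w ∈ D)
        have h3 : d ^ (z * 3) = 1 := by
          rw [zpow_mul, show (3 : ℤ) = ((3 : ℕ) : ℤ) from rfl, zpow_natCast, ← hwc, pow_orderOf_eq_one]
        have hdvd := orderOf_dvd_iff_zpow_eq_one.2 h3
        rw [hd, Nat.cast_pow, Nat.cast_ofNat, show n = (n - 1) + 1 by omega, pow_succ, mul_comm z,
          mul_comm ((3 : ℤ) ^ (n - 1))] at hdvd
        obtain ⟨e, rfl⟩ := Int.dvd_of_mul_dvd_mul_left (by norm_num) hdvd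
        refine Subgroup.zpowers_le.2 (Subgroup.mem_zpowers_iff.2 ⟨e, ?_⟩)
        rw [hf, ← zpow_natCast, ← zpow_mul, Nat.cast_pow, Nat.cast_ofNat]
      rw [this]
      exact Subgroup.zpowers_le.2 hw
    rw [Subgroup.mem_centralizer_iff]
    intro y hy
    obtain ⟨l, rfl⟩ := Subgroup.mem_zpowers_iff.1 (heq hy)
    exact (hgx.zpow_left l).eq
  have hYcard : 3 ^ n ∣ Nat.card Y := by
    rw [Nat.card_congr (MulAction.selfEquivOrbitsQuotientProd hstab), Nat.card_prod]
    refine Dvd.dvd.mul_left ?_ _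
    rw [hD, Nat.card_zpowers, hd]
  have hYcard' : Nat.card Y = Nat.card C * (C.index - 1) := by
    rw [Nat.mul_sub, mul_one, Subgroup.card_mul_index]
    classical
    have : Fintype Q := Fintype.ofFinite _
    simp only [Y, Nat.card_eq_fintype_card, Fintype.card_subtype_compl]
  obtain ⟨c, hc⟩ := IsPGroup.iff_card.1 (hQ.to_subgroup C)
  obtain ⟨m, hm⟩ := hQ.index C
  have h9 : 9 ∣ 2 ^ m - 1 := by
    refine Nat.Coprime.dvd_of_dvd_mul_left (k := 9) (m := 2 ^ c) ((by norm_num : Nat.Coprime 9 2).pow_right c) ?_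
    refine dvd_trans ?_ (hYcard.trans (by rw [hYcard', hc, hm]))
    exact (show 9 = 3 ^ 2 by norm_num) ▸ pow_dvd_pow 3 hn2
  have hm6 : 6 ≤ m := by
    by_contra h
    interval_cases m <;> first | omega | exact hCtop (Subgroup.index_eq_one.1 (by simpa using hm))
  obtain ⟨l, k, r, A, hl, hk, hcardQ, -, hlc, -⟩ := CfsgLib.ClassTwoRank.exists_bound hQ hcenQ hel
  have hk6 : 6 ≤ k := by
    have hΦC : frattini Q ≤ C := fun x hx => Subgroup.mem_subgroupOf.2 (hΦ x hx)
    have hlc' : 2 ^ l ≤ 2 ^ c := hlc ▸ hc ▸ Subgroup.card_le_of_le hΦC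
    have h1 : l ≤ c := (Nat.pow_le_pow_iff_right (by norm_num)).1 hlc'
    have h2 : k + l = c + m := by
      apply Nat.pow_right_injective le_rfl
      show 2 ^ (k + l) = 2 ^ (c + m)
      rw [← hcardQ, ← Subgroup.card_mul_index C, hc, hm, pow_add]
    omega
  have hrk := CfsgLib.ClassTwoRank.rank_bound_two hQ hcenQ hel
  rw [hl, hk] at hrk
  have h3 : 3 ≤ Cfsg.pRank 2 Q := by
    refine le_trans ?_ hrk
    by_cases hl4 : 4 ≤ l
    · generalize k / (l + 1) = t; omega
    · interval_cases l <;> omega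
  have hne' : {k : ℕ | Cfsg.PRankAtLeast 2 k Q}.Nonempty :=
    ⟨0, ⊥, inferInstance, fun a ha => by rw [Subgroup.mem_bot.1 ha, one_pow], by simp⟩
  have hbdd : BddAbove {k : ℕ | Cfsg.PRankAtLeast 2 k Q} := ⟨Nat.card Q, by
    rintro a ⟨B, -, -, hB⟩
    exact (Nat.lt_pow_self (by norm_num)).le.trans (hB.trans (Subgroup.card_le_card_group B))⟩
  obtain ⟨B, hB1, hB2, hB3⟩ := Nat.sSup_mem hne' hbdd
  have hBV : IsMulCommutative (B.map Q.subtype) := Subgroup.map_isMulCommutative B Q.subtype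
  have hV := hrank _ ((Subgroup.map_subtype_le B).trans hQP) hBV ⊤ inferInstance (fun a _ => by
    obtain ⟨y, hy, hya⟩ := a.2
    apply Subtype.ext
    rw [SubgroupClass.coe_pow, ← hya, ← map_pow, hB2 y hy, map_one]; rfl)
  rw [Subgroup.card_top, Subgroup.card_map_of_injective Q.subtype_injective] at hV
  have h8 : 2 ^ 3 ≤ Nat.card B := le_trans (Nat.pow_le_pow_right (by norm_num) h3) hB3
  omega

end Cfsg.Agent.S3738
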