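import Cfsg.Statements.S3739
import Cfsg.Agent.Invol.NormalFour
import Cfsg.Agent.QDWr.LocalIndex
import Cfsg.Agent.PReduced.Hom
import Cfsg.Agent.PCore.Basic
import Cfsg.Agent.PGroup.Basic

set_option autoImplicit false
open Cfsg

namespace Cfsg.Agent.S3739

section

variable {G : Type*} [Group G]

/-- Invariance under conjugation by two elements. -/
def Inv (d e : G) (K : Subgroup G) : Prop :=
  (∀ x ∈ K, d * x * d⁻¹ ∈ K) ∧ ∀ x ∈ K, e * x * e⁻¹ ∈ K

/-- An element of order three cannot shift an element by a fixed element of two-power order. -/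
theorem shift_eq_one {e x c : G} (he : e ^ 3 = 1) (hx : e * x * e⁻¹ = x * c) (hc : e * c * e⁻¹ = c)
    (h2 : ∃ k : ℕ, c ^ 2 ^ k = 1) : c = 1 := by
  have h1 : e * (e * x * e⁻¹) * e⁻¹ = x * c * c := by rw [hx, ← conj_mul, hx, hc]
  have h3 : e * (e * (e * x * e⁻¹) * e⁻¹) * e⁻¹ = x * c * c * c := by rw [h1, ← conj_mul, ← conj_mul, hx, hc]
  have h4 : e * (e * (e * x * e⁻¹) * e⁻¹) * e⁻¹ = x := by
    rw [show e * (e * (e * x * e⁻¹) * e⁻¹) * e⁻¹ = e ^ 3 * x * (e ^ 3)⁻¹ by simp [pow_succ, mul_assoc], he]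
    simp
  rw [h4] at h3
  have h5 : c ^ 3 = 1 := by
    have : x * c ^ 3 = x := by
      conv_rhs => rw [h3]
      simp [pow_succ, mul_assoc]
    exact mul_eq_left.1 this
  obtain ⟨k, hk⟩ := h2
  rw [← orderOf_eq_one_iff]
  exact Nat.eq_one_of_dvd_coprimes (Nat.Coprime.pow_right k (by decide : Nat.Coprime 3 2))
    (orderOf_dvd_of_pow_eq_one h5) (orderOf_dvd_of_pow_eq_one hk)

/-- Elementary abelian subgroups from commuting generators of order at most two. -/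
theorem elem_closure {s : Set G} (hc : ∀ a ∈ s, ∀ b ∈ s, a * b = b * a) (h2 : ∀ a ∈ s, a * a = 1) :
    Cfsg.IsElementaryAbelian 2 (Subgroup.closure s) := by
  haveI : IsMulCommutative (Subgroup.closure s) := Subgroup.isMulCommutative_closure hc
  refine ⟨inferInstance, fun a ha => ?_⟩
  induction ha using Subgroup.closure_induction with
  | mem a ha => rw [_root_.pow_two]; exact h2 a ha
  | one => exact one_pow _
  | mul a b ha hb iha ihb =>
    rw [(show Commute a b from congrArg Subtype.val (mul_comm' (⟨a, ha⟩ : Subgroup.closure s) ⟨b, hb⟩)).mul_pow,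
      iha, ihb, mul_one]
  | inv a ha iha => rw [inv_pow, iha, inv_one]

variable [Finite G]

theorem double_of_lt {S T : Subgroup G} (h : S < T) : 2 * Nat.card S ≤ Nat.card T := by
  obtain ⟨m, hm⟩ := Subgroup.card_dvd_of_le h.le
  rcases m with _ | _ | m
  · rw [mul_zero] at hm; exact absurd hm Nat.card_pos.ne'
  · exact absurd (Subgroup.eq_of_le_of_card_ge h.le (by rw [hm]; simp)) h.ne
  · rw [hm]; nlinarith [Nat.zero_le (Nat.card S * m)]

/-- Adjoining a normalizing element whose square lies in the subgroup at most doubles the order. -/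
theorem card_step {S : Subgroup G} {y : G} (h2 : y * y ∈ S) (hn : ∀ s ∈ S, y * s * y⁻¹ ∈ S) :
    Nat.card ↥(S ⊔ Subgroup.zpowers y) ≤ 2 * Nat.card S := by
  classical
  let K : Subgroup G :=
    { carrier := (S : Set G) ∪ (fun s => s * y) '' (S : Set G)
      one_mem' := Or.inl (one_mem S)
      mul_mem' := by
        rintro a b (ha | ⟨s, hs, rfl⟩) (hb | ⟨t, ht, rfl⟩)
        · exact Or.inl (mul_mem ha hb)
        · exact Or.inr ⟨a * t, mul_mem ha ht, mul_assoc _ _ _⟩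
        · exact Or.inr ⟨s * (y * b * y⁻¹), mul_mem hs (hn b hb), by group⟩
        · refine Or.inl ?_
          show s * y * (t * y) ∈ S
          rw [show s * y * (t * y) = s * (y * t * y⁻¹) * (y * y) by group]
          exact mul_mem (mul_mem hs (hn t ht)) h2
      inv_mem' := by
        rintro a (ha | ⟨s, hs, rfl⟩)
        · exact Or.inl (inv_mem ha)
        · refine Or.inr ⟨(y * y)⁻¹ * (y * s⁻¹ * y⁻¹), mul_mem (inv_mem h2) (hn _ (inv_mem hs)), by group⟩ }
  have hle : S ⊔ Subgroup.zpowers y ≤ K :=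
    sup_le (fun s hs => Or.inl hs) (Subgroup.zpowers_le.2 (Or.inr ⟨1, one_mem S, one_mul y⟩))
  refine (Subgroup.card_le_of_le hle).trans ?_
  show Nat.card ↥((S : Set G) ∪ (fun s => s * y) '' (S : Set G)) ≤ _
  rw [Nat.card_coe_set_eq, two_mul]
  refine (Set.ncard_union_le _ _).trans ?_
  rw [← SetLike.coe_sort_coe, Nat.card_coe_set_eq]
  exact Nat.add_le_add_left (Set.ncard_image_le (Set.toFinite _)) _

variable (hE : ∀ E : Subgroup G, Cfsg.IsElementaryAbelian 2 E → Nat.card E ≠ 8)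

include hE in
theorem elem_le_four {A : Subgroup G} (hA : Cfsg.IsElementaryAbelian 2 A) : Nat.card A ≤ 4 := by
  haveI : Fact (Nat.Prime 2) := ⟨Nat.prime_two⟩
  have hp : IsPGroup 2 A := fun a => ⟨1, Subtype.ext (by rw [pow_one, SubmonoidClass.coe_pow]; exact hA.2 a a.2)⟩
  obtain ⟨k, hk⟩ := IsPGroup.iff_card.1 hp
  by_contra hlt
  have hk3 : 3 ≤ k := by
    by_contra hlt3
    have := Nat.pow_le_pow_right two_pos (show k ≤ 2 by omega)
    omega
  obtain ⟨H, hH⟩ := Sylow.exists_subgroup_card_pow_prime 2 (G := A) (n := 3) (hk ▸ pow_dvd_pow 2 hk3)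
  haveI := hA.1
  refine hE (H.map A.subtype) ⟨inferInstance, ?_⟩ (by rw [Subgroup.card_map_of_injective A.subtype_injective, hH]; rfl)
  rintro _ ⟨a, -, rfl⟩
  exact hA.2 a a.2

variable {W : Subgroup G} (hW : Cfsg.IsElementaryAbelian 2 W) (hW4 : Nat.card W = 4)

include hW in
theorem w_sq {w : G} (hw : w ∈ W) : w * w = 1 := by rw [← _root_.pow_two]; exact hW.2 w hw

include hW in
theorem w_comm {v w : G} (hv : v ∈ W) (hw : w ∈ W) : v * w = w * v := by
  haveI := hW.1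
  exact congrArg Subtype.val (mul_comm' (⟨v, hv⟩ : W) ⟨w, hw⟩)

include hE hW hW4 in
theorem mem_of_sq {x : G} (hx : x * x = 1) (hc : ∀ w ∈ W, w * x = x * w) : x ∈ W := by
  have hA : Cfsg.IsElementaryAbelian 2 (Subgroup.closure (insert x (W : Set G))) := by
    refine elem_closure ?_ ?_
    · rintro a (rfl | ha) b (rfl | hb)
      · rfl
      · exact (hc b hb).symm
      · exact hc a ha
      · exact w_comm hW ha hb
    · rintro a (rfl | ha)
      · exact hx
      · exact w_sq hW ha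
  have hle : W ≤ Subgroup.closure (insert x (W : Set G)) :=
    fun w hw => Subgroup.subset_closure (Set.mem_insert_of_mem _ hw)
  rw [Subgroup.eq_of_le_of_card_ge hle (hW4.symm ▸ elem_le_four hE hA)]
  exact Subgroup.subset_closure (Set.mem_insert _ _)

include hW hW4 in
theorem w_cases {a b : G} (ha : a ∈ W) (hb : b ∈ W) (ha1 : a ≠ 1) (hb1 : b ≠ 1) (hab : a ≠ b) {v : G} (hv : v ∈ W) :
    v = 1 ∨ v = a ∨ v = b ∨ v = a * b := by
  obtain ⟨V, hV4, -, haV, hbV, hall⟩ :=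
    CfsgLib.Invol.exists_four (w_sq hW ha) (w_sq hW hb) ha1 hb1 hab (w_comm hW ha hb)
  have hle : V ≤ W := fun u hu => by
    rcases hall u hu with rfl | rfl | rfl | rfl
    · exact one_mem W
    · exact ha
    · exact hb
    · exact mul_mem ha hb
  rw [← Subgroup.eq_of_le_of_card_ge hle (by omega)] at hv
  exact hall v hv

include hE hW hW4 in
/-- A large group of class two with few involutions has an elementary abelian subgroup of order eight. -/
theorem false_of_large {R : Subgroup G} (hWR : W ≤ R) (hRc : ∀ r ∈ R, ∀ w ∈ W, w * r = r * w)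
    (hsq : ∀ r ∈ R, r * r ∈ W) (hcomm : ∀ r ∈ R, ∀ s ∈ R, r * s * r⁻¹ * s⁻¹ ∈ W)
    (hbig : 256 ≤ Nat.card R) : False := by
  have hnorm : ∀ S : Subgroup G, W ≤ S → S ≤ R → ∀ y ∈ R, ∀ s ∈ S, y * s * y⁻¹ ∈ S := by
    intro S hWS hSR y hy s hs
    rw [show y * s * y⁻¹ = y * s * y⁻¹ * s⁻¹ * s by group]
    exact mul_mem (hWS (hcomm y hy s (hSR hs))) hs
  obtain ⟨x, hxR, hxW⟩ : ∃ x ∈ R, x ∉ W := by
    by_contra hno
    push Not at hno
    have := Subgroup.card_le_of_le (show R ≤ W from hno)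
    omega
  let φ : R →* W := MonoidHom.mk' (fun y => ⟨(y : G) * x * (y : G)⁻¹ * x⁻¹, hcomm y y.2 x hxR⟩) fun y z =>
    Subtype.ext (by
      have h1 := hRc y y.2 _ (hcomm z z.2 x hxR)
      show (y : G) * z * x * ((y : G) * z)⁻¹ * x⁻¹ = (y : G) * x * (y : G)⁻¹ * x⁻¹ * ((z : G) * x * (z : G)⁻¹ * x⁻¹)
      calc (y : G) * z * x * ((y : G) * z)⁻¹ * x⁻¹
          = (y : G) * ((z : G) * x * (z : G)⁻¹ * x⁻¹) * (x * (y : G)⁻¹ * x⁻¹) := by group
        _ = ((z : G) * x * (z : G)⁻¹ * x⁻¹) * ((y : G) * x * (y : G)⁻¹ * x⁻¹) := by rw [← h1]; group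
        _ = _ := w_comm hW (hcomm z z.2 x hxR) (hcomm y y.2 x hxR))
  set K := φ.ker.map R.subtype with hK
  have hKR : K ≤ R := Subgroup.map_subtype_le _
  have hKx : ∀ y ∈ K, y * x = x * y := by
    rintro _ ⟨y, hy, rfl⟩
    have h1 : (y : G) * x * (y : G)⁻¹ * x⁻¹ = 1 := congrArg Subtype.val (MonoidHom.mem_ker.1 hy)
    rw [mul_inv_eq_one, mul_inv_eq_iff_eq_mul] at h1
    exact h1
  have hKc : 64 ≤ Nat.card K := by
    rw [hK, Subgroup.card_map_of_injective R.subtype_injective]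
    have h1 := φ.ker.card_mul_index
    rw [Subgroup.index_ker] at h1
    have h2 : Nat.card φ.range ≤ 4 :=
      (Nat.card_le_card_of_injective _ Subtype.val_injective).trans hW4.le
    nlinarith [Nat.zero_le (Nat.card φ.ker)]
  set S0 := W ⊔ Subgroup.zpowers x with hS0
  have hS0R : S0 ≤ R := sup_le hWR (Subgroup.zpowers_le.2 hxR)
  have hS0c : Nat.card S0 ≤ 8 := by
    have := card_step (hsq x hxR) (hnorm W le_rfl hWR x hxR)
    rw [← hS0] at this
    omega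
  have hpick : ∀ S : Subgroup G, Nat.card S < 64 → ∃ y ∈ K, y ∉ S := by
    intro S hS
    by_contra hno
    push Not at hno
    have := Subgroup.card_le_of_le (show K ≤ S from hno)
    omega
  obtain ⟨y₁, hy₁, hn₁⟩ := hpick S0 (by omega)
  set S1 := S0 ⊔ Subgroup.zpowers y₁ with hS1
  have hS1R : S1 ≤ R := sup_le hS0R (Subgroup.zpowers_le.2 (hKR hy₁))
  have hS1c : Nat.card S1 ≤ 16 := by
    have := card_step (S := S0) ((le_sup_left : W ≤ S0) (hsq y₁ (hKR hy₁))) (hnorm S0 le_sup_left hS0R y₁ (hKR hy₁))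
    rw [← hS1] at this
    omega
  obtain ⟨y₂, hy₂, hn₂⟩ := hpick S1 (by omega)
  set S2 := S1 ⊔ Subgroup.zpowers y₂ with hS2
  have hWS1 : W ≤ S1 := le_sup_of_le_left le_sup_left
  have hS2c : Nat.card S2 ≤ 32 := by
    have := card_step (S := S1) (hWS1 (hsq y₂ (hKR hy₂))) (hnorm S1 hWS1 hS1R y₂ (hKR hy₂))
    rw [← hS2] at this
    omega
  obtain ⟨y₃, hy₃, hn₃⟩ := hpick S2 (by omega)
  have m0 : S0 ≤ S1 := le_sup_left
  have m1 : S1 ≤ S2 := le_sup_left
  have z1 : y₁ ∈ S1 := Subgroup.mem_sup_right (Subgroup.mem_zpowers _)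
  have z2 : y₂ ∈ S2 := Subgroup.mem_sup_right (Subgroup.mem_zpowers _)
  obtain ⟨u, v, hu, hv, huv, hun, hvn⟩ : ∃ u v : G, u ∈ K ∧ v ∈ K ∧ u * v = v * u ∧ u ∉ S0 ∧
      v ∉ S0 ⊔ Subgroup.zpowers u := by
    have r1 := hKR hy₁; have r2 := hKR hy₂; have r3 := hKR hy₃
    set c₁₂ := y₁ * y₂ * y₁⁻¹ * y₂⁻¹ with hc12
    set c₁₃ := y₁ * y₃ * y₁⁻¹ * y₃⁻¹ with hc13
    set c₂₃ := y₂ * y₃ * y₂⁻¹ * y₃⁻¹ with hc23
    have w12 : c₁₂ ∈ W := hcomm _ r1 _ r2
    have w13 : c₁₃ ∈ W := hcomm _ r1 _ r3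
    have w23 : c₂₃ ∈ W := hcomm _ r2 _ r3
    have comm_iff : ∀ a b : G, a * b * a⁻¹ * b⁻¹ = 1 → a * b = b * a := fun a b h => by
      rw [mul_inv_eq_one, mul_inv_eq_iff_eq_mul] at h; exact h
    have hle : ∀ a ∈ S2, S0 ⊔ Subgroup.zpowers a ≤ S2 := fun a ha =>
      sup_le (m0.trans m1) (Subgroup.zpowers_le.2 ha)
    by_cases h12 : c₁₂ = 1
    · exact ⟨y₁, y₂, hy₁, hy₂, comm_iff _ _ h12, hn₁, hn₂⟩
    by_cases h13 : c₁₃ = 1
    · exact ⟨y₁, y₃, hy₁, hy₃, comm_iff _ _ h13, hn₁, fun h => hn₃ (m1 h)⟩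
    by_cases h23 : c₂₃ = 1
    · exact ⟨y₂, y₃, hy₂, hy₃, comm_iff _ _ h23, fun h => hn₂ (m0 h), fun h => hn₃ (hle _ z2 h)⟩
    have hy23 : y₁ * (y₂ * y₃) * y₁⁻¹ * (y₂ * y₃)⁻¹ = c₁₂ * c₁₃ := by
      calc _ = c₁₂ * (y₂ * c₁₃ * y₂⁻¹) := by rw [hc12, hc13]; group
        _ = _ := by rw [← hRc _ r2 _ w13, mul_inv_cancel_right]
    have hy13 : y₂ * (y₁ * y₃) * y₂⁻¹ * (y₁ * y₃)⁻¹ = c₁₂⁻¹ * c₂₃ := by
      calc _ = c₁₂⁻¹ * (y₁ * c₂₃ * y₁⁻¹) := by rw [hc12, hc23]; group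
        _ = _ := by rw [← hRc _ r1 _ w23, mul_inv_cancel_right]
    have hy12 : y₁ * y₂ * y₃ * (y₁ * y₂)⁻¹ * y₃⁻¹ = c₂₃ * c₁₃ := by
      calc _ = (y₁ * c₂₃ * y₁⁻¹) * c₁₃ := by rw [hc13, hc23]; group
        _ = _ := by rw [← hRc _ r1 _ w23, mul_inv_cancel_right]
    have inv12 : c₁₂⁻¹ = c₁₂ := inv_eq_of_mul_eq_one_left (w_sq hW w12)
    by_cases e1 : c₁₂ = c₁₃
    · refine ⟨y₁, y₂ * y₃, hy₁, mul_mem hy₂ hy₃, comm_iff _ _ (by rw [hy23, e1, w_sq hW w13]), hn₁, fun h => hn₃ ?_⟩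
      rw [show y₃ = y₂⁻¹ * (y₂ * y₃) by group]
      exact mul_mem (inv_mem z2) (m1 h)
    by_cases e2 : c₁₂ = c₂₃
    · refine ⟨y₂, y₁ * y₃, hy₂, mul_mem hy₁ hy₃, comm_iff _ _ (by rw [hy13, e2, inv_mul_cancel]),
        fun h => hn₂ (m0 h), fun h => hn₃ ?_⟩
      rw [show y₃ = y₁⁻¹ * (y₁ * y₃) by group]
      exact mul_mem (inv_mem (m1 z1)) (hle _ z2 h)
    by_cases e3 : c₁₃ = c₂₃
    · refine ⟨y₁ * y₂, y₃, mul_mem hy₁ hy₂, hy₃, comm_iff _ _ (by rw [hy12, e3, w_sq hW w23]), fun h => hn₂ ?_,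
        fun h => hn₃ (hle _ (mul_mem (m1 z1) z2) h)⟩
      rw [show y₂ = y₁⁻¹ * (y₁ * y₂) by group]
      exact mul_mem (inv_mem z1) (m0 h)
    have hprod : c₂₃ = c₁₂ * c₁₃ := by
      rcases w_cases hW hW4 w12 w13 h12 h13 e1 w23 with h | h | h | h
      · exact absurd h h23
      · exact absurd h.symm e2
      · exact absurd h.symm e3
      · exact h
    refine ⟨y₁ * y₂, y₂ * y₃, mul_mem hy₁ hy₂, mul_mem hy₂ hy₃, comm_iff _ _ ?_, fun h => hn₂ ?_, fun h => hn₃ ?_⟩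
    · calc y₁ * y₂ * (y₂ * y₃) * (y₁ * y₂)⁻¹ * (y₂ * y₃)⁻¹
          = c₁₂ * (y₂ * (y₁ * c₂₃ * y₁⁻¹) * y₂⁻¹) * (y₂ * c₁₃ * y₂⁻¹) := by rw [hc12, hc13, hc23]; group
        _ = c₁₂ * c₂₃ * c₁₃ := by
          rw [← hRc _ r1 _ w23, mul_inv_cancel_right, ← hRc _ r2 _ w23, mul_inv_cancel_right, ← hRc _ r2 _ w13,
            mul_inv_cancel_right]
        _ = 1 := by
          rw [hprod, ← mul_assoc c₁₂ c₁₂, w_sq hW w12, one_mul, w_sq hW w13]
    · rw [show y₂ = y₁⁻¹ * (y₁ * y₂) by group]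
      exact mul_mem (inv_mem z1) (m0 h)
    · rw [show y₃ = y₂⁻¹ * (y₂ * y₃) by group]
      exact mul_mem (inv_mem z2) (hle _ (mul_mem (m1 z1) z2) h)
  set gens : Set G := insert v (insert u (insert x (W : Set G))) with hgens
  have hgR : ∀ g ∈ gens, g ∈ R := by
    rintro g (rfl | rfl | rfl | hg)
    exacts [hKR hv, hKR hu, hxR, hWR hg]
  have hgc : ∀ a ∈ gens, ∀ b ∈ gens, a * b = b * a := by
    rintro a (rfl | rfl | rfl | ha) b (rfl | rfl | rfl | hb)
    exacts [rfl, huv.symm, hKx _ hv, (hRc _ (hKR hv) _ hb).symm, huv, rfl, hKx _ hu, (hRc _ (hKR hu) _ hb).symm,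
      (hKx _ hv).symm, (hKx _ hu).symm, rfl, (hRc _ hxR _ hb).symm, hRc _ (hKR hv) _ ha, hRc _ (hKR hu) _ ha,
      hRc _ hxR _ ha, w_comm hW ha hb]
  set A := Subgroup.closure gens with hA
  have hAR : A ≤ R := (Subgroup.closure_le _).2 hgR
  haveI : IsMulCommutative A := Subgroup.isMulCommutative_closure hgc
  let ψ : A →* W := MonoidHom.mk' (fun a => ⟨(a : G) * a, hsq a (hAR a.2)⟩) fun a b => Subtype.ext (by
    have h1 : (a : G) * b = b * a := congrArg Subtype.val (mul_comm' a b)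
    show (a : G) * b * ((a : G) * b) = (a : G) * a * ((b : G) * b)
    rw [mul_assoc, mul_assoc, ← mul_assoc (b : G) (a : G), ← h1, mul_assoc])
  have hker : Cfsg.IsElementaryAbelian 2 (ψ.ker.map A.subtype) := by
    refine ⟨inferInstance, ?_⟩
    rintro _ ⟨a, ha, rfl⟩
    rw [_root_.pow_two]
    exact congrArg Subtype.val (MonoidHom.mem_ker.1 ha)
  have hA16 : Nat.card A ≤ 16 := by
    have h1 := ψ.ker.card_mul_index
    rw [Subgroup.index_ker] at h1
    have h2 : Nat.card ψ.range ≤ 4 := (Nat.card_le_card_of_injective _ Subtype.val_injective).trans hW4.le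
    have h3 := elem_le_four hE hker
    rw [Subgroup.card_map_of_injective A.subtype_injective] at h3
    rw [← h1]
    exact (Nat.mul_le_mul h3 h2).trans (by norm_num)
  set T1 := S0 ⊔ Subgroup.zpowers u with hT1
  set T2 := T1 ⊔ Subgroup.zpowers v with hT2
  have hT2A : T2 ≤ A := sup_le (sup_le (sup_le (fun w hw => Subgroup.subset_closure (by simp [hgens, hw]))
    (Subgroup.zpowers_le.2 (Subgroup.subset_closure (by simp [hgens]))))
    (Subgroup.zpowers_le.2 (Subgroup.subset_closure (by simp [hgens]))))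
    (Subgroup.zpowers_le.2 (Subgroup.subset_closure (by simp [hgens])))
  have l0 : W < S0 := lt_of_le_of_ne le_sup_left fun e => hxW (by
    rw [e]; exact Subgroup.mem_sup_right (Subgroup.mem_zpowers x))
  have l1 : S0 < T1 := lt_of_le_of_ne le_sup_left fun e => hun (by
    rw [e]; exact Subgroup.mem_sup_right (Subgroup.mem_zpowers u))
  have l2 : T1 < T2 := lt_of_le_of_ne le_sup_left fun e => hvn (by
    rw [e]; exact Subgroup.mem_sup_right (Subgroup.mem_zpowers v))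
  have := double_of_lt l0
  have := double_of_lt l1
  have := double_of_lt l2
  have := Subgroup.card_le_of_le hT2A
  omega

theorem exists_conj_mem {p : ℕ} [Fact p.Prime] (P : Sylow p G) {t : G} (ht : ∃ k : ℕ, orderOf t = p ^ k) :
    ∃ g : G, g * t * g⁻¹ ∈ (P : Subgroup G) := by
  obtain ⟨k, hk⟩ := ht
  obtain ⟨Q, hQ⟩ := (IsPGroup.of_card (p := p) (n := k) (by rw [Nat.card_zpowers, hk]) :
    IsPGroup p (Subgroup.zpowers t)).exists_le_sylow
  obtain ⟨g, rfl⟩ := MulAction.exists_smul_eq G P Q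
  refine ⟨g⁻¹, ?_⟩
  have h := hQ (Subgroup.mem_zpowers t)
  rw [Sylow.coe_subgroup_smul, Subgroup.mem_pointwise_smul_iff_inv_smul_mem] at h
  simpa [MulAut.smul_def] using h

end



/-- Let G be a finite group with C_G(O₂(G)) ≤ O₂(G) containing an element of order 6, and let d be a non-identity 3-element of G normalizing a nontrivial elementary abelian 2-subgroup W with C_W(d) = 1. Then G has an elementary abelian subgroup of order 8. -/
theorem result {G : Type*} [Group G] [Finite G] (hchar : Subgroup.centralizer (Cfsg.pCore 2 G : Set G) ≤ Cfsg.pCore 2 G) (hsix : ∃ g : G, orderOf g = 6) (d : G) (hd1 : d ≠ 1) (hd : IsPGroup 3 ↥(Subgroup.zpowers d)) (W : Subgroup G) (hW : Cfsg.IsElementaryAbelian 2 W) (hW1 : W ≠ ⊥) (hdW : d ∈ Subgroup.normalizer (W : Set G)) (hfpf : W ⊓ Subgroup.centralizer {d} = ⊥) : ∃ E : Subgroup G, Cfsg.IsElementaryAbelian 2 E ∧ Nat.card E = 8 := by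
  haveI : Fact (Nat.Prime 2) := ⟨Nat.prime_two⟩
  haveI : Fact (Nat.Prime 3) := ⟨Nat.prime_three⟩
  by_contra hno
  have hE : ∀ E : Subgroup G, Cfsg.IsElementaryAbelian 2 E → Nat.card E ≠ 8 := fun E h1 h2 => hno ⟨E, h1, h2⟩
  have hdfix : ∀ w ∈ W, d * w * d⁻¹ = w → w = 1 := fun w hw h => by
    have : w ∈ W ⊓ Subgroup.centralizer {d} := ⟨hw, Subgroup.mem_centralizer_iff.2 fun u hu => by
      rw [Set.mem_singleton_iff.1 hu]; exact mul_inv_eq_iff_eq_mul.1 h⟩
    rwa [hfpf, Subgroup.mem_bot] at this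
  have hdW' : ∀ w ∈ W, d * w * d⁻¹ ∈ W := fun w hw => (Subgroup.mem_normalizer_iff.1 hdW w).1 hw
  have hinvW : ∀ X : Subgroup G, X ≤ W → X ≠ ⊥ → (∀ x ∈ X, d * x * d⁻¹ ∈ X) → Nat.card X = 4 := by
    intro X hXW hX1 hXd
    have h4 := (Subgroup.card_le_of_le hXW).trans (elem_le_four hE hW)
    have hp : IsPGroup 2 X := fun a => ⟨1, Subtype.ext (by
      rw [pow_one, SubmonoidClass.coe_pow]; exact hW.2 a (hXW a.2))⟩
    obtain ⟨k, hk⟩ := IsPGroup.iff_card.1 hp
    have h1 := (Subgroup.one_lt_card_iff_ne_bot X).2 hX1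
    obtain ⟨⟨w, hw⟩, hw1⟩ := X.ne_bot_iff_exists_ne_one.1 hX1
    rcases k with _ | _ | _ | k
    · rw [pow_zero] at hk; omega
    · exfalso
      have h2 : ∀ a b : X, a ≠ 1 → b ≠ 1 → a = b := by
        intro a b ha hb
        rw [zero_add, pow_one, Nat.card_eq_two_iff' (1 : X)] at hk
        exact hk.unique ha hb
      have h3 := congrArg Subtype.val (h2 ⟨w, hw⟩ ⟨d * w * d⁻¹, hXd _ hw⟩ hw1 (fun e =>
        hw1 (Subtype.ext (conj_eq_one_iff.1 (congrArg Subtype.val e)))))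
      exact hw1 (Subtype.ext (hdfix _ (hXW hw) h3.symm))
    · rw [hk]; rfl
    · have := Nat.pow_le_pow_right two_pos (show 3 ≤ k + 1 + 1 + 1 by omega)
      omega
  have hW4 : Nat.card W = 4 := hinvW W le_rfl hW1 hdW'
  have hW1' : ∀ {v w : G}, v ∈ W → w ∈ W → v * w = w * v := fun hv hw => w_comm hW hv hw
  set Q := Cfsg.pCore 2 G with hQ
  haveI hQn : Q.Normal := Cfsg.pCore_normal 2 G
  have hQp : IsPGroup 2 Q := CfsgLib.PCore.isPGroup_pCore 2 G
  have hQW : ∀ q ∈ Q, ∀ w ∈ W, w * q = q * w := by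
    have hWp : IsPGroup 2 W := fun a => ⟨1, Subtype.ext (by
      rw [pow_one, SubmonoidClass.coe_pow]; exact hW.2 a a.2)⟩
    set T := Q ⊔ W with hT
    have hTp : IsPGroup 2 T := hQp.to_sup_of_normal_left hWp
    haveI : Nontrivial T := Subgroup.nontrivial_iff_ne_bot _ |>.2 fun e => hW1 (le_bot_iff.1 (e ▸ le_sup_right))
    obtain ⟨z, hz⟩ := exists_prime_orderOf_dvd_card' (G := Subgroup.center T) 2 (by
      haveI := hTp.center_nontrivial
      obtain ⟨j, hj⟩ := IsPGroup.iff_card.1 (hTp.to_subgroup (Subgroup.center T))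
      rcases j with _ | j
      · exact absurd hj Finite.one_lt_card.ne'
      · exact hj ▸ dvd_pow_self 2 (Nat.succ_ne_zero j))
    have hzc : ∀ t ∈ T, t * ((z : T) : G) = ((z : T) : G) * t := fun t ht =>
      congrArg Subtype.val (Subgroup.mem_center_iff.1 z.2 ⟨t, ht⟩)
    have hzW : ((z : T) : G) ∈ W := by
      refine mem_of_sq hE hW hW4 ?_ fun w hw => hzc w (Subgroup.mem_sup_right hw)
      have := congrArg (fun a : Subgroup.center T => ((a : T) : G)) (hz ▸ pow_orderOf_eq_one z)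
      simpa [_root_.pow_two] using this
    set X := W ⊓ Subgroup.centralizer (T : Set G) with hX
    have hTd : ∀ t ∈ T, d⁻¹ * t * d ∈ T := by
      intro t ht
      obtain ⟨q, hq, w, hw, rfl⟩ := Subgroup.mem_sup_of_normal_left.1 ht
      rw [show d⁻¹ * (q * w) * d = (d⁻¹ * q * d⁻¹⁻¹) * (d⁻¹ * w * d) by group]
      exact mul_mem (Subgroup.mem_sup_left (hQn.conj_mem _ hq _))
        (Subgroup.mem_sup_right ((Subgroup.mem_normalizer_iff''.1 hdW w).1 hw))
    have hXW : X = W := Subgroup.eq_of_le_of_card_ge inf_le_left (by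
      rw [hW4, hinvW X inf_le_left ?_ ?_]
      · intro e
        have : ((z : T) : G) ∈ X := ⟨hzW, Subgroup.mem_centralizer_iff.2 fun t ht => hzc t ht⟩
        rw [e, Subgroup.mem_bot] at this
        rw [show z = 1 from Subtype.ext (Subtype.ext this), orderOf_one] at hz
        omega
      · rintro a ⟨haW, haC⟩
        refine ⟨hdW' a haW, Subgroup.mem_centralizer_iff.2 fun t ht => ?_⟩
        have h1 := Subgroup.mem_centralizer_iff.1 haC _ (hTd t ht)
        calc t * (d * a * d⁻¹) = d * (d⁻¹ * t * d * a) * d⁻¹ := by group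
          _ = d * (a * (d⁻¹ * t * d)) * d⁻¹ := by rw [h1]
          _ = d * a * d⁻¹ * t := by group)
    intro q hq w hw
    rw [← hXW] at hw
    exact (Subgroup.mem_centralizer_iff.1 hw.2 q (Subgroup.mem_sup_left hq)).symm
  have hWQ : W ≤ Q := fun w hw => hchar (Subgroup.mem_centralizer_iff.2 fun q hq => (hQW q hq w hw).symm)
  haveI hWn : W.Normal := ⟨fun w hw g => by
    refine mem_of_sq hE hW hW4 ?_ fun v hv => ?_
    · rw [show g * w * g⁻¹ * (g * w * g⁻¹) = g * (w * w) * g⁻¹ by group, w_sq hW hw, mul_one, mul_inv_cancel]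
    · exact hQW _ (hQn.conj_mem _ (hWQ hw) g) v hv⟩
  set C := Subgroup.centralizer (W : Set G) with hC
  have hCmem : ∀ {g : G}, g ∈ C ↔ ∀ w ∈ W, g * w * g⁻¹ = w := fun {g} =>
    Subgroup.mem_centralizer_iff.trans ⟨fun h w hw => mul_inv_eq_iff_eq_mul.2 (h w hw).symm,
      fun h w hw => (mul_inv_eq_iff_eq_mul.1 (h w hw)).symm⟩
  haveI hCn : C.Normal := ⟨fun c hc g => hCmem.2 fun w hw => by
    have h1 := hCmem.1 hc _ (hWn.conj_mem _ hw g⁻¹)
    rw [inv_inv] at h1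
    calc g * c * g⁻¹ * w * (g * c * g⁻¹)⁻¹ = g * (c * (g⁻¹ * w * g) * c⁻¹) * g⁻¹ := by group
      _ = g * (g⁻¹ * w * g) * g⁻¹ := by rw [h1]
      _ = w := by group⟩
  obtain ⟨g, hg⟩ := hsix
  set t := g ^ 3 with ht
  set e₀ := g ^ 2 with he₀
  have he₀3 : orderOf e₀ = 3 := by rw [he₀, orderOf_pow' _ two_ne_zero, hg]; rfl
  have ht2 : orderOf t = 2 := by rw [ht, orderOf_pow' _ three_ne_zero, hg]; rfl
  have hte : t * e₀ = e₀ * t := (Commute.pow_pow_self g 3 2).eq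
  have he₀3' : e₀ ^ 3 = 1 := he₀3 ▸ pow_orderOf_eq_one e₀
  have he₀C : e₀ ∈ C := by
    by_contra hnC
    have hfix : ∀ a ∈ W, a ≠ 1 → e₀ * a * e₀⁻¹ ≠ a := by
      intro a ha ha1 hfa
      refine hnC (hCmem.2 fun b hb => ?_)
      by_cases hb1 : b = 1
      · subst hb1; group
      by_cases hab : a = b
      · subst hab; exact hfa
      rcases w_cases hW hW4 ha hb ha1 hb1 hab (hWn.conj_mem _ hb e₀) with h | h | h | h
      · exact absurd (conj_eq_one_iff.1 h) hb1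
      · exact absurd (mul_left_cancel (mul_right_cancel (h.trans hfa.symm))).symm hab
      · exact h
      · exfalso
        refine ha1 (shift_eq_one he₀3' (x := b) (c := a) (by rw [h, hW1' ha hb]) hfa ⟨1, ?_⟩)
        rw [pow_one, pow_two, w_sq hW ha]
    have htC : t ∉ C := fun htC => by
      have htW : t ∈ W := mem_of_sq hE hW hW4 (by rw [← _root_.pow_two, ← ht2, pow_orderOf_eq_one])
        fun w hw => (mul_inv_eq_iff_eq_mul.1 (hCmem.1 htC w hw)).symm
      refine hfix t htW (fun e => ?_) (mul_inv_eq_iff_eq_mul.2 hte.symm)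
      rw [e, orderOf_one] at ht2; omega
    obtain ⟨⟨a, ha⟩, ha1'⟩ := W.ne_bot_iff_exists_ne_one.1 hW1
    have ha1 : a ≠ 1 := fun e => ha1' (Subtype.ext e)
    set b := e₀ * a * e₀⁻¹ with hb
    set c := e₀ * b * e₀⁻¹ with hc
    have hbW : b ∈ W := hWn.conj_mem _ ha _
    have hcW : c ∈ W := hWn.conj_mem _ hbW _
    have hab : a ≠ b := (hfix a ha ha1).symm
    have hca : e₀ * c * e₀⁻¹ = a := by
      rw [hc, hb, show e₀ * (e₀ * (e₀ * a * e₀⁻¹) * e₀⁻¹) * e₀⁻¹ = e₀ ^ 3 * a * (e₀ ^ 3)⁻¹ by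
        simp [pow_succ, mul_assoc], he₀3']
      simp
    have hb1 : b ≠ 1 := fun e => ha1 (conj_eq_one_iff.1 e)
    have hcb : c ≠ b := fun e => hfix b hbW hb1 e
    have hac : a ≠ c := fun e => hfix a ha ha1 (by rw [← e] at hca; exact hca)
    have hc1 : c ≠ 1 := fun e => hb1 (conj_eq_one_iff.1 e)
    have htt : ∀ w : G, t * (t * w * t⁻¹) * t⁻¹ = w := fun w => by
      have h2 : t * t = 1 := by rw [← _root_.pow_two, ← ht2, pow_orderOf_eq_one]
      rw [inv_eq_of_mul_eq_one_left h2, show t * (t * w * t) * t = t * t * w * (t * t) by group, h2]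
      simp
    have hct : ∀ w : G, t * (e₀ * w * e₀⁻¹) * t⁻¹ = e₀ * (t * w * t⁻¹) * e₀⁻¹ := fun w => by
      calc t * (e₀ * w * e₀⁻¹) * t⁻¹ = t * e₀ * w * (t * e₀)⁻¹ := by group
        _ = _ := by rw [hte]; group
    rcases w_cases hW hW4 ha hbW ha1 hb1 hab (hWn.conj_mem _ ha t) with h | h | h | h
    · exact ha1 (conj_eq_one_iff.1 h)
    · refine htC (hCmem.2 fun w hw => ?_)
      have hfb : t * b * t⁻¹ = b := by rw [hb, hct, h]
      rcases w_cases hW hW4 ha hbW ha1 hb1 hab hw with rfl | rfl | rfl | rfl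
      · group
      · exact h
      · exact hfb
      · rw [← conj_mul, h, hfb]
    · have h2 := htt a
      rw [h, hb, hct, h] at h2
      exact hac h2.symm
    · have h' : t * a * t⁻¹ = c := by
        rcases w_cases hW hW4 ha hbW ha1 hb1 hab hcW with h3 | h3 | h3 | h3
        · exact absurd h3 hc1
        · exact absurd h3.symm hac
        · exact absurd h3 hcb
        · exact h.trans h3.symm
      have h2 := htt a
      rw [h', hc, hct, hb, hct, h', hca] at h2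
      exact hab h2.symm
  obtain ⟨P, hdP⟩ := hd.exists_le_sylow
  obtain ⟨e, he3, heC, hec⟩ : ∃ e : G, orderOf e = 3 ∧ e ∈ C ∧ ∀ p ∈ (P : Subgroup G), p * e = e * p := by
    set N := C.subgroupOf (P : Subgroup G) with hN
    have hNne : N ≠ ⊥ := by
      intro hbot
      obtain ⟨k, hk⟩ := exists_conj_mem P (t := e₀) ⟨1, by rw [he₀3, pow_one]⟩
      have : (⟨_, hk⟩ : (P : Subgroup G)) ∈ N := hCn.conj_mem _ he₀C k
      rw [hbot, Subgroup.mem_bot] at this
      rw [conj_eq_one_iff.1 (congrArg Subtype.val this), orderOf_one] at he₀3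
      omega
    have hne := CfsgLib.PReduced.inf_center_ne_bot P.isPGroup' (N := N) hNne
    obtain ⟨z, hz⟩ := exists_prime_orderOf_dvd_card' (G := ↥(N ⊓ Subgroup.center (P : Subgroup G))) 3 (by
      obtain ⟨j, hj⟩ := IsPGroup.iff_card.1 (P.isPGroup'.to_subgroup (N ⊓ Subgroup.center (P : Subgroup G)))
      rcases j with _ | j
      · exact absurd (Subgroup.card_eq_one.1 hj) hne
      · exact hj ▸ dvd_pow_self 3 (Nat.succ_ne_zero j))
    refine ⟨((z : (P : Subgroup G)) : G), ?_, z.2.1, fun p hp =>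
      congrArg Subtype.val (Subgroup.mem_center_iff.1 z.2.2 ⟨p, hp⟩)⟩
    rw [Subgroup.orderOf_coe, Subgroup.orderOf_coe, hz]
  have hde : d * e = e * d := hec d (hdP (Subgroup.mem_zpowers d))
  have he3' : e ^ 3 = 1 := he3 ▸ pow_orderOf_eq_one e
  have he1 : e ≠ 1 := fun h => by rw [h, orderOf_one] at he3; omega
  have hQ1 : ¬ ∀ x ∈ Q, e * x * e⁻¹ = x := by
    intro h
    have heQ : e ∈ Q := hchar (Subgroup.mem_centralizer_iff.2 fun q hq => (mul_inv_eq_iff_eq_mul.1 (h q hq)).symm)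
    obtain ⟨j, hj⟩ := hQp ⟨e, heQ⟩
    have hj' : e ^ 2 ^ j = 1 := congrArg Subtype.val hj
    exact he1 (orderOf_eq_one_iff.1 (Nat.eq_one_of_dvd_coprimes
      (Nat.Coprime.pow_right j (by decide : Nat.Coprime 3 2)) he3.dvd (orderOf_dvd_of_pow_eq_one hj')))
  classical
  have hex : ∃ n, ∃ R : Subgroup G, R ≤ Q ∧ Inv d e R ∧ (¬ ∀ x ∈ R, e * x * e⁻¹ = x) ∧ Nat.card R = n :=
    ⟨_, Q, le_rfl, ⟨fun x hx => hQn.conj_mem x hx d, fun x hx => hQn.conj_mem x hx e⟩, hQ1, rfl⟩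
  obtain ⟨R, hRQ, hRi, hRne, hRn⟩ := Nat.find_spec hex
  have hmin : ∀ K ≤ R, K ≠ R → Inv d e K → ∀ x ∈ K, e * x * e⁻¹ = x := by
    intro K hK hne hi
    by_contra hnc
    exact hne (Subgroup.eq_of_le_of_card_ge hK (hRn ▸ Nat.find_min' hex ⟨K, hK.trans hRQ, hi, hnc, rfl⟩))
  have hRp : IsPGroup 2 R := hQp.to_le hRQ
  set L := Subgroup.closure {c : G | ∃ x ∈ R, c = x⁻¹ * (e * x * e⁻¹)} with hL
  have hLR : L ≤ R := (Subgroup.closure_le _).2 (by
    rintro _ ⟨x, hx, rfl⟩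
    exact mul_mem (inv_mem hx) (hRi.2 x hx))
  have hLeq : L = R := by
    by_contra hne
    have hconj : ∀ a : G, a * e = e * a → (∀ x ∈ R, a * x * a⁻¹ ∈ R) → ∀ c ∈ L, a * c * a⁻¹ ∈ L := by
      intro a hae haR
      have : L ≤ L.comap (MulAut.conj a).toMonoidHom := (Subgroup.closure_le _).2 (by
        rintro _ ⟨x, hx, rfl⟩
        refine Subgroup.subset_closure ⟨a * x * a⁻¹, haR x hx, ?_⟩
        show a * (x⁻¹ * (e * x * e⁻¹)) * a⁻¹ = _
        calc a * (x⁻¹ * (e * x * e⁻¹)) * a⁻¹ = a * x⁻¹ * a⁻¹ * ((a * e) * x * (a * e)⁻¹) := by group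
          _ = _ := by rw [hae]; group)
      exact this
    have hfix := hmin L hLR hne ⟨hconj d hde hRi.1, hconj e rfl hRi.2⟩
    refine hRne fun x hx => ?_
    have hc : x⁻¹ * (e * x * e⁻¹) ∈ L := Subgroup.subset_closure ⟨x, hx, rfl⟩
    obtain ⟨j, hj⟩ := hRp ⟨_, hLR hc⟩
    have := shift_eq_one he3' (x := x) (by group) (hfix _ hc) ⟨j, congrArg Subtype.val hj⟩
    rw [inv_mul_eq_one] at this
    exact this.symm
  set Φ := (frattini R).map R.subtype with hΦ
  have hΦR : Φ ≤ R := Subgroup.map_subtype_le _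
  have hnR : ∀ a : G, (∀ x ∈ R, a * x * a⁻¹ ∈ R) → a ∈ Subgroup.normalizer (R : Set G) :=
    fun a h => CfsgLib.QDWr.conj_mem_normalizer h
  have hΦi : ∀ a : G, (∀ x ∈ R, a * x * a⁻¹ ∈ R) → ∀ f ∈ Φ, a * f * a⁻¹ ∈ Φ := by
    rintro a ha _ ⟨f, hf, rfl⟩
    exact ⟨Subgroup.normalizerMonoidHom R ⟨a, hnR a ha⟩ f,
      Subgroup.characteristic_iff_map_le.1 frattini_characteristic _ ⟨f, hf, rfl⟩, rfl⟩
  have hR1 : R ≠ ⊥ := fun h => hRne fun x hx => by
    rw [h, Subgroup.mem_bot] at hx; subst hx; group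
  have hΦne : Φ ≠ R := by
    intro h
    have htop : frattini R = ⊤ := by
      rw [eq_top_iff]
      intro x _
      obtain ⟨y, hy, hyx⟩ : (x : G) ∈ Φ := by rw [h]; exact x.2
      rwa [← Subtype.ext hyx]
    haveI : Nontrivial R := (Subgroup.nontrivial_iff_ne_bot R).2 hR1
    obtain ⟨M, hM, -⟩ := (IsCoatomic.eq_top_or_exists_le_coatom (⊥ : Subgroup R)).resolve_left bot_ne_top
    refine hM.1 (top_le_iff.1 (htop ▸ ?_))
    rw [show frattini R = Order.radical (Subgroup R) from rfl, Order.radical]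
    exact iInf₂_le M hM
  have hΦfix : ∀ f ∈ Φ, e * f * e⁻¹ = f := hmin Φ hΦR hΦne ⟨hΦi d hRi.1, hΦi e hRi.2⟩
  have hΦc : ∀ r ∈ R, ∀ f ∈ Φ, f * r = r * f := by
    intro r hr f hf
    have hgen : L ≤ Subgroup.centralizer ({f} : Set G) := (Subgroup.closure_le _).2 (by
      rintro _ ⟨x, hx, rfl⟩
      refine Subgroup.mem_centralizer_iff.2 fun u hu => ?_
      rw [Set.mem_singleton_iff.1 hu]
      have h2 : x * f * x⁻¹ ∈ Φ := by
        obtain ⟨f', hf', rfl⟩ := hf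
        exact ⟨⟨x, hx⟩ * f' * ⟨x, hx⟩⁻¹, Subgroup.Normal.conj_mem inferInstance _ hf' _, rfl⟩
      have h3 : e * x * e⁻¹ * f * (e * x * e⁻¹)⁻¹ = x * f * x⁻¹ := by
        conv_lhs => rw [show f = e * f * e⁻¹ from (hΦfix f hf).symm]
        rw [← hΦfix _ h2]
        group
      calc f * (x⁻¹ * (e * x * e⁻¹)) = x⁻¹ * (x * f * x⁻¹) * (e * x * e⁻¹) := by group
        _ = x⁻¹ * (e * x * e⁻¹ * f * (e * x * e⁻¹)⁻¹) * (e * x * e⁻¹) := by rw [h3]
        _ = x⁻¹ * (e * x * e⁻¹) * f := by group)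
    exact Subgroup.mem_centralizer_iff.1 (hgen (hLeq ▸ hr)) f rfl
  have hsqΦ : ∀ x ∈ R, x * x ∈ Φ := fun x hx =>
    ⟨⟨x, hx⟩ ^ 2, CfsgLib.PGroup.pow_mem_frattini hRp _, by simp [_root_.pow_two]⟩
  have hcomΦ : ∀ x ∈ R, ∀ y ∈ R, x * y * x⁻¹ * y⁻¹ ∈ Φ := fun x hx y hy =>
    ⟨(⟨x, hx⟩ : R) * ⟨y, hy⟩ * (⟨x, hx⟩ : R)⁻¹ * (⟨y, hy⟩ : R)⁻¹, CfsgLib.PGroup.commutator_le_frattini hRp
      (Subgroup.commutator_mem_commutator (Subgroup.mem_top _) (Subgroup.mem_top _)), rfl⟩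
  have hRc : ∀ r ∈ R, ∀ w ∈ W, w * r = r * w := fun r hr => hQW r (hRQ hr)
  have hRW : ∀ x ∈ R, x * x = 1 → x ∈ W := fun x hx h2 => mem_of_sq hE hW hW4 h2 (hRc x hx)
  have hcom : ∀ x ∈ R, ∀ y ∈ R, x * y * x⁻¹ * y⁻¹ ∈ W := by
    intro x hx y hy
    have hc := hcomΦ x hx y hy
    refine hRW _ (hΦR hc) ?_
    have h3 := hΦc y hy _ (hsqΦ x hx)
    calc x * y * x⁻¹ * y⁻¹ * (x * y * x⁻¹ * y⁻¹)
        = x * ((x * y * x⁻¹ * y⁻¹) * y) * x⁻¹ * y⁻¹ := by
          rw [show x * y * x⁻¹ * y⁻¹ * (x * y * x⁻¹ * y⁻¹) = x * y * x⁻¹ * y⁻¹ * x * y * x⁻¹ * y⁻¹ by group,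
            hΦc x hx _ hc]
          group
      _ = x * x * y * (x * x)⁻¹ * y⁻¹ := by group
      _ = 1 := by rw [h3]; group
  have hsq2 : ∀ x ∈ R, ∀ y ∈ R, (x * y) * (x * y) * ((x * y) * (x * y)) = x * x * (x * x) * (y * y * (y * y)) := by
    intro x hx y hy
    set c := y * x * y⁻¹ * x⁻¹ with hcd
    have hc := hcom y hy x hx
    have e1 : (x * y) * (x * y) = c * (x * x) * (y * y) := by
      calc (x * y) * (x * y) = x * (c * x * y) * y := by rw [hcd]; group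
        _ = x * c * x * y * y := by group
        _ = c * x * x * y * y := by rw [← hRc x hx c hc]
        _ = _ := by group
    have a := hsqΦ x hx
    have b := hsqΦ y hy
    have hab : (y * y) * (x * x) = (x * x) * (y * y) := hΦc _ (hΦR a) _ b
    have hca : (x * x) * c = c * (x * x) := (hRc _ (hΦR a) c hc).symm
    have hcb : (y * y) * c = c * (y * y) := (hRc _ (hΦR b) c hc).symm
    rw [e1]
    calc c * (x * x) * (y * y) * (c * (x * x) * (y * y))
        = c * (x * x) * ((y * y) * c) * ((x * x) * (y * y)) := by group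
      _ = c * ((x * x) * c) * ((y * y) * (x * x)) * (y * y) := by rw [hcb]; group
      _ = c * c * (x * x * (x * x)) * (y * y * (y * y)) := by rw [hca, hab]; group
      _ = _ := by rw [w_sq hW hc, one_mul]
  let F : R →* R := MonoidHom.mk' (fun x => x * x * (x * x)) fun x y => Subtype.ext (hsq2 x x.2 y y.2)
  have hLker : ∀ {M : Type _} [Group M] (f : R →* M),
      (∀ x : R, ∀ hx : e * (x : G) * e⁻¹ ∈ R, f ⟨_, hx⟩ = f x) → ∀ x : R, f x = 1 := by
    intro M _ f hf x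
    have hle : L ≤ f.ker.map R.subtype := (Subgroup.closure_le _).2 (by
      rintro _ ⟨y, hy, rfl⟩
      refine ⟨⟨y, hy⟩⁻¹ * ⟨_, hRi.2 y hy⟩, ?_, rfl⟩
      rw [SetLike.mem_coe, MonoidHom.mem_ker, map_mul, map_inv, hf ⟨y, hy⟩ (hRi.2 y hy), inv_mul_cancel])
    obtain ⟨z, hz, hzx⟩ := hle (show (x : G) ∈ L by rw [hLeq]; exact x.2)
    rw [show x = z from Subtype.ext hzx.symm]
    exact MonoidHom.mem_ker.1 hz
  have hfour : ∀ x ∈ R, x * x * (x * x) = 1 := fun x hx =>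
    congrArg Subtype.val (hLker F (fun y hy => Subtype.ext (by
      show e * (y : G) * e⁻¹ * (e * (y : G) * e⁻¹) * (e * (y : G) * e⁻¹ * (e * (y : G) * e⁻¹)) = _
      rw [show e * (y : G) * e⁻¹ * (e * (y : G) * e⁻¹) = e * ((y : G) * y) * e⁻¹ by group,
        hΦfix _ (hsqΦ y y.2)]
      rfl)) ⟨x, hx⟩)
  have hsq : ∀ x ∈ R, x * x ∈ W := fun x hx => hRW _ (mul_mem hx hx) (hfour x hx)
  have hWR : W ≤ R := by
    obtain ⟨j, hj⟩ := IsPGroup.iff_card.1 hRp
    obtain ⟨z, hz⟩ := exists_prime_orderOf_dvd_card' (G := R) 2 (by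
      rcases j with _ | j
      · exact absurd (Subgroup.card_eq_one.1 hj) hR1
      · exact hj ▸ dvd_pow_self 2 (Nat.succ_ne_zero j))
    have hz2 : (z : G) * z = 1 := by
      rw [← _root_.pow_two, ← SubmonoidClass.coe_pow, ← hz, pow_orderOf_eq_one]; rfl
    have hne : W ⊓ R ≠ ⊥ := fun hbot => by
      have : (z : G) ∈ W ⊓ R := ⟨hRW _ z.2 hz2, z.2⟩
      rw [hbot, Subgroup.mem_bot] at this
      rw [show z = 1 from Subtype.ext this, orderOf_one] at hz
      exact absurd hz (by decide)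
    have hX := hinvW (W ⊓ R) inf_le_left hne fun x hx => ⟨hdW' x hx.1, hRi.1 x hx.2⟩
    rw [← Subgroup.eq_of_le_of_card_ge (inf_le_left : W ⊓ R ≤ W) (by omega)]
    exact inf_le_right
  have hew : ∀ w ∈ W, e * w * e⁻¹ = w := hCmem.1 heC
  -- fixed elements of `R` lie in `W`
  haveI : (W.subgroupOf R).Normal := Subgroup.Normal.comap hWn R.subtype
  have hqc : ∀ a b : R ⧸ W.subgroupOf R, a * b = b * a := by
    intro a b
    induction a using QuotientGroup.induction_on with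
    | H a =>
      induction b using QuotientGroup.induction_on with
      | H b =>
        rw [← QuotientGroup.mk_mul, ← QuotientGroup.mk_mul, QuotientGroup.eq]
        show ((a : G) * b)⁻¹ * ((b : G) * a) ∈ W
        have h1 := hcom _ (inv_mem b.2) _ (inv_mem a.2)
        rwa [show (b : G)⁻¹ * (a : G)⁻¹ * (b : G)⁻¹⁻¹ * (a : G)⁻¹⁻¹ = ((a : G) * b)⁻¹ * ((b : G) * a) by group] at h1
  have hfixW : ∀ x ∈ R, e * x * e⁻¹ = x → x ∈ W := by
    let σ : R →* R := MonoidHom.mk' (fun x => ⟨e * (x : G) * e⁻¹, hRi.2 x x.2⟩) fun x y =>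
      Subtype.ext (by simp [mul_assoc])
    let π := QuotientGroup.mk' (W.subgroupOf R)
    let N : R →* R ⧸ W.subgroupOf R := MonoidHom.mk' (fun x => π x * π (σ x) * π (σ (σ x))) fun x y => by
      simp only [map_mul]
      have m4 : ∀ a b c d : R ⧸ W.subgroupOf R, a * b * (c * d) = a * c * (b * d) := fun a b c d => by
        rw [mul_assoc, ← mul_assoc b, hqc b c, mul_assoc c, ← mul_assoc]
      rw [m4 (π x) (π y), m4 (π x * π (σ x)) (π y * π (σ y))]
    intro x hx hfx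
    have hσ : σ ⟨x, hx⟩ = ⟨x, hx⟩ := Subtype.ext hfx
    have h1 := hLker N (fun y hy => ?_) ⟨x, hx⟩
    · have h2 : π ⟨x, hx⟩ * π ⟨x, hx⟩ * π ⟨x, hx⟩ = 1 := by
        rw [MonoidHom.mk'_apply, hσ, hσ] at h1; exact h1
      rw [← map_mul, ← map_mul, QuotientGroup.mk'_apply, QuotientGroup.eq_one_iff, Subgroup.mem_subgroupOf] at h2
      have h3 : (x * x) * x ∈ W := h2
      have := mul_mem (inv_mem (hsq x hx)) h3
      rwa [inv_mul_cancel_left] at this
    · have hσ3 : σ (σ (σ y)) = y := Subtype.ext (by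
        show e * (e * (e * (y : G) * e⁻¹) * e⁻¹) * e⁻¹ = y
        rw [show e * (e * (e * (y : G) * e⁻¹) * e⁻¹) * e⁻¹ = e ^ 3 * y * (e ^ 3)⁻¹ by simp [pow_succ, mul_assoc], he3']
        simp)
      show π (σ y) * π (σ (σ y)) * π (σ (σ (σ y))) = π y * π (σ y) * π (σ (σ y))
      rw [hσ3, hqc _ (π y), ← mul_assoc]
  obtain ⟨j, hj⟩ := IsPGroup.iff_card.1 hRp
  by_cases hbig : 256 ≤ Nat.card R
  · exact false_of_large hE hW hW4 hWR hRc hsq hcom hbig
  -- orbits of a commutative 3-group on `R ∖ W`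
  have hR4 : 4 < Nat.card R := by
    refine lt_of_le_of_ne (hW4 ▸ Subgroup.card_le_of_le hWR) fun h => hRne fun x hx => ?_
    rw [← Subgroup.eq_of_le_of_card_ge hWR (by omega)] at hx
    exact hew x hx
  set A := Subgroup.closure ({d, e} : Set G) with hA
  haveI hAc : IsMulCommutative A := Subgroup.isMulCommutative_closure (by
    rintro a (rfl | rfl) b (rfl | rfl)
    exacts [rfl, hde, hde.symm, rfl])
  have hAp : IsPGroup 3 A := P.isPGroup'.to_le ((Subgroup.closure_le _).2 (by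
    rintro a (rfl | rfl)
    · exact hdP (Subgroup.mem_zpowers _)
    · by_contra heP
      have hcomm : ∀ p ∈ (P : Subgroup G), p * a = a * p := hec
      have hsup : IsPGroup 3 ↥((P : Subgroup G) ⊔ Subgroup.zpowers a) := by
        refine P.isPGroup'.to_sup_of_normal_left' ?_ ?_
        · exact IsPGroup.of_card (n := 1) (by rw [Nat.card_zpowers, he3, pow_one])
        · refine Subgroup.zpowers_le.2 (CfsgLib.QDWr.conj_mem_normalizer fun p hp => ?_)
          rwa [← hcomm p hp, mul_inv_cancel_right]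
      exact heP (P.is_maximal' hsup le_sup_left ▸ Subgroup.mem_sup_right (Subgroup.mem_zpowers a))))
  have hAn : A ≤ Subgroup.normalizer (R : Set G) := (Subgroup.closure_le _).2 (by
    rintro a (rfl | rfl)
    exacts [hnR _ hRi.1, hnR _ hRi.2])
  let X := {x : G // x ∈ R ∧ x ∉ W}
  letI : MulAction A X :=
    { smul := fun a x => ⟨(a : G) * x.1 * (a : G)⁻¹, (Subgroup.mem_normalizer_iff.1 (hAn a.2) _).1 x.2.1,
        fun h => x.2.2 (by
          have h' := hWn.conj_mem _ h (a : G)⁻¹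
          rwa [show (a : G)⁻¹ * ((a : G) * x.1 * (a : G)⁻¹) * (a : G)⁻¹⁻¹ = x.1 by group] at h')⟩
      one_smul := fun x => Subtype.ext (by show (1 : G) * x.1 * (1 : G)⁻¹ = x.1; group)
      mul_smul := fun a b x => Subtype.ext (by
        show (a : G) * b * x.1 * ((a : G) * b)⁻¹ = (a : G) * ((b : G) * x.1 * (b : G)⁻¹) * (a : G)⁻¹
        group) }
  have hX : ¬ 9 ∣ Nat.card X := by
    have h1 : Nat.card X = Nat.card R - 4 := by
      show Nat.card ↥((R : Set G) \ (W : Set G)) = _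
      rw [Nat.card_coe_set_eq, Set.ncard_sdiff (show (W : Set G) ⊆ R from hWR), ← Nat.card_coe_set_eq,
        ← Nat.card_coe_set_eq]
      show Nat.card R - Nat.card W = _
      rw [hW4]
    rw [h1, hj]
    rw [hj] at hR4 hbig
    have hj8 : j < 8 := by
      by_contra hge
      exact hbig (le_trans (by norm_num) (Nat.pow_le_pow_right two_pos (show 8 ≤ j by omega)))
    interval_cases j <;> omega
  obtain ⟨x, hx9⟩ : ∃ x : X, ¬ 9 ∣ Nat.card (MulAction.orbit A x) := by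
    by_contra hall
    push Not at hall
    refine hX ?_
    haveI : Fintype (Quotient (MulAction.orbitRel A X)) := Fintype.ofFinite _
    rw [Nat.card_congr (MulAction.selfEquivSigmaOrbits A X), Nat.card_sigma]
    exact Finset.dvd_sum fun ω _ => hall _
  have horb : Nat.card (MulAction.orbit A x) ≤ 3 := by
    obtain ⟨i, hi⟩ := IsPGroup.iff_card.1 hAp
    have h1 : Nat.card (MulAction.orbit A x) ∣ Nat.card A := by
      rw [Nat.card_coe_set_eq, ← MulAction.index_stabilizer]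
      exact Subgroup.index_dvd_card _
    obtain ⟨l, -, hl⟩ := (Nat.dvd_prime_pow Nat.prime_three).1 (hi ▸ h1)
    rw [hl] at hx9 ⊢
    have hl2 : l < 2 := by
      by_contra hge
      exact hx9 (show 3 ^ 2 ∣ 3 ^ l from pow_dvd_pow 3 (by omega))
    interval_cases l <;> simp
  have hd_mem : d ∈ A := Subgroup.subset_closure (by simp)
  have he_mem : e ∈ A := Subgroup.subset_closure (by simp)
  set ea : A := ⟨e, he_mem⟩
  have hxe : e * x.1 * e⁻¹ ≠ x.1 := fun h => x.2.2 (hfixW _ x.2.1 h)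
  have hxee : e * (e * x.1 * e⁻¹) * e⁻¹ ≠ x.1 := fun h => hxe (by
    conv_lhs => rw [← h]
    rw [show e * (e * (e * x.1 * e⁻¹) * e⁻¹) * e⁻¹ = e ^ 3 * x.1 * (e ^ 3)⁻¹ by simp [pow_succ, mul_assoc], he3']
    simp)
  have hne2 : e * x.1 * e⁻¹ ≠ e * (e * x.1 * e⁻¹) * e⁻¹ := fun h =>
    hxe (mul_left_cancel (mul_right_cancel h)).symm
  have hsub : ({x, ea • x, ea • ea • x} : Set X) ⊆ MulAction.orbit A x := by
    rintro y (rfl | rfl | rfl)
    exacts [MulAction.mem_orbit_self _, MulAction.mem_orbit _ _, ⟨ea * ea, mul_smul _ _ _⟩]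
  have h3 : ({x, ea • x, ea • ea • x} : Set X).ncard = 3 := Set.ncard_eq_three.2
    ⟨x, ea • x, ea • ea • x, fun h => hxe (congrArg Subtype.val h).symm,
      fun h => hxee (congrArg Subtype.val h).symm, fun h => hne2 (congrArg Subtype.val h), rfl⟩
  have heq := Set.eq_of_subset_of_ncard_le hsub (by rw [h3, ← Nat.card_coe_set_eq]; exact horb)
  have hdx : (⟨d, hd_mem⟩ : A) • x ∈ ({x, ea • x, ea • ea • x} : Set X) := heq ▸ MulAction.mem_orbit _ _
  have hsame : d * (x.1 * x.1) * d⁻¹ = x.1 * x.1 := by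
    have hw := hew _ (hsq _ x.2.1)
    have he' : e * x.1 * e⁻¹ * (e * x.1 * e⁻¹) = x.1 * x.1 := by
      rw [show e * x.1 * e⁻¹ * (e * x.1 * e⁻¹) = e * (x.1 * x.1) * e⁻¹ by group, hw]
    have he'' : e * (e * x.1 * e⁻¹) * e⁻¹ * (e * (e * x.1 * e⁻¹) * e⁻¹) = x.1 * x.1 := by
      rw [show e * (e * x.1 * e⁻¹) * e⁻¹ * (e * (e * x.1 * e⁻¹) * e⁻¹) =
        e * (e * (x.1 * x.1) * e⁻¹) * e⁻¹ by group, hw, hw]
    rw [show d * (x.1 * x.1) * d⁻¹ = d * x.1 * d⁻¹ * (d * x.1 * d⁻¹) by group]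
    rcases hdx with h | h | h <;> (have h' : d * x.1 * d⁻¹ = _ := congrArg Subtype.val h; rw [h'])
    · exact he'
    · exact he''
  exact x.2.2 (hRW _ x.2.1 (hdfix _ (hsq _ x.2.1) hsame))

end Cfsg.Agent.S3739
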