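import Cfsg.Statements.S3741
-- import your own Cfsg.Agent.* helpers here

set_option autoImplicit false
open Cfsg
open scoped commutatorElement

namespace Cfsg.Agent.S3741

theorem one_step {G : Type*} [Group G] [Finite G] (A B : Subgroup G) {b : G} (hb : b ∈ B) :
    (Subgroup.centralizer ({b} : Set G)).relIndex A ≤ Nat.card ↥⁅A, B⁆ := by
  set K := (Subgroup.centralizer ({b} : Set G)).subgroupOf A
  let f : ↥A ⧸ K → ↥⁅A, B⁆ := Quotient.lift
    (fun a => ⟨⁅(a : G), b⁆, Subgroup.commutator_mem_commutator a.2 hb⟩) fun g h hgh => by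
      have := Subgroup.mem_centralizer_singleton_iff.mp
        (Subgroup.mem_subgroupOf.mp (QuotientGroup.leftRel_apply.mp hgh))
      simp only [Subgroup.coe_mul, Subgroup.coe_inv] at this
      apply Subtype.ext
      show ⁅(g : G), b⁆ = ⁅(h : G), b⁆
      simp only [commutatorElement_def]
      congr 1
      calc (g : G) * b * (g : G)⁻¹ = g * (b * ((g : G)⁻¹ * h)) * (h : G)⁻¹ := by group
        _ = g * (((g : G)⁻¹ * h) * b) * (h : G)⁻¹ := by rw [this]
        _ = h * b * (h : G)⁻¹ := by group
  refine Nat.card_le_card_of_injective f ?_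
  intro x y
  induction x using QuotientGroup.induction_on with
  | H g =>
    induction y using QuotientGroup.induction_on with
    | H h =>
      intro hgh
      have h0 : ⁅(g : G), b⁆ = ⁅(h : G), b⁆ := congrArg Subtype.val hgh
      simp only [commutatorElement_def] at h0
      have h' := mul_right_cancel h0
      refine QuotientGroup.eq.mpr (Subgroup.mem_subgroupOf.mpr (Subgroup.mem_centralizer_singleton_iff.mpr ?_))
      simp only [Subgroup.coe_mul, Subgroup.coe_inv]
      calc (g : G)⁻¹ * h * b = (g : G)⁻¹ * ((h : G) * b * (h : G)⁻¹) * h := by group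
        _ = (g : G)⁻¹ * ((g : G) * b * (g : G)⁻¹) * h := by rw [h']
        _ = b * ((g : G)⁻¹ * h) := by group

theorem half {G : Type*} [Group G] [Finite G] {p : ℕ} [Fact p.Prime] (hG : IsPGroup p G) (A B : Subgroup G)
    (hcard : Nat.card ↥⁅A, B⁆ ≤ p) :
    (A ⊓ Subgroup.centralizer (B : Set G)).relIndex A ≤ (B ⊓ Subgroup.centralizer (A : Set G)).relIndex B := by
  have hp : p.Prime := Fact.out
  set C := B ⊓ Subgroup.centralizer (A : Set G)
  let P : Subgroup G → Prop := fun D => C ≤ D ∧ D ≤ B ∧
    (Subgroup.centralizer (D : Set G)).relIndex A * Nat.card C ≤ Nat.card D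
  have hC : P C := by
    refine ⟨le_rfl, inf_le_left, le_of_eq ?_⟩
    rw [Subgroup.relIndex_eq_one.mpr (Subgroup.le_centralizer_iff.mp inf_le_right), one_mul]
  obtain ⟨D, hD⟩ := (Set.toFinite {D | P D}).exists_maximal ⟨C, hC⟩
  obtain ⟨hCD, hDB, hineq⟩ := hD.prop
  have hDe : D = B := by
    by_contra hne
    obtain ⟨b, hb, hbD⟩ := SetLike.exists_of_lt (lt_of_le_of_ne hDB hne)
    have hPE : P (D ⊔ Subgroup.zpowers b) := by
      refine ⟨hCD.trans le_sup_left, sup_le hDB (Subgroup.zpowers_le.mpr hb), ?_⟩
      have hlt : D < D ⊔ Subgroup.zpowers b :=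
        lt_of_le_not_ge le_sup_left fun h => hbD (h (Subgroup.mem_sup_right (Subgroup.mem_zpowers b)))
      obtain ⟨i, hi⟩ := (hG.to_subgroup D).exists_card_eq
      obtain ⟨j, hj⟩ := (hG.to_subgroup (D ⊔ Subgroup.zpowers b : Subgroup G)).exists_card_eq
      have hij : i < j := by
        by_contra hcon
        exact hlt.ne (Subgroup.eq_of_le_of_card_ge hlt.le
          (by rw [hi, hj]; exact Nat.pow_le_pow_right hp.pos (by omega)))
      have hle : Subgroup.centralizer (D : Set G) ⊓ Subgroup.centralizer ({b} : Set G) ≤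
          Subgroup.centralizer ((D ⊔ Subgroup.zpowers b : Subgroup G) : Set G) := by
        intro g hg
        rw [Subgroup.mem_centralizer_iff]
        intro x hx
        have : D ⊔ Subgroup.zpowers b ≤ Subgroup.centralizer ({g} : Set G) := sup_le
          (fun d hd => Subgroup.mem_centralizer_singleton_iff.mpr (Subgroup.mem_centralizer_iff.mp hg.1 d hd))
          (Subgroup.zpowers_le.mpr (Subgroup.mem_centralizer_singleton_iff.mpr
            (Subgroup.mem_centralizer_singleton_iff.mp hg.2).symm))
        exact Subgroup.mem_centralizer_singleton_iff.mp (this hx)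
      have h1 : (Subgroup.centralizer ((D ⊔ Subgroup.zpowers b : Subgroup G) : Set G)).relIndex A ≤
          (Subgroup.centralizer (D : Set G)).relIndex A * p := by
        refine le_trans (Nat.le_of_dvd ?_ (Subgroup.relIndex_dvd_of_le_left A hle))
          (Subgroup.relIndex_inf_le.trans (Nat.mul_le_mul_left _ ((one_step A B hb).trans hcard)))
        exact Nat.pos_of_ne_zero Subgroup.index_ne_zero_of_finite
      calc _ ≤ (Subgroup.centralizer (D : Set G)).relIndex A * p * Nat.card C := Nat.mul_le_mul_right _ h1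
        _ = (Subgroup.centralizer (D : Set G)).relIndex A * Nat.card C * p := by ring
        _ ≤ Nat.card D * p := Nat.mul_le_mul_right _ hineq
        _ ≤ _ := by rw [hi, hj, ← pow_succ]; exact Nat.pow_le_pow_right hp.pos hij
    exact hbD (hD.2 hPE le_sup_left (Subgroup.mem_sup_right (Subgroup.mem_zpowers b)))
  subst hDe
  rw [Subgroup.inf_relIndex_left]
  have h2 : Nat.card C * C.relIndex D = Nat.card D := by
    rw [← Subgroup.relIndex_bot_left, ← Subgroup.relIndex_bot_left (H := D)]
    exact Subgroup.relIndex_mul_relIndex _ _ _ bot_le hCD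
  rw [← h2, mul_comm (Nat.card C)] at hineq
  exact Nat.le_of_mul_le_mul_right hineq Nat.card_pos

/-- Let A and B be subgroups of a finite p-group with [A, B] ≤ A ∩ B and [A, B] of order at most p. Then |A : C_A(B)| = |B : C_B(A)|. -/
theorem result {G : Type*} [Group G] [Finite G] {p : ℕ} [Fact p.Prime] (hG : IsPGroup p G) (A B : Subgroup G) (hAB : ⁅A, B⁆ ≤ A ⊓ B) (hcard : Nat.card ↥⁅A, B⁆ ≤ p) : (A ⊓ Subgroup.centralizer (B : Set G)).relIndex A = (B ⊓ Subgroup.centralizer (A : Set G)).relIndex B := by
  exact le_antisymm (half hG A B hcard) (half hG B A (Subgroup.commutator_comm B A ▸ hcard))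

end Cfsg.Agent.S3741
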