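import Cfsg.Statements.S3743
import Cfsg.Agent.Subnormal.BaerSuzuki

set_option autoImplicit false
open Cfsg

namespace Cfsg.Agent.S3743

/-- In a finite group G, every subnormal nilpotent subgroup lies in the Fitting subgroup F(G), and, for a set of primes π, every subnormal subgroup all of whose prime divisors lie in π lies in O_π(G). -/
theorem result {G : Type*} [Group G] [Finite G] (A : Subgroup G) (hA : A.IsSubnormal) : (Group.IsNilpotent A → A ≤ Cfsg.fittingSubgroup G) ∧ ∀ π : Set ℕ, (∀ p : ℕ, p.Prime → p ∣ Nat.card A → p ∈ π) → A ≤ Cfsg.piCore π G := by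
  exact ⟨fun h => CfsgLib.Subnormal.le_fitting_of_isSubnormal hA h, fun π h => CfsgLib.Subnormal.le_piCore_of_isSubnormal hA h⟩

end Cfsg.Agent.S3743
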