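import Cfsg.Statements.S3746
import Mathlib.Tactic
import Cfsg.Agent.Components.PCompInternal
import Cfsg.Agent.PCore.AxB

set_option autoImplicit false
open Cfsg
open scoped commutatorElement

namespace Cfsg.Agent.S3746

/-- Let Z ≤ Z(G) be a central subgroup of a finite group G and E a subgroup of G containing Z whose image E/Z is a component of G/Z (subnormal and quasisimple). Then the derived subgroup [E, E] is a component of G. -/
theorem result {G : Type*} [Group G] [Finite G] (Z : Subgroup G) (hZ : Z ≤ Subgroup.center G) [Z.Normal] (E : Subgroup G) (hZE : Z ≤ E) (hE : Cfsg.IsComponent (E.map (QuotientGroup.mk' Z))) : Cfsg.IsComponent ⁅E, E⁆ := by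
  have hEs : E.IsSubnormal := by
    have h := hE.1.comap (QuotientGroup.mk' Z)
    rwa [Subgroup.comap_map_eq, QuotientGroup.ker_mk', sup_eq_left.mpr hZE] at h
  have hDn : E ≤ Subgroup.normalizer ((⁅E, E⁆ : Subgroup G) : Set G) :=
    CfsgLib.PCore.le_normalizer_commutator Subgroup.le_normalizer Subgroup.le_normalizer
  set q := QuotientGroup.mk' Z with hq
  have hmap : (⁅E, E⁆).map q = E.map q := by
    rw [Subgroup.map_commutator]
    exact CfsgLib.Components.quasisimple_commutator hE.2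
  have hEZ : E ≤ ⁅E, E⁆ ⊔ Z := by
    intro e he
    have h : e ∈ ((⁅E, E⁆).map q).comap q := by
      rw [hmap]
      exact ⟨e, he, rfl⟩
    rwa [Subgroup.comap_map_eq, QuotientGroup.ker_mk'] at h
  have hperf : ⁅⁅E, E⁆, ⁅E, E⁆⁆ = ⁅E, E⁆ := by
    refine le_antisymm (Subgroup.commutator_le_self _) (Subgroup.commutator_le.mpr fun a ha b hb => ?_)
    obtain ⟨a', ha', z, hz, rfl⟩ := Subgroup.mem_sup_of_normal_right.mp (hEZ ha)
    obtain ⟨b', hb', w, hw, rfl⟩ := Subgroup.mem_sup_of_normal_right.mp (hEZ hb)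
    have cz : ∀ g : G, g * z = z * g := Subgroup.mem_center_iff.mp (hZ hz)
    have cw : ∀ g : G, g * w = w * g := Subgroup.mem_center_iff.mp (hZ hw)
    have e1 : ⁅a' * z, b' * w⁆ = ⁅a', b'⁆ := by
      rw [commutatorElement_def, commutatorElement_def]
      calc a' * z * (b' * w) * (a' * z)⁻¹ * (b' * w)⁻¹ = a' * (z * (b' * w)) * z⁻¹ * a'⁻¹ * w⁻¹ * b'⁻¹ := by group
        _ = a' * b' * (w * a'⁻¹) * w⁻¹ * b'⁻¹ := by rw [← cz]; group
        _ = a' * b' * a'⁻¹ * b'⁻¹ := by rw [← cw]; group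
    rw [e1]
    exact Subgroup.commutator_mem_commutator ha' hb'
  refine ⟨CfsgLib.Components.subnormal_of_normal_le (Subgroup.commutator_le_self E) hDn hEs, ?_⟩
  haveI : Group.IsPerfect ↥(⁅E, E⁆ : Subgroup G) := Subgroup.isPerfect_iff.mpr hperf
  obtain ⟨e⟩ := CfsgLib.Components.quotient_subgroupOf_equiv_map Z ⁅E, E⁆
  refine CfsgLib.Components.isQuasisimple_of_central (N := Z.subgroupOf ⁅E, E⁆) (fun z hz =>
    Subgroup.mem_center_iff.mpr fun g => Subtype.ext (Subgroup.mem_center_iff.mp (hZ hz) g.1))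
    (CfsgLib.IsoInv.isQuasisimple_of_equiv ((MulEquiv.subgroupCongr hmap).symm.trans e.symm) hE.2)

end Cfsg.Agent.S3746
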