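import Cfsg.Statements.S3747
import Mathlib.Tactic
import Cfsg.Agent.Components.Basic

set_option autoImplicit false
open Cfsg
open scoped commutatorElement

namespace Cfsg.Agent.S3747

/-- Let G be a finite group. (a) If K is a component of G with trivial centre, then the normal closure of K in G is a minimal normal subgroup of G. (b) If the Fitting subgroup of G is trivial, then the layer E(G) is generated by the minimal normal subgroups of G. -/
theorem result {G : Type*} [Group G] [Finite G] : (∀ K : Subgroup G, Cfsg.IsComponent K → Subgroup.center ↥K = ⊥ → (Subgroup.normalClosure (K : Set G) ≠ ⊥ ∧ ∀ N : Subgroup G, N.Normal → N ≤ Subgroup.normalClosure (K : Set G) → N = ⊥ ∨ N = Subgroup.normalClosure (K : Set G))) ∧ (Cfsg.fittingSubgroup G = ⊥ → sSup {N : Subgroup G | N ≠ ⊥ ∧ N.Normal ∧ ∀ N' : Subgroup G, N'.Normal → N' ≤ N → N' = ⊥ ∨ N' = N} = Cfsg.layer G) := by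
  classical
  let P : Subgroup G → Prop := fun L => ∀ l ∈ L, l ∈ Subgroup.centralizer (L : Set G) → l = 1
  have partA : ∀ K : Subgroup G, Cfsg.IsComponent K → P K → (Subgroup.normalClosure (K : Set G) ≠ ⊥ ∧
      ∀ N : Subgroup G, N.Normal → N ≤ Subgroup.normalClosure (K : Set G) → N = ⊥ ∨ N = Subgroup.normalClosure (K : Set G)) := by
    intro K hK hPK
    haveI := CfsgLib.Components.quasisimple_nontrivial hK.2
    refine ⟨fun h => (Subgroup.nontrivial_iff_ne_bot K).mp inferInstance (le_bot_iff.mp (h ▸ Subgroup.le_normalClosure)),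
      fun N hN hNM => ?_⟩
    rcases CfsgLib.Components.component_normal_or_commute hK hN with h | h
    · exact Or.inr (le_antisymm hNM (Subgroup.normalClosure_le_normal h))
    left
    have hNK : K ≤ Subgroup.centralizer (N : Set G) := Subgroup.commutator_eq_bot_iff_le_centralizer.mp h
    have := Fintype.ofFinite {L : Subgroup G // Cfsg.IsComponent L ∧ P L}
    have key : ∀ s : Finset {L : Subgroup G // Cfsg.IsComponent L ∧ P L}, ∀ x ∈ s.sup (fun L => (L : Subgroup G)),
        (∀ L ∈ s, x ∈ Subgroup.centralizer ((L : Subgroup G) : Set G)) → x = 1 := by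
      intro s
      induction s using Finset.induction_on with
      | empty =>
        intro x hx _
        rwa [Finset.sup_empty, Subgroup.mem_bot] at hx
      | insert L s hLs ih =>
        intro x hx hall
        rw [Finset.sup_insert] at hx
        have hcomm : s.sup (fun L => (L : Subgroup G)) ≤ Subgroup.centralizer ((L : Subgroup G) : Set G) :=
          Finset.sup_le fun M hM => Subgroup.commutator_eq_bot_iff_le_centralizer.mp
            (CfsgLib.Components.components_commute M.2.1 L.2.1 fun h => hLs (Subtype.ext h ▸ hM))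
        have hcomm' := Subgroup.le_centralizer_iff.mp hcomm
        have hx' : x ∈ (((L : Subgroup G) ⊔ s.sup (fun L => (L : Subgroup G)) : Subgroup G) : Set G) := hx
        rw [Subgroup.coe_mul_of_left_le_normalizer_right _ _
          (hcomm'.trans (Subgroup.centralizer_le_normalizer _))] at hx'
        obtain ⟨l, hl, m, hm, rfl⟩ := Set.mem_mul.mp hx'
        have hl1 : l = 1 := L.2.2 l hl
          ((Subgroup.mul_mem_cancel_right _ (hcomm hm)).mp (hall L (Finset.mem_insert_self _ _)))
        rw [hl1, one_mul]
        refine ih m hm fun M hM => ?_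
        have := hall M (Finset.mem_insert_of_mem hM)
        rwa [hl1, one_mul] at this
    have hconj : ∀ g : G, Cfsg.IsComponent (K.map (MulAut.conj g).toMonoidHom) ∧ P (K.map (MulAut.conj g).toMonoidHom) := by
      refine fun g => ⟨CfsgLib.Components.isComponent_conj hK g, ?_⟩
      rintro _ ⟨k, hk, rfl⟩ hkc
      rw [hPK k hk (Subgroup.mem_centralizer_iff.mpr fun y hy => (MulAut.conj g).injective ?_)]
      · exact map_one _
      · rw [map_mul, map_mul]
        exact Subgroup.mem_centralizer_iff.mp hkc _ ⟨y, hy, rfl⟩
    have hM : Subgroup.normalClosure (K : Set G) ≤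
        (Finset.univ : Finset {L : Subgroup G // Cfsg.IsComponent L ∧ P L}).sup (fun L => (L : Subgroup G)) := by
      show Subgroup.closure _ ≤ _
      rw [Subgroup.closure_le]
      intro x hx
      obtain ⟨a, ha, hax⟩ := Group.mem_conjugatesOfSet_iff.mp hx
      obtain ⟨c, rfl⟩ := isConj_iff.mp hax
      exact Finset.le_sup (f := fun L : {L : Subgroup G // Cfsg.IsComponent L ∧ P L} => (L : Subgroup G))
        (Finset.mem_univ ⟨_, hconj c⟩) ⟨a, ha, rfl⟩
    rw [eq_bot_iff]
    intro x hx
    refine Subgroup.mem_bot.mpr (key Finset.univ x (hM (hNM hx)) fun L _ => ?_)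
    rcases CfsgLib.Components.component_normal_or_commute L.2.1 hN with h' | h'
    · exfalso
      have hLC : (L : Subgroup G) ≤ Subgroup.centralizer (N : Set G) := by
        haveI : (Subgroup.centralizer (N : Set G)).Normal := Subgroup.normal_centralizer
        exact h'.trans (hNM.trans (Subgroup.normalClosure_le_normal hNK))
      haveI := CfsgLib.Components.quasisimple_nontrivial L.2.1.2
      exact (Subgroup.nontrivial_iff_ne_bot _).mp inferInstance (eq_bot_iff.mpr fun y hy =>
        Subgroup.mem_bot.mpr (L.2.2 y hy (Subgroup.centralizer_le h' (hLC hy))))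
    · exact Subgroup.le_centralizer_iff.mp (Subgroup.commutator_eq_bot_iff_le_centralizer.mp h') hx
  refine ⟨fun K hK hc => partA K hK fun l hl hlc => ?_, fun hF => ?_⟩
  · have : (⟨l, hl⟩ : ↥K) ∈ Subgroup.center ↥K :=
      Subgroup.mem_center_iff.mpr fun y => Subtype.ext (Subgroup.mem_centralizer_iff.mp hlc y y.2)
    rw [hc, Subgroup.mem_bot] at this
    exact congrArg Subtype.val this
  refine le_antisymm (sSup_le ?_) (sSup_le fun K hK => ?_)
  · rintro N ⟨hne, hN, hmin⟩
    haveI := CfsgLib.Components.layer_normal (G := G)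
    rcases hmin (N ⊓ Cfsg.layer G) inferInstance inf_le_left with h | h
    · exfalso
      have hGF : Cfsg.generalizedFittingSubgroup G = Cfsg.layer G := by
        rw [Cfsg.generalizedFittingSubgroup, hF, sup_bot_eq]
      have hdis : N ≤ Subgroup.centralizer (Cfsg.layer G : Set G) := by
        rw [← Subgroup.commutator_eq_bot_iff_le_centralizer, eq_bot_iff, ← h]
        exact le_inf (Subgroup.commutator_le_left _ _) (Subgroup.commutator_le_right _ _)
      rw [← hGF] at hdis
      have := hdis.trans CfsgLib.Components.centralizer_generalizedFittingSubgroup_le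
      rw [hGF] at this
      exact hne (by rw [← h]; exact (inf_eq_left.mpr this).symm)
    · exact inf_eq_left.mp h
  · have hPK : P K := by
      intro l hl hlc
      have hmem : (⟨l, hl⟩ : ↥K) ∈ Subgroup.center ↥K :=
        Subgroup.mem_center_iff.mpr fun y => Subtype.ext (Subgroup.mem_centralizer_iff.mp hlc y y.2)
      have hsub := CfsgLib.Components.subnormal_map_subtype
        (H := Subgroup.center ↥K) (inferInstance : (Subgroup.center ↥K).Normal).isSubnormal hK.1
      have hnil : Group.IsNilpotent ↥((Subgroup.center ↥K).map K.subtype) :=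
        haveI : Group.IsNilpotent ↥(Subgroup.center ↥K) :=
          @CommGroup.isNilpotent _ { (inferInstance : Group ↥(Subgroup.center ↥K)) with mul_comm := mul_comm' }
        Group.nilpotent_of_mulEquiv ((Subgroup.center ↥K).equivMapOfInjective K.subtype K.subtype_injective)
      have h1 : l ∈ Cfsg.fittingSubgroup G :=
        CfsgLib.Components.subnormal_le_fittingSubgroup hsub hnil ⟨_, hmem, rfl⟩
      rwa [hF, Subgroup.mem_bot] at h1
    obtain ⟨h1, h2⟩ := partA K hK hPK
    exact Subgroup.le_normalClosure.trans (le_sSup ⟨h1, Subgroup.normalClosure_normal, h2⟩)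

end Cfsg.Agent.S3747
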