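import Cfsg.Statements.S3748
import Cfsg.Agent.Subnormal.Basic
import Cfsg.Agent.Subnormal.BaerSuzuki
import Cfsg.Agent.Components.Cores
-- import your own Cfsg.Agent.* helpers here

set_option autoImplicit false
open Cfsg

namespace Cfsg.Agent.S3748

/-- Call a proper subgroup M of G primitive when M = N_G(N) for every non-trivial normal subgroup N of M. If M is a primitive subgroup of the finite group G, then no non-trivial subnormal subgroup of G is contained in M; in particular M ∩ F(G) = 1. -/
theorem result {G : Type*} [Group G] [Finite G] (M : Subgroup G) (hM : M ≠ ⊤) (hprim : ∀ N : Subgroup G, N ≤ M → M ≤ Subgroup.normalizer (N : Set G) → N ≠ ⊥ → Subgroup.normalizer (N : Set G) = M) : (∀ L : Subgroup G, L.IsSubnormal → L ≤ M → L = ⊥) ∧ M ⊓ Cfsg.fittingSubgroup G = ⊥ := by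
  have key : ∀ L : Subgroup G, L.IsSubnormal → L ≤ M → L = ⊥ := by
    intro L hL hLM
    by_contra hne
    set U := sSup {S : Subgroup G | S.IsSubnormal ∧ S ≤ M} with hU
    have hUs : U.IsSubnormal := CfsgLib.Subnormal.isSubnormal_sSup _ fun S hS => hS.1
    have hUM : U ≤ M := sSup_le fun S hS => hS.2
    have hMU : M ≤ Subgroup.normalizer (U : Set G) := fun m hm => by
      refine Subgroup.mem_normalizer_fintype fun u hu => ?_
      have h : U.map (MulAut.conj m).toMonoidHom ≤ U := le_sSup ⟨CfsgLib.Subnormal.isSubnormal_conj hUs m, by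
        rintro _ ⟨v, hv, rfl⟩
        exact M.mul_mem (M.mul_mem hm (hUM hv)) (M.inv_mem hm)⟩
      exact h ⟨u, hu, rfl⟩
    have hN := hprim U hUM hMU fun h => hne (eq_bot_iff.mpr ((le_sSup ⟨hL, hLM⟩ : L ≤ U).trans h.le))
    have hUn : ¬ U.Normal := fun h => hM (hN.symm.trans (Subgroup.normalizer_eq_top_iff.mpr h))
    obtain ⟨x, hx, hxN⟩ := CfsgLib.Subnormal.exists_conj_le_normalizer hUs hUn
    refine hx (Subgroup.eq_of_le_of_card_ge (le_sSup ⟨CfsgLib.Subnormal.isSubnormal_conj hUs x, hxN.trans hN.le⟩) ?_)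
    exact (Subgroup.card_map_of_injective (MulAut.conj x).injective).ge
  refine ⟨key, key _ ?_ inf_le_left⟩
  haveI : Group.IsNilpotent (Cfsg.fittingSubgroup G) := CfsgLib.Components.fittingSubgroup_isNilpotent
  exact Subgroup.IsSubnormal.trans inf_le_right (CfsgLib.Subnormal.isSubnormal_of_nilpotent _)
    (Subgroup.sSup_normal _ fun _ h => h.1).isSubnormal

end Cfsg.Agent.S3748
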