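import Cfsg.Statements.S3749
import Mathlib
import Cfsg.Agent.CoprimeAction.Invariant
import Cfsg.Agent.PCore.Basic

set_option autoImplicit false
open Cfsg

namespace Cfsg.Agent.S3749

/-- Call a proper subgroup M of G primitive when M = N_G(N) for every non-trivial normal subgroup N of M. Let M be a primitive subgroup of the finite group G, p a prime with O_p(M) ≠ 1, and N a normal subgroup of G with M ∩ N = 1. Then p does not divide the order of N; for every prime q there is exactly one Sylow q-subgroup of N normalized by M; and if the order of N has at least two prime divisors then M is not a maximal subgroup of G. -/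
theorem result {G : Type*} [Group G] [Finite G] (M : Subgroup G) (hM : M ≠ ⊤) (hprim : ∀ N : Subgroup G, N ≤ M → M ≤ Subgroup.normalizer (N : Set G) → N ≠ ⊥ → Subgroup.normalizer (N : Set G) = M) {p : ℕ} [Fact p.Prime] (hOp : Cfsg.pCore p ↥M ≠ ⊥) (N : Subgroup G) [N.Normal] (hMN : M ⊓ N = ⊥) : ¬ p ∣ Nat.card N ∧ (∀ q : ℕ, [Fact q.Prime] → ∃! Q : Sylow q ↥N, M ≤ Subgroup.normalizer ((Q : Subgroup ↥N).map N.subtype : Set G)) ∧ ((∃ q r : ℕ, q.Prime ∧ r.Prime ∧ q ≠ r ∧ q ∣ Nat.card N ∧ r ∣ Nat.card N) → ¬ IsCoatom M) := by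
  classical
  open scoped Pointwise in
  set P : Subgroup G := (Cfsg.pCore p ↥M).map M.subtype with hPdef
  have hpn : (Cfsg.pCore p ↥M).Normal :=
    @Subgroup.normal_of_characteristic _ _ _ (CfsgLib.PCore.pCore_characteristic p ↥M)
  have hPM : P ≤ M := Subgroup.map_subtype_le _
  have hMP : M ≤ Subgroup.normalizer (P : Set G) := by
    intro m hm
    rw [Subgroup.mem_normalizer_iff]
    intro x
    constructor
    · rintro ⟨y, hy, rfl⟩
      exact ⟨⟨m, hm⟩ * y * (⟨m, hm⟩ : M)⁻¹, hpn.conj_mem y hy _, rfl⟩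
    · rintro ⟨y, hy, hyx⟩
      refine ⟨(⟨m, hm⟩ : M)⁻¹ * y * ⟨m, hm⟩, by simpa using hpn.conj_mem y hy (⟨m, hm⟩ : M)⁻¹, ?_⟩
      have hyx' : (y : G) = m * x * m⁻¹ := hyx
      simp [hyx', mul_assoc]
  have hPne : P ≠ ⊥ := by
    rw [hPdef, Ne, Subgroup.map_eq_bot_iff_of_injective _ M.subtype_injective]; exact hOp
  have hNP : Subgroup.normalizer (P : Set G) = M := hprim P hPM hMP hPne
  have hPp : IsPGroup p P := (CfsgLib.PCore.isPGroup_pCore p ↥M).map M.subtype
  have hsep : ∀ m ∈ M, m ∈ N → m = 1 := fun m h1 h2 =>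
    (Subgroup.eq_bot_iff_forall _).1 hMN m ⟨h1, h2⟩
  -- `p` does not divide `|N|`
  have hpN : ¬ p ∣ Nat.card N := by
    intro hd
    obtain ⟨n, hn⟩ := exists_prime_orderOf_dvd_card' (G := N) p hd
    have hPW : P ≤ P ⊔ N := le_sup_left
    obtain ⟨S, hS⟩ := (hPp.of_equiv (Subgroup.subgroupOfEquivOfLe hPW).symm).exists_le_sylow
    set S' := (S : Subgroup ↥(P ⊔ N)).map (P ⊔ N).subtype with hS'def
    have hPS : P ≤ S' := fun x hx => ⟨⟨x, hPW hx⟩, hS (by simpa [Subgroup.mem_subgroupOf] using hx), rfl⟩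
    have hSeq : S' = P := by
      by_contra hne
      have hS'p : IsPGroup p S' := S.2.map _
      have : Group.IsNilpotent S' := hS'p.isNilpotent
      have hlt : P.subgroupOf S' < ⊤ := lt_top_iff_ne_top.2 (fun h =>
        hne (le_antisymm (Subgroup.subgroupOf_eq_top.1 h) hPS))
      obtain ⟨x, hxn, hxP⟩ := SetLike.exists_of_lt (Group.normalizerCondition_of_isNilpotent _ hlt)
      rw [← Subgroup.subgroupOf_normalizer_eq hPS, Subgroup.mem_subgroupOf, hNP] at hxn
      obtain ⟨⟨z, hz⟩, -, hzx⟩ := x.2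
      obtain ⟨y, hy, k, hk, hyk⟩ := Subgroup.mem_sup_of_normal_right.1 hz
      have hzx' : z = (x : G) := hzx
      have hkM : k ∈ M := by
        have := M.mul_mem (M.inv_mem (hPM hy)) (hzx' ▸ hxn : z ∈ M)
        rwa [← hyk, inv_mul_cancel_left] at this
      rw [hsep k hkM hk, mul_one] at hyk
      exact hxP (by rw [Subgroup.mem_subgroupOf, ← hzx', ← hyk]; exact hy)
    let n' : ↥(P ⊔ N) := ⟨n, (le_sup_right : N ≤ P ⊔ N) n.2⟩
    have hn' : orderOf n' = p := by
      rw [← Subgroup.orderOf_coe, Subgroup.orderOf_coe n, hn]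
    have hzp : IsPGroup p (Subgroup.zpowers n') :=
      IsPGroup.of_card (n := 1) (by rw [Nat.card_zpowers, hn', pow_one])
    obtain ⟨S2, hS2⟩ := hzp.exists_le_sylow
    obtain ⟨g, hg⟩ := MulAction.exists_smul_eq ↥(P ⊔ N) S2 S
    have hmem : g * n' * g⁻¹ ∈ (S : Subgroup ↥(P ⊔ N)) := by
      rw [← hg, Sylow.coe_subgroup_smul]
      exact ⟨n', hS2 (Subgroup.mem_zpowers n'), by simp⟩
    have h1 : ((g * n' * g⁻¹ : ↥(P ⊔ N)) : G) ∈ P :=
      hSeq.le (Subgroup.mem_map.2 ⟨_, hmem, rfl⟩)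
    have h2 : (g : G) * n * (g : G)⁻¹ ∈ N := Subgroup.Normal.conj_mem inferInstance _ n.2 _
    have h3 := hsep _ (hPM h1) h2
    have : n = 1 := Subtype.ext (conj_eq_one_iff.1 h3)
    rw [this, orderOf_one] at hn
    exact (Fact.out : p.Prime).ne_one hn.symm
  -- coprime action
  have hcop : (Nat.card P).Coprime (Nat.card N) := by
    obtain ⟨k, hk⟩ := hPp.exists_card_eq
    rw [hk]
    exact Nat.Coprime.pow_left _ ((Fact.out : p.Prime).coprime_iff_not_dvd.2 hpN)
  have hsolv : Group.IsSolvable P := by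
    have := hPp.isNilpotent
    infer_instance
  have hAK : P ≤ Subgroup.normalizer (N : Set G) := by
    rw [Subgroup.normalizer_eq_top]; exact le_top
  have huniq : ∀ (q : ℕ) [Fact q.Prime], ∀ Q R : Sylow q ↥N,
      P ≤ Subgroup.normalizer ((Q : Subgroup ↥N).map N.subtype : Set G) →
      P ≤ Subgroup.normalizer ((R : Subgroup ↥N).map N.subtype : Set G) → Q = R := by
    intro q _ Q R hQ hR
    obtain ⟨c, hc, rfl⟩ :=
      CfsgLib.CoprimeAction.invariant_sylow_conj hAK hcop (Or.inl hsolv) Q R hQ hR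
    have : c = 1 := Subtype.ext (hsep _ (hNP.le (Subgroup.centralizer_le_normalizer _ hc)) c.2)
    rw [this, one_smul]
  have hex : ∀ (q : ℕ) [Fact q.Prime], ∃! Q : Sylow q ↥N,
      M ≤ Subgroup.normalizer ((Q : Subgroup ↥N).map N.subtype : Set G) := by
    intro q hq
    obtain ⟨Q, hQ⟩ := CfsgLib.CoprimeAction.exists_invariant_sylow hAK hcop (Or.inl hsolv) q
    refine ⟨Q, ?_, fun R hR => huniq q R Q (hPM.trans hR) hQ⟩
    refine CfsgLib.CoprimeAction.le_normalizer_of_conj_eq (fun m hm => ?_)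
    set Qm := MulAut.conj m • (Q : Subgroup ↥N).map N.subtype with hQm
    have hle : Qm ≤ N := by
      intro x hx
      rw [hQm, CfsgLib.CoprimeAction.mem_conj_smul] at hx
      have := Subgroup.Normal.conj_mem (inferInstance : N.Normal) _ (Subgroup.map_subtype_le _ hx) m
      simpa [mul_assoc] using this
    obtain ⟨R, hR⟩ := CfsgLib.CoprimeAction.exists_sylow_map (p := q) hle
      (by rw [hQm, CfsgLib.CoprimeAction.card_conj_smul, CfsgLib.CoprimeAction.card_sylow_map])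
    have hRP : P ≤ Subgroup.normalizer ((R : Subgroup ↥N).map N.subtype : Set G) := by
      rw [hR]
      refine CfsgLib.CoprimeAction.le_normalizer_of_conj_eq (fun a ha => ?_)
      have ha' : m⁻¹ * a * m ∈ P := (Subgroup.mem_normalizer_iff''.1 (hMP hm) a).1 ha
      rw [hQm, smul_smul, ← map_mul, show a * m = m * (m⁻¹ * a * m) by group, map_mul, ← smul_smul,
        CfsgLib.CoprimeAction.map_conj_eq (hQ ha')]
    rw [← hR, huniq q R Q hRP hQ]
  refine ⟨hpN, hex, ?_⟩
  rintro ⟨q, r, hq, hr, hqr, hqN, hrN⟩ hco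
  have := Fact.mk hq
  obtain ⟨Q, hQ, -⟩ := hex q
  set Q' := (Q : Subgroup ↥N).map N.subtype with hQ'def
  have hQ'N : Q' ≤ N := Subgroup.map_subtype_le _
  have hQ'ne : Q' ≠ ⊥ := by
    rw [hQ'def, Ne, Subgroup.map_eq_bot_iff_of_injective _ N.subtype_injective]
    exact Q.ne_bot_of_dvd_card hqN
  have hlt : M < M ⊔ Q' := by
    refine lt_of_le_of_ne le_sup_left (fun h => hQ'ne ((Subgroup.eq_bot_iff_forall _).2 ?_))
    exact fun x hx => hsep x (h ▸ (le_sup_right : Q' ≤ M ⊔ Q') hx) (hQ'N hx)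
  have htop := hco.2 _ hlt
  have hNQ : N ≤ Q' := by
    intro x hx
    have hx' : x ∈ ((M ⊔ Q' : Subgroup G) : Set G) := htop ▸ Subgroup.mem_top x
    rw [Subgroup.coe_mul_of_left_le_normalizer_right _ _ hQ] at hx'
    obtain ⟨a, ha, b, hb, rfl⟩ := hx'
    have haN : a ∈ N := by
      have := N.mul_mem hx (N.inv_mem (hQ'N hb))
      simpa using this
    simpa [hsep a ha haN] using hb
  have hNp : IsPGroup q N := (Q.2.map N.subtype).to_le hNQ
  obtain ⟨k, hk⟩ := hNp.exists_card_eq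
  exact hqr ((Nat.prime_dvd_prime_iff_eq hr hq).1 (hr.dvd_of_dvd_pow (hk ▸ hrN))).symm

end Cfsg.Agent.S3749
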