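import Cfsg.Statements.S3750
import Mathlib
import Cfsg.Agent.Components.Basic

set_option autoImplicit false
open Cfsg

namespace Cfsg.Agent.S3750

/-- Call a proper subgroup M of G primitive when M = N_G(N) for every non-trivial normal subgroup N of M. Let M be a primitive subgroup of the finite group G and N a normal subgroup of G with M ∩ F*(N) ≠ 1. Then F(G) = 1 and F*(N) = F*(G) = E(G); in particular every minimal normal subgroup of G is contained in N. -/
theorem result {G : Type*} [Group G] [Finite G] (M : Subgroup G) (hM : M ≠ ⊤) (hprim : ∀ N : Subgroup G, N ≤ M → M ≤ Subgroup.normalizer (N : Set G) → N ≠ ⊥ → Subgroup.normalizer (N : Set G) = M) (N : Subgroup G) [N.Normal] (hMF : M ⊓ (Cfsg.generalizedFittingSubgroup ↥N).map N.subtype ≠ ⊥) : Cfsg.fittingSubgroup G = ⊥ ∧ (Cfsg.generalizedFittingSubgroup ↥N).map N.subtype = Cfsg.generalizedFittingSubgroup G ∧ Cfsg.generalizedFittingSubgroup G = Cfsg.layer G ∧ ∀ K : Subgroup G, K.Normal → K ≠ ⊥ → (∀ K' : Subgroup G, K'.Normal → K' ≤ K → K' = ⊥ ∨ K' = K) → K ≤ N := by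
  set L := (Cfsg.generalizedFittingSubgroup ↥N).map N.subtype with hL
  haveI := CfsgLib.Components.generalizedFittingSubgroup_characteristic (G := ↥N)
  haveI hLn : L.Normal := CfsgLib.Components.map_subtype_normal inferInstance _
  have hD : Subgroup.normalizer ((M ⊓ L : Subgroup G) : Set G) = M := by
    refine hprim _ inf_le_left ?_ hMF
    intro m hm
    refine Subgroup.mem_normalizer_iff.2 fun x => ?_
    simp only [Subgroup.mem_inf]
    refine and_congr ?_ ?_
    · exact (Subgroup.mem_normalizer_iff.1 (Subgroup.le_normalizer hm) x)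
    · exact (Subgroup.mem_normalizer_iff.1 (by rw [Subgroup.normalizer_eq_top]; trivial : m ∈ Subgroup.normalizer (L : Set G)) x)
  have hcore : ∀ K : Subgroup G, K.Normal → K ≤ M → K = ⊥ := by
    intro K hK hKM
    by_contra hne
    haveI := hK
    apply hM
    have htop : Subgroup.normalizer (K : Set G) = ⊤ := Subgroup.normalizer_eq_top_iff.2 hK
    rw [← hprim K hKM (by rw [htop]; exact le_top) hne, htop]
  have hC : Subgroup.centralizer (L : Set G) = ⊥ := by
    refine hcore _ inferInstance ?_
    calc Subgroup.centralizer (L : Set G)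
        ≤ Subgroup.centralizer ((M ⊓ L : Subgroup G) : Set G) :=
          Subgroup.centralizer_le (show ((M ⊓ L : Subgroup G) : Set G) ⊆ (L : Set G) from fun x hx => hx.2)
      _ ≤ Subgroup.normalizer ((M ⊓ L : Subgroup G) : Set G) := Subgroup.centralizer_le_normalizer _
      _ = M := hD
  have hlayer : (Cfsg.layer ↥N).map N.subtype ≤ Cfsg.layer G := by
    rw [Cfsg.layer, Subgroup.map_le_iff_le_comap]
    exact sSup_le fun K hK => Subgroup.map_le_iff_le_comap.1
      (CfsgLib.Components.component_le_layer
        (CfsgLib.Components.isComponent_map_subtype (inferInstance : N.Normal).isSubnormal hK))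
  have hfit : (Cfsg.fittingSubgroup ↥N).map N.subtype ≤ Cfsg.fittingSubgroup G := by
    haveI := CfsgLib.Components.fittingSubgroup_characteristic (G := ↥N)
    refine CfsgLib.Components.le_fittingSubgroup (CfsgLib.Components.map_subtype_normal inferInstance _) ?_
    haveI := CfsgLib.Components.fittingSubgroup_isNilpotent (G := ↥N)
    exact Group.nilpotent_of_surjective (N.subtype.subgroupMap (Cfsg.fittingSubgroup ↥N))
      (N.subtype.subgroupMap_surjective _)
  have hLle : L ≤ Cfsg.generalizedFittingSubgroup G := by
    rw [hL, Cfsg.generalizedFittingSubgroup, Subgroup.map_sup]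
    exact sup_le_sup hlayer hfit
  have hF : Cfsg.fittingSubgroup G = ⊥ := by
    by_contra hne
    haveI : Nontrivial (Cfsg.fittingSubgroup G) := (Subgroup.nontrivial_iff_ne_bot _).2 hne
    haveI := CfsgLib.Components.fittingSubgroup_isNilpotent (G := G)
    have hz : Subgroup.center ↥(Cfsg.fittingSubgroup G) ≠ ⊥ := Group.IsNilpotent.center_ne_bot _
    obtain ⟨z, hz', hz1⟩ := (Subgroup.bot_or_exists_ne_one _).resolve_left hz
    have hzC : (z : G) ∈ Subgroup.centralizer (L : Set G) := by
      rw [← Subgroup.zpowers_le, Subgroup.le_centralizer_iff]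
      refine le_trans hLle (sup_le ?_ ?_)
      · exact (CfsgLib.Components.layer_le_centralizer_fitting).trans
          (Subgroup.centralizer_le (show ((Subgroup.zpowers (z : G) : Subgroup G) : Set G) ⊆
            (Cfsg.fittingSubgroup G : Set G) from fun x hx => Subgroup.zpowers_le.2 z.2 hx))
      · intro f hf
        rw [Subgroup.mem_centralizer_iff]
        intro x hx
        obtain ⟨k, rfl⟩ := Subgroup.mem_zpowers_iff.1 hx
        have h1 : Commute z (⟨f, hf⟩ : ↥(Cfsg.fittingSubgroup G)) :=
          (Subgroup.mem_center_iff.1 hz' _).symm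
        exact (Commute.zpow_left (congrArg Subtype.val h1) k)
    rw [hC, Subgroup.mem_bot] at hzC
    exact hz1 (Subtype.ext hzC)
  have hEeq : Cfsg.generalizedFittingSubgroup G = Cfsg.layer G := by
    rw [Cfsg.generalizedFittingSubgroup, hF, sup_bot_eq]
  refine ⟨hF, le_antisymm hLle ?_, hEeq, fun K hK hK1 hmin => ?_⟩
  · rw [hEeq]
    refine sSup_le fun X hX => ?_
    rcases CfsgLib.Components.component_normal_or_commute hX (inferInstance : N.Normal) with h | h
    · have h1 : X.subgroupOf N ≤ Cfsg.layer ↥N :=
        CfsgLib.Components.component_le_layer (CfsgLib.Components.isComponent_subgroupOf' hX h)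
      have h2 := Subgroup.map_mono (f := N.subtype) h1
      rw [Subgroup.map_subgroupOf_eq_of_le h] at h2
      exact h2.trans (Subgroup.map_mono CfsgLib.Components.layer_le_generalizedFittingSubgroup)
    · have h1 : X ≤ Subgroup.centralizer (L : Set G) :=
        (Subgroup.commutator_eq_bot_iff_le_centralizer.1 h).trans
          (Subgroup.centralizer_le (show (L : Set G) ⊆ (N : Set G) from
            fun x hx => Subgroup.map_subtype_le _ hx))
      rw [hC] at h1
      rw [le_bot_iff.1 h1]; exact bot_le
  · rcases hmin (K ⊓ N) inferInstance inf_le_left with h | h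
    · exfalso
      have hcomm : ⁅K, N⁆ = ⊥ := le_bot_iff.1 (h ▸ Subgroup.commutator_le_inf K N)
      have h1 : K ≤ Subgroup.centralizer (L : Set G) :=
        (Subgroup.commutator_eq_bot_iff_le_centralizer.1 hcomm).trans
          (Subgroup.centralizer_le (show (L : Set G) ⊆ (N : Set G) from
            fun x hx => Subgroup.map_subtype_le _ hx))
      rw [hC] at h1
      exact hK1 (le_bot_iff.1 h1)
    · exact inf_eq_left.1 h

end Cfsg.Agent.S3750
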