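import Cfsg.Statements.S3751
import Mathlib
import Cfsg.Agent.LocalCharPair.Basic
import Cfsg.Agent.PCore.Basic

set_option autoImplicit false
open Cfsg

namespace Cfsg.Agent.S3751

/-- Two distinct subgroups M₁, M₂ of G form a primitive pair when, for {i, j} = {1, 2}, every non-trivial normal subgroup A of M_i contained in M₁ ∩ M₂ satisfies N_{M_j}(A) = M₁ ∩ M₂; the pair has characteristic p when moreover C_{M_i}(O_p(M_i)) ≤ O_p(M_i) for both i and O_p(M₁)O_p(M₂) ≤ M₁ ∩ M₂. Let G be a finite group, p a prime dividing its order, with O_p(G) = 1 and every p-local subgroup of characteristic p. Then either G has a primitive pair of characteristic p, or every maximal p-local subgroup M of G is strongly p-embedded in G: M is a proper subgroup, p divides its order, and for every g ∉ M the order of M ∩ gMg⁻¹ is prime to p. -/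
theorem result {G : Type*} [Group G] [Finite G] {p : ℕ} [Fact p.Prime] (hloc : Cfsg.IsOfLocalCharacteristic p G) (hOp : Cfsg.pCore p G = ⊥) : (∃ M₁ M₂ : Subgroup G, M₁ ≠ M₂ ∧ (∀ A : Subgroup G, A ≠ ⊥ → A ≤ M₁ ⊓ M₂ → (M₁ ≤ Subgroup.normalizer (A : Set G) → M₂ ⊓ Subgroup.normalizer (A : Set G) = M₁ ⊓ M₂) ∧ (M₂ ≤ Subgroup.normalizer (A : Set G) → M₁ ⊓ Subgroup.normalizer (A : Set G) = M₁ ⊓ M₂)) ∧ Subgroup.centralizer (Cfsg.pCore p ↥M₁ : Set ↥M₁) ≤ Cfsg.pCore p ↥M₁ ∧ Subgroup.centralizer (Cfsg.pCore p ↥M₂ : Set ↥M₂) ≤ Cfsg.pCore p ↥M₂ ∧ (Cfsg.pCore p ↥M₁).map M₁.subtype ⊔ (Cfsg.pCore p ↥M₂).map M₂.subtype ≤ M₁ ⊓ M₂) ∨ (∀ M : Subgroup G, (∃ T : Subgroup G, IsPGroup p T ∧ T ≠ ⊥ ∧ M = Subgroup.normalizer (T : Set G)) → (∀ L : Subgroup G, (∃ T : Subgroup G, IsPGroup p T ∧ T ≠ ⊥ ∧ L = Subgroup.normalizer (T : Set G)) → M ≤ L → L = M) → M ≠ ⊤ ∧ p ∣ Nat.card M ∧ ∀ g : G, g ∉ M → ¬ p ∣ Nat.card ↥(M ⊓ M.map (MulAut.conj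 g).toMonoidHom)) := by
  classical
  by_cases hex : ∀ M L : Subgroup G, CfsgLib.LocalCharPair.IsMax p M → CfsgLib.LocalCharPair.IsMax p L →
      M ≠ L → ¬ p ∣ Nat.card ↥(M ⊓ L)
  · right
    intro M hM hmax
    have hM' : CfsgLib.LocalCharPair.IsMax p M := ⟨hM, hmax⟩
    refine ⟨?_, ?_, fun g hg => ?_⟩
    · rintro rfl
      refine hM'.pCoreIn_ne_bot (le_bot_iff.1 (hOp ▸ CfsgLib.PCore.le_pCore ?_ (CfsgLib.Components.pCoreIn_isPGroup p ⊤)))
      exact Subgroup.normalizer_eq_top_iff.1 (top_le_iff.1 hM'.le_normalizer_core)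
    · obtain ⟨T, hT, hne, rfl⟩ := hM
      haveI : Nontrivial ↥T := (Subgroup.nontrivial_iff_ne_bot T).2 hne
      obtain ⟨n, hn0, hn⟩ := hT.nontrivial_iff_card.1 inferInstance
      exact (hn ▸ dvd_pow_self p hn0.ne').trans (Subgroup.card_dvd_of_le Subgroup.le_normalizer)
    · refine hex _ _ hM' (hM'.map g) fun e => hg ?_
      have hgn : g ∈ Subgroup.normalizer (CfsgLib.Components.pCoreIn p M : Set G) := by
        refine CfsgLib.Components.normalizer_le_normalizer_pCoreIn p M (Subgroup.mem_normalizer_fintype fun x hx => ?_)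
        exact e.symm.le ⟨x, hx, rfl⟩
      rwa [hM'.normalizer_eq (CfsgLib.Components.pCoreIn_isPGroup p M) hM'.pCoreIn_ne_bot hM'.le_normalizer_core] at hgn
  left
  push Not at hex
  obtain ⟨M₀, L₀, hM₀, hL₀, hne₀, hdvd⟩ := hex
  -- a pair with a `p`-subgroup of largest order in the intersection
  let P : Subgroup G × Subgroup G × Subgroup G → Prop := fun t => CfsgLib.LocalCharPair.IsMax p t.1 ∧
    CfsgLib.LocalCharPair.IsMax p t.2.1 ∧ t.1 ≠ t.2.1 ∧ IsPGroup p ↥t.2.2 ∧ t.2.2 ≠ ⊥ ∧ t.2.2 ≤ t.1 ⊓ t.2.1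
  have hne1 : {t | P t}.Nonempty := by
    obtain ⟨x, hx⟩ := exists_prime_orderOf_dvd_card' p hdvd
    refine ⟨(M₀, L₀, Subgroup.zpowers (x : G)), hM₀, hL₀, hne₀, ?_, ?_, Subgroup.zpowers_le.2 x.2⟩
    · exact IsPGroup.of_card (n := 1) (by rw [Nat.card_zpowers, Subgroup.orderOf_coe, hx, pow_one])
    · intro h
      rw [Subgroup.zpowers_eq_bot] at h
      rw [← Subgroup.orderOf_coe, h, orderOf_one] at hx
      exact (Fact.out : p.Prime).one_lt.ne hx
  obtain ⟨⟨M, L, S⟩, ⟨hM, hL, hne, hS, hSne, hSle⟩, hmax⟩ :=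
    Set.exists_max_image {t | P t} (fun t => Nat.card ↥t.2.2) (Set.toFinite _) hne1
  -- `S` is a Sylow subgroup of one of them
  have grow : ∀ X : Subgroup G, S ≤ X → ∀ T : Subgroup G, IsPGroup p ↥T → T ≤ X → S < T →
      ∃ x ∈ T, x ∈ Subgroup.normalizer (S : Set G) ∧ x ∉ S := by
    intro X _ T hT _ hlt
    haveI := hT.isNilpotent
    have h1 : S.subgroupOf T < ⊤ := lt_top_iff_ne_top.2 fun h => hlt.not_ge (Subgroup.subgroupOf_eq_top.1 h)
    obtain ⟨⟨x, hx⟩, hxN, hxS⟩ := SetLike.exists_of_lt (Group.normalizerCondition_of_isNilpotent _ h1)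
    exact ⟨x, hx, Subgroup.mem_normalizer_fintype fun y hy =>
      ((Subgroup.mem_normalizer_iff.1 hxN ⟨y, hlt.le hy⟩).1 hy : _), hxS⟩
  have pair : ∀ A B : Subgroup G, CfsgLib.LocalCharPair.IsMax p A → CfsgLib.LocalCharPair.IsMax p B → A ≠ B →
      CfsgLib.Components.pCoreIn p A ≤ B → CfsgLib.Components.pCoreIn p B ≤ A →
      ∃ M₁ M₂ : Subgroup G, M₁ ≠ M₂ ∧ (∀ A : Subgroup G, A ≠ ⊥ → A ≤ M₁ ⊓ M₂ → (M₁ ≤ Subgroup.normalizer (A : Set G) → M₂ ⊓ Subgroup.normalizer (A : Set G) = M₁ ⊓ M₂) ∧ (M₂ ≤ Subgroup.normalizer (A : Set G) → M₁ ⊓ Subgroup.normalizer (A : Set G) = M₁ ⊓ M₂)) ∧ Subgroup.centralizer (Cfsg.pCore p ↥M₁ : Set ↥M₁) ≤ Cfsg.pCore p ↥M₁ ∧ Subgroup.centralizer (Cfsg.pCore p ↥M₂ : Set ↥M₂) ≤ Cfsg.pCore p ↥M₂ ∧ (Cfsg.pCore p ↥M₁).map M₁.subtype ⊔ (Cfsg.pCore p ↥M₂).map M₂.subtype ≤ M₁ ⊓ M₂ := by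
    intro A B hA hB hAB h1 h2
    refine ⟨A, B, hAB, fun X hX hle => ⟨fun hn => ?_, fun hn => ?_⟩, hA.charP hloc, hB.charP hloc,
      sup_le (le_inf (CfsgLib.Components.pCoreIn_le p A) h1) (le_inf h2 (CfsgLib.Components.pCoreIn_le p B))⟩
    · rw [le_antisymm (hA.normalizer_le hloc (hle.trans inf_le_left) hX hn) hn, inf_comm]
    · rw [le_antisymm (hB.normalizer_le hloc (hle.trans inf_le_right) hX hn) hn]
  have sylowCase : ∀ A B : Subgroup G, CfsgLib.LocalCharPair.IsMax p A → CfsgLib.LocalCharPair.IsMax p B →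
      A ≠ B → S ≤ A ⊓ B → (∀ T : Subgroup G, IsPGroup p ↥T → T ≤ A → S ≤ T → T ≤ S) →
      ∃ M₁ M₂ : Subgroup G, M₁ ≠ M₂ ∧ (∀ A : Subgroup G, A ≠ ⊥ → A ≤ M₁ ⊓ M₂ → (M₁ ≤ Subgroup.normalizer (A : Set G) → M₂ ⊓ Subgroup.normalizer (A : Set G) = M₁ ⊓ M₂) ∧ (M₂ ≤ Subgroup.normalizer (A : Set G) → M₁ ⊓ Subgroup.normalizer (A : Set G) = M₁ ⊓ M₂)) ∧ Subgroup.centralizer (Cfsg.pCore p ↥M₁ : Set ↥M₁) ≤ Cfsg.pCore p ↥M₁ ∧ Subgroup.centralizer (Cfsg.pCore p ↥M₂ : Set ↥M₂) ≤ Cfsg.pCore p ↥M₂ ∧ (Cfsg.pCore p ↥M₁).map M₁.subtype ⊔ (Cfsg.pCore p ↥M₂).map M₂.subtype ≤ M₁ ⊓ M₂ := by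
    intro A B hA hB hAB hSAB hAmax
    have hQA : CfsgLib.Components.pCoreIn p A ≤ S := le_sup_left.trans (hAmax _
      ((CfsgLib.Components.pCoreIn_isPGroup p A).to_sup_of_normal_left' hS
        ((hSAB.trans inf_le_left).trans hA.le_normalizer_core))
      (sup_le (CfsgLib.Components.pCoreIn_le p A) (hSAB.trans inf_le_left)) le_sup_right)
    by_cases hBmax : ∀ T : Subgroup G, IsPGroup p ↥T → T ≤ B → S ≤ T → T ≤ S
    · refine pair A B hA hB hAB (hQA.trans (hSAB.trans inf_le_right)) ?_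
      exact (le_sup_left.trans (hBmax _ ((CfsgLib.Components.pCoreIn_isPGroup p B).to_sup_of_normal_left' hS
        ((hSAB.trans inf_le_right).trans hB.le_normalizer_core))
        (sup_le (CfsgLib.Components.pCoreIn_le p B) (hSAB.trans inf_le_right)) le_sup_right)).trans
        (hSAB.trans inf_le_left)
    push Not at hBmax
    obtain ⟨T, hT, hTB, hST, hTS⟩ := hBmax
    obtain ⟨x, hxT, hxN, hxS⟩ := grow B (hSAB.trans inf_le_right) T hT hTB (lt_of_le_not_ge hST hTS)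
    have hSx : S.map (MulAut.conj x).toMonoidHom = S := by
      refine Subgroup.eq_of_le_of_card_ge ?_ (Subgroup.card_map_of_injective (MulAut.conj x).injective).ge
      rintro _ ⟨s, hs, rfl⟩
      exact (Subgroup.mem_normalizer_iff.1 hxN s).1 hs
    have hxA : x ∉ A := by
      intro hxA
      have hp : IsPGroup p ↥(S ⊔ Subgroup.zpowers x) :=
        hS.to_sup_of_normal_left' (hT.to_le (Subgroup.zpowers_le.2 hxT)) (Subgroup.zpowers_le.2 hxN)
      exact hxS (hAmax _ hp (sup_le (hSAB.trans inf_le_left) (Subgroup.zpowers_le.2 hxA)) le_sup_left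
        (Subgroup.mem_sup_right (Subgroup.mem_zpowers x)))
    refine pair A (A.map (MulAut.conj x).toMonoidHom) hA (hA.map x) (fun e => hxA ?_) ?_ ?_
    · have hgn : x ∈ Subgroup.normalizer (CfsgLib.Components.pCoreIn p A : Set G) :=
        CfsgLib.Components.normalizer_le_normalizer_pCoreIn p A
          (Subgroup.mem_normalizer_fintype fun y hy => e.symm.le ⟨y, hy, rfl⟩)
      rwa [hA.normalizer_eq (CfsgLib.Components.pCoreIn_isPGroup p A) hA.pCoreIn_ne_bot hA.le_normalizer_core] at hgn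
    · exact hQA.trans (hSx.ge.trans (Subgroup.map_mono (hSAB.trans inf_le_left)))
    · have h1 : CfsgLib.Components.pCoreIn p (A.map (MulAut.conj x).toMonoidHom) ≤
          (CfsgLib.Components.pCoreIn p A).map (MulAut.conj x).toMonoidHom := by
        intro y hy
        refine ⟨x⁻¹ * y * x, ?_, by simp [mul_assoc]⟩
        refine CfsgLib.Components.le_pCoreIn (N := (CfsgLib.Components.pCoreIn p (A.map (MulAut.conj x).toMonoidHom)).map
          (MulAut.conj x⁻¹).toMonoidHom) ?_ ?_ ((CfsgLib.Components.pCoreIn_isPGroup p _).map _)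
          ⟨y, hy, by simp⟩
        · rintro _ ⟨z, hz, rfl⟩
          obtain ⟨a, ha, rfl⟩ := CfsgLib.Components.pCoreIn_le p _ hz
          simpa [mul_assoc] using ha
        · refine le_trans ?_ (Subgroup.le_normalizer_map _)
          intro a ha
          exact ⟨x * a * x⁻¹, (hA.map x).le_normalizer_core ⟨a, ha, rfl⟩, by simp [mul_assoc]⟩
      exact h1.trans ((Subgroup.map_mono hQA).trans (hSx.le.trans (hSAB.trans inf_le_left)))
  by_cases hMmax : ∀ T : Subgroup G, IsPGroup p ↥T → T ≤ M → S ≤ T → T ≤ S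
  · exact sylowCase M L hM hL hne hSle hMmax
  by_cases hLmax : ∀ T : Subgroup G, IsPGroup p ↥T → T ≤ L → S ≤ T → T ≤ S
  · exact sylowCase L M hL hM hne.symm (le_inf (hSle.trans inf_le_right) (hSle.trans inf_le_left)) hLmax
  exfalso
  obtain ⟨K, hK, hNK⟩ := CfsgLib.LocalCharPair.exists_max (p := p)
    (M := Subgroup.normalizer (S : Set G)) ⟨S, hS, hSne, rfl⟩
  have key : ∀ A : Subgroup G, CfsgLib.LocalCharPair.IsMax p A → S ≤ A →
      ¬ (∀ T : Subgroup G, IsPGroup p ↥T → T ≤ A → S ≤ T → T ≤ S) → A = K := by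
    intro A hA hSA hnot
    push Not at hnot
    obtain ⟨T, hT, hTA, hST, hTS⟩ := hnot
    obtain ⟨x, hxT, hxN, hxS⟩ := grow A hSA T hT hTA (lt_of_le_not_ge hST hTS)
    by_contra hAK
    have hS' : IsPGroup p ↥(S ⊔ Subgroup.zpowers x) :=
      hS.to_sup_of_normal_left' (hT.to_le (Subgroup.zpowers_le.2 hxT)) (Subgroup.zpowers_le.2 hxN)
    have hc := hmax (A, K, S ⊔ Subgroup.zpowers x) ⟨hA, hK, hAK, hS',
      fun h => hSne (le_bot_iff.1 (le_sup_left.trans h.le)),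
      sup_le (le_inf hSA (Subgroup.le_normalizer.trans hNK))
        (Subgroup.zpowers_le.2 ⟨hTA hxT, hNK hxN⟩)⟩
    exact hxS ((Subgroup.eq_of_le_of_card_ge le_sup_left hc).ge (Subgroup.mem_sup_right (Subgroup.mem_zpowers x)))
  exact hne ((key M hM (hSle.trans inf_le_left) hMmax).trans (key L hL (hSle.trans inf_le_right) hLmax).symm)

end Cfsg.Agent.S3751
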