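import Cfsg.Statements.S3753
import Mathlib
import Cfsg.Agent.PrimitivePairTwo.Main

set_option autoImplicit false
open Cfsg

namespace Cfsg.Agent.S3753

/-- Two distinct subgroups M₁, M₂ of G form a primitive pair when, for {i, j} = {1, 2}, every non-trivial normal subgroup A of M_i contained in M₁ ∩ M₂ satisfies N_{M_j}(A) = M₁ ∩ M₂; the pair has characteristic p when moreover C_{M_i}(O_p(M_i)) ≤ O_p(M_i) for both i and O_p(M₁)O_p(M₂) ≤ M₁ ∩ M₂. If the finite group G has a primitive pair (M₁, M₂) of characteristic p for some prime p, then M₁ or M₂ has non-abelian Sylow 2-subgroups. In particular no group of odd order has a primitive pair of characteristic p. -/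
theorem result {G : Type*} [Group G] [Finite G] {p : ℕ} [Fact p.Prime] (M₁ M₂ : Subgroup G) (hne : M₁ ≠ M₂) (hP : ∀ A : Subgroup G, A ≠ ⊥ → A ≤ M₁ ⊓ M₂ → (M₁ ≤ Subgroup.normalizer (A : Set G) → M₂ ⊓ Subgroup.normalizer (A : Set G) = M₁ ⊓ M₂) ∧ (M₂ ≤ Subgroup.normalizer (A : Set G) → M₁ ⊓ Subgroup.normalizer (A : Set G) = M₁ ⊓ M₂)) (hc₁ : Subgroup.centralizer (Cfsg.pCore p ↥M₁ : Set ↥M₁) ≤ Cfsg.pCore p ↥M₁) (hc₂ : Subgroup.centralizer (Cfsg.pCore p ↥M₂ : Set ↥M₂) ≤ Cfsg.pCore p ↥M₂) (hO : (Cfsg.pCore p ↥M₁).map M₁.subtype ⊔ (Cfsg.pCore p ↥M₂).map M₂.subtype ≤ M₁ ⊓ M₂) : (∃ S : Sylow 2 ↥M₁, ¬ IsMulCommutative (S : Subgroup ↥M₁)) ∨ (∃ S : Sylow 2 ↥M₂, ¬ IsMulCommutative (S : Subgroup ↥M₂)) := by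
  by_contra hcon
  push Not at hcon
  obtain ⟨hab₁, hab₂⟩ := hcon
  set Q₁ := CfsgLib.Components.pCoreIn p M₁ with hQ₁
  set Q₂ := CfsgLib.Components.pCoreIn p M₂ with hQ₂
  have h12 : Q₁ ≤ M₂ := le_sup_left.trans (hO.trans inf_le_right)
  have h21 : Q₂ ≤ M₁ := le_sup_right.trans (hO.trans inf_le_left)
  have hM₁ : M₁ ≠ ⊥ := by
    intro h
    refine hne (h.trans (Eq.symm ?_))
    by_contra h2
    exact CfsgLib.PrimitivePairTwo.pCoreIn_ne_bot h2 hc₂ (le_bot_iff.1 (h ▸ h21))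
  have hM₂ : M₂ ≠ ⊥ := by
    intro h
    exact CfsgLib.PrimitivePairTwo.pCoreIn_ne_bot hM₁ hc₁ (le_bot_iff.1 (h ▸ h12))
  have hn₁ : M₁ ≤ Subgroup.normalizer (Q₁ : Set G) :=
    Subgroup.le_normalizer.trans (CfsgLib.Components.normalizer_le_normalizer_pCoreIn p M₁)
  have hn₂ : M₂ ≤ Subgroup.normalizer (Q₂ : Set G) :=
    Subgroup.le_normalizer.trans (CfsgLib.Components.normalizer_le_normalizer_pCoreIn p M₂)
  have hfin : ∀ F : Subgroup G, F ≠ ⊥ → F ≤ M₁ ⊓ M₂ → M₁ ≤ Subgroup.normalizer (F : Set G) →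
      M₂ ≤ Subgroup.normalizer (F : Set G) → False := by
    intro F hF hle ha hb
    have e1 := (hP F hF hle).1 ha
    have e2 := (hP F hF hle).2 hb
    rw [inf_eq_left.2 hb] at e1
    rw [inf_eq_left.2 ha] at e2
    exact hne (e2.trans e1.symm)
  by_cases hp2 : p = 2
  · subst hp2
    have e : Q₁ = Q₂ := le_antisymm (CfsgLib.PrimitivePairTwo.pCoreIn_two_le hc₂ hab₂ h12)
      (CfsgLib.PrimitivePairTwo.pCoreIn_two_le hc₁ hab₁ h21)
    exact hfin Q₁ (CfsgLib.PrimitivePairTwo.pCoreIn_ne_bot hM₁ hc₁) (le_sup_left.trans hO) hn₁ (e ▸ hn₂)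
  have hns₁ : ¬ Cfsg.Involves (Matrix.SpecialLinearGroup (Fin 2) (ZMod p)) ↥M₁ := fun h =>
    CfsgLib.PLocalBasics.not_comm_of_involves hp2 h default (hab₁ default)
  have hns₂ : ¬ Cfsg.Involves (Matrix.SpecialLinearGroup (Fin 2) (ZMod p)) ↥M₂ := fun h =>
    CfsgLib.PLocalBasics.not_comm_of_involves hp2 h default (hab₂ default)
  have e1 := CfsgLib.PrimitivePairTwo.top_eq hp2 hns₁ hns₂ hc₁ hc₂ hM₂ h12 h21
    fun A hA hle hn => ((hP A hA hle).2 hn).le.trans inf_le_right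
  have e2 := CfsgLib.PrimitivePairTwo.top_eq hp2 hns₂ hns₁ hc₂ hc₁ hM₁ h21 h12
    fun A hA hle hn => ((hP A hA (by rwa [inf_comm])).1 hn).le.trans inf_le_left
  rw [sup_comm] at e2
  refine hfin (CfsgLib.PrimitivePairTwo.top Q₁)
    (CfsgLib.PrimitivePairTwo.top_ne_bot (CfsgLib.Components.pCoreIn_isPGroup p M₁)
      (CfsgLib.PrimitivePairTwo.pCoreIn_ne_bot hM₁ hc₁))
    ((CfsgLib.PrimitivePairTwo.good_top Q₁).1.trans (le_sup_left.trans hO))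
    (fun m hm => CfsgLib.PrimitivePairTwo.le_normalizer_top (hn₁ hm)) ?_
  rw [e1.trans e2.symm]
  exact fun m hm => CfsgLib.PrimitivePairTwo.le_normalizer_top (hn₂ hm)

end Cfsg.Agent.S3753
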