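import Cfsg.Statements.S3760

set_option autoImplicit false
open Cfsg

namespace Cfsg.Agent.S3760

private theorem conj_fix {G : Type*} [Group G] {X : Type*} [MulAction G X] (x : X) (K : Subgroup G) (g : G) :
    K.map (MulAut.conj g).toMonoidHom ≤ MulAction.stabilizer G x ↔ ∀ k ∈ K, k • (g⁻¹ • x) = g⁻¹ • x := by
  constructor
  · intro h k hk
    have := h ⟨k, hk, rfl⟩
    simp only [MulEquiv.coe_toMonoidHom, MulAut.conj_apply, MulAction.mem_stabilizer_iff, mul_smul] at this
    rw [eq_inv_smul_iff]
    exact this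
  · rintro h _ ⟨k, hk, rfl⟩
    simp [MulAction.mem_stabilizer_iff, mul_smul, h k hk]

/-- Let the group G act transitively on a set X, let x ∈ X with stabilizer H = G_x, and let K ≤ H. Then N_G(K) acts transitively on the set of fixed points of K if and only if every G-conjugate of K contained in H is already an H-conjugate of K. -/
theorem result {G : Type*} [Group G] {X : Type*} [MulAction G X] (htrans : ∀ a b : X, ∃ g : G, g • a = b) (x : X) (K : Subgroup G) (hK : K ≤ MulAction.stabilizer G x) : (∀ a b : X, (∀ k ∈ K, k • a = a) → (∀ k ∈ K, k • b = b) → ∃ g ∈ Subgroup.normalizer (K : Set G), g • a = b) ↔ ∀ g : G, K.map (MulAut.conj g).toMonoidHom ≤ MulAction.stabilizer G x → ∃ h ∈ MulAction.stabilizer G x, K.map (MulAut.conj g).toMonoidHom = K.map (MulAut.conj h).toMonoidHom := by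
  constructor
  · intro h g hg
    obtain ⟨n, hn, hnx⟩ := h x (g⁻¹ • x) (fun k hk => hK hk) ((conj_fix x K g).1 hg)
    refine ⟨g * n, by rw [MulAction.mem_stabilizer_iff, mul_smul, hnx, smul_inv_smul], ?_⟩
    have e1 : (MulAut.conj (g * n)).toMonoidHom = (MulAut.conj g).toMonoidHom.comp (MulAut.conj n).toMonoidHom := by
      ext; simp [mul_assoc]
    rw [e1, ← Subgroup.map_map]
    congr 1
    exact (Subgroup.mem_normalizer_iff_map_conj_eq.1 hn).symm
  · intro h a b ha hb
    have key : ∀ c : X, (∀ k ∈ K, k • c = c) → ∃ n ∈ Subgroup.normalizer (K : Set G), n • x = c := by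
      intro c hc
      obtain ⟨s, rfl⟩ := htrans x c
      obtain ⟨m, hm, hme⟩ := h s⁻¹ ((conj_fix x K s⁻¹).2 (by simpa using hc))
      refine ⟨s * m, ?_, by rw [mul_smul, MulAction.mem_stabilizer_iff.1 hm]⟩
      rw [Subgroup.mem_normalizer_iff_map_conj_eq]
      have e1 : (MulAut.conj (s * m)).toMonoidHom = (MulAut.conj s).toMonoidHom.comp (MulAut.conj m).toMonoidHom := by
        ext; simp [mul_assoc]
      have e2 : (MulAut.conj s).toMonoidHom.comp (MulAut.conj s⁻¹).toMonoidHom = MonoidHom.id G := by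
        ext; simp [mul_assoc]
      calc K.map (MulAut.conj (s * m)).toMonoidHom = (K.map (MulAut.conj m).toMonoidHom).map (MulAut.conj s).toMonoidHom := by
            rw [e1, Subgroup.map_map]
        _ = K := by rw [← hme, Subgroup.map_map, e2, Subgroup.map_id]
    obtain ⟨n, hn, rfl⟩ := key a ha
    obtain ⟨m, hm, rfl⟩ := key b hb
    exact ⟨m * n⁻¹, mul_mem hm (inv_mem hn), by rw [mul_smul, inv_smul_smul]⟩

end Cfsg.Agent.S3760
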