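import Cfsg.Statements.S3762
import Cfsg.Agent.SymplecticType.HallStructure
-- import your own Cfsg.Agent.* helpers here

set_option autoImplicit false
set_option linter.style.haveILetI false
set_option linter.deprecated false
open Cfsg

namespace Cfsg.Agent.S3762

open CfsgLib.SymplecticHall CfsgLib.PGroup
open scoped commutatorElement Pointwise

theorem mem_product {G : Type*} [Group G] {E R : Subgroup G} (hER : ∀ e ∈ E, ∀ r ∈ R, e * r = r * e)
    (hsup : E ⊔ R = ⊤) (x : G) : ∃ e ∈ E, ∃ r ∈ R, x = e * r := by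
  have hn : R ≤ Subgroup.normalizer (E : Set G) := fun r hr => Subgroup.mem_normalizer_iff.2 fun e => by
    constructor
    · intro he; rwa [← hER e he r hr, mul_inv_cancel_right]
    · intro he
      have h2 : r * (r * e * r⁻¹) = r * e * r⁻¹ * r := (hER _ he r hr).symm
      rw [inv_mul_cancel_right] at h2
      rwa [mul_left_cancel h2] at he
  have : x ∈ ((E : Set G) * (R : Set G)) := by
    rw [← Subgroup.coe_mul_of_right_le_normalizer_left E R hn, hsup]
    trivial
  obtain ⟨e, he, r, hr, rfl⟩ := this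
  exact ⟨e, he, r, hr, rfl⟩

/-- Commutators in a product of two commuting subgroups. -/
theorem commutator_product {G : Type*} [Group G] {O : Subgroup G} [O.Normal] {e f r s : G} (hef : ⁅e, f⁆ ∈ O)
    (hrs : ⁅r, s⁆ ∈ O) (h1 : Commute e s) (h2 : Commute r f) : ⁅e * r, f * s⁆ ∈ O := by
  rw [← QuotientGroup.eq_one_iff, ← QuotientGroup.mk'_apply, map_commutatorElement, map_mul, map_mul,
    commutatorElement_eq_one_iff_mul_comm]
  have c1 : Commute (QuotientGroup.mk' O e) (QuotientGroup.mk' O f) := by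
    refine commutatorElement_eq_one_iff_mul_comm.1 ?_
    rw [← map_commutatorElement, QuotientGroup.mk'_apply, QuotientGroup.eq_one_iff]; exact hef
  have c2 : Commute (QuotientGroup.mk' O r) (QuotientGroup.mk' O s) := by
    refine commutatorElement_eq_one_iff_mul_comm.1 ?_
    rw [← map_commutatorElement, QuotientGroup.mk'_apply, QuotientGroup.eq_one_iff]; exact hrs
  exact ((c1.mul_right (h1.map _)).mul_left ((h2.map _).mul_right c2)).eq

/-- The small case. -/
theorem small_case {G : Type*} [Group G] [Finite G] {p : ℕ} [Fact p.Prime] (hG : IsPGroup p G)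
    {E R Z O : Subgroup G} [O.Normal] (hOc : Nat.card O = p) (hOZ : O ≤ Z) (hZR : Z ≤ R)
    (hER : ∀ e ∈ E, ∀ r ∈ R, e * r = r * e) (hsup : E ⊔ R = ⊤) (hEp : ∀ e ∈ E, e ^ p ∈ O)
    (hEc : ∀ e ∈ E, ∀ f ∈ E, ⁅e, f⁆ ∈ O) (hCR : Subgroup.centralizer (Z : Set G) ⊓ R = Z)
    {a : G} (hgen : Z = Subgroup.zpowers a) (hO : ∀ x, x ∈ O ↔ x ∈ Z ∧ x ^ p = 1)
    (hCE : Subgroup.centralizer (E : Set G) ≤ R) (hna : ∃ r ∈ R, ∃ s ∈ R, r * s ≠ s * r) (hZ : Nat.card Z = p ^ 2) (hZn : Z.Normal) :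
    Cfsg.IsExtraspecial p G := by
  have hp : p.Prime := Fact.out
  have hOcen : O ≤ Subgroup.center G := central_of_card hG hOc
  haveI : IsCyclic Z := by rw [hgen]; infer_instance
  have hR := card_le_of_small hG hZn hZR hCR hO hOc hOcen hZ
  set O' := O.subgroupOf R
  haveI : O'.Normal := inferInstanceAs ((O.subgroupOf R).Normal)
  have hidx : Nat.card (R ⧸ O') ≤ p ^ 2 := by
    have h := Subgroup.card_eq_card_quotient_mul_card_subgroup O'
    rw [Nat.card_congr (Subgroup.subgroupOfEquivOfLe (hOZ.trans hZR)).toEquiv, hOc] at h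
    rw [h, show p ^ 3 = p ^ 2 * p by ring] at hR
    exact Nat.le_of_mul_le_mul_right hR hp.pos
  have hQ : IsPGroup p (R ⧸ O') := (hG.to_subgroup R).to_quotient O'
  obtain ⟨r₀, hr₀, s₀, hs₀, hne⟩ := hna
  have hncyc : ¬ IsCyclic (R ⧸ O') := by
    intro hc
    haveI := hc
    have h := commutative_of_cyclic_center_quotient (QuotientGroup.mk' O')
      (by
        rw [QuotientGroup.ker_mk']
        intro x hx
        exact Subgroup.mem_center_iff.2 fun y => Subtype.ext
          (Subgroup.mem_center_iff.1 (hOcen (Subgroup.mem_subgroupOf.1 hx)) y.1))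
    exact hne (congrArg Subtype.val (h ⟨r₀, hr₀⟩ ⟨s₀, hs₀⟩))
  obtain ⟨j, hj⟩ := IsPGroup.iff_card.1 hQ
  have hj2 : j = 2 := by
    have hle : j ≤ 2 := (Nat.pow_le_pow_iff_right hp.one_lt).1 (hj ▸ hidx)
    by_contra hj2
    apply hncyc
    interval_cases j
    · rw [pow_zero, Nat.card_eq_one_iff_unique] at hj
      haveI := hj.1
      infer_instance
    · exact isCyclic_of_prime_card (p := p) (by rw [hj, pow_one])
    · exact absurd rfl hj2
  subst hj2
  have hab := IsPGroup.commutative_of_card_eq_prime_sq hj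
  have hRc : ∀ r ∈ R, ∀ s ∈ R, ⁅r, s⁆ ∈ O := by
    intro r hr s hs
    have h : ((⁅(⟨r, hr⟩ : R), ⟨s, hs⟩⁆ : R) : R ⧸ O') = 1 := by
      rw [← QuotientGroup.mk'_apply, map_commutatorElement, commutatorElement_eq_one_iff_mul_comm]
      exact hab _ _
    exact Subgroup.mem_subgroupOf.1 ((QuotientGroup.eq_one_iff _).1 h)
  have hRp : ∀ r ∈ R, r ^ p ∈ O := by
    intro r hr
    have h : ((((⟨r, hr⟩ : R) ^ p : R)) : R ⧸ O') = 1 := by
      rw [QuotientGroup.mk_pow]
      by_contra hcon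
      apply hncyc
      refine isCyclic_of_orderOf_eq_card ((⟨r, hr⟩ : R) : R ⧸ O') ?_
      obtain ⟨i, hi, hio⟩ := (Nat.dvd_prime_pow hp).1 (hj ▸ orderOf_dvd_natCard ((⟨r, hr⟩ : R) : R ⧸ O'))
      rw [hj, hio]
      interval_cases i
      · exact absurd (by rw [orderOf_eq_one_iff.1 (hio.trans (pow_zero p)), one_pow]) hcon
      · exact absurd (orderOf_dvd_iff_pow_eq_one.1 (dvd_of_eq (hio.trans (pow_one p)))) hcon
      · rfl
    exact Subgroup.mem_subgroupOf.1 ((QuotientGroup.eq_one_iff _).1 h)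
  have hcen : Subgroup.center G = O := by
    refine le_antisymm (fun z hz => ?_) hOcen
    have hzZ : z ∈ Z := hCR ▸ ⟨Subgroup.center_le_centralizer _ hz, hCE (Subgroup.center_le_centralizer _ hz)⟩
    refine (hO z).2 ⟨hzZ, ?_⟩
    by_contra hzp
    -- then `Z` is central, so `R` is abelian
    have ho : orderOf z = p ^ 2 := by
      obtain ⟨i, hi, hio⟩ := (Nat.dvd_prime_pow hp).1
        (hZ ▸ Subgroup.orderOf_dvd_natCard _ hzZ : orderOf z ∣ p ^ 2)
      interval_cases i
      · exact absurd (by rw [orderOf_eq_one_iff.1 (hio.trans (pow_zero p)), one_pow]) hzp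
      · exact absurd (orderOf_dvd_iff_pow_eq_one.1 (dvd_of_eq (hio.trans (pow_one p)))) hzp
      · exact hio
    have hzgen : Subgroup.zpowers z = Z := Subgroup.eq_of_le_of_card_ge (Subgroup.zpowers_le.2 hzZ)
      (by rw [Nat.card_zpowers, ho, hZ])
    have hZc : Z ≤ Subgroup.center G := hzgen ▸ Subgroup.zpowers_le.2 hz
    have hmem : ∀ t ∈ R, t ∈ Z := fun t ht => hCR ▸ ⟨Subgroup.mem_centralizer_iff.2
      fun y hy => (Subgroup.mem_center_iff.1 (hZc hy) t).symm, ht⟩
    exact hne (Subgroup.mem_center_iff.1 (hZc (hmem s₀ hs₀)) r₀)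
  refine isExtraspecial_of hG (by rw [hcen, hOc]) (fun x y => ?_) (fun x => ?_) fun htop => ?_
  · rw [hcen]
    obtain ⟨e, he, r, hr, rfl⟩ := mem_product hER hsup x
    obtain ⟨f, hf, s, hs, rfl⟩ := mem_product hER hsup y
    exact commutator_product (hEc e he f hf) (hRc r hr s hs) (hER e he s hs) (hER f hf r hr).symm
  · rw [hcen]
    obtain ⟨e, he, r, hr, rfl⟩ := mem_product hER hsup x
    rw [(show Commute e r from hER e he r hr).mul_pow]
    exact mul_mem (hEp e he) (hRp r hr)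
  · exact hne (Subgroup.mem_center_iff.1 (htop ▸ Subgroup.mem_top s₀) r₀)

/-- Let G be a finite p-group of symplectic type: every characteristic abelian subgroup of G is cyclic. Then G = E ∗ R is a central product of subgroups E and R (they commute elementwise and generate G) where E is extraspecial or trivial, and R is cyclic, or p = 2 and R is dihedral, semidihedral or generalized quaternion of order at least 16. -/
theorem result {G : Type*} [Group G] [Finite G] {p : ℕ} [Fact p.Prime] (hG : IsPGroup p G) (hsymp : ∀ A : Subgroup G, A.Characteristic → IsMulCommutative A → IsCyclic A) : ∃ E R : Subgroup G, (∀ e ∈ E, ∀ r ∈ R, e * r = r * e) ∧ E ⊔ R = ⊤ ∧ (E = ⊥ ∨ Cfsg.IsExtraspecial p ↥E) ∧ (IsCyclic R ∨ (p = 2 ∧ 16 ≤ Nat.card R ∧ ((∃ m : ℕ, Nonempty (↥R ≃* DihedralGroup m)) ∨ (∃ m : ℕ, Nonempty (↥R ≃* QuaternionGroup m)) ∨ Cfsg.IsQuasiDihedral ↥R))) := by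
  classical
  have hp : p.Prime := Fact.out
  rcases subsingleton_or_nontrivial G with hs | hnt
  · exact ⟨⊥, ⊤, fun e he r _ => by rw [Subgroup.mem_bot.1 he, one_mul, mul_one], bot_sup_eq ⊤, Or.inl rfl,
      Or.inl inferInstance⟩
  obtain ⟨C, Z, O, E, R, hZR, hOZ, hZc, hOn, hZcyc, hOc, hO, hER, hsup, hE, hEp, hEc, hCR, -, hCE⟩ :=
    exists_split hG hsymp hnt
  haveI := hZc; haveI := hOn; haveI := hZcyc
  have hOcen : O ≤ Subgroup.center G := central_of_card hG hOc
  obtain ⟨a, ha, hgen⟩ := CfsgLib.SymplecticHall.exists_generator Z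
  by_cases hna : ∃ r ∈ R, ∃ s ∈ R, r * s ≠ s * r
  swap
  · push Not at hna
    have hRZ : R = Z := le_antisymm (fun r hr => hCR ▸ ⟨Subgroup.mem_centralizer_iff.2
      fun z hz => hna z (hZR hz) r hr, hr⟩) hZR
    exact ⟨E, R, hER, hsup, hE, Or.inl (hRZ ▸ hZcyc)⟩
  obtain ⟨r₀, hr₀, s₀, hs₀, hne⟩ := hna
  obtain ⟨n, hn⟩ := IsPGroup.iff_card.1 (hG.to_subgroup Z)
  have hn2 : 2 ≤ n := by
    by_contra h
    have hOeq : O = Z := Subgroup.eq_of_le_of_card_ge hOZ (by
      rw [hn, hOc]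
      calc p ^ n ≤ p ^ 1 := Nat.pow_le_pow_right hp.pos (by omega)
        _ = p := pow_one p)
    have hmem : ∀ t ∈ R, t ∈ Z := fun t ht => hCR ▸ ⟨Subgroup.mem_centralizer_iff.2
      fun y hy => (Subgroup.mem_center_iff.1 (hOcen (hOeq ▸ hy)) t).symm, ht⟩
    exact hne (Subgroup.mem_center_iff.1 (hOcen (hOeq ▸ hmem s₀ hs₀)) r₀)
  rcases eq_or_lt_of_le hn2 with rfl | hn3
  · -- the whole group is extraspecial
    have hX := small_case hG hOc hOZ hZR hER hsup hEp hEc hCR hgen hO hCE ⟨r₀, hr₀, s₀, hs₀, hne⟩ hn inferInstance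
    haveI : IsCyclic (Subgroup.center G) := isCyclic_of_prime_card hX.2
    refine ⟨⊤, Subgroup.center G, fun e _ r hr => (Subgroup.mem_center_iff.1 hr e), top_sup_eq _, Or.inr ?_,
      Or.inl inferInstance⟩
    exact isExtraspecial_congr (Subgroup.topEquiv (G := G)).symm hX
  -- apply the structure of groups with a self-centralising cyclic normal subgroup
  set U := Z.subgroupOf R
  haveI : U.Normal := inferInstanceAs ((Z.subgroupOf R).Normal)
  have hUe : U ≃* Z := Subgroup.subgroupOfEquivOfLe hZR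
  have hUcyc : IsCyclic U := isCyclic_of_surjective hUe.symm.toMonoidHom hUe.symm.surjective
  have hUn : Nat.card U = p ^ n := by rw [Nat.card_congr hUe.toEquiv, hn]
  have hUC : Subgroup.centralizer (U : Set R) = U := by
    refine le_antisymm (fun x hx => ?_) (fun x hx => ?_)
    · rw [Subgroup.mem_subgroupOf, ← hCR]
      exact ⟨Subgroup.mem_centralizer_iff.2 fun z hz => congrArg Subtype.val
        (Subgroup.mem_centralizer_iff.1 hx ⟨z, hZR hz⟩ (Subgroup.mem_subgroupOf.2 hz)), x.2⟩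
    · have hab : IsMulCommutative Z := inferInstance
      refine Subgroup.mem_centralizer_iff.2 fun y hy => ?_
      have h := congrArg Subtype.val
        (mul_comm' (⟨y.1, Subgroup.mem_subgroupOf.1 hy⟩ : Z) ⟨x.1, Subgroup.mem_subgroupOf.1 hx⟩)
      exact Subtype.ext h
  have hnaR : ¬ IsMulCommutative R := fun h => hne
    (congrArg Subtype.val (mul_comm' (⟨r₀, hr₀⟩ : R) ⟨s₀, hs₀⟩))
  rcases Cfsg.Agent.S3761.result (hG.to_subgroup R) hnaR U hUcyc n hUn hUC with
    ⟨rfl, hcard, htype⟩ | ⟨hrel, -, -, -⟩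
  · refine ⟨E, R, hER, hsup, hE, Or.inr ⟨rfl, ?_, htype⟩⟩
    rw [hcard]
    exact le_trans (by norm_num : 16 ≤ 2 ^ 4) (Nat.pow_le_pow_right (by norm_num) (by omega))
  exfalso
  -- an element outside `Z` centralising the proper powers
  obtain ⟨m, hmR, hmZ, hmc⟩ : ∃ m ∈ R, m ∉ Z ∧ Commute m (a ^ p) := by
    by_contra hno
    push Not at hno
    have : U.relIndex (Subgroup.centralizer (Cfsg.powerClosure p 1 U : Set R)) = 1 := by
      rw [Subgroup.relIndex_eq_one]
      intro x hx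
      by_contra hxU
      refine hno x x.2 (fun h => hxU (Subgroup.mem_subgroupOf.2 h)) ?_
      have hmem : (⟨a, hZR ha⟩ : R) ^ p ∈ Cfsg.powerClosure p 1 U :=
        Subgroup.subset_closure ⟨⟨a, hZR ha⟩, Subgroup.mem_subgroupOf.2 ha, by rw [pow_one]⟩
      exact (congrArg Subtype.val (Subgroup.mem_centralizer_iff.1 hx _ hmem)).symm
    rw [this] at hrel
    exact hp.one_lt.ne hrel
  have hord : orderOf a = p ^ n := by rw [← Nat.card_zpowers, ← hgen, hn]
  have hpzn : (p : ℤ) ≠ 0 := by exact_mod_cast hp.ne_zero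
  -- elements of `Z` centralised by `m`
  have hfix : ∀ i : ℤ, Commute m (a ^ i) → (p : ℤ) ∣ i := by
    intro i hc
    by_contra hnd
    obtain ⟨u, v, huv⟩ := ((Nat.prime_iff_prime_int.1 hp).coprime_iff_not_dvd.2 hnd)
    apply hmZ
    rw [← hCR]
    refine ⟨?_, hmR⟩
    have hma : Commute m a := by
      rw [← zpow_one a, ← huv, zpow_add, mul_comm u, mul_comm v, zpow_mul, zpow_mul, zpow_natCast]
      exact (hmc.zpow_right u).mul_right (hc.zpow_right v)
    rw [hgen, Subgroup.zpowers_eq_closure, Subgroup.centralizer_closure]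
    exact Subgroup.mem_centralizer_singleton_iff.2 hma.eq
  set W := Subgroup.zpowers (a ^ p) with hW
  set X := Subgroup.centralizer (W : Set G) with hX
  have hWc : W.Characteristic := characteristic_of_forall _ fun φ x hx => by
    obtain ⟨i, rfl⟩ := Subgroup.mem_zpowers_iff.1 hx
    have h := apply_mem hZc φ ha
    rw [hgen] at h
    obtain ⟨j, hj⟩ := Subgroup.mem_zpowers_iff.1 h
    rw [map_zpow, map_pow, ← hj]
    refine zpow_mem ?_ i
    rw [← zpow_natCast, ← zpow_mul, mul_comm, zpow_mul, zpow_natCast]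
    exact zpow_mem (Subgroup.mem_zpowers _) j
  have hXc : X.Characteristic := characteristic_of_forall _ fun φ x hx => centralizer_apply_mem hWc φ hx
  have hmemX : ∀ x, x ∈ X ↔ Commute x (a ^ p) := fun x => by
    rw [hX, hW, Subgroup.zpowers_eq_closure, Subgroup.centralizer_closure, Subgroup.mem_centralizer_singleton_iff]
    exact Iff.rfl
  have hWZ : W ≤ Z := Subgroup.zpowers_le.2 (pow_mem ha p)
  have hcommA : ∀ i : ℤ, Commute (a ^ i) (a ^ p) := fun i => ((Commute.refl a).zpow_left i).pow_right p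
  have hEa : ∀ e ∈ E, Commute e a := fun e he => hER e he a (hZR ha)
  have hOW : O ≤ W := by
    intro x hx
    obtain ⟨hxZ, hx1⟩ := (hO x).1 hx
    rw [hgen] at hxZ
    obtain ⟨i, rfl⟩ := Subgroup.mem_zpowers_iff.1 hxZ
    rw [← zpow_natCast, ← zpow_mul, ← orderOf_dvd_iff_zpow_eq_one, hord, Nat.cast_pow] at hx1
    obtain ⟨k, hk⟩ := hx1
    have hdvd : (p : ℤ) ∣ i := ⟨(p : ℤ) ^ (n - 2) * k, by
      apply mul_right_cancel₀ hpzn
      rw [hk, show n = n - 2 + 1 + 1 by omega, pow_succ, pow_succ, show n - 2 + 1 + 1 - 2 = n - 2 by omega]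
      ring⟩
    obtain ⟨l, rfl⟩ := hdvd
    rw [zpow_mul, zpow_natCast]
    exact zpow_mem (Subgroup.mem_zpowers _) l
  -- the action on `Z` of the part in `R`
  have hact : ∀ r : ↥(R ⊓ X), ⁅(r : G), a⁆ ∈ O := by
    rintro ⟨r, hr, hrX⟩
    have hz : ⁅r, a⁆ ∈ Z := by
      rw [commutatorElement_def]
      exact mul_mem ((inferInstance : Z.Normal).conj_mem a ha r) (inv_mem ha)
    refine (hO _).2 ⟨hz, ?_⟩
    have hc : Commute ⁅r, a⁆ a := by
      rw [hgen] at hz
      obtain ⟨i, hi⟩ := Subgroup.mem_zpowers_iff.1 hz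
      rw [← hi]
      exact (Commute.refl a).zpow_left i
    have h2 : (⁅r, a⁆ * a) ^ p = a ^ p := by
      rw [show ⁅r, a⁆ * a = r * a * r⁻¹ by simp [commutatorElement_def, mul_assoc], conj_pow,
        ((hmemX r).1 hrX).eq, mul_inv_cancel_right]
    rw [hc.mul_pow] at h2
    exact mul_eq_right.1 h2
  let f : ↥(R ⊓ X) →* O := MonoidHom.mk' (fun r => ⟨⁅(r : G), a⁆, hact r⟩) fun r t => Subtype.ext (by
    change ⁅(r : G) * t, a⁆ = ⁅(r : G), a⁆ * ⁅(t : G), a⁆
    exact CfsgLib.PGroup.commutator_mul_left_central (hOcen (hact t)))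
  have hkerf : ∀ r : ↥(R ⊓ X), f r = 1 → (r : G) ∈ Z := fun r h => by
    rw [← hCR]
    refine ⟨?_, r.2.1⟩
    rw [hgen, Subgroup.zpowers_eq_closure, Subgroup.centralizer_closure]
    exact Subgroup.mem_centralizer_singleton_iff.2
      (commutatorElement_eq_one_iff_mul_comm.1 (congrArg Subtype.val h))
  have hmX : m ∈ X := (hmemX m).2 hmc
  let m' : ↥(R ⊓ X) := ⟨m, hmR, hmX⟩
  have hRX : ∀ r ∈ R, r ∈ X → ∃ i j : ℤ, r = a ^ i * m ^ j := by
    intro r hr hrX
    have hfm : f m' ≠ 1 := fun h => hmZ (hkerf m' h)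
    obtain ⟨j, hj⟩ : ∃ j : ℤ, f m' ^ j = f ⟨r, hr, hrX⟩ :=
      Subgroup.mem_zpowers_iff.1 (mem_zpowers_of_prime_card hOc hfm)
    have h1 := hkerf (⟨r, hr, hrX⟩ * (m' ^ j)⁻¹) (by rw [map_mul, map_inv, map_zpow, hj, mul_inv_cancel])
    rw [hgen] at h1
    obtain ⟨i, hi⟩ := Subgroup.mem_zpowers_iff.1 h1
    exact ⟨i, j, by rw [hi]; simp [m']⟩
  have hma : Commute (QuotientGroup.mk' O m) (QuotientGroup.mk' O a) := by
    refine commutatorElement_eq_one_iff_mul_comm.1 ?_
    rw [← map_commutatorElement, QuotientGroup.mk'_apply, QuotientGroup.eq_one_iff]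
    exact hact m'
  have hMc : ∀ r ∈ R, r ∈ X → ∀ t ∈ R, t ∈ X → ⁅r, t⁆ ∈ O := by
    intro r hr hrX t ht htX
    obtain ⟨i, j, rfl⟩ := hRX r hr hrX
    obtain ⟨k, l, rfl⟩ := hRX t ht htX
    rw [← QuotientGroup.eq_one_iff, ← QuotientGroup.mk'_apply, map_commutatorElement,
      commutatorElement_eq_one_iff_mul_comm, map_mul, map_mul, map_zpow, map_zpow, map_zpow, map_zpow]
    exact ((((Commute.refl _).zpow_zpow i k).mul_right (hma.symm.zpow_zpow i l)).mul_left
      ((hma.zpow_zpow j k).mul_right ((Commute.refl _).zpow_zpow j l))).eq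
  have hMp : ∀ r ∈ R, r ∈ X → r ^ p ∈ W := by
    intro r hr hrX
    have h1 : r ^ p ∈ Z := hkerf (⟨r, hr, hrX⟩ ^ p) (by
      rw [map_pow, ← hOc]; exact pow_card_eq_one')
    rw [hgen] at h1
    obtain ⟨i, hi⟩ := Subgroup.mem_zpowers_iff.1 h1
    rw [← hi]
    by_cases hd : (p : ℤ) ∣ i
    · obtain ⟨l, rfl⟩ := hd
      rw [zpow_mul, zpow_natCast]
      exact zpow_mem (Subgroup.mem_zpowers _) l
    · exfalso
      obtain ⟨u, v, huv⟩ := ((Nat.prime_iff_prime_int.1 hp).coprime_iff_not_dvd.2 hd)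
      have hra : Commute r a := by
        rw [← zpow_one a, ← huv, zpow_add, mul_comm u, mul_comm v, zpow_mul, zpow_mul, zpow_natCast, hi]
        exact (((hmemX r).1 hrX).zpow_right u).mul_right (((Commute.refl r).pow_right p).zpow_right v)
      have hrZ : r ∈ Z := by
        rw [← hCR]
        refine ⟨?_, hr⟩
        rw [hgen, Subgroup.zpowers_eq_closure, Subgroup.centralizer_closure]
        exact Subgroup.mem_centralizer_singleton_iff.2 hra.eq
      rw [hgen] at hrZ
      obtain ⟨k, rfl⟩ := Subgroup.mem_zpowers_iff.1 hrZ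
      rw [← zpow_natCast, ← zpow_mul, zpow_eq_zpow_iff_modEq, hord, Int.modEq_iff_dvd] at hi
      apply hd
      have h2 : (p : ℤ) ∣ k * p - i :=
        (dvd_pow_self _ (by omega : n ≠ 0)).trans (by exact_mod_cast hi)
      simpa using dvd_sub (dvd_mul_left (p : ℤ) k) h2
  have hdec : ∀ x ∈ X, ∃ e ∈ E, ∃ r ∈ R, r ∈ X ∧ x = e * r := by
    intro x hx
    obtain ⟨e, he, r, hr, rfl⟩ := mem_product hER hsup x
    have heX : e ∈ X := (hmemX e).2 ((hEa e he).pow_right p)
    exact ⟨e, he, r, hr, by simpa using mul_mem (inv_mem heX) hx, rfl⟩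
  have hZX : Z ≤ X := fun z hz => by
    rw [hgen] at hz
    obtain ⟨i, rfl⟩ := Subgroup.mem_zpowers_iff.1 hz
    exact (hmemX _).2 (hcommA i)
  have hWcen : ∀ w ∈ W, ∀ x ∈ X, x * w = w * x := fun w hw x hx =>
    (Subgroup.mem_centralizer_iff.1 hx w hw).symm
  have hEX : ∀ e ∈ E, e ∈ X := fun e he => (hmemX e).2 ((hEa e he).pow_right p)
  have hcenX : ∀ x : X, x ∈ Subgroup.center X ↔ (x : G) ∈ W := by
    intro x
    constructor
    · intro hx
      have hcx : ∀ y ∈ X, Commute y (x : G) := fun y hy =>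
        congrArg Subtype.val (Subgroup.mem_center_iff.1 hx ⟨y, hy⟩)
      have h1 : (x : G) ∈ R := hCE (Subgroup.mem_centralizer_iff.2 fun e he => hcx e (hEX e he))
      have h2 : (x : G) ∈ Z := hCR ▸ ⟨Subgroup.mem_centralizer_iff.2 fun z hz => hcx z (hZX hz), h1⟩
      rw [hgen] at h2
      obtain ⟨i, hi⟩ := Subgroup.mem_zpowers_iff.1 h2
      obtain ⟨l, rfl⟩ := hfix i (hi ▸ hcx m hmX)
      rw [← hi, zpow_mul, zpow_natCast]
      exact zpow_mem (Subgroup.mem_zpowers _) l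
    · exact fun hx => Subgroup.mem_center_iff.2 fun y => Subtype.ext (hWcen _ hx _ y.2)
  have h2X : ∀ x y : X, ⁅x, y⁆ ∈ Subgroup.center X := by
    rintro ⟨x, hx⟩ ⟨y, hy⟩
    rw [hcenX]
    change ⁅x, y⁆ ∈ W
    obtain ⟨e, he, r, hr, hrX, rfl⟩ := hdec x hx
    obtain ⟨g, hg, t, ht, htX, rfl⟩ := hdec y hy
    exact hOW (commutator_product (hEc e he g hg) (hMc r hr hrX t ht htX) (hER e he t ht) (hER g hg r hr).symm)
  have hpX : ∀ x : X, x ^ p ∈ Subgroup.center X := by
    rintro ⟨x, hx⟩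
    rw [hcenX]
    change x ^ p ∈ W
    obtain ⟨e, he, r, hr, hrX, rfl⟩ := hdec x hx
    rw [(show Commute e r from hER e he r hr).mul_pow]
    exact mul_mem (hOW (hEp e he)) (hMp r hr hrX)
  have hcardW : p ^ 2 ≤ Nat.card (Subgroup.center X) := by
    have e1 : Nat.card (Subgroup.center X) = Nat.card W := Nat.card_congr
      { toFun := fun c => ⟨(c.1 : G), (hcenX _).1 c.2⟩
        invFun := fun c => ⟨⟨c.1, hZX (hWZ c.2)⟩, (hcenX _).2 c.2⟩
        left_inv := fun c => rfl
        right_inv := fun c => rfl }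
    rw [e1, hW, Nat.card_zpowers, orderOf_pow' _ hp.ne_zero, hord,
      Nat.gcd_eq_right (dvd_pow_self p (by omega)), Nat.le_div_iff_mul_le hp.pos, ← pow_succ]
    exact Nat.pow_le_pow_right hp.pos (by omega)
  obtain ⟨w, hw, hwp⟩ := pow_eq_central (hG.to_subgroup X) (sym_subgroup hsymp X hXc) hpX h2X hcardW
    ⟨a, hZX ha⟩
  obtain ⟨l, hl⟩ := Subgroup.mem_zpowers_iff.1 ((hcenX w).1 hw)
  have h3 : a ^ p = ((w : G)) ^ p := congrArg Subtype.val hwp
  have h3' : a ^ (p : ℤ) = a ^ ((p : ℤ) * l * p) := by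
    rw [zpow_mul, zpow_mul, zpow_natCast, zpow_natCast, hl]
    exact h3
  clear h3
  rename' h3' => h3
  rw [zpow_eq_zpow_iff_modEq, hord, Int.modEq_iff_dvd] at h3
  obtain ⟨k, hk⟩ := h3
  have h4 : (p : ℤ) * ((p : ℤ) * l - 1) = (p : ℤ) * ((p : ℤ) * ((p : ℤ) ^ (n - 2) * k)) := by
    push_cast at hk
    rw [show n = n - 2 + 1 + 1 by omega, pow_succ, pow_succ] at hk
    linear_combination hk
  have h5 := mul_left_cancel₀ hpzn h4
  have h6 : (p : ℤ) ∣ 1 := ⟨l - (p : ℤ) ^ (n - 2) * k, by linear_combination -h5⟩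
  exact hp.one_lt.ne' (by exact_mod_cast Int.eq_one_of_dvd_one (by positivity) h6)

end Cfsg.Agent.S3762
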