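import Cfsg.Statements.S3763
import Cfsg.Agent.PGroup.ExtraspecialIso

set_option autoImplicit false
open Cfsg

namespace Cfsg.Agent.S3763

theorem rank_iff {F : Type*} [Group F] [Finite F] (hF : Cfsg.IsExtraspecial 2 F) (n : ℕ) :
    Cfsg.PRankLE 2 n F ↔ ¬ CfsgLib.Extraspecial.IsPlus n F := by
  constructor
  · rintro h1 ⟨A, hA, hA2, hAc⟩
    have := h1 A hA hA2
    rw [pow_succ] at hAc
    have := pow_pos (two_pos (α := ℕ)) n
    omega
  · intro h1 A hA hA2
    obtain ⟨k, hk⟩ := (hF.1.1.to_subgroup A).exists_card_eq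
    rw [hk]
    refine Nat.pow_le_pow_right two_pos ?_
    by_contra hk'
    exact h1 ⟨A, hA, hA2, hk ▸ Nat.pow_le_pow_right two_pos (by omega)⟩

/-- Let E be an extraspecial 2-group of order 2^(2n+1). Then the largest elementary abelian subgroups of E have order 2^n or 2^(n+1); and two extraspecial 2-groups of the same order whose largest elementary abelian subgroups have the same order are isomorphic. -/
theorem result {E : Type*} [Group E] [Finite E] (hE : Cfsg.IsExtraspecial 2 E) (n : ℕ) (hn : Nat.card E = 2 ^ (2 * n + 1)) : ((Cfsg.PRankLE 2 n E ∧ ¬ Cfsg.PRankLE 2 (n - 1) E) ∨ (Cfsg.PRankLE 2 (n + 1) E ∧ ¬ Cfsg.PRankLE 2 n E)) ∧ ∀ (E' : Type*) [Group E'] [Finite E'], Cfsg.IsExtraspecial 2 E' → Nat.card E' = Nat.card E → (∀ k : ℕ, Cfsg.PRankLE 2 k E ↔ Cfsg.PRankLE 2 k E') → Nonempty (E ≃* E') := by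
  have h := CfsgLib.Extraspecial.xs_of_isExtraspecial hE
  have hbound : ∀ A : Subgroup E, IsMulCommutative A → (∀ a ∈ A, a ^ 2 = 1) → Nat.card A ≤ 2 ^ (n + 1) := by
    intro A hA _
    have := CfsgLib.Extraspecial.card_abelian_sq_le hE hA
    rw [hn, ← pow_succ'] at this
    rw [← Nat.pow_le_pow_iff_left (n := 2) two_ne_zero, ← pow_mul]
    calc (Nat.card A) ^ 2 = Nat.card A * Nat.card A := pow_two _
      _ ≤ 2 ^ (2 * n + 1 + 1) := this
      _ = 2 ^ ((n + 1) * 2) := by congr 1; omega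
  refine ⟨?_, fun E' _ _ hE' hc hrank => ?_⟩
  · obtain ⟨k, hk1, hk⟩ := CfsgLib.Extraspecial.exists_card hE
    have hkn : k = n := by
      have := Nat.pow_right_injective le_rfl (hk.symm.trans hn)
      omega
    subst hkn
    by_cases hP : Cfsg.PRankLE 2 k E
    · refine Or.inl ⟨hP, fun h1 => ?_⟩
      obtain ⟨A, hA, hA2, hAc⟩ := CfsgLib.Extraspecial.exists_elementary k E h hn
      have := hAc.trans (h1 A hA hA2)
      have := (Nat.pow_le_pow_iff_right one_lt_two).mp this
      omega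
    · exact Or.inr ⟨hbound, hP⟩
  · obtain ⟨e⟩ := CfsgLib.Extraspecial.iso_two n E E' h (CfsgLib.Extraspecial.xs_of_isExtraspecial hE') hn
      (hc.trans hn) (not_iff_not.mp (((rank_iff hE n).symm.trans (hrank n)).trans (rank_iff hE' n)))
    exact ⟨e⟩

end Cfsg.Agent.S3763
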