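import Cfsg.Statements.S3764
import Cfsg.Agent.ExtraFpf.Module
import Cfsg.Agent.ExtraFpf.ConjRep

set_option autoImplicit false
open Cfsg
open scoped IsMulCommutative commutatorElement

namespace Cfsg.Agent.S3764

/-- Let p, q, r be distinct primes and let X, Q, V be subgroups of a finite group with X of order r, Q an extraspecial q-group normalized by X with C_Q(X) = Z(Q), and V an elementary abelian p-group normalized by X and Q on which XQ acts faithfully ((X ⊔ Q) ∩ C(V) = 1). If C_V(X) = 1, then q = 2, r = 2^n + 1 for some n, and Q has order 2^(2n+1). -/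
theorem result {G : Type*} [Group G] [Finite G] {p q r : ℕ} (hp : p.Prime) (hq : q.Prime) (hr : r.Prime) (hpq : p ≠ q) (hpr : p ≠ r) (hqr : q ≠ r) (X Q V : Subgroup G) (hX : Nat.card X = r) (hQ : Cfsg.IsExtraspecial q ↥Q) (hXQ : X ≤ Subgroup.normalizer (Q : Set G)) (hCQ : Q ⊓ Subgroup.centralizer (X : Set G) = (Subgroup.center ↥Q).map Q.subtype) (hV : Cfsg.IsElementaryAbelian p V) (hXV : X ≤ Subgroup.normalizer (V : Set G)) (hQV : Q ≤ Subgroup.normalizer (V : Set G)) (hfaith : (X ⊔ Q) ⊓ Subgroup.centralizer (V : Set G) = ⊥) (hCV : V ⊓ Subgroup.centralizer (X : Set G) = ⊥) : q = 2 ∧ ∃ n : ℕ, r = 2 ^ n + 1 ∧ Nat.card Q = 2 ^ (2 * n + 1) := by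
  haveI := Fact.mk hp
  haveI := Fact.mk hq
  haveI := Fact.mk hr
  haveI := hV.1
  have hzero : ∀ v : Additive V, p • v = 0 := fun v =>
    Additive.toMul.injective (Subtype.ext (by
      show (((Additive.toMul v) ^ p : V) : G) = 1
      rw [SubgroupClass.coe_pow]
      exact hV.2 _ (Additive.toMul v).2))
  haveI : Module (ZMod p) (Additive V) := AddCommGroup.zmodModule (n := p) (G := Additive V) hzero
  obtain ⟨x0, hx01⟩ : ∃ x0 : X, x0 ≠ 1 := by
    haveI : Nontrivial X := Finite.one_lt_card_iff_nontrivial.1 (hX ▸ hr.one_lt)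
    exact exists_ne 1
  have hgen : X = Subgroup.zpowers (x0 : G) := by
    refine (Subgroup.eq_of_le_of_card_ge (Subgroup.zpowers_le.2 x0.2) ?_).symm
    rw [Nat.card_zpowers, Subgroup.orderOf_coe, orderOf_eq_prime (show x0 ^ r = 1 by rw [← hX]; exact pow_card_eq_one') hx01, hX]
  have hcentX : ∀ g : G, g ∈ Subgroup.centralizer (X : Set G) ↔ g ∈ Subgroup.centralizer ({(x0 : G)} : Set G) := fun g => by
    conv_lhs => rw [hgen, Subgroup.zpowers_eq_closure, Subgroup.centralizer_closure]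
  have hxr : (x0 : G) ^ r = 1 := by
    rw [← hX, ← SubgroupClass.coe_pow, pow_card_eq_one', OneMemClass.coe_one]
  set σ : MulAut Q := Q.normalizerMonoidHom ⟨(x0 : G), hXQ x0.2⟩ with hσ
  have hσapp : ∀ a : Q, ((σ a : Q) : G) = (x0 : G) * (a : G) * (x0 : G)⁻¹ := fun a => rfl
  have hσr : σ ^ r = 1 := by
    rw [hσ, ← map_pow]
    convert map_one Q.normalizerMonoidHom
    exact Subtype.ext hxr
  have hmemZ : ∀ a : Q, a ∈ Subgroup.center Q ↔ (a : G) ∈ Subgroup.centralizer (X : Set G) := by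
    intro a
    constructor
    · intro ha
      exact ((hCQ.symm ▸ ⟨a, ha, rfl⟩ : (a : G) ∈ Q ⊓ Subgroup.centralizer (X : Set G))).2
    · intro ha
      obtain ⟨b, hb, hba⟩ : (a : G) ∈ (Subgroup.center Q).map Q.subtype := hCQ ▸ ⟨a.2, ha⟩
      rwa [← show b = a from Subtype.ext hba]
  have hσZ : ∀ z ∈ Subgroup.center Q, σ z = z := by
    intro z hz
    apply Subtype.ext
    have := Subgroup.mem_centralizer_singleton_iff.1 ((hcentX _).1 ((hmemZ z).1 hz))
    rw [hσapp, ← this, mul_inv_cancel_right]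
  have hfree : ∀ a : Q, a⁻¹ * σ a ∈ Subgroup.center Q → a ∈ Subgroup.center Q := by
    intro a ha
    set z := a⁻¹ * σ a with hz
    have hσa : σ a = a * z := by rw [hz, mul_inv_cancel_left]
    have hit : ∀ i : ℕ, (σ ^ i) a = a * z ^ i := by
      intro i
      induction i with
      | zero => simp
      | succ i ih => rw [pow_succ', MulAut.mul_apply, ih, map_mul, map_pow, hσZ z ha, hσa, mul_assoc, ← pow_succ']
    have hzr : z ^ r = 1 := by
      have := hit r
      rw [hσr, MulAut.one_apply] at this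
      exact (mul_eq_left.1 this.symm)
    have hz1 : z = 1 := by
      rw [← orderOf_eq_one_iff]
      exact Nat.eq_one_of_dvd_coprimes ((Nat.coprime_primes hq hr).2 hqr)
        (orderOf_dvd_of_pow_eq_one ((CfsgLib.Extraspecial.xs_of_isExtraspecial hQ).pow_center ha))
        (orderOf_dvd_of_pow_eq_one hzr)
    rw [hz1, mul_one] at hσa
    refine (hmemZ a).2 ((hcentX _).2 (Subgroup.mem_centralizer_singleton_iff.2 ?_))
    exact (mul_inv_eq_iff_eq_mul.1 (congrArg Subtype.val hσa)).symm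
  let ρ : Q →* Module.End (ZMod p) (Additive V) := (CfsgLib.ExtraFpf.conjRep V p).comp (Subgroup.inclusion hQV)
  set gx : Subgroup.normalizer (V : Set G) := ⟨(x0 : G), hXV x0.2⟩ with hgx
  have hgxr : gx ^ r = 1 := Subtype.ext hxr
  refine CfsgLib.ExtraFpf.eq_two_of_fpf (p := p) (V := Additive V) hr hpq hpr hqr hQ ρ ?_ σ hσr hσZ hfree
    (CfsgLib.ExtraFpf.conjRep V p gx) (by rw [← map_pow, hgxr, map_one])
    (CfsgLib.ExtraFpf.sum_pow_eq_zero V p gx hgxr (eq_bot_iff.2 fun g hg => hCV ▸ ⟨hg.1, (hcentX g).2 hg.2⟩)) ?_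
  · obtain ⟨z, hz, hz1⟩ := (CfsgLib.Extraspecial.xs_of_isExtraspecial hQ).exists_ne_one
    refine ⟨z, hz, fun h => hz1 (Subtype.ext ?_)⟩
    have h' := (CfsgLib.ExtraFpf.conjRep_eq_one V p _).1 h
    exact Subgroup.mem_bot.1 (hfaith ▸ ⟨Subgroup.mem_sup_right z.2, h'⟩)
  · intro a
    show CfsgLib.ExtraFpf.conjRep V p gx * CfsgLib.ExtraFpf.conjRep V p _ =
      CfsgLib.ExtraFpf.conjRep V p _ * CfsgLib.ExtraFpf.conjRep V p gx
    rw [← map_mul, ← map_mul]
    congr 1
    refine Subtype.ext ?_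
    show (x0 : G) * (a : G) = ((σ a : Q) : G) * (x0 : G)
    rw [hσapp, inv_mul_cancel_right]

end Cfsg.Agent.S3764
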