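import Cfsg.Statements.S3766
import Cfsg.Agent.Hall.StructBatch
import Cfsg.Agent.Components.Cores

set_option autoImplicit false
open Cfsg
open scoped commutatorElement

namespace Cfsg.Agent.S3766


universe u

theorem eq_bot_of_perfect {G : Type u} [Group G] [Group.IsSolvable G] {M : Subgroup G} (h : ⁅M, M⁆ = M) : M = ⊥ := by
  obtain ⟨n, hn⟩ := (inferInstance : Group.IsSolvable G).solvable
  have h1 : ∀ k, M ≤ derivedSeries G k := by
    intro k
    induction k with
    | zero => exact le_top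
    | succ k ih => rw [derivedSeries_succ, ← h]; exact Subgroup.commutator_mono ih ih
  exact le_bot_iff.1 (hn ▸ h1 n)

theorem exists_chief_below {G : Type u} [Group G] [Finite G] {L : Subgroup G} (hL : L.Normal) (h : L ≠ ⊥) :
    ∃ V : Subgroup G, V.Normal ∧ V < L ∧ ∀ W : Subgroup G, W.Normal → V ≤ W → W ≤ L → W = V ∨ W = L := by
  obtain ⟨V, hV, hmax⟩ := (Set.toFinite {V : Subgroup G | V.Normal ∧ V < L}).exists_maximal
    ⟨⊥, inferInstance, bot_lt_iff_ne_bot.2 h⟩
  refine ⟨V, hV.1, hV.2, fun W hW h1 h2 => ?_⟩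
  rcases eq_or_lt_of_le h2 with h3 | h3
  · exact Or.inr h3
  · exact Or.inl (le_antisymm (hmax ⟨hW, h3⟩ h1) h1)

/-- A normal nilpotent subgroup centralizes every chief factor. -/
theorem chief_fix {G : Type u} [Group G] [Finite G] {F U V : Subgroup G} (hFn : F.Normal)
    (hF : Group.IsNilpotent F) (hU : U.Normal) (hV : V.Normal)
    (hUV : V ≤ U) (hch : ∀ W : Subgroup G, W.Normal → V ≤ W → W ≤ U → W = V ∨ W = U) {g u : G}
    (hg : g ∈ F) (hu : u ∈ U) : u * g * u⁻¹ * g⁻¹ ∈ V := by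
  haveI := hV
  set π := QuotientGroup.mk' V with hπ
  have hπs : Function.Surjective π := QuotientGroup.mk'_surjective V
  haveI : (U.map π).Normal := hU.map π hπs
  have hmin : ∀ K : Subgroup (G ⧸ V), K.Normal → K ≤ U.map π → K = ⊥ ∨ K = U.map π := by
    intro K hK hle
    have h0 : V ≤ K.comap π := fun v hv => by
      rw [Subgroup.mem_comap, show π v = 1 from (QuotientGroup.eq_one_iff v).2 hv]
      exact one_mem K
    have h1 : K.comap π ≤ U := by
      refine (Subgroup.comap_mono hle).trans ?_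
      rw [Subgroup.comap_map_eq, hπ, QuotientGroup.ker_mk', sup_eq_left.2 hUV]
    rcases hch (K.comap π) (hK.comap π) h0 h1 with h2 | h2
    · refine Or.inl ?_
      rw [← Subgroup.map_comap_eq_self_of_surjective hπs K, h2, hπ, QuotientGroup.map_mk'_self]
    · exact Or.inr (by rw [← Subgroup.map_comap_eq_self_of_surjective hπs K, h2])
  have hFbar : π g ∈ Cfsg.fittingSubgroup (G ⧸ V) := by
    haveI := hF
    refine CfsgLib.Components.le_fittingSubgroup (hFn.map π hπs) ?_ (Subgroup.mem_map_of_mem π hg)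
    exact Group.nilpotent_of_surjective (π.subgroupMap F) (π.subgroupMap_surjective F)
  have h2 := Subgroup.mem_centralizer_iff.1
    (CfsgLib.Hall.Struct.fitting_le_centralizer_minNormal (U.map π) hmin hFbar) (π u) (Subgroup.mem_map_of_mem π hu)
  refine (QuotientGroup.eq_one_iff _).1 ?_
  show π (u * g * u⁻¹ * g⁻¹) = 1
  rw [map_mul, map_mul, map_mul, map_inv, map_inv, h2]
  group


/-- Let G be a finite solvable group and N a normal subgroup of G. Call a pair V < U of normal subgroups of G a chief factor of G when no normal subgroup of G lies strictly between them; an element g centralizes the chief factor U/V when u g u⁻¹ g⁻¹ ∈ V for all u ∈ U. Then an element of G lies in the Fitting subgroup F(N) if and only if it lies in N and centralizes every chief factor of G; and also if and only if it lies in N and centralizes every chief factor U/V of G with U ≤ F(N). -/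
theorem result {G : Type*} [Group G] [Finite G] (hG : Group.IsSolvable G) (N : Subgroup G) [N.Normal] (g : G) : (g ∈ (Cfsg.fittingSubgroup ↥N).map N.subtype ↔ g ∈ N ∧ ∀ U V : Subgroup G, (U.Normal ∧ V.Normal ∧ V < U ∧ ∀ W : Subgroup G, W.Normal → V ≤ W → W ≤ U → W = V ∨ W = U) → ∀ u ∈ U, u * g * u⁻¹ * g⁻¹ ∈ V) ∧ (g ∈ (Cfsg.fittingSubgroup ↥N).map N.subtype ↔ g ∈ N ∧ ∀ U V : Subgroup G, (U.Normal ∧ V.Normal ∧ V < U ∧ ∀ W : Subgroup G, W.Normal → V ≤ W → W ≤ U → W = V ∨ W = U) → U ≤ (Cfsg.fittingSubgroup ↥N).map N.subtype → ∀ u ∈ U, u * g * u⁻¹ * g⁻¹ ∈ V) := by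
  haveI := hG
  set F := (Cfsg.fittingSubgroup ↥N).map N.subtype with hF
  haveI hFc : (Cfsg.fittingSubgroup ↥N).Characteristic := CfsgLib.Components.fittingSubgroup_characteristic
  haveI hFn : F.Normal := inferInstance
  have hFnil : Group.IsNilpotent F := by
    haveI := CfsgLib.Components.fittingSubgroup_isNilpotent (G := ↥N)
    exact Group.nilpotent_of_surjective
      ((Cfsg.fittingSubgroup ↥N).equivMapOfInjective N.subtype N.subtype_injective).toMonoidHom
      ((Cfsg.fittingSubgroup ↥N).equivMapOfInjective N.subtype N.subtype_injective).surjective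
  have hFN : F ≤ N := Subgroup.map_subtype_le _
  have fwd : g ∈ F → g ∈ N ∧ ∀ U V : Subgroup G, (U.Normal ∧ V.Normal ∧ V < U ∧
      ∀ W : Subgroup G, W.Normal → V ≤ W → W ≤ U → W = V ∨ W = U) → ∀ u ∈ U, u * g * u⁻¹ * g⁻¹ ∈ V :=
    fun hg => ⟨hFN hg, fun U V h u hu => chief_fix hFn hFnil h.1 h.2.1 h.2.2.1.le h.2.2.2 hg hu⟩
  have bwd : (g ∈ N ∧ ∀ U V : Subgroup G, (U.Normal ∧ V.Normal ∧ V < U ∧
      ∀ W : Subgroup G, W.Normal → V ≤ W → W ≤ U → W = V ∨ W = U) → U ≤ F →
      ∀ u ∈ U, u * g * u⁻¹ * g⁻¹ ∈ V) → g ∈ F := by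
    rintro ⟨hgN, hg⟩
    let P : G → Prop := fun x => ∀ U V : Subgroup G, (U.Normal ∧ V.Normal ∧ V < U ∧
      ∀ W : Subgroup G, W.Normal → V ≤ W → W ≤ U → W = V ∨ W = U) → U ≤ F →
      ∀ u ∈ U, u * x * u⁻¹ * x⁻¹ ∈ V
    let D : Subgroup G :=
      { carrier := {x | x ∈ N ∧ P x}
        one_mem' := ⟨one_mem N, fun U V _ _ u _ => by simp⟩
        mul_mem' := fun {x y} hx hy => ⟨mul_mem hx.1 hy.1, fun U V h hUF u hu => by
          rw [show u * (x * y) * u⁻¹ * (x * y)⁻¹ = (u * x * u⁻¹ * x⁻¹) * (x * (u * y * u⁻¹ * y⁻¹) * x⁻¹) by group]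
          exact mul_mem (hx.2 U V h hUF u hu) (h.2.1.conj_mem _ (hy.2 U V h hUF u hu) x)⟩
        inv_mem' := fun {x} hx => ⟨inv_mem hx.1, fun U V h hUF u hu => by
          rw [show u * x⁻¹ * u⁻¹ * x⁻¹⁻¹ = x⁻¹ * (u * x * u⁻¹ * x⁻¹)⁻¹ * x⁻¹⁻¹ by group]
          exact h.2.1.conj_mem _ (inv_mem (hx.2 U V h hUF u hu)) _⟩ }
    have hDn : D.Normal := ⟨fun x hx c => ⟨Subgroup.Normal.conj_mem inferInstance x hx.1 c, fun U V h hUF u hu => by
      rw [show u * (c * x * c⁻¹) * u⁻¹ * (c * x * c⁻¹)⁻¹ =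
        c * (c⁻¹ * u * c * x * (c⁻¹ * u * c)⁻¹ * x⁻¹) * c⁻¹ by group]
      refine h.2.1.conj_mem _ (hx.2 U V h hUF _ ?_) c
      simpa using h.1.conj_mem u hu c⁻¹⟩⟩
    have hFD : F ≤ D := fun x hx =>
      ⟨hFN hx, fun U V h _ u hu => chief_fix hFn hFnil h.1 h.2.1 h.2.2.1.le h.2.2.2 hx hu⟩
    suffices hDF : D ≤ F from hDF ⟨hgN, hg⟩
    by_contra hDF
    obtain ⟨M, hM, hmin⟩ := (Set.toFinite {M : Subgroup G | M.Normal ∧ F < M ∧ M ≤ D}).exists_minimal
      ⟨D, hDn, lt_of_le_not_ge hFD hDF, le_rfl⟩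
    obtain ⟨hMn, hFM, hMD⟩ := hM
    have hMM : ⁅M, M⁆ ≤ F := by
      by_contra hne
      have hlt : F < ⁅M, M⁆ ⊔ F := lt_of_le_of_ne le_sup_right fun e => hne (le_sup_left.trans e.ge)
      have hle : ⁅M, M⁆ ⊔ F ≤ M := sup_le (Subgroup.commutator_le_self M) hFM.le
      have heq : ⁅M, M⁆ ⊔ F = M := le_antisymm hle (hmin ⟨inferInstance, hlt, hle.trans hMD⟩ hle)
      have hmap := congrArg (fun K : Subgroup G => K.map (QuotientGroup.mk' F)) heq
      simp only [Subgroup.map_sup, Subgroup.map_commutator, QuotientGroup.map_mk'_self, sup_bot_eq] at hmap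
      haveI : Group.IsSolvable (G ⧸ F) :=
        Group.isSolvable_of_surjective (f := QuotientGroup.mk' F) (QuotientGroup.mk'_surjective F)
      have h0 := eq_bot_of_perfect hmap
      rw [Subgroup.map_eq_bot_iff, QuotientGroup.ker_mk'] at h0
      exact hFM.not_ge h0
    have hLn : ∀ k : ℕ, (M.lowerCentralSeries k).Normal := by
      intro k
      induction k with
      | zero => exact hMn
      | succ k ih => rw [Subgroup.lowerCentralSeries_succ]; infer_instance
    have hLF : ∀ k : ℕ, M.lowerCentralSeries (k + 1) ≤ F := fun k =>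
      (M.lowerCentralSeries_antitone (show 1 ≤ k + 1 by omega)).trans hMM
    have hstrict : ∀ k : ℕ, M.lowerCentralSeries (k + 1) ≠ ⊥ →
        Nat.card (M.lowerCentralSeries (k + 2)) < Nat.card (M.lowerCentralSeries (k + 1)) := by
      intro k hk
      obtain ⟨V, hV, hVlt, hVch⟩ := exists_chief_below (hLn (k + 1)) hk
      have hle : M.lowerCentralSeries (k + 2) ≤ V := by
        rw [Subgroup.lowerCentralSeries_succ, Subgroup.commutator_le]
        intro u hu x hx
        rw [commutatorElement_def]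
        exact (hMD hx).2 _ V ⟨hLn (k + 1), hV, hVlt, hVch⟩ (hLF k) u hu
      refine lt_of_le_of_ne (Subgroup.card_le_of_le (hle.trans hVlt.le)) fun e => ?_
      exact hVlt.not_ge ((Subgroup.eq_of_le_of_card_ge (hle.trans hVlt.le) e.ge) ▸ hle)
    obtain ⟨k, hk⟩ : ∃ k, M.lowerCentralSeries (k + 1) = ⊥ := by
      by_contra hno
      push Not at hno
      have hdec : ∀ k : ℕ, Nat.card (M.lowerCentralSeries (k + 1)) + k ≤ Nat.card (M.lowerCentralSeries 1) := by
        intro k
        induction k with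
        | zero => simp
        | succ k ih =>
          have := hstrict k (hno k)
          show Nat.card (M.lowerCentralSeries (k + 2)) + (k + 1) ≤ _
          omega
      have h1 := hdec (Nat.card (M.lowerCentralSeries 1))
      have h2 : 0 < Nat.card (M.lowerCentralSeries (Nat.card (M.lowerCentralSeries 1) + 1)) := Nat.card_pos
      omega
    have hMnil : Group.IsNilpotent M := (Subgroup.isNilpotent_iff_lowerCentralSeries M).2 ⟨k + 1, hk⟩
    have hMN : M ≤ N := fun x hx => (hMD hx).1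
    have h5 : M.subgroupOf N ≤ Cfsg.fittingSubgroup ↥N := CfsgLib.Components.le_fittingSubgroup (hMn.subgroupOf N)
      (Group.nilpotent_of_mulEquiv (Subgroup.subgroupOfEquivOfLe hMN).symm)
    exact hFM.not_ge fun x hx => ⟨⟨x, hMN hx⟩, h5 hx, rfl⟩
  exact ⟨⟨fwd, fun h => bwd ⟨h.1, fun U V h1 _ => h.2 U V h1⟩⟩,
    ⟨fun hg => ⟨(fwd hg).1, fun U V h1 _ => (fwd hg).2 U V h1⟩, bwd⟩⟩

end Cfsg.Agent.S3766
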