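import Cfsg.Statements.S3769
import Cfsg.Agent.PrimeAction.Basic
import Cfsg.Agent.ZJ.Replacement

set_option autoImplicit false
open Cfsg

namespace Cfsg.Agent.S3769
open scoped commutatorElement

/-- Let G and V be subgroups of a finite group with G solvable of odd order normalizing V, V an elementary abelian ℓ-group for a prime ℓ not dividing the order of G, and suppose G has a normal Hall subgroup K with a complement R of prime order. If C_V(R) = 1, then [R, K] centralizes V. -/
theorem result {X : Type*} [Group X] [Finite X] (G : Subgroup X) (hsolv : Group.IsSolvable G) (hodd : Odd (Nat.card G)) (V : Subgroup X) {ℓ : ℕ} (hℓ : ℓ.Prime) (hV : Cfsg.IsElementaryAbelian ℓ V) (hℓG : ¬ ℓ ∣ Nat.card G) (hGV : G ≤ Subgroup.normalizer (V : Set X)) (K R : Subgroup X) (hKG : K ≤ G) (hKn : G ≤ Subgroup.normalizer (K : Set X)) (hHall : (Nat.card K).Coprime (K.relIndex G)) (hRG : R ≤ G) (hR : (Nat.card R).Prime) (hKR : K ⊓ R = ⊥) (hKRG : K ⊔ R = G) (hCV : V ⊓ Subgroup.centralizer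 (R : Set X) = ⊥) : ⁅R, K⁆ ≤ Subgroup.centralizer (V : Set X) := by
  set r := Nat.card R with hr
  haveI := Fact.mk hℓ
  have hRK : R ≤ Subgroup.normalizer (K : Set X) := hRG.trans hKn
  have hcard : Nat.card G = Nat.card K * r := by
    have h := CfsgLib.ZJ.card_sup_mul_card_inf_of_le_normalizer hRK
    rw [sup_comm R K, hKRG, inf_comm, hKR, Subgroup.card_bot, mul_one] at h
    rw [h, mul_comm]
  have hrK : r.Coprime (Nat.card K) := by
    refine (Nat.Coprime.symm (hHall.coprime_dvd_right (dvd_of_eq ?_)))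
    refine Nat.eq_of_mul_eq_mul_left (Nat.card_pos (α := K)) ?_
    rw [← hcard, ← Subgroup.relIndex_bot_left, ← Subgroup.relIndex_bot_left,
      Subgroup.relIndex_mul_relIndex _ _ _ bot_le hKG]
  have hVp : IsPGroup ℓ V := fun v => ⟨1, Subtype.ext (by rw [pow_one, Subgroup.coe_pow]; exact hV.2 _ v.2)⟩
  set C := Subgroup.centralizer (V : Set X) with hC
  have hKC : ∀ k ∈ K, ∀ c ∈ C, k * c * k⁻¹ ∈ C := fun k hk c hc => Subgroup.mem_centralizer_iff.2 fun v hv => by
    have hv' : k⁻¹ * v * k ∈ V := by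
      simpa using (Subgroup.le_normalizer_iff.1 hGV) k⁻¹ (G.inv_mem (hKG hk)) v hv
    calc v * (k * c * k⁻¹) = k * ((k⁻¹ * v * k) * c) * k⁻¹ := by group
      _ = k * (c * (k⁻¹ * v * k)) * k⁻¹ := by rw [Subgroup.mem_centralizer_iff.1 hc _ hv']
      _ = k * c * k⁻¹ * v := by group
  let T : Subgroup X :=
    { carrier := {k | k ∈ K ∧ ∀ x ∈ R, ⁅k, x⁆ ∈ C}
      one_mem' := ⟨one_mem _, fun x _ => by rw [commutatorElement_one_left]; exact one_mem _⟩
      mul_mem' := fun {a b} ha hb => ⟨K.mul_mem ha.1 hb.1, fun x hx => by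
        rw [show ⁅a * b, x⁆ = a * ⁅b, x⁆ * a⁻¹ * ⁅a, x⁆ by rw [commutatorElement_def, commutatorElement_def, commutatorElement_def]; group]
        exact C.mul_mem (hKC a ha.1 _ (hb.2 x hx)) (ha.2 x hx)⟩
      inv_mem' := fun {a} ha => ⟨K.inv_mem ha.1, fun x hx => by
        rw [show ⁅a⁻¹, x⁆ = a⁻¹ * ⁅a, x⁆⁻¹ * a⁻¹⁻¹ by rw [commutatorElement_def, commutatorElement_def]; group]
        exact hKC _ (K.inv_mem ha.1) _ (C.inv_mem (ha.2 x hx))⟩ }
  have hKT : K ≤ T := by
    rw [← Subgroup.relIndex_eq_one]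
    refine Nat.eq_one_iff_not_exists_prime_dvd.2 fun q hq hqd => ?_
    haveI := Fact.mk hq
    have hqK : q ∣ Nat.card K := hqd.trans (Subgroup.relIndex_dvd_card _ _)
    obtain ⟨P, hP⟩ := CfsgLib.CoprimeAction.exists_invariant_sylow (p := q) hRK hrK (Or.inl (by
      haveI := Fact.mk hR
      haveI : IsCyclic R := isCyclic_of_prime_card (p := r) rfl
      letI : CommGroup R := IsCyclic.commGroup
      infer_instance))
    have hqr : q ≠ r := by
      rintro rfl
      exact hR.one_lt.ne' (Nat.eq_one_of_dvd_coprimes hrK dvd_rfl hqK)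
    have hqG : q ∣ Nat.card G := hqK.trans (Subgroup.card_dvd_of_le hKG)
    have hSK := Subgroup.map_subtype_le (P : Subgroup K)
    have hS := CfsgLib.PrimeAction.commutator_le_centralizer hℓ hq hR
      (fun e => hℓG (e ▸ hqG)) (fun e => hℓG (e ▸ Subgroup.card_dvd_of_le hRG)) hqr
      (fun e => Nat.not_even_iff_odd.2 hodd (even_iff_two_dvd.2 (e ▸ hqG)))
      (P.isPGroup'.map K.subtype) rfl hVp hP ((hSK.trans hKG).trans hGV) (hRG.trans hGV) hCV
    have hST : (P : Subgroup K).map K.subtype ≤ T :=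
      fun s hs => ⟨hSK hs, fun x hx => hS (Subgroup.commutator_mem_commutator hs hx)⟩
    refine P.not_dvd_index (hqd.trans ?_)
    have h := Subgroup.relIndex_dvd_of_le_left K hST
    rwa [Subgroup.relIndex, Subgroup.relIndex, Subgroup.subgroupOf, Subgroup.subgroupOf,
      Subgroup.comap_map_eq_self_of_injective K.subtype_injective] at h
  rw [Subgroup.commutator_comm, Subgroup.commutator_le]
  exact fun k hk x hx => (hKT hk).2 x hx


end Cfsg.Agent.S3769
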