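import Cfsg.Statements.S3770
import Cfsg.Agent.PrimeAction.FrobeniusNilpotent
import Cfsg.Agent.S0035
import Cfsg.Agent.S0039
import Cfsg.Agent.CoprimeAction.Abelian

set_option autoImplicit false
open Cfsg

namespace Cfsg.Agent.S3770
open scoped commutatorElement

/-- Let G and V be subgroups of a finite group with G a Frobenius group with complement R of prime order and kernel K, G normalizing V, and V an elementary abelian ℓ-group for a prime ℓ not dividing the order of G. If C_V(R) has order ℓ, then the derived subgroup of K centralizes V. -/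
theorem result {X : Type*} [Group X] [Finite X] (G : Subgroup X) (V : Subgroup X) {ℓ : ℕ} (hℓ : ℓ.Prime) (hV : Cfsg.IsElementaryAbelian ℓ V) (hℓG : ¬ ℓ ∣ Nat.card G) (hGV : G ≤ Subgroup.normalizer (V : Set X)) (R : Subgroup ↥G) (hR : Cfsg.IsFrobeniusComplement R) (hRp : (Nat.card R).Prime) (hCV : Nat.card ↥(V ⊓ Subgroup.centralizer ((R.map G.subtype : Subgroup X) : Set X)) = ℓ) : ⁅Subgroup.closure (Subtype.val '' Cfsg.frobeniusKernel R), Subgroup.closure (Subtype.val '' Cfsg.frobeniusKernel R)⁆ ≤ Subgroup.centralizer (V : Set X) := by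
  classical
  obtain ⟨N, hN, hNn, hc⟩ := Cfsg.Agent.S0035.result R hR
  rw [← hN, show Subgroup.closure (Subtype.val '' (N : Set G)) = N.map G.subtype by
    rw [← Subgroup.coe_subtype, ← Subgroup.coe_map, Subgroup.closure_eq]]
  haveI := hNn
  haveI := hV.1
  haveI := Fact.mk hℓ
  set K := N.map G.subtype with hK
  set R' := R.map G.subtype with hR'
  have hN1 : N ≠ ⊥ := fun h => hR.2.1 (by simpa [h] using hc.sup_eq_top)
  have hfpf := (Cfsg.Agent.S0039.result N R hc hN1 hR.1).1 hR
  have hKR : K ⊔ R' = G := by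
    rw [hK, hR', ← Subgroup.map_sup, hc.sup_eq_top, ← MonoidHom.range_eq_map, Subgroup.range_subtype]
  have hKG : K ≤ G := Subgroup.map_subtype_le _
  have hRG : R' ≤ G := Subgroup.map_subtype_le _
  have hVp : IsPGroup ℓ V := fun v => ⟨1, Subtype.ext (by rw [pow_one, Subgroup.coe_pow]; exact hV.2 _ v.2)⟩
  have hcop : (Nat.card G).Coprime (Nat.card V) := by
    obtain ⟨n, hn⟩ := hVp.exists_card_eq
    rw [hn]
    exact ((hℓ.coprime_iff_not_dvd.2 hℓG).symm).pow_right n
  have hcopK : (Nat.card K).Coprime (Nat.card V) := hcop.coprime_dvd_left (Subgroup.card_dvd_of_le hKG)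
  have hKV : K ≤ Subgroup.normalizer (V : Set X) := hKG.trans hGV
  have hRK : R' ≤ Subgroup.normalizer (K : Set X) := by
    rw [Subgroup.le_normalizer_iff]
    rintro _ ⟨r, -, rfl⟩ _ ⟨k, hk, rfl⟩
    exact ⟨r * k * r⁻¹, hNn.conj_mem k hk r, rfl⟩
  set M := ⁅V, K⁆ with hM
  have hMV : M ≤ V := CfsgLib.CoprimeAction.commutator_le_of_normalizer hKV
  have hsolv : Group.IsSolvable K ∨ Group.IsSolvable V := Or.inr (by
    letI : CommGroup V := { (inferInstance : Group V) with mul_comm := fun a b => hV.1.is_comm.comm a b }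
    infer_instance)
  have hVdec : M ⊔ (V ⊓ Subgroup.centralizer (K : Set X)) = V :=
    CfsgLib.CoprimeAction.commutator_sup_centralizer hKV hcopK hsolv
  suffices h : ⁅K, K⁆ ≤ Subgroup.centralizer (M : Set X) by
    intro g hg
    have h1 : M ≤ Subgroup.centralizer ({g} : Set X) := fun m hm => Subgroup.mem_centralizer_singleton_iff.2
      (Subgroup.mem_centralizer_iff.1 (h hg) m hm)
    have h2 : V ⊓ Subgroup.centralizer (K : Set X) ≤ Subgroup.centralizer ({g} : Set X) := fun m hm =>
      Subgroup.mem_centralizer_singleton_iff.2 (Subgroup.mem_centralizer_iff.1 hm.2 g (Subgroup.commutator_le_self K hg)).symm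
    exact Subgroup.mem_centralizer_iff.2 fun v hv =>
      Subgroup.mem_centralizer_singleton_iff.1 ((hVdec ▸ sup_le h1 h2) hv)
  rcases eq_or_ne M ⊥ with hM0 | hM0
  · rw [hM0]
    intro g _
    exact Subgroup.mem_centralizer_iff.2 fun z hz => by rw [Subgroup.mem_bot.1 hz, one_mul, mul_one]
  haveI : IsCyclic ↥(V ⊓ Subgroup.centralizer (R' : Set X)) := isCyclic_of_prime_card hCV
  have hcyc : IsCyclic ↥(M ⊓ Subgroup.centralizer (R' : Set X)) :=
    isCyclic_of_injective (Subgroup.inclusion (inf_le_inf_right _ hMV)) (Subgroup.inclusion_injective _)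
  have hRM : R' ≤ Subgroup.normalizer (M : Set X) := by
    intro g hg
    have h1 := Subgroup.mem_normalizer_iff_map_conj_eq.1 ((hRG.trans hGV) hg)
    have h2 := Subgroup.mem_normalizer_iff_map_conj_eq.1 (hRK hg)
    rw [Subgroup.mem_normalizer_iff_map_conj_eq, hM, Subgroup.map_commutator, h1, h2]
  haveI hMn : Group.IsNilpotent M := (hVp.to_le hMV).isNilpotent
  refine (CfsgLib.PrimeAction.frobenius_on_nilpotent K R' M ?_ ?_ ?_ hRK ?_ hM0 hMn
    (CfsgLib.CoprimeAction.le_normalizer_commutator hKV) hRM ?_ ?_ ?_).2.2 hcyc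
  · exact fun h => hN1 ((Subgroup.map_eq_bot_iff_of_injective N G.subtype_injective).1 h)
  · exact fun h => hR.1 ((Subgroup.map_eq_bot_iff_of_injective R G.subtype_injective).1 h)
  · rw [hK, hR', ← Subgroup.map_inf _ _ _ G.subtype_injective, hc.disjoint.eq_bot, Subgroup.map_bot]
  · rintro _ ⟨r, hr, rfl⟩ hr1
    rw [eq_bot_iff]
    rintro _ ⟨⟨k, hk, rfl⟩, hc'⟩
    have h := hfpf r hr (fun h => hr1 (by rw [h]; rfl))
    have : k ∈ N ⊓ Subgroup.centralizer {r} := ⟨hk, Subgroup.mem_centralizer_singleton_iff.2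
      (G.subtype_injective (Subgroup.mem_centralizer_singleton_iff.1 hc'))⟩
    rw [h, Subgroup.mem_bot] at this
    rw [Subgroup.mem_bot, this, map_one]
  · rw [hKR]; exact hcop.coprime_dvd_right (Subgroup.card_dvd_of_le hMV)
  · rw [eq_bot_iff, ← CfsgLib.CoprimeAction.centralizer_inf_commutator_eq_bot hKV hcopK]
    exact fun m hm => ⟨⟨hMV hm.1, hm.2⟩, hm.1⟩
  · intro x hx hx1
    have : Subgroup.zpowers x = R' := by
      refine Subgroup.eq_of_le_of_card_ge (Subgroup.zpowers_le.2 hx) ?_
      rw [Nat.card_zpowers, hR', Subgroup.card_map_of_injective G.subtype_injective]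
      refine (((Nat.dvd_prime hRp).1 ?_).resolve_left (fun h => hx1 (orderOf_eq_one_iff.1 h))).ge
      rw [← Subgroup.card_map_of_injective G.subtype_injective (K := R), ← hR']
      exact Subgroup.orderOf_dvd_natCard R' hx
    rw [← this, Subgroup.zpowers_eq_closure, Subgroup.centralizer_closure]


end Cfsg.Agent.S3770
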