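import Cfsg.Statements.S3774
import Cfsg.Agent.PGroup.Basic

set_option autoImplicit false
open Cfsg

namespace Cfsg.Agent.S3774

/-- Let G be a nontrivial finite 2-group whose automorphism group permutes the involutions of G transitively. Then every involution of G is central, so that the involutions together with 1 form the subgroup Ω₁(Z(G)), and if this subgroup has order q then |G| is a power of q. -/
theorem result {G : Type*} [Group G] [Finite G] [Nontrivial G] (hG : IsPGroup 2 G) (htrans : ∀ x y : G, x ≠ 1 → x ^ 2 = 1 → y ≠ 1 → y ^ 2 = 1 → ∃ a : MulAut G, a x = y) : (∀ x : G, x ^ 2 = 1 → x ∈ Subgroup.center G) ∧ ∃ m : ℕ, Nat.card G = Nat.card {z : G // z ^ 2 = 1} ^ m := by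
  classical
  haveI : Fact (Nat.Prime 2) := ⟨Nat.prime_two⟩
  have hinvpow : ∀ x : G, x ≠ 1 → ∃ j : ℕ, x ^ 2 ^ j ≠ 1 ∧ (x ^ 2 ^ j) ^ 2 = 1 := by
    intro x hx
    obtain ⟨m, hm⟩ := hG x
    have hex : ∃ m : ℕ, x ^ 2 ^ m = 1 := ⟨m, hm⟩
    have hpos : Nat.find hex ≠ 0 := fun h0 => hx (by simpa [h0] using Nat.find_spec hex)
    obtain ⟨j, hj⟩ := Nat.exists_eq_succ_of_ne_zero hpos
    refine ⟨j, Nat.find_min hex (by omega), ?_⟩
    rw [← pow_mul, ← pow_succ, ← Nat.succ_eq_add_one, ← hj]
    exact Nat.find_spec hex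
  haveI := hG.center_nontrivial
  obtain ⟨z, hz⟩ := exists_ne (1 : Subgroup.center G)
  obtain ⟨j, hj1, hj2⟩ := hinvpow z (fun h => hz (Subtype.ext h))
  set u : G := (z : G) ^ 2 ^ j with hu
  have hcen : ∀ x : G, x ^ 2 = 1 → x ∈ Subgroup.center G := by
    intro x hx
    rcases eq_or_ne x 1 with rfl | hne
    · exact one_mem _
    obtain ⟨a, rfl⟩ := htrans u x hj1 hj2 hne hx
    have huz : u ∈ Subgroup.center G := Subgroup.pow_mem _ z.2 _
    have hc := (inferInstance : (Subgroup.center G).Characteristic).fixed a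
    exact (SetLike.ext_iff.mp hc u).mpr huz
  refine ⟨hcen, ?_⟩
  let E : Subgroup G :=
    { carrier := {x | x ^ 2 = 1}
      one_mem' := one_pow 2
      mul_mem' := fun {a b} ha hb => by
        show (a * b) ^ 2 = 1
        rw [Commute.mul_pow (Subgroup.mem_center_iff.mp (hcen b hb) a), ha, hb, one_mul]
      inv_mem' := fun {a} ha => by
        show a⁻¹ ^ 2 = 1
        rw [inv_pow, ha, inv_one] }
  have hE : Nat.card {z : G // z ^ 2 = 1} = Nat.card E := rfl
  obtain ⟨n, hn⟩ := IsPGroup.iff_card.mp (hG.to_subgroup E)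
  obtain ⟨N, hN⟩ := IsPGroup.iff_card.mp hG
  have hn0 : n ≠ 0 := by
    intro h0
    rw [h0, pow_zero] at hn
    exact hj1 (Subgroup.mem_bot.mp ((Subgroup.eq_bot_of_card_eq _ hn) ▸ (hj2 : u ∈ E)))
  suffices hdvd : n ∣ N by
    obtain ⟨m, rfl⟩ := hdvd
    exact ⟨m, by rw [hE, hn, hN, pow_mul]⟩
  haveI : Finite (MulAut G) := Finite.of_injective (fun f : MulAut G => (f : G → G)) DFunLike.coe_injective
  have hkey : 2 ^ n - 1 ∣ 2 ^ N - 1 := by
    rw [← Nat.factorization_prime_le_iff_dvd (by have := Nat.one_lt_two_pow hn0; omega) (by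
      have : 2 ^ 1 ≤ 2 ^ N := by
        rw [pow_one, ← hN]; exact Finite.one_lt_card
      omega)]
    intro r hr
    haveI : Fact r.Prime := ⟨hr⟩
    obtain ⟨R⟩ := (inferInstance : Nonempty (Sylow r (MulAut G)))
    -- every Sylow orbit on nontrivial elements has size divisible by the `r`-part
    have hne1 : ∀ (f : MulAut G) (x : G), x ≠ 1 → f x ≠ 1 := fun f x hx h => hx (f.map_eq_one_iff.mp h)
    let X := {x : G // x ≠ 1}
    letI : MulAction (MulAut G) X :=
      { smul := fun f x => ⟨f x.1, hne1 f x.1 x.2⟩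
        one_smul := fun x => rfl
        mul_smul := fun f g x => rfl }
    have horbit : ∀ x : X, r ^ (2 ^ n - 1).factorization r ∣ Nat.card (MulAction.orbit (R : Subgroup (MulAut G)) x) := by
      intro x
      obtain ⟨i, hi1, hi2⟩ := hinvpow x.1 x.2
      let v : X := ⟨x.1 ^ 2 ^ i, hi1⟩
      have hle : MulAction.stabilizer (R : Subgroup (MulAut G)) x ≤ MulAction.stabilizer (R : Subgroup (MulAut G)) v := by
        intro f hf
        have h : (f : MulAut G) x.1 = x.1 := congrArg Subtype.val (MulAction.mem_stabilizer_iff.mp hf)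
        refine MulAction.mem_stabilizer_iff.mpr (Subtype.ext ?_)
        show (f : MulAut G) (x.1 ^ 2 ^ i) = x.1 ^ 2 ^ i
        rw [map_pow, h]
      rw [Nat.card_congr (MulAction.orbitEquivQuotientStabilizer _ x), ← Subgroup.index_eq_card]
      refine dvd_trans ?_ (Subgroup.index_dvd_of_le hle)
      -- the orbit of the full group on involutions
      have horb : (MulAction.stabilizer (MulAut G) v).index = 2 ^ n - 1 := by
        rw [MulAction.index_stabilizer]
        rw [show MulAction.orbit (MulAut G) v = {w : X | w.1 ^ 2 = 1} from ?_]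
        · rw [← Nat.card_coe_set_eq]
          let e : {w : X | w.1 ^ 2 = 1} ≃ {w : E // w ≠ 1} :=
            { toFun := fun w => ⟨⟨w.1.1, w.2⟩, fun h => w.1.2 (congrArg Subtype.val h)⟩
              invFun := fun w => ⟨⟨w.1.1, fun h => w.2 (Subtype.ext h)⟩, w.1.2⟩
              left_inv := fun w => rfl
              right_inv := fun w => rfl }
          rw [Nat.card_congr e]
          haveI : Fintype E := Fintype.ofFinite _
          rw [Nat.card_eq_fintype_card, Fintype.card_subtype_compl, Fintype.card_subtype_eq,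
            ← Nat.card_eq_fintype_card, hn]
        · ext w
          constructor
          · rintro ⟨f, rfl⟩
            show (f (x.1 ^ 2 ^ i)) ^ 2 = 1
            rw [← map_pow, hi2, map_one]
          · intro hw
            obtain ⟨f, hf⟩ := htrans v.1 w.1 hi1 hi2 w.2 hw
            exact ⟨f, Subtype.ext hf⟩
      -- index of the stabiliser inside the Sylow subgroup
      set T := MulAction.stabilizer (MulAut G) v with hT
      have hstab : MulAction.stabilizer (R : Subgroup (MulAut G)) v = T.subgroupOf R := by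
        ext f; exact Iff.rfl
      rw [hstab, ← horb]
      have hRr : IsPGroup r (R : Subgroup (MulAut G)) := R.isPGroup'
      obtain ⟨c, hc⟩ := hRr.index (T.subgroupOf (R : Subgroup (MulAut G)))
      rw [hc]
      apply Nat.pow_dvd_pow r
      have hTR : T.index * (T ⊓ R).relIndex T = (R : Subgroup (MulAut G)).index * r ^ c := by
        rw [← hc, mul_comm T.index, Subgroup.relIndex_mul_index inf_le_left, ← Subgroup.relIndex_mul_index (H := T ⊓ R)
          (K := (R : Subgroup (MulAut G))) inf_le_right, mul_comm]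
        congr 1
        exact Subgroup.inf_relIndex_right T R
      have hndvd : ¬ r ∣ (R : Subgroup (MulAut G)).index := R.not_dvd_index
      have hd : r ^ T.index.factorization r ∣ r ^ c := by
        refine Nat.Coprime.dvd_of_dvd_mul_left (Nat.Coprime.pow_left _ (hr.coprime_iff_not_dvd.mpr hndvd)) ?_
        rw [← hTR]
        exact dvd_mul_of_dvd_left (Nat.ordProj_dvd _ _) _
      exact (Nat.pow_dvd_pow_iff_le_right hr.one_lt).mp hd
    have hX : Nat.card X = 2 ^ N - 1 := by
      haveI : Fintype G := Fintype.ofFinite _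
      rw [Nat.card_eq_fintype_card, Fintype.card_subtype_compl, Fintype.card_subtype_eq, ← Nat.card_eq_fintype_card, hN]
    rw [← hr.pow_dvd_iff_le_factorization (by
      have : 2 ^ 1 ≤ 2 ^ N := by
        rw [pow_one, ← hN]; exact Finite.one_lt_card
      omega), ← hX, Nat.card_congr (MulAction.selfEquivSigmaOrbits (R : Subgroup (MulAut G)) X)]
    haveI : Fintype (MulAction.orbitRel.Quotient (R : Subgroup (MulAut G)) X) := Fintype.ofFinite _
    rw [Nat.card_sigma]
    exact Finset.dvd_sum fun ω _ => horbit _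
  have h := Nat.pow_sub_one_gcd_pow_sub_one 2 n N
  rw [Nat.gcd_eq_left hkey] at h
  have h1 : 2 ^ n = 2 ^ Nat.gcd n N := by
    have := Nat.one_le_two_pow (n := n)
    have := Nat.one_le_two_pow (n := Nat.gcd n N)
    omega
  exact (Nat.pow_right_injective le_rfl h1) ▸ Nat.gcd_dvd_right n N

end Cfsg.Agent.S3774
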