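import Cfsg.Statements.S3778
import Mathlib

set_option autoImplicit false
open Cfsg

namespace Cfsg.Agent.S3778

section

variable {G : Type*} [Group G]

/-- The two-step centralizer of the `i`-th term of the lower central series. -/
def twoStep (i : ℕ) : Subgroup G where
  carrier := {x | ∀ g ∈ (⊤ : Subgroup G).lowerCentralSeries i, g * x * g⁻¹ * x⁻¹ ∈ (⊤ : Subgroup G).lowerCentralSeries (i + 2)}
  one_mem' := fun g _ => by simp
  mul_mem' := fun {a b} ha hb g hg => by
    have h1 := Subgroup.Normal.conj_mem (inferInstance : ((⊤ : Subgroup G).lowerCentralSeries (i + 2)).Normal) _ (hb g hg) a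
    rw [show g * (a * b) * g⁻¹ * (a * b)⁻¹ = (g * a * g⁻¹ * a⁻¹) * (a * (g * b * g⁻¹ * b⁻¹) * a⁻¹) by group]
    exact mul_mem (ha g hg) h1
  inv_mem' := fun {a} ha g hg => by
    have h1 := Subgroup.Normal.conj_mem (inferInstance : ((⊤ : Subgroup G).lowerCentralSeries (i + 2)).Normal) _
      (inv_mem (ha g hg)) a⁻¹
    rwa [show a⁻¹ * (g * a * g⁻¹ * a⁻¹)⁻¹ * a⁻¹⁻¹ = g * a⁻¹ * g⁻¹ * a⁻¹⁻¹ by group] at h1

open scoped commutatorElement

theorem bracket_mem {i : ℕ} {g : G} (hg : g ∈ (⊤ : Subgroup G).lowerCentralSeries i) (x : G) :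
    g * x * g⁻¹ * x⁻¹ ∈ (⊤ : Subgroup G).lowerCentralSeries (i + 1) := by
  rw [← commutatorElement_def, Subgroup.lowerCentralSeries_succ]
  exact Subgroup.commutator_mem_commutator hg (Subgroup.mem_top x)

theorem twoStep_ne_top {c i : ℕ} (hc : (⊤ : Subgroup G).lowerCentralSeries c = ⊥)
    (hmin : (⊤ : Subgroup G).lowerCentralSeries (i + 1) ≠ ⊥) : twoStep (G := G) i ≠ ⊤ := by
  intro htop
  have h1 : (⊤ : Subgroup G).lowerCentralSeries (i + 1) ≤ (⊤ : Subgroup G).lowerCentralSeries (i + 2) := by
    rw [Subgroup.lowerCentralSeries_succ _ i, Subgroup.commutator_le]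
    intro g hg x _
    rw [commutatorElement_def]
    exact (htop ▸ Subgroup.mem_top x : x ∈ twoStep i) g hg
  have hall : ∀ n, (⊤ : Subgroup G).lowerCentralSeries (i + 1) ≤ (⊤ : Subgroup G).lowerCentralSeries (i + 1 + n) := by
    intro n
    induction n with
    | zero => exact le_rfl
    | succ n ih =>
      refine h1.trans ?_
      rw [show i + 1 + (n + 1) = (i + 1 + n) + 1 by ring, Subgroup.lowerCentralSeries_succ _ (i + 1),
        Subgroup.lowerCentralSeries_succ _ (i + 1 + n)]
      exact Subgroup.commutator_mono ih le_rfl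
  exact hmin (le_bot_iff.1 ((hall c).trans (hc ▸ Subgroup.lowerCentralSeries_antitone _ (Nat.le_add_left c (i + 1)))))

theorem mul_card_le [Finite G] {p : ℕ} [Fact p.Prime] (hG : IsPGroup p G) {A B : Subgroup G} (h : A < B) :
    p * Nat.card A ≤ Nat.card B := by
  obtain ⟨a, ha⟩ := IsPGroup.iff_card.1 (hG.to_subgroup A)
  obtain ⟨b, hb⟩ := IsPGroup.iff_card.1 (hG.to_subgroup B)
  have hp : p.Prime := Fact.out
  have hlt : a < b := by
    by_contra hge
    exact h.ne (Subgroup.eq_of_le_of_card_ge h.le (by rw [ha, hb]; exact Nat.pow_le_pow_right hp.pos (by omega)))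
  rw [ha, hb, ← pow_succ']
  exact Nat.pow_le_pow_right hp.pos hlt

open scoped Classical in
theorem layers_le [Finite G] {p : ℕ} [Fact p.Prime] (hG : IsPGroup p G) (x : G) (n : ℕ) :
    p ^ ((Finset.range n).filter fun i => x ∉ twoStep i).card *
      Nat.card ↥((⊤ : Subgroup G).lowerCentralSeries n ⊔ Subgroup.centralizer ({x} : Set G)) ≤ Nat.card G := by
  induction n with
  | zero => simpa using Subgroup.card_le_card_group _
  | succ n ih =>
    set C := Subgroup.centralizer ({x} : Set G) with hC
    have hle : (⊤ : Subgroup G).lowerCentralSeries (n + 1) ⊔ C ≤ (⊤ : Subgroup G).lowerCentralSeries n ⊔ C :=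
      sup_le_sup_right (Subgroup.lowerCentralSeries_antitone _ (Nat.le_succ n)) _
    rw [Finset.range_add_one, Finset.filter_insert]
    by_cases hx : x ∈ twoStep n
    · rw [if_neg (not_not.2 hx)]
      refine le_trans (Nat.mul_le_mul_left _ (Subgroup.card_le_of_le hle)) ?_
      exact ih
    · rw [if_pos hx, Finset.card_insert_of_notMem (by simp), pow_succ, mul_assoc]
      refine le_trans (Nat.mul_le_mul_left _ (mul_card_le hG (lt_of_le_of_ne hle fun he => ?_))) ih
      obtain ⟨g, hg, hgx⟩ : ∃ g ∈ (⊤ : Subgroup G).lowerCentralSeries n,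
          g * x * g⁻¹ * x⁻¹ ∉ (⊤ : Subgroup G).lowerCentralSeries (n + 2) := by
        by_contra hall
        push Not at hall
        exact hx (show x ∈ twoStep n from hall)
      obtain ⟨k, hk, u, hu, rfl⟩ := Subgroup.mem_sup_of_normal_left.1 (he.symm ▸ Subgroup.mem_sup_left hg :
        g ∈ (⊤ : Subgroup G).lowerCentralSeries (n + 1) ⊔ C)
      refine hgx ?_
      have hux : u * x = x * u := (Subgroup.mem_centralizer_iff.1 hu x rfl).symm
      rw [show k * u * x * (k * u)⁻¹ * x⁻¹ = k * (u * x) * u⁻¹ * k⁻¹ * x⁻¹ by group, hux,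
        show k * (x * u) * u⁻¹ * k⁻¹ * x⁻¹ = k * x * k⁻¹ * x⁻¹ by group]
      exact bracket_mem hk x

end



/-- If G is a finite p-group in which every conjugacy class has at most p^b elements (every element has centralizer of index at most p^b), then G is abelian when b = 0, and when b ≥ 1 its nilpotency class c satisfies (c − 1)(p − 1) < bp, that is c < bp/(p − 1) + 1, and hence c ≤ 2b. -/
theorem result {G : Type*} [Group G] [Finite G] {p : ℕ} [Fact p.Prime] (hG : IsPGroup p G) (b : ℕ) (hb : ∀ x : G, (Subgroup.centralizer ({x} : Set G)).index ≤ p ^ b) : ∃ c : ℕ, (⊤ : Subgroup G).lowerCentralSeries c = ⊥ ∧ (b ≠ 0 → (c - 1) * (p - 1) < b * p ∧ c ≤ 2 * b) ∧ (b = 0 → c ≤ 1) := by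
  classical
  have hp : p.Prime := Fact.out
  haveI : Group.IsNilpotent G := hG.isNilpotent
  have hex := Subgroup.nilpotent_iff_lowerCentralSeries.mp (inferInstance : Group.IsNilpotent G)
  refine ⟨Nat.find hex, Nat.find_spec hex, fun hb0 => ?_, fun hb0 => ?_⟩
  · set c := Nat.find hex with hc
    have hS : ∀ x : G, ((Finset.range (c - 1)).filter fun i => x ∉ twoStep i).card ≤ b := by
      intro x
      have h1 := layers_le hG x (c - 1)
      have h2 := Subgroup.card_le_of_le (le_sup_right :
        Subgroup.centralizer ({x} : Set G) ≤ (⊤ : Subgroup G).lowerCentralSeries (c - 1) ⊔ Subgroup.centralizer ({x} : Set G))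
      have h3 := le_trans (Nat.mul_le_mul_left _ h2) h1
      rw [← (Subgroup.centralizer ({x} : Set G)).index_mul_card] at h3
      exact (Nat.pow_le_pow_iff_right hp.one_lt).1 ((Nat.le_of_mul_le_mul_right h3 Nat.card_pos).trans (hb x))
    haveI : Fintype G := Fintype.ofFinite G
    have hsum : (∑ x : G, ((Finset.range (c - 1)).filter fun i => x ∉ twoStep i).card) =
        ∑ i ∈ Finset.range (c - 1), (Nat.card G - Nat.card (twoStep (G := G) i)) := by
      simp only [Finset.card_filter]
      rw [Finset.sum_comm]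
      refine Finset.sum_congr rfl fun i _ => ?_
      rw [← Finset.card_filter, Nat.card_eq_fintype_card (α := G), Nat.card_eq_fintype_card,
        ← Fintype.card_subtype, Fintype.card_subtype_compl]
    have hlow : ∀ i ∈ Finset.range (c - 1), (p - 1) * Nat.card G ≤ p * (Nat.card G - Nat.card (twoStep (G := G) i)) := by
      intro i hi
      rw [Finset.mem_range] at hi
      have hne := twoStep_ne_top (Nat.find_spec hex) (Nat.find_min hex (show i + 1 < c by omega))
      have h1 := mul_card_le hG (lt_top_iff_ne_top.2 hne)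
      rw [Subgroup.card_top] at h1
      rw [Nat.sub_mul, one_mul, Nat.mul_sub]
      omega
    have hL : (c - 1) * ((p - 1) * Nat.card G) ≤ p * ∑ x : G, ((Finset.range (c - 1)).filter fun i => x ∉ twoStep i).card := by
      rw [hsum, Finset.mul_sum]
      have := Finset.card_nsmul_le_sum _ _ _ hlow
      rwa [Finset.card_range, smul_eq_mul] at this
    have hU : ∑ x : G, ((Finset.range (c - 1)).filter fun i => x ∉ twoStep i).card < b * Nat.card G := by
      have h1 : ∑ x : G, ((Finset.range (c - 1)).filter fun i => x ∉ twoStep i).card < ∑ _x : G, b := by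
        refine Finset.sum_lt_sum (fun x _ => hS x) ⟨1, Finset.mem_univ _, ?_⟩
        rw [Finset.filter_false_of_mem fun i _ => not_not.2 (one_mem _), Finset.card_empty]
        omega
      rwa [Finset.sum_const, smul_eq_mul, Finset.card_univ, mul_comm, ← Nat.card_eq_fintype_card] at h1
    have h1 : (c - 1) * (p - 1) < b * p := by
      have := Nat.mul_lt_mul_of_pos_left hU hp.pos
      refine Nat.lt_of_mul_lt_mul_right (a := Nat.card G) ?_
      calc (c - 1) * (p - 1) * Nat.card G = (c - 1) * ((p - 1) * Nat.card G) := mul_assoc _ _ _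
        _ < p * (b * Nat.card G) := lt_of_le_of_lt hL this
        _ = b * p * Nat.card G := by ring
    refine ⟨h1, ?_⟩
    obtain ⟨k, hk⟩ : ∃ k, p = k + 2 := ⟨p - 2, by have := hp.two_le; omega⟩
    subst hk
    rw [show k + 2 - 1 = k + 1 by omega] at h1
    by_contra hlt
    have : 2 * b * (k + 1) ≤ (c - 1) * (k + 1) := Nat.mul_le_mul_right _ (by omega)
    nlinarith
  · refine Nat.find_le ?_
    rw [Subgroup.top_lowerCentralSeries_one, commutator_eq_bot_iff_center_eq_top, eq_top_iff]
    intro x _
    rw [Subgroup.mem_center_iff]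
    intro g
    have h1 : (Subgroup.centralizer ({x} : Set G)).index = 1 := le_antisymm (by simpa [hb0] using hb x)
      (Nat.one_le_iff_ne_zero.2 Subgroup.index_ne_zero_of_finite)
    have hg : g ∈ Subgroup.centralizer ({x} : Set G) := by rw [Subgroup.index_eq_one.1 h1]; exact Subgroup.mem_top g
    exact (Subgroup.mem_centralizer_iff.1 hg x rfl).symm

end Cfsg.Agent.S3778
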