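import Cfsg.Statements.S3780
import Mathlib

set_option autoImplicit false
open Cfsg

namespace Cfsg.Agent.S3780

/-- Let V be a finite abelian p-group and α an automorphism of V of order p whose fixed-point subgroup has order p^n. Then V can be generated by pn elements: some subset of V with at most pn elements generates V. -/
theorem result {V : Type*} [CommGroup V] [Finite V] {p : ℕ} [Fact p.Prime] (hV : IsPGroup p V) (α : MulAut V) (hα : orderOf α = p) (n : ℕ) (hfix : Nat.card {v : V // α v = v} = p ^ n) : ∃ S : Finset V, S.card ≤ p * n ∧ Subgroup.closure (S : Set V) = ⊤ := by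
  classical
  have hp := (Fact.out : p.Prime)
  have hαp : ∀ v, (α ^ p) v = v := fun v => by rw [← hα, pow_orderOf_eq_one]; rfl
  let W : Subgroup V := (powMonoidHom p : V →* V).ker
  have hWmem : ∀ v : V, v ∈ W ↔ v ^ p = 1 := fun v => by simp [W, MonoidHom.mem_ker]
  let E : AddMonoid.End (Additive V) := MonoidHom.toAdditive α.toMonoidHom
  have hE : ∀ (k : ℕ) (v : Additive V), (E ^ k) v = Additive.ofMul ((α ^ k) (Additive.toMul v)) := by
    intro k
    induction k with
    | zero => intro v; rfl
    | succ k ih =>
      intro v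
      rw [pow_succ, AddMonoid.End.coe_mul, Function.comp_apply, ih, pow_succ, MulAut.mul_apply]
      rfl
  let D : AddMonoid.End (Additive V) := E - 1
  have hD : ∀ w : V, w ^ p = 1 → (D ^ p) (Additive.ofMul w) = 0 := by
    intro w hw
    obtain ⟨r, hr⟩ := (Commute.neg_one_right E).exists_add_pow_prime_eq hp
    rw [← sub_eq_add_neg] at hr
    have hpw : p • Additive.ofMul w = 0 := by rw [← ofMul_pow, hw, ofMul_one]
    change ((E - 1) ^ p) _ = 0
    rw [hr]
    have e1 : ((p : AddMonoid.End (Additive V)) * E * -1 * r) (Additive.ofMul w) = 0 := by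
      rw [mul_assoc, mul_assoc, (Nat.cast_commute p _).eq, AddMonoid.End.coe_mul, Function.comp_apply,
        AddMonoid.End.natCast_apply, hpw, map_zero]
    change (E ^ p) (Additive.ofMul w) + ((-1 : AddMonoid.End (Additive V)) ^ p) (Additive.ofMul w) +
      ((p : AddMonoid.End (Additive V)) * E * -1 * r) (Additive.ofMul w) = 0
    rw [e1, add_zero, hE, toMul_ofMul, hαp]
    have hev : ∀ (j : ℕ) (x : Additive V), ((-1 : AddMonoid.End (Additive V)) ^ (2 * j)) x = x := by
      intro j
      induction j with
      | zero => intro x; rfl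
      | succ j ih =>
        intro x
        rw [mul_add, mul_one, pow_succ, pow_succ]
        change ((-1 : AddMonoid.End (Additive V)) ^ (2 * j)) (- -x) = x
        rw [neg_neg, ih]
    rcases hp.eq_two_or_odd' with rfl | hodd
    · rw [show ((-1 : AddMonoid.End (Additive V)) ^ 2) (Additive.ofMul w) = Additive.ofMul w from hev 1 _, ← two_nsmul]
      exact hpw
    · obtain ⟨j, rfl⟩ := hodd
      rw [pow_succ]
      change Additive.ofMul w + ((-1 : AddMonoid.End (Additive V)) ^ (2 * j)) (-Additive.ofMul w) = 0
      rw [hev, add_neg_cancel]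
  -- the kernels of powers of `D` inside `W`
  let K : ℕ → AddSubgroup (Additive V) := fun i => AddMonoidHom.ker (D ^ i : AddMonoid.End (Additive V))
  have hfix1 : Nat.card (K 1) ≤ p ^ n := by
    rw [← hfix]
    refine Nat.card_le_card_of_injective (fun v => ⟨Additive.toMul v.1, ?_⟩) (fun u v h => ?_)
    · have h := v.2
      simp only [K, pow_one, D] at h
      change E v.1 - v.1 = 0 at h
      rw [sub_eq_zero] at h
      exact congrArg Additive.toMul h
    · apply Subtype.ext
      exact Additive.toMul.injective (congrArg Subtype.val h :)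
  have hcardK : ∀ i, Nat.card (K i) ≤ p ^ (i * n) := by
    intro i
    induction i with
    | zero =>
      have : K 0 = ⊥ := by
        rw [AddSubgroup.eq_bot_iff_forall]
        intro v hv
        simp only [K, pow_zero] at hv
        exact hv
      simp [this]
    | succ i ih =>
      let f : K (i + 1) →+ K i := {
        toFun := fun v => ⟨D v.1, by
          have h : (D ^ (i + 1) : AddMonoid.End (Additive V)) v.1 = 0 := v.2
          rw [pow_succ] at h
          exact h⟩
        map_zero' := Subtype.ext (map_zero D)
        map_add' := fun u v => Subtype.ext (map_add D _ _) }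
      have h1 : Nat.card f.ker ≤ Nat.card (K 1) := by
        refine Nat.card_le_card_of_injective (fun v => ⟨v.1.1, ?_⟩) (fun u v h => ?_)
        · have h := congrArg Subtype.val (AddMonoidHom.mem_ker.1 v.2)
          simp only [K, pow_one, AddMonoidHom.mem_ker]
          exact h
        · exact Subtype.ext (Subtype.ext (congrArg Subtype.val h :))
      calc Nat.card (K (i + 1)) = f.ker.index * Nat.card f.ker := (AddSubgroup.index_mul_card _).symm
        _ ≤ Nat.card (K i) * p ^ n := by
            refine Nat.mul_le_mul ?_ (h1.trans hfix1)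
            rw [AddSubgroup.index_ker]
            exact AddSubgroup.card_le_card_addGroup _
        _ ≤ p ^ ((i + 1) * n) := by
            rw [add_mul, one_mul, pow_add]
            exact Nat.mul_le_mul_right _ ih
  have hW : Nat.card W ≤ p ^ (p * n) := by
    refine le_trans (Nat.card_le_card_of_injective (fun w => (⟨Additive.ofMul w.1, ?_⟩ : K p)) ?_) (hcardK p)
    · simp only [K, AddMonoidHom.mem_ker]
      exact hD w ((hWmem _).1 w.2)
    · intro u v h
      apply Subtype.ext
      exact Additive.ofMul.injective (congrArg Subtype.val h :)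
  obtain ⟨ι, _, m, hm, ⟨e⟩⟩ := CommGroup.equiv_prod_multiplicative_zmod_of_finite V
  haveI : ∀ i, NeZero (m i) := fun i => ⟨by have := hm i; omega⟩
  have hdvd : ∀ i, p ∣ m i := by
    intro i
    obtain ⟨N, hN⟩ := IsPGroup.iff_card.1 hV
    have h1 : m i ∣ p ^ N := by
      rw [← hN, Nat.card_congr e.toEquiv, Nat.card_pi]
      have h2 : Nat.card (Multiplicative (ZMod (m i))) = m i := by
        rw [Nat.card_congr Multiplicative.toAdd, Nat.card_zmod]
      conv_lhs => rw [← h2]
      exact Finset.dvd_prod_of_mem _ (Finset.mem_univ i)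
    obtain ⟨k, -, hk⟩ := (Nat.dvd_prime_pow hp).1 h1
    rw [hk]
    refine dvd_pow_self p fun h0 => ?_
    have := hm i
    rw [hk, h0, pow_zero] at this
    omega
  have hlow : p ^ Fintype.card ι ≤ Nat.card W := by
    have := Nat.card_le_card_of_injective (α := ι → Fin p) (β := W)
      (fun f => ⟨e.symm (fun i => Multiplicative.ofAdd (((f i : ℕ) * (m i / p) : ℕ) : ZMod (m i))), ?_⟩) ?_
    · simpa using this
    · rw [hWmem, ← map_pow, MulEquiv.map_eq_one_iff]
      funext i
      rw [Pi.pow_apply, ← ofAdd_nsmul, Pi.one_apply, ofAdd_eq_one, nsmul_eq_mul, ← Nat.cast_mul, ZMod.natCast_eq_zero_iff]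
      refine ⟨(f i : ℕ), ?_⟩
      rw [← mul_assoc, mul_comm p, mul_assoc, Nat.mul_div_cancel' (hdvd i), mul_comm]
    · intro f g h
      funext i
      have h' := congrFun (e.symm.injective (congrArg Subtype.val h)) i
      have h2 := Multiplicative.ofAdd.injective h'
      rw [ZMod.natCast_eq_natCast_iff'] at h2
      have hpos : 0 < m i / p := Nat.div_pos (Nat.le_of_dvd (Nat.pos_of_ne_zero (NeZero.ne _)) (hdvd i)) hp.pos
      have hlt : ∀ k : Fin p, (k : ℕ) * (m i / p) < m i := fun k => by
        calc (k : ℕ) * (m i / p) < p * (m i / p) := Nat.mul_lt_mul_of_pos_right k.2 hpos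
          _ = m i := Nat.mul_div_cancel' (hdvd i)
      rw [Nat.mod_eq_of_lt (hlt _), Nat.mod_eq_of_lt (hlt _)] at h2
      exact Fin.ext (Nat.eq_of_mul_eq_mul_right hpos h2)
  refine ⟨Finset.univ.image (fun i => e.symm (Pi.mulSingle i (Multiplicative.ofAdd 1))), ?_, ?_⟩
  · refine le_trans Finset.card_image_le ?_
    rw [Finset.card_univ]
    exact (Nat.pow_le_pow_iff_right hp.one_lt).1 (hlow.trans hW)
  · rw [eq_top_iff]
    intro v _
    rw [← e.symm_apply_apply v, ← Finset.univ_prod_mulSingle (e v), map_prod]
    refine Subgroup.prod_mem _ fun i _ => ?_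
    have : e v i = (Multiplicative.ofAdd (1 : ZMod (m i))) ^ (Multiplicative.toAdd (e v i)).val := by
      rw [← ofAdd_nsmul, nsmul_eq_mul, mul_one, ZMod.natCast_zmod_val, ofAdd_toAdd]
    rw [this, Pi.mulSingle_pow, map_pow]
    exact Subgroup.pow_mem _ (Subgroup.subset_closure (Finset.mem_coe.2 (Finset.mem_image_of_mem _ (Finset.mem_univ i)))) _

end Cfsg.Agent.S3780
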