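import Cfsg.Statements.S3788
import Cfsg.Agent.CyclicInPCore.Wrapper
-- import your own Cfsg.Agent.* helpers here

set_option autoImplicit false
open Cfsg

namespace Cfsg.Agent.S3788

/-- Let G be a finite p-soluble group, P a Sylow p-subgroup of G and A a cyclic normal subgroup of P. If p is odd, or if no section of G is isomorphic to the symmetric group of degree 4, then A ≤ O_{p',p}(G). -/
theorem result {G : Type*} [Group G] [Finite G] {p : ℕ} [Fact p.Prime] (hG : Cfsg.IsPSolvable p G) (P : Sylow p G) (A : Subgroup G) (hAP : A ≤ (P : Subgroup G)) (hAn : (P : Subgroup G) ≤ Subgroup.normalizer (A : Set G)) (hA : IsCyclic A) (h : p ≠ 2 ∨ ¬ Cfsg.Involves (Equiv.Perm (Fin 4)) G) : A ≤ Cfsg.pPrimePCore p G := by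
  classical
  set π := QuotientGroup.mk' (Cfsg.pPrimeCore p G) with hπ
  haveI : (Cfsg.pPrimeCore p G).Normal := Cfsg.pPrimeCore_normal p G
  have hπs : Function.Surjective π := QuotientGroup.mk'_surjective _
  have hC := CfsgLib.PCore.hall_higman (CfsgLib.PCore.isPSolvable_quotient hG (Cfsg.pPrimeCore p G))
    CfsgLib.PCore.pPrimeCore_quotient
  haveI := hA
  have hA' : IsCyclic ↥(A.map π) := isCyclic_of_surjective (π.subgroupMap A) (π.subgroupMap_surjective A)
  have hmain := CfsgLib.CyclicInPCore.le_pCore_of_cyclic_normalized hC (P.mapSurjective hπs) (A.map π)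
    (by rw [Sylow.coe_mapSurjective]; exact Subgroup.map_mono hAP)
    (by rw [Sylow.coe_mapSurjective]; exact (Subgroup.map_mono hAn).trans (Subgroup.le_normalizer_map π)) hA'
    (h.imp_right fun h1 h2 => h1 (CfsgLib.ZJ.involves_quotient _ h2))
  intro x hx
  exact CfsgLib.PCore.mem_pPrimePCore.2 (hmain ⟨x, hx, rfl⟩)

end Cfsg.Agent.S3788
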