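import Cfsg.Statements.S3796
import Cfsg.Agent.FpfRankTwo.Main

set_option autoImplicit false
open Cfsg

namespace Cfsg.Agent.S3796

/-- Ward's Theorem: let G be a finite solvable group and A an elementary abelian group of automorphisms of G of order p² (p a prime) with no non-identity common fixed point. Then G has Fitting height at most 2: G has Fitting height at most m when there is a chain of normal subgroups 1 = F₀ ≤ F₁ ≤ ⋯ ≤ F_m = G with each F_{i+1}/F_i nilpotent. -/
theorem result {G : Type*} [Group G] [Finite G] (hG : Group.IsSolvable G) {p : ℕ} (hp : p.Prime) (A : Subgroup (MulAut G)) (hA : Cfsg.IsElementaryAbelian p A) (hcard : Nat.card A = p ^ 2) (hfpf : ∀ g : G, (∀ a ∈ A, a g = g) → g = 1) : ∃ F : Fin (2 + 1) → Subgroup G, F 0 = ⊥ ∧ F (Fin.last 2) = ⊤ ∧ Monotone F ∧ (∀ i, (F i).Normal) ∧ ∀ i : Fin 2, ∃ k : ℕ, (F i.succ).lowerCentralSeries k ≤ F i.castSucc := by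
  obtain ⟨k, hk⟩ := CfsgLib.FpfRankTwo.exists_isNilpotent_lcs p hp (Nat.card G) G rfl hG A.subtype
    (fun a b => hA.1.1.comm a b) (fun a => Subtype.ext (hA.2 a a.2)) hcard (fun g hg => hfpf g fun a ha => hg ⟨a, ha⟩)
  obtain ⟨j, hj⟩ := (Subgroup.isNilpotent_iff_lowerCentralSeries _).1 hk
  refine ⟨![⊥, (⊤ : Subgroup G).lowerCentralSeries k, ⊤], rfl, rfl, ?_, ?_, ?_⟩
  · rw [Fin.monotone_iff_le_succ]
    intro i
    fin_cases i
    · exact bot_le
    · exact le_top
  · intro i
    fin_cases i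
    · exact (inferInstance : (⊥ : Subgroup G).Normal)
    · exact (inferInstance : ((⊤ : Subgroup G).lowerCentralSeries k).Normal)
    · exact (inferInstance : (⊤ : Subgroup G).Normal)
  · intro i
    fin_cases i
    · exact ⟨j, hj.le⟩
    · exact ⟨k, le_rfl⟩

end Cfsg.Agent.S3796
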