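import Cfsg.Statements.S3799
import Cfsg.Agent.Heisenberg.Matrices
import Cfsg.Agent.PGroup.Critical

set_option autoImplicit false
open Cfsg

namespace Cfsg.Agent.S3799

open scoped commutatorElement Matrix

/-- For every odd prime p and every n ≥ 1 there is an extraspecial p-group of order p^(1+2n) and exponent p; concretely, the general linear group of degree n + 2 over the field with p elements contains such a subgroup. -/
theorem result (p : ℕ) [Fact p.Prime] (hp : p ≠ 2) (n : ℕ) (hn : 1 ≤ n) : ∃ E : Subgroup (Matrix.GeneralLinearGroup (Fin (n + 2)) (ZMod p)), Cfsg.IsExtraspecial p ↥E ∧ Nat.card E = p ^ (1 + 2 * n) ∧ ∀ x ∈ E, x ^ p = 1 := by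
  classical
  have hpp : p.Prime := Fact.out
  set E := CfsgLib.Heisenberg.group (ZMod p) n with hE
  have hpow : ∀ x ∈ E, x ^ p = 1 := by
    rintro _ ⟨a, b, c, rfl⟩
    rw [CfsgLib.Heisenberg.unit_pow, ZMod.natCast_self, zero_smul, zero_smul, zero_mul,
      (ZMod.natCast_eq_zero_iff _ _).2 (hpp.dvd_choose_self two_ne_zero (by have := hpp.two_le; omega)), zero_mul,
      add_zero, CfsgLib.Heisenberg.unit_zero]
  have hmem : ∀ a b c, CfsgLib.Heisenberg.unit a b c ∈ E := fun a b c => ⟨a, b, c, rfl⟩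
  let f : (Fin n → ZMod p) × (Fin n → ZMod p) × ZMod p → E := fun u => ⟨_, hmem u.1 u.2.1 u.2.2⟩
  have hf : Function.Bijective f := by
    refine ⟨fun u v h => ?_, ?_⟩
    · obtain ⟨h1, h2, h3⟩ := CfsgLib.Heisenberg.unit_injective (congrArg Subtype.val h)
      exact Prod.ext h1 (Prod.ext h2 h3)
    · rintro ⟨_, a, b, c, rfl⟩; exact ⟨(a, b, c), rfl⟩
  have hp' : IsPGroup p E := fun x => ⟨1, by rw [pow_one]; exact Subtype.ext (hpow x x.2)⟩
  have hcard : Nat.card E = p ^ (1 + 2 * n) := by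
    rw [← Nat.card_congr (Equiv.ofBijective f hf), Nat.card_prod, Nat.card_prod, Nat.card_pi, Finset.prod_const,
      Finset.card_univ, Fintype.card_fin, Nat.card_zmod]
    ring
  let z : ZMod p → E := fun c => ⟨_, hmem 0 0 c⟩
  have hzc : ∀ c, z c ∈ Subgroup.center E := by
    intro c
    rw [Subgroup.mem_center_iff]
    rintro ⟨_, a, b, d, rfl⟩
    refine Subtype.ext ?_
    show CfsgLib.Heisenberg.unit a b d * CfsgLib.Heisenberg.unit 0 0 c = CfsgLib.Heisenberg.unit 0 0 c * CfsgLib.Heisenberg.unit a b d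
    rw [CfsgLib.Heisenberg.unit_mul, CfsgLib.Heisenberg.unit_mul, dotProduct_zero, zero_dotProduct, add_zero, add_zero,
      zero_add, zero_add, add_zero, add_zero, add_comm d c]
  have hcen : ∀ x ∈ Subgroup.center E, ∃ c, x = z c := by
    rintro ⟨_, a, b, c, rfl⟩ hx
    refine ⟨c, Subtype.ext ?_⟩
    have hsym : ∀ a' b', a ⬝ᵥ b' = a' ⬝ᵥ b := by
      intro a' b'
      have h := congrArg Subtype.val (Subgroup.mem_center_iff.1 hx ⟨_, hmem a' b' 0⟩)
      have h' : CfsgLib.Heisenberg.unit a' b' 0 * CfsgLib.Heisenberg.unit a b c =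
          CfsgLib.Heisenberg.unit a b c * CfsgLib.Heisenberg.unit a' b' 0 := h
      rw [CfsgLib.Heisenberg.unit_mul, CfsgLib.Heisenberg.unit_mul] at h'
      have := (CfsgLib.Heisenberg.unit_injective h').2.2
      rw [zero_add, add_zero] at this
      exact (add_left_cancel this).symm
    have ha : a = 0 := funext fun j => by
      have := hsym 0 (Pi.single j 1)
      rwa [dotProduct_single, mul_one, zero_dotProduct] at this
    have hb : b = 0 := funext fun j => by
      have := hsym (Pi.single j 1) 0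
      rwa [single_dotProduct, one_mul, dotProduct_zero, eq_comm] at this
    show CfsgLib.Heisenberg.unit a b c = CfsgLib.Heisenberg.unit 0 0 c
    rw [ha, hb]
  have hcomm : ∀ x y : E, ⁅x, y⁆ ∈ Subgroup.center E := by
    rintro ⟨_, a, b, c, rfl⟩ ⟨_, a', b', c', rfl⟩
    have h : ∃ d, ⁅(⟨_, hmem a b c⟩ : E), ⟨_, hmem a' b' c'⟩⁆ = z d := by
      refine ⟨a ⬝ᵥ b' - a' ⬝ᵥ b, Subtype.ext ?_⟩
      show CfsgLib.Heisenberg.unit a b c * CfsgLib.Heisenberg.unit a' b' c' * (CfsgLib.Heisenberg.unit a b c)⁻¹ *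
        (CfsgLib.Heisenberg.unit a' b' c')⁻¹ = CfsgLib.Heisenberg.unit 0 0 _
      rw [mul_inv_eq_iff_eq_mul, mul_inv_eq_iff_eq_mul]
      simp only [CfsgLib.Heisenberg.unit_mul, zero_add, zero_dotProduct, add_zero]
      congr 1 <;> first | abel | ring
    obtain ⟨d, hd⟩ := h
    exact hd ▸ hzc d
  have hle : Subgroup.center E ≤ commutator E := by
    intro x hx
    obtain ⟨c, rfl⟩ := hcen x hx
    let j : Fin n := ⟨0, hn⟩
    have h : z c = ⁅(⟨_, hmem (Pi.single j c) 0 0⟩ : E), ⟨_, hmem 0 (Pi.single j 1) 0⟩⁆ := by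
      refine Subtype.ext ?_
      show CfsgLib.Heisenberg.unit 0 0 c = CfsgLib.Heisenberg.unit (Pi.single j c) 0 0 * CfsgLib.Heisenberg.unit 0 (Pi.single j 1) 0 *
        (CfsgLib.Heisenberg.unit (Pi.single j c) 0 0)⁻¹ * (CfsgLib.Heisenberg.unit 0 (Pi.single j 1) 0)⁻¹
      rw [eq_mul_inv_iff_mul_eq, eq_mul_inv_iff_mul_eq]
      simp only [CfsgLib.Heisenberg.unit_mul, zero_add, add_zero, zero_dotProduct, dotProduct_zero, dotProduct_single,
        Pi.single_eq_same, mul_one, Pi.zero_apply]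
    rw [h, commutator_def]
    exact Subgroup.commutator_mem_commutator (Subgroup.mem_top _) (Subgroup.mem_top _)
  have hle' : commutator E ≤ Subgroup.center E := by
    rw [commutator_def, Subgroup.commutator_le]
    exact fun x _ y _ => hcomm x y
  have hfr : frattini E ≤ Subgroup.center E := CfsgLib.PGroup.frattini_le_of_elementary (p := p) hcomm
    fun x => by rw [show x ^ p = 1 from Subtype.ext (hpow x x.2)]; exact one_mem _
  refine ⟨E, ⟨⟨hp', le_antisymm hfr (hle.trans (CfsgLib.PGroup.commutator_le_frattini hp')), le_antisymm hle' hle⟩, ?_⟩, hcard, hpow⟩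
  rw [← Nat.card_congr (Equiv.ofBijective (fun c => (⟨z c, hzc c⟩ : Subgroup.center E)) ⟨fun c d h => ?_, fun x => ?_⟩), Nat.card_zmod]
  · exact (CfsgLib.Heisenberg.unit_injective (congrArg Subtype.val (congrArg Subtype.val h))).2.2
  · obtain ⟨c, hc⟩ := hcen x x.2
    exact ⟨c, Subtype.ext hc.symm⟩


end Cfsg.Agent.S3799
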