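import Cfsg.Statements.S3800

set_option autoImplicit false
open Cfsg

namespace Cfsg.Agent.S3800

private theorem rep {G : Type*} [Group G] [Finite G] {p : ℕ} [Fact p.Prime] (N : Subgroup G) [N.Normal]
    (hN : (Nat.card N).Coprime p) (P : Subgroup G) (hP : IsPGroup p P) (x : G)
    (hx : P.map (MulAut.conj x).toMonoidHom ≤ P ⊔ N) :
    ∃ n ∈ N, n⁻¹ * x ∈ Subgroup.normalizer (P : Set G) := by
  classical
  set H := P ⊔ N with hH
  have hdis : P ⊓ N = ⊥ := by
    apply Subgroup.inf_eq_bot_of_coprime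
    obtain ⟨k, hk⟩ := IsPGroup.iff_card.1 hP
    rw [hk]
    exact Nat.Coprime.pow_left _ hN.symm
  have hPS : ¬ p ∣ (P.subgroupOf H).index := by
    intro hd
    have h1 : (P.subgroupOf H).index ∣ Nat.card N := by
      have e : (P.subgroupOf H).index * Nat.card (P.subgroupOf H) = Nat.card H := Subgroup.index_mul_card _
      have e2 : Nat.card H = (N.subgroupOf H).index * Nat.card (N.subgroupOf H) := (Subgroup.index_mul_card _).symm
      have e3 : (N.subgroupOf H).index = Nat.card P := by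
        change N.relIndex (P ⊔ N) = _
        rw [Subgroup.relIndex_sup_right, ← Subgroup.inf_relIndex_left, hdis, Subgroup.relIndex_bot_left]
      have e4 : Nat.card (N.subgroupOf H) = Nat.card N :=
        Nat.card_congr (Subgroup.subgroupOfEquivOfLe le_sup_right).toEquiv
      have e5 : Nat.card (P.subgroupOf H) = Nat.card P :=
        Nat.card_congr (Subgroup.subgroupOfEquivOfLe le_sup_left).toEquiv
      rw [e2, e3, e4, e5, mul_comm] at e
      rw [Nat.eq_of_mul_eq_mul_left (Nat.card_pos (α := P)) e]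
    exact (Fact.out : p.Prime).coprime_iff_not_dvd.1 hN.symm (dvd_trans hd h1)
  have hP' : IsPGroup p (P.subgroupOf H) :=
    hP.of_equiv (Subgroup.subgroupOfEquivOfLe le_sup_left).symm
  set Q := P.map (MulAut.conj x).toMonoidHom with hQ
  have hQ' : IsPGroup p (Q.subgroupOf H) :=
    (hP.map _).of_equiv (Subgroup.subgroupOfEquivOfLe hx).symm
  obtain ⟨S, hS⟩ := hQ'.exists_le_sylow
  obtain ⟨y, hy⟩ := MulAction.exists_smul_eq H (hP'.toSylow hPS) S
  have hle : Q ≤ P.map (MulAut.conj (y : G)).toMonoidHom := by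
    intro q hq
    have h1 : (⟨q, hx hq⟩ : H) ∈ (S : Subgroup H) := hS hq
    rw [← hy, Sylow.coe_subgroup_smul, Subgroup.mem_smul_pointwise_iff_exists] at h1
    obtain ⟨z, hz, hz2⟩ := h1
    refine ⟨z, hz, ?_⟩
    simpa using congrArg Subtype.val hz2
  have heq : Q = P.map (MulAut.conj (y : G)).toMonoidHom := by
    apply Subgroup.eq_of_le_of_card_ge hle
    rw [hQ, Subgroup.card_map_of_injective (f := (MulAut.conj x).toMonoidHom) (MulAut.conj x).injective,
      Subgroup.card_map_of_injective (f := (MulAut.conj (y : G)).toMonoidHom) (MulAut.conj (y : G)).injective]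
  have hy2 : (y : G) ∈ N ⊔ P := sup_comm P N ▸ (y.2 : (y : G) ∈ P ⊔ N)
  obtain ⟨n, hn, q, hq, hyq⟩ := Subgroup.mem_sup_of_normal_left.1 hy2
  refine ⟨n, hn, ?_⟩
  rw [Subgroup.mem_normalizer_iff_map_conj_eq]
  have hqN : P.map (MulAut.conj q).toMonoidHom = P :=
    Subgroup.mem_normalizer_iff_map_conj_eq.1 (Subgroup.le_normalizer hq)
  have e1 : (MulAut.conj (n⁻¹ * x)).toMonoidHom = (MulAut.conj n⁻¹).toMonoidHom.comp (MulAut.conj x).toMonoidHom := by
    ext; simp [mul_assoc]
  change P.map (MulAut.conj (n⁻¹ * x)).toMonoidHom = P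
  rw [e1, ← Subgroup.map_map, ← hQ, heq, Subgroup.map_map]
  have e2 : (MulAut.conj n⁻¹).toMonoidHom.comp (MulAut.conj (y : G)).toMonoidHom = (MulAut.conj q).toMonoidHom := by
    ext; simp [← hyq, mul_assoc]
  rw [e2, hqN]

/-- Let G be a finite group, N a normal subgroup of G whose order is prime to p, and P a p-subgroup of G. Then in G/N the normalizer of the image of P is the image of N_G(P), and the centralizer of the image of P is the image of C_G(P). -/
theorem result {G : Type*} [Group G] [Finite G] {p : ℕ} [Fact p.Prime] (N : Subgroup G) [N.Normal] (hN : (Nat.card N).Coprime p) (P : Subgroup G) (hP : IsPGroup p P) : Subgroup.normalizer ((P.map (QuotientGroup.mk' N)) : Set (G ⧸ N)) = (Subgroup.normalizer (P : Set G)).map (QuotientGroup.mk' N) ∧ Subgroup.centralizer ((P.map (QuotientGroup.mk' N)) : Set (G ⧸ N)) = (Subgroup.centralizer (P : Set G)).map (QuotientGroup.mk' N) := by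
  have hdis : P ⊓ N = ⊥ := by
    apply Subgroup.inf_eq_bot_of_coprime
    obtain ⟨k, hk⟩ := IsPGroup.iff_card.1 hP
    rw [hk]
    exact Nat.Coprime.pow_left _ hN.symm
  have hnorm : Subgroup.normalizer ((P.map (QuotientGroup.mk' N)) : Set (G ⧸ N)) =
      (Subgroup.normalizer (P : Set G)).map (QuotientGroup.mk' N) := by
    apply le_antisymm
    · intro g hg
      obtain ⟨x, rfl⟩ := QuotientGroup.mk'_surjective N g
      have hx : P.map (MulAut.conj x).toMonoidHom ≤ P ⊔ N := by
        rintro _ ⟨q, hq, rfl⟩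
        have := (Subgroup.mem_normalizer_iff.1 hg (QuotientGroup.mk' N q)).1 (Subgroup.mem_map_of_mem _ hq)
        rw [← map_inv, ← map_mul, ← map_mul, ← Subgroup.mem_comap, Subgroup.comap_map_eq, QuotientGroup.ker_mk'] at this
        exact this
      obtain ⟨n, hn, hnx⟩ := rep N hN P hP x hx
      refine ⟨n⁻¹ * x, hnx, ?_⟩
      rw [map_mul, map_inv, (QuotientGroup.eq_one_iff n).2 hn |> fun h => show QuotientGroup.mk' N n = 1 from h, inv_one, one_mul]
    · exact Subgroup.le_normalizer_map (QuotientGroup.mk' N)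
  refine ⟨hnorm, le_antisymm ?_ ?_⟩
  · intro g hg
    have hg' : g ∈ Subgroup.normalizer ((P.map (QuotientGroup.mk' N)) : Set (G ⧸ N)) :=
      Subgroup.centralizer_le_normalizer _ hg
    rw [hnorm] at hg'
    obtain ⟨y, hy, rfl⟩ := hg'
    refine ⟨y, ?_, rfl⟩
    rw [SetLike.mem_coe, Subgroup.mem_centralizer_iff]
    intro q hq
    have h1 : y * q * y⁻¹ * q⁻¹ ∈ N := by
      rw [← QuotientGroup.eq_one_iff]
      have := Subgroup.mem_centralizer_iff.1 hg _ (Subgroup.mem_map_of_mem (QuotientGroup.mk' N) hq)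
      simp only [QuotientGroup.mk'_apply] at this
      simp [← this]
    have h2 : y * q * y⁻¹ * q⁻¹ ∈ P := mul_mem ((Subgroup.mem_normalizer_iff.1 hy q).1 hq) (inv_mem hq)
    have h3 : y * q * y⁻¹ * q⁻¹ ∈ P ⊓ N := ⟨h2, h1⟩
    rw [hdis, Subgroup.mem_bot, mul_inv_eq_one, mul_inv_eq_iff_eq_mul] at h3
    exact h3.symm
  · rintro _ ⟨y, hy, rfl⟩
    rw [Subgroup.mem_centralizer_iff]
    rintro _ ⟨q, hq, rfl⟩
    rw [← map_mul, ← map_mul, Subgroup.mem_centralizer_iff.1 hy q hq]

end Cfsg.Agent.S3800
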