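import Cfsg.Statements.S3950
import Cfsg.Agent.Schur.Cocycle

set_option autoImplicit false
open Cfsg

namespace Cfsg.Agent.S3950

/-- A finite abelian group has trivial Schur multiplier if and only if it is cyclic. -/
theorem result {G : Type*} [CommGroup G] [Finite G] : Cfsg.HasCyclicSchurMultiplier G 1 ↔ IsCyclic G := by
  refine ⟨fun h => ?_, fun h => ?_⟩
  · by_contra hc
    obtain ⟨ι, _, n, hn, ⟨e⟩⟩ := CommGroup.equiv_prod_multiplicative_zmod_of_finite G
    classical
    by_cases hco : Pairwise (fun i j => (n i).Coprime (n j))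
    · apply hc
      let f := (ZMod.prodEquivPi n hco).toAddEquiv
      let g : G ≃* Multiplicative (ZMod (∏ i, n i)) :=
        e.trans ((AddEquiv.toMultiplicative (f.trans (AddEquiv.refl _))).trans
          (MulEquiv.piMultiplicative _)).symm
      exact g.isCyclic.2 inferInstance
    · simp only [Pairwise, not_forall] at hco
      obtain ⟨i, j, hij, hnc⟩ := hco
      obtain ⟨p, hp, hpi, hpj⟩ := Nat.Prime.not_coprime_iff_dvd.1 hnc
      have : Fact p.Prime := ⟨hp⟩
      let β : Additive G →+ Additive G →+ ZMod p :=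
        AddMonoidHom.mk' (fun x => AddMonoidHom.mk'
          (fun y => ZMod.castHom hpi (ZMod p) (e x.toMul i).toAdd * ZMod.castHom hpj (ZMod p) (e y.toMul j).toAdd)
          (fun y z => by simp only [toMul_add, map_mul, Pi.mul_apply, toAdd_mul, map_add, mul_add])) (fun x z => by
            refine AddMonoidHom.ext fun y => ?_
            simp only [toMul_add, map_mul, Pi.mul_apply, toAdd_mul, map_add, add_mul, AddMonoidHom.add_apply, AddMonoidHom.mk'_apply])
      refine CfsgLib.Schur.not_trivial_of_alt (β := β) (e.symm (Pi.mulSingle i (Multiplicative.ofAdd 1)))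
        (e.symm (Pi.mulSingle j (Multiplicative.ofAdd 1))) (Commute.all _ _) ?_ h
      simp only [β, AddMonoidHom.mk'_apply, toMul_ofMul, MulEquiv.apply_symm_apply, Pi.mulSingle_eq_same,
        Pi.mulSingle_eq_of_ne hij, Pi.mulSingle_eq_of_ne (Ne.symm hij), toAdd_ofAdd, toAdd_one, map_one,
        map_zero, mul_one, mul_zero]
      exact one_ne_zero
  · refine CfsgLib.Schur.hasTrivial_of fun Γ _ _ σ hσ => ?_
    have : IsMulCommutative Γ := ⟨⟨commutative_of_cyclic_center_quotient σ hσ.2.1⟩⟩
    rw [eq_bot_iff]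
    intro x hx
    have := hσ.2.2 hx
    rwa [(commutator_eq_bot_iff Γ).2 ‹_›] at this

end Cfsg.Agent.S3950
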