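import Cfsg.Statements.S3952
import Cfsg.Agent.CharBasics.Central
import Cfsg.Agent.Schur.Basic
import Mathlib

set_option autoImplicit false
open Cfsg

namespace Cfsg.Agent.S3952

open CfsgLib.CharBasics in
/-- If a character `lam` of a central subgroup inside `Γ'` has order `d`, then `d ^ 2` divides the index. -/
theorem sq_dvd {Γ : Type*} [Group Γ] [Finite Γ] (Z : Subgroup Γ) (hZc : Z ≤ Subgroup.center Γ)
    (hZd : Z ≤ commutator Γ) (lam : Z →* ℂˣ) : orderOf lam ^ 2 ∣ Z.index := by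
  classical
  have : Fintype Γ := Fintype.ofFinite Γ
  have : Fintype (Cfsg.IrrCharacter Γ) :=
    @Fintype.ofFinite _ (Nat.finite_of_card_ne_zero (by rw [card_irr]; exact Nat.card_pos.ne'))
  have : Fintype Z := Fintype.ofFinite Z
  have hom : ∀ χ : Cfsg.IrrCharacter Γ, ∀ a b : Z,
      χ.1 ((a * b : Z) : Γ) / χ.1 1 = χ.1 a / χ.1 1 * (χ.1 b / χ.1 1) := fun χ a b => by
    have h := center_mul χ.2 (hZc a.2) (b : Γ)
    have h1 := apply_one_ne_zero χ.2
    rw [Subgroup.coe_mul]
    field_simp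
    linear_combination h
  -- the homomorphism `a ↦ ω(a) / lam a`
  let f : Cfsg.IrrCharacter Γ → (Z →* ℂ) := fun χ =>
    { toFun := fun a => χ.1 a / χ.1 1 * ((lam a)⁻¹ : ℂˣ)
      map_one' := by simp [div_self (apply_one_ne_zero χ.2)]
      map_mul' := fun a b => by
        rw [hom, map_mul, mul_inv_rev, Units.val_mul]
        ring }
  let S : Finset (Cfsg.IrrCharacter Γ) := Finset.univ.filter fun χ => f χ = 1
  have hsum : ∑ χ : Cfsg.IrrCharacter Γ, (Cfsg.charDegree χ.1 : ℂ) ^ 2 * ∑ a : Z, f χ a = Nat.card Γ := by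
    have hx : ∀ χ : Cfsg.IrrCharacter Γ, (Cfsg.charDegree χ.1 : ℂ) ^ 2 * ∑ a : Z, f χ a =
        ∑ a : Z, (Cfsg.charDegree χ.1 : ℂ) * χ.1 a * ((lam a)⁻¹ : ℂˣ) := fun χ => by
      rw [Finset.mul_sum]
      refine Finset.sum_congr rfl fun a _ => ?_
      have h1 := apply_one_ne_zero χ.2
      rw [apply_one (isCharacter_of_irr χ.2)] at h1
      change _ * (χ.1 a / χ.1 1 * _) = _
      rw [apply_one (isCharacter_of_irr χ.2)]
      field_simp
    rw [Finset.sum_congr rfl fun χ _ => hx χ, Finset.sum_comm,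
      Finset.sum_eq_single (1 : Z) (fun a _ ha => ?_) (fun h => absurd (Finset.mem_univ _) h)]
    · have h2 := congrArg (Nat.cast : ℕ → ℂ) (sum_sq_degree (G := Γ))
      push_cast at h2
      rw [← h2]
      refine Finset.sum_congr rfl fun χ _ => ?_
      rw [map_one, inv_one, Units.val_one, mul_one, OneMemClass.coe_one,
        apply_one (isCharacter_of_irr χ.2), sq]
    · rw [← Finset.sum_mul, sum_mul_degree (fun h => ha (Subtype.ext h)), zero_mul]
  have hdeg : ∀ χ ∈ S, orderOf lam ∣ Cfsg.charDegree χ.1 := by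
    intro χ hχ
    obtain ⟨n, ρ, hirr, hρ⟩ := χ.2
    have hn : (Cfsg.charDegree χ.1 : ℂ) = n := by
      rw [← apply_one (isCharacter_of_irr χ.2), ← hρ, Representation.char_one, Module.finrank_fin_fun]
    have hn' : Cfsg.charDegree χ.1 = n := by exact_mod_cast hn
    rw [hn', orderOf_dvd_iff_pow_eq_one]
    refine MonoidHom.ext fun a => ?_
    apply Units.ext
    rw [MonoidHom.pow_apply, MonoidHom.one_apply, Units.val_pow_eq_pow_val, Units.val_one]
    have h1 := apply_one_ne_zero χ.2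
    have hfa : χ.1 a / χ.1 1 * ((lam a)⁻¹ : ℂˣ) = 1 := DFunLike.congr_fun (Finset.mem_filter.1 hχ).2 a
    have hla : (lam a : ℂ) = χ.1 a / χ.1 1 := by
      rw [Units.val_inv_eq_inv_val, mul_inv_eq_one₀ (Units.ne_zero _)] at hfa
      exact hfa.symm
    obtain ⟨c, hc, htr⟩ := commute_eq_scalar ρ (ρ (a : Γ)) fun g => by
      rw [← Module.End.mul_eq_comp, ← Module.End.mul_eq_comp, ← map_mul, ← map_mul,
        Subgroup.mem_center_iff.1 (hZc a.2) g]
    have hχa : χ.1 a = c * n := by rw [← hρ]; exact htr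
    have hχ1 : χ.1 1 = n := by rw [apply_one (isCharacter_of_irr χ.2), hn]
    rw [hχ1] at h1
    rw [hla, hχa, hχ1, mul_div_assoc, div_self h1, mul_one]
    -- the determinant is trivial on the commutator subgroup
    let D : Γ →* ℂˣ := (LinearMap.det.comp ρ).toHomUnits
    have hD : D a = 1 := Abelianization.commutator_subset_ker D (hZd a.2)
    have hD' : LinearMap.det (ρ (a : Γ)) = 1 := congrArg Units.val hD
    rw [hc, LinearMap.det_smul, LinearMap.det_id, Module.finrank_fin_fun, mul_one] at hD'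
    exact hD'
  have hcase : ∀ χ : Cfsg.IrrCharacter Γ, (Cfsg.charDegree χ.1 : ℂ) ^ 2 * ∑ a : Z, f χ a =
      if χ ∈ S then (Cfsg.charDegree χ.1 : ℂ) ^ 2 * Nat.card Z else 0 := by
    intro χ
    split_ifs with h
    · rw [(Finset.mem_filter.1 h).2, Nat.card_eq_fintype_card]
      simp
    · rw [sum_hom_units_eq_zero (f χ) fun h' => h (Finset.mem_filter.2 ⟨Finset.mem_univ _, h'⟩), mul_zero]
  rw [Finset.sum_congr rfl fun χ _ => hcase χ, Finset.sum_ite_mem, Finset.univ_inter, ← Finset.sum_mul,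
    ← Z.index_mul_card, Nat.cast_mul] at hsum
  have h3 := mul_right_cancel₀ (Nat.cast_ne_zero.2 Nat.card_pos.ne') hsum
  have h4 : ∑ χ ∈ S, Cfsg.charDegree χ.1 ^ 2 = Z.index := by exact_mod_cast h3
  rw [← h4]
  exact Finset.dvd_sum fun χ hχ => pow_dvd_pow_of_dvd (hdeg χ hχ) 2


/-- If `A` is the Schur multiplier of the finite group `Q`, then the square of the exponent of `A` divides the order of `Q`. -/
theorem result {Q : Type*} [Group Q] [Finite Q] {A : Type*} [CommGroup A] (hA : Cfsg.HasSchurMultiplier Q A) : Monoid.exponent A ^ 2 ∣ Nat.card Q := by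
  obtain ⟨Γ, _, _, σ, ⟨hσ1, hσ2, hσ3⟩, ⟨e⟩⟩ := hA.1
  have : Finite A := CfsgLib.Schur.finite_multiplier hA
  obtain ⟨d⟩ := CommGroup.monoidHom_mulEquiv_of_hasEnoughRootsOfUnity A ℂ
  obtain ⟨a, ha⟩ := Monoid.exists_orderOf_eq_exponent (G := A) Monoid.ExponentExists.of_finite
  let lam : σ.ker →* ℂˣ := (d.symm a).comp e.toMonoidHom
  have hord : orderOf lam = Monoid.exponent A := by
    rw [← ha, ← orderOf_injective d.symm.toMonoidHom d.symm.injective a]
    change orderOf lam = orderOf (d.symm a)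
    refine orderOf_eq_orderOf_iff.2 fun n => ⟨fun h => ?_, fun h => ?_⟩
    · refine MonoidHom.ext fun x => ?_
      have := DFunLike.congr_fun h (e.symm x)
      simpa [lam] using this
    · refine MonoidHom.ext fun x => ?_
      have := DFunLike.congr_fun h (e x)
      simpa [lam] using this
  rw [← hord]
  refine (sq_dvd σ.ker hσ2 hσ3 lam).trans (dvd_of_eq ?_)
  rw [Subgroup.index_ker, MonoidHom.range_eq_top.2 hσ1, Subgroup.card_top]

end Cfsg.Agent.S3952
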