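import Cfsg.Statements.S3953
import Cfsg.Agent.Schur.SylowSummand

set_option autoImplicit false
open Cfsg

namespace Cfsg.Agent.S3953

/-- Let `P` be a Sylow `p`-subgroup of the finite group `G`, let `A` be the Schur multiplier of `G` and `B` that of `P`. Then the `p`-primary component of `A` is isomorphic to a direct factor of `B`: there are subgroups `C` and `D` of `B` meeting trivially and generating `B`, with `C` isomorphic to the `p`-primary component of `A`. -/
theorem result {G : Type*} [Group G] [Finite G] (p : ℕ) [Fact p.Prime] (P : Sylow p G) {A B : Type*} [CommGroup A] [CommGroup B] (hA : Cfsg.HasSchurMultiplier G A) (hB : Cfsg.HasSchurMultiplier P B) : ∃ C D : Subgroup B, C ⊓ D = ⊥ ∧ C ⊔ D = ⊤ ∧ Nonempty (CommGroup.primaryComponent A p ≃* C) := by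
  obtain ⟨Θ, π, h⟩ := CfsgLib.Schur.multiplier_transfer (P : Subgroup G) hA hB
  haveI := CfsgLib.Schur.finite_multiplier hA
  exact CfsgLib.Schur.primary_summand p Θ π _ P.not_dvd_index h

end Cfsg.Agent.S3953
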