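import Cfsg.Statements.S3954
import Cfsg.Agent.Schur.Pullback

set_option autoImplicit false
open Cfsg

namespace Cfsg.Agent.S3954

open CfsgLib.Schur in
/-- An abelian quotient of a finite abelian group embeds into it. -/
theorem exists_inj_of_surj {B : Type*} [CommGroup B] [Finite B] {T : Type*} [Group T]
    [IsMulCommutative T] (π : B →* T) (hπ : Function.Surjective π) :
    ∃ d : T →* B, Function.Injective d := by
  let inst : CommGroup T := { (inferInstance : Group T) with mul_comm := mul_comm' }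
  have : Finite T := Finite.of_surjective π hπ
  have : HasEnoughRootsOfUnity ℂ (Monoid.exponent T) := inferInstance
  have : HasEnoughRootsOfUnity ℂ (Monoid.exponent B) := inferInstance
  obtain ⟨eB⟩ := CommGroup.monoidHom_mulEquiv_of_hasEnoughRootsOfUnity B ℂ
  obtain ⟨eT⟩ := CommGroup.monoidHom_mulEquiv_of_hasEnoughRootsOfUnity T ℂ
  let dual : (T →* ℂˣ) →* (B →* ℂˣ) := MonoidHom.compHom' π
  have hdual : Function.Injective dual := fun a b h => by
    refine MonoidHom.ext fun t => ?_
    obtain ⟨x, rfl⟩ := hπ t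
    exact DFunLike.congr_fun h x
  exact ⟨eB.toMonoidHom.comp (dual.comp eT.symm.toMonoidHom),
    eB.injective.comp (hdual.comp eT.symm.injective)⟩


/-- Let `U` be a subgroup of index `m` in the finite group `G`, let `A` be the Schur multiplier of `G` and `B` that of `U`. Then the subgroup of `m`-th powers of `A` is isomorphic to a subgroup of `B`. -/
theorem result {G : Type*} [Group G] [Finite G] (U : Subgroup G) {A B : Type*} [CommGroup A] [CommGroup B] (hA : Cfsg.HasSchurMultiplier G A) (hB : Cfsg.HasSchurMultiplier U B) : ∃ C : Subgroup B, Nonempty ((powMonoidHom U.index : A →* A).range ≃* C) := by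
  obtain ⟨Γ, _, _, σ, hσ, ⟨eA⟩⟩ := hA.1
  let V : Subgroup Γ := U.comap σ
  let φ : V →* U := (σ.comp V.subtype).codRestrict U fun x => x.2
  have hφs : Function.Surjective φ := fun u => by
    obtain ⟨x, hx⟩ := hσ.1 (u : G)
    exact ⟨⟨x, by rw [Subgroup.mem_comap, hx]; exact u.2⟩, Subtype.ext hx⟩
  have hφc : φ.ker ≤ Subgroup.center V := fun z hz => Subgroup.mem_center_iff.2 fun y =>
    Subtype.ext (Subgroup.mem_center_iff.1 (hσ.2.1 (MonoidHom.mem_ker.2
      (congrArg Subtype.val (MonoidHom.mem_ker.1 hz)))) (y : Γ))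
  obtain ⟨πB, hπB⟩ := CfsgLib.Schur.exists_surj_central hB φ hφs hφc
  have hidx : V.index = U.index := U.index_comap_of_surjective hσ.1
  have hpow : ∀ k ∈ σ.ker, k ^ U.index ∈ (commutator V).map V.subtype := by
    intro k hk
    have hkz : ∀ g, g * k = k * g := Subgroup.mem_center_iff.1 (hσ.2.1 hk)
    have hkV : ∀ j : ℕ, k ^ j ∈ V := fun j => by
      rw [Subgroup.mem_comap, map_pow, MonoidHom.mem_ker.1 hk, one_pow]
      exact U.one_mem
    have key : ∀ (j : ℕ) (g₀ : Γ), g₀⁻¹ * k ^ j * g₀ ∈ V → g₀⁻¹ * k ^ j * g₀ = k ^ j := fun j g₀ _ => by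
      rw [mul_assoc, ← (Commute.pow_right (hkz g₀) j).eq, inv_mul_cancel_left]
    have h1 : MonoidHom.transfer (Abelianization.of (G := V)) k =
        Abelianization.of ⟨k ^ V.index, hkV V.index⟩ :=
      MonoidHom.transfer_eq_pow _ _ key
    have h2 : MonoidHom.transfer (Abelianization.of (G := V)) k = 1 :=
      MonoidHom.mem_ker.1 (Abelianization.commutator_subset_ker _ (hσ.2.2 hk))
    rw [h2, eq_comm] at h1
    refine ⟨⟨k ^ V.index, _⟩, (QuotientGroup.eq_one_iff _).1 h1, ?_⟩
    change k ^ V.index = k ^ U.index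
    rw [hidx]
  let T : Subgroup V := φ.ker ⊓ commutator V
  let R : Subgroup σ.ker := Subgroup.closure (Set.range fun k : σ.ker => k ^ U.index)
  have hR : ∀ r ∈ R, ∃ t : T, ((t : V) : Γ) = (r : Γ) := by
    intro r hr
    induction hr using Subgroup.closure_induction with
    | mem x hx =>
        obtain ⟨k, rfl⟩ := hx
        obtain ⟨v, hv, hvk⟩ := hpow k k.2
        refine ⟨⟨v, MonoidHom.mem_ker.2 (Subtype.ext ?_), hv⟩, hvk⟩
        change σ (v : Γ) = 1
        rw [show (v : Γ) = (k : Γ) ^ U.index from hvk, map_pow, MonoidHom.mem_ker.1 k.2, one_pow]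
    | one => exact ⟨1, rfl⟩
    | mul a b _ _ ha hb =>
        obtain ⟨s, hs⟩ := ha
        obtain ⟨t, ht⟩ := hb
        exact ⟨s * t, by simp [hs, ht]⟩
    | inv a _ ha =>
        obtain ⟨s, hs⟩ := ha
        exact ⟨s⁻¹, by simp [hs]⟩
  have : IsMulCommutative T := ⟨⟨fun a b => Subtype.ext
    (Subgroup.mem_center_iff.1 (hφc b.2.1) (a : V))⟩⟩
  have : Finite B := CfsgLib.Schur.finite_multiplier hB
  -- `T` embeds in `B`
  obtain ⟨d, hdinj⟩ := exists_inj_of_surj πB hπB
  have hsel : ∀ a : (powMonoidHom U.index : A →* A).range, ∃ t : T, ((t : V) : Γ) = (eA.symm a.1 : Γ) :=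
    fun a => hR (eA.symm a.1) (by
      obtain ⟨y, hy⟩ := a.2
      refine Subgroup.subset_closure ⟨eA.symm y, ?_⟩
      rw [← hy, powMonoidHom_apply, map_pow])
  choose t ht using hsel
  let f : (powMonoidHom U.index : A →* A).range →* B :=
    MonoidHom.mk' (fun a => d (t a)) fun a b => by
      rw [← map_mul]
      congr 1
      refine Subtype.ext (Subtype.ext ?_)
      simp only [Subgroup.coe_mul, ht, map_mul]
  have hf : Function.Injective f := by
    intro a b hab
    have := congrArg (fun t : T => ((t : V) : Γ)) (hdinj hab)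
    simp only [ht] at this
    exact Subtype.ext (eA.symm.injective (Subtype.ext this))
  exact ⟨f.range, ⟨MonoidHom.ofInjective hf⟩⟩

end Cfsg.Agent.S3954
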