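import Cfsg.Statements.S3960
import Cfsg.Agent.Schur.Pullback
import Mathlib

set_option autoImplicit false
universe u
open Cfsg

namespace Cfsg.Agent.S3960

open scoped commutatorElement

/-- In a central extension of a finite group the commutator set is small. -/
theorem commutatorSet_small {P : Type*} [Group P] {Q : Type*} [Group Q] [Finite Q] (φ : P →* Q)
    (hs : Function.Surjective φ) (hc : φ.ker ≤ Subgroup.center P) :
    Finite (commutatorSet P) ∧ Nat.card (commutatorSet P) ≤ Nat.card (Q × Q) := by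
  let l : Q → P := Function.surjInv hs
  have key : ∀ a b : P, ⁅a, b⁆ = ⁅l (φ a), l (φ b)⁆ := fun a b => by
    have hz : ∀ x : P, (l (φ x))⁻¹ * x ∈ Subgroup.center P := fun x => hc (by
      rw [MonoidHom.mem_ker, map_mul, map_inv, Function.surjInv_eq hs, inv_mul_cancel])
    obtain ⟨y, hy, hay⟩ : ∃ y ∈ Subgroup.center P, a = l (φ a) * y := ⟨_, hz a, by simp⟩
    obtain ⟨w, hw, hbw⟩ : ∃ w ∈ Subgroup.center P, b = l (φ b) * w := ⟨_, hz b, by simp⟩
    conv_lhs => rw [hay, hbw]
    have hy' := fun g => (Subgroup.mem_center_iff.1 hy g)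
    have hw' := fun g => (Subgroup.mem_center_iff.1 hw g)
    simp only [commutatorElement_def, mul_inv_rev]
    calc l (φ a) * y * (l (φ b) * w) * (y⁻¹ * (l (φ a))⁻¹) * (w⁻¹ * (l (φ b))⁻¹)
        = l (φ a) * (y * (l (φ b) * w)) * (y⁻¹ * (l (φ a))⁻¹) * (w⁻¹ * (l (φ b))⁻¹) := by group
      _ = l (φ a) * ((l (φ b) * w) * y) * (y⁻¹ * (l (φ a))⁻¹) * (w⁻¹ * (l (φ b))⁻¹) := by rw [hy']
      _ = l (φ a) * l (φ b) * (w * (l (φ a))⁻¹) * (w⁻¹ * (l (φ b))⁻¹) := by group
      _ = l (φ a) * l (φ b) * ((l (φ a))⁻¹ * w) * (w⁻¹ * (l (φ b))⁻¹) := by rw [hw']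
      _ = l (φ a) * l (φ b) * (l (φ a))⁻¹ * (l (φ b))⁻¹ := by group
  let f : Q × Q → commutatorSet P := fun x => ⟨⁅l x.1, l x.2⁆, commutator_mem_commutatorSet _ _⟩
  have hf : Function.Surjective f := by
    rintro ⟨c, a, b, rfl⟩
    exact ⟨(φ a, φ b), Subtype.ext (key a b).symm⟩
  exact ⟨Finite.of_surjective f hf, Nat.card_le_card_of_surjective f hf⟩

/-- The derived group of a central extension of a perfect group is perfect and covers the group. -/
theorem commutator_perfect {P : Type*} [Group P] {Q : Type*} [Group Q] (hQ : Group.IsPerfect Q)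
    (φ : P →* Q) (hs : Function.Surjective φ) (hc : φ.ker ≤ Subgroup.center P) :
    Group.IsPerfect (commutator P) ∧ Function.Surjective (φ.comp (commutator P).subtype) := by
  have hsur : Function.Surjective (φ.comp (commutator P).subtype) := fun q => by
    have hq : q ∈ (commutator P).map φ := by
      rw [commutator_def, Subgroup.map_commutator, Subgroup.map_top_of_surjective _ hs, ← commutator_def,
        hQ.commutator_eq_top]
      trivial
    obtain ⟨x, hx, rfl⟩ := Subgroup.mem_map.1 hq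
    exact ⟨⟨x, hx⟩, rfl⟩
  refine ⟨Subgroup.isPerfect_iff.2 (le_antisymm (Subgroup.commutator_le_self _) ?_), hsur⟩
  conv_lhs => rw [commutator_eq_closure]
  rw [Subgroup.closure_le]
  rintro _ ⟨a, b, rfl⟩
  obtain ⟨x, hx⟩ := hsur (φ a)
  obtain ⟨y, hy⟩ := hsur (φ b)
  have hza : ((x : P))⁻¹ * a ∈ Subgroup.center P := hc (by
    rw [MonoidHom.mem_ker, map_mul, map_inv, ← show φ (x : P) = φ a from hx, inv_mul_cancel])
  have hzb : ((y : P))⁻¹ * b ∈ Subgroup.center P := hc (by
    rw [MonoidHom.mem_ker, map_mul, map_inv, ← show φ (y : P) = φ b from hy, inv_mul_cancel])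
  obtain ⟨u, hu, rfl⟩ : ∃ u ∈ Subgroup.center P, a = (x : P) * u := ⟨_, hza, by simp⟩
  obtain ⟨w, hw, rfl⟩ : ∃ w ∈ Subgroup.center P, b = (y : P) * w := ⟨_, hzb, by simp⟩
  have e : ⁅(x : P) * u, (y : P) * w⁆ = ⁅(x : P), (y : P)⁆ := by
    simp only [commutatorElement_def, mul_inv_rev]
    calc (x : P) * u * ((y : P) * w) * (u⁻¹ * (x : P)⁻¹) * (w⁻¹ * (y : P)⁻¹)
        = (x : P) * (u * ((y : P) * w)) * (u⁻¹ * (x : P)⁻¹) * (w⁻¹ * (y : P)⁻¹) := by group
      _ = (x : P) * (((y : P) * w) * u) * (u⁻¹ * (x : P)⁻¹) * (w⁻¹ * (y : P)⁻¹) := by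
          rw [Subgroup.mem_center_iff.1 hu]
      _ = (x : P) * (y : P) * (w * (x : P)⁻¹) * (w⁻¹ * (y : P)⁻¹) := by group
      _ = (x : P) * (y : P) * ((x : P)⁻¹ * w) * (w⁻¹ * (y : P)⁻¹) := by rw [Subgroup.mem_center_iff.1 hw]
      _ = (x : P) * (y : P) * (x : P)⁻¹ * (y : P)⁻¹ := by group
  rw [e]
  exact Subgroup.commutator_mem_commutator x.2 y.2


/-- A finite perfect group `Q` has a universal central extension: a finite perfect group `G` in the universe of `Q` and a surjective homomorphism `π : G →* Q` with central kernel such that for every group `X` in that universe and every surjective homomorphism `ξ : X →* Q` with central kernel there is exactly one homomorphism `η : G →* X` with `ξ ∘ η = π`. -/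
theorem result {Q : Type u} [Group Q] [Finite Q] (hQ : Group.IsPerfect Q) : ∃ (G : Type u) (_ : Group G) (_ : Finite G) (π : G →* Q), Group.IsPerfect G ∧ Function.Surjective π ∧ π.ker ≤ Subgroup.center G ∧ ∀ (X : Type u) [Group X] (ξ : X →* Q), Function.Surjective ξ → ξ.ker ≤ Subgroup.center X → ∃! η : G →* X, ξ.comp η = π := by
  classical
  let B : ℕ := (Finset.range (Nat.card (Q × Q) + 1)).sup Subgroup.cardCommutatorBound
  let S : Set ℕ := {n | ∃ (G : Type u) (_ : Group G) (_ : Finite G) (π : G →* Q),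
    Group.IsPerfect G ∧ Function.Surjective π ∧ π.ker ≤ Subgroup.center G ∧ Nat.card G = n}
  have hbound : ∀ {P : Type u} [Group P] (φ : P →* Q), Function.Surjective φ →
      φ.ker ≤ Subgroup.center P → Finite (commutator P) ∧ Nat.card (commutator P) ≤ B := fun {P} _ φ hs hc => by
    obtain ⟨hfin, hle⟩ := commutatorSet_small φ hs hc
    exact ⟨inferInstance, (Subgroup.card_commutator_le_of_finite_commutatorSet P).trans
      (Finset.le_sup (Finset.mem_range.2 (Nat.lt_succ_of_le hle)))⟩
  have hSb : BddAbove S := ⟨B, fun n ⟨G, _, _, π, hG, hs, hc, hn⟩ => by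
    have h := (hbound π hs hc).2
    rwa [hG.commutator_eq_top, Subgroup.card_top, hn] at h⟩
  have hSne : S.Nonempty := ⟨_, Q, inferInstance, inferInstance, MonoidHom.id Q, hQ,
    Function.surjective_id, fun x hx => (show x = 1 from hx) ▸ one_mem _, rfl⟩
  obtain ⟨G, _, _, π, hG, hπs, hπc, hn⟩ := Nat.sSup_mem hSne hSb
  refine ⟨G, inferInstance, inferInstance, π, hG, hπs, hπc, fun X _ ξ hξs hξc => ?_⟩
  let P := CfsgLib.Schur.pullback π ξ
  let φ : P →* Q := π.comp (CfsgLib.Schur.pfst π ξ)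
  have hφs : Function.Surjective φ := hπs.comp (CfsgLib.Schur.pfst_surjective hξs)
  have hφc : φ.ker ≤ Subgroup.center P := CfsgLib.Schur.base_ker_le_center hπc hξc
  obtain ⟨hDp, hDs⟩ := commutator_perfect hQ φ hφs hφc
  obtain ⟨hDf, -⟩ := hbound φ hφs hφc
  let f : commutator P →* G := (CfsgLib.Schur.pfst π ξ).comp (commutator P).subtype
  have hfs : Function.Surjective f := fun g => by
    obtain ⟨y, hy, hyg⟩ := CfsgLib.Schur.exists_mem_commutator_lift (CfsgLib.Schur.pfst π ξ)
      (CfsgLib.Schur.pfst_surjective hξs) (b := g) (by rw [hG.commutator_eq_top]; trivial)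
    exact ⟨⟨y, hy⟩, hyg⟩
  have hmax : Nat.card (commutator P) ≤ Nat.card G := by
    rw [hn]
    refine le_csSup hSb ⟨commutator P, inferInstance, hDf, φ.comp (commutator P).subtype, hDp, hDs,
      fun x hx => ?_, rfl⟩
    exact Subgroup.mem_center_iff.2 fun y => Subtype.ext (Subgroup.mem_center_iff.1 (hφc hx) y)
  have hfb : Function.Bijective f := (Nat.bijective_iff_surjective_and_card f).2
    ⟨hfs, le_antisymm hmax (Nat.card_le_card_of_surjective f hfs)⟩
  let e := MulEquiv.ofBijective f hfb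
  refine ⟨((CfsgLib.Schur.psnd π ξ).comp (commutator P).subtype).comp e.symm.toMonoidHom, ?_, ?_⟩
  · refine MonoidHom.ext fun g => ?_
    have h1 : ξ ((e.symm g : P) : G × X).2 = π ((e.symm g : P) : G × X).1 := ((e.symm g : P)).2.symm
    change ξ ((e.symm g : P) : G × X).2 = π g
    rw [h1]
    exact congrArg π (e.apply_symm_apply g)
  · intro η' hη'
    set η := ((CfsgLib.Schur.psnd π ξ).comp (commutator P).subtype).comp e.symm.toMonoidHom with hη
    have hη1 : ∀ g, ξ (η g) = π g := fun g => by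
      change ξ ((e.symm g : P) : G × X).2 = π g
      have h1 : ξ ((e.symm g : P) : G × X).2 = π ((e.symm g : P) : G × X).1 := ((e.symm g : P)).2.symm
      rw [h1]
      exact congrArg π (e.apply_symm_apply g)
    have hcen : ∀ g, (η g)⁻¹ * η' g ∈ Subgroup.center X := fun g => hξc (by
      rw [MonoidHom.mem_ker, map_mul, map_inv, hη1, show ξ (η' g) = π g from DFunLike.congr_fun hη' g,
        inv_mul_cancel])
    let δ : G →* Subgroup.center X := MonoidHom.mk' (fun g => ⟨(η g)⁻¹ * η' g, hcen g⟩) fun a b =>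
      Subtype.ext (by
        have hc := Subgroup.mem_center_iff.1 (hcen a) (η b)⁻¹
        change (η (a * b))⁻¹ * η' (a * b) = ((η a)⁻¹ * η' a) * ((η b)⁻¹ * η' b)
        rw [map_mul, map_mul, mul_inv_rev]
        calc (η b)⁻¹ * (η a)⁻¹ * (η' a * η' b) = ((η b)⁻¹ * ((η a)⁻¹ * η' a)) * η' b := by group
          _ = (((η a)⁻¹ * η' a) * (η b)⁻¹) * η' b := by rw [hc]
          _ = _ := mul_assoc _ _ _)
    refine MonoidHom.ext fun g => ?_
    have hg : g ∈ δ.ker := by
      refine (?_ : commutator G ≤ δ.ker) (by rw [hG.commutator_eq_top]; trivial)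
      rw [commutator_def, Subgroup.commutator_le]
      intro a _ b _
      rw [MonoidHom.mem_ker, map_commutatorElement, commutatorElement_eq_one_iff_mul_comm]
      exact Subtype.ext (Subgroup.mem_center_iff.1 (δ b).2 (δ a : X))
    exact (inv_mul_eq_one.1 (congrArg Subtype.val (MonoidHom.mem_ker.1 hg))).symm

end Cfsg.Agent.S3960
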