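import Cfsg.Statements.S3961
import Cfsg.Agent.Schur.Pullback

set_option autoImplicit false
universe u v
open Cfsg
open scoped commutatorElement

namespace Cfsg.Agent.S3961

/-- Let `π : G →* Q` be a surjective homomorphism with central kernel from a finite perfect group `G` (a perfect cover of `Q`). Then `π` is universal, in the sense that every surjective homomorphism `ξ : X →* Q` with central kernel from a group `X` in the universe of `G` admits a homomorphism `η : G →* X` with `ξ ∘ η = π`, if and only if `G` has trivial Schur multiplier. -/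
theorem result {G : Type u} {Q : Type v} [Group G] [Group Q] [Finite G] (hG : Group.IsPerfect G) (π : G →* Q) (hπ : Function.Surjective π) (hker : π.ker ≤ Subgroup.center G) : (∀ (X : Type u) [Group X] (ξ : X →* Q), Function.Surjective ξ → ξ.ker ≤ Subgroup.center X → ∃ η : G →* X, ξ.comp η = π) ↔ Cfsg.HasCyclicSchurMultiplier G 1 := by
  have : Finite Q := Finite.of_surjective π hπ
  have hQ : commutator Q = ⊤ := by
    rw [← CfsgLib.Schur.map_commutator_surjective π hπ, hG.commutator_eq_top,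
      Subgroup.map_top_of_surjective π hπ]
  refine ⟨fun h => ?_, fun h X _ ξ hξ hξc => ?_⟩
  · refine CfsgLib.Schur.hasTrivial_of fun Γ _ _ σ hσ => ?_
    have hΓ : commutator Γ = ⊤ := by
      have h1 : (commutator Γ).map σ = ⊤ := by
        rw [CfsgLib.Schur.map_commutator_surjective σ hσ.1, hG.commutator_eq_top]
      rw [← Subgroup.comap_top σ, ← h1, Subgroup.comap_map_eq, sup_eq_left.2 hσ.2.2]
    have hcent : ∀ x ∈ (π.comp σ).ker, x ∈ Subgroup.center Γ := fun x hx => by
      refine Subgroup.mem_center_iff.2 fun y => ?_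
      have hmem : ∀ y : Γ, ⁅x, y⁆ ∈ σ.ker := fun y => by
        rw [MonoidHom.mem_ker, map_commutatorElement, commutatorElement_eq_one_iff_mul_comm]
        exact (Subgroup.mem_center_iff.1 (hker (x := σ x) hx) (σ y)).symm
      let f : Γ →* Subgroup.center Γ := MonoidHom.mk' (fun y => ⟨⁅x, y⁆, hσ.2.1 (hmem y)⟩) fun a b =>
        Subtype.ext (by
          change ⁅x, a * b⁆ = ⁅x, a⁆ * ⁅x, b⁆
          have h := Subgroup.mem_center_iff.1 (hσ.2.1 (hmem b)) a
          calc ⁅x, a * b⁆ = ⁅x, a⁆ * (a * ⁅x, b⁆) * a⁻¹ := by simp only [commutatorElement_def]; group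
            _ = ⁅x, a⁆ * (⁅x, b⁆ * a) * a⁻¹ := by rw [h]
            _ = _ := by group)
      have hf : commutator Γ ≤ f.ker := by
        rw [commutator_def, Subgroup.commutator_le]
        intro a _ b _
        rw [MonoidHom.mem_ker, map_commutatorElement, commutatorElement_eq_one_iff_mul_comm]
        exact Subtype.ext (Subgroup.mem_center_iff.1 (f b).2 _)
      have := congrArg Subtype.val (MonoidHom.mem_ker.1 (hf (hΓ ▸ Subgroup.mem_top y)))
      exact (commutatorElement_eq_one_iff_mul_comm.1 this).symm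
    obtain ⟨η, hη⟩ := h Γ (π.comp σ) (hπ.comp hσ.1) hcent
    have hη' : ∀ g, π (σ (η g)) = π g := fun g => DFunLike.congr_fun hη g
    have hid : ∀ g, σ (η g) = g := by
      let d : G →* Subgroup.center G := MonoidHom.mk' (fun g => ⟨σ (η g) * g⁻¹, hker (by
        rw [MonoidHom.mem_ker, map_mul, map_inv, hη', mul_inv_cancel])⟩) fun a b => Subtype.ext (by
        change σ (η (a * b)) * (a * b)⁻¹ = σ (η a) * a⁻¹ * (σ (η b) * b⁻¹)
        have h := Subgroup.mem_center_iff.1 (hker (x := σ (η b) * b⁻¹) (by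
          rw [MonoidHom.mem_ker, map_mul, map_inv, hη', mul_inv_cancel])) a⁻¹
        rw [mul_assoc (σ (η a)), h, map_mul, map_mul]
        group)
      have hd : commutator G ≤ d.ker := by
        rw [commutator_def, Subgroup.commutator_le]
        intro a _ b _
        rw [MonoidHom.mem_ker, map_commutatorElement, commutatorElement_eq_one_iff_mul_comm]
        exact Subtype.ext (Subgroup.mem_center_iff.1 (d b).2 _)
      intro g
      have := congrArg Subtype.val (MonoidHom.mem_ker.1 (hd (hG.commutator_eq_top ▸ Subgroup.mem_top g)))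
      exact mul_inv_eq_one.1 this
    rw [eq_bot_iff]
    intro x hx
    have h2 : commutator Γ ≤ η.range := by
      rw [commutator_def, Subgroup.commutator_le]
      intro a _ b _
      refine ⟨⁅σ a, σ b⁆, ?_⟩
      have key : ∀ a, (η (σ a))⁻¹ * a ∈ Subgroup.center Γ := fun a => hσ.2.1 (by
        rw [MonoidHom.mem_ker, map_mul, map_inv, hid, inv_mul_cancel])
      rw [map_commutatorElement]
      have ha := Subgroup.mem_center_iff.1 (key a)
      have hb := Subgroup.mem_center_iff.1 (key b)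
      obtain ⟨za, hza⟩ : ∃ z, a = η (σ a) * z := ⟨_, (mul_inv_cancel_left _ _).symm⟩
      obtain ⟨zb, hzb⟩ : ∃ z, b = η (σ b) * z := ⟨_, (mul_inv_cancel_left _ _).symm⟩
      have hza' : za = (η (σ a))⁻¹ * a := eq_inv_mul_of_mul_eq hza.symm
      have hzb' : zb = (η (σ b))⁻¹ * b := eq_inv_mul_of_mul_eq hzb.symm
      rw [← hza'] at ha
      rw [← hzb'] at hb
      conv_rhs => rw [hza, hzb]
      simp only [commutatorElement_def]
      calc η (σ a) * η (σ b) * (η (σ a))⁻¹ * (η (σ b))⁻¹
          = η (σ a) * η (σ b) * (η (σ a))⁻¹ * (za * za⁻¹) * (zb * zb⁻¹) * (η (σ b))⁻¹ := by group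
        _ = η (σ a) * η (σ b) * ((η (σ a))⁻¹ * za) * (za⁻¹ * zb) * (zb⁻¹ * (η (σ b))⁻¹) := by group
        _ = η (σ a) * (η (σ b) * za) * (η (σ a))⁻¹ * (za⁻¹ * zb) * (zb⁻¹ * (η (σ b))⁻¹) := by
            rw [ha (η (σ a))⁻¹]; group
        _ = η (σ a) * za * η (σ b) * ((η (σ a))⁻¹ * (za⁻¹ * zb)) * (zb⁻¹ * (η (σ b))⁻¹) := by
            rw [ha (η (σ b))]; group
        _ = η (σ a) * za * η (σ b) * (((η (σ a))⁻¹ * za⁻¹) * zb) * (zb⁻¹ * (η (σ b))⁻¹) := by group
        _ = η (σ a) * za * η (σ b) * (zb * ((η (σ a))⁻¹ * za⁻¹)) * (zb⁻¹ * (η (σ b))⁻¹) := by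
            rw [hb ((η (σ a))⁻¹ * za⁻¹)]
        _ = η (σ a) * za * (η (σ b) * zb) * ((η (σ a))⁻¹ * za⁻¹) * (zb⁻¹ * (η (σ b))⁻¹) := by group
        _ = _ := by
            rw [show (η (σ a))⁻¹ * za⁻¹ = (za * η (σ a))⁻¹ by group, ← ha (η (σ a))]
            rw [show zb⁻¹ * (η (σ b))⁻¹ = (η (σ b) * zb)⁻¹ by group]
    obtain ⟨g, rfl⟩ := h2 (hΓ ▸ Subgroup.mem_top x : x ∈ commutator Γ)
    rw [MonoidHom.mem_ker, hid] at hx
    simp [hx]
  · -- universality from triviality
    have hfi : (Subgroup.center X).FiniteIndex := by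
      have : ξ.ker.FiniteIndex := ⟨by rw [Subgroup.index_ker]; exact Nat.card_pos.ne'⟩
      exact Subgroup.finiteIndex_of_le hξc
    have : Finite (commutatorSet X) := by
      have : Finite (X ⧸ Subgroup.center X) := Subgroup.finite_quotient_of_finiteIndex
      refine Finite.of_surjective (fun ab : (X ⧸ Subgroup.center X) × (X ⧸ Subgroup.center X) =>
        (⟨⁅ab.1.out, ab.2.out⁆, _, _, rfl⟩ : commutatorSet X)) ?_
      rintro ⟨_, a, b, rfl⟩
      refine ⟨((a : X ⧸ Subgroup.center X), (b : X ⧸ Subgroup.center X)), Subtype.ext ?_⟩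
      obtain ⟨⟨za, hza⟩, ha⟩ := QuotientGroup.mk_out_eq_mul (Subgroup.center X) a
      obtain ⟨⟨zb, hzb⟩, hb⟩ := QuotientGroup.mk_out_eq_mul (Subgroup.center X) b
      have c1 := Subgroup.mem_center_iff.1 hza
      have c2 := Subgroup.mem_center_iff.1 hzb
      simp only [ha, hb, commutatorElement_def]
      calc a * za * (b * zb) * (a * za)⁻¹ * (b * zb)⁻¹
          = a * za * (b * zb) * za⁻¹ * a⁻¹ * zb⁻¹ * b⁻¹ := by group
        _ = a * ((b * zb) * za) * za⁻¹ * a⁻¹ * zb⁻¹ * b⁻¹ := by rw [c1 (b * zb)]; group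
        _ = a * b * (zb * a⁻¹) * zb⁻¹ * b⁻¹ := by group
        _ = a * b * (a⁻¹ * zb) * zb⁻¹ * b⁻¹ := by rw [c2 a⁻¹]
        _ = _ := by group
    have : Finite (commutator X) := inferInstance
    let ξ' := ξ.comp (commutator X).subtype
    have hξ's : Function.Surjective ξ' := fun q => by
      obtain ⟨x, hx, rfl⟩ := CfsgLib.Schur.exists_mem_commutator_lift ξ hξ
        (hQ ▸ Subgroup.mem_top q : q ∈ commutator Q)
      exact ⟨⟨x, hx⟩, rfl⟩
    have hξ'c : ξ'.ker ≤ Subgroup.center _ := fun z hz =>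
      Subgroup.mem_center_iff.2 fun y => Subtype.ext (Subgroup.mem_center_iff.1 (hξc hz) (y : X))
    let p := CfsgLib.Schur.pfst π ξ'
    have hbot := CfsgLib.Schur.inf_commutator_eq_bot_of_trivial h p
      (CfsgLib.Schur.pfst_surjective hξ's) (CfsgLib.Schur.pfst_ker_le_center hξ'c)
    let q := p.comp (commutator (CfsgLib.Schur.pullback π ξ')).subtype
    have hq : Function.Bijective q := by
      refine ⟨?_, fun g => ?_⟩
      · rw [← MonoidHom.ker_eq_bot_iff, eq_bot_iff]
        intro z hz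
        have h2 : (z : CfsgLib.Schur.pullback π ξ') ∈ p.ker ⊓ commutator _ := ⟨hz, z.2⟩
        rw [hbot, Subgroup.mem_bot] at h2
        exact Subgroup.mem_bot.2 (Subtype.ext h2)
      · obtain ⟨z, hz, rfl⟩ := CfsgLib.Schur.exists_mem_commutator_lift p
          (CfsgLib.Schur.pfst_surjective hξ's) (hG.commutator_eq_top ▸ Subgroup.mem_top g : g ∈ commutator G)
        exact ⟨⟨z, hz⟩, rfl⟩
    let e := MulEquiv.ofBijective q hq
    refine ⟨(commutator X).subtype.comp ((CfsgLib.Schur.psnd π ξ').comp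
      ((commutator (CfsgLib.Schur.pullback π ξ')).subtype.comp e.symm.toMonoidHom)), MonoidHom.ext fun g => ?_⟩
    obtain ⟨z, rfl⟩ := e.surjective g
    simp only [MonoidHom.coe_comp, Function.comp_apply, MulEquiv.coe_toMonoidHom, e.symm_apply_apply]
    exact (CfsgLib.Schur.mem_pullback.1 (z : CfsgLib.Schur.pullback π ξ').2).symm

end Cfsg.Agent.S3961
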