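import Cfsg.Statements.S3962
import Cfsg.Agent.Schur.Pullback

set_option autoImplicit false
open Cfsg

namespace Cfsg.Agent.S3962

/-- Let `G` be a perfect group and `π : G →* Q` a surjective homomorphism whose kernel is central. Then `π` maps the centre of `G` onto the centre of `Q`. Taking `π` to be the map to `G ⧸ Z(G)` shows that the central quotient of a perfect group has trivial centre. -/
theorem result {G Q : Type*} [Group G] [Group Q] (hG : Group.IsPerfect G) (π : G →* Q) (hπ : Function.Surjective π) (hker : π.ker ≤ Subgroup.center G) : (Subgroup.center G).map π = Subgroup.center Q := by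
  ext q
  refine ⟨?_, fun hq => ?_⟩
  · rintro ⟨x, hx, rfl⟩
    refine Subgroup.mem_center_iff.2 fun y => ?_
    obtain ⟨z, rfl⟩ := hπ y
    rw [← map_mul, ← map_mul, Subgroup.mem_center_iff.1 hx z]
  · obtain ⟨x, rfl⟩ := hπ q
    refine ⟨x, Subgroup.mem_center_iff.2 fun g => ?_, rfl⟩
    have hmem : ∀ g : G, x * g * x⁻¹ * g⁻¹ ∈ π.ker := fun g => by
      rw [MonoidHom.mem_ker, map_mul, map_mul, map_mul, map_inv, map_inv,
        ← Subgroup.mem_center_iff.1 hq, mul_inv_cancel_right, mul_inv_cancel]
    let f : G →* Subgroup.center G := MonoidHom.mk' (fun g => ⟨_, hker (hmem g)⟩) fun a b =>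
      Subtype.ext (by
        change x * (a * b) * x⁻¹ * (a * b)⁻¹ = x * a * x⁻¹ * a⁻¹ * (x * b * x⁻¹ * b⁻¹)
        have h := Subgroup.mem_center_iff.1 (hker (hmem b)) a
        calc x * (a * b) * x⁻¹ * (a * b)⁻¹
            = x * a * x⁻¹ * (x * b * x⁻¹ * b⁻¹) * a⁻¹ := by group
          _ = x * a * x⁻¹ * a⁻¹ * (a * (x * b * x⁻¹ * b⁻¹)) * a⁻¹ := by group
          _ = x * a * x⁻¹ * a⁻¹ * ((x * b * x⁻¹ * b⁻¹) * a) * a⁻¹ := by rw [h]
          _ = _ := by group)
    have hg : g ∈ f.ker := by
      have : commutator G ≤ f.ker := by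
        rw [commutator_def, Subgroup.commutator_le]
        intro a _ b _
        rw [MonoidHom.mem_ker, map_commutatorElement, commutatorElement_eq_one_iff_mul_comm]
        exact Subtype.ext (Subgroup.mem_center_iff.1 (f b).2 _)
      exact this (hG.commutator_eq_top ▸ Subgroup.mem_top g)
    have h : x * g * x⁻¹ * g⁻¹ = 1 := congrArg Subtype.val (MonoidHom.mem_ker.1 hg)
    rw [mul_inv_eq_one, mul_inv_eq_iff_eq_mul] at h
    exact h.symm

end Cfsg.Agent.S3962
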