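import Cfsg.Statements.S3968
import Cfsg.Agent.CharBasics.Burnside
import Cfsg.Agent.CharBasics.Ortho
import Cfsg.Agent.IndFun.Basic
-- import your own Cfsg.Agent.* helpers here

set_option autoImplicit false
open Cfsg

namespace Cfsg.Agent.S3968

/-- Let `p` be a prime and `G` a finite group with a faithful irreducible complex character of degree `p` (so `G` is an irreducible linear group in `p` variables). If `p ^ 2` divides the order of `G`, then the centre of `G` is nontrivial. -/
theorem result {G : Type*} [Group G] [Finite G] (p : ℕ) (hp : p.Prime) (χ : Cfsg.IrrCharacter G) (hdeg : χ.1 1 = p) (hfaith : ∀ g : G, χ.1 g = χ.1 1 → g = 1) (hdiv : p ^ 2 ∣ Nat.card G) : Subgroup.center G ≠ ⊥ := by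
  classical
  haveI := Fact.mk hp
  haveI := Fintype.ofFinite G
  intro hZ
  have hc := CfsgLib.CharBasics.isCharacter_of_irr χ.2
  have hd : Cfsg.charDegree (χ : G → ℂ) = p := by
    have h := CfsgLib.CharBasics.apply_one hc
    rw [hdeg] at h
    exact_mod_cast h.symm
  have hcent : ∀ z : G, ‖(χ : G → ℂ) z‖ = (Cfsg.charDegree (χ : G → ℂ) : ℝ) → z = 1 := by
    intro z hz
    have h1 : z ∈ Subgroup.center G := Subgroup.mem_center_iff.2 fun x => by
      have h := hfaith _ (CfsgLib.CharBasics.commutator_mem_charKer χ.2 hz x)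
      rwa [mul_inv_eq_one, mul_inv_eq_iff_eq_mul] at h
    rwa [hZ, Subgroup.mem_bot] at h1
  obtain ⟨P⟩ : Nonempty (Sylow p G) := inferInstance
  haveI := Fintype.ofFinite (P : Subgroup G)
  have hP2 : p ^ 2 ∣ Nat.card (P : Subgroup G) := by
    rw [P.card_eq_multiplicity]
    exact pow_dvd_pow p ((hp.pow_dvd_iff_le_factorization Nat.card_pos.ne').1 hdiv)
  have hres := CfsgLib.CharBasics.isCharacter_restrict hc (P : Subgroup G)
  by_cases hirr : Cfsg.IsIrrCharacter (P : Subgroup G) (fun x : (P : Subgroup G) => (χ : G → ℂ) x)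
  · haveI : Nontrivial (P : Subgroup G) := Finite.one_lt_card_iff_nontrivial.1
      (lt_of_lt_of_le (Nat.one_lt_pow two_ne_zero hp.one_lt) (Nat.le_of_dvd Nat.card_pos hP2))
    haveI := P.isPGroup'.center_nontrivial
    obtain ⟨⟨z, hzc⟩, hz⟩ := exists_ne (1 : Subgroup.center (P : Subgroup G))
    have h := CfsgLib.CharBasics.center_mul hirr hzc z⁻¹
    simp only [mul_inv_cancel, Subgroup.coe_inv, Subgroup.coe_one] at h
    rw [CfsgLib.CharBasics.apply_inv hc, Complex.mul_conj', CfsgLib.CharBasics.apply_one hc] at h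
    have h2 : ‖(χ : G → ℂ) z‖ = (Cfsg.charDegree (χ : G → ℂ) : ℝ) := by
      have h3 : ((‖(χ : G → ℂ) z‖ ^ 2 : ℝ) : ℂ) = (((Cfsg.charDegree (χ : G → ℂ) : ℝ) ^ 2 : ℝ) : ℂ) := by
        push_cast
        linear_combination -h
      exact (sq_eq_sq₀ (norm_nonneg _) (Nat.cast_nonneg _)).1 (by exact_mod_cast h3)
    exact hz (Subtype.ext (Subtype.ext (hcent z h2)))
  obtain ⟨r, f, hf, hdec⟩ := CfsgLib.CharBasics.exists_decomp hres
  have hsum : ∑ i, Cfsg.charDegree (f i) = p := by
    have h := congrFun hdec 1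
    simp only [Subgroup.coe_one, Finset.sum_apply] at h
    rw [Finset.sum_congr rfl fun i _ => CfsgLib.CharBasics.apply_one (CfsgLib.CharBasics.isCharacter_of_irr (hf i)),
      hdeg] at h
    exact_mod_cast h.symm
  have hlin : ∀ i, Cfsg.charDegree (f i) = 1 := by
    intro i
    obtain ⟨a, ha⟩ := IsPGroup.iff_card.1 P.isPGroup'
    obtain ⟨k, -, hk⟩ := (Nat.dvd_prime_pow hp).1 (ha ▸ CfsgLib.CharBasics.degree_dvd ⟨f i, hf i⟩)
    change Cfsg.charDegree (f i) = p ^ k at hk
    rcases Nat.eq_zero_or_pos k with rfl | hk0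
    · simpa using hk
    exfalso
    have hge : p ≤ Cfsg.charDegree (f i) := hk ▸ Nat.le_self_pow hk0.ne' p
    refine hirr ?_
    have huniv : ∀ j, j = i := by
      intro j
      by_contra hne
      have h1 := Finset.sum_le_sum_of_subset (f := fun j => Cfsg.charDegree (f j)) (Finset.subset_univ {i, j})
      rw [Finset.sum_pair (Ne.symm hne), hsum] at h1
      have := CfsgLib.CharBasics.charDegree_pos (hf j)
      omega
    rw [hdec, Finset.sum_eq_single i (fun j _ hne => absurd (huniv j) hne) (fun h => absurd (Finset.mem_univ i) h)]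
    exact hf i
  have hab : ∀ a b : (P : Subgroup G), a * b = b * a := by
    intro a b
    have hmul : ∀ i (x y : (P : Subgroup G)), f i (x * y) = f i x * f i y := fun i =>
      CfsgLib.IndFun.linChar_mul (CfsgLib.CharBasics.isCharacter_of_irr (hf i))
        (by rw [CfsgLib.CharBasics.apply_one (CfsgLib.CharBasics.isCharacter_of_irr (hf i)), hlin i, Nat.cast_one])
    have h : (χ : G → ℂ) ((a * b * a⁻¹ * b⁻¹ : (P : Subgroup G)) : G) = (χ : G → ℂ) 1 := by
      have h1 := congrFun hdec (a * b * a⁻¹ * b⁻¹)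
      have h2 := congrFun hdec 1
      simp only [Finset.sum_apply] at h1 h2
      rw [h1, ← Subgroup.coe_one (P : Subgroup G), h2]
      refine Finset.sum_congr rfl fun i _ => ?_
      have e : f i (a * b * a⁻¹ * b⁻¹) = f i (a * a⁻¹) * f i (b * b⁻¹) := by simp only [hmul]; ring
      rw [e, mul_inv_cancel, mul_inv_cancel, ← hmul, one_mul]
    have h3 : a * b * a⁻¹ * b⁻¹ = 1 := Subtype.ext (hfaith _ h)
    rwa [mul_inv_eq_one, mul_inv_eq_iff_eq_mul] at h3
  have hvan : ∀ u : (P : Subgroup G), u ≠ 1 → (χ : G → ℂ) u = 0 := by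
    intro u hu
    by_contra hne
    refine hu (Subtype.ext (hcent _ (CfsgLib.CharBasics.exists_norm_eq_degree χ _ ?_ hne)))
    rw [hd, Nat.coprime_comm, hp.coprime_iff_not_dvd]
    exact fun h => P.not_dvd_index (h.trans (Subgroup.index_dvd_of_le fun y hy =>
      Subgroup.mem_centralizer_singleton_iff.2 (congrArg Subtype.val (hab ⟨y, hy⟩ u))))
  obtain ⟨m, hm⟩ := CfsgLib.CharBasics.classInner_characters_nat hres
    (CfsgLib.CharBasics.isCharacter_of_irr CfsgLib.CharBasics.isIrrCharacter_one)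
  change Cfsg.classInner (fun x : (P : Subgroup G) => (χ : G → ℂ) x) (fun _ => 1) = (m : ℂ) at hm
  rw [CfsgLib.CharBasics.classInner_one, Finset.sum_eq_single 1 (fun u _ hu => hvan u hu)
    (fun h => absurd (Finset.mem_univ _) h), Subgroup.coe_one, hdeg,
    inv_mul_eq_iff_eq_mul₀ (Nat.cast_ne_zero.2 Nat.card_pos.ne')] at hm
  have h1 : Nat.card (P : Subgroup G) ∣ p := ⟨m, by exact_mod_cast hm⟩
  have h2 := Nat.le_of_dvd hp.pos (hP2.trans h1)
  have := hp.two_le
  nlinarith

end Cfsg.Agent.S3968
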