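import Cfsg.Statements.S3970
import Cfsg.Agent.CoprimeAction.AbelianSylow
import Cfsg.Agent.Transfer.Focal
import Cfsg.Agent.Transfer.Residual
import Mathlib.GroupTheory.Solvable
import Mathlib.GroupTheory.Nilpotent

set_option autoImplicit false
open Cfsg

namespace Cfsg.Agent.S3970

universe u

theorem coprime_pow_sub_one {p r : ℕ} (hp : p.Prime) (hr : r.Prime) (hrp : p < r) (hd : r ∣ p ^ 2 - 1) :
    p = 2 ∧ r = 3 := by
  have h1 : p ^ 2 - 1 = (p + 1) * (p - 1) := by
    obtain ⟨n, rfl⟩ : ∃ n, p = n + 1 := ⟨p - 1, by have := hp.pos; omega⟩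
    simp only [Nat.add_sub_cancel]
    ring_nf
    omega
  rw [h1] at hd
  rcases (Nat.Prime.dvd_mul hr).1 hd with h | h
  · have hle := Nat.le_of_dvd (by omega) h
    have hr' : r = p + 1 := by omega
    rcases hp.eq_two_or_odd' with h2 | h2
    · exact ⟨h2, by omega⟩
    · exfalso
      rcases hr.eq_two_or_odd' with h3 | h3
      · have := hp.two_le; omega
      · rw [hr'] at h3
        exact Nat.not_odd_iff_even.2 (h2.add_odd odd_one) h3
  · have hle := Nat.le_of_dvd (by have := hp.two_le; omega) h
    omega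

theorem solvable_aux : ∀ (n : ℕ) {G : Type u} [Group G] [Finite G], Nat.card G = n →
    (∀ p : ℕ, p.Prime → p ∣ Nat.card G → (∃ q : ℕ, q.Prime ∧ q ∣ Nat.card G ∧ p < q) →
      ∀ P : Sylow p G, IsMulCommutative (P : Subgroup G) ∧ Group.rank (P : Subgroup G) ≤ 2) →
    ¬ 12 ∣ Nat.card G → Group.IsSolvable G := by
  intro n
  induction n using Nat.strong_induction_on with
  | _ n ih =>
  intro G _ _ hcard h h12
  by_cases h1 : Nat.card G = 1
  · exact Group.isSolvable_of_comm fun a b => by
      haveI : Subsingleton G := (Nat.card_eq_one_iff_unique.1 h1).1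
      exact Subsingleton.elim _ _
  set p := (Nat.card G).minFac with hpdef
  have hp : p.Prime := Nat.minFac_prime h1
  have hpG : p ∣ Nat.card G := Nat.minFac_dvd _
  haveI : Fact p.Prime := ⟨hp⟩
  obtain ⟨P⟩ : Nonempty (Sylow p G) := inferInstance
  by_cases hbig : ∃ q : ℕ, q.Prime ∧ q ∣ Nat.card G ∧ p < q
  swap
  · -- a `p`-group
    push Not at hbig
    have hG : IsPGroup p G := by
      refine IsPGroup.of_card (n := (Nat.card G).factorization p) ?_
      refine (Nat.eq_pow_of_factorization_eq_single Nat.card_pos.ne' ?_)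
      refine Finsupp.ext fun q => ?_
      rw [Finsupp.single_apply]
      split_ifs with hq
      · rw [hq]
      · by_contra hne
        have hq' := Nat.support_factorization (Nat.card G) ▸ Finsupp.mem_support_iff.2 hne
        obtain ⟨hq1, hq2, -⟩ := Nat.mem_primeFactors.1 hq'
        exact hq (le_antisymm (Nat.minFac_le_of_dvd hq1.two_le hq2) (hbig q hq1 hq2))
    haveI := hG.isNilpotent
    infer_instance
  obtain ⟨hab, hrank⟩ := h p hp hpG hbig P
  have hN : Cfsg.HasNormalPComplement p G := by
    refine CfsgLib.Transfer.burnside_normal_complement P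
      (CfsgLib.CoprimeAction.normalizer_le_centralizer_of_coprime P hab fun r hr hrG hrp i hi hri => ?_)
    obtain ⟨hi1, hi2⟩ := Finset.mem_Icc.1 hi
    have hpr : p < r := lt_of_le_of_ne (Nat.minFac_le_of_dvd hr.two_le hrG) (Ne.symm hrp)
    obtain rfl | rfl : i = 1 ∨ i = 2 := by omega
    · rw [pow_one] at hri
      have := Nat.le_of_dvd (by have := hp.two_le; omega) hri
      omega
    obtain ⟨hp2, hr3⟩ := coprime_pow_sub_one hp hr hpr hri
    rw [hr3] at hrG
    -- then `4 ∤ |G|`, so the Sylow 2-subgroup is cyclic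
    have h4 : ¬ p ^ 2 ∣ Nat.card G := fun h4 => h12 (by
      rw [hp2] at h4
      exact Nat.Coprime.mul_dvd_of_dvd_of_dvd (m := 4) (n := 3) (by norm_num) h4 hrG)
    obtain ⟨e, he⟩ := P.isPGroup'.exists_card_eq
    have he1 : e ≤ 1 := by
      by_contra hlt
      exact h4 ((pow_dvd_pow p (by omega : 2 ≤ e)).trans (he ▸ Subgroup.card_subgroup_dvd_card _))
    haveI : IsCyclic (P : Subgroup G) := by
      interval_cases e
      · haveI : Subsingleton (P : Subgroup G) := (Nat.card_eq_one_iff_unique.1 (by simpa using he)).1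
        exact isCyclic_of_subsingleton
      · exact isCyclic_of_prime_card (p := p) (by simpa using he)
    have hle1 : Group.rank (P : Subgroup G) ≤ 1 := by
      obtain ⟨g, hg⟩ := IsCyclic.exists_generator (α := (P : Subgroup G))
      refine (Group.rank_le (S := {g}) ?_).trans (by simp)
      rw [Finset.coe_singleton, ← Subgroup.zpowers_eq_closure]
      exact top_le_iff.1 fun x _ => hg x
    omega
  obtain ⟨P', N, hNn, hNc⟩ := hN
  haveI := hNn
  have hidx : N.index = Nat.card (P' : Subgroup G) := hNc.symm.index_eq_card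
  have hlt : Nat.card N < n := by
    rw [← hcard, ← N.card_mul_index, hidx]
    refine lt_mul_of_one_lt_right Nat.card_pos ?_
    haveI : Nontrivial (P' : Subgroup G) := (Subgroup.nontrivial_iff_ne_bot _).2 (P'.ne_bot_of_dvd_card hpG)
    exact Finite.one_lt_card
  haveI : Group.IsSolvable N := by
    refine ih _ hlt rfl (fun q hq hqN hbigq Q => ?_)
      (fun hd => h12 (hd.trans (Subgroup.card_subgroup_dvd_card N)))
    haveI : Fact q.Prime := ⟨hq⟩
    have hqp : q ≠ p := fun e => CfsgLib.Transfer.not_dvd_card_of_isComplement' hNc (e ▸ hqN)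
    obtain ⟨r, hr, hrN, hqr⟩ := hbigq
    obtain ⟨R, hR⟩ := (Q.isPGroup'.map N.subtype).exists_le_sylow
    have hRN : (R : Subgroup G) ≤ N := by
      intro x hx
      obtain ⟨k, hk⟩ := R.isPGroup' ⟨x, hx⟩
      have hk' : x ^ q ^ k = 1 := congrArg Subtype.val hk
      obtain ⟨m, hm⟩ := (P'.isPGroup').exists_card_eq
      have hord : orderOf (x : G ⧸ N) ∣ (q ^ k).gcd (p ^ m) := Nat.dvd_gcd
        (orderOf_dvd_of_pow_eq_one (by rw [← QuotientGroup.mk_pow, hk', QuotientGroup.mk_one]))
        (by rw [← hm, ← hidx, Subgroup.index_eq_card]; exact orderOf_dvd_natCard _)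
      rw [(((Nat.coprime_primes hq hp).2 hqp).pow k m).gcd_eq_one, Nat.dvd_one, orderOf_eq_one_iff] at hord
      exact (QuotientGroup.eq_one_iff x).1 hord
    have hRQ : (Q : Subgroup N).map N.subtype = R := by
      refine le_antisymm hR fun x hx => ?_
      have hQR := Q.is_maximal' (R.isPGroup'.comap_of_injective N.subtype Subtype.val_injective)
        (Subgroup.map_le_iff_le_comap.1 hR)
      exact ⟨⟨x, hRN hx⟩, hQR ▸ (show (⟨x, hRN hx⟩ : N) ∈ (R : Subgroup G).comap N.subtype from hx), rfl⟩
    obtain ⟨hab', hrank'⟩ := h q hq (hqN.trans (Subgroup.card_subgroup_dvd_card N))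
      ⟨r, hr, hrN.trans (Subgroup.card_subgroup_dvd_card N), hqr⟩ R
    haveI := hab'
    let e : (Q : Subgroup N) ≃* (R : Subgroup G) :=
      ((Q : Subgroup N).equivMapOfInjective N.subtype Subtype.val_injective).trans (MulEquiv.subgroupCongr hRQ)
    exact ⟨⟨⟨fun a b => e.injective (by rw [map_mul, map_mul]; exact mul_comm' _ _)⟩⟩,
      (Group.rank_congr e).trans_le hrank'⟩
  haveI : Group.IsSolvable (G ⧸ N) := by
    have hq : IsPGroup p (G ⧸ N) := by
      obtain ⟨m, hm⟩ := (P'.isPGroup').exists_card_eq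
      exact IsPGroup.of_card (n := m) (by rw [← Subgroup.index_eq_card, hidx, hm])
    haveI := hq.isNilpotent
    infer_instance
  exact Group.isSolvable_of_ker_le_range N.subtype (QuotientGroup.mk' N) (by simp)


/-- Let `G` be a finite group such that for every prime `p` dividing its order, other than the largest such prime, the Sylow `p`-subgroups are abelian and generated by at most two elements, and suppose `12` does not divide the order of `G`. Then `G` is solvable. In particular a group of cube-free order not divisible by `12` is solvable. -/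
theorem result {G : Type*} [Group G] [Finite G] (h : ∀ p : ℕ, p.Prime → p ∣ Nat.card G → (∃ q : ℕ, q.Prime ∧ q ∣ Nat.card G ∧ p < q) → ∀ P : Sylow p G, IsMulCommutative (P : Subgroup G) ∧ Group.rank (P : Subgroup G) ≤ 2) (h12 : ¬ 12 ∣ Nat.card G) : Group.IsSolvable G := by
  exact solvable_aux _ rfl h h12

end Cfsg.Agent.S3970
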