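import Cfsg.Statements.S3971
import Cfsg.Agent.CoprimeAction.Basic
import Cfsg.Agent.CoprimeAction.Frattini
import Cfsg.Agent.Transfer.Frobenius
import Mathlib

set_option autoImplicit false
open Cfsg

namespace Cfsg.Agent.S3971

/-- Let `G` be a finite group of order `2 ^ a * n` with `n` odd and not divisible by `3`, and suppose `G` has an element of order `2 ^ (a - 1)` (so a Sylow `2`-subgroup has a cyclic subgroup of index at most `2`). Then `G` has a normal subgroup of order `n`. -/
theorem result {G : Type*} [Group G] [Finite G] (a n : ℕ) (hG : Nat.card G = 2 ^ a * n) (hn : Odd n) (h3 : ¬ 3 ∣ n) (hx : ∃ x : G, orderOf x = 2 ^ (a - 1)) : ∃ N : Subgroup G, N.Normal ∧ Nat.card N = n := by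
  have : Fact (Nat.Prime 2) := ⟨Nat.prime_two⟩
  obtain ⟨x, hx⟩ := hx
  have hn0 : n ≠ 0 := fun h => by simp [h] at hn
  have hfac : (Nat.card G).factorization 2 = a := by
    rw [hG, Nat.factorization_mul (by positivity) hn0, Finsupp.add_apply, Nat.prime_two.factorization_pow,
      Finsupp.single_eq_same, Nat.factorization_eq_zero_of_not_dvd hn.not_two_dvd_nat, add_zero]
  obtain ⟨P, hP⟩ := (IsPGroup.of_card (n := a - 1) (by rw [Nat.card_zpowers, hx]) :
    IsPGroup 2 (Subgroup.zpowers x)).exists_le_sylow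
  have h3G : Nat.Coprime (Nat.card G) 3 := by
    refine ((Nat.prime_three.coprime_iff_not_dvd).2 fun h => ?_).symm
    rw [hG] at h
    rcases (Nat.Prime.dvd_mul Nat.prime_three).1 h with h' | h'
    · exact absurd (Nat.prime_three.dvd_of_dvd_pow h') (by decide)
    · exact h3 h'
  have hidx : (Subgroup.zpowers x).relIndex (P : Subgroup G) ∣ 2 := by
    have h1 := Subgroup.relIndex_mul_relIndex ⊥ _ _ bot_le hP
    rw [Subgroup.relIndex_bot_left, Subgroup.relIndex_bot_left, Nat.card_zpowers, hx, P.card_eq_multiplicity, hfac] at h1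
    rcases Nat.eq_zero_or_pos a with rfl | ha
    · rw [Nat.zero_sub, pow_zero, one_mul] at h1
      rw [h1]; exact one_dvd _
    · have h2 : 2 ^ (a - 1) * (Subgroup.zpowers x).relIndex (P : Subgroup G) = 2 ^ (a - 1) * 2 := by
        rw [h1, ← pow_succ]; congr 1; omega
      rw [mul_left_cancel₀ (by positivity) h2]
  have hlt : CfsgLib.Transfer.LocallyTrivial 2 G := by
    refine CfsgLib.Transfer.locallyTrivial_of_sylow P fun Q hQP g hg hgo => ?_
    have hQ : IsPGroup 2 Q := P.2.to_le hQP
    suffices h : Subgroup.zpowers g ≤ Subgroup.centralizer (Q : Set G) from h (Subgroup.mem_zpowers g)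
    have hgz : Subgroup.zpowers g ≤ Subgroup.normalizer (Q : Set G) := Subgroup.zpowers_le.2 hg
    -- the Frattini quotient has at most four elements
    set C : Subgroup Q := (Subgroup.zpowers x).subgroupOf Q with hC
    have hCi : C.index ≤ 2 := by
      refine (Subgroup.relIndex_le_of_le_right hQP ?_).trans (Nat.le_of_dvd (by norm_num) hidx)
      exact fun h => by rw [h] at hidx; simp at hidx
    have hCc : IsCyclic C := by
      have : IsCyclic ((Subgroup.zpowers x ⊓ Q : Subgroup G)) :=
        isCyclic_of_injective (Subgroup.inclusion (inf_le_left : Subgroup.zpowers x ⊓ Q ≤ Subgroup.zpowers x))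
          (Subgroup.inclusion_injective _)
      rw [hC, ← Subgroup.inf_subgroupOf_right]
      exact isCyclic_of_injective
        (Subgroup.subgroupOfEquivOfLe (inf_le_right : Subgroup.zpowers x ⊓ Q ≤ Q)).toMonoidHom
        (Subgroup.subgroupOfEquivOfLe (inf_le_right : Subgroup.zpowers x ⊓ Q ≤ Q)).injective
    obtain ⟨c, hc⟩ := hCc.exists_generator
    have hCeq : C = Subgroup.zpowers (c : Q) := by
      refine le_antisymm (fun z hz => ?_) (Subgroup.zpowers_le.2 c.2)
      obtain ⟨k, hk⟩ := Subgroup.mem_zpowers_iff.1 (hc ⟨z, hz⟩)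
      exact Subgroup.mem_zpowers_iff.2 ⟨k, congrArg Subtype.val hk⟩
    have hΦ : (frattini Q).index ≤ 4 := by
      have hle : Subgroup.zpowers ((c : Q) ^ 2) ≤ frattini Q :=
        Subgroup.zpowers_le.2 (CfsgLib.CoprimeAction.pow_mem_frattini hQ _)
      refine (Nat.le_of_dvd (Nat.pos_of_ne_zero Subgroup.index_ne_zero_of_finite) (Subgroup.index_dvd_of_le hle)).trans ?_
      rw [hCeq] at hCi
      have h2 : Subgroup.zpowers ((c : Q) ^ 2) ≤ Subgroup.zpowers (c : Q) :=
        Subgroup.zpowers_le.2 (pow_mem (Subgroup.mem_zpowers _) _)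
      rw [← Subgroup.relIndex_mul_index h2]
      refine le_trans (Nat.mul_le_mul ?_ hCi) (le_refl (2 * 2))
      have h4 := Subgroup.relIndex_mul_relIndex ⊥ _ _ bot_le h2
      rw [Subgroup.relIndex_bot_left, Subgroup.relIndex_bot_left, Nat.card_zpowers, Nat.card_zpowers,
        orderOf_pow' _ (two_ne_zero)] at h4
      have hg2 : (orderOf (c : Q)).gcd 2 ≤ 2 := Nat.le_of_dvd two_pos (Nat.gcd_dvd_right _ _)
      have hpos : 0 < orderOf (c : Q) / (orderOf (c : Q)).gcd 2 :=
        Nat.div_pos (Nat.le_of_dvd (orderOf_pos _) (Nat.gcd_dvd_left _ _)) (Nat.gcd_pos_of_pos_right _ two_pos)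
      refine le_trans (le_of_eq ?_) hg2
      exact mul_left_cancel₀ hpos.ne' (h4.trans (Nat.div_mul_cancel (Nat.gcd_dvd_left _ _)).symm)
    have hcop : ∀ z : G, z ∈ Subgroup.zpowers g → Nat.Coprime (orderOf z) 24 := fun z hz => by
      have h2 : (orderOf z).Coprime 2 :=
        hgo.coprime_dvd_left ((orderOf_dvd_natCard (⟨z, hz⟩ : Subgroup.zpowers g)).trans (dvd_of_eq (Nat.card_zpowers g)) |>
          fun h => by rwa [← Subgroup.orderOf_coe] at h)
      have h3' : (orderOf z).Coprime 3 := h3G.coprime_dvd_left (orderOf_dvd_natCard z)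
      exact (h2.pow_right 3).mul_right h3'
    refine CfsgLib.CoprimeAction.le_centralizer_of_frattini ?_ ?_
    · refine Nat.Coprime.coprime_dvd_right (Subgroup.card_subgroup_dvd_card (frattini Q)) ?_
      obtain ⟨k, hk⟩ := IsPGroup.iff_card.1 hQ
      rw [hk, Nat.card_zpowers]
      exact hgo.pow_right k
    intro z hz k hk
    -- the permutation of the Frattini quotient induced by `z`
    let θ : Subgroup.normalizer (Q : Set G) →* MulAut Q :=
      Q.normalizerMonoidHom
    have hfix : ∀ (e : MulAut Q) (u : Q), u ∈ frattini Q → e u ∈ frattini Q := fun e u hu => by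
      have h : (frattini Q).map e.toMonoidHom = frattini Q :=
        Subgroup.characteristic_iff_map_eq.1 inferInstance e
      rw [← h]
      exact Subgroup.mem_map_of_mem _ hu
    let π : MulAut Q →* MulAut (Q ⧸ frattini Q) :=
      { toFun := fun e => QuotientGroup.congr (frattini Q) (frattini Q) e (Subgroup.characteristic_iff_map_eq.1 inferInstance e)
        map_one' := MulEquiv.ext fun q => by
          obtain ⟨q, rfl⟩ := QuotientGroup.mk_surjective q
          rfl
        map_mul' := fun e f => MulEquiv.ext fun q => by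
          obtain ⟨q, rfl⟩ := QuotientGroup.mk_surjective q
          rfl }
    let π' : MulAut (Q ⧸ frattini Q) →* Equiv.Perm (Q ⧸ frattini Q) :=
      { toFun := fun e => e.toEquiv, map_one' := rfl, map_mul' := fun _ _ => rfl }
    have hdiv : Nat.card (Equiv.Perm (Q ⧸ frattini Q)) ∣ 24 := by
      rw [Nat.card_perm, ← Subgroup.index_eq_card, show (24 : ℕ) = Nat.factorial 4 from rfl]
      exact Nat.factorial_dvd_factorial hΦ
    have h1 : π' (π (θ ⟨z, hgz hz⟩)) = 1 := by
      rw [← orderOf_eq_one_iff]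
      refine Nat.eq_one_of_dvd_coprimes (hcop z hz) ?_ ((orderOf_dvd_natCard _).trans hdiv)
      refine (orderOf_map_dvd (π'.comp (π.comp θ)) ⟨z, hgz hz⟩).trans ?_
      rw [← Subgroup.orderOf_coe]
    have h2 : (QuotientGroup.mk ((θ ⟨z, hgz hz⟩) ⟨k, hk⟩) : Q ⧸ frattini Q) = QuotientGroup.mk (⟨k, hk⟩ : Q) :=
      Equiv.congr_fun h1 (QuotientGroup.mk (⟨k, hk⟩ : Q))
    rw [QuotientGroup.eq_iff_div_mem, div_eq_mul_inv] at h2
    exact ⟨_, h2, rfl⟩
  obtain ⟨T, N, hN, hc⟩ := CfsgLib.Transfer.frobenius_normal_complement hlt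
  refine ⟨N, hN, ?_⟩
  have h := hc.card_mul_card
  rw [T.card_eq_multiplicity, hfac, hG, mul_comm] at h
  exact mul_left_cancel₀ (by positivity) h

end Cfsg.Agent.S3971
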