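import Cfsg.Statements.S3973
import Mathlib
import Cfsg.Agent.Schur.Basic

set_option autoImplicit false
open Cfsg

namespace Cfsg.Agent.S3973

/-- If a finite group is presented by `n` generators and a finite set of `r` relators, then its Schur multiplier can be generated by `r - n` elements. In particular a finite group with a presentation having as many relators as generators has trivial Schur multiplier. -/
theorem result (n : ℕ) (rels : Finset (FreeGroup (Fin n))) [Finite (PresentedGroup (rels : Set (FreeGroup (Fin n))))] {A : Type*} [CommGroup A] [Finite A] (hA : Cfsg.HasSchurMultiplier (PresentedGroup (rels : Set (FreeGroup (Fin n)))) A) : Group.rank A ≤ rels.card - n := by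
  classical
  obtain ⟨⟨Γ, _, _, σ, ⟨hsurj, hcen, hcom⟩, ⟨eA⟩⟩, -⟩ := hA
  set R : Subgroup (FreeGroup (Fin n)) := Subgroup.normalClosure (rels : Set (FreeGroup (Fin n))) with hR
  let q : FreeGroup (Fin n) →* PresentedGroup (rels : Set (FreeGroup (Fin n))) := PresentedGroup.mk _
  have hq : Function.Surjective q := PresentedGroup.mk_surjective _
  have hqker : q.ker = R := QuotientGroup.ker_mk' _
  choose γ hγ using fun i : Fin n => hsurj (q (FreeGroup.of i))
  let f : FreeGroup (Fin n) →* Γ := FreeGroup.lift γ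
  have hfq : σ.comp f = q := FreeGroup.ext_hom _ _ fun i => by simp [f, hγ]
  have hσf : ∀ x, σ (f x) = q x := fun x => DFunLike.congr_fun hfq x
  have hfR : ∀ x ∈ R, f x ∈ σ.ker := fun x hx => by
    rw [MonoidHom.mem_ker, hσf, ← MonoidHom.mem_ker, hqker]; exact hx
  -- `f` is onto
  have hdec : ∀ z : Γ, ∃ x, ∃ k ∈ σ.ker, z = f x * k := by
    intro z
    obtain ⟨x, hx⟩ := hq (σ z)
    exact ⟨x, (f x)⁻¹ * z, by rw [MonoidHom.mem_ker, map_mul, map_inv, hσf, hx, inv_mul_cancel], by group⟩
  have hcomle : commutator Γ ≤ Subgroup.map f (commutator (FreeGroup (Fin n))) := by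
    rw [commutator_def, Subgroup.commutator_le]
    intro a _ b _
    obtain ⟨x, k, hk, rfl⟩ := hdec a
    obtain ⟨y, l, hl, rfl⟩ := hdec b
    refine ⟨x * y * x⁻¹ * y⁻¹, Subgroup.commutator_mem_commutator (Subgroup.mem_top x) (Subgroup.mem_top y), ?_⟩
    have ck : ∀ g, g * k = k * g := fun g => Subgroup.mem_center_iff.1 (hcen hk) g
    have cl : ∀ g, g * l = l * g := fun g => Subgroup.mem_center_iff.1 (hcen hl) g
    rw [map_mul, map_mul, map_mul, map_inv, map_inv, commutatorElement_def]
    symm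
    calc f x * k * (f y * l) * (f x * k)⁻¹ * (f y * l)⁻¹
        = f x * (k * f y) * (l * k⁻¹) * (f x)⁻¹ * l⁻¹ * (f y)⁻¹ := by group
      _ = f x * (f y * k) * (k⁻¹ * l) * (f x)⁻¹ * l⁻¹ * (f y)⁻¹ := by
          rw [ck (f y), show l * k⁻¹ = k⁻¹ * l from ((cl k⁻¹).symm)]
      _ = f x * f y * (l * (f x)⁻¹) * l⁻¹ * (f y)⁻¹ := by group
      _ = f x * f y * ((f x)⁻¹ * l) * l⁻¹ * (f y)⁻¹ := by rw [cl (f x)⁻¹]
      _ = f x * f y * (f x)⁻¹ * (f y)⁻¹ := by group
  -- exponent vectors
  let ab : FreeGroup (Fin n) →* Multiplicative (Fin n → ℤ) :=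
    FreeGroup.lift (fun i => Multiplicative.ofAdd (Pi.single i (1 : ℤ)))
  haveI hkcomm : IsMulCommutative σ.ker := ⟨⟨fun a b => Subtype.ext (Subgroup.mem_center_iff.1 (hcen b.2) a)⟩⟩
  letI : CommGroup σ.ker := { (inferInstance : Group σ.ker) with mul_comm := fun a b => hkcomm.is_comm.comm a b }
  let c : {x // x ∈ rels} → Additive σ.ker := fun r =>
    Additive.ofMul (⟨f r.1, hfR _ (Subgroup.subset_normalClosure r.2)⟩ : σ.ker)
  let Φ : ({x // x ∈ rels} → ℤ) →ₗ[ℤ] Additive σ.ker := Fintype.linearCombination ℤ c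
  let Ψ : ({x // x ∈ rels} → ℤ) →ₗ[ℤ] (Fin n → ℤ) :=
    Fintype.linearCombination ℤ (fun r : {x // x ∈ rels} => (ab r.1).toAdd)
  let D : Subgroup (FreeGroup (Fin n)) :=
    { carrier := {x | ∃ (hx : f x ∈ σ.ker) (e : {x // x ∈ rels} → ℤ),
        Φ e = Additive.ofMul (⟨f x, hx⟩ : σ.ker) ∧ Ψ e = (ab x).toAdd}
      one_mem' := ⟨by rw [map_one]; exact one_mem _, 0, by
        simp; rfl, by simp⟩
      mul_mem' := by
        rintro x y ⟨hx, e, he1, he2⟩ ⟨hy, d, hd1, hd2⟩
        refine ⟨by rw [map_mul]; exact mul_mem hx hy, e + d, ?_, ?_⟩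
        · rw [map_add, he1, hd1, ← ofMul_mul]
          exact congrArg Additive.ofMul (Subtype.ext (map_mul f x y).symm)
        · rw [map_add, he2, hd2, map_mul, toAdd_mul]
      inv_mem' := by
        rintro x ⟨hx, e, he1, he2⟩
        refine ⟨by rw [map_inv]; exact inv_mem hx, -e, ?_, ?_⟩
        · rw [map_neg, he1, ← ofMul_inv]
          exact congrArg Additive.ofMul (Subtype.ext (map_inv f x).symm)
        · rw [map_neg, he2, map_inv, toAdd_inv] }
  haveI hDn : D.Normal := ⟨by
    rintro x ⟨hx, e, he1, he2⟩ g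
    have h1 : f (g * x * g⁻¹) = f x := by
      rw [map_mul, map_mul, map_inv, Subgroup.mem_center_iff.1 (hcen hx) (f g), mul_inv_cancel_right]
    refine ⟨by rw [h1]; exact hx, e, ?_, ?_⟩
    · rw [he1]; exact congrArg Additive.ofMul (Subtype.ext h1.symm)
    · rw [he2, ab.map_mul, ab.map_mul, ab.map_inv, toAdd_mul, toAdd_mul, toAdd_inv]; abel⟩
  have hRD : R ≤ D := by
    rw [hR]
    refine Subgroup.normalClosure_le_normal fun r hr => ?_
    refine ⟨hfR _ (Subgroup.subset_normalClosure hr), Pi.single ⟨r, hr⟩ 1, ?_, ?_⟩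
    · simp [Φ, c]
    · simp [Ψ]
  -- the kernel is the image of the kernel of `Ψ`
  have hker : ∀ z : σ.ker, ∃ e, Ψ e = 0 ∧ Φ e = Additive.ofMul z := by
    intro z
    obtain ⟨d, hd, hdz⟩ := hcomle (hcom z.2)
    have hdR : d ∈ R := by
      rw [← hqker, MonoidHom.mem_ker, ← hσf, hdz]; exact z.2
    obtain ⟨hx, e, he1, he2⟩ := hRD hdR
    refine ⟨e, ?_, ?_⟩
    · rw [he2]
      have hab0 : commutator (FreeGroup (Fin n)) ≤ ab.ker := Abelianization.commutator_subset_ker ab
      rw [MonoidHom.mem_ker.1 (hab0 hd), toAdd_one]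
    · rw [he1]; exact congrArg Additive.ofMul (Subtype.ext hdz)
  -- the exponent vectors have full rank
  set N := Nat.card (PresentedGroup (rels : Set (FreeGroup (Fin n)))) with hN
  have hNpos : 0 < N := Nat.card_pos
  have hrange : ∀ v : Fin n → ℤ, (N : ℤ) • v ∈ LinearMap.range Ψ := by
    intro v
    rw [← Finset.univ_sum_single v, Finset.smul_sum]
    refine Submodule.sum_mem _ fun i _ => ?_
    have hmem : (FreeGroup.of i) ^ N ∈ R := by
      rw [← hqker, MonoidHom.mem_ker, map_pow]; exact pow_card_eq_one'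
    obtain ⟨-, e, -, he2⟩ := hRD hmem
    have h1 : (N : ℤ) • (Pi.single i (v i) : Fin n → ℤ) = v i • Ψ e := by
      rw [he2, map_pow, toAdd_pow]
      simp only [ab, FreeGroup.lift_apply_of, toAdd_ofAdd]
      ext j
      by_cases hj : j = i
      · subst hj; simp [mul_comm]
      · simp [hj]
    rw [h1]
    exact Submodule.smul_mem _ _ ⟨e, rfl⟩
  have hrn : n ≤ Module.finrank ℤ (LinearMap.range Ψ) := by
    let g : (Fin n → ℤ) →ₗ[ℤ] LinearMap.range Ψ :=
      LinearMap.codRestrict _ ((N : ℤ) • LinearMap.id) (fun v => hrange v)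
    have hg : Function.Injective g := fun v w h => by
      have h1 : (N : ℤ) • v = (N : ℤ) • w := congrArg Subtype.val h
      exact (smul_right_injective _ (Int.natCast_ne_zero.2 hNpos.ne')) h1
    simpa using LinearMap.finrank_le_finrank_of_injective hg
  have hk : Module.finrank ℤ (LinearMap.ker Ψ) ≤ rels.card - n := by
    have h := Submodule.finrank_quotient_add_finrank (LinearMap.ker Ψ)
    rw [Ψ.quotKerEquivRange.finrank_eq] at h
    rw [Module.finrank_pi, Fintype.card_coe] at h
    omega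
  let b := Module.finBasis ℤ (LinearMap.ker Ψ)
  have hgen : Subgroup.closure ((Finset.univ.image fun i => (Φ (b i).1).toMul) : Set σ.ker) = ⊤ := by
    rw [eq_top_iff]
    intro z _
    obtain ⟨e, he, hez⟩ := hker z
    have hsum := congrArg (fun w : LinearMap.ker Ψ => Φ w.1) (b.sum_repr ⟨e, LinearMap.mem_ker.2 he⟩)
    simp only [Submodule.coe_sum, Submodule.coe_smul, map_sum, map_smul] at hsum
    rw [← toMul_ofMul z, ← hez, ← hsum, toMul_sum]
    refine Subgroup.prod_mem _ fun i _ => ?_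
    rw [toMul_zsmul]
    exact Subgroup.zpow_mem _ (Subgroup.subset_closure (by simp)) _
  calc Group.rank A ≤ Group.rank σ.ker := Group.rank_le_of_surjective eA.toMonoidHom eA.surjective
    _ ≤ _ := Group.rank_le hgen
    _ ≤ Fintype.card (Fin (Module.finrank ℤ (LinearMap.ker Ψ))) := Finset.card_image_le
    _ ≤ rels.card - n := by simpa using hk

end Cfsg.Agent.S3973
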