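import Cfsg.Statements.S3978
import Cfsg.Agent.Schur.Lift

set_option autoImplicit false
open Cfsg

namespace Cfsg.Agent.S3978

/-- A finite group `Q` has trivial Schur multiplier if and only if, for every `n`, every homomorphism from `Q` to the projective general linear group (the quotient of `GL n ℂ` by its centre) lifts to a homomorphism into `GL n ℂ`. -/
theorem result {Q : Type*} [Group Q] [Finite Q] : Cfsg.HasCyclicSchurMultiplier Q 1 ↔ ∀ (n : ℕ) (γ : Q →* (GL (Fin n) ℂ ⧸ Subgroup.center (GL (Fin n) ℂ))), ∃ ρ : Q →* GL (Fin n) ℂ, (QuotientGroup.mk' (Subgroup.center (GL (Fin n) ℂ))).comp ρ = γ := by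
  refine ⟨fun h n γ => ?_, fun h => ?_⟩
  · obtain ⟨ρ, hρ⟩ := CfsgLib.Schur.exists_lift (σ := MonoidHom.id Q)
      (by intro x hx; simp_all) (CfsgLib.Schur.pullbackRigid_id h) n γ
    exact ⟨ρ, hρ.trans (MonoidHom.comp_id γ)⟩
  · refine CfsgLib.Schur.hasTrivial_of fun Γ _ _ τ hτ => ?_
    rw [eq_bot_iff]
    intro t ht
    obtain ⟨z, hz, hzt⟩ := CfsgLib.Schur.exists_mem_commutator_lift
      (CfsgLib.Schur.psnd (MonoidHom.id Q) τ)
      (CfsgLib.Schur.psnd_surjective Function.surjective_id) (hτ.2.2 ht)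
    have hz1 : (z : Q × Γ).1 = 1 :=
      ((CfsgLib.Schur.mem_pullback.1 z.2).trans (congrArg τ hzt)).trans (MonoidHom.mem_ker.1 ht)
    have h2 := CfsgLib.Schur.rigid_of_lift (σ := MonoidHom.id Q)
      (fun n γ => by obtain ⟨ρ, hρ⟩ := h n γ; exact ⟨ρ, hρ.trans (MonoidHom.comp_id γ).symm⟩)
      Γ τ hτ.1 hτ.2.1 z hz hz1
    exact Subgroup.mem_bot.2 (hzt.symm.trans h2)

end Cfsg.Agent.S3978
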