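import Cfsg.Statements.S3980
import Cfsg.Agent.Schur.Pullback

set_option autoImplicit false
universe u v w
open Cfsg

namespace Cfsg.Agent.S3980

open scoped commutatorElement

universe z

/-- The values of a homomorphism into an abelian group killing the kernel have order dividing
the order of the abelianization of the image. -/
theorem orderOf_dvd_abelianization {V : Type*} [Group V] {Q : Type*} [Group Q] [Finite Q]
    {Γ : Type*} [Group Γ] (φ : V →* Q) (hφ : Function.Surjective φ) (g : V →* Subgroup.center Γ)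
    (h : ∀ a, φ a = 1 → g a = 1) (x : V) :
    orderOf ((g x : Γ)) ∣ Nat.card (Abelianization Q) := by
  let inst : CommGroup (Subgroup.center Γ) :=
    { (inferInstance : Group (Subgroup.center Γ)) with
      mul_comm := fun a b => Subtype.ext (Subgroup.mem_center_iff.1 b.2 _) }
  let g' : Q →* Subgroup.center Γ := φ.liftOfSurjective hφ ⟨g, fun a ha => MonoidHom.mem_ker.2 (h a ha)⟩
  have hg' : g' (φ x) = g x := MonoidHom.liftOfRightInverse_comp_apply φ _ _ _ x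
  have h2 : Abelianization.lift g' (Abelianization.of (φ x)) = g x := hg'
  rw [Subgroup.orderOf_coe, ← h2]
  exact (orderOf_map_dvd _ _).trans (orderOf_dvd_natCard _)

theorem exists_surj_prod {Q₁ : Type u} {Q₂ : Type v} [Group Q₁] [Group Q₂] [Finite Q₁] [Finite Q₂]
    {A B : Type w} [CommGroup A] [CommGroup B]
    (hA : Cfsg.HasSchurMultiplier Q₁ A) (hB : Cfsg.HasSchurMultiplier Q₂ B)
    (hcop : Nat.Coprime (Nat.card (Abelianization Q₁)) (Nat.card (Abelianization Q₂)))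
    {Γ : Type z} [Group Γ] [Finite Γ] {σ : Γ →* Q₁ × Q₂} (hσ : Cfsg.IsStemExtension σ) :
    ∃ π : A × B →* σ.ker, Function.Surjective π := by
  let V₁ : Subgroup Γ := ((MonoidHom.snd Q₁ Q₂).comp σ).ker
  let V₂ : Subgroup Γ := ((MonoidHom.fst Q₁ Q₂).comp σ).ker
  let φ₁ : V₁ →* Q₁ := ((MonoidHom.fst Q₁ Q₂).comp σ).comp V₁.subtype
  let φ₂ : V₂ →* Q₂ := ((MonoidHom.snd Q₁ Q₂).comp σ).comp V₂.subtype
  have hφ₁s : Function.Surjective φ₁ := fun q => by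
    obtain ⟨x, hx⟩ := hσ.1 (q, 1)
    exact ⟨⟨x, congrArg Prod.snd hx⟩, congrArg Prod.fst hx⟩
  have hφ₂s : Function.Surjective φ₂ := fun q => by
    obtain ⟨x, hx⟩ := hσ.1 (1, q)
    exact ⟨⟨x, congrArg Prod.fst hx⟩, congrArg Prod.snd hx⟩
  have hk₁ : ∀ x : V₁, φ₁ x = 1 → (x : Γ) ∈ σ.ker := fun x hx => Prod.ext hx x.2
  have hk₂ : ∀ x : V₂, φ₂ x = 1 → (x : Γ) ∈ σ.ker := fun x hx => Prod.ext x.2 hx
  have hc₁ : φ₁.ker ≤ Subgroup.center V₁ := fun x hx => Subgroup.mem_center_iff.2 fun y =>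
    Subtype.ext (Subgroup.mem_center_iff.1 (hσ.2.1 (hk₁ x hx)) (y : Γ))
  have hc₂ : φ₂.ker ≤ Subgroup.center V₂ := fun x hx => Subgroup.mem_center_iff.2 fun y =>
    Subtype.ext (Subgroup.mem_center_iff.1 (hσ.2.1 (hk₂ x hx)) (y : Γ))
  have hbr : ∀ (x : V₁) (y : V₂), ⁅(x : Γ), (y : Γ)⁆ ∈ σ.ker := fun x y => by
    rw [MonoidHom.mem_ker, map_commutatorElement, commutatorElement_eq_one_iff_mul_comm]
    have hx : (σ (x : Γ)).2 = 1 := x.2
    have hy : (σ (y : Γ)).1 = 1 := y.2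
    exact Prod.ext (by simp [hy]) (by simp [hx])
  -- the two halves commute
  have hcomm : ∀ (x : V₁) (y : V₂), (x : Γ) * y = y * x := by
    intro x y
    rw [← commutatorElement_eq_one_iff_mul_comm]
    let gy : V₁ →* Subgroup.center Γ := MonoidHom.mk' (fun a => ⟨⁅(a : Γ), (y : Γ)⁆, hσ.2.1 (hbr a y)⟩)
      fun a b => Subtype.ext (by
        change ⁅(a : Γ) * b, (y : Γ)⁆ = ⁅(a : Γ), (y : Γ)⁆ * ⁅(b : Γ), (y : Γ)⁆
        have h := Subgroup.mem_center_iff.1 (hσ.2.1 (hbr b y))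
        rw [h ⁅(a : Γ), (y : Γ)⁆]
        calc ⁅(a : Γ) * b, (y : Γ)⁆ = (a : Γ) * ⁅(b : Γ), (y : Γ)⁆ * (y : Γ) * (a : Γ)⁻¹ * (y : Γ)⁻¹ := by
              simp only [commutatorElement_def]; group
          _ = (⁅(b : Γ), (y : Γ)⁆ * a) * (y : Γ) * (a : Γ)⁻¹ * (y : Γ)⁻¹ := by rw [h]
          _ = ⁅(b : Γ), (y : Γ)⁆ * ⁅(a : Γ), (y : Γ)⁆ := by simp only [commutatorElement_def]; group)
    let gx : V₂ →* Subgroup.center Γ := MonoidHom.mk' (fun b => ⟨⁅(x : Γ), (b : Γ)⁆, hσ.2.1 (hbr x b)⟩)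
      fun a b => Subtype.ext (by
        change ⁅(x : Γ), (a : Γ) * b⁆ = ⁅(x : Γ), (a : Γ)⁆ * ⁅(x : Γ), (b : Γ)⁆
        have h := Subgroup.mem_center_iff.1 (hσ.2.1 (hbr x b))
        calc ⁅(x : Γ), (a : Γ) * b⁆ = ⁅(x : Γ), (a : Γ)⁆ * ((a : Γ) * ⁅(x : Γ), (b : Γ)⁆) * (a : Γ)⁻¹ := by
              simp only [commutatorElement_def]; group
          _ = ⁅(x : Γ), (a : Γ)⁆ * (⁅(x : Γ), (b : Γ)⁆ * a) * (a : Γ)⁻¹ := by rw [h]
          _ = _ := by group)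
    have o₁ : orderOf ⁅(x : Γ), (y : Γ)⁆ ∣ Nat.card (Abelianization Q₁) :=
      orderOf_dvd_abelianization φ₁ hφ₁s gy (fun a ha => Subtype.ext (by
        change ⁅(a : Γ), (y : Γ)⁆ = 1
        rw [commutatorElement_eq_one_iff_mul_comm]
        exact (Subgroup.mem_center_iff.1 (hσ.2.1 (hk₁ a ha)) _).symm)) x
    have o₂ : orderOf ⁅(x : Γ), (y : Γ)⁆ ∣ Nat.card (Abelianization Q₂) :=
      orderOf_dvd_abelianization φ₂ hφ₂s gx (fun a ha => Subtype.ext (by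
        change ⁅(x : Γ), (a : Γ)⁆ = 1
        rw [commutatorElement_eq_one_iff_mul_comm]
        exact Subgroup.mem_center_iff.1 (hσ.2.1 (hk₂ a ha)) _)) y
    exact orderOf_eq_one_iff.1 (Nat.eq_one_of_dvd_coprimes hcop o₁ o₂)
  let m : ↥V₁ × ↥V₂ →* Γ := MonoidHom.mk' (fun p => (p.1 : Γ) * p.2) fun p q => by
    simp only [Prod.fst_mul, Prod.snd_mul, Subgroup.coe_mul]
    rw [mul_assoc, ← mul_assoc (q.1 : Γ), hcomm q.1 p.2]
    simp only [mul_assoc]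
  have hm : Function.Surjective m := fun g => by
    obtain ⟨x, hx⟩ := hσ.1 ((σ g).1, 1)
    refine ⟨(⟨x, congrArg Prod.snd hx⟩, ⟨x⁻¹ * g, ?_⟩), mul_inv_cancel_left x g⟩
    change (σ (x⁻¹ * g)).1 = 1
    simp [hx]
  obtain ⟨a, ha⟩ := CfsgLib.Schur.exists_surj_central hA φ₁ hφ₁s hc₁
  obtain ⟨b, hb⟩ := CfsgLib.Schur.exists_surj_central hB φ₂ hφ₂s hc₂
  let i : ↥(φ₁.ker ⊓ commutator V₁) × ↥(φ₂.ker ⊓ commutator V₂) →* σ.ker :=
    (m.comp (MonoidHom.prodMap (φ₁.ker ⊓ commutator V₁).subtype (φ₂.ker ⊓ commutator V₂).subtype)).codRestrict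
      σ.ker fun p => mul_mem (hk₁ _ p.1.2.1) (hk₂ _ p.2.2.1)
  have hi : Function.Surjective i := fun k => by
    have hk : (k : Γ) ∈ (commutator (↥V₁ × ↥V₂)).map m := by
      rw [CfsgLib.Schur.map_commutator_surjective.{max z z, z} m hm]
      exact hσ.2.2 k.2
    obtain ⟨⟨p, q⟩, hpq, hpqk⟩ := hk
    rw [commutator_def, ← Subgroup.top_prod_top, Subgroup.commutator_prod_prod] at hpq
    obtain ⟨hp, hq⟩ := Subgroup.mem_prod.1 hpq
    have h1 : σ (p : Γ) * σ (q : Γ) = 1 := by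
      rw [← map_mul]
      exact (congrArg σ hpqk).trans (MonoidHom.mem_ker.1 k.2)
    have hp1 : φ₁ p = 1 := by
      have := congrArg Prod.fst h1
      have hq1 : (σ (q : Γ)).1 = 1 := q.2
      simp only [Prod.fst_mul, hq1, mul_one, Prod.fst_one] at this
      exact this
    have hq2 : φ₂ q = 1 := by
      have := congrArg Prod.snd h1
      have hp2 : (σ (p : Γ)).2 = 1 := p.2
      simp only [Prod.snd_mul, hp2, one_mul, Prod.snd_one] at this
      exact this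
    exact ⟨(⟨p, hp1, hp⟩, ⟨q, hq2, hq⟩), Subtype.ext hpqk⟩
  exact ⟨i.comp (a.prodMap b), hi.comp (ha.prodMap hb)⟩


/-- Let `Q₁` and `Q₂` be finite groups whose commutator quotients have coprime orders, with Schur multipliers `A` and `B`. Then the Schur multiplier of `Q₁ × Q₂` is isomorphic to `A × B`. -/
theorem result {Q₁ : Type u} {Q₂ : Type v} [Group Q₁] [Group Q₂] [Finite Q₁] [Finite Q₂] {A B : Type w} [CommGroup A] [CommGroup B] (hA : Cfsg.HasSchurMultiplier Q₁ A) (hB : Cfsg.HasSchurMultiplier Q₂ B) (hcop : Nat.Coprime (Nat.card (Abelianization Q₁)) (Nat.card (Abelianization Q₂))) : Cfsg.HasSchurMultiplier (Q₁ × Q₂) (A × B) := by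
  refine ⟨?_, fun Γ _ _ σ hσ => ?_⟩
  · obtain ⟨Γ₁, _, _, σ₁, hσ₁, ⟨e₁⟩⟩ := hA.1
    obtain ⟨Γ₂, _, _, σ₂, hσ₂, ⟨e₂⟩⟩ := hB.1
    refine ⟨Γ₁ × Γ₂, inferInstance, inferInstance, σ₁.prodMap σ₂, ⟨?_, ?_, ?_⟩, ?_⟩
    · exact hσ₁.1.prodMap hσ₂.1
    · intro x hx
      rw [MonoidHom.mem_ker, MonoidHom.prodMap_def, MonoidHom.prod_apply, Prod.mk_eq_one] at hx
      exact Subgroup.mem_center_iff.2 fun y => Prod.ext (Subgroup.mem_center_iff.1 (hσ₁.2.1 hx.1) _)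
        (Subgroup.mem_center_iff.1 (hσ₂.2.1 hx.2) _)
    · intro x hx
      rw [MonoidHom.mem_ker, MonoidHom.prodMap_def, MonoidHom.prod_apply, Prod.mk_eq_one] at hx
      rw [commutator_def, ← Subgroup.top_prod_top, Subgroup.commutator_prod_prod]
      exact Subgroup.mem_prod.2 ⟨hσ₁.2.2 hx.1, hσ₂.2.2 hx.2⟩
    · exact ⟨(MulEquiv.subgroupCongr (MonoidHom.ker_prodMap σ₁ σ₂)).trans
        ((Subgroup.prodEquiv _ _).trans (e₁.prodCongr e₂))⟩
  exact exists_surj_prod hA hB hcop hσ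

end Cfsg.Agent.S3980
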