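import Cfsg.Statements.S3992
import Cfsg.Agent.FourOrbits.EPPO
import Cfsg.Agent.CharBasics.Burnside
import Cfsg.Agent.Hall.System
import Cfsg.Agent.Subnormal.BaerSuzuki

set_option autoImplicit false
set_option linter.style.haveILetI false
open Cfsg

namespace Cfsg.Agent.S3992

theorem isSolvable_of_card_primeFactors {K : Type*} [Group K] [Finite K]
    (h : (Nat.card K).primeFactors.card ≤ 2) : Group.IsSolvable K := by
  obtain ⟨a, b, hab⟩ : ∃ a b : ℕ, (Nat.card K).primeFactors ⊆ {a, b} := by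
    rcases Nat.lt_or_ge (Nat.card K).primeFactors.card 2 with h' | h'
    · obtain ⟨a, ha⟩ := Finset.card_le_one_iff_subset_singleton.mp (Nat.le_of_lt_succ h')
      exact ⟨a, a, ha.trans (by simp)⟩
    · obtain ⟨a, b, -, hab⟩ := Finset.card_eq_two.mp (le_antisymm h h')
      exact ⟨a, b, hab.le⟩
  refine CfsgLib.CharBasics.isSolvable_two_primes a b fun r hr hrd => ?_
  simpa using hab (Nat.mem_primeFactors.mpr ⟨hr, hrd, Nat.card_pos.ne'⟩)

/-- Let G be a finite non-solvable group in which every element has prime-power order, and let R be its largest solvable normal subgroup. Then R is a p-group for some prime p; G/R has a non-abelian simple normal subgroup contained in every nontrivial normal subgroup of G/R (its unique minimal normal subgroup); and the order of every solvable subgroup of G has at most two prime divisors. -/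
theorem result {G : Type*} [Group G] [Finite G] (hns : ¬ Group.IsSolvable G) (hpp : ∀ g : G, g ≠ 1 → IsPrimePow (orderOf g))
    (R : Subgroup G) [R.Normal] (hRs : Group.IsSolvable ↥R) (hRmax : ∀ N : Subgroup G, N.Normal → Group.IsSolvable ↥N → N ≤ R) :
    (∃ p : ℕ, p.Prime ∧ IsPGroup p ↥R) ∧
      (∃ M : Subgroup (G ⧸ R), M.Normal ∧ IsSimpleGroup ↥M ∧ ¬ IsMulCommutative ↥M ∧
        ∀ N : Subgroup (G ⧸ R), N.Normal → N ≠ ⊥ → M ≤ N) ∧
      ∀ H : Subgroup G, Group.IsSolvable ↥H → (Nat.card ↥H).primeFactors.card ≤ 2 := by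
  classical
  haveI := hRs
  have hG : CfsgLib.EPPO.PrimePowerOrders G := hpp
  have hRp : ∃ p : ℕ, p.Prime ∧ IsPGroup p ↥R := by
    by_contra h
    push Not at h
    exact hns (isSolvable_of_card_primeFactors (CfsgLib.EPPO.card_primeFactors_le_two hG R h))
  refine ⟨hRp, ?_, fun H hH => ?_⟩
  swap
  · haveI := hH
    by_cases h : ∃ p : ℕ, p.Prime ∧ IsPGroup p (⊤ : Subgroup H)
    · obtain ⟨p, hp, hP⟩ := h
      refine le_trans (Finset.card_le_card (t := {p}) fun t ht => ?_) (by simp)
      obtain ⟨k, hk⟩ := (haveI := Fact.mk hp; IsPGroup.iff_card.mp hP)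
      rw [Subgroup.card_top] at hk
      obtain ⟨ht1, ht2, -⟩ := Nat.mem_primeFactors.mp ht
      rw [hk] at ht2
      rw [Finset.mem_singleton]
      exact (Nat.prime_dvd_prime_iff_eq ht1 hp).mp (ht1.dvd_of_dvd_pow ht2)
    · push Not at h
      haveI : Group.IsSolvable (⊤ : Subgroup H) :=
        Group.isSolvable_of_isSolvable_injective (f := (⊤ : Subgroup H).subtype) (Subgroup.subtype_injective _)
      refine CfsgLib.EPPO.card_primeFactors_le_two (fun g hg => ?_) ⊤ h
      rw [← Subgroup.orderOf_coe]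
      exact hpp _ fun e => hg (Subtype.ext e)
  -- the quotient by the radical
  have hQ : CfsgLib.EPPO.PrimePowerOrders (G ⧸ R) := fun g hg => by
    obtain ⟨x, rfl⟩ := QuotientGroup.mk_surjective g
    have hx : x ≠ 1 := fun e => hg (by rw [e]; rfl)
    obtain ⟨r, k, hr, -, hk⟩ := (isPrimePow_nat_iff _).mp (hpp x hx)
    have hd : orderOf (QuotientGroup.mk x : G ⧸ R) ∣ r ^ k := hk ▸ orderOf_map_dvd (QuotientGroup.mk' R) x
    obtain ⟨j, -, hj⟩ := (Nat.dvd_prime_pow hr).mp hd
    rcases j with _ | j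
    · exact absurd (orderOf_eq_one_iff.mp (hj.trans (pow_zero r))) hg
    · exact (isPrimePow_nat_iff _).mpr ⟨r, j + 1, hr, by omega, hj.symm⟩
  have hrad : ∀ N : Subgroup (G ⧸ R), N.Normal → Group.IsSolvable N → N = ⊥ := by
    intro N hN hNs
    haveI := hN
    set T := N.comap (QuotientGroup.mk' R) with hT
    have hTs : Group.IsSolvable T := by
      refine Group.isSolvable_of_ker_le_range (Subgroup.inclusion (show R ≤ T from
        (QuotientGroup.ker_mk' R).symm.le.trans (MonoidHom.ker_le_comap _ _)))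
        ((QuotientGroup.mk' R).subgroupComap N) (fun x hx => ?_)
      have h1 : (QuotientGroup.mk' R) (x : G) = 1 := congrArg Subtype.val hx
      exact ⟨⟨x, (QuotientGroup.eq_one_iff _).mp h1⟩, rfl⟩
    have hle := hRmax T inferInstance hTs
    rw [eq_bot_iff]
    intro u hu
    obtain ⟨x, rfl⟩ := QuotientGroup.mk_surjective u
    rw [Subgroup.mem_bot, QuotientGroup.eq_one_iff]
    exact hle hu
  obtain ⟨M, hM⟩ := (Set.toFinite {N : Subgroup (G ⧸ R) | N.Normal ∧ N ≠ ⊥}).exists_minimal
    ⟨⊤, inferInstance, fun h => hns (by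
      have hR : R = ⊤ := by
        rw [← QuotientGroup.ker_mk' R, eq_top_iff]
        intro x _
        have : QuotientGroup.mk' R x ∈ (⊥ : Subgroup (G ⧸ R)) := h ▸ Subgroup.mem_top _
        exact Subgroup.mem_bot.mp this
      exact Group.isSolvable_of_surjective (f := R.subtype) fun x => ⟨⟨x, hR ▸ Subgroup.mem_top x⟩, rfl⟩)⟩
  obtain ⟨hMn, hM1⟩ := hM.prop
  haveI := hMn
  have hMns : ¬ Group.IsSolvable M := fun h => hM1 (hrad M hMn h)
  -- a nonsolvable subgroup has elements of two different prime orders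
  have hcomm : ∀ A B : Subgroup (G ⧸ R), (∀ a ∈ A, ∀ b ∈ B, a * b = b * a) → ¬ Group.IsSolvable A →
      B = ⊥ := by
    intro A B hAB hA
    by_contra hB
    obtain ⟨t, ht, htd⟩ := Nat.exists_prime_and_dvd (fun h => hB (Subgroup.card_eq_one.mp h))
    haveI := Fact.mk ht
    obtain ⟨b, hb⟩ := exists_prime_orderOf_dvd_card' t htd
    rw [← Subgroup.orderOf_coe] at hb
    refine hA (isSolvable_of_card_primeFactors (le_trans (Finset.card_le_card (t := {t}) fun s hs => ?_) (by simp)))
    obtain ⟨hs1, hs2, -⟩ := Nat.mem_primeFactors.mp hs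
    haveI := Fact.mk hs1
    obtain ⟨a, ha⟩ := exists_prime_orderOf_dvd_card' s hs2
    rw [← Subgroup.orderOf_coe] at ha
    rw [Finset.mem_singleton]
    exact hQ.eq_of_commute (hAB a a.2 b b.2) hs1 ht ha hb
  have hMmin : ∀ N : Subgroup (G ⧸ R), N.Normal → N ≠ ⊥ → M ≤ N := by
    intro N hN hN1
    haveI := hN
    by_contra hle
    have hbot : M ⊓ N = ⊥ := by
      by_contra h
      exact hle ((hM.le_of_le ⟨inferInstance, h⟩ inf_le_left).trans inf_le_right)
    refine hN1 (hcomm M N (fun a ha b hb => ?_) hMns)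
    exact (Subgroup.commute_of_normal_of_disjoint M N hMn hN (disjoint_iff.mpr hbot) a b ha hb).eq
  refine ⟨M, hMn, ?_, fun h => hMns (Group.isSolvable_of_comm fun a b => h.is_comm.comm a b), hMmin⟩
  haveI : Nontrivial M := (Subgroup.nontrivial_iff_ne_bot M).mpr hM1
  refine ⟨fun N hN => ?_⟩
  by_contra hc
  rw [not_or] at hc
  obtain ⟨K, hKN, hK⟩ : ∃ K, K ≤ N ∧ Minimal (fun K : Subgroup M => K.Normal ∧ K ≠ ⊥) K := by
    obtain ⟨K, hKN, hK⟩ := (Set.toFinite {K : Subgroup M | K.Normal ∧ K ≠ ⊥}).exists_le_minimal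
      (show N ∈ _ from ⟨hN, hc.1⟩)
    exact ⟨K, hKN, hK⟩
  obtain ⟨hKn, hK1⟩ := hK.prop
  haveI := hKn
  have hKtop : K ≠ ⊤ := fun h => hc.2 (top_le_iff.mp (h ▸ hKN))
  -- the conjugates of `K` in `G/R`
  set K' : Subgroup (G ⧸ R) := K.map M.subtype with hK'
  have hKnormal : ¬ K'.Normal := fun h => hKtop (by
    have hle := hMmin K' h (by rw [hK', Ne, Subgroup.map_eq_bot_iff_of_injective _ M.subtype_injective]; exact hK1)
    rw [eq_top_iff]
    intro x _
    obtain ⟨y, hy, hxy⟩ := hle x.2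
    exact Subtype.ext hxy ▸ hy)
  obtain ⟨g, hg⟩ : ∃ g : G ⧸ R, K.comap (MulAut.conjNormal g : MulAut M).toMonoidHom ≠ K := by
    by_contra h
    push Not at h
    refine hKnormal ⟨fun x hx g => ?_⟩
    obtain ⟨y, hy, rfl⟩ := hx
    refine ⟨MulAut.conjNormal g y, ?_, by simp⟩
    have h' : MulAut.conjNormal g y ∈ K.comap (MulAut.conjNormal g⁻¹ : MulAut M).toMonoidHom := by
      show MulAut.conjNormal g⁻¹ (MulAut.conjNormal g y) ∈ K
      rw [← MulAut.mul_apply, ← map_mul, inv_mul_cancel, map_one, MulAut.one_apply]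
      exact hy
    rwa [h g⁻¹] at h'
  set L := K.comap (MulAut.conjNormal g : MulAut M).toMonoidHom with hL
  haveI : L.Normal := Subgroup.Normal.comap hKn _
  have hKL : K ⊓ L = ⊥ := by
    by_contra h
    have h1 : K ≤ L := (hK.le_of_le ⟨inferInstance, h⟩ inf_le_left).trans inf_le_right
    refine hg (Subgroup.eq_of_le_of_card_ge h1 (le_of_eq ?_)).symm
    exact Nat.card_congr ((MulAut.conjNormal g : MulAut M).toEquiv.subtypeEquiv fun x => Iff.rfl)
  have hL1 : L ≠ ⊥ := fun h => hK1 (by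
    rw [eq_bot_iff]
    intro x hx
    have hm : (MulAut.conjNormal g : MulAut M).symm x ∈ L := by
      show (MulAut.conjNormal g : MulAut M) ((MulAut.conjNormal g : MulAut M).symm x) ∈ K
      rw [MulEquiv.apply_symm_apply]; exact hx
    rw [h, Subgroup.mem_bot, MulEquiv.map_eq_one_iff] at hm
    rw [Subgroup.mem_bot]; exact hm)
  -- `K` is not solvable
  have hKns : ¬ Group.IsSolvable (K.map M.subtype) := by
    intro hKs
    obtain ⟨p, P, hp, hPn, -, hP1, hPp⟩ : ∃ (p : ℕ) (P : Subgroup M), p.Prime ∧ P.Normal ∧ P ≤ K ∧ P ≠ ⊥ ∧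
        IsPGroup p P := by
      haveI : Group.IsSolvable K := Group.isSolvable_of_isSolvable_injective
        (f := (K.equivMapOfInjective _ M.subtype_injective).toMonoidHom) (MulEquiv.injective _)
      exact CfsgLib.EPPO.exists_pgroup_normal K hK1
    haveI := Fact.mk hp
    have h1 : P.map M.subtype ≤ Cfsg.pCore p (G ⧸ R) := by
      refine CfsgLib.Subnormal.le_pCore_of_isSubnormal ?_ (hPp.map _)
      exact Subgroup.IsSubnormal.step _ M (Subgroup.map_subtype_le _) (Subgroup.Normal.isSubnormal hMn)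
        (by rw [Subgroup.subgroupOf, Subgroup.comap_map_eq_self_of_injective M.subtype_injective]; exact hPn)
    haveI := (CfsgLib.Subnormal.isPGroup_pCore (G := G ⧸ R) p).isNilpotent
    have h2 := hrad (Cfsg.pCore p (G ⧸ R)) (CfsgLib.Subnormal.normal_pCore p) inferInstance
    rw [h2, le_bot_iff, Subgroup.map_eq_bot_iff_of_injective _ M.subtype_injective] at h1
    exact hP1 h1
  refine hL1 ((Subgroup.map_eq_bot_iff_of_injective _ M.subtype_injective).mp
    (hcomm (K.map M.subtype) (L.map M.subtype) ?_ hKns))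
  rintro _ ⟨a, ha, rfl⟩ _ ⟨b, hb, rfl⟩
  rw [← map_mul, ← map_mul]
  exact congrArg _ (Subgroup.commute_of_normal_of_disjoint K L hKn inferInstance (disjoint_iff.mpr hKL) a b ha hb).eq

end Cfsg.Agent.S3992
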