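import Cfsg.Statements.S3994
import Cfsg.Agent.Hall.FrobeniusCount

set_option autoImplicit false
open Cfsg

namespace Cfsg.Agent.S3994

/-- `g` has order divisible by `q ^ e` iff it is not killed by `N / q ^ (a - e + 1)`. -/
theorem dvd_div_iff {N d q e : ℕ} (hq : q.Prime) (hN : N ≠ 0) (hd : d ∣ N) (he : 0 < e)
    (hea : e ≤ N.factorization q) :
    d ∣ N / q ^ (N.factorization q - e + 1) ↔ ¬ q ^ e ∣ d := by
  have hd0 : d ≠ 0 := ne_zero_of_dvd_ne_zero hN hd
  have hj : q ^ (N.factorization q - e + 1) ∣ N :=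
    (hq.pow_dvd_iff_le_factorization hN).2 (by omega)
  have hK : N / q ^ (N.factorization q - e + 1) ≠ 0 :=
    (Nat.div_pos (Nat.le_of_dvd (Nat.pos_of_ne_zero hN) hj) (pow_pos hq.pos _)).ne'
  rw [← Nat.factorization_le_iff_dvd hd0 hK, hq.pow_dvd_iff_le_factorization hd0,
    Nat.factorization_div hj, hq.factorization_pow]
  have hle := (Nat.factorization_le_iff_dvd hd0 hN).2 hd
  constructor
  · intro h
    have := h q
    simp only [Finsupp.tsub_apply, Finsupp.single_eq_same] at this
    omega
  · intro h r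
    rcases eq_or_ne r q with rfl | hr
    · simp only [Finsupp.tsub_apply, Finsupp.single_eq_same]
      omega
    · simp only [Finsupp.tsub_apply, Finsupp.single_apply, if_neg hr.symm, tsub_zero]
      exact hle r

theorem dvd_card {G : Type*} [Group G] [Finite G] (n : ℕ) (m0 : ℕ)
    (hm0 : ∀ q ∈ n.primeFactors, m0.Coprime q) (S : Finset ℕ) :
    S ⊆ n.primeFactors → ∀ M, M ∣ Nat.card G → m0 ∣ M →
      m0 ∣ Nat.card {g : G // g ^ M = 1 ∧ ∀ q ∈ S, q ^ n.factorization q ∣ orderOf g} := by
  induction S using Finset.induction_on with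
  | empty =>
    intro _ M hM hm
    refine (hm.trans (CfsgLib.Hall.frobenius_count hM)).trans (dvd_of_eq ?_)
    exact Nat.card_congr (Equiv.subtypeEquivRight fun g => by simp)
  | insert q T hqT ih =>
    intro hS M hM hm
    have hqn : q ∈ n.primeFactors := hS (Finset.mem_insert_self q T)
    have hq : q.Prime := (Nat.mem_primeFactors.1 hqn).1
    have he : 0 < n.factorization q := hq.factorization_pos_of_dvd
      (Nat.mem_primeFactors.1 hqn).2.2 (Nat.mem_primeFactors.1 hqn).2.1
    have hT := fun x hx => hS (Finset.mem_insert_of_mem (a := x) (b := q) hx)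
    by_cases hea : n.factorization q ≤ (Nat.card G).factorization q
    · set j := (Nat.card G).factorization q - n.factorization q + 1
      have hj : q ^ j ∣ Nat.card G :=
        (hq.pow_dvd_iff_le_factorization Nat.card_pos.ne').2 (by omega)
      have hm' : m0 ∣ M.gcd (Nat.card G / q ^ j) := by
        refine Nat.dvd_gcd hm ((Nat.dvd_div_iff_mul_dvd hj).2 ?_)
        exact ((hm0 q hqn).pow_right j).symm.mul_dvd_of_dvd_of_dvd hj (hm.trans hM)
      have hM' : M.gcd (Nat.card G / q ^ j) ∣ Nat.card G := (Nat.gcd_dvd_left _ _).trans hM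
      have h1 := ih hT M hM hm
      have h2 := ih hT _ hM' hm'
      let A := {g : G // g ^ M = 1 ∧ ∀ r ∈ T, r ^ n.factorization r ∣ orderOf g}
      have hsplit : Nat.card A =
          Nat.card {g : G // g ^ M = 1 ∧ ∀ r ∈ insert q T, r ^ n.factorization r ∣ orderOf g} +
          Nat.card {g : G // g ^ M.gcd (Nat.card G / q ^ j) = 1 ∧
            ∀ r ∈ T, r ^ n.factorization r ∣ orderOf g} := by
        classical
        rw [← Nat.card_sum]
        refine Nat.card_congr ((Equiv.sumCompl (fun a : A => q ^ n.factorization q ∣ orderOf (a : G))).symm.trans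
          (Equiv.sumCongr ((Equiv.subtypeSubtypeEquivSubtypeInter _ (fun g : G => q ^ n.factorization q ∣ orderOf g)).trans
            (Equiv.subtypeEquivRight fun g => ?_))
          ((Equiv.subtypeSubtypeEquivSubtypeInter _ (fun g : G => ¬ q ^ n.factorization q ∣ orderOf g)).trans
            (Equiv.subtypeEquivRight fun g => ?_))))
        · rw [Finset.forall_mem_insert]; tauto
        · rw [pow_gcd_eq_one, ← orderOf_dvd_iff_pow_eq_one (n := Nat.card G / q ^ j),
            dvd_div_iff hq Nat.card_pos.ne' (orderOf_dvd_natCard g) he hea]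
          tauto
      rw [hsplit] at h1
      exact (Nat.dvd_add_left h2).1 h1
    · have : IsEmpty {g : G // g ^ M = 1 ∧ ∀ r ∈ insert q T, r ^ n.factorization r ∣ orderOf g} :=
        ⟨fun g => hea ((hq.pow_dvd_iff_le_factorization Nat.card_pos.ne').1
          ((g.2.2 q (Finset.mem_insert_self q T)).trans (orderOf_dvd_natCard _)))⟩
      rw [Nat.card_of_isEmpty]
      exact dvd_zero _


/-- Let G be a finite group and n a positive integer. The number of elements of G whose order is divisible by n is either 0 or divisible by the largest divisor of the order of G that is coprime to n. -/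
theorem result {G : Type*} [Group G] [Finite G] (n : ℕ) (hn : 0 < n) :
    Nat.card {g : G // n ∣ orderOf g} = 0 ∨
      (Nat.card G / Nat.gcd (Nat.card G) (n ^ Nat.card G)) ∣ Nat.card {g : G // n ∣ orderOf g} := by
  right
  set N := Nat.card G with hN
  set m0 := N / Nat.gcd N (n ^ N) with hm0def
  have hN0 : N ≠ 0 := Nat.card_pos.ne'
  have hgcd : Nat.gcd N (n ^ N) ∣ N := Nat.gcd_dvd_left _ _
  have hm0 : ∀ q ∈ n.primeFactors, m0.Coprime q := fun q hqn => by
    obtain ⟨hq, hqd, -⟩ := Nat.mem_primeFactors.1 hqn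
    refine ((hq.coprime_iff_not_dvd).2 fun hdvd => ?_).symm
    have h1 : q ^ N.factorization q ∣ Nat.gcd N (n ^ N) := Nat.dvd_gcd (Nat.ordProj_dvd N q)
      ((pow_dvd_pow q (Nat.factorization_lt q hN0).le).trans (pow_dvd_pow_of_dvd hqd N))
    have h2 : q ^ (N.factorization q + 1) ∣ N := by
      rw [pow_succ]
      refine (mul_dvd_mul h1 hdvd).trans (dvd_of_eq ?_)
      exact Nat.mul_div_cancel' hgcd
    have := (hq.pow_dvd_iff_le_factorization hN0).1 h2
    omega
  refine (dvd_card (G := G) n m0 hm0 n.primeFactors subset_rfl N dvd_rfl (Nat.div_dvd_of_dvd hgcd)).trans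
    (dvd_of_eq (Nat.card_congr (Equiv.subtypeEquivRight fun g => ?_)))
  refine ⟨fun h => ?_, fun h => ⟨pow_card_eq_one', fun q _ => (Nat.ordProj_dvd n q).trans h⟩⟩
  rw [← Nat.factorization_le_iff_dvd hn.ne' (orderOf_pos g).ne']
  intro q
  by_cases hq : q ∈ n.primeFactors
  · exact ((Nat.mem_primeFactors.1 hq).1.pow_dvd_iff_le_factorization (orderOf_pos g).ne').1 (h.2 q hq)
  · rw [← Nat.support_factorization, Finsupp.notMem_support_iff] at hq
    simp [hq]

end Cfsg.Agent.S3994
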