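import Cfsg.Statements.S3995
import Cfsg.Agent.Hall.FrobeniusCount
import Cfsg.Agent.RankOneP.Basic

set_option autoImplicit false
open Cfsg

namespace Cfsg.Agent.S3995

noncomputable section

open Finset

variable {G : Type*} [Group G] [Finite G]

theorem zmod_two : ∀ j : ZMod 2, j = 0 ∨ j = 1 := by decide

theorem exists_small (H : Type*) [Group H] [Finite H] :
    ∃ (P : Type) (_ : Group P) (_ : Finite P), Nonempty (P ≃* H) := by
  let f : H →* Equiv.Perm (Fin (Nat.card H)) :=
    (Equiv.permCongrHom (Finite.equivFin H)).toMonoidHom.comp (MulAction.toPermHom H H)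
  have hf : Function.Injective f :=
    (Equiv.permCongrHom (Finite.equivFin H)).injective.comp MulAction.toPerm_injective
  exact ⟨↥f.range, inferInstance, inferInstance, ⟨(MonoidHom.ofInjective hf).symm⟩⟩

/-- the number of elements of order `m` -/
def N (G : Type*) [Group G] (m : ℕ) : ℕ := Nat.card {g : G // orderOf g = m}

theorem sum_N {d : ℕ} (hd : d ≠ 0) : ∑ m ∈ d.divisors, N G m = Nat.card {g : G // g ^ d = 1} := by
  classical
  letI := Fintype.ofFinite G
  simp only [N, Nat.card_eq_fintype_card, Fintype.card_subtype]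
  exact sum_card_orderOf_eq_card_pow_eq_one hd

theorem two_dvd_N {m : ℕ} (hm : 3 ≤ m) : 2 ∣ N G m := by
  classical
  letI := Fintype.ofFinite G
  have h : (∑ _g : {g : G // orderOf g = m}, (1 : ZMod 2)) = 0 :=
    Finset.sum_involution (fun g _ => ⟨(g : G)⁻¹, by rw [orderOf_inv]; exact g.2⟩)
      (fun _ _ => by decide)
      (fun g _ _ e => by
        have h1 : (g : G)⁻¹ = g := congrArg Subtype.val e
        have h2 : (g : G) ^ 2 = 1 := by
          rw [pow_two]; nth_rewrite 1 [← h1]; exact inv_mul_cancel _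
        have h3 := Nat.le_of_dvd two_pos (g.2 ▸ orderOf_dvd_of_pow_eq_one h2)
        omega)
      (fun _ _ => Finset.mem_univ _) (fun g _ => Subtype.ext (inv_inv _))
  rw [Finset.sum_const, nsmul_one, Finset.card_univ, ← Nat.card_eq_fintype_card] at h
  exact (ZMod.natCast_eq_zero_iff _ _).mp h

theorem N_pos (g : G) : 0 < N G (orderOf g) :=
  Nat.card_pos_iff.mpr ⟨⟨⟨g, rfl⟩⟩, inferInstance⟩

theorem N_one : N G 1 = 1 := by
  rw [N, Nat.card_eq_one_iff_exists]
  exact ⟨⟨1, orderOf_one⟩, fun x => Subtype.ext (orderOf_eq_one_iff.mp x.2)⟩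

theorem N_eq_zero {m : ℕ} (h : ∀ g : G, orderOf g ≠ m) : N G m = 0 := by
  haveI : IsEmpty {g : G // orderOf g = m} := ⟨fun g => h g.1 g.2⟩
  exact Nat.card_of_isEmpty

theorem exists_order {p : ℕ} (hp : p.Prime) (h : p ∣ Nat.card G) : ∃ g : G, orderOf g = p :=
  haveI := Fact.mk hp
  exists_prime_orderOf_dvd_card' p h

theorem count_dvd {d : ℕ} (hd : d ∣ Nat.card G) : d ∣ ∑ m ∈ d.divisors, N G m := by
  rw [sum_N (Nat.pos_of_dvd_of_pos hd Nat.card_pos).ne']
  exact CfsgLib.Hall.frobenius_count hd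

theorem no_dvd {p n j : ℕ} (hp : p.Prime) (h1 : p ∣ 1 + n) (hj : p ∣ n * j) (hcop : Nat.Coprime p j) : False := by
  have h2 : p ∣ n := hcop.dvd_of_dvd_mul_right hj
  have h3 : p ∣ 1 := (Nat.dvd_add_left h2).mp h1
  exact hp.one_lt.ne' (Nat.dvd_one.mp h3)


set_option maxHeartbeats 4000000 in
/-- Let G be a finite group such that the numbers of elements of each order that occurs in G (the numbers #{g : o(g) = m}, m ranging over the element orders of G) take exactly two values, 1 and some n ≠ 1. Then either G is a p-group of exponent p and order at least 3 for some prime p, or G is the quaternion group of order 8, or G is cyclic of order 4, or G ≅ Z₂ × P for a p-group P of exponent p with p an odd prime. -/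
theorem result {G : Type*} [Group G] [Finite G] (n : ℕ) (hn : n ≠ 1) (h : ((fun m : ℕ => Nat.card {g : G // orderOf g = m}) '' Set.range (orderOf : G → ℕ)) = {1, n}) :
    (∃ p : ℕ, p.Prime ∧ IsPGroup p G ∧ 3 ≤ Nat.card G ∧ Monoid.exponent G = p) ∨
      Nonempty (G ≃* QuaternionGroup 2) ∨ (IsCyclic G ∧ Nat.card G = 4) ∨
      (∃ (p : ℕ) (P : Type) (_ : Group P) (_ : Finite P), p.Prime ∧ p ≠ 2 ∧ IsPGroup p P ∧ Monoid.exponent P = p ∧
        Nonempty (G ≃* Multiplicative (ZMod 2) × P)) := by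
  classical
  haveI : Fact (Nat.Prime 2) := ⟨Nat.prime_two⟩
  have him : ∀ g : G, N G (orderOf g) = 1 ∨ N G (orderOf g) = n := fun g => by
    have : N G (orderOf g) ∈ ({1, n} : Set ℕ) := h ▸ ⟨orderOf g, ⟨g, rfl⟩, rfl⟩
    exact this
  have hn3 : ∀ m, 3 ≤ m → (∃ g : G, orderOf g = m) → N G m = n := by
    rintro m hm ⟨g, rfl⟩
    rcases him g with e | e
    · have := two_dvd_N (G := G) hm
      rw [e] at this
      omega
    · exact e
  obtain ⟨m0, ⟨g0, rfl⟩, hg0⟩ : n ∈ (fun m : ℕ => N G m) '' Set.range (orderOf : G → ℕ) := by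
    show n ∈ (fun m : ℕ => Nat.card {g : G // orderOf g = m}) '' Set.range (orderOf : G → ℕ)
    rw [h]; exact Or.inr rfl
  have hg0 : N G (orderOf g0) = n := hg0
  have hnpos : 0 < n := hg0 ▸ N_pos g0
  have hpos := orderOf_pos g0
  by_cases hbig : ∃ g : G, 3 ≤ orderOf g
  swap
  · -- exponent two
    push Not at hbig
    left
    have hsq : ∀ g : G, g ^ 2 = 1 := fun g => by
      have h1 := hbig g
      have h2 := orderOf_pos g
      rcases (show orderOf g = 1 ∨ orderOf g = 2 by omega) with e | e <;>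
        rw [← orderOf_dvd_iff_pow_eq_one, e] <;> simp
    have hg2 : orderOf g0 = 2 := by
      by_contra hne
      have h1 := hbig g0
      have e : orderOf g0 = 1 := by omega
      rw [e, N_one] at hg0
      exact hn hg0.symm
    have hcard : 2 * 1 + 1 ≤ Nat.card G := by
      have e : Nat.card {g : G // g ^ 2 = 1} = 1 + n := by
        rw [← sum_N two_ne_zero, Nat.prime_two.divisors, Finset.sum_pair (by norm_num), N_one, ← hg2, hg0]
      rw [Nat.card_congr (Equiv.subtypeUnivEquiv hsq)] at e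
      omega
    refine ⟨2, Nat.prime_two, fun g => ⟨1, by simpa using hsq g⟩, by omega, ?_⟩
    rcases (Nat.dvd_prime Nat.prime_two).mp (Monoid.exponent_dvd_of_forall_pow_eq_one hsq) with e | e
    · have h1 := Monoid.order_dvd_exponent g0
      rw [e, hg2] at h1
      omega
    · exact e
  obtain ⟨gb, hgb⟩ := hbig
  have heven : 2 ∣ n := hn3 _ hgb ⟨gb, rfl⟩ ▸ two_dvd_N hgb
  have hinv : ∀ g : G, orderOf g = 2 → N G 2 = 1 := fun g hg => by
    rcases him g with e | e <;> rw [hg] at e
    · exact e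
    · exfalso
      have h1 := count_dvd (G := G) (hg ▸ orderOf_dvd_natCard g)
      rw [Nat.prime_two.divisors, Finset.sum_pair (by norm_num), N_one, e] at h1
      omega
  have huniq : ∀ x y : G, orderOf x = 2 → orderOf y = 2 → x = y := fun x y hx hy => by
    obtain ⟨w, hw⟩ := Nat.card_eq_one_iff_exists.mp (hinv x hx)
    exact congrArg Subtype.val ((hw ⟨x, hx⟩).trans (hw ⟨y, hy⟩).symm)
  have hp1 : ∀ p : ℕ, p.Prime → p ≠ 2 → p ∣ Nat.card G → p ∣ 1 + n ∧ N G p = n := fun p hp hp2 hd => by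
    have e := hn3 p (by have := hp.two_le; omega) (exists_order hp hd)
    have h1 := count_dvd hd
    rw [hp.divisors, Finset.sum_pair hp.one_lt.ne, N_one, e] at h1
    exact ⟨h1, e⟩
  have hN0 : ∀ m, 3 ≤ m → N G m = n ∨ N G m = 0 := fun m hm => by
    by_cases he : ∃ g : G, orderOf g = m
    · exact Or.inl (hn3 m hm he)
    · push Not at he
      exact Or.inr (N_eq_zero he)
  -- at most one odd prime
  have hone : ∀ p q : ℕ, p.Prime → q.Prime → p ≠ 2 → q ≠ 2 → p ∣ Nat.card G → q ∣ Nat.card G → p = q := by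
    intro p q hp hq hp2 hq2 hpd hqd
    by_contra hne
    obtain ⟨hpn, hNp⟩ := hp1 p hp hp2 hpd
    obtain ⟨hqn, hNq⟩ := hp1 q hq hq2 hqd
    have hcop : Nat.Coprime p q := (Nat.coprime_primes hp hq).mpr hne
    have hd : p * q ∣ Nat.card G := hcop.mul_dvd_of_dvd_of_dvd hpd hqd
    have h1 := count_dvd hd
    have hdiv : (p * q).divisors = {1, p, q, p * q} := by
      rw [Nat.divisors_mul, hp.divisors, hq.divisors]
      ext x; simp [Finset.mem_mul]; tauto
    have hq1 := hq.two_le
    have hp1' := hp.two_le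
    have hpq1 : p < p * q := lt_mul_of_one_lt_right hp.pos (by omega)
    have hpq2 : q < p * q := lt_mul_of_one_lt_left hq.pos (by omega)
    rw [hdiv, Finset.sum_insert (by simp; omega), Finset.sum_insert (by simp; omega),
      Finset.sum_insert (by simp; omega), Finset.sum_singleton, N_one, hNp, hNq] at h1
    have h2 : p ∣ 1 + (n + (n + N G (p * q))) := (dvd_mul_right p q).trans h1
    rw [show 1 + (n + (n + N G (p * q))) = (1 + n) + (n + N G (p * q)) by ring, Nat.dvd_add_right hpn] at h2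
    rcases hN0 (p * q) (by omega) with e | e <;> rw [e] at h2
    · exact no_dvd hp hpn (show p ∣ n * 2 by rwa [mul_two]) ((Nat.coprime_primes hp Nat.prime_two).mpr hp2)
    · exact no_dvd hp hpn (show p ∣ n * 1 by rwa [mul_one, ← add_zero n]) (Nat.coprime_one_right _)
  by_cases hodd : ∃ p : ℕ, p.Prime ∧ p ≠ 2 ∧ p ∣ Nat.card G
  swap
  · -- two-group
    push Not at hodd
    have hG : IsPGroup 2 G := IsPGroup.of_card (n := (Nat.card G).primeFactorsList.length)
      (Nat.eq_prime_pow_of_unique_prime_dvd Nat.card_pos.ne'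
        (fun {d} hd hdd => by by_contra hne; exact hodd d hd hne hdd))
    have h8 : ∀ g : G, orderOf g ≠ 8 := fun g hg => by
      have ho4 : orderOf (g ^ 2) = 4 := by rw [orderOf_pow' _ two_ne_zero, hg]; rfl
      have ho2 : orderOf (g ^ 4) = 2 := by rw [orderOf_pow' _ (by norm_num), hg]; rfl
      have h2 := hinv _ ho2
      have e4 := hn3 4 (by norm_num) ⟨_, ho4⟩
      have e8 := hn3 8 (by norm_num) ⟨g, hg⟩
      have c4 := count_dvd (G := G) (ho4 ▸ orderOf_dvd_natCard (g ^ 2))
      have c8 := count_dvd (G := G) (hg ▸ orderOf_dvd_natCard g)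
      rw [show Nat.divisors 4 = {1, 2, 4} by decide, Finset.sum_insert (by decide),
        Finset.sum_pair (by norm_num), N_one, h2, e4] at c4
      rw [show Nat.divisors 8 = {1, 2, 4, 8} by decide, Finset.sum_insert (by decide), Finset.sum_insert (by decide),
        Finset.sum_pair (by norm_num), N_one, h2, e4, e8] at c8
      omega
    have h4 : ∀ g : G, g ^ 4 = 1 := fun g => by
      obtain ⟨k, hk⟩ := IsPGroup.iff_orderOf.mp hG g
      rw [← orderOf_dvd_iff_pow_eq_one, hk]
      by_cases hk2 : k ≤ 2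
      · exact (pow_dvd_pow 2 hk2).trans (by norm_num)
      · exfalso
        refine h8 (g ^ 2 ^ (k - 3)) ?_
        rw [orderOf_pow' _ (by positivity), hk, Nat.gcd_eq_right (pow_dvd_pow 2 (by omega)),
          Nat.pow_div (by omega) two_pos, show k - (k - 3) = 3 by omega]
        rfl
    have hu : CfsgLib.RankOneP.UniqueOrderP 2 G := by
      intro x y hx hy hx1
      by_cases hy1 : y = 1
      · rw [hy1]; exact one_mem _
      · rw [huniq y x (orderOf_eq_prime hy hy1) (orderOf_eq_prime hx hx1)]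
        exact Subgroup.mem_zpowers x
    rcases CfsgLib.RankOneP.isCyclic_or_quaternion hG hu with hc | ⟨-, k, hk, ⟨e⟩⟩
    · refine Or.inr (Or.inr (Or.inl ⟨hc, ?_⟩))
      obtain ⟨g, hg⟩ := IsCyclic.exists_ofOrder_eq_natCard (α := G)
      have h1 : Nat.card G ∣ 4 := hg ▸ orderOf_dvd_of_pow_eq_one (h4 g)
      have h2 := Nat.le_of_dvd (by norm_num) h1
      have h3 : 3 ≤ Nat.card G := hgb.trans (Nat.le_of_dvd Nat.card_pos (orderOf_dvd_natCard gb))
      rcases (show Nat.card G = 3 ∨ Nat.card G = 4 by omega) with e | e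
      · rw [e] at h1; norm_num at h1
      · exact e
    · right; left
      have h1 : orderOf (e.symm (QuaternionGroup.a 1)) ∣ 4 := orderOf_dvd_of_pow_eq_one (h4 _)
      rw [MulEquiv.orderOf_eq, QuaternionGroup.orderOf_a_one] at h1
      have h2 : 2 ^ k ≤ 2 := by have := Nat.le_of_dvd (by norm_num) h1; omega
      have h3 : k ≤ 1 := (Nat.pow_le_pow_iff_right (le_refl 2)).mp (h2.trans_eq (pow_one 2).symm)
      obtain rfl : k = 1 := by omega
      exact ⟨e⟩
  obtain ⟨p, hp, hp2, hpd⟩ := hodd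
  haveI : Fact p.Prime := ⟨hp⟩
  obtain ⟨hpn, hNp⟩ := hp1 p hp hp2 hpd
  have hp3 : 3 ≤ p := by have := hp.two_le; omega
  have hsqp : ∀ g : G, orderOf g ≠ p ^ 2 := fun g hg => by
    have hpp : p < p ^ 2 := lt_self_pow₀ hp.one_lt one_lt_two
    have c := count_dvd (G := G) (hg ▸ orderOf_dvd_natCard g)
    rw [Nat.divisors_prime_pow hp, Finset.sum_map, Finset.sum_range_succ, Finset.sum_range_succ,
      Finset.sum_range_one] at c
    simp only [Function.Embedding.coeFn_mk, pow_zero, pow_one, N_one, hNp,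
      hn3 (p ^ 2) (by omega) ⟨g, hg⟩] at c
    have h2 := (dvd_pow_self p two_ne_zero).trans c
    rw [Nat.dvd_add_right hpn] at h2
    exact no_dvd hp hpn (show p ∣ n * 1 by rwa [mul_one]) (Nat.coprime_one_right _)
  have hfour : ∀ g : G, orderOf g ≠ 4 := fun g hg => by
    have ho2 : orderOf (g ^ 2) = 2 := by rw [orderOf_pow' _ two_ne_zero, hg]; rfl
    have h2 := hinv _ ho2
    obtain ⟨x, hx⟩ := exists_order hp hpd
    have hc : Commute (g ^ 2) x := by
      have := huniq (x * g ^ 2 * x⁻¹) (g ^ 2) ((MulAut.conj x).orderOf_eq (g ^ 2) |>.trans ho2) ho2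
      exact (mul_inv_eq_iff_eq_mul.mp this).symm
    have hc2 : Nat.Coprime 2 p := (Nat.coprime_primes Nat.prime_two hp).mpr (Ne.symm hp2)
    have ho2p : orderOf (g ^ 2 * x) = 2 * p := by
      rw [hc.orderOf_mul_eq_mul_orderOf_of_coprime (by rw [ho2, hx]; exact hc2), ho2, hx]
    have e2p := hn3 (2 * p) (by omega) ⟨_, ho2p⟩
    have e4 := hn3 4 (by norm_num) ⟨g, hg⟩
    have hc4 : Nat.Coprime 4 p := by
      rw [show (4 : ℕ) = 2 ^ 2 by norm_num]; exact Nat.Coprime.pow_left 2 hc2
    have hd : 4 * p ∣ Nat.card G := hc4.mul_dvd_of_dvd_of_dvd (hg ▸ orderOf_dvd_natCard g) hpd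
    have c := count_dvd hd
    have hdiv : (4 * p).divisors = {1, 2, 4, p, 2 * p, 4 * p} := by
      rw [Nat.divisors_mul, hp.divisors, show Nat.divisors 4 = {1, 2, 4} by decide]
      ext x; simp [Finset.mem_mul]; tauto
    have hp4 : p ≠ 4 := fun e => by rw [e] at hp; norm_num at hp
    rw [hdiv, Finset.sum_insert (by simp; omega), Finset.sum_insert (by simp; omega),
      Finset.sum_insert (by simp; omega), Finset.sum_insert (by simp; omega),
      Finset.sum_pair (by omega), N_one, h2, e4, hNp, e2p] at c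
    have c' := (dvd_mul_left p 4).trans c
    rw [show 1 + (1 + (n + (n + (n + N G (4 * p))))) = (1 + n) + (1 + n) + (n + N G (4 * p)) by ring,
      Nat.dvd_add_right (dvd_add hpn hpn)] at c'
    rcases hN0 (4 * p) (by omega) with e | e <;> rw [e] at c'
    · exact no_dvd hp hpn (show p ∣ n * 2 by rwa [mul_two]) hc2.symm
    · exact no_dvd hp hpn (show p ∣ n * 1 by rwa [mul_one, ← add_zero n]) (Nat.coprime_one_right _)
  have hord : ∀ g : G, orderOf g ∣ 2 * p := fun g => by
    have hpp : ∀ r k : ℕ, r.Prime → r ^ k ∣ orderOf g → r ^ k ∣ 2 * p := by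
      intro r k hr hrk
      rcases Nat.eq_zero_or_pos k with rfl | hk
      · simp
      have hrd : r ∣ Nat.card G := ((dvd_pow_self r hk.ne').trans hrk).trans (orderOf_dvd_natCard g)
      have hr' : r = 2 ∨ r = p := by
        by_cases hr2 : r = 2
        · exact Or.inl hr2
        · exact Or.inr (hone r p hr hp hr2 hp2 hrd hpd)
      have hk1 : k ≤ 1 := by
        by_contra hk1
        have hh : r ^ 2 ∣ orderOf g := (pow_dvd_pow r (by omega)).trans hrk
        have ho : orderOf (g ^ (orderOf g / r ^ 2)) = r ^ 2 := orderOf_pow_orderOf_div (orderOf_pos g).ne' hh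
        rcases hr' with rfl | rfl
        · exact hfour _ (ho.trans (by norm_num))
        · exact hsqp _ ho
      obtain rfl : k = 1 := by omega
      rw [pow_one]
      rcases hr' with rfl | rfl
      · exact dvd_mul_right _ _
      · exact dvd_mul_left _ _
    exact (Nat.dvd_iff_prime_pow_dvd_dvd _ _).mpr hpp
  have hcard3 : 3 ≤ Nat.card G := hp3.trans (Nat.le_of_dvd Nat.card_pos hpd)
  have hexp : ∀ (H : Type _) [Group H] [Finite H] (f : H →* G), Function.Injective f →
      (∀ x : H, ¬ 2 ∣ orderOf x) → p ∣ Nat.card H → Monoid.exponent H = p ∧ IsPGroup p H := by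
    intro H _ _ f hf h2 hH
    have hx : ∀ x : H, x ^ p = 1 := fun x => by
      rw [← orderOf_dvd_iff_pow_eq_one]
      have := hord (f x)
      rw [orderOf_injective f hf] at this
      exact ((Nat.prime_two.coprime_iff_not_dvd.mpr (h2 x)).symm).dvd_of_dvd_mul_left this
    refine ⟨?_, fun x => ⟨1, by rw [pow_one]; exact hx x⟩⟩
    rcases (Nat.dvd_prime hp).mp (Monoid.exponent_dvd_of_forall_pow_eq_one hx) with e | e
    · exfalso
      obtain ⟨x, hx'⟩ := exists_order hp hH
      have h1 := Monoid.order_dvd_exponent x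
      rw [e, hx'] at h1
      exact hp.one_lt.ne' (Nat.dvd_one.mp h1)
    · exact e
  by_cases h2G : 2 ∣ Nat.card G
  swap
  · obtain ⟨h1, h2⟩ := hexp G (MonoidHom.id G) Function.injective_id
      (fun x hx => h2G (hx.trans (orderOf_dvd_natCard x))) hpd
    exact Or.inl ⟨p, hp, h2, hcard3, h1⟩
  obtain ⟨z, hz⟩ := exists_order Nat.prime_two h2G
  let P : Sylow p G := default
  have hPp : p ∣ Nat.card (P : Subgroup G) := P.dvd_card_of_dvd_card hpd
  have hP2 : ∀ x : (P : Subgroup G), ¬ 2 ∣ orderOf x := fun x hx => by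
    obtain ⟨k, hk⟩ := IsPGroup.iff_orderOf.mp P.isPGroup' x
    rw [hk] at hx
    exact hp2 ((Nat.prime_dvd_prime_iff_eq Nat.prime_two hp).mp (Nat.prime_two.dvd_of_dvd_pow hx)).symm
  obtain ⟨hPe, hPG⟩ := hexp (P : Subgroup G) (P : Subgroup G).subtype Subtype.val_injective hP2 hPp
  have hcz : ∀ x : G, Commute z x := fun x => by
    have := huniq (x * z * x⁻¹) z ((MulAut.conj x).orderOf_eq z |>.trans hz) hz
    exact (mul_inv_eq_iff_eq_mul.mp this).symm
  -- `|G| = 2|P|`
  have hidx : (P : Subgroup G).index = 2 := by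
    have hnd : ¬ p ∣ (P : Subgroup G).index := P.not_dvd_index
    have h2i : ∀ {r : ℕ}, r.Prime → r ∣ (P : Subgroup G).index → r = 2 := fun {r} hr hrd => by
      by_contra hr2
      exact hnd (hone r p hr hp hr2 hp2 (hrd.trans (Subgroup.index_dvd_card _)) hpd ▸ hrd)
    obtain ⟨a, ha⟩ : ∃ a, (P : Subgroup G).index = 2 ^ a :=
      ⟨_, Nat.eq_prime_pow_of_unique_prime_dvd (by
        have := Subgroup.index_ne_zero_of_finite (H := (P : Subgroup G))
        exact this) h2i⟩
    obtain ⟨H, hH⟩ := Sylow.exists_subgroup_card_pow_prime 2 (n := a) (ha ▸ Subgroup.index_dvd_card (P : Subgroup G))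
    have hHle : H ≤ Subgroup.zpowers z := fun x hx => by
      by_cases hx1 : x = 1
      · rw [hx1]; exact one_mem _
      obtain ⟨k, hk⟩ := IsPGroup.iff_orderOf.mp (IsPGroup.of_card hH) ⟨x, hx⟩
      rw [Subgroup.orderOf_mk] at hk
      have h1 := hord x
      rw [hk] at h1
      have h2 : 2 ^ k ∣ 2 := (Nat.Coprime.pow_left k ((Nat.coprime_primes Nat.prime_two hp).mpr (Ne.symm hp2))).dvd_of_dvd_mul_right h1
      rcases (Nat.dvd_prime Nat.prime_two).mp h2 with e | e
      · exact absurd (orderOf_eq_one_iff.mp (hk.trans e)) hx1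
      · rw [huniq x z (hk.trans e) hz]; exact Subgroup.mem_zpowers z
    have hle := Subgroup.card_le_of_le hHle
    rw [hH, Nat.card_zpowers, hz] at hle
    have hmul := Subgroup.card_mul_index (P : Subgroup G)
    have h2' : 2 ∣ (P : Subgroup G).index := by
      rw [← hmul] at h2G
      rcases (Nat.Prime.dvd_mul Nat.prime_two).mp h2G with e | e
      · obtain ⟨x, hx⟩ := exists_order Nat.prime_two e
        exact absurd (hx ▸ dvd_rfl) (hP2 x)
      · exact e
    rw [ha] at h2' ⊢
    rcases (show a = 0 ∨ 1 ≤ a by omega) with rfl | ha1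
    · norm_num at h2'
    · have : 2 ^ 1 ≤ 2 ^ a := Nat.pow_le_pow_right two_pos ha1
      omega
  have hzz : z ^ (2 : ℤ) = 1 := by rw [zpow_two, ← pow_two, ← orderOf_dvd_iff_pow_eq_one, hz]
  let f2 : Multiplicative (ZMod 2) →* G :=
    AddMonoidHom.toMultiplicativeLeft (ZMod.lift 2 ⟨(zmultiplesHom (Additive G)) (Additive.ofMul z),
      congrArg Additive.ofMul hzz⟩)
  have hf2 : ∀ i : Multiplicative (ZMod 2), ∃ k : ℤ, f2 i = z ^ k := fun i => by
    obtain ⟨j, hj⟩ := ZMod.intCast_surjective (Multiplicative.toAdd i)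
    refine ⟨j, ?_⟩
    show Additive.toMul (ZMod.lift 2 _ (Multiplicative.toAdd i)) = z ^ j
    rw [← hj, ZMod.lift_coe]
    rfl
  have hf21 : f2 (Multiplicative.ofAdd 1) = z := by
    show Additive.toMul (ZMod.lift 2 _ ((1 : ℤ) : ZMod 2)) = z
    rw [ZMod.lift_coe]
    exact zpow_one z
  let f : Multiplicative (ZMod 2) × (P : Subgroup G) →* G :=
    MonoidHom.noncommCoprod f2 (P : Subgroup G).subtype (fun i x => by
      obtain ⟨k, hk⟩ := hf2 i
      rw [hk]; exact (hcz _).zpow_left k)
  have hfinj : Function.Injective f := by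
    rw [injective_iff_map_eq_one]
    rintro ⟨i, x⟩ hix
    change f2 i * (x : G) = 1 at hix
    have hx2 : (x : G) ^ 2 = 1 := by
      obtain ⟨k, hk⟩ := hf2 i
      rw [eq_inv_of_mul_eq_one_right hix, hk, inv_pow, inv_eq_one, ← zpow_natCast, ← zpow_mul, mul_comm,
        zpow_mul, Nat.cast_ofNat, hzz, one_zpow]
    have hxo : orderOf x ∣ 2 := orderOf_dvd_of_pow_eq_one (Subtype.ext hx2)
    rcases (Nat.dvd_prime Nat.prime_two).mp hxo with e | e
    · obtain rfl := orderOf_eq_one_iff.mp e
      rw [Subgroup.coe_one, mul_one] at hix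
      rcases zmod_two (Multiplicative.toAdd i) with hi | hi
      · exact Prod.ext hi rfl
      · exfalso
        rw [show i = Multiplicative.ofAdd 1 from hi, hf21] at hix
        rw [hix, orderOf_one] at hz
        omega
    · exact absurd (e ▸ dvd_rfl) (hP2 x)
  have hbij : Function.Bijective f := by
    rw [Nat.bijective_iff_injective_and_card]
    refine ⟨hfinj, ?_⟩
    rw [Nat.card_prod, Nat.card_congr Multiplicative.toAdd, Nat.card_zmod, ← Subgroup.card_mul_index (P : Subgroup G),
      hidx, mul_comm]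
  obtain ⟨P', iP, fP, ⟨eM⟩⟩ := exists_small (P : Subgroup G)
  refine Or.inr (Or.inr (Or.inr ⟨p, P', iP, fP, hp, hp2,
    hPG.of_equiv eM.symm, (Monoid.exponent_eq_of_mulEquiv eM).trans hPe,
    ⟨(MulEquiv.ofBijective f hbij).symm.trans ((MulEquiv.refl _).prodCongr eM.symm)⟩⟩))

end

end Cfsg.Agent.S3995
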