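import Cfsg.Statements.S4004
import Cfsg.Agent.Hall.FrobeniusCount
import Cfsg.Agent.CharBasics.Burnside
import Cfsg.Agent.ConjPSub

set_option autoImplicit false
open Cfsg

namespace Cfsg.Agent.S4004

open Finset
open scoped Pointwise

/-- The number of elements of order `m`. -/
noncomputable def cnt (G : Type*) [Group G] (m : ℕ) : ℕ := Nat.card {g : G // orderOf g = m}

section Count

variable {G : Type*} [Group G] [Finite G]

theorem cnt_one : cnt G 1 = 1 := by
  rw [cnt, Nat.card_eq_one_iff_unique]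
  exact ⟨⟨fun a b => Subtype.ext (by rw [orderOf_eq_one_iff.1 a.2, orderOf_eq_one_iff.1 b.2])⟩,
    ⟨⟨1, orderOf_one⟩⟩⟩

theorem cnt_pos_iff {m : ℕ} : cnt G m ≠ 0 ↔ ∃ g : G, orderOf g = m := by
  rw [cnt, Nat.card_ne_zero]
  exact ⟨fun h => ⟨h.1.some.1, h.1.some.2⟩, fun ⟨g, hg⟩ => ⟨⟨⟨g, hg⟩⟩, inferInstance⟩⟩

theorem inv_ne_self (hodd : Odd (Nat.card G)) {g : G} (hg : g ≠ 1) : g⁻¹ ≠ g := by
  intro h
  have h2 : g ^ 2 = 1 := by rw [pow_two]; nth_rewrite 1 [← h]; exact inv_mul_cancel g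
  have h3 := Nat.eq_one_of_dvd_coprimes (Nat.coprime_two_left.2 hodd)
    (orderOf_dvd_of_pow_eq_one h2) (orderOf_dvd_natCard g)
  exact hg (orderOf_eq_one_iff.1 h3)

theorem two_le_cnt (hodd : Odd (Nat.card G)) {g : G} (hg : g ≠ 1) : 2 ≤ cnt G (orderOf g) := by
  haveI : Nontrivial {x : G // orderOf x = orderOf g} :=
    ⟨⟨⟨g, rfl⟩, ⟨g⁻¹, orderOf_inv g⟩, fun h => inv_ne_self hodd hg (congrArg Subtype.val h).symm⟩⟩
  exact Finite.one_lt_card

theorem three_values (hodd : Odd (Nat.card G))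
    (h : ((fun m : ℕ => cnt G m) '' Set.range (orderOf : G → ℕ)).ncard = 3)
    {m₁ m₂ m₃ : ℕ} (h1 : m₁ ≠ 1) (h2 : m₂ ≠ 1) (h3 : m₃ ≠ 1)
    (p1 : cnt G m₁ ≠ 0) (p2 : cnt G m₂ ≠ 0) (p3 : cnt G m₃ ≠ 0) (h12 : cnt G m₁ ≠ cnt G m₂) :
    cnt G m₃ = cnt G m₁ ∨ cnt G m₃ = cnt G m₂ := by
  classical
  by_contra hc
  push Not at hc
  have hmem : ∀ m, cnt G m ≠ 0 → cnt G m ∈ (fun m : ℕ => cnt G m) '' Set.range (orderOf : G → ℕ) :=
    fun m hm => ⟨m, cnt_pos_iff.1 hm, rfl⟩
  have hne : ∀ m, m ≠ 1 → cnt G m ≠ 0 → cnt G m ≠ 1 := by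
    intro m hm hp
    obtain ⟨g, rfl⟩ := cnt_pos_iff.1 hp
    have := two_le_cnt hodd (g := g) (fun e => hm (by rw [e, orderOf_one]))
    omega
  have hsub : (({1, cnt G m₁, cnt G m₂, cnt G m₃} : Finset ℕ) : Set ℕ) ⊆
      (fun m : ℕ => cnt G m) '' Set.range (orderOf : G → ℕ) := by
    intro a ha
    simp only [Finset.coe_insert, Finset.coe_singleton, Set.mem_insert_iff, Set.mem_singleton_iff] at ha
    rcases ha with rfl | rfl | rfl | rfl
    · exact ⟨1, ⟨1, orderOf_one⟩, cnt_one⟩
    · exact hmem _ p1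
    · exact hmem _ p2
    · exact hmem _ p3
  have hle := Set.ncard_le_ncard hsub ((Set.finite_range _).image _)
  rw [Set.ncard_coe_finset, h] at hle
  have hc4 : ({1, cnt G m₁, cnt G m₂, cnt G m₃} : Finset ℕ).card = 4 := by
    rw [Finset.card_insert_of_notMem, Finset.card_insert_of_notMem, Finset.card_pair hc.2.symm]
    · simp [h12, hc.1.symm]
    · simp [(hne _ h1 p1).symm, (hne _ h2 p2).symm, (hne _ h3 p3).symm]
  omega

theorem count_pow (n : ℕ) (hn : n ≠ 0) :
    Nat.card {x : G // x ^ n = 1} = ∑ m ∈ n.divisors, cnt G m := by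
  classical
  haveI := Fintype.ofFinite G
  rw [Nat.card_eq_fintype_card, Fintype.card_subtype]
  refine ((sum_card_orderOf_eq_card_pow_eq_one (G := G) hn).trans (by congr)).symm.trans ?_
  refine Finset.sum_congr rfl fun m _ => ?_
  rw [cnt, Nat.card_eq_fintype_card, Fintype.card_subtype]

theorem frob_dvd {n : ℕ} (hn : n ∣ Nat.card G) : n ∣ ∑ m ∈ n.divisors, cnt G m := by
  rw [← count_pow n (Nat.pos_of_dvd_of_pos hn Nat.card_pos).ne']
  exact CfsgLib.Hall.frobenius_count hn

theorem sum_le_card {n : ℕ} (hn : n ≠ 0) : ∑ m ∈ n.divisors, cnt G m ≤ Nat.card G := by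
  rw [← count_pow n hn]
  exact Nat.card_le_card_of_injective _ Subtype.val_injective

theorem sum_prime {p : ℕ} (hp : p.Prime) (f : ℕ → ℕ) : ∑ m ∈ p.divisors, f m = f 1 + f p := by
  rw [hp.divisors, Finset.sum_pair hp.one_lt.ne]

theorem sum_prime_mul {p m : ℕ} (hp : p.Prime) (hpm : ¬ p ∣ m) (f : ℕ → ℕ) :
    ∑ d ∈ (p * m).divisors, f d = ∑ d ∈ m.divisors, f d + ∑ d ∈ m.divisors, f (p * d) := by
  classical
  have hm : m ≠ 0 := fun h => hpm (h ▸ dvd_zero p)
  have he : (p * m).divisors = m.divisors ∪ m.divisors.image (p * ·) := by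
    ext d
    simp only [Nat.mem_divisors, Finset.mem_union, Finset.mem_image]
    constructor
    · rintro ⟨hd, -⟩
      obtain ⟨d₁, d₂, hd1, hd2, rfl⟩ := Nat.dvd_mul.1 hd
      rcases (Nat.dvd_prime hp).1 hd1 with rfl | rfl
      · exact Or.inl ⟨by rw [one_mul]; exact hd2, hm⟩
      · exact Or.inr ⟨d₂, ⟨hd2, hm⟩, rfl⟩
    · rintro (⟨hd, -⟩ | ⟨e, ⟨he, -⟩, rfl⟩)
      · exact ⟨hd.mul_left p, mul_ne_zero hp.ne_zero hm⟩
      · exact ⟨Nat.mul_dvd_mul_left p he, mul_ne_zero hp.ne_zero hm⟩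
  rw [he, Finset.sum_union, Finset.sum_image fun a _ b _ h => Nat.eq_of_mul_eq_mul_left hp.pos h]
  rw [Finset.disjoint_left]
  intro d hd hd'
  obtain ⟨e, he', rfl⟩ := Finset.mem_image.1 hd'
  exact hpm ((dvd_mul_right p e).trans (Nat.dvd_of_mem_divisors hd))

theorem neg_one_cast {p : ℕ} (hp : p.Prime) (hd : p ∣ Nat.card G) : (cnt G p : ZMod p) = -1 := by
  have h := (ZMod.natCast_eq_zero_iff _ p).2 (frob_dvd hd)
  rw [sum_prime hp, cnt_one, Nat.cast_add, Nat.cast_one] at h
  linear_combination h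

theorem cast_pair {p q : ℕ} (hp : p.Prime) (hq : q.Prime) (hpq : p ≠ q) (hdp : p ∣ Nat.card G)
    (hdq : q ∣ Nat.card G) :
    (cnt G q : ZMod p) + cnt G (p * q) = 0 ∧ (cnt G p : ZMod q) + cnt G (p * q) = 0 := by
  have hcop : Nat.Coprime p q := (Nat.coprime_primes hp hq).2 hpq
  have hnd : ¬ p ∣ q := fun h => hpq ((Nat.prime_dvd_prime_iff_eq hp hq).1 h)
  have h := frob_dvd (G := G) (hcop.mul_dvd_of_dvd_of_dvd hdp hdq)
  rw [sum_prime_mul hp hnd, sum_prime hq, sum_prime hq, mul_one, cnt_one] at h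
  have h1 := (ZMod.natCast_eq_zero_iff _ p).2 ((dvd_mul_right p q).trans h)
  have h2 := (ZMod.natCast_eq_zero_iff _ q).2 ((dvd_mul_left q p).trans h)
  push_cast at h1 h2
  constructor
  · linear_combination h1 - neg_one_cast hp hdp
  · linear_combination h2 - neg_one_cast hq hdq

theorem sq_cast {p : ℕ} (hp : p.Prime) (hd : p ^ 2 ∣ Nat.card G) : (cnt G (p ^ 2) : ZMod p) = 0 := by
  have h := frob_dvd (G := G) hd
  rw [Nat.sum_divisors_prime_pow (f := cnt G) hp] at h
  simp only [Finset.sum_range_succ, Finset.sum_range_zero, zero_add, pow_zero, pow_one, cnt_one] at h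
  have h1 := (ZMod.natCast_eq_zero_iff _ p).2 ((dvd_pow_self p two_ne_zero).trans h)
  push_cast at h1
  linear_combination h1 - neg_one_cast hp ((dvd_pow_self p two_ne_zero).trans hd)

theorem two_ne_zero_zmod (hodd : Odd (Nat.card G)) {p : ℕ} (hp : p.Prime) (hd : p ∣ Nat.card G) :
    (2 : ZMod p) ≠ 0 := by
  intro h
  have h2 : ((2 : ℕ) : ZMod p) = 0 := by exact_mod_cast h
  have h3 := (Nat.prime_dvd_prime_iff_eq hp Nat.prime_two).1 ((ZMod.natCast_eq_zero_iff _ p).1 h2)
  subst h3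
  exact absurd hd (by rw [← even_iff_two_dvd]; exact Nat.not_even_iff_odd.2 hodd)

theorem exponent_of {p : ℕ} (hp : p.Prime) (hno : cnt G (p ^ 2) = 0) {x : G} {k : ℕ}
    (hx : orderOf x = p ^ k) : x ^ p = 1 := by
  rcases Nat.lt_or_ge k 2 with hk | hk
  · rw [← orderOf_dvd_iff_pow_eq_one, hx]
    exact (pow_dvd_pow p (Nat.le_of_lt_succ hk)).trans (by rw [pow_one])
  · exfalso
    apply cnt_pos_iff.2 ⟨x ^ p ^ (k - 2), ?_⟩ hno
    rw [orderOf_pow' _ (pow_ne_zero _ hp.ne_zero), hx,
      Nat.gcd_eq_right (pow_dvd_pow p (Nat.sub_le k 2)), Nat.pow_div (Nat.sub_le k 2) hp.pos,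
      show k - (k - 2) = 2 by omega]

theorem prime_pow_dvd_succ {p k : ℕ} (hp : p.Prime) (hno : cnt G (p ^ 2) = 0) (hk : p ^ k ∣ Nat.card G) :
    p ^ k ∣ 1 + cnt G p := by
  rcases Nat.eq_zero_or_pos k with rfl | hk0
  · rw [pow_zero]; exact one_dvd _
  have he : Nat.card {x : G // x ^ p ^ k = 1} = Nat.card {x : G // x ^ p = 1} := by
    refine Nat.card_congr (Equiv.subtypeEquivRight fun x => ⟨fun h => ?_, fun h => ?_⟩)
    · obtain ⟨j, -, hj⟩ := (Nat.dvd_prime_pow hp).1 (orderOf_dvd_of_pow_eq_one h)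
      exact exponent_of hp hno hj
    · obtain ⟨t, ht⟩ := dvd_pow_self p hk0.ne'
      rw [ht, pow_mul, h, one_pow]
  have h := CfsgLib.Hall.frobenius_count (G := G) hk
  rwa [he, count_pow p hp.ne_zero, sum_prime hp, cnt_one] at h

/-- An element of prime order `q` commutes with some element of order `m` unless `q` divides their number. -/
theorem exists_commute {q m : ℕ} (hq : q.Prime) {z : G} (hz : orderOf z = q)
    (h : (cnt G m : ZMod q) ≠ 0) : ∃ y : G, orderOf y = m ∧ Commute z y := by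
  classical
  haveI := Fact.mk hq
  haveI := Fintype.ofFinite {g : G // orderOf g = m}
  let σ : Equiv.Perm {g : G // orderOf g = m} :=
    { toFun := fun y => ⟨MulAut.conj z y.1, by rw [MulEquiv.orderOf_eq]; exact y.2⟩
      invFun := fun y => ⟨(MulAut.conj z).symm y.1, by rw [MulEquiv.orderOf_eq]; exact y.2⟩
      left_inv := fun y => Subtype.ext ((MulAut.conj z).symm_apply_apply y.1)
      right_inv := fun y => Subtype.ext ((MulAut.conj z).apply_symm_apply y.1) }
  have hσn : ∀ (n : ℕ) (y : {g : G // orderOf g = m}), ((σ ^ n) y).1 = z ^ n * y.1 * (z ^ n)⁻¹ := by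
    intro n
    induction n with
    | zero => intro y; simp
    | succ n ih =>
      intro y
      rw [pow_succ, Equiv.Perm.mul_apply, ih]
      show z ^ n * (z * y.1 * z⁻¹) * (z ^ n)⁻¹ = _
      rw [pow_succ]; group
  have hσ : σ ^ q ^ 1 = 1 := by
    rw [pow_one]
    refine Equiv.ext fun y => Subtype.ext ?_
    rw [hσn, ← hz, pow_orderOf_eq_one, inv_one, one_mul, mul_one, Equiv.Perm.one_apply]
  obtain ⟨y, hy⟩ := Equiv.Perm.exists_fixed_point_of_prime (p := q) (n := 1) (fun hd => h (by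
    rw [cnt, Nat.card_eq_fintype_card]; exact (ZMod.natCast_eq_zero_iff _ q).2 hd)) hσ
  refine ⟨y.1, y.2, ?_⟩
  have h1 : z * y.1 * z⁻¹ = y.1 := congrArg Subtype.val hy
  exact mul_inv_eq_iff_eq_mul.1 h1

theorem two_mul_le (hodd : Odd (Nat.card G)) {p q : ℕ} (hp : p.Prime) (hq : q.Prime) (hpq : p ≠ q)
    (h : (cnt G q : ZMod p) ≠ 0) : 2 * cnt G p ≤ cnt G (p * q) := by
  classical
  choose y hy hc using fun x : {g : G // orderOf g = p} => exists_commute (m := q) hp x.2 h
  have hy1 : ∀ x, y x ≠ 1 := fun x e => hq.ne_one (by rw [← hy x, e, orderOf_one])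
  let w : {g : G // orderOf g = p} × Bool → G := fun u => if u.2 then y u.1 else (y u.1)⁻¹
  have hwo : ∀ u, orderOf (w u) = q := by
    rintro ⟨x, b⟩; cases b <;> simp [w, hy]
  have hwc : ∀ u, Commute (u.1 : G) (w u) := by
    rintro ⟨x, b⟩
    cases b
    · simpa [w] using (hc x).inv_right
    · simpa [w] using hc x
  let Φ : {g : G // orderOf g = p} × Bool → {g : G // orderOf g = p * q} := fun u =>
    ⟨u.1 * w u, by
      rw [(hwc u).orderOf_mul_eq_mul_orderOf_of_coprime (by
        rw [u.1.2, hwo]; exact (Nat.coprime_primes hp hq).2 hpq), u.1.2, hwo]⟩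
  obtain ⟨s, -, hs⟩ := Nat.exists_mul_mod_eq_one_of_coprime ((Nat.coprime_primes hq hp).2 hpq.symm) hp.one_lt
  have hinj : Function.Injective Φ := by
    intro u v he
    have he1 : (u.1 : G) * w u = v.1 * w v := congrArg Subtype.val he
    have key : ∀ u : {g : G // orderOf g = p} × Bool, ((u.1 : G) * w u) ^ (q * s) = u.1 := by
      intro u
      have ew : (w u) ^ (q * s) = 1 := by rw [pow_mul, ← hwo u, pow_orderOf_eq_one, one_pow]
      rw [(hwc u).mul_pow, ew, mul_one, ← pow_mod_orderOf, u.1.2, hs, pow_one]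
    have h1 : u.1 = v.1 := Subtype.ext (by rw [← key u, he1, key v])
    obtain ⟨x, b⟩ := u
    obtain ⟨x', b'⟩ := v
    cases h1
    have h2 : w (x, b) = w (x, b') := mul_left_cancel he1
    cases b <;> cases b'
    · rfl
    · exact absurd (by simpa [w] using h2) (inv_ne_self hodd (hy1 x))
    · exact absurd (by simpa [w] using h2.symm) (inv_ne_self hodd (hy1 x))
    · rfl
  have := Nat.card_le_card_of_injective Φ hinj
  rw [Nat.card_prod, Nat.card_eq_fintype_card (α := Bool), Fintype.card_bool] at this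
  unfold cnt; omega

end Count

section Norm

variable {G : Type*} [Group G] [Finite G] (V : Subgroup G) [V.Normal]

/-- Conjugation by `a` on a normal subgroup. -/
def act (a : G) : V →* V where
  toFun v := ⟨a * v * a⁻¹, Subgroup.Normal.conj_mem inferInstance _ v.2 a⟩
  map_one' := Subtype.ext (by simp)
  map_mul' v w := Subtype.ext (by simp [mul_assoc])

omit [Finite G] in
theorem act_act (a b : G) (v : V) : act V a (act V b v) = act V (a * b) v :=
  Subtype.ext (by simp [act, mul_assoc])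

omit [Finite G] in
theorem act_one (v : V) : act V 1 v = v := Subtype.ext (by simp [act])

variable [IsMulCommutative V]

open scoped IsMulCommutative

omit [Finite G] in
theorem pow_expand (a : G) (v : V) : ∀ n : ℕ,
    ((v : G) * a) ^ n = ((∏ i ∈ Finset.range n, act V (a ^ i) v : V) : G) * a ^ n
  | 0 => by simp
  | n + 1 => by
    have h1 : ∀ w : V, a * (w : G) = (act V a w : G) * a := fun w => by simp [act, mul_assoc]
    have h2 : act V a (∏ i ∈ Finset.range n, act V (a ^ i) v) = ∏ i ∈ Finset.range n, act V (a ^ (i + 1)) v := by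
      rw [map_prod]
      exact Finset.prod_congr rfl fun i _ => by rw [act_act, ← pow_succ']
    rw [pow_succ', pow_expand a v n, Finset.prod_range_succ', ← h2, pow_zero, act_one, pow_succ' a n]
    rw [mul_comm (act V a _) v, Subgroup.coe_mul]
    simp only [mul_assoc]
    rw [← mul_assoc a, h1, mul_assoc]

theorem norm_one {a : G} {v : V} (h : ((v : G) * a) ^ orderOf a = 1) [Fintype G] [DecidableEq G]
    [DecidablePred (· ∈ Subgroup.zpowers a)] :
    ∏ b ∈ (univ : Finset G).filter (· ∈ Subgroup.zpowers a), act V b v = 1 := by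
  rw [pow_expand, pow_orderOf_eq_one, mul_one, OneMemClass.coe_eq_one] at h
  have e : (univ : Finset G).filter (· ∈ Subgroup.zpowers a) = (Finset.range (orderOf a)).image (a ^ ·) := by
    ext b
    simp only [Finset.mem_filter, Finset.mem_univ, true_and]
    exact mem_zpowers_iff_mem_range_orderOf
  rw [e, Finset.prod_image (fun i hi j hj hij => pow_injOn_Iio_orderOf (Finset.mem_range.1 hi)
    (Finset.mem_range.1 hj) hij)]
  exact h

/-- If a group of order `q * r` with a subgroup of order `q` and all other elements of order `r` has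
trivial norms on `v`, then `v ^ q = 1`. -/
theorem partition_norm {q r : ℕ} (hq : q.Prime) (hr : r.Prime) (A Q : Subgroup G) (hQA : Q ≤ A)
    (hQ : Nat.card Q = q) (hA : Nat.card A = q * r) (hout : ∀ a ∈ A, a ∉ Q → orderOf a = r) (v : V)
    (hnorm : ∀ a ∈ A, a ≠ 1 → ((v : G) * a) ^ orderOf a = 1)
    (htop : ∀ w : V, (∀ b ∈ Q, act V b w = w) → w = 1) : v ^ q = 1 := by
  classical
  haveI := Fintype.ofFinite G
  set S : Finset G := (univ : Finset G).filter (fun b => b ∈ A ∧ b ≠ 1) with hS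
  have hprime : ∀ b ∈ A, b ≠ 1 → (orderOf b).Prime := by
    intro b hb hb1
    by_cases hbQ : b ∈ Q
    · have : orderOf b ∣ q := hQ ▸ Subgroup.orderOf_dvd_natCard Q hbQ
      rcases (Nat.dvd_prime hq).1 this with h | h
      · exact absurd (orderOf_eq_one_iff.1 h) hb1
      · rwa [h]
    · rwa [hout b hb hbQ]
  have hzeq : ∀ {a b : G}, a ∈ A → a ≠ 1 → b ∈ Subgroup.zpowers a → b ≠ 1 →
      Subgroup.zpowers b = Subgroup.zpowers a := by
    intro a b ha ha1 hb hb1
    refine Subgroup.eq_of_le_of_card_ge (Subgroup.zpowers_le.2 hb) ?_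
    rw [Nat.card_zpowers, Nat.card_zpowers]
    rcases (Nat.dvd_prime (hprime a ha ha1)).1 (orderOf_dvd_of_mem_zpowers hb) with h | h
    · exact absurd (orderOf_eq_one_iff.1 h) hb1
    · exact h.ge
  set T := S.image Subgroup.zpowers with hT
  have hfib : ∀ a ∈ A, a ≠ 1 → S.filter (fun b => Subgroup.zpowers b = Subgroup.zpowers a) =
      ((univ : Finset G).filter (· ∈ Subgroup.zpowers a)).erase 1 := by
    intro a ha ha1
    ext b
    simp only [hS, Finset.mem_filter, Finset.mem_univ, true_and, Finset.mem_erase]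
    constructor
    · rintro ⟨⟨-, hb1⟩, hb⟩
      exact ⟨hb1, hb ▸ Subgroup.mem_zpowers b⟩
    · rintro ⟨hb1, hb⟩
      exact ⟨⟨(Subgroup.zpowers_le.2 ha) hb, hb1⟩, hzeq ha ha1 hb hb1⟩
  -- the whole norm
  set P := ∏ b ∈ (univ : Finset G).filter (· ∈ A), act V b v with hP
  have hP1 : P = 1 := by
    apply htop
    intro c hc
    rw [hP, map_prod]
    refine Finset.prod_equiv (Equiv.mulLeft c) (fun i => ?_) (fun i _ => act_act V c i v)
    simp [Subgroup.mul_mem_cancel_left A (hQA hc)]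
  have hS' : ∏ b ∈ S, act V b v = v⁻¹ := by
    have e : S = ((univ : Finset G).filter (· ∈ A)).erase 1 := by
      ext b; simp [hS, and_comm]
    rw [e]
    refine eq_inv_of_mul_eq_one_left ?_
    have := Finset.prod_erase_mul ((univ : Finset G).filter (· ∈ A)) (fun b => act V b v)
      (a := 1) (by simp)
    rw [act_one] at this
    rw [this]; exact hP1
  have hS2 : ∏ b ∈ S, act V b v = (v⁻¹) ^ T.card := by
    rw [← Finset.prod_fiberwise_of_maps_to (t := T) (g := Subgroup.zpowers)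
      (fun b hb => Finset.mem_image_of_mem _ hb), ← Finset.prod_const]
    refine Finset.prod_congr rfl fun X hX => ?_
    obtain ⟨a, ha, rfl⟩ := Finset.mem_image.1 hX
    obtain ⟨-, haA, ha1⟩ := Finset.mem_filter.1 ha
    rw [hfib a haA ha1]
    refine eq_inv_of_mul_eq_one_left ?_
    have := Finset.prod_erase_mul ((univ : Finset G).filter (· ∈ Subgroup.zpowers a)) (fun b => act V b v)
      (a := 1) (by simp)
    rw [act_one] at this
    rw [this]; exact norm_one V (hnorm a haA ha1)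
  -- the number of cyclic subgroups
  have hfc : ∀ a ∈ A, a ≠ 1 → (S.filter (fun b => Subgroup.zpowers b = Subgroup.zpowers a)).card + 1 = orderOf a := by
    intro a ha ha1
    rw [hfib a ha ha1, Finset.card_erase_add_one (by simp), ← Nat.card_zpowers, Nat.card_eq_fintype_card,
      Fintype.card_subtype]
  obtain ⟨z, hzQ, hz1⟩ : ∃ z ∈ Q, z ≠ 1 := by
    rcases Q.bot_or_exists_ne_one with h | h
    · rw [h, Subgroup.card_bot] at hQ; exact absurd hQ.symm hq.ne_one
    · exact h
  have hzq : Subgroup.zpowers z = Q := by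
    refine Subgroup.eq_of_le_of_card_ge (Subgroup.zpowers_le.2 hzQ) ?_
    rw [Nat.card_zpowers, hQ]
    rcases (Nat.dvd_prime hq).1 (hQ ▸ Subgroup.orderOf_dvd_natCard Q hzQ) with h | h
    · exact absurd (orderOf_eq_one_iff.1 h) hz1
    · exact h.ge
  have hQT : Q ∈ T := Finset.mem_image.2 ⟨z, by simp [hS, hQA hzQ, hz1], hzq⟩
  have hcnt : S.card = ∑ X ∈ T, (S.filter (fun b => Subgroup.zpowers b = X)).card :=
    Finset.card_eq_sum_card_fiberwise (fun b hb => Finset.mem_image_of_mem _ hb)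
  have hsum : ∑ X ∈ T.erase Q, (S.filter (fun b => Subgroup.zpowers b = X)).card = (T.erase Q).card * (r - 1) := by
    rw [← smul_eq_mul, ← Finset.sum_const]
    refine Finset.sum_congr rfl fun X hX => ?_
    obtain ⟨hne, hX⟩ := Finset.mem_erase.1 hX
    obtain ⟨a, ha, rfl⟩ := Finset.mem_image.1 hX
    obtain ⟨-, haA, ha1⟩ := Finset.mem_filter.1 ha
    have haQ : a ∉ Q := fun h => hne ((hzeq (hQA hzQ) hz1 (hzq.symm ▸ h) ha1).trans hzq)
    have := hfc a haA ha1
    rw [hout a haA haQ] at this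
    omega
  rw [← Finset.add_sum_erase T _ hQT, hsum] at hcnt
  have hzc := hfc z (hQA hzQ) hz1
  rw [← Nat.card_zpowers z, hzq, hQ] at hzc
  have hSc : S.card + 1 = q * r := by
    have e : S = ((univ : Finset G).filter (· ∈ A)).erase 1 := by
      ext b; simp [hS, and_comm]
    rw [e, Finset.card_erase_add_one (by simp), ← hA, Nat.card_eq_fintype_card, Fintype.card_subtype]
  have hTc : T.card = (T.erase Q).card + 1 := (Finset.card_erase_add_one hQT).symm
  have hTq : (T.erase Q).card = q := by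
    obtain ⟨r', rfl⟩ : ∃ r', r = r' + 2 := ⟨r - 2, by have := hr.two_le; omega⟩
    rw [show r' + 2 - 1 = r' + 1 from rfl] at hcnt
    nlinarith
  rw [hS', hTc, hTq, pow_succ] at hS2
  have h3 : (v⁻¹) ^ q = 1 := mul_eq_right.1 hS2.symm
  rwa [inv_pow, inv_eq_one] at h3

end Norm

section TwoPrimes

variable {G : Type*} [Group G] [Finite G]

theorem norm_pow_one {p : ℕ} (horder : ∀ g : G, g ≠ 1 → (orderOf g).Prime) (V : Subgroup G) [V.Normal]
    (hV : ∀ v ∈ V, v ^ p = 1) {a v : G} (hv : v ∈ V) (ha1 : a ≠ 1) (haV : a ∉ V) :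
    (v * a) ^ orderOf a = 1 := by
  have hva : v * a ∉ V := fun h => haV ((V.mul_mem_cancel_left hv).1 h)
  have h0 : v * a ≠ 1 := fun h => hva (h ▸ V.one_mem)
  have hpr := horder _ h0
  suffices orderOf (v * a) = orderOf a by rw [← this, pow_orderOf_eq_one]
  refine ((Nat.prime_dvd_prime_iff_eq (horder a ha1) hpr).1 ?_).symm
  let π := QuotientGroup.mk' V
  have e : π (v * a) = π a := by
    rw [map_mul, show π v = 1 from (QuotientGroup.eq_one_iff v).2 hv, one_mul]
  have h1 : orderOf (π a) ∣ orderOf (v * a) := e ▸ orderOf_map_dvd π (v * a)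
  rcases (Nat.dvd_prime (horder a ha1)).1 (orderOf_map_dvd π a) with h2 | h2
  · exact absurd ((QuotientGroup.eq_one_iff a).1 (orderOf_eq_one_iff.1 h2)) haV
  · rwa [h2] at h1

theorem complement_aux (hodd : Odd (Nat.card G)) {p q : ℕ} (hp : p.Prime) (hq : q.Prime) (hpq : p ≠ q)
    (hdq : q ∣ Nat.card G)
    (horder : ∀ g : G, g ≠ 1 → orderOf g = p ∨ orderOf g = q)
    (hnc : ∀ x y : G, orderOf x = p → orderOf y = q → ¬ Commute x y)
    (V : Subgroup G) [V.Normal] [IsMulCommutative V] (hV : ∀ v ∈ V, v ≠ 1 → orderOf v = p) (hVne : V ≠ ⊥) :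
    ∃ C : Subgroup G, Cfsg.IsFrobeniusComplement C ∧ (Nat.card ↥C).Prime := by
  haveI := Fact.mk hq
  have hprime : ∀ g : G, g ≠ 1 → (orderOf g).Prime := fun g hg => by
    rcases horder g hg with h | h <;> rw [h] <;> assumption
  have hVp : ∀ v ∈ V, v ^ p = 1 := fun v hv => by
    by_cases h : v = 1
    · rw [h, one_pow]
    · rw [← hV v hv h, pow_orderOf_eq_one]
  obtain ⟨v, hv, hv1⟩ := V.bot_or_exists_ne_one.resolve_left hVne
  have hfix : ∀ {A Q : Subgroup G}, Nat.card Q = q → Q ≤ A → (∀ a ∈ A, a ∉ Q → orderOf a ≠ 1) →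
      ∀ w : V, (∀ b ∈ Q, act V b w = w) → w = 1 := by
    intro A Q hQ _ _ w hw
    by_contra hw1
    obtain ⟨z, hz⟩ := exists_prime_orderOf_dvd_card' (G := Q) q (by rw [hQ])
    have hw1' : (w : G) ≠ 1 := fun e => hw1 (Subtype.ext e)
    refine hnc w z (hV w w.2 hw1') (by rw [Subgroup.orderOf_coe, hz]) ?_
    have := congrArg Subtype.val (hw z z.2)
    exact (mul_inv_eq_iff_eq_mul.1 this).symm
  -- no group `A` as below
  have hno : ∀ (r : ℕ) (A Q : Subgroup G), r.Prime → Q ≤ A → Nat.card Q = q → Nat.card A = q * r →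
      (∀ a ∈ A, a ∉ Q → orderOf a = r) → (∀ a ∈ A, a ≠ 1 → a ∉ V) → False := by
    intro r A Q hr hQA hQ hA hout hAV
    have h := partition_norm V hq hr A Q hQA hQ hA hout ⟨v, hv⟩
      (fun a ha ha1 => norm_pow_one hprime V hVp hv ha1 (hAV a ha ha1))
      (hfix hQ hQA (fun a ha haQ h => haQ (by rw [orderOf_eq_one_iff.1 h]; exact Q.one_mem)))
    have h' : v ^ q = 1 := congrArg Subtype.val h
    have := orderOf_dvd_of_pow_eq_one h'
    rw [hV v hv hv1] at this
    exact hpq ((Nat.prime_dvd_prime_iff_eq hp hq).1 this)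
  have hVq : ∀ {a : G}, orderOf a = q → a ∉ V := by
    intro a ha hmem
    refine hpq ?_
    rw [← ha, hV a hmem (fun e => hq.ne_one (by rw [← ha, e, orderOf_one]))]
  obtain ⟨S⟩ := (inferInstance : Nonempty (Sylow q G))
  have hSexp : ∀ a ∈ (S : Subgroup G), a ≠ 1 → orderOf a = q := by
    intro a ha ha1
    obtain ⟨k, hk⟩ := IsPGroup.iff_orderOf.1 S.isPGroup' ⟨a, ha⟩
    rw [Subgroup.orderOf_mk] at hk
    rcases horder a ha1 with h | h
    · exact absurd ((Nat.prime_dvd_prime_iff_eq hp hq).1 (hp.dvd_of_dvd_pow (h ▸ hk ▸ dvd_rfl : p ∣ q ^ k))) hpq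
    · exact h
  have hSq : Nat.card S = q := by
    obtain ⟨n, hn⟩ := IsPGroup.iff_card.1 S.isPGroup'
    have hn0 : n ≠ 0 := by
      rintro rfl
      have := S.dvd_card_of_dvd_card hdq
      rw [hn, pow_zero] at this
      exact hq.ne_one (Nat.dvd_one.1 this)
    rcases Nat.lt_or_ge n 2 with h | h
    · rw [hn, show n = 1 by omega, pow_one]
    exfalso
    obtain ⟨A₀, hA₀⟩ := Sylow.exists_subgroup_card_pow_prime (G := (S : Subgroup G)) q
      (show q ^ 2 ∣ Nat.card (S : Subgroup G) by rw [hn]; exact pow_dvd_pow q h)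
    obtain ⟨Q₀, hQ₀⟩ := Sylow.exists_subgroup_card_pow_prime (G := A₀) q
      (show q ^ 1 ∣ Nat.card A₀ by rw [hA₀]; exact pow_dvd_pow q one_le_two)
    set A := A₀.map (S : Subgroup G).subtype with hAdef
    have hAS : A ≤ (S : Subgroup G) := Subgroup.map_subtype_le A₀
    refine hno q A ((Q₀.map A₀.subtype).map (S : Subgroup G).subtype) hq
      (Subgroup.map_mono (Subgroup.map_subtype_le Q₀)) ?_ ?_ (fun a ha haQ => hSexp a (hAS ha) (fun e => haQ ?_))
      (fun a ha ha1 => hVq (hSexp a (hAS ha) ha1))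
    · rw [Subgroup.card_map_of_injective Subtype.val_injective,
        Subgroup.card_map_of_injective Subtype.val_injective, hQ₀, pow_one]
    · rw [hAdef, Subgroup.card_map_of_injective Subtype.val_injective, hA₀, pow_two]
    · rw [e]; exact Subgroup.one_mem _
  have hdisj : ∀ x ∈ V, x ∈ (S : Subgroup G) → x = 1 := fun x hx hxS => by
    by_contra h
    exact hpq ((hV x hx h).symm.trans (hSexp x hxS h))
  have hqS : ∀ a : G, orderOf a = q → a ∈ Subgroup.normalizer ((S : Subgroup G) : Set G) →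
      a ∈ (S : Subgroup G) := by
    intro a h ha
    have hm := Subgroup.mem_zpowers a
    have h2 : a ∈ Subgroup.zpowers a ⊓ Subgroup.normalizer ((S : Subgroup G) : Set G) := ⟨hm, ha⟩
    exact ((IsPGroup.inf_normalizer_sylow (p := q) (P := Subgroup.zpowers a) (IsPGroup.of_card (n := 1)
      (by rw [Nat.card_zpowers, h, pow_one])) S).le h2).2
  have hnorm : ∀ g ∈ Subgroup.normalizer ((S : Subgroup G) : Set G), g ∈ (S : Subgroup G) := by
    intro g hg
    by_contra hgS
    have hg1 : g ≠ 1 := fun e => hgS (e ▸ Subgroup.one_mem _)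
    rcases horder g hg1 with ho | ho
    · set A := (S : Subgroup G) ⊔ Subgroup.zpowers g with hAdef
      haveI := Fact.mk hp
      have hAc : Nat.card A = q * p := by
        rw [hAdef, CfsgLib.ConjPSub.card_sup_zpowers (p := p) (S : Subgroup G)
          (by rw [← ho, pow_orderOf_eq_one]) hg hgS, hSq]
      have hAle : A ≤ Subgroup.normalizer ((S : Subgroup G) : Set G) :=
        sup_le Subgroup.le_normalizer (Subgroup.zpowers_le.2 hg)
      have hout : ∀ a ∈ A, a ∉ (S : Subgroup G) → orderOf a = p := by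
        intro a ha haS
        refine (horder a (fun e => haS (e ▸ Subgroup.one_mem _))).resolve_right fun h => haS ?_
        exact hqS a h (hAle ha)
      refine hno p A S hp le_sup_left hSq hAc hout (fun a ha ha1 haV => ?_)
      obtain ⟨z, hzS, hz1⟩ := (S : Subgroup G).bot_or_exists_ne_one.resolve_left (fun e => by
        rw [← Subgroup.card_eq_one] at e; exact hq.ne_one (hSq.symm.trans e))
      have h1 : a * z * a⁻¹ * z⁻¹ ∈ V := by
        rw [show a * z * a⁻¹ * z⁻¹ = a * (z * a⁻¹ * z⁻¹) by group]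
        exact V.mul_mem haV (Subgroup.Normal.conj_mem inferInstance _ (V.inv_mem haV) z)
      have h2 : a * z * a⁻¹ * z⁻¹ ∈ (S : Subgroup G) :=
        Subgroup.mul_mem _ ((Subgroup.mem_normalizer_iff.1 (hAle ha) z).1 hzS) (Subgroup.inv_mem _ hzS)
      refine hnc a z (hV a haV ha1) (hSexp z hzS hz1) ?_
      exact mul_inv_eq_iff_eq_mul.1 (mul_inv_eq_one.1 (hdisj _ h1 h2))
    · exact hgS (hqS g ho hg)
  have hprimeS : (Nat.card (S : Subgroup G)).Prime := hSq.symm ▸ hq
  refine ⟨S, ⟨?_, ?_, ?_⟩, hprimeS⟩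
  · intro e
    rw [e, Subgroup.card_bot] at hSq
    exact hq.ne_one hSq.symm
  · intro e
    exact hv1 (hdisj v hv (e ▸ Subgroup.mem_top v))
  · intro g hg
    by_contra hne
    have hinf : (S : Subgroup G) ⊓ MulAut.conj g • (S : Subgroup G) = (S : Subgroup G) := by
      refine Subgroup.eq_of_le_of_card_ge inf_le_left ?_
      rcases (Nat.dvd_prime hprimeS).1 (Subgroup.card_dvd_of_le
        (inf_le_left : (S : Subgroup G) ⊓ MulAut.conj g • (S : Subgroup G) ≤ S)) with h | h
      · exact absurd (Subgroup.card_eq_one.1 h) hne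
      · exact h.ge
    refine hg (hnorm g ?_)
    have h2 : MulAut.conj g • (S : Subgroup G) = (S : Subgroup G) :=
      (Subgroup.eq_of_le_of_card_ge (inf_eq_left.1 hinf) (le_of_eq (Nat.card_congr
        (Subgroup.equivSMul _ _).toEquiv).symm)).symm
    rw [Subgroup.mem_normalizer_iff_map_conj_eq]
    exact h2

theorem exists_normal_abelian [hs : Group.IsSolvable G] [Nontrivial G] :
    ∃ V : Subgroup G, V.Normal ∧ IsMulCommutative V ∧ V ≠ ⊥ := by
  classical
  have hex : ∃ n, derivedSeries G n = ⊥ := (Group.isSolvable_def G).1 hs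
  have hn0 : Nat.find hex ≠ 0 := by
    intro h
    have := Nat.find_spec hex
    rw [h, derivedSeries_zero] at this
    exact top_ne_bot this
  obtain ⟨k, hk⟩ := Nat.exists_eq_succ_of_ne_zero hn0
  have hspec := Nat.find_spec hex
  rw [hk, derivedSeries_succ, Subgroup.commutator_self_eq_bot_iff] at hspec
  exact ⟨derivedSeries G k, derivedSeries_normal G k, hspec, Nat.find_min hex (by omega)⟩

theorem equal_pair (hodd : Odd (Nat.card G))
    (h : ((fun m : ℕ => cnt G m) '' Set.range (orderOf : G → ℕ)).ncard = 3)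
    {p q : ℕ} (hp : p.Prime) (hq : q.Prime) (hpq : p ≠ q) (hdp : p ∣ Nat.card G) (hdq : q ∣ Nat.card G)
    (he : cnt G p = cnt G q) :
    (cnt G (p * q) : ZMod p) = 1 ∧ cnt G (p * q) ≠ 0 ∧ cnt G (p * q) ≠ cnt G p ∧ cnt G (p ^ 2) = 0 := by
  haveI := Fact.mk hp
  have hA := neg_one_cast hp hdp
  have h2 := two_ne_zero_zmod hodd hp hdp
  have hc : (cnt G (p * q) : ZMod p) = 1 := by
    have := (cast_pair hp hq hpq hdp hdq).1
    rw [← he, hA] at this
    linear_combination this
  have hne0 : cnt G (p * q) ≠ 0 := fun e => one_ne_zero (α := ZMod p) (by rw [← hc, e, Nat.cast_zero])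
  have hnea : cnt G (p * q) ≠ cnt G p := fun e => h2 (by
    rw [e, hA] at hc
    linear_combination -hc)
  refine ⟨hc, hne0, hnea, ?_⟩
  by_contra hp2
  obtain ⟨g, hg⟩ := cnt_pos_iff.1 hp2
  have hd : p ^ 2 ∣ Nat.card G := hg ▸ orderOf_dvd_natCard g
  have hz := sq_cast hp hd
  have hp0 : cnt G p ≠ 0 := cnt_pos_iff.2 (exists_prime_orderOf_dvd_card' p hdp)
  rcases three_values hodd h hp.ne_one (fun e => hp.ne_one (Nat.eq_one_of_mul_eq_one_right e))
    (fun e => hp.ne_one (by simpa using e)) hp0 hne0 hp2 hnea.symm with e | e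
  · rw [e, hA] at hz; exact neg_ne_zero.2 one_ne_zero hz
  · rw [e, hc] at hz; exact one_ne_zero hz

theorem not_all_equal (hodd : Odd (Nat.card G))
    (h : ((fun m : ℕ => cnt G m) '' Set.range (orderOf : G → ℕ)).ncard = 3)
    {p q : ℕ} (hp : p.Prime) (hq : q.Prime) (hpq : p ≠ q) (hdp : p ∣ Nat.card G) (hdq : q ∣ Nat.card G)
    (hall : ∀ r : ℕ, r.Prime → r ∣ Nat.card G → cnt G r = cnt G p) : False := by
  have hdvd : Nat.card G ∣ 1 + cnt G p := by
    rw [Nat.dvd_iff_prime_pow_dvd_dvd]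
    intro r k hr hk
    rcases Nat.eq_zero_or_pos k with rfl | hk0
    · rw [pow_zero]; exact one_dvd _
    have hdr : r ∣ Nat.card G := (dvd_pow_self r hk0.ne').trans hk
    have hno : cnt G (r ^ 2) = 0 := by
      rcases eq_or_ne r p with rfl | hrp
      · exact (equal_pair hodd h hr hq hpq hdp hdq (hall q hq hdq).symm).2.2.2
      · exact (equal_pair hodd h hr hp hrp hdr hdp (hall r hr hdr)).2.2.2
    rw [← hall r hr hdr]
    exact prime_pow_dvd_succ hr hno hk
  have hle := sum_le_card (G := G) (mul_ne_zero hp.ne_zero hq.ne_zero)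
  rw [sum_prime_mul hp (fun e => hpq ((Nat.prime_dvd_prime_iff_eq hp hq).1 e)), sum_prime hq, sum_prime hq,
    mul_one, cnt_one, hall q hq hdq] at hle
  have := (equal_pair hodd h hp hq hpq hdp hdq (hall q hq hdq).symm).2.1
  have := Nat.le_of_dvd (by omega) hdvd
  omega

theorem three_primes_false (hodd : Odd (Nat.card G))
    (h : ((fun m : ℕ => cnt G m) '' Set.range (orderOf : G → ℕ)).ncard = 3)
    {p q : ℕ} (hp : p.Prime) (hq : q.Prime) (hpq : p ≠ q) (hdp : p ∣ Nat.card G) (hdq : q ∣ Nat.card G)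
    (he : cnt G p = cnt G q) : False := by
  obtain ⟨r, hr, hdr, hrne⟩ : ∃ r : ℕ, r.Prime ∧ r ∣ Nat.card G ∧ cnt G r ≠ cnt G p := by
    by_contra hc
    push Not at hc
    exact not_all_equal hodd h hp hq hpq hdp hdq hc
  have hrp : r ≠ p := fun e => hrne (by rw [e])
  have hrq : r ≠ q := fun e => hrne (by rw [e, he])
  haveI := Fact.mk hp
  haveI := Fact.mk hr
  obtain ⟨hb, hb0, hba, -⟩ := equal_pair hodd h hp hq hpq hdp hdq he
  have hmne : ∀ {a b : ℕ}, a.Prime → a * b ≠ 1 := fun ha e => ha.ne_one (Nat.eq_one_of_mul_eq_one_right e)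
  have hp0 : cnt G p ≠ 0 := cnt_pos_iff.2 (exists_prime_orderOf_dvd_card' p hdp)
  have three : ∀ m, m ≠ 1 → cnt G m ≠ 0 → cnt G m = cnt G p ∨ cnt G m = cnt G (p * q) :=
    fun m hm hm0 => three_values hodd h hp.ne_one (hmne hp) hm hp0 hb0 hm0 hba.symm
  have hrb : cnt G r = cnt G (p * q) :=
    (three r hr.ne_one (cnt_pos_iff.2 (exists_prime_orderOf_dvd_card' r hdr))).resolve_left hrne
  -- the pairs involving `r`
  have hpair : ∀ s : ℕ, s.Prime → s ∣ Nat.card G → s ≠ r → cnt G s = cnt G p →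
      (cnt G (p * q) : ZMod s) = 1 → cnt G (s * r) = cnt G p := by
    intro s hs hds hsr hse hbs
    haveI := Fact.mk hs
    have hA := neg_one_cast hs hds
    have h2 := two_ne_zero_zmod hodd hs hds
    have hc := (cast_pair hs hr hsr hds hdr).1
    rw [hrb, hbs] at hc
    have hc' : (cnt G (s * r) : ZMod s) = -1 := by linear_combination hc
    refine (three _ (hmne hs) (fun e => neg_ne_zero.2 (one_ne_zero (α := ZMod s))
      (by rw [← hc', e, Nat.cast_zero]))).resolve_right fun e => h2 ?_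
    rw [e, hbs] at hc'
    linear_combination hc'
  have hbq : (cnt G (p * q) : ZMod q) = 1 := by
    rw [mul_comm]; exact (equal_pair hodd h hq hp hpq.symm hdq hdp he.symm).1
  have hpr := hpair p hp hdp hrp.symm rfl hb
  have hqr := hpair q hq hdq hrq.symm he.symm hbq
  have har : (cnt G p : ZMod r) = 0 := by
    have h2 := two_ne_zero_zmod hodd hr hdr
    have hc := (cast_pair hp hr hrp.symm hdp hdr).2
    rw [hpr] at hc
    have hz : (2 : ZMod r) * (cnt G p : ZMod r) = 0 := by linear_combination hc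
    exact (mul_eq_zero.1 hz).resolve_left h2
  have hbr : (cnt G (p * q) : ZMod r) = -1 := by rw [← hrb]; exact neg_one_cast hr hdr
  have hnp : ¬ p ∣ q * r := fun e => by
    rcases hp.dvd_mul.1 e with e | e
    · exact hpq ((Nat.prime_dvd_prime_iff_eq hp hq).1 e)
    · exact hrp ((Nat.prime_dvd_prime_iff_eq hp hr).1 e).symm
  have hnq : ¬ q ∣ r := fun e => hrq ((Nat.prime_dvd_prime_iff_eq hq hr).1 e).symm
  have hd : p * (q * r) ∣ Nat.card G :=
    ((hp.coprime_iff_not_dvd).2 hnp).mul_dvd_of_dvd_of_dvd hdp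
      (((Nat.coprime_primes hq hr).2 hrq.symm).mul_dvd_of_dvd_of_dvd hdq hdr)
  have hsum := frob_dvd (G := G) hd
  rw [sum_prime_mul hp hnp, sum_prime_mul hq hnq, sum_prime_mul hq hnq, sum_prime hr, sum_prime hr,
    sum_prime hr, sum_prime hr, mul_one, mul_one, cnt_one, hqr, hpr, hrb, ← he] at hsum
  have s1 := (ZMod.natCast_eq_zero_iff _ p).2 ((dvd_mul_right p (q * r)).trans hsum)
  have s2 := (ZMod.natCast_eq_zero_iff _ r).2 (((dvd_mul_left r q).trans (dvd_mul_left _ p)).trans hsum)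
  push_cast at s1 s2
  rw [neg_one_cast hp hdp, hb] at s1
  have hf : (cnt G (p * (q * r)) : ZMod p) = 1 := by linear_combination s1
  have hfb : cnt G (p * (q * r)) = cnt G (p * q) := by
    refine (three _ (hmne hp) (fun e => one_ne_zero (α := ZMod p) (by rw [← hf, e, Nat.cast_zero]))).resolve_left
      fun e => two_ne_zero_zmod hodd hp hdp ?_
    rw [e, neg_one_cast hp hdp] at hf
    linear_combination -hf
  rw [har, hfb, hbr] at s2
  exact two_ne_zero_zmod hodd hr hdr (by linear_combination -s2)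

theorem two_primes (hodd : Odd (Nat.card G))
    (h : ((fun m : ℕ => cnt G m) '' Set.range (orderOf : G → ℕ)).ncard = 3)
    {p q : ℕ} (hp : p.Prime) (hq : q.Prime) (hpq : p ≠ q) (hdp : p ∣ Nat.card G) (hdq : q ∣ Nat.card G)
    (honly : ∀ r : ℕ, r.Prime → r ∣ Nat.card G → r = p ∨ r = q) :
    (∀ g : G, g ≠ 1 → orderOf g = p ∨ orderOf g = q) ∧
      ∃ C : Subgroup G, Cfsg.IsFrobeniusComplement C ∧ (Nat.card ↥C).Prime := by
  have hmne : ∀ {a b : ℕ}, a.Prime → a * b ≠ 1 := fun ha e => ha.ne_one (Nat.eq_one_of_mul_eq_one_right e)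
  have hne : cnt G p ≠ cnt G q := fun e => not_all_equal hodd h hp hq hpq hdp hdq fun r hr hdr => by
    rcases honly r hr hdr with rfl | rfl
    · rfl
    · exact e.symm
  have hp0 : cnt G p ≠ 0 := cnt_pos_iff.2 (exists_prime_orderOf_dvd_card' (hp := ⟨hp⟩) p hdp)
  have hq0 : cnt G q ≠ 0 := cnt_pos_iff.2 (exists_prime_orderOf_dvd_card' (hp := ⟨hq⟩) q hdq)
  have hpq0 : cnt G (p * q) = 0 := by
    by_contra h0
    rcases three_values hodd h hp.ne_one hq.ne_one (hmne hp) hp0 hq0 h0 hne with e | e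
    · haveI := Fact.mk hp
      have hc := (cast_pair hp hq hpq hdp hdq).1
      rw [e, neg_one_cast hp hdp] at hc
      have hb : (cnt G q : ZMod p) = 1 := by linear_combination hc
      have := two_mul_le hodd hp hq hpq (by rw [hb]; exact one_ne_zero)
      omega
    · haveI := Fact.mk hq
      have hc := (cast_pair hp hq hpq hdp hdq).2
      rw [e, neg_one_cast hq hdq] at hc
      have hb : (cnt G p : ZMod q) = 1 := by linear_combination hc
      have := two_mul_le hodd hq hp hpq.symm (by rw [hb]; exact one_ne_zero)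
      rw [mul_comm q p] at this
      omega
  have hnc : ∀ x y : G, orderOf x = p → orderOf y = q → ¬ Commute x y := by
    intro x y hx hy hc
    refine cnt_pos_iff.2 ⟨x * y, ?_⟩ hpq0
    rw [hc.orderOf_mul_eq_mul_orderOf_of_coprime (by rw [hx, hy]; exact (Nat.coprime_primes hp hq).2 hpq), hx, hy]
  have hsq : ∀ {a b : ℕ}, a.Prime → b.Prime → a ≠ b → a ∣ Nat.card G → b ∣ Nat.card G →
      cnt G a ≠ cnt G b → (∀ x y : G, orderOf x = a → orderOf y = b → ¬ Commute x y) → cnt G (a ^ 2) = 0 := by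
    intro a b ha hb hab hda hdb hne hnc
    by_contra h0
    haveI := Fact.mk ha
    haveI := Fact.mk hb
    obtain ⟨g, hg⟩ := cnt_pos_iff.1 h0
    have hz := sq_cast ha (hg ▸ orderOf_dvd_natCard g)
    rcases three_values hodd h ha.ne_one hb.ne_one (fun e => ha.ne_one (by simpa using e))
      (cnt_pos_iff.2 (exists_prime_orderOf_dvd_card' a hda))
      (cnt_pos_iff.2 (exists_prime_orderOf_dvd_card' b hdb)) h0 hne with e | e
    · rw [e, neg_one_cast ha hda] at hz; exact neg_ne_zero.2 one_ne_zero hz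
    · obtain ⟨z, hz⟩ := exists_prime_orderOf_dvd_card' b hdb
      obtain ⟨y, hy, hc⟩ := exists_commute (m := a ^ 2) hb hz (by
        rw [e, neg_one_cast hb hdb]; exact neg_ne_zero.2 one_ne_zero)
      refine hnc (y ^ a) z ?_ hz (hc.symm.pow_left a)
      rw [orderOf_pow' y ha.ne_zero, hy, Nat.gcd_eq_right (dvd_pow_self a two_ne_zero), pow_two,
        Nat.mul_div_cancel _ ha.pos]
  have hp2 := hsq hp hq hpq hdp hdq hne hnc
  have hq2 := hsq hq hp hpq.symm hdq hdp hne.symm (fun x y hx hy hc => hnc y x hy hx hc.symm)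
  have horder : ∀ g : G, g ≠ 1 → orderOf g = p ∨ orderOf g = q := by
    intro g hg
    have key : ∀ {a b : ℕ}, a.Prime → (∀ r : ℕ, r.Prime → r ∣ Nat.card G → r = a ∨ r = b) →
        cnt G (a ^ 2) = 0 → ¬ b ∣ orderOf g → orderOf g = a := by
      intro a b ha honly hno hb
      have hk := Nat.eq_prime_pow_of_unique_prime_dvd (p := a) (orderOf_pos g).ne' (fun {d} hd hdg =>
        (honly d hd (hdg.trans (orderOf_dvd_natCard g))).resolve_right fun e => hb (e ▸ hdg))
      haveI := Fact.mk ha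
      exact orderOf_eq_prime (exponent_of ha hno hk) hg
    by_cases h1 : q ∣ orderOf g
    · by_cases h2 : p ∣ orderOf g
      · exfalso
        obtain ⟨t, ht⟩ := ((Nat.coprime_primes hp hq).2 hpq).mul_dvd_of_dvd_of_dvd h2 h1
        have ht0 : t ≠ 0 := fun e => (orderOf_pos g).ne' (by rw [ht, e, mul_zero])
        refine cnt_pos_iff.2 ⟨g ^ t, ?_⟩ hpq0
        rw [orderOf_pow' g ht0, ht, Nat.gcd_eq_right (dvd_mul_left t (p * q)),
          Nat.mul_div_cancel _ (Nat.pos_of_ne_zero ht0)]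
      · exact Or.inr (key hq (fun r hr hd => (honly r hr hd).symm) hq2 h2)
    · exact Or.inl (key hp honly hp2 h1)
  refine ⟨horder, ?_⟩
  haveI := CfsgLib.CharBasics.isSolvable_two_primes (G := G) p q honly
  haveI : Nontrivial G := Finite.one_lt_card_iff_nontrivial.1
    (lt_of_lt_of_le hp.one_lt (Nat.le_of_dvd Nat.card_pos hdp))
  obtain ⟨V, hVn, hVc, hVne⟩ := exists_normal_abelian (G := G)
  obtain ⟨v, hv, hv1⟩ := V.bot_or_exists_ne_one.resolve_left hVne
  have hcomm : ∀ w ∈ V, Commute v w := fun w hw =>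
    congrArg Subtype.val (hVc.is_comm.comm (⟨v, hv⟩ : V) ⟨w, hw⟩)
  rcases horder v hv1 with hvo | hvo
  · exact complement_aux hodd hp hq hpq hdq horder hnc V
      (fun w hw hw1 => (horder w hw1).resolve_right fun e => hnc v w hvo e (hcomm w hw)) hVne
  · exact complement_aux hodd hq hp hpq.symm hdp (fun g hg => (horder g hg).symm)
      (fun x y hx hy hc => hnc y x hy hx hc.symm) V
      (fun w hw hw1 => (horder w hw1).resolve_left fun e => hnc w v e hvo (hcomm w hw).symm) hVne

end TwoPrimes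


/-- Let G be a finite group of odd order in which the numbers of elements of each order that occurs (the numbers #{g : o(g) = m}, m ranging over the element orders of G) take exactly three different values. Then the order of G has at most two prime divisors; and if it has exactly two, then every Sylow subgroup of G for a prime dividing its order has prime exponent, G is a Frobenius group, and some Frobenius complement of G has prime order. -/
theorem result {G : Type*} [Group G] [Finite G] (hodd : Odd (Nat.card G)) (h : (((fun m : ℕ => Nat.card {g : G // orderOf g = m}) '' Set.range (orderOf : G → ℕ))).ncard = 3) :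
    (Nat.card G).primeFactors.card ≤ 2 ∧
      ((Nat.card G).primeFactors.card = 2 →
        (∀ (p : ℕ) [Fact p.Prime] (P : Sylow p G), p ∣ Nat.card G → Monoid.exponent ↥(P : Subgroup G) = p) ∧
        ∃ C : Subgroup G, Cfsg.IsFrobeniusComplement C ∧ (Nat.card ↥C).Prime) := by
  have h' : ((fun m : ℕ => cnt G m) '' Set.range (orderOf : G → ℕ)).ncard = 3 := h
  have hmem : ∀ r, r ∈ (Nat.card G).primeFactors ↔ r.Prime ∧ r ∣ Nat.card G := fun r => by
    rw [Nat.mem_primeFactors_of_ne_zero Nat.card_pos.ne']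
  refine ⟨?_, fun h2 => ?_⟩
  · by_contra hc
    push Not at hc
    obtain ⟨p, q, r, hp, hq, hr, hpq, hpr, hqr⟩ := Finset.two_lt_card_iff.1 hc
    obtain ⟨hp, hdp⟩ := (hmem p).1 hp
    obtain ⟨hq, hdq⟩ := (hmem q).1 hq
    obtain ⟨hr, hdr⟩ := (hmem r).1 hr
    by_cases he : cnt G p = cnt G q
    · exact three_primes_false hodd h' hp hq hpq hdp hdq he
    rcases three_values hodd h' hp.ne_one hq.ne_one hr.ne_one
      (cnt_pos_iff.2 (exists_prime_orderOf_dvd_card' (hp := ⟨hp⟩) p hdp))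
      (cnt_pos_iff.2 (exists_prime_orderOf_dvd_card' (hp := ⟨hq⟩) q hdq))
      (cnt_pos_iff.2 (exists_prime_orderOf_dvd_card' (hp := ⟨hr⟩) r hdr)) he with e | e
    · exact three_primes_false hodd h' hp hr hpr hdp hdr e.symm
    · exact three_primes_false hodd h' hq hr hqr hdq hdr e.symm
  · obtain ⟨p, q, hpq, hset⟩ := Finset.card_eq_two.1 h2
    obtain ⟨hp, hdp⟩ := (hmem p).1 (by rw [hset]; simp)
    obtain ⟨hq, hdq⟩ := (hmem q).1 (by rw [hset]; simp)
    have honly : ∀ r : ℕ, r.Prime → r ∣ Nat.card G → r = p ∨ r = q := fun r hr hd => by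
      simpa [hset] using (hmem r).2 ⟨hr, hd⟩
    obtain ⟨horder, hC⟩ := two_primes hodd h' hp hq hpq hdp hdq honly
    refine ⟨fun r _ P hr => ?_, hC⟩
    have hrp : r.Prime := Fact.out
    refine ((Nat.dvd_prime hrp).1 (Monoid.exponent_dvd_iff_forall_pow_eq_one.2 fun x => ?_)).resolve_left ?_
    · by_cases hx : x = 1
      · rw [hx, one_pow]
      refine Subtype.ext ?_
      rw [Subgroup.coe_pow, Subgroup.coe_one]
      obtain ⟨k, hk⟩ := IsPGroup.iff_orderOf.1 P.isPGroup' x
      rw [← Subgroup.orderOf_coe] at hk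
      have hpr : (orderOf (x : G)).Prime := by
        rcases horder x (fun e => hx (Subtype.ext e)) with e | e <;> rw [e] <;> assumption
      exact orderOf_dvd_iff_pow_eq_one.1
        (((Nat.prime_dvd_prime_iff_eq hpr hrp).1 (hpr.dvd_of_dvd_pow (dvd_of_eq hk))).symm ▸ dvd_rfl)
    · rw [Monoid.exp_eq_one_iff]
      intro hs
      have := P.dvd_card_of_dvd_card hr
      rw [Nat.card_eq_one_iff_unique.2 ⟨hs, One.instNonempty⟩] at this
      exact hrp.ne_one (Nat.dvd_one.1 this)

end Cfsg.Agent.S4004
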