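import Cfsg.Statements.S3996
import Cfsg.Agent.S4004
import Cfsg.Agent.S0144
import Cfsg.Agent.NseSmall.Counts
-- import your own Cfsg.Agent.* helpers here

set_option autoImplicit false
open Cfsg

namespace Cfsg.Agent.S3996

open Cfsg.Agent.S4004

variable {G : Type*} [Group G] [Finite G]

theorem totient_dvd (m : ℕ) : m.totient ∣ cnt G m := CfsgLib.NseSmall.totient_dvd_cnt m

theorem cnt_prime_ne_zero {p : ℕ} (hp : p.Prime) (hd : p ∣ Nat.card G) : cnt G p ≠ 0 :=
  cnt_pos_iff.2 (exists_prime_orderOf_dvd_card' (hp := ⟨hp⟩) p hd)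

/-- The value set. -/
def Vals (G : Type*) [Group G] : Set ℕ := (fun m : ℕ => cnt G m) '' Set.range (orderOf : G → ℕ)

theorem mem_vals {m : ℕ} (hm : cnt G m ≠ 0) : cnt G m ∈ Vals G := ⟨m, cnt_pos_iff.1 hm, rfl⟩

theorem one_mem_vals : 1 ∈ Vals G := ⟨1, ⟨1, orderOf_one⟩, cnt_one⟩

theorem even_cnt {m : ℕ} (hm : 2 < m) : Even (cnt G m) :=
  (even_iff_two_dvd.1 (Nat.totient_even hm) |>.trans (totient_dvd m)) |> even_iff_two_dvd.2

theorem dich (h : (Vals G).ncard = 3) {v w t : ℕ} (hv : v ∈ Vals G) (hw : w ∈ Vals G) (ht : t ∈ Vals G)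
    (hv1 : v ≠ 1) (hw1 : w ≠ 1) (ht1 : t ≠ 1) (hvw : v ≠ w) : t = v ∨ t = w := by
  classical
  by_contra hc
  push Not at hc
  have hsub : (({1, v, w, t} : Finset ℕ) : Set ℕ) ⊆ Vals G := by
    intro a ha
    simp only [Finset.coe_insert, Finset.coe_singleton, Set.mem_insert_iff, Set.mem_singleton_iff] at ha
    rcases ha with rfl | rfl | rfl | rfl
    · exact one_mem_vals
    · exact hv
    · exact hw
    · exact ht
  have hle := Set.ncard_le_ncard hsub ((Set.finite_range _).image _)
  rw [Set.ncard_coe_finset, h, Finset.card_insert_of_notMem (by simp [hv1.symm, hw1.symm, ht1.symm]),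
    Finset.card_insert_of_notMem (by simp [hvw, hc.1.symm]), Finset.card_pair hc.2.symm] at hle
  omega

/-- Twice as many elements of order `p * m` as of order `p`, if every element of order `p` commutes with one
of order `m`. -/
theorem two_mul_le' {p m : ℕ} (hp : p.Prime) (hpm : ¬ p ∣ m) (hm : 2 < m)
    (h : (cnt G m : ZMod p) ≠ 0) : 2 * cnt G p ≤ cnt G (p * m) := by
  classical
  have hcop : p.Coprime m := hp.coprime_iff_not_dvd.2 hpm
  choose y hy hc using fun x : {g : G // orderOf g = p} => exists_commute (m := m) hp x.2 h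
  have hne : ∀ x, (y x)⁻¹ ≠ y x := by
    intro x e
    have h2 : y x ^ 2 = 1 := by rw [pow_two]; nth_rewrite 1 [← e]; exact inv_mul_cancel (y x)
    have := Nat.le_of_dvd two_pos (orderOf_dvd_of_pow_eq_one h2)
    rw [hy x] at this; omega
  let w : {g : G // orderOf g = p} × Bool → G := fun u => if u.2 then y u.1 else (y u.1)⁻¹
  have hwo : ∀ u, orderOf (w u) = m := by
    rintro ⟨x, b⟩; cases b <;> simp [w, hy]
  have hwc : ∀ u, Commute (u.1 : G) (w u) := by
    rintro ⟨x, b⟩
    cases b
    · simpa [w] using (hc x).inv_right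
    · simpa [w] using hc x
  let Φ : {g : G // orderOf g = p} × Bool → {g : G // orderOf g = p * m} := fun u =>
    ⟨u.1 * w u, by
      rw [(hwc u).orderOf_mul_eq_mul_orderOf_of_coprime (by rw [u.1.2, hwo]; exact hcop), u.1.2, hwo]⟩
  obtain ⟨s, -, hs⟩ := Nat.exists_mul_mod_eq_one_of_coprime hcop.symm hp.one_lt
  have hinj : Function.Injective Φ := by
    intro u v he
    have he1 : (u.1 : G) * w u = v.1 * w v := congrArg Subtype.val he
    have key : ∀ u : {g : G // orderOf g = p} × Bool, ((u.1 : G) * w u) ^ (m * s) = u.1 := by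
      intro u
      have ew : (w u) ^ (m * s) = 1 := by rw [pow_mul, ← hwo u, pow_orderOf_eq_one, one_pow]
      rw [(hwc u).mul_pow, ew, mul_one, ← pow_mod_orderOf, u.1.2, hs, pow_one]
    have h1 : u.1 = v.1 := Subtype.ext (by rw [← key u, he1, key v])
    obtain ⟨x, b⟩ := u
    obtain ⟨x', b'⟩ := v
    cases h1
    have h2 : w (x, b) = w (x, b') := mul_left_cancel he1
    cases b <;> cases b'
    · rfl
    · exact absurd (by simpa [w] using h2) (hne x)
    · exact absurd (by simpa [w] using h2.symm) (hne x)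
    · rfl
  have := Nat.card_le_card_of_injective Φ hinj
  rw [Nat.card_prod, Nat.card_eq_fintype_card (α := Bool), Fintype.card_bool] at this
  unfold cnt; omega

theorem two_ne_zero' {p : ℕ} (hp : p.Prime) (h2 : p ≠ 2) : (2 : ZMod p) ≠ 0 := by
  intro h
  have h3 : ((2 : ℕ) : ZMod p) = 0 := by exact_mod_cast h
  exact h2 ((Nat.prime_dvd_prime_iff_eq hp Nat.prime_two).1 ((ZMod.natCast_eq_zero_iff _ p).1 h3))

/-- Two odd primes are impossible if all elements of odd order have one count. -/
theorem no_pair {p q : ℕ} (hp : p.Prime) (hq : q.Prime) (hpq : p ≠ q) (hp2 : p ≠ 2)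
    (hdp : p ∣ Nat.card G) (hdq : q ∣ Nat.card G) {b : ℕ} (hb : cnt G p = b) (hb' : cnt G q = b)
    (hb'' : cnt G (p * q) ≠ 0 → cnt G (p * q) = b) : False := by
  haveI := Fact.mk hp
  have hA := neg_one_cast hp hdp
  have hc := (cast_pair hp hq hpq hdp hdq).1
  rw [hb] at hA
  rw [hb', hA] at hc
  rcases eq_or_ne (cnt G (p * q)) 0 with e | e
  · rw [e, Nat.cast_zero, add_zero] at hc; exact neg_ne_zero.2 one_ne_zero hc
  · rw [hb'' e, hA] at hc
    exact two_ne_zero' hp hp2 (by linear_combination -hc)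

/-- A unique involution is central. -/
theorem exists_central (hs2 : cnt G 2 = 1) : ∃ z : G, orderOf z = 2 ∧ (∀ g : G, orderOf g = 2 → g = z) ∧
    ∀ g : G, Commute g z := by
  obtain ⟨z, hz⟩ := cnt_pos_iff.1 (show cnt G 2 ≠ 0 by omega)
  have huniq : ∀ g : G, orderOf g = 2 → g = z := fun g hg => by
    have h1 : Nat.card {g : G // orderOf g = 2} = 1 := hs2
    obtain ⟨hsub, -⟩ := Nat.card_eq_one_iff_unique.1 h1
    exact congrArg Subtype.val (hsub.elim ⟨g, hg⟩ ⟨z, hz⟩)
  refine ⟨z, hz, huniq, fun g => ?_⟩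
  have := huniq (g * z * g⁻¹)
    (by rw [show g * z * g⁻¹ = MulAut.conj g z from rfl, MulEquiv.orderOf_eq, hz])
  exact mul_inv_eq_iff_eq_mul.1 this

/-- With one involution, doubling an odd order keeps the count. -/
theorem double (hs2 : cnt G 2 = 1) {r : ℕ} (hr : ¬ 2 ∣ r) : cnt G (r * 2) = cnt G r := by
  obtain ⟨z, hz, huniq, hcz⟩ := exists_central hs2
  have hr0 : r ≠ 0 := fun e => hr (e ▸ dvd_zero 2)
  have hzz : z * z = 1 := by rw [← pow_two, ← hz, pow_orderOf_eq_one]
  have hmul : ∀ g : G, g * z * z = g := fun g => by rw [mul_assoc, hzz, mul_one]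
  have hcop : ∀ d, d ∣ r → d.Coprime 2 := fun d hd =>
    (Nat.prime_two.coprime_iff_not_dvd.2 fun e => hr (e.trans hd)).symm
  refine Nat.card_congr
    { toFun := fun g => ⟨g.1 * z, ?_⟩
      invFun := fun g => ⟨g.1 * z, by
        rw [(hcz g.1).orderOf_mul_eq_mul_orderOf_of_coprime (by rw [g.2, hz]; exact hcop r dvd_rfl), g.2, hz]⟩
      left_inv := fun g => Subtype.ext (hmul g.1)
      right_inv := fun g => Subtype.ext (hmul g.1) }
  have hgr : g.1 ^ r = z := by
    refine huniq _ ?_
    rw [orderOf_pow' _ hr0, g.2, Nat.gcd_eq_right (dvd_mul_right r 2),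
      Nat.mul_div_cancel_left _ (Nat.pos_of_ne_zero hr0)]
  have hzr : z ^ r = z := by
    obtain ⟨k, hk⟩ := Nat.odd_iff.2 (Nat.two_dvd_ne_zero.1 hr)
    rw [hk, pow_succ, pow_mul, pow_two, hzz, one_pow, one_mul]
  have hd : orderOf (g.1 * z) ∣ r := orderOf_dvd_of_pow_eq_one (by rw [(hcz g.1).mul_pow, hgr, hzr, hzz])
  have h2 := ((hcz g.1).mul_left (Commute.refl z)).orderOf_mul_eq_mul_orderOf_of_coprime
    (by rw [hz]; exact hcop _ hd)
  rw [hmul, hz, g.2] at h2
  omega

section Four

variable (h : (Vals G).ncard = 3) (hs2 : cnt G 2 = 1) (h4 : 4 ∣ Nat.card G)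
include hs2 h4

omit h4 in
theorem cnt_four_ne_one : cnt G 4 ≠ 1 := fun e => by
  have := even_cnt (G := G) (m := 4) (by norm_num)
  rw [e] at this; exact absurd this (by decide)

theorem four_facts {p : ℕ} (hp : p.Prime) (hp2 : p ≠ 2) (hdp : p ∣ Nat.card G) :
    cnt G 4 ≠ 0 ∧ ((cnt G 4 : ZMod p) + cnt G (p * 4) = 0) := by
  constructor
  · intro e
    have hd := frob_dvd (G := G) h4
    rw [show (4 : ℕ).divisors = {1, 2, 4} by decide, Finset.sum_insert (by decide),
      Finset.sum_pair (by decide), cnt_one, hs2, e] at hd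
    norm_num at hd
  · have hn : ¬ p ∣ 4 := fun e => hp2 ((Nat.prime_dvd_prime_iff_eq hp Nat.prime_two).1
      (hp.dvd_of_dvd_pow (show p ∣ 2 ^ 2 from e)))
    have hd := frob_dvd (G := G) ((hp.coprime_iff_not_dvd.2 hn).mul_dvd_of_dvd_of_dvd hdp h4)
    rw [sum_prime_mul hp hn, show (4 : ℕ).divisors = {1, 2, 4} by decide] at hd
    simp only [Finset.sum_insert (show (1 : ℕ) ∉ ({2, 4} : Finset ℕ) by decide),
      Finset.sum_pair (show (2 : ℕ) ≠ 4 by decide), cnt_one, hs2, mul_one] at hd
    have h1 := (ZMod.natCast_eq_zero_iff _ p).2 ((dvd_mul_right p 4).trans hd)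
    push_cast at h1
    have hp2' : cnt G (p * 2) = cnt G p :=
      double hs2 fun e => hp2 ((Nat.prime_dvd_prime_iff_eq Nat.prime_two hp).1 e).symm
    rw [hp2', neg_one_cast hp hdp] at h1
    linear_combination h1

include h

/-- Equal counts for two odd primes are impossible. -/
theorem not_equal {p q : ℕ} (hp : p.Prime) (hq : q.Prime) (hpq : p ≠ q) (hp2 : p ≠ 2) (hq2 : q ≠ 2)
    (hdp : p ∣ Nat.card G) (hdq : q ∣ Nat.card G) (he : cnt G p = cnt G q) : False := by
  haveI := Fact.mk hp
  haveI := Fact.mk hq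
  have hA := neg_one_cast hp hdp
  have hB := neg_one_cast hq hdq
  have hp3 : 2 < p := by have := hp.two_le; omega
  have hq3 : 2 < q := by have := hq.two_le; omega
  have hne1 : ∀ m, 2 < m → cnt G m ≠ 1 := fun m hm e => by
    have := even_cnt (G := G) hm
    rw [e] at this; exact absurd this (by decide)
  have h2p := two_ne_zero' hp hp2
  have hpos := cnt_prime_ne_zero hp hdp
  have hqp : (cnt G q : ZMod p) ≠ 0 := by rw [← he, hA]; exact neg_ne_zero.2 one_ne_zero
  have hnpq : ¬ p ∣ q := fun e => hpq ((Nat.prime_dvd_prime_iff_eq hp hq).1 e)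
  have hy := two_mul_le' hp hnpq hq3 hqp
  have hy1 : (cnt G (p * q) : ZMod p) = 1 := by
    have := (cast_pair hp hq hpq hdp hdq).1
    rw [← he, hA] at this
    linear_combination this
  have hy2 : (cnt G (p * q) : ZMod q) = 1 := by
    have := (cast_pair hp hq hpq hdp hdq).2
    rw [he, hB] at this
    linear_combination this
  have three : ∀ m, 2 < m → cnt G m ≠ 0 → cnt G m = cnt G p ∨ cnt G m = cnt G (p * q) := by
    intro m hm hm0
    have hpq2 : 2 < p * q := by nlinarith
    exact dich h (mem_vals hpos) (mem_vals (by omega)) (mem_vals hm0) (hne1 p hp3) (hne1 _ hpq2) (hne1 m hm)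
      (by omega)
  obtain ⟨h40, h4p⟩ := four_facts hs2 h4 hp hp2 hdp
  obtain ⟨-, h4q⟩ := four_facts hs2 h4 hq hq2 hdq
  have hn4p : ¬ p ∣ 4 := fun e => hp2 ((Nat.prime_dvd_prime_iff_eq hp Nat.prime_two).1
    (hp.dvd_of_dvd_pow (show p ∣ 2 ^ 2 from e)))
  have hn4q : ¬ q ∣ 4 := fun e => hq2 ((Nat.prime_dvd_prime_iff_eq hq Nat.prime_two).1
    (hq.dvd_of_dvd_pow (show q ∣ 2 ^ 2 from e)))
  have h4ne : (cnt G 4 : ZMod p) ≠ 0 := by
    rcases three 4 (by norm_num) h40 with e | e <;> rw [e]
    · rw [hA]; exact neg_ne_zero.2 one_ne_zero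
    · rw [hy1]; exact one_ne_zero
  have h4le := two_mul_le' hp hn4p (by norm_num) h4ne
  have hp4 : cnt G (p * 4) = cnt G (p * q) :=
    (three _ (by omega) (by omega)).resolve_left (by omega)
  have h44 : cnt G 4 = cnt G p := by
    refine (three 4 (by norm_num) h40).resolve_right fun e => ?_
    rw [hp4, e, hy1] at h4p
    exact h2p (by linear_combination h4p)
  have hq4 : cnt G (q * 4) = cnt G (p * q) := by
    have h4neq : (cnt G 4 : ZMod q) ≠ 0 := by rw [h44, he, hB]; exact neg_ne_zero.2 one_ne_zero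
    have := two_mul_le' hq hn4q (by norm_num) h4neq
    exact (three _ (by omega) (by omega)).resolve_left (by omega)
  -- elements of order `4 p q`
  have hnq : ¬ q ∣ p * 4 := fun e => (hq.dvd_mul.1 e).elim
    (fun e => hpq ((Nat.prime_dvd_prime_iff_eq hq hp).1 e).symm) hn4q
  have hd4 : p * 4 ∣ Nat.card G := (hp.coprime_iff_not_dvd.2 hn4p).mul_dvd_of_dvd_of_dvd hdp h4
  have hd := frob_dvd (G := G) ((hq.coprime_iff_not_dvd.2 hnq).mul_dvd_of_dvd_of_dvd hdq hd4)
  rw [sum_prime_mul hq hnq, sum_prime_mul hp hn4p, sum_prime_mul hp hn4p,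
    show (4 : ℕ).divisors = {1, 2, 4} by decide] at hd
  simp only [Finset.sum_insert (show (1 : ℕ) ∉ ({2, 4} : Finset ℕ) by decide),
    Finset.sum_pair (show (2 : ℕ) ≠ 4 by decide), mul_one] at hd
  have h1 := (ZMod.natCast_eq_zero_iff _ p).2 (((dvd_mul_right p 4).trans (dvd_mul_left _ q)).trans hd)
  obtain ⟨z, hz⟩ := cnt_pos_iff.1 (show cnt G 2 ≠ 0 by omega)
  have hz2 : ∀ (r : ℕ), ¬ 2 ∣ r → cnt G (r * 2) = cnt G r := fun r hr => double hs2 hr
  have hodd : ¬ 2 ∣ p * q := fun e => (Nat.prime_two.dvd_mul.1 e).elim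
    (fun e => hp2 ((Nat.prime_dvd_prime_iff_eq Nat.prime_two hp).1 e).symm)
    (fun e => hq2 ((Nat.prime_dvd_prime_iff_eq Nat.prime_two hq).1 e).symm)
  rw [cnt_one, hs2, h44, hp4, hz2 p (fun e => hp2 ((Nat.prime_dvd_prime_iff_eq Nat.prime_two hp).1 e).symm),
    hz2 q (fun e => hq2 ((Nat.prime_dvd_prime_iff_eq Nat.prime_two hq).1 e).symm), hq4,
    show q * (p * 2) = q * p * 2 by ring, hz2 _ (by rwa [mul_comm]), show q * p = p * q by ring,
    ← he] at h1
  push_cast at h1
  rw [hA, hy1] at h1
  have hf : (cnt G (q * (p * 4)) : ZMod p) = -1 := by linear_combination h1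
  have hfx : cnt G (q * (p * 4)) = cnt G p := by
    refine (three _ (by nlinarith) (fun e => neg_ne_zero.2 (one_ne_zero (α := ZMod p))
      (by rw [← hf, e, Nat.cast_zero]))).resolve_right fun e => h2p ?_
    rw [e, hy1] at hf
    linear_combination hf
  have hlast := two_mul_le' hq hnq (by omega) (by rw [hp4, hy2]; exact one_ne_zero)
  rw [hfx, ← he] at hlast
  omega

/-- An odd prime with the count of elements of order four is impossible beside a second one. -/
theorem not_four {p q : ℕ} (hp : p.Prime) (hq : q.Prime) (hpq : p ≠ q) (hp2 : p ≠ 2) (hq2 : q ≠ 2)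
    (hdp : p ∣ Nat.card G) (hdq : q ∣ Nat.card G) (hne : cnt G p ≠ cnt G q) (he : cnt G 4 = cnt G p) : False := by
  haveI := Fact.mk hp
  haveI := Fact.mk hq
  have hA := neg_one_cast hp hdp
  have hB := neg_one_cast hq hdq
  have h2p := two_ne_zero' hp hp2
  have hp3 : 2 < p := by have := hp.two_le; omega
  have hq3 : 2 < q := by have := hq.two_le; omega
  have hne1 : ∀ m, 2 < m → cnt G m ≠ 1 := fun m hm e => by
    have := even_cnt (G := G) hm
    rw [e] at this; exact absurd this (by decide)
  have hpos := cnt_prime_ne_zero hp hdp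
  have hqpos := cnt_prime_ne_zero hq hdq
  have three : ∀ m, 2 < m → cnt G m ≠ 0 → cnt G m = cnt G p ∨ cnt G m = cnt G q := fun m hm hm0 =>
    dich h (mem_vals hpos) (mem_vals hqpos) (mem_vals hm0) (hne1 p hp3) (hne1 q hq3) (hne1 m hm) hne
  obtain ⟨-, h4p⟩ := four_facts hs2 h4 hp hp2 hdp
  have hn4p : ¬ p ∣ 4 := fun e => hp2 ((Nat.prime_dvd_prime_iff_eq hp Nat.prime_two).1
    (hp.dvd_of_dvd_pow (show p ∣ 2 ^ 2 from e)))
  have h4ne : (cnt G 4 : ZMod p) ≠ 0 := by rw [he, hA]; exact neg_ne_zero.2 one_ne_zero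
  have h4le := two_mul_le' hp hn4p (by norm_num) h4ne
  have hp4 : cnt G (p * 4) = cnt G q := (three _ (by omega) (by omega)).resolve_left (by omega)
  have hy : (cnt G q : ZMod p) = 1 := by
    rw [he, hp4, hA] at h4p
    linear_combination h4p
  have hnpq : ¬ p ∣ q := fun e => hpq ((Nat.prime_dvd_prime_iff_eq hp hq).1 e)
  have hle := two_mul_le' hp hnpq hq3 (by rw [hy]; exact one_ne_zero)
  have hpq' : cnt G (p * q) = cnt G q := (three _ (by nlinarith) (by omega)).resolve_left (by omega)
  have hc := (cast_pair hp hq hpq hdp hdq).1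
  rw [hpq', hy] at hc
  exact h2p (by linear_combination hc)

end Four

theorem solvable_of_few (h : ∀ p q : ℕ, p.Prime → q.Prime → p ≠ q → p ≠ 2 → q ≠ 2 → p ∣ Nat.card G →
    q ∣ Nat.card G → False) : Group.IsSolvable G := by
  by_cases hex : ∃ p : ℕ, p.Prime ∧ p ≠ 2 ∧ p ∣ Nat.card G
  · obtain ⟨p, hp, hp2, hdp⟩ := hex
    refine CfsgLib.CharBasics.isSolvable_two_primes 2 p fun r hr hrd => ?_
    by_contra hc
    push Not at hc
    exact h r p hr hp hc.2 hc.1 hp2 hrd hdp
  · push Not at hex
    refine CfsgLib.CharBasics.isSolvable_two_primes 2 2 fun r hr hrd => Or.inl ?_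
    by_contra hc
    exact hex r hr hc hrd


/-- An odd group with at most three values is solvable. -/
theorem solvable_odd {K : Type*} [Group K] [Finite K] (hodd : Odd (Nat.card K)) (h : (Vals K).ncard = 3) :
    Group.IsSolvable K := by
  classical
  have h2 := (S4004.result hodd h).1
  have hmem : ∀ r, r.Prime → r ∣ Nat.card K → r ∈ (Nat.card K).primeFactors := fun r hr hrd =>
    Nat.mem_primeFactors.2 ⟨hr, hrd, Nat.card_pos.ne'⟩
  rcases (Nat.card K).primeFactors.eq_empty_or_nonempty with he | ⟨a, ha⟩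
  · exact CfsgLib.CharBasics.isSolvable_two_primes 2 2 fun r hr hrd => by
      have := hmem r hr hrd
      rw [he] at this
      simp at this
  · rcases ((Nat.card K).primeFactors.erase a).eq_empty_or_nonempty with he | ⟨b, hb⟩
    · refine CfsgLib.CharBasics.isSolvable_two_primes a a fun r hr hrd => Or.inl ?_
      by_contra hc
      have := Finset.mem_erase.2 ⟨hc, hmem r hr hrd⟩
      rw [he] at this
      simp at this
    · refine CfsgLib.CharBasics.isSolvable_two_primes a b fun r hr hrd => ?_
      by_contra hc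
      push Not at hc
      have hsub : ({a, b, r} : Finset ℕ) ⊆ (Nat.card K).primeFactors := by
        intro x hx
        simp only [Finset.mem_insert, Finset.mem_singleton] at hx
        rcases hx with rfl | rfl | rfl
        · exact ha
        · exact Finset.mem_of_mem_erase hb
        · exact hmem _ hr hrd
      have := Finset.card_le_card hsub
      rw [Finset.card_insert_of_notMem (by simp [(Finset.ne_of_mem_erase hb).symm, hc.1.symm]),
        Finset.card_pair hc.2.symm] at this
      omega

/-- A finite group in which the numbers of elements of each order that occurs (the numbers #{g : o(g) = m}, m ranging over the element orders) take exactly three different values is solvable. -/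
theorem result {G : Type*} [Group G] [Finite G] (h : (((fun m : ℕ => Nat.card {g : G // orderOf g = m}) '' Set.range (orderOf : G → ℕ))).ncard = 3) : Group.IsSolvable G := by
  classical
  have h' : (Vals G).ncard = 3 := h
  rcases Nat.even_or_odd (Nat.card G) with heven | hodd
  swap
  · exact solvable_odd hodd h'
  have h2d : 2 ∣ Nat.card G := even_iff_two_dvd.1 heven
  haveI : Fact (Nat.Prime 2) := ⟨Nat.prime_two⟩
  have hne1 : ∀ m, 2 < m → cnt G m ≠ 1 := fun m hm e => by
    have := even_cnt (G := G) hm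
    rw [e] at this; exact absurd this (by decide)
  by_cases hs2 : cnt G 2 = 1
  · by_cases h4 : 4 ∣ Nat.card G
    · refine solvable_of_few fun p q hp hq hpq hp2 hq2 hdp hdq => ?_
      rcases eq_or_ne (cnt G p) (cnt G q) with e | e
      · exact not_equal h' hs2 h4 hp hq hpq hp2 hq2 hdp hdq e
      · have hp3 : 2 < p := by have := hp.two_le; omega
        have hq3 : 2 < q := by have := hq.two_le; omega
        rcases dich h' (mem_vals (cnt_prime_ne_zero hp hdp)) (mem_vals (cnt_prime_ne_zero hq hdq))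
            (mem_vals (four_facts hs2 h4 hp hp2 hdp).1) (hne1 p hp3) (hne1 q hq3) (hne1 4 (by norm_num)) e
          with e4 | e4
        · exact not_four h' hs2 h4 hp hq hpq hp2 hq2 hdp hdq e e4
        · exact not_four h' hs2 h4 hq hp hpq.symm hq2 hp2 hdq hdp e.symm e4
    · -- a normal complement of the subgroup of order two
      obtain ⟨z, hz, huniq, hcz⟩ := exists_central hs2
      let P : Sylow 2 G := default
      have hc2 : Nat.card (P : Subgroup G) = 2 := by
        rw [P.card_eq_multiplicity]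
        have hf : (Nat.card G).factorization 2 = 1 := by
          refine le_antisymm ?_ (Nat.Prime.factorization_pos_of_dvd Nat.prime_two Nat.card_pos.ne' h2d)
          by_contra hc
          exact h4 ((pow_dvd_pow 2 (show 2 ≤ (Nat.card G).factorization 2 by omega)).trans
            (Nat.ordProj_dvd _ 2))
        rw [hf, pow_one]
      have hP : (Subgroup.normalizer ((P : Subgroup G) : Set G)) ≤ Subgroup.centralizer ((P : Subgroup G) : Set G) := by
        intro g _
        rw [Subgroup.mem_centralizer_iff]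
        intro x hx
        rcases eq_or_ne x 1 with rfl | hx1
        · simp
        · have : orderOf x = 2 := by
            have hd := Subgroup.orderOf_dvd_natCard (P : Subgroup G) hx
            rw [hc2] at hd
            exact ((Nat.dvd_prime Nat.prime_two).1 hd).resolve_left fun e => hx1 (orderOf_eq_one_iff.1 e)
          rw [huniq x this]
          exact (hcz g).eq.symm
      have hK := MonoidHom.ker_transferSylow_isComplement' P hP
      set K := (MonoidHom.transferSylow P hP).ker
      haveI : K.Normal := MonoidHom.normal_ker _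
      have hKc : Nat.card K * Nat.card (P : Subgroup G) = Nat.card G := hK.card_mul
      have hnd : ¬ 2 ∣ Nat.card K := by
        intro e
        exact h4 (hKc ▸ Nat.mul_dvd_mul e (P.dvd_card_of_dvd_card h2d))
      have hoddK : Odd (Nat.card K) := Nat.odd_iff.2 (Nat.two_dvd_ne_zero.1 hnd)
      have hmemK : ∀ g : G, ¬ 2 ∣ orderOf g → g ∈ K := by
        intro g hg
        have h1 : orderOf (MonoidHom.transferSylow P hP g) ∣ orderOf g := orderOf_map_dvd _ g
        have h2 := orderOf_dvd_natCard (MonoidHom.transferSylow P hP g)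
        rw [hc2] at h2
        rw [MonoidHom.mem_ker, ← orderOf_eq_one_iff]
        exact ((Nat.dvd_prime Nat.prime_two).1 h2).resolve_right fun e => hg (e ▸ h1)
      have hoddord : ∀ k : K, ¬ 2 ∣ orderOf k := fun k e => hnd (e.trans (orderOf_dvd_natCard k))
      have hcnt : ∀ m, ¬ 2 ∣ m → cnt K m = cnt G m := by
        intro m hm
        exact Nat.card_congr
          { toFun := fun k => ⟨(k.1 : G), by rw [Subgroup.orderOf_coe]; exact k.2⟩
            invFun := fun g => ⟨⟨g.1, hmemK g.1 (by rw [g.2]; exact hm)⟩, by rw [Subgroup.orderOf_mk]; exact g.2⟩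
            left_inv := fun k => rfl
            right_inv := fun g => rfl }
      have hsubV : Vals K ⊆ Vals G := by
        rintro v ⟨m, ⟨k, rfl⟩, rfl⟩
        exact ⟨orderOf k, ⟨(k : G), Subgroup.orderOf_coe k⟩, (hcnt _ (hoddord k)).symm⟩
      have hle : (Vals K).ncard ≤ 3 := h' ▸ Set.ncard_le_ncard hsubV ((Set.finite_range _).image _)
      rcases hle.lt_or_eq with hlt | he3
      · refine solvable_of_few fun p q hp hq hpq hp2 hq2 hdp hdq => ?_
        have hodd' : ∀ r, r.Prime → r ≠ 2 → ¬ 2 ∣ r := fun r hr hr2 e =>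
          hr2 ((Nat.prime_dvd_prime_iff_eq Nat.prime_two hr).1 e).symm
        have hpos : ∀ m, ¬ 2 ∣ m → m ≠ 1 → cnt G m ≠ 0 → cnt G m = cnt G p := by
          intro m hm hm1 hm0
          by_contra hne
          have hmem : ∀ m, ¬ 2 ∣ m → cnt G m ≠ 0 → cnt G m ∈ Vals K := fun m hm hm0 => by
            rw [← hcnt m hm] at hm0 ⊢
            exact mem_vals hm0
          have h1 : ∀ m, ¬ 2 ∣ m → m ≠ 1 → cnt G m ≠ 1 := fun m hm hm1 => hne1 m (by
            rcases m with _ | _ | _ | m
            · exact absurd (dvd_zero 2) hm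
            · exact absurd rfl hm1
            · exact absurd (dvd_refl 2) hm
            · omega)
          have hsub : (({1, cnt G m, cnt G p} : Finset ℕ) : Set ℕ) ⊆ Vals K := by
            intro a ha
            simp only [Finset.coe_insert, Finset.coe_singleton, Set.mem_insert_iff, Set.mem_singleton_iff] at ha
            rcases ha with rfl | rfl | rfl
            · exact one_mem_vals
            · exact hmem m hm hm0
            · exact hmem p (hodd' p hp hp2) (cnt_prime_ne_zero hp hdp)
          have := Set.ncard_le_ncard hsub ((Set.finite_range _).image _)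
          rw [Set.ncard_coe_finset, Finset.card_insert_of_notMem
            (by simp [(h1 m hm hm1).symm, (h1 p (hodd' p hp hp2) hp.one_lt.ne').symm]),
            Finset.card_pair hne] at this
          omega
        refine no_pair hp hq hpq hp2 hdp hdq rfl (hpos q (hodd' q hq hq2) hq.one_lt.ne'
          (cnt_prime_ne_zero hq hdq)) fun hne => hpos _ ?_ ?_ hne
        · exact fun e => (Nat.prime_two.dvd_mul.1 e).elim (hodd' p hp hp2) (hodd' q hq hq2)
        · have := hp.two_le; have := hq.two_le; nlinarith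
      · haveI : Group.IsSolvable K := solvable_odd hoddK he3
        haveI : Group.IsSolvable (P : Subgroup G) :=
          CfsgLib.CharBasics.isSolvable_two_primes 2 2 fun r hr hrd => Or.inl (by
            rw [hc2] at hrd
            exact (Nat.prime_dvd_prime_iff_eq hr Nat.prime_two).1 hrd)
        exact solvable_of_ker_le_range K.subtype (MonoidHom.transferSylow P hP)
          (by rw [Subgroup.range_subtype])
  · refine solvable_of_few fun p q hp hq hpq hp2 hq2 hdp hdq => ?_
    have hp3 : 2 < p := by have := hp.two_le; omega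
    have hq3 : 2 < q := by have := hq.two_le; omega
    have h2odd : Odd (cnt G 2) := by
      have := neg_one_cast (G := G) Nat.prime_two h2d
      rw [ZMod.neg_eq_self_mod_two] at this
      rw [← ZMod.natCast_eq_one_iff_odd]
      exact this
    have hne2 : ∀ m, 2 < m → cnt G m ≠ cnt G 2 := fun m hm e =>
      Nat.not_even_iff_odd.2 h2odd (e ▸ even_cnt hm)
    have hall : ∀ m, 2 < m → cnt G m ≠ 0 → cnt G m = cnt G p := fun m hm hm0 =>
      (dich h' (mem_vals (cnt_prime_ne_zero Nat.prime_two h2d)) (mem_vals (cnt_prime_ne_zero hp hdp))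
        (mem_vals hm0) hs2 (hne1 p hp3) (hne1 m hm) (hne2 p hp3).symm).resolve_left (hne2 m hm)
    exact no_pair hp hq hpq hp2 hdp hdq rfl (hall q hq3 (cnt_prime_ne_zero hq hdq))
      fun hne => hall _ (by nlinarith) hne

end Cfsg.Agent.S3996
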