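import Cfsg.Statements.S3997
import Cfsg.Agent.OrderType.Tower
import Mathlib.GroupTheory.Nilpotent

set_option autoImplicit false
open Cfsg

namespace Cfsg.Agent.S3997

/-- Let G and H be finite groups with the same order type: for every m they have the same number of elements of order m. If G is nilpotent then so is H. -/
theorem result {G H : Type*} [Group G] [Finite G] [Group H] [Finite H] (hT : (∀ m : ℕ, Nat.card {g : G // orderOf g = m} = Nat.card {h : H // orderOf h = m})) (hG : Group.IsNilpotent G) :
    Group.IsNilpotent H := by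
  obtain ⟨e, he⟩ := CfsgLib.OrderType.exists_equiv_orderOf hT
  refine (Group.isNilpotent_of_finite_tfae.out 0 3 rfl rfl).2 ?_
  intro q _ Q
  obtain ⟨R⟩ : Nonempty (Sylow q G) := inferInstance
  have hRn : (R : Subgroup G).Normal := (Group.isNilpotent_of_finite_tfae.out 0 3 rfl rfl).1 hG q ‹_› R
  have hcard : Nat.card (R : Subgroup G) = Nat.card (Q : Subgroup H) := by
    rw [R.card_eq_multiplicity, Q.card_eq_multiplicity, Nat.card_congr e]
  have hRmem : ∀ g : G, (∃ k, orderOf g = q ^ k) → g ∈ (R : Subgroup G) := fun g ⟨k, hk⟩ => by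
    obtain ⟨S, hS⟩ := (IsPGroup.of_card (n := k) (by rw [Nat.card_zpowers, hk]) :
      IsPGroup q (Subgroup.zpowers g)).exists_le_sylow
    have := Sylow.unique_of_normal R hRn
    exact Subsingleton.elim R S ▸ hS (Subgroup.mem_zpowers g)
  have hinv : ∀ x : (Q : Subgroup H), e.symm (x : H) ∈ (R : Subgroup G) := fun x => by
    refine hRmem _ ?_
    rw [← he (e.symm x), e.apply_symm_apply, Subgroup.orderOf_coe]
    exact IsPGroup.iff_orderOf.1 Q.2 x
  let f : ↥(Q : Subgroup H) → ↥(R : Subgroup G) := fun x => ⟨e.symm x, hinv x⟩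
  have hf : Function.Bijective f := (Nat.bijective_iff_injective_and_card f).2
    ⟨fun x y h => Subtype.ext (e.symm.injective (congrArg Subtype.val h)), hcard.symm⟩
  refine ⟨fun x hx c => ?_⟩
  have hmem : e.symm (c * x * c⁻¹) ∈ (R : Subgroup G) := by
    refine hRmem _ ?_
    rw [← he (e.symm _), e.apply_symm_apply]
    change ∃ k, orderOf (MulAut.conj c x) = q ^ k
    rw [show orderOf (MulAut.conj c x) = orderOf x from
      orderOf_injective (MulAut.conj c).toMonoidHom (MulAut.conj c).injective x,
      show x = ((⟨x, hx⟩ : (Q : Subgroup H)) : H) from rfl, Subgroup.orderOf_coe]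
    exact IsPGroup.iff_orderOf.1 Q.2 _
  obtain ⟨y, hy⟩ := hf.2 ⟨_, hmem⟩
  have := e.symm.injective (congrArg Subtype.val hy)
  exact this ▸ y.2

end Cfsg.Agent.S3997
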