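import Cfsg.Statements.S3998
import Cfsg.Agent.OrderType.Tower

set_option autoImplicit false
open Cfsg

namespace Cfsg.Agent.S3998

/-- Let G and H be finite groups with the same order type (for every m the same number of elements of order m). If G is supersolvable then H is solvable. -/
theorem result {G H : Type*} [Group G] [Finite G] [Group H] [Finite H] (hT : (∀ m : ℕ, Nat.card {g : G // orderOf g = m} = Nat.card {h : H // orderOf h = m})) (hG : Cfsg.IsSupersolvable G) :
    Group.IsSolvable H := by
  obtain ⟨e, he⟩ := CfsgLib.OrderType.exists_equiv_orderOf hT
  exact CfsgLib.OrderType.isSolvable_of_countTower _ H rfl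
    (CfsgLib.OrderType.countTower_congr e he (CfsgLib.OrderType.countTower_of_supersolvable hG))

end Cfsg.Agent.S3998
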