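import Cfsg.Statements.S3999
import Cfsg.Agent.FrobOrder.Basic
import Cfsg.Agent.FrobOrder.Solv
import Cfsg.Agent.OrderType.Tower

set_option autoImplicit false
open Cfsg

namespace Cfsg.Agent.S3999

/-- Let F be a finite Frobenius group (it has a Frobenius complement) and G a finite group with the same order type as F (for every m the same number of elements of order m). Then G is a Frobenius group; moreover G is solvable if and only if F is. -/
theorem result {F G : Type*} [Group F] [Finite F] [Group G] [Finite G] (hF : (∃ C : Subgroup F, Cfsg.IsFrobeniusComplement C)) (hT : (∀ m : ℕ, Nat.card {g : F // orderOf g = m} = Nat.card {h : G // orderOf h = m})) :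
    (∃ C : Subgroup G, Cfsg.IsFrobeniusComplement C) ∧ (Group.IsSolvable G ↔ Group.IsSolvable F) := by
  obtain ⟨H, hH⟩ := hF
  obtain ⟨e, he⟩ := CfsgLib.OrderType.exists_equiv_orderOf hT
  obtain ⟨C, hC, hCH⟩ := CfsgLib.FrobOrder.exists_complement_of_equiv hH e he
  refine ⟨⟨C, hC⟩, ?_⟩
  rw [CfsgLib.FrobOrder.isSolvable_iff hC, CfsgLib.FrobOrder.isSolvable_iff hH]
  have hidx : C.index = H.index := by
    have h1 := C.index_mul_card
    rw [hCH, ← Nat.card_congr e, ← H.index_mul_card] at h1
    exact Nat.eq_of_mul_eq_mul_right Nat.card_pos h1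
  have hcount : ∀ p : ℕ, p.Prime →
      Nat.card {x : C // orderOf x = p} = Nat.card {y : H // orderOf y = p} := by
    intro p hp
    by_cases hpc : p ∣ Nat.card H
    · have h1 := CfsgLib.FrobOrder.card_orderOf_eq hC (hCH ▸ hpc) hp.ne_one
      rw [← hT p, CfsgLib.FrobOrder.card_orderOf_eq hH hpc hp.ne_one, hidx] at h1
      exact (Nat.eq_of_mul_eq_mul_left (Nat.pos_of_ne_zero Subgroup.index_ne_zero_of_finite) h1).symm
    · haveI : IsEmpty {x : C // orderOf x = p} :=
        ⟨fun x => hpc (hCH ▸ x.2 ▸ orderOf_dvd_natCard x.1)⟩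
      haveI : IsEmpty {y : H // orderOf y = p} :=
        ⟨fun x => hpc (x.2 ▸ orderOf_dvd_natCard x.1)⟩
      rw [Nat.card_of_isEmpty, Nat.card_of_isEmpty]
  constructor
  · intro h
    exact CfsgLib.FrobOrder.isSolvable_of_atMostOne (CfsgLib.Frob.latFpf_of_complement hH)
      (CfsgLib.FrobOrder.atMostOne_congr hcount
        (CfsgLib.FrobOrder.atMostOne_of_isSolvable (CfsgLib.Frob.latFpf_of_complement hC)))
  · intro h
    exact CfsgLib.FrobOrder.isSolvable_of_atMostOne (CfsgLib.Frob.latFpf_of_complement hC)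
      (CfsgLib.FrobOrder.atMostOne_congr (fun p hp => (hcount p hp).symm)
        (CfsgLib.FrobOrder.atMostOne_of_isSolvable (CfsgLib.Frob.latFpf_of_complement hH)))

end Cfsg.Agent.S3999
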