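import Cfsg.Statements.S4002
import Cfsg.Agent.H29.PG.Triangle
import Mathlib
-- import your own Cfsg.Agent.* helpers here

set_option autoImplicit false
open Cfsg

namespace Cfsg.Agent.S4002

/-- If the set of element orders of a finite group G is {1, 2, …, n} with n ≥ 7, then G is not solvable. -/
theorem result {G : Type*} [Group G] [Finite G] (n : ℕ) (hn : 7 ≤ n) (h : Set.range (orderOf : G → ℕ) = {k : ℕ | 1 ≤ k ∧ k ≤ n}) : ¬ Group.IsSolvable G := by
  classical
  intro hsol
  have hprimes : ∃ a b c : ℕ, a.Prime ∧ b.Prime ∧ c.Prime ∧ a < b ∧ b < c ∧ c ≤ n ∧ n < a * b := by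
    rcases Nat.lt_or_ge n 15 with h1 | h1
    · exact ⟨3, 5, 7, by norm_num, by norm_num, by norm_num, by norm_num, by norm_num, hn, by omega⟩
    rcases Nat.lt_or_ge n 35 with h2 | h2
    · exact ⟨5, 7, 11, by norm_num, by norm_num, by norm_num, by norm_num, by norm_num, by omega,
        by omega⟩
    rcases Nat.lt_or_ge n 64 with h3 | h3
    · exact ⟨7, 11, 13, by norm_num, by norm_num, by norm_num, by norm_num, by norm_num, by omega,
        by omega⟩
    obtain ⟨a, ha, ha1, ha2⟩ := Nat.exists_prime_lt_and_le_two_mul (n / 8) (by omega)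
    obtain ⟨b, hb, hb1, hb2⟩ := Nat.exists_prime_lt_and_le_two_mul (2 * (n / 8)) (by omega)
    obtain ⟨c, hc, hc1, hc2⟩ := Nat.exists_prime_lt_and_le_two_mul (4 * (n / 8)) (by omega)
    refine ⟨a, b, c, ha, hb, hc, by omega, by omega, by omega, ?_⟩
    have h4 : (n / 8 + 1) * (2 * (n / 8) + 1) ≤ a * b := Nat.mul_le_mul ha1 hb1
    nlinarith [Nat.div_add_mod n 8, Nat.mod_lt n (show 8 > 0 by norm_num)]
  obtain ⟨a, b, c, ha, hb, hc, hab, hbc, hcn, habn⟩ := hprimes
  have hmem : ∀ r : ℕ, r.Prime → r ≤ n → r ∣ Nat.card G := by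
    intro r hr hrn
    obtain ⟨g, hg⟩ : r ∈ Set.range (orderOf : G → ℕ) := by rw [h]; exact ⟨hr.one_lt.le, hrn⟩
    exact hg ▸ orderOf_dvd_natCard g
  have hbig : ∀ r s : ℕ, a ≤ r → b ≤ s → ¬ ∃ x : G, orderOf x = r * s := by
    rintro r s hr hs ⟨x, hx⟩
    have h5 : r * s ∈ Set.range (orderOf : G → ℕ) := ⟨x, hx⟩
    rw [h] at h5
    have := Nat.mul_le_mul hr hs
    have := h5.2
    omega
  haveI : Group.IsSolvable (⊤ : Subgroup G) :=
    solvable_of_solvable_injective (Subgroup.subtype_injective ⊤)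
  have hρ : ∀ r ∈ ({a, b, c} : Finset ℕ), r.Prime ∧ a ≤ r ∧ r ≤ n ∧ (r = a ∨ b ≤ r) := by
    intro r hr
    simp only [Finset.mem_insert, Finset.mem_singleton] at hr
    rcases hr with rfl | rfl | rfl
    · exact ⟨ha, le_rfl, by omega, Or.inl rfl⟩
    · exact ⟨hb, hab.le, by omega, Or.inr le_rfl⟩
    · exact ⟨hc, by omega, hcn, Or.inr hbc.le⟩
  have := CfsgLib.H29.PG.at_most_one ({a, b, c} : Finset ℕ)
    (by rw [Finset.card_insert_of_notMem (by simp; omega), Finset.card_insert_of_notMem (by simp; omega),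
      Finset.card_singleton])
    (fun r hr => ⟨(hρ r hr).1, hmem r (hρ r hr).1 (hρ r hr).2.2.1⟩)
    (fun r hr s hs hrs => by
      obtain ⟨-, har, -, hr'⟩ := hρ r hr
      obtain ⟨-, has, -, hs'⟩ := hρ s hs
      rcases hs' with rfl | hs'
      · rcases hr' with rfl | hr'
        · exact absurd rfl hrs
        · rw [mul_comm]; exact hbig _ r le_rfl hr'
      · exact hbig r s har hs')
    (⊤ : Subgroup G) (r := a) (s := b) (by simp) (by simp)
    (by rw [Subgroup.card_top]; exact hmem a ha (by omega))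
    (by rw [Subgroup.card_top]; exact hmem b hb (by omega))
  omega

end Cfsg.Agent.S4002
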