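import Cfsg.Statements.S4005
import Cfsg.Agent.CoprimeAction.Invariant
import Cfsg.Agent.CharBasics.Burnside
import Mathlib

set_option autoImplicit false
open Cfsg

namespace Cfsg.Agent.S4005

open scoped commutatorElement

section Aux

variable {G : Type*} [Group G] [Finite G]

/-- Orders of elements in `{1, 2, 3}`. -/
theorem no_commute (hall : ∀ g : G, g = 1 ∨ orderOf g = 2 ∨ orderOf g = 3) {x y : G}
    (hx : orderOf x = 2) (hy : orderOf y = 3) : ¬ Commute x y := fun h => by
  have := h.orderOf_mul_eq_mul_orderOf_of_coprime (by rw [hx, hy]; norm_num)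
  rw [hx, hy] at this
  rcases hall (x * y) with h' | h' | h'
  · rw [h', orderOf_one] at this; omega
  · omega
  · omega

theorem sylow_pow (hall : ∀ g : G, g = 1 ∨ orderOf g = 2 ∨ orderOf g = 3) (p q : ℕ) [Fact p.Prime]
    (hpq : ({p, q} : Set ℕ) = {2, 3}) (P : Sylow p G) {x : G} (hx : x ∈ (P : Subgroup G)) : x ^ p = 1 := by
  have hp : p.Prime := Fact.out
  obtain ⟨k, hk⟩ := IsPGroup.iff_orderOf.1 P.2 ⟨x, hx⟩
  rw [← Subgroup.orderOf_coe] at hk
  rcases hall x with h | h | h
  · rw [h, one_pow]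
  all_goals
    rw [hk] at h
    have : p = orderOf x := by
      rw [hk, h]
      have hk0 : k ≠ 0 := fun h0 => by rw [h0, pow_zero] at h; omega
      exact (Nat.prime_dvd_prime_iff_eq hp (by norm_num)).1 (h ▸ dvd_pow_self p hk0)
    rw [this, pow_orderOf_eq_one]

theorem exists_abelian_invariant [Group.IsSolvable G] [Nontrivial G] :
    ∃ D : Subgroup G, D ≠ ⊥ ∧ D.Normal ∧ IsMulCommutative D := by
  obtain ⟨N, hN⟩ := Group.IsSolvable.solvable (G := G)
  induction N with
  | zero =>
    rw [derivedSeries_zero] at hN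
    exact absurd hN top_ne_bot
  | succ N ih =>
    by_cases h : derivedSeries G N = ⊥
    · exact ih h
    · refine ⟨_, h, inferInstance, ⟨⟨fun x y => ?_⟩⟩⟩
      have hxy : ⁅(x : G), (y : G)⁆ ∈ derivedSeries G (N + 1) := by
        rw [derivedSeries_succ]
        exact Subgroup.commutator_mem_commutator x.2 y.2
      rw [hN, Subgroup.mem_bot, commutatorElement_eq_one_iff_mul_comm] at hxy
      exact Subtype.ext hxy

/-- A non-cyclic abelian group cannot act fixed point freely on a normal subgroup. -/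
theorem card_le_of_fpf {q r : ℕ} [Fact q.Prime] [Fact r.Prime] (hrq : r ≠ q) {D : Subgroup G} [D.Normal]
    (hD1 : D ≠ ⊥) (hDq : IsPGroup q D) (R : Sylow r G)
    (hexp : ∀ x ∈ (R : Subgroup G), x ^ r = 1)
    (hfpf : ∀ x y : G, x ≠ 1 → x ^ r = 1 → y ≠ 1 → y ∈ D → ¬ Commute x y) :
    Nat.card (R : Subgroup G) ∣ r := by
  obtain ⟨k, hk⟩ := IsPGroup.iff_card.1 R.2
  by_cases hk2 : k ≤ 1
  · rw [hk]; exact (pow_dvd_pow r hk2).trans (by rw [pow_one])
  exfalso
  obtain ⟨E0, hE0⟩ := Sylow.exists_subgroup_card_pow_prime (G := (R : Subgroup G)) r (n := 2)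
    (hk ▸ pow_dvd_pow r (by omega))
  let E : Subgroup G := E0.map (R : Subgroup G).subtype
  have hEc : Nat.card E = r ^ 2 := by
    rw [Subgroup.card_map_of_injective (R : Subgroup G).subtype_injective, hE0]
  have : IsMulCommutative E := IsPGroup.isMulCommutative_of_card_eq_prime_sq hEc
  have hEexp : ∀ x ∈ E, x ^ r = 1 := fun x hx => by
    obtain ⟨y, -, rfl⟩ := Subgroup.mem_map.1 hx
    exact hexp _ y.2
  have hnc : ¬ IsCyclic E := fun hc => by
    obtain ⟨g, hg⟩ := hc.exists_ofOrder_eq_natCard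
    have h1 := orderOf_dvd_of_pow_eq_one (hEexp g g.2)
    rw [Subgroup.orderOf_coe, hg, hEc] at h1
    have := Nat.le_of_dvd (Fact.out : r.Prime).pos h1
    have := (Fact.out : r.Prime).two_le
    nlinarith
  refine hD1 (le_bot_iff.1 (CfsgLib.CoprimeAction.le_of_centralizers_le hnc ?_ ?_ fun a ha ha1 => ?_))
  · rw [Subgroup.normalizer_eq_top]
    exact le_top
  · obtain ⟨j, hj⟩ := IsPGroup.iff_card.1 hDq
    rw [hEc, hj]
    exact Nat.Coprime.pow _ _ ((Nat.coprime_primes Fact.out Fact.out).2 hrq)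
  · rintro y ⟨hy, hya⟩
    by_contra hy1
    refine hfpf a y ha1 (hEexp a ha) (fun h => hy1 (h ▸ one_mem _)) hy ?_
    exact (Subgroup.mem_centralizer_iff.1 hya a rfl)

end Aux


/-- A finite group whose set of element orders is exactly {1, 2, 3} has either a normal elementary abelian 3-subgroup of index 2 or a normal elementary abelian 2-subgroup of index 3. -/
theorem result {G : Type*} [Group G] [Finite G] (h : Set.range (orderOf : G → ℕ) = {k : ℕ | 1 ≤ k ∧ k ≤ 3}) :
    (∃ N : Subgroup G, N.Normal ∧ Cfsg.IsElementaryAbelian 3 N ∧ N.index = 2) ∨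
      (∃ N : Subgroup G, N.Normal ∧ Cfsg.IsElementaryAbelian 2 N ∧ N.index = 3) := by
  have h2 : Fact (Nat.Prime 2) := ⟨Nat.prime_two⟩
  have h3 : Fact (Nat.Prime 3) := ⟨Nat.prime_three⟩
  have hall : ∀ g : G, g = 1 ∨ orderOf g = 2 ∨ orderOf g = 3 := fun g => by
    have : orderOf g ∈ ({k : ℕ | 1 ≤ k ∧ k ≤ 3} : Set ℕ) := h ▸ Set.mem_range_self g
    obtain ⟨a, b⟩ := this
    by_cases hg : orderOf g = 1
    · exact Or.inl (orderOf_eq_one_iff.1 hg)
    · omega
  obtain ⟨t, ht⟩ : ∃ t : G, orderOf t = 2 := by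
    have : (2 : ℕ) ∈ Set.range (orderOf : G → ℕ) := by rw [h]; simp
    exact this
  obtain ⟨c, hc⟩ : ∃ c : G, orderOf c = 3 := by
    have : (3 : ℕ) ∈ Set.range (orderOf : G → ℕ) := by rw [h]; simp
    exact this
  have ht1 : t ≠ 1 := fun h' => by rw [h', orderOf_one] at ht; omega
  have : Nontrivial G := ⟨⟨t, 1, ht1⟩⟩
  have hprimes : ∀ r : ℕ, r.Prime → r ∣ Nat.card G → r = 2 ∨ r = 3 := fun r hr hrd => by
    have := Fact.mk hr
    obtain ⟨g, hg⟩ := exists_prime_orderOf_dvd_card' r hrd
    rcases hall g with h' | h' | h'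
    · rw [h', orderOf_one] at hg; exact absurd hg.symm hr.ne_one
    · exact Or.inl (hg.symm.trans h')
    · exact Or.inr (hg.symm.trans h')
  have : Group.IsSolvable G := CfsgLib.CharBasics.isSolvable_two_primes 2 3 hprimes
  obtain ⟨S⟩ : Nonempty (Sylow 2 G) := inferInstance
  obtain ⟨R⟩ : Nonempty (Sylow 3 G) := inferInstance
  have hS : ∀ (S : Sylow 2 G), ∀ x ∈ (S : Subgroup G), x ^ 2 = 1 := fun S x hx => sylow_pow hall 2 3 rfl S hx
  have hR : ∀ x ∈ (R : Subgroup G), x ^ 3 = 1 := fun x hx => sylow_pow hall 3 2 (Set.pair_comm 3 2) R hx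
  have hcard : Nat.card G = Nat.card (S : Subgroup G) * Nat.card (R : Subgroup G) := by
    rw [S.card_eq_multiplicity, R.card_eq_multiplicity]
    conv_lhs => rw [← Nat.prod_factorization_pow_eq_self (Nat.card_pos (α := G)).ne']
    have hsupp : (Nat.card G).factorization.support = {2, 3} := by
      ext r
      rw [Nat.support_factorization, Nat.mem_primeFactors, Finset.mem_insert, Finset.mem_singleton]
      constructor
      · rintro ⟨hr, hd, -⟩; exact hprimes r hr hd
      · rintro (rfl | rfl)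
        · exact ⟨Nat.prime_two, ht ▸ orderOf_dvd_natCard t, Nat.card_pos.ne'⟩
        · exact ⟨Nat.prime_three, hc ▸ orderOf_dvd_natCard c, Nat.card_pos.ne'⟩
    rw [Finsupp.prod, hsupp, Finset.prod_pair (by norm_num)]
  obtain ⟨D, hD1, hDn, hDc⟩ := exists_abelian_invariant (G := G)
  obtain ⟨d, hd, hd1⟩ := (Subgroup.bot_or_exists_ne_one D).resolve_left hD1
  have hDpg : ∀ p q : ℕ, ({p, q} : Set ℕ) = {2, 3} → orderOf d = p → ∀ g ∈ D, g ^ p = 1 := by
    intro p q hpq hdp g hg
    have hcomm : Commute d g := congrArg Subtype.val (mul_comm' (⟨d, hd⟩ : D) ⟨g, hg⟩)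
    rcases hall g with h' | h' | h'
    · rw [h', one_pow]
    all_goals
      rcases hall d with hd' | hd' | hd'
      · exact absurd hd' hd1
      all_goals first
        | (rw [← hdp, hd', ← h', pow_orderOf_eq_one])
        | exact absurd hcomm (no_commute hall hd' h')
        | exact absurd hcomm.symm (no_commute hall h' hd')
  have hpg : ∀ (p : ℕ) [Fact p.Prime], (∀ g ∈ D, g ^ p = 1) → IsPGroup p D := fun p _ he g =>
    ⟨1, by rw [pow_one]; exact Subtype.ext (he g g.2)⟩
  have hord2 : ∀ x : G, x ≠ 1 → x ^ 2 = 1 → orderOf x = 2 := fun x h1 h2' => orderOf_eq_prime h2' h1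
  have hord3 : ∀ x : G, x ≠ 1 → x ^ 3 = 1 → orderOf x = 3 := fun x h1 h2' => orderOf_eq_prime h2' h1
  rcases hall d with hd' | hd' | hd'
  · exact absurd hd' hd1
  · -- a normal four-group or larger: the Sylow 3-subgroups have order 3
    right
    have he := hDpg 2 3 rfl hd'
    have hR3 : Nat.card (R : Subgroup G) = 3 := by
      have := card_le_of_fpf (by norm_num) hD1 (hpg 2 he) R hR
        (fun x y hx hx3 hy hyD hcomm => no_commute hall (hord2 y hy (he y hyD)) (hord3 x hx hx3) hcomm.symm)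
      refine ((Nat.dvd_prime Nat.prime_three).1 this).resolve_left fun h1 => ?_
      obtain ⟨T, hT⟩ := (IsPGroup.of_card (n := 1) (by rw [Nat.card_zpowers, hc, pow_one]) :
        IsPGroup 3 (Subgroup.zpowers c)).exists_le_sylow
      have hT1 : Nat.card (T : Subgroup G) = 1 := by
        rw [T.card_eq_multiplicity, ← R.card_eq_multiplicity, h1]
      have := Subgroup.card_le_of_le hT
      rw [hT1, Nat.card_zpowers, hc] at this
      omega
    let M : Subgroup G := Subgroup.normalClosure ((S : Subgroup G) : Set G)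
    have hDT : ∀ T : Sylow 2 G, D ≤ (T : Subgroup G) := fun T => by
      obtain ⟨U, hU⟩ := (hpg 2 he).exists_le_sylow
      obtain ⟨g, rfl⟩ := MulAction.exists_smul_eq G U T
      intro x hx
      rw [Sylow.coe_subgroup_smul, Subgroup.mem_pointwise_smul_iff_inv_smul_mem]
      refine hU ?_
      change (MulAut.conj g)⁻¹ x ∈ D
      rw [MulAut.conj_inv_apply]
      simpa using hDn.conj_mem x hx g⁻¹
    have hMc : M ≤ Subgroup.centralizer (D : Set G) := by
      refine Subgroup.normalClosure_le_normal fun x hx => Subgroup.mem_centralizer_iff.2 fun y hy => ?_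
      have hxy : (x * y) ^ 2 = 1 := hS S _ (mul_mem hx (hDT S hy))
      have hx2 := hS S x hx
      have hy2 := he y hy
      rw [sq] at hxy hx2 hy2
      calc y * x = y⁻¹ * x⁻¹ := by rw [← eq_inv_of_mul_eq_one_left hx2, ← eq_inv_of_mul_eq_one_left hy2]
        _ = (x * y)⁻¹ := (mul_inv_rev x y).symm
        _ = x * y := (eq_inv_of_mul_eq_one_left hxy).symm
    have hMS : M = (S : Subgroup G) := by
      have hM2 : IsPGroup 2 M := fun g => ⟨1, by
        rw [pow_one]
        rcases hall (g : G) with h' | h' | h'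
        · exact Subtype.ext (by rw [Subgroup.coe_pow, h', one_pow, OneMemClass.coe_one])
        · exact Subtype.ext (by rw [Subgroup.coe_pow, ← h', pow_orderOf_eq_one, OneMemClass.coe_one])
        · exact absurd (Subgroup.mem_centralizer_iff.1 (hMc g.2) d hd) (no_commute hall hd' h')⟩
      exact S.is_maximal' hM2 Subgroup.subset_normalClosure
    refine ⟨(S : Subgroup G), hMS ▸ inferInstance, ⟨?_, hS S⟩, ?_⟩
    · refine ⟨⟨fun a b => Subtype.ext ?_⟩⟩
      have hab := hS S _ (mul_mem a.2 b.2)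
      have ha := hS S _ a.2
      have hb := hS S _ b.2
      rw [sq] at hab ha hb
      calc (a : G) * b = ((a : G) * b)⁻¹ := eq_inv_of_mul_eq_one_left hab
        _ = (b : G)⁻¹ * (a : G)⁻¹ := mul_inv_rev _ _
        _ = b * a := by rw [← eq_inv_of_mul_eq_one_left ha, ← eq_inv_of_mul_eq_one_left hb]
    · have := (S : Subgroup G).card_mul_index
      rw [hcard, hR3] at this
      exact mul_left_cancel₀ Nat.card_pos.ne' this
  · left
    have he := hDpg 3 2 (Set.pair_comm 3 2) hd'
    have hS2 : Nat.card (S : Subgroup G) = 2 := by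
      have := card_le_of_fpf (by norm_num) hD1 (hpg 3 he) S (hS S)
        (fun x y hx hx2 hy hyD hcomm => no_commute hall (hord2 x hx hx2) (hord3 y hy (he y hyD)) hcomm)
      refine ((Nat.dvd_prime Nat.prime_two).1 this).resolve_left fun h1 => ?_
      obtain ⟨T, hT⟩ := (IsPGroup.of_card (n := 1) (by rw [Nat.card_zpowers, ht, pow_one]) :
        IsPGroup 2 (Subgroup.zpowers t)).exists_le_sylow
      have hT1 : Nat.card (T : Subgroup G) = 1 := by
        rw [T.card_eq_multiplicity, ← S.card_eq_multiplicity, h1]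
      have := Subgroup.card_le_of_le hT
      rw [hT1, Nat.card_zpowers, ht] at this
      omega
    have hidx : (R : Subgroup G).index = 2 := by
      have := (R : Subgroup G).card_mul_index
      rw [hcard, hS2, mul_comm 2] at this
      exact mul_left_cancel₀ Nat.card_pos.ne' this
    have hRn : (R : Subgroup G).Normal := Subgroup.normal_of_index_eq_two hidx
    refine ⟨(R : Subgroup G), hRn, ⟨?_, hR⟩, hidx⟩
    let φ : MulAut (R : Subgroup G) := MulAut.conjNormal t
    have hf : MonoidHom.FixedPointFree φ := fun x hx => by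
      by_contra hx1
      refine no_commute hall ht (hord3 (x : G) (fun h' => hx1 (Subtype.ext h')) (hR x x.2)) ?_
      have h' : t * (x : G) * t⁻¹ = x := congrArg Subtype.val hx
      exact mul_inv_eq_iff_eq_mul.1 h'
    have hinv : Function.Involutive φ := fun x => by
      change (MulAut.conjNormal t * MulAut.conjNormal t : MulAut (R : Subgroup G)) x = x
      rw [← map_mul, ← sq, ← ht, pow_orderOf_eq_one, map_one, MulAut.one_apply]
    exact ⟨⟨fun a b => hf.commute_all_of_involutive hinv a b⟩⟩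

end Cfsg.Agent.S4005
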