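import Cfsg.Statements.S4006
import Cfsg.Agent.S4005
import Cfsg.Agent.RankOneP.Basic
import Cfsg.Agent.PCore.Basic
import Mathlib

set_option autoImplicit false
open Cfsg

namespace Cfsg.Agent.S4006

open scoped commutatorElement

section Abstract

/-- The ring identities behind the class bound for groups in which conjugates commute. -/
theorem ring_facts {R : Type*} [Ring R] {u v : R} (hu : u * u = 0) (hv : v * v = 0)
    (h : (u + v + u * v) * (u + v + u * v) = 0) :
    v * u = -(u * v) ∧ (1 + v) * (1 + u) * (1 - v) * (1 - u) = 1 + (v * u + v * u) := by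
  have hu' : ∀ a : R, u * (u * a) = 0 := fun a => by rw [← mul_assoc, hu, zero_mul]
  have hv' : ∀ a : R, v * (v * a) = 0 := fun a => by rw [← mul_assoc, hv, zero_mul]
  have hP : u * v + v * u + u * v * u + v * u * v + u * v * u * v = 0 := by
    calc u * v + v * u + u * v * u + v * u * v + u * v * u * v
        = (u + v + u * v) * (u + v + u * v) - u * u - v * v - u * (u * v) - (u * v) * v := by noncomm_ring
      _ = 0 := by rw [h, hu, hv, hu', mul_assoc u v v, hv, mul_zero]; simp
  have h1 : u * v * u + u * v * u * v = 0 := by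
    have := congrArg (u * ·) hP
    simpa [mul_add, mul_assoc, hu'] using this
  have h2 : v * u * v + u * v * u * v = 0 := by
    have := congrArg (· * v) hP
    simpa [add_mul, mul_assoc, hv] using this
  have hvu : v * u = -(u * v) + u * v * u * v := by
    calc v * u = (u * v + v * u + u * v * u + v * u * v + u * v * u * v) - (u * v * u + u * v * u * v)
          - (v * u * v + u * v * u * v) - u * v + u * v * u * v := by noncomm_ring
      _ = _ := by rw [hP, h1, h2]; noncomm_ring
  have huvu : u * v * u = 0 := by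
    have := congrArg (u * ·) hvu
    simpa [mul_add, mul_assoc, hu'] using this
  have huvuv : u * v * u * v = 0 := by rw [huvu, zero_mul]
  have hvu' : v * u = -(u * v) := by rw [hvu, huvuv, add_zero]
  refine ⟨hvu', ?_⟩
  have hvuv : v * u * v = 0 := by rw [hvu', neg_mul, mul_assoc, hv, mul_zero, neg_zero]
  calc (1 + v) * (1 + u) * (1 - v) * (1 - u)
      = 1 + (v * u + v * u) - (u * v + v * u) + u * v * u - v * v + v * v * u - u * u - v * (u * u)
          - v * u * v + v * u * v * u := by noncomm_ring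
    _ = 1 + (v * u + v * u) := by
      rw [huvu, hu, hv, hvuv, hvu']; simp

/-- The action on a normal subgroup with commutative multiplication, written additively. -/
def act {N : Type*} [Group N] (A : Subgroup N) [A.Normal] : N →* AddMonoid.End (Additive ↥A) where
  toFun g := MonoidHom.toAdditive (MulAut.conjNormal g).toMonoidHom
  map_one' := by rw [map_one]; rfl
  map_mul' g h := by rw [map_mul]; rfl

theorem act_apply {N : Type*} [Group N] (A : Subgroup N) [A.Normal] (g : N) (a : Additive ↥A) :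
    ((Additive.toMul (act A g a) : ↥A) : N) = g * (Additive.toMul a : ↥A) * g⁻¹ := rfl

variable {N : Type*} [Group N]

theorem comm_inv_swap (hE : ∀ x g : N, Commute x (g * x * g⁻¹)) (z w : N) : ⁅z, w⁻¹⁆ = ⁅z, w⁆⁻¹ := by
  have h : Commute w ⁅z, w⁆⁻¹ := by
    refine Commute.inv_right ?_
    have : ⁅z, w⁆ = (z * w * z⁻¹) * w⁻¹ := commutatorElement_def z w
    rw [this]
    exact (hE w z).mul_right (Commute.refl w).inv_right
  calc ⁅z, w⁻¹⁆ = w⁻¹ * (w * ⁅z, w⁻¹⁆ * w⁻¹) * w := by group
    _ = w⁻¹ * ⁅z, w⁆⁻¹ * w := by simp only [commutatorElement_def]; group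
    _ = w⁻¹ * (⁅z, w⁆⁻¹ * w) := mul_assoc _ _ _
    _ = ⁅z, w⁆⁻¹ := by rw [← h.eq, inv_mul_cancel_left]

/-- A group in which conjugates commute and without elements of order three has class at most two. -/
theorem class_two (hE : ∀ x g : N, Commute x (g * x * g⁻¹)) (h3 : ∀ z : N, z ^ 3 = 1 → z = 1) (x y z : N) :
    ⁅z, ⁅y, x⁆⁆ = 1 := by
  have key : ∀ a b d : N, ⁅d, ⁅b, a⁆⁆ = ⁅b, ⁅d, a⁆⁆⁻¹ ∧ ⁅⁅d, b⁆, a⁆ = ⁅d, ⁅b, a⁆⁆ * ⁅d, ⁅b, a⁆⁆ := by
    intro a b d
    let A : Subgroup N := Subgroup.normalClosure {a}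
    haveI : IsMulCommutative A := by
      refine Subgroup.isMulCommutative_closure ?_
      intro u hu w hw
      simp only [Group.conjugatesOfSet, Set.mem_singleton_iff, Set.iUnion_iUnion_eq_left] at hu hw
      obtain ⟨g, rfl⟩ := isConj_iff.mp hu
      obtain ⟨k, rfl⟩ := isConj_iff.mp hw
      have := (hE (g * a * g⁻¹) (k * g⁻¹)).eq
      simpa [mul_assoc] using this
    letI : CommGroup ↥A := IsMulCommutative.instCommGroup
    have haA : a ∈ A := Subgroup.subset_normalClosure rfl
    let δ : N → AddMonoid.End (Additive ↥A) := fun g => act A g - 1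
    have hδ : ∀ g (w : Additive ↥A), ((Additive.toMul (δ g w) : ↥A) : N) = ⁅g, ((Additive.toMul w : ↥A) : N)⁆ := by
      intro g w
      show ((Additive.toMul (act A g w - w) : ↥A) : N) = _
      rw [toMul_sub, Subgroup.coe_div, act_apply, commutatorElement_def, div_eq_mul_inv]
    have hsq : ∀ g, δ g * δ g = 0 := fun g => by
      refine AddMonoidHom.ext fun w => ?_
      apply Additive.toMul.injective
      apply Subtype.ext
      show ((Additive.toMul (δ g (δ g w)) : ↥A) : N) = 1
      rw [hδ, hδ]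
      set u := ((Additive.toMul w : ↥A) : N)
      rw [commutatorElement_eq_one_iff_commute]
      have h1 : ⁅g, u⁆ = g * (u * g * u⁻¹)⁻¹ := by rw [commutatorElement_def]; group
      rw [h1]
      exact (Commute.refl g).mul_right (hE g u).inv_right
    have hu := hsq d
    have hv := hsq b
    have hmul : δ d + δ b + δ d * δ b = δ (d * b) := by
      simp only [δ, map_mul, sub_mul, mul_sub, one_mul, mul_one]; abel
    obtain ⟨hanti, hcomm⟩ := ring_facts hu hv (by rw [hmul]; exact hsq _)
    obtain ⟨hanti', hcomm'⟩ := ring_facts hv hu (by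
      rw [show δ b + δ d + δ b * δ d = δ (b * d) by simp only [δ, map_mul, sub_mul, mul_sub, one_mul, mul_one]; abel]; exact hsq _)
    let w : Additive ↥A := Additive.ofMul ⟨a, haA⟩
    refine ⟨?_, ?_⟩
    · have := congrArg (fun f : AddMonoid.End (Additive ↥A) => ((Additive.toMul (f w) : ↥A) : N)) hanti'
      change ((Additive.toMul (δ d (δ b w)) : ↥A) : N) = ((Additive.toMul (-(δ b (δ d w))) : ↥A) : N) at this
      rw [toMul_neg, Subgroup.coe_inv, hδ, hδ, hδ, hδ] at this
      exact this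
    · have hinv : ∀ g, act A g⁻¹ = 1 - δ g := fun g => by
        have h1 : (1 - δ g) * act A g = 1 := by
          have : act A g = 1 + δ g := by simp [δ]
          rw [this, sub_mul, mul_add, mul_add, hsq g]; simp
        calc act A g⁻¹ = (1 - δ g) * act A g * act A g⁻¹ := by rw [h1, one_mul]
          _ = 1 - δ g := by rw [mul_assoc, ← map_mul, mul_inv_cancel, map_one, mul_one]
      have hop : δ ⁅d, b⁆ = δ d * δ b + δ d * δ b := by
        show act A ⁅d, b⁆ - 1 = _
        rw [commutatorElement_def, map_mul, map_mul, map_mul, hinv, hinv]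
        have hd' : act A d = 1 + δ d := by simp [δ]
        have hb' : act A b = 1 + δ b := by simp [δ]
        rw [hd', hb', hcomm', add_sub_cancel_left]
      have := congrArg (fun f : AddMonoid.End (Additive ↥A) => ((Additive.toMul (f w) : ↥A) : N)) hop
      change ((Additive.toMul (δ ⁅d, b⁆ w) : ↥A) : N) =
        ((Additive.toMul (δ d (δ b w) + δ d (δ b w)) : ↥A) : N) at this
      rw [toMul_add, Subgroup.coe_mul, hδ, hδ, hδ] at this
      exact this
  have hswap : ∀ a b d : N, ⁅d, ⁅b, a⁆⁆ = ⁅d, ⁅a, b⁆⁆⁻¹ := fun a b d => by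
    rw [← comm_inv_swap hE, commutatorElement_inv]
  obtain ⟨-, h2⟩ := key x y z
  have h1 : ⁅⁅z, y⁆, x⁆ = ⁅z, ⁅y, x⁆⁆⁻¹ := by
    rw [← commutatorElement_inv x ⁅z, y⁆, (key y z x).1, inv_inv, hswap y x z]
  refine h3 _ ?_
  calc ⁅z, ⁅y, x⁆⁆ ^ 3 = ⁅z, ⁅y, x⁆⁆ * (⁅z, ⁅y, x⁆⁆ * ⁅z, ⁅y, x⁆⁆) := pow_three _
    _ = 1 := by rw [← h2, h1, mul_inv_cancel]

/-- A group of class two with a symmetric group of degree three acting suitably has exponent two. -/
theorem sq_eq_one (C T : MulAut N) (hC3 : ∀ x, C (C (C x)) = x) (hT2 : ∀ x, T (T x) = x)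
    (hTC : ∀ x, T (C x) = C (C (T x))) (hfix : ∀ x, C x = x → x = 1)
    (hsplit : ∀ x, x * C x * C (C x) = 1) (hsame : ∀ x, Commute x (C x)) (hcl : ∀ x y z : N, Commute ⁅x, y⁆ z)
    (hq : ∀ f, (f * T f) * (f * T f) = 1) (hq' : ∀ f, (f * T (C f)) * (f * T (C f)) = 1) :
    ∀ f : N, f * f = 1 := by
  -- the centre has exponent two
  have hZ2 : ∀ z : N, (∀ g, Commute z g) → z * z = 1 := fun z hz => by
    have h1 : z * z * T (z * z) = 1 := by
      calc z * z * T (z * z) = z * (z * T z) * T z := by rw [map_mul]; group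
        _ = z * (T z * z) * T z := congrArg (fun e => z * e * T z) (hz (T z)).eq
        _ = z * T z * (z * T z) := by group
        _ = 1 := hq z
    have h2 : z * z * T (C (z * z)) = 1 := by
      calc z * z * T (C (z * z)) = z * (z * T (C z)) * T (C z) := by rw [map_mul, map_mul]; group
        _ = z * (T (C z) * z) * T (C z) := congrArg (fun e => z * e * T (C z)) (hz (T (C z))).eq
        _ = z * T (C z) * (z * T (C z)) := by group
        _ = 1 := hq' z
    apply hfix
    exact T.injective (mul_left_cancel (h2.trans h1.symm))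
  have hc2 : ∀ x y : N, ⁅x, y⁆ * ⁅x, y⁆ = 1 := fun x y => hZ2 _ (hcl x y)
  have hsqc : ∀ f g : N, Commute (f * f) g := fun f g => by
    show f * f * g = g * (f * f)
    calc f * f * g = f * (⁅f, g⁆ * (g * f)) := by rw [commutatorElement_def]; group
      _ = ⁅f, g⁆ * (f * g * f) := by rw [← mul_assoc, ← (hcl f g f).eq]; group
      _ = ⁅f, g⁆ * ⁅f, g⁆ * (g * f * f) := by rw [commutatorElement_def]; group
      _ = g * (f * f) := by rw [hc2, one_mul, mul_assoc]
  -- bilinearity and symmetry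
  have hbr : ∀ a b d : N, ⁅a, b * d⁆ = ⁅a, b⁆ * ⁅a, d⁆ := fun a b d => by
    calc ⁅a, b * d⁆ = ⁅a, b⁆ * (b * ⁅a, d⁆ * b⁻¹) := by simp only [commutatorElement_def]; group
      _ = _ := by rw [← (hcl a d b).eq, mul_inv_cancel_right]
  have hsym : ∀ a b : N, ⁅a, b⁆ = ⁅b, a⁆ := fun a b => by
    rw [← commutatorElement_inv a b]
    exact eq_inv_of_mul_eq_one_left (hc2 a b)
  have hbl : ∀ a b d : N, ⁅a * b, d⁆ = ⁅a, d⁆ * ⁅b, d⁆ := fun a b d => by
    rw [hsym, hbr, hsym d a, hsym d b]
  have hinvr : ∀ a b : N, ⁅a, b⁻¹⁆ = ⁅a, b⁆ := fun a b => by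
    have h1 := hbr a b b⁻¹
    rw [mul_inv_cancel, commutatorElement_one_right] at h1
    calc ⁅a, b⁻¹⁆ = ⁅a, b⁆ * (⁅a, b⁆ * ⁅a, b⁻¹⁆) := by rw [← mul_assoc, hc2, one_mul]
      _ = ⁅a, b⁆ := by rw [← h1, mul_one]
  -- modulo the centre
  let Z := Subgroup.center N
  let π := QuotientGroup.mk' Z
  have hπc : ∀ a b : N, π a * π b = π b * π a := fun a b => by
    rw [← commutatorElement_eq_one_iff_mul_comm, ← map_commutatorElement]
    exact (QuotientGroup.eq_one_iff _).mpr (Subgroup.mem_center_iff.mpr fun g => (hcl a b g).eq.symm)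
  have hπ2 : ∀ a : N, π a * π a = 1 := fun a => by
    rw [← map_mul]
    exact (QuotientGroup.eq_one_iff _).mpr (Subgroup.mem_center_iff.mpr fun g => (hsqc a g).eq.symm)
  have hmod : ∀ a b : N, π a = π b → ∃ z : N, (∀ g, Commute z g) ∧ b = a * z := fun a b hab => by
    refine ⟨a⁻¹ * b, fun g => ?_, by group⟩
    exact (Subgroup.mem_center_iff.mp (QuotientGroup.eq.mp hab) g).symm
  let w : N → N := fun f => f * T f
  have hw : ∀ f, w f * w f = 1 := hq
  have hinvol : ∀ a b : N, a * a = 1 → b * b = 1 → (a * b) * (a * b) = 1 → Commute a b := fun a b ha hb hab => by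
    show a * b = b * a
    rw [eq_inv_of_mul_eq_one_left hab, mul_inv_rev, inv_eq_of_mul_eq_one_left hb, inv_eq_of_mul_eq_one_left ha]
  have hww : ∀ f g, Commute (w f) (w g) := fun f g => by
    obtain ⟨z, hz, hzz⟩ := hmod (w (f * g)) (w f * w g) (by
      letI : CommGroup (N ⧸ Z) := { (inferInstance : Group (N ⧸ Z)) with
        mul_comm := fun a b => by
          obtain ⟨a, rfl⟩ := QuotientGroup.mk'_surjective Z a
          obtain ⟨b, rfl⟩ := QuotientGroup.mk'_surjective Z b
          exact hπc a b }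
      simp only [w, map_mul]
      simp only [mul_comm, mul_left_comm, mul_assoc])
    refine hinvol _ _ (hw f) (hw g) ?_
    rw [hzz]
    calc w (f * g) * z * (w (f * g) * z) = (w (f * g) * w (f * g)) * (z * z) := by
          rw [mul_assoc, ← mul_assoc z, (hz (w (f * g))).eq]; group
      _ = 1 := by rw [hw, hZ2 z hz, one_mul]
  have hw1 : ∀ f g, ⁅w f, C (w g)⁆ = 1 := fun f g => by
    have hsw : ⁅w f, C (w g)⁆ = ⁅w g, C (w f)⁆ := by
      have h1 : ⁅w f * w g, C (w f) * C (w g)⁆ = 1 := by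
        rw [commutatorElement_eq_one_iff_commute, ← map_mul]; exact hsame _
      rw [hbl, hbr, hbr, (commutatorElement_eq_one_iff_commute.mpr (hsame (w f))),
        (commutatorElement_eq_one_iff_commute.mpr (hsame (w g))), one_mul, mul_one] at h1
      exact (eq_inv_of_mul_eq_one_left h1).trans (eq_inv_of_mul_eq_one_left (hc2 _ _)).symm
    refine hfix _ ?_
    rw [map_commutatorElement]
    have h2 : C (C (w g)) = (w g * C (w g))⁻¹ := eq_inv_of_mul_eq_one_right (hsplit (w g))
    rw [h2, hinvr, hbr, hsym (C (w f)) (w g), ← map_commutatorElement C,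
      commutatorElement_eq_one_iff_commute.mpr (hww f g), map_one, mul_one, ← hsw]
  intro f
  have hC2T : ∀ x, C (C (T (C x))) = T (C (C x)) := fun x => by
    rw [hTC, hTC (C x), hTC x]
  have hCT : ∀ x, C (T (C (C x))) = T (C x) := fun x => by
    rw [hTC (C x), hTC x, hC3]
  set p := w f
  set q := C (C (w (C f)))
  set r := C (w (C (C f)))
  have hq0 : q = f * T (C (C f)) := by simp only [q, w, map_mul, hC3, hC2T]
  have hr0 : r = f * T (C f) := by simp only [r, w, map_mul, hC3, hCT]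
  obtain ⟨z, hz, hzz⟩ := hmod (p * q * r) f (by
    have e : π (T f) * π (T (C f)) * π (T (C (C f))) = 1 := by
      rw [← map_mul, ← map_mul, ← map_mul, ← map_mul, hsplit, map_one, map_one]
    rw [map_mul, map_mul, hq0, hr0]
    simp only [p, w, map_mul]
    letI : CommGroup (N ⧸ Z) := { (inferInstance : Group (N ⧸ Z)) with
      mul_comm := fun a b => by
        obtain ⟨a, rfl⟩ := QuotientGroup.mk'_surjective Z a
        obtain ⟨b, rfl⟩ := QuotientGroup.mk'_surjective Z b
        exact hπc a b }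
    calc π f * π (T f) * (π f * π (T (C (C f)))) * (π f * π (T (C f)))
        = (π f * π f) * π f * (π (T f) * π (T (C f)) * π (T (C (C f)))) := by
          simp only [mul_comm, mul_left_comm, mul_assoc]
      _ = π f := by rw [hπ2, e, one_mul, mul_one])
  have hpq : Commute p q := by
    rw [← commutatorElement_eq_one_iff_commute]
    have e : p = C (C (C p)) := (hC3 p).symm
    rw [hsym, e, ← map_commutatorElement C, ← map_commutatorElement C]
    show C (C ⁅w (C f), C (w f)⁆) = 1
    rw [hw1, map_one, map_one]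
  have hpr : Commute p r := commutatorElement_eq_one_iff_commute.mp (hw1 _ _)
  have hqr : Commute q r := by
    rw [← commutatorElement_eq_one_iff_commute, hsym]
    show ⁅C (w (C (C f))), C (C (w (C f)))⁆ = 1
    rw [← map_commutatorElement C, hw1, map_one]
  have hp2 : p * p = 1 := hw f
  have hq2 : q * q = 1 := by simp only [q, ← map_mul, hw, map_one]
  have hr2 : r * r = 1 := by simp only [r, ← map_mul, hw, map_one]
  rw [hzz]
  calc p * q * r * z * (p * q * r * z) = (p * q * r) * (z * (p * q * r)) * z := by group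
    _ = (p * q * r) * (p * q * r) * (z * z) := by rw [(hz (p * q * r)).eq]; group
    _ = (p * q) * ((p * q) * r) * r := by rw [hZ2 z hz, mul_one, mul_assoc (p*q) r, ← mul_assoc r (p*q) r, ← (hpr.mul_left hqr).eq]; group
    _ = 1 := by
      rw [mul_assoc, mul_assoc (p*q) r r, hr2, mul_one, mul_assoc p q, ← mul_assoc q p q, ← hpq.eq,
        mul_assoc p q q, hq2, mul_one, hp2]

end Abstract

section Concrete

variable {G : Type*} [Group G] [Finite G]

/-- No element has order above four. -/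
def Orders (G : Type*) [Group G] : Prop := ∀ g : G, orderOf g ≤ 4

theorem pow_of_order {g : G} {n : ℕ} (h : orderOf g = n) : g ^ n = 1 := h ▸ pow_orderOf_eq_one g

theorem order_cases (hall : Orders G) (g : G) :
    orderOf g = 1 ∨ orderOf g = 2 ∨ orderOf g = 3 ∨ orderOf g = 4 := by
  have := hall g
  have := orderOf_pos g
  omega

theorem no_commute (hall : Orders G) {x y : G} (hx : orderOf x = 3) (hy : orderOf y ≠ 3) (hc : Commute x y) :
    y = 1 := by
  by_contra hy1
  have hy1' : orderOf y ≠ 1 := fun h => hy1 (orderOf_eq_one_iff.mp h)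
  have hco : (orderOf x).Coprime (orderOf y) := by
    rcases order_cases hall y with h | h | h | h <;> rw [hx, h] <;> first | omega | norm_num
  have h := hall (x * y)
  rw [hc.orderOf_mul_eq_mul_orderOf_of_coprime hco, hx] at h
  have := orderOf_pos y
  omega

theorem not_three_of_mem {N : Subgroup G} (hN : IsPGroup 2 N) {x : G} (hx : x ∈ N) : orderOf x ≠ 3 := by
  haveI : Fact (Nat.Prime 2) := ⟨Nat.prime_two⟩
  intro h
  obtain ⟨k, hk⟩ := IsPGroup.iff_orderOf.1 hN ⟨x, hx⟩
  rw [← Subgroup.orderOf_coe, h] at hk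
  have : (3 : ℕ) ∣ 2 ^ k := by rw [← hk]
  exact absurd (Nat.prime_three.dvd_of_dvd_pow this) (by norm_num)

theorem prime_two_three (hall : Orders G) {r : ℕ} (hr : r.Prime) (hrd : r ∣ Nat.card G) : r = 2 ∨ r = 3 := by
  haveI := Fact.mk hr
  obtain ⟨g, hg⟩ := exists_prime_orderOf_dvd_card' r hrd
  have h4 := hall g
  have := hr.two_le
  rcases order_cases hall g with h | h | h | h <;> rw [h] at hg <;> subst hg
  · omega
  · exact Or.inl rfl
  · exact Or.inr rfl
  · exact absurd hr (by norm_num)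

theorem sylow_three_pow (hall : Orders G) [Fact (Nat.Prime 3)] (R : Sylow 3 G) {x : G}
    (hx : x ∈ (R : Subgroup G)) : x ^ 3 = 1 := by
  obtain ⟨k, hk⟩ := IsPGroup.iff_orderOf.1 R.2 ⟨x, hx⟩
  rw [← Subgroup.orderOf_coe] at hk
  change orderOf x = 3 ^ k at hk
  have hk1 : k ≤ 1 := by
    by_contra h
    have h4 := hall x
    have : 3 ^ 2 ≤ 3 ^ k := Nat.pow_le_pow_right (by norm_num) (by omega)
    omega
  exact orderOf_dvd_iff_pow_eq_one.mp (hk ▸ (pow_dvd_pow 3 hk1).trans (by norm_num))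

theorem case_three (hall : Orders G) {d : G} (hd : orderOf d = 4) (h3 : Cfsg.pCore 3 G ≠ ⊥)
    [hn : (Cfsg.pCore 3 G).Normal] :
    Cfsg.IsElementaryAbelian 3 (Cfsg.pCore 3 G) ∧
      ((IsCyclic (G ⧸ Cfsg.pCore 3 G) ∧ (Cfsg.pCore 3 G).index = 4) ∨
        Nonempty (G ⧸ Cfsg.pCore 3 G ≃* QuaternionGroup 2)) := by
  haveI : Fact (Nat.Prime 2) := ⟨Nat.prime_two⟩
  haveI : Fact (Nat.Prime 3) := ⟨Nat.prime_three⟩
  set N := Cfsg.pCore 3 G
  have hNp : IsPGroup 3 N := CfsgLib.PCore.isPGroup_pCore 3 G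
  have hN3 : ∀ x ∈ N, x ≠ 1 → orderOf x = 3 := fun x hx hx1 => by
    obtain ⟨k, hk⟩ := IsPGroup.iff_orderOf.1 hNp ⟨x, hx⟩
    rw [← Subgroup.orderOf_coe] at hk
    change orderOf x = 3 ^ k at hk
    rcases k with _ | _ | k
    · exact absurd (orderOf_eq_one_iff.mp (by simpa using hk)) hx1
    · simpa using hk
    · have hx4 := hall x
      have : 3 ^ 2 ≤ 3 ^ (k + 1 + 1) := Nat.pow_le_pow_right (by norm_num) (by omega)
      omega
  obtain ⟨n₀, hn₀, hn₀1⟩ := (Subgroup.bot_or_exists_ne_one N).resolve_left h3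
  -- a fixed involution inverts the kernel
  have hinv : ∀ t : G, orderOf t = 2 → ∀ x ∈ N, t * x * t⁻¹ = x⁻¹ := by
    intro t ht x hx
    let φ : ↥N →* ↥N := (MulAut.conjNormal t : MulAut ↥N).toMonoidHom
    have ht2 : t * t = 1 := by rw [← pow_two, ← ht, pow_orderOf_eq_one]
    have hf : MonoidHom.FixedPointFree φ := fun y hy => by
      by_contra hy1
      have hy' : t * (y : G) * t⁻¹ = y := congrArg Subtype.val hy
      have hc : Commute (y : G) t := (mul_inv_eq_iff_eq_mul.mp hy').symm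
      have := no_commute hall (hN3 y y.2 (fun e => hy1 (Subtype.ext e))) (by omega) hc
      rw [this, orderOf_one] at ht
      omega
    have hi : Function.Involutive φ := fun y => Subtype.ext (by
      show t * (t * (y : G) * t⁻¹) * t⁻¹ = y
      calc t * (t * (y : G) * t⁻¹) * t⁻¹ = (t * t) * y * (t * t)⁻¹ := by group
        _ = y := by rw [ht2]; group)
    exact congrArg Subtype.val (congrFun (hf.coe_eq_inv_of_involutive hi) ⟨x, hx⟩)
  obtain ⟨t₀, ht₀⟩ : ∃ t : G, orderOf t = 2 := ⟨d ^ 2, by rw [orderOf_pow, hd]; rfl⟩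
  have hab : IsMulCommutative N := by
    refine ⟨⟨fun a b => Subtype.ext ?_⟩⟩
    have h := hinv t₀ ht₀ _ (mul_mem a.2 b.2)
    rw [show t₀ * ((a : G) * b) * t₀⁻¹ = (t₀ * a * t₀⁻¹) * (t₀ * b * t₀⁻¹) by group, hinv t₀ ht₀ _ a.2,
      hinv t₀ ht₀ _ b.2] at h
    have := congrArg Inv.inv h
    simpa using this.symm
  have hN3' : ∀ x ∈ N, x ^ 3 = 1 := fun x hx => by
    rcases eq_or_ne x 1 with rfl | h
    · simp
    · rw [← hN3 x hx h, pow_orderOf_eq_one]
  -- the centraliser of the kernel lies in the kernel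
  have hcent : ∀ g : G, (∀ x ∈ N, Commute x g) → g ∈ N := by
    intro g hg
    have hC : Subgroup.centralizer (N : Set G) ≤ N := by
      refine CfsgLib.PCore.le_pCore inferInstance fun y => ⟨1, ?_⟩
      apply Subtype.ext
      rw [pow_one, Subgroup.coe_pow, OneMemClass.coe_one]
      rcases eq_or_ne (y : G) 1 with h | h
      · rw [h, one_pow]
      · by_contra hy3
        refine h (no_commute hall (hN3 n₀ hn₀ hn₀1) (fun e => hy3 ?_) (Subgroup.mem_centralizer_iff.mp y.2 n₀ hn₀))
        rw [← e, pow_orderOf_eq_one]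
    exact hC (Subgroup.mem_centralizer_iff.mpr fun x hx => (hg x hx).eq)
  have hprod : ∀ s t : G, orderOf s = 2 → orderOf t = 2 → s * t ∈ N := by
    intro s t hs ht
    refine hcent _ fun x hx => ?_
    have h1 := hinv t ht x hx
    have h2 := hinv s hs x⁻¹ (inv_mem hx)
    rw [inv_inv] at h2
    have h3 : s * t * x * (s * t)⁻¹ = x := by
      calc s * t * x * (s * t)⁻¹ = s * (t * x * t⁻¹) * s⁻¹ := by group
        _ = x := by rw [h1, h2]
    exact (mul_inv_eq_iff_eq_mul.mp h3).symm
  -- every element of order three lies in the kernel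
  have hord3 : ∀ g : G, orderOf g = 3 → g ∈ N := by
    intro g hg
    have hu := hprod (g * t₀ * g⁻¹) t₀ (by rw [← MulAut.conj_apply, MulEquiv.orderOf_eq]; exact ht₀) ht₀
    set u := g * t₀ * g⁻¹ * t₀
    have ht0' : t₀⁻¹ = t₀ := inv_eq_of_mul_eq_one_left (by rw [← pow_two, ← ht₀, pow_orderOf_eq_one])
    have hcomm : Commute (u * g) t₀ := by
      show u * g * t₀ = t₀ * (u * g)
      have h1 : g * t₀ = u * t₀ * g := by
        simp only [u]; rw [mul_assoc _ t₀ t₀, ← pow_two, ← ht₀, pow_orderOf_eq_one]; group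
      have h2 : t₀ * u = u⁻¹ * t₀ := by rw [← hinv t₀ ht₀ u hu]; group
      rw [mul_assoc, h1, ← mul_assoc t₀ u g, h2, ← mul_assoc, ← mul_assoc]
      congr 2
      exact eq_inv_of_mul_eq_one_right (by simpa [pow_three, mul_assoc] using hN3' u hu)
    have hne : orderOf (u * g) ≠ 3 := fun e => by
      have h := no_commute hall e (by omega) hcomm
      rw [h, orderOf_one] at ht₀
      omega
    have h12 : (u * g) ^ 4 = 1 := by
      rcases order_cases hall (u * g) with h | h | h | h
      · rw [orderOf_eq_one_iff.mp h, one_pow]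
      · rw [show (4 : ℕ) = 2 * 2 from rfl, pow_mul, pow_of_order h, one_pow]
      · exact absurd h hne
      · rw [pow_of_order h]
    have h4 := congrArg (QuotientGroup.mk' N) h12
    rw [map_pow, map_mul, (QuotientGroup.eq_one_iff u).mpr hu |> fun e => (show QuotientGroup.mk' N u = 1 from e),
      one_mul, map_one, ← map_pow] at h4
    have hg3 : g ^ 3 = 1 := by rw [← hg, pow_orderOf_eq_one]
    rw [pow_succ, hg3, one_mul] at h4
    exact (QuotientGroup.eq_one_iff g).mp h4
  obtain ⟨P, hP⟩ := (IsPGroup.of_card (n := 2) (by rw [Nat.card_zpowers, hd]; rfl) :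
    IsPGroup 2 (Subgroup.zpowers d)).exists_le_sylow
  have hPu : CfsgLib.RankOneP.UniqueOrderP 2 ↥(P : Subgroup G) := by
    intro x y hx hy hx1
    rcases eq_or_ne y 1 with rfl | hy1
    · exact one_mem _
    have hx' : orderOf (x : G) = 2 := by rw [Subgroup.orderOf_coe]; exact orderOf_eq_prime hx hx1
    have hy' : orderOf (y : G) = 2 := by rw [Subgroup.orderOf_coe]; exact orderOf_eq_prime hy hy1
    have hmem := hprod x y hx' hy'
    have h1 : (x : G) * y = 1 := by
      by_contra h
      exact not_three_of_mem P.2 (mul_mem x.2 y.2) (hN3 _ hmem h)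
    have : y = x⁻¹ := eq_inv_of_mul_eq_one_right (Subtype.ext h1)
    rw [this]
    exact inv_mem (Subgroup.mem_zpowers x)
  -- the quotient is a copy of the Sylow 2-subgroup
  have hq2 : IsPGroup 2 (G ⧸ N) := fun q => by
    obtain ⟨g, rfl⟩ := QuotientGroup.mk'_surjective N q
    refine ⟨2, ?_⟩
    rw [← map_pow]
    rcases order_cases hall g with h | h | h | h
    · rw [orderOf_eq_one_iff.mp h, one_pow, map_one]
    · rw [pow_succ, pow_one, pow_mul, pow_of_order h, one_pow, map_one]
    · rw [map_pow, show QuotientGroup.mk' N g = 1 from (QuotientGroup.eq_one_iff g).mpr (hord3 g h), one_pow]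
    · rw [show (2 : ℕ) ^ 2 = 4 from rfl, pow_of_order h, map_one]
  let f : ↥(P : Subgroup G) →* G ⧸ N := (QuotientGroup.mk' N).comp (P : Subgroup G).subtype
  have hbij : Function.Bijective f := by
    refine ⟨(injective_iff_map_eq_one f).mpr fun x hx => ?_, ?_⟩
    · have hm : (x : G) ∈ N := (QuotientGroup.eq_one_iff _).mp hx
      by_contra h
      exact not_three_of_mem P.2 x.2 (hN3 _ hm (fun e => h (Subtype.ext e)))
    · have h := (P.mapSurjective (QuotientGroup.mk'_surjective N)).3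
        (Q := (⊤ : Subgroup (G ⧸ N))) (hq2.to_subgroup ⊤) le_top
      rw [Sylow.coe_mapSurjective] at h
      intro q
      obtain ⟨x, hx, rfl⟩ : q ∈ (P : Subgroup G).map (QuotientGroup.mk' N) := h ▸ Subgroup.mem_top q
      exact ⟨⟨x, hx⟩, rfl⟩
  let e := MulEquiv.ofBijective f hbij
  refine ⟨⟨hab, hN3'⟩, ?_⟩
  have hdP : d ∈ (P : Subgroup G) := hP (Subgroup.mem_zpowers d)
  rcases CfsgLib.RankOneP.isCyclic_or_quaternion P.2 hPu with hcyc | ⟨-, k, hk, ⟨eq⟩⟩
  · refine Or.inl ⟨isCyclic_of_surjective e.toMonoidHom e.surjective, ?_⟩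
    obtain ⟨a, ha⟩ := hcyc.exists_ofOrder_eq_natCard
    have h1 := hall (a : G)
    rw [Subgroup.orderOf_coe, ha] at h1
    have h2 : 4 ∣ Nat.card (P : Subgroup G) := hd ▸ Subgroup.orderOf_dvd_natCard _ hdP
    rw [Subgroup.index_eq_card, ← Nat.card_congr e.toEquiv]
    have := Nat.le_of_dvd Nat.card_pos h2
    omega
  · haveI : NeZero (2 ^ k) := ⟨by positivity⟩
    have h1 := hall ((eq.symm (QuaternionGroup.a 1) : (P : Subgroup G)) : G)
    rw [Subgroup.orderOf_coe, MulEquiv.orderOf_eq, QuaternionGroup.orderOf_a_one] at h1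
    have hk1 : k = 1 := by
      have : 2 ^ k ≤ 2 ^ 1 := by omega
      have := (Nat.pow_le_pow_iff_right (by norm_num : 1 < 2)).mp this
      omega
    subst hk1
    exact Or.inr ⟨e.symm.trans eq⟩

theorem case_two (hall : Orders G) {c d : G} (hc : orderOf c = 3) (hd : orderOf d = 4)
    (h3 : Cfsg.pCore 3 G = ⊥) [hn : (Cfsg.pCore 2 G).Normal] :
    (IsPGroup 2 ↥(Cfsg.pCore 2 G) ∧ Monoid.exponent ↥(Cfsg.pCore 2 G) = 4 ∧
        Group.nilpotencyClass ↥(Cfsg.pCore 2 G) ≤ 2 ∧ (Cfsg.pCore 2 G).index = 3) ∨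
      (Cfsg.IsElementaryAbelian 2 (Cfsg.pCore 2 G) ∧ Nonempty (G ⧸ Cfsg.pCore 2 G ≃* Equiv.Perm (Fin 3))) := by
  haveI : Fact (Nat.Prime 2) := ⟨Nat.prime_two⟩
  haveI : Fact (Nat.Prime 3) := ⟨Nat.prime_three⟩
  set N := Cfsg.pCore 2 G with hNdef
  have hNp : IsPGroup 2 N := CfsgLib.PCore.isPGroup_pCore 2 G
  have hc1 : c ≠ 1 := fun h => by rw [h, orderOf_one] at hc; omega
  haveI : Nontrivial G := ⟨⟨c, 1, hc1⟩⟩
  haveI : Group.IsSolvable G :=
    CfsgLib.CharBasics.isSolvable_two_primes 2 3 fun r hr hrd => prime_two_three hall hr hrd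
  have hNne : N ≠ ⊥ := by
    obtain ⟨D, hD1, hDn, hDc⟩ := Cfsg.Agent.S4005.exists_abelian_invariant (G := G)
    intro hN
    obtain ⟨y, hy, hy1⟩ := (Subgroup.bot_or_exists_ne_one D).resolve_left hD1
    by_cases hy3 : orderOf y = 3
    · have : IsPGroup 3 D := fun z => ⟨1, Subtype.ext (by
        rw [pow_one, Subgroup.coe_pow, OneMemClass.coe_one]
        by_contra hz
        refine hz ?_
        rw [no_commute hall hy3 (fun e => hz (by rw [← e, pow_orderOf_eq_one]))
          (congrArg Subtype.val (mul_comm' (⟨y, hy⟩ : D) z)), one_pow])⟩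
      exact hD1 (le_bot_iff.mp (h3 ▸ CfsgLib.PCore.le_pCore hDn this))
    · have : IsPGroup 2 D := fun z => ⟨2, Subtype.ext (by
        rw [Subgroup.coe_pow, OneMemClass.coe_one]
        rcases order_cases hall (z : G) with h | h | h | h
        · rw [orderOf_eq_one_iff.mp h, one_pow]
        · rw [pow_succ, pow_one, pow_mul, pow_of_order h, one_pow]
        · exact absurd (no_commute hall h hy3 (congrArg Subtype.val (mul_comm' z (⟨y, hy⟩ : D)))) hy1
        · rw [show (2 : ℕ) ^ 2 = 4 from rfl, pow_of_order h])⟩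
      exact hD1 (le_bot_iff.mp (hN ▸ CfsgLib.PCore.le_pCore hDn this))
  have hNt : ∀ x ∈ N, orderOf x ≠ 3 := fun x hx => not_three_of_mem hNp hx
  -- Sylow 3-subgroups have order three, the Sylow 2-subgroup index three
  obtain ⟨R⟩ : Nonempty (Sylow 3 G) := inferInstance
  have hR : Nat.card (R : Subgroup G) ∣ 3 :=
    Cfsg.Agent.S4005.card_le_of_fpf (by norm_num) hNne hNp R (fun x hx => sylow_three_pow hall R hx)
      (fun x y hx hx3 hy hyN hcomm => hy (no_commute hall (orderOf_eq_prime hx3 hx) (hNt y hyN) hcomm))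
  obtain ⟨P⟩ : Nonempty (Sylow 2 G) := inferInstance
  have hPi : (P : Subgroup G).index = 3 := by
    have hdvd : (P : Subgroup G).index ∣ 3 := by
      refine Nat.Coprime.dvd_of_dvd_mul_right ?_ ((P : Subgroup G).index_dvd_card.trans
        (dvd_of_eq (R : Subgroup G).card_mul_index.symm)) |>.trans hR
      refine Nat.coprime_of_dvd fun r hr h1 h2 => ?_
      rcases prime_two_three hall hr (h1.trans (P : Subgroup G).index_dvd_card) with rfl | rfl
      · exact P.not_dvd_index h1
      · exact R.not_dvd_index h2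
    refine ((Nat.dvd_prime Nat.prime_three).mp hdvd).resolve_left fun h1 => ?_
    exact not_three_of_mem P.2 (Subgroup.index_eq_one.mp h1 ▸ Subgroup.mem_top c) hc
  have hcore : (P : Subgroup G).normalCore = N := by
    refine le_antisymm (CfsgLib.PCore.le_pCore inferInstance (P.2.to_le (Subgroup.normalCore_le _))) ?_
    refine Subgroup.normal_le_normalCore.mpr ?_
    obtain ⟨Q, hQ⟩ := hNp.exists_le_sylow
    obtain ⟨g, rfl⟩ := MulAction.exists_smul_eq G Q P
    intro x hx
    rw [Sylow.coe_subgroup_smul, Subgroup.mem_pointwise_smul_iff_inv_smul_mem]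
    refine hQ ?_
    change (MulAut.conj g)⁻¹ x ∈ N
    rw [MulAut.conj_inv_apply]
    simpa using hn.conj_mem x hx g⁻¹
  let e3 : G ⧸ (P : Subgroup G) ≃ Fin 3 :=
    (Finite.equivFinOfCardEq (by rw [← Subgroup.index_eq_card, hPi]))
  let φ : G →* Equiv.Perm (Fin 3) :=
    e3.permCongrHom.toMonoidHom.comp (MulAction.toPermHom G (G ⧸ (P : Subgroup G)))
  have hker : φ.ker = N := by
    rw [← hcore, Subgroup.normalCore_eq_ker]
    ext x
    simp [φ, MonoidHom.mem_ker]
  -- elements of order three act without fixed points and splittingly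
  have hout : ∀ g : G, orderOf g = 3 → g ∉ N := fun g hg hgN => hNt g hgN hg
  have hnext : ∀ g : G, orderOf g = 3 → ∀ x ∈ N, orderOf (x * g) = 3 := by
    intro g hg x hx
    have h1 : φ (x * g) = φ g := by
      rw [map_mul, (MonoidHom.mem_ker.mp (hker.symm ▸ hx) : φ x = 1), one_mul]
    have hg1 : φ g ≠ 1 := fun h => hout g hg (hker ▸ MonoidHom.mem_ker.mpr h)
    have h3' : orderOf (φ g) = 3 := by
      refine ((Nat.dvd_prime Nat.prime_three).mp ((orderOf_map_dvd φ g).trans (dvd_of_eq hg))).resolve_left fun h => hg1 ?_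
      exact orderOf_eq_one_iff.mp h
    have h := orderOf_map_dvd φ (x * g)
    rw [h1, h3'] at h
    rcases order_cases hall (x * g) with h' | h' | h' | h' <;> omega
  have hsplit : ∀ g : G, orderOf g = 3 → ∀ x ∈ N, x * (g * x * g⁻¹) * (g * (g * x * g⁻¹) * g⁻¹) = 1 := by
    intro g hg x hx
    have h1 : (x * g) ^ 3 = 1 := by rw [← hnext g hg x hx, pow_orderOf_eq_one]
    have h2 : g ^ 3 = 1 := by rw [← hg, pow_orderOf_eq_one]
    calc x * (g * x * g⁻¹) * (g * (g * x * g⁻¹) * g⁻¹) = (x * g) ^ 3 * (g ^ 3)⁻¹ := by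
          simp only [pow_three]; group
      _ = 1 := by rw [h1, h2]; group
  have hcomm : ∀ g : G, orderOf g = 3 → ∀ x ∈ N, Commute x (g * x * g⁻¹) := by
    intro g hg x hx
    have hg' : orderOf g⁻¹ = 3 := by rw [orderOf_inv]; exact hg
    have h2 : g ^ 3 = 1 := by rw [← hg, pow_orderOf_eq_one]
    have h1 := hsplit g hg x hx
    have h3' := hsplit g⁻¹ hg' x hx
    have e1 : g⁻¹ * x * g⁻¹⁻¹ = g * (g * x * g⁻¹) * g⁻¹ := by
      calc g⁻¹ * x * g⁻¹⁻¹ = g⁻¹ * (g ^ 3 * x * (g ^ 3)⁻¹) * g := by rw [h2]; group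
        _ = _ := by simp only [pow_three]; group
    have e2 : g⁻¹ * (g * (g * x * g⁻¹) * g⁻¹) * g⁻¹⁻¹ = g * x * g⁻¹ := by group
    rw [e1, e2] at h3'
    set a := g * x * g⁻¹
    set b := g * a * g⁻¹
    have ea : a * b = x⁻¹ := eq_inv_of_mul_eq_one_right (by rw [← mul_assoc]; exact h1)
    have eb : b * a = x⁻¹ := eq_inv_of_mul_eq_one_right (by rw [← mul_assoc]; exact h3')
    have hab : Commute a b := ea.trans eb.symm
    have hxe : x = (a * b)⁻¹ := by rw [ea, inv_inv]
    rw [hxe]
    exact ((Commute.refl a).mul_left hab.symm).inv_left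
  have hE : ∀ x g : ↥N, Commute x (g * x * g⁻¹) := by
    intro x g
    apply Subtype.ext
    show (x : G) * ((g : G) * x * (g : G)⁻¹) = ((g : G) * x * (g : G)⁻¹) * x
    have hk : ∀ k : G, orderOf k = 3 → Commute (x : G) ((g : G) * (k * x * k⁻¹) * (g : G)⁻¹) := fun k hk => by
      have := hcomm _ (hnext k hk g g.2) x x.2
      simpa [mul_assoc] using this
    have h1 := hk c hc
    have h2 := hk c⁻¹ (by rw [orderOf_inv]; exact hc)
    have hc3 : c ^ 3 = 1 := by rw [pow_of_order hc]
    have e1 : c⁻¹ * (x : G) * c⁻¹⁻¹ = c * (c * x * c⁻¹) * c⁻¹ := by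
      calc c⁻¹ * (x : G) * c⁻¹⁻¹ = c⁻¹ * (c ^ 3 * x * (c ^ 3)⁻¹) * c := by rw [hc3]; group
        _ = _ := by simp only [pow_three]; group
    rw [e1] at h2
    have hx : (x : G) = ((c * x * c⁻¹) * (c * (c * x * c⁻¹) * c⁻¹))⁻¹ :=
      eq_inv_of_mul_eq_one_left (by rw [← mul_assoc]; exact hsplit c hc x x.2)
    have := (h1.mul_right h2).inv_right
    have e : ((g : G) * (c * x * c⁻¹) * (g : G)⁻¹ * ((g : G) * (c * (c * x * c⁻¹) * c⁻¹) * (g : G)⁻¹))⁻¹ =
        (g : G) * x * (g : G)⁻¹ := by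
      conv_rhs => rw [hx]
      group
    rw [e] at this
    exact this.eq
  have hno3 : ∀ z : ↥N, z ^ 3 = 1 → z = 1 := fun z hz => by
    by_contra h
    exact hNt z z.2 (by rw [Subgroup.orderOf_coe]; exact orderOf_eq_prime hz h)
  have hcl : ∀ x y z : ↥N, Commute ⁅x, y⁆ z := fun x y z =>
    (commutatorElement_eq_one_iff_commute.mp (class_two hE hno3 y x z)).symm
  haveI : Group.IsNilpotent ↥N := hNp.isNilpotent
  have hclass : Group.nilpotencyClass ↥N ≤ 2 := by
    rw [← Subgroup.upperCentralSeries_eq_top_iff_nilpotencyClass_le, eq_top_iff]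
    intro x _
    rw [Subgroup.mem_upperCentralSeries_succ_iff]
    intro y
    rw [Subgroup.upperCentralSeries_one, Subgroup.mem_center_iff]
    intro z
    have := (hcl x y z).eq
    rw [commutatorElement_def] at this
    exact this.symm
  have hfix : ∀ x ∈ N, c * x * c⁻¹ = x → x = 1 := fun x hx he =>
    no_commute hall hc (hNt x hx) (mul_inv_eq_iff_eq_mul.mp he)
  -- the image
  have hrange : φ.range = ⊤ ∨ Nat.card φ.range = 3 := by
    have h1 : Nat.card φ.range ∣ 6 := by
      have := φ.range.card_subgroup_dvd_card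
      simpa [Nat.card_eq_fintype_card, Fintype.card_perm, Nat.factorial] using this
    have h2 : 3 ∣ Nat.card φ.range := by
      have h := Subgroup.index_dvd_of_le (Subgroup.normalCore_le (P : Subgroup G))
      rw [hPi, hcore] at h
      have e : N.index = Nat.card φ.range := (congrArg Subgroup.index hker.symm).trans (Subgroup.index_ker φ)
      exact e ▸ h
    have h6 := Nat.le_of_dvd (by norm_num) h1
    have : 0 < Nat.card φ.range := Nat.card_pos
    by_cases hsix : Nat.card φ.range = 6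
    · left
      refine Subgroup.eq_top_of_card_eq _ ?_
      rw [hsix]
      simp [Nat.card_eq_fintype_card, Fintype.card_perm, Nat.factorial]
    · right
      omega
  rcases hrange with htop | hcard3
  · right
    have hsurj : Function.Surjective φ := MonoidHom.range_eq_top.mp htop
    refine ⟨?_, ⟨(QuotientGroup.quotientMulEquivOfEq hker.symm).trans
      (QuotientGroup.quotientKerEquivOfSurjective φ hsurj)⟩⟩
    have hS3 : ∀ a : Equiv.Perm (Fin 3), a * a * a = 1 → a ≠ 1 →
        ∃ s : Equiv.Perm (Fin 3), s ≠ 1 ∧ s * s = 1 ∧ s * a * s⁻¹ = a⁻¹ := by decide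
    have hc3 : c * c * c = 1 := by rw [← pow_three', pow_of_order hc]
    obtain ⟨s, hs1, hs2, hsc⟩ := hS3 (φ c) (by rw [← map_mul, ← map_mul, hc3, map_one])
      (fun h => hout c hc (hker ▸ MonoidHom.mem_ker.mpr h))
    obtain ⟨g, hg⟩ := hsurj s
    have hn0 : g * c * g⁻¹ * c ∈ N := by
      rw [← hker, MonoidHom.mem_ker, map_mul, map_mul, map_mul, map_inv, hg, hsc, inv_mul_cancel]
    let μ : ↥N → ↥N := fun m => ⟨(m : G) * c⁻¹ * (m : G)⁻¹ * c, by
      have := mul_mem m.2 (hn.conj_mem _ (inv_mem m.2) c⁻¹)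
      simpa [mul_assoc] using this⟩
    have hμ : Function.Injective μ := fun a b hab => by
      have h : (a : G) * c⁻¹ * (a : G)⁻¹ = (b : G) * c⁻¹ * (b : G)⁻¹ :=
        mul_right_cancel (congrArg Subtype.val hab)
      have h2 : c * ((b : G)⁻¹ * a) * c⁻¹ = (b : G)⁻¹ * a := by
        calc c * ((b : G)⁻¹ * a) * c⁻¹ = c * (b : G)⁻¹ * ((a : G) * c⁻¹ * (a : G)⁻¹) * a := by group
          _ = _ := by rw [h]; group
      exact (Subtype.ext (inv_mul_eq_one.mp (hfix _ (mul_mem (inv_mem b.2) a.2) h2))).symm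
    obtain ⟨m, hm⟩ := Finite.injective_iff_surjective.mp hμ ⟨_, hn0⟩
    have hm' : g * c * g⁻¹ = (m : G) * c⁻¹ * (m : G)⁻¹ := (mul_right_cancel (congrArg Subtype.val hm)).symm
    set t := (m : G)⁻¹ * g
    have htc : t * c * t⁻¹ = c⁻¹ := by
      calc t * c * t⁻¹ = (m : G)⁻¹ * (g * c * g⁻¹) * m := by simp only [t]; group
        _ = c⁻¹ := by rw [hm']; group
    have hφt : φ t = s := by
      simp only [t, map_mul, map_inv, (MonoidHom.mem_ker.mp (hker.symm ▸ m.2) : φ (m : G) = 1), hg, inv_one,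
        one_mul]
    have ht2 : t * t = 1 := by
      refine hfix _ (by rw [← hker, MonoidHom.mem_ker, map_mul, hφt, hs2]) ?_
      have h1 : t * t * c * (t * t)⁻¹ = c := by
        calc t * t * c * (t * t)⁻¹ = t * (t * c * t⁻¹) * t⁻¹ := by group
          _ = (t * c * t⁻¹)⁻¹ := (congrArg (fun e => t * e * t⁻¹) htc).trans (by group)
          _ = c := by rw [htc, inv_inv]
      calc c * (t * t) * c⁻¹ = (t * t * c * (t * t)⁻¹) * (t * t) * c⁻¹ := by rw [h1]
        _ = t * t := by group
    have htinv : t⁻¹ = t := inv_eq_of_mul_eq_one_left ht2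
    let C : MulAut ↥N := MulAut.conjNormal c
    let T : MulAut ↥N := MulAut.conjNormal t
    have hfour : ∀ u : G, φ u ≠ 1 → φ u * φ u = 1 → u * u * (u * u) = 1 := by
      intro u h1 h2
      have hne : orderOf u ≠ 3 := fun h => h1 (by
        have h3' : φ u * φ u * φ u = 1 := by rw [← map_mul, ← map_mul, ← pow_three', pow_of_order h, map_one]
        rwa [h2, one_mul] at h3')
      rcases order_cases hall u with h | h | h | h
      · rw [orderOf_eq_one_iff.mp h]; group
      · rw [← pow_two u, pow_of_order h, one_mul]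
      · exact absurd h hne
      · rw [← pow_of_order h]; simp only [pow_succ, pow_zero, one_mul, mul_assoc]
    have hφN : ∀ f : ↥N, φ (f : G) = 1 := fun f => MonoidHom.mem_ker.mp (hker.symm ▸ f.2)
    have hq : ∀ f : ↥N, (f * T f) * (f * T f) = 1 := fun f => by
      apply Subtype.ext
      show ((f : G) * (t * f * t⁻¹)) * ((f : G) * (t * f * t⁻¹)) = 1
      have h := hfour ((f : G) * t) (by rw [map_mul, hφN, one_mul, hφt]; exact hs1)
        (by rw [map_mul, hφN, one_mul, hφt, hs2])
      rw [← h, htinv]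
      group
    have hq' : ∀ f : ↥N, (f * T (C f)) * (f * T (C f)) = 1 := fun f => by
      apply Subtype.ext
      show ((f : G) * (t * (c * f * c⁻¹) * t⁻¹)) * ((f : G) * (t * (c * f * c⁻¹) * t⁻¹)) = 1
      have hu : t * c * (t * c) = 1 := by
        calc t * c * (t * c) = (t * c * t⁻¹) * (t * t) * c := by group
          _ = 1 := by rw [htc, ht2]; group
      have hφtc : φ (t * c) ≠ 1 := fun h => by
        have hmem : t * c ∈ N := hker ▸ MonoidHom.mem_ker.mpr h
        have h1 : φ c = s⁻¹ := eq_inv_of_mul_eq_one_right (by rw [← hφt, ← map_mul, h])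
        have h2 : φ c * φ c * φ c = 1 := by rw [← map_mul, ← map_mul, hc3, map_one]
        have h3' : s⁻¹ * s⁻¹ = 1 := by rw [← mul_inv_rev, hs2, inv_one]
        rw [h1, h3', one_mul] at h2
        exact hs1 (inv_eq_one.mp h2)
      have h := hfour ((f : G) * (t * c)) (by rw [map_mul, hφN, one_mul]; exact hφtc)
        (by rw [map_mul, hφN, one_mul, ← map_mul, hu, map_one])
      have e : t * (c * (f : G) * c⁻¹) * t⁻¹ = (t * c) * f * (t * c) := by
        conv_rhs => rw [show (t * c) * (f : G) * (t * c) = (t * c) * f * (t * c)⁻¹ from by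
          rw [inv_eq_of_mul_eq_one_left hu]]
        group
      rw [e, ← h]
      group
    have hTC : ∀ x : ↥N, T (C x) = C (C (T x)) := fun x => Subtype.ext (by
      show t * (c * (x : G) * c⁻¹) * t⁻¹ = c * (c * (t * x * t⁻¹) * c⁻¹) * c⁻¹
      calc t * (c * (x : G) * c⁻¹) * t⁻¹ = (t * c * t⁻¹) * (t * x * t⁻¹) * (t * c * t⁻¹)⁻¹ := by group
        _ = c⁻¹ * (c * c * c) * (t * x * t⁻¹) * (c * c * c)⁻¹ * c := by rw [htc, hc3]; group
        _ = _ := by group)
    have hsq := sq_eq_one C T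
      (fun x => Subtype.ext (by
        show c * (c * (c * (x : G) * c⁻¹) * c⁻¹) * c⁻¹ = x
        calc c * (c * (c * (x : G) * c⁻¹) * c⁻¹) * c⁻¹ = (c * c * c) * x * (c * c * c)⁻¹ := by group
          _ = x := by rw [hc3]; group))
      (fun x => Subtype.ext (by
        show t * (t * (x : G) * t⁻¹) * t⁻¹ = x
        calc t * (t * (x : G) * t⁻¹) * t⁻¹ = (t * t) * x * (t * t)⁻¹ := by group
          _ = x := by rw [ht2]; group))
      hTC (fun x hx => Subtype.ext (hfix x x.2 (congrArg Subtype.val hx)))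
      (fun x => Subtype.ext (hsplit c hc x x.2)) (fun x => Subtype.ext (hcomm c hc x x.2).eq) hcl hq hq'
    refine ⟨⟨⟨fun a b => ?_⟩⟩, fun a ha => by rw [pow_two]; exact congrArg Subtype.val (hsq ⟨a, ha⟩)⟩
    have h := hsq (a * b)
    rw [eq_inv_of_mul_eq_one_left h, mul_inv_rev, inv_eq_of_mul_eq_one_left (hsq a),
      inv_eq_of_mul_eq_one_left (hsq b)]
  · left
    have hidx : N.index = 3 := by rw [← hker, Subgroup.index_ker, hcard3]
    refine ⟨hNp, ?_, hclass, hidx⟩
    have hdN : d ∈ N := by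
      have h := Subgroup.pow_index_mem N d
      rw [hidx] at h
      have h4 : d ^ 3 * d = 1 := by rw [← pow_succ, pow_of_order hd]
      rw [eq_inv_of_mul_eq_one_left h4] at h
      exact (Subgroup.inv_mem_iff N).mp h
    refine Nat.dvd_antisymm (Monoid.exponent_dvd_of_forall_pow_eq_one fun x => ?_) ?_
    · apply Subtype.ext
      rw [Subgroup.coe_pow, OneMemClass.coe_one]
      rcases order_cases hall (x : G) with h | h | h | h
      · rw [orderOf_eq_one_iff.mp h, one_pow]
      · rw [show (4 : ℕ) = 2 * 2 from rfl, pow_mul, pow_of_order h, one_pow]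
      · exact absurd h (hNt x x.2)
      · rw [pow_of_order h]
    · have : orderOf (⟨d, hdN⟩ : ↥N) = 4 := by rw [← Subgroup.orderOf_coe]; exact hd
      rw [← this]
      exact Monoid.order_dvd_exponent _

end Concrete

/-- A finite group whose set of element orders is exactly {1, 2, 3, 4} has a normal subgroup N such that either N is a 2-group of exponent 4 and nilpotency class at most 2 with G/N of order 3, or N is an elementary abelian 2-group with G/N isomorphic to the symmetric group of degree 3, or N is an elementary abelian 3-group with G/N cyclic of order 4 or quaternion of order 8. -/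
theorem result {G : Type*} [Group G] [Finite G] (h : Set.range (orderOf : G → ℕ) = {k : ℕ | 1 ≤ k ∧ k ≤ 4}) :
    ∃ (N : Subgroup G) (_ : N.Normal),
      (IsPGroup 2 ↥N ∧ Monoid.exponent ↥N = 4 ∧ Group.nilpotencyClass ↥N ≤ 2 ∧ N.index = 3) ∨
      (Cfsg.IsElementaryAbelian 2 N ∧ Nonempty (G ⧸ N ≃* Equiv.Perm (Fin 3))) ∨
      (Cfsg.IsElementaryAbelian 3 N ∧ ((IsCyclic (G ⧸ N) ∧ N.index = 4) ∨ Nonempty (G ⧸ N ≃* QuaternionGroup 2))) := by
  haveI : Fact (Nat.Prime 2) := ⟨Nat.prime_two⟩
  haveI : Fact (Nat.Prime 3) := ⟨Nat.prime_three⟩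
  have hall : Orders G := fun g => by
    have hg : orderOf g ∈ ({k : ℕ | 1 ≤ k ∧ k ≤ 4} : Set ℕ) := h ▸ Set.mem_range_self g
    exact hg.2
  have hex : ∀ k, 1 ≤ k → k ≤ 4 → ∃ g : G, orderOf g = k := fun k h1 h2 => by
    have : k ∈ Set.range (orderOf : G → ℕ) := by rw [h]; exact ⟨h1, h2⟩
    exact this
  obtain ⟨c, hc⟩ := hex 3 (by norm_num) (by norm_num)
  obtain ⟨d, hd⟩ := hex 4 (by norm_num) (by norm_num)
  by_cases h3 : Cfsg.pCore 3 G = ⊥
  · refine ⟨Cfsg.pCore 2 G, inferInstance, ?_⟩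
    rcases case_two hall hc hd h3 with h' | h'
    · exact Or.inl h'
    · exact Or.inr (Or.inl h')
  · exact ⟨Cfsg.pCore 3 G, inferInstance, Or.inr (Or.inr (case_three hall hd h3))⟩

end Cfsg.Agent.S4006
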