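import Cfsg.Statements.S4198
import Mathlib

set_option autoImplicit false
open Cfsg

namespace Cfsg.Agent.S4198

open Multiset in
/-- Removing a part equal to one, or lowering the smallest part. -/
theorem card_partition_succ_le (m : ℕ) :
    Nat.card (Nat.Partition (m + 1)) ≤ Nat.card (Nat.Partition m) + Nat.card (Nat.Partition m) := by
  classical
  rw [← Nat.card_sum]
  have hne : ∀ P : Nat.Partition (m + 1), P.parts ≠ 0 := fun P h => by
    have := P.parts_sum
    rw [h, Multiset.sum_zero] at this
    omega
  have hmin : ∀ P : Nat.Partition (m + 1), ∃ a ∈ P.parts, ∀ b ∈ P.parts, a ≤ b := by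
    intro P
    have h : P.parts.toFinset.Nonempty := by
      obtain ⟨a, ha⟩ := Multiset.exists_mem_of_ne_zero (hne P)
      exact ⟨a, Multiset.mem_toFinset.mpr ha⟩
    exact ⟨P.parts.toFinset.min' h, Multiset.mem_toFinset.mp (Finset.min'_mem _ h),
      fun b hb => Finset.min'_le _ _ (Multiset.mem_toFinset.mpr hb)⟩
  choose a ha hle using hmin
  have hpos : ∀ P, 1 ∉ P.parts → 2 ≤ a P := fun P h1 => by
    have := P.parts_pos (ha P)
    have h2 : a P ≠ 1 := fun e => h1 (by have h3 := ha P; rwa [e] at h3)
    omega
  let f : Nat.Partition (m + 1) → Nat.Partition m ⊕ Nat.Partition m := fun P =>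
    if h1 : 1 ∈ P.parts then
      Sum.inl ⟨P.parts.erase 1, fun hi => P.parts_pos (Multiset.mem_of_mem_erase hi), by
        have h := congrArg Multiset.sum (Multiset.cons_erase h1)
        rw [Multiset.sum_cons, P.parts_sum] at h
        omega⟩
    else
      Sum.inr ⟨(a P - 1) ::ₘ P.parts.erase (a P), fun {i} hi => by
        rcases Multiset.mem_cons.mp hi with rfl | hi
        · have := hpos P h1; omega
        · exact P.parts_pos (Multiset.mem_of_mem_erase hi), by
        have h := congrArg Multiset.sum (Multiset.cons_erase (ha P))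
        rw [Multiset.sum_cons, P.parts_sum] at h
        have := hpos P h1
        rw [Multiset.sum_cons]
        omega⟩
  refine Nat.card_le_card_of_injective f (fun P Q h => ?_)
  simp only [f] at h
  apply Nat.Partition.ext
  by_cases hP : 1 ∈ P.parts <;> by_cases hQ : 1 ∈ Q.parts
  · rw [dif_pos hP, dif_pos hQ] at h
    have e : P.parts.erase 1 = Q.parts.erase 1 := congrArg Nat.Partition.parts (Sum.inl.inj h)
    rw [← Multiset.cons_erase hP, ← Multiset.cons_erase hQ, e]
  · rw [dif_pos hP, dif_neg hQ] at h
    cases h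
  · rw [dif_neg hP, dif_pos hQ] at h
    cases h
  · rw [dif_neg hP, dif_neg hQ] at h
    have e : (a P - 1) ::ₘ P.parts.erase (a P) = (a Q - 1) ::ₘ Q.parts.erase (a Q) :=
      congrArg Nat.Partition.parts (Sum.inr.inj h)
    have low : ∀ R : Nat.Partition (m + 1), ∀ x ∈ (a R - 1) ::ₘ R.parts.erase (a R), a R - 1 ≤ x := by
      intro R x hx
      rcases Multiset.mem_cons.mp hx with rfl | hx
      · exact le_rfl
      · have := hle R x (Multiset.mem_of_mem_erase hx); omega
    have k1 := low P (a Q - 1) (e ▸ Multiset.mem_cons_self _ _)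
    have k2 := low Q (a P - 1) (e.symm ▸ Multiset.mem_cons_self _ _)
    have h1 := hpos P hP
    have h2 := hpos Q hQ
    have k : a P = a Q := by omega
    rw [k] at e
    rw [← Multiset.cons_erase (ha P), ← Multiset.cons_erase (ha Q), k, (Multiset.cons_inj_right _).mp e]

/-- Solutions of `a + 2b + 3c + 4d + 5e = 5`. -/
theorem five_solutions : ((Finset.univ : Finset (Fin 6 × Fin 3 × Fin 2 × Fin 2 × Fin 2)).filter fun x =>
    x.1.val + 2 * x.2.1.val + 3 * x.2.2.1.val + 4 * x.2.2.2.1.val + 5 * x.2.2.2.2.val = 5).card ≤ 8 := by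
  decide +kernel

/-- There are at most eight partitions of five. -/
theorem card_partition_five : Nat.card (Nat.Partition 5) ≤ 8 := by
  classical
  have hsum : ∀ P : Nat.Partition 5, P.parts.count 1 + 2 * P.parts.count 2 + 3 * P.parts.count 3 +
      4 * P.parts.count 4 + 5 * P.parts.count 5 = 5 := by
    intro P
    have hsub : P.parts.toFinset ⊆ Finset.Icc 1 5 := fun x hx => by
      rw [Multiset.mem_toFinset] at hx
      have h1 := P.parts_pos hx
      have h2 := Multiset.single_le_sum (fun _ _ => Nat.zero_le _) x hx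
      rw [P.parts_sum] at h2
      simp only [Finset.mem_Icc]
      omega
    have h := Finset.sum_multiset_count_of_subset P.parts (Finset.Icc 1 5) hsub
    rw [P.parts_sum] at h
    simp [Finset.sum_Icc_succ_top, mul_comm] at h
    omega
  let f : Nat.Partition 5 → {x // x ∈ ((Finset.univ : Finset (Fin 6 × Fin 3 × Fin 2 × Fin 2 × Fin 2)).filter fun x =>
      x.1.val + 2 * x.2.1.val + 3 * x.2.2.1.val + 4 * x.2.2.2.1.val + 5 * x.2.2.2.2.val = 5)} := fun P =>
    ⟨(⟨P.parts.count 1, by have := hsum P; omega⟩, ⟨P.parts.count 2, by have := hsum P; omega⟩,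
      ⟨P.parts.count 3, by have := hsum P; omega⟩, ⟨P.parts.count 4, by have := hsum P; omega⟩,
      ⟨P.parts.count 5, by have := hsum P; omega⟩), Finset.mem_filter.mpr ⟨Finset.mem_univ _, hsum P⟩⟩
  refine (Nat.card_le_card_of_injective f (fun P Q h => ?_)).trans ?_
  · simp only [f, Subtype.mk.injEq, Prod.mk.injEq, Fin.mk.injEq] at h
    refine Nat.Partition.ext (Multiset.ext.mpr fun x => ?_)
    have hz : ∀ R : Nat.Partition 5, x = 0 ∨ 5 < x → R.parts.count x = 0 := fun R hx => by
      rw [Multiset.count_eq_zero]
      intro hm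
      have h1 := R.parts_pos hm
      have h2 := Multiset.single_le_sum (fun _ _ => Nat.zero_le _) x hm
      rw [R.parts_sum] at h2
      omega
    by_cases hx : x = 0 ∨ 5 < x
    · rw [hz P hx, hz Q hx]
    · obtain ⟨h1, h2, h3, h4, h5⟩ := h
      rcases (show x = 1 ∨ x = 2 ∨ x = 3 ∨ x = 4 ∨ x = 5 by omega) with rfl | rfl | rfl | rfl | rfl <;> assumption
  · rw [Nat.card_eq_fintype_card, Fintype.card_coe]
    exact five_solutions

/-- The number of partitions is at most `2 ^ (m - 2)` from five on. -/
theorem card_partition_le {m : ℕ} (hm : 5 ≤ m) : Nat.card (Nat.Partition m) ≤ 2 ^ (m - 2) := by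
  induction m, hm using Nat.le_induction with
  | base => exact card_partition_five
  | succ m hm ih =>
    refine (card_partition_succ_le m).trans ?_
    rw [show m + 1 - 2 = (m - 2) + 1 by omega, pow_succ]
    omega

/-- For n ≥ 5 the alternating group of degree n has strictly fewer conjugacy classes than the symmetric group of degree n, and the symmetric group of degree n (whose classes correspond to the partitions of n) has at most 2^(n−2) conjugacy classes. -/
theorem result (n : ℕ) (hn : 5 ≤ n) : Nat.card (ConjClasses (alternatingGroup (Fin n))) < Nat.card (ConjClasses (Equiv.Perm (Fin n))) ∧ Nat.card (ConjClasses (Equiv.Perm (Fin n))) ≤ 2 ^ (n - 2) := by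
  classical
  constructor
  · let i : ConjClasses (alternatingGroup (Fin n)) → ConjClasses (Equiv.Perm (Fin n)) :=
      ConjClasses.map (alternatingGroup (Fin n)).subtype
    have hi : ∀ σ : alternatingGroup (Fin n), i (ConjClasses.mk σ) = ConjClasses.mk (σ : Equiv.Perm (Fin n)) :=
      fun σ => rfl
    have hsame : ∀ σ τ : alternatingGroup (Fin n), ∀ x : Equiv.Perm (Fin n), Equiv.Perm.sign x = 1 →
        x * σ * x⁻¹ = τ → ConjClasses.mk σ = ConjClasses.mk τ := fun σ τ x hx e =>
      ConjClasses.mk_eq_mk_iff_isConj.mpr (isConj_iff.mpr ⟨⟨x, Equiv.Perm.mem_alternatingGroup.mpr hx⟩, Subtype.ext e⟩)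
    -- at most two classes lie over one class
    have htwo : ∀ C D E : ConjClasses (alternatingGroup (Fin n)), i C = i E → i D = i E → C ≠ E → D ≠ E → C = D := by
      intro C D E hCE hDE hC hD
      obtain ⟨c, rfl⟩ := ConjClasses.exists_rep C
      obtain ⟨d, rfl⟩ := ConjClasses.exists_rep D
      obtain ⟨e, rfl⟩ := ConjClasses.exists_rep E
      rw [hi, hi, ConjClasses.mk_eq_mk_iff_isConj, isConj_iff] at hCE hDE
      obtain ⟨x, hx⟩ := hCE
      obtain ⟨y, hy⟩ := hDE
      have hxs : Equiv.Perm.sign x = -1 :=
        (Int.units_eq_one_or _).resolve_left (fun h => hC (hsame c e x h hx))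
      have hys : Equiv.Perm.sign y = -1 :=
        (Int.units_eq_one_or _).resolve_left (fun h => hD (hsame d e y h hy))
      refine hsame c d (y⁻¹ * x) (by rw [map_mul, map_inv, hxs, hys]; decide) ?_
      rw [← hy] at hx
      calc y⁻¹ * x * (c : Equiv.Perm (Fin n)) * (y⁻¹ * x)⁻¹ = y⁻¹ * (x * c * x⁻¹) * y := by group
        _ = y⁻¹ * (y * d * y⁻¹) * y := by rw [hx]
        _ = d := by group
    haveI : Nonempty (ConjClasses (alternatingGroup (Fin n))) := ⟨ConjClasses.mk 1⟩
    let can : ConjClasses (alternatingGroup (Fin n)) → ConjClasses (alternatingGroup (Fin n)) := fun C =>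
      Function.invFun i (i C)
    have hcan : ∀ C, i (can C) = i C := fun C => Function.invFun_eq ⟨C, rfl⟩
    -- cycle type of a split class
    have hsplit : ∀ σ : alternatingGroup (Fin n), can (ConjClasses.mk σ) ≠ ConjClasses.mk σ →
        (∀ c ∈ (σ : Equiv.Perm (Fin n)).cycleType, Odd c) ∧ n ≤ (σ : Equiv.Perm (Fin n)).cycleType.sum + 1 ∧
          ∀ c, (σ : Equiv.Perm (Fin n)).cycleType.count c ≤ 1 := by
      intro σ hne
      have hle : Subgroup.centralizer {(σ : Equiv.Perm (Fin n))} ≤ alternatingGroup (Fin n) := by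
        intro z hz
        rw [Equiv.Perm.mem_alternatingGroup]
        rcases Int.units_eq_one_or (Equiv.Perm.sign z) with h | h
        · exact h
        exfalso
        apply hne
        obtain ⟨τ, hτ⟩ := ConjClasses.exists_rep (can (ConjClasses.mk σ))
        rw [← hτ]
        have hc := hcan (ConjClasses.mk σ)
        rw [← hτ, hi, hi, ConjClasses.mk_eq_mk_iff_isConj, isConj_iff] at hc
        obtain ⟨x, hx⟩ := hc
        rcases Int.units_eq_one_or (Equiv.Perm.sign x) with h' | h'
        · exact hsame τ σ x h' hx
        · refine hsame τ σ (z * x) (by rw [map_mul, h, h']; decide) ?_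
          have hzc := Subgroup.mem_centralizer_singleton_iff.mp hz
          calc z * x * (τ : Equiv.Perm (Fin n)) * (z * x)⁻¹ = z * (x * τ * x⁻¹) * z⁻¹ := by group
            _ = z * σ * z⁻¹ := by rw [hx]
            _ = σ := mul_inv_eq_iff_eq_mul.mpr hzc
      have := Equiv.Perm.centralizer_le_alternating_iff.mp hle
      simpa using this
    -- the odd class attached to a split class
    have hodd : ∀ σ : alternatingGroup (Fin n), can (ConjClasses.mk σ) ≠ ConjClasses.mk σ →
        ∃ τ : Equiv.Perm (Fin n), Equiv.Perm.sign τ = -1 ∧ τ.cycleType ≠ {2} ∧ ∃ a : ℕ, Even (a - 1) ∧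
          a ∈ (σ : Equiv.Perm (Fin n)).cycleType ∧
          τ.cycleType = (a - 1) ::ₘ (σ : Equiv.Perm (Fin n)).cycleType.erase a := by
      intro σ hne
      obtain ⟨ho, hsum, -⟩ := hsplit σ hne
      set T := (σ : Equiv.Perm (Fin n)).cycleType with hT
      obtain ⟨a, ha⟩ : ∃ a, a ∈ T := Multiset.exists_mem_of_ne_zero (fun h => by
        rw [h, Multiset.sum_zero] at hsum; omega)
      have h3 : 3 ≤ a := by
        have h2 := Equiv.Perm.two_le_of_mem_cycleType ha
        obtain ⟨k, hk⟩ := ho a ha
        omega
      have hsum' := congrArg Multiset.sum (Multiset.cons_erase ha)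
      rw [Multiset.sum_cons] at hsum'
      have hcard' := congrArg Multiset.card (Multiset.cons_erase ha)
      rw [Multiset.card_cons] at hcard'
      have hTn : T.sum ≤ n := by
        have := Equiv.Perm.sum_cycleType_le (σ : Equiv.Perm (Fin n))
        simpa [← hT] using this
      obtain ⟨τ, hτ⟩ := (Equiv.Perm.exists_with_cycleType_iff (Fin n) (m := (a - 1) ::ₘ T.erase a)).mpr
        ⟨by rw [Multiset.sum_cons, Fintype.card_fin]; omega, fun x hx => by
          rcases Multiset.mem_cons.mp hx with rfl | hx
          · omega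
          · exact Equiv.Perm.two_le_of_mem_cycleType (Multiset.mem_of_mem_erase hx)⟩
      refine ⟨τ, ?_, ?_, a, ?_, ha, hτ⟩
      · have hσ : Equiv.Perm.sign (σ : Equiv.Perm (Fin n)) = 1 := Equiv.Perm.mem_alternatingGroup.mp σ.2
        rw [Equiv.Perm.sign_of_cycleType, ← hT] at hσ
        rw [Equiv.Perm.sign_of_cycleType, hτ, Multiset.sum_cons, Multiset.card_cons]
        have hev : Even (T.sum + Multiset.card T) := by
          by_contra hc
          rw [Nat.not_even_iff_odd] at hc
          rw [hc.neg_one_pow] at hσ
          exact absurd hσ (by decide)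
        apply Odd.neg_one_pow
        obtain ⟨k, hk⟩ := hev
        exact ⟨k - 1, by omega⟩
      · rw [hτ]
        intro h
        have hs := congrArg Multiset.sum h
        have hc := congrArg Multiset.card h
        simp only [Multiset.sum_cons, Multiset.card_cons, Multiset.sum_singleton, Multiset.card_singleton] at hs hc
        omega
      · obtain ⟨k, hk⟩ := ho a ha
        exact ⟨k, by omega⟩
    choose od hods hod2 oa hoae hoam hoc using hodd
    choose rep hrep using fun C : ConjClasses (alternatingGroup (Fin n)) => ConjClasses.exists_rep C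
    let Ψ : ConjClasses (alternatingGroup (Fin n)) → ConjClasses (Equiv.Perm (Fin n)) := fun C =>
      if h : can (ConjClasses.mk (rep C)) = ConjClasses.mk (rep C) then i C else ConjClasses.mk (od (rep C) h)
    have hsgn : ∀ C, ∀ τ : Equiv.Perm (Fin n), i C = ConjClasses.mk τ → Equiv.Perm.sign τ = 1 := by
      intro C τ h
      obtain ⟨c, rfl⟩ := ConjClasses.exists_rep C
      rw [hi, ConjClasses.mk_eq_mk_iff_isConj, isConj_iff] at h
      obtain ⟨x, rfl⟩ := h
      rw [map_mul, map_mul, map_inv, mul_inv_cancel_comm]
      exact Equiv.Perm.mem_alternatingGroup.mp c.2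
    have hinj : Function.Injective Ψ := by
      intro C D h
      simp only [Ψ] at h
      by_cases hC : can (ConjClasses.mk (rep C)) = ConjClasses.mk (rep C) <;>
        by_cases hD : can (ConjClasses.mk (rep D)) = ConjClasses.mk (rep D)
      · rw [dif_pos hC, dif_pos hD] at h
        rw [hrep] at hC hD
        rw [← hC, ← hD]
        show Function.invFun i (i C) = Function.invFun i (i D)
        rw [h]
      · rw [dif_pos hC, dif_neg hD] at h
        exact absurd (hsgn C _ h) (by rw [hods]; decide)
      · rw [dif_neg hC, dif_pos hD] at h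
        exact absurd (hsgn D _ h.symm) (by rw [hods]; decide)
      · rw [dif_neg hC, dif_neg hD, ConjClasses.mk_eq_mk_iff_isConj, Equiv.Perm.isConj_iff_cycleType_eq,
          hoc, hoc] at h
        have huniq : ∀ (X : ConjClasses (alternatingGroup (Fin n))) (hX : can (ConjClasses.mk (rep X)) ≠ ConjClasses.mk (rep X)),
            ∀ y ∈ ((oa (rep X) hX - 1) ::ₘ ((rep X : Equiv.Perm (Fin n))).cycleType.erase (oa (rep X) hX)),
              Even y → y = oa (rep X) hX - 1 := by
          intro X hX y hy hev
          rcases Multiset.mem_cons.mp hy with e | hy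
          · exact e
          · exact absurd hev (Nat.not_even_iff_odd.mpr ((hsplit _ hX).1 y (Multiset.mem_of_mem_erase hy)))
        have ka := huniq D hD _ (h ▸ Multiset.mem_cons_self _ _) (hoae (rep C) hC)
        have hp1 := Equiv.Perm.two_le_of_mem_cycleType (hoam (rep C) hC)
        have hp2 := Equiv.Perm.two_le_of_mem_cycleType (hoam (rep D) hD)
        have k : oa (rep C) hC = oa (rep D) hD := by omega
        rw [k] at h
        have hT : (rep C : Equiv.Perm (Fin n)).cycleType = (rep D : Equiv.Perm (Fin n)).cycleType := by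
          rw [← Multiset.cons_erase (hoam (rep C) hC), ← Multiset.cons_erase (hoam (rep D) hD), k,
            (Multiset.cons_inj_right _).mp h]
        have hCD : i C = i D := by
          rw [← hrep C, ← hrep D, hi, hi, ConjClasses.mk_eq_mk_iff_isConj, Equiv.Perm.isConj_iff_cycleType_eq]
          exact hT
        rw [hrep] at hC hD
        refine htwo C D (can C) (hcan C).symm ?_ (Ne.symm hC) ?_
        · rw [hcan C, hCD]
        · intro e
          apply hD
          show Function.invFun i (i D) = D
          rw [← hCD]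
          exact e.symm
    refine lt_of_le_of_ne (Nat.card_le_card_of_injective Ψ hinj) (fun hcard => ?_)
    haveI := Fintype.ofFinite (ConjClasses (Equiv.Perm (Fin n)))
    haveI := Fintype.ofFinite (ConjClasses (alternatingGroup (Fin n)))
    rw [Nat.card_eq_fintype_card, Nat.card_eq_fintype_card] at hcard
    have hsurj := ((Fintype.bijective_iff_injective_and_card Ψ).mpr ⟨hinj, hcard⟩).2
    obtain ⟨s, hs⟩ : ∃ s : Equiv.Perm (Fin n), s.IsSwap :=
      ⟨Equiv.swap ⟨0, by omega⟩ ⟨1, by omega⟩, _, _, by simp [Fin.ext_iff], rfl⟩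
    obtain ⟨C, hC⟩ := hsurj (ConjClasses.mk s)
    simp only [Ψ] at hC
    by_cases hc : can (ConjClasses.mk (rep C)) = ConjClasses.mk (rep C)
    · rw [dif_pos hc] at hC
      exact absurd (hsgn C s hC) (by rw [hs.sign_eq]; decide)
    · rw [dif_neg hc, ConjClasses.mk_eq_mk_iff_isConj, Equiv.Perm.isConj_iff_cycleType_eq,
        Equiv.Perm.isSwap_iff_cycleType.mp hs] at hC
      exact hod2 _ hc hC
  · refine le_trans ?_ ((card_partition_le (m := Fintype.card (Fin n)) (by simpa using hn)).trans_eq (by rw [Fintype.card_fin]))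
    refine Nat.card_le_card_of_injective (Quotient.lift Equiv.Perm.partition
      (fun a b h => Equiv.Perm.partition_eq_of_isConj.mp h)) ?_
    intro C D
    induction C using Quotient.inductionOn with | h a => ?_
    induction D using Quotient.inductionOn with | h b => ?_
    intro h
    exact Quotient.sound (Equiv.Perm.partition_eq_of_isConj.mpr h)

end Cfsg.Agent.S4198
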