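import Cfsg.Statements.S4200
import Cfsg.Agent.CharBasics.Extra
import Cfsg.Agent.Clifford.Basic
import Cfsg.Agent.IndFun.Basic
import Mathlib.GroupTheory.CommutingProbability

set_option autoImplicit false
open Cfsg CfsgLib CfsgLib.CharBasics

namespace Cfsg.Agent.S4200

universe u

variable {X : Type u} [Group X]

/-- The constituents of an induced irreducible character: there are at most `index` of them. -/
theorem over_count [Fintype X] [Fintype (IrrCharacter X)] (Y : Subgroup X) [Fintype Y] (θ : IrrCharacter Y)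
    [DecidablePred fun χ : IrrCharacter X => classInner (fun y : Y => (χ : X → ℂ) y) (θ : Y → ℂ) ≠ 0] :
    (Finset.univ.filter fun χ : IrrCharacter X => classInner (fun y : Y => (χ : X → ℂ) y) (θ : Y → ℂ) ≠ 0).card ≤ Y.index ∧
      ((θ : Y → ℂ) = (fun _ => 1) →
        (Finset.univ.filter fun χ : IrrCharacter X => classInner (fun y : Y => (χ : X → ℂ) y) (θ : Y → ℂ) ≠ 0).card = Y.index →
        ∀ y : Y, indFun Y (θ : Y → ℂ) y = Y.index) := by
  classical
  let A := Finset.univ.filter fun χ : IrrCharacter X => classInner (fun y : Y => (χ : X → ℂ) y) (θ : Y → ℂ) ≠ 0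
  have hI := isCharacter_indFun Y (isCharacter_of_irr θ.2)
  choose c hc using fun χ : IrrCharacter X => classInner_characters_nat hI (isCharacter_of_irr χ.2)
  choose b hb using fun χ : IrrCharacter X =>
    classInner_characters_nat (isCharacter_restrict (isCharacter_of_irr χ.2) Y) (isCharacter_of_irr θ.2)
  have hcb : ∀ χ, c χ = b χ := fun χ => by
    have h1 := hc χ
    have h2 := hb χ
    rw [classInner_indFun Y _ (isClassFunction (isCharacter_of_irr χ.2)), classInner_comm] at h1
    change classInner (fun y : Y => (χ : X → ℂ) y) (θ : Y → ℂ) = _ at h2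
    rw [h2, Complex.conj_natCast] at h1
    exact_mod_cast h1.symm
  have hA : ∀ χ, χ ∈ A ↔ c χ ≠ 0 := fun χ => by
    have h2 := hb χ
    simp only [A, Finset.mem_filter, Finset.mem_univ, true_and]
    rw [h2, hcb, Nat.cast_ne_zero]
  have hdeg : ∀ χ ∈ A, charDegree (θ : Y → ℂ) ≤ charDegree (χ : X → ℂ) := by
    intro χ hχ
    simp only [A, Finset.mem_filter, Finset.mem_univ, true_and] at hχ
    obtain ⟨R, hR, hsum⟩ := Clifford.exists_eq_add_of_constituent (isCharacter_restrict (isCharacter_of_irr χ.2) Y)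
      θ.2 hχ
    have h1 := congrFun hsum 1
    rw [Pi.add_apply, apply_one hR, apply_one (isCharacter_of_irr θ.2), Subgroup.coe_one,
      apply_one (isCharacter_of_irr χ.2), ← Nat.cast_add, Nat.cast_inj] at h1
    omega
  have hexp := classFun_expand (isClassFunction hI)
  have htot : Y.index * charDegree (θ : Y → ℂ) = ∑ χ ∈ A, c χ * charDegree (χ : X → ℂ) := by
    rw [Finset.sum_subset (Finset.subset_univ A) fun χ _ hχ => by
      rw [hA, not_not] at hχ; rw [hχ, zero_mul]]
    have h1 := congrFun hexp 1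
    rw [indFun_apply_one, Finset.sum_apply, apply_one (isCharacter_of_irr θ.2)] at h1
    rw [← Nat.cast_inj (R := ℂ), Nat.cast_mul, h1, Nat.cast_sum]
    refine Finset.sum_congr rfl fun χ _ => ?_
    rw [Pi.smul_apply, smul_eq_mul, hc, apply_one (isCharacter_of_irr χ.2), Nat.cast_mul]
  have hpos := charDegree_pos θ.2
  have hterm : ∀ χ ∈ A, charDegree (θ : Y → ℂ) ≤ c χ * charDegree (χ : X → ℂ) := fun χ hχ =>
    (hdeg χ hχ).trans (Nat.le_mul_of_pos_left _ (Nat.pos_of_ne_zero ((hA χ).1 hχ)))
  have hle : A.card * charDegree (θ : Y → ℂ) ≤ Y.index * charDegree (θ : Y → ℂ) := by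
    rw [htot, ← smul_eq_mul]
    exact Finset.card_nsmul_le_sum _ _ _ hterm
  refine ⟨Nat.le_of_mul_le_mul_right hle hpos, fun hθ hcard y => ?_⟩
  have hd1 : charDegree (θ : Y → ℂ) = 1 := by
    have h := apply_one (isCharacter_of_irr θ.2)
    rw [congrFun hθ 1] at h
    exact_mod_cast h.symm
  rw [hd1, mul_one] at htot
  have hall : ∀ χ ∈ A, c χ * charDegree (χ : X → ℂ) = 1 := fun χ hχ => by
    have h1 : ∀ χ ∈ A, 1 ≤ c χ * charDegree (χ : X → ℂ) := fun χ hχ => hd1 ▸ hterm χ hχ
    by_contra hne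
    have : ∑ _χ ∈ A, 1 < ∑ χ ∈ A, c χ * charDegree (χ : X → ℂ) :=
      Finset.sum_lt_sum h1 ⟨χ, hχ, lt_of_le_of_ne (h1 χ hχ) (Ne.symm hne)⟩
    rw [Finset.sum_const, smul_eq_mul, mul_one, ← htot] at this
    exact lt_irrefl _ (hcard ▸ this)
  rw [congrFun hexp (y : X), Finset.sum_apply, ← Finset.sum_subset (Finset.subset_univ A) fun χ _ hχ => by
    rw [hA, not_not] at hχ; rw [Pi.smul_apply, hc, hχ, Nat.cast_zero, zero_smul]]
  rw [Finset.sum_congr rfl (g := fun _ => (1 : ℂ)), Finset.sum_const, nsmul_eq_mul, mul_one]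
  · exact congrArg Nat.cast hcard
  intro χ hχ
  have h1 := Nat.eq_one_of_mul_eq_one_right (hall χ hχ)
  have h2 := Nat.eq_one_of_mul_eq_one_left (hall χ hχ)
  have hmem := hχ
  simp only [A, Finset.mem_filter, Finset.mem_univ, true_and] at hmem
  obtain ⟨R, hR, hsum⟩ := Clifford.exists_eq_add_of_constituent (isCharacter_restrict (isCharacter_of_irr χ.2) Y)
    θ.2 hmem
  have e1 := congrFun hsum 1
  rw [Pi.add_apply, hθ, Subgroup.coe_one, apply_one (isCharacter_of_irr χ.2), h2, Nat.cast_one] at e1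
  have hR0 : R = 0 := Clifford.eq_zero_of_apply_one hR (by linear_combination -e1)
  rw [Pi.smul_apply, smul_eq_mul, hc, h1, Nat.cast_one, one_mul]
  have e2 := congrFun hsum y
  rw [hR0, add_zero, hθ] at e2
  exact e2


/-- Let Y be a subgroup of the finite group X, of index m. Then the numbers of conjugacy classes satisfy k(Y) ≤ m·k(X) and k(X) ≤ m·k(Y), and the second inequality is strict unless Y is normal in X. -/
theorem result {X : Type*} [Group X] [Finite X] (Y : Subgroup X) : Nat.card (ConjClasses Y) ≤ Y.index * Nat.card (ConjClasses X) ∧ Nat.card (ConjClasses X) ≤ Y.index * Nat.card (ConjClasses Y) ∧ (¬ Y.Normal → Nat.card (ConjClasses X) < Y.index * Nat.card (ConjClasses Y)) := by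
  classical
  have := Fintype.ofFinite X
  have := Fintype.ofFinite Y
  have := Fintype.ofFinite (IrrCharacter X)
  have := Fintype.ofFinite (IrrCharacter Y)
  refine ⟨?_, ?_⟩
  · have h := Y.commProb_subgroup_le
    rw [commProb_def', commProb_def', ← Y.index_mul_card, Nat.cast_mul] at h
    have hY : (0 : ℚ) < Nat.card Y := Nat.cast_pos.2 Nat.card_pos
    have hm : (0 : ℚ) < Y.index := Nat.cast_pos.2 (Nat.pos_of_ne_zero Subgroup.index_ne_zero_of_finite)
    field_simp at h
    have h' : (Nat.card (ConjClasses Y) : ℚ) ≤ (Y.index : ℚ) * Nat.card (ConjClasses X) := by nlinarith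
    exact_mod_cast h'
  rw [← card_irr, ← card_irr, Nat.card_eq_fintype_card, Nat.card_eq_fintype_card]
  let A : IrrCharacter Y → Finset (IrrCharacter X) := fun θ =>
    Finset.univ.filter fun χ : IrrCharacter X => classInner (fun y : Y => (χ : X → ℂ) y) (θ : Y → ℂ) ≠ 0
  have hcover : Fintype.card (IrrCharacter X) ≤ ∑ θ, (A θ).card := by
    refine le_trans (Finset.card_le_card (s := Finset.univ) ?_) Finset.card_biUnion_le
    intro χ _
    obtain ⟨θ, hθ⟩ := exists_restrict_constituent Y χ
    refine Finset.mem_biUnion.2 ⟨θ, Finset.mem_univ _, Finset.mem_filter.2 ⟨Finset.mem_univ _, ?_⟩⟩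
    rw [classInner_comm, Ne, map_eq_zero]
    exact hθ
  have hle : ∀ θ : IrrCharacter Y, (A θ).card ≤ Y.index := fun θ => (over_count Y θ).1
  refine ⟨hcover.trans ?_, fun hn => hcover.trans_lt ?_⟩
  · rw [mul_comm, ← Finset.card_univ, ← smul_eq_mul]
    exact Finset.sum_le_card_nsmul _ _ _ fun θ _ => hle θ
  · have hlt : (A oneChar).card < Y.index := by
      refine lt_of_le_of_ne (hle _) fun he => hn ?_
      have hfix := (over_count Y oneChar).2 rfl he
      refine ⟨fun y hy g => ?_⟩
      have h1 := hfix ⟨y, hy⟩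
      change indFun Y (fun _ => (1 : ℂ)) y = _ at h1
      rw [IndFun.indFun_const_one_eq_card_fixedBy, Nat.cast_inj, Nat.card_coe_set_eq] at h1
      have huniv : MulAction.fixedBy (X ⧸ Y) y = Set.univ := by
        refine Set.eq_of_subset_of_ncard_le (Set.subset_univ _) ?_ Set.finite_univ
        rw [Set.ncard_univ]
        exact h1.ge
      have h2 := (IndFun.mk_mem_fixedBy_iff Y y g⁻¹).1 (huniv ▸ Set.mem_univ _)
      rwa [inv_inv] at h2
    rw [mul_comm, ← Finset.card_univ, ← smul_eq_mul, ← Finset.sum_const]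
    exact Finset.sum_lt_sum (fun θ _ => hle θ) ⟨oneChar, Finset.mem_univ _, hlt⟩

end Cfsg.Agent.S4200
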