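import Cfsg.Statements.S4201
import Mathlib


set_option autoImplicit false
open Cfsg

namespace Cfsg.Agent.S4201

/-- In a coset of a normal subgroup at most `|C_N(n)|` elements commute with `n`. -/
theorem fibre_le {X : Type*} [Group X] [Finite X] (N : Subgroup X) [N.Normal] (n : N) (c : X ⧸ N) :
    Nat.card {x : X // (x : X ⧸ N) = c ∧ Commute x (n : X)} ≤ Nat.card {m : N // Commute m n} := by
  by_cases hne : Nonempty {x : X // (x : X ⧸ N) = c ∧ Commute x (n : X)}
  · obtain ⟨⟨x0, hx0, hx0c⟩⟩ := hne
    refine Nat.card_le_card_of_injective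
      (fun x => ⟨⟨x0⁻¹ * x.1, QuotientGroup.eq.1 (hx0.trans x.2.1.symm)⟩,
        Subtype.ext (show Commute (x0⁻¹ * x.1) (n : X) from hx0c.inv_left.mul_left x.2.2).eq⟩) ?_
    intro x y h
    exact Subtype.ext (mul_left_cancel (congrArg (fun m => ((m : N) : X)) (congrArg Subtype.val h)))
  · rw [not_nonempty_iff] at hne
    rw [Nat.card_of_isEmpty]
    exact Nat.zero_le _

theorem cent_le {X : Type*} [Group X] [Finite X] (N : Subgroup X) [N.Normal] (x : X) :
    Nat.card {y : X // Commute x y} ≤
      Nat.card {m : N // Commute x (m : X)} * Nat.card {d : X ⧸ N // Commute (x : X ⧸ N) d} := by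
  classical
  have := Fintype.ofFinite X
  have := Fintype.ofFinite (X ⧸ N)
  have := Fintype.ofFinite N
  have hmap : ∀ y ∈ (Finset.univ : Finset {y : X // Commute x y}),
      (⟨(y.1 : X ⧸ N), y.2.map (QuotientGroup.mk' N)⟩ : {d : X ⧸ N // Commute (x : X ⧸ N) d}) ∈ Finset.univ :=
    fun y _ => Finset.mem_univ _
  rw [Nat.card_eq_fintype_card, Nat.card_eq_fintype_card, Nat.card_eq_fintype_card, ← Finset.card_univ,
    ← Finset.card_univ (α := {d : X ⧸ N // Commute (x : X ⧸ N) d})]
  refine Finset.card_le_mul_card_image_of_maps_to hmap _ fun d _ => ?_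
  by_cases hne : ((Finset.univ : Finset {y : X // Commute x y}).filter fun y =>
      (⟨(y.1 : X ⧸ N), y.2.map (QuotientGroup.mk' N)⟩ : {d : X ⧸ N // Commute (x : X ⧸ N) d}) = d).Nonempty
  · obtain ⟨y0, hy0⟩ := hne
    simp only [Finset.mem_filter, Finset.mem_univ, true_and] at hy0
    rw [← Fintype.card_coe]
    refine Fintype.card_le_of_injective (fun y => ⟨⟨y0.1⁻¹ * y.1.1, ?_⟩, y0.2.inv_right.mul_right y.1.2⟩) ?_
    · have h := (Finset.mem_filter.1 y.2).2
      exact QuotientGroup.eq.1 (congrArg Subtype.val (hy0.trans h.symm))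
    · intro a b h
      exact Subtype.ext (Subtype.ext (mul_left_cancel (congrArg (fun m => ((m : N) : X)) (congrArg Subtype.val h))))
  · rw [Finset.not_nonempty_iff_eq_empty.1 hne, Finset.card_empty]
    exact Nat.zero_le _


/-- If N is a normal subgroup of the finite group X then k(X) ≤ k(N)·k(X ⧸ N), where k denotes the number of conjugacy classes. -/
theorem result {X : Type*} [Group X] [Finite X] (N : Subgroup X) [N.Normal] : Nat.card (ConjClasses X) ≤ Nat.card (ConjClasses N) * Nat.card (ConjClasses (X ⧸ N)) := by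
  classical
  have := Fintype.ofFinite X
  have := Fintype.ofFinite N
  have := Fintype.ofFinite (X ⧸ N)
  have hp : ∀ (M : Type _) [Group M] [Fintype M],
      ∑ a : M, Nat.card {b : M // Commute a b} = Nat.card (ConjClasses M) * Nat.card M := by
    intro M _ _
    rw [← card_comm_eq_card_conjClasses_mul_card, ← Nat.card_sigma]
    exact Nat.card_congr
      { toFun := fun p => ⟨(p.1, p.2.1), p.2.2⟩
        invFun := fun p => ⟨p.1.1, p.1.2, p.2⟩
        left_inv := fun _ => rfl
        right_inv := fun _ => rfl }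
  have h1 : Nat.card (ConjClasses X) * Nat.card X ≤
      (Nat.card (ConjClasses N) * Nat.card N) * (Nat.card (ConjClasses (X ⧸ N)) * Nat.card (X ⧸ N)) := by
    rw [← hp X, ← hp (X ⧸ N), Finset.mul_sum]
    refine le_trans (Finset.sum_le_sum fun x _ => cent_le N x) ?_
    rw [← Finset.sum_fiberwise (Finset.univ : Finset X) (fun x : X => (x : X ⧸ N))]
    refine Finset.sum_le_sum fun c _ => ?_
    rw [Finset.sum_congr rfl fun x hx => show _ = Nat.card {m : N // Commute x (m : X)} *
      Nat.card {d : X ⧸ N // Commute c d} by rw [(Finset.mem_filter.1 hx).2], ← Finset.sum_mul]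
    refine Nat.mul_le_mul_right _ (le_trans (le_of_eq ?_) (le_of_le_of_eq
      (Finset.sum_le_sum fun n (_ : n ∈ (Finset.univ : Finset N)) => fibre_le N n c) ?_))
    · simp only [Nat.card_eq_fintype_card, Fintype.card_subtype, Finset.card_filter]
      rw [Finset.sum_comm]
      refine Finset.sum_congr rfl fun n _ => ?_
      rw [Finset.sum_filter]
      exact Finset.sum_congr rfl fun x _ => by rw [ite_and]
    · rw [← hp N]
      refine Finset.sum_congr rfl fun n _ => Nat.card_congr (Equiv.subtypeEquivRight fun m => ?_)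
      exact ⟨Commute.symm, Commute.symm⟩
  rw [← N.index_mul_card, Subgroup.index] at h1
  have hpos : 0 < Nat.card (X ⧸ N) * Nat.card N := Nat.mul_pos Nat.card_pos Nat.card_pos
  refine Nat.le_of_mul_le_mul_right (le_of_le_of_eq h1 ?_) hpos
  ring

end Cfsg.Agent.S4201
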