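import Cfsg.Statements.S4204
import Mathlib

set_option autoImplicit false
open Cfsg

namespace Cfsg.Agent.S4204

theorem commutator_le_iff_map {G : Type*} [Group G] (X B T : Subgroup G) [T.Normal] :
    ⁅X, B⁆ ≤ T ↔ X.map (QuotientGroup.mk' T) ≤
      Subgroup.centralizer ((B.map (QuotientGroup.mk' T) : Subgroup (G ⧸ T)) : Set (G ⧸ T)) := by
  rw [← Subgroup.commutator_eq_bot_iff_le_centralizer, ← Subgroup.map_commutator,
    Subgroup.map_eq_bot_iff, QuotientGroup.ker_mk']

/-- To bound a commutator of suprema it suffices to bound it termwise. -/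
theorem commutator_iSup_le {G : Type*} [Group G] {ι : Sort*} (f : ι → Subgroup G) (B T : Subgroup G)
    [T.Normal] (h : ∀ i, ⁅f i, B⁆ ≤ T) : ⁅⨆ i, f i, B⁆ ≤ T := by
  rw [commutator_le_iff_map, Subgroup.map_iSup, iSup_le_iff]
  exact fun i => (commutator_le_iff_map _ _ _).mp (h i)

theorem commutator_le_left_sup {G : Type*} [Group G] (A B C T : Subgroup G) [T.Normal]
    (hB : ⁅A, B⁆ ≤ T) (hC : ⁅A, C⁆ ≤ T) : ⁅A, B ⊔ C⁆ ≤ T := by
  rw [Subgroup.commutator_comm] at hB hC ⊢
  rw [commutator_le_iff_map] at hB hC ⊢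
  rw [Subgroup.map_sup]
  exact sup_le hB hC

/-- The lower central series, shifted so that the zeroth term is the whole group. -/
def lcs' {G : Type*} [Group G] (H : Subgroup G) : ℕ → Subgroup G
  | 0 => ⊤
  | n + 1 => H.lowerCentralSeries n

instance lcs'_normal {G : Type*} [Group G] (H : Subgroup G) [H.Normal] : ∀ n, (lcs' H n).Normal
  | 0 => show (⊤ : Subgroup G).Normal from inferInstance
  | n + 1 => by
    show (H.lowerCentralSeries n).Normal
    induction n with
    | zero => exact (inferInstance : H.Normal)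
    | succ n ih => rw [Subgroup.lowerCentralSeries_succ]; infer_instance

theorem commutator_lcs'_le {G : Type*} [Group G] (H : Subgroup G) [H.Normal] :
    ∀ i, ⁅lcs' H i, H⁆ ≤ lcs' H (i + 1)
  | 0 => Subgroup.commutator_le_right _ _
  | _ + 1 => le_rfl

/-- If `H` and `K` are normal subgroups of a finite group with `H` nilpotent of class at most `c` and `K` nilpotent of class at most `d` (the terms with index `c`, respectively `d`, of their lower central series are trivial, indices starting at `0`), then `HK` is nilpotent of class at most `c + d`. -/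
theorem result {G : Type*} [Group G] [Finite G] (H K : Subgroup G) [H.Normal] [K.Normal] (c d : ℕ) (hH : H.lowerCentralSeries c = ⊥) (hK : K.lowerCentralSeries d = ⊥) : (H ⊔ K).lowerCentralSeries (c + d) = ⊥ := by
  let S : ℕ → Subgroup G := fun n => ⨆ ij : {x : ℕ × ℕ // x.1 + x.2 = n}, lcs' H ij.1.1 ⊓ lcs' K ij.1.2
  have hSn : ∀ n, (S n).Normal := fun n => by
    refine ⟨fun x hx g => ?_⟩
    induction hx using Subgroup.iSup_induction' with
    | hp i y hy =>
      exact Subgroup.mem_iSup_of_mem i
        ((inferInstance : (lcs' H i.1.1 ⊓ lcs' K i.1.2).Normal).conj_mem y hy g)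
    | h1 => simp
    | hmul a b _ _ ha hb =>
      have e : g * (a * b) * g⁻¹ = (g * a * g⁻¹) * (g * b * g⁻¹) := by group
      rw [e]; exact mul_mem ha hb
  have main : ∀ n, (H ⊔ K).lowerCentralSeries n ≤ S (n + 1) := by
    intro n
    induction n with
    | zero =>
      refine sup_le ?_ ?_
      · exact le_iSup_of_le ⟨(1, 0), rfl⟩ (le_inf (le_refl H) le_top)
      · exact le_iSup_of_le ⟨(0, 1), rfl⟩ (le_inf le_top (le_refl K))
    | succ n ih =>
      haveI := hSn (n + 1 + 1)
      rw [Subgroup.lowerCentralSeries_succ]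
      refine (Subgroup.commutator_mono ih le_rfl).trans (commutator_iSup_le _ _ _ fun ij => ?_)
      obtain ⟨⟨i, j⟩, hij⟩ := ij
      refine commutator_le_left_sup _ _ _ _ ?_ ?_
      · refine le_iSup_of_le ⟨(i + 1, j), by omega⟩ (le_inf ?_ ?_)
        · exact (Subgroup.commutator_mono inf_le_left le_rfl).trans (commutator_lcs'_le H i)
        · exact (Subgroup.commutator_mono inf_le_right le_rfl).trans (Subgroup.commutator_le_left _ _)
      · refine le_iSup_of_le ⟨(i, j + 1), by omega⟩ (le_inf ?_ ?_)
        · exact (Subgroup.commutator_mono inf_le_left le_rfl).trans (Subgroup.commutator_le_left _ _)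
        · exact (Subgroup.commutator_mono inf_le_right le_rfl).trans (commutator_lcs'_le K j)
  refine le_bot_iff.mp ((main (c + d)).trans (iSup_le fun ij => ?_))
  obtain ⟨⟨i, j⟩, hij⟩ := ij
  rcases (show c + 1 ≤ i ∨ d + 1 ≤ j by omega) with h | h
  · obtain ⟨i, rfl⟩ : ∃ k, i = k + 1 := ⟨i - 1, by omega⟩
    exact inf_le_left.trans ((H.lowerCentralSeries_antitone (by omega : c ≤ i)).trans hH.le)
  · obtain ⟨j, rfl⟩ : ∃ k, j = k + 1 := ⟨j - 1, by omega⟩
    exact inf_le_right.trans ((K.lowerCentralSeries_antitone (by omega : d ≤ j)).trans hK.le)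

end Cfsg.Agent.S4204
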