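import Cfsg.Statements.S4205
import Mathlib


set_option autoImplicit false
open Cfsg

namespace Cfsg.Agent.S4205

/-- In a finite group whose upper central series reaches the whole group at step `c` (nilpotent of class at most `c`), starting from any subgroup and taking normalizers `c` times reaches the whole group. -/
theorem result {G : Type*} [Group G] [Finite G] (c : ℕ) (hG : Subgroup.upperCentralSeries G c = ⊤) (H : Subgroup G) : (fun K : Subgroup G => Subgroup.normalizer (K : Set G))^[c] H = ⊤ := by
  have key : ∀ i, Subgroup.upperCentralSeries G i ≤ (fun K : Subgroup G => Subgroup.normalizer (K : Set G))^[i] H := by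
    intro i
    induction i with
    | zero => rw [Subgroup.upperCentralSeries_zero]; exact bot_le
    | succ i ih =>
      intro z hz
      rw [Function.iterate_succ_apply']
      set K := (fun K : Subgroup G => Subgroup.normalizer (K : Set G))^[i] H
      have hz' : ∀ y, z * y * z⁻¹ * y⁻¹ ∈ Subgroup.upperCentralSeries G i :=
        Subgroup.mem_upperCentralSeries_succ_iff.1 hz
      refine Subgroup.mem_normalizer_iff.2 fun k => ⟨fun hk => ?_, fun hk => ?_⟩
      · have := K.mul_mem (ih (hz' k)) hk
        rwa [inv_mul_cancel_right] at this
      · have := K.mul_mem (K.inv_mem (ih (hz' k))) hk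
        rwa [show (z * k * z⁻¹ * k⁻¹)⁻¹ * (z * k * z⁻¹) = k by group] at this
  exact top_le_iff.1 (hG ▸ key c)

end Cfsg.Agent.S4205
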