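import Cfsg.Statements.S4206
import Mathlib


set_option autoImplicit false
open Cfsg

namespace Cfsg.Agent.S4206

/-- Let `H 0 ≥ H 1 ≥ H 2 ≥ ⋯` be normal subgroups of a finite group and `L` a subgroup with `⁅H i, L⁆ ≤ H (i+1)` for all `i`. Then `⁅H i, γ⁆ ≤ H (i + j + 1)` where `γ` is the `j`-th term of the lower central series of `L` (indexed from `0`, so the term with index `j` is the `(j+1)`-fold commutator). -/
theorem result {G : Type*} [Group G] [Finite G] (H : ℕ → Subgroup G) (hN : ∀ i, (H i).Normal) (hdesc : ∀ i, H (i + 1) ≤ H i) (L : Subgroup G) (hL : ∀ i, ⁅H i, L⁆ ≤ H (i + 1)) (i j : ℕ) : ⁅H i, L.lowerCentralSeries j⁆ ≤ H (i + j + 1) := by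
  induction j generalizing i with
  | zero => rw [Subgroup.lowerCentralSeries_zero]; exact hL i
  | succ j ih =>
    rw [Subgroup.lowerCentralSeries_succ]
    have := hN (i + j + 2)
    let π := QuotientGroup.mk' (H (i + j + 2))
    have hmap : ∀ {X : Subgroup G}, X ≤ H (i + j + 2) → X.map π = ⊥ := fun {X} hX => by
      rw [Subgroup.map_eq_bot_iff, QuotientGroup.ker_mk']
      exact hX
    have e : ⁅H i, ⁅L.lowerCentralSeries j, L⁆⁆.map π = ⊥ := by
      rw [Subgroup.map_commutator, Subgroup.map_commutator, Subgroup.commutator_comm]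
      refine Subgroup.commutator_commutator_eq_bot_of_rotate ?_ ?_
      · rw [← Subgroup.map_commutator, ← Subgroup.map_commutator, Subgroup.commutator_comm L (H i)]
        refine hmap (le_trans (Subgroup.commutator_mono (hL i) le_rfl) ((ih (i + 1)).trans (le_of_eq ?_)))
        rw [show i + 1 + j + 1 = i + j + 2 by omega]
      · rw [← Subgroup.map_commutator, ← Subgroup.map_commutator]
        exact hmap (le_trans (Subgroup.commutator_mono (ih i) le_rfl) (hL (i + j + 1)))
    rwa [Subgroup.map_eq_bot_iff, QuotientGroup.ker_mk'] at e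

end Cfsg.Agent.S4206
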