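import Cfsg.Statements.S4208
import Cfsg.Agent.S4207
import Cfsg.Agent.Frob.Structure
import Cfsg.Agent.CoprimeAction.Frattini

set_option autoImplicit false
open Cfsg

namespace Cfsg.Agent.S4208

open scoped commutatorElement

/-- The automorphism group of an elementary abelian group of order `p ^ r`. -/
theorem card_mulAut_dvd {V : Type*} [CommGroup V] [Finite V] {p r : ℕ} [hp : Fact p.Prime]
    (hexp : ∀ v : V, v ^ p = 1) (hcard : Nat.card V = p ^ r) :
    Nat.card (MulAut V) ∣ ∏ i ∈ Finset.range r, (p ^ r - p ^ i) := by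
  haveI : Finite (Additive V) := Finite.of_equiv V Additive.ofMul
  have hexp' : ∀ x : Additive V, p • x = 0 := fun x => Additive.toMul.injective (hexp x.toMul)
  obtain ⟨_instMod⟩ : Nonempty (Module (ZMod p) (Additive V)) := ⟨AddCommGroup.zmodModule hexp'⟩
  have hrank : Module.finrank (ZMod p) (Additive V) = r := by
    have h := Module.natCard_eq_pow_finrank (K := ZMod p) (V := Additive V)
    rw [Nat.card_congr (Additive.ofMul (α := V)).symm, hcard, Nat.card_zmod] at h
    exact (Nat.pow_right_injective hp.out.two_le h).symm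
  let b := Module.finBasisOfFinrankEq (ZMod p) (Additive V) hrank
  let ρ : Representation (ZMod p) (MulAut V) (Additive V) :=
    CfsgLib.Frob.zmodRep (q := p) (fun φ : MulAut V => MonoidHom.toAdditive φ.toMonoidHom)
      (fun _ => rfl) (fun _ _ _ => rfl)
  let f : MulAut V →* Matrix (Fin r) (Fin r) (ZMod p) :=
    (LinearMap.toMatrixAlgEquiv b).toAlgHom.toMonoidHom.comp ρ
  have hf : Function.Injective f.toHomUnits := by
    intro x y h
    have h1 : ρ x = ρ y := (LinearMap.toMatrixAlgEquiv b).injective (congrArg Units.val h)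
    exact MulEquiv.ext fun v => Additive.ofMul.injective (LinearMap.congr_fun h1 (Additive.ofMul v))
  have h := Subgroup.card_dvd_of_injective f.toHomUnits hf
  rwa [Matrix.card_GL_field, ZMod.card,
    Fin.prod_univ_eq_prod_range (fun i => p ^ r - p ^ i) r] at h

/-- Let `P` be a group of order `p^n` whose Frattini subgroup has index `p^r`. Then the order of the automorphism group of `P` divides `p^(r(n-r)) · (p^r - 1)(p^r - p) ⋯ (p^r - p^(r-1))`. -/
theorem result {P : Type*} [Group P] [Finite P] {p n r : ℕ} [Fact p.Prime] (hP : Nat.card P = p ^ n) (hr : (frattini P).index = p ^ r) : Nat.card (MulAut P) ∣ p ^ (r * (n - r)) * ∏ i ∈ Finset.range r, (p ^ r - p ^ i) := by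
  have hG : IsPGroup p P := IsPGroup.of_card hP
  set Φ := frattini P with hΦ
  letI : CommGroup (P ⧸ Φ) :=
    { mul_comm := fun a b => by
        obtain ⟨a, rfl⟩ := QuotientGroup.mk_surjective a
        obtain ⟨b, rfl⟩ := QuotientGroup.mk_surjective b
        rw [← QuotientGroup.mk_mul, ← QuotientGroup.mk_mul, QuotientGroup.eq]
        refine CfsgLib.CoprimeAction.commutator_le_frattini' hG ?_
        have e : (a * b)⁻¹ * (b * a) = ⁅b⁻¹, a⁻¹⁆ := by rw [commutatorElement_def]; group
        rw [e]
        exact Subgroup.commutator_mem_commutator (Subgroup.mem_top _) (Subgroup.mem_top _) }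
  let π : MulAut P →* MulAut (P ⧸ Φ) :=
    { toFun := fun α => QuotientGroup.congr Φ Φ α
        (Subgroup.characteristic_iff_map_eq.mp (inferInstance : Φ.Characteristic) α)
      map_one' := MulEquiv.ext fun x => by
        obtain ⟨x, rfl⟩ := QuotientGroup.mk_surjective x
        rfl
      map_mul' := fun a b => MulEquiv.ext fun x => by
        obtain ⟨x, rfl⟩ := QuotientGroup.mk_surjective x
        rfl }
  have hker : Nat.card π.ker ∣ p ^ (r * (n - r)) := by
    refine Cfsg.Agent.S4207.result hP hr π.ker (fun α hα x => ?_)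
    have h1 : ((α x : P) : P ⧸ Φ) = (x : P ⧸ Φ) :=
      congrArg (fun φ : MulAut (P ⧸ Φ) => φ (x : P ⧸ Φ)) (MonoidHom.mem_ker.mp hα)
    rw [← div_eq_mul_inv, ← QuotientGroup.eq_iff_div_mem]
    exact h1
  rw [← π.ker.card_mul_index, Subgroup.index_ker]
  refine mul_dvd_mul hker ((Subgroup.card_subgroup_dvd_card _).trans (card_mulAut_dvd ?_ ?_))
  · intro v
    obtain ⟨v, rfl⟩ := QuotientGroup.mk_surjective v
    exact (QuotientGroup.eq_one_iff _).mpr (CfsgLib.CoprimeAction.pow_mem_frattini hG v)
  · rw [← hr]; rfl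

end Cfsg.Agent.S4208
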