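import Cfsg.Statements.S4216
import Cfsg.Agent.Transfer.Frobenius

set_option autoImplicit false
open Cfsg
open scoped IsMulCommutative commutatorElement

namespace Cfsg.Agent.S4216

/-- Grün's first Theorem: if `P` is a Sylow `p`-subgroup of the finite group `G`, then `P ∩ G'` is the subgroup generated by `P ∩ N_G(P)'` together with the subgroups `P ∩ z P' z⁻¹` for all `z ∈ G`, where `'` denotes the derived subgroup and `N_G(P)` the normalizer of `P`. -/
theorem result {G : Type*} [Group G] [Finite G] {p : ℕ} [Fact p.Prime] (P : Sylow p G) : (P : Subgroup G) ⊓ commutator G = ((P : Subgroup G) ⊓ ⁅Subgroup.normalizer ((P : Subgroup G) : Set G), Subgroup.normalizer ((P : Subgroup G) : Set G)⁆) ⊔ ⨆ z : G, (P : Subgroup G) ⊓ (⁅(P : Subgroup G), (P : Subgroup G)⁆).map (MulAut.conj z).toMonoidHom := by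
  classical
  set N := Subgroup.normalizer ((P : Subgroup G) : Set G) with hN
  set C := ⁅(P : Subgroup G), (P : Subgroup G)⁆ with hC
  set M : Subgroup G := ((P : Subgroup G) ⊓ ⁅N, N⁆) ⊔
    ⨆ z : G, (P : Subgroup G) ⊓ C.map (MulAut.conj z).toMonoidHom with hM
  have hCP : C ≤ (P : Subgroup G) := Subgroup.commutator_le_self _
  have hCG : C ≤ commutator G := Subgroup.commutator_mono le_top le_top
  have hMle : M ≤ (P : Subgroup G) ⊓ commutator G := by
    refine sup_le (inf_le_inf_left _ (Subgroup.commutator_mono le_top le_top)) (iSup_le fun z => ?_)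
    refine inf_le_inf_left _ ?_
    rintro _ ⟨x, hx, rfl⟩
    exact Subgroup.Normal.conj_mem inferInstance x (hCG hx) z
  have hCM : C ≤ M := fun x hx => Subgroup.mem_sup_right
    (Subgroup.mem_iSup_of_mem 1 ⟨hCP hx, x, hx, by simp⟩)
  refine le_antisymm ?_ hMle
  set M' := M.subgroupOf (P : Subgroup G) with hM'
  have hcomm : commutator (P : Subgroup G) ≤ M' := by
    intro x hx
    refine hCM ?_
    rw [hC, ← Subgroup.map_subtype_commutator]
    exact ⟨x, hx, rfl⟩
  have hM'n : M'.Normal := by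
    refine ⟨fun x hx y => ?_⟩
    have h1 : ⁅y, x⁆ ∈ M' := hcomm (Subgroup.commutator_mem_commutator (Subgroup.mem_top y) (Subgroup.mem_top x))
    have e : y * x * y⁻¹ = ⁅y, x⁆ * x := by rw [commutatorElement_def]; group
    rw [e]
    exact mul_mem h1 hx
  have : IsMulCommutative ((P : Subgroup G) ⧸ M') :=
    Subgroup.Normal.quotient_commutative_iff_commutator_le.mpr hcomm
  let lam := QuotientGroup.mk' M'
  have hlam : ∀ {a : G} (ha : a ∈ (P : Subgroup G)), a ∈ M → lam ⟨a, ha⟩ = 1 := fun ha h =>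
    (QuotientGroup.eq_one_iff _).2 h
  by_contra hne
  obtain ⟨u₀, hu₀, hu₀M⟩ := SetLike.not_le_iff_exists.1 hne
  obtain ⟨u, ⟨hu, huM⟩, hmin⟩ := (Set.toFinite {u : G | u ∈ (P : Subgroup G) ⊓ commutator G ∧ u ∉ M}).exists_minimalFor
    orderOf _ ⟨u₀, hu₀, hu₀M⟩
  have hu1 : u ≠ 1 := fun h => huM (h ▸ one_mem _)
  have hsmall : ∀ (g : G) (m : ℕ), 1 < m → m ∣ orderOf u → g⁻¹ * u ^ m * g ∈ (P : Subgroup G) →
      g⁻¹ * u ^ m * g ∈ M := by
    intro g m hm hmd hP
    by_contra h
    have h1 : g⁻¹ * u ^ m * g ∈ commutator G := by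
      simpa using Subgroup.Normal.conj_mem inferInstance _ (pow_mem hu.2 m) g⁻¹
    have h2 := hmin (j := g⁻¹ * u ^ m * g) ⟨⟨hP, h1⟩, h⟩
    have h3 : orderOf (g⁻¹ * u ^ m * g) = orderOf u / m := by
      have : g⁻¹ * u ^ m * g = MulAut.conj g⁻¹ (u ^ m) := by simp
      rw [this, MulEquiv.orderOf_eq, orderOf_pow_of_dvd (by omega) hmd]
    have h4 : orderOf u / m < orderOf u := Nat.div_lt_self (orderOf_pos u) hm
    rw [h3] at h2
    exact absurd (h2 h4.le) (not_le.2 h4)
  obtain ⟨e, he⟩ := IsPGroup.iff_orderOf.1 P.isPGroup' ⟨u, hu.1⟩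
  rw [Subgroup.orderOf_mk] at he
  have hpu : p ∣ orderOf u := by
    rcases e with _ | e
    · exact absurd (orderOf_eq_one_iff.1 he) hu1
    · exact he ▸ dvd_pow_self p e.succ_ne_zero
  -- values on cosets
  have hfix : ∀ g : G, u • (g : G ⧸ (P : Subgroup G)) = g ↔ g⁻¹ * u * g ∈ (P : Subgroup G) := by
    intro g
    show ((u * g : G) : G ⧸ (P : Subgroup G)) = g ↔ _
    rw [eq_comm, QuotientGroup.eq, mul_assoc]
  let v : G ⧸ (P : Subgroup G) → (P : Subgroup G) ⧸ M' := fun x =>
    if h : x.out⁻¹ * u * x.out ∈ (P : Subgroup G) then lam ⟨_, h⟩ else 1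
  have hv : ∀ (x : G ⧸ (P : Subgroup G)) (g : G), (g : G ⧸ (P : Subgroup G)) = x →
      ∀ hg : g⁻¹ * u * g ∈ (P : Subgroup G), v x = lam ⟨_, hg⟩ := by
    intro x g hgx hg
    have hd : g⁻¹ * x.out ∈ (P : Subgroup G) := QuotientGroup.eq.1 (hgx.trans (Quotient.out_eq x).symm)
    have hout : x.out⁻¹ * u * x.out ∈ (P : Subgroup G) := by
      have := mul_mem (mul_mem (inv_mem hd) hg) hd
      simpa [mul_assoc] using this
    simp only [v, dif_pos hout]
    have e1 : (⟨_, hout⟩ : (P : Subgroup G)) = ⟨_, hd⟩⁻¹ * ⟨_, hg⟩ * ⟨_, hd⟩ := by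
      apply Subtype.ext; simp [mul_assoc]
    rw [e1, map_mul, map_mul, map_inv, mul_assoc, mul_comm (lam ⟨_, hg⟩), inv_mul_cancel_left]
  -- transfer
  have : Fintype (G ⧸ (P : Subgroup G)) := Fintype.ofFinite _
  have : Fintype (Quotient (MulAction.orbitRel (Subgroup.zpowers u) (G ⧸ (P : Subgroup G)))) := Fintype.ofFinite _
  have hzp : ∀ x : G ⧸ (P : Subgroup G), u • x = x → ∀ k : ℤ, u ^ k • x = x := fun x hx k =>
    (MulAction.stabilizer G x).zpow_mem hx k
  set X := Finset.univ.filter (fun x : G ⧸ (P : Subgroup G) => u • x = x) with hX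
  have hX1 : ∏ x ∈ X, v x = 1 := by
    have h0 : MonoidHom.transfer lam u = 1 :=
      MonoidHom.mem_ker.1 (Abelianization.commutator_subset_ker _ hu.2)
    rw [MonoidHom.transfer_eq_prod_quotient_orbitRel_zpowers_quot] at h0
    rw [← Finset.prod_filter_mul_prod_filter_not Finset.univ
      (fun q : Quotient (MulAction.orbitRel (Subgroup.zpowers u) (G ⧸ (P : Subgroup G))) =>
        Function.minimalPeriod (u • ·) q.out = 1)] at h0
    rw [Finset.prod_eq_one (s := Finset.univ.filter fun q : Quotient (MulAction.orbitRel (Subgroup.zpowers u) (G ⧸ (P : Subgroup G))) =>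
        ¬ Function.minimalPeriod (u • ·) q.out = 1) ?_, mul_one] at h0
    · refine Eq.trans (Eq.symm ?_) h0
      refine Finset.prod_bij' (fun q _ => q.out) (fun x _ => Quotient.mk _ x) ?_ ?_ ?_ ?_ ?_
      · intro q hq
        rw [hX, Finset.mem_filter]
        exact ⟨Finset.mem_univ _, Function.minimalPeriod_eq_one_iff_isFixedPt.1 (Finset.mem_filter.1 hq).2⟩
      · intro x hx
        refine Finset.mem_filter.2 ⟨Finset.mem_univ _, ?_⟩
        obtain ⟨⟨a, k, rfl⟩, hk⟩ := MulAction.orbitRel_apply.1 (Quotient.mk_out (s := MulAction.orbitRel (Subgroup.zpowers u) _) x)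
        rw [Function.minimalPeriod_eq_one_iff_isFixedPt]
        have h1 : u ^ k • x = x := hzp x (Finset.mem_filter.1 hx).2 k
        show u • _ = _
        rw [← hk]
        show u • (u ^ k • x) = u ^ k • x
        rw [h1]; exact (Finset.mem_filter.1 hx).2
      · intro q _
        exact Quotient.out_eq q
      · intro x hx
        obtain ⟨⟨a, k, rfl⟩, hk⟩ := MulAction.orbitRel_apply.1 (Quotient.mk_out (s := MulAction.orbitRel (Subgroup.zpowers u) _) x)
        rw [← hk]
        exact hzp x (Finset.mem_filter.1 hx).2 k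
      · intro q hq
        have h1 := (Finset.mem_filter.1 hq).2
        have hmem : q.out.out⁻¹ * u * q.out.out ∈ (P : Subgroup G) := by
          have := QuotientGroup.out_conj_pow_minimalPeriod_mem (P : Subgroup G) u q.out
          rwa [h1, pow_one] at this
        rw [hv q.out q.out.out (Quotient.out_eq _) hmem]
        exact congrArg lam (Subtype.ext (by simp [h1]))
    · intro q hq
      refine hlam _ (hsmall _ _ ?_ ?_ (QuotientGroup.out_conj_pow_minimalPeriod_mem (P : Subgroup G) u q.out))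
      · have h1 := (Finset.mem_filter.1 hq).2
        have h2 : 0 < Function.minimalPeriod (u • ·) q.out :=
          Function.IsPeriodicPt.minimalPeriod_pos (orderOf_pos u) (by
            show (u • ·)^[orderOf u] q.out = q.out
            rw [smul_iterate, pow_orderOf_eq_one]; simp)
        omega
      · refine Function.IsPeriodicPt.minimalPeriod_dvd ?_
        show (u • ·)^[orderOf u] q.out = q.out
        rw [smul_iterate, pow_orderOf_eq_one]; simp
  have hupow : ∀ g : G, ∀ hg : g⁻¹ * u * g ∈ (P : Subgroup G), lam ⟨_, hg⟩ ^ p = 1 := by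
    intro g hg
    rw [← map_pow]
    refine hlam _ ?_
    show (g⁻¹ * u * g) ^ p ∈ M
    have e1 : (g⁻¹ * u * g) ^ p = g⁻¹ * u ^ p * g := by
      simpa using (map_pow (MulAut.conj g⁻¹) u p).symm
    rw [e1]
    exact hsmall g p (Fact.out (p := p.Prime)).one_lt hpu (e1 ▸ pow_mem hg p)
  -- points not fixed by `P` cancel
  set X0 := Finset.univ.filter (fun x : G ⧸ (P : Subgroup G) => ∀ s ∈ (P : Subgroup G), s • x = x) with hX0
  have hsub : X0 ⊆ X := fun x hx => Finset.mem_filter.2 ⟨Finset.mem_univ _, (Finset.mem_filter.1 hx).2 u hu.1⟩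
  have hval0 : ∀ x ∈ X0, v x = lam ⟨u, hu.1⟩ := by
    intro x hx
    obtain ⟨g, rfl⟩ := QuotientGroup.mk_surjective x
    have hgP : ∀ s ∈ (P : Subgroup G), g⁻¹ * s * g ∈ (P : Subgroup G) := fun s hs => by
      have h1 : ((s * g : G) : G ⧸ (P : Subgroup G)) = g := (Finset.mem_filter.1 hx).2 s hs
      rw [eq_comm, QuotientGroup.eq] at h1
      rwa [mul_assoc]
    have hgN : g ∈ N := by
      refine inv_mem_iff.1 (Subgroup.mem_normalizer_fintype (S := ((P : Subgroup G) : Set G)) fun s hs => ?_)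
      rw [inv_inv]
      exact hgP s hs
    rw [hv _ g rfl (hgP u hu.1), eq_comm, ← inv_mul_eq_one, ← map_inv, ← map_mul]
    refine hlam _ (Subgroup.mem_sup_left (Subgroup.mem_inf.2 ⟨mul_mem (inv_mem hu.1) (hgP u hu.1), ?_⟩))
    show u⁻¹ * (g⁻¹ * u * g) ∈ ⁅N, N⁆
    rw [show u⁻¹ * (g⁻¹ * u * g) = ⁅u⁻¹, g⁻¹⁆ by rw [commutatorElement_def]; group]
    exact Subgroup.commutator_mem_commutator (inv_mem (Subgroup.le_normalizer hu.1)) (inv_mem hgN)
  have hcancel : ∏ x ∈ X \ X0, v x = 1 := by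
    let Rx : G ⧸ (P : Subgroup G) → Subgroup G := fun x => (P : Subgroup G) ⊓ MulAction.stabilizer G x
    let cl : G ⧸ (P : Subgroup G) → Set (G ⧸ (P : Subgroup G)) := fun x =>
      MulAction.orbit ((P : Subgroup G) ⊓ Subgroup.normalizer (Rx x : Set G) : Subgroup G) x
    have hR : ∀ x y, y ∈ cl x → Rx y = Rx x := by
      rintro x _ ⟨⟨m, hmP, hmN⟩, rfl⟩
      show (P : Subgroup G) ⊓ MulAction.stabilizer G (m • x) = _
      ext a
      have h1 := (Subgroup.mem_normalizer_iff''.1 hmN a)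
      constructor
      · rintro ⟨haP, ha⟩
        refine h1.2 (Subgroup.mem_inf.2 ⟨mul_mem (mul_mem ((P : Subgroup G).inv_mem hmP) haP) hmP, ?_⟩)
        show (m⁻¹ * a * m) • x = x
        rw [mul_smul, mul_smul, show a • m • x = m • x from ha, inv_smul_smul]
      · intro ha
        obtain ⟨-, h2⟩ := h1.1 ha
        refine ⟨ha.1, ?_⟩
        show a • m • x = m • x
        have h3 : (m⁻¹ * a * m) • x = x := h2
        rw [mul_smul, mul_smul, inv_smul_eq_iff] at h3
        exact h3
    rw [← Finset.prod_fiberwise_of_maps_to (g := cl) (t := (X \ X0).image cl)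
      (fun x hx => Finset.mem_image_of_mem cl hx)]
    refine Finset.prod_eq_one fun c hc => ?_
    obtain ⟨x, hx, rfl⟩ := Finset.mem_image.1 hc
    obtain ⟨hxX, hxX0⟩ := Finset.mem_sdiff.1 hx
    have hxu : u ∈ Rx x := ⟨hu.1, (Finset.mem_filter.1 hxX).2⟩
    have hxlt : Rx x < (P : Subgroup G) := lt_of_le_of_ne inf_le_left fun h =>
      hxX0 (Finset.mem_filter.2 ⟨Finset.mem_univ _, fun s hs => (h.symm ▸ hs : s ∈ Rx x).2⟩)
    have hfib : ((X \ X0).filter fun y => cl y = cl x) = Finset.univ.filter (fun y => y ∈ cl x) := by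
      ext y
      simp only [Finset.mem_filter, Finset.mem_univ, true_and]
      constructor
      · rintro ⟨-, hy⟩
        exact hy ▸ MulAction.mem_orbit_self y
      · intro hy
        refine ⟨Finset.mem_sdiff.2 ⟨Finset.mem_filter.2 ⟨Finset.mem_univ _,
          ((hR x y hy).symm ▸ hxu : u ∈ Rx y).2⟩, fun h => hxlt.not_ge ?_⟩, ?_⟩
        · rw [← hR x y hy]
          exact fun s hs => ⟨hs, (Finset.mem_filter.1 h).2 s hs⟩
        · simp only [cl]
          rw [hR x y hy]
          exact MulAction.orbit_eq_iff.2 hy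
    obtain ⟨g, rfl⟩ := QuotientGroup.mk_surjective x
    have hgu : g⁻¹ * u * g ∈ (P : Subgroup G) := (hfix g).1 (Finset.mem_filter.1 hxX).2
    rw [hfib, Finset.prod_congr rfl (g := fun _ => lam ⟨_, hgu⟩) ?_, Finset.prod_const]
    · -- the class has size divisible by `p`
      set K := ((P : Subgroup G) ⊓ Subgroup.normalizer (Rx (g : G ⧸ (P : Subgroup G)) : Set G) : Subgroup G) with hK
      have hKp : IsPGroup p K := P.isPGroup'.to_le inf_le_left
      have hcard : (Finset.univ.filter (fun y => y ∈ cl (g : G ⧸ (P : Subgroup G)))).card =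
          Nat.card (MulAction.orbit K (g : G ⧸ (P : Subgroup G))) := by
        rw [Nat.card_eq_fintype_card, Fintype.card_subtype]
      obtain ⟨i, hi⟩ := hKp.card_orbit (g : G ⧸ (P : Subgroup G))
      rw [hcard, hi]
      rcases i with _ | i
      · exfalso
        have hlt : Rx (g : G ⧸ (P : Subgroup G)) < K := by
          rw [hK, inf_comm]; exact CfsgLib.Transfer.inf_normalizer_gt P hxlt
        obtain ⟨m, hm, hmR⟩ := SetLike.exists_of_lt hlt
        refine hmR ⟨hm.1, ?_⟩
        rw [pow_zero, Nat.card_eq_one_iff_unique] at hi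
        exact congrArg Subtype.val
          (hi.1.elim ⟨(⟨m, hm⟩ : K) • _, MulAction.mem_orbit _ _⟩ ⟨_, MulAction.mem_orbit_self _⟩)
      · rw [pow_succ', pow_mul, hupow g hgu, one_pow]
    · intro y hy
      obtain ⟨⟨m, hmP, hmN⟩, rfl⟩ := (Finset.mem_filter.1 hy).2
      have hy' : m * g ∈ ({z : G | z⁻¹ * u * z ∈ (P : Subgroup G)}) := by
        have hyX : u ∈ Rx ((⟨m, hmP, hmN⟩ : ((P : Subgroup G) ⊓ Subgroup.normalizer (Rx (g : G ⧸ (P : Subgroup G)) : Set G) : Subgroup G)) • (g : G ⧸ (P : Subgroup G))) :=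
          (hR _ _ (MulAction.mem_orbit _ _)).symm ▸ hxu
        exact (hfix (m * g)).1 hyX.2
      show v ((m * g : G) : G ⧸ (P : Subgroup G)) = _
      rw [hv _ (m * g) rfl hy', ← inv_mul_eq_one, ← map_inv, ← map_mul]
      refine hlam _ ?_
      show ((m * g)⁻¹ * u * (m * g))⁻¹ * (g⁻¹ * u * g) ∈ M
      refine Subgroup.mem_sup_right (Subgroup.mem_iSup_of_mem g⁻¹ (Subgroup.mem_inf.2 ⟨(P : Subgroup G).mul_mem ((P : Subgroup G).inv_mem hy') hgu, ⁅m⁻¹, u⁻¹⁆, ?_, ?_⟩))
      · exact Subgroup.commutator_mem_commutator ((P : Subgroup G).inv_mem hmP) ((P : Subgroup G).inv_mem hu.1)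
      · show g⁻¹ * ⁅m⁻¹, u⁻¹⁆ * g⁻¹⁻¹ = _
        rw [commutatorElement_def]; group
  rw [← Finset.prod_sdiff hsub, hcancel, one_mul, Finset.prod_congr rfl hval0, Finset.prod_const] at hX1
  have hcop : (p : ℕ).Coprime X0.card := by
    rw [(Fact.out (p := p.Prime)).coprime_iff_not_dvd]
    intro hd
    have h1 := P.isPGroup'.card_modEq_card_fixedPoints (G ⧸ (P : Subgroup G))
    have h2 : Nat.card (MulAction.fixedPoints (P : Subgroup G) (G ⧸ (P : Subgroup G))) = X0.card := by
      rw [Nat.card_eq_fintype_card, Fintype.card_subtype, hX0]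
      congr 1
      ext x
      simp only [MulAction.mem_fixedPoints, Subtype.forall, Finset.mem_filter, Finset.mem_univ, true_and]
      exact Iff.rfl
    rw [h2, ← Subgroup.index_eq_card] at h1
    exact P.not_dvd_index ((h1.dvd_iff dvd_rfl).2 hd)
  have h1 : lam ⟨u, hu.1⟩ = 1 := by
    refine orderOf_eq_one_iff.1 (Nat.eq_one_of_dvd_coprimes hcop ?_ (orderOf_dvd_of_pow_eq_one hX1))
    refine orderOf_dvd_of_pow_eq_one ?_
    have := hupow 1 (by rw [inv_one, one_mul, mul_one]; exact hu.1)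
    simpa using this
  have h2 : (⟨u, hu.1⟩ : (P : Subgroup G)) ∈ M' := (QuotientGroup.eq_one_iff _).1 h1
  exact huM h2

end Cfsg.Agent.S4216
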