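import Cfsg.Statements.S4217
import Cfsg.Agent.Hall.StructBatch3

set_option autoImplicit false
open Cfsg
open scoped Pointwise

namespace Cfsg.Agent.S4217

variable {G : Type*} [Group G] [Finite G]

/-- Elements of `A` killed by `n`. -/
def tors (A : Subgroup G) (hA : IsMulCommutative A) (n : ℕ) : Subgroup G where
  carrier := {a | a ∈ A ∧ a ^ n = 1}
  one_mem' := ⟨A.one_mem, one_pow n⟩
  mul_mem' := fun {a b} ha hb => ⟨A.mul_mem ha.1 hb.1, by
    have hc : Commute a b :=
      congrArg Subtype.val (hA.is_comm.comm (⟨a, ha.1⟩ : A) ⟨b, hb.1⟩)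
    rw [hc.mul_pow, ha.2, hb.2, one_mul]⟩
  inv_mem' := fun {a} ha => ⟨A.inv_mem ha.1, by rw [inv_pow, ha.2, inv_one]⟩

theorem tors_normal (A : Subgroup G) [hAn : A.Normal] (hA : IsMulCommutative A) (n : ℕ) :
    (tors A hA n).Normal :=
  ⟨fun a ha g => ⟨hAn.conj_mem a ha.1 g, by rw [conj_pow, ha.2, mul_one, mul_inv_cancel]⟩⟩

theorem exists_supplement (A : Subgroup G) [hAn : A.Normal] (hA : IsMulCommutative A)
    (hloc : ∀ p : ℕ, p.Prime → ∃ (S : Sylow p (G ⧸ A)) (K : Subgroup G), K ⊓ A = ⊥ ∧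
      K ⊔ A = (S : Subgroup (G ⧸ A)).comap (QuotientGroup.mk' A)) :
    ∀ n : ℕ, 0 < n → ∀ m : ℕ, n * m = Nat.card A → n.Coprime m →
      (∃ H : Subgroup G, H ⊔ A = ⊤ ∧ H ⊓ A = tors A hA n) → ∃ H : Subgroup G, H ⊔ A = ⊤ ∧ H ⊓ A = ⊥ := by
  intro n
  induction n using Nat.strong_induction_on with
  | _ n ih =>
    intro hn0 m hnm hcop ⟨H, hHA, hHi⟩
    rcases eq_or_ne n 1 with rfl | hn1
    · refine ⟨H, hHA, ?_⟩
      rw [hHi, eq_bot_iff]
      intro a ha
      exact Subgroup.mem_bot.mpr (by simpa using ha.2)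
    obtain ⟨p, hp, hpn⟩ := Nat.exists_prime_and_dvd hn1
    have := Fact.mk hp
    obtain ⟨e, n', hn', hne⟩ := Nat.exists_eq_pow_mul_and_not_dvd hn0.ne' p hp.ne_one
    have he0 : e ≠ 0 := fun h => hn' (by rw [hne, h, pow_zero, one_mul] at hpn; exact hpn)
    have hn'0 : 0 < n' := Nat.pos_of_ne_zero fun h => hn' (h ▸ dvd_zero p)
    have hlt : n' < n := by
      rw [hne]; exact lt_mul_of_one_lt_left hn'0 (Nat.one_lt_pow he0 hp.one_lt)
    refine ih n' hlt hn'0 (p ^ e * m) (by rw [← hnm, hne]; ring) ?_ ?_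
    · exact (((hp.coprime_iff_not_dvd.mpr hn').pow_left e).symm).mul_right
        (hcop.coprime_dvd_left (hne ▸ dvd_mul_left n' (p ^ e)))
    obtain ⟨S, K, hKi, hKs⟩ := hloc p hp
    have hA2n : (tors A hA n').Normal := tors_normal A hA n'
    have hTmn : (tors A hA m).Normal := tors_normal A hA m
    have hle2 : tors A hA n' ≤ tors A hA n := fun a ha => ⟨ha.1, by
      rw [hne, mul_comm, pow_mul, ha.2, one_pow]⟩
    have hleH : tors A hA n ≤ H := hHi ▸ inf_le_left
    let π : H →* G ⧸ A := (QuotientGroup.mk' A).comp H.subtype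
    have hπ : Function.Surjective π := by
      intro x
      obtain ⟨g, rfl⟩ := QuotientGroup.mk'_surjective A x
      have hg : g ∈ H ⊔ A := hHA ▸ Subgroup.mem_top g
      obtain ⟨h, hh, a, ha, rfl⟩ := Subgroup.mem_sup_of_normal_right.mp hg
      refine ⟨⟨h, hh⟩, ?_⟩
      show (QuotientGroup.mk' A) h = _
      rw [map_mul]
      simp [(QuotientGroup.eq_one_iff a).mpr ha]
    let U0 : Subgroup H := (S : Subgroup (G ⧸ A)).comap π
    let N2 : Subgroup H := (tors A hA n').subgroupOf H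
    let T0 : Subgroup H := (tors A hA n).subgroupOf H
    have hN2 : N2.Normal := hA2n.subgroupOf H
    let q : H →* H ⧸ N2 := QuotientGroup.mk' N2
    have hq : Function.Surjective q := QuotientGroup.mk'_surjective N2
    have hkerq : q.ker = N2 := QuotientGroup.ker_mk' N2
    have hT0n : T0.Normal := (tors_normal A hA n).subgroupOf H
    have hKn : (T0.map q).Normal := hT0n.map q hq
    have hKc : IsMulCommutative (T0.map q) := ⟨⟨by
      rintro ⟨_, x, hx, rfl⟩ ⟨_, y, hy, rfl⟩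
      apply Subtype.ext
      show q x * q y = q y * q x
      rw [← map_mul, ← map_mul]
      have h := congrArg (fun z : A => (z : G)) (hA.is_comm.comm (⟨(x : G), hx.1⟩ : A) ⟨(y : G), hy.1⟩)
      exact congrArg q (Subtype.ext h)⟩⟩
    have hker0 : π.ker = T0 := by
      ext x
      show ((x : G) : G ⧸ A) = 1 ↔ (x : G) ∈ tors A hA n
      rw [QuotientGroup.eq_one_iff, ← hHi, Subgroup.mem_inf]
      exact ⟨fun h => ⟨x.2, h⟩, fun h => h.2⟩
    have hT0U : T0 ≤ U0 := hker0 ▸ Subgroup.ker_le_comap π (S : Subgroup (G ⧸ A))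
    have hN2T : N2 ≤ T0 := fun x hx => hle2 hx
    let A0 : Subgroup H := (K ⊔ tors A hA m).subgroupOf H
    have hmemA : ∀ x ∈ K ⊔ tors A hA m, x ∈ A → x ∈ tors A hA m := by
      intro x hx hxA
      obtain ⟨k, hk, a, ha, rfl⟩ := Subgroup.mem_sup_of_normal_right.mp hx
      have : k ∈ K ⊓ A := ⟨hk, by simpa using A.mul_mem hxA (A.inv_mem ha.1)⟩
      rw [hKi, Subgroup.mem_bot] at this
      rwa [this, one_mul]
    have hA0U : A0 ≤ U0 := by
      intro x hx
      show ((x : G) : G ⧸ A) ∈ (S : Subgroup (G ⧸ A))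
      have hle : K ⊔ tors A hA m ≤ (S : Subgroup (G ⧸ A)).comap (QuotientGroup.mk' A) :=
        (sup_le_sup_left (fun a (ha : a ∈ tors A hA m) => ha.1) K).trans hKs.le
      exact hle hx
    have hA0T : A0 ⊓ T0 = ⊥ := by
      rw [eq_bot_iff]
      rintro x ⟨hx1, hx2⟩
      have hxm := hmemA _ hx1 hx2.1
      rw [Subgroup.mem_bot]
      apply Subtype.ext
      show (x : G) = 1
      rw [← orderOf_eq_one_iff]
      exact Nat.eq_one_of_dvd_coprimes hcop (orderOf_dvd_of_pow_eq_one hx2.2) (orderOf_dvd_of_pow_eq_one hxm.2)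
    have hTA : ∀ a ∈ A, ∃ b ∈ tors A hA n, ∃ c ∈ tors A hA m, a = b * c := by
      intro a ha
      have hpow : ∀ i : ℤ, a ^ (((n * m : ℕ) : ℤ) * i) = 1 := fun i => by
        rw [zpow_mul, zpow_natCast, hnm, ← Subgroup.coe_mk A a ha, ← SubmonoidClass.coe_pow, pow_card_eq_one']
        simp
      have h1 := Int.gcd_eq_gcd_ab (n : ℤ) (m : ℤ)
      rw [Int.gcd_natCast_natCast, Nat.coprime_iff_gcd_eq_one.mp hcop, Nat.cast_one] at h1
      refine ⟨a ^ ((m : ℤ) * Int.gcdB n m), ⟨A.zpow_mem ha _, ?_⟩, a ^ ((n : ℤ) * Int.gcdA n m),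
        ⟨A.zpow_mem ha _, ?_⟩, ?_⟩
      · rw [← zpow_natCast, ← zpow_mul, show (m : ℤ) * Int.gcdB n m * n = ((n * m : ℕ) : ℤ) * Int.gcdB n m by
          push_cast; ring]
        exact hpow _
      · rw [← zpow_natCast, ← zpow_mul, show (n : ℤ) * Int.gcdA n m * m = ((n * m : ℕ) : ℤ) * Int.gcdA n m by
          push_cast; ring]
        exact hpow _
      · rw [← zpow_add, add_comm, ← h1, zpow_one]
    have hgen : ∀ x ∈ U0, ∃ t ∈ T0, ∃ a ∈ A0, x = t * a := by
      intro x hx
      have hxS : (x : G) ∈ K ⊔ A := hKs.ge hx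
      obtain ⟨a, ha, k, hk, hak⟩ := Subgroup.mem_sup_of_normal_left.mp (sup_comm K A ▸ hxS)
      obtain ⟨b, hb, c, hc, rfl⟩ := hTA a ha
      have hbx : c * k ∈ H := by
        have : c * k = b⁻¹ * (x : G) := by rw [← hak]; group
        rw [this]
        exact H.mul_mem (H.inv_mem (hleH hb)) x.2
      refine ⟨⟨b, hleH hb⟩, hb, ⟨c * k, hbx⟩,
        Subgroup.mul_mem _ (Subgroup.mem_sup_right hc) (Subgroup.mem_sup_left hk), Subtype.ext ?_⟩
      show (x : G) = b * (c * k)
      rw [← hak, mul_assoc]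
    have hcopI : (Nat.card (T0.map q)).Coprime (U0.map q).index := by
      have hpg : IsPGroup p (T0.map q) := by
        rintro ⟨_, x, hx, rfl⟩
        refine ⟨e, Subtype.ext ?_⟩
        rw [SubmonoidClass.coe_pow, OneMemClass.coe_one]
        show q x ^ p ^ e = 1
        rw [← map_pow, ← MonoidHom.mem_ker, hkerq]
        show ((x ^ p ^ e : H) : G) ∈ tors A hA n'
        rw [SubmonoidClass.coe_pow]
        exact ⟨A.pow_mem hx.1 _, by rw [← pow_mul, ← hne]; exact hx.2⟩
      obtain ⟨k, hk⟩ := IsPGroup.iff_card.mp hpg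
      rw [hk]
      refine Nat.Coprime.pow_left k (hp.coprime_iff_not_dvd.mpr ?_)
      rw [Subgroup.index_map_eq U0 hq (hkerq.le.trans (hN2T.trans hT0U)), Subgroup.index_comap_of_surjective _ hπ]
      exact S.not_dvd_index
    obtain ⟨W, hW⟩ := CfsgLib.Hall.Struct.gaschutz_existence (T0.map q) (U0.map q) (Subgroup.map_mono hT0U)
      hcopI (A0.map q) (Subgroup.map_mono hA0U) (by
        rw [eq_bot_iff]
        rintro _ ⟨⟨x, hx, rfl⟩, ⟨y, hy, hxy⟩⟩
        have h1 : y⁻¹ * x ∈ N2 := by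
          rw [← hkerq, MonoidHom.mem_ker, map_mul, map_inv, hxy, inv_mul_cancel]
        have hxT : x ∈ T0 := by
          have := T0.mul_mem hy (hN2T h1)
          rwa [mul_inv_cancel_left] at this
        have : x ∈ A0 ⊓ T0 := ⟨hx, hxT⟩
        rw [hA0T, Subgroup.mem_bot] at this
        rw [this, map_one]
        exact Subgroup.one_mem _)
      (by
        refine le_antisymm (sup_le (Subgroup.map_mono hT0U) (Subgroup.map_mono hA0U)) ?_
        rintro _ ⟨x, hx, rfl⟩
        obtain ⟨t, ht, a, ha, rfl⟩ := hgen x hx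
        rw [map_mul]
        exact Subgroup.mul_mem _ (Subgroup.mem_sup_left ⟨t, ht, rfl⟩) (Subgroup.mem_sup_right ⟨a, ha, rfl⟩))
    refine ⟨(W.comap q).map H.subtype, ?_, ?_⟩
    · rw [eq_top_iff]
      intro g _
      have hg : g ∈ H ⊔ A := hHA ▸ Subgroup.mem_top g
      obtain ⟨h, hh, a, ha, rfl⟩ := Subgroup.mem_sup_of_normal_right.mp hg
      refine Subgroup.mul_mem _ ?_ (Subgroup.mem_sup_right ha)
      obtain ⟨⟨⟨_, t, ht, rfl⟩, w⟩, htw, -⟩ := hW.existsUnique (q ⟨h, hh⟩)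
      simp only at htw
      have hmem : t⁻¹ * ⟨h, hh⟩ ∈ W.comap q := by
        show q (t⁻¹ * ⟨h, hh⟩) ∈ W
        rw [map_mul, map_inv, ← htw, inv_mul_cancel_left]
        exact w.2
      have hh' : h = (t : G) * ((t⁻¹ * ⟨h, hh⟩ : H) : G) := by
        show h = (t : G) * ((t : G)⁻¹ * h)
        rw [mul_inv_cancel_left]
      rw [hh']
      exact Subgroup.mul_mem _ (Subgroup.mem_sup_right ht.1) (Subgroup.mem_sup_left ⟨_, hmem, rfl⟩)
    · refine le_antisymm ?_ (fun a ha => ⟨⟨⟨a, hleH (hle2 ha)⟩, ?_, rfl⟩, ha.1⟩)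
      · rintro _ ⟨⟨x, hx, rfl⟩, hxA⟩
        have hxT : x ∈ T0 := by
          show (x : G) ∈ tors A hA n
          rw [← hHi]
          exact ⟨x.2, hxA⟩
        have h1 : q x ∈ T0.map q ⊓ W := ⟨⟨x, hxT, rfl⟩, hx⟩
        rw [hW.disjoint.eq_bot, Subgroup.mem_bot, ← MonoidHom.mem_ker, hkerq] at h1
        exact h1
      · show q ⟨a, hleH (hle2 ha)⟩ ∈ W
        have : q ⟨a, hleH (hle2 ha)⟩ = 1 := by
          rw [← MonoidHom.mem_ker, hkerq]; exact ha
        rw [this]
        exact W.one_mem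

/-- Let `A` be an abelian normal subgroup of the finite group `G`. Then `A` has a complement in `G` if and only if, for every prime `p` dividing the index of `A`, there are a Sylow `p`-subgroup `S` of `G/A` and a subgroup `K` of `G` with `K ∩ A = 1` and `KA` equal to the preimage of `S` (that is, `A` has a complement in the preimage of a Sylow `p`-subgroup of `G/A`). -/
theorem result {G : Type*} [Group G] [Finite G] (A : Subgroup G) [A.Normal] (hA : IsMulCommutative A) : (∃ K : Subgroup G, K.IsComplement' A) ↔ ∀ p : ℕ, p.Prime → p ∣ A.index → ∃ (S : Sylow p (G ⧸ A)) (K : Subgroup G), K ⊓ A = ⊥ ∧ K ⊔ A = (S : Subgroup (G ⧸ A)).comap (QuotientGroup.mk' A) := by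
  constructor
  · rintro ⟨K, hK⟩ p hp -
    have := Fact.mk hp
    let S : Sylow p (G ⧸ A) := default
    refine ⟨S, K ⊓ (S : Subgroup (G ⧸ A)).comap (QuotientGroup.mk' A), ?_, ?_⟩
    · rw [eq_bot_iff, ← hK.disjoint.eq_bot]
      exact inf_le_inf inf_le_left le_rfl
    · refine le_antisymm (sup_le inf_le_right ?_) fun g hg => ?_
      · intro a ha
        show (QuotientGroup.mk' A) a ∈ (S : Subgroup (G ⧸ A))
        rw [QuotientGroup.mk'_apply, (QuotientGroup.eq_one_iff a).mpr ha]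
        exact Subgroup.one_mem _
      · obtain ⟨⟨k, a⟩, hka, -⟩ := hK.existsUnique g
        simp only at hka
        have hk : (k : G) ∈ (S : Subgroup (G ⧸ A)).comap (QuotientGroup.mk' A) := by
          show (QuotientGroup.mk' A) (k : G) ∈ (S : Subgroup (G ⧸ A))
          have : (QuotientGroup.mk' A) g = (QuotientGroup.mk' A) (k : G) := by
            rw [← hka, map_mul]
            simp [(QuotientGroup.eq_one_iff (a : G)).mpr a.2]
          rw [← this]
          exact hg
        rw [← hka]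
        exact Subgroup.mul_mem _ (Subgroup.mem_sup_left ⟨k.2, hk⟩) (Subgroup.mem_sup_right a.2)
  · intro h
    have hloc : ∀ p : ℕ, p.Prime → ∃ (S : Sylow p (G ⧸ A)) (K : Subgroup G), K ⊓ A = ⊥ ∧
        K ⊔ A = (S : Subgroup (G ⧸ A)).comap (QuotientGroup.mk' A) := by
      intro p hp
      by_cases hd : p ∣ A.index
      · exact h p hp hd
      · have := Fact.mk hp
        let S : Sylow p (G ⧸ A) := default
        have hS : (S : Subgroup (G ⧸ A)) = ⊥ := by
          rw [← Subgroup.card_eq_one, S.card_eq_multiplicity,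
            Nat.factorization_eq_zero_of_not_dvd (by rwa [← Subgroup.index_eq_card]), pow_zero]
        exact ⟨S, ⊥, bot_inf_eq _, by rw [bot_sup_eq, hS, MonoidHom.comap_bot, QuotientGroup.ker_mk']⟩
    have htop : tors A hA (Nat.card A) = A := le_antisymm (fun a ha => ha.1) fun a ha => ⟨ha, by
      have h1 := congrArg (fun z : A => (z : G)) (pow_card_eq_one' (G := A) (x := ⟨a, ha⟩))
      simp only [SubmonoidClass.coe_pow, OneMemClass.coe_one] at h1
      exact h1⟩
    obtain ⟨H, hH1, hH2⟩ := exists_supplement A hA hloc (Nat.card A) Nat.card_pos 1 (mul_one _)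
      (Nat.coprime_one_right _) ⟨⊤, top_sup_eq _, by rw [top_inf_eq, htop]⟩
    exact ⟨H, Subgroup.isComplement'_of_disjoint_and_mul_eq_univ (disjoint_iff.mpr hH2)
      (by rw [← Subgroup.mul_normal H A, hH1, Subgroup.coe_top])⟩

end Cfsg.Agent.S4217
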