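import Cfsg.Statements.S4219

set_option autoImplicit false
open Cfsg

namespace Cfsg.Agent.S4219

/-- Let a finite group `G` act `t`-fold transitively on a finite set, let `H` be the stabilizer of `t` distinct points and `P` a Sylow `p`-subgroup of `H`. Then the normalizer of `P` in `G` is `t`-fold transitive on the fixed points of `P`: any `t` distinct fixed points of `P` can be carried to any other `t` distinct fixed points of `P` by an element normalizing `P`. -/
theorem result {G : Type*} [Group G] [Finite G] {α : Type*} [Fintype α] [MulAction G α] {t : ℕ} (hG : MulAction.IsMultiplyPretransitive G α t) (x : Fin t ↪ α) {p : ℕ} [Fact p.Prime] (P : Sylow p (MulAction.stabilizer G x)) (a b : Fin t ↪ α) (ha : ∀ i, a i ∈ MulAction.fixedPoints ((P : Subgroup (MulAction.stabilizer G x)).map (MulAction.stabilizer G x).subtype) α) (hb : ∀ i, b i ∈ MulAction.fixedPoints ((P : Subgroup (MulAction.stabilizer G x)).map (MulAction.stabilizer G x).subtype) α) : ∃ g ∈ Subgroup.normalizer ((((P : Subgroup (MulAction.stabilizer G x)).map (MulAction.stabilizer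 G x).subtype) : Subgroup G) : Set G), g • a = b := by
  have htr := hG
  obtain ⟨g, hg⟩ := MulAction.exists_smul_eq G a b
  obtain ⟨g', hg'⟩ := MulAction.exists_smul_eq G x b
  set Q : Subgroup G := (P : Subgroup (MulAction.stabilizer G x)).map
    (MulAction.stabilizer G x).subtype with hQ
  have hcardS : Nat.card (MulAction.stabilizer G b) = Nat.card (MulAction.stabilizer G x) := by
    rw [← hg', MulAction.stabilizer_smul_eq_stabilizer_map_conj]
    exact Nat.card_congr (((MulAction.stabilizer G x).equivMapOfInjective _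
      (MulEquiv.injective _)).toEquiv).symm
  have hQcard : Nat.card Q = p ^ (Nat.card (MulAction.stabilizer G b)).factorization p := by
    rw [hQ, Subgroup.card_map_of_injective (Subgroup.subtype_injective _), hcardS]
    exact P.card_eq_multiplicity
  have hfix : ∀ c : Fin t ↪ α, (∀ i, c i ∈ MulAction.fixedPoints Q α) →
      Q ≤ MulAction.stabilizer G c := by
    intro c hc n hn
    rw [MulAction.mem_stabilizer_iff]
    ext i
    exact hc i ⟨n, hn⟩
  have h1 : Q ≤ MulAction.stabilizer G b := hfix b hb
  have h2 : Q.map (MulAut.conj g).toMonoidHom ≤ MulAction.stabilizer G b := by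
    rintro _ ⟨n, hn, rfl⟩
    rw [MulAction.mem_stabilizer_iff]
    have : n • a = a := hfix a ha hn
    simp [mul_smul, ← hg, this]
  let P1 : Sylow p (MulAction.stabilizer G b) := Sylow.ofCard (Q.subgroupOf _) (by
    rw [Nat.card_congr (Subgroup.subgroupOfEquivOfLe h1).toEquiv]; exact hQcard)
  let P2 : Sylow p (MulAction.stabilizer G b) :=
    Sylow.ofCard ((Q.map (MulAut.conj g).toMonoidHom).subgroupOf _) (by
    rw [Nat.card_congr (Subgroup.subgroupOfEquivOfLe h2).toEquiv,
      Subgroup.card_map_of_injective (MulEquiv.injective _)]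
    exact hQcard)
  obtain ⟨h, hh⟩ := MulAction.exists_smul_eq (MulAction.stabilizer G b) P2 P1
  refine ⟨(h : G) * g, Subgroup.mem_normalizer_fintype ?_, by rw [mul_smul, hg, h.2]⟩
  intro n hn
  have hn2 : (⟨g * n * g⁻¹, h2 ⟨n, hn, rfl⟩⟩ : MulAction.stabilizer G b) ∈
      (P2 : Subgroup (MulAction.stabilizer G b)) := by
    show _ ∈ Subgroup.subgroupOf _ _
    exact Subgroup.mem_subgroupOf.mpr ⟨n, hn, rfl⟩
  have h3 := Subgroup.smul_mem_pointwise_smul _ (MulAut.conj h) _ hn2
  rw [← Sylow.coe_subgroup_smul, hh] at h3
  have h4 := Subgroup.mem_subgroupOf.mp h3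
  simpa [mul_assoc] using h4

end Cfsg.Agent.S4219
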