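import Cfsg.Statements.S4221
import Cfsg.Agent.JordanFour.Main

set_option autoImplicit false
open Cfsg

namespace Cfsg.Agent.S4221

open CfsgLib.JordanFour in
theorem card_eq {G α : Type*} [Group G] [MulAction G α] [Fintype α] [DecidableEq α]
    (hG : MulAction.IsMultiplyPretransitive G α 4) (x : Fin 4 ↪ α) :
    Nat.card G = (Fintype.card α).descFactorial 4 * Nat.card (MulAction.stabilizer G x) := by
  have h1 := Subgroup.card_eq_card_quotient_mul_card_subgroup (MulAction.stabilizer G x)
  rw [← Nat.card_congr (MulAction.orbitEquivQuotientStabilizer G x)] at h1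
  rw [h1]
  congr 1
  haveI : MulAction.IsPretransitive G (Fin 4 ↪ α) := hG
  rw [Nat.card_congr (Equiv.setCongr (MulAction.orbit_eq_univ G x)), Nat.card_congr (Equiv.Set.univ _),
    Nat.card_eq_fintype_card, Fintype.card_embedding_eq, Fintype.card_fin]

/-- The theorem in terms of orders. -/
theorem core {G α : Type*} [Group G] [Finite G] [MulAction G α] [FaithfulSMul G α] [Fintype α] [DecidableEq α]
    (hG : MulAction.IsMultiplyPretransitive G α 4) (x : Fin 4 ↪ α) (hodd : Odd (Nat.card (MulAction.stabilizer G x))) :
    ((Fintype.card α = 4 ∨ Fintype.card α = 5) ∧ Nat.card G = (Fintype.card α).factorial) ∨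
      ((Fintype.card α = 6 ∨ Fintype.card α = 7) ∧ 2 * Nat.card G = (Fintype.card α).factorial) ∨
        (Fintype.card α = 11 ∧ Nat.card G = 7920) := by
  classical
  have hcard := card_eq hG x
  have hdvd : Nat.card G ∣ (Fintype.card α).factorial := by
    rw [← Fintype.card_perm, ← Nat.card_eq_fintype_card]
    exact Subgroup.card_dvd_of_injective (MulAction.toPermHom G α) MulAction.toPerm_injective
  have h4 : 4 ≤ Fintype.card α := by simpa using Fintype.card_le_of_embedding x
  obtain ⟨m, hm⟩ : ∃ m, Nat.card (MulAction.stabilizer G x) = m := ⟨_, rfl⟩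
  rw [hm] at hcard hodd
  rw [hcard] at hdvd
  by_cases h7 : 7 ≤ Fintype.card α
  · have S : CfsgLib.JordanFour.Setup G α :=
      { finG := inferInstance
        faith := inferInstance
        trans := hG
        odd := fun y => by
          haveI : MulAction.IsPretransitive G (Fin 4 ↪ α) := hG
          obtain ⟨g, rfl⟩ := MulAction.exists_smul_eq G x y
          rw [← Nat.card_congr (MulAction.stabilizerEquivStabilizer (g := g) rfl).toEquiv, hm]
          exact hodd }
    rcases S.main x h7 with ⟨h, h3⟩ | ⟨h, k, hk⟩
    · refine Or.inr (Or.inl ⟨Or.inr h, ?_⟩)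
      rw [hm] at h3
      rw [h] at hcard hdvd ⊢
      have e : (7 : ℕ).descFactorial 4 = 840 := by decide
      have e' : (7 : ℕ).factorial = 5040 := by decide
      rw [e] at hcard hdvd
      rw [e'] at hdvd ⊢
      have : m ≤ 6 := Nat.le_of_dvd (by norm_num) (Nat.dvd_of_mul_dvd_mul_left (by norm_num : 0 < 840) hdvd)
      obtain ⟨r, hr⟩ := hodd
      omega
    · refine Or.inr (Or.inr ⟨h, ?_⟩)
      rw [hm] at hk
      rw [h] at hcard hdvd
      have e : (11 : ℕ).descFactorial 4 = 7920 := by decide
      have e' : (11 : ℕ).factorial = 7920 * 5040 := by decide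
      rw [e] at hcard hdvd
      rw [e'] at hdvd
      have hd : m ∣ 5040 := Nat.dvd_of_mul_dvd_mul_left (by norm_num : 0 < 7920) hdvd
      have hko : Odd k := by rw [hk] at hodd; exact (Nat.odd_pow_iff (by norm_num)).1 hodd
      have hd' : k ^ 3 ∣ 315 := by
        rw [← hk]
        have hc : m.Coprime (2 ^ 4) := Nat.Coprime.pow_right _ (Nat.coprime_two_right.2 hodd)
        exact hc.dvd_of_dvd_mul_left (by norm_num; exact hd)
      have hk6 : k ≤ 6 := by
        by_contra hk6
        have := Nat.le_of_dvd (by norm_num) hd'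
        have := Nat.pow_le_pow_left (show 7 ≤ k by omega) 3
        omega
      have hk1 : k = 1 := by
        obtain ⟨r, rfl⟩ := hko
        have : r ≤ 2 := by omega
        interval_cases r <;> first | rfl | (exfalso; norm_num at hd')
      rw [hcard, hk, hk1]; norm_num
  · obtain ⟨r, hr⟩ := hodd
    rcases (show Fintype.card α = 4 ∨ Fintype.card α = 5 ∨ Fintype.card α = 6 by omega) with h | h | h
    · refine Or.inl ⟨Or.inl h, ?_⟩
      rw [h] at hcard hdvd ⊢
      have e : (4 : ℕ).descFactorial 4 = 24 := by decide
      have e' : (4 : ℕ).factorial = 24 := by decide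
      rw [e] at hcard hdvd
      rw [e'] at hdvd ⊢
      have := Nat.le_of_dvd (by norm_num) hdvd
      omega
    · refine Or.inl ⟨Or.inr h, ?_⟩
      rw [h] at hcard hdvd ⊢
      have e : (5 : ℕ).descFactorial 4 = 120 := by decide
      have e' : (5 : ℕ).factorial = 120 := by decide
      rw [e] at hcard hdvd
      rw [e'] at hdvd ⊢
      have := Nat.le_of_dvd (by norm_num) hdvd
      omega
    · refine Or.inr (Or.inl ⟨Or.inl h, ?_⟩)
      rw [h] at hcard hdvd ⊢
      have e : (6 : ℕ).descFactorial 4 = 360 := by decide
      have e' : (6 : ℕ).factorial = 720 := by decide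
      rw [e] at hcard hdvd
      rw [e'] at hdvd ⊢
      have := Nat.le_of_dvd (by norm_num) hdvd
      omega

/-- Let `G` be a `4`-fold transitive permutation group on a finite set of `n` points in which the pointwise stabilizer of some four distinct points has odd order. Then `n = 4` or `n = 5` with `G` the full symmetric group, or `n = 6` or `n = 7` with `G` the alternating group, or `n = 11` and `G` has order `7920`. -/
theorem result {α : Type*} [Fintype α] [DecidableEq α] (G : Subgroup (Equiv.Perm α)) (hG : MulAction.IsMultiplyPretransitive G α 4) (x : Fin 4 ↪ α) (hodd : Odd (Nat.card (MulAction.stabilizer G x))) : ((Fintype.card α = 4 ∨ Fintype.card α = 5) ∧ G = ⊤) ∨ ((Fintype.card α = 6 ∨ Fintype.card α = 7) ∧ G = alternatingGroup α) ∨ (Fintype.card α = 11 ∧ Nat.card G = 7920) := by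
  classical
  have htop : Nat.card G = (Fintype.card α).factorial → G = ⊤ := fun h =>
    Subgroup.eq_top_of_card_eq G (by rw [h, Nat.card_eq_fintype_card, Fintype.card_perm])
  have halt : 2 * Nat.card G = (Fintype.card α).factorial → G = alternatingGroup α := fun h => by
    refine Equiv.Perm.eq_alternatingGroup_of_index_eq_two ?_
    have h1 := G.card_mul_index
    rw [Nat.card_eq_fintype_card (α := Equiv.Perm α), Fintype.card_perm, ← h, mul_comm 2] at h1
    exact Nat.eq_of_mul_eq_mul_left Nat.card_pos h1
  rcases core (G := G) hG x hodd with ⟨h, e⟩ | ⟨h, e⟩ | h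
  · exact Or.inl ⟨h, htop e⟩
  · exact Or.inr (Or.inl ⟨h, halt e⟩)
  · exact Or.inr (Or.inr h)

end Cfsg.Agent.S4221
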