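import Cfsg.Statements.S4222

set_option autoImplicit false
open Cfsg

namespace Cfsg.Agent.S4222

/-- If a normal subgroup `N` of a finite group is complete (its centre is trivial and every automorphism of `N` is inner), then the group is the internal direct product of `N` and the centralizer of `N`: the centralizer is a complement to `N`. -/
theorem result {T : Type*} [Group T] [Finite T] (N : Subgroup T) [N.Normal] (hz : Subgroup.center ↥N = ⊥) (ha : Function.Surjective (MulAut.conj : ↥N →* MulAut ↥N)) : (Subgroup.centralizer (N : Set T)).IsComplement' N := by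
  have hdisj : Disjoint (Subgroup.centralizer (N : Set T)) N := by
    rw [Subgroup.disjoint_def]
    intro z hzc hzn
    have : (⟨z, hzn⟩ : N) ∈ Subgroup.center ↥N := by
      rw [Subgroup.mem_center_iff]
      intro n
      ext
      exact Subgroup.mem_centralizer_iff.mp hzc n n.2
    rw [hz, Subgroup.mem_bot] at this
    exact congrArg Subtype.val this
  refine Subgroup.isComplement'_of_disjoint_and_mul_eq_univ hdisj ?_
  rw [Set.eq_univ_iff_forall]
  intro t
  obtain ⟨n, hn⟩ := ha (MulAut.conjNormal t)
  refine ⟨t * (n : T)⁻¹, ?_, n, n.2, by simp⟩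
  rw [SetLike.mem_coe, Subgroup.mem_centralizer_iff]
  intro m hm
  have key := congrArg Subtype.val (DFunLike.congr_fun hn
    (⟨(n : T)⁻¹ * m * n, N.mul_mem (N.mul_mem (N.inv_mem n.2) hm) n.2⟩ : N))
  simp only [MulAut.conj_apply, Subgroup.coe_mul, InvMemClass.coe_inv,
    MulAut.conjNormal_apply] at key
  have : m = t * ((n : T)⁻¹ * m * n) * t⁻¹ := by rw [← key]; group
  nth_rewrite 1 [this]
  group

end Cfsg.Agent.S4222
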