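import Cfsg.Statements.S4223

set_option autoImplicit false
open Cfsg

namespace Cfsg.Agent.S4223

/-- Directly indecomposable. -/
def Indec (G : Type*) [Group G] : Prop :=
  Nontrivial G ∧ ∀ H K : Subgroup G, H.Normal → K.Normal → H ⊓ K = ⊥ → H ⊔ K = ⊤ → H = ⊥ ∨ K = ⊥

/-- Fitting's lemma for conjugation-equivariant endomorphisms. -/
theorem fitting {G : Type*} [Group G] [Finite G] (hG : Indec G) (θ : G →* G)
    (hθ : ∀ a g : G, θ (a * g * a⁻¹) = a * θ g * a⁻¹) :
    Function.Bijective θ ∨ ∀ g : G, θ g = g → g = 1 := by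
  obtain ⟨n, hn, hidem⟩ : ∃ n : ℕ, 0 < n ∧ ∀ g, θ^[n] (θ^[n] g) = θ^[n] g := by
    obtain ⟨i, j, hij, he⟩ := Finite.exists_ne_map_eq_of_infinite (fun k : ℕ => θ^[k])
    wlog hlt : i < j generalizing i j
    · exact this j i hij.symm he.symm (by omega)
    have hd : ∀ k, i ≤ k → θ^[k + (j - i)] = θ^[k] := by
      intro k hk
      obtain ⟨c, rfl⟩ := Nat.exists_eq_add_of_le hk
      rw [show i + c + (j - i) = c + j by omega, show i + c = c + i by omega,
        Function.iterate_add, Function.iterate_add]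
      exact congrArg (fun f => θ^[c] ∘ f) he.symm
    have hd' : ∀ c k, i ≤ k → θ^[k + c * (j - i)] = θ^[k] := by
      intro c
      induction c with
      | zero => simp
      | succ c ih =>
        intro k hk
        rw [show k + (c + 1) * (j - i) = (k + c * (j - i)) + (j - i) by ring, hd _ (le_add_right hk), ih k hk]
    refine ⟨(i + 1) * (j - i), Nat.mul_pos (by omega) (by omega), fun g => ?_⟩
    rw [← Function.iterate_add_apply, hd' (i + 1) _ ?_]
    calc i ≤ i + 1 := by omega
      _ ≤ (i + 1) * (j - i) := Nat.le_mul_of_pos_right _ (by omega)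
  have hmap : ∀ k : ℕ, ∀ x y : G, θ^[k] (x * y) = θ^[k] x * θ^[k] y := fun k x y => iterate_map_mul θ k x y
  let ψ : G →* G := MonoidHom.mk' θ^[n] (hmap n)
  have hψ : ∀ a g : G, ψ (a * g * a⁻¹) = a * ψ g * a⁻¹ := by
    have : ∀ k : ℕ, ∀ a g : G, θ^[k] (a * g * a⁻¹) = a * θ^[k] g * a⁻¹ := by
      intro k
      induction k with
      | zero => simp
      | succ k ih => intro a g; rw [Function.iterate_succ_apply', ih, hθ, Function.iterate_succ_apply']
    exact this n
  have hrn : ψ.range.Normal := ⟨by rintro _ ⟨g, rfl⟩ a; exact ⟨a * g * a⁻¹, hψ a g⟩⟩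
  have hinf : ψ.ker ⊓ ψ.range = ⊥ := by
    rw [eq_bot_iff]
    rintro _ ⟨h1, g, rfl⟩
    rw [Subgroup.mem_bot]
    have h2 : θ^[n] (θ^[n] g) = 1 := h1
    rw [hidem] at h2
    exact h2
  have hsup : ψ.ker ⊔ ψ.range = ⊤ := by
    rw [eq_top_iff]
    intro g _
    have hk : g * (ψ g)⁻¹ ∈ ψ.ker := by
      rw [MonoidHom.mem_ker, map_mul, map_inv, show ψ (ψ g) = ψ g from hidem g, mul_inv_cancel]
    have := Subgroup.mul_mem (ψ.ker ⊔ ψ.range) (Subgroup.mem_sup_left hk) (Subgroup.mem_sup_right ⟨g, rfl⟩)
    simpa using this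
  rcases hG.2 _ _ (MonoidHom.normal_ker ψ) hrn hinf hsup with h | h
  · left
    refine Finite.injective_iff_bijective.mp fun x y hxy => ?_
    obtain ⟨m, rfl⟩ : ∃ m, n = m + 1 := ⟨n - 1, by omega⟩
    refine (MonoidHom.ker_eq_bot_iff ψ).mp h ?_
    show θ^[m + 1] x = θ^[m + 1] y
    rw [Function.iterate_succ_apply, hxy, Function.iterate_succ_apply]
  · right
    intro g hg
    have h1 : ψ g ∈ ψ.range := ⟨g, rfl⟩
    rw [h, Subgroup.mem_bot] at h1
    rw [show ψ g = θ^[n] g from rfl, Function.iterate_fixed hg] at h1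
    exact h1

theorem exists_match {X : Type*} [Group X] [Finite X] (hX : Indec X) {n : ℕ} {B : Fin n → Type*}
    [∀ j, Group (B j)] [∀ j, Finite (B j)] (α : X →* ((j : Fin n) → B j)) (β : ((j : Fin n) → B j) →* X)
    (hβα : ∀ g, β (α g) = g) (hB : ∀ j, Indec (B j))
    (hnorm : ∀ j (b : B j) (g : X), ∃ g' : X, α g' j = b * α g j * b⁻¹) :
    ∃ j, Function.Bijective (fun g : X => α g j) ∧ ∀ b : B j, β (Pi.mulSingle j b) = 1 → b = 1 := by
  classical
  let proj : Finset (Fin n) → (((j : Fin n) → B j) →* ((j : Fin n) → B j)) := fun s =>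
    MonoidHom.mk' (fun x j => if j ∈ s then x j else 1) (fun x y => funext fun j => by
      simp only [Pi.mul_apply]; split <;> simp)
  let θ : Finset (Fin n) → (X →* X) := fun s => β.comp ((proj s).comp α)
  have hθn : ∀ s, ∀ a g : X, θ s (a * g * a⁻¹) = a * θ s g * a⁻¹ := by
    intro s a g
    show β (proj s (α (a * g * a⁻¹))) = a * β (proj s (α g)) * a⁻¹
    have e : proj s (α (a * g * a⁻¹)) = α a * proj s (α g) * (α a)⁻¹ := by
      funext j
      show (if j ∈ s then α (a * g * a⁻¹) j else 1) = α a j * (if j ∈ s then α g j else 1) * (α a j)⁻¹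
      split <;> simp
    rw [e, map_mul, map_mul, map_inv, hβα]
  have hsplit : ∀ (s : Finset (Fin n)) (k : Fin n), k ∉ s → ∀ g, θ (insert k s) g = θ {k} g * θ s g := by
    intro s k hk g
    show β (proj (insert k s) (α g)) = β (proj {k} (α g)) * β (proj s (α g))
    rw [← map_mul]
    congr 1
    funext j
    show (if j ∈ insert k s then α g j else 1) = (if j ∈ ({k} : Finset (Fin n)) then α g j else 1) *
      (if j ∈ s then α g j else 1)
    rcases eq_or_ne j k with rfl | hjk
    · simp [hk]
    · simp [hjk]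
  obtain ⟨j, hj⟩ : ∃ j, Function.Bijective (θ {j}) := by
    have key : ∀ s : Finset (Fin n), Function.Bijective (θ s) → ∃ j, Function.Bijective (θ {j}) := by
      intro s
      induction s using Finset.induction_on with
      | empty =>
        intro h
        obtain ⟨g, hg⟩ := @exists_ne X hX.1 1
        exact absurd (h.1 (show θ ∅ g = θ ∅ 1 by
          show β _ = β _
          congr 1)) hg
      | @insert k s hk ih =>
        intro h
        let E : X ≃* X := MulEquiv.ofBijective (θ (insert k s)) h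
        have hE : ∀ a g, E.symm (a * g * a⁻¹) = a * E.symm g * a⁻¹ := by
          intro a g
          apply E.injective
          rw [E.apply_symm_apply]
          show a * g * a⁻¹ = θ (insert k s) (a * E.symm g * a⁻¹)
          rw [hθn]
          show a * g * a⁻¹ = a * E (E.symm g) * a⁻¹
          rw [E.apply_symm_apply]
        rcases fitting hX (E.symm.toMonoidHom.comp (θ {k})) (fun a g => by
          show E.symm (θ {k} (a * g * a⁻¹)) = a * E.symm (θ {k} g) * a⁻¹
          rw [hθn, hE]) with h1 | h1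
        · exact ⟨k, by
            have : (θ {k} : X → X) = E ∘ (E.symm.toMonoidHom.comp (θ {k})) := funext fun g => by simp
            rw [this]
            exact E.bijective.comp h1⟩
        · refine ih (Finite.injective_iff_bijective.mp ((MonoidHom.ker_eq_bot_iff (θ s)).mp
            ((Subgroup.eq_bot_iff_forall _).mpr fun g hg => h1 g ?_)))
          show E.symm (θ {k} g) = g
          rw [MulEquiv.symm_apply_eq]
          show θ {k} g = θ (insert k s) g
          rw [hsplit s k hk g, MonoidHom.mem_ker.mp hg, mul_one]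
    refine key Finset.univ ?_
    have : (θ Finset.univ : X → X) = id := funext fun g => by
      show β (proj Finset.univ (α g)) = g
      conv_rhs => rw [← hβα g]
      congr 1
      funext j
      show (if j ∈ Finset.univ then α g j else 1) = α g j
      simp
    rw [this]
    exact Function.bijective_id
  refine ⟨j, ?_⟩
  have hθj : ∀ g, θ {j} g = β (Pi.mulSingle j (α g j)) := by
    intro g
    show β (proj {j} (α g)) = _
    congr 1
    funext i
    show (if i ∈ ({j} : Finset (Fin n)) then α g i else 1) = Pi.mulSingle j (α g j) i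
    rcases eq_or_ne i j with rfl | hij
    · simp
    · simp [hij]
  let αj : X →* B j := (Pi.evalMonoidHom B j).comp α
  let βj : B j →* X := β.comp (MonoidHom.mulSingle B j)
  have hinj : Function.Injective αj := fun a b hab => hj.1 (by
    rw [hθj, hθj]; exact congrArg βj hab)
  have hrn : αj.range.Normal := ⟨by
    rintro _ ⟨g, rfl⟩ b
    obtain ⟨g', hg'⟩ := hnorm j b g
    exact ⟨g', hg'⟩⟩
  have hne : αj.range ≠ ⊥ := fun h => by
    obtain ⟨g, hg⟩ := @exists_ne X hX.1 1
    have h1 : αj g ∈ αj.range := ⟨g, rfl⟩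
    rw [h, Subgroup.mem_bot] at h1
    exact hg (hinj (h1.trans (map_one αj).symm))
  have hinf : αj.range ⊓ βj.ker = ⊥ := by
    rw [eq_bot_iff]
    rintro _ ⟨⟨g, rfl⟩, h2⟩
    have : g = 1 := hj.1 (by rw [hθj, map_one]; exact h2)
    simp [this]
  have hsup : αj.range ⊔ βj.ker = ⊤ := by
    rw [eq_top_iff]
    intro b _
    obtain ⟨g, hg⟩ := hj.2 (βj b)
    rw [hθj] at hg
    have hk : (αj g)⁻¹ * b ∈ βj.ker := by
      rw [MonoidHom.mem_ker, map_mul, map_inv]
      show (β (Pi.mulSingle j (α g j)))⁻¹ * βj b = 1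
      rw [hg, inv_mul_cancel]
    have := Subgroup.mul_mem (αj.range ⊔ βj.ker) (Subgroup.mem_sup_left ⟨g, rfl⟩) (Subgroup.mem_sup_right hk)
    simpa using this
  rcases (hB j).2 _ _ hrn (MonoidHom.normal_ker βj) hinf hsup with h | h
  · exact absurd h hne
  · refine ⟨⟨hinj, fun b => ?_⟩, fun b hb => (Subgroup.eq_bot_iff_forall _).mp h b hb⟩
    have h1 : b ∈ αj.range ⊔ βj.ker := hsup ▸ Subgroup.mem_top b
    rw [h, sup_bot_eq] at h1
    exact h1

universe u v

theorem krs : ∀ (m : ℕ) {n : ℕ} {A : Fin m → Type u} {B : Fin n → Type v} [∀ i, Group (A i)]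
    [∀ j, Group (B j)] [∀ i, Finite (A i)] [∀ j, Finite (B j)], (∀ i, Indec (A i)) → (∀ j, Indec (B j)) →
    ((((i : Fin m) → A i) ≃* ((j : Fin n) → B j))) → ∃ σ : Fin m ≃ Fin n, ∀ i, Nonempty (A i ≃* B (σ i)) := by
  intro m
  induction m with
  | zero =>
    intro n A B _ _ _ _ hA hB e
    rcases Nat.eq_zero_or_pos n with rfl | hn
    · exact ⟨Equiv.refl _, fun i => i.elim0⟩
    · exfalso
      obtain ⟨b, hb⟩ := @exists_ne (B ⟨0, hn⟩) (hB ⟨0, hn⟩).1 1
      classical
      have h := congrFun (e.symm.injective (Subsingleton.elim (e.symm (Pi.mulSingle ⟨0, hn⟩ b)) (e.symm 1))) ⟨0, hn⟩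
      rw [Pi.mulSingle_eq_same] at h
      exact hb h
  | succ m ih =>
    intro n A B _ _ _ _ hA hB e
    classical
    let α : A 0 →* ((j : Fin n) → B j) := e.toMonoidHom.comp (MonoidHom.mulSingle A 0)
    let β : ((j : Fin n) → B j) →* A 0 := (Pi.evalMonoidHom A 0).comp e.symm.toMonoidHom
    have hα : ∀ g, α g = e (Pi.mulSingle 0 g) := fun g => rfl
    have hβ : ∀ x, β x = e.symm x 0 := fun x => rfl
    obtain ⟨j, hj, hker⟩ := exists_match (hA 0) α β (fun g => by simp [hα, hβ]) hB (fun j b g => by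
      refine ⟨e.symm (Pi.mulSingle j b) 0 * g * (e.symm (Pi.mulSingle j b) 0)⁻¹, ?_⟩
      have h1 : (Pi.mulSingle 0 (e.symm (Pi.mulSingle j b) 0 * g * (e.symm (Pi.mulSingle j b) 0)⁻¹) :
          (i : Fin (m + 1)) → A i) = e.symm (Pi.mulSingle j b) * Pi.mulSingle 0 g * (e.symm (Pi.mulSingle j b))⁻¹ := by
        funext i
        rcases eq_or_ne i 0 with rfl | hi
        · simp
        · simp [hi]
      rw [hα, hα, h1, map_mul, map_mul, map_inv, MulEquiv.apply_symm_apply]
      simp)
    obtain ⟨n, rfl⟩ : ∃ n', n = n' + 1 := ⟨n - 1, by have := j.isLt; omega⟩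
    have hf : ∀ x y : (i : Fin m) → A i.succ,
        (Fin.cons 1 (fun i => x i * y i) : (i : Fin (m + 1)) → A i) = Fin.cons 1 x * Fin.cons 1 y := by
      intro x y
      funext i
      induction i using Fin.cases <;> simp
    let F : ((i : Fin m) → A i.succ) →* ((k : Fin n) → B (j.succAbove k)) :=
      MonoidHom.mk' (fun x k => e (Fin.cons 1 x) (j.succAbove k)) (fun x y => funext fun k => by
        show e (Fin.cons 1 (fun i => x i * y i)) _ = _
        rw [hf, map_mul]
        rfl)
    have hFinj : Function.Injective F := by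
      rw [← MonoidHom.ker_eq_bot_iff, Subgroup.eq_bot_iff_forall]
      intro x hx
      have hsing : e (Fin.cons 1 x) = Pi.mulSingle j (e (Fin.cons 1 x) j) := by
        funext k
        rcases eq_or_ne k j with rfl | hkj
        · simp
        · obtain ⟨k', rfl⟩ := Fin.exists_succAbove_eq hkj
          rw [Pi.mulSingle_eq_of_ne hkj]
          exact congrFun (MonoidHom.mem_ker.mp hx) k'
      have hb := hker (e (Fin.cons 1 x) j) (by rw [← hsing, hβ, MulEquiv.symm_apply_apply, Fin.cons_zero])
      rw [hb, Pi.mulSingle_one] at hsing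
      have h1 : (Fin.cons 1 x : (i : Fin (m + 1)) → A i) = 1 := e.injective (hsing.trans (map_one e).symm)
      funext i
      have := congrFun h1 i.succ
      simpa using this
    have hcard : Nat.card ((i : Fin m) → A i.succ) = Nat.card ((k : Fin n) → B (j.succAbove k)) := by
      have h1 := Nat.card_congr e.toEquiv
      rw [Nat.card_pi, Nat.card_pi, Fin.prod_univ_succ, Fin.prod_univ_succAbove _ j,
        Nat.card_congr (Equiv.ofBijective _ hj)] at h1
      rw [Nat.card_pi, Nat.card_pi]
      exact Nat.eq_of_mul_eq_mul_left Nat.card_pos h1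
    obtain ⟨σ, hσ⟩ := ih (fun i => hA i.succ) (fun k => hB (j.succAbove k))
      (MulEquiv.ofBijective F ((Nat.bijective_iff_injective_and_card F).mpr ⟨hFinj, hcard⟩))
    refine ⟨((finSuccEquiv m).trans ((σ.optionCongr).trans (finSuccEquiv' j).symm)), fun i => ?_⟩
    induction i using Fin.cases with
    | zero =>
      rw [show ((finSuccEquiv m).trans ((σ.optionCongr).trans (finSuccEquiv' j).symm)) 0 = j by simp]
      exact ⟨MulEquiv.ofBijective ((Pi.evalMonoidHom B j).comp α) hj⟩
    | succ i =>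
      rw [show ((finSuccEquiv m).trans ((σ.optionCongr).trans (finSuccEquiv' j).symm)) i.succ =
        j.succAbove (σ i) by simp]
      exact hσ i

/-- If a finite group is isomorphic both to a direct product of `m` directly indecomposable nontrivial groups and to a direct product of `n` such groups (a group is directly indecomposable when it is not the internal direct product of two nontrivial normal subgroups), then `m = n` and the factors are isomorphic in pairs after a suitable matching. -/
theorem result {m n : ℕ} {A : Fin m → Type*} {B : Fin n → Type*} [∀ i, Group (A i)] [∀ j, Group (B j)] [∀ i, Finite (A i)] [∀ j, Finite (B j)] (hA : ∀ i, Nontrivial (A i) ∧ ∀ H K : Subgroup (A i), H.Normal → K.Normal → H ⊓ K = ⊥ → H ⊔ K = ⊤ → H = ⊥ ∨ K = ⊥) (hB : ∀ j, Nontrivial (B j) ∧ ∀ H K : Subgroup (B j), H.Normal → K.Normal → H ⊓ K = ⊥ → H ⊔ K = ⊤ → H = ⊥ ∨ K = ⊥) (e : ((i : Fin m) → A i) ≃* ((j : Fin n) → B j)) : ∃ σ : Fin m ≃ Fin n, ∀ i, Nonempty (A i ≃* B (σ i)) := by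
  exact krs m hA hB e

end Cfsg.Agent.S4223
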