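import Cfsg.Statements.S4225
import Cfsg.Agent.RegularOmega.Basic

set_option autoImplicit false
open Cfsg

namespace Cfsg.Agent.S4225

/-- In a regular `p`-group, for every `k` the elements whose `p^k`-th power is `1` form a characteristic subgroup. -/
theorem result {G : Type*} [Group G] [Finite G] {p : ℕ} [Fact p.Prime] (hG : Cfsg.IsRegularPGroup p G) (k : ℕ) : ∃ H : Subgroup G, H.Characteristic ∧ (H : Set G) = {x : G | x ^ p ^ k = 1} := by
  refine ⟨{ carrier := {x | x ^ p ^ k = 1}
            one_mem' := one_pow _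
            mul_mem' := fun {x y} hx hy => ?_
            inv_mem' := fun {x} hx => ?_ }, ?_, rfl⟩
  · have h := (CfsgLib.RegularOmega.pow_eq hG k x⁻¹ y).mp (by
      rw [inv_pow, show x ^ p ^ k = 1 from hx, inv_one, show y ^ p ^ k = 1 from hy])
    rwa [inv_inv] at h
  · show x⁻¹ ^ p ^ k = 1
    rw [inv_pow, show x ^ p ^ k = 1 from hx, inv_one]
  · refine Subgroup.characteristic_iff_comap_eq.mpr fun φ => ?_
    ext x
    show (φ x) ^ p ^ k = 1 ↔ x ^ p ^ k = 1
    rw [← map_pow, map_eq_one_iff φ φ.injective]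

end Cfsg.Agent.S4225
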