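import Cfsg.Statements.S4274

set_option autoImplicit false
open Cfsg

namespace Cfsg.Agent.S4274

universe u

/-! ### The numerical search -/

def extend (L : List ℕ) (p : ℕ) : List ℕ := L ++ L.map (· * p)

/-- The divisors of `175560`. -/
def dl : List ℕ := extend (extend (extend (extend (extend [1, 2, 4, 8] 3) 5) 7) 11) 19

/-- Possible pairs (number of Sylow `q`-subgroups, order of the centraliser of one). -/
def opts (o q : ℕ) : List (ℕ × ℕ) :=
  (dl.filter fun n => n % q == 1 && 1 < n && o % (n * q) == 0 && !(q == 19 && n == 20 && (o / n) % 2 == 0)).flatMap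
    fun n => (dl.filter fun c => c % q == 0 && o % (n * c) == 0 && 1 < o / (n * c) && (q - 1) % (o / (n * c)) == 0).map
      fun c => (n, c)

/-- Possible numbers of Sylow `r`-subgroups in a group of order `c`. -/
def cnts (c r : ℕ) : List ℕ := dl.filter fun a => a % r == 1 && (c / r) % a == 0

def pairOK : ℕ × ℕ × ℕ → ℕ × ℕ × ℕ → Bool
  | (q, n, c), (r, m, d) =>
    if c % r == 0 then d % q == 0 && (cnts c r).any (fun a => (cnts d q).any fun b => n * a == m * b)
    else !(d % q == 0)

def indep (x : ℕ × ℕ × ℕ) (ch : List (ℕ × ℕ × ℕ)) : Bool :=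
  ch.all fun y => !(x.2.2 % y.1 == 0) && !(y.2.2 % x.1 == 0)

def wt (x : ℕ × ℕ × ℕ) : ℕ := x.2.1 * ((x.1 - 1) * (x.2.2 / x.1))

/-- Some independent family of primes needs at least `o` elements. -/
def big : List (ℕ × ℕ × ℕ) → List (ℕ × ℕ × ℕ) → ℕ → ℕ → Bool
  | [], _, s, o => o ≤ s
  | x :: xs, ch, s, o => big xs ch s o || (indep x ch && big xs (x :: ch) (s + wt x) o)

def search (o : ℕ) : List ℕ → List (ℕ × ℕ × ℕ) → Bool
  | [], acc => big acc [] 0 o
  | q :: qs, acc => (opts o q).all fun x => !(acc.all fun y => pairOK (q, x) y) || search o qs ((q, x) :: acc)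

def primesOf (o : ℕ) : List ℕ := [19, 11, 7, 5, 3].filter fun q => o % q == 0

theorem search_all : (dl.all fun o => !(o % 19 == 0 && o % 4 == 0 && !(o == 175560)) || search o (primesOf o) []) = true := by
  decide +kernel

theorem mem_extend {p m : ℕ} {L : List ℕ} (hp : p.Prime) (h : ∀ d, d ∣ m → d ∈ L) :
    ∀ d, d ∣ m * p → d ∈ extend L p := by
  intro d hd
  obtain ⟨a, b, ha, hb, rfl⟩ := Nat.dvd_mul.mp hd
  rcases (Nat.dvd_prime hp).mp hb with rfl | rfl
  · rw [mul_one]; exact List.mem_append.mpr (Or.inl (h a ha))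
  · exact List.mem_append.mpr (Or.inr (List.mem_map.mpr ⟨a, h a ha, rfl⟩))

theorem mem_dl {d : ℕ} (hd : d ∣ 175560) : d ∈ dl := by
  have h8 : ∀ d, d ∣ 8 → d ∈ [1, 2, 4, 8] := fun d hd => by
    have := Nat.le_of_dvd (by norm_num) hd
    interval_cases d <;> simp_all
  exact mem_extend (by norm_num) (mem_extend (by norm_num) (mem_extend (by norm_num)
    (mem_extend (by norm_num) (mem_extend (by norm_num) h8)))) d
    (by norm_num; exact hd)

/-! ### Groups -/

variable {G : Type*} [Group G] [Finite G]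

/-- A simple noncommutative group has no cyclic Sylow subgroup for its smallest prime. -/
theorem not_cyclic_minFac [IsSimpleGroup G] (hnc : ¬ ∀ a b : G, a * b = b * a)
    (P : Sylow (Nat.card G).minFac G) : ¬ IsCyclic (P : Subgroup G) := by
  intro hP
  have hG1 : Nat.card G ≠ 1 := fun h => by
    have := (Nat.card_eq_one_iff_unique.mp h).1
    exact hnc fun a b => Subsingleton.elim _ _
  have := Fact.mk (Nat.minFac_prime hG1)
  have hc := hP.isComplement' (P := P) rfl
  rcases (MonoidHom.normal_ker (MonoidHom.transferSylow P (hP.normalizer_le_centralizer rfl))).eq_bot_or_eq_top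
    with h | h
  · rw [h] at hc
    have hP' : (P : Subgroup G) = ⊤ := Subgroup.isComplement'_bot_left.mp hc
    rw [hP'] at hP
    have : IsCyclic G := Subgroup.topEquiv.isCyclic.mp hP
    letI := IsCyclic.commGroup (α := G)
    exact hnc fun a b => mul_comm a b
  · rw [h] at hc
    exact P.ne_bot_of_dvd_card (Nat.minFac_dvd _) (Subgroup.isComplement'_top_left.mp hc)

theorem not_sq_dvd {o q : ℕ} (ho : o ∣ 175560) (hq : q ∈ [19, 11, 7, 5, 3]) : ¬ q * q ∣ o := by
  intro h
  have h' := h.trans ho
  fin_cases hq <;> norm_num at h'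

theorem card_sylow_prime {q : ℕ} [hq : Fact q.Prime] (hd : q ∣ Nat.card G) (hsq : ¬ q * q ∣ Nat.card G)
    (Q : Sylow q G) : Nat.card (Q : Subgroup G) = q := by
  obtain ⟨k, hk⟩ := Q.2.exists_card_eq
  have h1 := Q.dvd_card_of_dvd_card hd
  have h2 := Subgroup.card_subgroup_dvd_card (Q : Subgroup G)
  rw [hk] at h1 h2 ⊢
  rcases k with _ | _ | k
  · rw [pow_zero] at h1
    exact absurd h1 hq.out.not_dvd_one
  · rw [zero_add, pow_one]
  · exact absurd ((pow_dvd_pow q (Nat.le_add_left 2 k)).trans h2) (by rwa [pow_two])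

theorem le_centralizer_iff {R Q : Subgroup G} :
    R ≤ Subgroup.centralizer (Q : Set G) ↔ ∀ x ∈ R, ∀ y ∈ Q, Commute y x :=
  ⟨fun h x hx y hy => Subgroup.mem_centralizer_iff.mp (h hx) y hy,
    fun h x hx => Subgroup.mem_centralizer_iff.mpr fun y hy => h x hx y hy⟩

theorem le_centralizer_smul {q r : ℕ} (g : G) (Q : Sylow q G) (R : Sylow r G) :
    ((g • R : Sylow r G) : Subgroup G) ≤ Subgroup.centralizer (((g • Q : Sylow q G) : Subgroup G) : Set G) ↔
      (R : Subgroup G) ≤ Subgroup.centralizer ((Q : Subgroup G) : Set G) := by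
  rw [le_centralizer_iff, le_centralizer_iff, Sylow.coe_subgroup_smul, Sylow.coe_subgroup_smul]
  constructor
  · intro h x hx y hy
    have := h _ (Subgroup.smul_mem_pointwise_smul _ (MulAut.conj g) _ hx) _
      (Subgroup.smul_mem_pointwise_smul _ (MulAut.conj g) _ hy)
    exact (MulAut.conj g).injective (by rw [map_mul, map_mul]; exact this)
  · intro h x hx y hy
    obtain ⟨x, hx', rfl⟩ := hx
    obtain ⟨y, hy', rfl⟩ := hy
    exact (h x hx' y hy').map (MulAut.conj g).toMonoidHom

theorem card_centralizer_sylow_eq {q : ℕ} [Fact q.Prime] (Q Q' : Sylow q G) :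
    Nat.card (Subgroup.centralizer ((Q : Subgroup G) : Set G)) =
      Nat.card (Subgroup.centralizer ((Q' : Subgroup G) : Set G)) := by
  obtain ⟨g, rfl⟩ := MulAction.exists_smul_eq G Q Q'
  refine Nat.card_congr ((MulAut.conj g).toEquiv.subtypeEquiv fun x => ?_)
  rw [Sylow.coe_subgroup_smul, Subgroup.mem_centralizer_iff, Subgroup.mem_centralizer_iff]
  constructor
  · intro h y hy
    obtain ⟨y, hy', rfl⟩ := hy
    exact congrArg (MulAut.conj g) (h y hy') |> fun e => by simpa using e
  · intro h y hy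
    have := h _ (Subgroup.smul_mem_pointwise_smul _ (MulAut.conj g) _ hy)
    exact (MulAut.conj g).injective (by simpa using this)

/-- An element of prime order centralising a Sylow subgroup of prime order. -/
theorem dvd_symm {q r : ℕ} [hq : Fact q.Prime] [hr : Fact r.Prime] (hdr : r ∣ Nat.card G)
    (hsr : ¬ r * r ∣ Nat.card G) (Q : Sylow q G) (R : Sylow r G) (hQ : Nat.card (Q : Subgroup G) = q)
    (h : r ∣ Nat.card (Subgroup.centralizer ((Q : Subgroup G) : Set G))) :
    q ∣ Nat.card (Subgroup.centralizer ((R : Subgroup G) : Set G)) := by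
  obtain ⟨x, hx⟩ := exists_prime_orderOf_dvd_card' r h
  obtain ⟨R', hR'⟩ := (IsPGroup.of_card (G := Subgroup.zpowers (x : G))
    (show Nat.card (Subgroup.zpowers (x : G)) = r ^ 1 by
      rw [Nat.card_zpowers, Subgroup.orderOf_coe, hx, pow_one])).exists_le_sylow
  rw [card_centralizer_sylow_eq R R']
  have he : Subgroup.zpowers (x : G) = R' := Subgroup.eq_of_le_of_card_ge hR' (by
    rw [card_sylow_prime hdr hsr R', Nat.card_zpowers, Subgroup.orderOf_coe, hx])
  have hle : (Q : Subgroup G) ≤ Subgroup.centralizer ((R' : Subgroup G) : Set G) := by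
    rw [Subgroup.le_centralizer_iff, ← he, Subgroup.zpowers_le]
    exact x.2
  exact hQ ▸ Subgroup.card_dvd_of_le hle

/-- The Sylow `r`-subgroups centralising a given Sylow `q`-subgroup. -/
theorem count_sylow_centralizer {r : ℕ} [hr : Fact r.Prime] (hdr : r ∣ Nat.card G)
    (hsr : ¬ r * r ∣ Nat.card G) (C : Subgroup G) (hC : r ∣ Nat.card C) :
    Nat.card {R : Sylow r G // (R : Subgroup G) ≤ C} % r = 1 ∧
      Nat.card {R : Sylow r G // (R : Subgroup G) ≤ C} ∣ Nat.card C / r := by
  have hsC : ¬ r * r ∣ Nat.card C := fun h => hsr (h.trans (Subgroup.card_subgroup_dvd_card C))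
  let f : {R : Sylow r G // (R : Subgroup G) ≤ C} → Sylow r C := fun R => R.1.subtype R.2
  have hf : Function.Bijective f := by
    refine ⟨fun R S h => Subtype.ext (Sylow.subtype_injective h), fun T => ?_⟩
    obtain ⟨R, hR⟩ := (T.2.map C.subtype).exists_le_sylow
    have he : (T : Subgroup C).map C.subtype = R := Subgroup.eq_of_le_of_card_ge hR (by
      rw [card_sylow_prime hdr hsr R, Subgroup.card_subtype, card_sylow_prime hC hsC T])
    refine ⟨⟨R, he ▸ Subgroup.map_subtype_le _⟩, Sylow.ext ?_⟩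
    show (R : Subgroup G).subgroupOf C = T
    rw [← he]
    exact Subgroup.comap_map_eq_self_of_injective C.subtype_injective _
  rw [Nat.card_eq_of_bijective f hf]
  let T : Sylow r C := default
  refine ⟨Eq.trans (card_sylow_modEq_one r C) (Nat.mod_eq_of_lt hr.out.one_lt), ?_⟩
  refine T.card_dvd_index.trans (dvd_of_eq ?_)
  have h1 := Subgroup.card_mul_index (T : Subgroup C)
  rw [card_sylow_prime hC hsC T] at h1
  rw [← h1, Nat.mul_div_cancel_left _ hr.out.pos]

/-- The data attached to a prime. -/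
def Data (G : Type*) [Group G] (x : ℕ × ℕ × ℕ) : Prop :=
  x.1 ∈ [19, 11, 7, 5, 3] ∧ x.1 ∣ Nat.card G ∧ x.2.1 = Nat.card (Sylow x.1 G) ∧
    ∀ Q : Sylow x.1 G, Nat.card (Subgroup.centralizer ((Q : Subgroup G) : Set G)) = x.2.2

theorem prime_of_mem {q : ℕ} (hq : q ∈ [19, 11, 7, 5, 3]) : Fact q.Prime := ⟨by
  fin_cases hq <;> norm_num⟩

theorem pairOK_of_data (ho : Nat.card G ∣ 175560) (x y : ℕ × ℕ × ℕ) (hx : Data G x) (hy : Data G y) :
    pairOK x y = true := by
  classical
  obtain ⟨q, n, c⟩ := x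
  obtain ⟨r, m, d⟩ := y
  obtain ⟨hq, hqd, hn, hc⟩ := hx
  obtain ⟨hr, hrd, hm, hd⟩ := hy
  simp only at hq hqd hn hc hr hrd hm hd
  have := prime_of_mem hq
  have := prime_of_mem hr
  have hsq := not_sq_dvd ho hq
  have hsr := not_sq_dvd ho hr
  let Q0 : Sylow q G := default
  let R0 : Sylow r G := default
  simp only [pairOK]
  by_cases h : c % r = 0
  · have hrc : r ∣ c := Nat.dvd_of_mod_eq_zero h
    have hqd' : q ∣ d := hd R0 ▸ dvd_symm hrd hsr Q0 R0 (card_sylow_prime hqd hsq Q0) (hc Q0 ▸ hrc)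
    have ha := count_sylow_centralizer hrd hsr _ (hc Q0 ▸ hrc)
    have hb := count_sylow_centralizer hqd hsq _ (hd R0 ▸ hqd')
    set a := Nat.card {R : Sylow r G // (R : Subgroup G) ≤ Subgroup.centralizer ((Q0 : Subgroup G) : Set G)}
    set b := Nat.card {Q : Sylow q G // (Q : Subgroup G) ≤ Subgroup.centralizer ((R0 : Subgroup G) : Set G)}
    rw [hc Q0] at ha
    rw [hd R0] at hb
    have hfa : ∀ Q : Sylow q G, Nat.card {R : Sylow r G //
        (R : Subgroup G) ≤ Subgroup.centralizer ((Q : Subgroup G) : Set G)} = a := by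
      intro Q
      obtain ⟨g, rfl⟩ := MulAction.exists_smul_eq G Q0 Q
      exact (Nat.card_congr ((MulAction.toPerm g).subtypeEquiv fun R => (le_centralizer_smul g Q0 R).symm)).symm
    have hfb : ∀ R : Sylow r G, Nat.card {Q : Sylow q G //
        (Q : Subgroup G) ≤ Subgroup.centralizer ((R : Subgroup G) : Set G)} = b := by
      intro R
      obtain ⟨g, rfl⟩ := MulAction.exists_smul_eq G R0 R
      exact (Nat.card_congr ((MulAction.toPerm g).subtypeEquiv fun Q => (le_centralizer_smul g R0 Q).symm)).symm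
    have := Fintype.ofFinite (Sylow q G)
    have := Fintype.ofFinite (Sylow r G)
    have e : n * a = m * b := by
      have h1 := Finset.sum_card_bipartiteAbove_eq_sum_card_bipartiteBelow
        (s := (Finset.univ : Finset (Sylow q G))) (t := (Finset.univ : Finset (Sylow r G)))
        (fun (Q : Sylow q G) (R : Sylow r G) =>
          (R : Subgroup G) ≤ Subgroup.centralizer ((Q : Subgroup G) : Set G))
      have h2 : ∀ R : Sylow r G, ((Finset.univ : Finset (Sylow q G)).bipartiteBelow (fun (Q : Sylow q G) (R : Sylow r G) =>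
          (R : Subgroup G) ≤ Subgroup.centralizer ((Q : Subgroup G) : Set G)) R).card = b := fun R => by
        rw [← hfb R, Nat.card_eq_fintype_card, Fintype.card_subtype]
        exact congrArg Finset.card (Finset.filter_congr fun Q _ => Subgroup.le_centralizer_iff)
      have h3 : ∀ Q : Sylow q G, ((Finset.univ : Finset (Sylow r G)).bipartiteAbove (fun (Q : Sylow q G) (R : Sylow r G) =>
          (R : Subgroup G) ≤ Subgroup.centralizer ((Q : Subgroup G) : Set G)) Q).card = a := fun Q => by
        rw [← hfa Q, Nat.card_eq_fintype_card, Fintype.card_subtype]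
        rfl
      simp only [h2, h3, Finset.sum_const, Finset.card_univ, smul_eq_mul, ← Nat.card_eq_fintype_card] at h1
      rw [hn, hm]; exact h1
    have hmem : ∀ {t s z : ℕ}, t ∣ Nat.card G → s ∣ t → z % s = 1 → z ∣ t / s → z ∈ cnts t s := by
      intro t s z ht hs hz hzd
      refine List.mem_filter.mpr ⟨mem_dl ((hzd.trans (Nat.div_dvd_of_dvd hs)).trans (ht.trans ho)), ?_⟩
      simp [hz, Nat.mod_eq_zero_of_dvd hzd]
    have hcG : c ∣ Nat.card G := hc Q0 ▸ Subgroup.card_subgroup_dvd_card _
    have hdG : d ∣ Nat.card G := hd R0 ▸ Subgroup.card_subgroup_dvd_card _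
    simp only [h, beq_self_eq_true, if_true, Nat.mod_eq_zero_of_dvd hqd', Bool.true_and, List.any_eq_true,
      beq_iff_eq]
    exact ⟨a, hmem hcG hrc ha.1 ha.2, b, hmem hdG hqd' hb.1 hb.2, e⟩
  · rw [if_neg (by simpa using h)]
    simp only [Bool.not_eq_true', beq_eq_false_iff_ne, ne_eq]
    intro h'
    exact h (Nat.mod_eq_zero_of_dvd
      (hc Q0 ▸ dvd_symm hqd hsq R0 Q0 (card_sylow_prime hrd hsr R0) (hd R0 ▸ Nat.dvd_of_mod_eq_zero h')))

/-- The elements of order divisible by `q` that centralise a Sylow `q`-subgroup. -/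
def elts (G : Type*) [Group G] (q : ℕ) : Set G :=
  {x | q ∣ orderOf x ∧ ∃ Q : Sylow q G, x ∈ Subgroup.centralizer ((Q : Subgroup G) : Set G)}

theorem wt_le_ncard (ho : Nat.card G ∣ 175560) (x : ℕ × ℕ × ℕ) (hx : Data G x) :
    wt x ≤ (elts G x.1).ncard := by
  classical
  obtain ⟨q, n, c⟩ := x
  obtain ⟨hq, hqd, hn, hc⟩ := hx
  simp only at hq hqd hn hc
  simp only [wt]
  have := prime_of_mem hq
  have hqp : q.Prime := Fact.out
  have hsq := not_sq_dvd ho hq
  let F : Sylow q G → Set G := fun Q =>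
    {x | q ∣ orderOf x ∧ x ∈ Subgroup.centralizer ((Q : Subgroup G) : Set G)}
  have hpow : ∀ (x : G) (_ : q ∣ orderOf x) (Q : Sylow q G),
      x ∈ Subgroup.centralizer ((Q : Subgroup G) : Set G) → (Q : Subgroup G) = Subgroup.zpowers (x ^ (orderOf x / q)) := by
    intro x hx Q hxQ
    set y := x ^ (orderOf x / q)
    have hy : orderOf y = q := orderOf_pow_orderOf_div (orderOf_pos x).ne' hx
    have hyp : IsPGroup q (Subgroup.zpowers y) := IsPGroup.of_card (n := 1) (by
      rw [Nat.card_zpowers, hy, pow_one])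
    have h0 : Subgroup.zpowers y ≤ Subgroup.normalizer (Q : Set G) :=
      Subgroup.zpowers_le.mpr (Subgroup.centralizer_le_normalizer _ (Subgroup.pow_mem _ hxQ _))
    have h1 := hyp.inf_normalizer_sylow Q
    rw [inf_eq_left.mpr h0] at h1
    exact (Subgroup.eq_of_le_of_card_ge (h1.le.trans inf_le_right) (by
      rw [card_sylow_prime hqd hsq Q, Nat.card_zpowers, hy])).symm
  have hF : ∀ Q : Sylow q G, (q - 1) * (c / q) ≤ (F Q).ncard := by
    intro Q
    set C := Subgroup.centralizer ((Q : Subgroup G) : Set G)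
    let D : Set G := {x | x ∈ C ∧ ¬ q ∣ orderOf x}
    have hU : (C : Set G) = F Q ∪ D := by
      ext x
      simp only [SetLike.mem_coe, Set.mem_union, Set.mem_ofPred_eq, F, D]
      tauto
    have hqC : q ∣ c := by
      refine (card_sylow_prime hqd hsq Q).symm.dvd.trans (Dvd.dvd.trans ?_ (hc Q).dvd)
      exact Subgroup.card_dvd_of_le (by
        have hcy : IsCyclic (Q : Subgroup G) := isCyclic_of_prime_card (card_sylow_prime hqd hsq Q)
        letI := IsCyclic.commGroup (α := (Q : Subgroup G))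
        exact le_centralizer_iff.mpr fun a ha b hb =>
          congrArg Subtype.val (mul_comm (⟨b, hb⟩ : (Q : Subgroup G)) ⟨a, ha⟩))
    have hqn : ¬ q ∣ c / q := fun h => hsq (((Nat.mul_dvd_mul_left q h).trans
      (dvd_of_eq (Nat.mul_div_cancel' hqC))).trans (hc Q ▸ Subgroup.card_subgroup_dvd_card C))
    have hD : D.ncard ≤ c / q := by
      have hQn : ((Q : Subgroup G).subgroupOf C).Normal := ⟨fun a ha g => by
        rw [Subgroup.mem_subgroupOf] at ha ⊢
        have e : (g : G) * a * (g : G)⁻¹ = a := by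
          rw [← Subgroup.mem_centralizer_iff.mp g.2 a ha, mul_inv_cancel_right]
        simpa [e] using ha⟩
      let f : D → C ⧸ (Q : Subgroup G).subgroupOf C := fun x => QuotientGroup.mk ⟨x.1, x.2.1⟩
      have hqe : (Q : Subgroup G) ≤ C := le_centralizer_iff.mpr (by
        have hcy : IsCyclic (Q : Subgroup G) := isCyclic_of_prime_card (card_sylow_prime hqd hsq Q)
        letI := IsCyclic.commGroup (α := (Q : Subgroup G))
        exact fun a ha b hb => congrArg Subtype.val (mul_comm (⟨b, hb⟩ : (Q : Subgroup G)) ⟨a, ha⟩))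
      have hidx : Nat.card (C ⧸ (Q : Subgroup G).subgroupOf C) = c / q := by
        have h1 := Subgroup.card_mul_index ((Q : Subgroup G).subgroupOf C)
        rw [Nat.card_congr (Subgroup.subgroupOfEquivOfLe hqe).toEquiv, card_sylow_prime hqd hsq Q, hc Q] at h1
        rw [← h1, Nat.mul_div_cancel_left _ hqp.pos, Subgroup.index_eq_card]
      have hreg : ∀ x ∈ D, x ^ (c / q) = 1 := by
        intro x hx
        refine orderOf_dvd_iff_pow_eq_one.mp
          (Nat.Coprime.dvd_of_dvd_mul_left (hqp.coprime_iff_not_dvd.mpr hx.2).symm ?_)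
        rw [Nat.mul_div_cancel' hqC, ← hc Q]
        exact Subgroup.orderOf_dvd_natCard C hx.1
      have hinj : Function.Injective f := by
        rintro ⟨x, hx⟩ ⟨y, hy⟩ h
        have hz : x⁻¹ * y ∈ (Q : Subgroup G) := Subgroup.mem_subgroupOf.mp (QuotientGroup.eq.mp h)
        have hcomm : Commute x (x⁻¹ * y) := (Subgroup.mem_centralizer_iff.mp hx.1 _ hz).symm
        have h1 : (x⁻¹ * y) ^ (c / q) = 1 := by
          have h2 := hcomm.mul_pow (c / q)
          rw [mul_inv_cancel_left, hreg y hy, hreg x hx, one_mul] at h2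
          exact h2.symm
        have h3 : (x⁻¹ * y) ^ q = 1 := by
          have := pow_card_eq_one' (x := (⟨x⁻¹ * y, hz⟩ : (Q : Subgroup G)))
          rw [card_sylow_prime hqd hsq Q] at this
          simpa using congrArg Subtype.val this
        have h4 : x⁻¹ * y = 1 := orderOf_eq_one_iff.mp (Nat.eq_one_of_dvd_coprimes
          (hqp.coprime_iff_not_dvd.mpr hqn) (orderOf_dvd_of_pow_eq_one h3) (orderOf_dvd_of_pow_eq_one h1))
        exact Subtype.ext (inv_mul_eq_one.mp h4)
      rw [← Nat.card_coe_set_eq, ← hidx]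
      exact Nat.card_le_card_of_injective f hinj
    have h1 := Set.ncard_union_le (F Q) D
    rw [← hU, ← Nat.card_coe_set_eq] at h1
    have h2 : Nat.card (C : Set G) = c := hc Q
    have h3 := Nat.mul_div_cancel' hqC
    have h4 : (q - 1) * (c / q) + c / q = c := by
      rw [← Nat.succ_mul, Nat.succ_eq_add_one, Nat.sub_add_cancel hqp.one_le, h3]
    omega
  have := Fintype.ofFinite (Sylow q G)
  have hUn : elts G q = ⋃ Q ∈ ((Finset.univ : Finset (Sylow q G)) : Set (Sylow q G)), F Q := by
    ext x; simp [elts, F]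
  rw [hUn, show n * ((q - 1) * (c / q)) = ∑ _Q : Sylow q G, (q - 1) * (c / q) by
    rw [Finset.sum_const, Finset.card_univ, smul_eq_mul, hn, Nat.card_eq_fintype_card]]
  refine (Finset.sum_le_sum fun Q _ => hF Q).trans_eq ?_
  rw [Set.Finite.ncard_biUnion (Finset.finite_toSet _) (fun Q _ => Set.toFinite _) ?_, finsum_mem_coe_finset]
  intro Q _ Q' _ hne
  exact Set.disjoint_left.mpr fun x hx hx' => hne (Sylow.ext ((hpow x hx.1 Q hx.2).trans (hpow x hx'.1 Q' hx'.2).symm))

theorem big_false (ho : Nat.card G ∣ 175560) : ∀ (xs ch : List (ℕ × ℕ × ℕ)) (s : ℕ),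
    (∀ x ∈ xs, Data G x) → (∀ x ∈ ch, Data G x) →
    (∃ U : Set G, (1 : G) ∉ U ∧ s ≤ U.ncard ∧ ∀ g ∈ U, ∃ y ∈ ch, g ∈ elts G y.1) →
    big xs ch s (Nat.card G) = false := by
  intro xs
  induction xs with
  | nil =>
    intro ch s _ _ ⟨U, h1, hs, _⟩
    simp only [big, decide_eq_false_iff_not, not_le]
    refine hs.trans_lt ?_
    rw [← Set.ncard_univ G]
    exact Set.ncard_lt_ncard ⟨Set.subset_univ _, fun h => h1 (h (Set.mem_univ _))⟩ (Set.toFinite _)
  | cons x xs ih =>
    intro ch s hxs hch hU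
    simp only [big, Bool.or_eq_false_iff, Bool.and_eq_false_iff]
    have hx := hxs x List.mem_cons_self
    have hxs' : ∀ z ∈ xs, Data G z := fun z hz => hxs z (List.mem_cons_of_mem _ hz)
    refine ⟨ih ch s hxs' hch hU, ?_⟩
    by_cases hi : indep x ch = true
    · right
      obtain ⟨U, h1, hs, hmem⟩ := hU
      refine ih (x :: ch) _ hxs' ?_ ⟨U ∪ elts G x.1, ?_, ?_, ?_⟩
      · intro z hz
        rcases List.mem_cons.mp hz with rfl | hz
        · exact hx
        · exact hch z hz
      · rintro (h | ⟨h, -⟩)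
        · exact h1 h
        · rw [orderOf_one] at h
          exact (prime_of_mem hx.1).out.not_dvd_one h
      · rw [Set.ncard_union_eq ?_ (Set.toFinite _) (Set.toFinite _)]
        · have := wt_le_ncard ho x hx
          omega
        · rw [Set.disjoint_left]
          intro g hg hg'
          obtain ⟨y, hy, hgy⟩ := hmem g hg
          have hy' := hch y hy
          obtain ⟨-, hnd⟩ := hg'
          obtain ⟨Q, hQ⟩ := hnd
          have h2 := (List.all_eq_true.mp hi) y hy
          simp only [Bool.and_eq_true, Bool.not_eq_true', beq_eq_false_iff_ne, ne_eq] at h2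
          refine h2.1 (Nat.mod_eq_zero_of_dvd ?_)
          rw [← hx.2.2.2 Q]
          exact hgy.1.trans (Subgroup.orderOf_dvd_natCard _ hQ)
      · rintro g (h | h)
        · obtain ⟨y, hy, hgy⟩ := hmem g h
          exact ⟨y, List.mem_cons_of_mem _ hy, hgy⟩
        · exact ⟨x, List.mem_cons_self, h⟩
    · exact Or.inl (by simpa using hi)

/-- With 20 Sylow 19-subgroups the normaliser of one has odd order in a noncommutative simple group. -/
theorem not_even_normalizer [IsSimpleGroup G] (hnc : ¬ ∀ a b : G, a * b = b * a)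
    (h19 : 19 ∣ Nat.card G) (hsq : ¬ 19 * 19 ∣ Nat.card G) (h20 : Nat.card (Sylow 19 G) = 20)
    (heven : 2 ∣ Nat.card G / 20) : False := by
  classical
  have hp : Fact (Nat.Prime 19) := ⟨by norm_num⟩
  have := Fintype.ofFinite (Sylow 19 G)
  let P : Sylow 19 G := default
  have := Fintype.ofFinite (P : Subgroup G)
  have hP : Nat.card (P : Subgroup G) = 19 := card_sylow_prime h19 hsq P
  set N := Subgroup.normalizer (P : Set G) with hN
  have hNidx : N.index = 20 := by rw [← h20]; exact P.card_eq_index_normalizer.symm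
  have h2N : 2 ∣ Nat.card N := by
    have h := Subgroup.card_mul_index N
    rw [hNidx] at h
    rwa [← h, Nat.mul_div_cancel _ (by norm_num)] at heven
  obtain ⟨t', ht'⟩ := exists_prime_orderOf_dvd_card' 2 h2N
  set t : G := (t' : G) with htdef
  have hto : orderOf t = 2 := by rw [htdef, Subgroup.orderOf_coe, ht']
  have htP : t • P = P := Sylow.smul_eq_iff_mem_normalizer.mpr t'.2
  let φ := MulAction.toPermHom G (Sylow 19 G)
  have hφ : Function.Injective φ := by
    rw [← MonoidHom.ker_eq_bot_iff]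
    refine (φ.normal_ker.eq_bot_or_eq_top).resolve_right fun h => ?_
    obtain ⟨Q, hQ⟩ : ∃ Q : Sylow 19 G, Q ≠ P := by
      by_contra hh
      push Not at hh
      have : Subsingleton (Sylow 19 G) := ⟨fun a b => (hh a).trans (hh b).symm⟩
      rw [Nat.card_of_subsingleton P] at h20
      omega
    obtain ⟨g, hg⟩ := MulAction.exists_smul_eq G P Q
    have := MonoidHom.mem_ker.mp (h.ge (Subgroup.mem_top g) : g ∈ φ.ker)
    exact hQ (hg.symm.trans (show φ g P = P by rw [this]; rfl))
  have hsign : Equiv.Perm.sign (φ t) = 1 := by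
    rcases ((Equiv.Perm.sign.comp φ).normal_ker).eq_bot_or_eq_top with h | h
    · exfalso
      have hi := (MonoidHom.ker_eq_bot_iff _).mp h
      exact hnc fun a b => hi (by rw [map_mul, map_mul, mul_comm])
    · exact MonoidHom.mem_ker.mp (h.ge (Subgroup.mem_top t))
  set σ := φ t with hσ
  have hσ2 : orderOf σ = 2 := by rw [orderOf_injective φ hφ, hto]
  have hPs : P ∉ σ.support := by rw [Equiv.Perm.notMem_support]; exact htP
  have hev : 2 ∣ σ.support.card :=
    Equiv.Perm.two_dvd_card_support (orderOf_dvd_iff_pow_eq_one.mp hσ2.dvd)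
  have hle : σ.support.card ≤ 19 := by
    have := Finset.card_le_card (Finset.subset_erase.mpr ⟨Finset.subset_univ _, hPs⟩)
    rw [Finset.card_erase_of_mem (Finset.mem_univ _), Finset.card_univ, ← Nat.card_eq_fintype_card, h20] at this
    exact this
  obtain ⟨Q, hQs, hQP⟩ : ∃ Q, Q ∉ σ.support ∧ Q ≠ P := by
    by_contra hh
    push Not at hh
    have h1 : (Finset.univ.erase P) ⊆ σ.support := fun R hR => by
      by_contra h2
      exact (Finset.mem_erase.mp hR).1 (hh R h2)
    have h2 := Finset.card_le_card h1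
    rw [Finset.card_erase_of_mem (Finset.mem_univ _), Finset.card_univ, ← Nat.card_eq_fintype_card, h20] at h2
    omega
  have htQ : t • Q = Q := Equiv.Perm.notMem_support.mp hQs
  have hfree : ∀ x ∈ (P : Subgroup G), x • Q = Q → x = 1 := by
    intro x hx h
    have h1 : x ∈ (P : Subgroup G) ⊓ Q := by
      rw [← P.2.inf_normalizer_sylow Q]
      exact ⟨hx, Sylow.smul_eq_iff_mem_normalizer.mp h⟩
    by_contra hx1
    have h2 : ((P : Subgroup G) ⊓ Q : Subgroup G) = P := by
      refine Subgroup.eq_of_le_of_card_ge inf_le_left ?_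
      rw [hP]
      have h3 := Subgroup.card_dvd_of_le (inf_le_left : (P : Subgroup G) ⊓ Q ≤ P)
      rw [hP] at h3
      rcases (Nat.dvd_prime hp.out).mp h3 with h4 | h4
      · exact absurd (Subgroup.mem_bot.mp (Subgroup.card_eq_one.mp h4 ▸ h1)) hx1
      · exact h4.ge
    exact hQP (Sylow.ext (P.3 Q.2 (h2.ge.trans inf_le_right)))
  have himg : ((Finset.univ : Finset (P : Subgroup G)).image fun x : (P : Subgroup G) => (x : G) • Q) =
      Finset.univ.erase P := by
    refine Finset.eq_of_subset_of_card_le ?_ ?_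
    · intro R hR
      obtain ⟨x, -, rfl⟩ := Finset.mem_image.mp hR
      refine Finset.mem_erase.mpr ⟨fun h => hQP ?_, Finset.mem_univ _⟩
      have hxP : (x : G)⁻¹ • P = P := Sylow.smul_eq_iff_mem_normalizer.mpr
        (Subgroup.inv_mem _ (Subgroup.le_normalizer x.2))
      exact ((inv_smul_smul (x : G) Q).symm.trans (congrArg ((x : G)⁻¹ • ·) h)).trans hxP
    · rw [Finset.card_image_of_injective _ fun x y h => ?_, Finset.card_erase_of_mem (Finset.mem_univ _),
        Finset.card_univ, Finset.card_univ, ← Nat.card_eq_fintype_card, ← Nat.card_eq_fintype_card, hP, h20]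
      exact Subtype.ext (inv_mul_eq_one.mp (hfree _ (Subgroup.mul_mem _ (Subgroup.inv_mem _ y.2) x.2)
        (by rw [mul_smul]; exact inv_smul_eq_iff.mpr h))).symm
  have hfix : σ.support = (Finset.univ.erase P).erase Q := by
    refine Finset.Subset.antisymm (fun R hR => Finset.mem_erase.mpr ⟨fun e => hQs (e ▸ hR),
      Finset.mem_erase.mpr ⟨fun e => hPs (e ▸ hR), Finset.mem_univ _⟩⟩) fun R hR => ?_
    by_contra hRs
    have htR : t • R = R := Equiv.Perm.notMem_support.mp hRs
    obtain ⟨x, -, rfl⟩ := Finset.mem_image.mp (himg.ge (Finset.mem_erase.mp hR).2)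
    have h1 : (x : G)⁻¹ * (t * x * t⁻¹) = 1 := by
      refine hfree _ (Subgroup.mul_mem _ (Subgroup.inv_mem _ x.2)
        ((Subgroup.mem_normalizer_iff.mp t'.2 x).mp x.2)) ?_
      rw [mul_smul, mul_smul, mul_smul, inv_smul_eq_iff.mpr htQ.symm, htR, inv_smul_smul]
    have hxne : x ≠ 1 := fun e => (Finset.mem_erase.mp hR).1 (by rw [e]; exact one_smul _ _)
    have hcy : Subgroup.zpowers x = ⊤ := zpowers_eq_top_of_prime_card hP hxne
    have hc : Commute t (x : G) := by
      have := inv_mul_eq_one.mp h1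
      exact (eq_mul_inv_iff_mul_eq.mp this).symm
    have : t = 1 := hφ (by
      rw [map_one]
      refine Equiv.ext fun S => ?_
      show t • S = S
      by_cases hS : S = P
      · rw [hS]; exact htP
      obtain ⟨y, -, rfl⟩ := Finset.mem_image.mp (himg.ge (Finset.mem_erase.mpr ⟨hS, Finset.mem_univ _⟩))
      obtain ⟨i, rfl⟩ := Subgroup.mem_zpowers_iff.mp (hcy.ge (Subgroup.mem_top y))
      rw [Subgroup.coe_zpow, ← mul_smul, (hc.zpow_right i).eq, mul_smul, htQ])
    rw [this, orderOf_one] at hto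
    omega
  obtain ⟨n, hn⟩ := Equiv.Perm.cycleType_prime_order (hσ2 ▸ Nat.prime_two)
  rw [hσ2] at hn
  have hsum := σ.sum_cycleType
  rw [hn, Multiset.sum_replicate, smul_eq_mul, hfix,
    Finset.card_erase_of_mem (Finset.mem_erase.mpr ⟨hQP, Finset.mem_univ _⟩),
    Finset.card_erase_of_mem (Finset.mem_univ _), Finset.card_univ, ← Nat.card_eq_fintype_card, h20] at hsum
  rw [Equiv.Perm.sign_of_cycleType, hn, Multiset.sum_replicate, Multiset.card_replicate, smul_eq_mul,
    show (n + 1) * 2 + (n + 1) = 27 by omega] at hsign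
  exact absurd hsign (by decide)

theorem opts_of_data [IsSimpleGroup G] (hnc : ¬ ∀ a b : G, a * b = b * a) (ho : Nat.card G ∣ 175560)
    {q : ℕ} (hq : q ∈ [19, 11, 7, 5, 3]) (hqd : q ∣ Nat.card G) :
    ∃ x ∈ opts (Nat.card G) q, Data G (q, x) := by
  have := prime_of_mem hq
  have hqp : q.Prime := Fact.out
  have hsq := not_sq_dvd ho hq
  let Q : Sylow q G := default
  have hQ := card_sylow_prime hqd hsq Q
  have hcy : IsCyclic (Q : Subgroup G) := isCyclic_of_prime_card hQ
  set N := Subgroup.normalizer ((Q : Subgroup G) : Set G) with hN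
  set C := Subgroup.centralizer ((Q : Subgroup G) : Set G) with hC
  refine ⟨(Nat.card (Sylow q G), Nat.card C), ?_, hq, hqd, rfl, fun Q' => card_centralizer_sylow_eq Q' Q⟩
  set n := Nat.card (Sylow q G) with hn
  have hn1 : n ≠ 1 := by
    intro h
    have : Subsingleton (Sylow q G) := (Nat.card_eq_one_iff_unique.mp h).1
    have hnor : (Q : Subgroup G).Normal := inferInstance
    rcases hnor.eq_bot_or_eq_top with h' | h'
    · rw [h', Subgroup.card_bot] at hQ; exact hqp.one_lt.ne hQ
    · rw [h', Subgroup.card_top] at hQ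
      have : IsCyclic G := isCyclic_of_prime_card hQ
      letI := IsCyclic.commGroup (α := G)
      exact hnc fun a b => mul_comm a b
  have hQC : (Q : Subgroup G) ≤ C := le_centralizer_iff.mpr (by
    letI := IsCyclic.commGroup (α := (Q : Subgroup G))
    exact fun a ha b hb => congrArg Subtype.val (mul_comm (⟨b, hb⟩ : (Q : Subgroup G)) ⟨a, ha⟩))
  have hCN : C ≤ N := Subgroup.centralizer_le_normalizer _
  have hmulN : n * Nat.card N = Nat.card G := by
    rw [hn, Q.card_eq_index_normalizer, mul_comm]; exact Subgroup.card_mul_index N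
  have hnmod : n % q = 1 := Eq.trans (card_sylow_modEq_one q G) (Nat.mod_eq_of_lt hqp.one_lt)
  let ψ := (Q : Subgroup G).normalizerMonoidHom
  have hker : ψ.ker = C.subgroupOf N := Subgroup.normalizerMonoidHom_ker _
  have hi : Nat.card ψ.range * Nat.card C = Nat.card N := by
    have h := Subgroup.card_eq_card_quotient_mul_card_subgroup ψ.ker
    rw [Nat.card_congr (QuotientGroup.quotientKerEquivRange ψ).toEquiv, hker,
      Nat.card_congr (Subgroup.subgroupOfEquivOfLe hCN).toEquiv] at h
    exact h.symm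
  have hid : Nat.card ψ.range ∣ q - 1 := by
    have h1 := Subgroup.card_subgroup_dvd_card ψ.range
    rwa [hcy.card_mulAut, hQ, Nat.totient_prime hqp] at h1
  have hi1 : Nat.card ψ.range ≠ 1 := by
    intro h
    rw [h, one_mul] at hi
    have hNC : N ≤ C := (Subgroup.eq_of_le_of_card_ge hCN hi.ge).ge
    have hc := MonoidHom.ker_transferSylow_isComplement' Q hNC
    rcases (MonoidHom.normal_ker (MonoidHom.transferSylow Q hNC)).eq_bot_or_eq_top with h' | h'
    · rw [h'] at hc
      rw [Subgroup.isComplement'_bot_left.mp hc, Subgroup.card_top] at hQ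
      have : IsCyclic G := isCyclic_of_prime_card hQ
      letI := IsCyclic.commGroup (α := G)
      exact hnc fun a b => mul_comm a b
    · rw [h'] at hc
      rw [Subgroup.isComplement'_top_left.mp hc, Subgroup.card_bot] at hQ
      exact hqp.one_lt.ne hQ
  have hipos : 0 < Nat.card ψ.range := Nat.card_pos
  have hnpos : 0 < n := Nat.card_pos
  have hCpos : 0 < Nat.card C := Nat.card_pos
  have hquot : Nat.card G / (n * Nat.card C) = Nat.card ψ.range :=
    Nat.div_eq_of_eq_mul_left (Nat.mul_pos hnpos hCpos) (by rw [← hmulN, ← hi]; ring)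
  have hex : ¬ (q = 19 ∧ n = 20 ∧ Nat.card G / n % 2 = 0) := by
    rintro ⟨rfl, h20, h2⟩
    exact not_even_normalizer hnc hqd hsq h20 (Nat.dvd_of_mod_eq_zero (h20 ▸ h2))
  have hnq : n * q ∣ Nat.card G := hmulN ▸ Nat.mul_dvd_mul_left n
    (hQ ▸ Subgroup.card_dvd_of_le (hQC.trans hCN))
  refine List.mem_flatMap.mpr ⟨n, List.mem_filter.mpr
    ⟨mem_dl ((Dvd.intro _ hmulN).trans ho), ?_⟩, List.mem_map.mpr ⟨Nat.card C, List.mem_filter.mpr
      ⟨mem_dl ((Subgroup.card_subgroup_dvd_card C).trans ho), ?_⟩, rfl⟩⟩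
  · simp only [Bool.and_eq_true, beq_iff_eq, decide_eq_true_eq, Bool.not_eq_true',
      Bool.and_eq_false_iff, beq_eq_false_iff_ne, ne_eq]
    refine ⟨⟨⟨hnmod, by omega⟩, Nat.mod_eq_zero_of_dvd hnq⟩, ?_⟩
    tauto
  · simp only [Bool.and_eq_true, beq_iff_eq, decide_eq_true_eq, hquot]
    refine ⟨⟨⟨Nat.mod_eq_zero_of_dvd (hQ ▸ Subgroup.card_dvd_of_le hQC), Nat.mod_eq_zero_of_dvd
      (hmulN ▸ Nat.mul_dvd_mul_left n (Dvd.intro_left _ hi))⟩, by omega⟩, Nat.mod_eq_zero_of_dvd hid⟩

theorem search_false [IsSimpleGroup G] (hnc : ¬ ∀ a b : G, a * b = b * a) (ho : Nat.card G ∣ 175560) :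
    ∀ (qs : List ℕ) (acc : List (ℕ × ℕ × ℕ)), (∀ q ∈ qs, q ∈ [19, 11, 7, 5, 3] ∧ q ∣ Nat.card G) →
      (∀ x ∈ acc, Data G x) → search (Nat.card G) qs acc = false := by
  intro qs
  induction qs with
  | nil =>
    intro acc _ hacc
    exact big_false ho acc [] 0 hacc (fun x hx => absurd hx (List.not_mem_nil))
      ⟨∅, Set.notMem_empty _, Nat.zero_le _, fun g hg => absurd hg (Set.notMem_empty _)⟩
  | cons q qs ih =>
    intro acc hqs hacc
    obtain ⟨x, hxo, hx⟩ := opts_of_data hnc ho (hqs q List.mem_cons_self).1 (hqs q List.mem_cons_self).2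
    rw [search, Bool.eq_false_iff]
    intro hall
    have h1 := (List.all_eq_true.mp hall) x hxo
    rw [Bool.or_eq_true, Bool.not_eq_true'] at h1
    rcases h1 with h1 | h1
    · rw [Bool.eq_false_iff] at h1
      exact h1 (List.all_eq_true.mpr fun y hy => pairOK_of_data ho _ y hx (hacc y hy))
    · rw [ih _ (fun r hr => hqs r (List.mem_cons_of_mem _ hr))] at h1
      · exact Bool.false_ne_true h1
      · intro z hz
        rcases List.mem_cons.mp hz with rfl | hz
        · exact hx
        · exact hacc z hz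

theorem not_simple [IsSimpleGroup G] (hnc : ¬ ∀ a b : G, a * b = b * a) (ho : Nat.card G ∣ 175560)
    (hne : Nat.card G ≠ 175560) (h19 : 19 ∣ Nat.card G) : False := by
  have hG1 : Nat.card G ≠ 1 := fun h => by rw [h] at h19; norm_num at h19
  set p := (Nat.card G).minFac with hp
  have hpp := Fact.mk (Nat.minFac_prime hG1)
  let P : Sylow p G := default
  have h2 : p = 2 ∧ 4 ∣ Nat.card G := by
    by_contra hcon
    have hsq : ¬ p * p ∣ Nat.card G := by
      intro hd
      by_cases h : p = 2
      · exact hcon ⟨h, by rw [h] at hd; exact hd⟩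
      have h3 := hd.trans ho
      have h4 : p ∣ 175560 := (Nat.minFac_dvd _).trans ho
      have h5 : p ∈ (175560 : ℕ).primeFactorsList := Nat.mem_primeFactorsList (by norm_num) |>.mpr ⟨hpp.out, h4⟩
      have h6 : p ∈ [2, 2, 2, 3, 5, 7, 11, 19] := by
        have h7 := (Nat.primeFactorsList_unique (l := [2, 2, 2, 3, 5, 7, 11, 19]) (n := 175560)
          (by norm_num) (by norm_num)).mem_iff (a := p)
        exact h7.mpr h5
      revert h3 h
      generalize p = t at h6
      intro h h3
      fin_cases h6 <;> first | exact h rfl | norm_num at h3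
    exact not_cyclic_minFac hnc P (isCyclic_of_prime_card
      (card_sylow_prime (Nat.minFac_dvd _) hsq P))
  have h := search_all
  rw [List.all_eq_true] at h
  have h1 := h _ (mem_dl ho)
  rw [search_false hnc ho (primesOf (Nat.card G)) [] (fun q hq => by
    obtain ⟨hq1, hq2⟩ := List.mem_filter.mp hq
    exact ⟨hq1, Nat.dvd_of_mod_eq_zero (by simpa using hq2)⟩) (fun x hx => absurd hx (List.not_mem_nil))] at h1
  simp [Nat.mod_eq_zero_of_dvd h19, Nat.mod_eq_zero_of_dvd h2.2, hne] at h1

/-- `P` centralises a normal subgroup of order prime to 19 dividing 175560. -/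
theorem le_centralizer_of_normal (ho : Nat.card G ∣ 175560) (M : Subgroup G) [M.Normal]
    (hM : ¬ 19 ∣ Nat.card M) (x : G) (hx : x ^ 19 = 1) : x ∈ Subgroup.centralizer (M : Set G) := by
  classical
  have hp : Fact (Nat.Prime 19) := ⟨by norm_num⟩
  let φ : MulAut M := MulAut.conjNormal x
  have hφ : φ ^ 19 = 1 := by rw [← map_pow, hx, map_one]
  let F : Subgroup M :=
    { carrier := {m | φ m = m}
      one_mem' := map_one φ
      mul_mem' := fun {a b} ha hb => show φ (a * b) = a * b by rw [map_mul, ha, hb]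
      inv_mem' := fun {a} ha => show φ a⁻¹ = a⁻¹ by rw [map_inv, ha] }
  suffices hF : F = ⊤ by
    refine Subgroup.mem_centralizer_iff.mpr fun m hm => ?_
    have h0 : φ (⟨m, hm⟩ : M) = ⟨m, hm⟩ := hF.ge (Subgroup.mem_top (⟨m, hm⟩ : M))
    have h1 : x * m * x⁻¹ = m := congrArg Subtype.val h0
    exact (mul_inv_eq_iff_eq_mul.mp h1).symm
  refine Subgroup.eq_top_of_le_card _ (Nat.le_of_dvd Nat.card_pos ?_)
  refine (Nat.dvd_iff_prime_pow_dvd_dvd _ _).mpr fun r k hr hk => ?_
  have := Fact.mk hr
  have hMd : Nat.card M ∣ 175560 := (Subgroup.card_subgroup_dvd_card M).trans ho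
  have := Fintype.ofFinite (Sylow r M)
  have hn : ¬ 19 ∣ Fintype.card (Sylow r M) := fun h => hM (by
    rw [← Nat.card_eq_fintype_card] at h
    exact h.trans ((default : Sylow r M).card_dvd_index.trans (Subgroup.index_dvd_card _)))
  let σ : Equiv.Perm (Sylow r M) := MulAction.toPerm φ
  have hσ : σ ^ 19 ^ 1 = 1 := by
    have : σ = MulAction.toPermHom (MulAut M) (Sylow r M) φ := rfl
    rw [this, pow_one, ← map_pow, hφ, map_one]
  obtain ⟨S, hS⟩ := Equiv.Perm.exists_fixed_point_of_prime hn hσ
  have hSφ : φ • S = S := hS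
  have hmem : ∀ m ∈ (S : Subgroup M), φ m ∈ (S : Subgroup M) := fun m hm => by
    have := Subgroup.smul_mem_pointwise_smul m φ _ hm
    rw [← Sylow.pointwise_smul_def, hSφ] at this
    exact this
  have hmaps : Set.MapsTo φ (S : Subgroup M) (S : Subgroup M) := hmem
  let τ : Equiv.Perm (S : Subgroup M) := Equiv.ofBijective (hmaps.restrict _ _ _)
    (Finite.injective_iff_bijective.mp fun a b h => Subtype.ext (φ.injective (congrArg Subtype.val h)))
  have hτ : τ ^ 19 = 1 := by
    refine Equiv.ext fun m => Subtype.ext ?_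
    have key : ∀ j : ℕ, (((τ ^ j) m : (S : Subgroup M)) : M) = (φ ^ j) m := by
      intro j
      induction j with
      | zero => rfl
      | succ j ih => rw [pow_succ', pow_succ', Equiv.Perm.mul_apply, MulAut.mul_apply, ← ih]; rfl
    rw [key, hφ]; rfl
  have hSsmall : Nat.card (S : Subgroup M) < 19 := by
    obtain ⟨a, ha⟩ := S.2.exists_card_eq
    have h1 : r ^ a ∣ 175560 := ha ▸ (Subgroup.card_subgroup_dvd_card _).trans hMd
    rw [ha]
    by_contra hge
    rcases a with _ | _ | a
    · norm_num at hge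
    · rw [zero_add, pow_one] at h1 hge
      have hr19 : r ≠ 19 := fun e => hM (by
        have := Subgroup.card_subgroup_dvd_card (S : Subgroup M)
        rw [ha, zero_add, pow_one, e] at this
        exact this)
      have hm : r ∈ [2, 2, 2, 3, 5, 7, 11, 19] :=
        (Nat.primeFactorsList_unique (l := [2, 2, 2, 3, 5, 7, 11, 19]) (n := 175560)
          (by norm_num) (by norm_num)).mem_iff.mpr (Nat.mem_primeFactorsList (by norm_num) |>.mpr ⟨hr, h1⟩)
      revert hge hr19
      fin_cases hm <;> simp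
    · have h2 : r ^ 2 ∣ 175560 := (pow_dvd_pow r (Nat.le_add_left 2 a)).trans h1
      have hm : r ∈ [2, 2, 2, 3, 5, 7, 11, 19] :=
        (Nat.primeFactorsList_unique (l := [2, 2, 2, 3, 5, 7, 11, 19]) (n := 175560)
          (by norm_num) (by norm_num)).mem_iff.mpr (Nat.mem_primeFactorsList (by norm_num) |>.mpr
            ⟨hr, (dvd_pow_self r two_ne_zero).trans h2⟩)
      have hr2 : r = 2 := by
        revert h2
        fin_cases hm <;> norm_num
      subst hr2
      have h3 : a ≤ 1 := by
        by_contra h4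
        exact absurd ((pow_dvd_pow 2 (show 4 ≤ a + 1 + 1 by omega)).trans h1) (by norm_num)
      interval_cases a <;> norm_num at hge
  have hτ1 : τ = 1 := by
    have := Fintype.ofFinite (S : Subgroup M)
    have h1 : orderOf τ ∣ 19 := orderOf_dvd_of_pow_eq_one hτ
    have h2 : orderOf τ ∣ (Nat.card (S : Subgroup M)).factorial := by
      rw [← Nat.card_perm]; exact orderOf_dvd_natCard τ
    refine orderOf_eq_one_iff.mp (Nat.eq_one_of_dvd_coprimes (hp.out.coprime_iff_not_dvd.mpr ?_) h1 h2)
    exact fun h => absurd (hp.out.dvd_factorial.mp h) (not_le.mpr hSsmall)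
  have hSF : (S : Subgroup M) ≤ F := fun m hm =>
    congrArg Subtype.val (DFunLike.congr_fun hτ1 ⟨m, hm⟩ : τ ⟨m, hm⟩ = ⟨m, hm⟩)
  exact (S.pow_dvd_card_of_pow_dvd_card hk).trans (Subgroup.card_dvd_of_le hSF)

theorem normal_of_card_one {p : ℕ} [Fact p.Prime] (h : Nat.card (Sylow p G) = 1) (P : Sylow p G) :
    (P : Subgroup G).Normal := by
  have : Subsingleton (Sylow p G) := (Nat.card_eq_one_iff_unique.mp h).1
  infer_instance

theorem main : ∀ (n : ℕ) (G : Type u) [Group G] [Finite G], Nat.card G = n → Nat.card G ∣ 175560 →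
    (Nat.card G ≠ 175560 ∨ ¬ IsSimpleGroup G) → ∀ P : Sylow 19 G, (P : Subgroup G).Normal := by
  have hp : Fact (Nat.Prime 19) := ⟨by norm_num⟩
  intro n
  induction n using Nat.strong_induction_on with
  | _ n ih =>
  intro G _ _ hn ho hor P
  by_cases h19 : 19 ∣ Nat.card G
  swap
  · have : (P : Subgroup G) = ⊥ := by
      obtain ⟨k, hk⟩ := P.2.exists_card_eq
      rcases k with _ | k
      · exact Subgroup.card_eq_one.mp (by rw [hk, pow_zero])
      · exact absurd ((dvd_pow_self 19 k.succ_ne_zero).trans (hk ▸ Subgroup.card_subgroup_dvd_card (P : Subgroup G))) h19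
    rw [this]; infer_instance
  by_cases hs : IsSimpleGroup G
  · by_cases hnc : ∀ a b : G, a * b = b * a
    · exact ⟨fun a ha g => by rwa [hnc g a, mul_inv_cancel_right]⟩
    · exact absurd (not_simple hnc ho (hor.resolve_right (not_not.mpr hs)) h19) not_false
  have hnt : Nontrivial G := Finite.one_lt_card_iff_nontrivial.mp (by
    have := Nat.le_of_dvd Nat.card_pos h19; omega)
  obtain ⟨M, hMn, hMb, hMt⟩ : ∃ M : Subgroup G, M.Normal ∧ M ≠ ⊥ ∧ M ≠ ⊤ := by
    by_contra hh
    push Not at hh
    exact hs ⟨fun M hM => or_iff_not_imp_left.mpr (hh M hM)⟩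
  have hMlt : Nat.card M < n := hn ▸ lt_of_le_of_ne (Nat.le_of_dvd Nat.card_pos (Subgroup.card_subgroup_dvd_card M))
    (fun h => hMt (Subgroup.eq_top_of_card_eq M h))
  have hQlt : Nat.card (G ⧸ M) < n := by
    rw [← hn, Subgroup.card_eq_card_quotient_mul_card_subgroup M]
    exact lt_mul_of_one_lt_right Nat.card_pos ((Subgroup.one_lt_card_iff_ne_bot M).mpr hMb)
  have hGle : Nat.card G ≤ 175560 := Nat.le_of_dvd (by norm_num) ho
  by_cases hM19 : 19 ∣ Nat.card M
  · have h1 := ih _ hMlt M rfl ((Subgroup.card_subgroup_dvd_card M).trans ho) (Or.inl (by omega))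
    have hsq := not_sq_dvd ho (q := 19) (by simp)
    have hall : ∀ R : Sylow 19 G, (R : Subgroup G) ≤ M := by
      intro R x hx
      have h2 : ¬ 19 ∣ M.index := fun h => hsq (Subgroup.card_mul_index M ▸ Nat.mul_dvd_mul hM19 h)
      have h3 : (QuotientGroup.mk' M x) ^ 19 = 1 := by
        rw [← map_pow]
        have := pow_card_eq_one' (x := (⟨x, hx⟩ : (R : Subgroup G)))
        rw [card_sylow_prime h19 hsq R] at this
        rw [show x ^ 19 = 1 by simpa using congrArg Subtype.val this, map_one]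
      refine (QuotientGroup.eq_one_iff x).mp (orderOf_eq_one_iff.mp (Nat.eq_one_of_dvd_coprimes
        (hp.out.coprime_iff_not_dvd.mpr h2) (orderOf_dvd_of_pow_eq_one h3) ?_))
      rw [Subgroup.index_eq_card]; exact orderOf_dvd_natCard _
    refine normal_of_card_one ?_ P
    have hb : Function.Injective (fun R : Sylow 19 G => R.subtype (hall R)) := fun R S h => Sylow.subtype_injective h
    have h2 : Subsingleton (Sylow 19 M) := by
      have := h1 default
      exact @Unique.instSubsingleton _ ((default : Sylow 19 M).unique_of_normal this)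
    have := Nat.card_le_card_of_injective _ hb
    rw [Nat.card_of_subsingleton (default : Sylow 19 M)] at this
    have h3 : 0 < Nat.card (Sylow 19 G) := Nat.card_pos
    omega
  · have h1 := ih _ hQlt (G ⧸ M) rfl ((Subgroup.card_quotient_dvd_card M).trans ho) (Or.inl (by omega))
      (P.mapSurjective (QuotientGroup.mk'_surjective M))
    refine ⟨fun a ha g => ?_⟩
    have ha19 : a ^ 19 = 1 := by
      have := pow_card_eq_one' (x := (⟨a, ha⟩ : (P : Subgroup G)))
      rw [card_sylow_prime h19 (not_sq_dvd ho (by simp)) P] at this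
      simpa using congrArg Subtype.val this
    have h2 := h1.conj_mem (QuotientGroup.mk' M a) ⟨a, ha, rfl⟩ (QuotientGroup.mk' M g)
    obtain ⟨b, hb, hba⟩ := h2
    rw [← map_inv, ← map_mul, ← map_mul] at hba
    set c := g * a * g⁻¹
    have hm : b⁻¹ * c ∈ M := QuotientGroup.eq.mp hba
    have hb19 : b ^ 19 = 1 := by
      have := pow_card_eq_one' (x := (⟨b, hb⟩ : (P : Subgroup G)))
      rw [card_sylow_prime h19 (not_sq_dvd ho (by simp)) P] at this
      simpa using congrArg Subtype.val this
    have hc19 : c ^ 19 = 1 := by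
      rw [conj_pow, ha19]; group
    have hcomm : Commute b (b⁻¹ * c) :=
      (Subgroup.mem_centralizer_iff.mp (le_centralizer_of_normal ho M hM19 b hb19) _ hm).symm
    have h3 : (b⁻¹ * c) ^ 19 = 1 := by
      have := hcomm.mul_pow 19
      rw [mul_inv_cancel_left, hc19, hb19, one_mul] at this
      exact this.symm
    have h4 : b⁻¹ * c = 1 := orderOf_eq_one_iff.mp (Nat.eq_one_of_dvd_coprimes
      (hp.out.coprime_iff_not_dvd.mpr hM19) (orderOf_dvd_of_pow_eq_one h3)
      (Subgroup.orderOf_dvd_natCard M hm))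
    rwa [inv_mul_eq_one.mp h4] at hb

/-- A finite group of order 175560 = 2³·3·5·7·11·19 is either simple or has a normal Sylow 19-subgroup. -/
theorem result {G : Type*} [Group G] [Finite G] (hG : Nat.card G = 175560) : IsSimpleGroup G ∨ ∀ P : Sylow 19 G, (P : Subgroup G).Normal := by
  by_cases hs : IsSimpleGroup G
  · exact Or.inl hs
  · exact Or.inr (main _ G rfl (dvd_of_eq hG) (Or.inr hs))

end Cfsg.Agent.S4274
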