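import Cfsg.Statements.S4275
import Cfsg.Agent.CoprimeAction.TwistedDesign

set_option autoImplicit false
open Cfsg

namespace Cfsg.Agent.S4275

/-- Let G be a transitive group of permutations of a finite set Ω, let o ∈ Ω, and let α be an automorphism of G. Then α is induced by conjugation by a permutation of Ω normalizing G if and only if the image under α of the stabilizer of o fixes some point of Ω. -/
theorem result {Ω : Type*} [Fintype Ω] (G : Subgroup (Equiv.Perm Ω)) (htr : MulAction.IsPretransitive G Ω) (o : Ω) (α : G ≃* G) : (∃ σ : Equiv.Perm Ω, σ ∈ Subgroup.normalizer (G : Set (Equiv.Perm Ω)) ∧ ∀ g : G, ((α g : G) : Equiv.Perm Ω) = σ * (g : Equiv.Perm Ω) * σ⁻¹) ↔ ∃ ω : Ω, ∀ g ∈ (MulAction.stabilizer G o).map α.toMonoidHom, g • ω = ω := by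
  constructor
  · rintro ⟨σ, -, h⟩
    refine ⟨σ o, ?_⟩
    rintro _ ⟨g, hg, rfl⟩
    show ((α g : G) : Equiv.Perm Ω) (σ o) = σ o
    rw [h g]
    simp only [Equiv.Perm.mul_apply, Equiv.Perm.inv_def, Equiv.symm_apply_apply]
    exact congrArg σ hg
  · rintro ⟨ω, hω⟩
    obtain ⟨σ, hσ⟩ := CfsgLib.CoprimeAction.exists_perm_of_fixed (G := G)
      (fun x y => MulAction.exists_smul_eq G x y) o ω α
      (fun g hg => hω _ ⟨g, hg, rfl⟩)
    have key : ∀ g : G, ((α g : G) : Equiv.Perm Ω) = σ * (g : Equiv.Perm Ω) * σ⁻¹ := by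
      intro g
      ext x
      simp only [Equiv.Perm.mul_apply]
      rw [show (g : Equiv.Perm Ω) (σ⁻¹ x) = g • σ⁻¹ x from rfl, hσ]
      simp [Subgroup.smul_def]
    refine ⟨σ, Subgroup.mem_normalizer_fintype fun n hn => ?_, key⟩
    rw [← key ⟨n, hn⟩]
    exact (α ⟨n, hn⟩).2

end Cfsg.Agent.S4275
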