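import Cfsg.Statements.S4276
import Cfsg.Agent.CoprimeAction.TwistedDesign

set_option autoImplicit false
open Cfsg

namespace Cfsg.Agent.S4276

theorem exists_induced {Ω : Type*} [Fintype Ω] (G : Subgroup (Equiv.Perm Ω))
    (h2 : MulAction.IsMultiplyPretransitive G Ω 2) (o : Ω) (α : MulAut G) (hα : Odd (orderOf α)) (ω : Ω)
    (hk : (Nat.card (MulAction.orbit ((MulAction.stabilizer G o).map α.toMonoidHom) ω)).Coprime (Fintype.card Ω)) :
    (∃ σ : Equiv.Perm Ω, σ ∈ Subgroup.normalizer (G : Set (Equiv.Perm Ω)) ∧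
      ∀ g : G, ((α g : G) : Equiv.Perm Ω) = σ * (g : Equiv.Perm Ω) * σ⁻¹) ∧
    (Nat.card (MulAction.orbit ((MulAction.stabilizer G o).map α.toMonoidHom) ω) = 1 ∨
      Nat.card (MulAction.orbit ((MulAction.stabilizer G o).map α.toMonoidHom) ω) = Fintype.card Ω - 1) := by
  classical
  haveI : Nonempty Ω := ⟨o⟩
  have h2' : ∀ {a b c d : Ω}, a ≠ b → c ≠ d → ∃ g : G, g • a = c ∧ g • b = d :=
    MulAction.is_two_pretransitive_iff.1 h2
  have htr : ∀ x y : Ω, ∃ g : G, g • x = y := by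
    intro x y
    by_cases hxy : x = y
    · exact ⟨1, by rw [one_smul, hxy]⟩
    · obtain ⟨g, hg, -⟩ := h2' hxy (Ne.symm hxy)
      exact ⟨g, hg⟩
  set H' := (MulAction.stabilizer G o).map α.toMonoidHom
  set O : Finset Ω := (MulAction.orbit H' ω).toFinset with hOdef
  have hOcard : O.card = Nat.card (MulAction.orbit H' ω) := by
    rw [hOdef, Set.toFinset_card, Nat.card_eq_fintype_card]
  have hmemO : ∀ x, x ∈ O ↔ ∃ g : G, g • o = o ∧ α g • ω = x := by
    intro x
    rw [hOdef, Set.mem_toFinset]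
    constructor
    · rintro ⟨⟨_, g, hg, rfl⟩, hx⟩
      exact ⟨g, hg, hx⟩
    · rintro ⟨g, hg, hx⟩
      exact ⟨⟨α g, g, hg, rfl⟩, hx⟩
  have hωO : ω ∈ O := (hmemO ω).2 ⟨1, one_smul _ _, by rw [map_one, one_smul]⟩
  have hO : ∀ g : G, g • o = o → ∀ x ∈ O, α g • x ∈ O := by
    intro g hg x hx
    obtain ⟨g', hg', rfl⟩ := (hmemO x).1 hx
    exact (hmemO _).2 ⟨g * g', by rw [mul_smul, hg', hg], by rw [map_mul, mul_smul]⟩
  have hres := CfsgLib.CoprimeAction.twisted_design h2' htr o α hα (pow_orderOf_eq_one α) O hO ⟨ω, hωO⟩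
    (hOcard ▸ hk)
  have hfix : ∃ ω' : Ω, ∀ g : G, g • o = o → α g • ω' = ω' := by
    rcases hres with h | h
    · obtain ⟨z, hz⟩ := Finset.card_eq_one.1 h
      refine ⟨ω, fun g hg => ?_⟩
      have h1 := hO g hg ω hωO
      rw [hz, Finset.mem_singleton] at h1 hωO
      rw [h1, hωO]
    · have hc : Oᶜ.card = 1 := by rw [Finset.card_compl]; omega
      obtain ⟨z, hz⟩ := Finset.card_eq_one.1 hc
      refine ⟨z, fun g hg => ?_⟩
      have hzO : z ∉ O := Finset.mem_compl.1 (hz ▸ Finset.mem_singleton_self z)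
      have h1 : α g • z ∈ Oᶜ := Finset.mem_compl.2 fun hmem => hzO (by
        have := hO g⁻¹ (inv_smul_eq_iff.2 hg.symm) _ hmem
        rwa [map_inv, inv_smul_smul] at this)
      rw [hz, Finset.mem_singleton] at h1
      exact h1
  refine ⟨?_, by omega⟩
  obtain ⟨ω', hω'⟩ := hfix
  obtain ⟨σ, hσ⟩ := CfsgLib.CoprimeAction.exists_perm_of_fixed htr o ω' α hω'
  have hconj : ∀ g : G, ((α g : G) : Equiv.Perm Ω) = σ * (g : Equiv.Perm Ω) * σ⁻¹ := by
    intro g
    refine Equiv.ext fun x => ?_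
    rw [Equiv.Perm.mul_apply, Equiv.Perm.mul_apply]
    have := hσ g (σ⁻¹ x)
    rw [show σ (σ⁻¹ x) = x from σ.apply_symm_apply x] at this
    exact this.symm
  refine ⟨σ, ?_, hconj⟩
  rw [Subgroup.mem_normalizer_iff]
  intro h
  constructor
  · intro hh
    rw [← hconj ⟨h, hh⟩]
    exact SetLike.coe_mem _
  · intro hh
    obtain ⟨g, hg⟩ := α.surjective ⟨_, hh⟩
    have h1 : σ * (g : Equiv.Perm Ω) * σ⁻¹ = σ * h * σ⁻¹ := by rw [← hconj, hg]
    rw [← mul_left_cancel (mul_right_cancel h1)]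
    exact g.2


/-- Let G be a doubly transitive group of permutations of a finite set Ω of size n, let o ∈ Ω, and let α be an automorphism of G of odd order. Suppose that the image under α of the stabilizer of o has an orbit on Ω whose length k is coprime to n. Then α is induced by conjugation by a permutation of Ω normalizing G, and k = 1 or k = n − 1. -/
theorem result {Ω : Type*} [Fintype Ω] (G : Subgroup (Equiv.Perm Ω)) (h2 : MulAction.IsMultiplyPretransitive G Ω 2) (o : Ω) (α : MulAut G) (hα : Odd (orderOf α)) (ω : Ω) (hk : (Nat.card (MulAction.orbit ((MulAction.stabilizer G o).map α.toMonoidHom) ω)).Coprime (Fintype.card Ω)) : (∃ σ : Equiv.Perm Ω, σ ∈ Subgroup.normalizer (G : Set (Equiv.Perm Ω)) ∧ ∀ g : G, ((α g : G) : Equiv.Perm Ω) = σ * (g : Equiv.Perm Ω) * σ⁻¹) ∧ (Nat.card (MulAction.orbit ((MulAction.stabilizer G o).map α.toMonoidHom) ω) = 1 ∨ Nat.card (MulAction.orbit ((MulAction.stabilizer G o).map α.toMonoidHom) ω) = Fintype.card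 Ω - 1) := by
  exact exists_induced G h2 o α hα ω hk

end Cfsg.Agent.S4276
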