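import Cfsg.Statements.S4277
import Cfsg.Agent.SchreierPrime.Main
import Cfsg.Agent.PrimeDegree.Normalizer

set_option autoImplicit false
open Cfsg

namespace Cfsg.Agent.S4277

/-- A case of the Schreier conjecture: if a finite simple group G has a subgroup of prime index, then the outer automorphism group of G is solvable. -/
theorem result {G : Type*} [Group G] [Finite G] [IsSimpleGroup G] (H : Subgroup G) (hH : H.index.Prime) : Group.IsSolvable (Cfsg.Out G) := by
  classical
  have hcomm : ∀ a b : MulAut G, (a : Cfsg.Out G) * b = (b : Cfsg.Out G) * a := by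
    haveI hpf : Fact H.index.Prime := ⟨hH⟩
    by_cases hc : ∀ a b : G, a * b = b * a
    · intro a b
      letI : CommGroup G := { ‹Group G› with mul_comm := hc }
      obtain ⟨g, hg⟩ := IsCyclic.exists_generator (α := G)
      have hz : ∀ (c : MulAut G), ∃ n : ℤ, ∀ y, c y = y ^ n := by
        intro c
        obtain ⟨n, hn⟩ := hg (c g)
        refine ⟨n, fun y => ?_⟩
        obtain ⟨k, rfl⟩ := hg y
        simp only [map_zpow, ← hn, ← zpow_mul, mul_comm]
      obtain ⟨i, hi⟩ := hz a
      obtain ⟨j, hj⟩ := hz b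
      rw [← QuotientGroup.mk_mul, ← QuotientGroup.mk_mul]
      congr 1
      ext y
      simp only [MulAut.mul_apply, hi, hj, ← zpow_mul, mul_comm]
    haveI : Fintype (G ⧸ H) := Fintype.ofFinite _
    set p := H.index with hp
    have hΩ : Fintype.card (G ⧸ H) = p := by
      rw [← Nat.card_eq_fintype_card, hp, Subgroup.index]
    set φ := MulAction.toPermHom G (G ⧸ H) with hφ
    have hinj : Function.Injective φ := by
      rcases IsSimpleGroup.eq_bot_or_eq_top_of_normal φ.ker inferInstance with h | h
      · exact (MonoidHom.ker_eq_bot_iff φ).1 h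
      · exfalso
        have h1 : H = ⊤ := by
          refine eq_top_iff.2 fun g _ => ?_
          have hg : g ∈ φ.ker := h ▸ Subgroup.mem_top g
          rw [hφ, ← Subgroup.normalCore_eq_ker] at hg
          exact Subgroup.normalCore_le H hg
        exact hH.ne_one (by rw [hp, h1, Subgroup.index_top])
    haveI : FaithfulSMul G (G ⧸ H) := ⟨fun h => hinj (Equiv.ext h)⟩
    haveI : MulAction.IsPretransitive φ.range (G ⧸ H) := by
      refine ⟨fun a b => ?_⟩
      obtain ⟨g, hg⟩ := MulAction.exists_smul_eq G a b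
      exact ⟨⟨φ g, g, rfl⟩, hg⟩
    have hns : ¬ Group.IsSolvable φ.range := by
      intro h
      haveI := h
      haveI : Group.IsSolvable G := Group.isSolvable_of_isSolvable_injective
        (f := φ.rangeRestrict) fun a b e => hinj (congrArg Subtype.val e)
      exact hc (IsSimpleGroup.comm_iff_isSolvable.2 ‹_›)
    have h2t : MulAction.IsMultiplyPretransitive G (G ⧸ H) 2 := by
      have h := CfsgLib.PrimeDegree.two_transitive hΩ φ.range hns
      rw [MulAction.is_two_pretransitive_iff] at h ⊢
      intro a b c d hab hcd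
      obtain ⟨⟨_, g, rfl⟩, h1, h2⟩ := h hab hcd
      exact ⟨g, h1, h2⟩
    have hcard : Nat.card φ.range = Nat.card G :=
      (Nat.card_congr (MonoidHom.ofInjective hinj).toEquiv).symm
    have hsq : ¬ p ^ 2 ∣ Nat.card G := hcard ▸ CfsgLib.PrimeDegree.not_sq_dvd hΩ φ.range
    have hmul : Nat.card H * p = Nat.card G := H.card_mul_index
    have hpH : ¬ p ∣ Nat.card H := fun h => hsq (by
      rw [pow_two, ← hmul]; exact mul_dvd_mul_right h p)
    let P : Sylow p G := default
    have hQ : ∀ Q : Sylow p G, Nat.card Q = p := by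
      intro Q
      obtain ⟨k, hk⟩ := (IsPGroup.iff_card).mp Q.isPGroup'
      have h1 : p ∣ Nat.card Q := Q.dvd_card_of_dvd_card (hmul ▸ dvd_mul_left p _)
      rw [hk] at h1 ⊢
      rcases Nat.lt_or_ge k 2 with h | h
      · interval_cases k
        · rw [pow_zero, Nat.dvd_one] at h1
          exact absurd h1 hH.ne_one
        · rw [pow_one]
      · exact absurd ((pow_dvd_pow p h).trans (hk ▸ Subgroup.card_subgroup_dvd_card
          (Q : Subgroup G))) hsq
    haveI : Nontrivial (P : Subgroup G) :=
      Finite.one_lt_card_iff_nontrivial.1 (by rw [hQ]; exact hH.one_lt)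
    obtain ⟨⟨d, hdP⟩, hd1⟩ := exists_ne (1 : (P : Subgroup G))
    have hd1' : d ≠ 1 := fun h => hd1 (Subtype.ext h)
    have hdp : d ^ p = 1 := by
      have h := congrArg Subtype.val (pow_card_eq_one' (x := (⟨d, hdP⟩ : (P : Subgroup G))))
      rw [hQ] at h
      simpa using h
    have hord : orderOf d = p := orderOf_eq_prime hdp hd1'
    have hPd : (P : Subgroup G) = Subgroup.zpowers d :=
      (Subgroup.eq_of_le_of_card_ge (Subgroup.zpowers_le.2 hdP)
        (le_of_eq (by rw [Nat.card_zpowers, hord]; exact hQ P))).symm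
    set o : G ⧸ H := ((1 : G) : G ⧸ H) with ho
    have hstab : MulAction.stabilizer G o = H := MulAction.stabilizer_quotient H
    haveI : NeZero p := ⟨hH.ne_zero⟩
    have hbij : Function.Bijective fun j : ZMod p => d ^ j.val • o := by
      refine (Fintype.bijective_iff_injective_and_card _).2 ⟨fun i j hij => ?_, by rw [ZMod.card, hΩ]⟩
      have h1 : (d ^ j.val)⁻¹ * d ^ i.val ∈ H := by
        rw [← hstab, MulAction.mem_stabilizer_iff, mul_smul, inv_smul_eq_iff]
        exact hij
      have h2 : orderOf ((d ^ j.val)⁻¹ * d ^ i.val) ∣ p := by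
        refine orderOf_dvd_of_pow_eq_one ?_
        rw [((Commute.pow_pow_self d _ _).inv_left).mul_pow, inv_pow, ← pow_mul, ← pow_mul,
          mul_comm j.val, mul_comm i.val, pow_mul, pow_mul, hdp]
        simp
      rcases (Nat.dvd_prime hH).1 h2 with h3 | h3
      · rw [orderOf_eq_one_iff, inv_mul_eq_one] at h3
        refine ZMod.val_injective p ?_
        exact pow_injOn_Iio_orderOf (by rw [hord]; exact ZMod.val_lt i)
          (by rw [hord]; exact ZMod.val_lt j) h3.symm
      · exact absurd (h3 ▸ H.orderOf_dvd_natCard h1) hpH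
    have key : ∀ x : MulAut G, x d = d → (x : Cfsg.Out G) = 1 := by
      intro x hx
      obtain ⟨k, hk⟩ := CfsgLib.SchreierPrime.eq_conj_pow o d hdp (Equiv.ofBijective _ hbij)
        (fun _ => rfl) h2t (by rw [hstab]; exact hpH) x hx
      exact (QuotientGroup.eq_one_iff x).2 ⟨_, hk.symm⟩
    have hnorm : ∀ a : MulAut G, ∃ a' : MulAut G,
        (a' : Cfsg.Out G) = (a : Cfsg.Out G) ∧ ∃ i : ℕ, a' d = d ^ i := by
      intro a
      have hpg : IsPGroup p (Subgroup.zpowers (a d)) := by
        refine IsPGroup.of_card (n := 1) ?_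
        rw [Nat.card_zpowers, MulEquiv.orderOf_eq, hord, pow_one]
      obtain ⟨Q, hQa⟩ := hpg.exists_le_sylow
      obtain ⟨g, hg⟩ := MulAction.exists_smul_eq G Q P
      have hmem : MulAut.conj g • (a d) ∈ (P : Subgroup G) := by
        rw [← hg, Sylow.coe_subgroup_smul]
        exact Subgroup.smul_mem_pointwise_smul _ _ _ (hQa (Subgroup.mem_zpowers _))
      rw [hPd, ← mem_powers_iff_mem_zpowers] at hmem
      obtain ⟨i, hi⟩ := hmem
      refine ⟨MulAut.conj g * a, ?_, i, hi.symm⟩
      have h1 : ((MulAut.conj g : MulAut G) : Cfsg.Out G) = 1 :=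
        (QuotientGroup.eq_one_iff _).2 (MonoidHom.mem_range.2 ⟨g, rfl⟩)
      rw [QuotientGroup.mk_mul, h1, one_mul]
    intro a b
    obtain ⟨a', ea, i, hi⟩ := hnorm a
    obtain ⟨b', eb, j, hj⟩ := hnorm b
    rw [← ea, ← eb, ← inv_mul_eq_one, ← QuotientGroup.mk_mul, ← QuotientGroup.mk_mul,
      ← QuotientGroup.mk_inv, ← QuotientGroup.mk_mul]
    refine key _ ?_
    have h1 : (a' * b') d = d ^ (j * i) := by rw [MulAut.mul_apply, hj, map_pow, hi, ← pow_mul, mul_comm]
    have h2 : (b' * a') d = d ^ (j * i) := by rw [MulAut.mul_apply, hi, map_pow, hj, ← pow_mul]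
    have h3 : (b' * a') d = (a' * b') d := h2.trans h1.symm
    rw [MulAut.mul_apply, h3]
    exact (a' * b').symm_apply_apply d
  refine Group.isSolvable_of_comm fun a b => ?_
  induction a using QuotientGroup.induction_on with
  | H a =>
    induction b using QuotientGroup.induction_on with
    | H b => exact hcomm a b

end Cfsg.Agent.S4277
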