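import Cfsg.Statements.S4282
import Cfsg.Agent.HallHigmanB.Main
-- import your own Cfsg.Agent.* helpers here

set_option autoImplicit false
open Cfsg

namespace Cfsg.Agent.S4282

/-- A critical case behind the Hall–Higman theorem. Let p ≠ q be primes and G a finite group generated by a normal q-subgroup Q and a cyclic p-subgroup generated by x, such that the centralizer of every non-identity element of that cyclic subgroup is its product with the centre of G. Let K be an algebraically closed field of characteristic p and ρ a faithful representation of G on a nonzero finite-dimensional K-space whose restriction to Q is irreducible. If s is the least exponent with (ρ(x) − 1)^s = 0, then |⟨x⟩| − 1 ≤ s ≤ |⟨x⟩|; and if s = |⟨x⟩| − 1 then |⟨x⟩| − 1 is a power of q and Q is non-abelian. -/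
theorem result {G : Type*} [Group G] [Finite G] (p q : ℕ) [Fact p.Prime] [Fact q.Prime] (hpq : p ≠ q) (Q : Subgroup G) [Q.Normal] (hQ : IsPGroup q Q) (x : G) (hx : IsPGroup p (Subgroup.zpowers x)) (hgen : Q ⊔ Subgroup.zpowers x = ⊤) (hC : ∀ y ∈ Subgroup.zpowers x, y ≠ 1 → Subgroup.centralizer ({y} : Set G) = Subgroup.zpowers x ⊔ Subgroup.center G) {K : Type*} [Field K] [IsAlgClosed K] [CharP K p] {V : Type*} [AddCommGroup V] [Module K V] [FiniteDimensional K V] [Nontrivial V] (ρ : Representation K G V) (hfaith : Function.Injective ρ) (hirr : ∀ W : Submodule K V, (∀ g ∈ Q, Submodule.map (ρ g) W ≤ W) → W = ⊥ ∨ W = ⊤) (s : ℕ) (hs : (ρ x - 1) ^ s = 0) (hmin : ∀ k < s, (ρ x - 1) ^ k ≠ 0) : Nat.card (Subgroup.zpowers x) - 1 ≤ s ∧ s ≤ Nat.card (Subgroup.zpowers x) ∧ (s = Nat.card (Subgroup.zpowers x) - 1 → (∃ b : ℕ, Nat.card (Subgroup.zpowers x) - 1 = q ^ b) ∧ ¬ IsMulCommutative Q) := by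
  classical
  haveI : CharP (Module.End K V) p := charP_of_injective_algebraMap (algebraMap K (Module.End K V)).injective p
  obtain ⟨n, hn⟩ := IsPGroup.iff_card.1 hx
  have hxn : orderOf x = p ^ n := by rw [← Nat.card_zpowers, hn]
  rw [hn]
  set N : Module.End K V := ρ x - 1 with hN
  have hNh : N ^ p ^ n = 0 := by
    rw [hN, sub_pow_char_pow_of_commute _ _ (Commute.one_right _), one_pow, ← map_pow, ← hxn,
      pow_orderOf_eq_one, map_one, sub_self]
  have hle : s ≤ p ^ n := not_lt.1 fun hlt => hmin _ hlt hNh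
  have hspos : 0 < s := Nat.pos_of_ne_zero fun h0 => by rw [h0, pow_zero] at hs; exact one_ne_zero hs
  rcases Nat.eq_zero_or_pos n with rfl | hn0
  · rw [pow_zero] at hle ⊢
    exact ⟨by omega, hle, fun h => by omega⟩
  have hx1 : x ≠ 1 := fun h => by
    rw [h, orderOf_one] at hxn
    exact absurd hxn.symm (Nat.one_lt_pow (by omega) (Fact.out : p.Prime).one_lt).ne'
  set θ : G →* (Module.End K V)ˣ := MonoidHom.toHomUnits ρ with hθ
  have hθi : Function.Injective θ := fun a b e => hfaith (congrArg Units.val e : _)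
  set Qb := Q.map θ
  haveI : Finite Qb := Finite.of_surjective
    (fun a : Q => (⟨θ a, a, a.2, rfl⟩ : Qb)) fun ⟨_, a, ha, e⟩ => ⟨⟨a, ha⟩, Subtype.ext e⟩
  have hpQ : ¬ p ∣ Nat.card Q := by
    obtain ⟨i, hi⟩ := IsPGroup.iff_card.1 hQ
    rw [hi]
    exact fun hd => hpq ((Nat.prime_dvd_prime_iff_eq Fact.out Fact.out).1 ((Fact.out : p.Prime).dvd_of_dvd_pow hd))
  have hcard : (Nat.card Qb : K) ≠ 0 := fun h0 =>
    hpQ (((CharP.cast_eq_zero_iff K p _).1 h0).trans (Subgroup.card_map_dvd _ θ))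
  have hirr' : ∀ W : Submodule K V, (∀ a ∈ Qb, ∀ w ∈ W, (a : Module.End K V) w ∈ W) → W = ⊥ ∨ W = ⊤ :=
    fun W hW => hirr W fun g hg => by
      rintro _ ⟨w, hw, rfl⟩
      exact hW (θ g) ⟨g, hg, rfl⟩ w hw
  have hsc : ∀ a ∈ Q, (∀ b ∈ Q, Commute a b) → ∃ c : K, ρ a = c • (1 : Module.End K V) := fun a _ hall =>
    CfsgLib.HallHigmanB.scalar_of_commute ((fun z : (Module.End K V)ˣ => (z : Module.End K V)) '' (Qb : Set _))
      (fun W hW => hirr' W fun z hz => hW _ ⟨z, hz, rfl⟩) (by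
        rintro _ ⟨_, ⟨b, hb, rfl⟩, rfl⟩
        exact congrArg Units.val (((hall b hb).symm.map θ).eq))
  obtain ⟨hlow, heq⟩ := CfsgLib.HallHigmanB.critical (p := p) Qb hcard hirr' (θ x) (by
      rintro _ ⟨a, ha, rfl⟩
      exact ⟨x * a * x⁻¹, ‹Q.Normal›.conj_mem a ha x, by rw [map_mul, map_mul, map_inv]⟩) n
    (by rw [← map_pow, ← hxn, pow_orderOf_eq_one, map_one]) (fun h => hx1 (hθi (h.trans (map_one θ).symm))) (by
      rintro _ ⟨a, ha, rfl⟩ i hi hih hcomm
      have hxa : x ^ i * a = a * x ^ i := hθi (by rwa [map_mul, map_mul, map_pow])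
      have hxi : x ^ i ≠ 1 := pow_ne_one_of_lt_orderOf hi.ne' (hxn ▸ hih)
      have hmem : a ∈ Subgroup.centralizer ({x ^ i} : Set G) := Subgroup.mem_centralizer_singleton_iff.2 hxa.symm
      rw [hC _ (Subgroup.pow_mem _ (Subgroup.mem_zpowers x) i) hxi] at hmem
      obtain ⟨u, hu, z, hz, rfl⟩ := Subgroup.mem_sup_of_normal_right.1 hmem
      have hcu : Commute u z := Subgroup.mem_center_iff.1 hz u
      have hah : (u * z) ^ p ^ n = z ^ p ^ n := by
        rw [hcu.mul_pow, ← hn, orderOf_dvd_iff_pow_eq_one.1 (Subgroup.orderOf_dvd_natCard _ hu), one_mul]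
      obtain ⟨w, hw⟩ := exists_pow_eq_self_of_coprime (x := u * z) (n := p ^ n)
        (Nat.Coprime.coprime_dvd_right (Subgroup.orderOf_dvd_natCard Q ha)
          (Nat.Coprime.pow_left n ((Fact.out : p.Prime).coprime_iff_not_dvd.2 hpQ)))
      have hcen : u * z ∈ Subgroup.center G := by
        rw [← hw, hah]
        exact Subgroup.pow_mem _ (Subgroup.pow_mem _ hz _) _
      exact hsc _ ha fun b _ => (Subgroup.mem_center_iff.1 hcen b).symm) s hs (hmin _ (by omega))
  refine ⟨hlow, hle, fun hse => ?_⟩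
  have hdim := heq (by omega)
  have hU : CfsgLib.HallHigmanB.SimpleSub ρ Q (⊤ : Submodule K V) :=
    ⟨fun _ _ _ _ => trivial, top_ne_bot, fun W hW _ => hirr W fun g hg => by
      rintro _ ⟨w, hw, rfl⟩; exact hW g hg w hw⟩
  obtain ⟨b, hb⟩ := CfsgLib.HallHigmanB.exists_pow_finrank (ρ := ρ) Q hQ ⊤ hU
  rw [finrank_top] at hb
  refine ⟨⟨b, by rw [← hb, hdim]; omega⟩, fun hab => ?_⟩
  haveI := hab
  obtain ⟨v, hv⟩ := exists_ne (0 : V)
  have hspan : Submodule.span K {v} = ⊤ := by
    refine (hirr _ fun g hg => ?_).resolve_left (by simpa using hv)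
    obtain ⟨c, hc⟩ := hsc g hg fun b hb =>
      (congrArg Subtype.val (IsMulCommutative.is_comm.comm (⟨g, hg⟩ : Q) ⟨b, hb⟩) : g * b = b * g)
    rintro _ ⟨w, hw, rfl⟩
    rw [hc]
    exact Submodule.smul_mem _ c hw
  obtain ⟨c, hc⟩ := Submodule.mem_span_singleton.1 (show ρ x v ∈ Submodule.span K {v} by rw [hspan]; trivial)
  have hall : ρ x = c • (1 : Module.End K V) := LinearMap.ext fun w => by
    obtain ⟨e, rfl⟩ := Submodule.mem_span_singleton.1 (show w ∈ Submodule.span K {v} by rw [hspan]; trivial)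
    rw [map_smul, ← hc]
    exact (smul_comm e c v)
  have h1 : (c - 1) ^ p ^ n = 0 := by
    have h2 : ((c - 1) ^ p ^ n) • v = 0 := by
      have h3 := LinearMap.congr_fun hNh v
      rw [hN, hall, show c • (1 : Module.End K V) - 1 = (c - 1) • (1 : Module.End K V) by rw [sub_smul, one_smul],
        smul_pow, one_pow] at h3
      exact h3
    exact (smul_eq_zero.1 h2).resolve_right hv
  refine hx1 (hfaith ?_)
  rw [hall, sub_eq_zero.1 ((pow_eq_zero_iff (pow_pos (Fact.out : p.Prime).pos n).ne').1 h1), one_smul, map_one]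

end Cfsg.Agent.S4282
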