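import Cfsg.Statements.S4283
import Cfsg.Agent.Frob.Kernel

set_option autoImplicit false
open Cfsg

namespace Cfsg.Agent.S4283

/-- Let G be a finite group with centre Z and let K, H be abelian subgroups of G containing Z such that G/Z is a Frobenius group with complement H/Z and kernel K/Z. Then the conjugacy class sizes of G are exactly 1, [G : K] and [G : H], and these two indices are coprime. (This is the converse half of the characterization of finite groups whose conjugacy class sizes are exactly 1, m and n with m and n coprime.) -/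
theorem result {G : Type*} [Group G] [Finite G] (K H : Subgroup G) (hZK : Subgroup.center G ≤ K) (hZH : Subgroup.center G ≤ H) (hK : IsMulCommutative K) (hH : IsMulCommutative H) (hFrob : Cfsg.IsFrobeniusComplement (H.map (QuotientGroup.mk' (Subgroup.center G)))) (hker : Cfsg.frobeniusKernel (H.map (QuotientGroup.mk' (Subgroup.center G))) = (K.map (QuotientGroup.mk' (Subgroup.center G)) : Set (G ⧸ Subgroup.center G))) : Set.range (fun x : G => (Subgroup.centralizer ({x} : Set G)).index) = ({1, K.index, H.index} : Set ℕ) ∧ K.index.Coprime H.index := by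
  classical
  set Z := Subgroup.center G with hZ
  set π := QuotientGroup.mk' Z with hπ
  have hker1 : π.ker = Z := QuotientGroup.ker_mk' Z
  have hcK : (K.map π).comap π = K := Subgroup.comap_map_eq_self (hker1.le.trans hZK)
  have hcH : (H.map π).comap π = H := Subgroup.comap_map_eq_self (hker1.le.trans hZH)
  have hKbar : CfsgLib.Frob.kernel hFrob = K.map π :=
    SetLike.coe_injective ((CfsgLib.Frob.coe_kernel hFrob).trans hker)
  have hmemK : ∀ x, π x ∈ K.map π ↔ x ∈ K := fun x => by rw [← Subgroup.mem_comap, hcK]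
  have hmemH : ∀ x, π x ∈ H.map π ↔ x ∈ H := fun x => by rw [← Subgroup.mem_comap, hcH]
  have hmemZ : ∀ x, π x = 1 ↔ x ∈ Z := fun x => by rw [← MonoidHom.mem_ker, hker1]
  have himg : ∀ x y : G, y ∈ Subgroup.centralizer ({x} : Set G) →
      π y ∈ Subgroup.centralizer ({π x} : Set (G ⧸ Z)) := fun x y hy => by
    rw [Subgroup.mem_centralizer_singleton_iff] at hy ⊢
    rw [← map_mul, ← map_mul, hy]
  have hab : ∀ (S : Subgroup G), IsMulCommutative S → ∀ x ∈ S, S ≤ Subgroup.centralizer ({x} : Set G) :=
    fun S hS x hx y hy => Subgroup.mem_centralizer_singleton_iff.mpr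
      (congrArg Subtype.val (hS.is_comm.comm (⟨y, hy⟩ : S) ⟨x, hx⟩))
  have hCK : ∀ x ∈ K, x ∉ Z → Subgroup.centralizer ({x} : Set G) = K := fun x hx hxZ =>
    le_antisymm (fun y hy => (hmemK y).mp (hKbar ▸ CfsgLib.Frob.centralizer_le_kernel hFrob
      (hKbar.symm ▸ (hmemK x).mpr hx) (fun e => hxZ ((hmemZ x).mp e)) (himg x y hy)))
      (hab K hK x hx)
  have hCH : ∀ x ∈ H, x ∉ Z → Subgroup.centralizer ({x} : Set G) = H := fun x hx hxZ =>
    le_antisymm (fun y hy => (hmemH y).mp (CfsgLib.Frob.centralizer_le hFrob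
      ((hmemH x).mpr hx) (fun e => hxZ ((hmemZ x).mp e)) (himg x y hy)))
      (hab H hH x hx)
  have hindK : (K.map π).index = K.index :=
    Subgroup.index_map_eq _ (QuotientGroup.mk'_surjective Z) (hker1.le.trans hZK)
  have hindH : (H.map π).index = H.index :=
    Subgroup.index_map_eq _ (QuotientGroup.mk'_surjective Z) (hker1.le.trans hZH)
  refine ⟨?_, ?_⟩
  · ext m
    simp only [Set.mem_range, Set.mem_insert_iff, Set.mem_singleton_iff]
    constructor
    · rintro ⟨x, rfl⟩
      by_cases hxZ : x ∈ Z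
      · left
        rw [Subgroup.index_eq_one, Subgroup.eq_top_iff']
        exact fun y => Subgroup.mem_centralizer_singleton_iff.mpr (Subgroup.mem_center_iff.mp hxZ y)
      by_cases hxK : x ∈ K
      · exact Or.inr (Or.inl (by rw [hCK x hxK hxZ]))
      obtain ⟨-, q, hq⟩ := CfsgLib.Frob.not_mem_kernel_iff.mp
        (fun h => hxK ((hmemK x).mp (hKbar ▸ (CfsgLib.Frob.mem_kernel hFrob).mpr h)))
      obtain ⟨g, rfl⟩ := QuotientGroup.mk'_surjective Z q
      rw [← map_inv, ← map_mul, ← map_mul, hmemH] at hq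
      refine Or.inr (Or.inr ?_)
      have hne : g⁻¹ * x * g ∉ Z := fun h => hxZ (by
        have h2 := (inferInstance : Z.Normal).conj_mem _ h g
        simpa [mul_assoc] using h2)
      rw [← hCH _ hq hne, ← Subgroup.index_map_of_bijective (f := (MulAut.conj g⁻¹).toMonoidHom)
        (MulAut.conj g⁻¹).bijective (Subgroup.centralizer ({x} : Set G))]
      congr 1
      ext y
      simp only [Subgroup.mem_map, MulEquiv.coe_toMonoidHom, MulAut.conj_apply, inv_inv,
        Subgroup.mem_centralizer_singleton_iff]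
      constructor
      · rintro ⟨a, ha, rfl⟩
        calc g⁻¹ * a * g * (g⁻¹ * x * g) = g⁻¹ * (a * x) * g := by group
          _ = g⁻¹ * (x * a) * g := by rw [ha]
          _ = _ := by group
      · intro hy
        refine ⟨g * y * g⁻¹, ?_, by group⟩
        calc g * y * g⁻¹ * x = g * (y * (g⁻¹ * x * g)) * g⁻¹ := by group
          _ = g * ((g⁻¹ * x * g) * y) * g⁻¹ := by rw [hy]
          _ = _ := by group
    · rintro (rfl | rfl | rfl)
      · exact ⟨1, by rw [Subgroup.index_eq_one, Subgroup.eq_top_iff']; intro y; simp [Subgroup.mem_centralizer_singleton_iff]⟩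
      · obtain ⟨⟨q, hq⟩, hq1⟩ := Subgroup.ne_bot_iff_exists_ne_one.mp (CfsgLib.Frob.kernel_ne_bot hFrob)
        obtain ⟨x, hx, rfl⟩ : q ∈ K.map π := hKbar ▸ hq
        exact ⟨x, by rw [hCK x hx (fun h => hq1 (Subtype.ext ((hmemZ x).mpr h)))]⟩
      · obtain ⟨q, hq, hq1⟩ := CfsgLib.Frob.exists_ne_one hFrob
        obtain ⟨x, hx, rfl⟩ := hq
        exact ⟨x, by rw [hCH x hx (fun h => hq1 ((hmemZ x).mpr h))]⟩
  · rw [← hindK, ← hindH, ← hKbar, CfsgLib.Frob.index_kernel hFrob]
    exact CfsgLib.Frob.coprime_card_index hFrob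

end Cfsg.Agent.S4283
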