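import Cfsg.Statements.S4291
import Cfsg.Agent.Zass.ZQuot

set_option autoImplicit false
open Cfsg

namespace Cfsg.Agent.S4291

/-- Let G be a finite group that occurs as a Frobenius complement. Then G has exactly one normal subgroup N such that every Sylow subgroup of N is cyclic and the quotient of G by N is trivial or isomorphic to one of the following five groups: the Klein four-group, the alternating group of degree 4, the symmetric group of degree 4, the alternating group of degree 5, the symmetric group of degree 5. (The quotient is described by a surjective homomorphism with kernel N; the Klein four-group is written as the dihedral group of order 4.) -/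
theorem result {G : Type*} [Group G] [Finite G]
    (hFC : (∃ (L : Type) (_ : Group L) (_ : Finite L) (H : Subgroup L), Cfsg.IsFrobeniusComplement H ∧ Nonempty (G ≃* H))) :
    ∃! N : Subgroup G, N.Normal ∧ (∀ (p : ℕ) [Fact p.Prime] (P : Sylow p N), IsCyclic P) ∧
      (N = ⊤ ∨
        (∃ f : G →* DihedralGroup 2, Function.Surjective f ∧ f.ker = N) ∨
        (∃ f : G →* alternatingGroup (Fin 4), Function.Surjective f ∧ f.ker = N) ∨
        (∃ f : G →* Equiv.Perm (Fin 4), Function.Surjective f ∧ f.ker = N) ∨
        (∃ f : G →* alternatingGroup (Fin 5), Function.Surjective f ∧ f.ker = N) ∨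
        (∃ f : G →* Equiv.Perm (Fin 5), Function.Surjective f ∧ f.ker = N)) := by
  have hlat := CfsgLib.Frob.latFpf_of_hasFC hFC
  obtain ⟨N, hNn, hNZ, hNq⟩ : ∃ N : Subgroup G, N.Normal ∧ IsZGroup N ∧ (N = ⊤ ∨ CfsgLib.Zass.SmallQ N) := by
    by_cases hsol : Group.IsSolvable G
    · obtain ⟨N, h1, h2, h3⟩ := CfsgLib.Zass.exists_solvQ hlat
      refine ⟨N, h1, h2, h3.imp id ?_⟩
      rintro (h | h | h)
      · exact Or.inl h
      · exact Or.inr (Or.inl h)
      · exact Or.inr (Or.inr (Or.inl h))
    · obtain ⟨N, h1, h2, h3⟩ := CfsgLib.Zass.exists_perfQ hlat hsol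
      exact ⟨N, h1, h2, Or.inr h3⟩
  haveI := hNn
  haveI := hNZ
  refine ⟨N, ⟨hNn, fun p _ P => hNZ.isZGroup p Fact.out P, hNq⟩, ?_⟩
  rintro N' ⟨hn', hZ', hq'⟩
  haveI := hn'
  haveI : IsZGroup N' := ⟨fun p hp P => by haveI := Fact.mk hp; exact hZ' p P⟩
  exact CfsgLib.Zass.smallQ_unique hlat hq' hNq

end Cfsg.Agent.S4291
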