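import Cfsg.Statements.S4293
import Cfsg.Agent.Frob.Lattice

set_option autoImplicit false
open Cfsg

namespace Cfsg.Agent.S4293

/-- Left multiplication by a finite subgroup of units on the span of that subgroup. -/
theorem exists_span_rep {D : Type*} [DivisionRing D] (k : Type*) [CommRing k] [Algebra k D]
    (H : Subgroup Dˣ) [Finite H] :
    ∃ (W : Submodule k D) (_ : Module.Finite k W) (_ : Nontrivial W) (ρ : Representation k H W),
      ∀ h : H, h ≠ 1 → ∀ w, ρ h w = w → w = 0 := by
  let v : H → D := fun h => ((h : Dˣ) : D)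
  let W : Submodule k D := Submodule.span k (Set.range v)
  have hst : ∀ h : H, ∀ x ∈ W, v h * x ∈ W := by
    intro h x hx
    induction hx using Submodule.span_induction with
    | zero => rw [mul_zero]; exact W.zero_mem
    | add a b _ _ ha hb => rw [mul_add]; exact W.add_mem ha hb
    | smul r a _ ha => rw [mul_smul_comm]; exact W.smul_mem r ha
    | mem a ha =>
      obtain ⟨g, rfl⟩ := ha
      exact Submodule.subset_span ⟨h * g, Units.val_mul _ _⟩
  have h1 : (1 : D) ∈ W := Submodule.subset_span ⟨1, Units.val_one⟩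
  refine ⟨W, Module.Finite.iff_fg.mpr (Submodule.fg_span (Set.finite_range v)),
    ⟨⟨⟨1, h1⟩, 0, fun e => one_ne_zero (congrArg Subtype.val e)⟩⟩,
    { toFun := fun h => (LinearMap.mulLeft k (v h)).restrict (fun x hx => hst h x hx)
      map_one' := LinearMap.ext fun x => Subtype.ext (one_mul (x : D))
      map_mul' := fun a b => LinearMap.ext fun x => Subtype.ext (mul_assoc (v a) (v b) (x : D)) },
    fun h hh w hw => ?_⟩
  by_contra hw0
  have e : v h * (w : D) = (w : D) := congrArg Subtype.val hw
  exact hh (Subtype.ext (Units.ext ((mul_eq_right₀ (fun e0 => hw0 (Subtype.ext e0))).mp e)))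

/-- A nontrivial finite subgroup of the multiplicative group of a division ring occurs as a Frobenius complement of some finite Frobenius group. -/
theorem result {D : Type*} [DivisionRing D] (H : Subgroup Dˣ) [Finite H] (hH : H ≠ ⊥) :
    ∃ (L : Type) (_ : Group L) (_ : Finite L) (C : Subgroup L), Cfsg.IsFrobeniusComplement C ∧ Nonempty (H ≃* C) := by
  haveI : Nontrivial H := (Subgroup.nontrivial_iff_ne_bot H).mpr hH
  obtain ⟨c, hc⟩ := CharP.exists D
  rcases eq_or_ne c 0 with rfl | hc0
  · haveI : CharZero D := CharP.charP_to_charZero D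
    obtain ⟨W, i1, i2, ρ, hρ⟩ := exists_span_rep ℤ H
    haveI : Module.IsTorsionFree ℤ W := Module.isTorsionFree_iff_smul_eq_zero.mpr fun r x hx => by
      have h := congrArg Subtype.val hx
      rw [Submodule.coe_smul, Submodule.coe_zero, zsmul_eq_mul, mul_eq_zero, Int.cast_eq_zero] at h
      exact h.imp id (fun e => Subtype.ext e)
    haveI : Module.Free ℤ W := Module.free_of_finite_type_torsion_free'
    exact (CfsgLib.Frob.latFpf_of_lattice ρ hρ).hasFC
  · haveI : Fact c.Prime := ⟨(CharP.char_is_prime_or_zero D c).resolve_right hc0⟩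
    letI : Algebra (ZMod c) D := ZMod.algebra D c
    obtain ⟨W, i1, i2, ρ, hρ⟩ := exists_span_rep (ZMod c) H
    haveI : Finite W := Module.finite_of_finite (ZMod c)
    obtain ⟨L, j1, j2, C, hC, he, -⟩ := CfsgLib.Frob.hasFC_of_rep ρ hρ
    exact ⟨L, j1, j2, C, hC, he⟩

end Cfsg.Agent.S4293
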