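import Cfsg.Statements.S4294
import Cfsg.Agent.DivSL25.Main

set_option autoImplicit false
open Cfsg

namespace Cfsg.Agent.S4294

/-- A finite non-solvable subgroup of the multiplicative group of a division ring is isomorphic to the binary icosahedral group SL(2,5). -/
theorem result {D : Type*} [DivisionRing D] (H : Subgroup Dˣ) [Finite H] (hH : ¬ Group.IsSolvable H) :
    Nonempty (H ≃* Matrix.SpecialLinearGroup (Fin 2) (ZMod 5)) := by
  exact CfsgLib.DivSL25.iso_SL25_of_nonsolvable H hH

end Cfsg.Agent.S4294
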