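import Cfsg.Statements.S4296
import Cfsg.Agent.Frob.Structure

set_option autoImplicit false
open Cfsg

namespace Cfsg.Agent.S4296

/-- The determinant of negation. -/
theorem det_eq_neg_one_pow {k V : Type*} [Field k] [AddCommGroup V] [Module k V]
    (g : V →ₗ[k] V) (hg : ∀ v, g v = -v) : LinearMap.det g = (-1 : k) ^ Module.finrank k V := by
  have e : g = (-1 : k) • (LinearMap.id : V →ₗ[k] V) := LinearMap.ext fun v => by simp [hg]
  rw [e, LinearMap.det_smul, LinearMap.det_id, mul_one]

/-- A module over a prime field of odd order with a dihedral pair whose rotation has `-1` among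
its powers has even dimension. -/
theorem even_finrank_of_neg {q : ℕ} [Fact q.Prime] (hq2 : q ≠ 2) {G V : Type*} [Group G]
    [AddCommGroup V] [Module (ZMod q) V] (ρ : Representation (ZMod q) G V) (α β : G) (m : ℕ)
    (hrel : β * α * β⁻¹ = α⁻¹) (hz : ∀ v, ρ (α ^ (2 * m)) v = -v) :
    Even (Module.finrank (ZMod q) V) := by
  let D : G →* ZMod q :=
    { toFun := fun φ => LinearMap.det (ρ φ)
      map_one' := by rw [map_one, map_one]
      map_mul' := fun x y => by rw [map_mul, map_mul] }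
  have h1 : D α⁻¹ = D α := by
    rw [← hrel, map_mul, map_mul, mul_right_comm, ← map_mul D β, mul_inv_cancel, map_one, one_mul]
  have hD2 : D α * D α = 1 := by
    nth_rewrite 1 [← h1]
    rw [← map_mul, inv_mul_cancel, map_one]
  have h2 : LinearMap.det (ρ (α ^ (2 * m))) = 1 := by
    show D (α ^ (2 * m)) = 1
    rw [map_pow, pow_mul, sq, hD2, one_pow]
  rw [det_eq_neg_one_pow _ hz] at h2
  haveI : Fact (2 < q) := ⟨lt_of_le_of_ne (Fact.out : q.Prime).two_le hq2.symm⟩
  exact (neg_one_pow_eq_one_iff_even (ZMod.neg_one_ne_one (n := q))).mp h2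

/-- The case of an elementary abelian group. -/
theorem isSquare_card_elementary {q : ℕ} [Fact q.Prime] (hq2 : q ≠ 2) (V : Type*) [CommGroup V]
    [Finite V] (hexp : ∀ v : V, v ^ q = 1) (α β : MulAut V) (m : ℕ)
    (hrel : β * α * β⁻¹ = α⁻¹) (hz : ∀ v, (α ^ (2 * m)) v = v⁻¹) : IsSquare (Nat.card V) := by
  haveI : Finite (Additive V) := Finite.of_equiv V Additive.ofMul
  have hexp' : ∀ x : Additive V, q • x = 0 := fun x => Additive.toMul.injective (hexp x.toMul)
  obtain ⟨_instMod⟩ : Nonempty (Module (ZMod q) (Additive V)) := ⟨AddCommGroup.zmodModule hexp'⟩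
  obtain ⟨e, he⟩ := even_finrank_of_neg hq2
    (CfsgLib.Frob.zmodRep (q := q) (fun φ : MulAut V => MonoidHom.toAdditive φ.toMonoidHom)
      (fun _ => rfl) (fun _ _ _ => rfl)) α β m hrel
    (fun v => Additive.toMul.injective (hz v.toMul))
  refine ⟨q ^ e, ?_⟩
  rw [← Nat.card_congr (Additive.ofMul (α := V)).symm, Module.natCard_eq_pow_finrank (K := ZMod q),
    Nat.card_zmod, he, pow_add]

/-- Restriction of automorphisms to an invariant subgroup. -/
def resAut {A : Type*} [Group A] (C : Subgroup A) (hC : ∀ (φ : MulAut A), ∀ x ∈ C, φ x ∈ C) :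
    MulAut A →* MulAut C where
  toFun φ :=
    { toFun := fun x => ⟨φ x, hC φ x x.2⟩
      invFun := fun x => ⟨φ.symm x, hC φ.symm x x.2⟩
      left_inv := fun x => Subtype.ext (φ.symm_apply_apply x)
      right_inv := fun x => Subtype.ext (φ.apply_symm_apply x)
      map_mul' := fun x y => Subtype.ext (map_mul φ (x : A) (y : A)) }
  map_one' := MulEquiv.ext fun _ => Subtype.ext rfl
  map_mul' _ _ := MulEquiv.ext fun _ => Subtype.ext rfl

universe u in
/-- An abelian group of odd order on which a power of a rotation of a dihedral pair of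
automorphisms is inversion has square order. -/
theorem isSquare_card_of_inversion : ∀ (N : ℕ) (A : Type u) [CommGroup A] [Finite A] (α β : MulAut A) (m : ℕ),
    Nat.card A = N → β * α * β⁻¹ = α⁻¹ → (∀ v, (α ^ (2 * m)) v = v⁻¹) → Odd N → IsSquare N := by
  intro N
  induction N using Nat.strong_induction_on with
  | _ N ih => ?_
  intro A _ _ α β m hN hrel hz hodd
  rcases eq_or_ne N 1 with rfl | hN1
  · exact IsSquare.one
  obtain ⟨q, hq, hqN⟩ := Nat.exists_prime_and_dvd hN1
  haveI : Fact q.Prime := ⟨hq⟩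
  have hq2 : q ≠ 2 := by
    rintro rfl
    exact (Nat.not_even_iff_odd.mpr hodd) (even_iff_two_dvd.mpr hqN)
  set Ω : Subgroup A := (powMonoidHom q).ker with hΩ
  set R : Subgroup A := (powMonoidHom q).range with hR
  have hcard : Nat.card A = Nat.card Ω * Nat.card R := by
    rw [← Ω.card_mul_index, hΩ, Subgroup.index_ker, hR]
  have hmemΩ : ∀ x, x ∈ Ω ↔ x ^ q = 1 := fun x => Iff.rfl
  have hΩc : ∀ (φ : MulAut A), ∀ x ∈ Ω, φ x ∈ Ω := fun φ x hx => by
    rw [hmemΩ] at hx ⊢
    rw [← map_pow, hx, map_one]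
  have hRc : ∀ (φ : MulAut A), ∀ x ∈ R, φ x ∈ R := by
    rintro φ _ ⟨y, rfl⟩
    exact ⟨φ y, by simp⟩
  have hΩ1 : 1 < Nat.card Ω := by
    obtain ⟨x, hx⟩ := exists_prime_orderOf_dvd_card' q (hN ▸ hqN)
    have hxΩ : x ∈ Ω := by
      rw [hmemΩ, ← hx, pow_orderOf_eq_one]
    haveI : Nontrivial Ω := ⟨⟨⟨x, hxΩ⟩, 1, fun e => hq.one_lt.ne' (by
      rw [← hx, show x = 1 from congrArg Subtype.val e, orderOf_one])⟩⟩
    exact Finite.one_lt_card
  have hRlt : Nat.card R < N := by
    rw [← hN, hcard]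
    exact (lt_mul_iff_one_lt_left Nat.card_pos).mpr hΩ1
  have key : ∀ (C : Subgroup A) (hC : ∀ (φ : MulAut A), ∀ x ∈ C, φ x ∈ C),
      resAut C hC β * resAut C hC α * (resAut C hC β)⁻¹ = (resAut C hC α)⁻¹ ∧
      ∀ v, (resAut C hC α ^ (2 * m)) v = v⁻¹ := fun C hC =>
    ⟨by rw [← map_inv (resAut C hC) β, ← map_mul, ← map_mul, hrel, map_inv],
      fun v => by rw [← map_pow]; exact Subtype.ext (hz v)⟩
  have hr : IsSquare (Nat.card R) := ih _ hRlt R _ _ m rfl (key R hRc).1 (key R hRc).2
    (hodd.of_dvd_nat (hN ▸ Subgroup.card_subgroup_dvd_card R))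
  have hw : IsSquare (Nat.card Ω) := isSquare_card_elementary hq2 Ω
    (fun v => Subtype.ext ((hmemΩ _).mp v.2)) _ _ m (key Ω hΩc).1 (key Ω hΩc).2
  rw [← hN, hcard]
  exact hw.mul hr

/-- Let H be a Frobenius complement in a finite group, and suppose some Sylow subgroup of H is not cyclic. Then the number of elements of the Frobenius kernel (the identity together with the elements lying in no conjugate of H) is an odd perfect square. -/
theorem result {L : Type*} [Group L] [Finite L] (H : Subgroup L) (hF : Cfsg.IsFrobeniusComplement H)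
    (hZ : ∃ (p : ℕ) (_ : Fact p.Prime) (P : Sylow p H), ¬ IsCyclic P) :
    Odd (Nat.card (Cfsg.frobeniusKernel H)) ∧ IsSquare (Nat.card (Cfsg.frobeniusKernel H)) := by
  obtain ⟨p, hp, P, hP⟩ := hZ
  obtain hc | ⟨rfl, k, hk, ⟨e⟩⟩ :=
    (CfsgLib.Frob.latFpf_of_complement hF).sylow_cyclic_or_quaternion P.isPGroup'
  · exact absurd hc hP
  set a : H := ((e.symm (QuaternionGroup.a 1) : P) : H) with ha
  set x : H := ((e.symm (QuaternionGroup.xa 0) : P) : H) with hx
  have hrel : x * a * x⁻¹ = a⁻¹ := by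
    have h0 : (QuaternionGroup.xa 0 : QuaternionGroup (2 ^ k)) * .a 1 * (.xa 0)⁻¹ = (.a 1)⁻¹ := by
      rw [mul_inv_eq_iff_eq_mul, QuaternionGroup.xa_mul_a]
      show _ = QuaternionGroup.a (-1) * _
      rw [QuaternionGroup.a_mul_xa]
      simp
    have h1 := congrArg ((P : Subgroup H).subtype.comp e.symm.toMonoidHom) h0
    rw [map_mul, map_mul, map_inv, map_inv] at h1
    exact h1
  obtain ⟨j, rfl⟩ : ∃ j, k = j + 1 := ⟨k - 1, by omega⟩
  have hinj : Function.Injective (fun w => ((e.symm w : P) : H)) :=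
    Subtype.val_injective.comp e.symm.injective
  have hord : orderOf a = 2 * 2 ^ (j + 1) := by
    rw [← QuaternionGroup.orderOf_a_one (n := 2 ^ (j + 1))]
    exact orderOf_injective ((P : Subgroup H).subtype.comp e.symm.toMonoidHom) hinj _
  set z : H := a ^ (2 * 2 ^ j) with hz
  have hzn : 2 * 2 ^ j = 2 ^ (j + 1) := by rw [pow_succ']
  have hz1 : z ≠ 1 := pow_ne_one_of_lt_orderOf (by positivity) (by
    rw [hord, hzn]; have := Nat.two_pow_pos (j + 1); omega)
  have hzz : z * z = 1 := by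
    rw [hz, ← pow_add, ← two_mul, hzn, ← hord, pow_orderOf_eq_one]
  haveI := CfsgLib.Frob.kernel_normal hF
  set K := CfsgLib.Frob.kernel hF with hK
  let ψ : H →* MulAut K := (MulAut.conjNormal (H := K)).comp H.subtype
  have hfpf : MonoidHom.FixedPointFree (ψ z) := by
    intro v hv
    have h1 : (z : L) * v * (z : L)⁻¹ = v := by
      have h0 := congrArg Subtype.val hv
      rwa [show ψ z = MulAut.conjNormal (z : L) from rfl, MulAut.conjNormal_apply] at h0
    have h2 : (v : L) ∈ K ⊓ Subgroup.centralizer ({(z : L)} : Set L) := by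
      exact ⟨v.2, Subgroup.mem_centralizer_singleton_iff.mpr (mul_inv_eq_iff_eq_mul.mp h1).symm⟩
    rw [CfsgLib.Frob.kernel_inf_centralizer hF z.2 (fun e => hz1 (Subtype.ext e))] at h2
    exact Subtype.ext (Subgroup.mem_bot.mp h2)
  have hinv : Function.Involutive (ψ z) := fun v => by
    rw [← MulAut.mul_apply, ← map_mul, hzz, map_one, MulAut.one_apply]
  have hcardK : Nat.card (Cfsg.frobeniusKernel H) = Nat.card K := by
    rw [CfsgLib.Frob.card_kernel hF, CfsgLib.Frob.card_kernel_subgroup]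
  have hodd : Odd (Nat.card K) := hfpf.odd_card_of_involutive hinv
  rw [hcardK]
  refine ⟨hodd, ?_⟩
  letI c0 : CommGroup K := hfpf.commGroupOfInvolutive hinv
  refine isSquare_card_of_inversion _ K (ψ a) (ψ x) (2 ^ j) rfl ?_ (fun v => ?_) hodd
  · rw [← map_inv ψ x, ← map_mul, ← map_mul, hrel, map_inv]
  · rw [← map_pow]
    exact congrFun (hfpf.coe_eq_inv_of_involutive hinv) v

end Cfsg.Agent.S4296
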