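import Cfsg.Statements.S4297
import Cfsg.Agent.Frob.Semidirect

set_option autoImplicit false
open Cfsg

namespace Cfsg.Agent.S4297

/-- The homomorphism out of a quaternion group given by the images of its two generators. -/
theorem exists_quaternion_hom {M : Type*} [Group M] (n : ℕ) (A X : M)
    (hA : A ^ (2 * n) = 1) (hX : X * X = A ^ n) (hXA : X * A * X⁻¹ = A⁻¹) :
    ∃ f : QuaternionGroup n →* M, (∀ i : ℤ, f (.a (i : ZMod (2 * n))) = A ^ i) ∧
      (∀ i : ℤ, f (.xa (i : ZMod (2 * n))) = X * A ^ i) := by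
  let t : ZMod (2 * n) → M := fun i => A ^ (i.cast : ℤ)
  have ht : ∀ i : ℤ, t (i : ZMod (2 * n)) = A ^ i := by
    intro i
    show A ^ ((i : ZMod (2 * n)).cast : ℤ) = A ^ i
    rw [← mul_inv_eq_one, ← zpow_sub, ← orderOf_dvd_iff_zpow_eq_one]
    refine (Int.natCast_dvd_natCast.mpr (orderOf_dvd_of_pow_eq_one hA)).trans ?_
    rw [← ZMod.intCast_zmod_eq_zero_iff_dvd, Int.cast_sub, ZMod.intCast_zmod_cast, sub_self]
  have hcomm : ∀ i : ℤ, A ^ i * X = X * A ^ (-i) := by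
    intro i
    have h1 : (X * A * X⁻¹) ^ (-i) = A ^ i := by rw [hXA, inv_zpow, zpow_neg, inv_inv]
    rw [conj_zpow] at h1
    rw [← h1]; group
  refine ⟨
    { toFun := fun q => match q with
        | .a i => t i
        | .xa i => X * t i
      map_one' := by
        show t 0 = 1
        simpa using ht 0
      map_mul' := ?_ }, fun i => ht i, fun i => congrArg (X * ·) (ht i)⟩
  rintro (i | i) (j | j) <;> obtain ⟨i, rfl⟩ := ZMod.intCast_surjective i <;>
    obtain ⟨j, rfl⟩ := ZMod.intCast_surjective j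
  · show t ((i : ZMod (2 * n)) + j) = t i * t j
    rw [← Int.cast_add, ht, ht, ht, zpow_add]
  · show X * t ((j : ZMod (2 * n)) - i) = t i * (X * t j)
    rw [← Int.cast_sub, ht, ht, ht, ← mul_assoc, hcomm, mul_assoc, ← zpow_add, neg_add_eq_sub]
  · show X * t ((i : ZMod (2 * n)) + j) = X * t i * t j
    rw [← Int.cast_add, ht, ht, ht, zpow_add, mul_assoc]
  · show t (((n : ℕ) : ZMod (2 * n)) + j - i) = X * t i * (X * t j)
    have e : ((n : ℕ) : ZMod (2 * n)) + j - i = (((n : ℤ) + j - i : ℤ) : ZMod (2 * n)) := by push_cast; rfl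
    rw [e, ht, ht, ht, ← mul_assoc, mul_assoc X, hcomm, ← mul_assoc, hX, mul_assoc, ← zpow_add,
      ← zpow_natCast, ← zpow_add]
    congr 1
    ring

/-- For every n ≥ 2 the dicyclic group of order 4n (generated by an element a of order 2n and an element x with x² = aⁿ and x a x⁻¹ = a⁻¹) occurs as a Frobenius complement of some finite Frobenius group. -/
theorem result (n : ℕ) (hn : 2 ≤ n) :
    ∃ (L : Type) (_ : Group L) (_ : Finite L) (H : Subgroup L), Cfsg.IsFrobeniusComplement H ∧ Nonempty (H ≃* QuaternionGroup n) := by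
  haveI : NeZero n := ⟨by omega⟩
  obtain ⟨p, hp, hpn, hmod⟩ := Nat.exists_prime_gt_modEq_one (k := 2 * n) (4 * n) (by omega)
  haveI : Fact p.Prime := ⟨hp⟩
  have hdvd : 2 * n ∣ p - 1 := (Nat.modEq_iff_dvd' hp.one_lt.le).mp hmod.symm
  obtain ⟨u, hu⟩ : ∃ u : (ZMod p)ˣ, orderOf u = 2 * n := by
    obtain ⟨g, hg⟩ := IsCyclic.exists_generator (α := (ZMod p)ˣ)
    refine ⟨g ^ ((p - 1) / (2 * n)), ?_⟩
    have hg' : orderOf g = p - 1 := by
      rw [orderOf_eq_card_of_forall_mem_zpowers hg, Nat.card_eq_fintype_card, ZMod.card_units]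
    have hne : (p - 1) / (2 * n) ≠ 0 := (Nat.div_pos (Nat.le_of_dvd (by have := hp.two_le; omega) hdvd) (by omega)).ne'
    rw [orderOf_pow' g hne, hg', Nat.gcd_eq_right (Nat.div_dvd_of_dvd hdvd),
      Nat.div_div_self hdvd (by have := hp.two_le; omega)]
  let A : Matrix.SpecialLinearGroup (Fin 2) (ZMod p) :=
    ⟨!![(u : ZMod p), 0; 0, ((u⁻¹ : (ZMod p)ˣ) : ZMod p)], by simp [Matrix.det_fin_two, -ZMod.inv_coe_unit]⟩
  let X : Matrix.SpecialLinearGroup (Fin 2) (ZMod p) := ⟨!![0, 1; -1, 0], by simp [Matrix.det_fin_two, -ZMod.inv_coe_unit]⟩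
  let D : (ZMod p)ˣ →* Matrix.SpecialLinearGroup (Fin 2) (ZMod p) :=
    { toFun := fun w => ⟨!![(w : ZMod p), 0; 0, ((w⁻¹ : (ZMod p)ˣ) : ZMod p)], by simp [Matrix.det_fin_two, -ZMod.inv_coe_unit]⟩
      map_one' := by ext i j; fin_cases i <;> fin_cases j <;> simp [-ZMod.inv_coe_unit]
      map_mul' := fun a b => by
        apply Subtype.ext
        show _ = (!![(a : ZMod p), 0; 0, ((a⁻¹ : (ZMod p)ˣ) : ZMod p)] *
          !![(b : ZMod p), 0; 0, ((b⁻¹ : (ZMod p)ˣ) : ZMod p)] : Matrix (Fin 2) (Fin 2) (ZMod p))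
        ext i j; fin_cases i <;> fin_cases j <;> simp [mul_comm, -ZMod.inv_coe_unit] }
  have hD : ∀ i : ℤ, A ^ i = D (u ^ i) := fun i => (map_zpow D u i).symm
  have hn2 : u ^ n = -1 := by
    have h1 : u ^ n ≠ 1 := pow_ne_one_of_lt_orderOf (by omega) (by omega)
    have h2 : ((u ^ n : (ZMod p)ˣ) : ZMod p) ^ 2 = 1 := by
      rw [← Units.val_pow_eq_pow_val, ← pow_mul, mul_comm, ← hu, pow_orderOf_eq_one, Units.val_one]
    rcases sq_eq_one_iff.mp h2 with h | h
    · exact absurd (Units.ext h) h1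
    · exact Units.ext (by simpa using h)
  obtain ⟨f, hfa, hfx⟩ := exists_quaternion_hom n A X
    (by rw [← zpow_natCast, hD, zpow_natCast, ← hu, pow_orderOf_eq_one, map_one])
    (by
      rw [← zpow_natCast, hD, zpow_natCast, hn2]
      apply Subtype.ext
      show (!![0, 1; -1, 0] * !![0, 1; -1, 0] : Matrix (Fin 2) (Fin 2) (ZMod p)) =
        !![((-1 : (ZMod p)ˣ) : ZMod p), 0; 0, (((-1 : (ZMod p)ˣ)⁻¹ : (ZMod p)ˣ) : ZMod p)]
      ext i j; fin_cases i <;> fin_cases j <;> simp [Matrix.mul_apply, Fin.sum_univ_two, -ZMod.inv_coe_unit])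
    (by
      rw [mul_inv_eq_iff_eq_mul, ← zpow_neg_one A, hD, zpow_neg_one]
      apply Subtype.ext
      show (!![0, 1; -1, 0] * !![(u : ZMod p), 0; 0, ((u⁻¹ : (ZMod p)ˣ) : ZMod p)] : Matrix (Fin 2) (Fin 2) (ZMod p)) =
        !![((u⁻¹ : (ZMod p)ˣ) : ZMod p), 0; 0, (((u⁻¹)⁻¹ : (ZMod p)ˣ) : ZMod p)] * !![0, 1; -1, 0]
      ext i j; fin_cases i <;> fin_cases j <;> simp [Matrix.mul_apply, Fin.sum_univ_two, -ZMod.inv_coe_unit])
  have hf : Function.Injective f := by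
    rw [injective_iff_map_eq_one]
    rintro (i | i) hi <;> obtain ⟨i, rfl⟩ := ZMod.intCast_surjective i
    · rw [hfa, hD] at hi
      have h1 : ((u ^ i : (ZMod p)ˣ) : ZMod p) = 1 :=
        congrFun (congrFun (congrArg Subtype.val hi) 0) 0
      have h2 : u ^ i = 1 := Units.ext h1
      rw [← orderOf_dvd_iff_zpow_eq_one, hu, ← ZMod.intCast_zmod_eq_zero_iff_dvd] at h2
      rw [h2]; rfl
    · rw [hfx, hD] at hi
      have h1 : ((!![0, 1; -1, 0] : Matrix (Fin 2) (Fin 2) (ZMod p)) *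
          !![((u ^ i : (ZMod p)ˣ) : ZMod p), 0; 0, (((u ^ i)⁻¹ : (ZMod p)ˣ) : ZMod p)]) 0 0 = 1 :=
        congrFun (congrFun (congrArg Subtype.val hi) 0) 0
      simp [X, D, Matrix.mul_apply, Fin.sum_univ_two, -ZMod.inv_coe_unit] at h1
  have hcard : Nat.card (QuaternionGroup n) = 4 * n := by
    rw [Nat.card_eq_fintype_card, QuaternionGroup.card]
  haveI : Nontrivial (QuaternionGroup n) := by
    rw [← Finite.one_lt_card_iff_nontrivial, hcard]; omega
  obtain ⟨L, i1, i2, C, hC, ⟨e⟩⟩ := CfsgLib.Frob.hasFC_of_SL2 f hf (fun q h0 => by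
    have h1 : p ∣ orderOf q := (ZMod.natCast_eq_zero_iff _ _).mp h0
    have h2 := Nat.le_of_dvd (by omega) (h1.trans (hcard ▸ orderOf_dvd_natCard q))
    omega)
  exact ⟨L, i1, i2, C, hC, ⟨e.symm⟩⟩

end Cfsg.Agent.S4297
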