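import Cfsg.Statements.S4295
import Cfsg.Agent.S4296
import Cfsg.Agent.S4297

set_option autoImplicit false
open Cfsg

namespace Cfsg.Agent.S4295

/-- For every odd `k` there is an abelian group of order `k²` with an action of the quaternion
group of order 8 in which the central involution is inversion. -/
theorem exists_module (k : ℕ) (hk : Odd k) :
    ∃ (V : Type) (_ : CommGroup V) (_ : Finite V) (f : QuaternionGroup 2 →* MulAut V),
      Nat.card V = k * k ∧ ∀ v : V, f (.a 2) v = v⁻¹ := by
  induction k using induction_on_primes with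
  | zero => exact absurd hk (by decide)
  | one =>
    exact ⟨Unit, inferInstance, inferInstance, 1, by simp, fun v => rfl⟩
  | prime_mul p k hp ih =>
    rw [Nat.odd_mul] at hk
    obtain ⟨V, i1, i2, f, hcard, hf⟩ := ih hk.2
    haveI : Fact p.Prime := ⟨hp⟩
    obtain ⟨a, b, hab⟩ := ZMod.sq_add_sq p (-1)
    let A : Matrix.SpecialLinearGroup (Fin 2) (ZMod p) := ⟨!![0, 1; -1, 0], by simp [Matrix.det_fin_two]⟩
    let X : Matrix.SpecialLinearGroup (Fin 2) (ZMod p) := ⟨!![a, b; b, -a], by
      rw [Matrix.det_fin_two_of]; linear_combination -hab⟩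
    have hA2 : (A ^ 2).1 = -1 := by
      rw [Matrix.SpecialLinearGroup.coe_pow, sq]
      ext i j
      fin_cases i <;> fin_cases j <;> simp [A, Matrix.mul_apply, Fin.sum_univ_two]
    obtain ⟨g, hga, -⟩ := Cfsg.Agent.S4297.exists_quaternion_hom 2 A X
      (Subtype.ext (by
        rw [pow_mul, Matrix.SpecialLinearGroup.coe_pow, hA2]
        simp))
      (Subtype.ext (by
        rw [hA2, Matrix.SpecialLinearGroup.coe_mul]
        show !![a, b; b, -a] * !![a, b; b, -a] = (-1 : Matrix (Fin 2) (Fin 2) (ZMod p))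
        ext i j
        fin_cases i <;> fin_cases j <;> simp [Matrix.mul_apply, Fin.sum_univ_two] <;>
          first | ring1 | linear_combination hab))
      (by
        rw [mul_inv_eq_iff_eq_mul]
        apply Subtype.ext
        rw [Matrix.SpecialLinearGroup.coe_mul, Matrix.SpecialLinearGroup.coe_mul,
          Matrix.SpecialLinearGroup.coe_inv]
        show !![a, b; b, -a] * !![0, 1; -1, 0] = (!![0, 1; -1, 0] : Matrix (Fin 2) (Fin 2) (ZMod p)).adjugate * !![a, b; b, -a]
        rw [Matrix.adjugate_fin_two_of]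
        ext i j
        fin_cases i <;> fin_cases j <;> simp [Matrix.mul_apply, Fin.sum_univ_two])
    let ρ : Representation (ZMod p) (QuaternionGroup 2) (Fin 2 → ZMod p) :=
      { toFun := fun q => Matrix.mulVecLin (g q).1
        map_one' := by rw [map_one]; exact Matrix.mulVecLin_one
        map_mul' := fun x y => by rw [map_mul]; exact Matrix.mulVecLin_mul _ _ }
    let h : QuaternionGroup 2 →* MulAut (Multiplicative (Fin 2 → ZMod p) × V) :=
      { toFun := fun q => MulEquiv.prodCongr (CfsgLib.Frob.repAut ρ q) (f q)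
        map_one' := by rw [map_one, map_one]; rfl
        map_mul' := fun x y => by rw [map_mul, map_mul]; rfl }
    refine ⟨Multiplicative (Fin 2 → ZMod p) × V, inferInstance, ?_, h, ?_, fun v => ?_⟩
    · haveI : Finite (Multiplicative (Fin 2 → ZMod p)) := Finite.of_equiv _ Multiplicative.ofAdd
      infer_instance
    · rw [Nat.card_prod, hcard, Nat.card_congr Multiplicative.toAdd, Nat.card_fun, Nat.card_fin,
        Nat.card_zmod]
      ring
    · refine Prod.ext ?_ (hf v.2)
      show Multiplicative.ofAdd ((g (.a 2)).1.mulVec v.1.toAdd) = v.1⁻¹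
      rw [show (2 : ZMod (2 * 2)) = ((2 : ℤ) : ZMod (2 * 2)) from rfl, hga, zpow_ofNat, hA2,
        Matrix.neg_mulVec, Matrix.one_mulVec]
      rfl

theorem pow_eq_central : ∀ q : QuaternionGroup 2, q ≠ 1 → q = .a 2 ∨ q * q = .a 2 := by
  decide

theorem not_isCyclic_top : ∀ q : QuaternionGroup 2, q ^ 4 = 1 := by
  decide

/-- For a natural number m the following are equivalent: (a) some finite group has a Frobenius complement isomorphic to the quaternion group of order 8 whose Frobenius kernel (the identity together with the elements lying in no conjugate of the complement) has exactly m elements; (b) m is an odd perfect square greater than 1. -/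
theorem result (m : ℕ) :
    (∃ (L : Type) (_ : Group L) (_ : Finite L) (H : Subgroup L), Cfsg.IsFrobeniusComplement H ∧
        Nonempty (H ≃* QuaternionGroup 2) ∧ Nat.card (Cfsg.frobeniusKernel H) = m) ↔
    (Odd m ∧ IsSquare m ∧ 1 < m) := by
  constructor
  · rintro ⟨L, i1, i2, H, hH, ⟨e⟩, rfl⟩
    have h8 : Nat.card (QuaternionGroup 2) = 8 := by rw [Nat.card_eq_fintype_card, QuaternionGroup.card]
    have hP : IsPGroup 2 (⊤ : Subgroup H) :=
      IsPGroup.of_card (n := 3) (by rw [Subgroup.card_top, Nat.card_congr e.toEquiv, h8]; norm_num)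
    haveI : Fact (Nat.Prime 2) := ⟨Nat.prime_two⟩
    let P : Sylow 2 H := hP.toSylow (by rw [Subgroup.index_top]; norm_num)
    refine ⟨(Cfsg.Agent.S4296.result H hH ⟨2, ‹_›, P, ?_⟩).1,
      (Cfsg.Agent.S4296.result H hH ⟨2, ‹_›, P, ?_⟩).2, ?_⟩
    rotate_left 2
    · rw [CfsgLib.Frob.card_kernel hH]
      have h1 := CfsgLib.Frob.index_ne_one hH
      have h2 : H.index ≠ 0 := Subgroup.index_ne_zero_of_finite
      omega
    all_goals
      intro hc
      haveI : IsCyclic (⊤ : Subgroup H) := hc
      haveI : IsCyclic H := Subgroup.topEquiv.isCyclic.mp ‹_›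
      haveI : IsCyclic (QuaternionGroup 2) := e.isCyclic.mp ‹_›
      obtain ⟨q, hq⟩ := IsCyclic.exists_ofOrder_eq_natCard (α := QuaternionGroup 2)
      rw [h8] at hq
      have h4 := Nat.le_of_dvd (by norm_num) (orderOf_dvd_of_pow_eq_one (not_isCyclic_top q))
      omega
  · rintro ⟨hodd, ⟨k, rfl⟩, hlt⟩
    have hk : Odd k := (Nat.odd_mul.mp hodd).1
    obtain ⟨V, i1, i2, f, hcard, hf⟩ := exists_module k hk
    haveI : Nontrivial V := by rw [← Finite.one_lt_card_iff_nontrivial, hcard]; exact hlt
    have hco : (2 : ℕ).Coprime (Nat.card V) := by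
      rw [hcard, Nat.prime_two.coprime_iff_not_dvd, ← even_iff_two_dvd, Nat.not_even_iff_odd]
      exact hodd
    obtain ⟨L, j1, j2, C, hC, ⟨e⟩, hK⟩ := CfsgLib.Frob.hasFC_of_aut f (fun q hq v hv => by
      have hz : f (.a 2) v = v := by
        rcases pow_eq_central q hq with rfl | h
        · exact hv
        · rw [← h, map_mul, MulAut.mul_apply, hv, hv]
      rw [hf] at hz
      have h2 : v ^ 2 = 1 := by rw [sq]; exact inv_eq_iff_mul_eq_one.mp hz
      have h3 : orderOf v ∣ Nat.gcd 2 (Nat.card V) :=
        Nat.dvd_gcd (orderOf_dvd_of_pow_eq_one h2) (orderOf_dvd_natCard v)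
      rw [hco.gcd_eq_one, Nat.dvd_one, orderOf_eq_one_iff] at h3
      exact h3)
    exact ⟨L, j1, j2, C, hC, ⟨e.symm⟩, hK.trans hcard⟩

end Cfsg.Agent.S4295
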