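import Cfsg.Statements.S4299
import Cfsg.Agent.Frob.Semidirect

set_option autoImplicit false
open Cfsg

namespace Cfsg.Agent.S4299

/-- Every nontrivial finite cyclic group occurs as a Frobenius complement of some finite Frobenius group. -/
theorem result {C : Type*} [Group C] [Finite C] [IsCyclic C] [Nontrivial C] :
    ∃ (L : Type) (_ : Group L) (_ : Finite L) (H : Subgroup L), Cfsg.IsFrobeniusComplement H ∧ Nonempty (C ≃* H) := by
  haveI := Fintype.ofFinite C
  set n := Nat.card C with hn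
  have hn1 : 1 < n := Finite.one_lt_card
  obtain ⟨p, hp, hpn, hmod⟩ := Nat.exists_prime_gt_modEq_one (k := n) n (by omega)
  haveI : Fact p.Prime := ⟨hp⟩
  have hdvd : n ∣ p - 1 := (Nat.modEq_iff_dvd' hp.one_lt.le).mp hmod.symm
  obtain ⟨u, hu⟩ : ∃ u : (ZMod p)ˣ, orderOf u = n := by
    obtain ⟨g, hg⟩ := IsCyclic.exists_generator (α := (ZMod p)ˣ)
    refine ⟨g ^ ((p - 1) / n), ?_⟩
    have hg' : orderOf g = p - 1 := by
      rw [orderOf_eq_card_of_forall_mem_zpowers hg, Nat.card_eq_fintype_card, ZMod.card_units]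
    have hne : (p - 1) / n ≠ 0 := (Nat.div_pos (Nat.le_of_dvd (by have := hp.two_le; omega) hdvd) (by omega)).ne'
    rw [orderOf_pow' g hne, hg', Nat.gcd_eq_right (Nat.div_dvd_of_dvd hdvd),
      Nat.div_div_self hdvd (by have := hp.two_le; omega)]
  obtain ⟨c, hc⟩ := IsCyclic.exists_generator (α := C)
  have hc' : orderOf c = n := orderOf_eq_card_of_forall_mem_zpowers hc
  let f : C →* (ZMod p)ˣ := monoidHomOfForallMemZpowers hc (dvd_of_eq (hu.trans hc'.symm))
  have hf : Function.Injective f := by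
    rw [injective_iff_map_eq_one]
    intro x hx
    obtain ⟨k, rfl⟩ := Subgroup.mem_zpowers_iff.mp (hc x)
    rw [map_zpow, monoidHomOfForallMemZpowers_apply_gen, ← orderOf_dvd_iff_zpow_eq_one, hu] at hx
    rw [← orderOf_dvd_iff_zpow_eq_one, hc']
    exact hx
  let ρ : Representation (ZMod p) C (ZMod p) :=
    ((Algebra.lmul (ZMod p) (ZMod p)).toMonoidHom.comp (Units.coeHom _)).comp f
  obtain ⟨L, i1, i2, H, hH, he, -⟩ := CfsgLib.Frob.hasFC_of_rep ρ (fun q hq v hv => by
    by_contra hv0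
    apply hq
    apply hf
    rw [map_one]
    apply Units.ext
    have h1 : (f q : ZMod p) * v = v := hv
    exact (mul_eq_right₀ hv0).mp h1)
  exact ⟨L, i1, i2, H, hH, he⟩

end Cfsg.Agent.S4299
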