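import Cfsg.Statements.S4300

set_option autoImplicit false
open Cfsg

namespace Cfsg.Agent.S4300

/-- Let G act faithfully and primitively on a set X, and suppose the stabilizer of some point is a simple group. Then either G is simple, or G has a normal subgroup, neither trivial nor the whole group, that acts regularly on X (transitively with trivial point stabilizers). -/
theorem result {G : Type*} [Group G] {X : Type*} [MulAction G X] [FaithfulSMul G X]
    (hprim : MulAction.IsPreprimitive G X) (x : X) (hsimple : IsSimpleGroup (MulAction.stabilizer G x)) :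
    IsSimpleGroup G ∨ ∃ N : Subgroup G, N.Normal ∧ N ≠ ⊥ ∧ N ≠ ⊤ ∧
      MulAction.IsPretransitive N X ∧ ∀ y : X, MulAction.stabilizer N y = ⊥ := by
  by_cases hs : IsSimpleGroup G
  · exact Or.inl hs
  right
  have : Nontrivial G := (MulAction.stabilizer G x).subtype_injective.nontrivial
  obtain ⟨N, hN, hb, ht⟩ : ∃ N : Subgroup G, N.Normal ∧ N ≠ ⊥ ∧ N ≠ ⊤ := by
    by_contra hcon
    refine hs ⟨fun N hN => ?_⟩
    by_contra h
    rw [not_or] at h
    exact hcon ⟨N, hN, h.1, h.2⟩
  refine ⟨N, hN, hb, ht, ?_⟩
  have := hN
  have hfix : MulAction.fixedPoints N X ≠ Set.univ := by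
    intro h
    apply hb
    rw [Subgroup.eq_bot_iff_forall]
    intro n hn
    refine FaithfulSMul.eq_of_smul_eq_smul (α := X) fun y => ?_
    rw [one_smul]
    exact (Set.eq_univ_iff_forall.mp h y) ⟨n, hn⟩
  have htr : MulAction.IsPretransitive N X :=
    MulAction.IsQuasiPreprimitive.isPretransitive_of_normal (G := G) hfix
  refine ⟨htr, ?_⟩
  have hx : MulAction.stabilizer N x = ⊥ := by
    rcases hsimple.eq_bot_or_eq_top_of_normal (N.subgroupOf (MulAction.stabilizer G x))
      inferInstance with h | h
    · rw [Subgroup.eq_bot_iff_forall]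
      intro n hn
      have : (⟨(n : G), hn⟩ : MulAction.stabilizer G x) ∈ N.subgroupOf _ := n.2
      rw [h, Subgroup.mem_bot] at this
      exact Subtype.ext (congrArg (fun s : MulAction.stabilizer G x => (s : G)) this)
    · refine absurd (eq_top_iff.mpr fun g _ => ?_) ht
      obtain ⟨n, hn⟩ := MulAction.exists_smul_eq N x (g • x)
      have h2 : (n : G)⁻¹ * g ∈ N := by
        refine Subgroup.subgroupOf_eq_top.mp h ?_
        rw [MulAction.mem_stabilizer_iff, mul_smul, ← hn, Subgroup.smul_def, ← mul_smul]
        simp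
      simpa using N.mul_mem n.2 h2
  intro y
  obtain ⟨n, rfl⟩ := MulAction.exists_smul_eq N x y
  rw [MulAction.stabilizer_smul_eq_stabilizer_map_conj, hx, Subgroup.map_bot]

end Cfsg.Agent.S4300
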