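import Cfsg.Statements.S4301

set_option autoImplicit false
open Cfsg

namespace Cfsg.Agent.S4301

/-- One-point extension of a multiply transitive group. Let X be a set and G a group of permutations of Option X (the set X with one extra point ∗ = none) all of whose elements fix ∗, such that G is k-transitive on the points of X for some k ≥ 2, X having at least k points. Suppose a permutation h of Option X and an element g of G satisfy: h interchanges ∗ with a point x of X and fixes a point y of X; g interchanges x and y; (g h)³ and h² lie in G; and for every f in G fixing x, the product h f h lies in G and fixes x. Then an element of the group generated by G and h fixes ∗ exactly when it lies in G, and that group acts (k+1)-transitively on Option X. -/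
theorem result {X : Type*} (G : Subgroup (Equiv.Perm (Option X))) (hfix : ∀ f ∈ G, f none = none)
    (k : ℕ) (hk : 2 ≤ k) (hkX : Nonempty (Fin k ↪ X))
    (htrans : ∀ a b : Fin k ↪ X, ∃ f ∈ G, ∀ i, f (some (a i)) = some (b i))
    (h g : Equiv.Perm (Option X)) (hg : g ∈ G) (x y : X)
    (h1 : h none = some x) (h2 : h (some x) = none) (h3 : h (some y) = some y)
    (h4 : g (some x) = some y) (h5 : g (some y) = some x)
    (h6 : (g * h) ^ 3 ∈ G) (h7 : h ^ 2 ∈ G)
    (h8 : ∀ f ∈ G, f (some x) = some x → h * f * h ∈ G ∧ (h * f * h) (some x) = some x) :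
    (∀ f ∈ Subgroup.closure ((G : Set (Equiv.Perm (Option X))) ∪ {h}), f none = none ↔ f ∈ G) ∧
      MulAction.IsMultiplyPretransitive (Subgroup.closure ((G : Set (Equiv.Perm (Option X))) ∪ {h})) (Option X) (k + 1) := by
  classical
  have hyx : y ≠ x := fun e => by rw [e, h2] at h3; exact Option.some_ne_none x h3.symm
  obtain ⟨e0⟩ := hkX
  have hext : ∀ u v : X, u ≠ v → ∃ e : Fin k ↪ X, e ⟨0, by omega⟩ = u ∧ e ⟨1, by omega⟩ = v := by
    intro u v huv
    let e1 : Fin k ↪ X := e0.trans (Equiv.swap (e0 ⟨0, by omega⟩) u).toEmbedding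
    have h10 : e1 ⟨0, by omega⟩ = u := by simp [e1]
    have hne : e1 ⟨1, by omega⟩ ≠ u := by
      rw [← h10, Ne, e1.injective.eq_iff]
      simp
    refine ⟨e1.trans (Equiv.swap (e1 ⟨1, by omega⟩) v).toEmbedding, ?_, by simp⟩
    show Equiv.swap (e1 ⟨1, by omega⟩) v (e1 ⟨0, by omega⟩) = u
    rw [h10, Equiv.swap_apply_of_ne_of_ne hne.symm huv]
  have h2t : ∀ u v u' v' : X, u ≠ v → u' ≠ v' →
      ∃ f ∈ G, f (some u) = some u' ∧ f (some v) = some v' := by
    intro u v u' v' huv huv'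
    obtain ⟨a, ha0, ha1⟩ := hext u v huv
    obtain ⟨b, hb0, hb1⟩ := hext u' v' huv'
    obtain ⟨f, hf, hfab⟩ := htrans a b
    exact ⟨f, hf, by rw [← ha0, ← hb0]; exact hfab _, by rw [← ha1, ← hb1]; exact hfab _⟩
  let T : Set (Equiv.Perm (Option X)) := {w | ∃ c ∈ G, ∃ d ∈ G, w = c * h * d}
  have hGT : ∀ c ∈ G, ∀ w ∈ T, c * w ∈ T ∧ w * c ∈ T := by
    rintro c hc _ ⟨a, ha, b, hb, rfl⟩
    exact ⟨⟨c * a, G.mul_mem hc ha, b, hb, by simp only [mul_assoc]⟩,
      ⟨a, ha, b * c, G.mul_mem hb hc, by simp only [mul_assoc]⟩⟩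
  have hinvh : h⁻¹ = h * (h ^ 2)⁻¹ := by rw [pow_two, mul_inv_rev, mul_inv_cancel_left]
  have hinvh' : h⁻¹ = (h ^ 2)⁻¹ * h := by rw [pow_two, mul_inv_rev, inv_mul_cancel_right]
  have hgh : h * g * h ∈ T := by
    refine ⟨g⁻¹ * (g * h) ^ 3, G.mul_mem (G.inv_mem hg) h6, (h ^ 2)⁻¹ * g⁻¹,
      G.mul_mem (G.inv_mem h7) (G.inv_mem hg), ?_⟩
    calc h * g * h = g⁻¹ * (g * h) ^ 3 * h⁻¹ * g⁻¹ := by
          rw [pow_succ, pow_two]; group
      _ = _ := by rw [hinvh]; simp only [mul_assoc]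
  have hhGh : ∀ f ∈ G, h * f * h ∈ G ∨ h * f * h ∈ T := by
    intro f hf
    by_cases hfx : f (some x) = some x
    · exact Or.inl (h8 f hf hfx).1
    · right
      obtain ⟨w, hw⟩ : ∃ w, f (some x) = some w := by
        cases hfw : f (some x) with
        | none => exact absurd (f.injective (hfw.trans (hfix f hf).symm)) (Option.some_ne_none x)
        | some w => exact ⟨w, rfl⟩
      have hwx : x ≠ w := fun e => hfx (by rw [hw, ← e])
      obtain ⟨a, ha, hax, hay⟩ := h2t x y x w hyx.symm hwx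
      have hb : g⁻¹ * a⁻¹ * f ∈ G := G.mul_mem (G.mul_mem (G.inv_mem hg) (G.inv_mem ha)) hf
      have hbx : (g⁻¹ * a⁻¹ * f) (some x) = some x := by
        rw [Equiv.Perm.mul_apply, Equiv.Perm.mul_apply, hw, Equiv.Perm.inv_eq_iff_eq,
          Equiv.Perm.inv_eq_iff_eq, h4, hay]
      obtain ⟨hA, -⟩ := h8 a ha hax
      obtain ⟨hB, -⟩ := h8 _ hb hbx
      have e : h * f * h = h * a * h * ((h ^ 2)⁻¹ * (h * g * h)) * ((h ^ 2)⁻¹ *
          (h * (g⁻¹ * a⁻¹ * f) * h)) := by
        rw [pow_two]; group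
      rw [e]
      exact (hGT _ (G.mul_mem (G.inv_mem h7) hB) _ (hGT _ hA _ (hGT _ (G.inv_mem h7) _ hgh).1).1).2
  have hclos : ∀ f ∈ Subgroup.closure ((G : Set (Equiv.Perm (Option X))) ∪ {h}), f ∈ G ∨ f ∈ T := by
    intro f hf
    induction hf using Subgroup.closure_induction with
    | mem a ha =>
      rcases ha with ha | rfl
      · exact Or.inl ha
      · exact Or.inr ⟨1, G.one_mem, 1, G.one_mem, by simp⟩
    | one => exact Or.inl G.one_mem
    | mul a b _ _ ha hb =>
      rcases ha with ha | ha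
      · rcases hb with hb | hb
        · exact Or.inl (G.mul_mem ha hb)
        · exact Or.inr (hGT a ha b hb).1
      · rcases hb with hb | hb
        · exact Or.inr (hGT b hb a ha).2
        · obtain ⟨a1, ha1, a2, ha2, rfl⟩ := ha
          obtain ⟨b1, hb1, b2, hb2, rfl⟩ := hb
          have e : a1 * h * a2 * (b1 * h * b2) = a1 * (h * (a2 * b1) * h) * b2 := by
            simp only [mul_assoc]
          rw [e]
          rcases hhGh _ (G.mul_mem ha2 hb1) with hm | hm
          · exact Or.inl (G.mul_mem (G.mul_mem ha1 hm) hb2)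
          · exact Or.inr (hGT _ hb2 _ (hGT _ ha1 _ hm).1).2
    | inv a _ ha =>
      rcases ha with ha | ha
      · exact Or.inl (G.inv_mem ha)
      · obtain ⟨a1, ha1, a2, ha2, rfl⟩ := ha
        refine Or.inr ⟨a2⁻¹, G.inv_mem ha2, (h ^ 2)⁻¹ * a1⁻¹, G.mul_mem (G.inv_mem h7) (G.inv_mem ha1), ?_⟩
        rw [mul_inv_rev, mul_inv_rev, hinvh]
        simp only [mul_assoc]
  have hfixiff : ∀ f ∈ Subgroup.closure ((G : Set (Equiv.Perm (Option X))) ∪ {h}),
      f none = none ↔ f ∈ G := by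
    intro f hf
    refine ⟨fun hn => ?_, hfix f⟩
    rcases hclos f hf with hG' | ⟨a, ha, b, hb, rfl⟩
    · exact hG'
    · rw [Equiv.Perm.mul_apply, Equiv.Perm.mul_apply, hfix b hb, h1, ← hfix a ha, a.injective.eq_iff] at hn
      exact absurd hn (Option.some_ne_none x)
  refine ⟨hfixiff, ⟨fun a b => ?_⟩⟩
  have hGL : ∀ f ∈ G, f ∈ Subgroup.closure ((G : Set (Equiv.Perm (Option X))) ∪ {h}) :=
    fun f hf => Subgroup.subset_closure (Or.inl hf)
  have hhL : h ∈ Subgroup.closure ((G : Set (Equiv.Perm (Option X))) ∪ {h}) :=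
    Subgroup.subset_closure (Or.inr rfl)
  have hto : ∀ o : Option X, ∃ l ∈ Subgroup.closure ((G : Set (Equiv.Perm (Option X))) ∪ {h}), l o = none := by
    rintro (_ | z)
    · exact ⟨1, Subgroup.one_mem _, rfl⟩
    · by_cases hz : z = x
      · exact ⟨h, hhL, by rw [hz, h2]⟩
      · obtain ⟨f, hf, hfz, -⟩ := h2t z x x y hz hyx.symm
        exact ⟨h * f, Subgroup.mul_mem _ hhL (hGL f hf), by rw [Equiv.Perm.mul_apply, hfz, h2]⟩
  obtain ⟨l1, hl1, hl1a⟩ := hto (a 0)
  obtain ⟨l2, hl2, hl2b⟩ := hto (b 0)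
  have hpull : ∀ (l : Equiv.Perm (Option X)) (c : Fin (k + 1) ↪ Option X), l (c 0) = none →
      ∃ c' : Fin k ↪ X, ∀ i, l (c i.succ) = some (c' i) := by
    intro l c hc
    have hs : ∀ i : Fin k, ∃ z, l (c i.succ) = some z := by
      intro i
      cases hci : l (c i.succ) with
      | none => exact absurd (c.injective (l.injective (hci.trans hc.symm))) (Fin.succ_ne_zero i)
      | some z => exact ⟨z, rfl⟩
    choose z hz using hs
    refine ⟨⟨z, fun i j hij => ?_⟩, hz⟩
    exact Fin.succ_injective _ (c.injective (l.injective ((hz i).trans (hij ▸ (hz j).symm))))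
  obtain ⟨a', ha'⟩ := hpull l1 a hl1a
  obtain ⟨b', hb'⟩ := hpull l2 b hl2b
  obtain ⟨f, hf, hfab⟩ := htrans a' b'
  refine ⟨⟨l2⁻¹ * f * l1, Subgroup.mul_mem _ (Subgroup.mul_mem _ (Subgroup.inv_mem _ hl2) (hGL f hf)) hl1⟩, ?_⟩
  ext1 i
  show (l2⁻¹ * f * l1) (a i) = b i
  rw [Equiv.Perm.mul_apply, Equiv.Perm.mul_apply, Equiv.Perm.inv_eq_iff_eq]
  induction i using Fin.cases with
  | zero => rw [hl1a, hfix f hf, hl2b]
  | succ i => rw [ha', hfab, hb']

end Cfsg.Agent.S4301
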