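import Cfsg.Statements.S4302
import Cfsg.Agent.SolvFact.Model

set_option autoImplicit false
open Cfsg

namespace Cfsg.Agent.S4302

open CfsgLib.SolvFact CfsgLib.PLocalBasics CfsgLib.ZJ CfsgLib.CoprimeAction

/-- Let `X` be a finite solvable group whose Fitting subgroup is a 2-group (equivalently `F(X) = O₂(X)`), `T` a Sylow 2-subgroup of `X`, `J(T)` the subgroup generated by the abelian subgroups of `T` of largest order, `C` the largest normal subgroup of `X` centralizing the centre `Z(T)`, and `Y` the normal closure of `J(T)` in `X`. Then `X = C · Y · N_X(J(T))`, and either `Y ≤ C`, or `CY/C` is isomorphic to a direct product of at least one copy of the symmetric group of degree 3. -/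
theorem result {X : Type*} [Group X] [Finite X]
    [Group.IsSolvable X] (hF : Cfsg.fittingSubgroup X = Cfsg.pCore 2 X) (T : Sylow 2 X) :
    ((Subgroup.centralizer (((T : Subgroup X) ⊓ Subgroup.centralizer ((T : Subgroup X) : Set X) : Subgroup X) : Set X)).normalCore
        ⊔ Subgroup.normalClosure (Cfsg.thompsonSubgroupAOf (T : Subgroup X) : Set X)
        ⊔ Subgroup.normalizer (Cfsg.thompsonSubgroupAOf (T : Subgroup X) : Set X) = ⊤) ∧
    (Subgroup.normalClosure (Cfsg.thompsonSubgroupAOf (T : Subgroup X) : Set X)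
        ≤ (Subgroup.centralizer (((T : Subgroup X) ⊓ Subgroup.centralizer ((T : Subgroup X) : Set X) : Subgroup X) : Set X)).normalCore
      ∨ ∃ n : ℕ, 1 ≤ n ∧
        Nonempty (↥(Subgroup.normalClosure (Cfsg.thompsonSubgroupAOf (T : Subgroup X) : Set X)) ⧸
            ((Subgroup.centralizer (((T : Subgroup X) ⊓ Subgroup.centralizer ((T : Subgroup X) : Set X) : Subgroup X) : Set X)).normalCore).subgroupOf
              (Subgroup.normalClosure (Cfsg.thompsonSubgroupAOf (T : Subgroup X) : Set X))
          ≃* (Fin n → Equiv.Perm (Fin 3)))) := by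
  classical
  haveI : Fact (Nat.Prime 2) := ⟨Nat.prime_two⟩
  set Z : Subgroup X := (T : Subgroup X) ⊓ Subgroup.centralizer ((T : Subgroup X) : Set X) with hZdef
  set C := (Subgroup.centralizer (Z : Set X)).normalCore with hCdef
  set Y := Subgroup.normalClosure (Cfsg.thompsonSubgroupAOf (T : Subgroup X) : Set X) with hYdef
  have hJ : Cfsg.thompsonSubgroupAOf (T : Subgroup X) = J 2 false (T : Subgroup X) := thompsonSubgroupAOf_eq 2 _
  have hJY : J 2 false (T : Subgroup X) ≤ Y := hJ ▸ Subgroup.le_normalClosure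
  constructor
  · obtain ⟨P, hP⟩ := CfsgLib.PReduced.exists_sylow_inf T (C ⊔ Y)
    have h1 := Sylow.normalizer_sup_eq_top P
    rw [show (P : Subgroup ↥(C ⊔ Y)).map (C ⊔ Y).subtype = (T : Subgroup X) ⊓ (C ⊔ Y) by
      rw [hP, Subgroup.map_subgroupOf_eq_of_le inf_le_right]] at h1
    have h2 : Subgroup.normalizer (((T : Subgroup X) ⊓ (C ⊔ Y) : Subgroup X) : Set X) ≤
        Subgroup.normalizer (Cfsg.thompsonSubgroupAOf (T : Subgroup X) : Set X) := by
      rw [hJ, ← J_eq_of_le (S := (T : Subgroup X)) (T := (T : Subgroup X) ⊓ (C ⊔ Y))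
        (le_inf (J_le _) (hJY.trans le_sup_right)) inf_le_left]
      exact normalizer_le_normalizer_J _
    refine top_le_iff.1 (h1.ge.trans (sup_le (h2.trans le_sup_right) le_sup_left))
  · by_cases hYC : Y ≤ C
    · exact Or.inl hYC
    refine Or.inr ?_
    have hcore : Cfsg.pPrimeCore 2 X = ⊥ := pPrimeCore_eq_bot_of_fitting hF
    have hsep : Cfsg.IsPSolvable 2 X := CfsgLib.PCore.isPSolvable_of_isSolvable
    set Q := Cfsg.pCore 2 X with hQdef
    have hCQ : Subgroup.centralizer (Q : Set X) ≤ Q := CfsgLib.PCore.hall_higman hsep hcore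
    have hQT : Q ≤ (T : Subgroup X) := CfsgLib.PCore.pCore_le_sylow T
    haveI : Q.Normal := hQdef ▸ inferInstance
    set W := Subgroup.normalClosure (Z : Set X) with hWdef
    have hZQ : Z ≤ Q ⊓ Subgroup.centralizer (Q : Set X) := by
      have h : Z ≤ Subgroup.centralizer (Q : Set X) := inf_le_right.trans (Subgroup.centralizer_le hQT)
      exact le_inf (h.trans hCQ) h
    have hWQ : W ≤ Q ⊓ Subgroup.centralizer (Q : Set X) := Subgroup.normalClosure_le_normal hZQ
    haveI hWc : IsMulCommutative W := ⟨⟨fun a b => Subtype.ext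
      ((Subgroup.mem_centralizer_iff.1 (hWQ b.2).2 a (hWQ a.2).1))⟩⟩
    have hWp : IsPGroup 2 W := (CfsgLib.PCore.isPGroup_pCore 2 X).to_le (hWQ.trans inf_le_left)
    have hCW : C = Subgroup.centralizer (W : Set X) := by
      refine le_antisymm ?_ ((Subgroup.normal_le_normalCore).2 (Subgroup.centralizer_le Subgroup.le_normalClosure))
      rw [Subgroup.le_centralizer_iff]
      exact Subgroup.normalClosure_le_normal (Subgroup.le_centralizer_iff.1 (Subgroup.normalCore_le _))
    set V := Cfsg.omegaOne 2 W with hVdef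
    have hVW : V ≤ W := omegaOne_le W
    haveI hVn : V.Normal := by
      refine ⟨fun v hv g => ?_⟩
      have h1 := Subgroup.mem_map_of_mem (MulAut.conj g).toMonoidHom hv
      rw [hVdef, omegaOne_map _ (MulAut.conj g).injective,
        show W.map (MulAut.conj g).toMonoidHom = W from
          Subgroup.mem_normalizer_iff_map_conj_eq.1 (by rw [Subgroup.normalizer_eq_top]; exact Subgroup.mem_top g)] at h1
      exact h1
    have hVe : Cfsg.IsElementaryAbelian 2 V := by
      have h := good_closure (p := 2) (el := true) (T := {x : X | x ∈ W ∧ x ^ 2 = 1})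
        (fun a ha b hb => setLike_mul_comm ha.1 hb.1) (fun _ a ha => ha.2)
      exact ⟨h.1, h.2 rfl⟩
    have hVT : ∀ S : Subgroup X, Q ≤ S → V ≤ S := fun S hS => hVW.trans ((hWQ.trans inf_le_left).trans hS)
    -- `C(V) = C`
    haveI : (Subgroup.centralizer (W : Set X)).Normal := inferInstance
    haveI : (Subgroup.centralizer (V : Set X)).Normal := inferInstance
    have hsmall : ∀ D : Subgroup X, D.Normal → Subgroup.centralizer (W : Set X) ≤ D →
        CfsgLib.PReduced.PowMem 2 D (Subgroup.centralizer (W : Set X)) → D ≤ C := by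
      intro D hD hle hpm
      haveI := hD
      refine Subgroup.normal_le_normalCore.2 fun d hd => ?_
      obtain ⟨t, ht, c, hc, rfl⟩ := CfsgLib.PReduced.exists_mul_of_powMem T hle hpm hd
      refine mul_mem (Subgroup.mem_centralizer_iff.2 fun z hz => ?_)
        ((Subgroup.centralizer_le Subgroup.le_normalClosure) hc)
      exact (Subgroup.mem_centralizer_iff.1 hz.2 t ht.1).symm
    have hCV : Subgroup.centralizer (V : Set X) = C := by
      refine le_antisymm (hsmall _ inferInstance (Subgroup.centralizer_le hVW) fun d hd => ?_)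
        (hCW.le.trans (Subgroup.centralizer_le hVW))
      set m := orderOf d
      refine ⟨m.factorization 2, ?_⟩
      set x := d ^ 2 ^ m.factorization 2 with hx
      have hm0 : m ≠ 0 := (orderOf_pos d).ne'
      have hordx : orderOf x = m / 2 ^ m.factorization 2 :=
        orderOf_pow_of_dvd (pow_ne_zero _ two_ne_zero) (Nat.ordProj_dvd m 2)
      have hxV : x ∈ Subgroup.centralizer (V : Set X) := pow_mem hd _
      refine le_centralizer_of_fixes_prime_order (A := Subgroup.zpowers x) (V := W) ?_ ?_ ?_ (Subgroup.mem_zpowers x)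
      · rw [Subgroup.normalizer_eq_top]; exact le_top
      · obtain ⟨k, hk⟩ := IsPGroup.iff_card.1 hWp
        rw [Nat.card_zpowers, hordx, hk]
        exact (Nat.coprime_ordCompl Nat.prime_two hm0).symm.pow_right k
      · intro v hv hp a ha
        have h2 : orderOf v = 2 := by
          obtain ⟨k, hk⟩ := (IsPGroup.iff_orderOf.1 hWp) ⟨v, hv⟩
          rw [Subgroup.orderOf_mk] at hk
          exact (Nat.prime_dvd_prime_iff_eq hp Nat.prime_two).1
            (hp.dvd_of_dvd_pow (dvd_of_eq hk))
        have hvV : v ∈ V := Subgroup.subset_closure ⟨hv, by rw [← h2]; exact pow_orderOf_eq_one v⟩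
        exact ((Subgroup.mem_centralizer_iff.1 (Subgroup.zpowers_le.2 hxV ha)) v hvV).symm
    have hO : Cfsg.pCore 2 (X ⧸ Subgroup.centralizer (V : Set X)) = ⊥ := by
      rw [eq_bot_iff]
      intro q hq
      obtain ⟨d, rfl⟩ := QuotientGroup.mk'_surjective (Subgroup.centralizer (V : Set X)) q
      rw [Subgroup.mem_bot, QuotientGroup.mk'_apply, QuotientGroup.eq_one_iff, hCV]
      refine hsmall ((Cfsg.pCore 2 (X ⧸ Subgroup.centralizer (V : Set X))).comap
        (QuotientGroup.mk' (Subgroup.centralizer (V : Set X)))) (Subgroup.Normal.comap inferInstance _) ?_ ?_ hq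
      · rw [← hCW, ← hCV]
        intro c hc
        rw [Subgroup.mem_comap, QuotientGroup.mk'_apply, (QuotientGroup.eq_one_iff c).2 hc]
        exact one_mem _
      · rw [← hCW, ← hCV, CfsgLib.PReduced.powMem_iff_isPGroup_map,
          Subgroup.map_comap_eq_self_of_surjective (QuotientGroup.mk'_surjective _)]
        exact CfsgLib.PCore.isPGroup_pCore 2 _
    -- the model
    set f := actι V with hfdef
    set j := actV V with hjdef
    have hj : Function.Injective j := actV_injective V
    have hconj : ∀ (k : X) (v : V), f k * j v * (f k)⁻¹ = j (MulAut.conjNormal k v) := actι_conj V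
    have hfaith : ∀ k : X, (∀ v : V, f k * j v = j v * f k) → f k = 1 := actι_faith V
    have hker : f.ker = C := (ker_eq_centralizer V f j hj hconj hfaith).trans hCV
    have c := faithCtx_map V f j hsep hVe hO hj hconj hfaith Y
    have hH : Y.map f ≠ ⊥ := by
      rw [Ne, Subgroup.map_eq_bot_iff, hker]; exact hYC
    have hgen : OffGen 2 j.range (Y.map f) := by
      refine le_antisymm ?_ (iSup_le fun A => A.2.1)
      rw [Subgroup.map_le_iff_le_comap, hYdef, Subgroup.normalClosure, Subgroup.closure_le]
      intro x hx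
      obtain ⟨a, ha, hax⟩ := Group.mem_conjugatesOfSet_iff.1 hx
      obtain ⟨g, rfl⟩ := isConj_iff.1 hax
      rw [hJ] at ha
      refine (show J 2 false (T : Subgroup X) ≤ ((⨆ A : {A : Subgroup (ActL V) // A ≤ Y.map f ∧
        Cfsg.IsBestOffenderOn 2 j.range A}, (A : Subgroup (ActL V))).comap f).comap
          (MulAut.conj g).toMonoidHom from sSup_le fun A hA => ?_) ha
      rw [← Subgroup.map_le_iff_le_comap, ← Subgroup.map_le_iff_le_comap]
      have hAY : A.map (MulAut.conj g).toMonoidHom ≤ Y := by
        rintro _ ⟨y, hy, rfl⟩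
        exact Subgroup.normalClosure_normal.conj_mem y (hJY (maxGood_le_J hA hy)) g
      have hAH : (A.map (MulAut.conj g).toMonoidHom).map f ≤ Y.map f := Subgroup.map_mono hAY
      refine le_iSup_of_le ⟨_, hAH, isBest_map V f j hVe hj hconj hfaith c (T.isPGroup'.map _)
        (hVT _ ?_) (maxGood_conj g hA) hAH⟩ le_rfl
      intro q hq
      exact ⟨g⁻¹ * q * g, hQT (by simpa using (‹Q.Normal›.conj_mem q hq g⁻¹)), by simp [mul_assoc]⟩
    obtain ⟨n, hn, ⟨e⟩⟩ := exists_pi_equiv c hgen hH
    have hk : (f.comp Y.subtype).ker = C.subgroupOf Y := by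
      ext y
      rw [MonoidHom.mem_ker, Subgroup.mem_subgroupOf, ← hker, MonoidHom.mem_ker, MonoidHom.comp_apply]
      rfl
    have hr : (f.comp Y.subtype).range = Y.map f := by
      rw [MonoidHom.range_comp, Subgroup.range_subtype]
    exact ⟨n, hn, ⟨(QuotientGroup.quotientMulEquivOfEq hk.symm).trans
      ((QuotientGroup.quotientKerEquivRange (f.comp Y.subtype)).trans ((MulEquiv.subgroupCongr hr).trans e))⟩⟩

end Cfsg.Agent.S4302
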