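import Cfsg.Statements.S4305
import Mathlib
import Cfsg.Agent.FpfS3.Core

set_option autoImplicit false
open Cfsg

namespace Cfsg.Agent.S4305

private theorem quot {G : Type*} [Group G] [Finite G] (ρ t : MulAut G) (r3 : ∀ x, ρ (ρ (ρ x)) = x)
    (t2 : ∀ x, t (t x) = x) (tr : ∀ x, t (ρ x) = ρ (ρ (t x))) (cop : (Nat.card G).Coprime 6)
    (fpf : ∀ x, ρ x = x → t x = x → x = 1) (N : Subgroup G) [N.Normal] (hNr : ∀ x ∈ N, ρ x ∈ N)
    (g : G) (hr : g⁻¹ * ρ g ∈ N) (ht : g⁻¹ * t g ∈ N) (hNt : ∀ x ∈ N, t x ∈ N) : g ∈ N := by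
  classical
  let α := {x : G // g⁻¹ * x ∈ N}
  haveI : Fintype α := Fintype.ofFinite _
  haveI : Fact (Nat.Prime 3) := ⟨Nat.prime_three⟩
  have hstep : ∀ x : G, g⁻¹ * x ∈ N → g⁻¹ * ρ x ∈ N := fun x hx => by
    have := mul_mem hr (hNr _ hx)
    rwa [map_mul, map_inv, mul_assoc, mul_inv_cancel_left] at this
  let σ : Equiv.Perm α :=
    ⟨fun x => ⟨ρ x.1, hstep _ x.2⟩, fun x => ⟨ρ (ρ x.1), hstep _ (hstep _ x.2)⟩,
      fun x => Subtype.ext (r3 x.1), fun x => Subtype.ext (r3 x.1)⟩
  have hcard : ¬ 3 ∣ Fintype.card α := by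
    rw [← Nat.card_eq_fintype_card, Nat.card_congr (show α ≃ N from
      ⟨fun x => ⟨g⁻¹ * x.1, x.2⟩, fun l => ⟨g * l.1, by rw [inv_mul_cancel_left]; exact l.2⟩,
        fun x => Subtype.ext (mul_inv_cancel_left g x.1), fun l => Subtype.ext (inv_mul_cancel_left g l.1)⟩)]
    intro hd
    have := Nat.dvd_gcd (hd.trans (Subgroup.card_subgroup_dvd_card N)) (show 3 ∣ 6 by norm_num)
    rw [cop.gcd_eq_one] at this
    norm_num at this
  obtain ⟨⟨c, hcN⟩, hc⟩ := Equiv.Perm.exists_fixed_point_of_prime (p := 3) (n := 1) hcard (σ := σ)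
    (Equiv.ext fun x => Subtype.ext (r3 x.1))
  replace hc : ρ c = c := congrArg Subtype.val hc
  let M : Subgroup G :=
    { carrier := {x | ρ x = x}
      one_mem' := by simp
      mul_mem' := fun {a b} (ha : ρ a = a) (hb : ρ b = b) => by simp [ha, hb]
      inv_mem' := fun {a} (ha : ρ a = a) => by simp [ha] }
  obtain ⟨x, -, hx⟩ := CfsgLib.FpfFour.exists_inv_mul_eq t M
    (fun x (hx : ρ x = x) => by
      show ρ (t x) = t x
      conv_lhs => rw [← hx, tr, r3])
    (fun x hx hx' => fpf x hx hx') (show c ∈ M from hc)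
  have htc : t c = c⁻¹ := by rw [← hx, map_mul, map_inv, t2, mul_inv_rev, inv_inv]
  have h1 : g⁻¹ * t c ∈ N := by
    have := mul_mem ht (hNt _ hcN)
    rwa [map_mul, map_inv, mul_assoc, mul_inv_cancel_left] at this
  rw [htc] at h1
  have h2 : c ^ 2 ∈ N := by
    have := mul_mem (inv_mem h1) hcN
    rwa [mul_inv_rev, inv_inv, inv_inv, mul_assoc, mul_inv_cancel_left, ← pow_two] at this
  have h3 : c ∈ N := CfsgLib.FpfS3.Setup.mem_of_sq cop h2
  have h4 := mul_mem hcN (inv_mem h3)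
  rw [mul_inv_cancel_right] at h4
  exact inv_mem_iff.1 h4

private theorem aux (n : ℕ) : ∀ (G : Type*) [Group G] [Finite G], Nat.card G = n → Group.IsSolvable G →
    ∀ ρ t : MulAut G, (∀ x, ρ (ρ (ρ x)) = x) → (∀ x, t (t x) = x) → (∀ x, t (ρ x) = ρ (ρ (t x))) →
    (Nat.card G).Coprime 6 → (∀ x, ρ x = x → t x = x → x = 1) → Group.IsNilpotent (commutator G) := by
  induction n using Nat.strong_induction_on with
  | _ n ih =>
  intro G _ _ hn hG ρ t r3 t2 tr cop fpf
  classical
  subst hn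
  by_cases htriv : (⊤ : Subgroup G) = ⊥
  · have : commutator G = ⊥ := le_bot_iff.1 (htriv ▸ le_top)
    rw [this]; infer_instance
  obtain ⟨N, ⟨hNn, ⟨hNr, hNt⟩, hN1⟩, hmin⟩ := Set.Finite.exists_minimal
    (s := {N : Subgroup G | N.Normal ∧ ((∀ x ∈ N, ρ x ∈ N) ∧ ∀ x ∈ N, t x ∈ N) ∧ N ≠ ⊥}) (Set.toFinite _)
    ⟨⊤, inferInstance, ⟨fun x _ => Subgroup.mem_top _, fun x _ => Subgroup.mem_top _⟩, htriv⟩
  haveI := hNn
  have hmin' : ∀ M : Subgroup G, M.Normal → ((∀ x ∈ M, ρ x ∈ M) ∧ ∀ x ∈ M, t x ∈ M) → M ≤ N → M = ⊥ ∨ M = N := fun M h1 h2 h3 => by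
    rcases eq_or_ne M ⊥ with e | e
    · exact Or.inl e
    · exact Or.inr (le_antisymm h3 (hmin ⟨h1, h2, e⟩ h3))
  have hNsol : Group.IsSolvable N := inferInstance
  have hNab : ∀ x ∈ N, ∀ y ∈ N, x * y = y * x := by
    have hc : ∀ σ : MulAut G, (∀ x ∈ N, σ x ∈ N) → ∀ x ∈ (⁅N, N⁆ : Subgroup G), σ x ∈ (⁅N, N⁆ : Subgroup G) := by
      intro σ hσ x hx
      have : (⁅N, N⁆ : Subgroup G).map σ.toMonoidHom ≤ ⁅N, N⁆ := by
        rw [Subgroup.map_commutator]
        exact Subgroup.commutator_mono (by rintro _ ⟨y, hy, rfl⟩; exact hσ y hy) (by rintro _ ⟨y, hy, rfl⟩; exact hσ y hy)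
      exact this ⟨x, hx, rfl⟩
    rcases hmin' ⁅N, N⁆ inferInstance ⟨hc ρ hNr, hc t hNt⟩ (Subgroup.commutator_le_left N N) with h | h
    · intro x hx y hy
      exact (Subgroup.mem_centralizer_iff.1 (Subgroup.commutator_eq_bot_iff_le_centralizer.1 h hx) y hy).symm
    · exfalso
      haveI : Nontrivial N := (Subgroup.nontrivial_iff_ne_bot N).2 hN1
      have hlt := Group.IsSolvable.commutator_lt_top_of_nontrivial (G := N)
      refine hlt.ne (Subgroup.map_injective N.subtype_injective ?_)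
      rw [commutator_def, Subgroup.map_commutator, ← MonoidHom.range_eq_map, Subgroup.range_subtype, h]
  obtain ⟨q, hq, hqd⟩ := Nat.exists_prime_and_dvd (fun e => hN1 (Subgroup.eq_bot_of_card_eq N e))
  haveI := Fact.mk hq
  have hNexp : ∀ x ∈ N, x ^ q = 1 := by
    let M : Subgroup G :=
      { carrier := {x | x ∈ N ∧ x ^ q = 1}
        one_mem' := ⟨one_mem N, one_pow q⟩
        mul_mem' := fun {a b} ha hb => ⟨mul_mem ha.1 hb.1, by
          rw [Commute.mul_pow (hNab a ha.1 b hb.1), ha.2, hb.2, mul_one]⟩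
        inv_mem' := fun {a} ha => ⟨inv_mem ha.1, by rw [inv_pow, ha.2, inv_one]⟩ }
    rcases hmin' M ⟨fun a ha g => ⟨hNn.conj_mem a ha.1 g, by rw [conj_pow, ha.2, mul_one, mul_inv_cancel]⟩⟩
      ⟨fun x hx => ⟨hNr x hx.1, by rw [← map_pow, hx.2, map_one]⟩,
        fun x hx => ⟨hNt x hx.1, by rw [← map_pow, hx.2, map_one]⟩⟩ (fun x hx => hx.1) with h | h
    · exfalso
      obtain ⟨x, hx⟩ := exists_prime_orderOf_dvd_card' (G := N) q hqd
      have hmem : (x : G) ∈ M := ⟨x.2, by rw [← SubgroupClass.coe_pow, ← hx, pow_orderOf_eq_one]; rfl⟩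
      rw [h, Subgroup.mem_bot] at hmem
      exact hq.ne_one (by rw [← hx, orderOf_eq_one_iff]; exact Subtype.ext hmem)
    · intro x hx
      exact (h ▸ hx : x ∈ M).2
  have hmap : ∀ (L : Subgroup G) (σ : MulAut G), (∀ x ∈ L, σ x ∈ L) → L.map σ.toMonoidHom = L :=
    fun L σ hL => by
      refine Subgroup.eq_of_le_of_card_ge (by rintro _ ⟨x, hx, rfl⟩; exact hL x hx) ?_
      rw [Subgroup.card_map_of_injective (f := σ.toMonoidHom) σ.injective]
  have hquot : ∀ (L : Subgroup G) [L.Normal] (hr : ∀ x ∈ L, ρ x ∈ L) (ht : ∀ x ∈ L, t x ∈ L),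
      (∀ x, QuotientGroup.congr L L ρ (hmap L ρ hr) (QuotientGroup.congr L L ρ (hmap L ρ hr)
        (QuotientGroup.congr L L ρ (hmap L ρ hr) x)) = x) ∧
      (∀ x, QuotientGroup.congr L L t (hmap L t ht) (QuotientGroup.congr L L t (hmap L t ht) x) = x) ∧
      (∀ x, QuotientGroup.congr L L t (hmap L t ht) (QuotientGroup.congr L L ρ (hmap L ρ hr) x) =
        QuotientGroup.congr L L ρ (hmap L ρ hr) (QuotientGroup.congr L L ρ (hmap L ρ hr)
          (QuotientGroup.congr L L t (hmap L t ht) x))) ∧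
      (Nat.card (G ⧸ L)).Coprime 6 ∧
      (∀ x, QuotientGroup.congr L L ρ (hmap L ρ hr) x = x → QuotientGroup.congr L L t (hmap L t ht) x = x →
        x = 1) := by
    intro L _ hr ht
    refine ⟨fun x => ?_, fun x => ?_, fun x => ?_,
      cop.coprime_dvd_left (Subgroup.card_quotient_dvd_card L), fun x hxr hxt => ?_⟩ <;>
      obtain ⟨g, rfl⟩ := QuotientGroup.mk_surjective x
    · exact congrArg (QuotientGroup.mk : G → G ⧸ L) (r3 g)
    · exact congrArg (QuotientGroup.mk : G → G ⧸ L) (t2 g)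
    · exact congrArg (QuotientGroup.mk : G → G ⧸ L) (tr g)
    · replace hxr : ((ρ g : G) : G ⧸ L) = (g : G ⧸ L) := hxr
      replace hxt : ((t g : G) : G ⧸ L) = (g : G ⧸ L) := hxt
      rw [eq_comm, QuotientGroup.eq] at hxr hxt
      exact (QuotientGroup.eq_one_iff g).2 (quot ρ t r3 t2 tr cop fpf L hr g hxr hxt ht)
  obtain ⟨q1, q2, q3, q4, q5⟩ := hquot N hNr hNt
  have hlt : Nat.card (G ⧸ N) < Nat.card G := by
    rw [Subgroup.card_eq_card_quotient_mul_card_subgroup N]
    exact lt_mul_of_one_lt_right Nat.card_pos ((Subgroup.one_lt_card_iff_ne_bot N).2 hN1)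
  have hnil := ih _ hlt (G ⧸ N) rfl inferInstance _ _ q1 q2 q3 q4 q5
  -- `G'` centralises `N`
  letI : CommGroup N := { (inferInstance : Group N) with mul_comm := fun x y => Subtype.ext (hNab x x.2 y y.2) }
  let cN : G →* MulAut N := MulAut.conjNormal
  let res : (σ : MulAut G) → (∀ x ∈ N, σ x ∈ N) → MulAut N := fun σ hσ =>
    { toFun := fun x => ⟨σ (x : G), hσ x x.2⟩
      invFun := fun x => ⟨σ.symm (x : G), by
        obtain ⟨y, hy, e⟩ := (hmap N σ hσ).ge x.2
        rw [← e]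
        change σ.symm (σ y) ∈ N
        rwa [MulEquiv.symm_apply_apply]⟩
      left_inv := fun x => Subtype.ext (σ.symm_apply_apply (x : G))
      right_inv := fun x => Subtype.ext (σ.apply_symm_apply (x : G))
      map_mul' := fun x y => Subtype.ext (map_mul σ (x : G) y) }
  have hcompat : ∀ (σ : MulAut G) (hσ : ∀ x ∈ N, σ x ∈ N) (g : G) (v : N),
      res σ hσ (cN g v) = cN (σ g) (res σ hσ v) := fun σ hσ g v =>
    Subtype.ext (by change σ (g * (v : G) * g⁻¹) = σ g * σ (v : G) * (σ g)⁻¹; simp only [map_mul, map_inv])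
  set K := cN.ker with hK
  have hKinv : ∀ (σ : MulAut G), (∀ x ∈ N, σ x ∈ N) → ∀ x ∈ K, σ x ∈ K := by
    intro σ hσ x hx
    rw [hK, MonoidHom.mem_ker] at hx ⊢
    refine MulEquiv.ext fun v => ?_
    obtain ⟨w, rfl⟩ := (res σ hσ).surjective v
    rw [← hcompat, hx]; rfl
  obtain ⟨k1, k2, k3, k4, k5⟩ := hquot K (hKinv ρ hNr) (hKinv t hNt)
  let S : CfsgLib.FpfS3.Setup (G ⧸ K) N :=
    { φ := QuotientGroup.kerLift cN
      ρ := QuotientGroup.congr K K ρ (hmap K ρ (hKinv ρ hNr))
      t := QuotientGroup.congr K K t (hmap K t (hKinv t hNt))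
      rv := res ρ hNr
      tv := res t hNt
      inj := QuotientGroup.kerLift_injective cN
      r3 := k1
      t2 := k2
      tr := k3
      rv3 := fun v => Subtype.ext (r3 (v : G))
      tv2 := fun v => Subtype.ext (t2 (v : G))
      tvr := fun v => Subtype.ext (tr (v : G))
      compat_r := fun x v => by
        obtain ⟨g, rfl⟩ := QuotientGroup.mk_surjective x
        exact hcompat ρ hNr g v
      compat_t := fun x v => by
        obtain ⟨g, rfl⟩ := QuotientGroup.mk_surjective x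
        exact hcompat t hNt g v
      fpf := k5
      fpfV := fun v hv hv' => Subtype.ext (fpf (v : G) (congrArg Subtype.val hv) (congrArg Subtype.val hv'))
      copG := k4
      copV := cop.coprime_dvd_left (Subgroup.card_subgroup_dvd_card N)
      irr := fun U hU hUr hUt => by
        rcases hmin' (U.map N.subtype) ⟨by
            rintro _ ⟨u, hu, rfl⟩ g
            exact ⟨cN g u, hU (g : G ⧸ K) u hu, rfl⟩⟩
          ⟨by rintro _ ⟨u, hu, rfl⟩; exact ⟨res ρ hNr u, hUr u hu, rfl⟩,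
            by rintro _ ⟨u, hu, rfl⟩; exact ⟨res t hNt u, hUt u hu, rfl⟩⟩ (Subgroup.map_subtype_le U) with h | h
        · exact Or.inl ((Subgroup.map_eq_bot_iff_of_injective U N.subtype_injective).1 h)
        · refine Or.inr (Subgroup.map_injective N.subtype_injective ?_)
          rw [h, ← MonoidHom.range_eq_map, Subgroup.range_subtype] }
  haveI : Nontrivial N := (Subgroup.nontrivial_iff_ne_bot N).2 hN1
  have hcomm := S.abelian inferInstance (q := q) (fun v => Subtype.ext (hNexp v v.2))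
  have hGK : commutator G ≤ K := by
    rw [commutator_def, Subgroup.commutator_le]
    intro g _ h _
    rw [← QuotientGroup.eq_one_iff]
    change QuotientGroup.mk' K (g * h * g⁻¹ * h⁻¹) = 1
    simp only [map_mul, map_inv, QuotientGroup.mk'_apply]
    rw [hcomm (g : G ⧸ K) (h : G ⧸ K), mul_inv_cancel_right, mul_inv_cancel]
  let f : ↥(commutator G) →* ↥(commutator (G ⧸ N)) :=
    ((QuotientGroup.mk' N).comp (commutator G).subtype).codRestrict _ (fun x => by
      have h : (commutator G).map (QuotientGroup.mk' N) ≤ commutator (G ⧸ N) := by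
        rw [commutator_def, commutator_def, Subgroup.map_commutator]
        exact Subgroup.commutator_mono le_top le_top
      exact h ⟨x, x.2, rfl⟩)
  haveI := hnil
  refine Subgroup.isNilpotent_of_ker_le_center f ?_
  intro x hx
  rw [Subgroup.mem_center_iff]
  intro y
  have hxN : (x : G) ∈ N := by
    rw [← QuotientGroup.eq_one_iff]
    exact congrArg Subtype.val hx
  have h1 := congrArg Subtype.val (DFunLike.congr_fun (hGK y.2) (⟨x, hxN⟩ : N))
  replace h1 : (y : G) * x * (y : G)⁻¹ = x := h1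
  exact Subtype.ext (by
    change (y : G) * x = x * y
    rw [← mul_inv_eq_iff_eq_mul]; exact h1)

/-- Let the symmetric group of degree 3 act by automorphisms on a finite solvable group `G` of order prime to 6, so that only the identity of `G` is fixed by all of it. Then the derived subgroup of `G` is nilpotent. -/
theorem result {G : Type*} [Group G] [Finite G] [Group.IsSolvable G]
    [MulDistribMulAction (Equiv.Perm (Fin 3)) G] (hcop : (Nat.card G).Coprime 6)
    (hfpf : ∀ g : G, (∀ a : Equiv.Perm (Fin 3), a • g = g) → g = 1) :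
    Group.IsNilpotent ↥(commutator G) := by
  let c : Equiv.Perm (Fin 3) := Equiv.swap 0 1 * Equiv.swap 1 2
  let s : Equiv.Perm (Fin 3) := Equiv.swap 0 1
  have hgen : ∀ a : Equiv.Perm (Fin 3),
      a = 1 ∨ a = c ∨ a = c * c ∨ a = s ∨ a = c * s ∨ a = c * c * s := by decide
  let ρ : MulAut G := MulDistribMulAction.toMulAut (Equiv.Perm (Fin 3)) G c
  let t : MulAut G := MulDistribMulAction.toMulAut (Equiv.Perm (Fin 3)) G s
  refine aux _ G rfl inferInstance ρ t (fun x => ?_) (fun x => ?_) (fun x => ?_) hcop (fun x hr ht => hfpf x ?_)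
  · change c • c • c • x = x
    rw [smul_smul, smul_smul, show c * c * c = 1 by decide, one_smul]
  · change s • s • x = x
    rw [smul_smul, show s * s = 1 by decide, one_smul]
  · change s • c • x = c • c • s • x
    rw [smul_smul, smul_smul, smul_smul, show s * c = c * c * s by decide]
  · replace hr : c • x = x := hr
    replace ht : s • x = x := ht
    intro a
    rcases hgen a with rfl | rfl | rfl | rfl | rfl | rfl <;> simp [mul_smul, hr, ht]

end Cfsg.Agent.S4305
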