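import Cfsg.Statements.S4321
import Cfsg.Agent.ClassSize.CoprimeTop
import Cfsg.Agent.CoprimeAction.Basic
import Cfsg.Agent.TwoClasses.Basic
import Cfsg.Agent.ZStar.Congr
import Cfsg.Agent.Transfer.Fusion
import Cfsg.Agent.CoprimeAction.Frattini

set_option autoImplicit false
open Cfsg

namespace Cfsg.Agent.S4321

open CfsgLib CfsgLib.CoprimeTop

universe u

variable {G : Type u} [Group G] [Finite G] {p : ℕ} [hp : Fact p.Prime]

theorem sz_ne_one (hZ : ¬ p ∣ Nat.card ↥(Subgroup.center G)) {x : G} (hx : orderOf x = p) : sz x ≠ 1 := by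
  intro h
  have hm := mem_center_of_cz_eq_top h
  exact hZ (hx ▸ Subgroup.orderOf_dvd_natCard _ hm)

/-- Commuting elements of order `p` with coprime class sizes prime to `p`: their product links the two. -/
theorem exists_link (hZ : ¬ p ∣ Nat.card ↥(Subgroup.center G)) {x z : G} (hxz : Commute x z)
    (hx : orderOf x = p) (hz : orderOf z = p) (hcop : (sz x).Coprime (sz z)) (hpx : ¬ p ∣ sz x)
    (hpz : ¬ p ∣ sz z) : p ∣ orderOf (x * z) ∧ ∃ a b : ℕ, a.Prime ∧ b.Prime ∧ a ≠ b ∧ a ∣ sz x ∧ b ∣ sz z ∧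
      a * b ∣ sz (x * z) := by
  have key : ∀ a u : G, Commute a u → orderOf u = p → (sz a).Coprime (sz u) → ¬ p ∣ sz a →
      (sz (a * u)).Coprime (sz u) → False := by
    intro a u hau hu hc hpa hk
    have hdvd : sz (a * u) ∣ sz a * sz u := by
      have hle : cz a ⊓ cz u ≤ cz (a * u) := fun h hh => mem_cz.2
        ((show Commute h a from mem_cz.1 hh.1).mul_right (show Commute h u from mem_cz.1 hh.2)).eq
      refine (Subgroup.index_dvd_of_le hle).trans (dvd_of_eq ?_)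
      exact le_antisymm Subgroup.index_inf_le (Nat.le_of_dvd (Nat.pos_of_ne_zero Subgroup.index_ne_zero_of_finite)
        (hc.mul_dvd_of_dvd_of_dvd (Subgroup.index_dvd_of_le inf_le_left) (Subgroup.index_dvd_of_le inf_le_right)))
    have hle : sz (a * u) ≤ sz a :=
      Nat.le_of_dvd (Nat.pos_of_ne_zero (sz_ne_zero a)) (hk.dvd_of_dvd_mul_right hdvd)
    obtain ⟨M, hM, hMcard, hMmem⟩ := core hc hle
    haveI := hM
    have hMle : M ≤ cz u := le_of_normal_coprime (hc.coprime_dvd_left hMcard)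
    refine sz_ne_one hZ hu (Subgroup.index_eq_one.2 (eq_top_iff.2 fun g _ => mem_cz.2 ?_))
    set c := g * u * g⁻¹ * u⁻¹ with hc'
    have hcm := hMmem g
    have hcu : Commute c u := mem_cz.1 (hMle hcm)
    have h1 : c ^ p = 1 := by
      have e : (c * u) ^ p = 1 := by
        rw [hc', inv_mul_cancel_right, conj_pow, ← hu, pow_orderOf_eq_one]; group
      rwa [hcu.mul_pow, ← hu, pow_orderOf_eq_one, mul_one, hu] at e
    have h2 : c = 1 := by
      rw [← orderOf_eq_one_iff]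
      rcases (Nat.dvd_prime hp.out).1 (orderOf_dvd_of_pow_eq_one h1) with h | h
      · exact h
      · exact absurd ((h ▸ Subgroup.orderOf_dvd_natCard M hcm).trans hMcard) hpa
    rw [hc', mul_inv_eq_one, mul_inv_eq_iff_eq_mul] at h2
    exact h2
  refine ⟨?_, ?_⟩
  · have h1 : (x * z) ^ p = 1 := by
      have hxp := hx ▸ pow_orderOf_eq_one x
      have hzp := hz ▸ pow_orderOf_eq_one z
      rw [hxz.mul_pow, hxp, hzp, one_mul]
    rcases (Nat.dvd_prime hp.out).1 (orderOf_dvd_of_pow_eq_one h1) with h | h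
    · exfalso
      rw [orderOf_eq_one_iff, mul_eq_one_iff_eq_inv] at h
      refine sz_ne_one hZ hz ?_
      rw [← Nat.coprime_self]
      have e : cz x = cz z := by
        ext g
        rw [h, mem_cz, mem_cz]
        exact ⟨fun hg => (Commute.inv_right_iff.1 (hg : Commute g z⁻¹)).eq,
          fun hg => (Commute.inv_right (hg : Commute g z)).eq⟩
      simpa [sz, e] using hcop
    · rw [h]
  · obtain ⟨a, ha, hax, haw⟩ : ∃ a, a.Prime ∧ a ∣ sz x ∧ a ∣ sz (x * z) := by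
      by_contra hcon
      push Not at hcon
      refine key z x hxz.symm hx hcop.symm hpz (Nat.coprime_of_dvd fun q hq h1 h2 => hcon q hq h2 ?_)
      rwa [hxz.eq]
    obtain ⟨b, hb, hbz, hbw⟩ : ∃ b, b.Prime ∧ b ∣ sz z ∧ b ∣ sz (x * z) := by
      by_contra hcon
      push Not at hcon
      exact key x z hxz hz hcop hpx (Nat.coprime_of_dvd fun q hq h1 h2 => hcon q hq h2 h1)
    have hab : a ≠ b := fun e => ha.not_dvd_one (hcop ▸ Nat.dvd_gcd hax (e ▸ hbz))
    exact ⟨a, b, ha, hb, hab, hax, hbz, ((Nat.coprime_primes ha hb).2 hab).mul_dvd_of_dvd_of_dvd haw hbw⟩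

/-- A `p`-central element next to a non-central element of order `p`. -/
theorem exists_edge_p (P : Sylow p G) {x z : G} (hxP : x ∈ (P : Subgroup G)) (hzP : (P : Subgroup G) ≤ cz z)
    (hz : orderOf z = p) (hz1 : sz z ≠ 1) (hx : p ∣ orderOf x) (hpx : p ∣ sz x) :
    ∃ (g : G) (b : ℕ), b.Prime ∧ b ≠ p ∧ b ∣ sz z ∧ p ∣ orderOf g ∧ p * b ∣ sz g := by
  classical
  haveI := Fintype.ofFinite G
  have hpz : ¬ p ∣ sz z := fun h => P.not_dvd_index (h.trans (Subgroup.index_dvd_of_le hzP))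
  by_contra hcon
  have key : ∀ g : G, p ∣ orderOf g → p ∣ sz g → (sz g).Coprime (sz z) := by
    intro g hg hpg
    refine Nat.coprime_of_dvd fun b hb hbg hbz => hcon ⟨g, b, hb, fun e => hpz (e ▸ hbz), hbz, hg, ?_⟩
    exact ((Nat.coprime_primes hp.out hb).2 fun e => hpz (e ▸ hbz)).mul_dvd_of_dvd_of_dvd hpg hbg
  set C := cz z with hCdef
  -- every `p'`-element of `C` centralizes a Sylow subgroup
  have hq : ∀ q ∈ C, ¬ p ∣ orderOf q → ¬ p ∣ (C ⊓ cz q).index := by
    intro q hqC hqo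
    have hc : Commute z q := (mem_cz.1 hqC).symm
    have hcop : (orderOf z).Coprime (orderOf q) := by rw [hz]; exact hp.out.coprime_iff_not_dvd.2 hqo
    have e : cz (z * q) = C ⊓ cz q := cz_mul_of_coprime hc (pow_orderOf_eq_one z) (pow_orderOf_eq_one q) hcop
    rw [← e]
    intro h
    refine hz1 (Nat.eq_one_of_dvd_coprimes (key _ ?_ h) (Subgroup.index_dvd_of_le ?_) dvd_rfl)
    · rw [hc.orderOf_mul_eq_mul_orderOf_of_coprime hcop, hz]; exact dvd_mul_right _ _
    · rw [e]; exact inf_le_left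
  -- `P` is normal in `C`
  have hCN : C ≤ Subgroup.normalizer ((P : Subgroup G) : Set G) := by
    rw [← Subgroup.subgroupOf_eq_top]
    refine CfsgLib.TwoClasses.eq_top_of_conj_cover _ fun a => ?_
    obtain ⟨u, v, huv, hcuv, ⟨k, hk⟩, hv, huz, hvz⟩ := ZStar.exists_pPart hp.out (a : G)
    have huC : u ∈ C := (Subgroup.zpowers_le.2 a.2) huz
    have hvC : v ∈ C := (Subgroup.zpowers_le.2 a.2) hvz
    set H := C ⊓ cz v with hH
    have huH : u ∈ H := ⟨huC, mem_cz.2 hcuv.eq⟩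
    have hUp : IsPGroup p (Subgroup.zpowers (⟨u, huH⟩ : H)) :=
      IsPGroup.of_card (n := k) (by rw [Nat.card_zpowers, ← Subgroup.orderOf_coe]; exact hk)
    obtain ⟨S, hS⟩ := hUp.exists_le_sylow
    have hi : ¬ p ∣ ((S : Subgroup H).map H.subtype).index := by
      rw [Subgroup.index_map_subtype]
      exact fun h => (hp.out.dvd_mul.1 h).elim S.not_dvd_index (hq v hvC hv)
    set Q := (S.isPGroup'.map H.subtype).toSylow hi with hQ
    have hQH : (Q : Subgroup G) ≤ H := Subgroup.map_subtype_le _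
    have huQ : u ∈ (Q : Subgroup G) := ⟨⟨u, huH⟩, hS (Subgroup.mem_zpowers _), rfl⟩
    have hvQ : v ∈ Subgroup.normalizer ((Q : Subgroup G) : Set G) :=
      Subgroup.centralizer_le_normalizer _ (Subgroup.mem_centralizer_iff.2 fun w hw =>
        mem_cz.1 (hQH hw).2)
    obtain ⟨c, hc⟩ := MulAction.exists_smul_eq C (P.subtype hzP) (Q.subtype (hQH.trans inf_le_left))
    refine ⟨c, ?_⟩
    simp_rw [Sylow.smul_subtype, Subgroup.smul_def] at hc
    have hcQ : (c : G) • P = Q := Sylow.subtype_injective hc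
    have haQ : (a : G) ∈ Subgroup.normalizer ((Q : Subgroup G) : Set G) :=
      huv ▸ Subgroup.mul_mem _ (Subgroup.le_normalizer huQ) hvQ
    rw [Subgroup.mem_subgroupOf]
    refine Sylow.smul_eq_iff_mem_normalizer.1 ?_
    rw [Subgroup.coe_mul, Subgroup.coe_mul, Subgroup.coe_inv, mul_smul, mul_smul, hcQ,
      Sylow.smul_eq_iff_mem_normalizer.2 haQ, inv_smul_eq_iff, hcQ]
  have huniq : ∀ R : Sylow p G, (R : Subgroup G) ≤ C → R = P := by
    intro R hR
    obtain ⟨c, hc⟩ := MulAction.exists_smul_eq C (P.subtype hzP) (R.subtype hR)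
    simp_rw [Sylow.smul_subtype, Subgroup.smul_def] at hc
    rw [← Sylow.subtype_injective hc]
    exact Sylow.smul_eq_iff_mem_normalizer.2 (hCN c.2)
  have hcentz : ∀ t ∈ (P : Subgroup G), p ∣ orderOf t → p ∣ sz t → ∀ g : G, Commute t (g * z * g⁻¹) := by
    intro t htP ht hpt g
    obtain ⟨a, ha, b, hb, rfl⟩ := exists_mul_of_coprime (key t ht hpt) g
    have hbz : b * z * b⁻¹ = z := by rw [mem_cz.1 hb, mul_inv_cancel_right]
    rw [show a * b * z * (a * b)⁻¹ = a * (b * z * b⁻¹) * a⁻¹ by group, hbz]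
    have hat : Commute a t := mem_cz.1 ha
    exact (hat.symm.mul_right (show Commute t z from mem_cz.1 (hzP htP))).mul_right hat.symm.inv_right
  -- the class of `x` lies in `P`
  have hxconj : ∀ g : G, g * x * g⁻¹ ∈ (P : Subgroup G) := by
    intro g
    obtain ⟨d, hd, c, hc, rfl⟩ := exists_mul_of_coprime (key x hx hpx).symm g
    have hcx : c * x * c⁻¹ = x := by rw [mem_cz.1 hc, mul_inv_cancel_right]
    rw [show d * c * x * (d * c)⁻¹ = d * (c * x * c⁻¹) * d⁻¹ by group, hcx]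
    exact (Subgroup.mem_normalizer_iff.1 (hCN hd) x).1 hxP
  -- elements of class size prime to `p` commute with `x`
  have hcomm : ∀ t : G, ¬ p ∣ sz t → Commute t x := by
    intro t ht
    obtain ⟨g, hg⟩ := exists_conj_le P.isPGroup' ht
    have h1 := hg _ (hxconj g)
    rw [show g⁻¹ * (g * x * g⁻¹) * g = x by group] at h1
    exact (mem_cz.1 h1).symm
  -- `P` is generated by its elements outside the centralizer of `x`
  obtain ⟨u₀, hu₀P, hu₀⟩ : ∃ u ∈ (P : Subgroup G), ¬ Commute u x := by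
    by_contra h
    push Not at h
    exact P.not_dvd_index (hpx.trans (Subgroup.index_dvd_of_le fun u hu => mem_cz.2 (h u hu).eq))
  have hout : ∀ u ∈ (P : Subgroup G), ¬ Commute u x → p ∣ orderOf u ∧ p ∣ sz u := by
    intro u hu hux
    refine ⟨?_, by_contra fun h => hux (hcomm u h)⟩
    obtain ⟨k, hk⟩ := IsPGroup.iff_orderOf.1 P.isPGroup' ⟨u, hu⟩
    rw [← Subgroup.orderOf_coe] at hk
    rw [hk]
    refine dvd_pow_self p fun hk0 => hux ?_
    rw [hk0, pow_zero, orderOf_eq_one_iff] at hk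
    have hk' : u = 1 := hk
    rw [hk']
    exact Commute.one_left x
  have hind : ∀ Φ : G → Prop, (∀ u ∈ (P : Subgroup G), ¬ Commute u x → Φ u) →
      (∀ a ∈ (P : Subgroup G), ∀ b ∈ (P : Subgroup G), Φ a → Φ b → Φ (a * b⁻¹)) →
      ∀ u ∈ (P : Subgroup G), Φ u := by
    intro Φ h1 h2 u hu
    by_cases hux : Commute u x
    · have h3 : ¬ Commute (u * u₀) x := fun h => hu₀ (by
        have := hux.inv_left.mul_left h
        rwa [inv_mul_cancel_left] at this)
      have := h2 _ (Subgroup.mul_mem _ hu hu₀P) u₀ hu₀P (h1 _ (Subgroup.mul_mem _ hu hu₀P) h3) (h1 _ hu₀P hu₀)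
      rwa [mul_inv_cancel_right] at this
    · exact h1 u hu hux
  have hPC : ∀ g : G, ∀ u ∈ (P : Subgroup G), Commute u (g * z * g⁻¹) := fun g =>
    hind (fun u => Commute u (g * z * g⁻¹)) (fun u hu hux => hcentz u hu (hout u hu hux).1 (hout u hu hux).2 g)
      (fun a _ b _ ha hb => ha.mul_left hb.inv_left)
  have hnormP : ∀ g : G, g • P = P := by
    intro g
    refine huniq _ fun v hv => ?_
    have h1 := hPC g⁻¹ _ (Transfer.mem_smul_sylow_iff.1 hv)
    rw [inv_inv] at h1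
    have h2 := congrArg (fun y => g * y * g⁻¹) h1.eq
    refine mem_cz.2 ?_
    simpa [mul_assoc] using h2
  haveI hPn : (P : Subgroup G).Normal := by
    constructor
    intro v hv g
    exact (Subgroup.mem_normalizer_iff.1 (Sylow.smul_eq_iff_mem_normalizer.1 (hnormP g)) v).1 hv
  -- conjugation is trivial modulo the Frattini subgroup
  set Φ := (frattini (P : Subgroup G)).map (P : Subgroup G).subtype with hΦ
  have hΦconj : ∀ a ∈ (P : Subgroup G), ∀ w ∈ Φ, a * w * a⁻¹ ∈ Φ := by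
    rintro a ha _ ⟨w, hw, rfl⟩
    exact ⟨⟨a, ha⟩ * w * ⟨a, ha⟩⁻¹, (inferInstance : (frattini (P : Subgroup G)).Normal).conj_mem w hw _, rfl⟩
  have hcommΦ : ∀ a ∈ (P : Subgroup G), ∀ w ∈ (P : Subgroup G), a * w * a⁻¹ * w⁻¹ ∈ Φ := by
    intro a ha w hw
    refine ⟨⟨a, ha⟩ * ⟨w, hw⟩ * ⟨a, ha⟩⁻¹ * ⟨w, hw⟩⁻¹, ?_, rfl⟩
    exact CfsgLib.CoprimeAction.commutator_le_frattini' P.isPGroup'
      (Subgroup.commutator_mem_commutator (Subgroup.mem_top _) (Subgroup.mem_top _))
  have htriv : ∀ g : G, ∀ u ∈ (P : Subgroup G), g * u * g⁻¹ * u⁻¹ ∈ Φ := by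
    intro g
    refine hind (fun u => g * u * g⁻¹ * u⁻¹ ∈ Φ) (fun u hu hux => ?_) (fun a ha b hb h1 h2 => ?_)
    · obtain ⟨hou, hpu⟩ := hout u hu hux
      obtain ⟨d, hd, c, hc, rfl⟩ := exists_mul_of_coprime (key u hou hpu).symm g
      have hcu : c * u * c⁻¹ = u := by rw [mem_cz.1 hc, mul_inv_cancel_right]
      rw [show d * c * u * (d * c)⁻¹ = d * (c * u * c⁻¹) * d⁻¹ by group, hcu]
      -- `d` acts on `P` as its `p`-part
      obtain ⟨a, b, hab, -, ⟨k, hk⟩, hb, -, hbz⟩ := ZStar.exists_pPart hp.out d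
      obtain ⟨R, hR⟩ := (IsPGroup.of_card (p := p) (n := k)
        (by rw [Nat.card_zpowers]; exact hk) : IsPGroup p (Subgroup.zpowers a)).exists_le_sylow
      have haP : a ∈ (P : Subgroup G) := by
        obtain ⟨g, hg⟩ := MulAction.exists_smul_eq G P R
        have := hR (Subgroup.mem_zpowers a)
        rwa [← hg, hnormP g] at this
      have hbC : b ∈ C := (Subgroup.zpowers_le.2 hd) hbz
      obtain ⟨g, hg⟩ := exists_conj_le P.isPGroup' (hq b hbC hb)
      have hbu : b * u * b⁻¹ = u := by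
        have h3 := hg _ (hPn.conj_mem u hu g)
        rw [show g⁻¹ * (g * u * g⁻¹) * g = u by group] at h3
        rw [← (mem_cz.1 h3.2 : u * b = b * u), mul_inv_cancel_right]
      rw [← hab, show a * b * u * (a * b)⁻¹ = a * (b * u * b⁻¹) * a⁻¹ by group, hbu]
      exact hcommΦ a haP u hu
    · have hy : a * b⁻¹ ∈ (P : Subgroup G) := Subgroup.mul_mem _ ha (Subgroup.inv_mem _ hb)
      rw [show g * (a * b⁻¹) * g⁻¹ * (a * b⁻¹)⁻¹ =
        g * a * g⁻¹ * a⁻¹ * (a * b⁻¹ * (g * b * g⁻¹ * b⁻¹)⁻¹ * (a * b⁻¹)⁻¹) by group]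
      exact Subgroup.mul_mem _ h1 (hΦconj _ hy _ (Subgroup.inv_mem _ h2))
  have hzmem : z ∈ (P : Subgroup G) := by
    obtain ⟨R, hR⟩ := (IsPGroup.of_card (p := p) (n := 1)
      (by rw [Nat.card_zpowers, hz, pow_one]) : IsPGroup p (Subgroup.zpowers z)).exists_le_sylow
    obtain ⟨g, hg⟩ := MulAction.exists_smul_eq G P R
    have := hR (Subgroup.mem_zpowers z)
    rwa [← hg, hnormP g] at this
  refine hz1 (Subgroup.index_eq_one.2 (eq_top_iff.2 fun g _ => mem_cz.2 ?_))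
  obtain ⟨a, b, hab, -, ⟨k, hk⟩, hb, -, -⟩ := ZStar.exists_pPart hp.out g
  obtain ⟨R, hR⟩ := (IsPGroup.of_card (p := p) (n := k)
    (by rw [Nat.card_zpowers]; exact hk) : IsPGroup p (Subgroup.zpowers a)).exists_le_sylow
  have haP : a ∈ (P : Subgroup G) := by
    obtain ⟨g, hg⟩ := MulAction.exists_smul_eq G P R
    have := hR (Subgroup.mem_zpowers a)
    rwa [← hg, hnormP g] at this
  have hbP := CfsgLib.CoprimeAction.le_centralizer_of_frattini (K := (P : Subgroup G)) (A := Subgroup.zpowers b) (by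
      rw [Nat.card_zpowers]
      refine Nat.Coprime.coprime_dvd_right (Subgroup.card_subgroup_dvd_card _) ?_
      obtain ⟨e, he⟩ := IsPGroup.iff_card.1 P.isPGroup'
      rw [he]
      exact ((hp.out.coprime_iff_not_dvd.2 hb).pow_left e).symm) (fun c _ => htriv c)
  have hbz : Commute b z := (Subgroup.mem_centralizer_iff.1 (hbP (Subgroup.mem_zpowers b)) z hzmem).symm
  have haz : Commute a z := mem_cz.1 (hzP haP)
  rw [← hab]
  exact (haz.mul_left hbz).eq

/-- Linking the class sizes of two elements of order `p`. -/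
theorem exists_pair (hZ : ¬ p ∣ Nat.card ↥(Subgroup.center G)) {x y : G} (hx : orderOf x = p) (hy : orderOf y = p) :
    ∃ a b : ℕ, a.Prime ∧ b.Prime ∧ a ∣ sz x ∧ b ∣ sz y ∧ (a = b ∨ ∃ g : G, p ∣ orderOf g ∧ a * b ∣ sz g) := by
  classical
  by_cases hcop : (sz x).Coprime (sz y)
  swap
  · obtain ⟨a, ha, h1, h2⟩ := Nat.Prime.not_coprime_iff_dvd.1 hcop
    exact ⟨a, a, ha, ha, h1, h2, Or.inl rfl⟩
  obtain ⟨P⟩ : Nonempty (Sylow p G) := inferInstance
  -- conjugate a `p`-central element into the centre of `P`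
  have hmove : ∀ v : G, orderOf v = p → ¬ p ∣ sz v →
      ∃ g : G, (P : Subgroup G) ≤ cz (g * v * g⁻¹) ∧ orderOf (g * v * g⁻¹) = p ∧ sz (g * v * g⁻¹) = sz v := by
    intro v hv hpv
    obtain ⟨g, hg⟩ := exists_conj_le P.isPGroup' hpv
    refine ⟨g, fun w hw => mem_cz.2 ?_, ?_, sz_conj g v⟩
    · have h1 : g⁻¹ * w * g * v = v * (g⁻¹ * w * g) := mem_cz.1 (hg w hw)
      have h2 := congrArg (fun y => g * y * g⁻¹) h1
      simpa [mul_assoc] using h2
    · rw [← hv]
      exact orderOf_injective (MulAut.conj g).toMonoidHom (MulAut.conj g).injective v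
  have hcentral : ∀ u v : G, orderOf u = p → orderOf v = p → (sz u).Coprime (sz v) → p ∣ sz u →
      ∃ b : ℕ, b.Prime ∧ b ∣ sz v ∧ ∃ g : G, p ∣ orderOf g ∧ p * b ∣ sz g := by
    intro u v hu hv hc hpu
    have hpv : ¬ p ∣ sz v := fun h => hp.out.not_dvd_one (hc ▸ Nat.dvd_gcd hpu h)
    obtain ⟨g, hg, hgo, hgs⟩ := hmove v hv hpv
    obtain ⟨R, hR⟩ := (IsPGroup.of_card (p := p) (n := 1)
      (by rw [Nat.card_zpowers, hu, pow_one]) : IsPGroup p (Subgroup.zpowers u)).exists_le_sylow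
    obtain ⟨h, hh⟩ := MulAction.exists_smul_eq G R P
    have huP : h * u * h⁻¹ ∈ (P : Subgroup G) := by
      rw [← hh]
      refine Transfer.mem_smul_sylow_iff.2 ?_
      rw [show h⁻¹ * (h * u * h⁻¹) * h = u by group]
      exact hR (Subgroup.mem_zpowers u)
    obtain ⟨w, b, hb, -, hbz, hw, hdiv⟩ := exists_edge_p P huP hg hgo (by rw [hgs]; exact sz_ne_one hZ hv)
      (by rw [show orderOf (h * u * h⁻¹) = p from (orderOf_injective (MulAut.conj h).toMonoidHom
        (MulAut.conj h).injective u).trans hu])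
      (by rw [sz_conj]; exact hpu)
    exact ⟨b, hb, hgs ▸ hbz, w, hw, hdiv⟩
  by_cases hpx : p ∣ sz x
  · obtain ⟨b, hb, hby, g, hg, hd⟩ := hcentral x y hx hy hcop hpx
    exact ⟨p, b, hp.out, hb, hpx, hby, Or.inr ⟨g, hg, hd⟩⟩
  by_cases hpy : p ∣ sz y
  · obtain ⟨a, ha, hax, g, hg, hd⟩ := hcentral y x hy hx hcop.symm hpy
    exact ⟨a, p, ha, hp.out, hax, hpy, Or.inr ⟨g, hg, by rwa [mul_comm]⟩⟩
  obtain ⟨g, hg, hgo, hgs⟩ := hmove x hx hpx
  obtain ⟨h, hh, hho, hhs⟩ := hmove y hy hpy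
  obtain ⟨R, hR⟩ := (IsPGroup.of_card (p := p) (n := 1)
    (by rw [Nat.card_zpowers, hgo, pow_one]) : IsPGroup p (Subgroup.zpowers (g * x * g⁻¹))).exists_le_sylow
  -- both are central in `P`, hence they commute
  have hgP : g * x * g⁻¹ ∈ Subgroup.normalizer ((P : Subgroup G) : Set G) :=
    Subgroup.centralizer_le_normalizer _ (Subgroup.mem_centralizer_iff.2 fun w hw => mem_cz.1 (hg hw))
  have hgmem : g * x * g⁻¹ ∈ (P : Subgroup G) := by
    have hle : Subgroup.zpowers (g * x * g⁻¹) ≤ Subgroup.normalizer ((P : Subgroup G) : Set G) :=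
      Subgroup.zpowers_le.2 hgP
    have hsup : IsPGroup p ((Subgroup.zpowers (g * x * g⁻¹) ⊔ (P : Subgroup G) : Subgroup G)) :=
      (IsPGroup.of_card (p := p) (n := 1) (by rw [Nat.card_zpowers, hgo, pow_one])).to_sup_of_normal_right'
        P.isPGroup' hle
    exact (P.is_maximal' hsup le_sup_right).le (Subgroup.mem_sup_left (Subgroup.mem_zpowers _))
  have hcm : Commute (g * x * g⁻¹) (h * y * h⁻¹) := mem_cz.1 (hh hgmem)
  obtain ⟨hw, a, b, ha, hb, -, hax, hby, hd⟩ := exists_link hZ hcm hgo hho (by rwa [hgs, hhs]) (by rwa [hgs])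
    (by rwa [hhs])
  exact ⟨a, b, ha, hb, hgs ▸ hax, hhs ▸ hby, Or.inr ⟨_, hw, hd⟩⟩

/-- Let `G` be a finite group and `p` a prime not dividing the order of the centre of `G`. Consider the primes dividing the size of some conjugacy class of a `p`-singular element (an element of order divisible by `p`), two of them adjacent when their product divides such a class size. Then any two distinct such primes are joined by a path with at most 3 edges (the graph is connected of diameter at most 3). -/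
theorem result {G : Type*} [Group G] [Finite G] (p : ℕ) [Fact p.Prime]
    (hZ : ¬ p ∣ Nat.card ↥(Subgroup.center G)) (r s : ℕ) (hr : (r.Prime ∧ ∃ x : G, p ∣ orderOf x ∧ r ∣ (Subgroup.centralizer ({x} : Set G)).index)) (hs : (s.Prime ∧ ∃ x : G, p ∣ orderOf x ∧ s ∣ (Subgroup.centralizer ({x} : Set G)).index)) (hrs : r ≠ s) :
    (∃ x : G, p ∣ orderOf x ∧ r * s ∣ (Subgroup.centralizer ({x} : Set G)).index) ∨ (∃ t : ℕ, (t.Prime ∧ ∃ x : G, p ∣ orderOf x ∧ t ∣ (Subgroup.centralizer ({x} : Set G)).index) ∧ t ≠ r ∧ t ≠ s ∧ (∃ x : G, p ∣ orderOf x ∧ r * t ∣ (Subgroup.centralizer ({x} : Set G)).index) ∧ (∃ x : G, p ∣ orderOf x ∧ t * s ∣ (Subgroup.centralizer ({x} : Set G)).index)) ∨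
      (∃ t u : ℕ, (t.Prime ∧ ∃ x : G, p ∣ orderOf x ∧ t ∣ (Subgroup.centralizer ({x} : Set G)).index) ∧ (u.Prime ∧ ∃ x : G, p ∣ orderOf x ∧ u ∣ (Subgroup.centralizer ({x} : Set G)).index) ∧ t ≠ r ∧ u ≠ s ∧ t ≠ u ∧ (∃ x : G, p ∣ orderOf x ∧ r * t ∣ (Subgroup.centralizer ({x} : Set G)).index) ∧ (∃ x : G, p ∣ orderOf x ∧ t * u ∣ (Subgroup.centralizer ({x} : Set G)).index) ∧ (∃ x : G, p ∣ orderOf x ∧ u * s ∣ (Subgroup.centralizer ({x} : Set G)).index)) := by
  classical
  obtain ⟨hrp, gr, hgr, hrd⟩ := hr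
  obtain ⟨hsp, gs, hgs, hsd⟩ := hs
  set x := gr ^ (orderOf gr / p) with hxdef
  set y := gs ^ (orderOf gs / p) with hydef
  have hx : orderOf x = p := orderOf_pow_orderOf_div (orderOf_pos gr).ne' hgr
  have hy : orderOf y = p := orderOf_pow_orderOf_div (orderOf_pos gs).ne' hgs
  obtain ⟨a, b, ha, hb, hax, hby, hab⟩ := exists_pair hZ hx hy
  have har : a ∣ (Subgroup.centralizer ({gr} : Set G)).index :=
    hax.trans (Subgroup.index_dvd_of_le (cz_le_pow gr _))
  have hbs : b ∣ (Subgroup.centralizer ({gs} : Set G)).index :=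
    hby.trans (Subgroup.index_dvd_of_le (cz_le_pow gs _))
  have hadj : ∀ {c d : ℕ} {g : G}, c.Prime → d.Prime → c ≠ d → p ∣ orderOf g →
      c ∣ (Subgroup.centralizer ({g} : Set G)).index → d ∣ (Subgroup.centralizer ({g} : Set G)).index →
      ∃ x : G, p ∣ orderOf x ∧ c * d ∣ (Subgroup.centralizer ({x} : Set G)).index := fun hc hd hne hg h1 h2 =>
    ⟨_, hg, ((Nat.coprime_primes hc hd).2 hne).mul_dvd_of_dvd_of_dvd h1 h2⟩
  have hVa : a.Prime ∧ ∃ x : G, p ∣ orderOf x ∧ a ∣ (Subgroup.centralizer ({x} : Set G)).index :=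
    ⟨ha, gr, hgr, har⟩
  have hVb : b.Prime ∧ ∃ x : G, p ∣ orderOf x ∧ b ∣ (Subgroup.centralizer ({x} : Set G)).index :=
    ⟨hb, gs, hgs, hbs⟩
  by_cases hbr : b = r
  · exact Or.inl (hadj hrp hsp hrs hgs (hbr ▸ hbs) hsd)
  by_cases has : a = s
  · exact Or.inl (hadj hrp hsp hrs hgr hrd (has ▸ har))
  by_cases hab' : a = b
  · subst hab'
    exact Or.inr (Or.inl ⟨a, hVa, hbr, has, hadj hrp ha (Ne.symm hbr) hgr hrd har, hadj ha hsp has hgs hbs hsd⟩)
  obtain ⟨w, hw, hwd⟩ := hab.resolve_left hab'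
  by_cases har' : a = r
  · subst har'
    by_cases hbs' : b = s
    · exact Or.inl ⟨w, hw, hbs' ▸ hwd⟩
    · exact Or.inr (Or.inl ⟨b, hVb, hbr, hbs', ⟨w, hw, hwd⟩, hadj hb hsp hbs' hgs hbs hsd⟩)
  by_cases hbs' : b = s
  · subst hbs'
    exact Or.inr (Or.inl ⟨a, hVa, har', has, hadj hrp ha (Ne.symm har') hgr hrd har, ⟨w, hw, hwd⟩⟩)
  exact Or.inr (Or.inr ⟨a, b, hVa, hVb, har', hbs', hab', hadj hrp ha (Ne.symm har') hgr hrd har,
    ⟨w, hw, hwd⟩, hadj hb hsp hbs' hgs hbs hsd⟩)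

end Cfsg.Agent.S4321
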