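import Cfsg.Statements.S4416
import Cfsg.Agent.PGroup.ExtraspecialCount

set_option autoImplicit false
open Cfsg

namespace Cfsg.Agent.S4416

/-- Classification of extraspecial 2-groups in intrinsic form. An extraspecial 2-group has order 2^(2m+1) for some m ≥ 1, and the number of its elements squaring to the identity is either 2^(2m) + 2^m or 2^(2m) − 2^m; two extraspecial 2-groups of the same order with the same number of such elements are isomorphic. (The two cases are the central products of m dihedral groups of order 8, and of m − 1 dihedral groups with one quaternion group.) -/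
theorem result (E : Type*) [Group E] [Finite E] (hE : Cfsg.IsExtraspecial 2 E) :
    (∃ m : ℕ, 1 ≤ m ∧ Nat.card E = 2 ^ (2 * m + 1) ∧
      (Nat.card {x : E // x ^ 2 = 1} = 2 ^ (2 * m) + 2 ^ m ∨ Nat.card {x : E // x ^ 2 = 1} = 2 ^ (2 * m) - 2 ^ m)) ∧
    ∀ (E' : Type*) [Group E'] [Finite E'], Cfsg.IsExtraspecial 2 E' → Nat.card E' = Nat.card E →
      Nat.card {x : E' // x ^ 2 = 1} = Nat.card {x : E // x ^ 2 = 1} → Nonempty (E ≃* E') := by
  obtain ⟨m, hm1, hm⟩ := CfsgLib.Extraspecial.exists_card hE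
  have h := CfsgLib.Extraspecial.xs_of_isExtraspecial hE
  obtain ⟨c1, c2⟩ := CfsgLib.Extraspecial.card_sq_eq_one m E h hm
  refine ⟨⟨m, hm1, hm, ?_⟩, fun E' _ _ hE' hc hI => ?_⟩
  · by_cases hP : CfsgLib.Extraspecial.IsPlus m E
    · exact Or.inl (c1 hP)
    · exact Or.inr (c2 hP)
  have h' := CfsgLib.Extraspecial.xs_of_isExtraspecial hE'
  have hm' := hc.trans hm
  obtain ⟨d1, d2⟩ := CfsgLib.Extraspecial.card_sq_eq_one m E' h' hm'
  refine CfsgLib.Extraspecial.iso_two m E E' h h' hm hm' ?_
  have hpos : 0 < 2 ^ m := pow_pos (by norm_num) m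
  have hle : 2 ^ m ≤ 2 ^ (2 * m) := Nat.pow_le_pow_right (by norm_num) (by omega)
  constructor
  · intro hP; by_contra hP'
    rw [c1 hP, d2 hP'] at hI; omega
  · intro hP'; by_contra hP
    rw [c2 hP, d1 hP'] at hI; omega

end Cfsg.Agent.S4416
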