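import Cfsg.Statements.S4422
-- import your own Cfsg.Agent.* helpers here

set_option autoImplicit false
open Cfsg

namespace Cfsg.Agent.S4422

theorem prime_mod (q e m : ℕ) (hq : 2 ≤ q) (he : 1 ≤ e)
    (hm : m ∣ q ^ e - 1) (hcop : ∀ i : ℕ, 1 ≤ i → i < e → Nat.Coprime m (q ^ i - 1))
    (r : ℕ) (hr : r.Prime) (hrm : r ∣ m) : r % e = 1 % e := by
  haveI := Fact.mk hr
  have hcast : ∀ i : ℕ, (q : ZMod r) ^ i = 1 ↔ r ∣ q ^ i - 1 := by
    intro i
    rw [← CharP.cast_eq_zero_iff (ZMod r) r, Nat.cast_sub (Nat.one_le_pow _ _ (by omega)), sub_eq_zero]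
    simp
  have hqe : (q : ZMod r) ^ e = 1 := (hcast e).2 (hrm.trans hm)
  have hord : orderOf (q : ZMod r) = e := by
    rw [orderOf_eq_iff (by omega)]
    refine ⟨hqe, fun i hi hi0 h => ?_⟩
    have := Nat.dvd_gcd hrm ((hcast i).1 h)
    rw [(hcop i hi0 hi).gcd_eq_one] at this
    exact hr.one_lt.ne' (Nat.dvd_one.1 this)
  have hne : (q : ZMod r) ≠ 0 := by
    intro h0; rw [h0, zero_pow (by omega)] at hqe; exact zero_ne_one hqe
  have hdvd : e ∣ r - 1 := hord ▸ orderOf_dvd_of_pow_eq_one (ZMod.pow_card_sub_one_eq_one hne)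
  obtain ⟨c, hc⟩ := hdvd
  have : r = 1 + e * c := by have := hr.one_lt; omega
  rw [this, Nat.add_mul_mod_self_left]

/-- Primitive divisors of `q^e - 1` are congruent to 1 modulo `e`. Let `q ≥ 2` and `e ≥ 1` be natural numbers and let `m` be a divisor of `q^e - 1` that is coprime to `q^i - 1` for every `1 ≤ i < e` (so `m` divides the primitive part of `q^e - 1`, the largest such divisor). Then `m ≡ 1 (mod e)`. -/
theorem result (q e m : ℕ) (hq : 2 ≤ q) (he : 1 ≤ e)
    (hm : m ∣ q ^ e - 1) (hcop : ∀ i : ℕ, 1 ≤ i → i < e → Nat.Coprime m (q ^ i - 1)) :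
    m % e = 1 % e := by
  have key : ∀ d : ℕ, d ∣ m → d % e = 1 % e := by
    intro d
    induction d using Nat.strong_induction_on with
    | _ d ih =>
      intro hd
      have hm0 : m ≠ 0 := by
        rintro rfl
        have := Nat.zero_dvd.1 hm
        have := Nat.one_lt_pow (Nat.one_le_iff_ne_zero.1 he) (by omega : 1 < q)
        omega
      by_cases hd1 : d = 1
      · rw [hd1]
      have hr := Nat.minFac_prime hd1
      obtain ⟨k, hk⟩ := Nat.minFac_dvd d
      have hd0 : 0 < d := Nat.pos_of_dvd_of_pos hd (Nat.pos_of_ne_zero hm0)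
      have hk0 : 0 < k := by
        rcases Nat.eq_zero_or_pos k with rfl | h
        · omega
        · exact h
      have hklt : k < d := by rw [hk]; exact lt_mul_of_one_lt_left hk0 hr.one_lt
      have h1 := prime_mod q e m hq he hm hcop _ hr ((Nat.minFac_dvd d).trans hd)
      have h2 := ih k hklt ((dvd_of_mul_left_eq _ hk.symm).trans hd)
      rw [hk, Nat.mul_mod, h1, h2, ← Nat.mul_mod, one_mul]
  exact key m dvd_rfl

end Cfsg.Agent.S4422
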