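import Cfsg.Statements.S4424
import Cfsg.Agent.Blocks.Idempotent
import Cfsg.Agent.BrauerInd.Regular

set_option autoImplicit false
open Cfsg

namespace Cfsg.Agent.S4424

/-- Let χ be an irreducible character of the finite group G lying in the p-block B (relative to a maximal ideal M of the algebraic integers containing p), and let p^a be the p-part of the order of G. Then the class function that equals p^a · χ on the p-regular elements and vanishes on the p-singular elements is an integer combination of the irreducible characters in B: there are integers a_ψ, zero for ψ outside B, with that function equal to Σ a_ψ ψ. -/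
theorem result {G : Type*} [Group G] [Finite G] (p : ℕ) [Fact p.Prime] (M : Ideal Cfsg.AlgInt) (hM : Cfsg.IsPModular p M) (B : Set (Cfsg.IrrCharacter G)) (hB : Cfsg.IsPBlock M B) (χ : Cfsg.IrrCharacter G) (hχ : χ ∈ B) : ∃ a : Cfsg.IrrCharacter G → ℤ, (∀ ψ, ψ ∉ B → a ψ = 0) ∧ (fun x : G => if p ∣ orderOf x then (0 : ℂ) else ((p ^ (Nat.card G).factorization p : ℕ) : ℂ) * (χ : G → ℂ) x) = fun x => ∑ᶠ ψ : Cfsg.IrrCharacter G, (a ψ : ℂ) * (ψ : G → ℂ) x := by
  classical
  haveI := Fintype.ofFinite G
  haveI : Fintype (Cfsg.IrrCharacter G) := @Fintype.ofFinite _ CfsgLib.CharBasics.finite_irrCharacter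
  set f : G → ℂ := fun x : G => if p ∣ orderOf x then (0 : ℂ) else ((p ^ (Nat.card G).factorization p : ℕ) : ℂ) * (χ : G → ℂ) x with hf
  have hgen : f ∈ CfsgLib.BrauerInd.genChar G := by
    have h := CfsgLib.BrauerInd.genChar_mul (CfsgLib.BrauerInd.pRegular_indicator_mem_genChar (G := G) p)
      (AddSubgroup.subset_closure (CfsgLib.CharBasics.isCharacter_of_irr χ.2))
    convert h using 1
    funext x
    simp only [hf, Pi.mul_apply]
    split_ifs <;> simp
  choose a ha using fun ψ : Cfsg.IrrCharacter G =>
    CfsgLib.BrauerInd.classInner_genChar hgen (CfsgLib.CharBasics.isCharacter_of_irr ψ.2)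
  have hcls : Cfsg.IsClassFunction G f := by
    intro g h
    have ho : orderOf (h * g * h⁻¹) = orderOf g := (MulAut.conj h).orderOf_eq g
    simp only [hf, ho, CfsgLib.CharBasics.isClassFunction (CfsgLib.CharBasics.isCharacter_of_irr χ.2) g h]
  have hB' : ∀ ψ, ψ ∉ B → Cfsg.classInner f (ψ : G → ℂ) = 0 := by
    intro ψ hψ
    have hbp : ∀ θ : G → ℂ, Cfsg.blockPart B θ = ∑ ξ : Cfsg.IrrCharacter G,
        (if ξ ∈ B then Cfsg.classInner θ (ξ : G → ℂ) else 0) • (ξ : G → ℂ) := by
      intro θ
      funext g
      simp only [Cfsg.blockPart, finsum_mem_def, finsum_eq_sum_of_fintype, Set.indicator_apply, Finset.sum_apply,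
        Pi.smul_apply, smul_eq_mul, ite_mul, zero_mul]
      refine Finset.sum_congr rfl fun ξ _ => ?_
      by_cases hξ : ξ ∈ B
      · simp only [hξ, if_true, finsum_true]
        congr! 2
      · simp [hξ]
    let θ : G → ℂ := ((p ^ (Nat.card G).factorization p : ℕ) : ℂ) • (χ : G → ℂ)
    have hθ : Cfsg.blockPart B θ = θ := by
      rw [hbp, Finset.sum_eq_single χ]
      · rw [if_pos hχ, CfsgLib.CharBasics.classInner_smul_left, CfsgLib.CharBasics.classInner_irr, if_pos rfl, mul_one]
      · intro ξ _ hne
        rw [CfsgLib.CharBasics.classInner_smul_left, CfsgLib.CharBasics.classInner_irr, if_neg (Ne.symm hne), mul_zero]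
        simp
      · simp
    have hfix : Cfsg.blockPart B f = f := by
      funext g
      have h := CfsgLib.Blocks.blockPart_cut hM hB θ g
      rw [hθ] at h
      exact h
    conv_lhs => rw [← hfix, hbp]
    rw [CfsgLib.CharBasics.classInner_sum_left, Finset.sum_eq_zero]
    intro ξ _
    rw [CfsgLib.CharBasics.classInner_smul_left, CfsgLib.CharBasics.classInner_irr]
    by_cases hξ : ξ = ψ
    · rw [hξ, if_neg hψ, zero_mul]
    · rw [if_neg hξ, mul_zero]
  refine ⟨a, fun ψ hψ => ?_, ?_⟩
  · have h := (ha ψ).symm.trans (hB' ψ hψ)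
    exact_mod_cast h
  · funext x
    conv_lhs => rw [show f x = _ from congrFun (CfsgLib.CharBasics.classFun_expand hcls) x]
    rw [finsum_eq_sum_of_fintype, Finset.sum_apply]
    exact Finset.sum_congr rfl fun ψ _ => by rw [Pi.smul_apply, smul_eq_mul, ha ψ]

end Cfsg.Agent.S4424
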