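import Cfsg.Statements.S4425
import Cfsg.Agent.BrauerInd.Regular
import Cfsg.Agent.CharBasics.Central

set_option autoImplicit false
open Cfsg

namespace Cfsg.Agent.S4425

open CfsgLib

theorem restrict_genChar {G : Type*} [Group G] {f : G → ℂ} (hf : f ∈ BrauerInd.genChar G)
    (H : Subgroup G) : (fun h : H => f h) ∈ BrauerInd.genChar H := by
  obtain ⟨a, b, ha, hb, rfl⟩ := BrauerInd.mem_genChar.1 hf
  exact BrauerInd.mem_genChar.2 ⟨_, _, CharBasics.isCharacter_restrict ha H,
    CharBasics.isCharacter_restrict hb H, rfl⟩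

theorem isIntegral_natC (n : ℕ) : IsIntegral ℤ (n : ℂ) := by
  simpa using isIntegral_algebraMap (R := ℤ) (A := ℂ) (x := (n : ℤ))

set_option maxHeartbeats 400000 in
theorem key {G : Type*} [Group G] [Fintype G] (p : ℕ) [Fact p.Prime] (χ : Cfsg.IrrCharacter G) :
    (fun x : G => if p ∣ orderOf x then (0 : ℂ) else
      ((p ^ ((Nat.card G).factorization p - (Cfsg.charDegree (χ : G → ℂ)).factorization p) : ℕ) : ℂ) *
        (χ : G → ℂ) x) ∈ BrauerInd.genChar G := by
  classical
  have hp : p.Prime := Fact.out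
  set d := Cfsg.charDegree (χ : G → ℂ) with hd
  set a := (Nat.card G).factorization p with ha
  set b := d.factorization p with hb
  have hd0 : d ≠ 0 := (CharBasics.charDegree_pos χ.2).ne'
  have hba : b ≤ a :=
    (Nat.factorization_le_iff_dvd hd0 Nat.card_pos.ne').2 (CharBasics.degree_dvd χ) p
  set θ : G → ℂ := fun x => if p ∣ orderOf x then (0 : ℂ) else
      ((p ^ (a - b) : ℕ) : ℂ) * (χ : G → ℂ) x with hθdef
  have hχc := CharBasics.isCharacter_of_irr χ.2
  have hθclass : Cfsg.IsClassFunction G θ := by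
    intro g h
    simp only [hθdef]
    rw [show orderOf (h * g * h⁻¹) = orderOf g from
      orderOf_injective (MulAut.conj h).toMonoidHom (MulAut.conj h).injective g,
      CharBasics.isClassFunction hχc]
  set g' := Nat.card G / p ^ a with hg'
  have hg'd : g' * p ^ a = Nat.card G := Nat.div_mul_cancel (Nat.ordProj_dvd _ _)
  have hg'p : ¬ p ∣ g' := Nat.not_dvd_ordCompl hp Nat.card_pos.ne'
  refine BrauerInd.mem_genChar_of_elementary hθclass fun E hE => ?_
  haveI := Fintype.ofFinite E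
  haveI := Fintype.ofFinite (Cfsg.IrrCharacter E)
  have hcop : ∀ x : G, (orderOf x).Coprime (p ^ a) ↔ ¬ p ∣ orderOf x := by
    intro x
    rcases Nat.eq_zero_or_pos a with h0 | h0
    · refine iff_of_true (by simp [h0]) fun h => ?_
      have h1 : 0 < a := hp.factorization_pos_of_dvd Nat.card_pos.ne' (h.trans (orderOf_dvd_natCard x))
      omega
    · rw [Nat.coprime_pow_right_iff h0, Nat.coprime_comm, hp.coprime_iff_not_dvd]
  obtain ⟨N, hN, hmem, hidx, hcomm⟩ := BrauerInd.exists_split hE g' (p ^ a)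
    ((Subgroup.card_subgroup_dvd_card E).trans hg'd.symm.dvd)
    ((hp.coprime_iff_not_dvd.2 hg'p).symm.pow_right _)
  obtain ⟨e, -, he⟩ := (Nat.dvd_prime_pow hp).1 hidx
  have hC : ∀ u : E, u ∈ N → p ^ e ∣ Nat.card (Subgroup.centralizer ({(u : G)} : Set G)) := by
    intro u hu
    obtain ⟨S⟩ : Nonempty (Sylow p E) := inferInstance
    have hle : (S : Subgroup E).map E.subtype ≤ Subgroup.centralizer ({(u : G)} : Set G) := by
      rintro _ ⟨s, hs, rfl⟩
      obtain ⟨j, hj⟩ := IsPGroup.iff_orderOf.1 S.2 ⟨s, hs⟩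
      rw [Subgroup.orderOf_mk] at hj
      have h := hcomm u hu s (by rw [hj]; exact (hp.coprime_iff_not_dvd.2 hg'p).pow_left j)
      exact Subgroup.mem_centralizer_iff.2 fun y hy => by
        rw [Set.mem_singleton_iff.1 hy]
        exact congrArg Subtype.val h.eq
    refine Nat.dvd_trans ?_ (Subgroup.card_dvd_of_le hle)
    rw [Subgroup.card_map_of_injective E.subtype_injective, S.card_eq_multiplicity]
    have h1 : p ^ e ∣ Nat.card E := he ▸ N.index_dvd_card
    exact pow_dvd_pow p ((hp.pow_dvd_iff_le_factorization Nat.card_pos.ne').1 h1)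
  have hθE : Cfsg.IsClassFunction E (fun x : E => θ x) := fun g h => hθclass g h
  rw [CharBasics.classFun_expand hθE]
  refine AddSubgroup.sum_mem _ fun ψ _ => ?_
  set z := Cfsg.classInner (fun x : E => θ x) (ψ : E → ℂ) with hz
  have hfg : (fun x : G => if p ∣ orderOf x then (0 : ℂ) else ((p ^ a : ℕ) : ℂ)) * (χ : G → ℂ) ∈
      BrauerInd.genChar G :=
    BrauerInd.genChar_mul (BrauerInd.pRegular_indicator_mem_genChar p) (AddSubgroup.subset_closure hχc)
  obtain ⟨Z, hZ⟩ := BrauerInd.classInner_genChar (restrict_genChar hfg E)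
    (CharBasics.isCharacter_of_irr ψ.2)
  have hZz : (p : ℂ) ^ b * z = Z := by
    rw [← hZ, hz, ← CharBasics.classInner_smul_left]
    refine congrArg (fun f => Cfsg.classInner f (ψ : E → ℂ)) ?_
    funext x
    simp only [hθdef, Pi.smul_apply, Pi.mul_apply, smul_eq_mul]
    split_ifs
    · ring
    · rw [Nat.cast_pow, Nat.cast_pow, ← mul_assoc, ← pow_add, Nat.add_sub_cancel' hba]
  have hint : IsIntegral ℤ ((Nat.card N * g' : ℕ) * z) := by
    have hdeg : (χ : G → ℂ) 1 = (d : ℂ) := CharBasics.apply_one hχc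
    have hd' : d = p ^ b * (d / p ^ b) := (Nat.ordProj_mul_ordCompl_eq_self d p).symm
    have hterm : ∀ u : E, ((Nat.card N * g' : ℕ) : ℂ) * ((Nat.card E : ℂ)⁻¹ *
        (θ u * starRingEnd ℂ ((ψ : E → ℂ) u))) =
        if u ∈ N then Cfsg.centralChar (χ : G → ℂ) u * ((d / p ^ b : ℕ) : ℂ) *
          ((Nat.card (Subgroup.centralizer ({(u : G)} : Set G)) / p ^ e : ℕ) : ℂ) *
          starRingEnd ℂ ((ψ : E → ℂ) u) else 0 := by
      intro u
      by_cases hu : u ∈ N
      · rw [if_pos hu]
        have hreg : ¬ p ∣ orderOf (u : G) := by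
          rw [← hcop, Subgroup.orderOf_coe]; exact (hmem u).1 hu
        simp only [hθdef, if_neg hreg]
        set c := Nat.card (Subgroup.centralizer ({(u : G)} : Set G)) with hc
        set i := (Subgroup.centralizer ({(u : G)} : Set G)).index with hi
        have hic : (i : ℂ) * c = g' * (p : ℂ) ^ a := by
          have h0 := (Subgroup.centralizer ({(u : G)} : Set G)).index_mul_card
          rw [← hg'd, ← hi, ← hc] at h0
          exact_mod_cast h0
        have hce : (c : ℂ) = (p : ℂ) ^ e * ((c / p ^ e : ℕ) : ℂ) := by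
          exact_mod_cast (Nat.mul_div_cancel' (hC u hu)).symm
        have hEc : (Nat.card E : ℂ) = Nat.card N * (p : ℂ) ^ e := by
          have h0 := N.card_mul_index
          rw [he] at h0
          exact_mod_cast h0.symm
        have hdc : (d : ℂ) = (p : ℂ) ^ b * ((d / p ^ b : ℕ) : ℂ) := by exact_mod_cast hd'
        have hp0 : (p : ℂ) ≠ 0 := Nat.cast_ne_zero.2 hp.ne_zero
        have hc0 : (c : ℂ) ≠ 0 := Nat.cast_ne_zero.2 Nat.card_pos.ne'
        have hd'0 : ((d / p ^ b : ℕ) : ℂ) ≠ 0 := fun h => by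
          rw [h, mul_zero] at hdc; exact hd0 (Nat.cast_eq_zero.1 hdc)
        have hN0 : (Nat.card N : ℂ) ≠ 0 := Nat.cast_ne_zero.2 Nat.card_pos.ne'
        have hiv : (i : ℂ) = g' * (p : ℂ) ^ a / c := by rw [← hic, mul_div_cancel_right₀ _ hc0]
        simp only [Cfsg.centralChar, hdeg, ← hi]
        rw [hiv, hEc, hdc]
        rw [hce] at hc0 ⊢
        have hq : ((c / p ^ e : ℕ) : ℂ) ≠ 0 := right_ne_zero_of_mul hc0
        push_cast
        have hpa : (p : ℂ) ^ a = (p : ℂ) ^ b * (p : ℂ) ^ (a - b) := by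
          rw [← pow_add, Nat.add_sub_cancel' hba]
        rw [hpa]
        have hg0 : (g' : ℂ) ≠ 0 := Nat.cast_ne_zero.2 fun h => hg'p (h ▸ dvd_zero p)
        field_simp
      · rw [if_neg hu]
        have hs : p ∣ orderOf (u : G) := by
          by_contra h
          exact hu ((hmem u).2 (by rw [← Subgroup.orderOf_coe]; exact (hcop u).2 h))
        simp only [hθdef]
        rw [if_pos hs, zero_mul, mul_zero, mul_zero]
    rw [hz, Cfsg.classInner, Finset.mul_sum, Finset.mul_sum,
      Finset.sum_congr rfl fun u _ => hterm u]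
    refine IsIntegral.sum _ fun u _ => ?_
    split_ifs
    · exact (((CharBasics.isIntegral_centralChar χ.2 _).mul (isIntegral_natC _)).mul
        (isIntegral_natC _)).mul
        (CharBasics.isIntegral_apply
          (CharBasics.isCharacter_star (CharBasics.isCharacter_of_irr ψ.2)) u)
    · exact isIntegral_zero
  have hp0 : (p : ℂ) ≠ 0 := Nat.cast_ne_zero.2 hp.ne_zero
  have hz' : z = (Z : ℂ) / (p : ℂ) ^ b := by
    rw [← hZz, mul_div_cancel_left₀ _ (pow_ne_zero b hp0)]
  have hdvd : p ^ b ∣ Nat.card N * g' * Z.natAbs := by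
    apply CharBasics.nat_dvd_of_isIntegral _ _ (pow_ne_zero b hp.ne_zero)
    rw [hz', ← mul_div_assoc] at hint
    rcases Int.natAbs_eq Z with h | h <;> generalize Z.natAbs = nn at h ⊢ <;> rw [h] at hint
    · push_cast at hint ⊢; exact hint
    · have h2 := hint.neg
      push_cast at h2 ⊢
      rw [← neg_div, ← mul_neg, neg_neg] at h2
      exact h2
  have hN' : ¬ p ∣ Nat.card N := by
    intro h
    obtain ⟨k, hk⟩ := exists_prime_orderOf_dvd_card' p h
    have h1 : ¬ p ∣ orderOf ((k : E) : G) := by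
      rw [← hcop, Subgroup.orderOf_coe]; exact (hmem k).1 k.2
    rw [Subgroup.orderOf_coe, Subgroup.orderOf_coe, hk] at h1
    exact h1 dvd_rfl
  have hcop2 : (p ^ b).Coprime (Nat.card N * g') :=
    (Nat.Coprime.mul_right (hp.coprime_iff_not_dvd.2 hN') (hp.coprime_iff_not_dvd.2 hg'p)).pow_left b
  obtain ⟨w, hw⟩ : ((p ^ b : ℕ) : ℤ) ∣ Z :=
    Int.natCast_dvd.2 (hcop2.dvd_of_dvd_mul_left hdvd)
  have : z = (w : ℂ) := by
    rw [hz', hw]; push_cast; rw [mul_div_cancel_left₀ _ (pow_ne_zero b hp0)]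
  rw [this, Int.cast_smul_eq_zsmul]
  have hψc : (ψ : E → ℂ) ∈ BrauerInd.genChar E :=
    AddSubgroup.subset_closure (k := {f : E → ℂ | Cfsg.IsCharacter E f})
      (CharBasics.isCharacter_of_irr ψ.2)
  exact AddSubgroup.zsmul_mem _ hψc w


/-- Let χ be an irreducible character of the finite group G, p a prime, p^a the p-part of the order of G and p^b the p-part of the degree χ(1). Let χ̃ be the class function equal to p^a · χ on p-regular elements and zero on p-singular elements. Then p^(−b) · χ̃ is a generalized character of G, while p^(−(b+1)) · χ̃ is not. -/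
theorem result {G : Type*} [Group G] [Finite G] (p : ℕ) [Fact p.Prime] (χ : Cfsg.IrrCharacter G) : Cfsg.IsGeneralizedCharacter G (fun x : G => if p ∣ orderOf x then (0 : ℂ) else ((p ^ ((Nat.card G).factorization p - (Cfsg.charDegree (χ : G → ℂ)).factorization p) : ℕ) : ℂ) * (χ : G → ℂ) x) ∧ ¬ Cfsg.IsGeneralizedCharacter G (fun x : G => if p ∣ orderOf x then (0 : ℂ) else ((p ^ (Nat.card G).factorization p : ℕ) : ℂ) / ((p ^ ((Cfsg.charDegree (χ : G → ℂ)).factorization p + 1) : ℕ) : ℂ) * (χ : G → ℂ) x) := by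
  haveI := Fintype.ofFinite G
  classical
  refine ⟨CfsgLib.BrauerInd.mem_genChar.1 (key p χ), fun h => ?_⟩
  have hp : p.Prime := Fact.out
  obtain ⟨P⟩ : Nonempty (Sylow p G) := inferInstance
  haveI := Fintype.ofFinite (P : Subgroup G)
  set a := (Nat.card G).factorization p with ha
  set d := Cfsg.charDegree (χ : G → ℂ) with hd
  set b := d.factorization p with hb
  obtain ⟨z, hz⟩ := CfsgLib.BrauerInd.classInner_genChar
    (restrict_genChar (CfsgLib.BrauerInd.mem_genChar.2 h) (P : Subgroup G))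
    (CfsgLib.CharBasics.isCharacter_of_irr CfsgLib.CharBasics.isIrrCharacter_one)
  rw [CfsgLib.CharBasics.classInner_one, Finset.sum_eq_single (1 : (P : Subgroup G))] at hz
  rotate_left
  · intro x _ hx
    obtain ⟨j, hj⟩ := IsPGroup.iff_orderOf.1 P.2 x
    have hj0 : j ≠ 0 := fun h0 => hx (orderOf_eq_one_iff.1 (by rw [hj, h0, pow_zero]))
    rw [if_pos (by rw [Subgroup.orderOf_coe, hj]; exact dvd_pow_self p hj0)]
  · simp
  have h1 : ¬ p ∣ orderOf ((1 : (P : Subgroup G)) : G) := by
    rw [Subgroup.coe_one, orderOf_one]; exact hp.not_dvd_one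
  rw [if_neg h1, P.card_eq_multiplicity, Subgroup.coe_one,
    CfsgLib.CharBasics.apply_one (CfsgLib.CharBasics.isCharacter_of_irr χ.2), ← hd] at hz
  have hp0 : (p : ℂ) ≠ 0 := Nat.cast_ne_zero.2 hp.ne_zero
  push_cast at hz
  rw [← mul_assoc, ← mul_div_assoc, inv_mul_cancel₀ (pow_ne_zero _ hp0), div_mul_eq_mul_div,
    one_mul, div_eq_iff (pow_ne_zero _ hp0)] at hz
  have hdvd : ((p ^ (b + 1) : ℕ) : ℤ) ∣ (d : ℤ) := ⟨z, by
    have : ((d : ℤ) : ℂ) = ((((p ^ (b + 1) : ℕ) : ℤ) * z : ℤ) : ℂ) := by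
      push_cast; rw [hz]; ring
    exact_mod_cast this⟩
  exact Nat.pow_succ_factorization_not_dvd (CfsgLib.CharBasics.charDegree_pos χ.2).ne' hp
    (Int.natCast_dvd_natCast.1 hdvd)

end Cfsg.Agent.S4425
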