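import Cfsg.Statements.S4426
import Cfsg.Agent.Blocks.HeightZero


set_option autoImplicit false
open Cfsg

namespace Cfsg.Agent.S4426

open CfsgLib.Blocks CfsgLib.CharBasics

/-- Let χ be an irreducible character in the p-block B of the finite group G (relative to a maximal ideal M of the algebraic integers containing p), let p^a be the p-part of the order of G, and let χ̃ be the class function equal to p^a · χ on p-regular elements and zero elsewhere. For ξ ∈ B the inner product [χ̃, ξ] is an integer. The following are equivalent: (a) χ has height zero in B; (b) for some ξ ∈ B the integer [χ̃, ξ] is nonzero and the exact power of p dividing it equals the exact power of p dividing ξ(1); (c) the same holds for every ξ ∈ B. -/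
theorem result {G : Type*} [Group G] [Fintype G] (p : ℕ) [Fact p.Prime] (M : Ideal Cfsg.AlgInt) (hM : Cfsg.IsPModular p M) (B : Set (Cfsg.IrrCharacter G)) (hB : Cfsg.IsPBlock M B) (χ : Cfsg.IrrCharacter G) (hχ : χ ∈ B) : (Cfsg.blockHeight p B (χ : G → ℂ) = 0 ↔ ∃ ξ ∈ B, ∃ n : ℤ, Cfsg.classInner (fun x : G => if p ∣ orderOf x then (0 : ℂ) else ((p ^ (Nat.card G).factorization p : ℕ) : ℂ) * (χ : G → ℂ) x) (ξ : G → ℂ) = (n : ℂ) ∧ n ≠ 0 ∧ padicValInt p n = (Cfsg.charDegree (ξ : G → ℂ)).factorization p) ∧ (Cfsg.blockHeight p B (χ : G → ℂ) = 0 ↔ ∀ ξ ∈ B, ∃ n : ℤ, Cfsg.classInner (fun x : G => if p ∣ orderOf x then (0 : ℂ) else ((p ^ (Nat.card G).factorization p : ℕ) : ℂ) * (χ : G → ℂ) x) (ξ : G → ℂ) = (n : ℂ) ∧ n ≠ 0 ∧ padicValInt p n = (Cfsg.charDegree (ξ : G → ℂ)).factorization p) := by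
  classical
  have hp : p.Prime := Fact.out
  set a := (Nat.card G).factorization p with ha
  have hkey : ∀ ρ : IrrCharacter G,
      classInner (fun x : G => if p ∣ orderOf x then (0 : ℂ) else ((p ^ a : ℕ) : ℂ) * (χ : G → ℂ) x) (ρ : G → ℂ)
        = (regInt p (χ : G → ℂ) (ρ : G → ℂ) : ℂ) := by
    intro ρ
    have e : (fun x : G => if p ∣ orderOf x then (0 : ℂ) else ((p ^ a : ℕ) : ℂ) * (χ : G → ℂ) x)
        = ((p ^ a : ℕ) : ℂ) • fun x : G => if p ∣ orderOf x then (0 : ℂ) else (χ : G → ℂ) x := by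
      funext x; simp [Pi.smul_apply, mul_ite]
    rw [e, classInner_smul_left, regSum_eq_classInner,
      regSum_eq_regInt hp (isCharacter_of_irr χ.2) (isCharacter_of_irr ρ.2)]
    have hcard : (Nat.card G : ℂ) = ((p ^ a : ℕ) : ℂ) * ((Nat.card G / p ^ a : ℕ) : ℂ) := by
      rw [← Nat.cast_mul, Nat.mul_div_cancel' (Nat.ordProj_dvd _ _)]
    have h1 : ((p ^ a : ℕ) : ℂ) ≠ 0 := Nat.cast_ne_zero.2 (pow_ne_zero _ hp.ne_zero)
    have h2 := ordCompl_ne_zero_cast (G := G) p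
    rw [← ha] at h2 ⊢
    rw [hcard]
    field_simp
  have hiff : ∀ ρ : IrrCharacter G, (∃ n : ℤ,
      classInner (fun x : G => if p ∣ orderOf x then (0 : ℂ) else ((p ^ a : ℕ) : ℂ) * (χ : G → ℂ) x) (ρ : G → ℂ) = (n : ℂ) ∧
        n ≠ 0 ∧ padicValInt p n = (charDegree (ρ : G → ℂ)).factorization p) ↔
      ¬ (p : ℤ) ^ (degExp p ρ + 1) ∣ regInt p (χ : G → ℂ) (ρ : G → ℂ) := by
    intro ρ
    have hd := pow_dvd_regInt hM ρ χ
    rw [regInt_comm hp] at hd
    constructor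
    · rintro ⟨n, hn, hn0, hv⟩ hdvd
      have : n = regInt p (χ : G → ℂ) (ρ : G → ℂ) := by exact_mod_cast hn.symm.trans (hkey ρ)
      rw [← this, padicValInt_dvd_iff] at hdvd
      rcases hdvd with h | h
      · exact hn0 h
      · rw [hv] at h; exact Nat.not_succ_le_self _ h
    · intro h
      refine ⟨_, hkey ρ, fun h0 => h (h0 ▸ dvd_zero _), le_antisymm ?_ ?_⟩
      · by_contra hlt
        push Not at hlt
        exact h ((padicValInt_dvd_iff _ _).2 (Or.inr hlt))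
      · exact ((padicValInt_dvd_iff _ _).1 hd).resolve_left (fun h0 => h (h0 ▸ dvd_zero _))
  obtain ⟨χ₀, hχ₀, hmin, hs⟩ := exists_min_degExp hM hB
  have hfwd : blockHeight p B (χ : G → ℂ) = 0 → ∀ ρ ∈ B, ¬ (p : ℤ) ^ (degExp p ρ + 1) ∣ regInt p (χ : G → ℂ) (ρ : G → ℂ) := by
    intro h0 ρ hρ
    refine regInt_not_dvd hM hB hχ (fun σ hσ => ?_) hρ
    rw [blockHeight_eq hs] at h0
    have := hmin χ hχ
    have := hmin σ hσ
    omega
  have hback : ∀ ρ ∈ B, ¬ (p : ℤ) ^ (degExp p ρ + 1) ∣ regInt p (χ : G → ℂ) (ρ : G → ℂ) →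
      blockHeight p B (χ : G → ℂ) = 0 := by
    intro ρ hρ h
    rw [blockHeight_eq hs]
    by_contra hne
    refine h ?_
    rw [regInt_comm hp, ← omega_regElt_mem_iff hM]
    have h2 := omega_sub_mem_of_sameBlock hM ((IsPBlock.mem_iff hM hB hρ).1 hχ₀)
      (isClassElt_regElt (p := p) (isCharacter_of_irr χ.2)) (isIntegralElt_regElt hM (isCharacter_of_irr χ.2))
    have hd := pow_dvd_regInt hM χ χ₀
    rw [regInt_comm hp] at hd
    have h3 := (omega_regElt_mem_iff hM χ₀ χ).2 ((pow_dvd_pow _ (by omega)).trans hd)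
    simpa using memLocalIdeal_add hM h2 h3
  refine ⟨⟨fun h => ?_, ?_⟩, ⟨fun h ρ hρ => (hiff ρ).2 (hfwd h ρ hρ), fun h => hback χ hχ ((hiff χ).1 (h χ hχ))⟩⟩
  · exact ⟨χ, hχ, (hiff χ).2 (hfwd h χ hχ)⟩
  · rintro ⟨ρ, hρ, h⟩
    exact hback ρ hρ ((hiff ρ).1 h)

end Cfsg.Agent.S4426
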