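import Cfsg.Statements.S4428
import Cfsg.Agent.Blocks.Section

set_option autoImplicit false
open Cfsg

namespace Cfsg.Agent.S4428

/-- Let χ be an irreducible character of height zero in the p-block B of the finite group G (relative to a maximal ideal M of the algebraic integers containing p). Let x be a p-element of G with centralizer C, and let b be a block of C that induces B. Form the class function ϑ(c) = χ(x c) on C and its b-part (the sum over ψ ∈ b of the inner product of ϑ with ψ, times ψ). Then the b-part of ϑ does not vanish identically on the p-regular elements of C. (Compare the second main Theorem, which gives vanishing when b does not induce B.) -/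
theorem result {G : Type*} [Group G] [Finite G] (p : ℕ) [Fact p.Prime] (M : Ideal Cfsg.AlgInt) (hM : Cfsg.IsPModular p M) (B : Set (Cfsg.IrrCharacter G)) (hB : Cfsg.IsPBlock M B) (χ : Cfsg.IrrCharacter G) (hχ : χ ∈ B) (h0 : Cfsg.blockHeight p B (χ : G → ℂ) = 0) (x : G) (hx : ∃ k : ℕ, orderOf x = p ^ k) (b : Set (Cfsg.IrrCharacter (Subgroup.centralizer ({x} : Set G)))) (hb : Cfsg.IsInducedBlock M (Subgroup.centralizer ({x} : Set G)) b B) : ∃ y : Subgroup.centralizer ({x} : Set G), ¬ p ∣ orderOf y ∧ Cfsg.blockPart b (fun c : Subgroup.centralizer ({x} : Set G) => (χ : G → ℂ) (x * (c : G))) y ≠ 0 := by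
  classical
  haveI := Fintype.ofFinite G
  haveI := Fintype.ofFinite (Subgroup.centralizer ({x} : Set G))
  obtain ⟨φ, hφ, hminφ, hs⟩ := CfsgLib.Blocks.exists_min_degExp hM hB
  rw [CfsgLib.Blocks.blockHeight_eq hs] at h0
  have hmin : ∀ ρ ∈ B, CfsgLib.Blocks.degExp p χ ≤ CfsgLib.Blocks.degExp p ρ := fun ρ hρ => by
    have := hminφ ρ hρ
    have := hminφ χ hχ
    omega
  have hp1 : ¬ p ∣ orderOf (1 : Subgroup.centralizer ({x} : Set G)) := by
    rw [orderOf_one, Nat.dvd_one]; exact hM.1.ne_one
  refine ⟨1, hp1, ?_⟩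
  have h := CfsgLib.Blocks.secVal_one_ne_zero hM hx hb hχ hmin
  rwa [CfsgLib.Blocks.secVal, if_neg hp1] at h

end Cfsg.Agent.S4428
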