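import Cfsg.Statements.S4431
import Cfsg.Agent.Blocks.HeightZero
import Cfsg.Agent.ZStar.Congr
-- import your own Cfsg.Agent.* helpers here

set_option autoImplicit false
open Cfsg

namespace Cfsg.Agent.S4431

/-- Let H be a subgroup of the finite group G and b a block of H whose induced block B₀ in G is defined (relative to a maximal ideal M of the algebraic integers containing p). Let χ be an irreducible character of G, ψ ∈ b, and let η be the class function on H equal to p^a · χ on the p-regular elements of H and zero elsewhere, p^a being the p-part of the order of H. Then (a) if χ ∉ B₀, the number [η, ψ]/ψ(1) lies in the local ideal at M; (b) if χ ∈ B₀ has height zero, it does not. -/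
theorem result {G : Type*} [Group G] [Fintype G] (p : ℕ) [Fact p.Prime] (M : Ideal Cfsg.AlgInt) (hM : Cfsg.IsPModular p M) (H : Subgroup G) [Fintype H] (b : Set (Cfsg.IrrCharacter H)) (B₀ : Set (Cfsg.IrrCharacter G)) (hind : Cfsg.IsInducedBlock M H b B₀) (χ : Cfsg.IrrCharacter G) (ψ : Cfsg.IrrCharacter H) (hψ : ψ ∈ b) : (χ ∉ B₀ → Cfsg.MemLocalIdeal M (Cfsg.classInner (fun h : H => if p ∣ orderOf h then (0 : ℂ) else ((p ^ (Nat.card H).factorization p : ℕ) : ℂ) * (χ : G → ℂ) h) (ψ : H → ℂ) / (ψ : H → ℂ) 1)) ∧ (χ ∈ B₀ → Cfsg.blockHeight p B₀ (χ : G → ℂ) = 0 → ¬ Cfsg.MemLocalIdeal M (Cfsg.classInner (fun h : H => if p ∣ orderOf h then (0 : ℂ) else ((p ^ (Nat.card H).factorization p : ℕ) : ℂ) * (χ : G → ℂ) h) (ψ : H → ℂ) / (ψ : H → ℂ) 1)) := by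
  classical
  have hp := hM.1
  haveI := Fintype.ofFinite (ConjClasses H)
  set a := (Nat.card H).factorization p with ha
  set m : ℕ := Nat.card H / p ^ a with hm
  have hmul : p ^ a * m = Nat.card H := Nat.mul_div_cancel' (Nat.ordProj_dvd _ _)
  have hmp : ¬ p ∣ m := Nat.not_dvd_ordCompl hp Nat.card_pos.ne'
  have hm0 : (m : ℂ) ≠ 0 := Nat.cast_ne_zero.2 fun h => hmp (h ▸ dvd_zero p)
  have hpa : ((p ^ a : ℕ) : ℂ) ≠ 0 := Nat.cast_ne_zero.2 (pow_ne_zero _ hp.ne_zero)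
  have hχc := CfsgLib.CharBasics.isCharacter_restrict (CfsgLib.CharBasics.isCharacter_of_irr χ.2) H
  have hψc := CfsgLib.CharBasics.isCharacter_of_irr ψ.2
  have hreal : CfsgLib.Blocks.regSum p (fun h : H => (χ : G → ℂ) h) (ψ : H → ℂ)
      = CfsgLib.Blocks.regSum p (ψ : H → ℂ) (fun h : H => (χ : G → ℂ) h) := by
    obtain ⟨z, hz⟩ := CfsgLib.Blocks.exists_regSum_eq hp hχc hψc
    rw [← CfsgLib.Blocks.conj_regSum p (fun h : H => (χ : G → ℂ) h) (ψ : H → ℂ), hz, map_mul, map_intCast,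
      Complex.conj_natCast]
  have hres : CfsgLib.ZStar.res H (CfsgLib.Blocks.regElt p (χ : G → ℂ))
      = CfsgLib.Blocks.regElt p (fun h : H => (χ : G → ℂ) h) := by
    ext h
    rw [CfsgLib.ZStar.coeff_res]
    simp only [CfsgLib.Blocks.regElt, CfsgLib.Blocks.coeff_ofFun, Subgroup.orderOf_coe]
  have key : Cfsg.classInner (fun h : H => if p ∣ orderOf h then (0 : ℂ) else
      ((p ^ (Nat.card H).factorization p : ℕ) : ℂ) * (χ : G → ℂ) h) (ψ : H → ℂ) / (ψ : H → ℂ) 1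
      = (m : ℂ)⁻¹ * CfsgLib.Blocks.omega (ψ : H → ℂ)
          (CfsgLib.ZStar.res H (CfsgLib.Blocks.regElt p (χ : G → ℂ))) := by
    rw [hres, CfsgLib.Blocks.omega_regElt, ← hreal, CfsgLib.CharBasics.classInner_eq, CfsgLib.Blocks.regSum,
      ← ha, ← hmul, Nat.cast_mul, Finset.mul_sum, Finset.sum_div, Finset.sum_div, Finset.mul_sum]
    refine Finset.sum_congr rfl fun h _ => ?_
    split_ifs
    · simp
    · field_simp
  rw [key]
  have hzc := CfsgLib.Blocks.isClassElt_regElt (p := p) (CfsgLib.CharBasics.isCharacter_of_irr χ.2)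
  have hzi := CfsgLib.Blocks.isIntegralElt_regElt hM (CfsgLib.CharBasics.isCharacter_of_irr χ.2)
  refine ⟨fun hχ => ?_, fun hχ hh hcon => ?_⟩
  · obtain ⟨χ₀, hχ₀⟩ := CfsgLib.Blocks.IsPBlock.nonempty hM hind.2.1
    have h1 := CfsgLib.ZStar.omega_res_induced hM hind hψ hχ₀ hzc hzi
    have h2 : CfsgLib.Blocks.regInt p (χ₀ : G → ℂ) (χ : G → ℂ) = 0 :=
      CfsgLib.Blocks.regInt_eq_zero_of_notMem hM hind.2.1 hχ₀ hχ
    rw [CfsgLib.Blocks.omega_regElt, CfsgLib.Blocks.regSum_eq_regInt hp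
      (CfsgLib.CharBasics.isCharacter_of_irr χ₀.2) (CfsgLib.CharBasics.isCharacter_of_irr χ.2), h2, Int.cast_zero,
      zero_mul, zero_div, sub_zero] at h1
    exact CfsgLib.Blocks.memLocalIdeal_mul_left hM (CfsgLib.Blocks.memLocalRing_natCast_inv hM hmp) h1
  · obtain ⟨χm, hχm, hmin, hs⟩ := CfsgLib.Blocks.exists_min_degExp hM hind.2.1
    rw [CfsgLib.Blocks.blockHeight_eq hs] at hh
    have hmin' : ∀ ρ ∈ B₀, CfsgLib.Blocks.degExp p χ ≤ CfsgLib.Blocks.degExp p ρ := fun ρ hρ => by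
      have := hmin ρ hρ
      omega
    refine CfsgLib.Blocks.regInt_self_not_dvd hM hind.2.1 hχ hmin'
      ((CfsgLib.Blocks.omega_regElt_mem_iff hM χ χ).1 ?_)
    have h1 := CfsgLib.ZStar.omega_res_induced hM hind hψ hχ hzc hzi
    have h2 : Cfsg.MemLocalIdeal M (CfsgLib.Blocks.omega (ψ : H → ℂ)
        (CfsgLib.ZStar.res H (CfsgLib.Blocks.regElt p (χ : G → ℂ)))) := by
      have h3 := CfsgLib.Blocks.memLocalIdeal_mul_left hM (CfsgLib.Blocks.memLocalRing_natCast hM m) hcon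
      rwa [mul_inv_cancel_left₀ hm0] at h3
    simpa using CfsgLib.Blocks.memLocalIdeal_sub hM h2 h1

end Cfsg.Agent.S4431
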