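import Cfsg.Statements.S4434
import Cfsg.Agent.Blocks.QuotientDefect
-- import your own Cfsg.Agent.* helpers here

set_option autoImplicit false
open Cfsg

namespace Cfsg.Agent.S4434

/-- Let N be a normal p-subgroup of the finite group G and write Ḡ = G/N; fix a maximal ideal M of the algebraic integers containing p. Then every block B of G contains a block B̄ of Ḡ (the inflation of every member of B̄ lies in B) whose defect groups are exactly the images in Ḡ of the defect groups of B. -/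
theorem result {G : Type*} [Group G] [Finite G] (p : ℕ) [Fact p.Prime] (M : Ideal Cfsg.AlgInt) (hM : Cfsg.IsPModular p M) (N : Subgroup G) [N.Normal] (hN : IsPGroup p N) (B : Set (Cfsg.IrrCharacter G)) (hB : Cfsg.IsPBlock M B) : ∃ Bbar : Set (Cfsg.IrrCharacter (G ⧸ N)), Cfsg.IsPBlock M Bbar ∧ (∀ χ ∈ Bbar, ∀ ψ : Cfsg.IrrCharacter G, (ψ : G → ℂ) = (χ : G ⧸ N → ℂ) ∘ QuotientGroup.mk → ψ ∈ B) ∧ ∀ Dbar : Subgroup (G ⧸ N), Cfsg.IsDefectGroup p M Bbar Dbar ↔ ∃ P : Subgroup G, Cfsg.IsDefectGroup p M B P ∧ Dbar = P.map (QuotientGroup.mk' N) := by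
  haveI := Fintype.ofFinite G
  haveI : Fintype (G ⧸ N) := Fintype.ofFinite _
  obtain ⟨g, hg⟩ := CfsgLib.Blocks.exists_defectClass hM hB
  obtain ⟨S⟩ : Nonempty (Sylow p (Subgroup.centralizer ({g} : Set G))) := inferInstance
  set D := (S : Subgroup (Subgroup.centralizer ({g} : Set G))).map (Subgroup.centralizer ({g} : Set G)).subtype
  have hD : Cfsg.IsDefectGroup p M B D := ⟨g, hg, S, rfl⟩
  clear_value D
  obtain ⟨Bbar, hBb, hI, hDb⟩ := CfsgLib.Blocks.exists_contained_block hM hN hB hD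
  refine ⟨Bbar, hBb, fun χ hχ ψ hψ => ?_, fun Dbar => ⟨fun h => ?_, ?_⟩⟩
  · have e : ψ = CfsgLib.Blocks.inflChar χ := Subtype.ext (hψ.trans (CfsgLib.Blocks.inflChar_coe χ).symm)
    exact e ▸ hI χ hχ
  · obtain ⟨c, hc⟩ := CfsgLib.Blocks.exists_conj_eq_defectGroup hM hBb hDb h
    obtain ⟨c, rfl⟩ := QuotientGroup.mk_surjective c
    refine ⟨_, CfsgLib.Blocks.isDefectGroup_map_conj hM hB hD c, ?_⟩
    rw [← hc, Subgroup.map_map, Subgroup.map_map]
    congr 1
  · rintro ⟨P, hP, rfl⟩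
    obtain ⟨c, rfl⟩ := CfsgLib.Blocks.exists_conj_eq_defectGroup hM hB hD hP
    have h := CfsgLib.Blocks.isDefectGroup_map_conj hM hBb hDb (QuotientGroup.mk' N c)
    rw [Subgroup.map_map] at h ⊢
    convert h using 2
    ext x
    simp

end Cfsg.Agent.S4434
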