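import Cfsg.Statements.S4435
import Cfsg.Agent.Blocks.FongReynolds
-- import your own Cfsg.Agent.* helpers here

set_option autoImplicit false
open Cfsg

namespace Cfsg.Agent.S4435

/-- Let N be a normal subgroup of the finite group G, b a block of N (relative to a maximal ideal M of the algebraic integers containing p), and T the stabilizer of b in G (the elements g such that conjugating any member of b by g gives a member of b); N ≤ T. Say that a block of T (or of G) covers b when some member has a constituent in b on restriction to N. Then: (i) every block B′ of T covering b induces a block B of G, B covers b, every ψ ∈ B′ induces to an irreducible character of G, and B consists exactly of the characters induced from members of B′; (ii) distinct blocks of T covering b induce distinct blocks of G; (iii) every block of G covering b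 is induced by some block of T covering b. -/
theorem result {G : Type*} [Group G] [Fintype G] (p : ℕ) [Fact p.Prime] (M : Ideal Cfsg.AlgInt) (hM : Cfsg.IsPModular p M) (N : Subgroup G) [hN : N.Normal] [Fintype N] (b : Set (Cfsg.IrrCharacter N)) (hb : Cfsg.IsPBlock M b) (T : Subgroup G) [Fintype T] (hT : ∀ g : G, g ∈ T ↔ ∀ θ ∈ b, ∀ θ' : Cfsg.IrrCharacter N, (∀ n : N, (θ' : N → ℂ) n = (θ : N → ℂ) ⟨g * n * g⁻¹, hN.conj_mem n n.2 g⟩) → θ' ∈ b) (hNT : N ≤ T) : (∀ B' : Set (Cfsg.IrrCharacter T), Cfsg.IsPBlock M B' → (∃ ψ ∈ B', ∃ θ ∈ b, Cfsg.classInner (fun n : N => (ψ : T → ℂ) ⟨(n : G), hNT n.2⟩) (θ : N → ℂ) ≠ 0) → ∃ B : Set (Cfsg.IrrCharacter G), Cfsg.IsInducedBlock M T B' B ∧ (∃ χ ∈ B, ∃ θ ∈ b, Cfsg.classInner (fun n : N => (χ : G → ℂ) n) (θ : N → ℂ) ≠ 0) ∧ (∀ ψ ∈ B', Cfsg.IsIrrCharacter G (Cfsg.indFun T (ψ : T → ℂ))) ∧ ∀ χ : Cfsg.IrrCharacter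 G, χ ∈ B ↔ ∃ ψ ∈ B', (χ : G → ℂ) = Cfsg.indFun T (ψ : T → ℂ)) ∧ (∀ B'₁ B'₂ : Set (Cfsg.IrrCharacter T), Cfsg.IsPBlock M B'₁ → Cfsg.IsPBlock M B'₂ → (∃ ψ ∈ B'₁, ∃ θ ∈ b, Cfsg.classInner (fun n : N => (ψ : T → ℂ) ⟨(n : G), hNT n.2⟩) (θ : N → ℂ) ≠ 0) → (∃ ψ ∈ B'₂, ∃ θ ∈ b, Cfsg.classInner (fun n : N => (ψ : T → ℂ) ⟨(n : G), hNT n.2⟩) (θ : N → ℂ) ≠ 0) → ∀ B : Set (Cfsg.IrrCharacter G), Cfsg.IsInducedBlock M T B'₁ B → Cfsg.IsInducedBlock M T B'₂ B → B'₁ = B'₂) ∧ (∀ B : Set (Cfsg.IrrCharacter G), Cfsg.IsPBlock M B → (∃ χ ∈ B, ∃ θ ∈ b, Cfsg.classInner (fun n : N => (χ : G → ℂ) n) (θ : N → ℂ) ≠ 0) → ∃ B' : Set (Cfsg.IrrCharacter T), Cfsg.IsPBlock M B' ∧ (∃ ψ ∈ B', ∃ θ ∈ b, Cfsg.classInner (fun n : N => (ψ : T → ℂ) ⟨(n : G), hNT n.2⟩) (θ : N → ℂ) ≠ 0) ∧ Cfsg.IsInducedBlock M T B' B) := by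
  classical
  have hst : CfsgLib.Blocks.IsStab b T := fun g => (hT g).trans
    ⟨fun h θ hθ θ' he => h θ hθ θ' (congrFun he), fun h θ hθ θ' he => h θ hθ θ' (funext he)⟩
  refine ⟨fun B' hB' hcov => ?_, fun B₁ B₂ h₁ h₂ hc₁ hc₂ B hi₁ hi₂ => ?_, fun B hB hcov => ?_⟩
  · obtain ⟨ψ, hψ, θ, hθ, hne⟩ := id hcov
    have hall : ∀ φ : Cfsg.IrrCharacter N,
        Cfsg.classInner (CfsgLib.Blocks.resN hNT (ψ : T → ℂ)) (φ : N → ℂ) ≠ 0 → φ ∈ b :=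
      fun φ => CfsgLib.Blocks.constituent_mem hst hNT ψ hθ hne
    obtain ⟨hirr, -⟩ := CfsgLib.Blocks.isIrr_indFun_stab hM hb hst hNT ψ hall
    exact ⟨_, CfsgLib.Blocks.isInduced_stab hM hB' hψ hirr,
      CfsgLib.Blocks.stab_block_spec hM hb hst hNT hB' hcov (CfsgLib.Blocks.isInduced_stab hM hB' hψ hirr)⟩
  · obtain ⟨-, hirr₁, hiff₁⟩ := CfsgLib.Blocks.stab_block_spec hM hb hst hNT h₁ hc₁ hi₁
    obtain ⟨-, hirr₂, hiff₂⟩ := CfsgLib.Blocks.stab_block_spec hM hb hst hNT h₂ hc₂ hi₂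
    obtain ⟨ψ₁, hψ₁, θ₁, hθ₁, hne₁⟩ := hc₁
    obtain ⟨ψ₂, hψ₂, θ₂, hθ₂, hne₂⟩ := hc₂
    refine CfsgLib.Blocks.IsPBlock.eq_of_mem hM h₁ h₂ hψ₁ ((CfsgLib.Blocks.IsPBlock.mem_iff hM h₂ hψ₂).2 ?_)
    refine CfsgLib.Blocks.sameBlock_of_indFun hM hb hst hNT
      (fun φ => CfsgLib.Blocks.constituent_mem hst hNT ψ₂ hθ₂ hne₂)
      (fun φ => CfsgLib.Blocks.constituent_mem hst hNT ψ₁ hθ₁ hne₁) ?_
    exact (CfsgLib.Blocks.IsPBlock.mem_iff hM hi₁.2.1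
      (χ := ⟨_, hirr₂ ψ₂ hψ₂⟩) ((hiff₂ _).2 ⟨ψ₂, hψ₂, rfl⟩)).1
      ((hiff₁ ⟨_, hirr₁ ψ₁ hψ₁⟩).2 ⟨ψ₁, hψ₁, rfl⟩)
  · obtain ⟨χ, hχ, θ, hθ, hne⟩ := hcov
    obtain ⟨ψ, hall, he⟩ := CfsgLib.Blocks.exists_eq_indFun_stab hM hb hst hNT χ hθ hne
    obtain ⟨φ, hφ⟩ := CfsgLib.Blocks.resN_constituent hNT ψ
    have hψ := CfsgLib.Blocks.mem_blockOf_self hM ψ
    refine ⟨_, CfsgLib.Blocks.isPBlock_blockOf M ψ, ⟨ψ, hψ, φ, hall φ hφ, hφ⟩, ?_⟩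
    have h := CfsgLib.Blocks.isInduced_stab hM (CfsgLib.Blocks.isPBlock_blockOf M ψ) hψ (he ▸ χ.2)
    rwa [← he, ← CfsgLib.Blocks.IsPBlock.eq_blockOf hM hB hχ] at h

end Cfsg.Agent.S4435
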