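import Cfsg.Statements.S4437
import Cfsg.Agent.Blocks.InertialIndex
-- import your own Cfsg.Agent.* helpers here

set_option autoImplicit false
open Cfsg

namespace Cfsg.Agent.S4437

/-- Let P be a p-subgroup of the finite group G, H = P·C_G(P), and b a block of H (relative to a maximal ideal M of the algebraic integers containing p) having P as a defect group; let B be the block of G induced by b. Let T be the stabilizer of b in N_G(P): the elements g of N_G(P) such that the g-conjugate of every member of b is again a member of b. Then B has defect group P if and only if p does not divide the index of H in T. -/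
theorem result {G : Type*} [Group G] [Fintype G] (p : ℕ) [Fact p.Prime] (M : Ideal Cfsg.AlgInt) (hM : Cfsg.IsPModular p M) (P : Subgroup G) (hP : IsPGroup p P) (H : Subgroup G) [Fintype H] (hH : H = P ⊔ Subgroup.centralizer (P : Set G)) (b : Set (Cfsg.IrrCharacter H)) (hb : Cfsg.IsPBlock M b) (hbP : Cfsg.IsDefectGroup p M b (P.subgroupOf H)) (B : Set (Cfsg.IrrCharacter G)) (hind : Cfsg.IsInducedBlock M H b B) (T : Subgroup G) (hT : ∀ g : G, g ∈ T ↔ (g ∈ Subgroup.normalizer (P : Set G) ∧ ∀ θ ∈ b, ∀ θ' : Cfsg.IrrCharacter H, (∀ h h' : H, (h' : G) = g * h * g⁻¹ → (θ' : H → ℂ) h' = (θ : H → ℂ) h) → θ' ∈ b)) : Cfsg.IsDefectGroup p M B P ↔ ¬ p ∣ H.relIndex T := by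
  classical
  have hHN : Subgroup.normalizer (P : Set G) ≤ Subgroup.normalizer (H : Set G) :=
    hH ▸ CfsgLib.Blocks.normalizer_le_normalizer_sup P
  refine CfsgLib.Blocks.isDefectGroup_induced_iff hM hP hH hb hbP hind fun g => (hT g).trans ?_
  refine and_congr_right fun hg => ⟨fun h => CfsgLib.Blocks.stabilizesBlock_iff.2 ⟨hHN hg, ?_⟩, fun h θ hθ θ' he => ?_⟩
  · haveI : Finite (Cfsg.IrrCharacter H) := CfsgLib.CharBasics.finite_irrCharacter
    refine Set.eq_of_subset_of_ncard_le ?_
      (Set.ncard_image_of_injective b (CfsgLib.Blocks.pushChar_injective _)).ge (Set.toFinite _)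
    rintro _ ⟨θ, hθ, rfl⟩
    refine h θ hθ _ fun k k' hk => ?_
    rw [show k' = CfsgLib.Blocks.conjK (hHN hg) k from Subtype.ext hk, CfsgLib.Blocks.pushChar_apply,
      MulEquiv.symm_apply_apply]
  · obtain ⟨hg', hb'⟩ := CfsgLib.Blocks.stabilizesBlock_iff.1 h
    have : θ' = CfsgLib.Blocks.pushChar (CfsgLib.Blocks.conjK hg') θ := by
      refine Subtype.ext (funext fun k' => ?_)
      obtain ⟨k, rfl⟩ := (CfsgLib.Blocks.conjK hg').surjective k'
      rw [CfsgLib.Blocks.pushChar_apply, MulEquiv.symm_apply_apply]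
      exact he k _ (CfsgLib.Blocks.coe_conjK hg' k)
    exact this ▸ hb' ▸ Set.mem_image_of_mem _ hθ

end Cfsg.Agent.S4437
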