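import Cfsg.Statements.S4442
import Cfsg.Agent.DefectOne.InducedFrom

set_option autoImplicit false
open Cfsg CfsgLib.DefectOne CfsgLib.CharBasics

namespace Cfsg.Agent.S4442

/-- Blocks of defect one. Let p be an odd prime and G a finite group whose Sylow p-subgroup P has order p; let C = C_G(P) and N = N_G(P), and fix a maximal ideal M of the algebraic integers containing p. Let B be a block of G with defect group P, b a block of C inducing B, and θ the member of b having P in its kernel (there is exactly one). Let T be the stabilizer of θ in N (the elements g ∈ N with θ(g c g⁻¹) = θ(c) for all c ∈ C) and e the index of C in T. Then e divides p − 1 and B contains exactly e + (p − 1)/e irreducible characters. Moreover B is the disjoint union of a set X of e characters and a set Y of (p − 1)/e characters such that, with f the index of C in N: every χ ∈ X has χ(1) ≡ ±(f/e)·θ(1) (mod p), there is one sign ε with ψ(1) ≡ ε f θ(1) (mod p) for all ψ ∈ Y,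 and all members of Y agree on the p-regular elements of G. -/
theorem result {G : Type*} [Group G] [Finite G] (p : ℕ) [Fact p.Prime] (M : Ideal Cfsg.AlgInt) (hM : Cfsg.IsPModular p M) (hodd : p ≠ 2) (P : Sylow p G) (hP : Nat.card P = p) (B : Set (Cfsg.IrrCharacter G)) (hB : Cfsg.IsPBlock M B) (hBP : Cfsg.IsDefectGroup p M B P) (b : Set (Cfsg.IrrCharacter (Subgroup.centralizer ((P : Subgroup G) : Set G)))) (hind : Cfsg.IsInducedBlock M (Subgroup.centralizer ((P : Subgroup G) : Set G)) b B) (θ : Cfsg.IrrCharacter (Subgroup.centralizer ((P : Subgroup G) : Set G))) (hθ : θ ∈ b) (hθP : ∀ x : Subgroup.centralizer ((P : Subgroup G) : Set G), (x : G) ∈ (P : Subgroup G) → (θ : Subgroup.centralizer ((P : Subgroup G) : Set G) → ℂ) x = (θ : Subgroup.centralizer ((P : Subgroup G) : Set G) → ℂ) 1) (T : Subgroup G) (hT : ∀ g : G, g ∈ T ↔ (g ∈ Subgroup.normalizer ((P : Subgroup G) : Set G) ∧ ∀ c c' : Subgroup.centralizer ((P : Subgroup G) : Set G), (c' : G) = g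 * c * g⁻¹ → (θ : Subgroup.centralizer ((P : Subgroup G) : Set G) → ℂ) c' = (θ : Subgroup.centralizer ((P : Subgroup G) : Set G) → ℂ) c)) (e f : ℕ) (he : (Subgroup.centralizer ((P : Subgroup G) : Set G)).relIndex T = e) (hf : (Subgroup.centralizer ((P : Subgroup G) : Set G)).relIndex (Subgroup.normalizer ((P : Subgroup G) : Set G)) = f) : e ∣ p - 1 ∧ Nat.card B = e + (p - 1) / e ∧ ∃ X Y : Set (Cfsg.IrrCharacter G), B = X ∪ Y ∧ Disjoint X Y ∧ Nat.card X = e ∧ Nat.card Y = (p - 1) / e ∧ (∀ χ ∈ X, (Cfsg.charDegree (χ : G → ℂ) : ℤ) ≡ ((f / e * Cfsg.charDegree (θ : Subgroup.centralizer ((P : Subgroup G) : Set G) → ℂ) : ℕ) : ℤ) [ZMOD p] ∨ (Cfsg.charDegree (χ : G → ℂ) : ℤ) ≡ -((f / e * Cfsg.charDegree (θ : Subgroup.centralizer ((P : Subgroup G) : Set G) → ℂ) : ℕ) : ℤ) [ZMOD p]) ∧ (∃ ε : ℤ, (ε = 1 ∨ ε = -1) ∧ ∀ ψ ∈ Y, (Cfsg.charDegree (ψ : G → ℂ) : ℤ) ≡ ε * ((f * Cfsg.charDegree (θ : Subgroup.centralizer ((P : Subgroup G) : Set G) → ℂ) : ℕ) : ℤ) [ZMOD p])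 ∧ ∀ ψ ∈ Y, ∀ ψ' ∈ Y, ∀ g : G, ¬ p ∣ orderOf g → (ψ : G → ℂ) g = (ψ' : G → ℂ) g := by
  classical
  haveI : Fintype G := Fintype.ofFinite G
  have hd : 0 < blockDefect p B := by
    have h1 := CfsgLib.Blocks.card_defectGroup hM hB hBP
    rw [hP] at h1
    rcases Nat.eq_zero_or_pos (blockDefect p B) with h | h
    · rw [h, pow_zero] at h1
      exact absurd h1 (Fact.out : p.Prime).ne_one
    · exact h
  obtain ⟨D, hD⟩ := exists_data P hP
  clear hBP hP
  generalize (P : Subgroup G) = Q at *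
  subst hD
  obtain ⟨φ, hφ, hdeg⟩ := D.exists_base θ hθP
  obtain ⟨φ₀, rfl⟩ := D.exists_blk_of_defect hM hB hd
  obtain ⟨F₀⟩ := D.exists_family hM φ₀
  have horb : φ₀ ∈ D.orb φ := D.blk_of_induced hM hφ (D.theta_mem_blk F₀ 1)
    (fun g => hind.2.2 θ hθ _ (D.theta_mem_blk F₀ 1) g)
  rw [D.blk_orb horb]
  obtain ⟨F⟩ := D.exists_family hM φ
  rw [D.relIndex_eq] at hf
  subst hf
  rw [D.relIndex_stabilizer hφ hT] at he
  subst he
  have hfe : D.V.index / Nat.card (D.U φ) * charDegree (θ : D.Cx → ℂ) = D.odeg φ := by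
    rw [D.index_V_eq φ, Nat.mul_div_cancel_left _ Nat.card_pos, Data.odeg, hdeg]
  refine ⟨D.card_U_dvd φ, by rw [D.card_blk hM φ, D.index_eq], D.rest F, Set.range F.θ, D.blk_eq_union F,
    D.disjoint_rest F, D.card_rest hM F, (D.card_range F).trans (D.index_eq _), fun χ hχ => ?_,
    ⟨F.ε, F.sign, ?_⟩, ?_⟩
  · rw [hfe]
    have h := D.deg_rest hM F hχ
    rcases D.rest_d hM F hχ with h1 | h1 <;> rw [h1] at h
    · exact Or.inr (by simpa using h)
    · exact Or.inl (by simpa using h)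
  · rintro _ ⟨q, rfl⟩
    have h := D.deg_theta hM F q
    rwa [hdeg] at h
  · rintro _ ⟨q, rfl⟩ _ ⟨q', rfl⟩ g hg
    rw [D.theta_regular F q hg, D.theta_regular F q' hg]

end Cfsg.Agent.S4442
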