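import Cfsg.Statements.S4443
import Cfsg.Agent.Blocks.NormalDefectRank


set_option autoImplicit false
open Cfsg

namespace Cfsg.Agent.S4443

open CfsgLib.Blocks CfsgLib.CharBasics

/-- Let D be a normal p-subgroup of the finite group G, of order p^d, let p^a be the p-part of the order of G, and fix a Sylow p-subgroup S and a maximal ideal M of the algebraic integers containing p. Index by a finite type ι (via an injective map K) exactly the conjugacy classes of p-regular elements x of G for which D is a Sylow p-subgroup of C_G(x). For classes K_i, K_j let ω(i, j) be the number of pairs (y, z) ∈ K_i × K_j with z y⁻¹ ∈ S; this number is divisible by p^(a−d). Then the number of p-blocks of G having D as a defect group equals the rank over ℤ/pℤ of the matrix with (i, j) entry ω(i, j)/p^(a−d) reduced modulo p. -/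
theorem result {G : Type*} [Group G] [Finite G] (p : ℕ) [Fact p.Prime] (M : Ideal Cfsg.AlgInt) (hM : Cfsg.IsPModular p M) (D : Subgroup G) [D.Normal] (hD : IsPGroup p D) (S : Sylow p G) {ι : Type*} [Fintype ι] [DecidableEq ι] (K : ι → ConjClasses G) (hKinj : Function.Injective K) (hK : ∀ C : ConjClasses G, (∃ i, K i = C) ↔ ∃ x ∈ C.carrier, ¬ p ∣ orderOf x ∧ ∃ Q : Sylow p (Subgroup.centralizer ({x} : Set G)), (Q : Subgroup (Subgroup.centralizer ({x} : Set G))).map (Subgroup.centralizer ({x} : Set G)).subtype = D) : Nat.card {B : Set (Cfsg.IrrCharacter G) // Cfsg.IsPBlock M B ∧ Cfsg.IsDefectGroup p M B D} = (Matrix.of fun i j : ι => ((Nat.card {yz : G × G // yz.1 ∈ (K i).carrier ∧ yz.2 ∈ (K j).carrier ∧ yz.2 * yz.1⁻¹ ∈ (S : Subgroup G)} / p ^ ((Nat.card G).factorization p - (Nat.card D).factorization p) : ℕ) : ZMod p)).rank := by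

  classical
  haveI : Fintype G := Fintype.ofFinite G
  have hp : p.Prime := Fact.out
  obtain ⟨d, hd⟩ : ∃ d, Nat.card D = p ^ d := IsPGroup.iff_card.1 hD
  have hdef : ∀ i, ∃ x : G, K i = ConjClasses.mk x ∧ ¬ p ∣ orderOf x ∧ x ∈ Subgroup.centralizer (D : Set G) ∧ centExp p x = d := by
    intro i
    obtain ⟨x, hx, hxr, Q, hQ⟩ := (hK (K i)).1 ⟨i, rfl⟩
    refine ⟨x, (ConjClasses.mem_carrier_iff_mk_eq.1 hx).symm, hxr, Subgroup.mem_centralizer_iff.2 fun y hy => ?_, ?_⟩
    · rw [← hQ] at hy
      exact Subgroup.mem_centralizer_singleton_iff.1 (Subgroup.map_subtype_le _ hy)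
    · refine Nat.pow_right_injective hp.two_le ?_
      show p ^ centExp p x = p ^ d
      rw [← hd, ← hQ, Subgroup.card_map_of_injective (Subgroup.centralizer ({x} : Set G)).subtype_injective,
        Q.card_eq_multiplicity]
      rfl
  choose x hxK hxr hxD hxd using hdef
  have hsur : ∀ y : G, ¬ p ∣ orderOf y → y ∈ Subgroup.centralizer (D : Set G) → centExp p y = d →
      ∃ i, IsConj (x i) y := by
    intro y hyr hyD hyd
    have hle : D ≤ Subgroup.centralizer ({y} : Set G) := fun q hq =>
      Subgroup.mem_centralizer_singleton_iff.2 (Subgroup.mem_centralizer_iff.1 hyD q hq)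
    obtain ⟨Q, hQ⟩ := (hD.of_equiv (Subgroup.subgroupOfEquivOfLe hle).symm).exists_le_sylow
    have hQD : (Q : Subgroup (Subgroup.centralizer ({y} : Set G))).map (Subgroup.centralizer ({y} : Set G)).subtype = D := by
      have hsub : D ≤ (Q : Subgroup (Subgroup.centralizer ({y} : Set G))).map (Subgroup.centralizer ({y} : Set G)).subtype :=
        fun q hq => Subgroup.mem_map.2 ⟨⟨q, hle hq⟩, hQ hq, rfl⟩
      refine (Subgroup.eq_of_le_of_card_ge hsub ?_).symm
      rw [Subgroup.card_map_of_injective (Subgroup.centralizer ({y} : Set G)).subtype_injective,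
        Q.card_eq_multiplicity, hd, ← hyd]
      rfl
    obtain ⟨i, hi⟩ := (hK (ConjClasses.mk y)).2 ⟨y, ConjClasses.mem_carrier_mk, hyr, Q, hQD⟩
    exact ⟨i, ConjClasses.mk_eq_mk_iff_isConj.1 ((hxK i).symm.trans hi)⟩
  have h := card_blocks_eq_rank hM hD hd S x (fun i j h => hKinj (by rw [hxK, hxK]; exact h)) hxd hsur
    (fun i => ⟨hxr i, hxD i⟩)
  have hfac : (Nat.card D).factorization p = d := by rw [hd, hp.factorization_pow, Finsupp.single_eq_same]
  have hcard : Nat.card {B : Set (IrrCharacter G) // IsPBlock M B ∧ IsDefectGroup p M B D} =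
      Nat.card {B : Set (IrrCharacter G) // IsPBlock M B ∧ blockDefect p B = d} :=
    Nat.card_congr (Equiv.subtypeEquivRight fun B => and_congr_right fun hB => isDefectGroup_normal_iff hM hB hD hd)
  rw [hcard, h, hfac]
  have hc : ∀ i z, z ∈ (K i).carrier ↔ IsConj (x i) z := fun i z => by
    rw [hxK i, ConjClasses.mem_carrier_iff_mk_eq, eq_comm, ConjClasses.mk_eq_mk_iff_isConj]
  simp only [hc]

end Cfsg.Agent.S4443
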