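import Cfsg.Statements.S4444
import Cfsg.Agent.Blocks.Glauberman

set_option autoImplicit false
open Cfsg

namespace Cfsg.Agent.S4444

open CfsgLib.Blocks CfsgLib.CharBasics

/-- Transport of irreducible characters along an isomorphism. -/
noncomputable def irrEquiv {A B : Type*} [Group A] [Group B] [Finite A] [Finite B] (e : A ≃* B) :
    Cfsg.IrrCharacter A ≃ Cfsg.IrrCharacter B where
  toFun χ := ⟨fun b => (χ : A → ℂ) (e.symm b), irr_comp_of_surjective χ.2 e.symm.toMonoidHom e.symm.surjective⟩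
  invFun χ := ⟨fun a => (χ : B → ℂ) (e a), irr_comp_of_surjective χ.2 e.toMonoidHom e.surjective⟩
  left_inv χ := Subtype.ext (funext fun a => by simp)
  right_inv χ := Subtype.ext (funext fun a => by simp)

theorem classInner_equiv {A B : Type*} [Group A] [Group B] [Fintype A] [Fintype B] (e : A ≃* B) (f g : B → ℂ) :
    Cfsg.classInner (fun a => f (e a)) (fun a => g (e a)) = Cfsg.classInner f g := by
  simp only [Cfsg.classInner]
  rw [Nat.card_congr e.toEquiv, ← e.toEquiv.sum_comp]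
  rfl

theorem glauberman {Γ : Type*} [Group Γ] [Fintype Γ] (G S : Subgroup Γ) [Fintype G]
    (hnorm : ∀ s ∈ S, ∀ g ∈ G, s * g * s⁻¹ ∈ G) (hcop : (Nat.card G).Coprime (Nat.card S))
    (p : ℕ) (hp : p.Prime) (hS : IsPGroup p S) (C : Subgroup Γ) [Fintype C]
    (hC : C = G ⊓ Subgroup.centralizer (S : Set Γ)) (hCG : C ≤ G) :
    ∃ R : Cfsg.IrrCharacter G → Cfsg.IrrCharacter C → Prop,
      (∀ χ : Cfsg.IrrCharacter G, (∀ s ∈ S, ∀ g g' : G, (g' : Γ) = s * g * s⁻¹ → (χ : G → ℂ) g' = (χ : G → ℂ) g) →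
        (∃! β, R χ β) ∧
        (∀ χ' : Cfsg.IrrCharacter G, (∀ s ∈ S, ∀ g g' : G, (g' : Γ) = s * g * s⁻¹ → (χ' : G → ℂ) g' = (χ' : G → ℂ) g) →
          ∀ β : Cfsg.IrrCharacter C, R χ β → R χ' β → χ = χ') ∧
        ∀ (β : Cfsg.IrrCharacter C) (m : ℕ), Cfsg.classInner (fun c : C => (χ : G → ℂ) ⟨c, hCG c.2⟩) (β : C → ℂ) = (m : ℂ) →
          ((¬ p ∣ m) ↔ R χ β) ∧ (R χ β → ((m : ℤ) ≡ 1 [ZMOD p] ∨ (m : ℤ) ≡ -1 [ZMOD p]))) ∧
      ∀ β : Cfsg.IrrCharacter C, ∃ χ : Cfsg.IrrCharacter G,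
        (∀ s ∈ S, ∀ g g' : G, (g' : Γ) = s * g * s⁻¹ → (χ : G → ℂ) g' = (χ : G → ℂ) g) ∧ R χ β := by
  classical
  have hmemC : ∀ x : Γ, x ∈ C ↔ x ∈ G ∧ ∀ s ∈ S, s * x = x * s := by
    intro x; rw [hC]
    exact Iff.rfl
  by_cases hpG : p ∣ Nat.card G
  · -- then `S` is trivial
    have hS1 : ∀ s ∈ S, s = 1 := by
      intro s hs
      obtain ⟨k, hk⟩ := hS ⟨s, hs⟩
      obtain ⟨j, -, hj⟩ := (Nat.dvd_prime_pow hp).1 (orderOf_dvd_of_pow_eq_one hk)
      have hd : p ^ j ∣ Nat.card S := hj ▸ orderOf_dvd_natCard _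
      rcases Nat.eq_zero_or_pos j with rfl | hj0
      · have h1 : (⟨s, hs⟩ : S) = 1 := orderOf_eq_one_iff.1 (by rw [hj, pow_zero])
        exact congrArg Subtype.val h1
      · exfalso
        have h := Nat.dvd_gcd hpG ((dvd_pow_self p hj0.ne').trans hd)
        rw [hcop.gcd_eq_one] at h
        exact hp.one_lt.ne' (Nat.dvd_one.1 h)
    have hinv : ∀ χ : Cfsg.IrrCharacter G, ∀ s ∈ S, ∀ g g' : G, (g' : Γ) = s * g * s⁻¹ → (χ : G → ℂ) g' = (χ : G → ℂ) g := by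
      intro χ s hs g g' h
      rw [hS1 s hs] at h
      simp only [one_mul, inv_one, mul_one] at h
      rw [Subtype.ext h]
    have hGC : ∀ x : Γ, x ∈ G → x ∈ C := fun x hx => (hmemC x).2 ⟨hx, fun s hs => by rw [hS1 s hs, one_mul, mul_one]⟩
    let e : C ≃* G :=
      { toFun := fun c => ⟨c, hCG c.2⟩, invFun := fun g => ⟨g, hGC g g.2⟩
        left_inv := fun _ => rfl, right_inv := fun _ => rfl, map_mul' := fun _ _ => rfl }
    refine ⟨fun χ β => irrEquiv e.symm χ = β, fun χ _ => ⟨⟨_, rfl, fun β h => h.symm⟩,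
      fun χ' _ β h h' => (irrEquiv e.symm).injective (h.trans h'.symm), fun β m hm => ?_⟩,
      fun β => ⟨(irrEquiv e.symm).symm β, hinv _, Equiv.apply_symm_apply _ _⟩⟩
    have hm' : Cfsg.classInner (irrEquiv e.symm χ : C → ℂ) (β : C → ℂ) = (m : ℂ) := hm
    rw [classInner_irr] at hm'
    by_cases hb : irrEquiv e.symm χ = β
    · rw [if_pos hb] at hm'
      have : m = 1 := by exact_mod_cast hm'.symm
      subst this
      exact ⟨iff_of_true (fun h => hp.one_lt.ne' (Nat.dvd_one.1 h)) hb, fun _ => Or.inl (by simp)⟩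
    · rw [if_neg hb] at hm'
      have : m = 0 := by exact_mod_cast hm'.symm
      subst this
      exact ⟨iff_of_false (fun h => h (dvd_zero p)) hb, fun h => absurd h hb⟩
  · obtain ⟨M, hM⟩ := exists_modular hp
    let φ : S →* MulAut G :=
      { toFun := fun s =>
          { toFun := fun g => ⟨(s : Γ) * g * (s : Γ)⁻¹, hnorm s s.2 g g.2⟩
            invFun := fun g => ⟨(s : Γ)⁻¹ * g * s, by
              have := hnorm _ (S.inv_mem s.2) g g.2
              rwa [inv_inv] at this⟩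
            left_inv := fun g => Subtype.ext (by simp [mul_assoc])
            right_inv := fun g => Subtype.ext (by simp [mul_assoc])
            map_mul' := fun a b => Subtype.ext (by simp [mul_assoc]) }
        map_one' := MulEquiv.ext fun g => Subtype.ext (by simp)
        map_mul' := fun s t => MulEquiv.ext fun g => Subtype.ext (by simp [mul_assoc]) }
    have hinvariant : ∀ χ : Cfsg.IrrCharacter G,
        (∀ s ∈ S, ∀ g g' : G, (g' : Γ) = s * g * s⁻¹ → (χ : G → ℂ) g' = (χ : G → ℂ) g) ↔ IsInvariant φ (χ : G → ℂ) :=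
      fun χ => ⟨fun h s g => h s s.2 g _ rfl, fun h s hs g g' e => by
        rw [show g' = φ ⟨s, hs⟩ g from Subtype.ext e]; exact h _ g⟩
    let e : C ≃* fixedSub φ :=
      { toFun := fun c => ⟨⟨c, hCG c.2⟩, fun s => Subtype.ext (by
          show (s : Γ) * c * (s : Γ)⁻¹ = c
          rw [((hmemC c).1 c.2).2 s s.2, mul_inv_cancel_right])⟩
        invFun := fun g => ⟨g.1.1, (hmemC _).2 ⟨g.1.2, fun s hs => mul_inv_eq_iff_eq_mul.1
          (congrArg Subtype.val (g.2 ⟨s, hs⟩) : s * g.1.1 * s⁻¹ = g.1.1)⟩⟩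
        left_inv := fun _ => rfl, right_inv := fun _ => rfl, map_mul' := fun _ _ => rfl }
    haveI : Fintype (fixedSub φ) := Fintype.ofFinite _
    refine ⟨fun χ β => Corr φ M χ (irrEquiv e β), fun χ hχ => ⟨?_, ?_, ?_⟩, fun β => ?_⟩
    · obtain ⟨β, hβ⟩ := corr_exists_right φ hM hS hpG ((hinvariant χ).1 hχ)
      refine ⟨(irrEquiv e).symm β, by simpa using hβ, fun γ hγ => ?_⟩
      rw [Equiv.eq_symm_apply]
      exact corr_unique φ hM hS hpG ((hinvariant χ).1 hχ) hγ hβ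
    · intro χ' hχ' β h h'
      exact corr_injective φ hM hS hpG ((hinvariant χ).1 hχ) ((hinvariant χ').1 hχ') h h'
    · intro β m hm
      have hm' : Cfsg.classInner (fun c : fixedSub φ => (χ : G → ℂ) (c : G)) (irrEquiv e β : fixedSub φ → ℂ) = (m : ℂ) := by
        rw [← hm, ← classInner_equiv e]
        congr 1
      refine ⟨?_, fun h => mult_sq φ hM hS hpG ((hinvariant χ).1 hχ) h hm'⟩
      rw [mult_dvd_iff φ hM hS hpG ((hinvariant χ).1 hχ) _ hm', not_not]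
    · obtain ⟨χ, hχ, hc⟩ := corr_exists_left φ hM hS hpG (irrEquiv e β)
      exact ⟨χ, (hinvariant χ).2 hχ, hc⟩

/-- The Glauberman correspondence for a p-group of operators. Inside a finite group Γ let S normalise G with the orders of G and S coprime, S a p-group, and let C = G ⊓ C(S) be the fixed points. Call an irreducible character χ of G S-invariant when χ(s g s⁻¹) = χ(g) for s ∈ S, g ∈ G. Then: (i) for every S-invariant χ there is exactly one irreducible character β of C whose multiplicity [χ_C, β] in the restriction of χ is not divisible by p; (ii) that multiplicity is ≡ 1 or ≡ −1 (mod p); (iii) distinct S-invariant χ give distinct β; (iv) every irreducible character of C arises in this way. So χ ↦ β is a bijection from the S-invariant irreducible characters of G onto the irreducible characters of C. -/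
theorem result {Γ : Type*} [Group Γ] [Fintype Γ] (G S : Subgroup Γ) [Fintype G] (hnorm : ∀ s ∈ S, ∀ g ∈ G, s * g * s⁻¹ ∈ G) (hcop : (Nat.card G).Coprime (Nat.card S)) (p : ℕ) (hp : p.Prime) (hS : IsPGroup p S) (C : Subgroup Γ) [Fintype C] (hC : C = G ⊓ Subgroup.centralizer (S : Set Γ)) (hCG : C ≤ G) : (∀ χ : Cfsg.IrrCharacter G, (∀ s ∈ S, ∀ g g' : G, (g' : Γ) = s * g * s⁻¹ → (χ : G → ℂ) g' = (χ : G → ℂ) g) → ∃! β : Cfsg.IrrCharacter C, ∃ m : ℕ, Cfsg.classInner (fun c : C => (χ : G → ℂ) ⟨c, hCG c.2⟩) (β : C → ℂ) = (m : ℂ) ∧ ¬ p ∣ m) ∧ (∀ χ : Cfsg.IrrCharacter G, (∀ s ∈ S, ∀ g g' : G, (g' : Γ) = s * g * s⁻¹ → (χ : G → ℂ) g' = (χ : G → ℂ) g) → ∀ β : Cfsg.IrrCharacter C, ∀ m : ℕ, Cfsg.classInner (fun c : C => (χ : G → ℂ) ⟨c, hCG c.2⟩) (β : C → ℂ) = (m : ℂ) → ¬ p ∣ m → ((m : ℤ) ≡ 1 [ZMOD p] ∨ (m : ℤ) ≡ -1 [ZMOD p])) ∧ (∀ χ χ' : Cfsg.IrrCharacter G, (∀ s ∈ S, ∀ g g' : G, (g' : Γ) = s * g * s⁻¹ →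 (χ : G → ℂ) g' = (χ : G → ℂ) g) → (∀ s ∈ S, ∀ g g' : G, (g' : Γ) = s * g * s⁻¹ → (χ' : G → ℂ) g' = (χ' : G → ℂ) g) → ∀ β : Cfsg.IrrCharacter C, ∀ m m' : ℕ, Cfsg.classInner (fun c : C => (χ : G → ℂ) ⟨c, hCG c.2⟩) (β : C → ℂ) = (m : ℂ) → ¬ p ∣ m → Cfsg.classInner (fun c : C => (χ' : G → ℂ) ⟨c, hCG c.2⟩) (β : C → ℂ) = (m' : ℂ) → ¬ p ∣ m' → χ = χ') ∧ (∀ β : Cfsg.IrrCharacter C, ∃ χ : Cfsg.IrrCharacter G, (∀ s ∈ S, ∀ g g' : G, (g' : Γ) = s * g * s⁻¹ → (χ : G → ℂ) g' = (χ : G → ℂ) g) ∧ ∃ m : ℕ, Cfsg.classInner (fun c : C => (χ : G → ℂ) ⟨c, hCG c.2⟩) (β : C → ℂ) = (m : ℂ) ∧ ¬ p ∣ m) := by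
  classical
  obtain ⟨R, h1, h2⟩ := glauberman G S hnorm hcop p hp hS C hC hCG
  have hm : ∀ (χ : Cfsg.IrrCharacter G) (β : Cfsg.IrrCharacter C), ∃ m : ℕ,
      Cfsg.classInner (fun c : C => (χ : G → ℂ) ⟨c, hCG c.2⟩) (β : C → ℂ) = (m : ℂ) := fun χ β =>
    CfsgLib.CharBasics.classInner_character_nat
      (CfsgLib.CharBasics.isCharacter_comp (CfsgLib.CharBasics.isCharacter_of_irr χ.2) (Subgroup.inclusion hCG)) β
  refine ⟨fun χ hχ => ?_, fun χ hχ β m e hd => ((h1 χ hχ).2.2 β m e).2 (((h1 χ hχ).2.2 β m e).1.1 hd),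
    fun χ χ' hχ hχ' β m m' e hd e' hd' => (h1 χ hχ).2.1 χ' hχ' β (((h1 χ hχ).2.2 β m e).1.1 hd)
      (((h1 χ' hχ').2.2 β m' e').1.1 hd'), fun β => ?_⟩
  · obtain ⟨β, hβ, hu⟩ := (h1 χ hχ).1
    obtain ⟨m, e⟩ := hm χ β
    refine ⟨β, ⟨m, e, ((h1 χ hχ).2.2 β m e).1.2 hβ⟩, ?_⟩
    rintro γ ⟨k, ek, hk⟩
    exact hu γ (((h1 χ hχ).2.2 γ k ek).1.1 hk)
  · obtain ⟨χ, hχ, hR⟩ := h2 β
    obtain ⟨m, e⟩ := hm χ β
    exact ⟨χ, hχ, m, e, ((h1 χ hχ).2.2 β m e).1.2 hR⟩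

end Cfsg.Agent.S4444
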