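import Cfsg.Statements.S4446
import Cfsg.Agent.Clifford.CyclicGlauberman

set_option autoImplicit false
open Cfsg CfsgLib.CharBasics

namespace Cfsg.Agent.S4446

/-- Let the finite group Γ be generated by a normal subgroup G and a cyclic subgroup S of coprime orders, C = G ⊓ C(S), and let χ be an S-invariant irreducible character of G with canonical extension χ̂ to Γ (the extension whose determinantal order is coprime to the order of S). Then there are exactly one irreducible character β of C and one sign ε such that χ̂(c s) = ε β(c) for every c ∈ C and every generator s of S; this β is a constituent of the restriction of χ to C; distinct S-invariant χ give distinct β; and every irreducible character of C arises in this way. -/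
theorem result {Γ : Type*} [Group Γ] [Fintype Γ] (G S : Subgroup Γ) [Fintype G] (hnorm : ∀ s ∈ S, ∀ g ∈ G, s * g * s⁻¹ ∈ G) (hcop : (Nat.card G).Coprime (Nat.card S)) (htop : G ⊔ S = ⊤) (hcyc : IsCyclic S) (C : Subgroup Γ) [Fintype C] (hC : C = G ⊓ Subgroup.centralizer (S : Set Γ)) (hCG : C ≤ G) : (∀ (χ : Cfsg.IrrCharacter G) (χh : Cfsg.IrrCharacter Γ), (∀ s ∈ S, ∀ g g' : G, (g' : Γ) = s * g * s⁻¹ → (χ : G → ℂ) g' = (χ : G → ℂ) g) → (∀ g : G, (χh : Γ → ℂ) g = (χ : G → ℂ) g) → (Cfsg.detOrder (χh : Γ → ℂ)).Coprime (Nat.card S) → (∃! βε : Cfsg.IrrCharacter C × ℤ, (βε.2 = 1 ∨ βε.2 = -1) ∧ ∀ c : C, ∀ s : Γ, Subgroup.zpowers s = S → (χh : Γ → ℂ) ((c : Γ) * s) = (βε.2 : ℂ) * (βε.1 : C → ℂ) c) ∧ ∀ β : Cfsg.IrrCharacter C, ∀ ε : ℤ, (ε = 1 ∨ ε = -1) → (∀ c : C, ∀ s : Γ, Subgroup.zpowers s = S → (χh : Γ → ℂ) ((c : Γ) * s) = (ε : ℂ) * (β : C → ℂ) c) → Cfsg.classInner (fun c : C => (χ : G → ℂ) ⟨c, hCG c.2⟩) (β :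 C → ℂ) ≠ 0) ∧ (∀ (χ χ' : Cfsg.IrrCharacter G) (χh χh' : Cfsg.IrrCharacter Γ), (∀ s ∈ S, ∀ g g' : G, (g' : Γ) = s * g * s⁻¹ → (χ : G → ℂ) g' = (χ : G → ℂ) g) → (∀ s ∈ S, ∀ g g' : G, (g' : Γ) = s * g * s⁻¹ → (χ' : G → ℂ) g' = (χ' : G → ℂ) g) → (∀ g : G, (χh : Γ → ℂ) g = (χ : G → ℂ) g) → (∀ g : G, (χh' : Γ → ℂ) g = (χ' : G → ℂ) g) → (Cfsg.detOrder (χh : Γ → ℂ)).Coprime (Nat.card S) → (Cfsg.detOrder (χh' : Γ → ℂ)).Coprime (Nat.card S) → ∀ β : Cfsg.IrrCharacter C, ∀ ε ε' : ℤ, (ε = 1 ∨ ε = -1) → (ε' = 1 ∨ ε' = -1) → (∀ c : C, ∀ s : Γ, Subgroup.zpowers s = S → (χh : Γ → ℂ) ((c : Γ) * s) = (ε : ℂ) * (β : C → ℂ) c) → (∀ c : C, ∀ s : Γ, Subgroup.zpowers s = S → (χh' : Γ → ℂ) ((c : Γ) * s) = (ε' : ℂ) * (β : C → ℂ) c) → χ = χ') ∧ (∀ β : Cfsg.IrrCharacter C, ∃ (χ : Cfsg.IrrCharacter G) (χh : Cfsg.IrrCharacter Γ) (ε : ℤ), (∀ s ∈ S, ∀ g g' : G, (g' : Γ) = s * g * s⁻¹ → (χ : G → ℂ) g' = (χ : G → ℂ) g) ∧ (∀ g : G, (χh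 : Γ → ℂ) g = (χ : G → ℂ) g) ∧ (Cfsg.detOrder (χh : Γ → ℂ)).Coprime (Nat.card S) ∧ (ε = 1 ∨ ε = -1) ∧ ∀ c : C, ∀ s : Γ, Subgroup.zpowers s = S → (χh : Γ → ℂ) ((c : Γ) * s) = (ε : ℂ) * (β : C → ℂ) c) := by
  classical
  haveI hGn : G.Normal := Subgroup.normalizer_eq_top_iff.mp (top_le_iff.mp (htop ▸ sup_le Subgroup.le_normalizer
    (fun s hs => Subgroup.mem_normalizer_iff.2 fun g => ⟨hnorm s hs g, fun hg => by
      have := hnorm s⁻¹ (S.inv_mem hs) _ hg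
      simpa [mul_assoc] using this⟩)))
  obtain ⟨⟨s0, hs0⟩, hgen⟩ := hcyc.exists_generator
  have hz0 : Subgroup.zpowers s0 = S := by
    refine le_antisymm (Subgroup.zpowers_le.2 hs0) fun x hx => ?_
    obtain ⟨i, hi⟩ := hgen ⟨x, hx⟩
    exact ⟨i, by simpa using congrArg Subtype.val hi⟩
  have hn : orderOf s0 = Nat.card S := by rw [← hz0, Nat.card_zpowers]
  have hset : CfsgLib.CyclicCorr.Setup G s0 := ⟨by rw [hz0]; exact htop, by rw [hn]; exact hcop⟩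
  have hC' : ∀ c, c ∈ C ↔ c ∈ G ∧ c * s0 = s0 * c := by
    intro c
    rw [hC, Subgroup.mem_inf, Subgroup.mem_centralizer_iff]
    refine and_congr_right fun _ => ⟨fun hc => (hc s0 hs0).symm, fun hc x hx => ?_⟩
    rw [← hz0] at hx
    obtain ⟨i, rfl⟩ := hx
    exact ((show Commute c s0 from hc).zpow_right i).eq.symm
  have hgens : ∀ t : Γ, Subgroup.zpowers t = S → ∃ j : ℕ, j.Coprime (orderOf s0) ∧ t = s0 ^ j := by
    intro t ht
    have h1 : t ∈ Subgroup.zpowers s0 := by rw [hz0, ← ht]; exact Subgroup.mem_zpowers t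
    obtain ⟨j, hj⟩ := (isOfFinOrder_of_finite s0).mem_powers_iff_mem_zpowers.2 h1
    simp only at hj
    refine ⟨j, ?_, hj.symm⟩
    have h2 : orderOf t = orderOf s0 := by rw [hn, ← ht, Nat.card_zpowers]
    rw [← hj, (isOfFinOrder_of_finite s0).orderOf_pow] at h2
    have h3 : (orderOf s0).gcd j = 1 := by
      rcases Nat.div_eq_self.1 h2 with h | h
      · exact absurd h (orderOf_pos s0).ne'
      · exact h
    exact Nat.Coprime.symm h3
  have hcan : ∀ (χ : IrrCharacter G) (χh : IrrCharacter Γ), (∀ g : G, (χh : Γ → ℂ) g = (χ : G → ℂ) g) →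
      (detOrder (χh : Γ → ℂ)).Coprime (Nat.card S) → CfsgLib.CyclicCorr.IsCanonical (s := s0) χ χh :=
    fun χ χh h1 h2 => ⟨h1, by rw [hn]; exact h2⟩
  refine ⟨fun χ χh _ hres hdet => ?_, ?_, ?_⟩
  · obtain ⟨β, ε, hε, hv, hne⟩ := CfsgLib.CyclicCorr.exists_sign hset hC' χ χh (hcan χ χh hres hdet)
    have hv' : ∀ c : C, ∀ t : Γ, Subgroup.zpowers t = S → (χh : Γ → ℂ) ((c : Γ) * t) = (ε : ℂ) * (β : C → ℂ) c :=
      fun c t ht => by
        obtain ⟨j, hj, rfl⟩ := hgens t ht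
        exact hv c j hj
    have huniq : ∀ β' : IrrCharacter C, ∀ ε' : ℤ, (ε' = 1 ∨ ε' = -1) →
        (∀ c : C, ∀ t : Γ, Subgroup.zpowers t = S → (χh : Γ → ℂ) ((c : Γ) * t) = (ε' : ℂ) * (β' : C → ℂ) c) →
        β' = β ∧ ε' = ε := by
      intro β' ε' hε' hv''
      have e : (fun c : C => (ε' : ℂ) * (β' : C → ℂ) c) = fun c => (ε : ℂ) * (β : C → ℂ) c :=
        funext fun c => (hv'' c s0 hz0).symm.trans (hv' c s0 hz0)
      have e' := congrArg (fun f => classInner f (β : C → ℂ)) e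
      rw [show (fun c : C => (ε' : ℂ) * (β' : C → ℂ) c) = (ε' : ℂ) • (β' : C → ℂ) from rfl,
        show (fun c : C => (ε : ℂ) * (β : C → ℂ) c) = (ε : ℂ) • (β : C → ℂ) from rfl,
        classInner_smul_left, classInner_smul_left, classInner_self β.2, mul_one] at e'
      by_cases hb : β' = β
      · rw [hb, classInner_self β.2, mul_one] at e'
        exact ⟨hb, by exact_mod_cast e'⟩
      · rw [classInner_ne β'.2 β.2 (fun h => hb (Subtype.ext h)), mul_zero] at e'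
        have : ε = 0 := by exact_mod_cast e'.symm
        rcases hε with h | h <;> omega
    refine ⟨⟨(β, ε), ⟨hε, hv'⟩, fun y hy => ?_⟩, fun β' ε' hε' hv'' => ?_⟩
    · obtain ⟨hb, he⟩ := huniq y.1 y.2 hy.1 hy.2
      exact Prod.ext hb he
    · obtain ⟨rfl, -⟩ := huniq β' ε' hε' hv''
      rwa [show (fun c : C => (χ : G → ℂ) ⟨c, hCG c.2⟩) = fun c : C => (χh : Γ → ℂ) c from
        funext fun c => (hres ⟨c, hCG c.2⟩).symm]
  · intro χ χ' χh χh' _ _ hres hres' _ _ β ε ε' hε hε' hv hv'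
    by_contra hne
    have h0 := (CfsgLib.CyclicCorr.corr_orth hset hC' χ χ' χh χh' hres hres').1 hne
    rw [show (fun c : C => (χh : Γ → ℂ) ((c : Γ) * s0)) = (ε : ℂ) • (β : C → ℂ) from funext fun c => hv c s0 hz0,
      show (fun c : C => (χh' : Γ → ℂ) ((c : Γ) * s0)) = (ε' : ℂ) • (β : C → ℂ) from funext fun c => hv' c s0 hz0,
      classInner_smul_left, classInner_comm, classInner_smul_left, classInner_self β.2, mul_one, map_intCast] at h0
    rcases hε with rfl | rfl <;> rcases hε' with rfl | rfl <;> norm_num at h0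
  · intro β
    by_contra hno
    push Not at hno
    refine apply_one_ne_zero β.2 (congrFun (CfsgLib.CyclicCorr.eq_zero_of_orth hset hC'
      (isClassFunction (isCharacter_of_irr β.2)) ?_) 1)
    intro χ ψ hinv hψ
    have hinvS : ∀ t ∈ S, ∀ g g' : G, (g' : Γ) = t * g * t⁻¹ → (χ : G → ℂ) g' = (χ : G → ℂ) g := by
      have hs : s0 ∈ CfsgLib.Clifford.inertia (N := G) (χ : G → ℂ) := funext fun g => hinv g _ rfl
      intro t ht g g' hg
      have ht' : t ∈ CfsgLib.Clifford.inertia (N := G) (χ : G → ℂ) :=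
        (hz0 ▸ Subgroup.zpowers_le.2 hs) ht
      rw [← congrFun ht' g]
      exact congrArg (χ : G → ℂ) (Subtype.ext hg)
    obtain ⟨β', ε, hε, hv, -⟩ := CfsgLib.CyclicCorr.exists_sign hset hC' χ ψ hψ
    have hv1 : (fun c : C => (ψ : Γ → ℂ) ((c : Γ) * s0)) = (ε : ℂ) • (β' : C → ℂ) := funext fun c => by
      have := hv c 1 (Nat.coprime_one_left _)
      rwa [pow_one] at this
    rw [hv1, classInner_comm, classInner_smul_left]
    by_cases hb : β' = β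
    · subst hb
      obtain ⟨c, t, ht, hne⟩ := hno χ ψ ε hinvS hψ.1 (by rw [← hn]; exact hψ.2) hε
      obtain ⟨j, hj, rfl⟩ := hgens t ht
      exact absurd (hv c j hj) hne
    · rw [classInner_ne β'.2 β.2 (fun h => hb (Subtype.ext h)), mul_zero, map_zero]

end Cfsg.Agent.S4446
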