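import Cfsg.Statements.S4447
import Cfsg.Agent.CharBasics.Extra
import Cfsg.Agent.Clifford.Basic
import Cfsg.Agent.CoprimeAction.Basic

set_option autoImplicit false
open Cfsg

namespace Cfsg.Agent.S4447

open CfsgLib.CharBasics

variable {Γ : Type*} [Group Γ] [Finite Γ] (N : Subgroup Γ)

/-- The normalizer acts on the irreducible characters. -/
noncomputable def actChar : Subgroup.normalizer (N : Set Γ) →* Equiv.Perm (Cfsg.IrrCharacter N) where
  toFun t :=
    { toFun := fun θ => ⟨fun n => (θ : N → ℂ) (Subgroup.normalizerMonoidHom N t⁻¹ n),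
        irr_comp_of_surjective θ.2 (Subgroup.normalizerMonoidHom N t⁻¹).toMonoidHom
          (Subgroup.normalizerMonoidHom N t⁻¹).surjective⟩
      invFun := fun θ => ⟨fun n => (θ : N → ℂ) (Subgroup.normalizerMonoidHom N t n),
        irr_comp_of_surjective θ.2 (Subgroup.normalizerMonoidHom N t).toMonoidHom
          (Subgroup.normalizerMonoidHom N t).surjective⟩
      left_inv := fun θ => Subtype.ext (funext fun n => by
        simp [map_inv])
      right_inv := fun θ => Subtype.ext (funext fun n => by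
        simp [map_inv]) }
  map_one' := Equiv.ext fun θ => Subtype.ext (funext fun n => by simp)
  map_mul' s t := Equiv.ext fun θ => Subtype.ext (funext fun n => by
    simp only [Equiv.coe_fn_mk, Equiv.Perm.coe_mul, Function.comp_apply, mul_inv_rev, map_mul]
    rfl)

theorem actChar_apply (t : Subgroup.normalizer (N : Set Γ)) (θ : Cfsg.IrrCharacter N) (n n' : N)
    (h : (n' : Γ) = (t : Γ)⁻¹ * n * t) :
    (actChar N t θ : N → ℂ) n = (θ : N → ℂ) n' := by
  refine congrArg (θ : N → ℂ) (Subtype.ext ?_)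
  rw [h]
  simp


/-- Inside a finite group Γ let S normalise G and also normalise a normal subgroup N of G, with the order of S coprime to the index of N in G and S or G/N solvable. Then for every S-invariant irreducible character χ of G, the restriction of χ to N has an S-invariant irreducible constituent. -/
theorem result {Γ : Type*} [Group Γ] [Fintype Γ] (G S N : Subgroup Γ) [Fintype G] [Fintype N] (hnorm : ∀ s ∈ S, ∀ g ∈ G, s * g * s⁻¹ ∈ G) (hNG : N ≤ G) [hNn : (N.subgroupOf G).Normal] (hNS : ∀ s ∈ S, ∀ n ∈ N, s * n * s⁻¹ ∈ N) (hcop : (N.relIndex G).Coprime (Nat.card S)) (hsolv : Group.IsSolvable S ∨ Group.IsSolvable (G ⧸ N.subgroupOf G)) (χ : Cfsg.IrrCharacter G) (hinv : (∀ s ∈ S, ∀ g g' : G, (g' : Γ) = s * g * s⁻¹ → (χ : G → ℂ) g' = (χ : G → ℂ) g)) : ∃ θ : Cfsg.IrrCharacter N, Cfsg.classInner (fun n : N => (χ : G → ℂ) ⟨n, hNG n.2⟩) (θ : N → ℂ) ≠ 0 ∧ (∀ s ∈ S, ∀ g g' : N, (g' : Γ) = s * g * s⁻¹ → (θ : N → ℂ) g' = (θ : N → ℂ) g) := by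
  classical
  set T := Subgroup.normalizer (N : Set Γ) with hT
  have hGT : G ≤ T := fun g hg => by
    rw [hT, Subgroup.mem_normalizer_iff]
    refine fun n => ⟨fun hn => ?_, fun hn => ?_⟩
    · exact Subgroup.mem_subgroupOf.1 (hNn.conj_mem ⟨n, hNG hn⟩ hn ⟨g, hg⟩)
    · have hn' : g⁻¹ * (g * n * g⁻¹) * g = n := by group
      have := Subgroup.mem_subgroupOf.1 (hNn.conj_mem ⟨_, hNG hn⟩ hn ⟨g⁻¹, inv_mem hg⟩)
      simpa [hn'] using this
  have hST : S ≤ T := fun s hs => by
    rw [hT, Subgroup.mem_normalizer_iff]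
    refine fun n => ⟨fun hn => hNS s hs n hn, fun hn => ?_⟩
    have := hNS s⁻¹ (inv_mem hs) _ hn
    simpa [mul_assoc] using this
  let fG : G →* Equiv.Perm (Cfsg.IrrCharacter N) := (actChar N).comp (Subgroup.inclusion hGT)
  let fS : S →* Equiv.Perm (Cfsg.IrrCharacter N) := (actChar N).comp (Subgroup.inclusion hST)
  let res : N → ℂ := fun n => (χ : G → ℂ) ⟨n, hNG n.2⟩
  have hfix : ∀ (t : T) (hconj : ∀ g ∈ G, (t : Γ)⁻¹ * g * t ∈ G)
      (hval : ∀ g : G, (χ : G → ℂ) ⟨(t : Γ)⁻¹ * g * t, hconj g g.2⟩ = (χ : G → ℂ) g)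
      (θ : Cfsg.IrrCharacter N), Cfsg.classInner res (θ : N → ℂ) ≠ 0 →
      Cfsg.classInner res (actChar N t θ : N → ℂ) ≠ 0 := by
    intro t hconj hval θ hθ
    let e : N ≃* N := Subgroup.normalizerMonoidHom N t⁻¹
    have he : ∀ n : N, (e n : Γ) = (t : Γ)⁻¹ * n * t := fun n => by simp [e]
    have h1 : res = fun n => res (e n) := funext fun n => by
      show (χ : G → ℂ) ⟨n, hNG n.2⟩ = (χ : G → ℂ) ⟨e n, hNG (e n).2⟩
      rw [← hval ⟨n, hNG n.2⟩]
      exact congrArg (χ : G → ℂ) (Subtype.ext (he n).symm)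
    rw [h1]
    show Cfsg.classInner (fun n => res (e n)) (fun n => (θ : N → ℂ) (e n)) ≠ 0
    rw [CfsgLib.Clifford.classInner_comp_equiv e]
    exact hθ
  set K := fG.range with hK
  set A := fS.range with hA
  have hAK : A ≤ Subgroup.normalizer (K : Set (Equiv.Perm (Cfsg.IrrCharacter N))) := by
    suffices h : ∀ a ∈ A, ∀ k ∈ K, a * k * a⁻¹ ∈ K by
      intro a ha
      rw [Subgroup.mem_normalizer_iff]
      refine fun k => ⟨fun hk => h a ha k hk, fun hk => ?_⟩
      have := h a⁻¹ (inv_mem ha) _ hk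
      simpa [mul_assoc] using this
    rintro a ⟨s, rfl⟩ k ⟨g, rfl⟩
    refine ⟨⟨(s : Γ) * g * (s : Γ)⁻¹, hnorm s s.2 g g.2⟩, ?_⟩
    simp only [fG, fS, MonoidHom.coe_comp, Function.comp_apply, ← map_inv, ← map_mul]
    exact congrArg _ (Subtype.ext (by simp))
  have hker : N.subgroupOf G ≤ fG.ker := by
    intro g hg
    rw [MonoidHom.mem_ker]
    refine Equiv.ext fun θ => Subtype.ext (funext fun n => ?_)
    have hgN : (g : Γ) ∈ N := hg
    show (actChar N (Subgroup.inclusion hGT g) θ : N → ℂ) n = (θ : N → ℂ) n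
    rw [actChar_apply N _ θ n ((⟨g, hgN⟩ : N)⁻¹ * n * ⟨g, hgN⟩) (by simp)]
    have := isClassFunction (isCharacter_of_irr θ.2) n ((⟨g, hgN⟩ : N)⁻¹)
    simpa using this
  have hcardK : Nat.card K ∣ N.relIndex G := by
    rw [hK, ← Subgroup.index_ker]
    exact Subgroup.index_dvd_of_le hker
  have hcardA : Nat.card A ∣ Nat.card S := Subgroup.card_range_dvd fS
  have hc : (Nat.card A).Coprime (Nat.card K) :=
    ((hcop.coprime_dvd_left hcardK).symm.coprime_dvd_left hcardA)
  have hs : Group.IsSolvable A ∨ Group.IsSolvable K := by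
    rcases hsolv with h | h
    · exact Or.inl (Group.isSolvable_of_surjective (f := fS.rangeRestrict) fS.rangeRestrict_surjective)
    · refine Or.inr (Group.isSolvable_of_surjective
        (f := QuotientGroup.lift (N.subgroupOf G) fG.rangeRestrict
          (by rwa [fG.ker_rangeRestrict])) ?_)
      exact QuotientGroup.lift_surjective_of_surjective _ _ fG.rangeRestrict_surjective _
  haveI : Fintype (N.subgroupOf G) := Fintype.ofFinite _
  let e : N.subgroupOf G ≃* N := Subgroup.subgroupOfEquivOfLe hNG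
  have hcomp : ∀ θ : Cfsg.IrrCharacter N,
      Cfsg.classInner (fun n : N.subgroupOf G => (χ : G → ℂ) n) (fun n => (θ : N → ℂ) (e n)) =
        Cfsg.classInner res (θ : N → ℂ) := fun θ =>
    CfsgLib.Clifford.classInner_comp_equiv e res (θ : N → ℂ)
  set X : Set (Cfsg.IrrCharacter N) := {θ | Cfsg.classInner res (θ : N → ℂ) ≠ 0} with hX
  have hne : X.Nonempty := by
    obtain ⟨θ', hθ'⟩ := exists_restrict_constituent (N.subgroupOf G) χ
    refine ⟨⟨fun n => (θ' : N.subgroupOf G → ℂ) (e.symm n),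
      irr_comp_of_surjective θ'.2 e.symm.toMonoidHom e.symm.surjective⟩, ?_⟩
    show Cfsg.classInner res _ ≠ 0
    rw [← hcomp]
    simp only [MulEquiv.symm_apply_apply]
    rw [classInner_comm]
    exact fun h => hθ' (by simpa using h)
  have hKX : ∀ k ∈ K, ∀ x ∈ X, k • x ∈ X := by
    rintro k ⟨g, rfl⟩ ψ hψ
    refine hfix (Subgroup.inclusion hGT g) (fun x hx => mul_mem (mul_mem (inv_mem g.2) hx) g.2)
      (fun x => ?_) ψ hψ
    have := isClassFunction (isCharacter_of_irr χ.2) x g⁻¹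
    simp only [inv_inv] at this
    exact this
  have hAX : ∀ a ∈ A, ∀ x ∈ X, a • x ∈ X := by
    rintro k ⟨s, rfl⟩ ψ hψ
    refine hfix (Subgroup.inclusion hST s) (fun x hx => ?_) (fun x => ?_) ψ hψ
    · have := hnorm _ (inv_mem s.2) x hx
      rwa [inv_inv] at this
    · exact hinv _ (inv_mem s.2) x _ (by simp)
  have htr : ∀ x ∈ X, ∀ y ∈ X, ∃ k ∈ K, k • x = y := by
    intro x hx y hy
    have hx' := hcomp x
    have hy' := hcomp y
    obtain ⟨g, hg⟩ := CfsgLib.Clifford.constituent_conj (N := N.subgroupOf G) χ.2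
      (θ := fun n => (x : N → ℂ) (e n)) (φ := fun n => (y : N → ℂ) (e n))
      (irr_comp_of_surjective x.2 e.toMonoidHom e.surjective)
      (irr_comp_of_surjective y.2 e.toMonoidHom e.surjective)
      (by rw [hx']; exact hx) (by rw [hy']; exact hy)
    refine ⟨fG g⁻¹, ⟨g⁻¹, rfl⟩, Subtype.ext (funext fun n => ?_)⟩
    have h := congrFun hg (e.symm n)
    simp only [MulEquiv.apply_symm_apply, CfsgLib.Clifford.conjFun_apply] at h
    rw [h]
    refine actChar_apply N _ x n _ ?_
    simp [e, mul_assoc]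
  obtain ⟨θ, hθ, hθfix⟩ := CfsgLib.CoprimeAction.exists_fixed hAK hc hs X hne hKX hAX htr
  refine ⟨θ, hθ, fun s hs' g g' hgg' => ?_⟩
  have h := congrArg (fun ψ : Cfsg.IrrCharacter N => (ψ : N → ℂ) g') (hθfix _ ⟨⟨s, hs'⟩, rfl⟩)
  simp only [Equiv.Perm.smul_def] at h
  rw [← h]
  exact actChar_apply N _ θ g' g (by simp [hgg', mul_assoc])

end Cfsg.Agent.S4447
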