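import Cfsg.Statements.S4451
import Cfsg.Agent.Clifford.CyclicGlauberman
import Cfsg.Agent.Clifford.Extend


set_option autoImplicit false
open Cfsg

namespace Cfsg.Agent.S4451

open CfsgLib CfsgLib.CharBasics
open scoped ComplexConjugate

set_option maxHeartbeats 1600000

theorem exists_pow_sum_prime {R : Type*} [CommRing R] {ι : Type*} {q : ℕ} (hq : q.Prime) (s : Finset ι) (a : ι → R) :
    ∃ w : R, (∑ i ∈ s, a i) ^ q = ∑ i ∈ s, a i ^ q + (q : R) * w := by
  classical
  induction s using Finset.induction_on with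
  | empty => exact ⟨0, by simp [zero_pow hq.ne_zero]⟩
  | @insert x s hx ih =>
    obtain ⟨w, hw⟩ := ih
    obtain ⟨r, hr⟩ := exists_add_pow_prime_eq hq (a x) (∑ i ∈ s, a i)
    refine ⟨w + a x * (∑ i ∈ s, a i) * r, ?_⟩
    rw [Finset.sum_insert hx, Finset.sum_insert hx, hr, hw]
    ring

theorem exists_sum_sq {R : Type*} [CommRing R] {ι : Type*} (s : Finset ι) (a : ι → R) :
    ∃ w v : R, (∑ i ∈ s, a i) ^ 2 = ∑ i ∈ s, a i ^ 2 + 2 * w ∧
      (∑ i ∈ s, a i ^ 2) ^ 2 = ∑ i ∈ s, a i ^ 4 + 2 * (w ^ 2 + 2 * v) := by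
  classical
  induction s using Finset.induction_on with
  | empty => exact ⟨0, 0, by simp, by simp⟩
  | @insert x s hx ih =>
    obtain ⟨w, v, hw, hv⟩ := ih
    refine ⟨w + a x * ∑ i ∈ s, a i, v - a x ^ 2 * w - w * (a x * ∑ i ∈ s, a i), ?_, ?_⟩
    · rw [Finset.sum_insert hx, Finset.sum_insert hx]; linear_combination hw
    · simp only [Finset.sum_insert hx]
      linear_combination hv - 2 * a x ^ 2 * hw

theorem int_of_mul {z : ℂ} (hz : IsIntegral ℤ z) {a b : ℤ} (hb : b ≠ 0) (h : (b : ℂ) * z = a) :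
    ∃ m : ℤ, z = m := by
  have hzq : z = algebraMap ℚ ℂ ((a : ℚ) / b) := by
    simp only [eq_ratCast, Rat.cast_div, Rat.cast_intCast]
    rw [eq_div_iff (Int.cast_ne_zero.2 hb), mul_comm]; exact h
  rw [hzq, isIntegral_algebraMap_iff (algebraMap ℚ ℂ).injective] at hz
  obtain ⟨m, hm⟩ := (IsIntegrallyClosed.isIntegral_iff (R := ℤ) (K := ℚ)).1 hz
  exact ⟨m, by rw [hzq, ← hm]; simp⟩

/-- The values of an integer valued character: two congruences. -/
theorem congruences {A : Type*} [Group A] [Finite A] {f : A → ℂ} (hf : IsCharacter A f) (F : A → ℤ)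
    (hF : ∀ a, f a = F a) (y : A) :
    (∀ q : ℕ, q.Prime → (q : ℤ) ∣ F y ^ q - F (y ^ q)) ∧
      ((F y = 1 ∨ F y = -1) → (F (y ^ 2) = 1 ∨ F (y ^ 2) = -1) → (F (y ^ 4) = 1 ∨ F (y ^ 4) = -1) →
        F (y ^ 4) = F (y ^ 2)) := by
  obtain ⟨lam, hl, hv⟩ := exists_eigen hf y
  let a : Fin (charDegree f) → AlgInt := fun i =>
    ⟨lam i, IsIntegral.of_pow (orderOf_pos y) (by rw [hl i]; exact isIntegral_one)⟩
  have hsum : ∀ j : ℕ, ((∑ i, a i ^ j : AlgInt) : ℂ) = (F (y ^ j) : ℂ) := fun j => by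
    rw [← hF, hv]
    simp [a]
  have hsum1 : ((∑ i, a i : AlgInt) : ℂ) = (F y : ℂ) := by
    have := hsum 1
    simpa using this
  constructor
  · intro q hq
    obtain ⟨w, hw⟩ := exists_pow_sum_prime hq Finset.univ a
    have h := congrArg (fun z : AlgInt => (z : ℂ)) hw
    push_cast at h
    have e1 := hsum q
    push_cast at e1 hsum1
    rw [e1, hsum1] at h
    obtain ⟨m, hm⟩ := int_of_mul (z := (w : ℂ)) w.2 (b := (q : ℤ)) (a := F y ^ q - F (y ^ q))
      (Int.natCast_ne_zero.2 hq.ne_zero) (by push_cast; linear_combination -h)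
    refine ⟨m, ?_⟩
    rw [hm] at h
    have h2 : F y ^ q = F (y ^ q) + (q : ℤ) * m := by exact_mod_cast h
    omega
  · intro h1 h2 h4
    obtain ⟨w, v, hw, hv'⟩ := exists_sum_sq Finset.univ a
    have h := congrArg (fun z : AlgInt => (z : ℂ)) hw
    have h' := congrArg (fun z : AlgInt => (z : ℂ)) hv'
    have e2 := hsum 2
    have e4 := hsum 4
    have c2 : ((2 : AlgInt) : ℂ) = 2 := map_ofNat AlgInt.val 2
    push_cast at h h' e2 e4 hsum1
    try rw [c2] at h h'
    rw [hsum1, e2] at h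
    rw [e2, e4] at h'
    obtain ⟨m, hm⟩ := int_of_mul (z := (w : ℂ)) w.2 (b := (2 : ℤ)) (a := F y ^ 2 - F (y ^ 2))
      two_ne_zero (by push_cast; linear_combination -h)
    rw [hm] at h h'
    obtain ⟨k, hk⟩ := int_of_mul (z := (v : ℂ)) v.2 (b := (4 : ℤ)) (a := F (y ^ 2) ^ 2 - F (y ^ 4) - 2 * m ^ 2)
      four_ne_zero (by push_cast; linear_combination -h')
    rw [hk] at h'
    have i1 : F y ^ 2 = F (y ^ 2) + 2 * m := by exact_mod_cast h
    have i2 : F (y ^ 2) ^ 2 = F (y ^ 4) + 2 * (m ^ 2 + 2 * k) := by exact_mod_cast h'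
    rcases h1 with h1 | h1 <;> rcases h2 with h2 | h2 <;> rcases h4 with h4 | h4 <;> rw [h2, h4] <;>
      rw [h1, h2] at i1 <;> rw [h2, h4] at i2 <;> norm_num at i1 i2 ⊢ <;>
      first
        | (have : m = 0 := by omega
           subst this
           norm_num at i2
           omega)
        | (have : m = 1 := by omega
           subst this
           norm_num at i2
           omega)

/-- Let the finite group Γ be generated by a normal subgroup G and a cyclic subgroup S of coprime orders such that every non-identity element of S has the same centraliser C = G ⊓ C(S) in G. Let χ be an S-invariant irreducible character of G, χ̂ its canonical extension to Γ (determinantal order coprime to the order of S), and β the irreducible character of C with χ̂(c s) = ε₀ β(c) for c ∈ C and generators s of S (ε₀ = ±1). Then there are a sign ε = ±1, which may differ from ε₀, and a linear character μ of S with μ² = 1, such that: (a) χ̂(c x) = ε β(c) μ(x) for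 all c ∈ C and all x ∈ S other than 1; (b) the restriction of χ to C equals |S|·ϑ + ε β for some character ϑ of C or ϑ = 0; (c) |S| divides χ(1) − ε β(1). -/
theorem result {Γ : Type*} [Group Γ] [Fintype Γ] (G S : Subgroup Γ) [Fintype G] (hnorm : ∀ s ∈ S, ∀ g ∈ G, s * g * s⁻¹ ∈ G) (hcop : (Nat.card G).Coprime (Nat.card S)) (htop : G ⊔ S = ⊤) (hcyc : IsCyclic S) (C : Subgroup Γ) [Fintype C] (hC : C = G ⊓ Subgroup.centralizer (S : Set Γ)) (hCG : C ≤ G) (hfpf : ∀ x ∈ S, x ≠ 1 → G ⊓ Subgroup.centralizer ({x} : Set Γ) = C) (χ : Cfsg.IrrCharacter G) (hinv : (∀ s ∈ S, ∀ g g' : G, (g' : Γ) = s * g * s⁻¹ → (χ : G → ℂ) g' = (χ : G → ℂ) g)) (χh : Cfsg.IrrCharacter Γ) (hext : (∀ g : G, (χh : Γ → ℂ) g = (χ : G → ℂ) g)) (hdet : (Cfsg.detOrder (χh : Γ → ℂ)).Coprime (Nat.card S)) (β : Cfsg.IrrCharacter C) (ε₀ : ℤ) (hε₀ : ε₀ = 1 ∨ ε₀ = -1) (hβ : ∀ c : C, ∀ s : Γ, Subgroup.zpowers s = S → (χh : Γ → ℂ) ((c : Γ) * s) = (ε₀ : ℂ) * (β : C → ℂ) c) : ∃ ε : ℤ, (ε = 1 ∨ ε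 = -1) ∧ (∃ μ : S → ℂ, Cfsg.IsCharacter S μ ∧ μ 1 = 1 ∧ (∀ x : S, μ x * μ x = 1) ∧ ∀ c : C, ∀ x : S, x ≠ 1 → (χh : Γ → ℂ) ((c : Γ) * x) = (ε : ℂ) * (β : C → ℂ) c * μ x) ∧ (∃ ϑ : C → ℂ, Cfsg.IsCharacter C ϑ ∧ (fun c : C => (χ : G → ℂ) ⟨c, hCG c.2⟩) = fun c => (Nat.card S : ℂ) * ϑ c + (ε : ℂ) * (β : C → ℂ) c) ∧ (Nat.card S : ℤ) ∣ (Cfsg.charDegree (χ : G → ℂ) : ℤ) - ε * (Cfsg.charDegree (β : C → ℂ) : ℤ) := by
  classical
  haveI hGn : G.Normal := Subgroup.normalizer_eq_top_iff.mp (top_le_iff.mp (htop ▸ sup_le Subgroup.le_normalizer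
    (fun s hs => Subgroup.mem_normalizer_iff.2 fun g => ⟨hnorm s hs g, fun hg => by
      have := hnorm s⁻¹ (S.inv_mem hs) _ hg
      simpa [mul_assoc] using this⟩)))
  obtain ⟨⟨s0, hs0⟩, hgen⟩ := hcyc.exists_generator
  have hz0 : Subgroup.zpowers s0 = S := by
    refine le_antisymm (Subgroup.zpowers_le.2 hs0) fun x hx => ?_
    obtain ⟨i, hi⟩ := hgen ⟨x, hx⟩
    exact ⟨i, by simpa using congrArg Subtype.val hi⟩
  have hn : orderOf s0 = Nat.card S := by rw [← hz0, Nat.card_zpowers]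
  have hset : CfsgLib.CyclicCorr.Setup G s0 := ⟨by rw [hz0]; exact htop, by rw [hn]; exact hcop⟩
  haveI := Fintype.ofFinite S
  haveI := hcyc
  letI : CommGroup S := IsCyclic.commGroup
  haveI : Fintype (IrrCharacter C) := Fintype.ofFinite _
  haveI : Fintype (IrrCharacter S) := Fintype.ofFinite _
  set n := Nat.card S with hndef
  have hcomm : ∀ (c : C) (z : S), Commute (c : Γ) (z : Γ) := fun c z => by
    have hc : (c : Γ) ∈ G ⊓ Subgroup.centralizer (S : Set Γ) := hC ▸ c.2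
    exact (Subgroup.mem_centralizer_iff.1 hc.2 z z.2).symm
  let φ : C × S →* Γ := MonoidHom.noncommCoprod C.subtype S.subtype hcomm
  have hφ : ∀ c z, φ (c, z) = (c : Γ) * (z : Γ) := fun c z => rfl
  have hψc := isCharacter_of_irr χh.2
  -- the multiplicity characters
  let mult : IrrCharacter C → S → ℂ := fun γ z =>
    classInner (fun c : C => (χh : Γ → ℂ) ((c : Γ) * (z : Γ))) (γ : C → ℂ)
  have hmc : ∀ γ, IsCharacter S (mult γ) := by
    intro γ
    refine isCharacter_of_inner_nat (fun a b => by rw [mul_comm b a, mul_inv_cancel_right]) fun l => ?_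
    obtain ⟨m, hm⟩ := classInner_characters_nat (CfsgLib.CharBasics.isCharacter_comp hψc φ)
      (CfsgLib.CharBasics.isCharacter_mul
        (CfsgLib.CharBasics.isCharacter_comp (isCharacter_of_irr γ.2) (MonoidHom.fst C S))
        (CfsgLib.CharBasics.isCharacter_comp (isCharacter_of_irr l.2) (MonoidHom.snd C S)))
    refine ⟨m, ?_⟩
    rw [← hm, classInner_eq, classInner_eq, Fintype.sum_prod_type, Finset.sum_comm, Finset.mul_sum,
      Nat.card_prod, Nat.cast_mul, mul_inv]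
    rw [Finset.mul_sum]
    refine Finset.sum_congr rfl fun z _ => ?_
    simp only [mult, classInner_eq, Finset.mul_sum, Finset.sum_mul, Pi.mul_apply, MonoidHom.coe_fst,
      MonoidHom.coe_snd, map_mul, hφ]
    exact Finset.sum_congr rfl fun c _ => by ring
  -- integrality
  have hint : ∀ γ z, ∃ a : ℤ, mult γ z = a := by
    intro γ z
    have hn0 : n ≠ 0 := Nat.card_pos.ne'
    haveI : NeZero n := ⟨hn0⟩
    obtain ⟨lam, hlam, hv⟩ := exists_eigen (hmc γ) z
    choose e he1 he2 using fun i => (zetaRoot_prim hn0).eq_pow_of_pow_eq_one (ξ := lam i) (by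
      obtain ⟨d, hd⟩ := orderOf_dvd_natCard z
      rw [hndef, hd, pow_mul, hlam i, one_pow])
    refine BrauerInd.int_of_conjugates_eq hn0 (∑ i, Polynomial.X ^ e i) _ fun j hj => ?_
    rw [map_sum]
    simp only [map_pow, Polynomial.aeval_X]
    have h1 := hv j
    simp only [← he2, ← pow_mul, mul_comm (e _)] at h1
    simp only [← pow_mul]
    rw [← h1]
    show classInner _ _ = classInner _ _
    congr 1
    funext c
    obtain ⟨k, hk, hk1, hk2⟩ := BrauerInd.exists_pow_part (orderOf s0) (Nat.card G) j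
      (CfsgLib.CyclicCorr.card_eq hset) hset.cop.symm (by rw [hn]; exact hj)
    have hkG : ∀ g : G, g ^ k = g := fun g => Subtype.ext (by
      rw [Subgroup.coe_pow]
      exact hk2 g (hset.cop.coprime_dvd_left (Subgroup.orderOf_dvd_natCard G g.2)))
    rw [← CfsgLib.CyclicCorr.canonical_pow hset (χ := χ) (ψ := χh) ⟨hext, by rw [hn]; exact hdet⟩ hk hkG
      ((c : Γ) * (z : Γ)), (hcomm c z).mul_pow, Subgroup.coe_pow,
      hk1 (z : Γ) (by rw [hn]; exact Subgroup.orderOf_dvd_natCard S z.2),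
      hk2 c (hset.cop.coprime_dvd_left (Subgroup.orderOf_dvd_natCard G (hCG c.2)))]
  choose F hF using hint
  have hexp : ∀ (z : S) (c : C), (χh : Γ → ℂ) ((c : Γ) * (z : Γ)) = ∑ γ, (F γ z : ℂ) * (γ : C → ℂ) c := by
    intro z c
    have hcl : IsClassFunction C (fun c : C => (χh : Γ → ℂ) ((c : Γ) * (z : Γ))) := fun a b => by
      show (χh : Γ → ℂ) _ = (χh : Γ → ℂ) _
      rw [← isClassFunction hψc ((a : Γ) * (z : Γ)) (b : Γ), Subgroup.coe_mul, Subgroup.coe_mul, Subgroup.coe_inv]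
      congr 1
      have hb := (hcomm b⁻¹ z).eq
      rw [Subgroup.coe_inv] at hb
      simp only [mul_assoc]
      rw [hb]
    have h1 := congrFun (classFun_expand hcl) c
    simp only [Finset.sum_apply, Pi.smul_apply, smul_eq_mul] at h1
    exact h1.trans (Finset.sum_congr rfl fun γ _ => congrArg (· * (γ : C → ℂ) c) (hF γ z))
  -- norm one away from the identity
  have hnorm : ∀ z : S, z ≠ 1 → ∑ γ, F γ z ^ 2 = 1 := by
    intro z hz
    set x : Γ := (z : Γ) with hx
    have hx1 : x ≠ 1 := fun h => hz (Subtype.ext h)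
    let H : Subgroup Γ := G ⊔ Subgroup.zpowers x
    have hGH : G ≤ H := le_sup_left
    have hxH : x ∈ H := Subgroup.mem_sup_right (Subgroup.mem_zpowers x)
    have hCH : C ≤ H := hCG.trans hGH
    haveI := Fintype.ofFinite H
    haveI := Fintype.ofFinite (G.subgroupOf H)
    haveI := Fintype.ofFinite (C.subgroupOf H)
    let x' : H := ⟨x, hxH⟩
    have hset' : CfsgLib.CyclicCorr.Setup (G.subgroupOf H) x' := by
      refine ⟨Subgroup.map_injective H.subtype_injective ?_, ?_⟩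
      · rw [Subgroup.map_sup, Subgroup.map_subgroupOf_eq_of_le hGH, MonoidHom.map_zpowers, ← MonoidHom.range_eq_map,
          Subgroup.range_subtype]
        rfl
      · rw [Nat.card_congr (Subgroup.subgroupOfEquivOfLe hGH).toEquiv, show orderOf x' = orderOf x from
          (orderOf_injective H.subtype H.subtype_injective x').symm]
        exact hcop.coprime_dvd_right (Subgroup.orderOf_dvd_natCard S z.2)
    have hC' : ∀ c, c ∈ C.subgroupOf H ↔ c ∈ G.subgroupOf H ∧ c * x' = x' * c := by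
      intro c
      rw [Subgroup.mem_subgroupOf, Subgroup.mem_subgroupOf, ← hfpf x z.2 hx1, Subgroup.mem_inf,
        Subgroup.mem_centralizer_singleton_iff, Subtype.ext_iff]
      rfl
    let EG := Subgroup.subgroupOfEquivOfLe hGH
    let χ' : IrrCharacter (G.subgroupOf H) :=
      ⟨fun g => (χ : G → ℂ) (EG g), CfsgLib.Clifford.isIrrCharacter_comp χ.2 EG.toMonoidHom EG.surjective⟩
    obtain ⟨k, ρ, hρ, hρψ⟩ := χh.2
    have hirr : IsIrrCharacter H (fun y : H => (χh : Γ → ℂ) y) := by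
      refine ⟨k, ρ.comp H.subtype, ?_, funext fun y => congrFun hρψ y⟩
      refine CfsgLib.Clifford.isIrreducible_of_restrict (N := G.subgroupOf H)
        (σ := (ρ.comp H.subtype).comp (G.subgroupOf H).subtype)
        (CfsgLib.Clifford.isIrreducible_of_character χ'.2 (funext fun g => ?_)) fun g => rfl
      exact (congrFun hρψ _).trans (hext (EG g))
    let ψ' : IrrCharacter H := ⟨_, hirr⟩
    have hres' : ∀ g : G.subgroupOf H, (ψ' : H → ℂ) g = (χ' : G.subgroupOf H → ℂ) g := fun g => hext (EG g)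
    have e := (CfsgLib.CyclicCorr.corr_orth hset' hC' χ' χ' ψ' ψ' hres' hres').2
    rw [show classInner (fun c : C.subgroupOf H => (ψ' : H → ℂ) ((c : H) * x'))
        (fun c : C.subgroupOf H => (ψ' : H → ℂ) ((c : H) * x')) =
        classInner (fun c : C => (χh : Γ → ℂ) ((c : Γ) * (z : Γ))) (fun c : C => (χh : Γ → ℂ) ((c : Γ) * (z : Γ)))
      from CfsgLib.Clifford.classInner_comp_equiv (Subgroup.subgroupOfEquivOfLe hCH)
        (fun c : C => (χh : Γ → ℂ) ((c : Γ) * (z : Γ))) (fun c : C => (χh : Γ → ℂ) ((c : Γ) * (z : Γ)))] at e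
    conv_lhs at e => arg 1; rw [funext (hexp z), show (fun c : C => ∑ γ, (F γ z : ℂ) * (γ : C → ℂ) c) =
      ∑ γ : IrrCharacter C, (F γ z : ℂ) • (γ : C → ℂ) from funext fun c => by simp [Finset.sum_apply]]
    rw [classInner_sum_left] at e
    have e2 : ∀ γ : IrrCharacter C, classInner ((F γ z : ℂ) • (γ : C → ℂ))
        (fun c : C => (χh : Γ → ℂ) ((c : Γ) * (z : Γ))) = ((F γ z ^ 2 : ℤ) : ℂ) := fun γ => by
      rw [classInner_smul_left, classInner_comm, show classInner (fun c : C => (χh : Γ → ℂ) ((c : Γ) * (z : Γ)))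
        (γ : C → ℂ) = (F γ z : ℂ) from hF γ z, map_intCast]
      push_cast; ring
    rw [Finset.sum_congr rfl fun γ _ => e2 γ] at e
    exact_mod_cast e
  have hunit : ∀ z : S, z ≠ 1 → ∃ γ, (F γ z = 1 ∨ F γ z = -1) ∧ ∀ γ', γ' ≠ γ → F γ' z = 0 := by
    intro z hz
    have h := hnorm z hz
    obtain ⟨γ, -, hγ⟩ := Finset.exists_ne_zero_of_sum_ne_zero (h.trans_ne one_ne_zero)
    have hsplit := Finset.add_sum_erase Finset.univ (fun γ => F γ z ^ 2) (Finset.mem_univ γ)
    rw [h] at hsplit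
    have hpos : (0 : ℤ) < F γ z ^ 2 := lt_of_le_of_ne (sq_nonneg _) (Ne.symm hγ)
    have hrest : (0 : ℤ) ≤ ∑ b ∈ Finset.univ.erase γ, F b z ^ 2 := Finset.sum_nonneg fun b _ => sq_nonneg _
    exact ⟨γ, sq_eq_one_iff.1 (by omega), fun γ' hne => pow_eq_zero_iff two_ne_zero |>.1
      ((Finset.sum_eq_zero_iff_of_nonneg fun b _ => sq_nonneg (F b z)).1 (by omega) γ'
        (Finset.mem_erase.2 ⟨hne, Finset.mem_univ _⟩))⟩
  let g0 : S := ⟨s0, hs0⟩
  have hpowrep : ∀ z : S, ∃ j : ℕ, 0 < j ∧ g0 ^ j = z ∧ (Odd n → Odd j) := by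
    intro z
    obtain ⟨i, hi⟩ := (isOfFinOrder_of_finite g0).mem_powers_iff_mem_zpowers.2 (hgen z)
    simp only at hi
    have hper : g0 ^ n = 1 := pow_card_eq_one'
    have hnpos : 0 < n := Nat.card_pos
    by_cases hio : Odd i
    · exact ⟨i, hio.pos, hi, fun _ => hio⟩
    · refine ⟨i + n, by omega, by rw [pow_add, hper, mul_one, hi], fun hno => ?_⟩
      exact (Nat.not_odd_iff_even.1 hio).add_odd hno
  have hg0v : ∀ c : C, (χh : Γ → ℂ) ((c : Γ) * (g0 : Γ)) = (ε₀ : ℂ) * (β : C → ℂ) c := fun c => hβ c s0 hz0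
  -- only `β` occurs
  have hsupp : ∀ j : ℕ, 0 < j → g0 ^ j ≠ 1 → ∀ γ, γ ≠ β → F γ (g0 ^ j) = 0 := by
    intro j
    induction j using Nat.strong_induction_on with
    | _ j ih =>
      intro hj hne γ hγ
      rcases Nat.lt_or_ge j 2 with hj2 | hj2
      · obtain rfl : j = 1 := by omega
        rw [pow_one] at hne ⊢
        have h1 : mult γ g0 = (ε₀ : ℂ) * classInner (β : C → ℂ) (γ : C → ℂ) := by
          show classInner (fun c : C => (χh : Γ → ℂ) ((c : Γ) * (g0 : Γ))) (γ : C → ℂ) = _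
          rw [funext hg0v]
          exact classInner_smul_left _ _ _
        rw [classInner_ne β.2 γ.2 (fun h => hγ (Subtype.ext h.symm)), mul_zero, hF γ g0, Int.cast_eq_zero] at h1
        exact h1
      · obtain ⟨q, hq, i, rfl⟩ := Nat.exists_prime_and_dvd (show j ≠ 1 by omega)
        have hi0 : 0 < i := Nat.pos_of_ne_zero fun h => by simp [h] at hj
        have hne' : g0 ^ i ≠ 1 := fun h => hne (by rw [mul_comm, pow_mul, h, one_pow])
        obtain ⟨γ', hγ', hzero⟩ := hunit _ hne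
        by_contra hFne
        have hγγ : γ' = γ := by
          by_contra h
          exact hFne (hzero γ (Ne.symm h))
        subst hγγ
        have hd := (congruences (hmc γ') (F γ') (hF γ') (g0 ^ i)).1 q hq
        rw [← pow_mul, mul_comm i q, ih i (lt_mul_left hi0 hq.one_lt) hi0 hne' γ' hγ,
          zero_pow hq.ne_zero, zero_sub, Int.dvd_neg] at hd
        rcases hγ' with h | h <;> rw [h] at hd
        · exact hq.ne_one (by exact_mod_cast Int.eq_one_of_dvd_one (by positivity) hd)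
        · exact hq.ne_one (by exact_mod_cast Int.eq_one_of_dvd_one (by positivity) (Int.dvd_neg.1 hd))
  have hsupp' : ∀ z : S, z ≠ 1 → ∀ γ, γ ≠ β → F γ z = 0 := fun z hz γ hγ => by
    obtain ⟨j, hj, rfl, -⟩ := hpowrep z
    exact hsupp j hj hz γ hγ
  have hone : ∀ z : S, z ≠ 1 → F β z = 1 ∨ F β z = -1 := fun z hz => by
    obtain ⟨γ, hγ, -⟩ := hunit z hz
    by_cases h : γ = β
    · exact h ▸ hγ
    · rw [hsupp' z hz γ h] at hγ; simp at hγ
  have hvalue : ∀ (z : S) (c : C), z ≠ 1 → (χh : Γ → ℂ) ((c : Γ) * (z : Γ)) = (F β z : ℂ) * (β : C → ℂ) c := by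
    intro z c hz
    rw [hexp z c, Finset.sum_eq_single β (fun γ _ hγ => by rw [hsupp' z hz γ hγ]; simp) (by simp)]
  -- signs
  have hoddstep : ∀ (k i : ℕ), Odd i → g0 ^ (2 ^ k * i) ≠ 1 → F β (g0 ^ (2 ^ k * i)) = F β (g0 ^ 2 ^ k) := by
    intro k i
    induction i using Nat.strong_induction_on with
    | _ i ih =>
      intro hi hne
      rcases Nat.lt_or_ge i 2 with hi2 | hi2
      · obtain rfl : i = 1 := by have := hi.pos; omega
        rw [mul_one]
      · obtain ⟨q, hq, m, rfl⟩ := Nat.exists_prime_and_dvd (show i ≠ 1 by omega)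
        obtain ⟨hqo, hmo⟩ := Nat.odd_mul.1 hi
        have e : 2 ^ k * (q * m) = 2 ^ k * m * q := by ring
        have hne' : g0 ^ (2 ^ k * m) ≠ 1 := fun h => hne (by rw [e, pow_mul, h, one_pow])
        rw [← ih m (lt_mul_left hmo.pos hq.one_lt) hmo hne']
        have hd := (congruences (hmc β) (F β) (hF β) (g0 ^ (2 ^ k * m))).1 q hq
        rw [← pow_mul, ← e] at hd
        have hq3 : (3 : ℤ) ≤ q := by
          have := hq.two_le
          have := Nat.odd_iff.1 hqo
          omega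
        rcases hone _ hne' with h1 | h1 <;> rcases hone _ hne with h2 | h2 <;> rw [h1, h2] at hd ⊢ <;>
          simp only [one_pow, hqo.neg_one_pow] at hd
        all_goals
          have := Int.natAbs_le_of_dvd_ne_zero hd (by norm_num)
          omega
  have htwostep : ∀ k : ℕ, g0 ^ 2 ^ (k + 1) ≠ 1 → F β (g0 ^ 2 ^ (k + 1)) = F β (g0 ^ 2) := by
    intro k
    induction k with
    | zero => intro _; simp
    | succ k ih =>
      intro hne
      have hne' : g0 ^ 2 ^ (k + 1) ≠ 1 := fun h => hne (by rw [pow_succ 2 (k + 1), pow_mul, h, one_pow])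
      rw [← ih hne']
      have e2 : g0 ^ 2 ^ (k + 1) = (g0 ^ 2 ^ k) ^ 2 := by rw [← pow_mul, pow_succ]
      have e4 : g0 ^ 2 ^ (k + 1 + 1) = (g0 ^ 2 ^ k) ^ 4 := by
        rw [← pow_mul]; congr 1; ring
      have hne'' : g0 ^ 2 ^ k ≠ 1 := fun h => hne' (by rw [e2, h, one_pow])
      rw [e2, e4]
      refine (congruences (hmc β) (F β) (hF β) (g0 ^ 2 ^ k)).2 (hone _ hne'') (hone _ ?_) (hone _ ?_)
      · rwa [← e2]
      · rwa [← e4]
  -- the sign and the linear character
  obtain ⟨ε, u, hε, hu2, hun, hεn, hμval⟩ : ∃ (ε : ℤ) (u : ℂˣ), (ε = 1 ∨ ε = -1) ∧ u ^ 2 = 1 ∧ u ^ n = 1 ∧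
      (g0 = 1 → ε = ε₀) ∧
      ∀ j : ℕ, 0 < j → (Odd n → Odd j) → g0 ^ j ≠ 1 → (F β (g0 ^ j) : ℂ) = (ε : ℂ) * ((u ^ j : ℂˣ) : ℂ) := by
    have hjdec : ∀ j : ℕ, 0 < j → g0 ^ j ≠ 1 →
        (Odd j → F β (g0 ^ j) = F β g0) ∧ (Even j → g0 ^ 2 ≠ 1 ∧ F β (g0 ^ j) = F β (g0 ^ 2)) := by
      intro j hj hne
      obtain ⟨k, i, hi, rfl⟩ := Nat.exists_eq_two_pow_mul_odd hj.ne'
      constructor
      · intro ho
        rcases k with - | k
        · rw [hoddstep 0 i hi hne, pow_zero, pow_one]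
        · exact absurd ho (Nat.not_odd_iff_even.2 ((Nat.even_pow.2 ⟨even_two, Nat.succ_ne_zero k⟩).mul_right i))
      · intro he
        rcases k with - | k
        · rw [pow_zero, one_mul] at he; exact absurd he (Nat.not_even_iff_odd.2 hi)
        · have hne' : g0 ^ 2 ^ (k + 1) ≠ 1 := fun h => hne (by rw [pow_mul, h, one_pow])
          exact ⟨fun h => hne' (by rw [pow_succ', pow_mul, h, one_pow]),
            (hoddstep (k + 1) i hi hne).trans (htwostep k hne')⟩
    by_cases hn1 : g0 = 1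
    · exact ⟨ε₀, 1, hε₀, one_pow _, one_pow _, fun _ => rfl, fun j _ _ hne => absurd (by rw [hn1, one_pow]) hne⟩
    by_cases hcase : Even n ∧ g0 ^ 2 ≠ 1
    · obtain ⟨hev, h2⟩ := hcase
      have hu : ∀ a b : ℤ, (a = 1 ∨ a = -1) → (b = 1 ∨ b = -1) → ((a * b : ℤ) : ℂ) ≠ 0 := by
        intro a b ha hb; rcases ha with rfl | rfl <;> rcases hb with rfl | rfl <;> norm_num
      set u : ℂˣ := Units.mk0 _ (hu _ _ (hone g0 hn1) (hone _ h2)) with hudef
      have hu2 : u ^ 2 = 1 := Units.ext (by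
        rcases hone g0 hn1 with ha | ha <;> rcases hone _ h2 with hb | hb <;> simp [hudef, ha, hb])
      refine ⟨F β (g0 ^ 2), u, hone _ h2, hu2, ?_, fun h => absurd h hn1, fun j hj _ hne => ?_⟩
      · obtain ⟨m, hm⟩ := hev
        rw [hm, ← two_mul, pow_mul, hu2, one_pow]
      rcases Nat.even_or_odd j with hje | hjo
      · rw [((hjdec j hj hne).2 hje).2]
        obtain ⟨m, rfl⟩ := hje
        rw [← two_mul, pow_mul u, hu2, one_pow]; simp
      · rw [(hjdec j hj hne).1 hjo]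
        obtain ⟨m, rfl⟩ := hjo
        rw [pow_succ u, pow_mul, hu2, one_pow, one_mul]
        rcases hone _ h2 with hb | hb <;> simp [hudef, hb]
    · refine ⟨F β g0, 1, hone g0 hn1, one_pow _, one_pow _, fun h => absurd h hn1, fun j hj hodd hne => ?_⟩
      rw [one_pow, Units.val_one, mul_one]
      rcases Nat.even_or_odd j with hje | hjo
      · exfalso
        rcases Nat.even_or_odd n with hne2 | hno
        · exact hcase ⟨hne2, ((hjdec j hj hne).2 hje).1⟩
        · exact Nat.not_even_iff_odd.2 (hodd hno) hje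
      · rw [(hjdec j hj hne).1 hjo]
  let μh : S →* ℂˣ := monoidHomOfForallMemZpowers hgen (g' := u) (orderOf_dvd_of_pow_eq_one (by
    rw [show orderOf (⟨s0, hs0⟩ : S) = n by rw [Subgroup.orderOf_mk]; exact hn]
    exact hun))
  have hμg : μh g0 = u := monoidHomOfForallMemZpowers_apply_gen _ _
  have hμsq : ∀ x : S, (μh x : ℂ) * (μh x : ℂ) = 1 := fun x => by
    obtain ⟨j, -, rfl, -⟩ := hpowrep x
    rw [map_pow, hμg, ← Units.val_mul, ← pow_two, ← pow_mul, mul_comm, pow_mul, hu2, one_pow, Units.val_one]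
  have hμval' : ∀ x : S, x ≠ 1 → (F β x : ℂ) = (ε : ℂ) * (μh x : ℂ) := fun x hx => by
    obtain ⟨j, hj, rfl, ho⟩ := hpowrep x
    rw [map_pow, hμg]
    exact hμval j hj ho hx
  have hμirr : IsIrrCharacter S (fun x => (μh x : ℂ)) :=
    CfsgLib.Clifford.isIrrCharacter_of_hom ((Units.coeHom ℂ).comp μh)
  -- the restriction to `C`
  let δ : IrrCharacter C → ℂ := fun γ => if γ = β then 1 else 0
  have hm1 : ∀ γ, ∃ a : ℕ, mult γ 1 = (n : ℂ) * a + (ε : ℂ) * δ γ := by
    intro γ
    have hn0 : (n : ℂ) ≠ 0 := Nat.cast_ne_zero.2 Nat.card_pos.ne'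
    by_cases hn1 : g0 = 1
    · have hS1 : ∀ z : S, z = 1 := fun z => by
        obtain ⟨j, -, rfl, -⟩ := hpowrep z
        rw [hn1, one_pow]
      have hnn : n = 1 := Nat.card_eq_one_iff_unique.2 ⟨⟨fun a b => (hS1 a).trans (hS1 b).symm⟩, ⟨1⟩⟩
      obtain ⟨a, ha⟩ := classInner_characters_nat (CfsgLib.CharBasics.isCharacter_restrict hψc C)
        (isCharacter_of_irr γ.2)
      have hm : mult γ 1 = (ε₀ : ℂ) * δ γ := by
        show classInner (fun c : C => (χh : Γ → ℂ) ((c : Γ) * ((1 : S) : Γ))) (γ : C → ℂ) = _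
        rw [show (1 : S) = g0 from hn1.symm, funext hg0v]
        refine (classInner_smul_left _ _ _).trans ?_
        congr 1
        simp only [δ]
        by_cases h : γ = β
        · rw [if_pos h, h, classInner_self β.2]
        · rw [if_neg h, classInner_ne β.2 γ.2 fun e => h (Subtype.ext e.symm)]
      refine ⟨0, ?_⟩
      rw [hm, hεn hn1]
      simp
    · obtain ⟨l, hl⟩ : ∃ l : IrrCharacter S, (l : S → ℂ) ≠ fun x => (μh x : ℂ) := by
        by_contra hh
        push Not at hh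
        have h1 := sum_sq_degree (G := S)
        rw [Finset.sum_eq_single (⟨_, hμirr⟩ : IrrCharacter S) (fun b _ hb => absurd (Subtype.ext (hh b)) hb)
          (by simp), charDegree_comm hμirr, one_pow, eq_comm, Nat.card_eq_one_iff_unique] at h1
        haveI := h1.1
        exact hn1 (Subsingleton.elim _ _)
      obtain ⟨a, ha⟩ := classInner_characters_nat (hmc γ) (isCharacter_of_irr l.2)
      refine ⟨a, ?_⟩
      have hfun : mult γ = (mult γ 1 - (ε : ℂ) * δ γ) • (fun x : S => if x = 1 then (1 : ℂ) else 0) +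
          ((ε : ℂ) * δ γ) • fun x : S => (μh x : ℂ) := by
        funext x
        simp only [Pi.add_apply, Pi.smul_apply, smul_eq_mul]
        by_cases hx : x = 1
        · subst hx; simp
        · rw [if_neg hx, mul_zero, zero_add, hF γ x]
          by_cases hγ : γ = β
          · simp only [δ, if_pos hγ, mul_one]
            rw [hγ]
            exact hμval' x hx
          · simp [δ, if_neg hγ, hsupp' x hx γ hγ]
      rw [hfun, classInner_add_left, classInner_smul_left, classInner_smul_left, classInner_ne hμirr l.2 (Ne.symm hl),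
        mul_zero, add_zero, classInner_eq, Finset.sum_eq_single (1 : S) (fun b _ hb => by rw [if_neg hb, zero_mul])
          (by simp), if_pos rfl, one_mul, (irr_comm_hom l.2).1, map_one, mul_one] at ha
      field_simp at ha
      linear_combination ha
  choose a ha using hm1
  refine ⟨ε, hε, ⟨fun x => (μh x : ℂ), isCharacter_of_irr hμirr, by simp, hμsq, fun c x hx => ?_⟩, ?_⟩
  · rw [hvalue x c hx, hμval' x hx]; ring
  have hres1 : ∀ c : C, (χ : G → ℂ) ⟨c, hCG c.2⟩ = (n : ℂ) * (∑ γ, (a γ : ℂ) * (γ : C → ℂ) c) +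
      (ε : ℂ) * (β : C → ℂ) c := by
    intro c
    have h1 := hexp 1 c
    rw [Subgroup.coe_one, mul_one] at h1
    rw [← hext ⟨c, hCG c.2⟩, h1, Finset.sum_congr rfl fun γ _ =>
      show (F γ 1 : ℂ) * (γ : C → ℂ) c = (n : ℂ) * ((a γ : ℂ) * (γ : C → ℂ) c) +
        (if γ = β then (ε : ℂ) * (β : C → ℂ) c else 0) by
      rw [← hF γ 1, ha γ]
      simp only [δ]
      split_ifs with h
      · subst h; ring
      · ring, Finset.sum_add_distrib, ← Finset.mul_sum, Finset.sum_ite_eq' Finset.univ β, if_pos (Finset.mem_univ _)]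
  refine ⟨⟨fun c => ∑ γ, (a γ : ℂ) * (γ : C → ℂ) c, ?_, funext hres1⟩, ?_⟩
  · rw [show (fun c : C => ∑ γ, (a γ : ℂ) * (γ : C → ℂ) c) = ∑ γ : IrrCharacter C, (a γ : ℂ) • (γ : C → ℂ) from
      funext fun c => by simp [Finset.sum_apply]]
    refine CfsgLib.CharBasics.isCharacter_sum _ _ fun γ _ => ?_
    rw [Nat.cast_smul_eq_nsmul]
    exact CfsgLib.CharBasics.isCharacter_nsmul (a γ) (isCharacter_of_irr γ.2)
  · refine ⟨∑ γ, (a γ : ℤ) * charDegree (γ : C → ℂ), ?_⟩
    have h1 := hres1 1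
    rw [apply_one (isCharacter_of_irr β.2), Finset.sum_congr rfl fun γ _ =>
      show (a γ : ℂ) * (γ : C → ℂ) 1 = (a γ : ℂ) * (charDegree (γ : C → ℂ) : ℂ) by
        rw [apply_one (isCharacter_of_irr γ.2)],
      show (⟨((1 : C) : Γ), hCG (1 : C).2⟩ : G) = 1 from rfl, apply_one (isCharacter_of_irr χ.2)] at h1
    have h2 : (charDegree (χ : G → ℂ) : ℤ) = (n : ℤ) * (∑ γ, (a γ : ℤ) * charDegree (γ : C → ℂ)) +
        ε * charDegree (β : C → ℂ) := by exact_mod_cast h1
    linarith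

end Cfsg.Agent.S4451
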