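import Cfsg.Statements.S4452
import Cfsg.Agent.Clifford.CoprimeDegree
import Cfsg.Agent.Blocks.Transport


set_option autoImplicit false
open Cfsg

namespace Cfsg.Agent.S4452

open CfsgLib

/-- Let the finite group G be the product of a normal subgroup K and a solvable subgroup H of coprime orders, and let N = N_G(H). Then the number of irreducible characters of G of degree coprime to the order of H equals the number of irreducible characters of N of degree coprime to the order of H. (The two sets are in fact in a canonical bijection; only the equality of their sizes is stated here.) -/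
theorem result {G : Type*} [Group G] [Finite G] (K H : Subgroup G) [K.Normal] (hKH : K ⊔ H = ⊤) (hcop : (Nat.card K).Coprime (Nat.card H)) (hsolv : Group.IsSolvable H) : Nat.card {χ : Cfsg.IrrCharacter G // (Cfsg.charDegree (χ : G → ℂ)).Coprime (Nat.card H)} = Nat.card {η : Cfsg.IrrCharacter (Subgroup.normalizer (H : Set G)) // (Cfsg.charDegree (η : Subgroup.normalizer (H : Set G) → ℂ)).Coprime (Nat.card H)} := by
  classical
  haveI := Fintype.ofFinite G
  set N : Subgroup G := Subgroup.normalizer (H : Set G) with hN
  have hHN : H ≤ N := Subgroup.le_normalizer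
  set K' : Subgroup N := K.subgroupOf N with hK'
  set H' : Subgroup N := H.subgroupOf N with hH'
  haveI : Fintype N := Fintype.ofFinite _
  haveI : K'.Normal := Subgroup.Normal.subgroupOf inferInstance N
  let eH : H' ≃* H := Subgroup.subgroupOfEquivOfLe hHN
  have hKH' : K' ⊔ H' = ⊤ := by
    refine eq_top_iff.2 fun y _ => ?_
    have hy : (y : G) ∈ (↑(K ⊔ H) : Set G) := by rw [hKH]; trivial
    rw [Subgroup.normal_mul] at hy
    obtain ⟨a, ha, c, hc, hac⟩ := hy
    have haN : a ∈ N := by
      have : a = (y : G) * c⁻¹ := by rw [← hac]; exact (mul_inv_cancel_right a c).symm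
      rw [this]; exact N.mul_mem y.2 (N.inv_mem (hHN hc))
    rw [show y = (⟨a, haN⟩ : N) * ⟨c, hHN hc⟩ from Subtype.ext hac.symm]
    exact mul_mem (Subgroup.mem_sup_left ha) (Subgroup.mem_sup_right hc)
  have hcK : Nat.card K' ∣ Nat.card K := by
    rw [← Subgroup.card_map_of_injective (f := N.subtype) N.subtype_injective]
    exact Subgroup.card_dvd_of_le (show K'.map N.subtype ≤ K by rintro _ ⟨x, hx, rfl⟩; exact hx)
  have hcop' : (Nat.card K').Coprime (Nat.card H') := by
    rw [Nat.card_congr eH.toEquiv]
    exact hcop.coprime_dvd_left hcK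
  have hsolv' : Group.IsSolvable H' := by
    haveI := hsolv
    exact solvable_of_solvable_injective (f := eH.toMonoidHom) eH.injective
  have h1 := CfsgLib.CoprimeDegree.card_eq_classes_mul hKH hcop hsolv
  have h2 := CfsgLib.CoprimeDegree.card_eq_classes_mul hKH' hcop' hsolv'
  rw [Nat.card_congr eH.toEquiv] at h2
  rw [h1, h2]
  have hbot : H ⊓ K = ⊥ := Subgroup.inf_eq_bot_of_coprime hcop.symm
  have hfix : ∀ x ∈ K, (∀ h ∈ H, h * x = x * h) ↔ x ∈ N := by
    intro x hx
    refine ⟨fun h => ?_, fun hxN h hh => ?_⟩
    · rw [hN, Subgroup.mem_normalizer_iff]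
      intro h'
      constructor
      · intro hh; rwa [← h h' hh, mul_inv_cancel_right]
      · intro hh
        have := h _ hh
        have e : h' = x * h' * x⁻¹ := mul_left_cancel (a := x) (by rw [← this]; group)
        rwa [e]
    · have hm : x * h * x⁻¹ * h⁻¹ ∈ H ⊓ K := by
        refine ⟨H.mul_mem ((Subgroup.mem_normalizer_iff.1 (hN ▸ hxN) h).1 hh) (H.inv_mem hh), ?_⟩
        rw [show x * h * x⁻¹ * h⁻¹ = x * (h * x⁻¹ * h⁻¹) by group]
        exact K.mul_mem hx (Subgroup.Normal.conj_mem inferInstance _ (K.inv_mem hx) h)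
      rw [hbot, Subgroup.mem_bot] at hm
      calc h * x = (x * h * x⁻¹ * h⁻¹) * h * x := by rw [hm, one_mul]
        _ = x * h := by group
  let eC : (K ⊓ Subgroup.centralizer (H : Set G) : Subgroup G) ≃*
      (K' ⊓ Subgroup.centralizer (H' : Set N) : Subgroup N) :=
    { toFun := fun c => ⟨⟨c, (hfix c c.2.1).1 fun h hh => Subgroup.mem_centralizer_iff.1 c.2.2 h hh⟩, c.2.1,
        Subgroup.mem_centralizer_iff.2 fun h hh => Subtype.ext (Subgroup.mem_centralizer_iff.1 c.2.2 (h : G) hh)⟩
      invFun := fun c => ⟨((c : N) : G), c.2.1, Subgroup.mem_centralizer_iff.2 fun h hh =>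
        congrArg Subtype.val (Subgroup.mem_centralizer_iff.1 c.2.2 ⟨h, hHN hh⟩ hh)⟩
      left_inv := fun _ => rfl
      right_inv := fun _ => rfl
      map_mul' := fun _ _ => rfl }
  rw [← CfsgLib.CharBasics.card_irr, ← CfsgLib.CharBasics.card_irr]
  refine congrArg₂ (· * ·) ?_ ?_
  · exact Nat.card_congr
      { toFun := CfsgLib.Blocks.pushChar eC
        invFun := CfsgLib.Blocks.pushChar eC.symm
        left_inv := CfsgLib.Blocks.pushChar_symm' eC
        right_inv := CfsgLib.Blocks.pushChar_symm eC }
  · exact Nat.card_congr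
      { toFun := fun f => f.comp eH.toMonoidHom
        invFun := fun f => f.comp eH.symm.toMonoidHom
        left_inv := fun f => MonoidHom.ext fun x => congrArg f (eH.apply_symm_apply x)
        right_inv := fun f => MonoidHom.ext fun x => congrArg f (eH.symm_apply_apply x) }
end Cfsg.Agent.S4452
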