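import Cfsg.Statements.S4454
import Cfsg.Agent.Clifford.InvariantAbove
import Cfsg.Agent.Clifford.Extend


set_option autoImplicit false
open Cfsg

namespace Cfsg.Agent.S4454

open CfsgLib.CharBasics
open CfsgLib.Clifford
open scoped ComplexConjugate

theorem sum_of_support {A : Type*} [Group A] [Fintype A] (H : Subgroup A) [Fintype H] (F : A → ℂ)
    (h : ∀ g, g ∉ H → F g = 0) : ∑ g : A, F g = ∑ x : H, F x :=
  (Fintype.sum_of_injective (fun x : H => (x : A)) Subtype.val_injective _ _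
    (fun i hi => h i fun hh => hi ⟨⟨i, hh⟩, rfl⟩) fun _ => rfl).symm

theorem sum_mul_conj_self {A : Type*} [Group A] [Fintype A] {χ : A → ℂ} (h : IsIrrCharacter A χ) :
    ∑ a : A, χ a * conj (χ a) = (Nat.card A : ℂ) := by
  have h1 := classInner_self h
  rw [classInner_eq, inv_mul_eq_one₀ (Nat.cast_ne_zero.mpr Nat.card_pos.ne')] at h1
  exact h1.symm

/-- The integer inequality. -/
theorem int_step {ι : Type*} (S : Finset ι) (a : ι → ℕ) (m e : ℕ) (hm : 1 < m) (hS : S.card ≤ m)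
    (hsum : ∑ i ∈ S, a i = e) (hsq : m * (∑ i ∈ S, a i ^ 2) + 1 = e ^ 2 + m) :
    (m : ℤ) ∣ (e : ℤ) - 1 ∨ (m : ℤ) ∣ (e : ℤ) + 1 := by
  obtain ⟨q, r, hr, he⟩ : ∃ q r : ℕ, r < m ∧ e = m * q + r :=
    ⟨e / m, e % m, Nat.mod_lt _ (by omega), (Nat.div_add_mod e m).symm⟩
  have h0 : ∀ i ∈ S, 0 ≤ ((a i : ℤ) - q) * ((a i : ℤ) - q - 1) := by
    intro i _
    rcases le_or_gt (a i : ℤ) q with h | h
    · exact mul_nonneg_of_nonpos_of_nonpos (by linarith) (by linarith)
    · exact mul_nonneg (by linarith) (by linarith [Int.add_one_le_iff.2 h])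
  have h1 := Finset.sum_nonneg h0
  have h2 : ∑ i ∈ S, ((a i : ℤ) - q) * ((a i : ℤ) - q - 1) =
      (∑ i ∈ S, (a i : ℤ) ^ 2) - (2 * q + 1) * (∑ i ∈ S, (a i : ℤ)) + S.card * ((q : ℤ) * (q + 1)) := by
    have hp : ∀ i ∈ S, ((a i : ℤ) - q) * ((a i : ℤ) - q - 1) =
        (a i : ℤ) ^ 2 - (2 * q + 1) * (a i : ℤ) + (q : ℤ) * (q + 1) := fun i _ => by ring
    rw [Finset.sum_congr rfl hp, Finset.sum_add_distrib, Finset.sum_sub_distrib, ← Finset.mul_sum,
      Finset.sum_const, nsmul_eq_mul]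
  have h3 : (∑ i ∈ S, (a i : ℤ)) = e := by exact_mod_cast hsum
  have h4 : (m : ℤ) * (∑ i ∈ S, (a i : ℤ) ^ 2) + 1 = (e : ℤ) ^ 2 + m := by exact_mod_cast hsq
  rw [h2, h3] at h1
  have h5 : (S.card : ℤ) * ((q : ℤ) * (q + 1)) ≤ (m : ℤ) * ((q : ℤ) * (q + 1)) :=
    mul_le_mul_of_nonneg_right (by exact_mod_cast hS) (by positivity)
  have he' : (e : ℤ) = (m : ℤ) * q + r := by exact_mod_cast he
  have h6 : (0 : ℤ) ≤ (m : ℤ) *
      ((∑ i ∈ S, (a i : ℤ) ^ 2) - (2 * q + 1) * e + (m : ℤ) * ((q : ℤ) * (q + 1))) :=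
    mul_nonneg (Int.natCast_nonneg m) (by linarith [h1, h5])
  have h7 : 0 ≤ ((r : ℤ) - 1) * ((r : ℤ) + 1 - m) := by
    rw [he'] at h4 h6
    nlinarith [h4, h6]
  rcases Nat.lt_or_ge r 2 with hr2 | hr2
  · interval_cases r
    · exfalso
      have hd : (m : ℤ) ∣ 1 :=
        ⟨(m : ℤ) * q ^ 2 + 1 - ∑ i ∈ S, (a i : ℤ) ^ 2, by rw [he'] at h4; linear_combination h4⟩
      have := Int.le_of_dvd one_pos hd
      omega
    · exact Or.inl ⟨q, by omega⟩
  · have hlast : r + 1 = m := by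
      by_contra hne
      have ha : (1 : ℤ) ≤ (r : ℤ) - 1 := by omega
      have hb : (r : ℤ) + 1 - m ≤ -1 := by omega
      nlinarith [h7, ha, hb]
    exact Or.inr ⟨(q : ℤ) + 1, by rw [he', ← hlast]; push_cast; ring⟩

/-- Let N ≤ G be normal subgroups of the finite group Γ with Γ/G cyclic and Γ/N a Frobenius group with kernel G/N: G ≠ Γ, N ≠ G, and no element of Γ outside G fixes a non-identity coset of N in G under conjugation. Let ϑ be an irreducible character of N invariant under conjugation by Γ and suppose ϑ is fully ramified in G: the character of G induced from ϑ equals e·χ for an irreducible character χ of G and a natural number e. Then the index of G in Γ divides e − 1 or e + 1. -/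
theorem result {Γ : Type*} [Group Γ] [Fintype Γ] (G N : Subgroup Γ) [hG : G.Normal] [hN : N.Normal] [Fintype G] [Fintype N] (hNG : N ≤ G) (hGlt : G ≠ ⊤) (hNlt : N ≠ G) (hcyc : IsCyclic (Γ ⧸ G)) (hfrob : ∀ x : Γ, x ∉ G → ∀ g : Γ, g ∈ G → x * g * x⁻¹ * g⁻¹ ∈ N → g ∈ N) (θ : Cfsg.IrrCharacter N) (hinv : ∀ (x : Γ) (n : N), (θ : N → ℂ) ⟨x * n * x⁻¹, hN.conj_mem n n.2 x⟩ = (θ : N → ℂ) n) (χ : Cfsg.IrrCharacter G) (e : ℕ) (hram : Cfsg.indFun (N.subgroupOf G) (fun n : N.subgroupOf G => (θ : N → ℂ) ⟨(n : G), n.2⟩) = fun g => (e : ℂ) * (χ : G → ℂ) g) : (G.index : ℤ) ∣ (e : ℤ) - 1 ∨ (G.index : ℤ) ∣ (e : ℤ) + 1 := by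
  classical
  have hm1 : 1 < G.index := by
    rcases Nat.lt_or_ge 1 G.index with h | h
    · exact h
    · exact absurd (Subgroup.index_eq_one.1 (by have := G.index_ne_zero_of_finite; omega)) hGlt
  have := Fintype.ofFinite (IrrCharacter Γ)
  have hN0 : (Nat.card N : ℂ) ≠ 0 := Nat.cast_ne_zero.mpr Nat.card_pos.ne'
  have hG0 : (Nat.card G : ℂ) ≠ 0 := Nat.cast_ne_zero.mpr Nat.card_pos.ne'
  -- the function `θ` extended by zero
  let F : Γ → ℂ := extendByZero N (θ : N → ℂ)
  have hFconj : ∀ (y g : Γ), F (y⁻¹ * g * y) = F g := by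
    intro y g
    by_cases hg : g ∈ N
    · have hy : y⁻¹ * g * y ∈ N := by simpa using hN.conj_mem g hg y⁻¹
      refine (extendByZero_coe N _ ⟨_, hy⟩).trans (Eq.trans ?_ (extendByZero_coe N _ ⟨g, hg⟩).symm)
      refine Eq.trans (congrArg (θ : N → ℂ) (Subtype.ext ?_)) (hinv y⁻¹ ⟨g, hg⟩)
      simp
    · refine (extendByZero_of_not_mem N _ fun hy => hg ?_).trans (extendByZero_of_not_mem N _ hg).symm
      simpa [mul_assoc] using hN.conj_mem _ hy y
  have hramF : ∀ g : G, (e : ℂ) * (χ : G → ℂ) g = (Nat.card N : ℂ)⁻¹ * ((Nat.card G : ℂ) * F g) := by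
    intro g
    rw [← congrFun hram g, indFun, Nat.card_congr (Subgroup.subgroupOfEquivOfLe hNG).toEquiv]
    congr 1
    have hterm : ∀ x : G, extendByZero (N.subgroupOf G)
        (fun n : N.subgroupOf G => (θ : N → ℂ) ⟨(n : G), n.2⟩) (x⁻¹ * g * x) = F g := by
      intro x
      rw [← hFconj (x : Γ) (g : Γ)]
      by_cases hx : (x : Γ)⁻¹ * g * x ∈ N
      · exact (extendByZero_coe (N.subgroupOf G) _ ⟨x⁻¹ * g * x, hx⟩).trans
          (extendByZero_coe N _ ⟨_, hx⟩).symm
      · exact (extendByZero_of_not_mem (N.subgroupOf G) _ fun h => hx h).trans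
          (extendByZero_of_not_mem N _ hx).symm
    rw [Finset.sum_congr rfl fun x _ => hterm x, Finset.sum_const, Finset.card_univ,
      ← Nat.card_eq_fintype_card, nsmul_eq_mul]
  have he0 : (e : ℂ) ≠ 0 := by
    intro h
    have h1 := hramF 1
    rw [h, zero_mul] at h1
    rcases mul_eq_zero.1 h1.symm with h2 | h2
    · exact hN0 (inv_eq_zero.1 h2)
    · rcases mul_eq_zero.1 h2 with h3 | h3
      · exact hG0 h3
      · exact apply_one_ne_zero θ.2 ((extendByZero_coe N _ (1 : N)).symm.trans h3)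
  -- the values of `χ`
  set c : ℂ := (Nat.card G : ℂ) / ((Nat.card N : ℂ) * e) with hc
  have hχF : ∀ g : G, (χ : G → ℂ) g = c * F g := by
    intro g
    have h := hramF g
    rw [hc]
    field_simp at h ⊢
    linear_combination h
  have hsumF : ∀ (H : Subgroup Γ) [Fintype H], N ≤ H →
      ∑ y : H, F y * conj (F y) = (Nat.card N : ℂ) := by
    intro H _ hNH
    rw [← sum_mul_conj_self θ.2]
    have hout : ∀ y : H, y ∉ Set.range (Subgroup.inclusion hNH) → F y * conj (F y) = 0 := by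
      intro y hy
      rw [show F y = 0 from extendByZero_of_not_mem N _ fun hyN => hy ⟨⟨(y : Γ), hyN⟩, rfl⟩, zero_mul]
    refine (Fintype.sum_of_injective (Subgroup.inclusion hNH) (Subgroup.inclusion_injective hNH) _ _ hout
      fun n => ?_).symm
    rw [show F ((Subgroup.inclusion hNH n : H) : Γ) = (θ : N → ℂ) n from extendByZero_coe N _ n]
  have hGN : (Nat.card G : ℂ) = (e : ℂ) ^ 2 * Nat.card N := by
    have h := sum_mul_conj_self χ.2
    have hcc : conj c = c := by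
      rw [hc, map_div₀, map_mul, Complex.conj_natCast, Complex.conj_natCast, Complex.conj_natCast]
    simp only [hχF, map_mul, hcc] at h
    rw [show (∑ y : G, c * F (y : Γ) * (c * conj (F (y : Γ)))) = c ^ 2 * ∑ y : G, F (y : Γ) * conj (F (y : Γ)) by
      rw [Finset.mul_sum]; exact Finset.sum_congr rfl fun y _ => by ring, hsumF G hNG, hc] at h
    field_simp at h
    linear_combination h
  have hce : c = e := by
    rw [hc, hGN]
    field_simp
  have hχinv : ∀ (y : Γ) (g : G), (χ : G → ℂ) ⟨y * g * y⁻¹, hG.conj_mem g g.2 y⟩ = (χ : G → ℂ) g := by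
    intro y g
    rw [hχF, hχF]
    congr 1
    have := hFconj y⁻¹ g
    rwa [inv_inv] at this
  -- the complement
  obtain ⟨q, hq⟩ := hcyc.exists_generator
  obtain ⟨x, rfl⟩ := QuotientGroup.mk_surjective q
  have hxG : x ∉ G := by
    intro hx
    refine hGlt (eq_top_iff.2 fun y _ => ?_)
    obtain ⟨i, hi⟩ := Subgroup.mem_zpowers_iff.1 (hq (y : Γ ⧸ G))
    rw [(QuotientGroup.eq_one_iff x).2 hx, one_zpow] at hi
    exact (QuotientGroup.eq_one_iff y).1 hi.symm
  let D : Subgroup Γ := N ⊔ Subgroup.zpowers x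
  have hND : N ≤ D := le_sup_left
  have hxD : x ∈ D := Subgroup.mem_sup_right (Subgroup.mem_zpowers x)
  have hDmem : ∀ y ∈ D, ∃ a ∈ N, ∃ i : ℤ, y = a * x ^ i := by
    intro y hy
    have hy' : y ∈ (↑(N ⊔ Subgroup.zpowers x) : Set Γ) := hy
    rw [Subgroup.normal_mul] at hy'
    obtain ⟨a, ha, w, ⟨i, rfl⟩, rfl⟩ := hy'
    exact ⟨a, ha, i, rfl⟩
  have hDG : ∀ y ∈ D, y ∈ G → y ∈ N := by
    intro y hy hyG
    obtain ⟨a, ha, i, rfl⟩ := hDmem y hy
    refine N.mul_mem ha (hfrob x hxG _ ((G.mul_mem_cancel_left (hNG ha)).1 hyG) ?_)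
    rw [show x * x ^ i * x⁻¹ * (x ^ i)⁻¹ = 1 by group]
    exact N.one_mem
  have hdec : ∀ y : Γ, ∃ g ∈ G, ∃ d ∈ D, y = g * d := by
    intro y
    obtain ⟨i, hi⟩ := Subgroup.mem_zpowers_iff.1 (hq (y : Γ ⧸ G))
    rw [← QuotientGroup.mk_zpow, eq_comm] at hi
    refine ⟨y * (x ^ i)⁻¹, (QuotientGroup.eq_one_iff _).1 ?_, x ^ i, D.zpow_mem hxD i, by group⟩
    rw [QuotientGroup.mk_mul, QuotientGroup.mk_inv, hi, mul_inv_cancel]
  have hcardD : Nat.card D = G.index * Nat.card N := by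
    have htop : G ⊔ D = ⊤ := eq_top_iff.2 fun y _ => by
      obtain ⟨g, hg, d, hd, rfl⟩ := hdec y
      exact Subgroup.mul_mem_sup hg hd
    have h1 : N.relIndex D = G.index := by
      have hinf : G ⊓ D = N := le_antisymm (fun y hy => hDG y hy.2 hy.1) (le_inf hNG hND)
      rw [← hinf, Subgroup.inf_relIndex_right, ← Subgroup.relIndex_sup_right, sup_comm, htop,
        Subgroup.relIndex_top_right]
    rw [← h1, ← Subgroup.card_mul_index (N.subgroupOf D),
      Nat.card_congr (Subgroup.subgroupOfEquivOfLe hND).toEquiv, Subgroup.relIndex, mul_comm]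
  -- `θ` extends to the complement
  have := Fintype.ofFinite D
  let E : N.subgroupOf D ≃* N := Subgroup.subgroupOfEquivOfLe hND
  obtain ⟨k, σ, hσ, hσθ⟩ := CfsgLib.Clifford.isIrrCharacter_comp θ.2 E.toMonoidHom E.surjective
  have hcycD : IsCyclic (D ⧸ N.subgroupOf D) := by
    refine ⟨⟨((⟨x, hxD⟩ : D) : D ⧸ N.subgroupOf D), fun u => ?_⟩⟩
    obtain ⟨y, rfl⟩ := QuotientGroup.mk_surjective u
    obtain ⟨a, ha, i, hy⟩ := hDmem y y.2
    refine ⟨i, ?_⟩
    show ((⟨x, hxD⟩ : D) : D ⧸ N.subgroupOf D) ^ i = _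
    rw [← QuotientGroup.mk_zpow, QuotientGroup.eq, Subgroup.mem_subgroupOf, Subgroup.coe_mul, Subgroup.coe_inv,
      Subgroup.coe_zpow, hy]
    simpa [mul_assoc] using hN.conj_mem a ha (x ^ i)⁻¹
  obtain ⟨ρ, hρ, hres⟩ := exists_extension_of_cyclic hcycD hσ fun d n => by
    rw [hσθ]
    refine Eq.trans (congrArg (θ : N → ℂ) (Subtype.ext ?_)) (hinv (d : Γ) (E n))
    exact (congrArg (fun z : D => (z : Γ)) (MulAut.conjNormal_apply d n) :)
  set τ : D → ℂ := ρ.character with hτdef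
  have hτ : IsIrrCharacter D τ := ⟨k, ρ, hρ, rfl⟩
  have hτN : ∀ d : D, (d : Γ) ∈ N → τ d = F d := by
    intro d hd
    refine Eq.trans ?_ (extendByZero_coe N _ ⟨_, hd⟩).symm
    have := congrArg (LinearMap.trace ℂ _) (hres ⟨d, hd⟩)
    exact this.trans (congrFun hσθ ⟨d, hd⟩)
  set ψ : Γ → ℂ := indFun D τ with hψdef
  have hψc : IsCharacter Γ ψ := isCharacter_indFun D (isCharacter_of_irr hτ)
  have hD0 : (Nat.card D : ℂ) ≠ 0 := Nat.cast_ne_zero.mpr Nat.card_pos.ne'
  have hψG : ∀ g : G, ψ g = (e : ℂ) * (χ : G → ℂ) g := by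
    intro g
    have hterm : ∀ y : Γ, extendByZero D τ (y⁻¹ * g * y) = F g := by
      intro y
      rw [← hFconj y g]
      by_cases hy : y⁻¹ * (g : Γ) * y ∈ D
      · have hyN : y⁻¹ * (g : Γ) * y ∈ N :=
          hDG _ hy (by simpa using hG.conj_mem (g : Γ) g.2 y⁻¹)
        exact (extendByZero_coe D τ ⟨_, hy⟩).trans (hτN ⟨_, hy⟩ hyN)
      · exact (extendByZero_of_not_mem D τ hy).trans
          (extendByZero_of_not_mem N _ fun h => hy (hND h)).symm
    rw [hψdef, indFun, Finset.sum_congr rfl fun y _ => hterm y, Finset.sum_const, Finset.card_univ,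
      ← Nat.card_eq_fintype_card, nsmul_eq_mul, hχF, hce, hcardD, ← G.index_mul_card]
    push_cast
    rw [hGN]
    field_simp
    exact mul_div_cancel_left₀ _ (Nat.cast_ne_zero.mpr (by omega))
  have hψD : ∀ d : D, (d : Γ) ∉ N → ψ d = τ d := by
    intro d hd
    have hdG : (d : Γ) ∉ G := fun h => hd (hDG _ d.2 h)
    have hout : ∀ y : Γ, y ∉ D → extendByZero D τ (y⁻¹ * d * y) = 0 := by
      intro y hy
      refine extendByZero_of_not_mem D τ fun h => hy ?_
      obtain ⟨g, hg, u, hu, rfl⟩ := hdec y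
      have h1 : g⁻¹ * d * g ∈ D := by
        have := D.mul_mem (D.mul_mem hu h) (D.inv_mem hu)
        simpa [mul_assoc] using this
      have h2 : g⁻¹ * (d * g * (d : Γ)⁻¹) ∈ N :=
        hDG _ (by simpa [mul_assoc] using D.mul_mem h1 (D.inv_mem d.2))
          (G.mul_mem (G.inv_mem hg) (hG.conj_mem g hg d))
      refine D.mul_mem (hND (hfrob d hdG g hg ?_)) hu
      simpa [mul_assoc] using hN.conj_mem _ h2 g
    rw [hψdef, indFun, sum_of_support D _ hout]
    have hin : ∀ y : D, extendByZero D τ ((y : Γ)⁻¹ * d * y) = τ d := fun y => by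
      rw [← apply_conj' (isCharacter_of_irr hτ) y d]
      exact extendByZero_coe D τ (y⁻¹ * d * y)
    rw [Finset.sum_congr rfl fun y _ => hin y, Finset.sum_const, Finset.card_univ,
      ← Nat.card_eq_fintype_card, nsmul_eq_mul, inv_mul_cancel_left₀ hD0]
  -- the norm
  have hnorm : (G.index : ℂ) * classInner ψ ψ + 1 = (e : ℂ) ^ 2 + G.index := by
    have hval : ∀ d : D, τ d * conj (ψ d) =
        τ d * conj (τ d) + ((e : ℂ) ^ 2 - 1) * (F d * conj (F d)) := by
      intro d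
      by_cases hd : (d : Γ) ∈ N
      · have := hψG ⟨d, hNG hd⟩
        rw [hχF, hce] at this
        rw [this, hτN d hd, map_mul, map_mul, Complex.conj_natCast]
        ring
      · rw [hψD d hd, show F d = 0 from extendByZero_of_not_mem N _ hd]
        ring
    have h1 : classInner ψ ψ = classInner τ (fun d : D => ψ d) :=
      classInner_indFun D τ (isClassFunction hψc)
    rw [h1, classInner_eq, Finset.sum_congr rfl fun d _ => hval d, Finset.sum_add_distrib, ← Finset.mul_sum,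
      hsumF D hND, sum_mul_conj_self hτ, hcardD]
    have hi0 : (G.index : ℂ) ≠ 0 := Nat.cast_ne_zero.mpr (by omega)
    push_cast
    field_simp
    ring
  -- constituents of `ψ`
  obtain ⟨k', σ', hσ', hσχ⟩ := χ.2
  obtain ⟨ρ', hρ', hres'⟩ := exists_extension_of_cyclic hcyc hσ' fun y g => by
    rw [hσχ]
    exact (congrArg (χ : G → ℂ) (Subtype.ext (MulAut.conjNormal_apply y g))).trans (hχinv y g)
  have hext : ∀ g : G, ρ'.character g = (χ : G → ℂ) g := fun g => by
    rw [← hσχ]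
    exact congrArg (LinearMap.trace ℂ _) (hres' g)
  have hab : ∀ u v : Γ, u * v * u⁻¹ * v⁻¹ ∈ G := fun u v => by
    obtain ⟨i, hi⟩ := Subgroup.mem_zpowers_iff.1 (hq (u : Γ ⧸ G))
    obtain ⟨j, hj⟩ := Subgroup.mem_zpowers_iff.1 (hq (v : Γ ⧸ G))
    rw [← QuotientGroup.eq_one_iff, QuotientGroup.mk_mul, QuotientGroup.mk_mul, QuotientGroup.mk_mul,
      QuotientGroup.mk_inv, QuotientGroup.mk_inv, ← hi, ← hj]
    group
  choose a ha using fun φ : IrrCharacter Γ => classInner_character_nat hψc φ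
  have hover : ∀ φ : IrrCharacter Γ, a φ ≠ 0 → ∀ g : G, (φ : Γ → ℂ) g = (χ : G → ℂ) g := by
    intro φ hφ
    obtain ⟨R, hR, hsplit⟩ := exists_eq_add_of_constituent hψc φ.2 (by
      rw [ha φ]; exact Nat.cast_ne_zero.mpr hφ)
    have hφG := CfsgLib.CharBasics.isCharacter_restrict (isCharacter_of_irr φ.2) G
    obtain ⟨η, j, hj, hη⟩ := exists_constituent hφG (show (fun g : G => (φ : Γ → ℂ) g) 1 ≠ 0 from by
      show (φ : Γ → ℂ) ((1 : G) : Γ) ≠ 0
      rw [Subgroup.coe_one]; exact apply_one_ne_zero φ.2)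
    have hne : classInner (fun g : G => ψ g) (η : G → ℂ) ≠ 0 := by
      rw [hsplit]
      exact classInner_add_ne_zero_left hφG (CfsgLib.CharBasics.isCharacter_restrict hR G)
        (isCharacter_of_irr η.2) (by
          refine fun h => Nat.cast_ne_zero.mpr hj.ne' (hη.symm.trans ?_)
          exact h)
    rw [show (fun g : G => ψ g) = (e : ℂ) • (χ : G → ℂ) from funext hψG, classInner_smul_left] at hne
    have hηχ : (χ : G → ℂ) = (η : G → ℂ) := by
      by_contra hh
      exact hne (by rw [classInner_ne χ.2 η.2 hh, mul_zero])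
    have hχne : classInner (fun g : G => (φ : Γ → ℂ) g) (χ : G → ℂ) ≠ 0 := by
      rw [hηχ]
      exact fun h => Nat.cast_ne_zero.mpr hj.ne' (hη.symm.trans h)
    have hχne' : classInner (fun g : G => ρ'.character g) (χ : G → ℂ) ≠ 0 := by
      rw [funext hext, classInner_self χ.2]; exact one_ne_zero
    obtain ⟨l, hl⟩ := exists_twist_of_abelian hab χ.2 ⟨k', ρ', hρ', rfl⟩ φ.2 hχne' hχne
    intro g
    rw [hl]
    show ((l ((g : Γ) : Γ ⧸ G) : ℂˣ) : ℂ) * _ = _
    rw [(QuotientGroup.eq_one_iff (g : Γ)).2 g.2, map_one, Units.val_one, one_mul, hext]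
  let S : Finset (IrrCharacter Γ) := Finset.univ.filter fun φ => a φ ≠ 0
  have hψsum : ψ = ∑ φ ∈ S, (a φ : ℂ) • (φ : Γ → ℂ) := by
    conv_lhs => rw [classFun_expand (isClassFunction hψc)]
    simp only [ha]
    refine (Finset.sum_subset (Finset.subset_univ S) fun φ _ hφ => ?_).symm
    rw [show a φ = 0 by simpa [S] using hφ, Nat.cast_zero, zero_smul]
  have hsum : ∑ φ ∈ S, a φ = e := by
    have h1 : ψ ((1 : G) : Γ) = ∑ φ ∈ S, (a φ : ℂ) * (χ : G → ℂ) 1 := by
      rw [hψsum, Finset.sum_apply]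
      refine Finset.sum_congr rfl fun φ hφ => ?_
      rw [Pi.smul_apply, smul_eq_mul, hover φ (Finset.mem_filter.1 hφ).2 1]
    rw [hψG, ← Finset.sum_mul, mul_left_inj' (apply_one_ne_zero χ.2)] at h1
    exact_mod_cast h1.symm
  have hsq : classInner ψ ψ = ((∑ φ ∈ S, a φ ^ 2 : ℕ) : ℂ) := by
    conv_lhs => arg 1; rw [hψsum]
    rw [classInner_sum_left, Nat.cast_sum]
    refine Finset.sum_congr rfl fun φ _ => ?_
    rw [classInner_smul_left, classInner_comm, ha φ, Complex.conj_natCast]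
    push_cast; ring
  have hcardS : S.card ≤ G.index := by
    have hI := classInner_indFun_self_of_invariant (G := Γ) χ.2 fun y => funext fun g => hχinv y g
    choose b hb using fun φ : IrrCharacter Γ =>
      classInner_character_nat (isCharacter_indFun G (isCharacter_of_irr χ.2)) φ
    have h2 : classInner (indFun G (χ : G → ℂ)) (indFun G (χ : G → ℂ)) = ((∑ φ, b φ ^ 2 : ℕ) : ℂ) := by
      conv_lhs => arg 1; rw [classFun_expand (isClassFunction_indFun G (χ : G → ℂ))]
      rw [classInner_sum_left, Nat.cast_sum]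
      refine Finset.sum_congr rfl fun φ _ => ?_
      rw [classInner_smul_left, hb φ, classInner_comm (indFun G (χ : G → ℂ)) (φ : Γ → ℂ), hb φ,
        Complex.conj_natCast]
      push_cast; ring
    rw [hI, Nat.cast_inj] at h2
    rw [h2, Finset.card_eq_sum_ones]
    refine le_trans (le_of_eq (Finset.sum_congr rfl fun φ hφ => ?_))
      (Finset.sum_le_sum_of_subset (Finset.subset_univ S))
    have h3 := hb φ
    rw [classInner_indFun G (χ : G → ℂ) (isClassFunction (isCharacter_of_irr φ.2)),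
      funext (hover φ (Finset.mem_filter.1 hφ).2), classInner_self χ.2] at h3
    rw [show b φ = 1 by exact_mod_cast h3.symm, one_pow]
  refine int_step S a G.index e hm1 hcardS hsum ?_
  rw [hsq] at hnorm
  exact_mod_cast hnorm

end Cfsg.Agent.S4454
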