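import Cfsg.Statements.S4462
import Cfsg.Agent.CharBasics.Garrison

set_option autoImplicit false
set_option linter.style.haveILetI false
open Cfsg CfsgLib.CharBasics

namespace Cfsg.Agent.S4462

universe u

/-- A normal chain of the given length with nilpotent factors. -/
def Chain (G : Type u) [Group G] (n : ℕ) : Prop :=
  ∃ N : ℕ → Subgroup G, N 0 = ⊥ ∧ (∀ i, n ≤ i → N i = ⊤) ∧ Monotone N ∧ (∀ i, (N i).Normal) ∧
    ∀ i, ∀ _ : ((N i).subgroupOf (N (i + 1))).Normal, Group.IsNilpotent (↥(N (i + 1)) ⧸ (N i).subgroupOf (N (i + 1)))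

theorem chain_mono {G : Type u} [Group G] {n m : ℕ} (h : n ≤ m) (hc : Chain G n) : Chain G m := by
  obtain ⟨N, h0, h1, h2, h3, h4⟩ := hc
  exact ⟨N, h0, fun i hi => h1 i (h.trans hi), h2, h3, h4⟩

/-- One step through a nilpotent normal subgroup. -/
theorem chain_step {G : Type u} [Group G] (F : Subgroup G) [F.Normal] (hF : Group.IsNilpotent F) {n : ℕ}
    (hc : Chain (G ⧸ F) n) : Chain G (n + 1) := by
  obtain ⟨M, h0, h1, h2, h3, h4⟩ := hc
  refine ⟨fun i => if i = 0 then ⊥ else (M (i - 1)).comap (QuotientGroup.mk' F), if_pos rfl, fun i hi => ?_,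
    fun i j hij => ?_, fun i => ?_, fun i hn => ?_⟩
  · simp only
    rw [if_neg (by omega), h1 (i - 1) (by omega), Subgroup.comap_top]
  · simp only
    split_ifs with a b
    · exact le_rfl
    · exact bot_le
    · omega
    · exact Subgroup.comap_mono (h2 (by omega))
  · simp only
    split_ifs
    · infer_instance
    · exact (h3 _).comap _
  · rcases Nat.eq_zero_or_pos i with rfl | hi
    · have e : (if (0 + 1 : ℕ) = 0 then (⊥ : Subgroup G) else (M (0 + 1 - 1)).comap (QuotientGroup.mk' F)) = F := by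
        simp [h0, QuotientGroup.ker_mk', MonoidHom.comap_bot]
      haveI : Group.IsNilpotent ↥(if (0 + 1 : ℕ) = 0 then (⊥ : Subgroup G) else (M (0 + 1 - 1)).comap (QuotientGroup.mk' F)) := e.symm ▸ hF
      exact Group.nilpotent_quotient_of_nilpotent _
    · obtain ⟨j, rfl⟩ : ∃ j, i = j + 1 := ⟨i - 1, by omega⟩
      haveI hMj : ((M j).subgroupOf (M (j + 1))).Normal := (h3 j).subgroupOf _
      haveI := h4 j hMj
      set A := (if j + 1 + 1 = 0 then (⊥ : Subgroup G) else (M (j + 1 + 1 - 1)).comap (QuotientGroup.mk' F)) with hA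
      have hA' : A = (M (j + 1)).comap (QuotientGroup.mk' F) := by rw [hA, if_neg (by omega)]; simp
      let φ : A →* ↥(M (j + 1)) ⧸ (M j).subgroupOf (M (j + 1)) :=
        (QuotientGroup.mk' _).comp (((QuotientGroup.mk' F).comp A.subtype).codRestrict (M (j + 1)) fun x => hA'.le x.2)
      have hφ : Function.Surjective φ := by
        intro q
        obtain ⟨⟨x, hx⟩, rfl⟩ := QuotientGroup.mk_surjective q
        obtain ⟨g, rfl⟩ := QuotientGroup.mk_surjective x
        exact ⟨⟨g, hA'.ge hx⟩, rfl⟩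
      have hker : φ.ker = (if j + 1 = 0 then (⊥ : Subgroup G) else (M (j + 1 - 1)).comap (QuotientGroup.mk' F)).subgroupOf A := by
        ext x
        rw [MonoidHom.mem_ker]
        simp only [φ, MonoidHom.comp_apply, QuotientGroup.mk'_apply, QuotientGroup.eq_one_iff, Subgroup.mem_subgroupOf,
          if_neg (Nat.succ_ne_zero j), Nat.add_sub_cancel, Subgroup.mem_comap]
        rfl
      exact Group.nilpotent_of_mulEquiv ((QuotientGroup.quotientMulEquivOfEq hker.symm).trans (QuotientGroup.quotientKerEquivOfSurjective φ hφ)).symm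

/-- The degrees. -/
def degs (G : Type u) [Group G] : Set ℕ := {d | ∃ χ : Cfsg.IrrCharacter G, Cfsg.charDegree (χ : G → ℂ) = d}

theorem degs_finite (G : Type u) [Group G] [Finite G] : (degs G).Finite := by
  haveI := finite_irrCharacter (G := G)
  exact (Set.finite_range fun χ : Cfsg.IrrCharacter G => Cfsg.charDegree (χ : G → ℂ)).subset fun d ⟨χ, h⟩ => ⟨χ, h⟩

theorem main : ∀ (m : ℕ) (G : Type u) [Group G] [Finite G], Nat.card G ≤ m → Group.IsSolvable G →
    Chain G (degs G).ncard := by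
  intro m
  induction m with
  | zero => intro G _ _ h _; exact absurd h (not_le.2 Nat.card_pos)
  | succ m ih =>
    intro G _ _ hcard hsolv
    haveI := hsolv
    classical
    set F := Cfsg.fittingSubgroup G
    haveI hFn : F.Normal := CfsgLib.Components.fittingSubgroup_normal
    have hFnil : Group.IsNilpotent F := CfsgLib.Components.fittingSubgroup_isNilpotent
    have h1 : 1 ∈ degs G := ⟨oneChar, by simp [Cfsg.charDegree, oneChar_apply]⟩
    have hpos : 0 < (degs G).ncard := (Set.ncard_pos (degs_finite G)).2 ⟨1, h1⟩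
    by_cases htop : F = ⊤
    · refine chain_mono (n := 0 + 1) hpos (chain_step F hFnil ?_)
      haveI : Subsingleton (G ⧸ F) := QuotientGroup.subsingleton_iff.2 htop
      exact ⟨fun _ => ⊤, Subsingleton.elim _ _, fun _ _ => rfl, fun _ _ _ => le_rfl, fun _ => inferInstance,
        fun i _ => Group.isNilpotent_of_subsingleton⟩
    have hF0 : F ≠ ⊥ := fun h0 => by
      haveI : Nontrivial G := by
        by_contra h
        rw [not_nontrivial_iff_subsingleton] at h
        exact htop (eq_top_iff.2 fun g _ => Subsingleton.elim (1 : G) g ▸ F.one_mem)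
      obtain ⟨N, ⟨hN, hN0⟩, hNmin⟩ := Set.Finite.exists_minimal (s := {X : Subgroup G | X.Normal ∧ X ≠ ⊥})
        (Set.toFinite _) ⟨⊤, inferInstance, top_ne_bot⟩
      haveI := hN
      obtain ⟨p, hp, hc, -, hpw⟩ := CfsgLib.Hall.IsMinNormal.elementaryAbelian (N := N) ⟨inferInstance, hN0, fun X hX hle =>
        or_iff_not_imp_left.2 fun h => le_antisymm hle (hNmin ⟨hX, h⟩ hle)⟩
      haveI := Fact.mk hp
      have hNp : IsPGroup p N := fun x => ⟨1, Subtype.ext (by rw [pow_one]; exact hpw _ x.2)⟩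
      exact hN0 (le_bot_iff.1 (h0 ▸ CfsgLib.Components.le_fittingSubgroup hN hNp.isNilpotent))
    have hlt : Nat.card (G ⧸ F) < Nat.card G := by
      have h := F.card_eq_card_quotient_mul_card_subgroup
      have h2 : 1 < Nat.card F := Finite.one_lt_card_iff_nontrivial.2 (F.nontrivial_iff_ne_bot.2 hF0)
      have h3 : 0 < Nat.card (G ⧸ F) := Nat.card_pos
      nlinarith
    have hsQ : Group.IsSolvable (G ⧸ F) := inferInstance
    obtain ⟨d, ⟨χ₀, hd⟩, hmax⟩ := Set.Finite.exists_maximalFor id (degs G) (degs_finite G) ⟨1, h1⟩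
    have hsub : degs (G ⧸ F) ⊆ degs G \ {d} := by
      rintro e ⟨η, rfl⟩
      have hirr := CfsgLib.Clifford.isIrrCharacter_comp η.2 (QuotientGroup.mk' F) (QuotientGroup.mk'_surjective F)
      let χ : Cfsg.IrrCharacter G := ⟨_, hirr⟩
      have hdeg : Cfsg.charDegree (χ : G → ℂ) = Cfsg.charDegree (η : G ⧸ F → ℂ) := by
        simp only [Cfsg.charDegree, χ, QuotientGroup.mk'_apply, QuotientGroup.mk_one]
      refine ⟨⟨χ, hdeg⟩, fun he => ?_⟩
      rw [Set.mem_singleton_iff, ← hdeg] at he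
      set K := charKer (χ : G → ℂ) (isCharacter_of_irr χ.2)
      haveI : K.Normal := charKer_normal _
      have hFK : F ≤ K := fun f hf => by
        show (η : G ⧸ F → ℂ) (f : G ⧸ F) = (η : G ⧸ F → ℂ) ((1 : G) : G ⧸ F)
        rw [(QuotientGroup.eq_one_iff f).2 hf, QuotientGroup.mk_one]
      have hcase : ¬ K ≤ Cfsg.fittingSubgroup G ∨ (K = Cfsg.fittingSubgroup G ∧ Group.IsSolvable (G ⧸ K) ∧ K ≠ ⊤) := by
        by_cases hle : K ≤ Cfsg.fittingSubgroup G
        · exact Or.inr ⟨le_antisymm hle hFK, inferInstance, (le_antisymm hle hFK) ▸ htop⟩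
        · exact Or.inl hle
      obtain ⟨ψ, hlt', -⟩ := CfsgLib.Garrison.exists_larger_of_kernel χ K (fun g => Iff.rfl) hcase
      rw [he] at hlt'
      have := hmax ⟨ψ, rfl⟩ hlt'.le
      exact absurd hlt' (not_lt.2 this)
    have hn : (degs (G ⧸ F)).ncard + 1 ≤ (degs G).ncard := by
      have := Set.ncard_le_ncard hsub ((degs_finite G).diff)
      rw [Set.ncard_sdiff_singleton_of_mem (show d ∈ degs G from ⟨χ₀, hd⟩)] at this
      omega
    exact chain_mono hn (chain_step F hFnil (ih (G ⧸ F) (by omega) hsQ))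

/-- Let G be a finite solvable group with exactly n distinct irreducible character degrees. Then G has normal subgroups 1 = N₀ ≤ N₁ ≤ ⋯ ≤ Nₙ = G with every quotient N_{i+1}/N_i nilpotent (the nilpotent length of G is at most n). -/
theorem result {G : Type*} [Group G] [Finite G] (hsolv : Group.IsSolvable G) (n : ℕ) (hcd : Nat.card {d : ℕ // ∃ χ : Cfsg.IrrCharacter G, Cfsg.charDegree (χ : G → ℂ) = d} = n) : ∃ N : Fin (n + 1) → Subgroup G, N 0 = ⊥ ∧ N (Fin.last n) = ⊤ ∧ Monotone N ∧ (∀ i, (N i).Normal) ∧ ∀ i : Fin n, ∀ h : (N i.castSucc).subgroupOf (N i.succ) |>.Normal, Group.IsNilpotent (↥(N i.succ) ⧸ (N i.castSucc).subgroupOf (N i.succ)) := by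
  obtain ⟨N, h0, h1, h2, h3, h4⟩ := main (Nat.card G) G le_rfl hsolv
  have hn : (degs G).ncard = n := by rw [← hcd, ← Nat.card_coe_set_eq]; rfl
  exact ⟨fun i => N i, h0, h1 n hn.le, fun i j hij => h2 hij, fun i => h3 i, fun i h => h4 i h⟩

end Cfsg.Agent.S4462
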