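import Cfsg.Statements.S4464
import Cfsg.Agent.SmallDegrees.Main

set_option autoImplicit false
open Cfsg

namespace Cfsg.Agent.S4464

/-- Let p be a prime and G a finite group all of whose irreducible character degrees are less than p. Then G has a normal abelian Sylow p-subgroup. -/
theorem result {G : Type*} [Group G] [Finite G] (p : ℕ) (hp : p.Prime) (hb : ∀ χ : Cfsg.IrrCharacter G, Cfsg.charDegree (χ : G → ℂ) < p) : ∃ P : Subgroup G, P.Normal ∧ (∀ x ∈ P, ∀ y ∈ P, x * y = y * x) ∧ IsPGroup p P ∧ ¬ p ∣ P.index := by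
  haveI := Fact.mk hp
  obtain ⟨P, h1, h2, h3, h4⟩ := CfsgLib.SmallDegrees.normal_abelian_sylow p G hb
  exact ⟨P, h1, fun x hx y hy => congrArg Subtype.val (h2.1.1 ⟨x, hx⟩ ⟨y, hy⟩), h3, h4⟩

end Cfsg.Agent.S4464
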