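import Cfsg.Statements.S4470
import Mathlib
import Cfsg.Agent.FrobJordan.Small

set_option autoImplicit false
open Cfsg

namespace Cfsg.Agent.S4470

/-- Let the finite group G have a faithful character of degree n. Then G has an abelian normal subgroup A such that every abelian subgroup H of G satisfies [H : H ⊓ A] ≤ 12^n. -/
theorem result {G : Type*} [Group G] [Finite G] (χ : G → ℂ) (hχ : Cfsg.IsCharacter G χ) (hfaith : ∀ g : G, χ g = χ 1 → g = 1) (n : ℕ) (hn : Cfsg.charDegree χ = n) : ∃ A : Subgroup G, A.Normal ∧ (∀ x ∈ A, ∀ y ∈ A, x * y = y * x) ∧ ∀ H : Subgroup G, (∀ x ∈ H, ∀ y ∈ H, x * y = y * x) → (A.subgroupOf H).index ≤ 12 ^ n := by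
  classical
  haveI := Fintype.ofFinite G
  obtain ⟨m, ρ, rfl⟩ := hχ
  have hm : ρ.character 1 = (m : ℂ) := by
    rw [Representation.char_one, Module.finrank_fin_fun]
  have hmn : m = n := by
    rw [← hn]
    simp [Cfsg.charDegree, hm]
  subst hmn
  refine CfsgLib.FrobJordan.frobenius_jordan ρ fun x y h => inv_mul_eq_one.mp (hfaith _ ?_)
  have h1 : ρ (x⁻¹ * y) = ρ 1 := by
    rw [map_mul, ← h, ← map_mul, inv_mul_cancel]
  simp only [Representation.character, h1]

end Cfsg.Agent.S4470
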