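import Cfsg.Statements.S4473
import Cfsg.Agent.LinearTwo.Basic

set_option autoImplicit false
open Cfsg

namespace Cfsg.Agent.S4473

/-- Let the finite group G have a faithful irreducible character χ of degree 2 that is primitive: χ is not induced from a character of any proper subgroup. Then the centre of G has index 12, 24 or 60. -/
theorem result {G : Type*} [Group G] [Fintype G] (χ : Cfsg.IrrCharacter G) (hfaith : ∀ g : G, (χ : G → ℂ) g = (χ : G → ℂ) 1 → g = 1) (h2 : Cfsg.charDegree (χ : G → ℂ) = 2) (hprim : ∀ H : Subgroup G, H ≠ ⊤ → ∀ θ : H → ℂ, Cfsg.IsCharacter H θ → (χ : G → ℂ) ≠ Cfsg.indFun H θ) : (Subgroup.center G).index = 12 ∨ (Subgroup.center G).index = 24 ∨ (Subgroup.center G).index = 60 := by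
  classical
  obtain ⟨n, ρ, hρ, hρχ⟩ := χ.2
  have hn : n = 2 := by
    have h1 : (χ : G → ℂ) 1 = (n : ℂ) := by rw [← hρχ, Representation.char_one]; simp
    rw [CfsgLib.CharBasics.apply_one (CfsgLib.CharBasics.isCharacter_of_irr χ.2), h2, Nat.cast_inj] at h1
    exact h1.symm
  subst hn
  let t := LinearMap.toMatrixAlgEquiv (Pi.basisFun ℂ (Fin 2))
  let σ : G →* CfsgLib.LinearTwo.M2 := t.toAlgHom.toRingHom.toMonoidHom.comp ρ
  have hinj : Function.Injective σ := by
    refine (injective_iff_map_eq_one σ).2 fun g hg => hfaith g ?_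
    have h1 : ρ g = 1 := t.injective (hg.trans (map_one t).symm)
    rw [← hρχ]
    show LinearMap.trace ℂ _ (ρ g) = LinearMap.trace ℂ _ (ρ 1)
    rw [h1, map_one ρ]
  refine CfsgLib.LinearTwo.center_index σ hinj (fun z hz => ?_) fun A hA => ?_
  · obtain ⟨c, hc⟩ := CfsgLib.Clifford.schur_scalar hρ (ρ z) fun g => by
      rw [← map_mul, ← map_mul, Subgroup.mem_center_iff.1 hz g]
    exact ⟨c, by show t (ρ z) = _; rw [hc, map_smul, map_one]⟩
  · by_contra hlt
    haveI := hA
    have h0 : A.index ≠ 0 := Subgroup.index_ne_zero_of_finite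
    have hle := CfsgLib.CharBasics.degree_le_index_of_comm A χ
    rw [h2] at hle
    have hAt : A ≠ ⊤ := fun h => by rw [h, Subgroup.index_top] at hle; omega
    obtain ⟨θ, hθ⟩ := CfsgLib.CharBasics.exists_restrict_constituent A χ
    have heq := (CfsgLib.CharBasics.degree_le_index_mul A (CfsgLib.CharBasics.isCharacter_of_irr θ.2) χ hθ).2 (by
      rw [CfsgLib.CharBasics.charDegree_comm θ.2, h2]; omega)
    exact hprim A hAt (θ : A → ℂ) (CfsgLib.CharBasics.isCharacter_of_irr θ.2) heq.symm

end Cfsg.Agent.S4473
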