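import Cfsg.Statements.S4476
import Cfsg.Agent.BrauerInd.FSInd

set_option autoImplicit false
open Cfsg

namespace Cfsg.Agent.S4476

/-- Let G be a finite group of even order g with exactly t involutions, and put α = (g − 1)/t (a rational number). Then (a) some non-identity element x of G has at most α² conjugates; and (b) some non-principal real-valued irreducible character of G has degree at most α. -/
theorem result {G : Type*} [Group G] [Fintype G] (heven : Even (Nat.card G)) (t : ℕ) (ht : Nat.card {x : G // orderOf x = 2} = t) : (∃ x : G, x ≠ 1 ∧ ((Subgroup.centralizer ({x} : Set G)).index : ℚ) ≤ (((Nat.card G : ℚ) - 1) / t) ^ 2) ∧ ∃ χ : Cfsg.IrrCharacter G, (χ : G → ℂ) ≠ (fun _ => 1) ∧ (∀ g : G, ((χ : G → ℂ) g).im = 0) ∧ (Cfsg.charDegree (χ : G → ℂ) : ℚ) ≤ ((Nat.card G : ℚ) - 1) / t := by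
  classical
  haveI := Fintype.ofFinite (Cfsg.IrrCharacter G)
  have htpos : 0 < t := by
    obtain ⟨x, hx⟩ := exists_prime_orderOf_dvd_card' (G := G) 2 (even_iff_two_dvd.1 heven)
    rw [← ht]
    exact Nat.card_pos_iff.2 ⟨⟨⟨x, hx⟩⟩, inferInstance⟩
  have hcount : ((Finset.univ.filter fun s : G => s * s = 1).card : ℕ) = t + 1 := by
    have : (Finset.univ.filter fun s : G => s * s = 1) =
        insert 1 (Finset.univ.filter fun s : G => orderOf s = 2) := by
      ext s
      simp only [Finset.mem_filter, Finset.mem_univ, true_and, Finset.mem_insert]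
      rw [orderOf_eq_prime_iff, sq]
      constructor
      · intro h
        by_cases h1 : s = 1
        · exact Or.inl h1
        · exact Or.inr ⟨h, h1⟩
      · rintro (rfl | ⟨h, -⟩)
        · exact mul_one 1
        · exact h
    rw [this, Finset.card_insert_of_notMem (by simp), ← ht, Nat.card_eq_fintype_card, Fintype.card_subtype]
  set d : Cfsg.IrrCharacter G → ℕ := fun χ => Cfsg.charDegree (χ : G → ℂ) with hd
  have hg0 : (Nat.card G : ℂ) ≠ 0 := Nat.cast_ne_zero.mpr Nat.card_pos.ne'
  have hinv : ((t : ℂ) + 1) = ∑ χ : Cfsg.IrrCharacter G, CfsgLib.BrauerInd.ind (χ : G → ℂ) * (d χ : ℂ) := by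
    simp only [CfsgLib.BrauerInd.ind, mul_assoc, ← Finset.mul_sum, Finset.sum_mul]
    rw [Finset.sum_comm, eq_inv_mul_iff_mul_eq₀ hg0]
    have hin : ∀ s : G, ∑ χ : Cfsg.IrrCharacter G, (χ : G → ℂ) (s * s) * (d χ : ℂ) =
        if s * s = 1 then (Nat.card G : ℂ) else 0 := by
      intro s
      split_ifs with h
      · rw [h, ← CfsgLib.CharBasics.sum_sq_degree (G := G)]
        push_cast
        exact Finset.sum_congr rfl fun χ _ => by
          rw [CfsgLib.CharBasics.apply_one (CfsgLib.CharBasics.isCharacter_of_irr χ.2), sq]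
      · rw [← CfsgLib.CharBasics.sum_mul_degree h]
        exact Finset.sum_congr rfl fun χ _ => mul_comm _ _
    rw [Finset.sum_congr rfl (fun s _ => hin s), ← Finset.sum_filter, Finset.sum_const, hcount,
      nsmul_eq_mul]
    push_cast
    ring
  let one : Cfsg.IrrCharacter G := ⟨fun _ => 1, CfsgLib.CharBasics.isIrrCharacter_one⟩
  set R := Finset.univ.filter fun χ : Cfsg.IrrCharacter G =>
    (∀ g : G, ((χ : G → ℂ) g).im = 0) ∧ χ ≠ one with hR
  have hle : t ≤ ∑ χ ∈ R, d χ := by
    have h1 : ((t : ℝ) + 1) ≤ ∑ χ ∈ insert one R, (d χ : ℝ) := by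
      calc ((t : ℝ) + 1) = ‖((t : ℂ) + 1)‖ := by
            rw [show ((t : ℂ) + 1) = ((t + 1 : ℕ) : ℂ) by push_cast; rfl, Complex.norm_natCast]
            push_cast; rfl
        _ ≤ ∑ χ : Cfsg.IrrCharacter G, ‖CfsgLib.BrauerInd.ind (χ : G → ℂ) * (d χ : ℂ)‖ := by
            rw [hinv]; exact norm_sum_le _ _
        _ = ∑ χ ∈ insert one R, ‖CfsgLib.BrauerInd.ind (χ : G → ℂ) * (d χ : ℂ)‖ := by
            refine (Finset.sum_subset (Finset.subset_univ _) fun χ _ hχ => ?_).symm
            simp only [hR, Finset.mem_insert, Finset.mem_filter, Finset.mem_univ, true_and,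
              not_or, not_and] at hχ
            have : ∃ g, ((χ : G → ℂ) g).im ≠ 0 := by
              by_contra h
              push Not at h
              exact hχ.2 h hχ.1
            rw [(CfsgLib.BrauerInd.fs_trichotomy χ.2).2.2 this, zero_mul, norm_zero]
        _ ≤ ∑ χ ∈ insert one R, (d χ : ℝ) := by
            refine Finset.sum_le_sum fun χ _ => ?_
            rw [norm_mul, Complex.norm_natCast]
            rcases (CfsgLib.BrauerInd.fs_trichotomy χ.2).1 with h | h | h <;> simp [h]
    rw [Finset.sum_insert (by simp [hR])] at h1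
    have hd1 : d one = 1 := by simp [hd, one, Cfsg.charDegree]
    rw [hd1] at h1
    have : (t : ℝ) ≤ ∑ χ ∈ R, (d χ : ℝ) := by push_cast at h1; linarith
    exact_mod_cast this
  have hsq : 1 + ∑ χ ∈ R, d χ ^ 2 ≤ Nat.card G := by
    rw [← CfsgLib.CharBasics.sum_sq_degree (G := G)]
    calc 1 + ∑ χ ∈ R, d χ ^ 2 = ∑ χ ∈ insert one R, d χ ^ 2 := by
          rw [Finset.sum_insert (by simp [hR])]; simp [hd, one, Cfsg.charDegree]
      _ ≤ _ := Finset.sum_le_sum_of_subset (Finset.subset_univ _)
  set g1 : ℚ := (Nat.card G : ℚ) - 1 with hg1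
  have hsqQ : ∑ χ ∈ R, (d χ : ℚ) ^ 2 ≤ g1 := by
    have : ((1 + ∑ χ ∈ R, d χ ^ 2 : ℕ) : ℚ) ≤ (Nat.card G : ℚ) := by exact_mod_cast hsq
    push_cast at this
    linarith
  have hleQ : (t : ℚ) ≤ ∑ χ ∈ R, (d χ : ℚ) := by exact_mod_cast hle
  have htQ : (0 : ℚ) < t := by exact_mod_cast htpos
  constructor
  · by_contra hcon
    push Not at hcon
    set k := Nat.card (ConjClasses G) with hk
    have hsum : ∑ x : G, Nat.card (Subgroup.centralizer ({x} : Set G)) = k * Nat.card G := by
      rw [hk, ← card_comm_eq_card_conjClasses_mul_card,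
        Nat.card_congr (Equiv.subtypeProdEquivSigmaSubtype Commute), Nat.card_sigma]
      refine Finset.sum_congr rfl fun x _ => Nat.card_congr (Equiv.subtypeEquivRight fun y => ?_)
      rw [Subgroup.mem_centralizer_singleton_iff]
      exact ⟨fun h => h.symm, fun h => h.symm⟩
    have hone : Nat.card (Subgroup.centralizer ({(1 : G)} : Set G)) = Nat.card G :=
      Nat.card_congr (Equiv.subtypeUnivEquiv fun x => by simp [Subgroup.mem_centralizer_singleton_iff])
    rw [← Finset.add_sum_erase _ _ (Finset.mem_univ (1 : G)), hone] at hsum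
    have hsumQ : (Nat.card G : ℚ) + ∑ x ∈ Finset.univ.erase (1 : G),
        (Nat.card (Subgroup.centralizer ({x} : Set G)) : ℚ) = (k : ℚ) * Nat.card G := by
      exact_mod_cast hsum
    have hRk : (R.card : ℚ) + 1 ≤ k := by
      have : (insert one R).card ≤ Fintype.card (Cfsg.IrrCharacter G) := Finset.card_le_univ _
      rw [Finset.card_insert_of_notMem (by simp [hR]), ← Nat.card_eq_fintype_card,
        CfsgLib.CharBasics.card_irr, ← hk] at this
      exact_mod_cast this
    have hCS : (t : ℚ) ^ 2 ≤ (R.card : ℚ) * g1 := by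
      calc (t : ℚ) ^ 2 ≤ (∑ χ ∈ R, (d χ : ℚ)) ^ 2 := by gcongr
        _ ≤ (R.card : ℚ) * ∑ χ ∈ R, (d χ : ℚ) ^ 2 := sq_sum_le_card_mul_sum_sq
        _ ≤ (R.card : ℚ) * g1 := by gcongr
    have hg1pos : 0 < g1 := by
      have h2 : 2 ≤ Nat.card G := Nat.le_of_dvd Nat.card_pos (even_iff_two_dvd.1 heven)
      have : (2 : ℚ) ≤ (Nat.card G : ℚ) := by exact_mod_cast h2
      linarith
    have hlt : ∀ x ∈ Finset.univ.erase (1 : G),
        (Nat.card (Subgroup.centralizer ({x} : Set G)) : ℚ) * g1 ^ 2 < (Nat.card G : ℚ) * (t : ℚ) ^ 2 := by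
      intro x hx
      have h := hcon x (Finset.mem_erase.1 hx).1
      rw [div_pow, div_lt_iff₀ (by positivity)] at h
      have hmul : ((Nat.card (Subgroup.centralizer ({x} : Set G)) : ℚ)) *
          ((Subgroup.centralizer ({x} : Set G)).index : ℚ) = Nat.card G := by
        exact_mod_cast Subgroup.card_mul_index _
      calc _ < (Nat.card (Subgroup.centralizer ({x} : Set G)) : ℚ) *
            (((Subgroup.centralizer ({x} : Set G)).index : ℚ) * (t : ℚ) ^ 2) :=
            mul_lt_mul_of_pos_left h (Nat.cast_pos.2 Nat.card_pos)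
        _ = _ := by rw [← mul_assoc, hmul]
    have hne : (Finset.univ.erase (1 : G)).Nonempty := by
      obtain ⟨x, hx⟩ := exists_prime_orderOf_dvd_card' (G := G) 2 (even_iff_two_dvd.1 heven)
      exact ⟨x, Finset.mem_erase.2 ⟨fun h => by simp [h] at hx, Finset.mem_univ _⟩⟩
    have h2 := Finset.sum_lt_sum_of_nonempty hne hlt
    rw [← Finset.sum_mul, Finset.sum_const, nsmul_eq_mul,
      Finset.card_erase_of_mem (Finset.mem_univ _), Finset.card_univ, ← Nat.card_eq_fintype_card,
      Nat.cast_sub (Nat.card_pos : 0 < Nat.card G)] at h2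
    have hGpos : (0 : ℚ) < Nat.card G := Nat.cast_pos.2 Nat.card_pos
    rw [Nat.cast_one, ← hg1] at h2
    have h3 : ((k : ℚ) - 1) * g1 < (t : ℚ) ^ 2 := by
      have hS : ∑ x ∈ Finset.univ.erase (1 : G),
          (Nat.card (Subgroup.centralizer ({x} : Set G)) : ℚ) = ((k : ℚ) - 1) * Nat.card G := by
        linarith
      rw [hS] at h2
      refine lt_of_mul_lt_mul_right (a := (Nat.card G : ℚ) * g1) ?_ (by positivity)
      linarith
    nlinarith
  · by_contra hcon
    push Not at hcon
    have hne : R.Nonempty := by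
      rw [Finset.nonempty_iff_ne_empty]
      intro h
      rw [h, Finset.sum_empty] at hle
      omega
    have hbig : ∀ χ ∈ R, g1 / t * (d χ : ℚ) < (d χ : ℚ) ^ 2 := by
      intro χ hχ
      obtain ⟨h1, h2⟩ := (Finset.mem_filter.1 hχ).2
      have h := hcon χ (fun h => h2 (Subtype.ext h)) h1
      rw [sq]
      exact mul_lt_mul_of_pos_right h (Nat.cast_pos.2 (CfsgLib.CharBasics.charDegree_pos χ.2))
    have h3 := Finset.sum_lt_sum_of_nonempty hne hbig
    rw [← Finset.mul_sum] at h3
    have h4 : g1 ≤ g1 / t * ∑ χ ∈ R, (d χ : ℚ) := by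
      have h5 : 0 ≤ g1 / t := div_nonneg (le_trans (Finset.sum_nonneg fun χ _ => sq_nonneg _) hsqQ) htQ.le
      calc g1 = g1 / t * t := by field_simp
        _ ≤ _ := mul_le_mul_of_nonneg_left hleQ h5
    linarith

end Cfsg.Agent.S4476
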