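import Cfsg.Statements.S4478
import Cfsg.Agent.S0165
import Cfsg.Agent.S0158
import Cfsg.Agent.BrauerInd.FSInd
import Cfsg.Agent.Blocks.HeightZero
-- import your own Cfsg.Agent.* helpers here

set_option autoImplicit false
open Cfsg

namespace Cfsg.Agent.S4478

/-- Let G be a finite group of even order and χ an irreducible character of G whose degree x is divisible by the full power of 2 dividing the order of G and, for every odd prime p such that G has an element of order 2p, by the full power of p dividing the order of G. Then all involutions of G are conjugate, the centralizer of every involution has order exactly x with x coprime to its index, and the Frobenius–Schur indicator of χ equals 1. -/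
theorem result {G : Type*} [Group G] [Fintype G] (heven : Even (Nat.card G)) (χ : Cfsg.IrrCharacter G) (h2 : 2 ^ (Nat.card G).factorization 2 ∣ Cfsg.charDegree (χ : G → ℂ)) (hp : ∀ p : ℕ, p.Prime → p ≠ 2 → (∃ g : G, orderOf g = 2 * p) → p ^ (Nat.card G).factorization p ∣ Cfsg.charDegree (χ : G → ℂ)) : (∀ s t : G, orderOf s = 2 → orderOf t = 2 → IsConj s t) ∧ (∀ s : G, orderOf s = 2 → Nat.card (Subgroup.centralizer ({s} : Set G)) = Cfsg.charDegree (χ : G → ℂ) ∧ (Nat.card (Subgroup.centralizer ({s} : Set G))).Coprime (Subgroup.centralizer ({s} : Set G)).index) ∧ (Nat.card G : ℂ)⁻¹ * ∑ g : G, (χ : G → ℂ) (g * g) = 1 := by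
  classical
  have hχc := CfsgLib.CharBasics.isCharacter_of_irr χ.2
  have hvan : ∀ p : ℕ, p.Prime → p ^ (Nat.card G).factorization p ∣ Cfsg.charDegree (χ : G → ℂ) →
      ∀ x : G, p ∣ orderOf x → (χ : G → ℂ) x = 0 := by
    intro p hpp hd x hx
    obtain ⟨n, ρ, hirr, he⟩ := χ.2
    have hn : Cfsg.charDegree (χ : G → ℂ) = n := by
      have h1 := CfsgLib.CharBasics.apply_one hχc
      rw [← he, Representation.char_one, Module.finrank_fin_fun] at h1
      rw [← he]
      exact_mod_cast h1.symm
    rw [← he]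
    haveI := hirr
    exact Cfsg.Agent.S0165.result ρ p _ hpp (Nat.ordProj_dvd _ _)
      (Nat.pow_succ_factorization_not_dvd Nat.card_pos.ne' hpp) (by rwa [Module.finrank_fin_fun, ← hn]) x hx
  have hinvo : ∀ g : G, ¬ Odd (orderOf g) → (χ : G → ℂ) (g * g) ≠ 0 → orderOf g = 2 := by
    intro g hg hne
    have h2g : 2 ∣ orderOf g := even_iff_two_dvd.1 (Nat.not_odd_iff_even.1 hg)
    obtain ⟨m, hm⟩ := h2g
    have hm0 : 0 < m := by
      have := orderOf_pos g; omega
    have hgg : orderOf (g * g) = m := by
      rw [← sq, orderOf_pow' g two_ne_zero, hm, Nat.gcd_eq_right (dvd_mul_right 2 m), Nat.mul_div_cancel_left m two_pos]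
    by_cases hm1 : m = 1
    · omega
    obtain ⟨p, hpp, hpm⟩ := Nat.exists_prime_and_dvd hm1
    exfalso
    refine hne (hvan p hpp ?_ (g * g) (hgg ▸ hpm))
    by_cases hp2 : p = 2
    · subst hp2; exact h2
    refine hp p hpp hp2 ⟨g ^ (m / p), ?_⟩
    obtain ⟨k, rfl⟩ := hpm
    have hk : k ≠ 0 := by rintro rfl; simp at hm0
    rw [Nat.mul_div_cancel_left k hpp.pos, orderOf_pow' g hk, hm,
      Nat.gcd_eq_right (Dvd.intro_left (2 * p) (by ring)), show 2 * (p * k) = 2 * p * k by ring,
      Nat.mul_div_cancel _ (Nat.pos_of_ne_zero hk)]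
  have h2G : 2 ∣ Cfsg.charDegree (χ : G → ℂ) :=
    (dvd_pow_self 2 ((Nat.prime_two.factorization_pos_of_dvd Nat.card_pos.ne' (even_iff_two_dvd.1 heven)).ne')).trans h2
  set odd := Finset.univ.filter fun g : G => Odd (orderOf g) with hodd
  set I := Finset.univ.filter fun g : G => orderOf g = 2 with hI
  have hsplit : ∑ g : G, (χ : G → ℂ) (g * g) = (I.card : ℂ) * Cfsg.charDegree (χ : G → ℂ) := by
    rw [← Finset.sum_filter_add_sum_filter_not Finset.univ (fun g : G => Odd (orderOf g))]
    have hzero : ∑ g ∈ odd, (χ : G → ℂ) (g * g) = 0 := by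
      have hbij : ∑ g ∈ odd, (χ : G → ℂ) (g * g) = ∑ g ∈ odd, (χ : G → ℂ) g := by
        refine Finset.sum_nbij' (fun g => g * g) (fun g => g ^ ((orderOf g + 1) / 2)) ?_ ?_ ?_ ?_ fun g _ => rfl
        · intro g hg
          simp only [hodd, Finset.coe_filter, Finset.mem_coe, Finset.mem_filter, Finset.mem_univ, true_and, Set.mem_setOf_eq] at hg ⊢
          exact hg.of_dvd_nat (by rw [← sq]; exact orderOf_pow_dvd 2)
        · intro g hg
          simp only [hodd, Finset.coe_filter, Finset.mem_coe, Finset.mem_filter, Finset.mem_univ, true_and, Set.mem_setOf_eq] at hg ⊢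
          exact hg.of_dvd_nat (orderOf_pow_dvd _)
        · intro g hg
          simp only [hodd, Finset.coe_filter, Finset.mem_coe, Finset.mem_filter, Finset.mem_univ, true_and, Set.mem_setOf_eq] at hg
          have he : orderOf (g * g) = orderOf g := by
            rw [← sq]; exact (Nat.Coprime.orderOf_pow (Nat.coprime_two_right.2 hg))
          obtain ⟨r, hr⟩ := hg
          rw [he, hr, ← sq, ← pow_mul, show 2 * ((2 * r + 1 + 1) / 2) = (2 * r + 1) + 1 by omega, pow_succ, ← hr,
            pow_orderOf_eq_one, one_mul]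
        · intro g hg
          simp only [hodd, Finset.coe_filter, Finset.mem_coe, Finset.mem_filter, Finset.mem_univ, true_and, Set.mem_setOf_eq] at hg
          obtain ⟨r, hr⟩ := hg
          rw [← sq, ← pow_mul, hr, show (2 * r + 1 + 1) / 2 * 2 = (2 * r + 1) + 1 by omega, pow_succ, ← hr,
            pow_orderOf_eq_one, one_mul]
      have hall : ∑ g ∈ odd, (χ : G → ℂ) g = ∑ g : G, (χ : G → ℂ) g := by
        refine Finset.sum_filter_of_ne fun g _ hne => ?_
        by_contra hg
        exact hne (hvan 2 Nat.prime_two h2 g (even_iff_two_dvd.1 (Nat.not_odd_iff_even.1 hg)))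
      have hone : χ ≠ CfsgLib.CharBasics.oneChar := fun h => by
        have h1 := CfsgLib.CharBasics.apply_one hχc
        rw [h] at h1 h2G
        have h2' : (Cfsg.charDegree ((CfsgLib.CharBasics.oneChar : Cfsg.IrrCharacter G) : G → ℂ) : ℂ) = 1 := h1.symm
        have h3 : Cfsg.charDegree ((CfsgLib.CharBasics.oneChar : Cfsg.IrrCharacter G) : G → ℂ) = 1 := by exact_mod_cast h2'
        rw [h3] at h2G
        omega
      have horth := CfsgLib.CharBasics.classInner_ne χ.2 (CfsgLib.CharBasics.oneChar : Cfsg.IrrCharacter G).2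
        (fun h => hone (Subtype.ext h))
      rw [CfsgLib.CharBasics.classInner_eq] at horth
      rw [hbij, hall]
      have := (mul_eq_zero.1 horth).resolve_left (inv_ne_zero (Nat.cast_ne_zero.2 Nat.card_pos.ne'))
      simpa [CfsgLib.CharBasics.oneChar] using this
    have hrest : ∑ g ∈ Finset.univ.filter (fun g : G => ¬ Odd (orderOf g)), (χ : G → ℂ) (g * g) =
        (I.card : ℂ) * Cfsg.charDegree (χ : G → ℂ) := by
      rw [← Finset.sum_subset (s₁ := I)]
      · rw [Finset.sum_congr rfl (g := fun _ => (χ : G → ℂ) 1) fun g hg => ?_, Finset.sum_const, nsmul_eq_mul,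
          CfsgLib.CharBasics.apply_one hχc]
        have h := pow_orderOf_eq_one g
        rw [(Finset.mem_filter.1 hg).2, sq] at h
        rw [h]
      · intro g hg
        refine Finset.mem_filter.2 ⟨Finset.mem_univ _, ?_⟩
        rw [(Finset.mem_filter.1 hg).2]
        decide
      · intro g hg hgI
        by_contra hne
        exact hgI (Finset.mem_filter.2 ⟨Finset.mem_univ _, hinvo g (Finset.mem_filter.1 hg).2 hne⟩)
    rw [hzero, zero_add, hrest]
  have hcard : (Nat.card G : ℂ) ≠ 0 := Nat.cast_ne_zero.2 Nat.card_pos.ne'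
  haveI : Fact (Nat.Prime 2) := ⟨Nat.prime_two⟩
  obtain ⟨s₀, hs₀⟩ := exists_prime_orderOf_dvd_card' 2 (even_iff_two_dvd.1 heven)
  have hIpos : 0 < I.card := Finset.card_pos.2 ⟨s₀, Finset.mem_filter.2 ⟨Finset.mem_univ _, hs₀⟩⟩
  have hdpos := CfsgLib.CharBasics.charDegree_pos χ.2
  have hind : (Nat.card G : ℂ)⁻¹ * ∑ g : G, (χ : G → ℂ) (g * g) = 1 := by
    obtain ⟨n, ρ, hirr, he⟩ := χ.2
    haveI := hirr
    have hpos : 0 < I.card * Cfsg.charDegree (χ : G → ℂ) := Nat.mul_pos hIpos hdpos
    have h := (Cfsg.Agent.S0158.result ρ).1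
    rw [he, hsplit] at h
    rcases h with h | h | h
    · exfalso
      rw [mul_eq_zero, inv_eq_zero, or_iff_right hcard] at h
      exact hpos.ne' (by exact_mod_cast h)
    · rw [hsplit]; exact h
    · exfalso
      rw [inv_mul_eq_iff_eq_mul₀ hcard] at h
      have h' : ((I.card * Cfsg.charDegree (χ : G → ℂ) + Nat.card G : ℕ) : ℂ) = 0 := by
        push_cast; rw [h]; ring
      have := Nat.cast_eq_zero.1 h'
      omega
  have hmain : I.card * Cfsg.charDegree (χ : G → ℂ) = Nat.card G := by
    rw [hsplit, inv_mul_eq_iff_eq_mul₀ hcard, mul_one] at hind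
    exact_mod_cast hind
  have hs : ∀ s : G, orderOf s = 2 → Nat.card (Subgroup.centralizer ({s} : Set G)) = Cfsg.charDegree (χ : G → ℂ) ∧
      (Finset.univ.filter fun g : G => IsConj s g) = I := by
    intro s hs
    set C := Subgroup.centralizer ({s} : Set G) with hC
    have hsub : (Finset.univ.filter fun g : G => IsConj s g) ⊆ I := by
      intro g hg
      obtain ⟨c, rfl⟩ := isConj_iff.1 (Finset.mem_filter.1 hg).2
      refine Finset.mem_filter.2 ⟨Finset.mem_univ _, ?_⟩
      rw [← MulAut.conj_apply, MulEquiv.orderOf_eq, hs]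
    have hcls : (Finset.univ.filter fun g : G => IsConj s g).card = C.index := by
      rw [hC, ← CfsgLib.CharBasics.card_conjClass, Nat.card_eq_fintype_card, Fintype.card_subtype]
    have hdvd : Nat.card C ∣ Cfsg.charDegree (χ : G → ℂ) := by
      rw [Nat.dvd_iff_prime_pow_dvd_dvd]
      intro q k hq hk
      rcases Nat.eq_zero_or_pos k with rfl | hk0
      · rw [pow_zero]; exact one_dvd _
      refine ((pow_dvd_pow q ((hq.pow_dvd_iff_le_factorization Nat.card_pos.ne').1
        (hk.trans (Subgroup.card_subgroup_dvd_card C)))).trans ?_)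
      by_cases hq2 : q = 2
      · subst hq2; exact h2
      have hqC : q ∣ Nat.card C := (dvd_pow_self q hk0.ne').trans hk
      haveI := Fact.mk hq
      obtain ⟨c, hc⟩ := exists_prime_orderOf_dvd_card' q hqC
      refine hp q hq hq2 ⟨s * c, ?_⟩
      have hcomm : Commute s (c : G) := (Subgroup.mem_centralizer_singleton_iff.1 c.2).symm
      rw [hcomm.orderOf_mul_eq_mul_orderOf_of_coprime (by
        rw [hs, Subgroup.orderOf_coe, hc]; exact (Nat.coprime_primes Nat.prime_two hq).2 fun e => hq2 e.symm),
        hs, Subgroup.orderOf_coe, hc]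
    have hle := Finset.card_le_card hsub
    rw [hcls] at hle
    have hCle := Nat.le_of_dvd hdpos hdvd
    have hmul : C.index * Nat.card C = Nat.card G := C.index_mul_card
    have hd : Nat.card C = Cfsg.charDegree (χ : G → ℂ) := by
      rcases hCle.eq_or_lt with h | h
      · exact h
      · exfalso
        have h1 : C.index * Nat.card C < C.index * Cfsg.charDegree (χ : G → ℂ) :=
          (Nat.mul_lt_mul_left (Nat.pos_of_ne_zero Subgroup.index_ne_zero_of_finite)).2 h
        have h2 := Nat.mul_le_mul_right (Cfsg.charDegree (χ : G → ℂ)) hle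
        omega
    refine ⟨hd, Finset.eq_of_subset_of_card_le hsub ?_⟩
    rw [hcls]
    exact (Nat.eq_of_mul_eq_mul_right hdpos (by rw [hmain, ← hd, hmul])).le
  refine ⟨fun s t hs' ht => ?_, fun s hs' => ⟨(hs s hs').1, ?_⟩, hind⟩
  · have ht' : t ∈ Finset.univ.filter fun g : G => IsConj s g := by
      rw [(hs s hs').2]; exact Finset.mem_filter.2 ⟨Finset.mem_univ _, ht⟩
    exact (Finset.mem_filter.1 ht').2
  · refine Nat.coprime_of_dvd fun q hq hqC hqi => ?_
    have hdC := (hs s hs').1
    set C := Subgroup.centralizer ({s} : Set G) with hC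
    have hfull : q ^ (Nat.card G).factorization q ∣ Nat.card C := by
      rw [hdC]
      by_cases hq2 : q = 2
      · subst hq2; exact h2
      haveI := Fact.mk hq
      obtain ⟨c, hc⟩ := exists_prime_orderOf_dvd_card' q hqC
      refine hp q hq hq2 ⟨s * c, ?_⟩
      have hcomm : Commute s (c : G) := (Subgroup.mem_centralizer_singleton_iff.1 c.2).symm
      rw [hcomm.orderOf_mul_eq_mul_orderOf_of_coprime (by
        rw [hs', Subgroup.orderOf_coe, hc]; exact (Nat.coprime_primes Nat.prime_two hq).2 fun e => hq2 e.symm),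
        hs', Subgroup.orderOf_coe, hc]
    have h := Nat.mul_dvd_mul hfull hqi
    rw [← pow_succ, C.card_mul_index] at h
    exact Nat.pow_succ_factorization_not_dvd Nat.card_pos.ne' hq h

end Cfsg.Agent.S4478
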