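import Cfsg.Statements.S4481
import Cfsg.Agent.ZStar.DihedralPrincipal

set_option autoImplicit false
open Cfsg

namespace Cfsg.Agent.S4481

/-- The principal 2-block of a group with dihedral Sylow 2-subgroups. Let G be a finite group whose Sylow 2-subgroup P is dihedral of order 2^n ≥ 8, let σ be an element of P of order 2^(n−1), ζ a primitive 2^(n−1)-th root of unity, and M a maximal ideal of the algebraic integers containing 2. Then the principal 2-block consists of exactly 3 + 2^(n−2) irreducible characters, which can be labelled 1, χ₁, χ₂, χ₃ and χ^(j) for 1 ≤ j ≤ 2^(n−2) − 1 (all distinct), with signs δ₁, δ₂, δ₃ such that for 0 < λ < 2^(n−1): χ₁(σ^λ) = δ₁, χ₂(σ^λ) = δ₂(−1)^(λ+1), χ₃(σ^λ) = δ₃(−1)^(λ+1) and χ^(j)(σ^λ) = δ₁(ζ^(jλ) + ζ^(−jλ)); and for every element ρ of odd order and every j: 1 + δ₁χ₁(ρ) = −δ₂χ₂(ρ) − δ₃χ₃(ρ) = δ₁χ^(j)(ρ).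 -/
theorem result {G : Type*} [Group G] [Finite G] (M : Ideal Cfsg.AlgInt) (hM : Cfsg.IsPModular 2 M) (n : ℕ) (hn : 3 ≤ n) (P : Sylow 2 G) (hP : Nonempty ((P : Subgroup G) ≃* DihedralGroup (2 ^ (n - 1)))) (σ : G) (hσ : σ ∈ (P : Subgroup G)) (hσo : orderOf σ = 2 ^ (n - 1)) (ζ : ℂ) (hζ : IsPrimitiveRoot ζ (2 ^ (n - 1))) : Nat.card (Cfsg.principalBlock M G) = 3 + 2 ^ (n - 2) ∧ ∃ (χ₁ χ₂ χ₃ : Cfsg.IrrCharacter G) (χ' : Fin (2 ^ (n - 2) - 1) → Cfsg.IrrCharacter G) (δ₁ δ₂ δ₃ : ℤ), (δ₁ = 1 ∨ δ₁ = -1) ∧ (δ₂ = 1 ∨ δ₂ = -1) ∧ (δ₃ = 1 ∨ δ₃ = -1) ∧ Function.Injective χ' ∧ (χ₁ : G → ℂ) ≠ (fun _ => 1) ∧ (χ₂ : G → ℂ) ≠ (fun _ => 1) ∧ (χ₃ : G → ℂ) ≠ (fun _ => 1) ∧ χ₁ ≠ χ₂ ∧ χ₁ ≠ χ₃ ∧ χ₂ ≠ χ₃ ∧ (∀ j, χ' j ≠ χ₁ ∧ χ' j ≠ χ₂ ∧ χ' j ≠ χ₃ ∧ (χ' j : G → ℂ) ≠ (fun _ => 1)) ∧ Cfsg.principalBlock M G = {χ : Cfsg.IrrCharacter G | (χ : G → ℂ) = (fun _ => 1) ∨ χ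 = χ₁ ∨ χ = χ₂ ∨ χ = χ₃ ∨ ∃ j, χ = χ' j} ∧ (∀ l : ℕ, 0 < l → l < 2 ^ (n - 1) → (χ₁ : G → ℂ) (σ ^ l) = δ₁ ∧ (χ₂ : G → ℂ) (σ ^ l) = δ₂ * (-1) ^ (l + 1) ∧ (χ₃ : G → ℂ) (σ ^ l) = δ₃ * (-1) ^ (l + 1) ∧ ∀ j : Fin (2 ^ (n - 2) - 1), (χ' j : G → ℂ) (σ ^ l) = δ₁ * (ζ ^ (((j : ℕ) + 1) * l) + (ζ ^ (((j : ℕ) + 1) * l))⁻¹)) ∧ ∀ ρ : G, Odd (orderOf ρ) → ∀ j : Fin (2 ^ (n - 2) - 1), 1 + δ₁ * (χ₁ : G → ℂ) ρ = -δ₂ * (χ₂ : G → ℂ) ρ - δ₃ * (χ₃ : G → ℂ) ρ ∧ 1 + δ₁ * (χ₁ : G → ℂ) ρ = δ₁ * (χ' j : G → ℂ) ρ := by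
  classical
  haveI : Fintype G := Fintype.ofFinite G
  haveI : Fact (Nat.Prime 2) := ⟨Nat.prime_two⟩
  obtain ⟨k, rfl⟩ : ∃ k, n = k + 3 := ⟨n - 3, by omega⟩
  obtain ⟨e⟩ := hP
  have hσo' : orderOf σ = 2 ^ (k + 2) := hσo
  set r := e ⟨σ, hσ⟩ with hr
  have hro : orderOf r = 2 ^ (k + 2) := by rw [hr, MulEquiv.orderOf_eq, Subgroup.orderOf_mk, hσo']
  set τ : G := ((e.symm (DihedralGroup.sr 0) : (P : Subgroup G)) : G) with hτ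
  have hτ2 : orderOf τ = 2 := by rw [hτ, Subgroup.orderOf_coe, MulEquiv.orderOf_eq, DihedralGroup.orderOf_sr]
  have hrot : ∃ i, r = DihedralGroup.r i := by
    rcases h : r with i | i
    · exact ⟨i, rfl⟩
    · rw [h, DihedralGroup.orderOf_sr] at hro
      have := Nat.pow_le_pow_right two_pos (show 2 ≤ k + 2 by omega)
      omega
  obtain ⟨i, hi⟩ := hrot
  have hrel : τ * σ * τ⁻¹ = σ⁻¹ := by
    have h : e.symm (DihedralGroup.sr 0) * ⟨σ, hσ⟩ * (e.symm (DihedralGroup.sr 0))⁻¹ = (⟨σ, hσ⟩ : (P : Subgroup G))⁻¹ := by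
      apply e.injective
      rw [map_mul, map_mul, map_inv, map_inv, MulEquiv.apply_symm_apply, ← hr, hi]
      simp
    exact congrArg Subtype.val h
  have hτnot : τ ∉ Subgroup.zpowers σ := by
    intro h
    obtain ⟨j, hj⟩ := Subgroup.mem_zpowers_iff.1 h
    have hc : Commute τ σ := hj ▸ (Commute.refl σ).zpow_left j
    rw [hc.eq, mul_inv_cancel_right] at hrel
    have h2 : orderOf σ ∣ 2 := orderOf_dvd_of_pow_eq_one (by rw [pow_two]; nth_rewrite 1 [hrel]; exact inv_mul_cancel σ)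
    have := Nat.le_of_dvd two_pos h2
    have := Nat.pow_le_pow_right two_pos (show 2 ≤ k + 2 by omega)
    omega
  have hgen : Subgroup.closure ({σ, τ} : Set G) = (P : Subgroup G) := by
    set K := Subgroup.closure ({σ, τ} : Set G) with hK
    have hle : K ≤ (P : Subgroup G) := (Subgroup.closure_le _).2 (by
      rintro x (rfl | rfl)
      · exact hσ
      · exact (e.symm (DihedralGroup.sr 0)).2)
    have hσK : σ ∈ K := Subgroup.subset_closure (by simp)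
    have hτK : τ ∈ K := Subgroup.subset_closure (by simp)
    have hlt : Subgroup.zpowers σ < K :=
      lt_of_le_of_ne (Subgroup.zpowers_le.2 hσK) fun h => hτnot (h ▸ hτK)
    have hcard : Nat.card (P : Subgroup G) = 2 ^ (k + 3) := by
      rw [Nat.card_congr e.toEquiv, DihedralGroup.nat_card, pow_succ' 2 (k + 2)]
      rfl
    refine Subgroup.eq_of_le_of_card_ge hle ?_
    obtain ⟨c, -, hc⟩ := (Nat.dvd_prime_pow Nat.prime_two).1 (hcard ▸ Subgroup.card_dvd_of_le hle)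
    have h1 : Nat.card (Subgroup.zpowers σ) < Nat.card K := by
      by_contra h
      exact hlt.ne (Subgroup.eq_of_le_of_card_ge hlt.le (not_lt.1 h))
    rw [Nat.card_zpowers, hσo', hc] at h1
    rw [hcard, hc]
    exact Nat.pow_le_pow_right two_pos (Nat.succ_le_of_lt ((Nat.pow_lt_pow_iff_right one_lt_two).1 h1))
  exact CfsgLib.ZStar.DihedralRot.principal_block ⟨hσ, (e.symm (DihedralGroup.sr 0)).2, hσo', hτ2, hrel, hgen⟩ hζ hM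

end Cfsg.Agent.S4481
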