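import Cfsg.Statements.S4483
import Cfsg.Agent.ZStar.RealBlock
-- import your own Cfsg.Agent.* helpers here

set_option autoImplicit false
open Cfsg

namespace Cfsg.Agent.S4483

/-- Let G be a finite group of order 2^n·g₀ with g₀ odd, and M a maximal ideal of the algebraic integers containing 2. Every real-valued irreducible character of G of odd degree lies in the principal 2-block; consequently G has at most 2^(2n) real-valued irreducible characters of odd degree. -/
theorem result {G : Type*} [Group G] [Finite G] (M : Ideal Cfsg.AlgInt) (hM : Cfsg.IsPModular 2 M) : (∀ χ : Cfsg.IrrCharacter G, (∀ g : G, ((χ : G → ℂ) g).im = 0) → Odd (Cfsg.charDegree (χ : G → ℂ)) → χ ∈ Cfsg.principalBlock M G) ∧ Nat.card {χ : Cfsg.IrrCharacter G // (∀ g : G, ((χ : G → ℂ) g).im = 0) ∧ Odd (Cfsg.charDegree (χ : G → ℂ))} ≤ 2 ^ (2 * (Nat.card G).factorization 2) := by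
  haveI := Fintype.ofFinite G
  have key : ∀ χ : IrrCharacter G, (∀ g : G, ((χ : G → ℂ) g).im = 0) → Odd (charDegree (χ : G → ℂ)) →
      χ ∈ principalBlock M G := fun χ him hodd =>
    CfsgLib.ZStar.RealBlock.mem_principal_of_real_odd hM (fun g => Complex.conj_eq_iff_im.2 (him g)) hodd
  refine ⟨key, le_trans ?_ (CfsgLib.ZStar.RealBlock.card_principal_le (G := G) hM)⟩
  haveI : Finite (IrrCharacter G) := CfsgLib.CharBasics.finite_irrCharacter
  exact Nat.card_le_card_of_injective (fun χ => (⟨χ.1, key χ.1 χ.2.1 χ.2.2⟩ : principalBlock M G))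
    fun a b h => Subtype.ext (congrArg (fun x : principalBlock M G => x.1) h)

end Cfsg.Agent.S4483
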