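import Cfsg.Statements.S4493
import Cfsg.Agent.CharBasics.ItoConverse
import Cfsg.Agent.Clifford.Ito
import Cfsg.Agent.PCore.PConstrained

set_option autoImplicit false
open Cfsg CfsgLib CfsgLib.CharBasics

namespace Cfsg.Agent.S4493

/-- Let G be a finite solvable group and p a prime. Then G has a normal abelian Sylow p-subgroup if and only if no irreducible character degree of G is divisible by p. -/
theorem result {G : Type*} [Group G] [Finite G] (hsolv : Group.IsSolvable G) (p : ℕ) (hp : p.Prime) : (∃ P : Subgroup G, P.Normal ∧ (∀ x ∈ P, ∀ y ∈ P, x * y = y * x) ∧ IsPGroup p P ∧ ¬ p ∣ P.index) ↔ ∀ χ : Cfsg.IrrCharacter G, ¬ p ∣ Cfsg.charDegree (χ : G → ℂ) := by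
  haveI : Fact p.Prime := ⟨hp⟩
  haveI := hsolv
  constructor
  · rintro ⟨P, hn, hab, -, hi⟩ χ hd
    haveI := hn
    haveI : IsMulCommutative P := ⟨⟨fun a b => Subtype.ext (hab a a.2 b b.2)⟩⟩
    exact hi (hd.trans (Clifford.ito_dvd χ.2 P))
  · intro h
    obtain ⟨Q, hQn, hQab, hQp, hQi⟩ := ItoConverse.normal_abelian_sylow p G PCore.isPSolvable_of_isSolvable h
    exact ⟨Q, hQn, fun x hx y hy => congrArg Subtype.val (hQab.is_comm.comm ⟨x, hx⟩ ⟨y, hy⟩), hQp, hQi⟩

end Cfsg.Agent.S4493
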