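import Cfsg.Statements.S4494
import Cfsg.Agent.Blocks.DefectGroup

set_option autoImplicit false
open Cfsg

namespace Cfsg.Agent.S4494

/-- The Brauer–Feit bound. Let B be a p-block of the finite group G (relative to a maximal ideal M of the algebraic integers containing p) and let d be its defect. Then the number k(B) of irreducible characters in B satisfies k(B) ≤ p^(2d)/4 + 1, stated here as 4·k(B) ≤ p^(2d) + 4. -/
theorem result {G : Type*} [Group G] [Finite G] (p : ℕ) [Fact p.Prime] (M : Ideal Cfsg.AlgInt) (hM : Cfsg.IsPModular p M) (B : Set (Cfsg.IrrCharacter G)) (hB : Cfsg.IsPBlock M B) : 4 * Nat.card B ≤ p ^ (2 * Cfsg.blockDefect p B) + 4 := by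
  classical
  haveI := Fintype.ofFinite G
  haveI : Fintype (Cfsg.IrrCharacter G) := @Fintype.ofFinite _ CfsgLib.CharBasics.finite_irrCharacter
  refine le_trans ?_ (CfsgLib.Blocks.brauer_feit hM hB)
  rw [← Finset.sum_filter, Nat.card_eq_fintype_card, Fintype.card_subtype]
  refine Nat.mul_le_mul_left 4 ?_
  rw [Finset.card_eq_sum_ones]
  exact Finset.sum_le_sum fun ρ _ => Nat.one_le_pow _ _ (Nat.Prime.pos Fact.out)

end Cfsg.Agent.S4494
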