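import Cfsg.Statements.S4495
import Cfsg.Agent.SelfCentP.Basic

set_option autoImplicit false
open Cfsg

namespace Cfsg.Agent.S4495

/-- Let the finite group G contain an element x of prime order p with C_G(x) = ⟨x⟩, and let t be the number of conjugacy classes of elements of order p. If t ≠ p − 1 then the commutator subgroup has index at most (p − 1)/t; if t = p − 1 it has index exactly p. -/
theorem result {G : Type*} [Group G] [Finite G] (p : ℕ) (hp : p.Prime) (x : G) (hx : orderOf x = p) (hC : Subgroup.centralizer ({x} : Set G) = Subgroup.zpowers x) (t : ℕ) (ht : Nat.card {C : ConjClasses G // ∃ g ∈ C.carrier, orderOf g = p} = t) : (t ≠ p - 1 → (commutator G).index * t ≤ p - 1) ∧ (t = p - 1 → (commutator G).index = p) := by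
  have X : CfsgLib.SelfCentP.Setting p x := ⟨hp, hx, hC⟩
  have hcl := X.classes_mul
  rw [ht] at hcl
  set d := (Subgroup.zpowers x).relIndex (Subgroup.normalizer (Subgroup.zpowers x : Set G)) with hd
  have hp1 : 0 < p - 1 := Nat.sub_pos_of_lt hp.one_lt
  refine ⟨fun hne => ?_, fun he => ?_⟩
  · have hd1 : d ≠ 1 := fun h => hne (by rw [h, mul_one] at hcl; exact hcl)
    have hxc := X.mem_commutator_of_relIndex_ne_one hd1
    have hsup := X.sup_normalizer (commutator G) (X.dvd_card_of_mem hxc)
    have hle : (commutator G).index ∣ d := by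
      rw [← Subgroup.relIndex_top_right, ← hsup, Subgroup.relIndex_sup_left]
      exact Subgroup.relIndex_dvd_of_le_left _ (Subgroup.zpowers_le.2 hxc)
    have hdpos : 0 < d := Nat.pos_of_ne_zero fun h => by rw [h, mul_zero] at hcl; omega
    calc (commutator G).index * t ≤ d * t := Nat.mul_le_mul_right _ (Nat.le_of_dvd hdpos hle)
      _ = p - 1 := by rw [mul_comm]; exact hcl
  · refine (X.commutator_of_relIndex_one ?_).2.1
    rw [← he] at hp1
    exact Nat.eq_of_mul_eq_mul_left hp1 (by rw [hcl, he, mul_one])

end Cfsg.Agent.S4495
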