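import Cfsg.Statements.S4496
import Cfsg.Agent.SelfCentP.Basic

set_option autoImplicit false
open Cfsg

namespace Cfsg.Agent.S4496

/-- Let the finite group G contain an element x of prime order p with C_G(x) = ⟨x⟩. Then: (a) every normal subgroup of order divisible by p contains the commutator subgroup; (b) every normal subgroup S of order prime to p has order dividing the number of subgroups of order p of G and congruent to 1 modulo p, and in G/S the image of x again has prime order p and commutes only with its own powers. -/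
theorem result {G : Type*} [Group G] [Finite G] (p : ℕ) (hp : p.Prime) (x : G) (hx : orderOf x = p) (hC : Subgroup.centralizer ({x} : Set G) = Subgroup.zpowers x) (S : Subgroup G) [S.Normal] : (p ∣ Nat.card S → commutator G ≤ S) ∧ (¬ p ∣ Nat.card S → Nat.card S ∣ Nat.card {H : Subgroup G // Nat.card H = p} ∧ Nat.card S % p = 1 ∧ orderOf (QuotientGroup.mk x : G ⧸ S) = p ∧ Subgroup.centralizer ({(QuotientGroup.mk x : G ⧸ S)} : Set (G ⧸ S)) = Subgroup.zpowers (QuotientGroup.mk x : G ⧸ S)) := by
  have X : CfsgLib.SelfCentP.Setting p x := ⟨hp, hx, hC⟩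
  refine ⟨fun h => X.commutator_le S h, fun h => ?_⟩
  have hinf := X.inf_normalizer S h
  refine ⟨?_, ?_, ?_⟩
  · rw [X.card_subgroups_eq]
    have hd : Nat.card S * Nat.card (Subgroup.normalizer (Subgroup.zpowers x : Set G)) ∣ Nat.card G := by
      have hsub := Subgroup.card_subgroup_dvd_card (S ⊔ Subgroup.normalizer (Subgroup.zpowers x : Set G))
      refine dvd_trans (dvd_of_eq ?_) hsub
      have h3 := Subgroup.card_mul_index (S.subgroupOf (S ⊔ Subgroup.normalizer (Subgroup.zpowers x : Set G)))
      rw [Nat.card_congr (Subgroup.subgroupOfEquivOfLe le_sup_left).toEquiv] at h3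
      rw [← h3]
      congr 1
      show _ = S.relIndex _
      rw [Subgroup.relIndex_sup_left, Subgroup.relIndex, (Subgroup.subgroupOf_eq_bot).2 (disjoint_iff.2 hinf), Subgroup.index_bot]
    rw [← Subgroup.card_mul_index (Subgroup.normalizer (Subgroup.zpowers x : Set G)), mul_comm] at hd
    exact (Nat.mul_dvd_mul_iff_left Nat.card_pos).1 hd
  · haveI := Fact.mk hp
    let φ : Subgroup.zpowers x →* MulAut S := (MulAut.conjNormal).comp (Subgroup.subtype _)
    letI : MulAction (Subgroup.zpowers x) S := MulAction.compHom _ φ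
    have hP : IsPGroup p (Subgroup.zpowers x) := IsPGroup.of_card (n := 1) (by rw [X.card_zpowers, pow_one])
    have hm := hP.card_modEq_card_fixedPoints S
    have hone : Nat.card (MulAction.fixedPoints (Subgroup.zpowers x) S) = 1 := by
      refine Nat.card_eq_one_iff_unique.2 ⟨⟨fun a b => ?_⟩, ⟨⟨1, fun g => map_one (φ g)⟩⟩⟩
      have key : ∀ c : MulAction.fixedPoints (Subgroup.zpowers x) S, c.1 = 1 := by
        intro c
        have hc : x * (c.1 : G) * x⁻¹ = c.1 := by
          have := congrArg Subtype.val (c.2 ⟨x, Subgroup.mem_zpowers x⟩)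
          simpa [φ, MulAction.compHom_smul_def, MulAut.conjNormal_apply] using this
        have hmem : (c.1 : G) ∈ S ⊓ Subgroup.normalizer (Subgroup.zpowers x : Set G) :=
          ⟨c.1.2, Subgroup.le_normalizer (X.mem_zpowers_of_commute (mul_inv_eq_iff_eq_mul.1 hc).symm)⟩
        rw [hinf] at hmem
        exact Subtype.ext hmem
      exact Subtype.ext ((key a).trans (key b).symm)
    rw [hone] at hm
    exact Eq.trans hm (Nat.mod_eq_of_lt hp.one_lt)
  · have hxS : x ∉ S := fun h' => h (X.dvd_card_of_mem h')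
    have hord : orderOf (QuotientGroup.mk x : G ⧸ S) = p := by
      have h1 : orderOf (QuotientGroup.mk x : G ⧸ S) ∣ p := hx ▸ orderOf_map_dvd (QuotientGroup.mk' S) x
      rcases (Nat.dvd_prime hp).1 h1 with h' | h'
      · exact absurd ((QuotientGroup.eq_one_iff x).1 (orderOf_eq_one_iff.1 h')) hxS
      · exact h'
    refine ⟨hord, le_antisymm (fun q hq => ?_) (Subgroup.zpowers_le.2 (Subgroup.mem_centralizer_singleton_iff.2 rfl))⟩
    obtain ⟨g, rfl⟩ := QuotientGroup.mk_surjective q
    rw [Subgroup.mem_centralizer_singleton_iff] at hq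
    have hs : g * x * g⁻¹ * x⁻¹ ∈ S := by
      rw [← QuotientGroup.eq_one_iff, QuotientGroup.mk_mul, QuotientGroup.mk_mul, QuotientGroup.mk_mul,
        QuotientGroup.mk_inv, QuotientGroup.mk_inv]
      rw [mul_inv_eq_one, mul_inv_eq_iff_eq_mul]
      exact hq
    obtain ⟨u, hu, hue⟩ := X.exists_commutator_eq S h hs
    have hue' : u * x * u⁻¹ = g * x * g⁻¹ := mul_right_cancel hue
    obtain ⟨i, hi⟩ := Subgroup.mem_zpowers_iff.1 (X.mem_zpowers_of_commute (g := u⁻¹ * g) (by
      calc u⁻¹ * g * x = u⁻¹ * (g * x * g⁻¹) * g := by group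
        _ = x * (u⁻¹ * g) := by rw [← hue']; group))
    refine Subgroup.mem_zpowers_iff.2 ⟨i, ?_⟩
    rw [← QuotientGroup.mk_zpow, hi, QuotientGroup.mk_mul, QuotientGroup.mk_inv,
      (QuotientGroup.eq_one_iff u).2 hu, inv_one, one_mul]

end Cfsg.Agent.S4496
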