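import Cfsg.Statements.S4497
import Cfsg.Agent.SelfCentP.Basic

set_option autoImplicit false
open Cfsg

namespace Cfsg.Agent.S4497

open CfsgLib.SelfCentP in
theorem normal_eq_top_or_le {G : Type*} [Group G] [Finite G] {p : ℕ} {x : G} (X : Setting p x)
    (hxc : x ∈ commutator G) (M : Subgroup (commutator G)) [hM : M.Normal] :
    M.map (commutator G).subtype ≤ Cfsg.pPrimeCore p G ∨ M = ⊤ := by
  by_cases hp : p ∣ Nat.card M
  · right
    haveI := Fact.mk X.prime
    have hidx : ¬ p ∣ M.index := fun h => X.not_sq_dvd (by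
      refine dvd_trans ?_ (Subgroup.card_subgroup_dvd_card (commutator G))
      rw [← M.card_mul_index, pow_two]
      exact mul_dvd_mul hp h)
    let R : Subgroup G := Subgroup.closure {y | orderOf y = p}
    haveI : R.Normal := ⟨fun y hy g => by
      refine Subgroup.closure_induction (p := fun z _ => g * z * g⁻¹ ∈ R) ?_ ?_ ?_ ?_ hy
      · intro z hz
        exact Subgroup.subset_closure ((MulAut.conj g).orderOf_eq z |>.trans hz)
      · simp [R.one_mem]
      · intro a b _ _ ha hb
        have := R.mul_mem ha hb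
        simpa [mul_assoc] using this
      · intro a _ ha
        have := R.inv_mem ha
        simpa [mul_assoc] using this⟩
    have hxR : x ∈ R := Subgroup.subset_closure X.ord
    have hle := X.commutator_le R (X.dvd_card_of_mem hxR)
    have hRM : R ≤ M.map (commutator G).subtype := by
      rw [Subgroup.closure_le]
      intro y hy
      have hy' : y ∈ commutator G := X.mem_of_orderOf _ (X.dvd_card_of_mem hxc) hy
      refine ⟨⟨y, hy'⟩, ?_, rfl⟩
      show (⟨y, hy'⟩ : commutator G) ∈ M
      rw [← QuotientGroup.eq_one_iff, ← orderOf_eq_one_iff]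
      have h1 : orderOf ((⟨y, hy'⟩ : commutator G) : commutator G ⧸ M) ∣ p := by
        have h0 : orderOf (⟨y, hy'⟩ : commutator G) = p := by
          rw [Subgroup.orderOf_mk]; exact hy
        exact h0 ▸ orderOf_map_dvd (QuotientGroup.mk' M) _
      rcases (Nat.dvd_prime X.prime).1 h1 with h' | h'
      · exact h'
      · exfalso
        apply hidx
        rw [Subgroup.index_eq_card, ← h']
        exact orderOf_dvd_natCard _
    rw [eq_top_iff]
    intro y _
    obtain ⟨z, hz, hze⟩ := hRM (hle y.2)
    exact Subtype.ext hze ▸ hz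
  · left
    refine le_trans Subgroup.le_normalClosure (le_pPrimeCore Subgroup.normalClosure_normal ?_ X.prime)
    exact not_dvd_normalClosure M hp X.prime
where
  not_dvd_normalClosure {G : Type _} [Group G] [Finite G] {p : ℕ} (M : Subgroup (commutator G)) [M.Normal]
      (hp : ¬ p ∣ Nat.card M) (hpr : p.Prime) :
      ¬ p ∣ Nat.card (Subgroup.normalClosure ((M.map (commutator G).subtype : Subgroup G) : Set G)) := by
    classical
    -- all conjugates are normal `p'`-subgroups of the commutator subgroup
    haveI hOn : (Cfsg.pPrimeCore p (commutator G)).Normal := Subgroup.sSup_normal _ (fun _ h => h.1)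
    have hO : (Cfsg.pPrimeCore p (commutator G)).Characteristic := by
      refine Subgroup.characteristic_iff_map_le.2 fun φ => ?_
      rw [Subgroup.map_le_iff_le_comap]
      refine sSup_le fun N hN => ?_
      rw [← Subgroup.map_le_iff_le_comap]
      exact le_sSup ⟨hN.1.map _ φ.surjective, by
        rw [Nat.card_congr (N.equivMapOfInjective φ.toMonoidHom φ.injective).toEquiv.symm]; exact hN.2⟩
    have hle : Subgroup.normalClosure ((M.map (commutator G).subtype : Subgroup G) : Set G)
        ≤ (Cfsg.pPrimeCore p (commutator G)).map (commutator G).subtype :=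
      Subgroup.normalClosure_le_normal (Subgroup.map_mono (le_pPrimeCore inferInstance hp hpr))
    intro h
    have h2 := h.trans (Subgroup.card_dvd_of_le hle)
    rw [Subgroup.card_map_of_injective (commutator G).subtype_injective] at h2
    exact (Nat.Prime.coprime_iff_not_dvd hpr).1 (coprime_pPrimeCore p (commutator G)).symm h2

open CfsgLib.SelfCentP in
theorem simple_quotient {G : Type*} [Group G] [Finite G] {p : ℕ} {x : G} (X : Setting p x)
    (hxc : x ∈ commutator G) (hOle : Cfsg.pPrimeCore p G ≤ commutator G)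
    [h : ((Cfsg.pPrimeCore p G).subgroupOf (commutator G)).Normal] :
    IsSimpleGroup (↥(commutator G) ⧸ (Cfsg.pPrimeCore p G).subgroupOf (commutator G)) := by
  have hx : (⟨x, hxc⟩ : commutator G) ∉ (Cfsg.pPrimeCore p G).subgroupOf (commutator G) := fun hm =>
    (Nat.Prime.coprime_iff_not_dvd X.prime).1 (coprime_pPrimeCore p G).symm
      (X.dvd_card_of_mem (Subgroup.mem_subgroupOf.1 hm))
  haveI : Nontrivial (↥(commutator G) ⧸ (Cfsg.pPrimeCore p G).subgroupOf (commutator G)) :=
    ⟨⟨QuotientGroup.mk ⟨x, hxc⟩, 1, fun e => hx ((QuotientGroup.eq_one_iff _).1 e)⟩⟩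
  refine ⟨fun Q hQ => ?_⟩
  haveI := hQ
  rcases normal_eq_top_or_le X hxc (Q.comap (QuotientGroup.mk' _)) with h1 | h1
  · left
    rw [eq_bot_iff]
    intro q hq
    obtain ⟨g, rfl⟩ := QuotientGroup.mk_surjective q
    rw [Subgroup.mem_bot, QuotientGroup.eq_one_iff, Subgroup.mem_subgroupOf]
    exact h1 ⟨g, hq, rfl⟩
  · right
    rw [eq_top_iff]
    intro q _
    obtain ⟨g, rfl⟩ := QuotientGroup.mk_surjective q
    have : g ∈ Q.comap (QuotientGroup.mk' _) := h1 ▸ Subgroup.mem_top g
    exact this

/-- Let the finite group G contain an element x of prime order p with C_G(x) = ⟨x⟩, let t be the number of conjugacy classes of elements of order p, and let S* = O_{p′}(G) be the largest normal subgroup of order prime to p. Then S* ≤ G′; if t ≠ p − 1 the quotient G′/S* is simple (in particular non-trivial); if t = p − 1 then G′ = S*. -/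
theorem result {G : Type*} [Group G] [Finite G] (p : ℕ) (hp : p.Prime) (x : G) (hx : orderOf x = p) (hC : Subgroup.centralizer ({x} : Set G) = Subgroup.zpowers x) (t : ℕ) (ht : Nat.card {C : ConjClasses G // ∃ g ∈ C.carrier, orderOf g = p} = t) : Cfsg.pPrimeCore p G ≤ commutator G ∧ (t ≠ p - 1 → ∀ h : ((Cfsg.pPrimeCore p G).subgroupOf (commutator G)).Normal, IsSimpleGroup (↥(commutator G) ⧸ (Cfsg.pPrimeCore p G).subgroupOf (commutator G))) ∧ (t = p - 1 → commutator G = Cfsg.pPrimeCore p G) := by
  have X : CfsgLib.SelfCentP.Setting p x := ⟨hp, hx, hC⟩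
  have hcl := X.classes_mul
  rw [ht] at hcl
  set d := (Subgroup.zpowers x).relIndex (Subgroup.normalizer (Subgroup.zpowers x : Set G)) with hd
  have hp1 : 0 < p - 1 := Nat.sub_pos_of_lt hp.one_lt
  haveI hOn : (Cfsg.pPrimeCore p G).Normal := Subgroup.sSup_normal _ (fun _ h => h.1)
  have hO : ¬ p ∣ Nat.card (Cfsg.pPrimeCore p G) :=
    (Nat.Prime.coprime_iff_not_dvd hp).1 (CfsgLib.SelfCentP.coprime_pPrimeCore p G).symm
  have hOle : Cfsg.pPrimeCore p G ≤ commutator G := X.le_commutator _ hO
  refine ⟨hOle, fun hne h => ?_, fun he => ?_⟩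
  · have hd1 : d ≠ 1 := fun h => hne (by rw [h, mul_one] at hcl; exact hcl)
    exact simple_quotient X (X.mem_commutator_of_relIndex_ne_one hd1) hOle
  · rw [← he] at hp1
    have := X.commutator_of_relIndex_one (Nat.eq_of_mul_eq_mul_left hp1 (by rw [hcl, he, mul_one]))
    exact le_antisymm (CfsgLib.SelfCentP.le_pPrimeCore inferInstance this.1 hp) hOle

end Cfsg.Agent.S4497
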