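import Cfsg.Statements.S4498
import Cfsg.Agent.Blocks.Idempotent

set_option autoImplicit false
open Cfsg

namespace Cfsg.Agent.S4498

open CfsgLib.CharBasics CfsgLib.Blocks

/-- The indicator of the elements of order divisible by `p`. -/
noncomputable def sing (p : ℕ) (G : Type*) [Group G] : G → ℂ := fun g => if p ∣ orderOf g then 1 else 0

theorem sing_inner_eq_zero {G : Type*} [Group G] [Fintype G] {p : ℕ} {M : Ideal Cfsg.AlgInt}
    (hM : Cfsg.IsPModular p M) (ψ : Cfsg.IrrCharacter G) (hψ : ψ ∉ Cfsg.principalBlock M G) :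
    Cfsg.classInner (sing p G) (ψ : G → ℂ) = 0 := by
  classical
  haveI : Fintype (Cfsg.IrrCharacter G) := @Fintype.ofFinite _ finite_irrCharacter
  set B := Cfsg.principalBlock M G with hB
  have hone : Cfsg.blockPart B (fun _ : G => (1 : ℂ)) = fun _ => 1 := by
    funext g
    simp only [Cfsg.blockPart, finsum_eq_if, finsum_eq_sum_of_fintype]
    rw [Finset.sum_eq_single (oneChar : Cfsg.IrrCharacter G)]
    · have h1 : (oneChar : Cfsg.IrrCharacter G) ∈ B := oneChar_mem_principal hM
      rw [if_pos h1, show ((oneChar : Cfsg.IrrCharacter G) : G → ℂ) = fun _ => (1 : ℂ) from rfl, mul_one]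
      convert classInner_self (χ := fun _ : G => (1 : ℂ)) isIrrCharacter_one
    · intro χ _ hne
      split_ifs
      · convert zero_mul ((χ : G → ℂ) g)
        convert classInner_ne (χ := fun _ : G => (1 : ℂ)) isIrrCharacter_one χ.2
          (fun h => hne (Subtype.ext h.symm))
      · rfl
    · simp
  have hreg : (fun x : G => if p ∣ orderOf x then 0 else (1 : ℂ)) =
      ∑ χ ∈ Finset.univ.filter (· ∈ B),
        Cfsg.classInner (fun x : G => if p ∣ orderOf x then 0 else (1 : ℂ)) (χ : G → ℂ) • (χ : G → ℂ) := by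
    funext g
    have h := blockPart_cut hM (isPBlock_principal : Cfsg.IsPBlock M B) (fun _ : G => (1 : ℂ)) g
    rw [congrFun hone g] at h
    refine h.symm.trans ?_
    simp only [Cfsg.blockPart, finsum_eq_if, finsum_eq_sum_of_fintype,
      Finset.sum_apply, Pi.smul_apply, smul_eq_mul, Finset.sum_filter]
    refine Finset.sum_congr rfl fun χ _ => ?_
    split_ifs
    · congr 2
      convert rfl using 2
    · rfl
  have hs : sing p G = (fun _ : G => (1 : ℂ)) - fun x : G => if p ∣ orderOf x then 0 else (1 : ℂ) := by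
    funext g
    simp only [sing, Pi.sub_apply]
    split_ifs <;> simp
  have hB1 : (oneChar : Cfsg.IrrCharacter G) ∈ B := oneChar_mem_principal hM
  rw [hs, classInner_eq]
  simp only [Pi.sub_apply, sub_mul, Finset.sum_sub_distrib, mul_sub]
  rw [← classInner_eq, ← classInner_eq, classInner_ne isIrrCharacter_one ψ.2
    (fun h => hψ (by have : (oneChar : Cfsg.IrrCharacter G) = ψ := Subtype.ext h
                     rwa [← this])), zero_sub, neg_eq_zero, hreg, classInner_sum_left]
  refine Finset.sum_eq_zero fun χ hχ => ?_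
  rw [classInner_smul_left, classInner_ne χ.2 ψ.2 (fun h => hψ ?_), mul_zero]
  rw [← Subtype.ext h]
  exact (Finset.mem_filter.1 hχ).2

theorem sing_inner_one_ne_zero {G : Type*} [Group G] [Fintype G] {p : ℕ} [Fact p.Prime]
    (hp : p ∣ Nat.card G) : Cfsg.classInner (sing p G) (fun _ => 1) ≠ 0 := by
  classical
  rw [classInner_one]
  refine mul_ne_zero (inv_ne_zero (Nat.cast_ne_zero.mpr Nat.card_pos.ne')) ?_
  simp only [sing, Finset.sum_boole]
  obtain ⟨x, hx⟩ := exists_prime_orderOf_dvd_card' (G := G) p hp
  exact Nat.cast_ne_zero.mpr (Finset.card_pos.2 ⟨x, by simp [hx]⟩).ne'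


/-- Let p and q be distinct primes dividing the order of the finite group G, and suppose G has no element of order p·q. Fix maximal ideals M_p over p and M_q over q of the algebraic integers. Then the principal p-block and the principal q-block of G have a non-principal irreducible character in common. -/
theorem result {G : Type*} [Group G] [Finite G] (p q : ℕ) [Fact p.Prime] [Fact q.Prime] (hpq : p ≠ q) (hp : p ∣ Nat.card G) (hq : q ∣ Nat.card G) (hno : ∀ g : G, orderOf g ≠ p * q) (Mp Mq : Ideal Cfsg.AlgInt) (hMp : Cfsg.IsPModular p Mp) (hMq : Cfsg.IsPModular q Mq) : ∃ χ : Cfsg.IrrCharacter G, (χ : G → ℂ) ≠ (fun _ => 1) ∧ χ ∈ Cfsg.principalBlock Mp G ∧ χ ∈ Cfsg.principalBlock Mq G := by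
  classical
  haveI := Fintype.ofFinite G
  haveI : Fintype (Cfsg.IrrCharacter G) := @Fintype.ofFinite _ finite_irrCharacter
  by_contra hcon
  push Not at hcon
  have hcl : Cfsg.IsClassFunction G (sing p G) := fun g h => by
    have : orderOf (h * g * h⁻¹) = orderOf g :=
      orderOf_injective (MulAut.conj h).toMonoidHom (MulAut.conj h).injective g
    simp only [sing, this]
  have h0 : Cfsg.classInner (sing p G) (sing q G) = 0 := by
    rw [classInner_eq, Finset.sum_eq_zero, mul_zero]
    intro g _
    simp only [sing]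
    split_ifs with h1 h2
    · exfalso
      have hd : p * q ∣ orderOf g := ((Nat.coprime_primes Fact.out Fact.out).2 hpq).mul_dvd_of_dvd_of_dvd h1 h2
      obtain ⟨c, hc⟩ := hd
      have hc0 : c ≠ 0 := fun h => (orderOf_pos g).ne' (by rw [hc, h, mul_zero])
      refine hno (g ^ c) ?_
      rw [orderOf_pow_of_dvd hc0 (hc ▸ Dvd.intro_left _ rfl), hc, Nat.mul_div_cancel _ (Nat.pos_of_ne_zero hc0)]
    all_goals simp
  rw [classFun_expand hcl, classInner_sum_left,
    Finset.sum_eq_single (oneChar : Cfsg.IrrCharacter G)] at h0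
  · rw [classInner_smul_left] at h0
    rcases mul_eq_zero.1 h0 with h | h
    · exact sing_inner_one_ne_zero hp h
    · rw [classInner_comm] at h
      exact sing_inner_one_ne_zero hq (by simpa [oneChar] using h)
  · intro χ _ hne
    rw [classInner_smul_left]
    have hne' : (χ : G → ℂ) ≠ fun _ => 1 := fun h => hne (Subtype.ext h)
    by_cases hmem : χ ∈ Cfsg.principalBlock Mp G
    · rw [classInner_comm (sing q G) (χ : G → ℂ), sing_inner_eq_zero hMq χ (hcon χ hne' hmem), map_zero, mul_zero]
    · rw [sing_inner_eq_zero hMp χ hmem, zero_mul]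
  · simp

end Cfsg.Agent.S4498
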