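import Cfsg.Statements.S4500
import Cfsg.Agent.Blocks.Heights
import Cfsg.Agent.Blocks.Section
import Cfsg.Agent.Blocks.Glauberman
import Cfsg.Agent.CharBasics.InducedAbove
import Cfsg.Agent.CharBasics.Central
import Cfsg.Agent.S0144

set_option autoImplicit false
open Cfsg CfsgLib CfsgLib.CharBasics CfsgLib.Blocks
open scoped ComplexConjugate

namespace Cfsg.Agent.S4500

universe u

theorem linear_case {G : Type u} [Group G] [Finite G] [Nontrivial G] [Group.IsSolvable G] (q : ℕ) :
    ∃ χ : IrrCharacter G, (χ : G → ℂ) ≠ (fun _ => 1) ∧ ∃ k : ℕ, charDegree (χ : G → ℂ) = q ^ k := by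
  obtain ⟨θ, hθ, hne, h1, -⟩ := CfsgLib.InducedAbove.exists_linear (⊥ : Subgroup G) bot_ne_top
  refine ⟨⟨θ, hθ⟩, hne, 0, ?_⟩
  have h := apply_one (isCharacter_of_irr hθ)
  rw [h1] at h
  rw [pow_zero]
  exact_mod_cast h.symm

theorem one_side {G : Type u} [Group G] [Finite G] [Nontrivial G] (p q r a b c : ℕ) (hp : p.Prime) (hq : q.Prime)
    (hr : r.Prime) (ha : a ≤ 2) (ha0 : 0 < a) (hpq : p ≠ q) (hpr : p ≠ r) (hG : Nat.card G = p ^ a * q ^ b * r ^ c) :
    ∃ χ : IrrCharacter G, (χ : G → ℂ) ≠ (fun _ => 1) ∧ ∃ k : ℕ, charDegree (χ : G → ℂ) = q ^ k := by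
  classical
  haveI : Fintype G := Fintype.ofFinite G
  haveI : Fintype (IrrCharacter G) := @Fintype.ofFinite _ finite_irrCharacter
  haveI := Fact.mk hp
  obtain ⟨M, hM⟩ := exists_modular hp
  obtain ⟨R, hR⟩ := exists_modular hr
  set B := principalBlock M G with hBdef
  have hB : IsPBlock M B := isPBlock_principal (G := G)
  have h1B : (oneChar : IrrCharacter G) ∈ B := oneChar_mem_principal hM
  have hcop : ∀ t, t.Prime → p ≠ t → p.Coprime t := fun t ht h => (Nat.coprime_primes hp ht).2 h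
  have hv : (Nat.card G).factorization p = a := by
    rw [hG]
    have h2 : (q ^ b * r ^ c).factorization p = 0 := Nat.factorization_eq_zero_of_not_dvd fun h => by
      rcases hp.dvd_mul.1 h with h | h
      · exact hpq ((Nat.prime_dvd_prime_iff_eq hp hq).1 (hp.dvd_of_dvd_pow h))
      · exact hpr ((Nat.prime_dvd_prime_iff_eq hp hr).1 (hp.dvd_of_dvd_pow h))
    rw [mul_assoc, Nat.factorization_mul (pow_ne_zero _ hp.ne_zero)
      (mul_ne_zero (pow_ne_zero _ hq.ne_zero) (pow_ne_zero _ hr.ne_zero)), Finsupp.add_apply, h2,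
      Nat.factorization_pow, Finsupp.smul_apply, hp.factorization_self, smul_eq_mul, mul_one, add_zero]
  have hd : blockDefect p B ≤ 2 := le_trans (Nat.sub_le _ _) (hv ▸ ha)
  have hdeg : ∀ χ ∈ B, ¬ p ∣ charDegree (χ : G → ℂ) := by
    intro χ hχ hdvd
    obtain ⟨hlo, hhi⟩ := (height_bounds hM hB).2 χ hχ
    have h0 : blockHeight p B (χ : G → ℂ) = 0 := by
      by_cases h : blockDefect p B ≤ 1
      · exact hlo h
      · have := hhi (by omega)
        omega
    have hmin : sInf ((fun ψ : IrrCharacter G => (charDegree (ψ : G → ℂ)).factorization p) '' B) = 0 := by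
      refine Nat.sInf_eq_zero.2 (Or.inl ⟨oneChar, h1B, ?_⟩)
      have h := apply_one (isCharacter_of_irr (oneChar : IrrCharacter G).2)
      rw [oneChar_apply] at h
      have h' : charDegree ((oneChar : IrrCharacter G) : G → ℂ) = 1 := by exact_mod_cast h.symm
      simp [h']
    unfold blockHeight at h0
    rw [hmin, Nat.sub_zero] at h0
    exact (hp.factorization_pos_of_dvd (charDegree_pos χ.2).ne' hdvd).ne' h0
  obtain ⟨x, hx⟩ := exists_prime_orderOf_dvd_card' p (hG ▸ ((dvd_pow_self p ha0.ne').mul_right _).mul_right _)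
  have hsum : ∑ᶠ χ ∈ B, (χ : G → ℂ) x * conj ((χ : G → ℂ) 1) = 0 := by
    refine block_orth_of_not_isConj hM hB (x := x) (y := 1)
      ⟨1, by simp, Commute.one_right _, ⟨1, by rw [hx, pow_one]⟩, by simp [hp.ne_one]⟩
      ⟨1, by simp, Commute.one_right _, ⟨0, by simp⟩, by simp [hp.ne_one]⟩ ?_
    intro h
    obtain ⟨w, hw⟩ := isConj_iff.1 h.symm
    rw [mul_one, mul_inv_cancel] at hw
    rw [← hw, orderOf_one] at hx
    exact hp.ne_one hx.symm
  obtain ⟨χ, hχB, hne, hrd⟩ : ∃ χ ∈ B, χ ≠ oneChar ∧ ¬ r ∣ charDegree (χ : G → ℂ) := by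
    by_contra hcon
    push Not at hcon
    rw [finsum_mem_def, finsum_eq_sum_of_fintype,
      ← Finset.add_sum_erase _ _ (Finset.mem_univ (oneChar : IrrCharacter G)), Set.indicator_of_mem h1B] at hsum
    simp only [oneChar_apply, map_one, mul_one] at hsum
    refine not_memLocalIdeal_one hR ?_
    rw [eq_neg_of_add_eq_zero_left hsum]
    refine memLocalIdeal_neg (memLocalIdeal_sum hR _ fun χ hχ => ?_)
    rw [Set.indicator_apply]
    split_ifs with hmem
    · refine memLocalIdeal_mul_left hR (memLocalRing_apply hR χ x) ?_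
      rw [← apply_inv (isCharacter_of_irr χ.2), inv_one, apply_one (isCharacter_of_irr χ.2),
        memLocalIdeal_natCast_iff hR]
      exact hcon χ hmem (Finset.mem_erase.1 hχ).1
    · exact memLocalIdeal_zero hR
  refine ⟨χ, fun h => hne (Subtype.ext h), ?_⟩
  have hdvd := degree_dvd χ
  rw [hG] at hdvd
  have h1 : (charDegree (χ : G → ℂ)).Coprime (p ^ a) :=
    ((hp.coprime_iff_not_dvd.2 (hdeg χ hχB)).symm).pow_right a
  have h2 : (charDegree (χ : G → ℂ)).Coprime (r ^ c) :=
    ((hr.coprime_iff_not_dvd.2 hrd).symm).pow_right c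
  obtain ⟨k, -, hk⟩ := (Nat.dvd_prime_pow hq).1 (h1.dvd_of_dvd_mul_left (h2.dvd_of_dvd_mul_right hdvd))
  exact ⟨k, hk⟩

/-- Let G be a non-trivial finite group of order p^a · q^b · r^c with p, q, r distinct primes and a ≤ 2. Then G has a non-principal irreducible character whose degree is a power of q, and a non-principal irreducible character whose degree is a power of r; the power may be the zeroth, so a non-principal linear character serves for both. -/
theorem result {G : Type*} [Group G] [Finite G] [Nontrivial G] (p q r a b c : ℕ) (hp : p.Prime) (hq : q.Prime) (hr : r.Prime) (hpq : p ≠ q) (hpr : p ≠ r) (hqr : q ≠ r) (ha : a ≤ 2) (hG : Nat.card G = p ^ a * q ^ b * r ^ c) : (∃ χ : Cfsg.IrrCharacter G, (χ : G → ℂ) ≠ (fun _ => 1) ∧ ∃ k : ℕ, Cfsg.charDegree (χ : G → ℂ) = q ^ k) ∧ ∃ χ : Cfsg.IrrCharacter G, (χ : G → ℂ) ≠ (fun _ => 1) ∧ ∃ k : ℕ, Cfsg.charDegree (χ : G → ℂ) = r ^ k := by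
  rcases Nat.eq_zero_or_pos a with rfl | ha0
  · haveI : Group.IsSolvable G := Cfsg.Agent.S0144.result q r b c hq hr (by rw [hG]; simp)
    exact ⟨linear_case q, linear_case r⟩
  · exact ⟨one_side p q r a b c hp hq hr ha ha0 hpq hpr hG,
      one_side p r q a c b hp hr hq ha ha0 hpr hpq (by rw [hG]; ring)⟩

end Cfsg.Agent.S4500
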