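import Cfsg.Statements.S4502
import Cfsg.Agent.DefectOne.CountPrime

set_option autoImplicit false
open Cfsg CfsgLib.DefectOne CfsgLib.CharBasics

namespace Cfsg.Agent.S4502

/-- Let G be a finite group whose order is divisible by the prime p exactly once, and let P be a Sylow p-subgroup. Then the number of irreducible characters of G of degree not divisible by p equals the number of conjugacy classes of the normalizer of P. -/
theorem result {G : Type*} [Group G] [Finite G] (p : ℕ) [Fact p.Prime] (hdiv : p ∣ Nat.card G) (hsq : ¬ p ^ 2 ∣ Nat.card G) (P : Sylow p G) : Nat.card {χ : Cfsg.IrrCharacter G // ¬ p ∣ Cfsg.charDegree (χ : G → ℂ)} = Nat.card (ConjClasses (Subgroup.normalizer ((P : Subgroup G) : Set G))) := by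
  classical
  haveI : Fintype G := Fintype.ofFinite G
  have hp : p.Prime := Fact.out
  have hf : (Nat.card G).factorization p = 1 := by
    have h1 := (hp.pow_dvd_iff_le_factorization Nat.card_pos.ne' (k := 1)).1 (by rwa [pow_one])
    have h2 := (hp.pow_dvd_iff_le_factorization Nat.card_pos.ne' (k := 2)).not.1 hsq
    omega
  obtain ⟨D, hD⟩ := exists_data P (by rw [P.card_eq_multiplicity, hf, pow_one])
  obtain ⟨M, hM⟩ := CfsgLib.Blocks.exists_modular hp
  rw [D.count_eq hM, ← hD]

end Cfsg.Agent.S4502
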