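import Cfsg.Statements.S4506
import Cfsg.Agent.Blocks.RegularRank
import Cfsg.Agent.Blocks.Section
import Cfsg.Agent.Blocks.Defect
import Cfsg.Agent.Blocks.Glauberman

set_option autoImplicit false
set_option linter.style.haveILetI false
set_option linter.unusedSectionVars false
open Cfsg
open CfsgLib CfsgLib.CharBasics CfsgLib.Blocks
open scoped ComplexConjugate

namespace Cfsg.Agent.S4506

variable {G : Type*} [Group G] [Fintype G]

theorem root_eq_pow {n : ℕ} (hn : n ≠ 0) {z : ℂ} (hz : z ^ n = 1) :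
    ∃ i : ℕ, z = Complex.exp (2 * Real.pi * Complex.I / (n : ℕ)) ^ i := by
  haveI : NeZero n := ⟨hn⟩
  obtain ⟨i, -, hi⟩ := (Complex.isPrimitiveRoot_exp n hn).eq_pow_of_pow_eq_one hz
  exact ⟨i, hi.symm⟩

/-- A field automorphism fixing the roots of unity of order `m` fixes the values at elements of order dividing `m`. -/
theorem galois_fix {χ : G → ℂ} (hχ : IsCharacter G χ) (σ : ℂ ≃+* ℂ) {m : ℕ} (hm : m ≠ 0)
    (hσ : σ (Complex.exp (2 * Real.pi * Complex.I / (m : ℕ))) = Complex.exp (2 * Real.pi * Complex.I / (m : ℕ)))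
    {g : G} (hg : orderOf g ∣ m) : σ (χ g) = χ g := by
  obtain ⟨lam, hl, hv⟩ := exists_eigen hχ g
  have hv1 : χ g = ∑ i, lam i := by simpa using hv 1
  rw [hv1, map_sum]
  refine Finset.sum_congr rfl fun i _ => ?_
  obtain ⟨d, hd⟩ := hg
  obtain ⟨j, hj⟩ := root_eq_pow hm (z := lam i) (by rw [hd, pow_mul, hl, one_pow])
  rw [hj, map_pow, hσ]

/-- A field automorphism acts on the values at powers of an element as a power map. -/
theorem galois_pow {χ : G → ℂ} (hχ : IsCharacter G χ) (σ : ℂ ≃+* ℂ) (x : G) :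
    ∃ k₀ : ℕ, k₀.Coprime (orderOf x) ∧ ∀ k : ℕ, σ (χ (x ^ k)) = χ (x ^ (k * k₀)) := by
  have hn : orderOf x ≠ 0 := (orderOf_pos x).ne'
  haveI : NeZero (orderOf x) := ⟨hn⟩
  have hζ := Complex.isPrimitiveRoot_exp (orderOf x) hn
  obtain ⟨k₀, -, hk₀, he⟩ :=
    (IsPrimitiveRoot.isPrimitiveRoot_iff hζ).1 (hζ.map_of_injective σ.injective)
  refine ⟨k₀, hk₀, fun k => ?_⟩
  obtain ⟨lam, hl, hv⟩ := exists_eigen hχ x
  rw [hv, hv, map_sum]
  refine Finset.sum_congr rfl fun i _ => ?_
  obtain ⟨j, hj⟩ := root_eq_pow hn (hl i)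
  rw [hj, map_pow, map_pow, ← he]
  ring

theorem isPPart_self {p : ℕ} (hp : p.Prime) {x : G} (hx : ∃ k : ℕ, orderOf x = p ^ k) : IsPPart p x x :=
  ⟨1, mul_one x, Commute.one_right x, hx, by rw [orderOf_one]; exact hp.not_dvd_one⟩

set_option maxHeartbeats 2000000 in
/-- Let G be a finite group, p a prime, p^a the p-part of the order of G and g′ its p′-part. Call two irreducible characters p-conjugate when one is obtained from the other by applying a field automorphism of ℂ that fixes the g′-th roots of unity, and let r be the number of characters p-conjugate to the irreducible character χ (χ included). Then the exponent of p in r·χ(1) is at most a; and if p^a divides r·χ(1) then p^a already divides χ(1). -/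
theorem result {G : Type*} [Group G] [Finite G] (p : ℕ) (hp : p.Prime) (χ : Cfsg.IrrCharacter G) (r : ℕ) (hr : Nat.card {ψ : Cfsg.IrrCharacter G // ∃ σ : ℂ ≃+* ℂ, σ (Complex.exp (2 * Real.pi * Complex.I / ((Nat.card G / p ^ (Nat.card G).factorization p) : ℕ))) = Complex.exp (2 * Real.pi * Complex.I / ((Nat.card G / p ^ (Nat.card G).factorization p) : ℕ)) ∧ (ψ : G → ℂ) = fun g => σ ((χ : G → ℂ) g)} = r) : (r * Cfsg.charDegree (χ : G → ℂ)).factorization p ≤ (Nat.card G).factorization p ∧ (p ^ (Nat.card G).factorization p ∣ r * Cfsg.charDegree (χ : G → ℂ) → p ^ (Nat.card G).factorization p ∣ Cfsg.charDegree (χ : G → ℂ)) := by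
  classical
  haveI : Fintype G := Fintype.ofFinite G
  haveI := Fact.mk hp
  haveI : Fintype (IrrCharacter G) := @Fintype.ofFinite _ finite_irrCharacter
  obtain ⟨M, hM⟩ := exists_modular hp
  set a := (Nat.card G).factorization p with ha
  set m := Nat.card G / p ^ a with hm
  have hG0 : Nat.card G ≠ 0 := Nat.card_pos.ne'
  have hGeq : p ^ a * m = Nat.card G := Nat.ordProj_mul_ordCompl_eq_self _ _
  have hm0 : m ≠ 0 := fun h => hG0 (by rw [← hGeq, h, mul_zero])
  have hmp : ¬ p ∣ m := Nat.not_dvd_ordCompl hp hG0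
  set O := Finset.univ.filter fun ψ : IrrCharacter G => ∃ σ : ℂ ≃+* ℂ,
    σ (Complex.exp (2 * Real.pi * Complex.I / (m : ℕ))) = Complex.exp (2 * Real.pi * Complex.I / (m : ℕ)) ∧
      (ψ : G → ℂ) = fun g => σ ((χ : G → ℂ) g) with hO
  have hcard : O.card = r := by rw [← hr, Nat.card_eq_fintype_card, Fintype.card_subtype, hO]
  have hreg : ∀ ψ ∈ O, ∀ g : G, ¬ p ∣ orderOf g → (ψ : G → ℂ) g = (χ : G → ℂ) g := by
    intro ψ hψ g hg
    obtain ⟨σ, hσ, he⟩ := (Finset.mem_filter.1 hψ).2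
    rw [he]
    refine galois_fix (isCharacter_of_irr χ.2) σ hm0 hσ ?_
    have h1 : orderOf g ∣ p ^ a * m := hGeq ▸ orderOf_dvd_natCard g
    exact ((hp.coprime_iff_not_dvd.2 hg).symm.pow_right a).dvd_of_dvd_mul_left h1
  obtain ⟨t, ht, htpos, -, -⟩ := regSum_self_bounds hp χ
  have hOsum : ∀ ψ ∈ O, regSum p (χ : G → ℂ) (ψ : G → ℂ) = (t : ℂ) := by
    intro ψ hψ
    rw [← ht]
    refine Finset.sum_congr rfl fun g _ => ?_
    split_ifs with h
    · rfl
    · rw [hreg ψ hψ g h]
  -- the regular part expanded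
  set cut : G → ℂ := pRegularPart p (χ : G → ℂ) with hcut
  have hinner : ∀ ψ : IrrCharacter G,
      classInner cut (ψ : G → ℂ) = (Nat.card G : ℂ)⁻¹ * regSum p (χ : G → ℂ) (ψ : G → ℂ) := by
    intro ψ
    rw [classInner_eq, hcut, pRegularPart_eq, regSum]
    congr 1
    refine Finset.sum_congr rfl fun g _ => ?_
    by_cases h : p ∣ orderOf g <;> simp [h]
  have hexp := classFun_expand (isClassFunction_regularPart (p := p) χ)
  have hpars : (Nat.card G : ℝ) * t = ∑ ψ : IrrCharacter G, Complex.normSq (regSum p (χ : G → ℂ) (ψ : G → ℂ)) := by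
    have h1 : classInner cut cut = ∑ ψ : IrrCharacter G, classInner cut (ψ : G → ℂ) * conj (classInner cut (ψ : G → ℂ)) := by
      have h0 : classInner cut cut = classInner (∑ ψ : IrrCharacter G, classInner cut (ψ : G → ℂ) • (ψ : G → ℂ)) cut :=
        congrArg (fun u => classInner u cut) hexp
      rw [h0, classInner_sum_left]
      exact Finset.sum_congr rfl fun ψ _ => by rw [classInner_smul_left, classInner_comm cut (ψ : G → ℂ)]
    have h2 : classInner cut cut = (Nat.card G : ℂ)⁻¹ * (t : ℂ) := by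
      rw [← ht, classInner_eq, hcut, pRegularPart_eq, regSum]
      congr 1
      refine Finset.sum_congr rfl fun g _ => ?_
      by_cases h : p ∣ orderOf g <;> simp [h]
    have hG : (Nat.card G : ℂ) ≠ 0 := Nat.cast_ne_zero.2 hG0
    rw [h2] at h1
    simp only [hinner, map_mul, map_inv₀, Complex.conj_natCast] at h1
    apply Complex.ofReal_injective
    push_cast
    have h3 : (Nat.card G : ℂ) * t = (Nat.card G : ℂ) ^ 2 * ((Nat.card G : ℂ)⁻¹ * (t : ℂ)) := by field_simp
    rw [h3, h1, Finset.mul_sum]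
    refine Finset.sum_congr rfl fun ψ _ => ?_
    rw [← Complex.mul_conj]
    field_simp
  have hOn : ∑ ψ ∈ O, Complex.normSq (regSum p (χ : G → ℂ) (ψ : G → ℂ)) = (r : ℝ) * t ^ 2 := by
    rw [Finset.sum_congr rfl fun ψ hψ => by rw [hOsum ψ hψ, Complex.normSq_ofReal], Finset.sum_const, hcard,
      nsmul_eq_mul, sq]
  have hbound : (r : ℝ) * t ≤ Nat.card G := by
    have h1 := Finset.sum_le_sum_of_subset_of_nonneg (s := O) (t := Finset.univ)
      (f := fun ψ : IrrCharacter G => Complex.normSq (regSum p (χ : G → ℂ) (ψ : G → ℂ))) (Finset.subset_univ O) (fun _ _ _ => Complex.normSq_nonneg _)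
    rw [hOn, ← hpars, sq, ← mul_assoc] at h1
    exact le_of_mul_le_mul_right h1 htpos
  -- the degree
  obtain ⟨v, c, hc, hd⟩ := Nat.exists_eq_pow_mul_and_not_dvd (charDegree_pos χ.2).ne' p hp.ne_one
  obtain ⟨z, hz⟩ := exists_regSum_eq hp (isCharacter_of_irr χ.2) (isCharacter_of_irr χ.2)
  have hz' : t = (z : ℝ) * m := by
    have := ht.symm.trans hz
    rw [← ha, ← hm] at this
    exact_mod_cast this
  have hω : MemLocalRing M (regSum p (χ : G → ℂ) (χ : G → ℂ) / (χ : G → ℂ) 1) := by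
    rw [← omega_regElt]
    exact memLocalRing_omega hM χ (isClassElt_regElt (isCharacter_of_irr χ.2))
      (isIntegralElt_regElt hM (isCharacter_of_irr χ.2))
  have hzdvd : (p : ℤ) ^ v ∣ z := by
    refine pow_dvd_of_memLocalRing hM v z ?_
    have h1 := memLocalRing_mul hM (memLocalRing_mul hM hω (memLocalRing_natCast hM c)) (memLocalRing_natCast_inv hM hmp)
    convert h1 using 1
    rw [ht, hz', apply_one (isCharacter_of_irr χ.2), hd]
    have hc0 : (c : ℂ) ≠ 0 := Nat.cast_ne_zero.2 fun h => hc (h ▸ dvd_zero p)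
    have hm0' : (m : ℂ) ≠ 0 := Nat.cast_ne_zero.2 hm0
    have hp0 : (p : ℂ) ≠ 0 := Nat.cast_ne_zero.2 hp.ne_zero
    push_cast
    field_simp
  have hzpos : 0 < z := by
    by_contra h
    push Not at h
    have : (z : ℝ) * m ≤ 0 := mul_nonpos_of_nonpos_of_nonneg (by exact_mod_cast h) (Nat.cast_nonneg _)
    linarith
  have hzle : (p : ℤ) ^ v ≤ z := Int.le_of_dvd hzpos hzdvd
  have hrp : r * p ^ v ≤ p ^ a := by
    have h1 : (r : ℝ) * ((p : ℝ) ^ v * m) ≤ (p : ℝ) ^ a * m := by
      calc (r : ℝ) * ((p : ℝ) ^ v * m) ≤ r * ((z : ℝ) * m) := by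
            gcongr
            exact_mod_cast hzle
        _ ≤ _ := by rw [← hz']; refine hbound.trans (le_of_eq ?_); rw [← hGeq]; push_cast; rfl
    rw [← mul_assoc] at h1
    exact_mod_cast le_of_mul_le_mul_right h1 (by exact_mod_cast Nat.pos_of_ne_zero hm0)
  have hχO : χ ∈ O := Finset.mem_filter.2 ⟨Finset.mem_univ _, RingEquiv.refl ℂ, rfl, rfl⟩
  have hr0 : r ≠ 0 := hcard ▸ (Finset.card_pos.2 ⟨χ, hχO⟩).ne'
  have hc0 : c ≠ 0 := fun h => hc (h ▸ dvd_zero p)
  have hfac : (r * charDegree (χ : G → ℂ)).factorization p = r.factorization p + v := by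
    rw [Nat.factorization_mul hr0 (charDegree_pos χ.2).ne', hd, Nat.factorization_mul (pow_ne_zero _ hp.ne_zero) hc0]
    simp [hp.factorization_self, Nat.factorization_eq_zero_of_not_dvd hc]
  have hle : p ^ ((r * charDegree (χ : G → ℂ)).factorization p) ≤ r * p ^ v := by
    rw [hfac, pow_add]
    exact Nat.mul_le_mul_right _ (Nat.le_of_dvd (Nat.pos_of_ne_zero hr0) (Nat.ordProj_dvd r p))
  refine ⟨(Nat.pow_le_pow_iff_right hp.one_lt).1 (hle.trans hrp), fun hdvd => ?_⟩
  have hge : a ≤ (r * charDegree (χ : G → ℂ)).factorization p :=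
    (hp.pow_dvd_iff_le_factorization (Nat.mul_ne_zero hr0 (charDegree_pos χ.2).ne')).1 hdvd
  have heq : r * p ^ v = p ^ a := le_antisymm hrp ((Nat.pow_le_pow_right hp.pos hge).trans hle)
  have hzv : z = (p : ℤ) ^ v := by
    refine le_antisymm ?_ hzle
    have h1 : (r : ℝ) * ((z : ℝ) * m) ≤ (r : ℝ) * ((p : ℝ) ^ v * m) := by
      rw [← hz']
      refine hbound.trans (le_of_eq ?_)
      rw [← hGeq, ← heq]; push_cast; ring
    have h2 := le_of_mul_le_mul_right (le_of_mul_le_mul_left h1 (by exact_mod_cast Nat.pos_of_ne_zero hr0))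
      (by exact_mod_cast Nat.pos_of_ne_zero hm0)
    exact_mod_cast h2
  have hrt : (r : ℝ) * t = Nat.card G := by rw [hz', hzv, ← hGeq, ← heq]; push_cast; ring
  have hout : ∀ ψ : IrrCharacter G, ψ ∉ O → regSum p (χ : G → ℂ) (ψ : G → ℂ) = 0 := by
    intro ψ hψ
    have h1 : ∑ φ ∈ Finset.univ \ O, Complex.normSq (regSum p (χ : G → ℂ) (φ : G → ℂ)) = 0 := by
      rw [Finset.sum_sdiff_eq_sub (Finset.subset_univ O), hOn, ← hpars, sq, ← mul_assoc, hrt, sub_self]
    exact Complex.normSq_eq_zero.1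
      ((Finset.sum_eq_zero_iff_of_nonneg fun _ _ => Complex.normSq_nonneg _).1 h1 ψ
        (Finset.mem_sdiff.2 ⟨Finset.mem_univ _, hψ⟩))
  set B := blockOf M (χ : G → ℂ) with hBdef
  have hB : IsPBlock M B := isPBlock_blockOf M χ
  have hOB : ∀ ψ, ψ ∈ B ↔ ψ ∈ O := by
    intro ψ
    refine ⟨fun hψ => ?_, fun hψ => ?_⟩
    · by_contra hn
      have h1 : SameBlock M (χ : G → ℂ) (ψ : G → ℂ) := hψ
      have h2 := omega_sub_mem_of_sameBlock hM h1 (isClassElt_regElt (isCharacter_of_irr χ.2))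
        (isIntegralElt_regElt (p := p) hM (isCharacter_of_irr χ.2))
      rw [omega_regElt, omega_regElt, ← conj_regSum p (χ : G → ℂ) (ψ : G → ℂ), hout ψ hn, map_zero, zero_div,
        sub_zero, ht, apply_one (isCharacter_of_irr χ.2), hz', hzv, hd] at h2
      have h3 := memLocalIdeal_mul_right hM h2 (memLocalRing_natCast hM c)
      refine hmp ((memLocalIdeal_natCast_iff hM m).1 ?_)
      convert h3 using 1
      have hc0' : (c : ℂ) ≠ 0 := Nat.cast_ne_zero.2 hc0
      have hp0 : (p : ℂ) ≠ 0 := Nat.cast_ne_zero.2 hp.ne_zero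
      push_cast
      field_simp
    · by_contra hn
      haveI : Fintype B := Fintype.ofFinite B
      have h1 := hinner ψ
      rw [hOsum ψ hψ, hcut, regularPart_expand hM hB (mem_blockOf_self hM χ), classInner_sum_left,
        Finset.sum_eq_zero] at h1
      · rw [eq_comm, mul_eq_zero, inv_eq_zero, Nat.cast_eq_zero] at h1
        exact htpos.ne' (Complex.ofReal_eq_zero.1 (h1.resolve_left hG0))
      · intro b _
        rw [classInner_smul_left, classInner_ne b.1.2 ψ.2 (fun e => hn ((Subtype.ext e : b.1 = ψ) ▸ b.2)), mul_zero]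
  -- the sum of the conjugates vanishes on singular elements
  have hsing : ∀ g : G, p ∣ orderOf g → ∑ ψ ∈ O, (ψ : G → ℂ) g = 0 := by
    intro g hg
    have h1 := congrFun hexp g
    rw [pRegularPart_eq] at h1
    simp only [if_pos hg, Finset.sum_apply, Pi.smul_apply, smul_eq_mul] at h1
    have hh := hinner
    rw [hcut, pRegularPart_eq] at hh
    simp only [hh] at h1
    rw [← Finset.sum_subset (Finset.subset_univ O) (fun ψ _ hψ => by rw [hout ψ hψ, mul_zero, zero_mul]),
      Finset.sum_congr rfl fun ψ hψ => by rw [hOsum ψ hψ], ← Finset.mul_sum] at h1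
    exact (mul_eq_zero.1 h1.symm).resolve_left
      (mul_ne_zero (inv_ne_zero (Nat.cast_ne_zero.2 hG0)) (Complex.ofReal_ne_zero.2 htpos.ne'))
  -- vanishing at the nontrivial p-elements
  have hzero : ∀ x : G, x ≠ 1 → (∃ k : ℕ, orderOf x = p ^ k) → (χ : G → ℂ) x = 0 := by
    intro x hx1 hxp
    set n := orderOf x with hn
    haveI : NeZero n := ⟨(orderOf_pos x).ne'⟩
    obtain ⟨j, hj⟩ := hxp
    have hj0 : j ≠ 0 := fun h => hx1 (orderOf_eq_one_iff.1 (hj.trans (by rw [h, pow_zero])))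
    let X : (ZMod n)ˣ → G := fun u => x ^ (u : ZMod n).val
    have hcop : ∀ u : (ZMod n)ˣ, Nat.Coprime (u : ZMod n).val n := fun u => ZMod.val_coe_unit_coprime u
    have hXord : ∀ u, orderOf (X u) = n := fun u => by
      show orderOf (x ^ _) = n
      rw [Nat.Coprime.orderOf_pow (hn ▸ (hcop u).symm)]
    have hconst : ∀ ψ ∈ O, ∑ u, (ψ : G → ℂ) (X u) = ∑ u, (χ : G → ℂ) (X u) := by
      intro ψ hψ
      obtain ⟨σ, -, he⟩ := (Finset.mem_filter.1 hψ).2
      obtain ⟨k₀, hk₀, hk⟩ := galois_pow (isCharacter_of_irr χ.2) σ x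
      refine Fintype.sum_equiv (Equiv.mulRight (ZMod.unitOfCoprime k₀ hk₀)) _ _ fun u => ?_
      rw [he]
      show σ ((χ : G → ℂ) (x ^ _)) = (χ : G → ℂ) (x ^ _)
      rw [hk]
      refine congrArg _ ?_
      rw [pow_eq_pow_iff_modEq, Equiv.coe_mulRight, Units.val_mul, ZMod.val_mul, ZMod.coe_unitOfCoprime,
        ZMod.val_natCast]
      show _ ≡ _ [MOD orderOf x]
      rw [← hn, Nat.ModEq, Nat.mod_mod, Nat.mul_mod_mod]
    have hsum0 : ∑ u, (χ : G → ℂ) (X u) = 0 := by
      have h1 : ∑ ψ ∈ O, ∑ u, (ψ : G → ℂ) (X u) = 0 := by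
        rw [Finset.sum_comm]
        refine Finset.sum_eq_zero fun u _ => hsing _ ?_
        rw [hXord, hj]
        exact dvd_pow_self p hj0
      rw [Finset.sum_congr rfl hconst, Finset.sum_const, hcard, nsmul_eq_mul] at h1
      exact (mul_eq_zero.1 h1).resolve_left (Nat.cast_ne_zero.2 hr0)
    have hS : ∑ u, ∑ ψ ∈ O, (ψ : G → ℂ) (X u) * conj ((ψ : G → ℂ) x) = 0 := by
      rw [Finset.sum_comm]
      refine Finset.sum_eq_zero fun ψ hψ => ?_
      rw [← Finset.sum_mul, hconst ψ hψ, hsum0, zero_mul]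
    have hterm : ∀ u, ∑ ψ ∈ O, (ψ : G → ℂ) (X u) * conj ((ψ : G → ℂ) x) =
        if IsConj (X u) x then ((∑ ψ ∈ O, Complex.normSq ((ψ : G → ℂ) x) : ℝ) : ℂ) else 0 := by
      intro u
      split_ifs with h
      · rw [Complex.ofReal_sum]
        refine Finset.sum_congr rfl fun ψ _ => ?_
        rw [apply_isConj (isCharacter_of_irr ψ.2) h, Complex.mul_conj]
      · rw [← block_orth_of_not_isConj hM hB (isPPart_self hp ⟨j, (hXord u).trans hj⟩)
          (isPPart_self hp ⟨j, hj⟩) h, finsum_mem_def, finsum_eq_sum_of_fintype]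
        simp only [Set.indicator_apply, hOB]
        rw [← Finset.sum_filter, Finset.filter_univ_mem]
    rw [Finset.sum_congr rfl fun u _ => hterm u, ← Finset.sum_filter, Finset.sum_const, nsmul_eq_mul] at hS
    have hone : (Finset.univ.filter fun u => IsConj (X u) x).card ≠ 0 := by
      refine (Finset.card_pos.2 ⟨1, Finset.mem_filter.2 ⟨Finset.mem_univ _, ?_⟩⟩).ne'
      show IsConj (x ^ ((1 : (ZMod n)ˣ) : ZMod n).val) x
      haveI : Fact (1 < n) := ⟨hj ▸ Nat.one_lt_pow hj0 hp.one_lt⟩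
      rw [Units.val_one, ZMod.val_one, pow_one]
    have h2 := Complex.ofReal_eq_zero.1 ((mul_eq_zero.1 hS).resolve_left (Nat.cast_ne_zero.2 hone))
    exact Complex.normSq_eq_zero.1 ((Finset.sum_eq_zero_iff_of_nonneg fun _ _ => Complex.normSq_nonneg _).1 h2 χ hχO)
  let P : Sylow p G := default
  haveI : Fintype (P : Subgroup G) := Fintype.ofFinite _
  obtain ⟨k, hk⟩ := classInner_character_nat (isCharacter_restrict (isCharacter_of_irr χ.2) (P : Subgroup G))
    ⟨fun _ => 1, isIrrCharacter_one⟩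
  rw [classInner_one, inv_mul_eq_iff_eq_mul₀ (Nat.cast_ne_zero.2 Nat.card_pos.ne'),
    Finset.sum_eq_single (1 : (P : Subgroup G)), P.card_eq_multiplicity] at hk
  · refine ⟨k, ?_⟩
    simp only [OneMemClass.coe_one, apply_one (isCharacter_of_irr χ.2)] at hk
    exact_mod_cast hk
  · intro x _ hx
    obtain ⟨e, he⟩ := IsPGroup.iff_orderOf.1 P.2 x
    exact hzero x (fun h => hx (Subtype.ext h)) ⟨e, by rw [Subgroup.orderOf_coe, he]⟩
  · simp

end Cfsg.Agent.S4506
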