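import Cfsg.Statements.S4507
import Cfsg.Agent.DefectOne.Blocks
import Cfsg.Agent.DefectOne.GaloisExt

set_option autoImplicit false
open Cfsg CfsgLib.DefectOne CfsgLib.CharBasics

namespace Cfsg.Agent.S4507

/-- Let G be a finite group whose order g is divisible by the prime p exactly once, g′ = g/p, and fix a maximal ideal M of the algebraic integers containing p. Call two irreducible characters p-conjugate when a field automorphism of ℂ fixing the g′-th roots of unity carries one to the other. Let B be a p-block of positive defect (its defect group is a Sylow p-subgroup). Then B contains a subset Y (the exceptional family) such that: Y is a full p-conjugacy class (its members are pairwise p-conjugate and every p-conjugate of a member of Y lies in Y); every member of B outside Y is p-conjugate only to itself; the size t of Y divides p − 1 and B has exactly t + (p − 1)/t members; and there are signs δ_χ = ±1 (χ ∈ B) such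 that for every p-regular element x and every θ ∈ Y, Σ_{χ ∈ B ∖ Y} δ_χ χ(x) + δ_θ θ(x) = 0. -/
theorem result {G : Type*} [Group G] [Finite G] (p : ℕ) [Fact p.Prime] (M : Ideal Cfsg.AlgInt) (hM : Cfsg.IsPModular p M) (hdiv : p ∣ Nat.card G) (hsq : ¬ p ^ 2 ∣ Nat.card G) (B : Set (Cfsg.IrrCharacter G)) (hB : Cfsg.IsPBlock M B) (hd : 0 < Cfsg.blockDefect p B) : ∃ Y : Set (Cfsg.IrrCharacter G), Y ⊆ B ∧ Y.Nonempty ∧ (∀ θ ∈ Y, ∀ ψ : Cfsg.IrrCharacter G, (∃ σ : ℂ ≃+* ℂ, σ (Complex.exp (2 * Real.pi * Complex.I / ((Nat.card G / p ^ (Nat.card G).factorization p) : ℕ))) = Complex.exp (2 * Real.pi * Complex.I / ((Nat.card G / p ^ (Nat.card G).factorization p) : ℕ)) ∧ (ψ : G → ℂ) = fun g => σ ((θ : G → ℂ) g)) ↔ ψ ∈ Y) ∧ (∀ χ ∈ B, χ ∉ Y → ∀ ψ : Cfsg.IrrCharacter G, (∃ σ : ℂ ≃+* ℂ, σ (Complex.exp (2 * Real.pi * Complex.I / ((Nat.card G / p ^ (Nat.card G).factorization p) : ℕ))) = Complex.exp (2 * Real.pi * Complex.I / ((Nat.card G / p ^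 (Nat.card G).factorization p) : ℕ)) ∧ (ψ : G → ℂ) = fun g => σ ((χ : G → ℂ) g)) → ψ = χ) ∧ Nat.card Y ∣ p - 1 ∧ Nat.card B = Nat.card Y + (p - 1) / Nat.card Y ∧ ∃ δ : Cfsg.IrrCharacter G → ℤ, (∀ χ ∈ B, δ χ = 1 ∨ δ χ = -1) ∧ ∀ x : G, ¬ p ∣ orderOf x → ∀ θ ∈ Y, (∑ᶠ χ ∈ B \ Y, (δ χ : ℂ) * (χ : G → ℂ) x) + (δ θ : ℂ) * (θ : G → ℂ) x = 0 := by
  classical
  have hp : p.Prime := Fact.out
  haveI : Fintype G := Fintype.ofFinite G
  obtain ⟨P, hP⟩ := (⟨default, rfl⟩ : ∃ P : Sylow p G, P = default)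
  have hf : (Nat.card G).factorization p = 1 := by
    have h1 := (hp.pow_dvd_iff_le_factorization Nat.card_pos.ne' (k := 1)).1 (by rwa [pow_one])
    have h2 := (hp.pow_dvd_iff_le_factorization Nat.card_pos.ne' (k := 2)).not.1 hsq
    omega
  obtain ⟨D, -⟩ := exists_data P (by rw [P.card_eq_multiplicity, hf, pow_one])
  obtain ⟨φ, rfl⟩ := D.exists_blk_of_defect hM hB hd
  obtain ⟨F⟩ := D.exists_family hM φ
  rw [hf, pow_one]
  set ζ' := Complex.exp (2 * Real.pi * Complex.I / ((Nat.card G / p : ℕ) : ℕ)) with hζ'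
  have hb : Nat.card G = p * (Nat.card G / p) := (Nat.mul_div_cancel' hdiv).symm
  have hcop : p.Coprime (Nat.card G / p) := hp.coprime_iff_not_dvd.2 fun h => hsq (by
    rw [hb, sq]; exact Nat.mul_dvd_mul_left p h)
  have hb0 : Nat.card G / p ≠ 0 := fun h => by
    rw [h, mul_zero] at hb
    exact Nat.card_pos.ne' hb
  have hζprim : IsPrimitiveRoot ζ' (Nat.card G / p) := Complex.isPrimitiveRoot_exp _ hb0
  set ζ := Complex.exp (2 * Real.pi * Complex.I / (Nat.card G : ℕ)) with hζ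
  have hζp : ζ ^ p = ζ' := by
    have h0 : (p : ℂ) ≠ 0 := Nat.cast_ne_zero.2 hp.ne_zero
    rw [hζ, hζ', ← Complex.exp_nat_mul]
    congr 1
    conv_lhs => rw [hb]
    push_cast
    field_simp
  have hconjG : ∀ (χ ψ : IrrCharacter G), (∃ σ : ℂ ≃+* ℂ, σ ζ' = ζ' ∧ (ψ : G → ℂ) = fun g => σ ((χ : G → ℂ) g)) ↔
      ∃ u, ψ = D.tw u χ := by
    intro χ ψ
    constructor
    · rintro ⟨σ, hσ, hψ⟩
      obtain ⟨k, hk, hσk⟩ := exists_pow_of_ringEquiv (G := G) σ
      have hk1 : k ≡ 1 [MOD Nat.card G / p] := by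
        have h1 : ζ' ^ k = ζ' ^ 1 := by
          rw [pow_one]
          conv_rhs => rw [← hσ, ← hζp, map_pow, hσk, ← pow_mul, Nat.mul_comm, pow_mul, hζp]
        rw [pow_eq_pow_mod k hζprim.pow_eq_one, pow_eq_pow_mod 1 hζprim.pow_eq_one] at h1
        exact hζprim.pow_inj (Nat.mod_lt _ (Nat.pos_of_ne_zero hb0)) (Nat.mod_lt _ (Nat.pos_of_ne_zero hb0)) h1
      have hkp : ¬ p ∣ k := fun h => hp.not_dvd_one
        (hk ▸ Nat.dvd_gcd h hdiv)
      refine ⟨ZMod.unitOfCoprime k ((hp.coprime_iff_not_dvd.2 hkp).symm), Subtype.ext ?_⟩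
      rw [hψ]
      funext g
      rw [ringEquiv_apply_char σ hσk (isCharacter_of_irr χ.2) g]
      exact D.apply_pow_eq_tw χ (by simp) (fun g hg => by
        conv_rhs => rw [← pow_one g]
        exact pow_eq_pow_iff_modEq.2 (hk1.of_dvd
          ((hp.coprime_iff_not_dvd.2 hg).symm.dvd_of_dvd_mul_left (hb ▸ orderOf_dvd_natCard g)))) g
    · rintro ⟨u, rfl⟩
      obtain ⟨k, hk1, hk2⟩ := Nat.chineseRemainder hcop (u : ZMod p).val 1
      have hkp : k.Coprime p := by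
        show k.gcd p = 1
        rw [hk1.gcd_eq]; exact ZMod.val_coe_unit_coprime u
      have hkb : k.Coprime (Nat.card G / p) := by
        show k.gcd _ = 1
        rw [hk2.gcd_eq, Nat.gcd_one_left]
      obtain ⟨σ, hσ⟩ := exists_ringEquiv_pow (n := Nat.card G) Nat.card_pos.ne'
        (k := k) (hb ▸ hkp.mul_right hkb)
      refine ⟨σ, ?_, funext fun g => ?_⟩
      · rw [← hζp, map_pow, hσ, ← pow_mul, Nat.mul_comm, pow_mul, hζp]
        conv_rhs => rw [← pow_one ζ']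
        rw [pow_eq_pow_mod k hζprim.pow_eq_one, pow_eq_pow_mod 1 hζprim.pow_eq_one]
        exact congrArg (ζ' ^ ·) hk2
      · rw [ringEquiv_apply_char σ hσ (isCharacter_of_irr χ.2) g]
        refine (D.apply_pow_eq_tw χ ?_ (fun g hg => ?_) g).symm
        · rw [← ZMod.natCast_zmod_val (u : ZMod p)]
          exact (ZMod.natCast_eq_natCast_iff _ _ _).2 hk1
        · conv_rhs => rw [← pow_one g]
          exact pow_eq_pow_iff_modEq.2 (hk2.of_dvd
            ((hp.coprime_iff_not_dvd.2 hg).symm.dvd_of_dvd_mul_left (hb ▸ orderOf_dvd_natCard g)))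
  refine ⟨Set.range F.θ, ?_, Set.range_nonempty _, ?_, ?_, ?_, ?_, ?_⟩
  · rintro _ ⟨q, rfl⟩; exact D.theta_mem_blk F q
  · rintro _ ⟨q, rfl⟩ ψ
    rw [hconjG]
    constructor
    · rintro ⟨u, rfl⟩; exact ⟨_, (F.tw_eq u q).symm⟩
    · rintro ⟨q', rfl⟩
      obtain ⟨u, hu⟩ := D.cls_surj φ (q' * q⁻¹)
      exact ⟨u, by rw [F.tw_eq, hu, inv_mul_cancel_right]⟩
  · intro χ hχ hY ψ hψ
    obtain ⟨u, rfl⟩ := (hconjG χ ψ).1 hψ
    refine D.ext_of_d (fun g hg => D.tw_regular u χ hg) fun j ξ => ?_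
    by_cases hξ : ξ ∈ D.orb φ
    · by_cases hj : j = 0
      · rw [hj, D.d_zero, D.d_zero]
      have h1 := D.d_tw u χ (((u⁻¹ : (ZMod p)ˣ) : ZMod p) * j) ξ
      rw [← mul_assoc, ← Units.val_mul, mul_inv_cancel, Units.val_one, one_mul] at h1
      rw [h1]
      exact D.const_orb (F.const χ hY) hξ (u⁻¹ * Units.mk0 j hj) (Units.mk0 j hj)
    · have h1 := D.d_tw u χ (((u⁻¹ : (ZMod p)ˣ) : ZMod p) * j) ξ
      rw [← mul_assoc, ← Units.val_mul, mul_inv_cancel, Units.val_one, one_mul] at h1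
      rw [h1, D.d_eq_zero_of_blk hM hχ hξ, D.d_eq_zero_of_blk hM hχ hξ]
  · rw [D.card_range F]; exact D.index_dvd φ
  · rw [D.card_range F, D.card_blk hM φ, add_comm]
    congr 1
    rw [← D.card_U_mul_index φ, Nat.mul_div_cancel _ (Nat.pos_of_ne_zero Subgroup.index_ne_zero_of_finite)]
  · refine ⟨fun χ => if χ ∈ Set.range F.θ then F.ε else D.d χ 1 φ, fun χ hχ => ?_, fun x hx θ hθ => ?_⟩
    · by_cases hY : χ ∈ Set.range F.θ
      · simp only [if_pos hY]; exact F.sign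
      · simp only [if_neg hY]; exact D.rest_d hM F ⟨hχ, hY⟩
    · obtain ⟨q, rfl⟩ := hθ
      simp only [Set.mem_range_self, if_true]
      rw [add_comm,
        show (∑ᶠ χ ∈ D.blk φ \ Set.range F.θ, ((if χ ∈ Set.range F.θ then F.ε else D.d χ 1 φ : ℤ) : ℂ) * (χ : G → ℂ) x) =
          ∑ᶠ χ ∈ D.rest F, (D.d χ 1 φ : ℂ) * (χ : G → ℂ) x from
          finsum_mem_congr rfl fun χ hχ => by rw [if_neg hχ.2]]
      exact D.regular_relation F q hx

end Cfsg.Agent.S4507
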