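import Cfsg.Statements.S4509
import Cfsg.Agent.SelfCentP.Basic

set_option autoImplicit false
open scoped commutatorElement
open Cfsg

namespace Cfsg.Agent.S4509

/-- Let the finite group G contain an element x of prime order p with C_G(x) = ⟨x⟩; let t be the number of conjugacy classes of elements of order p and 1 + n·p the number of subgroups of order p. Then G has a normal subgroup of order 1 + n·p if and only if either t = p − 1, or t < p − 1 and G″ ≠ G′. Moreover, if t = p − 1 then G′ has order 1 + n·p and G/G′ is cyclic of order p; and if t < p − 1 and G″ ≠ G′ then G″ has order 1 + n·p and G′ has order p·(1 + n·p). -/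
theorem result {G : Type*} [Group G] [Finite G] (p : ℕ) (hp : p.Prime) (x : G) (hx : orderOf x = p) (hC : Subgroup.centralizer ({x} : Set G) = Subgroup.zpowers x) (t : ℕ) (ht : Nat.card {C : ConjClasses G // ∃ g ∈ C.carrier, orderOf g = p} = t) (n : ℕ) (hn : Nat.card {H : Subgroup G // Nat.card H = p} = 1 + n * p) : ((∃ S : Subgroup G, S.Normal ∧ Nat.card S = 1 + n * p) ↔ (t = p - 1 ∨ (t < p - 1 ∧ derivedSeries G 2 ≠ derivedSeries G 1))) ∧ (t = p - 1 → Nat.card (commutator G) = 1 + n * p ∧ IsCyclic (G ⧸ commutator G) ∧ (commutator G).index = p) ∧ (t < p - 1 → derivedSeries G 2 ≠ derivedSeries G 1 → Nat.card (derivedSeries G 2) = 1 + n * p ∧ Nat.card (commutator G) = p * (1 + n * p)) := by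
  have X : CfsgLib.SelfCentP.Setting p x := ⟨hp, hx, hC⟩
  have hcl := X.classes_mul
  rw [ht] at hcl
  rw [X.card_subgroups_eq] at hn
  set N := Subgroup.normalizer (Subgroup.zpowers x : Set G) with hNdef
  set d := (Subgroup.zpowers x).relIndex N with hd
  have hp1 : 0 < p - 1 := Nat.sub_pos_of_lt hp.one_lt
  have htd : t < p - 1 → d ≠ 1 := fun hlt h => by rw [h, mul_one] at hcl; omega
  have hD1 : derivedSeries G 1 = commutator G := derivedSeries_one G
  have hD2 : derivedSeries G 2 = ⁅commutator G, commutator G⁆ := by rw [derivedSeries_succ, hD1]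
  -- a normal complement of `N` of order prime to `p`
  have compl : ∀ S : Subgroup G, S.Normal → S ⊔ N = ⊤ → ¬ p ∣ Nat.card S → Nat.card S = 1 + n * p := by
    intro S hS hsup hS'
    haveI := hS
    have h1 := S.card_mul_index
    have h2 : S.index = Nat.card N := by
      rw [← Subgroup.relIndex_top_right, ← hsup, Subgroup.relIndex_sup_left, Subgroup.relIndex,
        (Subgroup.subgroupOf_eq_bot).2 (disjoint_iff.2 (X.inf_normalizer S hS')), Subgroup.index_bot]
    rw [h2, ← N.card_mul_index, mul_comm, hn] at h1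
    exact Nat.eq_of_mul_eq_mul_left Nat.card_pos h1
  -- the case of a proper second derived subgroup
  have main : t < p - 1 → derivedSeries G 2 ≠ derivedSeries G 1 →
      Nat.card (derivedSeries G 2) = 1 + n * p ∧ Nat.card (commutator G) = p * (1 + n * p) := by
    intro hlt hne
    rw [hD2, hD1] at hne
    have hxc := X.mem_commutator_of_relIndex_ne_one (htd hlt)
    haveI : (⁅commutator G, commutator G⁆ : Subgroup G).Normal := Subgroup.commutator_normal _ _
    have hD2p : ¬ p ∣ Nat.card (⁅commutator G, commutator G⁆ : Subgroup G) := fun h =>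
      hne (le_antisymm (Subgroup.commutator_le_self _) (X.commutator_le _ h))
    let D := (⁅commutator G, commutator G⁆ : Subgroup G)
    let M : Subgroup G := D ⊔ Subgroup.zpowers x
    have hMle : M ≤ commutator G := sup_le (Subgroup.commutator_le_self _) (Subgroup.zpowers_le.2 hxc)
    have hsupG := X.sup_normalizer (commutator G) (X.dvd_card_of_mem hxc)
    have hconj : ∀ g : G, ∀ m ∈ M, g * m * g⁻¹ ∈ M := by
      intro g m hm
      have hg : g ∈ commutator G ⊔ N := by rw [hsupG]; trivial
      obtain ⟨a, ha, b, hb, rfl⟩ := Subgroup.mem_sup_of_normal_left.1 hg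
      have hbm : b * m * b⁻¹ ∈ M := by
        obtain ⟨e, he, f, hf, rfl⟩ := Subgroup.mem_sup_of_normal_left.1 hm
        rw [show b * (e * f) * b⁻¹ = (b * e * b⁻¹) * (b * f * b⁻¹) by group]
        exact Subgroup.mul_mem_sup (Subgroup.Normal.conj_mem inferInstance e he b)
          ((Subgroup.mem_normalizer_iff.1 hb f).1 hf)
      have hab : a * (b * m * b⁻¹) * a⁻¹ * (b * m * b⁻¹)⁻¹ ∈ M :=
        Subgroup.mem_sup_left (by rw [← commutatorElement_def]; exact Subgroup.commutator_mem_commutator ha (hMle hbm))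
      have h2 := M.mul_mem hab hbm
      rw [inv_mul_cancel_right] at h2
      rw [show a * b * m * (a * b)⁻¹ = a * (b * m * b⁻¹) * a⁻¹ by group]
      exact h2
    haveI : M.Normal := ⟨fun m hm g => hconj g m hm⟩
    have hMeq : M = commutator G := le_antisymm hMle
      (X.commutator_le M (X.dvd_card_of_mem (Subgroup.mem_sup_right (Subgroup.mem_zpowers x))))
    have hsup : D ⊔ N = ⊤ := by
      rw [eq_top_iff, ← hsupG, ← hMeq]
      exact sup_le (sup_le le_sup_left (le_trans Subgroup.le_normalizer le_sup_right)) le_sup_right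
    have hcard := compl D inferInstance hsup hD2p
    refine ⟨by rw [hD2]; exact hcard, ?_⟩
    rw [← hMeq, ← hcard]
    have h3 := Subgroup.card_mul_index (D.subgroupOf M)
    rw [Nat.card_congr (Subgroup.subgroupOfEquivOfLe (le_sup_left : D ≤ M)).toEquiv] at h3
    rw [← h3, mul_comm p]
    congr 1
    show D.relIndex M = p
    rw [Subgroup.relIndex_sup_left, Subgroup.relIndex,
      (Subgroup.subgroupOf_eq_bot).2 (disjoint_iff.2 (le_bot_iff.1 (le_trans (inf_le_inf le_rfl Subgroup.le_normalizer)
        (X.inf_normalizer D hD2p).le))), Subgroup.index_bot, X.card_zpowers]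
  have lin : t = p - 1 → Nat.card (commutator G) = 1 + n * p ∧ IsCyclic (G ⧸ commutator G) ∧ (commutator G).index = p := by
    intro he
    rw [← he] at hp1
    obtain ⟨hc, hi, hN⟩ := X.commutator_of_relIndex_one (Nat.eq_of_mul_eq_mul_left hp1 (by rw [hcl, he, mul_one]))
    haveI := Fact.mk hp
    refine ⟨?_, isCyclic_of_prime_card (p := p) (by rw [← Subgroup.index_eq_card, hi]), hi⟩
    have h1 := (commutator G).card_mul_index
    rw [hi, ← N.card_mul_index, hNdef, hN, X.card_zpowers, ← hN, ← hNdef, hn, mul_comm] at h1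
    exact Nat.eq_of_mul_eq_mul_left hp.pos h1
  refine ⟨⟨?_, ?_⟩, lin, main⟩
  · rintro ⟨S, hS, hScard⟩
    haveI := hS
    have hdpos : 0 < d := Nat.pos_of_ne_zero fun h => by rw [h, mul_zero] at hcl; omega
    rcases eq_or_ne t (p - 1) with h | h
    · exact Or.inl h
    have hlt : t < p - 1 := by
      have : t * 1 ≤ t * d := Nat.mul_le_mul_left t hdpos
      omega
    refine Or.inr ⟨hlt, ?_⟩
    have hSp : ¬ p ∣ Nat.card S := by
      rw [hScard]
      intro h'
      exact hp.one_lt.ne' (Nat.dvd_one.1 ((Nat.dvd_add_left (Dvd.intro_left n rfl)).1 h'))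
    let M : Subgroup G := S ⊔ Subgroup.zpowers x
    have hsup : S ⊔ N = ⊤ := by
      refine Subgroup.eq_top_of_card_eq _ ?_
      have h3 := Subgroup.card_mul_index (S.subgroupOf (S ⊔ N))
      rw [Nat.card_congr (Subgroup.subgroupOfEquivOfLe le_sup_left).toEquiv] at h3
      rw [← h3, ← N.card_mul_index, hn, hScard, mul_comm (Nat.card N)]
      congr 1
      show S.relIndex (S ⊔ N) = _
      rw [Subgroup.relIndex_sup_left, Subgroup.relIndex,
        (Subgroup.subgroupOf_eq_bot).2 (disjoint_iff.2 (X.inf_normalizer S hSp)), Subgroup.index_bot]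
    haveI : M.Normal := ⟨fun m hm g => by
      have hg : g ∈ S ⊔ N := by rw [hsup]; trivial
      obtain ⟨a, ha, b, hb, rfl⟩ := Subgroup.mem_sup_of_normal_left.1 hg
      obtain ⟨e, he, f, hf, rfl⟩ := Subgroup.mem_sup_of_normal_left.1 hm
      rw [show a * b * (e * f) * (a * b)⁻¹ = a * ((b * e * b⁻¹) * (b * f * b⁻¹)) * a⁻¹ by group]
      exact M.mul_mem (M.mul_mem (Subgroup.mem_sup_left ha) (Subgroup.mul_mem_sup (hS.conj_mem e he b)
        ((Subgroup.mem_normalizer_iff.1 hb f).1 hf))) (M.inv_mem (Subgroup.mem_sup_left ha))⟩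
    have hxc := X.mem_commutator_of_relIndex_ne_one (htd hlt)
    have hMeq : M = commutator G := le_antisymm (sup_le (X.le_commutator S hSp) (Subgroup.zpowers_le.2 hxc))
      (X.commutator_le M (X.dvd_card_of_mem (Subgroup.mem_sup_right (Subgroup.mem_zpowers x))))
    rw [hD2, hD1]
    intro heq
    apply hSp
    refine X.dvd_card_of_mem ?_
    have hle : ⁅M, M⁆ ≤ S := by
      rw [Subgroup.commutator_le]
      intro u hu v hv
      obtain ⟨e, he, f, hf, rfl⟩ := Subgroup.mem_sup_of_normal_left.1 hu
      obtain ⟨e', he', f', hf', rfl⟩ := Subgroup.mem_sup_of_normal_left.1 hv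
      rw [← QuotientGroup.eq_one_iff, ← QuotientGroup.mk'_apply, map_commutatorElement, map_mul, map_mul,
        QuotientGroup.mk'_apply, QuotientGroup.mk'_apply, QuotientGroup.mk'_apply, QuotientGroup.mk'_apply,
        (QuotientGroup.eq_one_iff e).2 he, (QuotientGroup.eq_one_iff e').2 he', one_mul, one_mul,
        commutatorElement_eq_one_iff_mul_comm]
      obtain ⟨i, rfl⟩ := Subgroup.mem_zpowers_iff.1 hf
      obtain ⟨j, rfl⟩ := Subgroup.mem_zpowers_iff.1 hf'
      rw [← QuotientGroup.mk_mul, ← QuotientGroup.mk_mul, ← zpow_add, ← zpow_add, add_comm]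
    apply hle
    rw [hMeq, heq]
    exact hxc
  · rintro (h | ⟨hlt, hne⟩)
    · exact ⟨commutator G, inferInstance, (lin h).1⟩
    · exact ⟨derivedSeries G 2, derivedSeries_normal G 2, (main hlt hne).1⟩

end Cfsg.Agent.S4509
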