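import Cfsg.Statements.S4510
import Cfsg.Agent.Blocks.HeightZero
import Cfsg.Agent.Blocks.DefectGroup

set_option autoImplicit false
open Cfsg

namespace Cfsg.Agent.S4510

open CfsgLib.Blocks CfsgLib.CharBasics

variable {G : Type*} [Group G] [Fintype G] {p : ℕ} {M : Ideal Cfsg.AlgInt}

private theorem le_of_unit (hM : IsPModular p M) {χ : IrrCharacter G} {g : G}
    (h : ¬ MemLocalIdeal M (centralChar (χ : G → ℂ) g)) :
    blockDefect p (blockOf M (χ : G → ℂ)) ≤ centExp p g := by
  have hB := isPBlock_blockOf M χ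
  obtain ⟨χ₀, hχ₀, -, hs⟩ := exists_min_degExp hM hB
  rw [blockDefect_eq hs]
  refine le_centExp hM χ₀ fun h0 => h ?_
  have hs' := (IsPBlock.mem_iff hM hB (mem_blockOf_self hM χ)).1 hχ₀ g
  simpa using memLocalIdeal_add hM hs' h0

/-- Let G be a finite group, p a prime, M a maximal ideal of the algebraic integers containing p, and call the defect of a conjugacy class the exponent of p in the order of the centralizer of its elements. Two irreducible characters lying in p-blocks of defect exactly d lie in the same block if and only if their central characters (class size times χ(x)/χ(1)) agree modulo the local ideal at M at every p-regular element x whose class has defect exactly d. -/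
theorem result {G : Type*} [Group G] [Finite G] (p : ℕ) [Fact p.Prime] (M : Ideal Cfsg.AlgInt) (hM : Cfsg.IsPModular p M) (d : ℕ) (χ ψ : Cfsg.IrrCharacter G) (hχ : Cfsg.blockDefect p (Cfsg.blockOf M (χ : G → ℂ)) = d) (hψ : Cfsg.blockDefect p (Cfsg.blockOf M (ψ : G → ℂ)) = d) : Cfsg.SameBlock M (χ : G → ℂ) (ψ : G → ℂ) ↔ ∀ x : G, ¬ p ∣ orderOf x → (Nat.card (Subgroup.centralizer ({x} : Set G))).factorization p = d → Cfsg.MemLocalIdeal M (Cfsg.centralChar (χ : G → ℂ) x - Cfsg.centralChar (ψ : G → ℂ) x) := by
  classical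
  haveI := Fintype.ofFinite G
  haveI : Fintype (ConjClasses G) := Fintype.ofFinite _
  refine ⟨fun h x _ _ => h x, fun h => ?_⟩
  by_contra hne
  have hB := isPBlock_blockOf M χ
  have hχB := mem_blockOf_self hM χ
  obtain ⟨y, -, hy1, hy2⟩ := exists_defect_element hM hB hχB
  have hyd : centExp p y = d := by
    rw [← hχ]
    refine centExp_eq_blockDefect hM hB ⟨memLocalRing_blockCoeff hM hB y, hy1, fun ρ hρ hmem => hy2 ?_⟩
    have hs := (IsPBlock.mem_iff hM hB hχB).1 hρ y
    simpa using memLocalIdeal_add hM hs hmem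
  refine not_memLocalIdeal_one hM ?_
  have e : (1 : ℂ) = omega (χ : G → ℂ) (blockElt (blockOf M (χ : G → ℂ)))
      - omega (ψ : G → ℂ) (blockElt (blockOf M (χ : G → ℂ))) := by
    rw [omega_blockElt, omega_blockElt, if_pos hχB,
      if_neg (fun k => hne ((IsPBlock.mem_iff hM hB hχB).1 k)), sub_zero]
  rw [e, omega_eq_sum_classes χ (isClassElt_blockElt _), omega_eq_sum_classes ψ (isClassElt_blockElt _),
    ← Finset.sum_sub_distrib]
  refine memLocalIdeal_sum hM _ fun C _ => ?_
  rw [← mul_sub, coeff_blockElt]
  by_cases hp : p ∣ orderOf (C.out : G)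
  · rw [blockCoeff_eq_zero hM hB hp, zero_mul]; exact memLocalIdeal_zero hM
  by_cases hu : MemLocalIdeal M (blockCoeff (blockOf M (χ : G → ℂ)) C.out)
  · refine memLocalIdeal_mul_right hM hu ?_
    rw [sub_eq_add_neg]
    exact memLocalRing_add hM (memLocalRing_centralChar hM χ _) (memLocalRing_neg (memLocalRing_centralChar hM ψ _))
  refine memLocalIdeal_mul_left hM (memLocalRing_blockCoeff hM hB _) ?_
  have hle : centExp p (C.out : G) ≤ d := hyd ▸ centExp_le hM hB hχB hu hy2
  rcases hle.lt_or_eq with hlt | heq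
  · refine memLocalIdeal_sub hM ?_ ?_
    · by_contra hc
      have := le_of_unit hM hc
      omega
    · by_contra hc
      have := le_of_unit hM hc
      omega
  · exact h _ hp heq

end Cfsg.Agent.S4510
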