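import Cfsg.Statements.S4512
import Cfsg.Agent.Blocks.Rank
import Cfsg.Agent.Blocks.Major
import Cfsg.Agent.S0944
import Cfsg.Agent.S0947
-- import your own Cfsg.Agent.* helpers here

set_option autoImplicit false
set_option linter.style.haveILetI false
open Cfsg CfsgLib CfsgLib.Blocks CfsgLib.CharBasics
open scoped ComplexConjugate

namespace Cfsg.Agent.S4512

/-- If G is a finite group with a Sylow 2-subgroup that is a Klein four-group and a single conjugacy class of involutions, then its principal 2-block (relative to a maximal ideal M of the algebraic integers containing 2) has 2-regular rank 3: the restrictions of its irreducible characters to the elements of odd order span a space of dimension 3 (it has three irreducible Brauer characters). -/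
theorem result {G : Type*} [Group G] [Finite G] (M : Ideal Cfsg.AlgInt) (hM : Cfsg.IsPModular 2 M) (P : Sylow 2 G)
    (hP : Nat.card P = 4) (hexp : ∀ x : P, x * x = 1)
    (hone : ∀ s t : G, orderOf s = 2 → orderOf t = 2 → IsConj s t) :
    Cfsg.blockRank 2 (Cfsg.principalBlock M G) = 3 := by
  classical
  haveI : Fintype G := Fintype.ofFinite G
  haveI := Fact.mk hM.1
  haveI : Fintype (IrrCharacter G) := @Fintype.ofFinite _ finite_irrCharacter
  have hfG : (Nat.card G).factorization 2 = 2 := by
    have h := P.card_eq_multiplicity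
    rw [hP] at h
    exact (Nat.pow_right_injective (le_refl 2) (show 2 ^ 2 = 2 ^ (Nat.card G).factorization 2 by rw [← h])).symm
  have hsq : ∀ x ∈ (P : Subgroup G), x * x = 1 := fun x hx => by simpa using congrArg Subtype.val (hexp ⟨x, hx⟩)
  have hcomm : ∀ x ∈ (P : Subgroup G), ∀ y ∈ (P : Subgroup G), x * y = y * x := fun x hx y hy => by
    rw [← inv_eq_of_mul_eq_one_right (hsq _ (mul_mem hx hy)), mul_inv_rev,
      inv_eq_of_mul_eq_one_right (hsq x hx), inv_eq_of_mul_eq_one_right (hsq y hy)]
  obtain ⟨t', ht'⟩ : ∃ t' : P, t' ≠ 1 := by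
    have : Nontrivial P := Finite.one_lt_card_iff_nontrivial.1 (by rw [hP]; norm_num)
    exact exists_ne 1
  have htP : (t' : G) ∈ (P : Subgroup G) := t'.2
  set t : G := (t' : G) with ht
  have ht2 : orderOf t = 2 := orderOf_eq_prime (by rw [pow_two]; exact hsq t htP)
    (fun h => ht' (Subtype.ext h))
  have hx : ∃ k : ℕ, orderOf t = 2 ^ k := ⟨1, by rw [ht2]; norm_num⟩
  set CC := Subgroup.centralizer ({t} : Set G) with hCC
  haveI : Fintype CC := Fintype.ofFinite _
  haveI : Fintype (IrrCharacter CC) := @Fintype.ofFinite _ finite_irrCharacter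
  have hPC : (P : Subgroup G) ≤ CC := fun q hq => Subgroup.mem_centralizer_singleton_iff.2 (hcomm q hq t htP)
  set Q := P.subtype hPC with hQdef
  have hQmem : ∀ q : CC, q ∈ (Q : Subgroup CC) ↔ (q : G) ∈ (P : Subgroup G) := fun q =>
    Subgroup.mem_subgroupOf
  have hQcard : Nat.card (Q : Subgroup CC) = 4 := by
    rw [← hP]; exact Nat.card_congr (Subgroup.subgroupOfEquivOfLe hPC).toEquiv
  have hfC : (Nat.card CC).factorization 2 = 2 := by
    have h := Q.card_eq_multiplicity
    rw [hQcard] at h
    exact (Nat.pow_right_injective (le_refl 2) (show 2 ^ 2 = 2 ^ (Nat.card CC).factorization 2 by rw [← h])).symm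
  -- normal complement in the centralizer
  have hNC : Subgroup.normalizer ((Q : Subgroup CC) : Set CC) ≤ Subgroup.centralizer ((Q : Subgroup CC) : Set CC) := by
    intro c hc
    rw [Subgroup.mem_centralizer_iff]
    intro q hq
    by_contra hne
    have hqP : (q : G) ∈ (P : Subgroup G) := (hQmem q).1 hq
    set u : G := (q : G) with hu
    have hne' : (c : G) * u * (c : G)⁻¹ ≠ u := fun h => hne (Subtype.ext (mul_inv_eq_iff_eq_mul.1 h).symm)
    have hct : (c : G) * t * (c : G)⁻¹ = t := by
      rw [mul_inv_eq_iff_eq_mul]; exact Subgroup.mem_centralizer_singleton_iff.1 c.2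
    have hcu : (c : G) * u * (c : G)⁻¹ ∈ (P : Subgroup G) :=
      (hQmem (c * q * c⁻¹)).1 ((Subgroup.mem_normalizer_iff.1 hc q).1 hq)
    have hu1 : u ≠ 1 := fun h => hne' (by rw [h]; group)
    have hut : u ≠ t := fun h => hne' (by rw [h]; exact hct)
    have hsw : (c : G) * u * (c : G)⁻¹ = t * u := by
      by_contra h4
      have hcard : ({1, t, u, t * u, (c : G) * u * (c : G)⁻¹} : Finset G).card ≤ 4 := by
        refine (Finset.card_le_card (t := (Set.toFinite ((P : Subgroup G) : Set G)).toFinset) ?_).trans ?_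
        · intro w hw
          simp only [Finset.mem_insert, Finset.mem_singleton] at hw
          simp only [Set.Finite.mem_toFinset, SetLike.mem_coe]
          rcases hw with rfl | rfl | rfl | rfl | rfl
          exacts [one_mem _, htP, hqP, mul_mem htP hqP, hcu]
        · rw [← Nat.card_eq_card_finite_toFinset]; exact hP.le
      have h1t : (1 : G) ≠ t := fun h => ht' (Subtype.ext h.symm)
      have hc1 : (c : G) * u * (c : G)⁻¹ ≠ 1 := fun h => hu1 (by simpa using h)
      have hcT : (c : G) * u * (c : G)⁻¹ ≠ t := fun h => hut (by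
        have h5 := h.trans hct.symm
        exact mul_left_cancel (mul_right_cancel h5))
      have h1tu : (1 : G) ≠ t * u := fun h => hut (by
        have h6 := congrArg (t * ·) h
        simp only [← mul_assoc, hsq t htP, one_mul, mul_one] at h6
        exact h6.symm)
      have httu : t ≠ t * u := fun h => hu1 (mul_eq_left.1 h.symm)
      have hutu : u ≠ t * u := fun h => h1t (mul_eq_right.1 h.symm).symm
      rw [Finset.card_insert_of_notMem (by simp [h1t, Ne.symm hu1, h1tu, Ne.symm hc1]),
        Finset.card_insert_of_notMem (by simp [Ne.symm hut, httu, Ne.symm hcT]),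
        Finset.card_insert_of_notMem (by simp [hutu, Ne.symm hne']),
        Finset.card_insert_of_notMem (by simp [Ne.symm h4]), Finset.card_singleton] at hcard
      omega
    have hswap : ∀ n : ℕ, (c : G) ^ n * u * ((c : G) ^ n)⁻¹ = if Even n then u else t * u := by
      intro n
      induction n with
      | zero => simp
      | succ n ih =>
        rw [pow_succ', mul_inv_rev, show (c : G) * (c : G) ^ n * u * (((c : G) ^ n)⁻¹ * (c : G)⁻¹) =
          (c : G) * ((c : G) ^ n * u * ((c : G) ^ n)⁻¹) * (c : G)⁻¹ by group, ih]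
        by_cases hn : Even n
        · rw [if_pos hn, if_neg (by simp [Nat.even_add_one, hn]), hsw]
        · rw [if_neg hn, if_pos (by simp [Nat.even_add_one, hn]),
            show (c : G) * (t * u) * (c : G)⁻¹ = ((c : G) * t * (c : G)⁻¹) * ((c : G) * u * (c : G)⁻¹) by group,
            hct, hsw, ← mul_assoc, hsq t htP, one_mul]
    set e := (orderOf c).factorization 2 with he
    set m := orderOf c / 2 ^ e with hm
    have hodd : ¬ Even m := fun h => Nat.not_dvd_ordCompl Nat.prime_two (orderOf_pos c).ne' (even_iff_two_dvd.1 h)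
    have hp2 : IsPGroup 2 (Subgroup.zpowers (c ^ m)) := by
      refine IsPGroup.of_card (n := e) ?_
      rw [Nat.card_zpowers, orderOf_pow, Nat.gcd_eq_right (Nat.ordCompl_dvd _ _),
        Nat.div_div_self (Nat.ordProj_dvd _ _) (orderOf_pos c).ne']
    have hmem : c ^ m ∈ (Q : Subgroup CC) := by
      have h := hp2.inf_normalizer_sylow Q
      have hin : c ^ m ∈ Subgroup.zpowers (c ^ m) ⊓ Subgroup.normalizer ((Q : Subgroup CC) : Set CC) :=
        ⟨Subgroup.mem_zpowers _, Subgroup.pow_mem _ hc m⟩
      exact ((SetLike.ext_iff.1 h (c ^ m)).1 hin).2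
    have hfin := hswap m
    rw [if_neg hodd, ← Subgroup.coe_pow, hcomm _ ((hQmem _).1 hmem) u hqP, mul_inv_cancel_right] at hfin
    exact ht' (Subtype.ext (mul_eq_right.1 hfin.symm))
  set K := (MonoidHom.transferSylow Q hNC).ker with hK
  have hcompl : (Subgroup.IsComplement' K (Q : Subgroup CC)) := MonoidHom.ker_transferSylow_isComplement' Q hNC
  have hKodd : ¬ 2 ∣ Nat.card K := by
    intro h
    have h2 := hcompl.card_mul
    rw [hQcard] at h2
    have h3 : 2 ^ 3 ∣ Nat.card CC := by rw [← h2, show 2 ^ 3 = 2 * 4 by norm_num]; exact Nat.mul_dvd_mul h (dvd_refl 4)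
    have := (Nat.prime_two.pow_dvd_iff_le_factorization Nat.card_pos.ne').1 h3
    omega
  have hcore : ∃ k : ℕ, (pPrimeCore 2 CC).index = 2 ^ k := by
    have hle : K ≤ pPrimeCore 2 CC := le_sSup ⟨inferInstance, ((Nat.prime_two.coprime_iff_not_dvd).2 hKodd).symm⟩
    have hi : K.index = 4 := by rw [hcompl.symm.index_eq_card, hQcard]
    obtain ⟨k, -, hk⟩ := (Nat.dvd_prime_pow Nat.prime_two).1
      (show (pPrimeCore 2 CC).index ∣ 2 ^ 2 by rw [← show K.index = 2 ^ 2 from hi]; exact Subgroup.index_dvd_of_le hle)
    exact ⟨k, hk⟩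
  -- the column of the principal block at the section
  have hB := isPBlock_principal (M := M) (G := G)
  set F : G → ℂ := fun g => ∑ χ : IrrCharacter G,
    if χ ∈ principalBlock M G then (χ : G → ℂ) g * conj ((χ : G → ℂ) g) else 0 with hF
  have hnorm : ∀ y : CC, ¬ 2 ∣ orderOf y → F (t * y) = 4 := by
    intro y hy
    have h := (Cfsg.Agent.S0947.result 2 M hM t hx (fun h => ht' (Subtype.ext h)) y hy).2 hcore
    rw [hfC] at h
    have h2 := congrArg (fun r : ℝ => (r : ℂ)) h
    simp only [Cfsg.Agent.S0947.cast_normSq_sum, Nat.cast_pow, Nat.cast_ofNat, Complex.ofReal_pow,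
      Complex.ofReal_ofNat] at h2
    simp only [hF, h2]
    norm_num
  have hFc : IsClassFunction G F := fun a c => by
    simp only [hF]
    exact Finset.sum_congr rfl fun χ _ => by rw [isClassFunction (isCharacter_of_irr χ.2) a c]
  choose pp yy hyy using ZStar.exists_pPart hM.1 (G := G)
  have hpp : ∀ g, IsPPart 2 g (pp g) := fun g =>
    ⟨yy g, (hyy g).1, (hyy g).2.1, (hyy g).2.2.1, (hyy g).2.2.2.1⟩
  -- 2-singular elements are the section of the involution
  have hsing : ∀ g : G, IsConj t (pp g) ↔ 2 ∣ orderOf g := by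
    intro g
    obtain ⟨hg, hc, ⟨k, hk⟩, hreg, -, -⟩ := hyy g
    constructor
    · intro h
      obtain ⟨c, hc'⟩ := isConj_iff.1 h
      have h2 : orderOf (pp g) = 2 := by
        rw [← hc']; exact (orderOf_injective (MulAut.conj c).toMonoidHom (MulAut.conj c).injective t).trans ht2
      rw [← hg, hc.orderOf_mul_eq_mul_orderOf_of_coprime (by rw [h2]; exact Nat.prime_two.coprime_iff_not_dvd.2 hreg), h2]
      exact dvd_mul_right 2 _
    · intro h
      have hne : pp g ≠ 1 := fun h1 => hreg (by rwa [← hg, h1, one_mul] at h)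
      obtain ⟨S, hS⟩ := (IsPGroup.of_card (n := k) (by rw [Nat.card_zpowers, hk]) :
        IsPGroup 2 (Subgroup.zpowers (pp g))).exists_le_sylow
      obtain ⟨e, he⟩ := MulAction.exists_smul_eq G S P
      have hmem : e * pp g * e⁻¹ ∈ (P : Subgroup G) := by
        rw [← he]
        exact ⟨pp g, hS (Subgroup.mem_zpowers _), rfl⟩
      have h2 : orderOf (e * pp g * e⁻¹) = 2 := orderOf_eq_prime (by rw [pow_two]; exact hsq _ hmem)
        (fun h1 => hne (by simpa using h1))
      have h3 := (hone t (e * pp g * e⁻¹) ht2 h2)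
      exact h3.trans (isConj_iff.2 ⟨e⁻¹, by group⟩)
  have hregC : (∑ y : CC, (if 2 ∣ orderOf y then 0 else F (t * y))) * 1 = (Nat.card CC : ℂ) := by
    rw [mul_one, Finset.sum_congr rfl (g := fun y : CC => if 2 ∣ orderOf y then (0 : ℂ) else 4) fun y _ => by
      split_ifs with h <;> [rfl; exact hnorm y h], Finset.sum_ite, Finset.sum_const_zero, zero_add, Finset.sum_const,
      nsmul_eq_mul]
    obtain ⟨k, hk⟩ := hcore
    haveI := (CfsgLib.PCore.pPrimeCore_mem 2 CC).1
    have hNp := CfsgLib.PCore.not_dvd_card_pPrimeCore 2 CC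
    have hcard : Nat.card CC = Nat.card (pPrimeCore 2 CC) * 2 ^ k := by
      rw [← hk]; exact (Subgroup.card_mul_index _).symm
    have hk2 : k = 2 := by
      have h := hfC
      rwa [hcard, Nat.factorization_mul Nat.card_pos.ne' (pow_ne_zero _ two_ne_zero), Finsupp.add_apply,
        Nat.factorization_eq_zero_of_not_dvd hNp, zero_add, Nat.Prime.factorization_pow Nat.prime_two,
        Finsupp.single_eq_same] at h
    have hc : (Finset.univ.filter fun a : CC => ¬ 2 ∣ orderOf a).card = Nat.card (pPrimeCore 2 CC) := by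
      rw [Nat.card_eq_fintype_card, Fintype.card_subtype]
      refine congrArg _ (Finset.filter_congr fun a _ => ?_)
      constructor
      · intro ha
        have h1 := Subgroup.pow_index_mem (pPrimeCore 2 CC) a
        rw [hk] at h1
        obtain ⟨m, hm⟩ := exists_pow_eq_self_of_coprime
          (((Nat.prime_two.coprime_iff_not_dvd.2 ha).pow_left k) : (2 ^ k).Coprime (orderOf a))
        rw [← hm]
        exact Subgroup.pow_mem _ h1 m
      · exact fun ha h => hNp (h.trans (Subgroup.orderOf_dvd_natCard _ ha))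
    rw [hc, hcard, hk2]
    push_cast
    ring
  rw [mul_one] at hregC
  set S := Finset.univ.filter (fun χ : IrrCharacter G => χ ∈ principalBlock M G) with hS
  have hG : (Nat.card G : ℂ) ≠ 0 := Nat.cast_ne_zero.2 Nat.card_pos.ne'
  have hcount : (S.card : ℂ) = (blockRank 2 (principalBlock M G) : ℂ) + 1 := by
    have htot : ∑ g : G, F g = (Nat.card G : ℂ) * (S.card : ℂ) := by
      simp only [hF]
      rw [Finset.sum_comm, Finset.sum_congr rfl
        (g := fun χ => if χ ∈ principalBlock M G then (Nat.card G : ℂ) else 0) fun χ _ => ?_]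
      · rw [← Finset.sum_filter, Finset.sum_const, nsmul_eq_mul, mul_comm]
      · split_ifs
        · rw [sum_mul_conj, if_pos rfl]
        · simp
    have hsingsum : ∑ g : G, (if IsConj t (pp g) then F g else 0) = (Nat.card G : ℂ) := by
      apply mul_left_cancel₀ (Nat.cast_ne_zero.2 Nat.card_pos.ne' : (Nat.card CC : ℂ) ≠ 0)
      refine (sum_section hM.1 hFc hx pp hpp).trans ?_
      rw [hregC, mul_comm]
    have hregsum : ∑ g : G, (if 2 ∣ orderOf g then 0 else F g) =
        (Nat.card G : ℂ) * blockRank 2 (principalBlock M G) := by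
      rw [← sum_blockKernel_diag hM hB]
      refine Finset.sum_congr rfl fun g _ => ?_
      split_ifs
      · rfl
      · rw [blockKernel_eq, Finset.sum_filter]
    have hsp : ∑ g : G, F g = (∑ g : G, (if IsConj t (pp g) then F g else 0)) +
        ∑ g : G, (if 2 ∣ orderOf g then 0 else F g) := by
      rw [← Finset.sum_add_distrib]
      refine Finset.sum_congr rfl fun g _ => ?_
      by_cases h : 2 ∣ orderOf g
      · rw [if_pos ((hsing g).2 h), if_pos h, add_zero]
      · rw [if_neg (fun h' => h ((hsing g).1 h')), if_neg h, zero_add]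
    rw [htot, hsingsum, hregsum] at hsp
    apply mul_left_cancel₀ hG
    linear_combination hsp
  -- the values at the involution
  choose n hn hnd using fun χ : IrrCharacter G => Cfsg.Agent.S0944.result χ t ht2
  have hsum4 : ∑ χ ∈ S, n χ ^ 2 = 4 := by
    have h := hnorm 1 (by rw [orderOf_one, Nat.dvd_one]; norm_num)
    rw [Subgroup.coe_one, mul_one] at h
    simp only [hF, ← Finset.sum_filter, hn, map_intCast, ← pow_two] at h
    exact_mod_cast h
  have hne : ∀ χ ∈ S, n χ ≠ 0 := by
    intro χ hχ h0
    have hχB : χ ∈ principalBlock M G := (Finset.mem_filter.1 hχ).2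
    obtain ⟨ξ₀, h₀, hmin₀, he₀⟩ := exists_min_degExp hM (isPBlock_principal (M := M) (G := CC))
    have hzero : degExp 2 ξ₀ = 0 := by
      have := hmin₀ oneChar (oneChar_mem_principal hM)
      rw [show degExp 2 (oneChar : IrrCharacter CC) = 0 by simp [degExp, charDegree, oneChar_apply]] at this
      omega
    have h1mem := oneChar_mem_principal (G := G) hM
    obtain ⟨χ₁, hχ₁, hmin₁, he₁⟩ := exists_min_degExp hM hB
    have hone0 : degExp 2 (oneChar : IrrCharacter G) = 0 := by simp [degExp, charDegree, oneChar_apply]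
    have hχ₁0 : degExp 2 χ₁ = 0 := by have := hmin₁ _ h1mem; omega
    have hdef : blockDefect 2 (principalBlock M G) = (Nat.card CC).factorization 2 - degExp 2 ξ₀ := by
      rw [blockDefect_eq he₁, hfG, hfC, hzero, hχ₁0]
    have hind : IsInducedBlock M CC (principalBlock M CC) (principalBlock M G) := by
      have hQp := ZStar.isPGroup_zpowers hM.1 hx
      refine ZStar.isInducedBlock_of_not_small hM hQp (ZStar.mem_centralizer_zpowers t) isPBlock_principal hB
        (oneChar_mem_principal hM) fun hs => ?_
      exact not_memLocalIdeal_one hM (by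
        simpa using memLocalIdeal_sub hM hs
          ((ZStar.omega_res_principal hM hQp (ZStar.mem_centralizer_zpowers t) _).1 (oneChar_mem_principal hM)))
    have hdvd : orderOf t ∣ 2 ^ 1 := by rw [ht2]; norm_num
    refine major_not_mem hM hx hind (K := 1) hdvd h₀ hmin₀ hdef hχB h1mem
      (by rw [blockHeight_eq he₁, hone0]; omega) ?_
    rw [aeval_contribPoly hM (by norm_num) hdvd hmin₀, ← sum_shift_conj_secVal hM isPBlock_principal]
    have hv : ∀ y : CC, (if 2 ∣ orderOf y then (0 : ℂ) else shiftFun t (χ : G → ℂ) y) = 0 := by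
      intro y
      split_ifs with hy
      · rfl
      obtain ⟨k, hk⟩ := hcore
      have hmem : y ∈ pPrimeCore 2 CC := by
        haveI := (CfsgLib.PCore.pPrimeCore_mem 2 CC).1
        have h1 := Subgroup.pow_index_mem (pPrimeCore 2 CC) y
        rw [hk] at h1
        obtain ⟨m, hm⟩ := exists_pow_eq_self_of_coprime
          (((Nat.prime_two.coprime_iff_not_dvd.2 hy).pow_left k) : (2 ^ k).Coprime (orderOf y))
        rw [← hm]
        exact Subgroup.pow_mem _ h1 m
      rw [shiftFun, ZStar.principal_apply_mul_core hM hx hχB (v := (y : G)) ⟨y, hmem, rfl⟩, hn, h0, Int.cast_zero]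
    rw [Finset.sum_eq_zero fun y _ => by rw [hv, zero_mul], mul_zero, zero_div]
    exact memLocalIdeal_zero hM
  have hk : S.card = 4 := by
    have h1 : (oneChar : IrrCharacter G) ∈ S := Finset.mem_filter.2 ⟨Finset.mem_univ _, oneChar_mem_principal hM⟩
    have hn1 : n (oneChar : IrrCharacter G) = 1 := by
      have h := hn (oneChar : IrrCharacter G)
      rw [oneChar_apply] at h
      exact_mod_cast h.symm
    have hsq1 : ∀ χ ∈ S, n χ ^ 2 = 1 := by
      intro χ hχ
      by_cases h : χ = (oneChar : IrrCharacter G)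
      · rw [h, hn1, one_pow]
      have hle : n χ ^ 2 + n (oneChar : IrrCharacter G) ^ 2 ≤ 4 := by
        rw [← hsum4, ← Finset.sum_pair (f := fun φ => n φ ^ 2) h]
        exact Finset.sum_le_sum_of_subset_of_nonneg
          (by intro w hw; simp only [Finset.mem_insert, Finset.mem_singleton] at hw; rcases hw with rfl | rfl <;> assumption)
          fun _ _ _ => sq_nonneg _
      rw [hn1] at hle
      have h0 := hne χ hχ
      have hb : -1 ≤ n χ ∧ n χ ≤ 1 := ⟨by nlinarith, by nlinarith⟩
      rcases (show n χ = 1 ∨ n χ = -1 by omega) with h' | h' <;> simp [h']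
    rw [Finset.sum_congr rfl hsq1, Finset.sum_const, nsmul_eq_mul, mul_one] at hsum4
    exact_mod_cast hsum4
  have hl : ((blockRank 2 (principalBlock M G) + 1 : ℕ) : ℂ) = (4 : ℕ) := by push_cast; rw [← hcount, hk]; norm_num
  have := Nat.cast_injective hl
  omega

end Cfsg.Agent.S4512
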