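import Cfsg.Statements.S4513
import Cfsg.Agent.Blocks.DefectOne
import Cfsg.Agent.Blocks.ContribMatrix
-- import your own Cfsg.Agent.* helpers here

set_option autoImplicit false
set_option linter.style.haveILetI false
open Cfsg CfsgLib CfsgLib.Blocks CfsgLib.CharBasics Polynomial
open scoped ComplexConjugate
set_option maxHeartbeats 1000000

namespace Cfsg.Agent.S4513

/-- Blocks of defect one for p = 2. Let M be a maximal ideal of the algebraic integers containing 2, B a 2-block of the finite group G whose defect group is the subgroup generated by an involution x, C = C_G(x), b a block of C inducing B and θ a member of b taking the same value at x as at 1 (there is exactly one). Then B consists of exactly two irreducible characters, which agree on every element of odd order, and they can be labelled χ₁, χ₂ with signs ε₁, ε₂ = ±1, ε₁ε₂ = −1, such that χᵢ(x y) = εᵢ θ(y) for every element y of C of odd order. -/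
theorem result {G : Type*} [Group G] [Finite G] (M : Ideal Cfsg.AlgInt) (hM : Cfsg.IsPModular 2 M) (x : G) (hx : orderOf x = 2)
    (B : Set (Cfsg.IrrCharacter G)) (hB : Cfsg.IsPBlock M B) (hBD : Cfsg.IsDefectGroup 2 M B (Subgroup.zpowers x))
    (b : Set (Cfsg.IrrCharacter ↥(Subgroup.centralizer ({x} : Set G)))) (hb : Cfsg.IsInducedBlock M (Subgroup.centralizer ({x} : Set G)) b B)
    (θ : Cfsg.IrrCharacter ↥(Subgroup.centralizer ({x} : Set G))) (hθ : θ ∈ b)
    (hθx : ∀ z : ↥(Subgroup.centralizer ({x} : Set G)), (z : G) = x → (θ : ↥(Subgroup.centralizer ({x} : Set G)) → ℂ) z = (θ : ↥(Subgroup.centralizer ({x} : Set G)) → ℂ) 1) :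
    Nat.card B = 2 ∧ (∀ χ ∈ B, ∀ ψ ∈ B, ∀ g : G, ¬ 2 ∣ orderOf g → (χ : G → ℂ) g = (ψ : G → ℂ) g) ∧
      ∃ χ₁ ∈ B, ∃ χ₂ ∈ B, χ₁ ≠ χ₂ ∧ ∃ ε₁ ε₂ : ℤ, (ε₁ = 1 ∨ ε₁ = -1) ∧ (ε₂ = 1 ∨ ε₂ = -1) ∧ ε₁ * ε₂ = -1 ∧
        ∀ y : ↥(Subgroup.centralizer ({x} : Set G)), ¬ 2 ∣ orderOf y →
          (χ₁ : G → ℂ) (x * y) = (ε₁ : ℂ) * (θ : ↥(Subgroup.centralizer ({x} : Set G)) → ℂ) y ∧ (χ₂ : G → ℂ) (x * y) = (ε₂ : ℂ) * (θ : ↥(Subgroup.centralizer ({x} : Set G)) → ℂ) y := by
  classical
  haveI : Fintype G := Fintype.ofFinite G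
  haveI : Fintype (IrrCharacter G) := @Fintype.ofFinite _ finite_irrCharacter
  haveI : Fintype (Subgroup.centralizer ({x} : Set G)) := Fintype.ofFinite _
  haveI : Fintype (IrrCharacter (Subgroup.centralizer ({x} : Set G))) := @Fintype.ofFinite _ finite_irrCharacter
  have hxp : ∃ k : ℕ, orderOf x = 2 ^ k := ⟨1, by rw [hx]; norm_num⟩
  have hd : blockDefect 2 B = 1 := by
    have h := card_defectGroup hM hB hBD
    rw [Nat.card_zpowers, hx] at h
    exact (Nat.pow_right_injective (le_refl 2) (show 2 ^ blockDefect 2 B = 2 ^ 1 by rw [← h, pow_one])).symm ▸ rfl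
  set x' : Subgroup.centralizer ({x} : Set G) := ⟨x, Subgroup.mem_centralizer_singleton_iff.2 rfl⟩ with hx'
  have hxz : x' ∈ Subgroup.center (Subgroup.centralizer ({x} : Set G)) :=
    Subgroup.mem_center_iff.2 fun c => Subtype.ext (Subgroup.mem_centralizer_singleton_iff.1 c.2)
  have hx'2 : orderOf x' = 2 := by rw [← Subgroup.orderOf_coe]; exact hx
  have hsingular : ∀ y : Subgroup.centralizer ({x} : Set G), ¬ 2 ∣ orderOf y → 2 ∣ orderOf (x' * y) := by
    intro y hy
    rw [(show Commute x' y from (Subgroup.mem_center_iff.1 hxz y).symm).orderOf_mul_eq_mul_orderOf_of_coprime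
      (by rw [hx'2]; exact Nat.prime_two.coprime_iff_not_dvd.2 hy), hx'2]
    exact dvd_mul_right 2 _
  have hdb : blockDefect 2 b = 1 := by
    have h1 := blockDefect_le_of_induced hM hb
    rw [hd] at h1
    rcases Nat.eq_zero_or_pos (blockDefect 2 b) with h0 | h0
    · have h2 := apply_eq_zero_of_defect_zero hM hb.1 h0 hθ (g := x') (by rw [hx'2])
      rw [hθx x' rfl] at h2
      exact absurd h2 (apply_one_ne_zero θ.2)
    · omega
  obtain ⟨hkb, hlb⟩ := defect_one_two hM hb.1 hdb
  obtain ⟨hkB, hlB⟩ := defect_one_two hM hB hd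
  obtain ⟨ξ₁, ξ₂, hne12, hb12⟩ := Set.ncard_eq_two.1 (show b.ncard = 2 by rw [← Nat.card_coe_set_eq]; exact hkb)
  -- members of `b` agree on regular elements
  have hratio : ∀ ξ ∈ b, ∀ η ∈ b, ∀ y, ¬ 2 ∣ orderOf y →
      (η : Subgroup.centralizer ({x} : Set G) → ℂ) y =
        (η : Subgroup.centralizer ({x} : Set G) → ℂ) 1 / (ξ : Subgroup.centralizer ({x} : Set G) → ℂ) 1 *
          (ξ : Subgroup.centralizer ({x} : Set G) → ℂ) y := by
    intro ξ hξ η hη y hy
    rw [div_mul_eq_mul_div, eq_div_iff (apply_one_ne_zero ξ.2)]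
    exact apply_mul_of_rank_one hM.1 hlb hξ hη hy
  -- the two degrees agree
  have hdeg : ∀ ξ ∈ b, ∀ η ∈ b, ξ ≠ η →
      (charDegree (ξ : Subgroup.centralizer ({x} : Set G) → ℂ)) ≤ charDegree (η : Subgroup.centralizer ({x} : Set G) → ℂ) := by
    intro ξ hξ η hη hne
    set R : ℝ := ∑ y : Subgroup.centralizer ({x} : Set G),
      (if 2 ∣ orderOf y then 0 else ‖(ξ : Subgroup.centralizer ({x} : Set G) → ℂ) y‖ ^ 2) with hR
    have hall : 2 * R ≤ (Nat.card (Subgroup.centralizer ({x} : Set G)) : ℝ) := by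
      rw [← sum_normSq_irr ξ]
      have hsh : R = ∑ y : Subgroup.centralizer ({x} : Set G),
          (if 2 ∣ orderOf y then 0 else ‖(ξ : Subgroup.centralizer ({x} : Set G) → ℂ) (x' * y)‖ ^ 2) := by
        refine Finset.sum_congr rfl fun y _ => ?_
        have h1 := center_mul ξ.2 hxz y
        have h2 := center_mul ξ.2 hxz x'
        rw [show x' * x' = 1 from by rw [← pow_two, ← hx'2, pow_orderOf_eq_one]] at h2
        have h3 := congrArg (fun z : ℂ => ‖z‖) h1
        have h4 := congrArg (fun z : ℂ => ‖z‖) h2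
        simp only [norm_mul] at h3 h4
        have hpos : 0 < ‖(ξ : Subgroup.centralizer ({x} : Set G) → ℂ) 1‖ := norm_pos_iff.2 (apply_one_ne_zero ξ.2)
        have h5 : ‖(ξ : Subgroup.centralizer ({x} : Set G) → ℂ) x'‖ = ‖(ξ : Subgroup.centralizer ({x} : Set G) → ℂ) 1‖ := by
          nlinarith [norm_nonneg ((ξ : Subgroup.centralizer ({x} : Set G) → ℂ) x')]
        rw [h5] at h3
        split_ifs
        · rfl
        · congr 1
          exact mul_left_cancel₀ hpos.ne' (by linarith)
      have hle : ∑ y : Subgroup.centralizer ({x} : Set G),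
          (if 2 ∣ orderOf y then 0 else ‖(ξ : Subgroup.centralizer ({x} : Set G) → ℂ) (x' * y)‖ ^ 2) ≤
          ∑ y : Subgroup.centralizer ({x} : Set G),
          (if 2 ∣ orderOf y then ‖(ξ : Subgroup.centralizer ({x} : Set G) → ℂ) y‖ ^ 2 else 0) := by
        conv_rhs => rw [← Equiv.sum_comp (Equiv.mulLeft x')]
        refine Finset.sum_le_sum fun y _ => ?_
        simp only [Equiv.coe_mulLeft]
        by_cases hy : 2 ∣ orderOf y
        · rw [if_pos hy]; split_ifs <;> positivity
        · simp [hy, hsingular y hy]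
      have hsplit : ∑ y, ‖(ξ : Subgroup.centralizer ({x} : Set G) → ℂ) y‖ ^ 2 = R +
          ∑ y : Subgroup.centralizer ({x} : Set G),
          (if 2 ∣ orderOf y then ‖(ξ : Subgroup.centralizer ({x} : Set G) → ℂ) y‖ ^ 2 else 0) := by
        rw [hR, ← Finset.sum_add_distrib]
        exact Finset.sum_congr rfl fun y _ => by split_ifs <;> ring
      linarith
    have hpair : b = {ξ, η} := by
      rw [hb12] at hξ hη ⊢
      simp only [Set.mem_insert_iff, Set.mem_singleton_iff] at hξ hη
      rcases hξ with rfl | rfl <;> rcases hη with rfl | rfl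
      · exact absurd rfl hne
      · rfl
      · exact Set.pair_comm _ _
      · exact absurd rfl hne
    set r : ℝ := (charDegree (η : Subgroup.centralizer ({x} : Set G) → ℂ) : ℝ) /
      (charDegree (ξ : Subgroup.centralizer ({x} : Set G) → ℂ) : ℝ) with hr
    have htrace : R * (1 + r ^ 2) = (Nat.card (Subgroup.centralizer ({x} : Set G)) : ℝ) := by
      have h := sum_blockKernel_diag hM hb.1
      rw [hlb, Nat.cast_one, mul_one] at h
      have hterm : ∀ y : Subgroup.centralizer ({x} : Set G), (if 2 ∣ orderOf y then 0 else blockKernel b y y) =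
          (((if 2 ∣ orderOf y then 0 else ‖(ξ : Subgroup.centralizer ({x} : Set G) → ℂ) y‖ ^ 2) * (1 + r ^ 2) : ℝ) : ℂ) := by
        intro y
        split_ifs with hy
        · simp
        · rw [blockKernel_eq, show Finset.univ.filter (fun ζ => ζ ∈ b) = {ξ, η} by ext ζ; simp [hpair],
            Finset.sum_pair hne, hratio ξ hξ η hη y hy, apply_one (isCharacter_of_irr η.2),
            apply_one (isCharacter_of_irr ξ.2), map_mul, map_div₀, Complex.conj_natCast, Complex.conj_natCast]
          simp only [hr]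
          push_cast
          rw [← Complex.mul_conj']
          ring
      rw [Finset.sum_congr rfl fun y _ => hterm y, ← Complex.ofReal_sum, ← Finset.sum_mul, ← hR] at h
      exact_mod_cast h
    have hRpos : 0 < R := by
      refine Finset.sum_pos' (fun y _ => by split_ifs <;> positivity) ⟨1, Finset.mem_univ _, ?_⟩
      rw [orderOf_one, if_neg (by norm_num)]
      exact pow_pos (norm_pos_iff.2 (apply_one_ne_zero ξ.2)) 2
    have hr1 : 1 ≤ r := by
      have h2 : 1 ≤ r ^ 2 := by nlinarith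
      have hr0 : 0 ≤ r := by positivity
      nlinarith
    rw [hr, one_le_div (Nat.cast_pos.2 (charDegree_pos ξ.2))] at hr1
    exact_mod_cast hr1
  have hsame : ∀ ξ ∈ b, ∀ y, ¬ 2 ∣ orderOf y →
      (ξ : Subgroup.centralizer ({x} : Set G) → ℂ) y = (θ : Subgroup.centralizer ({x} : Set G) → ℂ) y := by
    intro ξ hξ y hy
    by_cases h : θ = ξ
    · rw [h]
    rw [hratio θ hθ ξ hξ y hy, apply_one (isCharacter_of_irr ξ.2), apply_one (isCharacter_of_irr θ.2),
      le_antisymm (hdeg θ hθ ξ hξ h) (hdeg ξ hξ θ hθ (Ne.symm h)), div_self, one_mul]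
    exact Nat.cast_ne_zero.2 (charDegree_pos ξ.2).ne'
  -- one block at the section
  set F : G → ℂ := fun g => ∑ χ : IrrCharacter G,
    if χ ∈ B then (χ : G → ℂ) g * conj ((χ : G → ℂ) g) else 0 with hF
  have hFc : IsClassFunction G F := fun a c => by
    simp only [hF]
    exact Finset.sum_congr rfl fun χ _ => by rw [isClassFunction (isCharacter_of_irr χ.2) a c]
  choose pp yy hyy using ZStar.exists_pPart hM.1 (G := G)
  have hpp : ∀ g, IsPPart 2 g (pp g) := fun g =>
    ⟨yy g, (hyy g).1, (hyy g).2.1, (hyy g).2.2.1, (hyy g).2.2.2.1⟩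
  set T := (blockFinset M (Subgroup.centralizer ({x} : Set G))).filter
    (fun b' => IsInducedBlock M (Subgroup.centralizer ({x} : Set G)) b' B) with hT
  have hbT : b ∈ T := Finset.mem_filter.2 ⟨mem_blockFinset.2 hb.1, hb⟩
  have hTone : T = {b} := by
    have hG : (0 : ℝ) < Nat.card G := Nat.cast_pos.2 Nat.card_pos
    have hreg : ∑ g : G, (if 2 ∣ orderOf g then 0 else F g) = (Nat.card G : ℂ) := by
      have h := sum_blockKernel_diag hM hB
      rw [hlB, Nat.cast_one, mul_one] at h
      rw [← h]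
      refine Finset.sum_congr rfl fun g _ => ?_
      split_ifs
      · rfl
      · rw [blockKernel_eq, Finset.sum_filter]
    have htot : ∑ g : G, F g = (Nat.card G : ℂ) * 2 := by
      simp only [hF]
      rw [Finset.sum_comm, Finset.sum_congr rfl (g := fun χ => if χ ∈ B then (Nat.card G : ℂ) else 0) fun χ _ => ?_]
      · rw [← Finset.sum_filter, Finset.sum_const, nsmul_eq_mul, mul_comm, ← Fintype.card_subtype,
          ← Nat.card_eq_fintype_card, show Nat.card {y // y ∈ B} = 2 from hkB]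
        norm_num
      · split_ifs
        · rw [sum_mul_conj, if_pos rfl]
        · simp
    have hsec : ∑ g : G, (if IsConj x (pp g) then F g else 0) =
        (Nat.card G : ℂ) * ((∑ b' ∈ T, blockRank 2 b' : ℕ) : ℂ) := by
      apply mul_left_cancel₀ (Nat.cast_ne_zero.2 Nat.card_pos.ne' :
        (Nat.card (Subgroup.centralizer ({x} : Set G)) : ℂ) ≠ 0)
      rw [sum_section hM.1 hFc hxp pp hpp, Nat.cast_sum, mul_left_comm]
      congr 1
      rw [Finset.mul_sum, Finset.sum_congr rfl (fun b' hb' => (sum_blockKernel_diag hM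
        (mem_blockFinset.1 (Finset.mem_filter.1 hb').1)).symm), Finset.sum_comm]
      refine Finset.sum_congr rfl fun y _ => ?_
      split_ifs with hy
      · simp
      · rw [← sum_sq_section hM hxp hB hy]
    have hle : (Nat.card G : ℝ) * ((∑ b' ∈ T, blockRank 2 b' : ℕ) : ℝ) ≤ (Nat.card G : ℝ) * 1 := by
      have hFr : ∀ g, F g = ((∑ χ : IrrCharacter G, if χ ∈ B then ‖(χ : G → ℂ) g‖ ^ 2 else 0 : ℝ) : ℂ) := fun g => by
        simp only [hF, Complex.ofReal_sum, apply_ite (f := Complex.ofReal), Complex.ofReal_zero, Complex.ofReal_pow,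
          ← Complex.mul_conj']
      have h3 : ∑ g : G, F g - ∑ g : G, (if 2 ∣ orderOf g then 0 else F g) = (Nat.card G : ℂ) := by
        rw [htot, hreg]; ring
      have h4 : ∀ g : G, (if IsConj x (pp g) then F g else 0).re ≤
          (F g - (if 2 ∣ orderOf g then 0 else F g)).re := by
        intro g
        by_cases h : IsConj x (pp g)
        · have h2 : 2 ∣ orderOf g := by
            obtain ⟨hg, hc, -, hr', -, -⟩ := hyy g
            obtain ⟨c, hc'⟩ := isConj_iff.1 h
            have h5 : orderOf (pp g) = 2 := by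
              rw [← hc']; exact (orderOf_injective (MulAut.conj c).toMonoidHom (MulAut.conj c).injective x).trans hx
            rw [← hg, hc.orderOf_mul_eq_mul_orderOf_of_coprime (by rw [h5]; exact Nat.prime_two.coprime_iff_not_dvd.2 hr'), h5]
            exact dvd_mul_right 2 _
          rw [if_pos h, if_pos h2, sub_zero]
        · rw [if_neg h, Complex.zero_re]
          split_ifs
          · rw [sub_zero, hFr, Complex.ofReal_re]
            exact Finset.sum_nonneg fun χ _ => by split_ifs <;> positivity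
          · rw [sub_self, Complex.zero_re]
      have h6 := Finset.sum_le_sum (s := Finset.univ) fun g _ => h4 g
      rw [← Complex.re_sum, ← Complex.re_sum, hsec, Finset.sum_sub_distrib, h3] at h6
      simpa using h6
    have h7 : ∑ b' ∈ T, blockRank 2 b' ≤ 1 := by exact_mod_cast le_of_mul_le_mul_left hle hG
    refine Finset.eq_singleton_iff_unique_mem.2 ⟨hbT, fun b' hb' => ?_⟩
    by_contra hne
    have h8 := Finset.sum_le_sum_of_subset (f := fun b' => blockRank 2 b')
      (show ({b', b} : Finset _) ⊆ T by intro w hw; simp at hw; rcases hw with rfl | rfl <;> assumption)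
    rw [Finset.sum_pair hne] at h8
    have := blockRank_pos hM (mem_blockFinset.1 (Finset.mem_filter.1 hb').1)
    omega
  -- values on the section
  set c : IrrCharacter G → ℤ := fun χ => ∑ ξ ∈ Finset.univ.filter (fun ξ => ξ ∈ b), (shiftPoly x χ ξ).eval (-1) with hc
  have hval : ∀ χ ∈ B, ∀ y : Subgroup.centralizer ({x} : Set G), ¬ 2 ∣ orderOf y →
      (χ : G → ℂ) (x * y) = (c χ : ℂ) * (θ : Subgroup.centralizer ({x} : Set G) → ℂ) y := by
    intro χ hχ y hy
    have h := apply_eq_sum_secVal hM hxp hB χ hy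
    rw [← hT, hTone, Finset.sum_singleton, if_pos hχ, secVal, if_neg hy, ZStar.blockPart_apply, ← Finset.sum_filter] at h
    rw [← h, hc, Int.cast_sum, Finset.sum_mul]
    refine Finset.sum_congr rfl fun ξ hξ => ?_
    rw [hsame ξ (Finset.mem_filter.1 hξ).2 y hy, ← aeval_shiftPoly, hx,
      show zetaRoot 2 = -1 from (zetaRoot_prim two_ne_zero).eq_neg_one_of_two_right]
    congr 1
    rw [show (-1 : ℂ) = algebraMap ℤ ℂ (-1) by simp, aeval_algebraMap_apply]
    simp
  obtain ⟨χ₁, χ₂, hneχ, hB12⟩ := Set.ncard_eq_two.1 (show B.ncard = 2 by rw [← Nat.card_coe_set_eq]; exact hkB)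
  have h1B : χ₁ ∈ B := hB12 ▸ Set.mem_insert _ _
  have h2B : χ₂ ∈ B := hB12 ▸ Set.mem_insert_of_mem _ rfl
  have hfiltB : Finset.univ.filter (fun χ => χ ∈ B) = {χ₁, χ₂} := by ext χ; simp [hB12]
  have h1reg : ¬ 2 ∣ orderOf (1 : Subgroup.centralizer ({x} : Set G)) := by rw [orderOf_one]; norm_num
  have hsq : c χ₁ ^ 2 + c χ₂ ^ 2 = 2 := by
    have h := sum_sq_section hM hxp hB h1reg
    rw [← hT, hTone, Finset.sum_singleton, ← Finset.sum_filter, hfiltB, Finset.sum_pair hneχ, hval χ₁ h1B 1 h1reg,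
      hval χ₂ h2B 1 h1reg, blockKernel_eq, Finset.sum_congr rfl (fun ξ hξ => by
        rw [hsame ξ (Finset.mem_filter.1 hξ).2 1 h1reg]), Finset.sum_const, nsmul_eq_mul,
      ← Fintype.card_subtype, ← Nat.card_eq_fintype_card, show Nat.card {y // y ∈ b} = 2 from hkb, map_mul, map_mul,
      map_intCast, map_intCast] at h
    have h0 : (θ : Subgroup.centralizer ({x} : Set G) → ℂ) 1 * conj ((θ : Subgroup.centralizer ({x} : Set G) → ℂ) 1) ≠ 0 :=
      mul_ne_zero (apply_one_ne_zero θ.2) (by simpa using apply_one_ne_zero θ.2)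
    have h2 : ((c χ₁ ^ 2 + c χ₂ ^ 2 : ℤ) : ℂ) = ((2 : ℤ) : ℂ) := by
      apply mul_right_cancel₀ h0
      push_cast
      linear_combination h
    exact_mod_cast h2
  have hc1 : (c χ₁ = 1 ∨ c χ₁ = -1) ∧ (c χ₂ = 1 ∨ c χ₂ = -1) := by
    have a1 : -1 ≤ c χ₁ ∧ c χ₁ ≤ 1 := ⟨by nlinarith, by nlinarith⟩
    have a2 : -1 ≤ c χ₂ ∧ c χ₂ ≤ 1 := ⟨by nlinarith, by nlinarith⟩
    rcases (show c χ₁ = -1 ∨ c χ₁ = 0 ∨ c χ₁ = 1 by omega) with h | h | h <;>
      rcases (show c χ₂ = -1 ∨ c χ₂ = 0 ∨ c χ₂ = 1 by omega) with h' | h' | h' <;>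
        simp [h, h'] at hsq ⊢
  have horth : ∀ g : G, ¬ 2 ∣ orderOf g →
      (χ₁ : G → ℂ) g * (c χ₁ : ℂ) + (χ₂ : G → ℂ) g * (c χ₂ : ℂ) = 0 := by
    intro g hg
    have h := blockKernel_eq_zero hM hB hg (z := x) (by rw [hx])
    have hv : ∀ χ ∈ B, (χ : G → ℂ) x = (c χ : ℂ) * (θ : Subgroup.centralizer ({x} : Set G) → ℂ) 1 := fun χ hχ => by
      have := hval χ hχ 1 h1reg
      rwa [Subgroup.coe_one, mul_one] at this
    rw [blockKernel_eq, hfiltB, Finset.sum_pair hneχ, hv χ₁ h1B, hv χ₂ h2B, map_mul, map_mul, map_intCast,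
      map_intCast] at h
    apply mul_right_cancel₀ (show conj ((θ : Subgroup.centralizer ({x} : Set G) → ℂ) 1) ≠ 0 by
      simpa using apply_one_ne_zero θ.2)
    linear_combination h
  have hprod : c χ₁ * c χ₂ = -1 := by
    have h := horth 1 (by rw [orderOf_one]; norm_num)
    rw [apply_one (isCharacter_of_irr χ₁.2), apply_one (isCharacter_of_irr χ₂.2)] at h
    have h' : (charDegree (χ₁ : G → ℂ) : ℤ) * c χ₁ + (charDegree (χ₂ : G → ℂ) : ℤ) * c χ₂ = 0 := by exact_mod_cast h
    have d1 := charDegree_pos χ₁.2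
    have d2 := charDegree_pos χ₂.2
    rcases hc1.1 with e | e <;> rcases hc1.2 with e' | e' <;> rw [e, e'] at h' ⊢ <;> omega
  refine ⟨hkB, fun χ hχ ψ hψ g hg => ?_, χ₁, h1B, χ₂, h2B, hneχ, c χ₁, c χ₂, hc1.1, hc1.2, hprod,
    fun y hy => ⟨hval χ₁ h1B y hy, hval χ₂ h2B y hy⟩⟩
  have h12 : (χ₁ : G → ℂ) g = (χ₂ : G → ℂ) g := by
    have h := horth g hg
    rcases hc1.1 with e | e <;> rcases hc1.2 with e' | e' <;> rw [e, e'] at hprod h <;> norm_num at hprod <;> push_cast at h <;>
      first | linear_combination h | linear_combination -h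
  rw [hB12] at hχ hψ
  simp only [Set.mem_insert_iff, Set.mem_singleton_iff] at hχ hψ
  rcases hχ with rfl | rfl <;> rcases hψ with rfl | rfl <;> first | rfl | exact h12 | exact h12.symm

end Cfsg.Agent.S4513
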