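import Cfsg.Statements.S4633
import Cfsg.Agent.Blocks.InertialIndex
import Cfsg.Agent.Blocks.InducedDefect
import Cfsg.Agent.Zass.Basic


set_option autoImplicit false
open Cfsg

namespace Cfsg.Agent.S4633

open CfsgLib.Blocks CfsgLib.CharBasics

/-- Let B be a block of the finite group G relative to a maximal ideal M of the algebraic integers containing the prime p, with a nontrivial cyclic defect group P. Let c be a block of C_G(P) inducing B and T the stabilizer of c in N_G(P) (the elements of N_G(P) conjugating c to itself); T contains C_G(P). Then T/C_G(P) is cyclic of order dividing p − 1, and it acts freely on the non-identity elements of P: an element of T fixing some non-identity element of P under conjugation lies in C_G(P). -/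
theorem result {G : Type*} [Group G] [Finite G] (p : ℕ) [Fact p.Prime] (M : Ideal Cfsg.AlgInt) (hM : Cfsg.IsPModular p M) (B : Set (Cfsg.IrrCharacter G)) (hB : Cfsg.IsPBlock M B) (P : Subgroup G) (hPD : Cfsg.IsDefectGroup p M B P) (hP1 : P ≠ ⊥) (hcyc : IsCyclic P) (c : Set (Cfsg.IrrCharacter (Subgroup.centralizer (P : Set G)))) (hc : Cfsg.IsInducedBlock M (Subgroup.centralizer (P : Set G)) c B) (T : Subgroup G) (hT : ∀ g : G, g ∈ T ↔ (g ∈ Subgroup.normalizer (P : Set G) ∧ Cfsg.StabilizesBlock (Subgroup.centralizer (P : Set G)) c g)) [hn : ((Subgroup.centralizer (P : Set G)).subgroupOf T).Normal] : IsCyclic (T ⧸ (Subgroup.centralizer (P : Set G)).subgroupOf T) ∧ (Subgroup.centralizer (P : Set G)).relIndex T ∣ p - 1 ∧ ∀ g ∈ T, ∀ x ∈ P, x ≠ 1 → g * x * g⁻¹ = x → g ∈ Subgroup.centralizer (P : Set G) := by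

  classical
  haveI : Fintype G := Fintype.ofFinite G
  have hp : p.Prime := Fact.out
  have hPp : IsPGroup p P := by
    obtain ⟨g, -, Q, rfl⟩ := hPD
    exact Q.2.map _
  obtain ⟨C, hC⟩ : ∃ C : Subgroup G, C = Subgroup.centralizer (P : Set G) := ⟨_, rfl⟩
  haveI := Fintype.ofFinite (Subgroup.centralizer (P : Set G))
  have hPC : P ≤ Subgroup.centralizer (P : Set G) := fun x hx => Subgroup.mem_centralizer_iff.2 fun y hy => by
    obtain ⟨g, hg⟩ := hcyc.exists_generator
    obtain ⟨i, hi⟩ := Subgroup.mem_zpowers_iff.1 (hg ⟨x, hx⟩)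
    obtain ⟨j, hj⟩ := Subgroup.mem_zpowers_iff.1 (hg ⟨y, hy⟩)
    exact congrArg Subtype.val (show (⟨y, hy⟩ : P) * ⟨x, hx⟩ = ⟨x, hx⟩ * ⟨y, hy⟩ by
      rw [← hi, ← hj, ← zpow_add, ← zpow_add, add_comm])
  have hsup : Subgroup.centralizer (P : Set G) = P ⊔ Subgroup.centralizer (P : Set G) := (sup_eq_right.2 hPC).symm
  -- `P` is the defect group of `c`
  have hcP : IsDefectGroup p M c (P.subgroupOf (Subgroup.centralizer (P : Set G))) := by
    obtain ⟨w, hw⟩ := exists_defectClass hM hc.1
    obtain ⟨D, hD, hle⟩ := exists_defectGroup_ge hM hc.1 hw.2.1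
      (hPp.of_equiv (Subgroup.subgroupOfEquivOfLe hPC).symm) fun q hq =>
        Subtype.ext (Subgroup.mem_centralizer_iff.1 w.2 _ hq)
    have : P.subgroupOf (Subgroup.centralizer (P : Set G)) = D := Subgroup.eq_of_le_of_card_ge hle (by
      rw [Nat.card_congr (Subgroup.subgroupOfEquivOfLe hPC).toEquiv, card_defectGroup hM hc.2.1 hPD,
        card_defectGroup hM hc.1 hD]
      exact Nat.pow_le_pow_right hp.pos (blockDefect_le_induced hM hc))
    exact this ▸ hD
  have hp' : ¬ p ∣ (Subgroup.centralizer (P : Set G)).relIndex T :=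
    (isDefectGroup_induced_iff hM hPp hsup hc.1 hcP hc hT).1 hPD
  have hTN : T ≤ Subgroup.normalizer (P : Set G) := fun g hg => ((hT g).1 hg).1
  -- a fixed nontrivial element forces centralization
  have hfix : ∀ g ∈ T, ∀ x ∈ P, x ≠ 1 → g * x * g⁻¹ = x → g ∈ Subgroup.centralizer (P : Set G) := by
    intro g hg x hx hx1 hgx
    obtain ⟨k, m, hm, hord⟩ := Nat.exists_eq_pow_mul_and_not_dvd (orderOf_pos g).ne' p hp.ne_one
    have ha : ¬ p ∣ orderOf (g ^ p ^ k) := by
      rw [orderOf_pow_of_dvd (pow_ne_zero _ hp.ne_zero) (hord ▸ dvd_mul_right _ _), hord,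
        Nat.mul_div_cancel_left _ (pow_pos hp.pos _)]
      exact hm
    have hgc : Commute g x := mul_inv_eq_iff_eq_mul.1 hgx
    have hac := CfsgLib.Zass.commute_cyclic_of_fix hPp hcyc (Subgroup.pow_mem _ (hTN hg) _) ha hx hx1 (hgc.pow_left _)
    have h1 : (QuotientGroup.mk ⟨g, hg⟩ : T ⧸ (Subgroup.centralizer (P : Set G)).subgroupOf T) ^ p ^ k = 1 := by
      rw [← QuotientGroup.mk_pow, QuotientGroup.eq_one_iff, Subgroup.mem_subgroupOf, SubgroupClass.coe_pow,
        Subgroup.mem_centralizer_iff]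
      exact fun y hy => (hac y hy).eq.symm
    have h2 : (QuotientGroup.mk ⟨g, hg⟩ : T ⧸ (Subgroup.centralizer (P : Set G)).subgroupOf T) = 1 := by
      refine orderOf_eq_one_iff.1 ?_
      obtain ⟨j, -, hj⟩ := (Nat.dvd_prime_pow hp).1 (orderOf_dvd_of_pow_eq_one h1)
      rcases j with _ | j
      · simpa using hj
      · exact absurd (((dvd_pow_self p j.succ_ne_zero).trans hj.symm.dvd).trans (orderOf_dvd_natCard _)) hp'
    exact Subgroup.mem_subgroupOf.1 ((QuotientGroup.eq_one_iff _).1 h2)
  -- restriction to the subgroup of order `p`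
  obtain ⟨w, hwo⟩ : ∃ w : P, orderOf w = p := by
    haveI : Nontrivial P := (Subgroup.nontrivial_iff_ne_bot P).2 hP1
    obtain ⟨j, hj, hjc⟩ := (hPp.nontrivial_iff_card).1 inferInstance
    exact exists_prime_orderOf_dvd_card' p (hjc ▸ dvd_pow_self p hj.ne')
  have hwo' : orderOf (w : G) = p := by rw [Subgroup.orderOf_coe, hwo]
  have hnorm : ∀ g ∈ Subgroup.normalizer (P : Set G), g ∈ Subgroup.normalizer (Subgroup.zpowers (w : G) : Set G) := by
    intro g hg
    have hmem : g * (w : G) * g⁻¹ ∈ P := (Subgroup.mem_normalizer_iff.1 hg _).1 w.2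
    have heq : Subgroup.zpowers (⟨g * (w : G) * g⁻¹, hmem⟩ : P) = Subgroup.zpowers w := by
      haveI : Fintype P := Fintype.ofFinite P
      have hor : orderOf (⟨g * (w : G) * g⁻¹, hmem⟩ : P) = p := by
        rw [← Subgroup.orderOf_coe]
        exact ((MulAut.conj g).orderOf_eq (w : G)).trans hwo'
      have hsub : (Subgroup.zpowers w : Set P).toFinset ⊆ (Finset.univ.filter fun a : P => a ^ p = 1) := by
        intro a ha
        obtain ⟨i, rfl⟩ := Subgroup.mem_zpowers_iff.1 (Set.mem_toFinset.1 ha)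
        refine Finset.mem_filter.2 ⟨Finset.mem_univ _, ?_⟩
        rw [← zpow_natCast, ← zpow_mul, mul_comm, zpow_mul, zpow_natCast, ← hwo, pow_orderOf_eq_one, one_zpow]
      have heq : (Subgroup.zpowers w : Set P).toFinset = _ := Finset.eq_of_subset_of_card_le hsub (by
        refine (IsCyclic.card_pow_eq_one_le hp.pos).trans ?_
        rw [Set.toFinset_card, ← Nat.card_eq_fintype_card]
        exact ((Nat.card_zpowers w).trans hwo).ge)
      refine Subgroup.eq_of_le_of_card_ge (Subgroup.zpowers_le.2 ?_) (by rw [Nat.card_zpowers, Nat.card_zpowers, hor, hwo])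
      rw [← SetLike.mem_coe, ← Set.mem_toFinset, heq, Finset.mem_filter, ← hor]
      exact ⟨Finset.mem_univ _, pow_orderOf_eq_one _⟩
    have h : Subgroup.map (MulAut.conj g).toMonoidHom (Subgroup.zpowers (w : G)) = Subgroup.zpowers (w : G) := by
      rw [MonoidHom.map_zpowers]
      have := congrArg (Subgroup.map P.subtype) heq
      rwa [MonoidHom.map_zpowers, MonoidHom.map_zpowers] at this
    refine Subgroup.mem_normalizer_iff.2 fun y => ⟨fun hy => h ▸ ⟨y, hy, rfl⟩, fun hy => ?_⟩
    rw [← h] at hy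
    obtain ⟨z, hz, hze⟩ := hy
    rwa [← (MulAut.conj g).injective (show MulAut.conj g z = MulAut.conj g y from hze)]
  let χ : T →* MulAut (Subgroup.zpowers (w : G)) :=
    (Subgroup.zpowers (w : G)).normalizerMonoidHom.comp (Subgroup.inclusion fun g hg => hnorm g (hTN hg))
  have hker : χ.ker = (Subgroup.centralizer (P : Set G)).subgroupOf T := by
    refine Subgroup.ext fun g => ?_
    rw [MonoidHom.mem_ker, MonoidHom.comp_apply, ← MonoidHom.mem_ker, Subgroup.normalizerMonoidHom_ker,
      Subgroup.mem_subgroupOf, Subgroup.mem_subgroupOf, Subgroup.mem_centralizer_iff]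
    constructor
    · intro h
      refine hfix _ g.2 _ w.2 (fun h1 => hp.ne_one (by rw [← hwo', h1, orderOf_one])) ?_
      exact mul_inv_eq_iff_eq_mul.2 (h _ (Subgroup.mem_zpowers _)).symm
    · intro h y hy
      exact Subgroup.mem_centralizer_iff.1 h y (Subgroup.zpowers_le.2 w.2 hy)
  let ι : T ⧸ (Subgroup.centralizer (P : Set G)).subgroupOf T →* MulAut (Subgroup.zpowers (w : G)) :=
    QuotientGroup.lift _ χ hker.ge
  have hι : Function.Injective ι := by
    rw [← MonoidHom.ker_eq_bot_iff, QuotientGroup.ker_lift, hker, QuotientGroup.map_mk'_self]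
  have e : MulAut (Subgroup.zpowers (w : G)) ≃* (ZMod p)ˣ := by
    have e0 := IsCyclic.mulAutMulEquiv (G := Subgroup.zpowers (w : G))
    rw [Nat.card_zpowers, hwo'] at e0
    exact e0
  refine ⟨isCyclic_of_injective (e.toMonoidHom.comp ι) (e.injective.comp hι), ?_, hfix⟩
  have := Subgroup.card_dvd_of_injective (e.toMonoidHom.comp ι) (e.injective.comp hι)
  rwa [Nat.card_eq_fintype_card (α := (ZMod p)ˣ), ZMod.card_units] at this

end Cfsg.Agent.S4633
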