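import Cfsg.Statements.S4636
-- import your own Cfsg.Agent.* helpers here

set_option autoImplicit false
open scoped Pointwise
open Cfsg

open scoped Pointwise

namespace Cfsg.Agent.S4636

theorem mem_of_pow_eq_one {G : Type*} [Group G] [Finite G] (p : ℕ) [Fact p.Prime]
    (P Z : Subgroup G) (hcyc : IsCyclic P) (hZ : Z ≤ P) (hc : Nat.card Z = p)
    {a : G} (ha : a ∈ P) (hap : a ^ p = 1) : a ∈ Z := by
  classical
  have : Fintype P := Fintype.ofFinite P
  have hle : (Finset.univ.filter fun x : P => x ^ p = 1).card ≤ p :=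
    IsCyclic.card_pow_eq_one_le (Fact.out : p.Prime).pos
  have hsub : (Finset.univ.filter fun x : P => (x : G) ∈ Z) ⊆
      Finset.univ.filter fun x : P => x ^ p = 1 := by
    intro x hx
    simp only [Finset.mem_filter, Finset.mem_univ, true_and] at hx ⊢
    have h1 : (⟨(x : G), hx⟩ : Z) ^ p = 1 := hc ▸ pow_card_eq_one'
    have h2 : (x : G) ^ p = 1 := congrArg Subtype.val h1
    exact Subtype.ext (by simpa using h2)
  have hcard : (Finset.univ.filter fun x : P => (x : G) ∈ Z).card = p := by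
    rw [← Fintype.card_subtype, ← Nat.card_eq_fintype_card, ← hc]
    exact Nat.card_congr ((Equiv.subtypeSubtypeEquivSubtype (fun {x} hx => hZ hx)))
  have heq := Finset.eq_of_subset_of_card_le hsub (by omega)
  have : (⟨a, ha⟩ : P) ∈ Finset.univ.filter fun x : P => x ^ p = 1 := by
    simp [Subtype.ext_iff, hap]
  rw [← heq] at this
  simpa using this

theorem Z_le {G : Type*} [Group G] [Finite G] (p : ℕ) [Fact p.Prime] (P Z K : Subgroup G)
    (hP : IsPGroup p P) (hcyc : IsCyclic P) (hZ : Z ≤ P) (hc : Nat.card Z = p) (hK : K ≤ P)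
    (hK1 : K ≠ ⊥) : Z ≤ K := by
  have hKp : IsPGroup p K := hP.to_le hK
  have : Nontrivial K := (Subgroup.nontrivial_iff_ne_bot K).2 hK1
  obtain ⟨n, hn, hcard⟩ := (hKp.nontrivial_iff_card).1 this
  obtain ⟨a, ha⟩ := exists_prime_orderOf_dvd_card' (G := K) p (by rw [hcard]; exact dvd_pow_self p (by omega))
  have haG : orderOf (a : G) = p := by rw [Subgroup.orderOf_coe, ha]
  have haZ : (a : G) ∈ Z := mem_of_pow_eq_one p P Z hcyc hZ hc (hK a.2) (haG ▸ pow_orderOf_eq_one _)
  have : Subgroup.zpowers (a : G) = Z :=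
    Subgroup.eq_of_le_of_card_ge (Subgroup.zpowers_le.2 haZ) (by rw [Nat.card_zpowers, haG, hc])
  rw [← this]
  exact Subgroup.zpowers_le.2 a.2


/-- Let P be a nontrivial cyclic p-subgroup of the finite group G and Z its subgroup of order p. For every x outside N_G(Z), P meets its conjugate xPx⁻¹ trivially; consequently N_G(Q) ≤ N_G(Z) for every nontrivial subgroup Q of P. -/
theorem result {G : Type*} [Group G] [Finite G] (p : ℕ) [Fact p.Prime] (P : Subgroup G) (hP : IsPGroup p P) (hP1 : P ≠ ⊥) (hcyc : IsCyclic P) (Z : Subgroup G) (hZ : Z ≤ P) (hZcard : Nat.card Z = p) : (∀ x : G, x ∉ Subgroup.normalizer (Z : Set G) → P ⊓ MulAut.conj x • P = ⊥) ∧ ∀ Q : Subgroup G, Q ≤ P → Q ≠ ⊥ → Subgroup.normalizer (Q : Set G) ≤ Subgroup.normalizer (Z : Set G) := by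
  have fix : ∀ g : G, MulAut.conj g • Z ≤ P → g ∈ Subgroup.normalizer (Z : Set G) := by
    intro g hg
    apply Subgroup.mem_normalizer_iff_map_conj_eq.2
    have hc : Nat.card (MulAut.conj g • Z : Subgroup G) = p := by
      rw [← hZcard]; exact (Nat.card_congr (Subgroup.equivSMul (MulAut.conj g) Z).toEquiv).symm
    have hne : (MulAut.conj g • Z : Subgroup G) ≠ ⊥ := by
      intro h
      rw [h, Subgroup.card_bot] at hc
      exact (Fact.out : p.Prime).ne_one hc.symm
    exact (Subgroup.eq_of_le_of_card_ge (Z_le p P Z _ hP hcyc hZ hZcard hg hne)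
      (by rw [hc, hZcard])).symm
  refine ⟨fun x hx => ?_, fun Q hQ hQ1 g hg => fix g ?_⟩
  · by_contra hne
    apply hx
    have hle := Z_le p P Z _ hP hcyc hZ hZcard inf_le_left hne
    have h3 : MulAut.conj x⁻¹ • Z ≤ P := by
      rw [map_inv]
      exact Subgroup.pointwise_smul_subset_iff.2 (by simpa using hle.trans inf_le_right)
    simpa using inv_mem (fix _ h3)
  · have h2 : MulAut.conj g • Q = Q := Subgroup.mem_normalizer_iff_map_conj_eq.1 hg
    exact (Subgroup.pointwise_smul_le_pointwise_smul_iff.2 (Z_le p P Z Q hP hcyc hZ hZcard hQ hQ1)).trans (le_of_eq_of_le h2 hQ)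


end Cfsg.Agent.S4636
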