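import Cfsg.Statements.S4644
import Cfsg.Agent.Blocks.Watanabe.Main

set_option autoImplicit false
open Cfsg CfsgLib.PairAlg CfsgLib.NilBlock CfsgLib.Watanabe

attribute [local instance] CfsgLib.Blocks.residueField CfsgLib.Blocks.residue_charP

namespace Cfsg.Agent.S4644

/-- Let B be a block of the finite group G relative to a maximal ideal M of the algebraic integers containing the prime p, with a commutative defect group P; let c be a block of C_G(P) inducing B and T the stabilizer of c in N_G(P). Let u be an element of P fixed under conjugation by every element of T, H = C_G(u) (so C_G(P) ≤ H), and f the block of H induced by c inside H. Then B and f have the same p-regular rank and the same number of irreducible characters. -/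
theorem result {G : Type*} [Group G] [Finite G] (p : ℕ) [Fact p.Prime] (M : Ideal Cfsg.AlgInt) (hM : Cfsg.IsPModular p M) (B : Set (Cfsg.IrrCharacter G)) (hB : Cfsg.IsPBlock M B) (P : Subgroup G) (hPD : Cfsg.IsDefectGroup p M B P) (hPab : ∀ x ∈ P, ∀ y ∈ P, x * y = y * x) (c : Set (Cfsg.IrrCharacter (Subgroup.centralizer (P : Set G)))) (hc : Cfsg.IsInducedBlock M (Subgroup.centralizer (P : Set G)) c B) (T : Subgroup G) (hT : ∀ g : G, g ∈ T ↔ (g ∈ Subgroup.normalizer (P : Set G) ∧ Cfsg.StabilizesBlock (Subgroup.centralizer (P : Set G)) c g)) (u : G) (hu : u ∈ P) (huT : ∀ g ∈ T, g * u * g⁻¹ = u) (H : Subgroup G) (hH : H = Subgroup.centralizer ({u} : Set G)) (f : Set (Cfsg.IrrCharacter H)) (hf : Cfsg.IsInducedBlockIn M H (Subgroup.centralizer (P : Set G)) c f) : Cfsg.blockRank p B = Cfsg.blockRank p f ∧ Nat.card B = Nat.card f := by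
  haveI := Fintype.ofFinite G
  letI : ∀ K : Subgroup G, Fintype K := fun K => Fintype.ofFinite K
  have hmax := isMaximal_of_induced hM hPD hc
  obtain rfl := stab_eq hM hc.1 hT
  have hH' : H = Subgroup.centralizer (Subgroup.zpowers u : Set G) := hH.trans (centralizer_zpowers_eq u).symm
  subst hH'
  have hQ : Subgroup.zpowers u ≤ P := Subgroup.zpowers_le.2 hu
  have hN := (isInducedBlockIn_iff hM hQ (le_centralizer_of_le hmax hPab hQ) hmax.1.1).1 hf
  obtain ⟨h1, h2⟩ := Rq_Nq_eq hM hmax ((nstep_bc_iff hM hN.1 hmax.1.1).1 hN).le'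
  obtain ⟨h3, h4⟩ := rk_nk_bl hM (Subgroup.centralizer (Subgroup.zpowers u : Set G)).subtype
    (Subgroup.subtype_injective _) (Subgroup.range_subtype _) hf.2.1
  obtain ⟨h5, h6⟩ := counts_fixed hM hmax hPab hu huT
  exact ⟨(h5.symm.trans h1).trans h3, (h6.symm.trans h2).trans h4⟩

end Cfsg.Agent.S4644
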