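import Cfsg.Statements.S4687
import Cfsg.Agent.Blocks.PairAlg.Nilpotent
import Cfsg.Agent.Fusion.Abelian
import Cfsg.Agent.S4682

set_option autoImplicit false
open Cfsg

namespace Cfsg.Agent.S4687

open CfsgLib.PairAlg CfsgLib.Blocks
attribute [local instance] residueField residue_charP


/-- Fix a prime p and a maximal ideal M of the algebraic integers containing p, and a p-block B of the finite group G with maximal Brauer pair (P, e), P abelian. Then B is nilpotent if and only if its inertial quotient is trivial: every element of N_G(P) stabilizing e centralizes P. -/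
theorem result {G : Type*} [Group G] [Fintype G] (p : ℕ) [Fact p.Prime] (M : Ideal Cfsg.AlgInt) (hM : Cfsg.IsPModular p M) (B : Set (Cfsg.IrrCharacter G)) (P : Subgroup G) (e : Set (Cfsg.IrrCharacter (Subgroup.centralizer (P : Set G)))) (hmax : Cfsg.IsMaximalBrauerPair p M B P e) (hab : ∀ x ∈ P, ∀ y ∈ P, x * y = y * x) : Cfsg.IsNilpotentBlock p M B ↔ ∀ x : G, x ∈ Subgroup.normalizer (P : Set G) → Cfsg.StabilizesBlock (Subgroup.centralizer (P : Set G)) e x → x ∈ Subgroup.centralizer (P : Set G) := by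
  have hc := complete (G := G) hM
  have hm := isMax_bc hM hmax
  constructor
  · intro hnil x hxN hst
    obtain ⟨F, hF⟩ := exists_blockFusionSystem hM hmax
    obtain ⟨φ, hr, hk, -⟩ := exists_autHom hM hmax hF (LE'.refl : LE' p ⊤ P (bc hM P e) P (bc hM P e))
    have hp := isPGroup_autGroup_of_nilpotent hM hmax hF hnil (le_refl P)
    have hnd := CfsgLib.Fusion.not_dvd_card_autGroup (hmax.1.1.1) (isSaturated_block hM hmax hF) hab
    haveI : Finite (MulAut P) := Finite.of_injective (fun a => (a : P → P)) DFunLike.coe_injective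
    have h1 : Nat.card (F.autGroup P) = 1 := by
      obtain ⟨n, hn⟩ := IsPGroup.iff_card.1 hp
      rcases Nat.eq_zero_or_pos n with rfl | hn0
      · simpa using hn
      · exact absurd (hn ▸ dvd_pow_self p hn0.ne') hnd
    have hxT : x ∈ stab P (bc hM P e) := ⟨hxN, (stabilizesBlock_bc_iff hM hmax.1.1.2 hxN).1 hst⟩
    have h2 : φ ⟨x, hxT⟩ ∈ F.autGroup P := hr ▸ ⟨_, rfl⟩
    haveI := (Nat.card_eq_one_iff_unique.1 h1).1
    have h3 : (⟨φ ⟨x, hxT⟩, h2⟩ : F.autGroup P) = 1 := Subsingleton.elim _ _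
    have h4 : (⟨x, hxT⟩ : ↥(stab P (bc hM P e))) ∈ φ.ker := congrArg Subtype.val h3
    rw [hk] at h4
    exact h4
  · intro htriv
    refine ⟨hmax.1.2.1, fun Q f hQf x hxN hst _ => ?_⟩
    have hof := (isBrauerPairOf_iff_bc hM hmax.1.2.1 hQf.1).1 hQf
    obtain ⟨y, hy⟩ := exists_conj_below_max hM hmax hof
    have hQf' := isBrauerPair_conjBlock hM hQf.1 y
    have hle := (subpairLE_conjBlock_iff hM hQf.1 hmax.1.1 y).2 hy
    let TQ : Subgroup G := stab (cm y Q) (bc hM (cm y Q) (conjBlock Q y f))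
    let TP : Subgroup G := stab P (bc hM P e)
    have hxT : y * x * y⁻¹ ∈ TQ := by
      show y * x * y⁻¹ ∈ stab (cm y Q) (bc hM (cm y Q) (conjBlock Q y f))
      rw [bc_conjBlock, ← cm_stab, conj_mem_cm]
      exact ⟨hxN, (stabilizesBlock_bc_iff hM hQf.1.2 hxN).1 hst⟩
    obtain ⟨t, ht, c, hcC, he⟩ := (Cfsg.Agent.S4682.result p M hM B P e hmax hab (cm y Q) (conjBlock Q y f)
      hy.subgroup_le hQf'.2 hle TQ
      (fun z => ⟨fun h => ⟨h.1, (stabilizesBlock_bc_iff hM hQf'.2 h.1).2 h.2⟩,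
        fun h => ⟨h.1, (stabilizesBlock_bc_iff hM hQf'.2 h.1).1 h.2⟩⟩)
      TP
      (fun z => ⟨fun h => ⟨h.1, (stabilizesBlock_bc_iff hM hmax.1.1.2 h.1).2 h.2⟩,
        fun h => ⟨h.1, (stabilizesBlock_bc_iff hM hmax.1.1.2 h.1).1 h.2⟩⟩)).1 _ hxT
    have htC : t ∈ Subgroup.centralizer ((cm y Q : Subgroup G) : Set G) :=
      Subgroup.centralizer_le hy.subgroup_le (htriv t ht.1 ((stabilizesBlock_bc_iff hM hmax.1.1.2 ht.1).2 ht.2))
    have hxy : y * x * y⁻¹ ∈ cm y (Subgroup.centralizer (Q : Set G)) := by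
      rw [cm_centralizer, he]
      exact mul_mem htC hcC
    exact conj_mem_cm.1 hxy

end Cfsg.Agent.S4687
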