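import Cfsg.Statements.S4649
import Cfsg.Agent.Blocks.CyclicRankOne.Count
import Cfsg.Agent.Blocks.CyclicRankOne.Main
import Cfsg.Agent.Blocks.KleinFour.Partner
import Cfsg.Agent.Blocks.FirstMain
import Cfsg.Agent.S4633
import Cfsg.Agent.S4687
import Cfsg.Agent.S4689
-- import your own Cfsg.Agent.* helpers here

set_option autoImplicit false
open Cfsg

namespace Cfsg.Agent.S4649

open CfsgLib CfsgLib.Blocks CfsgLib.PairAlg

attribute [local instance] CfsgLib.Blocks.residueField CfsgLib.Blocks.residue_charP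

/-- A block with cyclic defect group, of a finite group relative to a maximal ideal M of the algebraic integers containing the prime p, is nilpotent if and only if its p-regular rank is 1 (it has a unique irreducible Brauer character). -/
theorem result {G : Type*} [Group G] [Finite G] (p : ℕ) [Fact p.Prime] (M : Ideal Cfsg.AlgInt) (hM : Cfsg.IsPModular p M) (B : Set (Cfsg.IrrCharacter G)) (hB : Cfsg.IsPBlock M B) (P : Subgroup G) (hPD : Cfsg.IsDefectGroup p M B P) (hcyc : IsCyclic P) : Cfsg.IsNilpotentBlock p M B ↔ Cfsg.blockRank p B = 1 := by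
  
  classical
  haveI : Fintype G := Fintype.ofFinite G
  constructor
  · exact fun hnil => (Cfsg.Agent.S4689.result p M hM B hnil).1
  intro hl
  obtain ⟨c, hmax⟩ := exists_maximal_on_defect hM hB hPD
  have hab : ∀ x ∈ P, ∀ y ∈ P, x * y = y * x := fun x hx y hy => by
    obtain ⟨g, hg⟩ := hcyc.exists_generator
    obtain ⟨i, hi⟩ := Subgroup.mem_zpowers_iff.1 (hg ⟨x, hx⟩)
    obtain ⟨j, hj⟩ := Subgroup.mem_zpowers_iff.1 (hg ⟨y, hy⟩)
    exact congrArg Subtype.val (show (⟨x, hx⟩ : P) * ⟨y, hy⟩ = ⟨y, hy⟩ * ⟨x, hx⟩ by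
      rw [← hi, ← hj, ← zpow_add, ← zpow_add, add_comm])
  refine (Cfsg.Agent.S4687.result p M hM B P c hmax hab).2 fun x hxN hst => ?_
  by_cases hP1 : P = ⊥
  · subst hP1
    exact Subgroup.mem_centralizer_iff.2 fun y hy => by rw [Subgroup.mem_bot.1 hy, one_mul, mul_one]
  have hc := CfsgLib.KleinFour.induced_of_pairOf hM hmax.1
  set T := stab P (bc hM P c) with hTdef
  have hT : ∀ g : G, g ∈ T ↔ (g ∈ Subgroup.normalizer (P : Set G) ∧
      StabilizesBlock (Subgroup.centralizer (P : Set G)) c g) := fun g =>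
    ⟨fun h => ⟨h.1, (stabilizesBlock_bc_iff hM hc.1 h.1).2 h.2⟩,
      fun h => ⟨h.1, (stabilizesBlock_bc_iff hM hc.1 h.1).1 h.2⟩⟩
  haveI hn : ((Subgroup.centralizer (P : Set G)).subgroupOf T).Normal := ⟨fun n hn g => by
    rw [Subgroup.mem_subgroupOf, Subgroup.mem_centralizer_iff] at hn ⊢
    intro z hz
    have hz' := hn _ ((Subgroup.mem_normalizer_iff''.1 g.2.1 z).1 hz)
    simp only [Subgroup.coe_mul, InvMemClass.coe_inv]
    calc z * ((g : G) * n * (g : G)⁻¹) = g * (((g : G)⁻¹ * z * g) * n) * (g : G)⁻¹ := by group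
      _ = _ := by rw [hz']; group⟩
  obtain ⟨-, -, hfree⟩ := Cfsg.Agent.S4633.result p M hM B hB P hPD hP1 hcyc c hc T hT
  have hk := CyclicRankOne.card_eq_add hM hmax hB hPD hc hab hfree
  have hle := CyclicRankOne.card_le_card hM hB hPD hcyc hl
  rw [hl, ← hTdef, Nat.cast_one] at hk
  set e := (Subgroup.centralizer (P : Set G)).relIndex T with he
  have he0 : e ≠ 0 := Subgroup.index_ne_zero_of_finite (H := (Subgroup.centralizer (P : Set G)).subgroupOf T)
  have hP2 : 2 ≤ Nat.card P := (Subgroup.one_lt_card_iff_ne_bot P).2 hP1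
  have he1 : e = 1 := by
    have h1 : ((Nat.card B - 1 : ℕ) : ℂ) * (e : ℂ) = ((Nat.card P - 1 : ℕ) : ℂ) := by
      rw [Nat.cast_sub (by omega), Nat.cast_sub (by omega), hk, Nat.cast_one, add_sub_cancel_left,
        div_mul_cancel₀ _ (Nat.cast_ne_zero.2 he0)]
    have h2 : (Nat.card B - 1) * e = Nat.card P - 1 := by exact_mod_cast h1
    by_contra hne
    have : (Nat.card B - 1) * 2 ≤ (Nat.card B - 1) * e := Nat.mul_le_mul_left _ (by omega)
    omega
  exact (Subgroup.relIndex_eq_one.1 he1) ((hT x).2 ⟨hxN, hst⟩)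


end Cfsg.Agent.S4649
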