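import Cfsg.Statements.S4652
import Cfsg.Agent.Blocks.HeightZero

set_option autoImplicit false
open Cfsg

namespace Cfsg.Agent.S4652

open CfsgLib.Blocks CfsgLib.CharBasics

variable {G : Type*} [Group G] [Fintype G] {p : ℕ} {M : Ideal Cfsg.AlgInt}

private theorem centralChar_conj (χ : IrrCharacter G) {g h : G} (hc : IsConj g h) :
    centralChar (χ : G → ℂ) g = centralChar (χ : G → ℂ) h := by
  classical
  have e : classElt g = classElt h := by
    ext x
    rw [coeff_classElt, coeff_classElt]
    exact if_congr ⟨fun k => hc.symm.trans k, fun k => hc.trans k⟩ rfl rfl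
  rw [← omega_classElt χ.2, e, omega_classElt χ.2]

private theorem not_dvd_index (hM : IsPModular p M) {g : G}
    (h : IsDefectClass M (principalBlock M G) g) : ¬ p ∣ (Subgroup.centralizer ({g} : Set G)).index := by
  intro hd
  refine h.2.2 oneChar (oneChar_mem_principal hM) ?_
  have e : centralChar ((oneChar : IrrCharacter G) : G → ℂ) g
      = ((Subgroup.centralizer ({g} : Set G)).index : ℂ) := by
    simp [centralChar, oneChar]
  rw [e]
  exact (memLocalIdeal_natCast_iff hM _).2 hd

private theorem isDefectClass_principal (hM : IsPModular p M) {y : G}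
    (h1 : ¬ MemLocalIdeal M (blockCoeff (principalBlock M G) y))
    (h2 : ¬ MemLocalIdeal M (centralChar ((oneChar : IrrCharacter G) : G → ℂ) y)) :
    IsDefectClass M (principalBlock M G) y := by
  refine ⟨memLocalRing_blockCoeff hM isPBlock_principal y, h1, fun χ hχ hmem => h2 ?_⟩
  have hs : MemLocalIdeal M (centralChar ((oneChar : IrrCharacter G) : G → ℂ) y - centralChar (χ : G → ℂ) y) :=
    (IsPBlock.mem_iff hM isPBlock_principal (oneChar_mem_principal hM)).1 hχ y
  simpa using memLocalIdeal_add hM hs hmem

/-- Fix a prime p and a maximal ideal M of the algebraic integers containing p. The defect groups of the principal p-block of a finite group G are exactly the Sylow p-subgroups of G: a subgroup D is a defect group of the principal block if and only if D is a Sylow p-subgroup. -/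
theorem result {G : Type*} [Group G] [Fintype G] (p : ℕ) [Fact p.Prime] (M : Ideal Cfsg.AlgInt) (hM : Cfsg.IsPModular p M) (D : Subgroup G) : Cfsg.IsDefectGroup p M (Cfsg.principalBlock M G) D ↔ ∃ S : Sylow p G, (S : Subgroup G) = D := by
  classical
  haveI : IsPModular p M := hM
  constructor
  · rintro ⟨g, hg, P, rfl⟩
    have hc : Nat.card ((P : Subgroup (Subgroup.centralizer ({g} : Set G))).map (Subgroup.centralizer ({g} : Set G)).subtype)
        = p ^ (Nat.card G).factorization p := ?_
    exact ⟨Sylow.ofCard _ hc, rfl⟩
    rw [Subgroup.card_map_of_injective (Subgroup.centralizer ({g} : Set G)).subtype_injective, P.card_eq_multiplicity]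
    congr 1
    rw [← Subgroup.card_mul_index (Subgroup.centralizer ({g} : Set G)),
      Nat.factorization_mul Nat.card_pos.ne' Subgroup.index_ne_zero_of_finite, Finsupp.add_apply,
      Nat.factorization_eq_zero_of_not_dvd (not_dvd_index hM hg), add_zero]
  · rintro ⟨S, rfl⟩
    obtain ⟨y, -, h1, h2⟩ := exists_defect_element hM isPBlock_principal (oneChar_mem_principal (G := G) hM)
    have hy := isDefectClass_principal hM h1 h2
    have hidx := not_dvd_index hM hy
    obtain ⟨P⟩ := (inferInstance : Nonempty (Sylow p (Subgroup.centralizer ({y} : Set G))))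
    let D0 : Subgroup G := (P : Subgroup (Subgroup.centralizer ({y} : Set G))).map (Subgroup.centralizer ({y} : Set G)).subtype
    have hc0 : Nat.card D0 = p ^ (Nat.card G).factorization p := by
      rw [Subgroup.card_map_of_injective (Subgroup.centralizer ({y} : Set G)).subtype_injective, P.card_eq_multiplicity]
      congr 1
      rw [← Subgroup.card_mul_index (Subgroup.centralizer ({y} : Set G)),
        Nat.factorization_mul Nat.card_pos.ne' Subgroup.index_ne_zero_of_finite, Finsupp.add_apply,
        Nat.factorization_eq_zero_of_not_dvd hidx, add_zero]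
    obtain ⟨x, hx⟩ := MulAction.exists_smul_eq G (Sylow.ofCard D0 hc0) S
    have hconj : IsConj y (x * y * x⁻¹) := isConj_iff.2 ⟨x, rfl⟩
    have hle : (S : Subgroup G) ≤ Subgroup.centralizer ({x * y * x⁻¹} : Set G) := by
      intro u hu
      rw [← hx, Sylow.coe_subgroup_smul, Subgroup.mem_pointwise_smul_iff_inv_smul_mem] at hu
      have h3 : x⁻¹ * u * x ∈ Subgroup.centralizer ({y} : Set G) := by
        obtain ⟨v, -, hv⟩ := hu
        have : x⁻¹ * u * x = (v : G) := by simpa [MulAut.smul_def, mul_assoc] using hv.symm
        rw [this]; exact v.2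
      rw [Subgroup.mem_centralizer_singleton_iff] at h3 ⊢
      simpa [mul_assoc] using congrArg (fun z => x * z * x⁻¹) h3
    refine ⟨x * y * x⁻¹, ⟨?_, ?_, fun χ hχ => ?_⟩, S.subtype hle, ?_⟩
    · exact memLocalRing_blockCoeff hM isPBlock_principal _
    · rw [← coeff_blockElt, coeff_conj (isClassElt_blockElt _) y x, coeff_blockElt]
      exact hy.2.1
    · rw [← centralChar_conj χ hconj]
      exact hy.2.2 χ hχ
    · rw [Sylow.coe_subtype, Subgroup.subgroupOf_map_subtype, inf_of_le_left hle]

end Cfsg.Agent.S4652
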