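import Cfsg.Statements.S4654
import Cfsg.Agent.Blocks.SupportedCover
import Cfsg.Agent.Blocks.PairsOrder
import Cfsg.Agent.Blocks.NormalPSub


set_option autoImplicit false
open Cfsg

namespace Cfsg.Agent.S4654

open CfsgLib.Blocks CfsgLib.CharBasics CfsgLib.ZStar

/-- Fix a prime p and a maximal ideal M of the algebraic integers containing p. Let P be a normal p-subgroup of the finite group G, B a p-block of G and e a p-block of C_G(P) such that (P, e) is a Brauer pair of B (as P is normal, this says that e occurs in the idempotent of B, which is supported on C_G(P)). Let T be the stabilizer of e in G under conjugation. Then the idempotent of e is a block idempotent of T: some block E of T has, at every element of T, the same idempotent coefficient as e (zero off C_G(P)); and the idempotent of B is the sum of the distinct G-conjugates of the idempotent of e: its coefficient at g is the sum over all x in G of the coefficient of e at x⁻¹ g x, divided by the order of T. -/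
theorem result {G : Type*} [Group G] [Fintype G] (p : ℕ) [Fact p.Prime] (M : Ideal Cfsg.AlgInt) (hM : Cfsg.IsPModular p M) (P : Subgroup G) [P.Normal] (hP : IsPGroup p P) (B : Set (Cfsg.IrrCharacter G)) (e : Set (Cfsg.IrrCharacter (Subgroup.centralizer (P : Set G)))) (hBe : Cfsg.IsBrauerPairOf p M B P e) (T : Subgroup G) (hT : ∀ x : G, x ∈ T ↔ Cfsg.StabilizesBlock (Subgroup.centralizer (P : Set G)) e x) : (∃ E : Set (Cfsg.IrrCharacter T), Cfsg.IsPBlock M E ∧ ∀ t : T, Cfsg.blockCoeff E t = Cfsg.subgroupBlockCoeff (Subgroup.centralizer (P : Set G)) e (t : G)) ∧ ∀ g : G, Cfsg.blockCoeff B g = (Nat.card T : ℂ)⁻¹ * ∑ x : G, Cfsg.subgroupBlockCoeff (Subgroup.centralizer (P : Set G)) e (x⁻¹ * g * x) := by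
  classical
  haveI := Fintype.ofFinite (Subgroup.centralizer (P : Set G))
  haveI := Fintype.ofFinite T
  haveI : (Subgroup.centralizer (P : Set G)).Normal := inferInstance
  have hsup : ∀ B : Set (IrrCharacter G), IsPBlock M B → ∀ g, g ∉ Subgroup.centralizer (P : Set G) → blockCoeff B g = 0 :=
    fun B hB g hg => Cfsg.Agent.S4653.result p M hM P hP B hB g hg
  obtain ⟨ξ, hξ⟩ := IsPBlock.nonempty hM hBe.1.2
  have h1 := (isBrauerPairOf_iff hM hBe.1.1 hBe.2.1 hBe.1.2 hξ).1 hBe
  obtain ⟨χ₀, hχ₀, h₀⟩ := exists_constituent_of_omega_ne B ξ fun h => by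
    rw [h, zero_sub] at h1
    exact not_memLocalIdeal_one hM (by simpa using memLocalIdeal_neg h1)
  refine ⟨?_, fun g => blockCoeff_eq_average hM hsup hBe.2.1 hBe.1.2 hχ₀ hξ h₀ T hT g⟩
  have hstab : ∀ x : G, (∀ c ∈ Subgroup.centralizer (P : Set G), x * c * x⁻¹ = c) →
      StabilizesBlock (Subgroup.centralizer (P : Set G)) e x := by
    intro x hx
    refine ⟨by rw [Subgroup.normalizer_eq_top]; exact Subgroup.mem_top x, fun χ hχ => ⟨χ, hχ, fun k k' hk => ?_⟩⟩
    rw [hx k k.2] at hk
    rw [Subtype.ext hk]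
  have hinner : Subgroup.centralizer (P : Set G) ≤ T := fun x hx => (hT x).2 (by
    refine ⟨by rw [Subgroup.normalizer_eq_top]; exact Subgroup.mem_top x, fun χ hχ => ⟨χ, hχ, fun k k' hk => ?_⟩⟩
    rw [show k' = (⟨x, hx⟩ : Subgroup.centralizer (P : Set G)) * k * ⟨x, hx⟩⁻¹ from Subtype.ext hk]
    exact isClassFunction (isCharacter_of_irr χ.2) k ⟨x, hx⟩)
  have hPT : P ≤ T := fun x hx => (hT x).2 (hstab x fun c hc => by
    rw [Subgroup.mem_centralizer_iff.1 hc x hx, mul_inv_cancel_right])
  set C' := (Subgroup.centralizer (P : Set G)).subgroupOf T with hC'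
  haveI : Fintype C' := Fintype.ofFinite _
  let φ : Subgroup.centralizer (P : Set G) ≃* C' := (Subgroup.subgroupOfEquivOfLe hinner).symm
  have hφ : ∀ k, ((φ k : T) : G) = (k : G) := fun k => rfl
  haveI : (P.subgroupOf T).Normal := Subgroup.Normal.subgroupOf inferInstance T
  haveI : C'.Normal := Subgroup.Normal.subgroupOf inferInstance T
  have hPTp : IsPGroup p (P.subgroupOf T) := hP.of_equiv (Subgroup.subgroupOfEquivOfLe hPT).symm
  have hsupT : ∀ E : Set (IrrCharacter T), IsPBlock M E → ∀ t, t ∉ C' → blockCoeff E t = 0 := by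
    intro E hE t ht
    refine Cfsg.Agent.S4653.result p M hM (P.subgroupOf T) hPTp E hE t fun h => ht ?_
    exact Subgroup.mem_centralizer_iff.2 fun q hq =>
      congrArg Subtype.val (Subgroup.mem_centralizer_iff.1 h ⟨q, hPT hq⟩ hq)
  have hst : ∀ x : T, StabilizesBlock C' (pushBlock φ e) x := by
    intro x
    obtain ⟨hxn, hfix⟩ := stabilizesBlock_iff.1 ((hT (x : G)).1 x.2)
    refine stabilizesBlock_iff.2 ⟨by rw [Subgroup.normalizer_eq_top]; exact Subgroup.mem_top x, ?_⟩
    conv_rhs => rw [← hfix]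
    rw [← pushBlock_trans, ← pushBlock_trans]
    congr 1
  obtain ⟨E, hE, hEc⟩ := exists_block_above_supported hM hsupT (isPBlock_pushBlock φ hBe.1.2) hst
  refine ⟨E, hE, fun t => ?_⟩
  rw [hEc]
  unfold subgroupBlockCoeff
  by_cases ht : (t : G) ∈ Subgroup.centralizer (P : Set G)
  · rw [dif_pos (show t ∈ C' from ht), dif_pos ht,
      show (⟨t, (show t ∈ C' from ht)⟩ : C') = φ ⟨t, ht⟩ from Subtype.ext (Subtype.ext (hφ ⟨t, ht⟩).symm),
      blockCoeff_pushBlock]
  · rw [dif_neg (show t ∉ C' from ht), dif_neg ht]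

end Cfsg.Agent.S4654
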