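import Cfsg.Statements.S4659
import Cfsg.Agent.Blocks.MaxPairs


set_option autoImplicit false
open Cfsg

namespace Cfsg.Agent.S4659

open CfsgLib.Blocks CfsgLib.CharBasics

/-- Fix a prime p and a maximal ideal M of the algebraic integers containing p. If (P, e) is a maximal Brauer pair of the p-block B of the finite group G, then P is a defect group of B. -/
theorem result {G : Type*} [Group G] [Fintype G] (p : ℕ) [Fact p.Prime] (M : Ideal Cfsg.AlgInt) (hM : Cfsg.IsPModular p M) (B : Set (Cfsg.IrrCharacter G)) (P : Subgroup G) (e : Set (Cfsg.IrrCharacter (Subgroup.centralizer (P : Set G)))) (hmax : Cfsg.IsMaximalBrauerPair p M B P e) : Cfsg.IsDefectGroup p M B P := by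
  exact (maximal_key hM hmax).2

end Cfsg.Agent.S4659
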