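import Cfsg.Statements.S4661
import Cfsg.Agent.Blocks.PairAlg.Fusion

set_option autoImplicit false
open Cfsg

namespace Cfsg.Agent.S4661

open CfsgLib.PairAlg CfsgLib.Blocks
attribute [local instance] residueField residue_charP


/-- Fix a prime p and a maximal ideal M of the algebraic integers containing p. Let (P, e) be a maximal Brauer pair of the p-block B of the finite group G, Q ≤ P, and f the p-block of C_G(Q) with (Q, f) ≤ (P, e). Then C_P(Q) is contained in a defect group of f (as a block of the group C_G(Q)); and for some x in G the conjugate pair (x Q x⁻¹, conjugate of f) again lies below (P, e) and C_P(x Q x⁻¹) is a defect group of the conjugate of f in C_G(x Q x⁻¹). -/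
theorem result {G : Type*} [Group G] [Fintype G] (p : ℕ) [Fact p.Prime] (M : Ideal Cfsg.AlgInt) (hM : Cfsg.IsPModular p M) (B : Set (Cfsg.IrrCharacter G)) (P Q : Subgroup G) (e : Set (Cfsg.IrrCharacter (Subgroup.centralizer (P : Set G)))) (f : Set (Cfsg.IrrCharacter (Subgroup.centralizer (Q : Set G)))) (hmax : Cfsg.IsMaximalBrauerPair p M B P e) (hQP : Q ≤ P) (hf : Cfsg.IsPBlock M f) (hle : Cfsg.SubpairLE p M Q f P e) : (∃ D : Subgroup (Subgroup.centralizer (Q : Set G)), Cfsg.IsDefectGroup p M f D ∧ (P ⊓ Subgroup.centralizer (Q : Set G)).subgroupOf (Subgroup.centralizer (Q : Set G)) ≤ D) ∧ ∃ x : G, Cfsg.SubpairLE p M (Q.map (MulAut.conj x).toMonoidHom) (Cfsg.conjBlock Q x f) P e ∧ Cfsg.IsDefectGroup p M (Cfsg.conjBlock Q x f) ((P ⊓ Subgroup.centralizer ((Q.map (MulAut.conj x).toMonoidHom) : Set G)).subgroupOf (Subgroup.centralizer ((Q.map (MulAut.conj x).toMonoidHom) : Set G))) := by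
  obtain ⟨hQf, hle'⟩ := le'_of_subpairLE hM hle hmax.1.1
  have hc := complete (G := G) hM
  have hm := isMax_bc hM hmax
  have hCN := centralizer_le_normalizer Q
  have hPp : IsPGroup p P := hmax.1.1.1
  refine ⟨exists_defectGroup_sub_ge hM hf (hPp.to_le inf_le_left) inf_le_right (br_inf_ne hc hm hle' hCN), ?_⟩
  obtain ⟨x, hx, hcard⟩ := exists_full hc hm hle' (centralizer_le_stab (isPair_bc hM hQf))
  refine ⟨x, (subpairLE_conjBlock_iff hM hQf hmax.1.1 x).2 hx, ?_⟩
  refine (isDefectGroup_sub_iff hM (isBrauerPair_conjBlock hM hQf x).2 (hPp.to_le inf_le_left) inf_le_right).2 ?_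
  show Br _ (bc hM (cm x Q) (conjBlock Q x f)) ≠ 0 ∧ _ = dmax p _ (bc hM (cm x Q) (conjBlock Q x f))
  rw [bc_conjBlock]
  refine ⟨br_inf_ne hc hm hx (centralizer_le_normalizer (cm x Q)), ?_⟩
  show Nat.card ↥(P ⊓ Subgroup.centralizer ((cm x Q : Subgroup G) : Set G)) =
    dmax p (Subgroup.centralizer ((cm x Q : Subgroup G) : Set G)) _
  rw [← cm_centralizer, hcard, dmax_cm]

end Cfsg.Agent.S4661
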