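import Cfsg.Statements.S4662
import Cfsg.Agent.Blocks.PairAlg.Fusion

set_option autoImplicit false
open Cfsg

namespace Cfsg.Agent.S4662

open CfsgLib.PairAlg CfsgLib.Blocks
attribute [local instance] residueField residue_charP


/-- Fix a prime p and a maximal ideal M of the algebraic integers containing p. Let (P, e) be a maximal Brauer pair of the p-block B of the finite group G, Q ≤ P, and f the p-block of C_G(Q) with (Q, f) ≤ (P, e). Let T be the stabilizer of f in N_G(Q). Then the idempotent of f is a block idempotent of T, and N_P(Q) is contained in a defect group of that block of T; moreover for some x in G the conjugate pair (x Q x⁻¹, conjugate of f) again lies below (P, e) and, with T' the stabilizer of the conjugate of f in N_G(x Q x⁻¹), N_P(x Q x⁻¹) is a defect group of the block of T' whose idempotent is that of the conjugate of f. -/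
theorem result {G : Type*} [Group G] [Fintype G] (p : ℕ) [Fact p.Prime] (M : Ideal Cfsg.AlgInt) (hM : Cfsg.IsPModular p M) (B : Set (Cfsg.IrrCharacter G)) (P Q : Subgroup G) (e : Set (Cfsg.IrrCharacter (Subgroup.centralizer (P : Set G)))) (f : Set (Cfsg.IrrCharacter (Subgroup.centralizer (Q : Set G)))) (hmax : Cfsg.IsMaximalBrauerPair p M B P e) (hQP : Q ≤ P) (hf : Cfsg.IsPBlock M f) (hle : Cfsg.SubpairLE p M Q f P e) (T : Subgroup G) (hT : ∀ y : G, y ∈ T ↔ y ∈ Subgroup.normalizer (Q : Set G) ∧ Cfsg.StabilizesBlock (Subgroup.centralizer (Q : Set G)) f y) : (∃ F : Set (Cfsg.IrrCharacter T), Cfsg.IsPBlock M F ∧ (∀ t : T, Cfsg.blockCoeff F t = Cfsg.subgroupBlockCoeff (Subgroup.centralizer (Q : Set G)) f (t : G)) ∧ ∃ D : Subgroup T, Cfsg.IsDefectGroup p M F D ∧ (P ⊓ Subgroup.normalizer (Q : Set G)).subgroupOf T ≤ D) ∧ ∃ x : G, Cfsg.SubpairLE p M (Q.map (MulAut.conj x).toMonoidHom) (Cfsg.conjBlock Q x f) P e ∧ ∀ (T' : Subgroup G), (∀ y : G, y ∈ T' ↔ y ∈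 Subgroup.normalizer ((Q.map (MulAut.conj x).toMonoidHom) : Set G) ∧ Cfsg.StabilizesBlock (Subgroup.centralizer ((Q.map (MulAut.conj x).toMonoidHom) : Set G)) (Cfsg.conjBlock Q x f) y) → ∃ F' : Set (Cfsg.IrrCharacter T'), Cfsg.IsPBlock M F' ∧ (∀ t : T', Cfsg.blockCoeff F' t = Cfsg.subgroupBlockCoeff (Subgroup.centralizer ((Q.map (MulAut.conj x).toMonoidHom) : Set G)) (Cfsg.conjBlock Q x f) (t : G)) ∧ Cfsg.IsDefectGroup p M F' ((P ⊓ Subgroup.normalizer ((Q.map (MulAut.conj x).toMonoidHom) : Set G)).subgroupOf T') := by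
  obtain ⟨hQf, hle'⟩ := le'_of_subpairLE hM hle hmax.1.1
  have hc := complete (G := G) hM
  have hm := isMax_bc hM hmax
  have hPp : IsPGroup p P := hmax.1.1.1
  obtain rfl := stab_eq hM hf hT
  have hp := isPair_bc hM hQf
  have hNT := inf_stab_eq (normalizer_le_stab hc hm hle')
  obtain ⟨⟨F, hF, hFc⟩, huniq⟩ := exists_stabBlock hM hQf (le_stab hp) (centralizer_le_stab hp) le_rfl
  refine ⟨⟨F, hF, hFc, exists_defectGroup_sub_ge hM hF (hPp.to_le inf_le_left) (normalizer_le_stab hc hm hle') ?_⟩, ?_⟩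
  · rw [huniq F hFc]; exact br_normalizer_ne hc hm hle'
  obtain ⟨x, hx, hcard⟩ := exists_full hc hm hle' (le_refl (stab Q (bc hM Q f)))
  refine ⟨x, (subpairLE_conjBlock_iff hM hQf hmax.1.1 x).2 hx, fun T' hT' => ?_⟩
  have hQf' := isBrauerPair_conjBlock hM hQf x
  obtain rfl : T' = stab (cm x Q) (bc hM (cm x Q) (conjBlock Q x f)) := stab_eq hM hQf'.2 hT'
  have hp' := isPair_bc hM hQf'
  have hx' : LE' p ⊤ (cm x Q) (bc hM (cm x Q) (conjBlock Q x f)) P (bc hM P e) := by rwa [bc_conjBlock]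
  obtain ⟨⟨F', hF', hFc'⟩, huniq'⟩ := exists_stabBlock hM hQf' (le_stab hp') (centralizer_le_stab hp') le_rfl
  refine ⟨F', hF', hFc', (isDefectGroup_sub_iff hM hF' (hPp.to_le inf_le_left) (normalizer_le_stab hc hm hx')).2 ?_⟩
  rw [huniq' F' hFc']
  refine ⟨br_normalizer_ne hc hm hx', ?_⟩
  show Nat.card ↥(P ⊓ Subgroup.normalizer ((cm x Q : Subgroup G) : Set G)) = _
  rw [← inf_stab_eq (normalizer_le_stab hc hm hx'), bc_conjBlock, ← cm_stab, hcard, dmax_cm]

end Cfsg.Agent.S4662
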