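import Cfsg.Statements.S4663
import Cfsg.Agent.ZStar.Principal
-- import your own Cfsg.Agent.* helpers here

set_option autoImplicit false
open Cfsg

namespace Cfsg.Agent.S4663

/-- Fix a prime p and a maximal ideal M of the algebraic integers containing p. Brauer's Third Main Theorem in the language of Brauer pairs: for the principal p-block B₀ of the finite group G and any p-subgroup Q, a p-block e of C_G(Q) makes (Q, e) a Brauer pair of B₀ if and only if e is the principal p-block of C_G(Q). Equivalently, modulo M the truncation to C_G(Q) of the idempotent of B₀ is the idempotent of the principal block of C_G(Q). -/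
theorem result {G : Type*} [Group G] [Fintype G] (p : ℕ) [Fact p.Prime] (M : Ideal Cfsg.AlgInt) (hM : Cfsg.IsPModular p M) (Q : Subgroup G) (hQ : IsPGroup p Q) (e : Set (Cfsg.IrrCharacter (Subgroup.centralizer (Q : Set G)))) (he : Cfsg.IsPBlock M e) : Cfsg.IsBrauerPairOf p M (Cfsg.principalBlock M G) Q e ↔ e = Cfsg.principalBlock M (Subgroup.centralizer (Q : Set G)) := by
  classical
  haveI := Fintype.ofFinite (Subgroup.centralizer (Q : Set G))
  have key := CfsgLib.ZStar.omega_res_principal hM hQ (H := Subgroup.centralizer (Q : Set G))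
    (fun g => Subgroup.mem_centralizer_iff)
  have hval : ∀ ξ : Cfsg.IrrCharacter (Subgroup.centralizer (Q : Set G)),
      Cfsg.brauerOmega Q (Cfsg.blockCoeff (Cfsg.principalBlock M G)) (ξ : Subgroup.centralizer (Q : Set G) → ℂ)
        = CfsgLib.Blocks.omega (ξ : Subgroup.centralizer (Q : Set G) → ℂ)
            (CfsgLib.ZStar.res _ (CfsgLib.Blocks.blockElt (Cfsg.principalBlock M G))) := by
    intro ξ
    rw [CfsgLib.ZStar.omega_res, Cfsg.brauerOmega, finsum_eq_sum_of_fintype, Finset.sum_div]
    simp only [CfsgLib.Blocks.coeff_blockElt]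
  constructor
  · rintro ⟨-, -, h⟩
    obtain ⟨ξ, hξ⟩ := CfsgLib.Blocks.IsPBlock.nonempty hM he
    refine CfsgLib.Blocks.IsPBlock.eq_of_mem hM he CfsgLib.Blocks.isPBlock_principal hξ ?_
    by_contra hn
    have h1 := h ξ hξ
    rw [hval] at h1
    exact CfsgLib.Blocks.not_memLocalIdeal_one hM
      (by simpa using CfsgLib.Blocks.memLocalIdeal_sub hM ((key ξ).2 hn) h1)
  · rintro rfl
    refine ⟨⟨hQ, he⟩, CfsgLib.Blocks.isPBlock_principal, fun ξ hξ => ?_⟩
    rw [hval]
    exact (key ξ).1 hξ

end Cfsg.Agent.S4663
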