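import Cfsg.Statements.S4664
import Cfsg.Agent.Blocks.Idempotent


set_option autoImplicit false
open Cfsg

namespace Cfsg.Agent.S4664

open CfsgLib.Blocks CfsgLib.CharBasics

/-- Fix a prime p and a maximal ideal M of the algebraic integers containing p, and let B be a p-block of the finite group G. Let m be the p'-part of the order of G and η = exp(2πi/m). Then every coefficient of the idempotent of B lies in the cyclotomic field ℚ(η). -/
theorem result {G : Type*} [Group G] [Fintype G] (p : ℕ) [Fact p.Prime] (M : Ideal Cfsg.AlgInt) (hM : Cfsg.IsPModular p M) (B : Set (Cfsg.IrrCharacter G)) (hB : Cfsg.IsPBlock M B) (g : G) : Cfsg.blockCoeff B g ∈ IntermediateField.adjoin ℚ ({Complex.exp (2 * Real.pi * Complex.I / ((Nat.card G / p ^ (Nat.card G).factorization p : ℕ) : ℂ))} : Set ℂ) := by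
  classical
  haveI : Fintype (IrrCharacter G) := @Fintype.ofFinite _ finite_irrCharacter
  set m : ℕ := Nat.card G / p ^ (Nat.card G).factorization p with hm
  set K : IntermediateField ℚ ℂ :=
    IntermediateField.adjoin ℚ ({Complex.exp (2 * Real.pi * Complex.I / (m : ℂ))} : Set ℂ) with hK
  have hm0 : m ≠ 0 := (Nat.ordCompl_pos p Nat.card_pos.ne').ne'
  by_cases hg : p ∣ orderOf g
  · rw [blockCoeff_eq_zero hM hB hg]; exact zero_mem K
  have hd : orderOf g ∣ m := by
    have h1 : orderOf g ∣ p ^ (Nat.card G).factorization p * m := by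
      rw [hm, Nat.ordProj_mul_ordCompl_eq_self]; exact orderOf_dvd_natCard g
    exact (Nat.Coprime.pow_right _ (hM.1.coprime_iff_not_dvd.2 hg).symm).dvd_of_dvd_mul_left h1
  have hζ := Complex.isPrimitiveRoot_exp m hm0
  haveI : NeZero m := ⟨hm0⟩
  have hval : ∀ χ : IrrCharacter G, starRingEnd ℂ ((χ : G → ℂ) g) ∈ K := by
    intro χ
    rw [← apply_inv (isCharacter_of_irr χ.2)]
    obtain ⟨lam, hlam, hsum⟩ := exists_eigen (isCharacter_of_irr χ.2) g⁻¹
    have := hsum 1
    rw [pow_one] at this
    rw [this]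
    refine sum_mem fun i _ => ?_
    have h1 : lam i ^ m = 1 := by
      obtain ⟨c, hc⟩ := hd
      rw [hc, pow_mul, ← orderOf_inv g, hlam i, one_pow]
    obtain ⟨j, -, hj⟩ := hζ.eq_pow_of_pow_eq_one h1
    rw [pow_one, ← hj]
    exact pow_mem (IntermediateField.subset_adjoin ℚ _ (Set.mem_singleton _)) j
  rw [blockCoeff_eq]
  refine mul_mem (inv_mem (natCast_mem K _)) (sum_mem fun χ _ => ?_)
  split_ifs
  · exact mul_mem (by rw [apply_one (isCharacter_of_irr χ.2)]; exact natCast_mem K _) (hval χ)
  · exact zero_mem K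

end Cfsg.Agent.S4664
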