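import Cfsg.Statements.S4665
import Mathlib.RepresentationTheory.Character
import Cfsg.Agent.CharBasics.Ortho

set_option autoImplicit false
open Cfsg

namespace Cfsg.Agent.S4665

theorem sum_restrict {G : Type*} [Group G] [Finite G] (H : Subgroup G) [Fintype H]
    (ψ : G → ℂ) (hψ : IsIrrCharacter G ψ) :
    ∃ k : ℕ, ∑ h : H, ψ (h : G) = (Nat.card H : ℂ) * k := by
  obtain ⟨n, ρ, -, rfl⟩ := hψ
  let σ : Representation ℂ H (Fin n → ℂ) := ρ.comp H.subtype
  have : Invertible (Nat.card H : ℂ) := invertibleOfNonzero (by simp)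
  have h := Representation.card_inv_mul_sum_char_eq_finrank (ρ := σ)
  refine ⟨Module.finrank ℂ (Representation.invariants σ), ?_⟩
  rw [← h]
  field_simp
  rfl


/-- Fix a prime p, a maximal ideal M of the algebraic integers containing p, and a p-block B of the finite group G, and let p^a be the p-part of the order of G. Let χ be an integer combination of the irreducible characters in B. If the function that agrees with χ on p-regular elements and vanishes on p-singular elements is again an integer combination of the irreducible characters in B, then p^a divides χ(1). -/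
theorem result {G : Type*} [Group G] [Fintype G] (p : ℕ) [Fact p.Prime] (M : Ideal Cfsg.AlgInt) (hM : Cfsg.IsPModular p M) (B : Set (Cfsg.IrrCharacter G)) (hB : Cfsg.IsPBlock M B) (χ : G → ℂ) (hχ : (∃ n : Cfsg.IrrCharacter G → ℤ, ∀ g : G, χ g = ∑ᶠ ψ ∈ B, (n ψ : ℂ) * (ψ : G → ℂ) g)) (h0 : (∃ n : Cfsg.IrrCharacter G → ℤ, ∀ g : G, Cfsg.pRegularPart p χ g = ∑ᶠ ψ ∈ B, (n ψ : ℂ) * (ψ : G → ℂ) g)) : ∃ k : ℤ, χ 1 = (p ^ (Nat.card G).factorization p : ℂ) * k := by
  classical
  obtain ⟨P⟩ : Nonempty (Sylow p G) := inferInstance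
  obtain ⟨n, hn⟩ := h0
  let c : IrrCharacter G → ℕ := fun ψ =>
    (sum_restrict (P : Subgroup G) (ψ : G → ℂ) ψ.2).choose
  have hc : ∀ ψ : IrrCharacter G, ∑ h : (P : Subgroup G), (ψ : G → ℂ) h =
      (Nat.card (P : Subgroup G) : ℂ) * c ψ := fun ψ =>
    (sum_restrict (P : Subgroup G) (ψ : G → ℂ) ψ.2).choose_spec
  have hreg : ∀ h : (P : Subgroup G), h ≠ 1 → ¬ IsPRegular p (h : G) := by
    intro h hh hr
    apply hh
    obtain ⟨k, hk⟩ := P.2 h
    have hk' : (h : G) ^ p ^ k = 1 := by
      rw [← Subgroup.coe_pow, hk, Subgroup.coe_one]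
    obtain ⟨j, _, hj⟩ := (Nat.dvd_prime_pow Fact.out).1 (orderOf_dvd_of_pow_eq_one hk')
    rcases Nat.eq_zero_or_pos j with hj0 | hj0
    · rw [hj0, pow_zero, orderOf_eq_one_iff] at hj
      exact Subtype.ext hj
    · exact absurd (hj ▸ dvd_pow_self p hj0.ne') hr
  have h1 : ∑ h : (P : Subgroup G), pRegularPart p χ (h : G) = χ 1 := by
    rw [Finset.sum_eq_single (1 : (P : Subgroup G))]
    · have : IsPRegular p (1 : G) := by
        simpa [IsPRegular] using (Fact.out : p.Prime).ne_one
      simp [pRegularPart, this]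
    · intro h _ hh
      simp [pRegularPart, hreg h hh]
    · simp
  have hcard : Nat.card (P : Subgroup G) = p ^ (Nat.card G).factorization p :=
    P.card_eq_multiplicity
  have hB' : B.Finite := Set.toFinite B
  refine ⟨∑ ψ ∈ hB'.toFinset, n ψ * (c ψ : ℤ), ?_⟩
  rw [← h1, Fintype.sum_congr _ _ (fun h : (P : Subgroup G) => hn h)]
  simp only [finsum_mem_eq_finite_toFinset_sum _ hB']
  rw [Finset.sum_comm]
  push_cast
  rw [Finset.mul_sum]
  refine Finset.sum_congr rfl fun ψ _ => ?_
  rw [← Finset.mul_sum, hc ψ, hcard]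
  push_cast
  ring

end Cfsg.Agent.S4665
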