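import Cfsg.Statements.S4666
import Cfsg.Agent.Blocks.RegularRank


set_option autoImplicit false
open Cfsg

namespace Cfsg.Agent.S4666

open CfsgLib.Blocks CfsgLib.CharBasics

/-- Fix a prime p and a maximal ideal M of the algebraic integers containing p, and a p-block B of the finite group G of defect d. For every integer combination χ of the irreducible characters in B, p^d times the function that agrees with χ on p-regular elements and vanishes elsewhere is again an integer combination of the irreducible characters in B. -/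
theorem result {G : Type*} [Group G] [Fintype G] (p : ℕ) [Fact p.Prime] (M : Ideal Cfsg.AlgInt) (hM : Cfsg.IsPModular p M) (B : Set (Cfsg.IrrCharacter G)) (hB : Cfsg.IsPBlock M B) (χ : G → ℂ) (hχ : (∃ n : Cfsg.IrrCharacter G → ℤ, ∀ g : G, χ g = ∑ᶠ ψ ∈ B, (n ψ : ℂ) * (ψ : G → ℂ) g)) : (∃ n : Cfsg.IrrCharacter G → ℤ, ∀ g : G, (p ^ Cfsg.blockDefect p B : ℂ) * Cfsg.pRegularPart p χ g = ∑ᶠ ψ ∈ B, (n ψ : ℂ) * (ψ : G → ℂ) g) := by
  classical
  haveI : Fintype (IrrCharacter G) := @Fintype.ofFinite _ finite_irrCharacter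
  obtain ⟨n, hn⟩ := hχ
  obtain ⟨χ₀, hχ₀, hmin, hs⟩ := exists_min_degExp hM hB
  set e := degExp p χ₀ with he
  have he' := degExp_le hM.1 χ₀
  rw [blockDefect_eq hs]
  let w : IrrCharacter G → IrrCharacter G → ℤ := fun ρ ψ => regInt p (ρ : G → ℂ) (ψ : G → ℂ) / (p : ℤ) ^ e
  refine ⟨fun ψ => ∑ ρ ∈ Finset.univ.filter (· ∈ B), n ρ * w ρ ψ, fun g => ?_⟩
  have hB' : ∀ f : IrrCharacter G → ℂ, (∑ᶠ ψ ∈ B, f ψ) = ∑ ψ ∈ Finset.univ.filter (· ∈ B), f ψ := fun f => by
    rw [finsum_mem_def, finsum_eq_sum_of_fintype, Finset.sum_filter]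
    exact Finset.sum_congr rfl fun ψ _ => by by_cases h : ψ ∈ B <;> simp [h]
  have hkey : ∀ ρ ∈ B, (p : ℂ) ^ ((Nat.card G).factorization p - e) * pRegularPart p (ρ : G → ℂ) g
      = ∑ ψ ∈ Finset.univ.filter (· ∈ B), (w ρ ψ : ℂ) * (ψ : G → ℂ) g := by
    intro ρ hρ
    have hexp := congrFun (regularPart_expand hM hB hρ) g
    rw [hexp, Finset.sum_apply, Finset.mul_sum, Finset.sum_subtype (p := (· ∈ B)) (Finset.univ.filter (· ∈ B)) (by simp)]
    refine Finset.sum_congr rfl fun ψ _ => ?_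
    have hm0 := ordCompl_ne_zero_cast (G := G) p
    have hp0 : ∀ k : ℕ, (p : ℂ) ^ k ≠ 0 := fun k => pow_ne_zero _ (Nat.cast_ne_zero.2 hM.1.ne_zero)
    obtain ⟨z, hz⟩ : (p : ℤ) ^ e ∣ regInt p (ρ : G → ℂ) ((ψ : IrrCharacter G) : G → ℂ) :=
      (pow_dvd_pow _ (hmin ρ hρ)).trans (pow_dvd_regInt hM ρ ψ.1)
    have hG : (Nat.card G : ℂ) = (p : ℂ) ^ e * (p : ℂ) ^ ((Nat.card G).factorization p - e) *
        ((Nat.card G / p ^ (Nat.card G).factorization p : ℕ) : ℂ) := by
      rw [← pow_add, Nat.add_sub_cancel' he', ← Nat.cast_pow, ← Nat.cast_mul, Nat.ordProj_mul_ordCompl_eq_self]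
    have hc : classInner (pRegularPart p (ρ : G → ℂ)) ((ψ : IrrCharacter G) : G → ℂ)
        = (z : ℂ) / (p : ℂ) ^ ((Nat.card G).factorization p - e) := by
      rw [pRegularPart_eq, regSum_eq_classInner, regSum_eq_regInt hM.1 (isCharacter_of_irr ρ.2)
        (isCharacter_of_irr ψ.1.2), hz, hG]
      push_cast
      have := hp0 e
      have := hp0 ((Nat.card G).factorization p - e)
      field_simp
    simp only [w, hz, Int.mul_ediv_cancel_left _ (pow_ne_zero e (Int.natCast_ne_zero.2 hM.1.ne_zero)),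
      Pi.smul_apply, smul_eq_mul, hc]
    rw [← mul_assoc, mul_div_cancel₀ _ (hp0 _)]
  have hexp : pRegularPart p χ g = ∑ ρ ∈ Finset.univ.filter (· ∈ B), (n ρ : ℂ) * pRegularPart p (ρ : G → ℂ) g := by
    simp only [pRegularPart_eq]
    split_ifs with h
    · simp
    · rw [hn g, hB']
  rw [hexp, hB', Finset.mul_sum]
  rw [Finset.sum_congr rfl (fun ρ hρ => by
    rw [mul_left_comm, hkey ρ (Finset.mem_filter.1 hρ).2, Finset.mul_sum]), Finset.sum_comm]
  refine Finset.sum_congr rfl fun ψ _ => ?_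
  push_cast
  rw [Finset.sum_mul]
  exact Finset.sum_congr rfl fun ρ _ => by ring

end Cfsg.Agent.S4666
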