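import Cfsg.Statements.S4668
import Cfsg.Agent.S4653


set_option autoImplicit false
open Cfsg

namespace Cfsg.Agent.S4668

open CfsgLib.Blocks CfsgLib.CharBasics

/-- Fix a prime p and a maximal ideal M of the algebraic integers containing p. Let Q₀ < Q₁ < ⋯ < Q_m be a strictly increasing chain of p-subgroups of the finite group G and N the intersection of their normalizers. Then every block idempotent of N is supported on C_G(Q_m): for every p-block E of N, the idempotent coefficient of E vanishes at every element of N outside C_G(Q_m). -/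
theorem result {G : Type*} [Group G] [Fintype G] (p : ℕ) [Fact p.Prime] (M : Ideal Cfsg.AlgInt) (hM : Cfsg.IsPModular p M) (m : ℕ) (Q : Fin (m + 1) → Subgroup G) (hQ : StrictMono Q) (hQp : ∀ i, IsPGroup p (Q i)) (N : Subgroup G) (hN : ∀ g : G, g ∈ N ↔ ∀ i, g ∈ Subgroup.normalizer (Q i : Set G)) (E : Set (Cfsg.IrrCharacter N)) (hE : Cfsg.IsPBlock M E) (n : N) (hn : (n : G) ∉ Subgroup.centralizer (Q (Fin.last m) : Set G)) : Cfsg.blockCoeff E n = 0 := by
  classical
  haveI : Fintype N := Fintype.ofFinite _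
  have hp : p.Prime := hM.1
  by_cases hnp : p ∣ orderOf n
  · exact blockCoeff_eq_zero hM hE hnp
  by_contra hne
  let R : Subgroup N := (Q (Fin.last m)).subgroupOf N
  have hRn : R.Normal := ⟨fun r hr g => by
    rw [Subgroup.mem_subgroupOf] at hr ⊢
    exact ((Subgroup.mem_normalizer_iff.1 ((hN g).1 g.2 (Fin.last m))) (r : G)).1 hr⟩
  have hRp : IsPGroup p R := by
    intro r
    obtain ⟨k, hk⟩ := hQp (Fin.last m) ⟨((r : N) : G), Subgroup.mem_subgroupOf.1 r.2⟩
    exact ⟨k, Subtype.ext (Subtype.ext (by simpa using congrArg Subtype.val hk))⟩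
  have hnR : n ∈ Subgroup.centralizer (R : Set N) :=
    by_contra fun h => hne (Cfsg.Agent.S4653.result p M hM R hRp E hE n h)
  refine hn ?_
  suffices key : ∀ k : ℕ, ∀ i : Fin (m + 1), (i : ℕ) = k → ∀ x ∈ Q i, Commute (n : G) x from
    Subgroup.mem_centralizer_iff.2 fun x hx => (key _ (Fin.last m) rfl x hx).symm
  intro k
  induction k using Nat.strong_induction_on with
  | _ k ih =>
    intro i hi
    let P := Q i
    let C : Subgroup G := P ⊓ Subgroup.centralizer ({(n : G)} : Set G)
    have hmemC : ∀ x, x ∈ C ↔ x ∈ P ∧ Commute (n : G) x := fun x => by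
      rw [Subgroup.mem_inf, Subgroup.mem_centralizer_singleton_iff]
      exact and_congr_right fun _ => ⟨fun h => h.symm, fun h => h.symm⟩
    have hnP : ∀ x ∈ P, (n : G) * x * (n : G)⁻¹ ∈ P := fun x hx =>
      ((Subgroup.mem_normalizer_iff.1 ((hN _).1 n.2 i)) x).1 hx
    have hCC : ∀ x ∈ P, (∀ c ∈ C, Commute x c) → x ∈ C := by
      intro x hx hxc
      have hxN : x ∈ N := (hN x).2 fun l => by
        rcases lt_or_ge l i with hl | hl
        · refine Subgroup.centralizer_le_normalizer _ (Subgroup.mem_centralizer_iff.2 fun y hy => ?_)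
          exact ((hxc y ((hmemC y).2 ⟨hQ.monotone hl.le hy, ih l (by omega) l rfl y hy⟩))).symm
        · exact Subgroup.le_normalizer (hQ.monotone hl hx)
      refine (hmemC x).2 ⟨hx, ?_⟩
      have h1 : (⟨x, hxN⟩ : N) ∈ R := Subgroup.mem_subgroupOf.2 (hQ.monotone (Fin.le_last i) hx)
      exact (congrArg (fun y : N => (y : G)) (Subgroup.mem_centralizer_iff.1 hnR _ h1)).symm
    have hNC : ∀ x ∈ P, x ∈ Subgroup.normalizer (C : Set G) → x ∈ C := by
      intro x hx hxn
      obtain ⟨u, hu⟩ : ∃ u, (n : G) * x * (n : G)⁻¹ = x * u := ⟨_, (mul_inv_cancel_left x _).symm⟩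
      have huP : u ∈ P := by
        have := P.mul_mem (P.inv_mem hx) (hnP x hx)
        rwa [hu, inv_mul_cancel_left] at this
      have huC : u ∈ C := by
        refine hCC u huP fun c hc => ?_
        have h1 := ((hmemC _).1 ((Subgroup.mem_normalizer_iff.1 hxn c).1 hc)).2
        have h2 : (n : G) * (x * c * x⁻¹) * (n : G)⁻¹ = x * c * x⁻¹ := by
          rw [h1.eq, mul_inv_cancel_right]
        have h3 : (n : G) * c * (n : G)⁻¹ = c := by rw [((hmemC c).1 hc).2.eq, mul_inv_cancel_right]
        have h4 : (n : G) * (x * c * x⁻¹) * (n : G)⁻¹ = (x * u) * c * (x * u)⁻¹ := by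
          rw [← hu]
          conv_rhs => rw [← h3]
          group
        rw [h4] at h2
        have h5 : u * c * u⁻¹ = c := by
          have h6 := congrArg (fun t => x⁻¹ * t * x) h2
          simpa [mul_assoc] using h6
        exact mul_inv_eq_iff_eq_mul.1 h5
      have hit : ∀ j : ℕ, (n : G) ^ j * x * ((n : G) ^ j)⁻¹ = x * u ^ j := by
        intro j
        induction j with
        | zero => simp
        | succ j ihj =>
          have hc : (n : G) * u ^ j * (n : G)⁻¹ = u ^ j := by
            rw [(((hmemC u).1 huC).2.pow_right j).eq, mul_inv_cancel_right]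
          calc (n : G) ^ (j + 1) * x * ((n : G) ^ (j + 1))⁻¹
              = (n : G) * ((n : G) ^ j * x * ((n : G) ^ j)⁻¹) * (n : G)⁻¹ := by
                rw [pow_succ' (n : G) j, mul_inv_rev]; group
            _ = ((n : G) * x * (n : G)⁻¹) * ((n : G) * u ^ j * (n : G)⁻¹) := by rw [ihj]; group
            _ = x * u ^ (j + 1) := by rw [hu, hc, pow_succ', mul_assoc]
      have h1 := hit (orderOf n)
      rw [show (n : G) ^ orderOf n = 1 from by rw [← Subgroup.orderOf_coe]; exact pow_orderOf_eq_one _,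
        one_mul, inv_one, mul_one, left_eq_mul] at h1
      obtain ⟨j, hj⟩ := hQp i ⟨u, huP⟩
      have hj' : u ^ p ^ j = 1 := congrArg Subtype.val hj
      have hu1 : u = 1 := by
        refine orderOf_eq_one_iff.1 (Nat.dvd_one.1 ?_)
        rw [← ((hp.coprime_iff_not_dvd.2 hnp).pow_left j).gcd_eq_one]
        exact Nat.dvd_gcd (orderOf_dvd_of_pow_eq_one hj') (orderOf_dvd_of_pow_eq_one h1)
      refine (hmemC x).2 ⟨hx, ?_⟩
      rw [hu1, mul_one] at hu
      exact mul_inv_eq_iff_eq_mul.1 hu
    haveI : Group.IsNilpotent P := (hQp i).isNilpotent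
    have htop : C.subgroupOf P = ⊤ := by
      by_contra htop
      obtain ⟨x, hx1, hx2⟩ := SetLike.exists_of_lt (Group.normalizerCondition_of_isNilpotent (G := P) (C.subgroupOf P) (lt_top_iff_ne_top.2 htop))
      refine hx2 (Subgroup.mem_subgroupOf.2 (hNC x x.2 (Subgroup.mem_normalizer_iff.2 fun c => ?_)))
      constructor
      · intro hc
        exact (Subgroup.mem_normalizer_iff.1 hx1 ⟨c, ((hmemC c).1 hc).1⟩).1 hc
      · intro hc
        have hcP : c ∈ P := by
          have := P.mul_mem (P.mul_mem (P.inv_mem x.2) ((hmemC _).1 hc).1) x.2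
          simpa [mul_assoc] using this
        exact (Subgroup.mem_normalizer_iff.1 hx1 ⟨c, hcP⟩).2 hc
    intro x hx
    exact ((hmemC x).1 (Subgroup.subgroupOf_eq_top.1 htop hx)).2

end Cfsg.Agent.S4668
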