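import Cfsg.Statements.S4669
import Cfsg.Agent.Blocks.CentralDefect
import Cfsg.Agent.Blocks.RegularRank


set_option autoImplicit false
open Cfsg

namespace Cfsg.Agent.S4669

open CfsgLib.Blocks CfsgLib.CharBasics

/-- Fix a prime p and a maximal ideal M of the algebraic integers containing p. If the p-block B of the finite group G has a defect group P contained in the centre of G, then B has p-regular rank one (a single irreducible Brauer character). -/
theorem result {G : Type*} [Group G] [Fintype G] (p : ℕ) [Fact p.Prime] (M : Ideal Cfsg.AlgInt) (hM : Cfsg.IsPModular p M) (B : Set (Cfsg.IrrCharacter G)) (hB : Cfsg.IsPBlock M B) (P : Subgroup G) (hD : Cfsg.IsDefectGroup p M B P) (hPZ : P ≤ Subgroup.center G) : Cfsg.blockRank p B = 1 := by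
  classical
  haveI := Fintype.ofFinite P
  have hPp : IsPGroup p P := by
    obtain ⟨g, -, S, rfl⟩ := hD
    exact S.isPGroup'.map _
  have hG : P ⊔ Subgroup.centralizer (P : Set G) = ⊤ := by
    rw [show Subgroup.centralizer (P : Set G) = ⊤ from top_le_iff.1 fun g _ =>
      Subgroup.mem_centralizer_iff.2 fun y hy => (Subgroup.mem_center_iff.1 (hPZ hy) g).symm, sup_top_eq]
  obtain ⟨θ, hθ, hθP, hθd, hmin⟩ := exists_trivial_member hM hPp hG hB hD
  obtain ⟨-, hall⟩ := block_structure hM hPp hG hB hθ hθP hθd hmin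
  refine le_antisymm ?_ (blockRank_pos hM hB)
  rw [blockRank]
  refine (Submodule.finrank_mono (t := Submodule.span ℂ ({pRegularPart p (θ : G → ℂ)} : Set (G → ℂ))) ?_).trans ?_
  · rw [Submodule.span_le]
    rintro _ ⟨ρ, hρ, rfl⟩
    obtain ⟨ζ, he⟩ := hall ρ hρ
    refine Submodule.mem_span_singleton.2 ⟨(ζ : P → ℂ) 1, funext fun g => ?_⟩
    simp only [pRegularPart_eq, Pi.smul_apply, smul_eq_mul]
    split_ifs with hg
    · rw [mul_zero]
    · rw [he]
      simpa using (prodFun_apply hM hPp hG (ζ : P → ℂ) (θ : G → ℂ) 1 hg).symm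
  · exact (finrank_span_le_card _).trans (by simp)

end Cfsg.Agent.S4669
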