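import Cfsg.Statements.S4671
import Cfsg.Agent.Blocks.CoveredDefect
-- import your own Cfsg.Agent.* helpers here

set_option autoImplicit false
open Cfsg

namespace Cfsg.Agent.S4671

/-- Fix a prime p and a maximal ideal M of the algebraic integers containing p. Let N be a normal subgroup of the finite group G, B a p-block of G and P a defect group of B. Then there is a p-block c of N, stable under conjugation by P and covered by B (some member of B has a constituent in c on restriction to N), such that P ∩ N is a defect group of c. -/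
theorem result {G : Type*} [Group G] [Fintype G] (p : ℕ) [Fact p.Prime] (M : Ideal Cfsg.AlgInt) (hM : Cfsg.IsPModular p M) (N : Subgroup G) [N.Normal] [Fintype N] (B : Set (Cfsg.IrrCharacter G)) (hB : Cfsg.IsPBlock M B) (P : Subgroup G) (hP : Cfsg.IsDefectGroup p M B P) : ∃ c : Set (Cfsg.IrrCharacter N), Cfsg.IsPBlock M c ∧ (∀ x ∈ P, Cfsg.StabilizesBlock N c x) ∧ (∃ χ ∈ B, ∃ θ ∈ c, Cfsg.classInner (fun n : N => (χ : G → ℂ) n) (θ : N → ℂ) ≠ 0) ∧ Cfsg.IsDefectGroup p M c ((P ⊓ N).subgroupOf N) := by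
  rename_i hN _
  obtain ⟨χ, hχ⟩ := CfsgLib.Blocks.IsPBlock.nonempty hM hB
  obtain ⟨θ, hne⟩ := CfsgLib.Blocks.exists_constituent_restrict N χ
  have hb := CfsgLib.Blocks.isPBlock_blockOf M θ
  obtain ⟨P₀, hP₀, hP₀N, hP₀s⟩ := CfsgLib.Blocks.exists_defectGroup_inf hM hb hB
    ⟨χ, hχ, θ, CfsgLib.Blocks.mem_blockOf_self hM θ, hne⟩
  obtain ⟨g, hg⟩ := CfsgLib.Blocks.exists_conj_eq_defectGroup hM hB hP₀ hP
  set e := CfsgLib.Blocks.conjK (CfsgLib.Blocks.mem_normalizer_of_normal (N := N) g) with he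
  refine ⟨CfsgLib.Blocks.pushBlock e (Cfsg.blockOf M (θ : N → ℂ)), CfsgLib.Blocks.isPBlock_pushBlock e hb, ?_, ?_, ?_⟩
  · rintro x hx
    obtain ⟨y, hy, rfl⟩ : x ∈ P₀.map (MulAut.conj g).toMonoidHom := hg.symm ▸ hx
    obtain ⟨hyn, hfix⟩ := CfsgLib.Blocks.stabilizesBlock_iff.1 (hP₀s y hy)
    refine CfsgLib.Blocks.stabilizesBlock_iff.2 ⟨CfsgLib.Blocks.mem_normalizer_of_normal _, ?_⟩
    rw [← CfsgLib.Blocks.pushBlock_trans]
    conv_rhs => rw [← hfix, ← CfsgLib.Blocks.pushBlock_trans]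
    congr 1
    exact MulEquiv.ext fun k => Subtype.ext (by simp [he, CfsgLib.Blocks.coe_conjK, mul_assoc])
  · refine ⟨χ, hχ, CfsgLib.Blocks.pushChar e θ, ⟨θ, CfsgLib.Blocks.mem_blockOf_self hM θ, rfl⟩, ?_⟩
    rw [← CfsgLib.Clifford.classInner_comp_equiv e]
    have h1 : (fun k : N => (χ : G → ℂ) (e k)) = fun k : N => (χ : G → ℂ) k := funext fun k =>
      CfsgLib.CharBasics.isClassFunction (CfsgLib.CharBasics.isCharacter_of_irr χ.2) k g
    have h2 : (fun k : N => (CfsgLib.Blocks.pushChar e θ : N → ℂ) (e k)) = (θ : N → ℂ) := funext fun k => by simp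
    rwa [h1, h2]
  · convert CfsgLib.Blocks.isDefectGroup_push e hM hP₀N using 1
    ext n
    rw [Subgroup.mem_map_equiv, Subgroup.mem_subgroupOf, Subgroup.mem_subgroupOf, Subgroup.mem_inf, Subgroup.mem_inf, ← hg,
      Subgroup.mem_map_equiv]
    exact and_congr (iff_of_eq (congrArg (· ∈ P₀) (by simp [he, CfsgLib.Blocks.conjK]))) ⟨fun _ => (e.symm n).2, fun _ => n.2⟩

end Cfsg.Agent.S4671
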