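import Cfsg.Statements.S4680
import Cfsg.Agent.Blocks.PairAlg.Fusion

set_option autoImplicit false
open Cfsg

namespace Cfsg.Agent.S4680

open CfsgLib.PairAlg CfsgLib.Blocks
attribute [local instance] residueField residue_charP


/-- Fix a prime p and a maximal ideal M of the algebraic integers containing p, a p-block B of the finite group G with maximal Brauer pair (P, e), its fusion system F on P, and a Brauer pair (Q, f) ≤ (P, e). Then Q is centric in F if and only if Z(Q) is a defect group of f as a block of C_G(Q). -/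
theorem result {G : Type*} [Group G] [Fintype G] (p : ℕ) [Fact p.Prime] (M : Ideal Cfsg.AlgInt) (hM : Cfsg.IsPModular p M) (B : Set (Cfsg.IrrCharacter G)) (P : Subgroup G) (e : Set (Cfsg.IrrCharacter (Subgroup.centralizer (P : Set G)))) (hmax : Cfsg.IsMaximalBrauerPair p M B P e) (F : Cfsg.FusionSystem P) (hF : Cfsg.IsBlockFusionSystemOn p M B P e F) (Q : Subgroup G) (f : Set (Cfsg.IrrCharacter (Subgroup.centralizer (Q : Set G)))) (hQP : Q ≤ P) (hf : Cfsg.IsPBlock M f) (hle : Cfsg.SubpairLE p M Q f P e) : F.IsCentric Q ↔ Cfsg.IsDefectGroup p M f ((Q ⊓ Subgroup.centralizer (Q : Set G)).subgroupOf (Subgroup.centralizer (Q : Set G))) := by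
  obtain ⟨hQf, hle'⟩ := le'_of_subpairLE hM hle hmax.1.1
  have hc := complete (G := G) hM
  have hm := isMax_bc hM hmax
  have hPp : IsPGroup p P := hmax.1.1.1
  set Z := Q ⊓ Subgroup.centralizer (Q : Set G) with hZ
  have hZP : Z ≤ P ⊓ Subgroup.centralizer (Q : Set G) := inf_le_inf_right _ hQP
  have hne : Br Z (bc hM Q f) ≠ 0 := br_ne_of_le hZP (br_inf_ne hc hm hle' (centralizer_le_normalizer Q))
  rw [isDefectGroup_sub_iff hM hf (hPp.to_le (inf_le_left.trans hQP)) inf_le_right]
  show _ ↔ Br Z (bc hM Q f) ≠ 0 ∧ Nat.card Z = dmax p _ (bc hM Q f)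
  constructor
  · intro hcen
    refine ⟨hne, le_antisymm ?_ ?_⟩
    · exact le_dmax (hPp.to_le (inf_le_left.trans hQP)) inf_le_right hne
    · obtain ⟨x, hx, hcard⟩ := exists_full hc hm hle' (centralizer_le_stab (isPair_bc hM hQf))
      rw [← hcard, ← card_cm x Z]
      refine Subgroup.card_le_of_le ?_
      rw [cm_inf]
      refine le_inf ?_ inf_le_right
      rw [cm_centralizer]
      exact hcen.2 (cm x Q) ((isConj_iff hM hmax hF).2 ⟨x, ⟨hQP, _, hle', hx⟩, rfl⟩)
  · rintro ⟨-, hcard⟩
    refine ⟨hQP, fun R hR => ?_⟩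
    obtain ⟨g, hmv, rfl⟩ := (isConj_iff hM hmax hF).1 hR
    have hg := hmv.below hc hm hle'
    have hle2 : cm g Z ≤ P ⊓ Subgroup.centralizer ((cm g Q : Subgroup G) : Set G) := by
      rw [cm_inf, cm_centralizer]
      exact inf_le_inf_right _ hg.subgroup_le
    have heq : cm g Z = P ⊓ Subgroup.centralizer ((cm g Q : Subgroup G) : Set G) := by
      refine Subgroup.eq_of_le_of_card_ge hle2 ?_
      rw [card_cm, hcard, ← cm_centralizer]
      exact card_inf_le_conj hc hm (centralizer_le_normalizer Q) hg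
    show P ⊓ Subgroup.centralizer ((cm g Q : Subgroup G) : Set G) ≤ cm g Q
    rw [← heq]
    exact cm_mono inf_le_left

end Cfsg.Agent.S4680
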