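import Cfsg.Statements.S4681
import Cfsg.Agent.Blocks.PairAlg.Fusion
import Cfsg.Agent.Blocks.PairAlg.Eps

set_option autoImplicit false
open Cfsg

namespace Cfsg.Agent.S4681

open CfsgLib.PairAlg CfsgLib.Blocks
attribute [local instance] residueField residue_charP
noncomputable local instance instFintypeSubgroupS4681 {G : Type*} [Group G] [Fintype G] (K : Subgroup G) : Fintype K := Fintype.ofFinite K

theorem principal_pair {G : Type*} [Group G] [Fintype G] (p : ℕ) [Fact p.Prime] (M : Ideal AlgInt)
    (hM : IsPModular p M) (S : Sylow p G) :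
    IsMaximalBrauerPair p M (principalBlock M G) (S : Subgroup G)
      (principalBlock M (Subgroup.centralizer ((S : Subgroup G) : Set G))) ∧
      eps (bc hM (S : Subgroup G) (principalBlock M (Subgroup.centralizer ((S : Subgroup G) : Set G)))) = 1 := by
  set e₀ := principalBlock M (Subgroup.centralizer ((S : Subgroup G) : Set G)) with he₀
  have hpair : IsBrauerPair p M (S : Subgroup G) e₀ := ⟨S.isPGroup', isPBlock_principal⟩
  have h1 : eps (bc hM (S : Subgroup G) e₀) = 1 := by
    unfold bc
    exact eps_bl_principal hM _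
  refine ⟨⟨?_, fun R g hR hle => ?_⟩, h1⟩
  · refine (isBrauerPairOf_iff_bc hM isPBlock_principal hpair).2 ?_
    have hB : IsBlk ⊤ (bG hM (principalBlock M G)) := by
      have := isBlk_bl hM (MonoidHom.id G) id_injective (isPBlock_principal (M := M) (G := G))
      rwa [range_id] at this
    have hP := isPair_bc hM hpair
    have hfix := fix_of_cenIn hB.cen (le_top : (S : Subgroup G) ≤ ⊤)
    refine ⟨hB, hP, (hP.blk.mul_idem (cenIn_br_top hB.cen) (by rw [← br_mul hP.isP hfix hfix, hB.idem])).resolve_left
      fun h0 => ?_⟩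
    have := congrArg (eps (G := G)) h0
    rw [map_mul, eps_br hP.isP hfix, h1, map_zero, one_mul] at this
    rw [show eps (bG hM (principalBlock M G)) = 1 from eps_bl_principal hM _] at this
    exact one_ne_zero this
  · exact S.is_maximal' hR.1.1 ((le'_of_subpairLE hM hle hR.1).2.subgroup_le)


/-- Fix a prime p and a maximal ideal M of the algebraic integers containing p. Let B₀ be the principal p-block of the finite group G, P a Sylow p-subgroup and e₀ the principal p-block of C_G(P). Then (P, e₀) is a maximal Brauer pair of B₀, and the fusion system of B₀ on (P, e₀) is the fusion system of G on P: its maps from each subgroup of P are exactly the conjugation maps into P by elements of G. -/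
theorem result {G : Type*} [Group G] [Fintype G] (p : ℕ) [Fact p.Prime] (M : Ideal Cfsg.AlgInt) (hM : Cfsg.IsPModular p M) (S : Sylow p G) : Cfsg.IsMaximalBrauerPair p M (Cfsg.principalBlock M G) (S : Subgroup G) (Cfsg.principalBlock M (Subgroup.centralizer ((S : Subgroup G) : Set G))) ∧ ∀ F : Cfsg.FusionSystem (S : Subgroup G), Cfsg.IsBlockFusionSystemOn p M (Cfsg.principalBlock M G) (S : Subgroup G) (Cfsg.principalBlock M (Subgroup.centralizer ((S : Subgroup G) : Set G))) F → ∀ Q : Subgroup G, F.Hom Q = (Cfsg.groupFusionSystem (S : Subgroup G)).Hom Q := by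
  obtain ⟨hmax, h1⟩ := principal_pair p M hM S
  refine ⟨hmax, fun F hF Q => ?_⟩
  have hc := complete (G := G) hM
  have hm := isMax_bc hM hmax
  ext φ
  rw [mem_hom_iff hM hmax hF]
  constructor
  · rintro ⟨g, hφ, hmv⟩
    refine ⟨hmv.1, fun x => ?_, g, hφ⟩
    rw [hφ]
    exact hmv.le (conj_mem_cm.2 x.2)
  · rintro ⟨hQ, hS, g, hφ⟩
    refine ⟨g, hφ, hQ, ?_⟩
    have hgQ : cm g Q ≤ (S : Subgroup G) := fun y hy => by
      have := hS ⟨_, mem_cm.1 hy⟩
      rw [hφ] at this
      simpa [mul_assoc] using this
    obtain ⟨f, hf⟩ := exists_below hc hm.1.2.1 hQ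
    obtain ⟨b, hb⟩ := exists_below hc hm.1.2.1 hgQ
    refine ⟨f, hf, ?_⟩
    rwa [← (hb.isPair hm.1.2.1).blk.eq_of_eps ((hf.isPair hm.1.2.1).cj g).blk (hb.eps_eq_one h1)
      (by rw [eps_cj]; exact hf.eps_eq_one h1)]

end Cfsg.Agent.S4681
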