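import Cfsg.Statements.S4683
import Cfsg.Agent.Blocks.Rank
import Cfsg.Agent.ZStar.Second
-- import your own Cfsg.Agent.* helpers here

set_option autoImplicit false
set_option linter.style.haveILetI false
open Cfsg CfsgLib CfsgLib.Blocks CfsgLib.CharBasics
open scoped ComplexConjugate

namespace Cfsg.Agent.S4683

theorem aux {G : Type*} [Group G] [Fintype G] {p : ℕ} {M : Ideal Cfsg.AlgInt} (hM : IsPModular p M)
    {B : Set (IrrCharacter G)} {u : G} (hu : ∃ k : ℕ, orderOf u = p ^ k) (H : Subgroup G)
    (hH : H = Subgroup.centralizer ({u} : Set G)) (e : Set (IrrCharacter H)) (hind : IsInducedBlock M H e B) :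
    ∑ᶠ χ ∈ B, ∑ᶠ s : H, pRegularPart p (blockPart e (fun c : H => (χ : G → ℂ) (u * c))) s *
      blockPart e (fun c : H => (χ : G → ℂ) (u⁻¹ * c)) s⁻¹ = (Nat.card H : ℂ) * (blockRank p e : ℂ) := by
  classical
  subst hH
  haveI : Fintype (Subgroup.centralizer ({u} : Set G)) := Fintype.ofFinite _
  haveI : Fintype (IrrCharacter G) := @Fintype.ofFinite _ finite_irrCharacter
  haveI : Fintype (IrrCharacter (Subgroup.centralizer ({u} : Set G))) := @Fintype.ofFinite _ finite_irrCharacter
  have hconj : ∀ (χ : IrrCharacter G) (s : Subgroup.centralizer ({u} : Set G)),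
      blockPart e (fun c : Subgroup.centralizer ({u} : Set G) => (χ : G → ℂ) (u⁻¹ * c)) s⁻¹ =
        conj (blockPart e (shiftFun u (χ : G → ℂ)) s) := by
    intro χ s
    simp only [ZStar.blockPart_apply, map_sum, apply_ite (f := (starRingEnd ℂ)), map_zero, map_mul]
    refine Finset.sum_congr rfl fun ξ _ => ?_
    split_ifs
    · rw [apply_inv (isCharacter_of_irr ξ.2)]
      congr 1
      simp only [classInner_eq, map_mul, map_inv₀, Complex.conj_natCast, map_sum, Complex.conj_conj, shiftFun]
      congr 1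
      refine Fintype.sum_equiv (Equiv.inv _) _ _ fun c => ?_
      simp only [Equiv.inv_apply, Subgroup.coe_inv, apply_inv (isCharacter_of_irr ξ.2), Complex.conj_conj]
      rw [← apply_inv (isCharacter_of_irr χ.2), mul_inv_rev, inv_inv]
      have hc : (c : G) * u = u * c := Subgroup.mem_centralizer_singleton_iff.1 c.2
      congr 1
      exact congrArg _ (Commute.inv_left (show Commute u (c : G) from hc.symm)).eq
    · rfl
  have hterm : ∀ χ : IrrCharacter G, (∑ᶠ s : Subgroup.centralizer ({u} : Set G),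
      pRegularPart p (blockPart e (fun c : Subgroup.centralizer ({u} : Set G) => (χ : G → ℂ) (u * c))) s *
      blockPart e (fun c : Subgroup.centralizer ({u} : Set G) => (χ : G → ℂ) (u⁻¹ * c)) s⁻¹) =
      ∑ s : Subgroup.centralizer ({u} : Set G),
        secVal p u e (χ : G → ℂ) s * conj (secVal p u e (χ : G → ℂ) s) := by
    intro χ
    rw [finsum_eq_sum_of_fintype]
    refine Finset.sum_congr rfl fun s _ => ?_
    rw [pRegularPart_apply, hconj, secVal]
    split_ifs
    · simp
    · rfl
  have hout : ∀ χ : IrrCharacter G, χ ∉ B → ∀ s, secVal p u e (χ : G → ℂ) s = 0 := fun χ hχ s => by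
    refine secVal_eq_zero hM hu hind.1 (isPBlock_blockOf M χ) (mem_blockOf_self hM χ) (fun h => hχ ?_) s
    obtain ⟨ξ, hξ⟩ := IsPBlock.nonempty hM hind.1
    obtain ⟨χ₀, hχ₀⟩ := IsPBlock.nonempty hM hind.2.1
    rw [IsPBlock.eq_blockOf hM hind.2.1 hχ₀]
    intro g
    simpa using memLocalIdeal_sub hM (h.2.2 ξ hξ χ (mem_blockOf_self hM χ) g) (hind.2.2 ξ hξ χ₀ hχ₀ g)
  rw [finsum_mem_congr rfl (fun χ _ => hterm χ), finsum_mem_eq_toFinset_sum,
    Finset.sum_subset (Finset.subset_univ _) (fun χ _ hχ => Finset.sum_eq_zero fun s _ => by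
      rw [hout χ (by simpa using hχ) s, zero_mul]),
    Finset.sum_comm, ← sum_blockKernel_diag hM hind.1]
  refine Finset.sum_congr rfl fun s _ => ?_
  split_ifs with hs
  · exact Finset.sum_eq_zero fun χ _ => by rw [secVal, if_pos hs, zero_mul]
  · exact sum_secVal_mul hM hu hind.1 hs hs

/-- Fix a prime p and a maximal ideal M of the algebraic integers containing p, a p-block B of the finite group G, a p-element u and a p-block e of C = C_G(u) such that (⟨u⟩, e) is a Brauer pair of B (a Brauer element of B). For χ ∈ B let χ_u be the e-part of the class function c ↦ χ(u c) on C and χ_u' the e-part of c ↦ χ(u⁻¹ c). Then the sum over χ ∈ B and over the p-regular elements s of C of χ_u(s)·χ_u'(s⁻¹) equals the order of C times the p-regular rank of e (the number of irreducible Brauer characters of e). -/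
theorem result {G : Type*} [Group G] [Fintype G] (p : ℕ) [Fact p.Prime] (M : Ideal Cfsg.AlgInt) (hM : Cfsg.IsPModular p M) (B : Set (Cfsg.IrrCharacter G)) (u : G) (hu : ∃ k : ℕ, orderOf u = p ^ k) (e : Set (Cfsg.IrrCharacter (Subgroup.centralizer (Subgroup.zpowers u : Set G)))) (hBe : Cfsg.IsBrauerPairOf p M B (Subgroup.zpowers u) e) : ∑ᶠ χ ∈ B, ∑ᶠ s : Subgroup.centralizer (Subgroup.zpowers u : Set G), Cfsg.pRegularPart p (Cfsg.blockPart e (fun c : Subgroup.centralizer (Subgroup.zpowers u : Set G) => (χ : G → ℂ) (u * c))) s * Cfsg.blockPart e (fun c : Subgroup.centralizer (Subgroup.zpowers u : Set G) => (χ : G → ℂ) (u⁻¹ * c)) s⁻¹ = (Nat.card (Subgroup.centralizer (Subgroup.zpowers u : Set G)) : ℂ) * (Cfsg.blockRank p e : ℂ) := by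
  classical
  obtain ⟨⟨hQ, he⟩, hB, h⟩ := hBe
  haveI := Fintype.ofFinite (Subgroup.centralizer (Subgroup.zpowers u : Set G))
  have hC : Subgroup.centralizer (Subgroup.zpowers u : Set G) = Subgroup.centralizer ({u} : Set G) := by
    rw [Subgroup.zpowers_eq_closure, Subgroup.centralizer_closure]
  refine aux hM hu _ hC e ?_
  obtain ⟨ξ, hξ⟩ := IsPBlock.nonempty hM he
  refine ZStar.isInducedBlock_of_not_small hM hQ (fun g => Subgroup.mem_centralizer_iff) he hB hξ fun hs => ?_
  have h1 := h ξ hξ
  have hval : brauerOmega (Subgroup.zpowers u) (blockCoeff B)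
      (ξ : Subgroup.centralizer (Subgroup.zpowers u : Set G) → ℂ) =
      omega (ξ : Subgroup.centralizer (Subgroup.zpowers u : Set G) → ℂ)
        (ZStar.res _ (blockElt B)) := by
    rw [ZStar.omega_res, Cfsg.brauerOmega, finsum_eq_sum_of_fintype, Finset.sum_div]
    simp only [coeff_blockElt]
  rw [hval] at h1
  exact not_memLocalIdeal_one hM (by simpa using memLocalIdeal_sub hM hs h1)

end Cfsg.Agent.S4683
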