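import Cfsg.Statements.S4686
import Cfsg.Agent.Blocks.PairAlg.Nilpotent

set_option autoImplicit false
open Cfsg

namespace Cfsg.Agent.S4686

open CfsgLib.PairAlg CfsgLib.Blocks
attribute [local instance] residueField residue_charP


/-- Fix a prime p and a maximal ideal M of the algebraic integers containing p, a p-block B of the finite group G with maximal Brauer pair (P, e) and fusion system F on P. Then B is nilpotent (for every Brauer pair (Q, f) of B the stabilizer of f in N_G(Q) is C_G(Q) extended by a p-group) if and only if F is the inner fusion system of P: its maps from each subgroup of P are exactly the conjugations by elements of P. -/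
theorem result {G : Type*} [Group G] [Fintype G] (p : ℕ) [Fact p.Prime] (M : Ideal Cfsg.AlgInt) (hM : Cfsg.IsPModular p M) (B : Set (Cfsg.IrrCharacter G)) (P : Subgroup G) (e : Set (Cfsg.IrrCharacter (Subgroup.centralizer (P : Set G)))) (hmax : Cfsg.IsMaximalBrauerPair p M B P e) (F : Cfsg.FusionSystem P) (hF : Cfsg.IsBlockFusionSystemOn p M B P e F) : Cfsg.IsNilpotentBlock p M B ↔ ∀ Q : Subgroup G, F.Hom Q = (Cfsg.innerFusionSystem P).Hom Q := by
  refine ⟨fun hnil Q => by rw [hom_eq_inner_of_nilpotent hM hmax hF hnil], fun hin => ?_⟩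
  have hm := isMax_bc hM hmax
  refine ⟨hmax.1.2.1, fun Q f hQf x hxN hst hreg => ?_⟩
  have hof := (isBrauerPairOf_iff_bc hM hmax.1.2.1 hQf.1).1 hQf
  have hx : cj x (bc hM Q f) = bc hM Q f := (stabilizesBlock_bc_iff hM hQf.1.2 hxN).1 hst
  obtain ⟨y, hy⟩ := exists_conj_below_max hM hmax hof
  have hR : cm (y * x * y⁻¹) (cm y Q) = cm y Q := by
    rw [cm_cm, inv_mul_cancel_right, ← cm_cm, cm_of_mem_normalizer hxN]
  have hmv : Mv p P (bc hM P e) (y * x * y⁻¹) (cm y Q) := by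
    refine ⟨hy.subgroup_le, _, hy, ?_⟩
    rw [hR, cj_cj, inv_mul_cancel_right, ← cj_cj, hx]
    exact hy
  have hφ : conjHom (cm y Q) (y * x * y⁻¹) ∈ F.Hom (cm y Q) :=
    (mem_hom_iff hM hmax hF).2 ⟨_, fun u => rfl, hmv⟩
  rw [hin] at hφ
  obtain ⟨-, u, hu, hcu⟩ := hφ
  set v := y⁻¹ * u * y with hv
  have hcv : ∀ q ∈ Q, x * q * x⁻¹ = v * q * v⁻¹ := by
    intro q hq
    have h : y * x * y⁻¹ * (y * q * y⁻¹) * (y * x * y⁻¹)⁻¹ = u * (y * q * y⁻¹) * u⁻¹ :=
      hcu ⟨y * q * y⁻¹, conj_mem_cm.2 hq⟩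
    calc x * q * x⁻¹ = y⁻¹ * (y * x * y⁻¹ * (y * q * y⁻¹) * (y * x * y⁻¹)⁻¹) * y := by group
      _ = _ := by rw [h, hv]; group
  have hvN : v ∈ Subgroup.normalizer (Q : Set G) := by
    refine mem_normalizer_of_cm (Subgroup.eq_of_le_of_card_ge ?_ (card_cm v Q).ge)
    rintro _ ⟨q, hq, rfl⟩
    show v * q * v⁻¹ ∈ Q
    rw [← hcv q hq]
    exact (Subgroup.mem_normalizer_iff.1 hxN q).1 hq
  set ψ := CfsgLib.Fusion.conjAut Q (⊤ : Subgroup G) with hψ
  have heq : ψ ⟨x, trivial, hxN⟩ = ψ ⟨v, trivial, hvN⟩ :=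
    MulEquiv.ext fun q => Subtype.ext (hcv q q.2)
  have hd1 : orderOf (ψ ⟨x, trivial, hxN⟩) ∣ orderOf x :=
    (orderOf_map_dvd ψ _).trans (by rw [← Subgroup.orderOf_coe])
  obtain ⟨k, hk⟩ : ∃ k, v ^ p ^ k = 1 := by
    obtain ⟨k, hk⟩ := hmax.1.1.1 ⟨u, hu⟩
    refine ⟨k, ?_⟩
    have h1 : u ^ p ^ k = 1 := congrArg Subtype.val hk
    rw [hv, show y⁻¹ * u * y = y⁻¹ * u * (y⁻¹)⁻¹ by group, conj_pow, h1]
    group
  have hd2 : orderOf (ψ ⟨x, trivial, hxN⟩) ∣ p ^ k := by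
    rw [heq]
    refine (orderOf_map_dvd ψ _).trans (orderOf_dvd_of_pow_eq_one (Subtype.ext ?_))
    exact hk
  have hcop : (p ^ k).Coprime (orderOf x) := Nat.Coprime.pow_left _ ((Fact.out : p.Prime).coprime_iff_not_dvd.2 hreg)
  have h1 : ψ ⟨x, trivial, hxN⟩ = 1 := orderOf_eq_one_iff.1 (Nat.eq_one_of_dvd_coprimes hcop hd2 hd1)
  refine Subgroup.mem_centralizer_iff.2 fun q hq => ?_
  have h2 : x * q * x⁻¹ = q := congrArg (fun β : MulAut Q => ((β ⟨q, hq⟩ : Q) : G)) h1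
  conv_lhs => rw [← h2]
  group

end Cfsg.Agent.S4686
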