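import Cfsg.Statements.S4692
import Cfsg.Agent.Blocks.PairAlg.PPower

set_option autoImplicit false
open Cfsg

namespace Cfsg.Agent.S4692

open CfsgLib.PairAlg CfsgLib.Blocks
attribute [local instance] residueField residue_charP
noncomputable local instance instFintypeSubgroupS4692 {G : Type*} [Group G] [Fintype G] (K : Subgroup G) : Fintype K :=
  Fintype.ofFinite K


/-- Fix a prime p and a maximal ideal M of the algebraic integers containing p. Let N be a normal subgroup of p-power index in the finite group G and c a p-block of N stable under conjugation by G, and let B be the p-block of G whose idempotent is that of c (it exists and is unique). Then c is nilpotent as a block of N if and only if B is nilpotent as a block of G. -/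
theorem result {G : Type*} [Group G] [Fintype G] (p : ℕ) [Fact p.Prime] (M : Ideal Cfsg.AlgInt) (hM : Cfsg.IsPModular p M) (N : Subgroup G) [N.Normal] (hN : ∃ k : ℕ, N.index = p ^ k) (c : Set (Cfsg.IrrCharacter N)) (hc : Cfsg.IsPBlock M c) (hst : ∀ x : G, Cfsg.StabilizesBlock N c x) (B : Set (Cfsg.IrrCharacter G)) (hB : Cfsg.IsPBlock M B) (hBc : ∀ g : G, Cfsg.blockCoeff B g = Cfsg.subgroupBlockCoeff N c g) : Cfsg.IsNilpotentBlock p M c ↔ Cfsg.IsNilpotentBlock p M B := by
  have hcp := complete (G := G) hM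
  have hι : Function.Injective N.subtype := Subgroup.subtype_injective _
  have hE : bG hM B = bl hM N.subtype c := by
    ext g
    show (bl hM (MonoidHom.id G) B).coeff g = _
    rw [bl, bl, show g = (MonoidHom.id G) g from rfl, coeff_up hM _ id_injective, coeff_blockElt, hBc,
      subgroupBlockCoeff, MonoidHom.id_apply]
    by_cases hg : g ∈ N
    · rw [dif_pos hg, ← coeff_blockElt]
      exact (coeff_up hM N.subtype hι _ ⟨g, hg⟩).symm
    · rw [dif_neg hg, rd_zero, coeff_up_of_notMem hM _ _ (by rwa [Subgroup.range_subtype])]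
  have hcm : ∀ (u : G) (R : Subgroup G), cm u R = R → cm u (N ⊓ Subgroup.centralizer (R : Set G)) =
      N ⊓ Subgroup.centralizer (R : Set G) := fun u R hu => by
    rw [cm_inf, cm_centralizer, hu, cm_of_mem_normalizer (R := N) (Subgroup.le_normalizer_of_normal (Subgroup.mem_top u))]
  have hEblk : IsBlk ⊤ (bl hM N.subtype c) := by
    have := isBlk_bl hM (MonoidHom.id G) id_injective hB
    rw [range_id] at this
    rw [← hE]; exact this
  have hEN : IsBlk N (bl hM N.subtype c) := by
    have := isBlk_bl hM N.subtype hι hc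
    rwa [Subgroup.range_subtype] at this
  constructor
  · -- c nilpotent
    intro hnil
    refine ⟨hB, fun R f hRf x hxN hst hreg => ?_⟩
    have hof := (isBrauerPairOf_iff_bc hM hB hRf.1).1 hRf
    rw [hE] at hof
    have hxfix : cj x (bc hM R f) = bc hM R f := (stabilizesBlock_bc_iff hM hRf.1.2 hxN).1 hst
    have hxmem : x ∈ N := mem_of_regular hN hreg
    have hR0 : R ⊓ N ≤ R := inf_le_left
    obtain ⟨b, hb⟩ := exists_below hcp hof.2.1 hR0
    have hbp := hb.isPair hof.2.1
    have hbof : OfBlk p ⊤ (bl hM N.subtype c) (R ⊓ N) b := (ofBlk_iff_of_le hcp hb).1 hof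
    have hx0 : cm x (R ⊓ N) = R ⊓ N := by
      rw [cm_inf, cm_of_mem_normalizer hxN,
        cm_of_mem_normalizer (R := N) (Subgroup.le_normalizer_of_normal (Subgroup.mem_top x))]
    have hxb : cj x b = b := by
      have := hb.cj x
      rw [hx0, cm_of_mem_normalizer hxN, hxfix] at this
      exact below_unique hcp hof.2.1 this hb
    have hR0N : ∀ r ∈ R ⊓ N, r ∈ N := fun r hr => hr.2
    set K := N ⊓ Subgroup.centralizer ((R ⊓ N : Subgroup G) : Set G) with hK
    have hbK : Supp K b := supp_bc hM hN hbp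
    have hbblk : IsBlk (Subgroup.centralizer ((R ⊓ N : Subgroup G) : Set G)) b := by
      have := hbp.blk; rwa [CH_top] at this
    obtain ⟨k, hk⟩ := hN
    have hidx : K.relIndex (Subgroup.centralizer ((R ⊓ N : Subgroup G) : Set G)) ∣ p ^ k := by
      rw [hK, Subgroup.inf_relIndex_right, ← hk]
      exact Subgroup.relIndex_dvd_index_of_normal N _
    have hxC : x ∈ Subgroup.centralizer ((R ⊓ N : Subgroup G) : Set G) := by
      refine mem_of_primePow_parts fun q hq hqx y hy hyord => ?_
      haveI := Fact.mk hq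
      have hqp : q.Coprime p := ((Fact.out : p.Prime).coprime_iff_not_dvd.2 fun h => hreg (((Nat.prime_dvd_prime_iff_eq
        (Fact.out : p.Prime) hq).1 h) ▸ hqx)).symm
      have hy0 : cm y (R ⊓ N) = R ⊓ N :=
        cm_of_mem_normalizer ((Subgroup.zpowers_le.2 (mem_normalizer_of_cm hx0) : Subgroup.zpowers x ≤ _) hy)
      have hyb : cj y b = b := (Subgroup.zpowers_le.2 (mem_stabOf.2 hxb) : Subgroup.zpowers x ≤ stabOf b) hy
      obtain ⟨g, hg, hbg, hyg⟩ := exists_fixed_below hcp (inf_le_right : K ≤ _)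
        (fun u hu => hcm u _ (cm_of_mem_normalizer (centralizer_le_normalizer _ hu))) hidx hbblk hbK hqp hyord
        (hcm y _ hy0) hyb
      set Q' := (R ⊓ N).subgroupOf N with hQ'
      have hmap : Q'.map N.subtype = R ⊓ N := Subgroup.map_subgroupOf_eq_of_le inf_le_right
      obtain ⟨g', hg', hg'e⟩ := exists_bl hM (N.subtype.comp (Subgroup.centralizer (Q' : Set N)).subtype)
        (injective_comp _ hι _) (K := K) (by rw [range_centralizer _ hι, hmap, Subgroup.range_subtype]; rfl) hg
      have hQ'p : IsPGroup p Q' := (hof.2.1.isP.to_le inf_le_left).of_equiv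
        (Subgroup.subgroupOfEquivOfLe inf_le_right).symm
      have hpair : IsBrauerPairOf p M c Q' g' := by
        refine (isBrauerPairOf_iff_ofBlk hM N.subtype hι hc ⟨hQ'p, hg'⟩).2 ?_
        rw [hg'e, hmap, Subgroup.range_subtype]
        refine ⟨hEN, ⟨hbp.isP, inf_le_right, hg⟩, ?_⟩
        rw [← hbg, (show CenIn K b from ⟨hbK, hbblk.cen.2.mono inf_le_right⟩).comm hg.cen.1, mul_assoc, hbof.2.2,
          ← (show CenIn K b from ⟨hbK, hbblk.cen.2.mono inf_le_right⟩).comm hg.cen.1, hbg]
      have hyN : y ∈ N := (Subgroup.zpowers_le.2 hxmem : Subgroup.zpowers x ≤ N) hy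
      have hyn' : (⟨y, hyN⟩ : N) ∈ Subgroup.normalizer (Q' : Set N) := by
        refine Subgroup.mem_normalizer_iff.2 fun r => ?_
        rw [hQ', Subgroup.mem_subgroupOf, Subgroup.mem_subgroupOf]
        exact Subgroup.mem_normalizer_iff.1 (mem_normalizer_of_cm hy0) (r : G)
      have hyst : StabilizesBlock (Subgroup.centralizer (Q' : Set N)) g' ⟨y, hyN⟩ :=
        (stabilizesBlock_iff_cj hM N.subtype hι hg').2 ⟨le_normalizer_centralizer Q' hyn', by rw [hg'e]; exact hyg⟩
      have hyreg : IsPRegular p (⟨y, hyN⟩ : N) := by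
        rw [IsPRegular, ← Subgroup.orderOf_coe]
        exact fun h => hreg (h.trans (orderOf_dvd_of_mem_zpowers hy))
      have h1 := hnil.2 Q' g' hpair _ hyn' hyst hyreg
      refine Subgroup.mem_centralizer_iff.2 fun r hr => ?_
      exact congrArg Subtype.val (Subgroup.mem_centralizer_iff.1 h1 ⟨r, hr.2⟩ hr)
    refine Subgroup.mem_centralizer_iff.2 fun r hr => ?_
    set d := x * r * x⁻¹ * r⁻¹ with hd
    have hdR : d ∈ R ⊓ N := by
      refine ⟨R.mul_mem ((Subgroup.mem_normalizer_iff.1 hxN r).1 hr) (R.inv_mem hr), ?_⟩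
      show x * r * x⁻¹ * r⁻¹ ∈ N
      rw [show x * r * x⁻¹ * r⁻¹ = x * (r * x⁻¹ * r⁻¹) by group]
      exact N.mul_mem hxmem ((inferInstance : N.Normal).conj_mem _ (N.inv_mem hxmem) r)
    have hxd : x * d = d * x := (Subgroup.mem_centralizer_iff.1 hxC d hdR).symm
    have hpow : ∀ n : ℕ, x ^ n * r * (x ^ n)⁻¹ = d ^ n * r := by
      intro n
      induction n with
      | zero => simp
      | succ n ih =>
        have e : x * d ^ n * x⁻¹ = d ^ n := by
          rw [(Commute.pow_right (show Commute x d from hxd) n).eq, mul_inv_cancel_right]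
        calc x ^ (n + 1) * r * (x ^ (n + 1))⁻¹ = x * (x ^ n * r * (x ^ n)⁻¹) * x⁻¹ := by
              rw [pow_succ', mul_inv_rev]; group
          _ = (x * d ^ n * x⁻¹) * (x * r * x⁻¹) := by rw [ih]; group
          _ = _ := by rw [e, show x * r * x⁻¹ = d * r by rw [hd]; group, ← mul_assoc, ← pow_succ]
    have hdn : d ^ orderOf x = 1 := by
      have := hpow (orderOf x)
      rw [pow_orderOf_eq_one, one_mul, inv_one, mul_one] at this
      exact (mul_eq_right.1 this.symm)
    obtain ⟨i, hi⟩ := hof.2.1.isP ⟨d, hdR.1⟩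
    have hd1 : d = 1 := orderOf_eq_one_iff.1 (Nat.eq_one_of_dvd_coprimes
      (Nat.Coprime.pow_left i ((Fact.out : p.Prime).coprime_iff_not_dvd.2 hreg))
      (orderOf_dvd_of_pow_eq_one (congrArg Subtype.val hi)) (orderOf_dvd_of_pow_eq_one hdn))
    have := hpow 1
    rw [pow_one, pow_one, hd1, one_mul] at this
    conv_lhs => rw [← this]
    group
  · -- B nilpotent
    intro hnil
    refine ⟨hc, fun Q g hQg x hxN hst hreg => ?_⟩
    have h1 := (isBrauerPairOf_iff_ofBlk hM N.subtype hι hc hQg.1).1 hQg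
    set a := bl hM (N.subtype.comp (Subgroup.centralizer (Q : Set N)).subtype) g with ha
    set R := Q.map N.subtype with hR
    rw [Subgroup.range_subtype] at h1
    have hRp : IsPGroup p R := h1.2.1.isP
    have hKdef : CH N R = N ⊓ Subgroup.centralizer (R : Set G) := rfl
    have hne : a ≠ 0 := h1.2.1.blk.ne
    obtain ⟨f, hf, hfa⟩ := exists_blk_mul_ne hcp (K := Subgroup.centralizer (R : Set G)) hne
    have hfp : IsPair p ⊤ R f := ⟨hRp, le_top, by rw [CH_top]; exact hf⟩
    have hfK : CenIn (CH N R) f := ⟨supp_bc hM hN hfp, hf.cen.2.mono inf_le_right⟩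
    have hga : f * a = a := by
      rw [hfK.comm h1.2.1.blk.cen.1] at hfa ⊢
      exact (h1.2.1.blk.mul_idem hfK hf.idem).resolve_left hfa
    have hEfix : Fix R (bl hM N.subtype c) := hEblk.cen.2.mono le_top
    have hfof : OfBlk p ⊤ (bl hM N.subtype c) R f := by
      refine ⟨hEblk, hfp, (hfp.blk.mul_idem (cenIn_br_top hEblk.cen)
        (by rw [← br_mul hRp hEfix hEfix, hEblk.idem])).resolve_left fun h0 => hne ?_⟩
      have e : f * a * Br R (bl hM N.subtype c) = a := by rw [hga, h1.2.2]
      rw [hfK.comm h1.2.1.blk.cen.1, mul_assoc, h0, mul_zero] at e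
      exact e.symm
    have hxR : cm (x : G) R = R := by
      refine Subgroup.eq_of_le_of_card_ge ?_ (card_cm _ _).ge
      rintro _ ⟨_, ⟨r, hr, rfl⟩, rfl⟩
      exact ⟨x * r * x⁻¹, (Subgroup.mem_normalizer_iff.1 hxN r).1 hr, rfl⟩
    have hxa : cj (x : G) a = a := ((stabilizesBlock_iff_cj hM N.subtype hι hQg.1.2).1 hst).2
    have hxf : cj (x : G) f = f := by
      have hfx : IsBlk (Subgroup.centralizer (R : Set G)) (cj (x : G) f) := by
        have := hf.cj (x : G)
        rwa [show (Subgroup.centralizer (R : Set G)).map (MulAut.conj (x : G)).toMonoidHom =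
          Subgroup.centralizer (R : Set G) by
            show cm (x : G) _ = _
            rw [cm_centralizer, hxR]] at this
      have h2 : cj (x : G) f * a = a := by
        conv_lhs => rw [← hxa]
        rw [← map_mul, hga, hxa]
      refine (hfx.eq_or_mul_eq_zero hf).resolve_left fun h0 => hne ?_
      rw [← h2, ← hga, ← mul_assoc, h0, zero_mul]
    rw [← hE] at hfof
    obtain ⟨f', hf', rfl⟩ := exists_bc hM hfp
    have h3 := hnil.2 R f' ((isBrauerPairOf_iff_bc hM hB hf').2 hfof) x (mem_normalizer_of_cm hxR)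
      ((stabilizesBlock_bc_iff hM hf'.2 (mem_normalizer_of_cm hxR)).2 hxf) (by rwa [IsPRegular, Subgroup.orderOf_coe])
    refine Subgroup.mem_centralizer_iff.2 fun r hr => Subtype.ext ?_
    exact Subgroup.mem_centralizer_iff.1 h3 (r : G) ⟨r, hr, rfl⟩

end Cfsg.Agent.S4692
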