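import Cfsg.Statements.S4693
import Cfsg.Agent.Blocks.PairAlg.Nilpotent
import Cfsg.Agent.Blocks.PairAlg.Util
import Cfsg.Agent.S4680

set_option autoImplicit false
open Cfsg

namespace Cfsg.Agent.S4693

open CfsgLib.PairAlg CfsgLib.Blocks
open scoped Pointwise
attribute [local instance] residueField residue_charP
noncomputable local instance instFintypeSubgroupS4693 {G : Type*} [Group G] [Fintype G] (K : Subgroup G) : Fintype K :=
  Fintype.ofFinite K


/-- Fix a prime p and a maximal ideal M of the algebraic integers containing p, a p-block B of the finite group G with maximal Brauer pair (P, e) and fusion system F on P, and a Brauer pair (Q, f) ≤ (P, e) with Q centric in F. Suppose every element of G normalizes Q and stabilizes f. Then the idempotent of B agrees with that of f modulo M at every element of G, and f is the idempotent of a nilpotent block of Q·C_G(Q): some p-block of Q·C_G(Q) has the idempotent coefficients of f and is nilpotent. -/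
theorem result {G : Type*} [Group G] [Fintype G] (p : ℕ) [Fact p.Prime] (M : Ideal Cfsg.AlgInt) (hM : Cfsg.IsPModular p M) (B : Set (Cfsg.IrrCharacter G)) (P : Subgroup G) (e : Set (Cfsg.IrrCharacter (Subgroup.centralizer (P : Set G)))) (hmax : Cfsg.IsMaximalBrauerPair p M B P e) (F : Cfsg.FusionSystem P) (hF : Cfsg.IsBlockFusionSystemOn p M B P e F) (Q : Subgroup G) (f : Set (Cfsg.IrrCharacter (Subgroup.centralizer (Q : Set G)))) (hQP : Q ≤ P) (hf : Cfsg.IsPBlock M f) (hle : Cfsg.SubpairLE p M Q f P e) (hcen : F.IsCentric Q) (hG : ∀ x : G, x ∈ Subgroup.normalizer (Q : Set G) ∧ Cfsg.StabilizesBlock (Subgroup.centralizer (Q : Set G)) f x) : (∀ g : G, Cfsg.MemLocalIdeal M (Cfsg.blockCoeff B g - Cfsg.subgroupBlockCoeff (Subgroup.centralizer (Q : Set G)) f g)) ∧ ∃ F' : Set (Cfsg.IrrCharacter ↥(Q ⊔ Subgroup.centralizer (Q : Set G))), Cfsg.IsPBlock M F' ∧ (∀ t : ↥(Q ⊔ Subgroup.centralizer (Q : Set G)), Cfsg.blockCoeff F' t = Cfsg.subgroupBlockCoeff (Subgroup.centralizer (Q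 : Set G)) f (t : G)) ∧ Cfsg.IsNilpotentBlock p M F' := by
  obtain ⟨hQf, hle'⟩ := le'_of_subpairLE hM hle hmax.1.1
  have hc := complete (G := G) hM
  have hp := isPair_bc hM hQf
  have htop : (⊤ : Subgroup G) ≤ stab Q (bc hM Q f) := fun x _ =>
    ⟨(hG x).1, (stabilizesBlock_bc_iff hM hf (hG x).1).1 (hG x).2⟩
  have hEf : bG hM B = bc hM Q f :=
    ofBlk_unique (ofBlk_of_below hM hmax hle')
      ⟨isBlk_of_stab hp le_top le_top htop, hp, by rw [hp.br_self, hp.blk.idem]⟩
  refine ⟨fun g => ?_, ?_⟩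
  · have hb := memLocalRing_blockCoeff hM hmax.1.2.1 g
    have hs : MemLocalRing M (subgroupBlockCoeff (Subgroup.centralizer (Q : Set G)) f g) := by
      rw [subgroupBlockCoeff]
      split_ifs
      · exact memLocalRing_blockCoeff hM hf _
      · exact memLocalRing_zero hM
    rw [← rd_congr hM hb hs, ← coeff_blockElt, ← coeff_up hM (MonoidHom.id G) id_injective (blockElt B) g]
    show (bG hM B).coeff g = _
    rw [hEf, subgroupBlockCoeff]
    by_cases hg : g ∈ Subgroup.centralizer (Q : Set G)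
    · rw [dif_pos hg, ← coeff_blockElt, ← coeff_up hM (Subgroup.centralizer (Q : Set G)).subtype
        (Subgroup.centralizer (Q : Set G)).subtype_injective]
      rfl
    · rw [dif_neg hg, rd_zero]
      exact coeff_up_of_notMem hM _ _ (by rw [Subgroup.range_subtype]; exact hg)
  obtain ⟨⟨F', hF', hFc⟩, huniq⟩ := exists_stabBlock hM hQf
    (le_sup_left : Q ≤ Q ⊔ Subgroup.centralizer (Q : Set G)) le_sup_right (le_top.trans htop)
  refine ⟨F', hF', hFc, hF', fun R g hRg x hxN _ hreg => ?_⟩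
  have h1 := (isBrauerPairOf_iff_ofBlk hM (Q ⊔ Subgroup.centralizer (Q : Set G)).subtype (Subgroup.subtype_injective _)
    hF' hRg.1).1 hRg
  have hne := h1.br_ne
  rw [huniq F' hFc] at hne
  set R' := R.map (Q ⊔ Subgroup.centralizer (Q : Set G)).subtype with hR'
  have hR'H : R' ≤ Q ⊔ Subgroup.centralizer (Q : Set G) := Subgroup.map_subtype_le R
  have hSp : IsPGroup p ↥(Q ⊔ R') := hQf.1.to_sup_of_normal_left' (hRg.1.1.map _) (fun r _ => (hG r).1)
  have hZ := (Cfsg.Agent.S4680.result p M hM B P e hmax F hF Q f hQP hf hle).1 hcen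
  have hQp : IsPGroup p ↥(Q ⊓ Subgroup.centralizer (Q : Set G)) := hQf.1.to_le inf_le_left
  have hcard := ((isDefectGroup_sub_iff hM hf hQp inf_le_right).1 hZ).2
  change _ = dmax p _ (bc hM Q f) at hcard
  set D := (Q ⊔ R') ⊓ Subgroup.centralizer (Q : Set G) with hD
  obtain ⟨z, hz⟩ : ∃ z, (Br R' (bc hM Q f)).coeff z ≠ 0 := by
    by_contra hcon
    push Not at hcon
    exact hne (MonoidAlgebra.ext (Finsupp.ext hcon))
  have hzR : z ∈ Subgroup.centralizer (R' : Set G) := supp_cut _ _ z hz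
  rw [Br, coeff_cut_of_mem _ hzR] at hz
  have hzS : z ∈ Subgroup.centralizer ((Q ⊔ R' : Subgroup G) : Set G) := by
    have hle1 : Q ⊔ R' ≤ Subgroup.centralizer ({z} : Set G) := sup_le
      (fun u hu => Subgroup.mem_centralizer_singleton_iff.2
        (Subgroup.mem_centralizer_iff.1 (hp.blk.cen.1 z hz).2 u hu))
      (fun u hu => Subgroup.mem_centralizer_singleton_iff.2 (Subgroup.mem_centralizer_iff.1 hzR u hu))
    exact Subgroup.mem_centralizer_iff.2 fun u hu => Subgroup.mem_centralizer_singleton_iff.1 (hle1 hu)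
  have hneS : Br (Q ⊔ R') (bc hM Q f) ≠ 0 := fun h0 => hz (by
    have := congrArg (fun t : MonoidAlgebra (Residue hM) G => t.coeff z) h0
    simpa [Br, coeff_cut_of_mem _ hzS] using this)
  have hDZ : Q ⊓ Subgroup.centralizer (Q : Set G) = D := by
    refine Subgroup.eq_of_le_of_card_ge (inf_le_inf_right _ le_sup_left) ?_
    rw [hcard]
    exact le_dmax (hSp.to_le inf_le_left) inf_le_right (br_ne_of_le inf_le_left hneS)
  have hHset : ((Q ⊔ Subgroup.centralizer (Q : Set G) : Subgroup G) : Set G) =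
      (Q : Set G) * (Subgroup.centralizer (Q : Set G) : Set G) :=
    Subgroup.coe_mul_of_left_le_normalizer_right _ _
      (fun q _ => mem_normalizer_of_cm (by rw [cm_centralizer, cm_of_mem_normalizer (hG q).1]))
  have hRQ : R' ≤ Q := by
    intro r hr
    have h := hR'H hr
    rw [← SetLike.mem_coe, hHset] at h
    obtain ⟨q, hq, c, hcC, rfl⟩ := Set.mem_mul.1 h
    have hq' : q⁻¹ * (q * c) ∈ Q ⊔ R' :=
      Subgroup.mul_mem _ (Subgroup.mem_sup_left (Q.inv_mem hq)) (Subgroup.mem_sup_right hr)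
    rw [inv_mul_cancel_left] at hq'
    have hcD : c ∈ D := ⟨hq', hcC⟩
    rw [← hDZ] at hcD
    exact Q.mul_mem hq hcD.1
  have h := x.2
  rw [← SetLike.mem_coe, hHset] at h
  obtain ⟨u, hu, c, hcC, hxe⟩ := Set.mem_mul.1 h
  have hxN' : (x : G) ∈ Subgroup.normalizer (R' : Set G) := by
    refine mem_normalizer_of_cm (Subgroup.eq_of_le_of_card_ge ?_ (card_cm _ _).ge)
    rintro _ ⟨_, ⟨r, hr, rfl⟩, rfl⟩
    exact ⟨x * r * x⁻¹, (Subgroup.mem_normalizer_iff.1 hxN r).1 hr, rfl⟩
  obtain ⟨k, hk⟩ := hQf.1 ⟨u, hu⟩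
  have hk' : u ^ p ^ k = 1 := congrArg Subtype.val hk
  have hxC := mem_centralizer_of_acts_like hxN' (by rwa [IsPRegular, Subgroup.orderOf_coe]) ⟨k, hk'⟩ fun r hr => by
    rw [← hxe, show u * c * r * (u * c)⁻¹ = u * (c * r * c⁻¹) * u⁻¹ by group,
      ← Subgroup.mem_centralizer_iff.1 hcC r (hRQ hr), mul_inv_cancel_right]
  refine Subgroup.mem_centralizer_iff.2 fun r hr => Subtype.ext ?_
  exact Subgroup.mem_centralizer_iff.1 hxC (r : G) ⟨r, hr, rfl⟩

end Cfsg.Agent.S4693
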