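import Cfsg.Statements.S4694
import Cfsg.Agent.Blocks.Weight

set_option autoImplicit false
open Cfsg

namespace Cfsg.Agent.S4694

open CfsgLib.Blocks CfsgLib.CharBasics
open scoped ComplexConjugate
attribute [local instance] residueField residue_charP
noncomputable local instance instFintypeSubgroupS4694 {G : Type*} [Group G] [Fintype G] (K : Subgroup G) : Fintype K :=
  Fintype.ofFinite K


/-- Fix a prime p and a maximal ideal M of the algebraic integers containing p, a p-block B of the finite group G and a Brauer pair (Q, e) of B. Let T be the stabilizer of e in N_G(Q) and suppose that (Q, e) carries a weight: the block of T whose idempotent is that of e contains an irreducible character χ that is constant on the cosets of Q and whose degree has p-part equal to the p-part of the index of Q in T. Then Z(Q) is a defect group of e as a block of C_G(Q), and Q is the largest normal p-subgroup of T: every p-subgroup of T normalized by T lies in Q. -/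
theorem result {G : Type*} [Group G] [Fintype G] (p : ℕ) [Fact p.Prime] (M : Ideal Cfsg.AlgInt) (hM : Cfsg.IsPModular p M) (B : Set (Cfsg.IrrCharacter G)) (Q : Subgroup G) (e : Set (Cfsg.IrrCharacter (Subgroup.centralizer (Q : Set G)))) (hQe : Cfsg.IsBrauerPairOf p M B Q e) (T : Subgroup G) (hT : ∀ y : G, y ∈ T ↔ y ∈ Subgroup.normalizer (Q : Set G) ∧ Cfsg.StabilizesBlock (Subgroup.centralizer (Q : Set G)) e y) (F' : Set (Cfsg.IrrCharacter T)) (hF' : Cfsg.IsPBlock M F') (hF'e : ∀ t : T, Cfsg.blockCoeff F' t = Cfsg.subgroupBlockCoeff (Subgroup.centralizer (Q : Set G)) e (t : G)) (χ : Cfsg.IrrCharacter T) (hχ : χ ∈ F') (hχQ : ∀ q : G, q ∈ Q → ∀ t : T, ∀ t' : T, (t' : G) = q * (t : G) → (χ : T → ℂ) t' = (χ : T → ℂ) t) (hdeg : (Cfsg.charDegree (χ : T → ℂ)).factorization p + (Nat.card Q).factorization p = (Nat.card T).factorization p) : Cfsg.IsDefectGroup p M e ((Q ⊓ Subgroup.centralizer (Q : Set G)).subgroupOf (Subgroup.centralizer (Q : Set G))) ∧ ∀ R : Subgroup G, R ≤ T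 → IsPGroup p R → (∀ t ∈ T, t ∈ Subgroup.normalizer (R : Set G)) → R ≤ Q := by
  classical
  have hQp : IsPGroup p Q := hQe.1.1
  have he : IsPBlock M e := hQe.1.2
  have hCT : (Subgroup.centralizer (Q : Set G)) ≤ T := fun c hc =>
    (hT c).2 ⟨Subgroup.centralizer_le_normalizer _ hc, Subgroup.le_normalizer hc, fun ψ hψ => ⟨ψ, hψ, fun k k' hk => by
      rw [show k' = ⟨c, hc⟩ * k * (⟨c, hc⟩ : (Subgroup.centralizer (Q : Set G)))⁻¹ from Subtype.ext hk]
      exact (isClassFunction (isCharacter_of_irr ψ.2)) k ⟨c, hc⟩⟩⟩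
  have hQN : ∀ q ∈ Q, q ∈ Subgroup.normalizer ((Subgroup.centralizer (Q : Set G)) : Set G) ∧ ∀ c ∈ (Subgroup.centralizer (Q : Set G)), q * c * q⁻¹ = c := fun q hq => by
    have hcm : ∀ c ∈ (Subgroup.centralizer (Q : Set G)), q * c * q⁻¹ = c := fun c hc => by
      rw [Subgroup.mem_centralizer_iff.1 hc q hq, mul_inv_cancel_right]
    refine ⟨Subgroup.mem_normalizer_iff.2 fun c => ⟨fun hc => (hcm c hc).symm ▸ hc, fun hc => ?_⟩, hcm⟩
    have h1 := hcm _ hc
    have h2 : q * c * q⁻¹ = c := by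
      have h3 : q * (q * c * q⁻¹) = q * c * q⁻¹ * q := by
        conv_rhs => rw [← h1]
        group
      simpa [mul_assoc] using congrArg (fun t => q⁻¹ * t) h3
    exact h2 ▸ hc
  have hQT : Q ≤ T := fun q hq => (hT q).2 ⟨Subgroup.le_normalizer hq, (hQN q hq).1, fun ψ hψ =>
    ⟨ψ, hψ, fun k k' hk => by rw [(hQN q hq).2 k k.2] at hk; rw [Subtype.ext hk]⟩⟩
  set Q' := Q.subgroupOf T with hQ'
  haveI : Q'.Normal := ⟨fun q hq t => by
    exact (Subgroup.mem_normalizer_iff.1 ((hT t).1 t.2).1 q).1 hq⟩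
  have hker : ∀ m ∈ Q', (χ : T → ℂ) m = (χ : T → ℂ) 1 := fun m hm => hχQ m hm 1 m (by simp)
  have hfull : (Nat.card T).factorization p ≤ degExp p χ + (Nat.card Q').factorization p := by
    rw [Nat.card_congr (Subgroup.subgroupOfEquivOfLe hQT).toEquiv]
    exact hdeg.symm.le
  refine ⟨?_, fun R hRT hR hRN => ?_⟩
  swap
  · haveI : (R.subgroupOf T).Normal := ⟨fun r hr t => by
      exact (Subgroup.mem_normalizer_iff.1 (hRN t t.2) r).1 hr⟩
    have h := le_of_full_quot hM Q' hker hfull (R.subgroupOf T) (hR.of_equiv (Subgroup.subgroupOfEquivOfLe hRT).symm)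
    exact fun r hr => Subgroup.mem_subgroupOf.1 (h (x := ⟨r, hRT hr⟩) hr)
  -- the product `Q (Subgroup.centralizer (Q : Set G))` inside `T`
  set N := (Q ⊔ (Subgroup.centralizer (Q : Set G))).subgroupOf T with hN
  have hCnorm : ∀ t : G, t ∈ T → ∀ c ∈ (Subgroup.centralizer (Q : Set G)), t * c * t⁻¹ ∈ (Subgroup.centralizer (Q : Set G)) := fun t ht c hc =>
    (Subgroup.mem_normalizer_iff.1 ((hT t).1 ht).2.1 c).1 hc
  have hprod : ∀ x : G, x ∈ Q ⊔ (Subgroup.centralizer (Q : Set G)) → ∃ q ∈ Q, ∃ c ∈ (Subgroup.centralizer (Q : Set G)), q * c = x := fun x hx => by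
    rw [← SetLike.mem_coe, Subgroup.coe_mul_of_left_le_normalizer_right _ _ fun q hq => (hQN q hq).1] at hx
    obtain ⟨q, hq, c, hc, h⟩ := Set.mem_mul.1 hx
    exact ⟨q, hq, c, hc, h⟩
  haveI : N.Normal := ⟨fun n hn t => by
    obtain ⟨q, hq, c, hc, hqc⟩ := hprod (n : G) hn
    show (t : G) * (n : G) * (t : G)⁻¹ ∈ Q ⊔ (Subgroup.centralizer (Q : Set G))
    rw [← hqc, show (t : G) * (q * c) * (t : G)⁻¹ = ((t : G) * q * (t : G)⁻¹) * ((t : G) * c * (t : G)⁻¹) by group]
    exact mul_mem (Subgroup.mem_sup_left ((Subgroup.mem_normalizer_iff.1 ((hT t).1 t.2).1 q).1 hq))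
      (Subgroup.mem_sup_right (hCnorm t t.2 c hc))⟩
  set NQ := Q'.subgroupOf N with hNQ
  haveI : NQ.Normal := Subgroup.Normal.subgroupOf inferInstance N
  let i : (Subgroup.centralizer (Q : Set G)) →* T := Subgroup.inclusion hCT
  let f : (Subgroup.centralizer (Q : Set G)) →* N := i.codRestrict N fun c => show (c : G) ∈ Q ⊔ (Subgroup.centralizer (Q : Set G)) from Subgroup.mem_sup_right c.2
  let fb : (Subgroup.centralizer (Q : Set G)) →* N ⧸ NQ := (QuotientGroup.mk' NQ).comp f
  have hsurj : Function.Surjective fb := by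
    intro x
    obtain ⟨n, rfl⟩ := QuotientGroup.mk_surjective x
    obtain ⟨q, hq, c, hc, hqc⟩ := hprod ((n : T) : G) n.2
    refine ⟨⟨c, hc⟩, QuotientGroup.eq.2 ?_⟩
    show c⁻¹ * ((n : T) : G) ∈ Q
    rw [← hqc, show c⁻¹ * (q * c) = c⁻¹ * (q * c * q⁻¹) * q by group, (hQN q hq).2 c hc, inv_mul_cancel, one_mul]
    exact hq
  -- a constituent in `e`
  let L : (N → ℂ) → ℂ := fun φ => ∑ c : (Subgroup.centralizer (Q : Set G)), blockCoeff e c * φ (f c)
  have hL : L (fun n : N => (χ : T → ℂ) n) ≠ 0 := by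
    have h1 := omega_blockElt F' χ
    rw [if_pos hχ, omega, div_eq_one_iff_eq (apply_one_ne_zero χ.2)] at h1
    have h2 : L (fun n : N => (χ : T → ℂ) n) = ∑ t : T, (blockElt F').coeff t * (χ : T → ℂ) t := by
      refine Fintype.sum_of_injective i (Subgroup.inclusion_injective hCT) _ _ (fun t ht => ?_) fun c => ?_
      · rw [coeff_blockElt, hF'e, subgroupBlockCoeff, dif_neg fun h => ht ⟨⟨t, h⟩, rfl⟩, zero_mul]
      · rw [coeff_blockElt, hF'e, subgroupBlockCoeff, dif_pos (show ((i c : T) : G) ∈ (Subgroup.centralizer (Q : Set G)) from c.2)]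
        rfl
    rw [h2, h1]
    exact apply_one_ne_zero χ.2
  haveI : Fintype (IrrCharacter N) := @Fintype.ofFinite _ finite_irrCharacter
  have hres := isCharacter_restrict (isCharacter_of_irr χ.2) N
  obtain ⟨φ, hφ1, hφ2⟩ : ∃ φ : IrrCharacter N, classInner (fun n : N => (χ : T → ℂ) n) (φ : N → ℂ) ≠ 0 ∧
      L (φ : N → ℂ) ≠ 0 := by
    by_contra hcon
    push Not at hcon
    refine hL ?_
    rw [classFun_expand (isClassFunction hres)]
    simp only [L, Finset.sum_apply, Pi.smul_apply, smul_eq_mul, Finset.mul_sum]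
    rw [Finset.sum_comm]
    refine Finset.sum_eq_zero fun η _ => ?_
    by_cases h : classInner (fun n : N => (χ : T → ℂ) n) (η : N → ℂ) = 0
    · simp [h]
    · rw [Finset.sum_congr rfl fun c _ => mul_left_comm (blockCoeff e c) _ _, ← Finset.mul_sum]
      exact mul_eq_zero_of_right _ (hcon η h)
  have hφQ : ∀ m ∈ NQ, (φ : N → ℂ) m = (φ : N → ℂ) 1 := by
    refine trivial_of_constituent NQ (fun x m => ?_) φ hφ1
    have hm : ((x : T) : G) * ((m : N) : T) * ((x : T) : G)⁻¹ ∈ Q :=
      (Subgroup.mem_normalizer_iff.1 ((hT _).1 (x : T).2).1 _).1 m.2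
    exact hχQ _ hm (x : T) _ (by simp)
  obtain ⟨ψ, hψ⟩ := exists_quotient_irr φ NQ hφQ
  let θ : IrrCharacter (Subgroup.centralizer (Q : Set G)) := ⟨_, irr_comp_of_surjective ψ.2 fb hsurj⟩
  have hθf : ∀ c : (Subgroup.centralizer (Q : Set G)), (θ : (Subgroup.centralizer (Q : Set G)) → ℂ) c = (φ : N → ℂ) (f c) := fun c => hψ (f c)
  have hθe : θ ∈ e := by
    by_contra h
    have h1 := omega_blockElt e θ
    rw [if_neg h, omega, div_eq_zero_iff] at h1
    refine hφ2 (Eq.trans (Finset.sum_congr rfl fun c _ => ?_) (h1.resolve_right (apply_one_ne_zero θ.2)))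
    rw [coeff_blockElt, hθf]
  set Z := (Q ⊓ (Subgroup.centralizer (Q : Set G))).subgroupOf (Subgroup.centralizer (Q : Set G)) with hZ
  have hker' : fb.ker = Z := by
    ext c
    show ((f c : N) : N ⧸ NQ) = 1 ↔ _
    rw [QuotientGroup.eq_one_iff]
    exact ⟨fun h => ⟨h, c.2⟩, fun h => h.1⟩
  refine isDefectGroup_of_central_full hM Z ?_ ?_ he hθe ?_ ?_
  · exact (hQp.to_le inf_le_left).of_equiv (Subgroup.subgroupOfEquivOfLe inf_le_right).symm
  · intro z hz
    exact Subgroup.mem_center_iff.2 fun c => Subtype.ext (Subgroup.mem_centralizer_iff.1 c.2 _ hz.1).symm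
  · intro z hz
    rw [← hker'] at hz
    show (ψ : N ⧸ NQ → ℂ) (fb z) = (ψ : N ⧸ NQ → ℂ) (fb 1)
    rw [MonoidHom.mem_ker.1 hz, map_one]
  -- the count
  have hd : degExp p θ = degExp p φ := by
    simp only [degExp, charDegree, hθf, map_one]
  have hcard : Nat.card (Subgroup.centralizer (Q : Set G)) = Nat.card (N ⧸ NQ) * Nat.card Z := by
    rw [← hker', Subgroup.card_eq_card_quotient_mul_card_subgroup fb.ker,
      Nat.card_congr (QuotientGroup.quotientKerEquivOfSurjective fb hsurj).toEquiv]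
  have hcardN : Nat.card N = Nat.card (N ⧸ NQ) * Nat.card Q := by
    rw [Subgroup.card_eq_card_quotient_mul_card_subgroup NQ]
    congr 1
    have hQ'N : Q' ≤ N := fun m hm => show (m : G) ∈ Q ⊔ (Subgroup.centralizer (Q : Set G)) from Subgroup.mem_sup_left hm
    rw [Nat.card_congr (Subgroup.subgroupOfEquivOfLe hQ'N).toEquiv,
      Nat.card_congr (Subgroup.subgroupOfEquivOfLe hQT).toEquiv]
  have hle : degExp p χ ≤ degExp p φ + (N.index).factorization p := by
    have h := degree_dvd_constituent_mul_index χ.2 N φ.2 hφ1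
    have h' := (Nat.factorization_le_iff_dvd (charDegree_pos χ.2).ne'
      (mul_ne_zero (charDegree_pos φ.2).ne' Subgroup.index_ne_zero_of_finite)).2 h p
    rwa [Nat.factorization_mul (charDegree_pos φ.2).ne' Subgroup.index_ne_zero_of_finite, Finsupp.add_apply] at h'
  rw [hcard, Nat.factorization_mul Nat.card_pos.ne' Nat.card_pos.ne', Finsupp.add_apply, hd]
  have hTN : (Nat.card T).factorization p = (Nat.card N).factorization p + (N.index).factorization p := by
    rw [← Subgroup.card_mul_index N, Nat.factorization_mul Nat.card_pos.ne' Subgroup.index_ne_zero_of_finite,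
      Finsupp.add_apply]
  rw [hcardN, Nat.factorization_mul Nat.card_pos.ne' Nat.card_pos.ne', Finsupp.add_apply] at hTN
  simp only [degExp] at hle ⊢
  omega

end Cfsg.Agent.S4694
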