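import Cfsg.Statements.S4708
import Cfsg.Agent.Blocks.Covered
import Cfsg.Agent.Blocks.FongReynolds
import Cfsg.Agent.Blocks.PrincipalPairs
import Cfsg.Agent.Blocks.StableCover


set_option autoImplicit false
open Cfsg

namespace Cfsg.Agent.S4708

open CfsgLib.Blocks CfsgLib.CharBasics

/-- Let p be a prime, M a maximal ideal of the algebraic integers containing p, G a finite group and H a normal subgroup. Write λ(X) for the sum of the squares of the degrees of the irreducible characters in the principal p-block of a group X. Then λ(H) ≤ λ(G) ≤ [G : H]·λ(H). -/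
theorem result {G : Type*} [Group G] [Finite G] (p : ℕ) [Fact p.Prime] (M : Ideal Cfsg.AlgInt) (hM : Cfsg.IsPModular p M) (H : Subgroup G) [H.Normal] : (∑ᶠ θ ∈ Cfsg.principalBlock M H, Cfsg.charDegree (θ : H → ℂ) ^ 2) ≤ (∑ᶠ χ ∈ Cfsg.principalBlock M G, Cfsg.charDegree (χ : G → ℂ) ^ 2) ∧ (∑ᶠ χ ∈ Cfsg.principalBlock M G, Cfsg.charDegree (χ : G → ℂ) ^ 2) ≤ H.index * ∑ᶠ θ ∈ Cfsg.principalBlock M H, Cfsg.charDegree (θ : H → ℂ) ^ 2 := by
  classical
  haveI := Fintype.ofFinite G
  haveI := Fintype.ofFinite H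
  haveI : Fintype (IrrCharacter G) := @Fintype.ofFinite _ finite_irrCharacter
  haveI : Fintype (IrrCharacter H) := @Fintype.ofFinite _ finite_irrCharacter
  have hst : ∀ x : G, StabilizesBlock H (principalBlock M H) x := fun x => stabilizesBlock_principal hM (by
    rw [Subgroup.normalizer_eq_top]; exact Subgroup.mem_top x)
  choose m hm using fun (χ : IrrCharacter G) (θ : IrrCharacter H) => classInner_characters_nat
    (CfsgLib.CharBasics.isCharacter_restrict (isCharacter_of_irr χ.2) H) (isCharacter_of_irr θ.2)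
  have h1 : classInner (fun n : H => ((oneChar : IrrCharacter G) : G → ℂ) n) ((oneChar : IrrCharacter H) : H → ℂ) ≠ 0 := by
    have e : (fun n : H => ((oneChar : IrrCharacter G) : G → ℂ) n) = ((oneChar : IrrCharacter H) : H → ℂ) := rfl
    rw [e, classInner_self (oneChar : IrrCharacter H).2]
    exact one_ne_zero
  set SG := Finset.univ.filter (fun χ : IrrCharacter G => χ ∈ principalBlock M G) with hSG
  set SH := Finset.univ.filter (fun θ : IrrCharacter H => θ ∈ principalBlock M H) with hSH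
  have hres : ∀ χ ∈ SG, charDegree (χ : G → ℂ) = ∑ θ ∈ SH, m χ θ * charDegree (θ : H → ℂ) := by
    intro χ hχ
    have hall : ∀ θ, m χ θ ≠ 0 → θ ∈ principalBlock M H := by
      intro θ hθ
      obtain ⟨θ', hθ', hne⟩ := exists_constituent_mem_block hM isPBlock_principal isPBlock_principal
        (oneChar_mem_principal hM) (oneChar_mem_principal hM) h1 (Finset.mem_filter.1 hχ).2
      obtain ⟨g, hg⟩ := CfsgLib.Clifford.constituent_conj χ.2 θ'.2 θ.2 hne (by rw [hm]; exact_mod_cast hθ)
      exact mem_of_stable hst hθ' hg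
    have e := congrFun (classFun_expand (isClassFunction (CfsgLib.CharBasics.isCharacter_restrict (isCharacter_of_irr χ.2) H))) 1
    rw [Finset.sum_apply] at e
    simp only [Pi.smul_apply, smul_eq_mul, hm, Subgroup.coe_one, CfsgLib.CharBasics.apply_one (isCharacter_of_irr χ.2)] at e
    rw [Finset.sum_congr rfl fun θ _ => by rw [CfsgLib.CharBasics.apply_one (isCharacter_of_irr θ.2), ← Nat.cast_mul],
      ← Nat.cast_sum] at e
    rw [Nat.cast_injective e, hSH, Finset.sum_filter]
    refine Finset.sum_congr rfl fun θ _ => ?_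
    split_ifs with hθ
    · rfl
    · rw [show m χ θ = 0 from not_not.1 fun h => hθ (hall θ h), zero_mul]
  have hind : ∀ θ : IrrCharacter H, ∑ χ ∈ SG, m χ θ * charDegree (χ : G → ℂ) ≤ H.index * charDegree (θ : H → ℂ) := by
    intro θ
    have e := congrFun (classFun_expand (isClassFunction (CfsgLib.CharBasics.isCharacter_indFun H (isCharacter_of_irr θ.2)))) 1
    rw [CfsgLib.CharBasics.indFun_apply_one, CfsgLib.CharBasics.apply_one (isCharacter_of_irr θ.2), Finset.sum_apply] at e
    have e' : ((H.index * charDegree (θ : H → ℂ) : ℕ) : ℂ) = ((∑ χ : IrrCharacter G, m χ θ * charDegree (χ : G → ℂ) : ℕ) : ℂ) := by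
      rw [Nat.cast_mul, e, Nat.cast_sum]
      refine Finset.sum_congr rfl fun χ _ => ?_
      rw [Pi.smul_apply, smul_eq_mul, classInner_indFun H (θ : H → ℂ) (isClassFunction (isCharacter_of_irr χ.2)),
        classInner_comm, hm, Complex.conj_natCast, CfsgLib.CharBasics.apply_one (isCharacter_of_irr χ.2), Nat.cast_mul]
    rw [Nat.cast_injective e']
    exact Finset.sum_le_sum_of_subset (Finset.filter_subset _ _)
  have hG : (∑ᶠ χ ∈ principalBlock M G, charDegree (χ : G → ℂ) ^ 2) = ∑ χ ∈ SG, charDegree (χ : G → ℂ) ^ 2 := by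
    rw [finsum_mem_def, finsum_eq_sum_of_fintype, hSG, Finset.sum_filter]
    exact Finset.sum_congr rfl fun χ _ => by rw [Set.indicator_apply]
  have hH : (∑ᶠ θ ∈ principalBlock M H, charDegree (θ : H → ℂ) ^ 2) = ∑ θ ∈ SH, charDegree (θ : H → ℂ) ^ 2 := by
    rw [finsum_mem_def, finsum_eq_sum_of_fintype, hSH, Finset.sum_filter]
    exact Finset.sum_congr rfl fun θ _ => by rw [Set.indicator_apply]
  rw [hG, hH]
  constructor
  · calc ∑ θ ∈ SH, charDegree (θ : H → ℂ) ^ 2
        ≤ ∑ θ ∈ SH, ∑ χ ∈ SG, m χ θ * (m χ θ * charDegree (θ : H → ℂ) ^ 2) := by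
          refine Finset.sum_le_sum fun θ hθ => ?_
          obtain ⟨χ, hχ, hne⟩ := exists_constituent_of_mem hM isPBlock_principal
            ((IsPBlock.mem_iff hM isPBlock_principal (oneChar_mem_principal hM)).1 (Finset.mem_filter.1 hθ).2)
            (oneChar_mem_principal hM) h1
          rw [hm] at hne
          have hpos : 1 ≤ m χ θ := Nat.one_le_iff_ne_zero.2 fun h => hne (by rw [h, Nat.cast_zero])
          refine le_trans ?_ (Finset.single_le_sum (fun χ _ => Nat.zero_le _) (Finset.mem_filter.2 ⟨Finset.mem_univ χ, hχ⟩))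
          calc charDegree (θ : H → ℂ) ^ 2 = 1 * (1 * charDegree (θ : H → ℂ) ^ 2) := by ring
            _ ≤ _ := Nat.mul_le_mul hpos (Nat.mul_le_mul hpos le_rfl)
      _ = ∑ χ ∈ SG, ∑ θ ∈ SH, (m χ θ * charDegree (θ : H → ℂ)) ^ 2 := by
          rw [Finset.sum_comm]
          exact Finset.sum_congr rfl fun χ _ => Finset.sum_congr rfl fun θ _ => by ring
      _ ≤ ∑ χ ∈ SG, charDegree (χ : G → ℂ) ^ 2 := by
          refine Finset.sum_le_sum fun χ hχ => ?_
          rw [hres χ hχ]
          exact Finset.sum_sq_le_sq_sum_of_nonneg fun θ _ => Nat.zero_le _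
  · calc ∑ χ ∈ SG, charDegree (χ : G → ℂ) ^ 2
        = ∑ χ ∈ SG, ∑ θ ∈ SH, charDegree (θ : H → ℂ) * (m χ θ * charDegree (χ : G → ℂ)) := by
          refine Finset.sum_congr rfl fun χ hχ => ?_
          rw [sq]
          nth_rw 1 [hres χ hχ]
          rw [Finset.sum_mul]
          exact Finset.sum_congr rfl fun θ _ => by ring
      _ = ∑ θ ∈ SH, charDegree (θ : H → ℂ) * ∑ χ ∈ SG, m χ θ * charDegree (χ : G → ℂ) := by
          rw [Finset.sum_comm]; exact Finset.sum_congr rfl fun θ _ => (Finset.mul_sum _ _ _).symm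
      _ ≤ H.index * ∑ θ ∈ SH, charDegree (θ : H → ℂ) ^ 2 := by
          rw [Finset.mul_sum]
          exact Finset.sum_le_sum fun θ _ => (Nat.mul_le_mul le_rfl (hind θ)).trans_eq (by ring)

end Cfsg.Agent.S4708
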