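import Cfsg.Statements.S4713
import Cfsg.Agent.CharBasics.ItoConverse
import Cfsg.Agent.Clifford.Ito

set_option autoImplicit false
open Cfsg CfsgLib CfsgLib.CharBasics

namespace Cfsg.Agent.S4713

/-- Let p be a prime and G a finite p-solvable group. Then G has a normal abelian Sylow p-subgroup if and only if the degree of every irreducible character of G is prime to p. -/
theorem result {G : Type*} [Group G] [Finite G] (p : ℕ) [Fact p.Prime] (hsolv : Cfsg.IsPSolvable p G) (P : Sylow p G) : ((P : Subgroup G).Normal ∧ IsMulCommutative P) ↔ ∀ χ : Cfsg.IrrCharacter G, ¬ p ∣ Cfsg.charDegree (χ : G → ℂ) := by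
  constructor
  · rintro ⟨hn, hab⟩ χ hd
    haveI := hn
    exact P.not_dvd_index (hd.trans (Clifford.ito_dvd χ.2 (P : Subgroup G)))
  · intro h
    obtain ⟨Q, hQn, hQab, hQp, hQi⟩ := ItoConverse.normal_abelian_sylow p G hsolv h
    have hle : Q ≤ (P : Subgroup G) := (PCore.le_pCore hQn hQp).trans (PCore.pCore_le_sylow P)
    have heq : Q = (P : Subgroup G) := by
      refine Subgroup.eq_of_le_of_card_ge hle (Nat.le_of_dvd Nat.card_pos ?_)
      obtain ⟨j, hj⟩ := hQp.exists_card_eq
      rw [P.card_eq_multiplicity, hj, ← Q.card_mul_index,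
        Nat.factorization_mul Nat.card_pos.ne' Subgroup.index_ne_zero_of_finite, Finsupp.add_apply,
        Nat.factorization_eq_zero_of_not_dvd hQi, add_zero, hj, (Fact.out : p.Prime).factorization_pow,
        Finsupp.single_eq_same]
    exact ⟨heq ▸ hQn, heq ▸ hQab⟩

end Cfsg.Agent.S4713
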