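import Cfsg.Statements.S4714
import Cfsg.Agent.Blocks.CentralDefect


set_option autoImplicit false
open Cfsg

namespace Cfsg.Agent.S4714

open CfsgLib.Blocks CfsgLib.CharBasics

/-- Let p be a prime, M a maximal ideal of the algebraic integers containing p, D a p-subgroup of the finite group G with G = D·C_G(D), and B a p-block with defect group D. Let χ be a member of B having D in its kernel (there is exactly one, the canonical character of B). Then the irreducible characters in B are exactly the functions θ on G for which there is an irreducible character ζ of D such that θ(yx) = ζ(y)χ(x) whenever y ∈ D, x has order prime to p and x commutes with y, and θ(z) = 0 whenever the p-part of z does not lie in D. -/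
theorem result {G : Type*} [Group G] [Finite G] (p : ℕ) [Fact p.Prime] (M : Ideal Cfsg.AlgInt) (hM : Cfsg.IsPModular p M) (D : Subgroup G) (hD : IsPGroup p D) (hG : D ⊔ Subgroup.centralizer (D : Set G) = ⊤) (B : Set (Cfsg.IrrCharacter G)) (hB : Cfsg.IsPBlock M B) (hBD : Cfsg.IsDefectGroup p M B D) (χ : Cfsg.IrrCharacter G) (hχ : χ ∈ B) (hχD : ∀ y ∈ D, (χ : G → ℂ) y = (χ : G → ℂ) 1) : (∀ θ : Cfsg.IrrCharacter G, θ ∈ B ↔ ∃ ζ : Cfsg.IrrCharacter D, (∀ (y : D) (x : G), ¬ p ∣ orderOf x → Commute (y : G) x → (θ : G → ℂ) ((y : G) * x) = (ζ : D → ℂ) y * (χ : G → ℂ) x) ∧ (∀ z : G, (∀ y : G, Cfsg.IsPPart p z y → y ∉ D) → (θ : G → ℂ) z = 0)) ∧ ∀ ζ : Cfsg.IrrCharacter D, ∃ θ ∈ B, (∀ (y : D) (x : G), ¬ p ∣ orderOf x → Commute (y : G) x → (θ : G → ℂ) ((y : G) * x) = (ζ : D → ℂ) y * (χ : G → ℂ) x) ∧ (∀ z : G, (∀ y : G, Cfsg.IsPPart p z y → y ∉ D) → (θ : G → ℂ) z = 0) := by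
  classical
  haveI := Fintype.ofFinite G
  haveI := Fintype.ofFinite D
  have hp : p.Prime := hM.1
  obtain ⟨θ₀, hθ₀, hθ₀P, hθ₀d, hmin₀⟩ := exists_trivial_member hM hD hG hB hBD
  have hχd : degExp p χ = D.index.factorization p := by
    refine le_antisymm ?_ (hθ₀d ▸ hmin₀ χ hχ)
    obtain ⟨-, hall⟩ := block_structure hM hD hG hB hθ₀ hθ₀P hθ₀d hmin₀
    obtain ⟨ζ, he⟩ := hall χ hχ
    have h1reg : ¬ p ∣ orderOf (1 : G) := by rw [orderOf_one]; exact hp.not_dvd_one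
    have hval : ∀ y : D, (χ : G → ℂ) y = (ζ : D → ℂ) y * (θ₀ : G → ℂ) 1 := fun y => by
      rw [he]; simpa using prodFun_apply hM hD hG (ζ : D → ℂ) (θ₀ : G → ℂ) y h1reg
    have hconst : ∀ y : D, (ζ : D → ℂ) y = (ζ : D → ℂ) 1 := fun y => by
      have h := hχD y y.2
      rw [hval y, show ((1 : G)) = ((1 : D) : G) from rfl, hval 1] at h
      exact mul_right_cancel₀ (apply_one_ne_zero θ₀.2) h
    have h2 := classInner_self ζ.2
    rw [classInner_eq, Finset.sum_congr rfl (g := fun _ => (ζ : D → ℂ) 1 * starRingEnd ℂ ((ζ : D → ℂ) 1))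
      (fun y _ => by rw [hconst y]), Finset.sum_const, Finset.card_univ, ← Nat.card_eq_fintype_card, nsmul_eq_mul,
      inv_mul_cancel_left₀ (Nat.cast_ne_zero.2 Nat.card_pos.ne'), apply_one (isCharacter_of_irr ζ.2),
      Complex.conj_natCast] at h2
    have h3 : charDegree (ζ : D → ℂ) * charDegree (ζ : D → ℂ) = 1 := by exact_mod_cast h2
    have h4 := hval 1
    rw [show ((1 : D) : G) = 1 from rfl, apply_one (isCharacter_of_irr χ.2), apply_one (isCharacter_of_irr ζ.2),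
      Nat.eq_one_of_mul_eq_one_right h3, Nat.cast_one, one_mul, apply_one (isCharacter_of_irr θ₀.2),
      Nat.cast_inj] at h4
    rw [degExp, h4]
    exact hθ₀d.le
  obtain ⟨hex, hall⟩ := block_structure hM hD hG hB hχ hχD hχd (fun ρ hρ => hχd ▸ hθ₀d ▸ hmin₀ ρ hρ)
  have hgood : ∀ (θ : IrrCharacter G) (ζ : IrrCharacter D), (θ : G → ℂ) = prodFun p D (ζ : D → ℂ) (χ : G → ℂ) →
      (∀ (y : D) (x : G), ¬ p ∣ orderOf x → Commute (y : G) x →
        (θ : G → ℂ) ((y : G) * x) = (ζ : D → ℂ) y * (χ : G → ℂ) x) ∧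
      (∀ z : G, (∀ y : G, Cfsg.IsPPart p z y → y ∉ D) → (θ : G → ℂ) z = 0) := by
    intro θ ζ he
    exact ⟨fun y x hx _ => by rw [he, prodFun_apply hM hD hG _ _ y hx],
      fun z hz => by rw [he, prodFun_eq_zero hM hD hG _ _ hz]⟩
  refine ⟨fun θ => ⟨fun hθ => ?_, ?_⟩, fun ζ => ?_⟩
  · obtain ⟨ζ, he⟩ := hall θ hθ
    exact ⟨ζ, hgood θ ζ he⟩
  · rintro ⟨ζ, h1, h2⟩
    obtain ⟨ρ, hρ, he⟩ := hex ζ
    convert hρ using 1
    refine Subtype.ext (funext fun z => ?_)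
    by_cases hz : ∀ y : G, Cfsg.IsPPart p z y → y ∉ D
    · rw [h2 z hz, he, prodFun_eq_zero hM hD hG _ _ hz]
    · push Not at hz
      obtain ⟨y, hy, hyD⟩ := hz
      obtain ⟨x, hxy, hc, -, hx⟩ := hy
      subst hxy
      rw [h1 ⟨y, hyD⟩ x hx hc, he]
      exact (prodFun_apply hM hD hG _ _ ⟨y, hyD⟩ hx).symm
  · obtain ⟨θ, hθ, he⟩ := hex ζ
    exact ⟨θ, hθ, hgood θ ζ he⟩

end Cfsg.Agent.S4714
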