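import Cfsg.Statements.S4715
import Cfsg.Agent.Blocks.CentralHeight


set_option autoImplicit false
open Cfsg

namespace Cfsg.Agent.S4715

open CfsgLib CfsgLib.Blocks CfsgLib.CharBasics
attribute [local instance] CfsgLib.Blocks.residueField CfsgLib.Blocks.residue_charP

/-- Let p be a prime, M a maximal ideal of the algebraic integers containing p, B a p-block of the finite group G with defect group D of order p^d, H = D·C_G(D), b a block of H inducing B, T the stabilizer of b in N_G(D) and e = [T : H] the inertial index of B; let n be the integer with p^n ≤ e < p^(n+1) and p^c the order of the centre of D. Then every irreducible character in B has height h with h + c ≤ n + d. -/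
theorem result {G : Type*} [Group G] [Finite G] (p : ℕ) [Fact p.Prime] (M : Ideal Cfsg.AlgInt) (hM : Cfsg.IsPModular p M) (B : Set (Cfsg.IrrCharacter G)) (hB : Cfsg.IsPBlock M B) (D : Subgroup G) (hBD : Cfsg.IsDefectGroup p M B D) (d : ℕ) (hDd : Nat.card D = p ^ d) (H : Subgroup G) (hH : H = D ⊔ Subgroup.centralizer (D : Set G)) (b : Set (Cfsg.IrrCharacter H)) (hind : Cfsg.IsInducedBlock M H b B) (T : Subgroup G) (hT : ∀ g : G, g ∈ T ↔ (g ∈ Subgroup.normalizer (D : Set G) ∧ ∀ θ ∈ b, ∀ θ' : Cfsg.IrrCharacter H, (∀ h h' : H, (h' : G) = g * h * g⁻¹ → (θ' : H → ℂ) h' = (θ : H → ℂ) h) → θ' ∈ b)) (e : ℕ) (he : H.relIndex T = e) (n : ℕ) (hn : p ^ n ≤ e ∧ e < p ^ (n + 1)) (c : ℕ) (hc : Nat.card (Subgroup.center D) = p ^ c) : ∀ χ ∈ B, Cfsg.blockHeight p B (χ : G → ℂ) + c ≤ n + d := by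
  classical
  haveI : Fintype G := Fintype.ofFinite G
  haveI : Fintype H := Fintype.ofFinite H
  intro χ hχ
  have hDp : IsPGroup p D := IsPGroup.of_card hDd
  have hCH : Subgroup.centralizer (D : Set G) ≤ H := hH ▸ le_sup_right
  obtain ⟨ξ, hξ⟩ := IsPBlock.nonempty hM hind.1
  obtain ⟨θ, hl⟩ := exists_liesOver hH hCH ξ
  have hpair := isBrauerPairOf_of_induced hH hCH hM hDp hind hξ hl
  have hmax := isMaximal_of_defectGroup hM hBD hpair
  have hst : ∀ g ∈ PairAlg.stab D (PairAlg.bc hM D (blockOf M (θ : Subgroup.centralizer (D : Set G) → ℂ))), g ∈ T := by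
    intro g hg
    have hgH : g ∈ Subgroup.normalizer (H : Set G) := hH ▸ normalizer_le_normalizer_sup D hg.1
    have hstab : StabilizesBlock H b g := (stable_liesOver hH hCH hind.1 hM hDp hξ hl hg.1 hgH).2
      ((PairAlg.stabilizesBlock_bc_iff hM (isPBlock_blockOf M θ) hg.1).2 hg.2)
    refine (hT g).2 ⟨hg.1, fun η hη η' hrel => ?_⟩
    obtain ⟨_, heq⟩ := stabilizesBlock_iff.1 hstab
    have e : η' = pushChar (conjK hgH) η := by
      refine Subtype.ext (funext fun k => ?_)
      obtain ⟨l, rfl⟩ := (conjK hgH).surjective k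
      rw [pushChar_apply, MulEquiv.symm_apply_apply]
      exact hrel l _ (coe_conjK hgH l)
    rw [e, ← heq]
    exact Set.mem_image_of_mem _ hη
  have hd : blockDefect p B = d :=
    Nat.pow_right_injective (Fact.out : p.Prime).two_le ((card_defectGroup hM hB hBD).symm.trans hDd)
  have h := CentralHeight.pow_height_center_le hM hmax hB hd hst hH hDd hχ
  have hZ : Nat.card ↥(D ⊓ Subgroup.centralizer (D : Set G)) = p ^ c := by
    rw [← hc]
    exact Nat.card_congr
      { toFun := fun z => ⟨⟨(z : G), z.2.1⟩, Subgroup.mem_center_iff.2 fun u =>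
          Subtype.ext (Subgroup.mem_centralizer_iff.1 z.2.2 _ u.2)⟩
        invFun := fun z => ⟨((z : D) : G), (z : D).2, Subgroup.mem_centralizer_iff.2 fun u hu =>
          congrArg Subtype.val (Subgroup.mem_center_iff.1 z.2 ⟨u, hu⟩)⟩
        left_inv := fun z => rfl
        right_inv := fun z => rfl }
  rw [hZ, he, ← pow_add] at h
  have h2 : p ^ (blockHeight p B (χ : G → ℂ) + c) < p ^ (n + 1 + d) := by
    rw [pow_add p (n + 1) d]
    exact lt_of_le_of_lt h (Nat.mul_lt_mul_of_pos_right hn.2 (pow_pos (Fact.out : p.Prime).pos d))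
  have h3 := (Nat.pow_lt_pow_iff_right (Fact.out : p.Prime).one_lt).1 h2
  omega

end Cfsg.Agent.S4715
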