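import Cfsg.Statements.S4716
import Cfsg.Agent.Blocks.ContribMatrix
-- import your own Cfsg.Agent.* helpers here

set_option autoImplicit false
set_option linter.style.haveILetI false
open Cfsg CfsgLib CfsgLib.Blocks CfsgLib.CharBasics Polynomial

namespace Cfsg.Agent.S4716

/-- Let p be a prime, M a maximal ideal of the algebraic integers containing p, and B a p-block of defect d of the finite group G all of whose irreducible characters have height zero. Let y be a p-element, C = C_G(y), and b a block of C inducing B and having the same defect d (a major subsection). Then k(B)^2 ≤ p^(2d)·l(b), where k(B) is the number of irreducible characters in B and l(b) the p-regular rank of b (its number of irreducible Brauer characters); in particular (y = 1) k(B)^2 ≤ p^(2d)·l(B). -/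
theorem result {G : Type*} [Group G] [Finite G] (p : ℕ) [Fact p.Prime] (M : Ideal Cfsg.AlgInt) (hM : Cfsg.IsPModular p M) (B : Set (Cfsg.IrrCharacter G)) (hB : Cfsg.IsPBlock M B) (d : ℕ) (hd : Cfsg.blockDefect p B = d) (hh : ∀ χ ∈ B, Cfsg.blockHeight p B (χ : G → ℂ) = 0) (y : G) (hy : ∃ k : ℕ, orderOf y = p ^ k) (b : Set (Cfsg.IrrCharacter ↥(Subgroup.centralizer ({y} : Set G)))) (hind : Cfsg.IsInducedBlock M (Subgroup.centralizer ({y} : Set G)) b B) (hbd : Cfsg.blockDefect p b = d) : Nat.card B ^ 2 ≤ p ^ (2 * d) * Cfsg.blockRank p b := by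
  classical
  haveI : Fintype G := Fintype.ofFinite G
  haveI : Fintype (IrrCharacter G) := @Fintype.ofFinite _ finite_irrCharacter
  haveI : Fintype (Subgroup.centralizer ({y} : Set G)) := Fintype.ofFinite _
  obtain ⟨ξ₀, h₀, hmin₀, he₀⟩ := exists_min_degExp hM hind.1
  obtain ⟨χ₁, hχ₁, hmin₁, he₁⟩ := exists_min_degExp hM hB
  obtain ⟨K, hK⟩ := hy
  have hN : p ^ K ≠ 0 := pow_ne_zero _ hM.1.ne_zero
  set S := Finset.univ.filter (fun χ : IrrCharacter G => χ ∈ B) with hS
  have hS' : ∀ ρ ∈ S, ρ ∈ B ∧ ∀ τ ∈ B, degExp p ρ ≤ degExp p τ := by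
    intro ρ hρ
    have hρB : ρ ∈ B := (Finset.mem_filter.1 hρ).2
    refine ⟨hρB, fun τ hτ => ?_⟩
    have h := hh ρ hρB
    rw [blockHeight_eq he₁] at h
    have := hmin₁ τ hτ
    omega
  have hd' : (Nat.card (Subgroup.centralizer ({y} : Set G))).factorization p - degExp p ξ₀ = d := by
    rw [← blockDefect_eq he₀, hbd]
  set φ := ((coprimeResidues (p ^ K)).card : ℝ) with hφ
  have hφ0 : 0 < φ := Nat.cast_pos.2 (coprimeResidues_card_pos hN)
  set P := fun (j : ℕ) (χ : IrrCharacter G) =>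
    (aeval (zetaRoot (p ^ K) ^ j) (contribPoly p (p ^ K) y b (degExp p ξ₀) χ χ)).re with hP
  have hrow : ∀ χ ∈ S, φ * S.card ≤ (p : ℝ) ^ d * ∑ j ∈ coprimeResidues (p ^ K), P j χ := by
    intro χ hχ
    have h := card_mul_le_sum_re hM ⟨K, hK⟩ hind h₀ hmin₀ (K := K) (hK ▸ dvd_rfl) S hS' hχ
    rwa [hd'] at h
  have hpos : ∀ j ∈ coprimeResidues (p ^ K), ∀ χ : IrrCharacter G, 0 ≤ P j χ := by
    intro j hj χ
    have h := sum_normSq_contrib hM ⟨K, hK⟩ hind.1 hN (hK ▸ dvd_rfl) hmin₀ (Finset.mem_filter.1 hj).2 χ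
    rw [hd'] at h
    exact nonneg_of_mul_nonneg_right (h ▸ Finset.sum_nonneg fun _ _ => by positivity)
      (pow_pos (Nat.cast_pos.2 hM.1.pos) _)
  have htot : ∀ j ∈ coprimeResidues (p ^ K), ∑ χ : IrrCharacter G, P j χ = (p : ℝ) ^ d * blockRank p b := by
    intro j hj
    have h := congrArg Complex.re
      (sum_contrib_diag hM ⟨K, hK⟩ hind.1 hN (hK ▸ dvd_rfl) hmin₀ (Finset.mem_filter.1 hj).2)
    rw [hd', Complex.re_sum] at h
    rw [h, show ((p : ℂ) ^ d * (blockRank p b : ℕ)) = (((p : ℝ) ^ d * blockRank p b : ℝ) : ℂ) by push_cast; rfl,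
      Complex.ofReal_re]
  have h1 : φ * S.card * S.card ≤ φ * ((p : ℝ) ^ d * ((p : ℝ) ^ d * blockRank p b)) := by
    calc φ * S.card * S.card = ∑ χ ∈ S, φ * S.card := by rw [Finset.sum_const, nsmul_eq_mul]; ring
      _ ≤ ∑ χ ∈ S, (p : ℝ) ^ d * ∑ j ∈ coprimeResidues (p ^ K), P j χ := Finset.sum_le_sum hrow
      _ = (p : ℝ) ^ d * ∑ j ∈ coprimeResidues (p ^ K), ∑ χ ∈ S, P j χ := by
        rw [← Finset.mul_sum, Finset.sum_comm]
      _ ≤ (p : ℝ) ^ d * ∑ j ∈ coprimeResidues (p ^ K), ((p : ℝ) ^ d * blockRank p b) := by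
        refine mul_le_mul_of_nonneg_left (Finset.sum_le_sum fun j hj => ?_) (by positivity)
        rw [← htot j hj]
        exact Finset.sum_le_sum_of_subset_of_nonneg (Finset.subset_univ _) fun χ _ _ => hpos j hj χ
      _ = _ := by rw [Finset.sum_const, nsmul_eq_mul, hφ]; ring
  rw [mul_assoc] at h1
  have h2 := le_of_mul_le_mul_left h1 hφ0
  have hcard : Nat.card B = S.card := by
    rw [Nat.card_eq_fintype_card (α := B), hS, ← Fintype.card_subtype]
  rw [hcard]
  have h3 : ((S.card ^ 2 : ℕ) : ℝ) ≤ ((p ^ (2 * d) * blockRank p b : ℕ) : ℝ) := by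
    push_cast
    rw [pow_two, two_mul, pow_add, mul_assoc]
    exact h2
  exact_mod_cast h3

end Cfsg.Agent.S4716
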