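import Cfsg.Statements.S4717
import Cfsg.Agent.Blocks.InducedDefect
import Cfsg.Agent.ZStar.Principal

set_option autoImplicit false
set_option linter.style.haveILetI false
open Cfsg

namespace Cfsg.Agent.S4717

/-- Let p be a prime, M a maximal ideal of the algebraic integers containing p, and r a natural number; say that a finite group X has deficiency class r when X has no non-principal p-block of defect ≥ r. If G has deficiency class r then so does the centralizer of every p-element of G; conversely, if r > 0 and the centralizer of every element of order p has deficiency class r, then G has deficiency class r. -/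
theorem result {G : Type*} [Group G] [Finite G] (p : ℕ) [Fact p.Prime] (M : Ideal Cfsg.AlgInt) (hM : Cfsg.IsPModular p M) (r : ℕ) : ((∀ B' : Set (Cfsg.IrrCharacter G), Cfsg.IsPBlock M B' → B' ≠ Cfsg.principalBlock M G → Cfsg.blockDefect p B' < r) → ∀ y : G, (∃ k : ℕ, orderOf y = p ^ k) → (∀ B' : Set (Cfsg.IrrCharacter ↥(Subgroup.centralizer ({y} : Set G))), Cfsg.IsPBlock M B' → B' ≠ Cfsg.principalBlock M ↥(Subgroup.centralizer ({y} : Set G)) → Cfsg.blockDefect p B' < r)) ∧ (0 < r → (∀ y : G, orderOf y = p → (∀ B' : Set (Cfsg.IrrCharacter ↥(Subgroup.centralizer ({y} : Set G))), Cfsg.IsPBlock M B' → B' ≠ Cfsg.principalBlock M ↥(Subgroup.centralizer ({y} : Set G)) → Cfsg.blockDefect p B' < r)) → (∀ B' : Set (Cfsg.IrrCharacter G), Cfsg.IsPBlock M B' → B' ≠ Cfsg.principalBlock M G → Cfsg.blockDefect p B' < r)) := by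
  classical
  haveI : Fintype G := Fintype.ofFinite G
  refine ⟨fun hG y hy b hb hne => ?_, fun hr hC B hB hne => ?_⟩
  · haveI := Fintype.ofFinite (Subgroup.centralizer ({y} : Set G))
    obtain ⟨B, hind⟩ := CfsgLib.Blocks.exists_induced_of_centralizer hM
      (CfsgLib.ZStar.isPGroup_zpowers hM.1 hy) (CfsgLib.ZStar.mem_centralizer_zpowers y) hb
    refine lt_of_le_of_lt (CfsgLib.Blocks.blockDefect_le_induced hM hind) (hG B hind.2.1 fun hB => hne ?_)
    exact (CfsgLib.ZStar.isInducedBlock_principal_iff hM ⟨B, hind⟩).1 (hB ▸ hind)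
  · by_contra hlt
    push Not at hlt
    obtain ⟨g, hg⟩ := CfsgLib.Blocks.exists_defectClass hM hB
    obtain ⟨P⟩ : Nonempty (Sylow p (Subgroup.centralizer ({g} : Set G))) := inferInstance
    set D := (P : Subgroup (Subgroup.centralizer ({g} : Set G))).map
      (Subgroup.centralizer ({g} : Set G)).subtype with hD
    have hDg : Cfsg.IsDefectGroup p M B D := ⟨g, hg, P, rfl⟩
    have hDp : IsPGroup p D := P.2.map _
    have hDcard : Nat.card D = p ^ Cfsg.blockDefect p B := CfsgLib.Blocks.card_defectGroup hM hB hDg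
    haveI : Nontrivial D := by
      rw [← Finite.one_lt_card_iff_nontrivial, hDcard]
      exact Nat.one_lt_pow (by omega) hM.1.one_lt
    haveI := hDp.center_nontrivial
    obtain ⟨z, hz⟩ := exists_prime_orderOf_dvd_card' p (G := Subgroup.center D) (by
      obtain ⟨n, hn0, hn⟩ := (hDp.to_subgroup (Subgroup.center D)).nontrivial_iff_card.1 inferInstance
      rw [hn]; exact dvd_pow_self p hn0.ne')
    set y : G := ((z : D) : G) with hy
    have hyo : orderOf y = p := by rw [hy, Subgroup.orderOf_coe, Subgroup.orderOf_coe, hz]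
    have hyp : ∃ k : ℕ, orderOf y = p ^ k := ⟨1, by rw [hyo, pow_one]⟩
    haveI := Fintype.ofFinite (Subgroup.centralizer ({y} : Set G))
    obtain ⟨b, hind, hdef⟩ := CfsgLib.Blocks.exists_inducing_defect_ge hM
      (CfsgLib.ZStar.isPGroup_zpowers hM.1 hyp) (CfsgLib.ZStar.mem_centralizer_zpowers y) hB hDg
      (Subgroup.zpowers_le.2 (z : D).2) (fun d hd => Subgroup.mem_centralizer_singleton_iff.2 (by
        have := congrArg Subtype.val (Subgroup.mem_center_iff.1 z.2 ⟨d, hd⟩)
        exact this))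
    refine absurd ((hlt.trans hdef).trans_lt (hC y hyo b hind.1 fun hb => hne ?_)) (lt_irrefl _)
    have h1 := (CfsgLib.ZStar.isInducedBlock_principal_iff hM ⟨B, hind⟩).2 hb
    obtain ⟨ξ, hξ⟩ := CfsgLib.Blocks.IsPBlock.nonempty hM hind.1
    obtain ⟨χ, hχ⟩ := CfsgLib.Blocks.IsPBlock.nonempty hM hB
    obtain ⟨η, hη⟩ := CfsgLib.Blocks.IsPBlock.nonempty hM h1.2.1
    refine CfsgLib.Blocks.IsPBlock.eq_of_mem hM hB h1.2.1 hχ ?_
    refine (CfsgLib.Blocks.IsPBlock.mem_iff hM h1.2.1 hη).2 fun g' => ?_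
    have a1 := hind.2.2 ξ hξ χ hχ g'
    have a2 := h1.2.2 ξ hξ η hη g'
    simpa using CfsgLib.Blocks.memLocalIdeal_sub hM a1 a2

end Cfsg.Agent.S4717
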