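import Cfsg.Statements.S4719
import Cfsg.Agent.S4718
import Cfsg.Agent.InvBound.Four
import Cfsg.Agent.Blocks.InducedDefect
import Cfsg.Agent.Blocks.NormalDefectRank
import Cfsg.Agent.ZStar.Principal

set_option autoImplicit false
universe u
open Cfsg

namespace Cfsg.Agent.S4719

open CfsgLib.Blocks CfsgLib.ZStar CfsgLib.InvBound

/-- The centraliser of an elementary subgroup of maximal deficiency has a single block. -/
theorem single_block {G : Type u} [Group G] [Finite G] {M : Ideal Cfsg.AlgInt} {r : ℕ} (hM : Cfsg.IsPModular 2 M)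
    (hblk : ∀ B : Set (Cfsg.IrrCharacter G), Cfsg.IsPBlock M B → B ≠ Cfsg.principalBlock M G →
      Cfsg.blockDefect 2 B < r) {Q : Subgroup G} (hQc : ∀ a ∈ Q, ∀ b ∈ Q, a * b = b * a)
    (hQ : Nat.card Q = 2 ^ r) :
    ∀ b : Set (Cfsg.IrrCharacter (Subgroup.centralizer (Q : Set G))), Cfsg.IsPBlock M b →
      b = Cfsg.principalBlock M (Subgroup.centralizer (Q : Set G)) := by
  classical
  haveI := Fintype.ofFinite G
  haveI := Fact.mk Nat.prime_two
  set C := Subgroup.centralizer (Q : Set G) with hC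
  intro b hb
  haveI : Fintype C := Fintype.ofFinite C
  have hH : ∀ g, g ∈ C ↔ ∀ q ∈ Q, q * g = g * q := fun g => Subgroup.mem_centralizer_iff
  have hQp : IsPGroup 2 Q := IsPGroup.of_card hQ
  obtain ⟨B, hB⟩ := exists_induced_of_centralizer hM hQp hH hb
  by_contra hne
  have hBne : B ≠ Cfsg.principalBlock M G := fun h => hne ((isInducedBlock_principal_iff hM ⟨B, hB⟩).1 (h ▸ hB))
  have h1 := hblk B hB.2.1 hBne
  have hQC : Q ≤ C := fun q hq => (hH q).2 fun x hx => hQc x hx q hq
  haveI : (Q.subgroupOf C).Normal := ⟨fun x hx g => by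
    rw [Subgroup.mem_subgroupOf] at hx ⊢
    simpa [Subgroup.coe_mul, ← (hH g).1 g.2 _ hx] using hx⟩
  obtain ⟨g, hg⟩ := exists_defectClass hM hb
  obtain ⟨S⟩ : Nonempty (Sylow 2 (Subgroup.centralizer ({g} : Set C))) := inferInstance
  have hD : Cfsg.IsDefectGroup 2 M b ((S : Subgroup _).map (Subgroup.centralizer ({g} : Set C)).subtype) :=
    ⟨g, hg, S, rfl⟩
  have h2 := Subgroup.card_le_of_le
    (le_defectGroup_of_normal hM hb (hQp.of_equiv (Subgroup.subgroupOfEquivOfLe hQC).symm) hD)
  rw [Nat.card_congr (Subgroup.subgroupOfEquivOfLe hQC).toEquiv, hQ, card_defectGroup hM hb hD] at h2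
  have h3 := (Nat.pow_le_pow_iff_right Nat.one_lt_two).1 h2
  have h4 := blockDefect_le_induced hM hB
  omega

/-- The bound on the centralisers of the subgroups of order `2 ^ (r - j)` of the elementary subgroup. -/
theorem exists_bound (a j : ℕ) : ∃ N : ℕ, ∀ (G : Type u) [Group G] [Finite G] (M : Ideal Cfsg.AlgInt) (r : ℕ),
    Cfsg.IsPModular 2 M → (Nat.card G).factorization 2 ≤ a →
    (∀ B : Set (Cfsg.IrrCharacter G), Cfsg.IsPBlock M B → B ≠ Cfsg.principalBlock M G →
      Cfsg.blockDefect 2 B < r) →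
    ∀ E : Subgroup G, (∀ x ∈ E, ∀ y ∈ E, x * y = y * x) → (∀ x ∈ E, x * x = 1) → Nat.card E = 2 ^ (r + 1) →
    ∀ Q ≤ E, j ≤ r → Nat.card Q = 2 ^ (r - j) → Nat.card (Subgroup.centralizer (Q : Set G)) ≤ N := by
  classical
  haveI := Fact.mk Nat.prime_two
  induction j with
  | zero =>
    choose Nf hNf using fun a' => Cfsg.Agent.S4718.result.{u} 2 a'
    refine ⟨(Finset.range (a + 1)).sup Nf, fun G _ _ M r hM ha hblk E hEc _ _ Q hQE _ hQ => ?_⟩
    have hCa : (Nat.card (Subgroup.centralizer (Q : Set G))).factorization 2 ≤ a :=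
      le_trans ((Nat.factorization_le_iff_dvd Nat.card_pos.ne' Nat.card_pos.ne').2
        (Subgroup.card_subgroup_dvd_card _) 2) ha
    refine le_trans (hNf _ _ M hM rfl (single_block hM hblk (fun x hx y hy => hEc x (hQE hx) y (hQE hy)) hQ))
      (Finset.le_sup (f := Nf) (Finset.mem_range.2 (Nat.lt_succ_of_le hCa)))
  | succ j ih =>
    obtain ⟨c, hc⟩ := ih
    obtain ⟨N, hN⟩ := exists_card_bound.{u} a c
    refine ⟨N, fun G _ _ M r hM ha hblk E hEc hE2 hE Q hQE hj hQ => ?_⟩
    -- a new element of `E`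
    have hnew : ∀ Q' : Subgroup G, Nat.card Q' < Nat.card E → ∃ f ∈ E, f ∉ Q' := fun Q' h =>
      SetLike.not_le_iff_exists.1 fun hle => (Subgroup.card_le_of_le hle).not_gt h
    have hsup : ∀ Q' ≤ E, ∀ f ∈ E, f ∉ Q' → Nat.card ↥(Q' ⊔ Subgroup.zpowers f) = 2 * Nat.card Q' := by
      intro Q' hQ' f hf hfQ
      let Q2 : Subgroup G :=
        { carrier := {g | g ∈ Q' ∨ g * f ∈ Q'}
          one_mem' := Or.inl Q'.one_mem
          mul_mem' := by
            rintro u v (hu | hu) (hv | hv)
            · exact Or.inl (Q'.mul_mem hu hv)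
            · exact Or.inr (by rw [mul_assoc]; exact Q'.mul_mem hu hv)
            · refine Or.inr ?_
              rw [mul_assoc, hEc v (hQ' hv) f hf, ← mul_assoc]
              exact Q'.mul_mem hu hv
            · refine Or.inl ?_
              have hvE : v ∈ E := by simpa using E.mul_mem (hQ' hv) (E.inv_mem hf)
              have h := Q'.mul_mem hu hv
              rwa [mul_assoc, ← mul_assoc f, hEc f hf v hvE, mul_assoc v, hE2 f hf, mul_one] at h
          inv_mem' := by
            rintro u (hu | hu)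
            · exact Or.inl (Q'.inv_mem hu)
            · refine Or.inr ?_
              have huE : u ∈ E := by simpa using E.mul_mem (hQ' hu) (E.inv_mem hf)
              rwa [inv_eq_self_of_involution (hE2 u huE)] }
      have h2 : Q' ⊔ Subgroup.zpowers f = Q2 := by
        refine le_antisymm (sup_le (fun g hg => Or.inl hg) (Subgroup.zpowers_le.2 (Or.inr ?_))) ?_
        · rw [hE2 f hf]; exact Q'.one_mem
        · rintro g (hg | hg)
          · exact Subgroup.mem_sup_left hg
          · rw [show g = g * f * f⁻¹ by group]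
            exact Subgroup.mul_mem _ (Subgroup.mem_sup_left hg)
              (Subgroup.inv_mem _ (Subgroup.mem_sup_right (Subgroup.mem_zpowers f)))
      rw [h2]
      haveI := Fintype.ofFinite G
      rw [Nat.card_eq_fintype_card, Fintype.card_subtype, Nat.card_eq_fintype_card, Fintype.card_subtype, two_mul]
      rw [show (Finset.univ.filter fun g => g ∈ Q2) = (Finset.univ.filter fun g => g ∈ Q') ∪
        (Finset.univ.filter fun g => g ∈ Q').image (fun g => g * f) from ?_, Finset.card_union_of_disjoint ?_,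
        Finset.card_image_of_injective _ (mul_left_injective f)]
      · rw [Finset.disjoint_left]
        intro g hg hg'
        obtain ⟨w, hw, rfl⟩ := Finset.mem_image.1 hg'
        simp only [Finset.mem_filter, Finset.mem_univ, true_and] at hg hw
        exact hfQ (by simpa using Q'.mul_mem (Q'.inv_mem hw) hg)
      · ext g
        simp only [Finset.mem_filter, Finset.mem_univ, true_and, Finset.mem_union, Finset.mem_image]
        refine or_congr Iff.rfl ⟨fun h => ⟨g * f, h, by rw [mul_assoc, hE2 f hf, mul_one]⟩, ?_⟩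
        rintro ⟨w, hw, rfl⟩
        rwa [mul_assoc, hE2 f hf, mul_one]
    have hr : r - (j + 1) + 1 = r - j := by omega
    obtain ⟨f₁, hf₁, hf₁Q⟩ := hnew Q (by rw [hQ, hE]; exact Nat.pow_lt_pow_right Nat.one_lt_two (by omega))
    obtain ⟨f₂, hf₂, hf₂Q⟩ := hnew (Q ⊔ Subgroup.zpowers f₁) (by
      rw [hsup Q hQE f₁ hf₁ hf₁Q, hQ, hE, ← pow_succ', hr]
      exact Nat.pow_lt_pow_right Nat.one_lt_two (by omega))
    have hf₂Q' : f₂ ∉ Q := fun h => hf₂Q (Subgroup.mem_sup_left h)
    have hf₃Q : f₁ * f₂ ∉ Q := fun h => hf₂Q (by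
      have := Subgroup.mul_mem (Q ⊔ Subgroup.zpowers f₁) (Subgroup.inv_mem _ (Subgroup.mem_sup_right
        (Subgroup.mem_zpowers f₁))) (Subgroup.mem_sup_left h)
      rwa [inv_mul_cancel_left] at this)
    set C := Subgroup.centralizer (Q : Set G) with hC
    have hEC : E ≤ C := fun x hx => Subgroup.mem_centralizer_iff.2 fun q hq => hEc q (hQE hq) x hx
    have hbound : ∀ f, ∀ hf : f ∈ E, f ∉ Q →
        Nat.card (Subgroup.centralizer ({(⟨f, hEC hf⟩ : C)} : Set C)) ≤ c := by
      intro f hf hfQ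
      have h := hc G M r hM ha hblk E hEc hE2 hE (Q ⊔ Subgroup.zpowers f)
        (sup_le hQE (Subgroup.zpowers_le.2 hf)) (by omega) (by rw [hsup Q hQE f hf hfQ, hQ, ← pow_succ', hr])
      refine le_trans (Nat.card_le_card_of_injective (fun u : Subgroup.centralizer ({(⟨f, hEC hf⟩ : C)} : Set C) =>
        (⟨((u : C) : G), ?_⟩ : Subgroup.centralizer ((Q ⊔ Subgroup.zpowers f : Subgroup G) : Set G))) ?_) h
      · have h1 : Q ⊔ Subgroup.zpowers f ≤ Subgroup.centralizer ({((u : C) : G)} : Set G) := by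
          refine sup_le (fun q hq => ?_) (Subgroup.zpowers_le.2 ?_)
          · exact Subgroup.mem_centralizer_singleton_iff.2 (Subgroup.mem_centralizer_iff.1 (u : C).2 q hq)
          · exact Subgroup.mem_centralizer_singleton_iff.2
              (congrArg Subtype.val (Subgroup.mem_centralizer_singleton_iff.1 u.2)).symm
        exact Subgroup.mem_centralizer_iff.2 fun q hq => Subgroup.mem_centralizer_singleton_iff.1 (h1 hq)
      · intro u v h
        simp only [Subtype.mk.injEq] at h
        exact Subtype.ext (Subtype.ext h)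
    refine hN C (le_trans ((Nat.factorization_le_iff_dvd Nat.card_pos.ne' Nat.card_pos.ne').2
        (Subgroup.card_subgroup_dvd_card _) 2) ha) ⟨f₁, hEC hf₁⟩ ⟨f₂, hEC hf₂⟩ (Subtype.ext (hE2 f₁ hf₁))
      (Subtype.ext (hE2 f₂ hf₂)) (Subtype.ext (hEc f₁ hf₁ f₂ hf₂)) (fun h => hf₁Q ?_) (fun h => hf₂Q' ?_)
      (fun h => hf₂Q ?_) (hbound f₁ hf₁ hf₁Q) (hbound f₂ hf₂ hf₂Q') (hbound _ (E.mul_mem hf₁ hf₂) hf₃Q)
    · have h' : f₁ = 1 := congrArg Subtype.val h
      rw [h']; exact Q.one_mem
    · have h' : f₂ = 1 := congrArg Subtype.val h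
      rw [h']; exact Q.one_mem
    · have h' : f₁ = f₂ := congrArg Subtype.val h
      rw [← h']; exact Subgroup.mem_sup_right (Subgroup.mem_zpowers f₁)

/-- For every natural number a there is a bound N with the following property. Let G be a finite group with Sylow 2-subgroups of order 2^a and r ≥ 0 such that G has no non-principal 2-block (relative to a maximal ideal of the algebraic integers containing 2) of defect ≥ r, and suppose a Sylow 2-subgroup of G contains an elementary abelian subgroup of order 2^(r+1). Then the order of G is at most N. -/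
theorem result (a : ℕ) : ∃ N : ℕ, ∀ (G : Type u) [Group G] [Finite G] (M : Ideal Cfsg.AlgInt) (r : ℕ) (P : Sylow 2 G), Cfsg.IsPModular 2 M → Nat.card P = 2 ^ a → (∀ B : Set (Cfsg.IrrCharacter G), Cfsg.IsPBlock M B → B ≠ Cfsg.principalBlock M G → Cfsg.blockDefect 2 B < r) → (∃ E : Subgroup G, E ≤ (P : Subgroup G) ∧ IsMulCommutative E ∧ (∀ x ∈ E, x * x = 1) ∧ Nat.card E = 2 ^ (r + 1)) → Nat.card G ≤ N := by
  classical
  haveI := Fact.mk Nat.prime_two
  choose Nf hNf using fun j => exists_bound.{u} a j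
  refine ⟨(Finset.range (a + 1)).sup Nf, fun G _ _ M r P hM hP hblk hE => ?_⟩
  obtain ⟨E, hEP, hEc, hE2, hE⟩ := hE
  have hr : r ≤ a := by
    have h := Subgroup.card_le_of_le hEP
    rw [hE, hP] at h
    have := (Nat.pow_le_pow_iff_right Nat.one_lt_two).1 h
    omega
  have ha : (Nat.card G).factorization 2 ≤ a :=
    le_of_eq (Nat.pow_right_injective (le_refl 2) ((P.card_eq_multiplicity).symm.trans hP))
  have h := hNf r G M r hM ha hblk E
    (fun x hx y hy => congrArg Subtype.val (hEc.is_comm.comm ⟨x, hx⟩ ⟨y, hy⟩)) hE2 hE ⊥ bot_le le_rfl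
    (by simp)
  rw [Subgroup.coe_bot, show Subgroup.centralizer ({1} : Set G) = ⊤ from ?_, Subgroup.card_top] at h
  · exact h.trans (Finset.le_sup (f := Nf) (Finset.mem_range.2 (Nat.lt_succ_of_le hr)))
  · exact eq_top_iff.2 fun g _ => Subgroup.mem_centralizer_singleton_iff.2 (by simp)

end Cfsg.Agent.S4719
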