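import Cfsg.Statements.S4721
import Cfsg.Agent.Blocks.FpfExc.ThreeForm
import Cfsg.Agent.ZStar.Reduce
import Cfsg.Agent.S0944
-- import your own Cfsg.Agent.* helpers here

set_option autoImplicit false
open Cfsg

namespace Cfsg.Agent.S4721

open CfsgLib CfsgLib.CharBasics CfsgLib.Blocks CfsgLib.Blocks.FpfExc
open scoped ComplexConjugate

/-- The arithmetic for an odd prime. -/
theorem odd_arith (a a' δ : ℤ) (ha : a = 1 ∨ a = -1) (ha' : a' = 1 ∨ a' = -1) (hδ : δ = 1 ∨ δ = -1)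
    (x x' f : ℕ) (hx : 0 < x) (hx' : 0 < x') (hf : 0 < f) (s s' u : ℤ) (hs : s < x) (hs' : s' < x') (hu : u < f)
    (e0 : 1 + a * x + a' * x' - δ * f = 0) (e1 : 1 + a * s + a' * s' - δ * u = 0)
    (e2 : (1 : ℚ) + a * (s : ℚ) ^ 2 / x + a' * (s' : ℚ) ^ 2 / x' - δ * (u : ℚ) ^ 2 / f = 0) :
    ((if a = -1 then 1 else 0) + (if a' = -1 then 1 else 0) + (if δ = 1 then 1 else 0) = 2) ∧
      IsSquare (f * (x * x')) := by
  set A : ℚ := a * x with hA
  set B : ℚ := a' * x' with hB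
  set C : ℚ := -δ * f with hC
  set z₂ : ℚ := s / x with hz2
  set z₃ : ℚ := s' / x' with hz3
  set z₄ : ℚ := u / f with hz4
  have hx0 : (0 : ℚ) < x := by exact_mod_cast hx
  have hx0' : (0 : ℚ) < x' := by exact_mod_cast hx'
  have hf0 : (0 : ℚ) < f := by exact_mod_cast hf
  have v2 : 0 < 1 - z₂ := by
    rw [hz2, sub_pos, div_lt_one hx0]; exact_mod_cast hs
  have v3 : 0 < 1 - z₃ := by
    rw [hz3, sub_pos, div_lt_one hx0']; exact_mod_cast hs'
  have v4 : 0 < 1 - z₄ := by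
    rw [hz4, sub_pos, div_lt_one hf0]; exact_mod_cast hu
  have E0 : 1 + A + B + C = 0 := by
    have h : ((1 + a * x + a' * x' - δ * f : ℤ) : ℚ) = 0 := by rw [e0, Int.cast_zero]
    rw [hA, hB, hC]; push_cast at h; linear_combination h
  have E1 : 1 + A * z₂ + B * z₃ + C * z₄ = 0 := by
    have h : ((1 + a * s + a' * s' - δ * u : ℤ) : ℚ) = 0 := by rw [e1, Int.cast_zero]
    rw [hA, hB, hC, hz2, hz3, hz4]
    field_simp
    push_cast at h
    linear_combination h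
  have E2 : 1 + A * z₂ ^ 2 + B * z₃ ^ 2 + C * z₄ ^ 2 = 0 := by
    rw [← e2, hA, hB, hC, hz2, hz3, hz4]
    field_simp
    ring
  have q2 : A * ((z₂ - z₃) * (z₂ - z₄)) = -((1 - z₃) * (1 - z₄)) := by
    linear_combination z₃ * z₄ * E0 - (z₃ + z₄) * E1 + E2
  have q3 : B * ((z₃ - z₂) * (z₃ - z₄)) = -((1 - z₂) * (1 - z₄)) := by
    linear_combination z₂ * z₄ * E0 - (z₂ + z₄) * E1 + E2
  have q4 : C * ((z₄ - z₂) * (z₄ - z₃)) = -((1 - z₂) * (1 - z₃)) := by
    linear_combination z₂ * z₃ * E0 - (z₂ + z₃) * E1 + E2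
  set Q : ℚ := (z₂ - z₃) * (z₂ - z₄) * (z₃ - z₄) with hQ
  set V : ℚ := (1 - z₂) * (1 - z₃) * (1 - z₄) with hV
  have hprod : A * B * C * Q ^ 2 = V ^ 2 := by
    have h : A * ((z₂ - z₃) * (z₂ - z₄)) * (B * ((z₃ - z₂) * (z₃ - z₄))) * (C * ((z₄ - z₂) * (z₄ - z₃))) =
        -((1 - z₃) * (1 - z₄)) * -((1 - z₂) * (1 - z₄)) * -((1 - z₂) * (1 - z₃)) := by rw [q2, q3, q4]
    rw [hQ, hV]
    linear_combination -h
  have hQ0 : Q ≠ 0 := fun h => by
    rw [h] at hprod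
    have : 0 < V := by positivity
    nlinarith
  have hsq : A * B * C = (V / Q) ^ 2 := by
    rw [div_pow, eq_div_iff (pow_ne_zero 2 hQ0)]; exact hprod
  have hpos : a * a' * δ = -1 := by
    have h0 : 0 ≤ A * B * C := hsq ▸ sq_nonneg _
    have hxf : (0 : ℚ) < (x : ℚ) * x' * f := by positivity
    have hz : a * a' * δ = 1 ∨ a * a' * δ = -1 := by
      rcases ha with h1 | h1 <;> rcases ha' with h2 | h2 <;> rcases hδ with h3 | h3 <;> simp [h1, h2, h3]
    refine hz.resolve_left fun h => ?_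
    have hq : (a : ℚ) * a' * δ = 1 := by exact_mod_cast h
    have e : A * B * C = -((x : ℚ) * x' * f) := by
      rw [hA, hB, hC]; linear_combination -((x : ℚ) * x' * f) * hq
    linarith
  refine ⟨?_, ?_⟩
  · rcases ha with h1 | h1 <;> rcases ha' with h2 | h2 <;> rcases hδ with h3 | h3 <;>
      simp only [h1, h2, h3] at hpos e0 ⊢ <;> first | omega | (norm_num at hpos ⊢; done)
  · rw [← Rat.isSquare_natCast_iff]
    refine ⟨V / Q, ?_⟩
    have hpq : (a : ℚ) * a' * δ = -1 := by exact_mod_cast hpos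
    rw [← pow_two, ← hsq, hA, hB, hC]
    push_cast
    linear_combination (x : ℚ) * x' * f * hpq

/-- The arithmetic at the prime two. -/
theorem two_arith (A B : ℤ) (hA : (16 : ℤ) ∣ A - 1) (hB : (16 : ℤ) ∣ B - 1)
    (h : (1 + A + B) * (A * B + A + B) = 9 * (A * B)) : A = 1 := by
  obtain ⟨i, hi⟩ := hA
  obtain ⟨j, hj⟩ := hB
  set S := A + B with hS
  set T := A * B with hT
  have hTS : T * (8 - S) = S * (1 + S) := by linear_combination (norm := (rw [hS, hT]; ring)) -h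
  have hdvd : (8 - S) ∣ 72 := ⟨T + (9 + S), by linear_combination -hTS⟩
  have hle := Int.le_of_dvd (by norm_num) hdvd
  have hge := Int.le_of_dvd (by norm_num) (neg_dvd.2 hdvd)
  obtain ⟨u, hu⟩ : ∃ u, 8 - S = 6 - 16 * u := ⟨i + j, by omega⟩
  have hu1 : -5 < u := by omega
  have hu2 : u < 5 := by omega
  rw [hu] at hdvd
  have hu0 : u = 0 := by
    interval_cases u <;> first | rfl | (norm_num at hdvd)
  have hS2 : S = 2 := by omega
  rw [hS2] at hTS
  have hT1 : T = 1 := by linarith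
  have hA2 : B = 2 - A := by omega
  have : (A - 1) ^ 2 = 0 := by
    have e : A * B = 1 := hT1
    rw [hA2] at e
    linear_combination -e
  have := sq_eq_zero_iff.1 this
  omega

theorem involution_part {G : Type*} [Group G] [Finite G] {p : ℕ} [Fact p.Prime] {M : Ideal AlgInt} {P : Sylow p G}
    (D : Setup M P) (h3 : (Cm P).relIndex (Nm P) = 3) (hP4 : 4 < Nat.card P)
    {χ₂ χ₃ : IrrCharacter G} {Y : Set (IrrCharacter G)} {a : IrrCharacter G → ℤ} {δ : ℤ}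
    {ζ : (↥(P : Subgroup G) →* ℂˣ) → IrrCharacter G}
    (h12 : oneChar ≠ χ₂) (h13 : oneChar ≠ χ₃) (h23 : χ₂ ≠ χ₃)
    (hB : principalBlock M G = ({oneChar, χ₂, χ₃} : Set (IrrCharacter G)) ∪ Y)
    (hdisj : Disjoint ({oneChar, χ₂, χ₃} : Set (IrrCharacter G)) Y)
    (ha2 : a χ₂ = 1 ∨ a χ₂ = -1) (ha3 : a χ₃ = 1 ∨ a χ₃ = -1) (hδ : δ = 1 ∨ δ = -1)
    (hX : ∀ χ ∈ ({oneChar, χ₂, χ₃} : Set (IrrCharacter G)), ∀ z y : G, IsPPart p z y → y ∈ (P : Subgroup G) →
      y ≠ 1 → (χ : G → ℂ) z = (a χ : ℂ))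
    (hsurj : ∀ η ∈ Y, ∃ ψ : ↥(P : Subgroup G) →* ℂˣ, ψ ≠ 1 ∧ ζ ψ = η)
    (hval : ∀ ψ : ↥(P : Subgroup G) →* ℂˣ, ψ ≠ 1 → ∀ (z : G) (y : ↥(P : Subgroup G)), IsPPart p z (y : G) →
      (y : G) ≠ 1 → (ζ ψ : G → ℂ) z =
        (δ : ℂ) * ∑ᶠ ψ' ∈ {ψ' : ↥(P : Subgroup G) →* ℂˣ | D.Rel ψ ψ'}, ((ψ' y : ℂˣ) : ℂ))
    (hsum : ∀ y ∈ (P : Subgroup G), y ≠ 1 → ∑ᶠ η ∈ Y, (η : G → ℂ) y = -(δ : ℂ))
    (hreg : ∀ η ∈ Y, ∀ g : G, ¬ p ∣ orderOf g →
      1 + (a χ₂ : ℂ) * (χ₂ : G → ℂ) g + (a χ₃ : ℂ) * (χ₃ : G → ℂ) g - (δ : ℂ) * (η : G → ℂ) g = 0)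
    (heq : ∀ η ∈ Y, ∀ η' ∈ Y, ∀ g : G, ¬ p ∣ orderOf g → (η : G → ℂ) g = (η' : G → ℂ) g)
    {t : G} (ht : orderOf t = 2) (hgen : ∀ K : Subgroup G, K.Normal → t ∈ K → K = ⊤) :
    ((if a χ₂ = -1 then 1 else 0) + (if a χ₃ = -1 then 1 else 0) + (if δ = 1 then 1 else 0) = 2) ∧
      ∀ η ∈ Y, IsSquare (charDegree (η : G → ℂ) *
        (charDegree (χ₂ : G → ℂ) * charDegree (χ₃ : G → ℂ))) := by
  classical
  haveI : Fintype G := Fintype.ofFinite G
  haveI : Fintype (IrrCharacter G) := @Fintype.ofFinite _ finite_irrCharacter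
  have hp : p.Prime := D.hM.1
  have hone : ¬ p ∣ orderOf (1 : G) := by rw [orderOf_one]; exact hp.not_dvd_one
  have htt : t * t = 1 := by rw [← pow_two, ← ht, pow_orderOf_eq_one]
  have ht1 : t ≠ 1 := fun e => by rw [e, orderOf_one] at ht; norm_num at ht
  have htinv : t⁻¹ = t := inv_eq_of_mul_eq_one_right htt
  have hker : ∀ (c : G) (χ : IrrCharacter G), χ ≠ oneChar → (χ : G → ℂ) (c * t * c⁻¹) ≠ (χ : G → ℂ) 1 := by
    intro c χ hχ he
    have hn : (charKer (χ : G → ℂ) (isCharacter_of_irr χ.2)).Normal := charKer_normal _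
    have hmem : t ∈ charKer (χ : G → ℂ) (isCharacter_of_irr χ.2) := by
      rw [mem_charKer]
      rw [← he]
      exact apply_isConj (isCharacter_of_irr χ.2) (isConj_iff.2 ⟨c, rfl⟩)
    have htop := hgen _ hn hmem
    exact hχ (ZStar.eq_oneChar_of_const fun g => (mem_charKer _ g).1 (htop ▸ Subgroup.mem_top g))
  set S := Finset.univ.filter (· ∈ principalBlock M G) with hS
  set SY := Finset.univ.filter (· ∈ Y) with hSY
  have hsplit : ∀ F : IrrCharacter G → ℂ,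
      ∑ χ ∈ S, F χ = F oneChar + F χ₂ + F χ₃ + ∑ η ∈ SY, F η := by
    intro F
    have e : S = ({oneChar, χ₂, χ₃} : Finset (IrrCharacter G)) ∪ SY := by
      ext χ; simp [hS, hSY, hB, or_assoc]
    have hd : Disjoint ({oneChar, χ₂, χ₃} : Finset (IrrCharacter G)) SY :=
      Finset.disjoint_left.2 fun χ h h' => Set.disjoint_left.1 hdisj (by simpa using h) (Finset.mem_filter.1 h').2
    rw [e, Finset.sum_union hd, Finset.sum_insert (by simp [h12, h13]), Finset.sum_pair h23]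
    ring
  have hsumY : ∀ y ∈ (P : Subgroup G), y ≠ 1 → ∑ η ∈ SY, (η : G → ℂ) y = -(δ : ℂ) := by
    intro y hy hy1
    rw [← hsum y hy hy1, finsum_mem_eq_toFinset_sum]
    exact Finset.sum_congr (by ext; simp [hSY]) fun _ _ => rfl
  have hv1 : ∀ y ∈ (P : Subgroup G), y ≠ 1 →
      (χ₂ : G → ℂ) y = (a χ₂ : ℂ) ∧ (χ₃ : G → ℂ) y = (a χ₃ : ℂ) := fun y hy hy1 =>
    ⟨hX _ (by simp) _ _ (D.ppart_self hy) hy hy1, hX _ (by simp) _ _ (D.ppart_self hy) hy hy1⟩
  obtain ⟨η₀, hη₀⟩ : ∃ η, η ∈ Y := by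
    by_contra hne
    obtain ⟨y, hy1⟩ : ∃ y : (P : Subgroup G), y ≠ 1 :=
      haveI : Nontrivial (P : Subgroup G) := Finite.one_lt_card_iff_nontrivial.1 (by omega)
      exists_ne 1
    have h := hsumY y y.2 fun e => hy1 (Subtype.ext e)
    rw [Finset.sum_eq_zero fun η hη => absurd ⟨η, (Finset.mem_filter.1 hη).2⟩ hne] at h
    rcases hδ with e | e <;> rw [e] at h <;> norm_num at h
  set x := charDegree (χ₂ : G → ℂ) with hx
  set x' := charDegree (χ₃ : G → ℂ) with hx'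
  set f := charDegree (η₀ : G → ℂ) with hf
  have hx0 : 0 < x := charDegree_pos χ₂.2
  have hx0' : 0 < x' := charDegree_pos χ₃.2
  have hf0 : 0 < f := charDegree_pos η₀.2
  have hdegY : ∀ η ∈ Y, (η : G → ℂ) 1 = (f : ℂ) := fun η hη => by
    rw [heq η hη η₀ hη₀ 1 hone, apply_one (isCharacter_of_irr η₀.2)]
  have hfall : ∀ η ∈ Y, charDegree (η : G → ℂ) = f := fun η hη => by
    have h := hdegY η hη
    rw [apply_one (isCharacter_of_irr η.2)] at h
    exact_mod_cast h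
  have e0 : (1 + a χ₂ * x + a χ₃ * x' - δ * f : ℤ) = 0 := by
    have h := hreg η₀ hη₀ 1 hone
    rw [apply_one (isCharacter_of_irr η₀.2), apply_one (isCharacter_of_irr χ₂.2),
      apply_one (isCharacter_of_irr χ₃.2), ← hx, ← hx', ← hf] at h
    exact_mod_cast h
  rcases hp.eq_two_or_odd with hp2 | hpodd
  · -- the prime two does not occur
    exfalso
    obtain ⟨c, y, hy, hyP, hy1⟩ := D.exists_conj_section (z := t) (by rw [ht, hp2])
    have hord : orderOf (c * t * c⁻¹) = p ^ 1 := by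
      rw [show c * t * c⁻¹ = MulAut.conj c t from rfl, MulEquiv.orderOf_eq, ht, hp2, pow_one]
    have hyeq : y = c * t * c⁻¹ := isPPart_unique hp hy
      ⟨1, mul_one _, Commute.one_right _, ⟨1, hord⟩, by rw [orderOf_one]; exact hp.not_dvd_one⟩
    subst hyeq
    set t₁ := c * t * c⁻¹ with ht₁
    have ht₁2 : t₁ * t₁ = 1 := by rw [ht₁, conj_mul, htt]; group
    obtain ⟨w, hwP, hw1, hwc, hno⟩ := D.exists_no_product hp2 h3 hP4 hyP ht₁2 hy1
    have hti₁ : t₁⁻¹ = t₁ := inv_eq_of_mul_eq_one_right ht₁2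
    have hv := class_square_vanish D.hM (t := t₁) isPBlock_principal hti₁ (D.ppart_self hwP) hno
    have horth : ∑ χ ∈ S, (χ : G → ℂ) t₁ * (χ : G → ℂ) w = 0 := by
      have h := block_orth_of_not_isConj D.hM (isPBlock_principal (G := G) (M := M)) (D.ppart_self hyP)
        (D.ppart_self (inv_mem hwP)) (fun hc => hwc (by
          obtain ⟨b, hb⟩ := isConj_iff.1 hc
          exact isConj_iff.2 ⟨b, by rw [← inv_inv w, ← hb, mul_inv_rev, mul_inv_rev, inv_inv, hti₁, mul_assoc]⟩))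
      rw [finsum_mem_eq_toFinset_sum,
        show (principalBlock M G).toFinset = S by ext; simp [hS]] at h
      rw [← h]
      refine Finset.sum_congr rfl fun χ _ => ?_
      rw [apply_inv (isCharacter_of_irr χ.2), Complex.conj_conj]
    rw [hsplit, oneChar_apply, oneChar_apply, (hv1 _ hyP hy1).1, (hv1 _ hyP hy1).2, (hv1 _ hwP hw1).1,
      (hv1 _ hwP hw1).2] at horth
    have hterm : ∀ η ∈ SY, (η : G → ℂ) t₁ ^ 2 / (η : G → ℂ) 1 * (η : G → ℂ) w =
        (3 * (η : G → ℂ) w + 2 * (δ : ℂ) * ((η : G → ℂ) t₁ * (η : G → ℂ) w)) / (f : ℂ) := by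
      intro η hη
      obtain ⟨ψ, hψ, rfl⟩ := hsurj η (Finset.mem_filter.1 hη).2
      have hsq := D.orbit_sum_sq h3 (t := ⟨t₁, hyP⟩) (Subtype.ext ht₁2) hψ
      have h1 := hval ψ hψ t₁ ⟨t₁, hyP⟩ (D.ppart_self hyP) hy1
      have h2 := hval ψ hψ w ⟨w, hwP⟩ (D.ppart_self hwP) hw1
      rw [hdegY _ (Finset.mem_filter.1 hη).2, h1, h2, div_mul_eq_mul_div]
      congr 1
      have hd2 : (δ : ℂ) ^ 2 = 1 := by rcases hδ with e | e <;> rw [e] <;> norm_num
      set U := ∑ᶠ ψ' ∈ {ψ' : ↥(P : Subgroup G) →* ℂˣ | D.Rel ψ ψ'}, ((ψ' ⟨t₁, hyP⟩ : ℂˣ) : ℂ) with hU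
      set W := ∑ᶠ ψ' ∈ {ψ' : ↥(P : Subgroup G) →* ℂˣ | D.Rel ψ ψ'}, ((ψ' ⟨w, hwP⟩ : ℂˣ) : ℂ) with hW
      linear_combination (δ : ℂ) ^ 3 * W * hsq + 3 * (δ : ℂ) * W * hd2
    rw [hsplit, oneChar_apply, oneChar_apply, oneChar_apply, (hv1 _ hyP hy1).1, (hv1 _ hyP hy1).2,
      (hv1 _ hwP hw1).1, (hv1 _ hwP hw1).2, Finset.sum_congr rfl hterm, ← Finset.sum_div, Finset.sum_add_distrib,
      ← Finset.mul_sum, ← Finset.mul_sum, hsumY _ hwP hw1, apply_one (isCharacter_of_irr χ₂.2),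
      apply_one (isCharacter_of_irr χ₃.2), ← hx, ← hx'] at hv
    have hq2 : ((a χ₂ : ℂ)) ^ 2 = 1 := by rcases ha2 with e | e <;> rw [e] <;> norm_num
    have hq3 : ((a χ₃ : ℂ)) ^ 2 = 1 := by rcases ha3 with e | e <;> rw [e] <;> norm_num
    have hqd : ((δ : ℂ)) ^ 2 = 1 := by rcases hδ with e | e <;> rw [e] <;> norm_num
    have hTW : ∑ η ∈ SY, (η : G → ℂ) t₁ * (η : G → ℂ) w = -3 := by linear_combination horth - hq2 - hq3
    rw [hTW] at hv
    have hxc : (x : ℂ) ≠ 0 := Nat.cast_ne_zero.2 hx0.ne'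
    have hxc' : (x' : ℂ) ≠ 0 := Nat.cast_ne_zero.2 hx0'.ne'
    have hfc : (f : ℂ) ≠ 0 := Nat.cast_ne_zero.2 hf0.ne'
    set A := a χ₂ * (x : ℤ) with hA
    set B := a χ₃ * (x' : ℤ) with hB'
    have hmain : (1 + A + B) * (A * B + A + B) = 9 * (A * B) := by
      field_simp at hv
      have e : (((1 + A + B) * (A * B + A + B) : ℤ) : ℂ) = ((9 * (A * B) : ℤ) : ℂ) := by
        have he : ((δ : ℂ) * f) = 1 + (a χ₂ : ℂ) * x + (a χ₃ : ℂ) * x' := by
          have : ((1 + a χ₂ * x + a χ₃ * x' - δ * f : ℤ) : ℂ) = 0 := by rw [e0, Int.cast_zero]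
          push_cast at this
          linear_combination -this
        rw [hA, hB']
        push_cast
        rw [← he]
        rcases ha2 with h2 | h2 <;> rcases ha3 with h3 | h3 <;> rcases hδ with h4 | h4 <;>
          simp only [h2, h3, h4] at hv ⊢ <;> push_cast at hv ⊢ <;>
          first | linear_combination hv | linear_combination -hv
      exact_mod_cast e
    have h16 : (16 : ℤ) ∣ (Nat.card P : ℤ) := by
      obtain ⟨k, hk⟩ := D.card_pow
      replace hk : Nat.card P = 2 ^ k := by rw [hk, hp2]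
      have h3d := D.three_dvd h3
      have hk4 : 4 ≤ k := by
        by_contra hlt
        interval_cases k <;> omega
      rw [hk]
      exact_mod_cast (pow_dvd_pow 2 hk4)
    have hdvd : ∀ χ ∈ ({oneChar, χ₂, χ₃} : Set (IrrCharacter G)), (a χ = 1 ∨ a χ = -1) →
        (16 : ℤ) ∣ a χ * (charDegree (χ : G → ℂ) : ℤ) - 1 := by
      intro χ hχ ha
      have h := h16.trans (D.card_dvd_degree_sub χ (a χ) fun y hy hy1 => hX χ hχ _ _ (D.ppart_self hy) hy hy1)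
      have := h.mul_left (a χ)
      have e : a χ * (charDegree (χ : G → ℂ) : ℤ) - 1 = a χ * ((charDegree (χ : G → ℂ) : ℤ) - a χ) := by
        rcases ha with e | e <;> rw [e] <;> ring
      rw [e]; exact this
    have hA1 := two_arith A B (hdvd χ₂ (by simp) ha2) (hdvd χ₃ (by simp) ha3) hmain
    have hax : a χ₂ = 1 ∧ x = 1 := by
      rcases ha2 with e | e <;> rw [hA, e] at hA1 <;> omega
    exact hker c χ₂ h12.symm (by
      rw [← ht₁, (hv1 _ hyP hy1).1, apply_one (isCharacter_of_irr χ₂.2), ← hx, hax.1, hax.2]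
      norm_num)
  · -- an odd prime
    have htreg : ¬ p ∣ orderOf t := by
      rw [ht]; intro h
      have := Nat.le_of_dvd (by norm_num) h
      have := hp.two_le
      omega
    have hint : ∀ χ : IrrCharacter G, χ ≠ oneChar → ∃ n : ℤ, (χ : G → ℂ) t = (n : ℂ) ∧
        n < (charDegree (χ : G → ℂ) : ℤ) := by
      intro χ hne
      obtain ⟨n, hn, -⟩ := Cfsg.Agent.S0944.result χ t ht
      refine ⟨n, hn, lt_of_le_of_ne ?_ fun e => hker 1 χ hne ?_⟩
      · have h := CharBasics.norm_le (isCharacter_of_irr χ.2) t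
        rw [hn] at h
        simp only [Complex.norm_intCast] at h
        exact_mod_cast (le_abs_self _).trans h
      · rw [one_mul, inv_one, mul_one, hn, e, apply_one (isCharacter_of_irr χ.2), Int.cast_natCast]
    have hne0 : η₀ ≠ oneChar := fun e => Set.disjoint_left.1 hdisj (by simp) (e ▸ hη₀)
    obtain ⟨s, hs, hsx⟩ := hint χ₂ h12.symm
    obtain ⟨s', hs', hsx'⟩ := hint χ₃ h13.symm
    obtain ⟨u, hu, huf⟩ := hint η₀ hne0
    have e1 : (1 + a χ₂ * s + a χ₃ * s' - δ * u : ℤ) = 0 := by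
      have h := hreg η₀ hη₀ t htreg
      rw [hs, hs', hu] at h
      exact_mod_cast h
    obtain ⟨y, hy1⟩ : ∃ y : (P : Subgroup G), y ≠ 1 :=
      haveI : Nontrivial (P : Subgroup G) := Finite.one_lt_card_iff_nontrivial.1 (by omega)
      exists_ne 1
    have hy : (y : G) ≠ 1 := fun e => hy1 (Subtype.ext e)
    have hv := class_square_vanish D.hM (t := t) (y := (y : G)) (isPBlock_principal (G := G) (M := M)) htinv
      (D.ppart_self y.2) (fun v z hvz hyz b hc => by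
        have hq : ∀ e : G, IsConj t e → e * e = 1 := fun e he => by
          obtain ⟨r, rfl⟩ := isConj_iff.1 he
          rw [conj_mul, htt]; group
        obtain ⟨hi1, -⟩ := inverts_ppart hp (hq _ (isConj_iff.2 ⟨b, rfl⟩)) (hq _ hc.symm) rfl hvz
        have hyy : (y : G) * y = 1 := D.sq_eq_one_of_real h3 y.2 (by
          obtain ⟨r, hr⟩ := isConj_iff.1 hyz
          exact (hyz.trans (isConj_iff.2 ⟨_, hi1⟩)).trans (isConj_iff.2 ⟨r⁻¹, by rw [← hr]; group⟩))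
        obtain ⟨k, hk⟩ := D.isPPow y.2
        have hd : p ^ k ∣ 2 := hk ▸ orderOf_dvd_of_pow_eq_one (by rw [pow_two, hyy])
        rcases Nat.eq_zero_or_pos k with rfl | hk0
        · exact hy (orderOf_eq_one_iff.1 (by rw [hk, pow_zero]))
        · exact htreg (ht ▸ (dvd_pow_self p hk0.ne').trans hd))
    rw [hsplit, oneChar_apply, oneChar_apply, oneChar_apply, (hv1 _ y.2 hy).1, (hv1 _ y.2 hy).2, hs, hs',
      apply_one (isCharacter_of_irr χ₂.2), apply_one (isCharacter_of_irr χ₃.2), ← hx, ← hx',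
      Finset.sum_congr rfl (fun η hη => by
        rw [hdegY η (Finset.mem_filter.1 hη).2, heq η (Finset.mem_filter.1 hη).2 η₀ hη₀ t htreg, hu]) (s₁ := SY),
      ← Finset.mul_sum, hsumY _ y.2 hy] at hv
    have e2 : (1 : ℚ) + a χ₂ * (s : ℚ) ^ 2 / x + a χ₃ * (s' : ℚ) ^ 2 / x' - δ * (u : ℚ) ^ 2 / f = 0 := by
      have h : (((1 : ℚ) + a χ₂ * (s : ℚ) ^ 2 / x + a χ₃ * (s' : ℚ) ^ 2 / x' - δ * (u : ℚ) ^ 2 / f : ℚ) : ℂ) =
          ((0 : ℚ) : ℂ) := by
        push_cast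
        linear_combination hv
      exact_mod_cast h
    obtain ⟨hc, hsq⟩ := odd_arith (a χ₂) (a χ₃) δ ha2 ha3 hδ x x' f hx0 hx0' hf0 s s' u hsx hsx' huf e0 e1 e2
    exact ⟨hc, fun η hη => by rw [hfall η hη]; exact hsq⟩


/-- Let p be a prime, M a maximal ideal of the algebraic integers containing p, and G a finite group with a nontrivial abelian Sylow p-subgroup P, N = N_G(P), C = C_G(P), such that N/C is cyclic of order 3, #P > 4, and C_G(y) ∩ N = C for every non-identity y ∈ P. Then the principal p-block is the disjoint union of a set X of exactly 3 characters containing the principal character and a set Y of (#P − 1)/3 characters, with signs a_χ = ±1 (χ ∈ X, a = 1 at the principal character) and δ = ±1 such that every χ ∈ X takes the value a_χ at every element whose p-part is a non-identity element of P, and there is a map ζ from the non-principal linear characters of P onto Y, constant on N-conjugacy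 classes, with ζ_ψ(z) = δ·Σ ψ'(y) over the N-orbit of ψ, for z with p-part y ≠ 1 in P. If moreover G has an involution lying in no proper normal subgroup of G, then exactly two of the three numbers −δ and a_χ (χ ∈ X non-principal) equal −1, and the product of the degrees of the two non-principal members of X and of any member of Y is a perfect square. -/
theorem result {G : Type*} [Group G] [Finite G] (p : ℕ) [Fact p.Prime] (M : Ideal Cfsg.AlgInt) (hM : Cfsg.IsPModular p M) (P : Sylow p G) (hab : IsMulCommutative P) (hP1 : Nat.card P ≠ 1) (hCN : (Subgroup.centralizer ((P : Subgroup G) : Set G)).relIndex (Subgroup.normalizer ((P : Subgroup G) : Set G)) = 3) (hcyc : ∃ g : G, g ∈ Subgroup.normalizer ((P : Subgroup G) : Set G) ∧ Subgroup.centralizer ((P : Subgroup G) : Set G) ⊔ Subgroup.zpowers g = Subgroup.normalizer ((P : Subgroup G) : Set G)) (hm2 : 3 + 1 < Nat.card P) (hfrob : ∀ y : G, y ∈ (P : Subgroup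 G) → y ≠ 1 → Subgroup.centralizer ({y} : Set G) ⊓ Subgroup.normalizer ((P : Subgroup G) : Set G) = Subgroup.centralizer ((P : Subgroup G) : Set G)) : ∃ (X Y : Set (Cfsg.IrrCharacter G)), Cfsg.principalBlock M G = X ∪ Y ∧ Disjoint X Y ∧ Nat.card X = 3 ∧ Nat.card Y = (Nat.card P - 1) / 3 ∧ (∃ χ₁ ∈ X, (χ₁ : G → ℂ) = fun _ => 1) ∧ ∃ (a : Cfsg.IrrCharacter G → ℤ) (δ : ℤ) (ζ : (↥(P : Subgroup G) →* ℂˣ) → Cfsg.IrrCharacter G), (δ = 1 ∨ δ = -1) ∧ (∀ χ ∈ X, (a χ = 1 ∨ a χ = -1) ∧ ∀ z y : G, Cfsg.IsPPart p z y → y ∈ (P : Subgroup G) → y ≠ 1 → (χ : G → ℂ) z = (a χ : ℂ)) ∧ (∀ ψ : ↥(P : Subgroup G) →* ℂˣ, ψ ≠ 1 → ζ ψ ∈ Y) ∧ (∀ η ∈ Y, ∃ ψ : ↥(P : Subgroup G) →* ℂˣ, ψ ≠ 1 ∧ ζ ψ = η) ∧ (∀ ψ ψ' : ↥(P : Subgroup G) →* ℂˣ, ψ ≠ 1 → (∃ n : G, n ∈ Subgroup.normalizer ((P : Subgroup G) : Set G) ∧ ∀ w w' : ↥(P : Subgroup G), (w' : G) = n * w * n⁻¹ → ψ' w' = ψ w) → ζ ψ' = ζ ψ) ∧ (∀ ψ : ↥(P : Subgroup G) →* ℂˣ, ψ ≠ 1 → ∀ (z : G)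 (y : ↥(P : Subgroup G)), Cfsg.IsPPart p z (y : G) → (y : G) ≠ 1 → (ζ ψ : G → ℂ) z = (δ : ℂ) * ∑ᶠ ψ' ∈ {ψ' : ↥(P : Subgroup G) →* ℂˣ | ∃ n : G, n ∈ Subgroup.normalizer ((P : Subgroup G) : Set G) ∧ ∀ w w' : ↥(P : Subgroup G), (w' : G) = n * w * n⁻¹ → ψ' w' = ψ w}, ((ψ' y : ℂˣ) : ℂ)) ∧ ((∃ t : G, orderOf t = 2 ∧ ∀ K : Subgroup G, K.Normal → t ∈ K → K = ⊤) → Nat.card {χ : Cfsg.IrrCharacter G // χ ∈ X ∧ (χ : G → ℂ) ≠ (fun _ => 1) ∧ a χ = -1} + (if δ = 1 then 1 else 0) = 2 ∧ ∀ η ∈ Y, IsSquare (Cfsg.charDegree (η : G → ℂ) * ∏ᶠ χ ∈ {χ : Cfsg.IrrCharacter G | χ ∈ X ∧ (χ : G → ℂ) ≠ fun _ => 1}, Cfsg.charDegree (χ : G → ℂ))) := by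
  classical
  haveI : Fintype G := Fintype.ofFinite G
  let D : Setup M P := ⟨hM, hP1, hab.is_comm.comm, hfrob⟩
  obtain ⟨χ₂, χ₃, Y, a, δ, ζ, h12, h13, h23, hB, hdisj, hYc, ha1, ha2, ha3, hδ, hX, hζY, hsurj, hconst, hval,
    hsum, hreg, heq⟩ := D.exists_three_form hCN hm2
  refine ⟨{oneChar, χ₂, χ₃}, Y, hB, hdisj, ?_, hYc, ⟨oneChar, by simp, rfl⟩, a, δ, ζ, hδ,
    fun χ hχ => ⟨?_, hX χ hχ⟩, hζY, hsurj, hconst, hval, ?_⟩
  · rw [Nat.card_coe_set_eq, Set.ncard_eq_three]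
    exact ⟨_, _, _, h12, h13, h23, rfl⟩
  · rcases hχ with rfl | rfl | rfl
    exacts [Or.inl ha1, ha2, ha3]
  rintro ⟨t, ht, hgen⟩
  obtain ⟨hcount, hsq⟩ := involution_part D hCN hm2 h12 h13 h23 hB hdisj ha2 ha3 hδ hX hsurj hval hsum hreg heq
    ht hgen
  have hne : ∀ χ : IrrCharacter G, ((χ : G → ℂ) ≠ fun _ => 1) ↔ χ ≠ oneChar := fun χ =>
    not_congr ⟨fun h => Subtype.ext h, fun h => h ▸ rfl⟩
  refine ⟨?_, fun η hη => ?_⟩
  · refine Eq.trans ?_ hcount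
    congr 1
    rw [Nat.card_congr (Equiv.subtypeEquivRight
      (q := fun χ => χ ∈ ({χ₂, χ₃} : Finset (IrrCharacter G)).filter (fun χ => a χ = -1)) (fun χ => by
        simp only [Finset.mem_filter, Finset.mem_insert, Finset.mem_singleton, Set.mem_insert_iff,
          Set.mem_singleton_iff, hne]
        constructor
        · rintro ⟨h, h', h''⟩; exact ⟨h.resolve_left h', h''⟩
        · rintro ⟨h, h''⟩
          refine ⟨Or.inr h, ?_, h''⟩
          rcases h with rfl | rfl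
          exacts [h12.symm, h13.symm])), Nat.card_eq_fintype_card, Fintype.card_coe, Finset.card_filter,
      Finset.sum_pair h23]
  · have e : {χ : IrrCharacter G | χ ∈ ({oneChar, χ₂, χ₃} : Set (IrrCharacter G)) ∧ (χ : G → ℂ) ≠ fun _ => 1} =
        {χ₂, χ₃} := by
      ext χ
      simp only [Set.mem_ofPred_eq, Set.mem_insert_iff, Set.mem_singleton_iff, hne]
      constructor
      · rintro ⟨h, h'⟩; exact h.resolve_left h'
      · intro h
        refine ⟨Or.inr h, ?_⟩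
        rcases h with rfl | rfl
        exacts [h12.symm, h13.symm]
    rw [e, finprod_mem_pair h23]
    exact hsq η hη

end Cfsg.Agent.S4721
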