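import Cfsg.Statements.S4722
import Cfsg.Agent.Blocks.Section
import Cfsg.Agent.ZStar.Second

set_option autoImplicit false
set_option linter.style.haveILetI false
open Cfsg

namespace Cfsg.Agent.S4722

open CfsgLib CfsgLib.CharBasics CfsgLib.Blocks

/-- Three balanced sums with at most one positive weight force equality. -/
theorem balanced {ι : Type*} (S : Finset ι) (r x s : ι → ℝ) (hx : ∀ i ∈ S, 0 < x i)
    (h1 : ∑ i ∈ S, r i * s i ^ 2 / x i = 0) (h2 : ∑ i ∈ S, r i * x i = 0) (h3 : ∑ i ∈ S, r i * s i = 0)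
    {i₀ : ι} (hi₀ : i₀ ∈ S) (hr₀ : r i₀ ≠ 0) (hs₀ : s i₀ = x i₀)
    (hp : ∀ i ∈ S, ∀ j ∈ S, 0 < r i → 0 < r j → i = j) :
    ∃ i ∈ S, i ≠ i₀ ∧ s i = x i := by
  obtain ⟨p, hpS, hpr⟩ : ∃ p ∈ S, 0 < r p := by
    by_contra hcon
    push Not at hcon
    have h := (Finset.sum_eq_zero_iff_of_nonpos
      (fun i hi => mul_nonpos_of_nonpos_of_nonneg (hcon i hi) (hx i hi).le)).1 h2 i₀ hi₀
    exact hr₀ ((mul_eq_zero.1 h).resolve_right (hx _ hi₀).ne')
  set c := s p / x p with hc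
  have hterm : ∀ i ∈ S, r i * (s i - c * x i) ^ 2 / x i ≤ 0 := by
    intro i hi
    rcases le_or_gt (r i) 0 with h | h
    · exact div_nonpos_of_nonpos_of_nonneg (mul_nonpos_of_nonpos_of_nonneg h (sq_nonneg _)) (hx i hi).le
    · obtain rfl := hp i hi p hpS h hpr
      rw [hc, div_mul_cancel₀ _ (hx i hi).ne', sub_self, zero_pow two_ne_zero, mul_zero, zero_div]
  have hsum : ∑ i ∈ S, r i * (s i - c * x i) ^ 2 / x i = 0 := by
    rw [Finset.sum_congr rfl (g := fun i => r i * s i ^ 2 / x i - 2 * c * (r i * s i) + c ^ 2 * (r i * x i))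
      fun i hi => by have := (hx i hi).ne'; field_simp; ring]
    rw [Finset.sum_add_distrib, Finset.sum_sub_distrib, ← Finset.mul_sum, ← Finset.mul_sum, h1, h2, h3]
    ring
  have hall : ∀ i ∈ S, r i ≠ 0 → s i = c * x i := by
    intro i hi hr
    have h := (Finset.sum_eq_zero_iff_of_nonpos hterm).1 hsum i hi
    rw [div_eq_zero_iff, or_iff_left (hx i hi).ne', mul_eq_zero, or_iff_right hr, sq_eq_zero_iff] at h
    linarith
  have hc1 : c = 1 := by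
    have h := hall i₀ hi₀ hr₀
    rw [hs₀] at h
    exact (mul_eq_right₀ (hx _ hi₀).ne').1 h.symm
  by_contra hcon
  push Not at hcon
  rw [Finset.sum_eq_single i₀ (fun i hi hne => ?_) (fun h => absurd hi₀ h)] at h2
  · exact hr₀ ((mul_eq_zero.1 h2).resolve_right (hx _ hi₀).ne')
  · by_cases hr : r i = 0
    · rw [hr, zero_mul]
    · exact absurd (by rw [hall i hi hr, hc1, one_mul]) (hcon i hi hne)

/-- Let M be a maximal ideal of the algebraic integers containing 2, P a 2-subgroup of the finite group G, U a subset of P, and t an involution of G such that no element of U is inverted by any conjugate of t. Let θ be a generalized character of P vanishing outside U, and for χ in the principal 2-block B₀ put a_χ = #P⁻¹ Σ_{y ∈ P} χ(y) θ(y⁻¹). Then Σ_{χ ∈ B₀} a_χ χ(t)^2/χ(1) = 0, Σ_{χ ∈ B₀} a_χ χ(1) = 0 and Σ_{χ ∈ B₀} a_χ χ(t) = 0. If moreover #P⁻¹ Σ_{y ∈ P} θ(y) ≠ 0, then either at least two of the a_χ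 have positive real part and at least two have negative real part, or G has a proper normal subgroup containing O_2'(G) and t. -/
theorem result {G : Type*} [Group G] [Finite G] (M : Ideal Cfsg.AlgInt) (hM : Cfsg.IsPModular 2 M) (P : Subgroup G) (hP : IsPGroup 2 P) (U : Set G) (hUP : U ⊆ (P : Set G)) (t : G) (ht : orderOf t = 2) (hinv : ∀ u ∈ U, ∀ g : G, (g * t * g⁻¹) * u * (g * t * g⁻¹)⁻¹ ≠ u⁻¹) (θ : ↥P → ℂ) (hθ : Cfsg.IsGeneralizedCharacter ↥P θ) (hθU : ∀ y : ↥P, (y : G) ∉ U → θ y = 0) : (∑ᶠ χ ∈ Cfsg.principalBlock M G, ((Nat.card ↥P : ℂ)⁻¹ * ∑ᶠ y : ↥P, (χ : G → ℂ) (y : G) * θ y⁻¹) * (χ : G → ℂ) t ^ 2 / (χ : G → ℂ) 1 = 0) ∧ (∑ᶠ χ ∈ Cfsg.principalBlock M G, ((Nat.card ↥P : ℂ)⁻¹ * ∑ᶠ y : ↥P, (χ : G → ℂ) (y : G) * θ y⁻¹) * (χ : G → ℂ) 1 = 0) ∧ (∑ᶠ χ ∈ Cfsg.principalBlock M G, ((Nat.card ↥P : ℂ)⁻¹ * ∑ᶠ y : ↥P, (χ : G → ℂ) (y : G) * θ y⁻¹) * (χ : G → ℂ) t = 0) ∧ ((Nat.card ↥P : ℂ)⁻¹ * ∑ᶠ y : ↥P, θ y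 ≠ 0 → (2 ≤ Nat.card {χ : Cfsg.IrrCharacter G // χ ∈ Cfsg.principalBlock M G ∧ 0 < (((Nat.card ↥P : ℂ)⁻¹ * ∑ᶠ y : ↥P, (χ : G → ℂ) (y : G) * θ y⁻¹)).re} ∧ 2 ≤ Nat.card {χ : Cfsg.IrrCharacter G // χ ∈ Cfsg.principalBlock M G ∧ (((Nat.card ↥P : ℂ)⁻¹ * ∑ᶠ y : ↥P, (χ : G → ℂ) (y : G) * θ y⁻¹)).re < 0}) ∨ ∃ K : Subgroup G, K.Normal ∧ K ≠ ⊤ ∧ Cfsg.pPrimeCore 2 G ≤ K ∧ t ∈ K) := by
  classical
  haveI : Fact (Nat.Prime 2) := ⟨Nat.prime_two⟩
  haveI : Fintype G := Fintype.ofFinite G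
  haveI : Fintype P := Fintype.ofFinite P
  haveI : Fintype (IrrCharacter G) := @Fintype.ofFinite _ finite_irrCharacter
  have hB : IsPBlock M (principalBlock M G) := isPBlock_principal
  have htinv : t⁻¹ = t := inv_eq_of_mul_eq_one_right (by rw [← sq, ← ht]; exact pow_orderOf_eq_one t)
  have htconj : ∀ χ : IrrCharacter G, starRingEnd ℂ ((χ : G → ℂ) t) = (χ : G → ℂ) t := fun χ => by
    rw [← apply_inv (isCharacter_of_irr χ.2), htinv]
  have h1conj : ∀ χ : IrrCharacter G, starRingEnd ℂ ((χ : G → ℂ) 1) = (χ : G → ℂ) 1 := fun χ => by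
    rw [apply_one (isCharacter_of_irr χ.2), Complex.conj_natCast]
  set a : IrrCharacter G → ℂ := fun χ =>
    (Nat.card ↥P : ℂ)⁻¹ * ∑ᶠ y : ↥P, (χ : G → ℂ) (y : G) * θ y⁻¹ with ha
  set S : Finset (IrrCharacter G) := (principalBlock M G).toFinset with hS
  have hfs : ∀ F : IrrCharacter G → ℂ, ∑ᶠ χ ∈ principalBlock M G, F χ = ∑ χ ∈ S, F χ := fun F =>
    finsum_mem_eq_toFinset_sum F _
  have hpt : ∀ y : P, IsPPart 2 (y : G) (y : G) := fun y => by
    obtain ⟨k, hk⟩ := IsPGroup.iff_orderOf.1 hP y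
    exact ⟨1, mul_one _, Commute.one_right _, ⟨k, by rw [Subgroup.orderOf_coe]; exact hk⟩, by simp⟩
  have hp1 : IsPPart 2 (1 : G) 1 := ⟨1, mul_one _, Commute.one_right _, ⟨0, by simp⟩, by simp⟩
  have hpT : IsPPart 2 t t := ⟨1, mul_one _, Commute.one_right _, ⟨1, by simp [ht]⟩, by simp⟩
  -- no conjugate of `t` inverts `y` when `θ y⁻¹ ≠ 0`
  have hy : ∀ y : P, θ y⁻¹ ≠ 0 → ∀ g : G, (g * t * g⁻¹) * (y : G) * (g * t * g⁻¹)⁻¹ ≠ (y : G)⁻¹ := by
    intro y hne g h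
    have hU : ((y⁻¹ : P) : G) ∈ U := by
      by_contra hc
      exact hne (hθU _ hc)
    refine hinv _ hU g ?_
    rw [Subgroup.coe_inv]
    simpa only [mul_inv_rev, inv_inv, mul_assoc] using congrArg (fun z => z⁻¹) h
  -- the square of the class sum vanishes on the section
  set Θ : G → ℂ := fun w => ∑ χ : IrrCharacter G,
    ((χ : G → ℂ) t ^ 2 / (χ : G → ℂ) 1) * (χ : G → ℂ) w with hΘ
  have hΘ0 : ∀ w : G, (∀ h : G, ¬ IsConj (h * t * h⁻¹ * w) t) → Θ w = 0 := by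
    intro w hw
    have e : (Nat.card G : ℂ) * Θ w = 0 := by
      calc (Nat.card G : ℂ) * Θ w
          = ∑ χ : IrrCharacter G, (χ : G → ℂ) t * ∑ h : G, (χ : G → ℂ) (h * t * h⁻¹ * w) := by
            rw [hΘ, Finset.mul_sum]
            refine Finset.sum_congr rfl fun χ _ => ?_
            have h := sum_conj_apply_mul χ.2 t w
            have h1 := apply_one_ne_zero χ.2
            field_simp
            linear_combination -((χ : G → ℂ) t) * h
        _ = ∑ h : G, ∑ χ : IrrCharacter G, (χ : G → ℂ) (h * t * h⁻¹ * w) * starRingEnd ℂ ((χ : G → ℂ) t) := by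
            simp only [Finset.mul_sum, htconj]
            rw [Finset.sum_comm]
            exact Finset.sum_congr rfl fun h _ => Finset.sum_congr rfl fun χ _ => by ring
        _ = 0 := Finset.sum_eq_zero fun h _ => by rw [sum_col, if_neg (hw h)]
    exact (mul_eq_zero.1 e).resolve_left (Nat.cast_ne_zero.2 Nat.card_pos.ne')
  have hsec : ∀ y : P, θ y⁻¹ ≠ 0 → blockPart (principalBlock M G) Θ (y : G) = 0 := by
    intro y hne
    refine blockPart_eq_zero hM (x := (y : G)) (fun w z hwz hyz => hΘ0 w fun h hc => ?_) hB (hpt y)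
      (IsConj.refl _)
    -- a conjugate of `t` inverts `w`
    set t' := h * t * h⁻¹ with ht'
    have htt : t' * t' = 1 := by
      rw [ht', conj_mul, ← sq, ← ht, pow_orderOf_eq_one, mul_one, mul_inv_cancel]
    obtain ⟨c, hc⟩ := isConj_iff.1 hc.symm
    have hcc : (c * t * c⁻¹) * (c * t * c⁻¹) = 1 := by
      rw [conj_mul, ← sq, ← ht, pow_orderOf_eq_one, mul_one, mul_inv_cancel]
    have hw : t' * w * t'⁻¹ = w⁻¹ := by
      rw [hc] at hcc
      rw [inv_eq_of_mul_eq_one_right htt]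
      exact eq_inv_of_mul_eq_one_left (by simpa only [mul_assoc] using hcc)
    have hz : t' * z * t'⁻¹ = z⁻¹ := by
      have h2 := isPPart_conj hwz t'
      rw [hw] at h2
      obtain ⟨v, hzv, hcm, ⟨k, hk⟩, hv⟩ := hwz
      exact isPPart_unique Nat.prime_two h2 ⟨v⁻¹, by rw [← hzv, mul_inv_rev, (hcm.inv_inv).eq],
        hcm.inv_inv, ⟨k, by rw [orderOf_inv, hk]⟩, by rwa [orderOf_inv]⟩
    obtain ⟨d, rfl⟩ := isConj_iff.1 hyz
    refine hy y hne (d⁻¹ * h) ?_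
    have he : (d⁻¹ * h) * t * (d⁻¹ * h)⁻¹ = d⁻¹ * t' * d := by rw [ht']; group
    rw [he]
    calc (d⁻¹ * t' * d) * (y : G) * (d⁻¹ * t' * d)⁻¹
        = d⁻¹ * (t' * (d * (y : G) * d⁻¹) * t'⁻¹) * d := by group
      _ = (y : G)⁻¹ := by rw [hz]; group
  -- the three column relations
  have key : ∀ F : IrrCharacter G → ℂ,
      (∀ y : P, θ y⁻¹ ≠ 0 → ∑ χ ∈ S, (χ : G → ℂ) (y : G) * F χ = 0) → ∑ χ ∈ S, a χ * F χ = 0 := by
    intro F hF
    simp only [ha, finsum_eq_sum_of_fintype, mul_assoc, Finset.sum_mul]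
    rw [← Finset.mul_sum, Finset.sum_comm, Finset.sum_eq_zero, mul_zero]
    intro y _
    by_cases h : θ y⁻¹ = 0
    · simp [h]
    · rw [Finset.sum_congr rfl (g := fun χ : IrrCharacter G => θ y⁻¹ * ((χ : G → ℂ) (y : G) * F χ)) fun χ _ => by ring,
        ← Finset.mul_sum, hF y h, mul_zero]
  have c1 : ∀ y : P, θ y⁻¹ ≠ 0 →
      ∑ χ ∈ S, (χ : G → ℂ) (y : G) * ((χ : G → ℂ) t ^ 2 / (χ : G → ℂ) 1) = 0 := by
    intro y hne
    rw [← hsec y hne, ZStar.blockPart_apply, ← Finset.sum_filter]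
    refine Finset.sum_congr (by ext χ; simp [hS]) fun χ _ => ?_
    have e : Θ = ∑ ψ : IrrCharacter G, ((ψ : G → ℂ) t ^ 2 / (ψ : G → ℂ) 1) • (ψ : G → ℂ) := by
      funext w
      simp [hΘ, Finset.sum_apply]
    rw [e, classInner_sum_left, Finset.sum_eq_single χ
      (fun ψ _ hne' => by rw [classInner_smul_left, classInner_ne ψ.2 χ.2 (fun h => hne' (Subtype.ext h)), mul_zero])
      (fun h => absurd (Finset.mem_univ χ) h), classInner_smul_left, classInner_self χ.2, mul_one, mul_comm]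
  have corth : ∀ (y : P) (b : G), θ y⁻¹ ≠ 0 → IsPPart 2 b b → ¬ IsConj (y : G) b →
      (∀ χ : IrrCharacter G, starRingEnd ℂ ((χ : G → ℂ) b) = (χ : G → ℂ) b) →
      ∑ χ ∈ S, (χ : G → ℂ) (y : G) * (χ : G → ℂ) b = 0 := by
    intro y b _ hb hnc hr
    rw [← block_orth_of_not_isConj hM hB (hpt y) hb hnc, hfs]
    simp only [hr]
  have c2 : ∀ y : P, θ y⁻¹ ≠ 0 → ∑ χ ∈ S, (χ : G → ℂ) (y : G) * (χ : G → ℂ) 1 = 0 := fun y hne =>
    corth y 1 hne hp1 (fun hc => hy y hne 1 (by rw [isConj_one_left.1 hc]; simp)) h1conj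
  have c3 : ∀ y : P, θ y⁻¹ ≠ 0 → ∑ χ ∈ S, (χ : G → ℂ) (y : G) * (χ : G → ℂ) t = 0 := fun y hne =>
    corth y t hne hpT (fun hc => by
      obtain ⟨c, hc⟩ := isConj_iff.1 hc.symm
      refine hy y hne c ?_
      rw [hc, mul_inv_cancel_right, ← hc]
      simp only [mul_inv_rev, inv_inv, htinv, mul_assoc]) htconj
  have e1 : ∑ χ ∈ S, a χ * ((χ : G → ℂ) t ^ 2 / (χ : G → ℂ) 1) = 0 := key _ c1
  have e2 : ∑ χ ∈ S, a χ * (χ : G → ℂ) 1 = 0 := key _ c2
  have e3 : ∑ χ ∈ S, a χ * (χ : G → ℂ) t = 0 := key _ c3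
  refine ⟨?_, by rw [hfs]; exact e2, by rw [hfs]; exact e3, ?_⟩
  · rw [hfs, ← e1]
    exact Finset.sum_congr rfl fun χ _ => by rw [mul_div_assoc]
  intro havg
  show (2 ≤ Nat.card {χ : IrrCharacter G // χ ∈ principalBlock M G ∧ 0 < (a χ).re} ∧
    2 ≤ Nat.card {χ : IrrCharacter G // χ ∈ principalBlock M G ∧ (a χ).re < 0}) ∨ _
  set x : IrrCharacter G → ℝ := fun χ => ((χ : G → ℂ) 1).re with hx
  set s : IrrCharacter G → ℝ := fun χ => ((χ : G → ℂ) t).re with hs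
  set r : IrrCharacter G → ℝ := fun χ => (a χ).re with hr
  have hx1 : ∀ χ : IrrCharacter G, (χ : G → ℂ) 1 = (x χ : ℂ) := fun χ =>
    (Complex.conj_eq_iff_re.1 (h1conj χ)).symm
  have hs1 : ∀ χ : IrrCharacter G, (χ : G → ℂ) t = (s χ : ℂ) := fun χ =>
    (Complex.conj_eq_iff_re.1 (htconj χ)).symm
  have hxpos : ∀ χ ∈ S, 0 < x χ := fun χ _ => by
    simp only [hx, apply_one (isCharacter_of_irr χ.2), Complex.natCast_re]
    exact_mod_cast charDegree_pos χ.2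
  have hre : ∀ F : IrrCharacter G → ℝ, ∑ χ ∈ S, a χ * (F χ : ℂ) = 0 → ∑ χ ∈ S, r χ * F χ = 0 := by
    intro F hF
    have h := congrArg Complex.re hF
    rw [Complex.re_sum, Complex.zero_re] at h
    simpa only [Complex.re_mul_ofReal, hr] using h
  have r1 : ∑ χ ∈ S, r χ * s χ ^ 2 / x χ = 0 := by
    simp only [mul_div_assoc]
    refine hre (fun χ => s χ ^ 2 / x χ) ?_
    rw [← e1]
    exact Finset.sum_congr rfl fun χ _ => by rw [hx1, hs1]; push_cast; ring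
  have r2 : ∑ χ ∈ S, r χ * x χ = 0 := hre x (by simpa only [← hx1] using e2)
  have r3 : ∑ χ ∈ S, r χ * s χ = 0 := hre s (by simpa only [← hs1] using e3)
  have h1S : (oneChar : IrrCharacter G) ∈ S := Set.mem_toFinset.2 (oneChar_mem_principal hM)
  have hr0 : r oneChar ≠ 0 := by
    have hA : a oneChar = (Nat.card ↥P : ℂ)⁻¹ * ∑ᶠ y : ↥P, θ y := by
      simp only [ha, oneChar_apply, one_mul, finsum_eq_sum_of_fintype]
      congr 1
      exact Fintype.sum_equiv (Equiv.inv P) _ _ fun y => rfl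
    have hconj : starRingEnd ℂ (a oneChar) = a oneChar := by
      obtain ⟨φ, ψ, hφ, hψ, rfl⟩ := hθ
      rw [hA, finsum_eq_sum_of_fintype, map_mul, map_inv₀, Complex.conj_natCast, map_sum]
      congr 1
      refine Fintype.sum_equiv (Equiv.inv P) _ _ fun y => ?_
      simp only [Equiv.inv_apply, Pi.sub_apply, map_sub, apply_inv hφ, apply_inv hψ]
    intro h0
    refine havg ?_
    rw [← hA, ← Complex.conj_eq_iff_re.1 hconj]
    exact_mod_cast h0
  have hs0 : s oneChar = x oneChar := by simp [hs, hx, oneChar_apply]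
  have fin : (∃ χ ∈ S, χ ≠ oneChar ∧ s χ = x χ) →
      ∃ K : Subgroup G, K.Normal ∧ K ≠ ⊤ ∧ pPrimeCore 2 G ≤ K ∧ t ∈ K := by
    rintro ⟨χ, hχS, hne, hsx⟩
    have hc := isCharacter_of_irr χ.2
    refine ⟨charKer _ hc, charKer_normal hc, fun htop => ?_,
      fun v hv => (mem_charKer hc v).2 (ZStar.pPrimeCore_le_ker hM (Set.mem_toFinset.1 hχS) hv),
      (mem_charKer hc t).2 (by rw [hs1, hx1, hsx])⟩
    have hall : ∀ g : G, (χ : G → ℂ) g = (χ : G → ℂ) 1 := fun g =>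
      (mem_charKer hc g).1 (by rw [htop]; trivial)
    have h0 := sum_irr_eq_zero χ.2 (fun h => hne (Subtype.ext h))
    rw [Finset.sum_congr rfl (fun g _ => hall g), Finset.sum_const, Finset.card_univ, nsmul_eq_mul] at h0
    exact apply_one_ne_zero χ.2 ((mul_eq_zero.1 h0).resolve_left (Nat.cast_ne_zero.2 Fintype.card_ne_zero))
  by_cases hpos : ∀ i ∈ S, ∀ j ∈ S, 0 < r i → 0 < r j → i = j
  · exact Or.inr (fin (balanced S r x s hxpos r1 r2 r3 h1S hr0 hs0 hpos))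
  by_cases hneg : ∀ i ∈ S, ∀ j ∈ S, r i < 0 → r j < 0 → i = j
  · refine Or.inr (fin (balanced S (fun i => -r i) x s hxpos ?_ ?_ ?_ h1S (neg_ne_zero.2 hr0) hs0
      fun i hi j hj a b => hneg i hi j hj (neg_pos.1 a) (neg_pos.1 b)))
    · simp only [neg_mul, neg_div, Finset.sum_neg_distrib, r1, neg_zero]
    · simp only [neg_mul, Finset.sum_neg_distrib, r2, neg_zero]
    · simp only [neg_mul, Finset.sum_neg_distrib, r3, neg_zero]
  push Not at hpos hneg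
  have two : ∀ Q : ℝ → Prop, (∃ i ∈ S, ∃ j ∈ S, Q (r i) ∧ Q (r j) ∧ i ≠ j) →
      2 ≤ Nat.card {χ : IrrCharacter G // χ ∈ principalBlock M G ∧ Q (a χ).re} := by
    rintro Q ⟨i, hi, j, hj, h1, h2, h3⟩
    rw [Nat.card_eq_fintype_card]
    exact Fintype.one_lt_card_iff.2 ⟨⟨i, Set.mem_toFinset.1 hi, h1⟩, ⟨j, Set.mem_toFinset.1 hj, h2⟩,
      fun h => h3 (congrArg Subtype.val h)⟩
  exact Or.inl ⟨two (fun r => 0 < r) hpos, two (fun r => r < 0) hneg⟩

end Cfsg.Agent.S4722
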