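import Cfsg.Statements.S4723
import Cfsg.Agent.Blocks.StableHeight

set_option autoImplicit false
open Cfsg

namespace Cfsg.Agent.S4723

/-- Let p be a prime, M a maximal ideal of the algebraic integers containing p, H a normal subgroup of the finite group G and b a p-block of H. Let T be the stabilizer of b in G. Then b contains a character θ of height zero whose own stabilizer in G (the elements g with θ(g h g⁻¹) = θ(h) for all h ∈ H) has index prime to p in T, i.e. contains a Sylow p-subgroup of T. -/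
theorem result {G : Type*} [Group G] [Finite G] (p : ℕ) [Fact p.Prime] (M : Ideal Cfsg.AlgInt) (hM : Cfsg.IsPModular p M) (H : Subgroup G) [H.Normal] (b : Set (Cfsg.IrrCharacter ↥H)) (hb : Cfsg.IsPBlock M b) (T : Subgroup G) (hT : (∀ g : G, g ∈ T ↔ ∀ θ ∈ b, ∀ θ' : Cfsg.IrrCharacter ↥H, (∀ h h' : ↥H, (h' : G) = g * h * g⁻¹ → (θ' : ↥H → ℂ) h' = (θ : ↥H → ℂ) h) → θ' ∈ b)) : ∃ θ ∈ b, Cfsg.blockHeight p b (θ : ↥H → ℂ) = 0 ∧ ∃ S : Subgroup G, S ≤ T ∧ (∀ g : G, g ∈ S ↔ (g ∈ T ∧ ∀ h h' : ↥H, (h' : G) = g * h * g⁻¹ → (θ : ↥H → ℂ) h' = (θ : ↥H → ℂ) h)) ∧ ¬ p ∣ S.relIndex T := by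
  classical
  haveI : Fintype G := Fintype.ofFinite G
  haveI : Fintype H := Fintype.ofFinite H
  have hnorm : ∀ x : G, x ∈ Subgroup.normalizer (H : Set G) := fun x => by
    rw [Subgroup.normalizer_eq_top]; exact Subgroup.mem_top x
  have hTs : ∀ g, g ∈ T → StabilizesBlock H b g := fun g hg => ⟨hnorm g, fun χ hχ => by
    refine ⟨CfsgLib.Blocks.pushChar (CfsgLib.Blocks.conjK (hnorm g)) χ, ?_, ?_⟩
    · refine (hT g).1 hg χ hχ _ fun h h' e => ?_
      rw [show h' = CfsgLib.Blocks.conjK (hnorm g) h from Subtype.ext e, CfsgLib.Blocks.pushChar_apply,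
        MulEquiv.symm_apply_apply]
    · intro h h' e
      rw [show h' = CfsgLib.Blocks.conjK (hnorm g) h from Subtype.ext e, CfsgLib.Blocks.pushChar_apply,
        MulEquiv.symm_apply_apply]⟩
  have inner : ∀ (x : H) (χ : IrrCharacter H) (h h' : H), (h' : G) = (x : G) * h * (x : G)⁻¹ →
      (χ : H → ℂ) h' = (χ : H → ℂ) h := fun x χ h h' e => by
    rw [show h' = x * h * x⁻¹ from Subtype.ext e,
      CfsgLib.CharBasics.isClassFunction (CfsgLib.CharBasics.isCharacter_of_irr χ.2)]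
  have hHT : H ≤ T := fun x hx => (hT x).2 fun θ hθ θ' hc => by
    have : θ' = θ := Subtype.ext (funext fun k => by
      rw [hc ((⟨x, hx⟩ : H)⁻¹ * k * ⟨x, hx⟩) k (by simp [mul_assoc])]
      exact (inner ⟨x, hx⟩ θ _ k (by simp [mul_assoc])).symm)
    exact this ▸ hθ
  obtain ⟨S⟩ : Nonempty (Sylow p T) := inferInstance
  obtain ⟨θ, hθ, h0, hfix⟩ := CfsgLib.Blocks.exists_fixed_heightZero hM hb T hTs hHT S
  let St : Subgroup G :=
    { carrier := {g | g ∈ T ∧ ∀ h h' : H, (h' : G) = g * h * g⁻¹ → (θ : H → ℂ) h' = (θ : H → ℂ) h}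
      one_mem' := ⟨one_mem T, fun h h' e => by
        rw [show h' = h from Subtype.ext (by simpa using e)]⟩
      mul_mem' := fun {a c} ha hc => ⟨mul_mem ha.1 hc.1, fun h h' e => by
        have hn : c * h * c⁻¹ ∈ H := (inferInstance : H.Normal).conj_mem _ h.2 c
        rw [ha.2 ⟨_, hn⟩ h' (by rw [e]; simp [mul_assoc]), hc.2 h ⟨_, hn⟩ rfl]⟩
      inv_mem' := fun {a} ha => ⟨inv_mem ha.1, fun h h' e => by
        exact (ha.2 h' h (by rw [e]; simp [mul_assoc])).symm⟩ }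
  refine ⟨θ, hθ, h0, St, fun g hg => hg.1, fun g => Iff.rfl, fun hd => ?_⟩
  have hle : (S : Subgroup T) ≤ St.subgroupOf T := fun x hx =>
    ⟨x.2, fun h h' e => hfix x ⟨x, hx, rfl⟩ h h' e⟩
  exact S.not_dvd_index (hd.trans (Subgroup.index_dvd_of_le hle))

end Cfsg.Agent.S4723
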