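import Cfsg.Statements.S4725
import Cfsg.Agent.Blocks.DefectGroup
import Cfsg.Agent.ZStar.Congr
import Cfsg.Agent.CharBasics.Induced


set_option autoImplicit false
open Cfsg

namespace Cfsg.Agent.S4725

open CfsgLib.Blocks CfsgLib.CharBasics
open scoped ComplexConjugate

/-- Let p be a prime, M a maximal ideal of the algebraic integers containing p, H a subgroup of the finite group G, and b a p-block of H inducing the p-block B of G, with b and B of the same defect. Then for every height-zero ζ ∈ b there is a height-zero χ ∈ B whose multiplicity in the character induced from ζ is not divisible by p. -/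
theorem result {G : Type*} [Group G] [Fintype G] (p : ℕ) [Fact p.Prime] (M : Ideal Cfsg.AlgInt) (hM : Cfsg.IsPModular p M) (H : Subgroup G) (b : Set (Cfsg.IrrCharacter ↥H)) (B : Set (Cfsg.IrrCharacter G)) (hind : Cfsg.IsInducedBlock M H b B) (hdef : Cfsg.blockDefect p b = Cfsg.blockDefect p B) (ζ : Cfsg.IrrCharacter ↥H) (hζ : ζ ∈ b) (hζ0 : Cfsg.blockHeight p b (ζ : ↥H → ℂ) = 0) : ∃ χ ∈ B, Cfsg.blockHeight p B (χ : G → ℂ) = 0 ∧ ∃ a : ℕ, Cfsg.classInner (Cfsg.indFun H (ζ : ↥H → ℂ)) (χ : G → ℂ) = (a : ℂ) ∧ ¬ p ∣ a := by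
  classical
  haveI := Fintype.ofFinite H
  haveI : Fintype (IrrCharacter G) := @Fintype.ofFinite _ finite_irrCharacter
  obtain ⟨χm, hχm, hmin, hs⟩ := exists_min_degExp hM hind.2.1
  obtain ⟨ζm, hζm, hminb, hsb⟩ := exists_min_degExp hM hind.1
  have hdζ : degExp p ζ = degExp p ζm := by
    have := hminb ζ hζ
    rw [blockHeight_eq hsb] at hζ0
    omega
  choose a ha using fun χ : IrrCharacter G => classInner_characters_nat
    (CfsgLib.CharBasics.isCharacter_indFun H (isCharacter_of_irr ζ.2)) (isCharacter_of_irr χ.2)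
  set w := omega (ζ : H → ℂ) (CfsgLib.ZStar.res H (blockElt B)) with hw
  have hwu : ¬ MemLocalIdeal M w := by
    intro h
    have h2 := CfsgLib.ZStar.omega_res_induced hM hind hζ hχm (isClassElt_blockElt B) (isIntegralElt_blockElt hM hind.2.1)
    rw [omega_blockElt, if_pos hχm, ← hw] at h2
    exact not_memLocalIdeal_one hM (by simpa using memLocalIdeal_sub hM h h2)
  set m := degExp p χm with hm
  have hsum : ((∑ χ ∈ Finset.univ.filter (· ∈ B), a χ * charDegree (χ : G → ℂ) : ℕ) : ℂ) =
      (H.index * charDegree (ζ : H → ℂ) : ℕ) * w := by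
    rw [hw, CfsgLib.ZStar.omega_res, Nat.cast_sum, Nat.cast_mul, ← CfsgLib.CharBasics.apply_one (isCharacter_of_irr ζ.2)]
    have hζ1 := apply_one_ne_zero ζ.2
    have hH : (Nat.card H : ℂ) ≠ 0 := Nat.cast_ne_zero.2 Nat.card_pos.ne'
    have hG : (Nat.card G : ℂ) ≠ 0 := Nat.cast_ne_zero.2 Nat.card_pos.ne'
    have hidx : (H.index : ℂ) = (Nat.card G : ℂ) / (Nat.card H : ℂ) := by
      rw [eq_div_iff hH, ← H.index_mul_card, Nat.cast_mul]
    rw [Finset.sum_congr rfl fun χ _ => show ((a χ * charDegree (χ : G → ℂ) : ℕ) : ℂ) =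
        (Nat.card H : ℂ)⁻¹ * ∑ h : H, (ζ : H → ℂ) h * ((χ : G → ℂ) 1 * conj ((χ : G → ℂ) (h : G))) by
      rw [Nat.cast_mul, ← ha χ, classInner_indFun H (ζ : H → ℂ) (isClassFunction (isCharacter_of_irr χ.2)),
        classInner_eq, ← CfsgLib.CharBasics.apply_one (isCharacter_of_irr χ.2), mul_assoc, Finset.sum_mul]
      exact congrArg _ (Finset.sum_congr rfl fun h _ => by ring),
      ← Finset.mul_sum, Finset.sum_comm]
    simp only [coeff_blockElt, blockCoeff_eq, ← Finset.mul_sum, ← Finset.sum_filter]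
    rw [hidx]
    field_simp
    rw [Finset.mul_sum]
    exact Finset.sum_congr rfl fun h _ => by field_simp
  by_contra hcon
  push Not at hcon
  have hdvd : p ^ (m + 1) ∣ ∑ χ ∈ Finset.univ.filter (· ∈ B), a χ * charDegree (χ : G → ℂ) := by
    refine Finset.dvd_sum fun χ hχ => ?_
    have hχB := (Finset.mem_filter.1 hχ).2
    have hdeg : p ^ degExp p χ ∣ charDegree (χ : G → ℂ) := Nat.ordProj_dvd _ _
    by_cases hh : blockHeight p B (χ : G → ℂ) = 0
    · have hpa : p ∣ a χ := hcon χ hχB hh (a χ) (ha χ)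
      have hle := hmin χ hχB
      rw [pow_succ']
      exact mul_dvd_mul hpa ((pow_dvd_pow p hle).trans hdeg)
    · rw [blockHeight_eq hs] at hh
      exact Dvd.dvd.mul_left ((pow_dvd_pow p (by omega : m + 1 ≤ degExp p χ)).trans hdeg) _
  have hexp : (H.index * charDegree (ζ : H → ℂ)).factorization p = m := by
    rw [Nat.factorization_mul Subgroup.index_ne_zero_of_finite (charDegree_pos ζ.2).ne', Finsupp.add_apply]
    show H.index.factorization p + degExp p ζ = m
    have h1 : blockDefect p b = (Nat.card H).factorization p - degExp p ζm := blockDefect_eq hsb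
    have h2 : blockDefect p B = (Nat.card G).factorization p - degExp p χm := blockDefect_eq hs
    have h3 := degExp_le hM.1 ζm
    have h4 := degExp_le hM.1 χm
    have h5 : (Nat.card G).factorization p = H.index.factorization p + (Nat.card H).factorization p := by
      rw [← H.index_mul_card, Nat.factorization_mul Subgroup.index_ne_zero_of_finite Nat.card_pos.ne', Finsupp.add_apply]
    omega
  have hne : H.index * charDegree (ζ : H → ℂ) ≠ 0 :=
    mul_ne_zero Subgroup.index_ne_zero_of_finite (charDegree_pos ζ.2).ne'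
  obtain ⟨q, hq⟩ := hdvd
  set u := H.index * charDegree (ζ : H → ℂ) / p ^ m with hu
  have hsplit : H.index * charDegree (ζ : H → ℂ) = p ^ m * u := by
    rw [hu, ← hexp, Nat.ordProj_mul_ordCompl_eq_self]
  have hpu : ¬ p ∣ u := by rw [hu, ← hexp]; exact Nat.not_dvd_ordCompl hM.1 hne
  have huw : (u : ℂ) * w = (p : ℂ) * q := by
    refine mul_left_cancel₀ (pow_ne_zero m (Nat.cast_ne_zero.2 hM.1.ne_zero) : (p : ℂ) ^ m ≠ 0) ?_
    rw [hq, hsplit] at hsum
    push_cast at hsum
    linear_combination -hsum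
  have h6 : MemLocalIdeal M ((u : ℂ) * w) := by
    rw [huw]; exact memLocalIdeal_p_mul hM (memLocalRing_natCast hM _)
  rcases memLocalIdeal_of_mul hM (memLocalRing_natCast hM _) (memLocalRing_omega hM ζ
      (CfsgLib.ZStar.isClassElt_res (isClassElt_blockElt B) H) (CfsgLib.ZStar.isIntegralElt_res (isIntegralElt_blockElt hM hind.2.1) H)) h6 with h7 | h7
  · exact hpu ((memLocalIdeal_natCast_iff hM _).1 h7)
  · exact hwu h7

end Cfsg.Agent.S4725
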