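import Cfsg.Statements.S4726
import Cfsg.Agent.Blocks.CentralizerInduced


set_option autoImplicit false
open Cfsg

namespace Cfsg.Agent.S4726

open CfsgLib.Blocks CfsgLib.CharBasics

/-- Let p be a prime, M a maximal ideal of the algebraic integers containing p, H a subgroup of the finite group G and b a p-block of H with defect group D₀ such that C_G(D₀) ≤ H. Then b induces a block of G, and for every block B of G induced by b there is a defect group D of B with Z(D) ≤ Z(D₀) ≤ D₀ ≤ D (as subgroups of G). In particular, if the defect groups of B are abelian then D₀ is a defect group of B. -/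
theorem result {G : Type*} [Group G] [Finite G] (p : ℕ) [Fact p.Prime] (M : Ideal Cfsg.AlgInt) (hM : Cfsg.IsPModular p M) (H : Subgroup G) (b : Set (Cfsg.IrrCharacter ↥H)) (hb : Cfsg.IsPBlock M b) (D₀ : Subgroup ↥H) (hD₀ : Cfsg.IsDefectGroup p M b D₀) (hC : Subgroup.centralizer ((D₀.map H.subtype : Subgroup G) : Set G) ≤ H) : Cfsg.InducedBlockDefined M H b ∧ ∀ B : Set (Cfsg.IrrCharacter G), Cfsg.IsInducedBlock M H b B → (∃ D : Subgroup G, Cfsg.IsDefectGroup p M B D ∧ (Subgroup.center ↥D).map D.subtype ≤ ((Subgroup.center ↥D₀).map D₀.subtype).map H.subtype ∧ ((Subgroup.center ↥D₀).map D₀.subtype).map H.subtype ≤ D₀.map H.subtype ∧ D₀.map H.subtype ≤ D) ∧ (∀ D : Subgroup G, Cfsg.IsDefectGroup p M B D → IsMulCommutative ↥D → Cfsg.IsDefectGroup p M B (D₀.map H.subtype)) := by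
  classical
  haveI := Fintype.ofFinite G
  haveI := Fintype.ofFinite H
  obtain ⟨B₀, hind, f, hf, hmaxH⟩ := induced_of_centralizer_le hM hb hD₀ hC
  refine ⟨⟨B₀, hind⟩, fun B hB => ?_⟩
  obtain rfl : B = B₀ := by
    obtain ⟨ξ, hξ⟩ := IsPBlock.nonempty hM hb
    obtain ⟨χ, hχ⟩ := IsPBlock.nonempty hM hB.2.1
    obtain ⟨ψ, hψ⟩ := IsPBlock.nonempty hM hind.2.1
    refine IsPBlock.eq_of_mem hM hB.2.1 hind.2.1 hχ ((IsPBlock.mem_iff hM hind.2.1 hψ).2 fun g => ?_)
    have := memLocalIdeal_sub hM (hB.2.2 ξ hξ χ hχ g) (hind.2.2 ξ hξ ψ hψ g)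
    rwa [sub_sub_sub_cancel_left] at this
  obtain ⟨P, hP⟩ : ∃ P : Subgroup G, P = D₀.map H.subtype := ⟨_, rfl⟩
  obtain ⟨D, e, hmax, hle⟩ := exists_maximal_above hM hf
  have hDdef := (maximal_key hM hmax).2
  have hPD : D₀.map H.subtype ≤ D := subpairLE_le hM hle
  have hPH : D₀.map H.subtype ≤ H := Subgroup.map_subtype_le D₀
  set Z := (Subgroup.center ↥D).map D.subtype with hZ
  have hZcomm : ∀ z ∈ Z, ∀ d ∈ D, d * z = z * d := by
    rintro _ ⟨z, hz, rfl⟩ d hd
    exact congrArg Subtype.val (Subgroup.mem_center_iff.1 hz ⟨d, hd⟩)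
  have hZC : Z ≤ Subgroup.centralizer ((D₀.map H.subtype : Subgroup G) : Set G) := fun z hz =>
    Subgroup.mem_centralizer_iff.2 fun q hq => hZcomm z hz q (hPD hq)
  have hRD : D₀.map H.subtype ⊔ Z ≤ D := sup_le hPD (Subgroup.map_subtype_le _)
  have hRN : D₀.map H.subtype ⊔ Z ≤ Subgroup.normalizer ((D₀.map H.subtype : Subgroup G) : Set G) :=
    sup_le Subgroup.le_normalizer (hZC.trans (Subgroup.centralizer_le_normalizer (s := ((D₀.map H.subtype : Subgroup G) : Set G))))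
  have hRp : IsPGroup p ↥(D₀.map H.subtype ⊔ Z) := hmax.1.1.1.to_le hRD
  have hR : D₀.map H.subtype ⊔ Z = D₀.map H.subtype := by
    refine hmaxH _ hRp le_sup_left (sup_le hPH (hZC.trans hC)) hRN ?_
    obtain ⟨k, hk, hkle⟩ := exists_below hM hmax.1.1.1 hmax.1.1.2 hRD
    obtain ⟨f', hf', -⟩ := existsUnique_normalSubpair hM hRp le_sup_left hRN hk
    obtain rfl : f' = f := below_unique hM hmax.1.1.1 hmax.1.1.2
      ((Relation.ReflTransGen.single (show NormalSubpairRel p M ⟨_, f'⟩ ⟨_, k⟩ from hf')).trans hkle) hle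
    exact ⟨k, hf'⟩
  have hZP : Z ≤ D₀.map H.subtype := hR ▸ le_sup_right
  refine ⟨⟨D, hDdef, ?_, Subgroup.map_mono (Subgroup.map_subtype_le _), hPD⟩, ?_⟩
  · intro z hz
    obtain ⟨z₀, hz₀, rfl⟩ := hZP hz
    refine Subgroup.mem_map_of_mem _ ⟨⟨z₀, hz₀⟩, Subgroup.mem_center_iff.2 fun d => Subtype.ext (Subtype.ext ?_), rfl⟩
    exact hZcomm _ hz _ (hPD (Subgroup.mem_map_of_mem _ d.2))
  · intro D' hD' hab
    obtain ⟨w, hw, hwu⟩ := exists_pair_unit_coeff hM hmax.1
    obtain ⟨c, hc⟩ := exists_conj_mem_defectGroup hM hind.2.1 hwu hmax.1.1.1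
      (fun q hq => Subgroup.mem_centralizer_iff.1 hw q hq) hD'
    have hDZ : D ≤ Z := by
      intro d hd
      refine ⟨⟨d, hd⟩, Subgroup.mem_center_iff.2 fun d' => Subtype.ext ?_, rfl⟩
      show (d' : G) * d = d * d'
      have h := congrArg Subtype.val (mul_comm' (⟨_, hc d' d'.2⟩ : D') ⟨_, hc d hd⟩)
      have h' := congrArg (fun t => c⁻¹ * t * c) h
      simpa [mul_assoc] using h'
    rwa [le_antisymm hPD (hDZ.trans hZP)]

end Cfsg.Agent.S4726
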