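import Cfsg.Statements.S4727
import Cfsg.Agent.Blocks.PairAlg.PiKernel
import Cfsg.Agent.Blocks.Subsection


set_option autoImplicit false
open Cfsg

namespace Cfsg.Agent.S4727

open CfsgLib CfsgLib.Blocks CfsgLib.CharBasics
attribute [local instance] CfsgLib.Blocks.residueField CfsgLib.Blocks.residue_charP

/-- Let p be a prime, π a set of primes containing p, M a maximal ideal of the algebraic integers containing p, and B a p-block of the finite group G with defect group D; let B₁ be the block of N_G(D) with defect group D that induces B (the Brauer correspondent of B). Suppose every element of O_π'(N_G(D)), the largest normal subgroup of N_G(D) whose order has no prime divisor in π, lies in the kernel of every member of B₁. If y is a p-element whose centralizer C has a normal Hall π'-subgroup (every element of C whose order has no prime divisor in π lies in O_π'(C)), then χ(y x) = χ(y) for every χ ∈ B and every x ∈ C whose order has no prime divisor in π. -/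
theorem result {G : Type*} [Group G] [Finite G] (p : ℕ) [Fact p.Prime] (M : Ideal Cfsg.AlgInt) (hM : Cfsg.IsPModular p M) (π : Set ℕ) (hpπ : p ∈ π) (B : Set (Cfsg.IrrCharacter G)) (hB : Cfsg.IsPBlock M B) (D : Subgroup G) (hBD : Cfsg.IsDefectGroup p M B D) (B₁ : Set (Cfsg.IrrCharacter ↥(Subgroup.normalizer (D : Set G)))) (hB₁ : Cfsg.IsInducedBlock M (Subgroup.normalizer (D : Set G)) B₁ B) (hB₁D : Cfsg.IsDefectGroup p M B₁ (D.subgroupOf (Subgroup.normalizer (D : Set G)))) (hker : ∀ n : ↥(Subgroup.normalizer (D : Set G)), n ∈ Cfsg.piCore {q | q ∉ π} ↥(Subgroup.normalizer (D : Set G)) → n ∈ Cfsg.blockKer B₁) (y : G) (hy : ∃ k : ℕ, orderOf y = p ^ k) (hC : ∀ x : ↥(Subgroup.centralizer ({y} : Set G)), (∀ q : ℕ, q.Prime → q ∣ orderOf x → q ∉ π) → x ∈ Cfsg.piCore {q | q ∉ π} ↥(Subgroup.centralizer ({y} : Set G))) : ∀ χ ∈ B, ∀ x : G, x ∈ Subgroup.centralizer ({y} : Set G) → (∀ q : ℕ, q.Prime → q ∣ orderOf x → q ∉ π) → (χ : G → ℂ) (y * x) = (χ : G → ℂ) y := by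
  classical
  haveI : Fintype G := Fintype.ofFinite G
  letI : Fintype (Subgroup.centralizer ({y} : Set G)) := Fintype.ofFinite _
  haveI : Fintype (IrrCharacter (Subgroup.centralizer ({y} : Set G))) := @Fintype.ofFinite _ finite_irrCharacter
  intro χ hχ x hx hxπ
  have hcz : Subgroup.centralizer ((Subgroup.zpowers y : Subgroup G) : Set G) = Subgroup.centralizer ({y} : Set G) := by
    ext g
    rw [Subgroup.mem_centralizer_iff, Subgroup.mem_centralizer_singleton_iff]
    refine ⟨fun h => (h y (Subgroup.mem_zpowers y)).symm, ?_⟩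
    rintro h _ ⟨i, rfl⟩
    exact ((show Commute y g from h.symm).zpow_left i)
  have hyC : Subgroup.zpowers y ≤ Subgroup.centralizer ({y} : Set G) :=
    Subgroup.zpowers_le.2 (Subgroup.mem_centralizer_singleton_iff.2 rfl)
  set x' : Subgroup.centralizer ({y} : Set G) := ⟨x, hx⟩ with hx'
  have hπ : ∀ q : ℕ, q.Prime → q ∣ orderOf x' → q ∉ π := fun q hq hd =>
    hxπ q hq (by rwa [hx', Subgroup.orderOf_mk] at hd)
  have hreg : ¬ p ∣ orderOf x' := fun h => hπ p Fact.out h hpπ
  have hreg1 : ¬ p ∣ orderOf (1 : Subgroup.centralizer ({y} : Set G)) := by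
    rw [orderOf_one, Nat.dvd_one]; exact hM.1.ne_one
  have hterm : ∀ b : Set (IrrCharacter (Subgroup.centralizer ({y} : Set G))),
      IsInducedBlock M (Subgroup.centralizer ({y} : Set G)) b B →
      secVal p y b (χ : G → ℂ) x' = secVal p y b (χ : G → ℂ) 1 := by
    intro b hb
    have hker' := PairAlg.PiKernel.piCore_le_blockKer hM hpπ hBD hB₁ hB₁D hker hb
      (R := Subgroup.zpowers y) (ZStar.isPGroup_zpowers hM.1 hy) hyC hcz.le (by
        have hblk := PairAlg.isBlk_bl hM (Subgroup.centralizer ({y} : Set G)).subtype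
          (Subgroup.centralizer ({y} : Set G)).subtype_injective hb.1
        rw [Subgroup.range_subtype] at hblk
        rw [PairAlg.Br, PairAlg.cut_eq_self (hblk.cen.1.mono hcz.ge)]
        exact hblk.ne) x' (hC x' hπ)
    simp only [secVal, if_neg hreg, if_neg hreg1, ZStar.blockPart_apply]
    refine Finset.sum_congr rfl fun ξ _ => ?_
    split_ifs with hξ
    · rw [hker' ξ hξ]
    · rfl
  have h1 := apply_eq_sum_secVal hM hy hB χ hreg
  have h2 := apply_eq_sum_secVal hM hy hB χ hreg1
  rw [if_pos hχ] at h1 h2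
  rw [Finset.sum_congr rfl fun b hb => hterm b (Finset.mem_filter.1 hb).2, h2] at h1
  simpa [hx'] using h1.symm

end Cfsg.Agent.S4727
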