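import Cfsg.Statements.S4728
import Cfsg.Agent.Blocks.PairAlg.PiKernel
import Cfsg.Agent.Blocks.InertialIndex


set_option autoImplicit false
open Cfsg

namespace Cfsg.Agent.S4728

open CfsgLib CfsgLib.Blocks CfsgLib.CharBasics
attribute [local instance] CfsgLib.Blocks.residueField CfsgLib.Blocks.residue_charP

/-- Let p be a prime, π a set of primes containing p, M a maximal ideal of the algebraic integers containing p, B a p-block of the finite group G with defect group D, and B₁ the block of N_G(D) with defect group D inducing B. Let D₀ be a p-subgroup, H₀ = D₀·C_G(D₀), and b a block of H₀ inducing B. Write O_π'(X) for the largest normal subgroup of X whose order has no prime divisor in π. Suppose that O_π'(C_G(D₀)) is a normal Hall π'-subgroup of C_G(D₀) (it contains every element of C_G(D₀) whose order has no prime divisor in π) and that every element of it lies in the kernel of every member of b. Then every element of O_π'(N_G(D)) lies in the kernel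 of every member of B₁. -/
theorem result {G : Type*} [Group G] [Finite G] (p : ℕ) [Fact p.Prime] (M : Ideal Cfsg.AlgInt) (hM : Cfsg.IsPModular p M) (π : Set ℕ) (hpπ : p ∈ π) (B : Set (Cfsg.IrrCharacter G)) (hB : Cfsg.IsPBlock M B) (D : Subgroup G) (hBD : Cfsg.IsDefectGroup p M B D) (B₁ : Set (Cfsg.IrrCharacter ↥(Subgroup.normalizer (D : Set G)))) (hB₁ : Cfsg.IsInducedBlock M (Subgroup.normalizer (D : Set G)) B₁ B) (hB₁D : Cfsg.IsDefectGroup p M B₁ (D.subgroupOf (Subgroup.normalizer (D : Set G)))) (D₀ : Subgroup G) (hD₀ : IsPGroup p D₀) (H₀ : Subgroup G) (hH₀ : H₀ = D₀ ⊔ Subgroup.centralizer (D₀ : Set G)) (b : Set (Cfsg.IrrCharacter ↥H₀)) (hb : Cfsg.IsInducedBlock M H₀ b B) (hcompl : ∀ x : ↥(Subgroup.centralizer (D₀ : Set G)), (∀ q : ℕ, q.Prime → q ∣ orderOf x → q ∉ π) → x ∈ Cfsg.piCore {q | q ∉ π} ↥(Subgroup.centralizer (D₀ : Set G))) (hkerb : ∀ x : ↥(Subgroup.centralizer (D₀ : Set G)), x ∈ Cfsg.piCore {q | q ∉ π} ↥(Subgroup.centralizer (D₀ : Set G)) →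 ∀ θ ∈ b, ∀ h : ↥H₀, (h : G) = (x : G) → (θ : ↥H₀ → ℂ) h = (θ : ↥H₀ → ℂ) 1) : ∀ n : ↥(Subgroup.normalizer (D : Set G)), n ∈ Cfsg.piCore {q | q ∉ π} ↥(Subgroup.normalizer (D : Set G)) → n ∈ Cfsg.blockKer B₁ := by
  classical
  haveI : Fintype G := Fintype.ofFinite G
  letI : Fintype H₀ := Fintype.ofFinite H₀
  letI : ∀ K : Subgroup G, Fintype K := fun K => Fintype.ofFinite K
  have hc := PairAlg.complete (G := G) hM
  have hCH : Subgroup.centralizer (D₀ : Set G) ≤ H₀ := hH₀ ▸ le_sup_right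
  obtain ⟨ξ, hξ⟩ := IsPBlock.nonempty hM hb.1
  obtain ⟨θ, hl⟩ := exists_liesOver hH₀ hCH ξ
  have hpair := isBrauerPairOf_of_induced hH₀ hCH hM hD₀ hb hξ hl
  have hof := (PairAlg.isBrauerPairOf_iff_bc hM hB hpair.1).1 hpair
  set π' := {q | q ∉ π} with hπ'
  have hθb := mem_blockOf_self hM θ
  have hkf : PairAlg.PiKernel.Kills (Cfsg.piCoreOf π' (Subgroup.centralizer (D₀ : Set G)))
      (PairAlg.bc hM D₀ (blockOf M (θ : Subgroup.centralizer (D₀ : Set G) → ℂ))) := by
    refine (PairAlg.PiKernel.kills_bl_iff hM (Subgroup.centralizer (D₀ : Set G)).subtype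
      (Subgroup.centralizer (D₀ : Set G)).subtype_injective (Cfsg.piCore π' _)
      (PairAlg.PiKernel.not_dvd_card Fact.out hpπ Hall.isPiSubgroup_piCore) (isPBlock_blockOf M θ) hθb).2
      fun u hu => ?_
    have h1 := hl u
    rw [hkerb u hu ξ hξ ⟨(u : G), hCH u.2⟩ rfl, mul_comm ((θ : Subgroup.centralizer (D₀ : Set G) → ℂ) u)] at h1
    exact (mul_left_cancel₀ (apply_one_ne_zero ξ.2) h1).symm
  obtain ⟨a, ha, hmax⟩ := PairAlg.PiKernel.exists_max_of_normalizer hM hBD hB₁ hB₁D
  obtain ⟨S, s, hS, hle⟩ := PairAlg.exists_max hof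
  obtain ⟨y, -, hy1, hy2⟩ := PairAlg.max_conj hc hS hmax
  have hle' := hle.cj y
  rw [show PairAlg.cm y S = D from hy1.symm, ← hy2] at hle'
  have hDN : D ≤ Subgroup.normalizer (D : Set G) := Subgroup.le_normalizer
  have hKpi := PairAlg.PiKernel.piCoreOf_isPi π' (Subgroup.normalizer (D : Set G))
  have hKN := PairAlg.PiKernel.piCoreOf_le π' (Subgroup.normalizer (D : Set G))
  have hNK := PairAlg.PiKernel.le_normalizer_piCoreOf π' (Subgroup.normalizer (D : Set G))
  have hKC : Cfsg.piCoreOf π' (Subgroup.normalizer (D : Set G)) ≤ Subgroup.centralizer (D : Set G) :=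
    PairAlg.PiKernel.le_centralizer_of_coprime hpπ hKpi hmax.1.2.1.isP hKN (hDN.trans hNK)
  have hkill : PairAlg.PiKernel.Kills (Cfsg.piCoreOf π' (Subgroup.normalizer (D : Set G)))
      (PairAlg.cj y (PairAlg.bc hM D₀ (blockOf M (θ : Subgroup.centralizer (D₀ : Set G) → ℂ)))) := by
    refine (hkf.cj y).mono fun u hu => PairAlg.mem_cm.2 ?_
    have huC : u ∈ Subgroup.centralizer ((PairAlg.cm y D₀ : Subgroup G) : Set G) :=
      Subgroup.centralizer_le hle'.subgroup_le (hKC hu)
    rw [← PairAlg.cm_centralizer, PairAlg.mem_cm] at huC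
    refine ⟨⟨y⁻¹ * u * y, huC⟩, hcompl _ fun q hq hd => hKpi q hq ?_, rfl⟩
    rw [Subgroup.orderOf_mk] at hd
    have h2 : orderOf (y⁻¹ * u * y) = orderOf u := by
      have h3 := orderOf_injective (MulAut.conj y⁻¹).toMonoidHom (MulAut.conj y⁻¹).injective u
      simpa [mul_assoc] using h3
    rw [h2, show orderOf u = orderOf (⟨u, hu⟩ : Cfsg.piCoreOf π' (Subgroup.normalizer (D : Set G))) from
      (Subgroup.orderOf_mk u hu).symm] at hd
    exact hd.trans (orderOf_dvd_natCard _)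
  have hka := hkill.of_le' hle' hKC
  have hK : PairAlg.PiKernel.Kills (Cfsg.piCoreOf π' (Subgroup.normalizer (D : Set G)))
      (PairAlg.bl hM (Subgroup.normalizer (D : Set G)).subtype B₁) :=
    PairAlg.PiKernel.absorb ha.1 hKN hNK (PairAlg.PiKernel.not_dvd_card Fact.out hpπ hKpi) hmax.1.2.1.isP
      (hDN.trans hNK) (PairAlg.fix_of_cenIn ha.1.cen hDN) ha.2.1.blk.ne ha.2.2 ha.2.1.blk.cen
      (le_inf (inf_le_left.trans hKN) inf_le_right) (hka.mono inf_le_left)
  intro n hn η hη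
  exact (PairAlg.PiKernel.kills_bl_iff hM (Subgroup.normalizer (D : Set G)).subtype
    (Subgroup.normalizer (D : Set G)).subtype_injective (Cfsg.piCore π' _)
    (PairAlg.PiKernel.not_dvd_card Fact.out hpπ Hall.isPiSubgroup_piCore) hB₁.1 hη).1 hK n hn

end Cfsg.Agent.S4728
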