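import Cfsg.Statements.S4729
import Cfsg.Agent.Blocks.SmallFaithfulDegree
-- import your own Cfsg.Agent.* helpers here

set_option autoImplicit false
open Cfsg

namespace Cfsg.Agent.S4729

/-- Let p be a prime, M a maximal ideal of the algebraic integers containing p, G a finite perfect group and P a Sylow p-subgroup. If the principal p-block of G contains a faithful irreducible character of degree less than 2p, then the centralizer of P is a p-group. -/
theorem result {G : Type*} [Group G] [Finite G] (p : ℕ) [Fact p.Prime] (M : Ideal Cfsg.AlgInt) (hM : Cfsg.IsPModular p M) (hperf : commutator G = ⊤) (P : Sylow p G) (χ : Cfsg.IrrCharacter G) (hχ : χ ∈ Cfsg.principalBlock M G) (hfaith : ∀ g : G, (χ : G → ℂ) g = (χ : G → ℂ) 1 → g = 1) (hdeg : Cfsg.charDegree (χ : G → ℂ) < 2 * p) : IsPGroup p ↥(Subgroup.centralizer ((P : Subgroup G) : Set G)) := by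
  classical
  set C := Subgroup.centralizer ((P : Subgroup G) : Set G)
  by_contra hC
  have hp : p.Prime := hM.1
  obtain ⟨q, hq, hqC, hqp⟩ : ∃ q, q.Prime ∧ q ∣ Nat.card C ∧ q ≠ p := by
    by_contra h
    push Not at h
    apply hC
    refine IsPGroup.of_card (n := (Nat.card C).primeFactorsList.length) ?_
    exact Nat.eq_prime_pow_of_unique_prime_dvd Nat.card_pos.ne' fun {d} hd hdC => h d hd hdC
  haveI := Fact.mk hq
  obtain ⟨⟨v, hvC⟩, hv⟩ := exists_prime_orderOf_dvd_card' q hqC
  have hord : orderOf v = q := by simpa [Subgroup.orderOf_mk] using hv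
  have hidx : ∀ j : ℕ, ¬ p ∣ (Subgroup.centralizer ({v ^ j} : Set G)).index := by
    intro j hd
    refine P.not_dvd_index (hd.trans (Subgroup.index_dvd_of_le fun x hx => ?_))
    exact Subgroup.mem_centralizer_singleton_iff.2
      (Subgroup.mem_centralizer_iff.1 (pow_mem hvC j) x hx)
  have h1 := hfaith v (CfsgLib.Blocks.apply_eq_one_of_small_degree hM hperf hχ hdeg hq hqp
    (hord ▸ pow_orderOf_eq_one v) hidx)
  rw [h1, orderOf_one] at hord
  exact hq.ne_one hord.symm

end Cfsg.Agent.S4729
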