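import Cfsg.Statements.S4730
import Cfsg.Agent.Blocks.Idempotent
import Cfsg.Agent.CharBasics.Burnside

set_option autoImplicit false
open Cfsg

namespace Cfsg.Agent.S4730

/-- Let p be a prime, M a maximal ideal of the algebraic integers containing p, and G a finite group with trivial centre, Sylow p-subgroup P of order p^a and centre Z(P) of order p^b. If χ is a faithful irreducible character of G whose degree is a power of p, then the p-block of χ has defect at most a − b; in particular, if P is abelian then χ lies in a block of defect zero. -/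
theorem result {G : Type*} [Group G] [Finite G] (p : ℕ) [Fact p.Prime] (M : Ideal Cfsg.AlgInt) (hM : Cfsg.IsPModular p M) (hZ : Subgroup.center G = ⊥) (P : Sylow p G) (a b : ℕ) (ha : Nat.card P = p ^ a) (hb : Nat.card (Subgroup.center ↥(P : Subgroup G)) = p ^ b) (χ : Cfsg.IrrCharacter G) (hfaith : ∀ g : G, (χ : G → ℂ) g = (χ : G → ℂ) 1 → g = 1) (n : ℕ) (hdeg : Cfsg.charDegree (χ : G → ℂ) = p ^ n) : Cfsg.blockDefect p (Cfsg.blockOf M (χ : G → ℂ)) ≤ a - b ∧ (IsMulCommutative ↥(P : Subgroup G) → Cfsg.blockDefect p (Cfsg.blockOf M (χ : G → ℂ)) = 0) := by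
  classical
  have hp : p.Prime := Fact.out
  haveI := Fintype.ofFinite G
  have haG : (Nat.card G).factorization p = a := by
    have := P.card_eq_multiplicity
    rw [ha] at this
    exact ((Nat.pow_right_injective hp.two_le) this).symm
  let Z : Subgroup G := (Subgroup.center ↥(P : Subgroup G)).map (P : Subgroup G).subtype
  haveI := Fintype.ofFinite Z
  have hZc : Nat.card Z = p ^ b := by
    rw [← hb]
    exact (Nat.card_congr ((Subgroup.center ↥(P : Subgroup G)).equivMapOfInjective _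
      (P : Subgroup G).subtype_injective).toEquiv).symm
  have hidx : ∀ z ∈ Z, ¬ p ∣ (Subgroup.centralizer ({z} : Set G)).index := by
    rintro _ ⟨z, hz, rfl⟩ hdvd
    refine P.not_dvd_index (hdvd.trans (Subgroup.index_dvd_of_le fun y hy => ?_))
    rw [Subgroup.mem_centralizer_singleton_iff]
    exact congrArg Subtype.val (Subgroup.mem_center_iff.1 hz ⟨y, hy⟩)
  have hv : ∀ z ∈ Z, z ≠ 1 → (χ : G → ℂ) z = 0 := by
    intro z hz hz1
    by_contra hne
    have hcop : Nat.Coprime (Subgroup.centralizer ({z} : Set G)).index (Cfsg.charDegree (χ : G → ℂ)) := by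
      rw [hdeg]
      exact ((Nat.Prime.coprime_iff_not_dvd hp).2 (hidx z hz)).symm.pow_right n
    have hnorm := CfsgLib.CharBasics.exists_norm_eq_degree χ z hcop hne
    have hzc : z ∈ Subgroup.center G := Subgroup.mem_center_iff.2 fun x => by
      have := hfaith _ (CfsgLib.CharBasics.commutator_mem_charKer χ.2 hnorm x)
      rw [mul_inv_eq_one, mul_inv_eq_iff_eq_mul] at this
      exact this
    rw [hZ, Subgroup.mem_bot] at hzc
    exact hz1 hzc
  have key : ∀ ψ ∈ Cfsg.blockOf M (χ : G → ℂ), b ≤ (Cfsg.charDegree (ψ : G → ℂ)).factorization p := by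
    intro ψ hψ
    by_contra hlt
    push Not at hlt
    set d := Cfsg.charDegree (ψ : G → ℂ) with hd
    have hd0 : d ≠ 0 := (CfsgLib.CharBasics.charDegree_pos ψ.2).ne'
    have hψ1 := CfsgLib.CharBasics.apply_one (CfsgLib.CharBasics.isCharacter_of_irr ψ.2)
    have hratio : ∀ z : Z, (z : G) ≠ 1 → Cfsg.MemLocalIdeal M ((ψ : G → ℂ) z / (d : ℂ)) := by
      intro z hz1
      have h := hψ (z : G)
      rw [Cfsg.centralChar, hv z z.2 hz1, mul_zero, zero_div, zero_sub, Cfsg.centralChar, hψ1] at h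
      have h2 := CfsgLib.Blocks.memLocalIdeal_mul_left hM
        (CfsgLib.Blocks.memLocalRing_natCast_inv hM (hidx z z.2)) (CfsgLib.Blocks.memLocalIdeal_neg h)
      rwa [neg_neg, mul_div_assoc, ← mul_assoc,
        inv_mul_cancel₀ (Nat.cast_ne_zero.mpr Subgroup.index_ne_zero_of_finite), one_mul] at h2
    obtain ⟨k, hk⟩ := CfsgLib.CharBasics.classInner_characters_nat
      (CfsgLib.CharBasics.isCharacter_restrict (CfsgLib.CharBasics.isCharacter_of_irr ψ.2) Z)
      (CfsgLib.CharBasics.isCharacter_of_irr (CfsgLib.CharBasics.isIrrCharacter_one (G := Z)))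
    rw [CfsgLib.CharBasics.classInner_one, hZc] at hk
    have hsum : ∑ z : Z, (ψ : G → ℂ) z / (d : ℂ) = ((p ^ b : ℕ) : ℂ) * k / d := by
      rw [← hk, ← mul_assoc, mul_inv_cancel₀ (Nat.cast_ne_zero.mpr (pow_ne_zero _ hp.ne_zero)), one_mul,
        Finset.sum_div]
    set v := d.factorization p with hvdef
    have hI : Cfsg.MemLocalIdeal M (((p ^ b : ℕ) : ℂ) * k / d) := by
      have hd' : (d : ℂ) = ((p ^ v : ℕ) : ℂ) * ((d / p ^ v : ℕ) : ℂ) := by
        rw [← Nat.cast_mul, hvdef, Nat.ordProj_mul_ordCompl_eq_self]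
      have hpb : ((p ^ b : ℕ) : ℂ) = ((p ^ v : ℕ) : ℂ) * ((p ^ (b - v - 1) : ℕ) : ℂ) * (p : ℂ) := by
        rw [← Nat.cast_mul, ← Nat.cast_mul, ← pow_add, ← pow_succ]
        congr 2; omega
      have e : ((p ^ b : ℕ) : ℂ) * k / d =
          (((p ^ (b - v - 1) : ℕ) : ℂ) * k * ((d / p ^ v : ℕ) : ℂ)⁻¹) * (p : ℂ) := by
        rw [hpb, hd']
        have : ((p ^ v : ℕ) : ℂ) ≠ 0 := Nat.cast_ne_zero.mpr (pow_ne_zero _ hp.ne_zero)
        field_simp
      rw [e]
      refine CfsgLib.Blocks.memLocalIdeal_mul_left hM ?_ ((CfsgLib.Blocks.memLocalIdeal_natCast_iff hM p).2 dvd_rfl)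
      exact CfsgLib.Blocks.memLocalRing_mul hM (CfsgLib.Blocks.memLocalRing_mul hM
        (CfsgLib.Blocks.memLocalRing_natCast hM _) (CfsgLib.Blocks.memLocalRing_natCast hM _))
        (CfsgLib.Blocks.memLocalRing_natCast_inv hM (Nat.not_dvd_ordCompl hp hd0))
    rw [← hsum, ← Finset.add_sum_erase _ _ (Finset.mem_univ (1 : Z))] at hI
    have hrest : Cfsg.MemLocalIdeal M (∑ z ∈ Finset.univ.erase (1 : Z), (ψ : G → ℂ) z / (d : ℂ)) :=
      CfsgLib.Blocks.memLocalIdeal_sum hM _ fun z hz =>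
        hratio z fun h => (Finset.mem_erase.1 hz).1 (Subtype.ext h)
    have := CfsgLib.Blocks.memLocalIdeal_sub hM hI hrest
    rw [add_sub_cancel_right, Subgroup.coe_one, hψ1, div_self (Nat.cast_ne_zero.mpr hd0)] at this
    exact CfsgLib.Blocks.not_memLocalIdeal_one hM this
  have hdef : Cfsg.blockDefect p (Cfsg.blockOf M (χ : G → ℂ)) ≤ a - b := by
    rw [Cfsg.blockDefect, haG]
    refine Nat.sub_le_sub_left ?_ a
    refine le_csInf ?_ ?_
    · exact ⟨_, χ, CfsgLib.Blocks.mem_blockOf_self hM χ, rfl⟩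
    · rintro _ ⟨ψ, hψ, rfl⟩
      exact key ψ hψ
  refine ⟨hdef, fun hc => ?_⟩
  have hab : b = a := by
    rw [Subgroup.center_eq_top_iff.2 hc, Subgroup.card_top] at hb
    exact (Nat.pow_right_injective hp.two_le) (hb.symm.trans ha)
  omega

end Cfsg.Agent.S4730
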