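import Cfsg.Statements.S4731
import Cfsg.Agent.Blocks.Idempotent
import Cfsg.Agent.ZStar.Principal


set_option autoImplicit false
open Cfsg

namespace Cfsg.Agent.S4731

open CfsgLib.Blocks CfsgLib.CharBasics
open scoped ComplexConjugate

/-- Let p ≠ q be primes, M_p and M_q maximal ideals of the algebraic integers containing p and q respectively, and G a finite group with no element of order pq; let q^b be the q-part of the order of G. For a p-block B_p (relative to M_p), a q-block B_q (relative to M_q) and a p-singular element y, the sum of χ(1)χ(y) over the irreducible characters χ lying in both B_p and B_q is q^b times an algebraic integer. -/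
theorem result {G : Type*} [Group G] [Finite G] (p q : ℕ) [Fact p.Prime] [Fact q.Prime] (hpq : p ≠ q) (Mp Mq : Ideal Cfsg.AlgInt) (hMp : Cfsg.IsPModular p Mp) (hMq : Cfsg.IsPModular q Mq) (hno : ∀ g : G, orderOf g ≠ p * q) (b : ℕ) (hb : (Nat.card G).factorization q = b) (Bp : Set (Cfsg.IrrCharacter G)) (hBp : Cfsg.IsPBlock Mp Bp) (Bq : Set (Cfsg.IrrCharacter G)) (hBq : Cfsg.IsPBlock Mq Bq) (y : G) (hy : p ∣ orderOf y) : ∃ ω : Cfsg.AlgInt, ∑ᶠ χ ∈ Bp ∩ Bq, (Cfsg.charDegree (χ : G → ℂ) : ℂ) * (χ : G → ℂ) y = (q : ℂ) ^ b * (ω : ℂ) := by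
  classical
  haveI := Fintype.ofFinite G
  haveI : Fintype (IrrCharacter G) := @Fintype.ofFinite _ finite_irrCharacter
  set θ : G → ℂ := fun x => ∑ χ : IrrCharacter G, if χ ∈ Bp then (χ : G → ℂ) x * conj ((χ : G → ℂ) y) else 0 with hθ
  have hreg : ∀ x, ¬ p ∣ orderOf x → θ x = 0 := by
    intro x hx
    refine Eq.trans ?_ (weak_block_orth hMp hBp hx hy)
    rw [hθ, finsum_mem_def, finsum_eq_sum_of_fintype]
    exact Finset.sum_congr rfl fun χ _ => by rw [Set.indicator_apply]
  have hcut : (fun x => if q ∣ orderOf x then 0 else θ x) = θ := by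
    funext x
    split_ifs with hqx
    · refine (hreg x fun hpx => hno (x ^ (orderOf x / (p * q))) ?_).symm
      have hd : p * q ∣ orderOf x :=
        ((Nat.coprime_primes hMp.1 hMq.1).2 hpq).mul_dvd_of_dvd_of_dvd hpx hqx
      rw [orderOf_pow_of_dvd (Nat.div_ne_zero_iff_of_dvd hd |>.2 ⟨(orderOf_pos x).ne', mul_ne_zero hMp.1.ne_zero hMq.1.ne_zero⟩)
        (Nat.div_dvd_of_dvd hd), Nat.div_div_self hd (orderOf_pos x).ne']
    · rfl
  have hinner : ∀ ψ : IrrCharacter G, classInner θ (ψ : G → ℂ) = if ψ ∈ Bp then conj ((ψ : G → ℂ) y) else 0 := by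
    intro ψ
    have e : θ = ∑ χ : IrrCharacter G, (if χ ∈ Bp then conj ((χ : G → ℂ) y) else 0) • (χ : G → ℂ) := by
      funext x
      rw [Finset.sum_apply]
      exact Finset.sum_congr rfl fun χ _ => by rw [Pi.smul_apply, smul_eq_mul]; split_ifs <;> ring
    rw [e, classInner_sum_left, Finset.sum_eq_single ψ]
    · rw [classInner_smul_left, classInner_self ψ.2, mul_one]
    · intro χ _ hne
      rw [classInner_smul_left, classInner_ne χ.2 ψ.2 (fun h => hne (Subtype.ext h)), mul_zero]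
    · simp
  set F : G → ℂ := fun x => ∑ ψ : IrrCharacter G,
    if ψ ∈ Bp ∩ Bq then conj ((ψ : G → ℂ) y) * (ψ : G → ℂ) x else 0 with hF
  have hFpart : ∀ x, blockPart Bq θ x = F x := by
    intro x
    rw [CfsgLib.ZStar.blockPart_apply]
    refine Finset.sum_congr rfl fun ψ _ => ?_
    by_cases h1 : ψ ∈ Bq
    · by_cases h2 : ψ ∈ Bp
      · rw [if_pos h1, if_pos (show ψ ∈ Bp ∩ Bq from ⟨h2, h1⟩), hinner, if_pos h2]
      · rw [if_pos h1, if_neg (fun h : ψ ∈ Bp ∩ Bq => h2 h.1), hinner, if_neg h2, zero_mul]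
    · rw [if_neg h1, if_neg (fun h : ψ ∈ Bp ∩ Bq => h1 h.2)]
  have hFq : ∀ x, q ∣ orderOf x → F x = 0 := by
    intro x hx
    have h := blockPart_cut hMq hBq θ x
    rw [hcut, if_pos hx, hFpart] at h
    exact h
  obtain ⟨Q⟩ : Nonempty (Sylow q G) := inferInstance
  haveI : Fintype (Q : Subgroup G) := Fintype.ofFinite _
  choose m hm using fun ψ : IrrCharacter G => classInner_characters_nat
    (CfsgLib.CharBasics.isCharacter_restrict (isCharacter_of_irr ψ.2) (Q : Subgroup G))
    (isCharacter_of_irr (oneChar : IrrCharacter (Q : Subgroup G)).2)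
  have hQ : (Nat.card (Q : Subgroup G) : ℂ) = (q : ℂ) ^ b := by
    rw [Q.card_eq_multiplicity, hb, Nat.cast_pow]
  have h1 : F 1 = (q : ℂ) ^ b * ∑ ψ : IrrCharacter G, if ψ ∈ Bp ∩ Bq then conj ((ψ : G → ℂ) y) * (m ψ : ℂ) else 0 := by
    have e1 : ∑ x : (Q : Subgroup G), F x = F 1 := by
      rw [Finset.sum_eq_single (1 : (Q : Subgroup G))]
      · rfl
      · intro x _ hx
        refine hFq _ ?_
        obtain ⟨k, hk⟩ := Q.2 x
        obtain ⟨j, -, hj⟩ := (Nat.dvd_prime_pow hMq.1).1 (orderOf_dvd_of_pow_eq_one hk)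
        rw [Subgroup.orderOf_coe, hj]
        exact dvd_pow_self q fun h0 => hx (orderOf_eq_one_iff.1 (by rw [hj, h0, pow_zero]))
      · simp
    rw [← e1, ← hQ, Finset.mul_sum, hF, Finset.sum_comm]
    refine Finset.sum_congr rfl fun ψ _ => ?_
    split_ifs
    · rw [← hm, classInner_eq, ← mul_assoc, mul_comm _ (conj _), mul_assoc, mul_inv_cancel_left₀
        (Nat.cast_ne_zero.2 Nat.card_pos.ne'), ← Finset.mul_sum]
      congr 1
      exact Finset.sum_congr rfl fun x _ => by simp [oneChar]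
    · simp
  refine ⟨⟨∑ ψ : IrrCharacter G, if ψ ∈ Bp ∩ Bq then (ψ : G → ℂ) y * (m ψ : ℂ) else 0, ?_⟩, ?_⟩
  · refine (mem_integralClosure_iff ℤ ℂ).2 (IsIntegral.sum _ fun ψ _ => ?_)
    split_ifs
    · exact (CfsgLib.CharBasics.isIntegral_apply (isCharacter_of_irr ψ.2) y).mul (by simpa using (isIntegral_algebraMap : IsIntegral ℤ (algebraMap ℤ ℂ (m ψ : ℤ))))
    · exact isIntegral_zero
  · have h2 := congrArg conj h1
    rw [map_mul, map_pow, Complex.conj_natCast, hF, map_sum, map_sum] at h2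
    show _ = (q : ℂ) ^ b * ∑ ψ : IrrCharacter G, _
    refine Eq.trans ?_ (h2.trans ?_)
    · rw [finsum_mem_def, finsum_eq_sum_of_fintype]
      refine Finset.sum_congr rfl fun ψ _ => ?_
      rw [Set.indicator_apply]
      split_ifs
      · rw [map_mul, Complex.conj_conj, CfsgLib.CharBasics.apply_one (isCharacter_of_irr ψ.2), Complex.conj_natCast]
        ring
      · rw [map_zero]
    · congr 1
      refine Finset.sum_congr rfl fun ψ _ => ?_
      split_ifs
      · rw [map_mul, Complex.conj_conj, Complex.conj_natCast]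
      · rw [map_zero]

end Cfsg.Agent.S4731
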