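import Cfsg.Statements.S4733
import Cfsg.Agent.Blocks.RegularRank

set_option autoImplicit false
open Cfsg

namespace Cfsg.Agent.S4733

/-- Let p be a prime, M a maximal ideal of the algebraic integers containing p, and B a p-block of the finite group G with k irreducible characters and p-regular rank l (the number of irreducible Brauer characters). Then l ≤ k, and the following are equivalent: B has defect 0; k = l = 1; k = l. -/
theorem result {G : Type*} [Group G] [Finite G] (p : ℕ) [Fact p.Prime] (M : Ideal Cfsg.AlgInt) (hM : Cfsg.IsPModular p M) (B : Set (Cfsg.IrrCharacter G)) (hB : Cfsg.IsPBlock M B) : Cfsg.blockRank p B ≤ Nat.card B ∧ (Cfsg.blockDefect p B = 0 ↔ (Nat.card B = 1 ∧ Cfsg.blockRank p B = 1)) ∧ (Cfsg.blockDefect p B = 0 ↔ Nat.card B = Cfsg.blockRank p B) := by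
  classical
  haveI := Fintype.ofFinite G
  haveI : Fintype (Cfsg.IrrCharacter G) := @Fintype.ofFinite _ CfsgLib.CharBasics.finite_irrCharacter
  have hle := CfsgLib.Blocks.blockRank_le hM hB
  have hpos := CfsgLib.Blocks.blockRank_pos hM hB
  have h01 : Cfsg.blockDefect p B = 0 → Nat.card B = 1 ∧ Cfsg.blockRank p B = 1 := by
    intro h0
    haveI : Subsingleton B := ⟨fun a b =>
      Subtype.ext (CfsgLib.Blocks.subsingleton_of_defect_zero hM hB h0 a.2 b.2)⟩
    have h1 : Fintype.card B ≤ 1 := Fintype.card_le_one_iff_subsingleton.2 inferInstance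
    rw [Nat.card_eq_fintype_card]
    omega
  have h10 : Nat.card B = Cfsg.blockRank p B → Cfsg.blockDefect p B = 0 := fun h =>
    CfsgLib.Blocks.defect_zero_of_vanish hM.1 (CfsgLib.Blocks.IsPBlock.nonempty hM hB) fun χ hχ g hg =>
      CfsgLib.Blocks.apply_eq_zero_of_rank_eq hM hB (by rw [← h, Nat.card_eq_fintype_card]) hχ hg
  refine ⟨by rwa [Nat.card_eq_fintype_card], ⟨h01, fun h => h10 (h.1.trans h.2.symm)⟩, ⟨fun h => ?_, h10⟩⟩
  rw [(h01 h).1, (h01 h).2]

end Cfsg.Agent.S4733
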