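import Cfsg.Statements.S4736
import Cfsg.Agent.S4492
import Cfsg.Agent.ZStar.Second
import Cfsg.Agent.ZStar.Principal
import Cfsg.Agent.CharBasics.ItoConverse
import Cfsg.Agent.Clifford.Ito
-- import your own Cfsg.Agent.* helpers here

set_option autoImplicit false
open Cfsg

namespace Cfsg.Agent.S4736

/-- Let p be a prime, M a maximal ideal of the algebraic integers containing p, and G a finite p-solvable group with Sylow p-subgroup P. Then P is abelian if and only if every irreducible character in the principal p-block of G has height zero. -/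
theorem result {G : Type*} [Group G] [Finite G] (p : ℕ) [Fact p.Prime] (M : Ideal Cfsg.AlgInt) (hM : Cfsg.IsPModular p M) (hsolv : Cfsg.IsPSolvable p G) (P : Sylow p G) : IsMulCommutative P ↔ ∀ χ ∈ Cfsg.principalBlock M G, Cfsg.blockHeight p (Cfsg.principalBlock M G) (χ : G → ℂ) = 0 := by
  classical
  haveI := Fintype.ofFinite G
  set K := Cfsg.pPrimeCore p G with hK
  haveI hKn : K.Normal := (CfsgLib.PCore.pPrimeCore_mem p G).1
  haveI := Fintype.ofFinite K
  haveI : Finite (G ⧸ K) := inferInstance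
  -- the principal block
  obtain ⟨B, hB, hBmem, -, -⟩ := Cfsg.Agent.S4492.result (G := G) p M hM hsolv K hK CfsgLib.CharBasics.oneChar
    (fun g n => rfl)
  have h1B : (CfsgLib.CharBasics.oneChar : Cfsg.IrrCharacter G) ∈ B := by
    rw [hBmem]
    show Cfsg.classInner (fun _ : K => (1 : ℂ)) (fun _ : K => (1 : ℂ)) ≠ 0
    rw [CfsgLib.CharBasics.classInner_self CfsgLib.CharBasics.isIrrCharacter_one]
    exact one_ne_zero
  have hBeq : Cfsg.principalBlock M G = B :=
    CfsgLib.Blocks.IsPBlock.eq_of_mem hM CfsgLib.Blocks.isPBlock_principal hB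
      (CfsgLib.Blocks.oneChar_mem_principal hM) h1B
  have hker : ∀ χ : Cfsg.IrrCharacter G, χ ∈ Cfsg.principalBlock M G ↔
      ∀ n ∈ K, (χ : G → ℂ) n = (χ : G → ℂ) 1 := by
    intro χ
    constructor
    · intro hχ n hn
      have hv : n ∈ Cfsg.centralizerPPrimeCore p (1 : G) := by
        refine ⟨⟨n, Subgroup.mem_centralizer_singleton_iff.2 (by simp)⟩, ?_, rfl⟩
        refine (CfsgLib.PCore.le_pPrimeCore_of_not_dvd (N := K.subgroupOf _) inferInstance ?_) hn
        exact fun h => CfsgLib.PCore.not_dvd_card_pPrimeCore p G (h.trans (CfsgLib.PCore.card_subgroupOf_dvd _ _))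
      have h := CfsgLib.ZStar.principal_apply_mul_core hM (u := (1 : G)) ⟨0, by simp⟩ hχ hv
      rwa [one_mul] at h
    · intro h
      rw [hBeq, hBmem]
      rw [CfsgLib.CharBasics.classInner_eq,
        Finset.sum_congr rfl (g := fun _ : K => (χ : G → ℂ) 1) (fun n _ => by
          rw [h n n.2, CfsgLib.CharBasics.oneChar_apply, map_one, mul_one]),
        Finset.sum_const, Finset.card_univ, ← Nat.card_eq_fintype_card, nsmul_eq_mul,
        inv_mul_cancel_left₀ (Nat.cast_ne_zero.2 Nat.card_pos.ne')]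
      exact CfsgLib.CharBasics.apply_one_ne_zero χ.2
  have hs0 : sInf ((fun ψ : Cfsg.IrrCharacter G => (Cfsg.charDegree (ψ : G → ℂ)).factorization p) ''
      Cfsg.principalBlock M G) = 0 :=
    Nat.sInf_eq_zero.2 (Or.inl ⟨CfsgLib.CharBasics.oneChar, CfsgLib.Blocks.oneChar_mem_principal hM, by
      show (Cfsg.charDegree (fun _ : G => (1 : ℂ))).factorization p = 0
      simp [Cfsg.charDegree]⟩)
  have hh : ∀ χ : Cfsg.IrrCharacter G,
      Cfsg.blockHeight p (Cfsg.principalBlock M G) (χ : G → ℂ) = 0 ↔ ¬ p ∣ Cfsg.charDegree (χ : G → ℂ) := by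
    intro χ
    rw [Cfsg.blockHeight, hs0, Nat.sub_zero, Nat.factorization_eq_zero_iff]
    simp [(Fact.out : p.Prime), (CfsgLib.CharBasics.charDegree_pos χ.2).ne']
  have hsbar : Cfsg.IsPSolvable p (G ⧸ K) := CfsgLib.PCore.isPSolvable_quotient hsolv K
  have hsurj := QuotientGroup.mk'_surjective K
  have hcore : Cfsg.pPrimeCore p (G ⧸ K) = ⊥ := CfsgLib.PCore.pPrimeCore_quotient
  let Pb : Sylow p (G ⧸ K) := P.mapSurjective hsurj
  constructor
  · intro hP χ hχ
    rw [hh]
    obtain ⟨ψ, hψ⟩ := CfsgLib.CharBasics.exists_quotient_irr χ K ((hker χ).1 hχ)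
    have hdeg : Cfsg.charDegree (ψ : G ⧸ K → ℂ) = Cfsg.charDegree (χ : G → ℂ) := by
      rw [Cfsg.charDegree, Cfsg.charDegree, ← hψ 1]; rfl
    set A := Cfsg.pCore p (G ⧸ K) with hA
    have hAle : A ≤ (Pb : Subgroup (G ⧸ K)) := CfsgLib.PCore.pCore_le_sylow Pb
    have hcomm : ∀ x ∈ (Pb : Subgroup (G ⧸ K)), ∀ y ∈ (Pb : Subgroup (G ⧸ K)), x * y = y * x := by
      rintro x ⟨a, ha, rfl⟩ y ⟨b, hb, rfl⟩
      rw [← map_mul, ← map_mul]
      exact congrArg _ (congrArg Subtype.val (mul_comm' (⟨a, ha⟩ : (P : Subgroup G)) ⟨b, hb⟩))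
    have hPA : (Pb : Subgroup (G ⧸ K)) ≤ A := fun x hx =>
      CfsgLib.PCore.hall_higman hsbar hcore (Subgroup.mem_centralizer_iff.2 fun y hy =>
        hcomm y (hAle hy) x hx)
    haveI : A.Normal := Cfsg.pCore_normal p (G ⧸ K)
    haveI : IsMulCommutative A := ⟨⟨fun a b => Subtype.ext (hcomm a (hAle a.2) b (hAle b.2))⟩⟩
    have hdvd := CfsgLib.Clifford.ito_dvd ψ.2 A
    rw [hdeg] at hdvd
    intro hp
    apply Pb.not_dvd_index
    exact (hp.trans hdvd).trans (Subgroup.index_dvd_of_le hPA)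
  · intro hall
    obtain ⟨Q, hQn, hQc, hQp, hQi⟩ := CfsgLib.ItoConverse.normal_abelian_sylow p (G ⧸ K) hsbar fun ψ => by
      have hi := CfsgLib.CharBasics.irr_comp_of_surjective ψ.2 _ hsurj
      have hmem : (⟨_, hi⟩ : Cfsg.IrrCharacter G) ∈ Cfsg.principalBlock M G :=
        (hker _).2 fun n hn => by
          show (ψ : G ⧸ K → ℂ) (QuotientGroup.mk' K n) = (ψ : G ⧸ K → ℂ) (QuotientGroup.mk' K 1)
          rw [QuotientGroup.mk'_apply, (QuotientGroup.eq_one_iff n).2 hn, map_one]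
      have := (hh _).1 (hall _ hmem)
      simpa [Cfsg.charDegree] using this
    haveI := hQn
    haveI : IsMulCommutative Q := hQc
    have hle : (Pb : Subgroup (G ⧸ K)) ≤ Q := by
      obtain ⟨c, hc⟩ := MulAction.exists_smul_eq (G ⧸ K) (hQp.toSylow hQi) Pb
      rw [← hc, Sylow.coe_subgroup_smul, IsPGroup.toSylow_coe]
      rintro _ ⟨y, hy, rfl⟩
      exact hQn.conj_mem y hy c
    refine ⟨⟨fun a b => Subtype.ext ?_⟩⟩
    have hab : QuotientGroup.mk' K ((a : G) * b) = QuotientGroup.mk' K ((b : G) * a) := by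
      rw [map_mul, map_mul]
      exact congrArg Subtype.val (mul_comm' (⟨_, hle ⟨_, a.2, rfl⟩⟩ : Q) ⟨_, hle ⟨_, b.2, rfl⟩⟩)
    have hmem : ((a : G) * b)⁻¹ * ((b : G) * a) ∈ (P : Subgroup G) ⊓ K :=
      ⟨((a * b)⁻¹ * (b * a)).2, QuotientGroup.eq.1 hab⟩
    rw [CfsgLib.PCore.inf_eq_bot_of_isPGroup_of_coprime P.isPGroup' (CfsgLib.PCore.pPrimeCore_coprime p G),
      Subgroup.mem_bot, inv_mul_eq_one] at hmem
    exact hmem

end Cfsg.Agent.S4736
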