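import Cfsg.Statements.S4955
import Cfsg.Agent.CharBasics.ModP
import Cfsg.Agent.CharBasics.Extra
import Cfsg.Agent.Blocks.Glauberman
import Cfsg.Agent.S0887

set_option autoImplicit false
open Cfsg CfsgLib.CharBasics CfsgLib.Blocks

namespace Cfsg.Agent.S4955

/-- Let X be a finite group with an abelian normal Sylow p-subgroup V (a normal p-subgroup of index prime to p in which any two elements commute), and let G be a complement to V in X. Then for every v in V, writing C for the centralizer of v in G, the number k(X) of conjugacy classes of X satisfies k(X) ≤ (order of C)·(order of V) − ((order of G) − k(G)); the statement is written with the subtracted term moved to the left. In particular, if some v in V is centralized by no nonidentity element of G, then k(X) is at most the order of V. -/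
theorem result {X : Type*} [Group X] [Finite X] (p : ℕ) [Fact p.Prime] (V : Subgroup X) [V.Normal] (hVp : IsPGroup p V) (hidx : ¬ p ∣ V.index) (hab : ∀ a ∈ V, ∀ b ∈ V, a * b = b * a) (G : Subgroup X) (hGV : Subgroup.IsComplement' V G) (v : X) (hv : v ∈ V) : Nat.card (ConjClasses X) + Nat.card G ≤ Nat.card ↥(G ⊓ Subgroup.centralizer ({v} : Set X)) * Nat.card V + Nat.card (ConjClasses G) := by
  classical
  haveI : Fintype X := Fintype.ofFinite X
  haveI : Fintype V := Fintype.ofFinite V
  haveI : Fintype G := Fintype.ofFinite G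
  haveI : Fintype (IrrCharacter X) := Fintype.ofFinite _
  haveI : Fintype (IrrCharacter G) := Fintype.ofFinite _
  have hp : p.Prime := Fact.out
  obtain ⟨M, hM⟩ := exists_modular hp
  obtain ⟨k, hk⟩ := hVp ⟨v, hv⟩
  have hvk : v ^ p ^ k = 1 := congrArg (fun x : V => (x : X)) hk
  -- no irreducible character vanishes at `v`
  haveI : IsMulCommutative V := ⟨⟨fun a b => Subtype.ext (hab a a.2 b b.2)⟩⟩
  have hdeg : ∀ χ : IrrCharacter X, ¬ p ∣ charDegree (χ : X → ℂ) := by
    intro χ hd
    obtain ⟨θ, hθ⟩ := exists_restrict_constituent V χ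
    have hθ' : classInner (fun n : V => (χ : X → ℂ) n) (θ : V → ℂ) ≠ 0 := by
      rw [classInner_comm]; simpa using hθ
    have h := (Cfsg.Agent.S0887.result V _ χ.2 _ θ.2 hθ' (charDegree (χ : X → ℂ)) (charDegree (θ : V → ℂ))
      (apply_one (isCharacter_of_irr χ.2)) (apply_one (isCharacter_of_irr θ.2))).2
    rw [charDegree_comm θ.2, Nat.div_one] at h
    exact hidx (hd.trans h)
  have hne : ∀ χ : IrrCharacter X, (χ : X → ℂ) v ≠ 0 := fun χ =>
    apply_ne_zero_of_not_dvd hM (isCharacter_of_irr χ.2) hvk (hdeg χ)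
  -- the characters of the complement
  let π : X →* G := hGV.symm.QuotientMulEquiv.toMonoidHom.comp (QuotientGroup.mk' V)
  have hπ : Function.Surjective π :=
    hGV.symm.QuotientMulEquiv.surjective.comp (QuotientGroup.mk'_surjective V)
  have hπV : ∀ a ∈ V, π a = 1 := fun a ha => by
    simp only [π, MonoidHom.comp_apply]
    rw [show QuotientGroup.mk' V a = 1 from (QuotientGroup.eq_one_iff a).2 ha, map_one]
  let infl : IrrCharacter G ↪ IrrCharacter X :=
    ⟨fun ψ => ⟨fun x => (ψ : G → ℂ) (π x), irr_comp_of_surjective ψ.2 π hπ⟩, fun ψ ψ' h => by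
      refine Subtype.ext (funext fun g => ?_)
      obtain ⟨x, rfl⟩ := hπ g
      exact congrArg (fun χ : IrrCharacter X => (χ : X → ℂ) x) h⟩
  set T : Finset (IrrCharacter X) := Finset.univ.map infl
  set R := Finset.univ \ T
  have hT : ∀ a ∈ V, ∑ χ ∈ T, ‖(χ : X → ℂ) a‖ ^ 2 = (Nat.card G : ℝ) := fun a ha => by
    rw [Finset.sum_map, ← sum_sq_degree (G := G), Nat.cast_sum]
    refine Finset.sum_congr rfl fun ψ _ => ?_
    show ‖(ψ : G → ℂ) (π a)‖ ^ 2 = _
    rw [hπV a ha, apply_one (isCharacter_of_irr ψ.2), Complex.norm_natCast, Nat.cast_pow]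
  have hsplit : ∀ a ∈ V, ∑ χ ∈ R, ‖(χ : X → ℂ) a‖ ^ 2 =
      (Nat.card (Subgroup.centralizer ({a} : Set X)) : ℝ) - Nat.card G := fun a ha => by
    rw [← sum_normSq_col a, ← Finset.sum_sdiff (Finset.subset_univ T), hT a ha, add_sub_cancel_right]
  set N := Nat.card X
  have hN : N ≠ 0 := Nat.card_pos.ne'
  have hcent : ∀ j ∈ coprimeResidues N,
      Subgroup.centralizer ({v ^ j} : Set X) = Subgroup.centralizer ({v} : Set X) := by
    intro j hj
    obtain ⟨m, hm⟩ := exists_pow_eq_self_of_coprime
      ((Finset.mem_filter.1 hj).2.coprime_dvd_right (orderOf_dvd_natCard v))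
    ext x
    simp only [Subgroup.mem_centralizer_singleton_iff]
    refine ⟨fun h => ?_, fun h => (Commute.pow_left (show Commute v x from h.symm) j).eq.symm⟩
    rw [← hm]
    exact (Commute.pow_left (show Commute (v ^ j) x from h.symm) m).eq.symm
  have hone : ∀ χ ∈ R, ((coprimeResidues N).card : ℝ) ≤
      ∑ j ∈ coprimeResidues N, ‖(χ : X → ℂ) (v ^ j)‖ ^ 2 := by
    intro χ _
    have hc := cycPoly_character (isCharacter_of_irr χ.2)
    obtain ⟨f, hf⟩ := hc v
    refine card_le_sum_of_one_le_prod _ _ (fun j hj => ?_) ?_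
    · exact pow_pos (norm_pos_iff.mpr (hc.ne_zero hN (Finset.mem_filter.1 hj).2 (hne χ))) 2
    · obtain ⟨r, hr⟩ := prod_coprime_int hN f
      rw [Finset.prod_pow, ← norm_prod, Finset.prod_congr rfl (fun j _ => hf j), hr]
      have hr0 : r ≠ 0 := by
        intro h0
        rw [h0, Int.cast_zero, Finset.prod_eq_zero_iff] at hr
        obtain ⟨j, hj, hj0⟩ := hr
        exact hc.ne_zero hN (Finset.mem_filter.1 hj).2 (hne χ) ((hf j).trans hj0)
      rw [Complex.norm_intCast, sq_abs]
      exact_mod_cast (sq_pos_of_ne_zero hr0 : (0 : ℤ) < r ^ 2)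
  have hsum := Finset.sum_le_sum hone
  rw [Finset.sum_comm, Finset.sum_congr rfl (fun j hj => (hsplit (v ^ j) (pow_mem hv j)).trans (by rw [hcent j hj])),
    Finset.sum_const, Finset.sum_const, nsmul_eq_mul, nsmul_eq_mul, mul_comm] at hsum
  have hφ : (0 : ℝ) < ((coprimeResidues N).card : ℝ) := by exact_mod_cast coprimeResidues_card_pos hN
  have hmain : R.card + Nat.card G ≤ Nat.card (Subgroup.centralizer ({v} : Set X)) := by
    have := le_of_mul_le_mul_left hsum hφ
    rw [le_sub_iff_add_le] at this
    exact_mod_cast this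
  have hcard : Nat.card (ConjClasses X) = R.card + Nat.card (ConjClasses G) := by
    rw [← card_irr, ← card_irr, Nat.card_eq_fintype_card, Nat.card_eq_fintype_card, ← Finset.card_univ,
      ← Finset.card_sdiff_add_card_eq_card (Finset.subset_univ T), Finset.card_map, Finset.card_univ]
  have hC : Nat.card (Subgroup.centralizer ({v} : Set X)) ≤
      Nat.card ↥(G ⊓ Subgroup.centralizer ({v} : Set X)) * Nat.card V := by
    rw [← Nat.card_prod]
    have hdec : ∀ x : Subgroup.centralizer ({v} : Set X), ∃ z :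
        ↥(G ⊓ Subgroup.centralizer ({v} : Set X)) × V, (z.2 : X) * (z.1 : X) = x := by
      intro x
      obtain ⟨⟨a, g⟩, he : (a : X) * (g : X) = x⟩ := hGV.2 (x : X)
      have haC : (a : X) ∈ Subgroup.centralizer ({v} : Set X) :=
        Subgroup.mem_centralizer_singleton_iff.2 (hab a a.2 v hv)
      have hgC : (g : X) ∈ Subgroup.centralizer ({v} : Set X) := by
        rw [show (g : X) = (a : X)⁻¹ * x by rw [← he, inv_mul_cancel_left]]
        exact mul_mem (inv_mem haC) x.2
      exact ⟨⟨⟨g, g.2, hgC⟩, a⟩, he⟩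
    choose z hz using hdec
    exact Nat.card_le_card_of_injective z fun x y h => Subtype.ext (by rw [← hz x, ← hz y, h])
  omega

end Cfsg.Agent.S4955
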