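import Cfsg.Statements.S4956
import Mathlib.GroupTheory.GroupAction.CardCommute
import Mathlib.GroupTheory.Complement
import Mathlib.GroupTheory.QuotientGroup.Basic
import Mathlib.GroupTheory.OrderOfElement
import Mathlib.Tactic.Group
import Mathlib.Algebra.BigOperators.Group.Finset.Basic
import Mathlib.Algebra.BigOperators.Ring.Finset
import Mathlib.Algebra.Group.Conj

set_option autoImplicit false
open Cfsg

namespace Cfsg.Agent.S4956

theorem fiber_card {V : Type*} [CommGroup V] [Finite V] {A : Type*} [Group A] [Finite A]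
    (φ : A →* MulAut V) (a b : A) (hgen : Subgroup.closure ({a, b} : Set A) = ⊤)
    (hcop : (Nat.card V).Coprime (Nat.card A)) :
    Nat.card {p : V × V // p.1 * φ a p.2 = p.2 * φ b p.1} =
      Nat.card V * Nat.card {v : V // φ a v = v ∧ φ b v = v} := by
  classical
  haveI := Fintype.ofFinite A
  let f : V × V →* V :=
    { toFun := fun p => p.1 * φ a p.2 * (p.2 * φ b p.1)⁻¹
      map_one' := by simp
      map_mul' := fun p q => by
        simp only [Prod.fst_mul, Prod.snd_mul, map_mul, mul_inv_rev]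
        simp only [mul_assoc, mul_comm, mul_left_comm] }
  have hker : Nat.card {p : V × V // p.1 * φ a p.2 = p.2 * φ b p.1} = Nat.card f.ker :=
    Nat.card_congr (Equiv.subtypeEquivRight fun p => by
      show _ ↔ p.1 * φ a p.2 * (p.2 * φ b p.1)⁻¹ = 1
      rw [mul_inv_eq_one])
  let C : Subgroup V :=
    { carrier := {v | φ a v = v ∧ φ b v = v}
      mul_mem' := fun {x y} hx hy => ⟨by rw [map_mul, hx.1, hy.1], by rw [map_mul, hx.2, hy.2]⟩
      one_mem' := ⟨map_one _, map_one _⟩
      inv_mem' := fun {x} hx => ⟨by rw [map_inv, hx.1], by rw [map_inv, hx.2]⟩ }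
  let e : V →* V :=
    { toFun := fun v => ∏ h : A, φ h v
      map_one' := by simp
      map_mul' := fun x y => by simp [Finset.prod_mul_distrib] }
  have he : ∀ (g : A) (v : V), e (φ g v) = e v := fun g v =>
    Fintype.prod_equiv (Equiv.mulRight g) _ _ fun h => by
      show φ h (φ g v) = φ (h * g) v
      rw [map_mul]; rfl
  have heC : ∀ v, e v ∈ C := by
    have h' : ∀ (g : A) (v : V), φ g (e v) = e v := fun g v => by
      show φ g (∏ h : A, φ h v) = _
      rw [map_prod]
      exact Fintype.prod_equiv (Equiv.mulLeft g) _ _ fun h => by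
        show φ g (φ h v) = φ (g * h) v
        rw [map_mul]; rfl
    exact fun v => ⟨h' a v, h' b v⟩
  have hCfix : ∀ c ∈ C, ∀ g : A, φ g c = c := by
    intro c hc g
    have hg : g ∈ Subgroup.closure ({a, b} : Set A) := hgen ▸ Subgroup.mem_top g
    induction hg using Subgroup.closure_induction with
    | mem x hx =>
      rcases hx with h | h
      · subst h; exact hc.1
      · rw [Set.mem_singleton_iff] at h; subst h; exact hc.2
    | one => simp
    | mul x y _ _ hx hy => rw [map_mul, MulAut.mul_apply, hy, hx]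
    | inv x _ hx =>
      conv_lhs => rw [← hx]
      rw [← MulAut.mul_apply, ← map_mul, inv_mul_cancel, map_one, MulAut.one_apply]
  have hpow : ∀ c ∈ C, e c = c ^ Nat.card A := fun c hc => by
    show (∏ h : A, φ h c) = _
    rw [Finset.prod_congr rfl (fun h _ => hCfix c hc h), Finset.prod_const, Finset.card_univ,
      Nat.card_eq_fintype_card]
  have heI : ∀ v ∈ f.range, e v = 1 := by
    rintro _ ⟨p, rfl⟩
    show e (p.1 * φ a p.2 * (p.2 * φ b p.1)⁻¹) = 1
    rw [map_mul, map_mul, map_inv, map_mul, he, he, mul_comm (e p.1) (e p.2), mul_inv_cancel]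
  have hI : ∀ (h : A) (v : V), v⁻¹ * φ h v ∈ f.range := by
    intro h
    have hg : h ∈ Subgroup.closure ({a, b} : Set A) := hgen ▸ Subgroup.mem_top h
    induction hg using Subgroup.closure_induction with
    | mem x hx =>
      intro v
      rcases hx with hx | hx
      · subst hx
        refine ⟨(1, v), ?_⟩
        show (1 : V) * φ x v * (v * φ b 1)⁻¹ = _
        rw [map_one, mul_one, one_mul, mul_comm]
      · rw [Set.mem_singleton_iff] at hx; subst hx
        refine ⟨(v⁻¹, 1), ?_⟩
        show v⁻¹ * φ a 1 * (1 * φ x v⁻¹)⁻¹ = _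
        rw [map_one, mul_one, one_mul, map_inv, inv_inv]
    | one => intro v; simp
    | mul x y _ _ hx hy =>
      intro v
      have := mul_mem (hy v) (hx (φ y v))
      rwa [mul_assoc, mul_inv_cancel_left, ← MulAut.mul_apply, ← map_mul] at this
    | inv x _ hx =>
      intro v
      have := inv_mem (hx (φ x⁻¹ v))
      rw [← MulAut.mul_apply, ← map_mul, mul_inv_cancel, map_one, MulAut.one_apply] at this
      simpa [mul_comm] using this
  let pe : C ≃ C := powCoprime (Nat.Coprime.coprime_dvd_left (Subgroup.card_subgroup_dvd_card C) hcop)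
  let pv : V ≃ V := powCoprime hcop
  have hinj : C ⊓ f.range = ⊥ := by
    rw [eq_bot_iff]
    rintro c ⟨hc, hc'⟩
    have h1 : c ^ Nat.card A = 1 := (hpow c hc).symm.trans (heI c hc')
    exact Subgroup.mem_bot.mpr (pv.injective (show c ^ Nat.card A = (1:V) ^ Nat.card A by rw [h1, one_pow]))
  have hkerle : ∀ v, e v = 1 → v ∈ f.range := by
    intro v hv
    have h1 : (∏ h : A, v⁻¹ * φ h v) ∈ f.range := prod_mem fun h _ => hI h v
    rw [Finset.prod_mul_distrib, Finset.prod_const, Finset.card_univ, ← Nat.card_eq_fintype_card] at h1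
    change v⁻¹ ^ Nat.card A * e v ∈ f.range at h1
    rw [hv, mul_one, inv_pow, inv_mem_iff] at h1
    have h2 := (Nat.Coprime.coprime_dvd_left (Subgroup.card_subgroup_dvd_card f.range) hcop)
    obtain ⟨w, hw⟩ := (powCoprime h2).surjective ⟨_, h1⟩
    have h3 : (w : V) ^ Nat.card A = v ^ Nat.card A := congrArg Subtype.val hw
    have h4 : (w : V) = v := pv.injective h3
    exact h4 ▸ w.2
  have hmap : Function.Bijective (fun x : C × f.range => (x.1 : V) * x.2) := by
    constructor
    · rintro ⟨c, i⟩ ⟨c', i'⟩ h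
      have h' : (c : V) * i = c' * i' := h
      have h1 : (c' : V)⁻¹ * c = i' * (i : V)⁻¹ := by
        rw [eq_mul_inv_iff_mul_eq, mul_assoc, h', inv_mul_cancel_left]
      have h2 : (c' : V)⁻¹ * c ∈ C ⊓ f.range :=
        Subgroup.mem_inf.mpr ⟨C.mul_mem (C.inv_mem c'.2) c.2, h1 ▸ f.range.mul_mem i'.2 (f.range.inv_mem i.2)⟩
      rw [hinj, Subgroup.mem_bot, inv_mul_eq_one] at h2
      have hc : c' = c := Subtype.ext h2
      subst hc
      exact Prod.ext rfl (Subtype.ext (mul_left_cancel h'))
    · intro v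
      obtain ⟨c, hc⟩ := pe.surjective ⟨e v, heC v⟩
      have hc' : (c : V) ^ Nat.card A = e v := congrArg Subtype.val hc
      refine ⟨⟨c, ⟨(c : V)⁻¹ * v, hkerle _ ?_⟩⟩, mul_inv_cancel_left _ _⟩
      rw [map_mul, map_inv, hpow c c.2, hc', inv_mul_cancel]
  have hV : Nat.card C * Nat.card f.range = Nat.card V := by
    rw [← Nat.card_prod]; exact Nat.card_congr (Equiv.ofBijective _ hmap)
  have hk : Nat.card f.ker * Nat.card f.range = Nat.card V * Nat.card V := by
    rw [← Nat.card_congr (QuotientGroup.quotientKerEquivRange f).toEquiv, mul_comm,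
      ← Subgroup.card_eq_card_quotient_mul_card_subgroup, Nat.card_prod]
  rw [hker, show Nat.card {v : V // φ a v = v ∧ φ b v = v} = Nat.card C from rfl]
  exact Nat.eq_of_mul_eq_mul_right (Nat.card_pos : 0 < Nat.card f.range) (by rw [hk, mul_assoc, hV])

/-- Let X be a finite group, V an abelian normal subgroup of X (any two elements of V commute) and G a complement to V in X whose order is coprime to that of V. Let S be a set of representatives of the orbits of G on V under conjugation: S lies in V and every element of V is conjugate under G to exactly one member of S. Then the number of conjugacy classes of X equals the sum, over s in S, of the number of conjugacy classes of the centralizer of s in G. -/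
theorem result {X : Type*} [Group X] [Finite X] (V : Subgroup X) [V.Normal] (hab : ∀ a ∈ V, ∀ b ∈ V, a * b = b * a) (G : Subgroup X) (hGV : Subgroup.IsComplement' V G) (hcop : (Nat.card V).Coprime (Nat.card G)) (S : Finset X) (hSV : ∀ s ∈ S, s ∈ V) (hrep : ∀ v ∈ V, ∃! s, s ∈ S ∧ ∃ g ∈ G, g * v * g⁻¹ = s) : Nat.card (ConjClasses X) = ∑ s ∈ S, Nat.card (ConjClasses ↥(G ⊓ Subgroup.centralizer ({s} : Set X))) := by
  classical
  haveI := Fintype.ofFinite X
  letI : CommGroup V := { (inferInstance : Group V) with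
    mul_comm := fun a b => Subtype.ext (hab _ a.2 _ b.2) }
  refine Nat.eq_of_mul_eq_mul_right (Nat.card_pos : 0 < Nat.card X) ?_
  rw [← card_comm_eq_card_conjClasses_mul_card]
  let e : (V × G) ≃ X := Equiv.ofBijective (fun p => (p.1 : X) * p.2) hGV
  let cj : G →* MulAut V := (MulAut.conjNormal (G := X)).comp G.subtype
  have hcj : ∀ (g : G) (v : V), ((cj g v : V) : X) = g * v * (g : X)⁻¹ := fun g v => MulAut.conjNormal_apply _ _
  have hcomm : ∀ (v w : V) (a b : G), Commute (e (v, a)) (e (w, b)) ↔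
      (Commute a b ∧ v * cj a w = w * cj b v) := by
    intro v w a b
    show (v : X) * a * (w * b) = w * b * (v * a) ↔ _
    have h1 : (v : X) * a * (w * b) = e (v * cj a w, a * b) := by
      show _ = ((v : X) * ((cj a w : V) : X)) * ((a : X) * b)
      rw [hcj]; group
    have h2 : (w : X) * b * (v * a) = e (w * cj b v, b * a) := by
      show _ = ((w : X) * ((cj b v : V) : X)) * ((b : X) * a)
      rw [hcj]; group
    rw [h1, h2, e.apply_eq_iff_eq, Prod.mk_inj, and_comm]
    rfl
  have hA : Nat.card {p : X × X // Commute p.1 p.2} =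
      Nat.card ((q : {q : G × G // Commute q.1 q.2}) ×
        {p : V × V // p.1 * cj q.1.1 p.2 = p.2 * cj q.1.2 p.1}) := by
    refine (Nat.card_congr ?_).symm
    exact
    { toFun := fun z => ⟨(e (z.2.1.1, z.1.1.1), e (z.2.1.2, z.1.1.2)),
        (hcomm _ _ _ _).mpr ⟨z.1.2, z.2.2⟩⟩
      invFun := fun p => ⟨⟨((e.symm p.1.1).2, (e.symm p.1.2).2),
          ((hcomm (e.symm p.1.1).1 (e.symm p.1.2).1 (e.symm p.1.1).2 (e.symm p.1.2).2).mp
            (by simpa using p.2)).1⟩,
        ⟨((e.symm p.1.1).1, (e.symm p.1.2).1),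
          ((hcomm (e.symm p.1.1).1 (e.symm p.1.2).1 (e.symm p.1.1).2 (e.symm p.1.2).2).mp
            (by simpa using p.2)).2⟩⟩
      left_inv := fun z => by
        obtain ⟨⟨⟨a, b⟩, h⟩, ⟨⟨v, w⟩, h'⟩⟩ := z
        have key : ∀ (x : {q : G × G // Commute q.1 q.2}) (y : V × V) (hy : _)
            (x' : {q : G × G // Commute q.1 q.2}) (y' : V × V) (hy' : _), x = x' → y = y' →
            (⟨x, ⟨y, hy⟩⟩ : (q : {q : G × G // Commute q.1 q.2}) × {p : V × V // p.1 * cj q.1.1 p.2 = p.2 * cj q.1.2 p.1}) = ⟨x', ⟨y', hy'⟩⟩ := by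
          intro x y hy x' y' hy' h1 h2
          subst h1; subst h2; rfl
        exact key _ _ _ _ _ _ (Subtype.ext (by simp)) (by simp)
      right_inv := fun p => Subtype.ext (by simp) }
  have hB : Nat.card ((q : {q : G × G // Commute q.1 q.2}) ×
        {p : V × V // p.1 * cj q.1.1 p.2 = p.2 * cj q.1.2 p.1}) =
      Nat.card V * ∑ v : V, Nat.card {q : {q : G × G // Commute q.1 q.2} //
        cj q.1.1 v = v ∧ cj q.1.2 v = v} := by
    have hf : ∀ q : {q : G × G // Commute q.1 q.2},
        Nat.card {p : V × V // p.1 * cj q.1.1 p.2 = p.2 * cj q.1.2 p.1} =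
        Nat.card V * Nat.card {v : V // cj q.1.1 v = v ∧ cj q.1.2 v = v} := by
      intro q
      let A := Subgroup.closure ({q.1.1, q.1.2} : Set G)
      have ha : q.1.1 ∈ A := Subgroup.subset_closure (by simp)
      have hb : q.1.2 ∈ A := Subgroup.subset_closure (by simp)
      have htop : Subgroup.closure ({⟨_, ha⟩, ⟨_, hb⟩} : Set A) = ⊤ := by
        have := Subgroup.closure_closure_coe_preimage (k := ({q.1.1, q.1.2} : Set G))
        rw [eq_top_iff, ← this]
        apply Subgroup.closure_mono
        intro x hx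
        rcases hx with hx | hx
        · exact Or.inl (Subtype.ext hx)
        · exact Or.inr (Subtype.ext hx)
      exact fiber_card (cj.comp A.subtype) ⟨_, ha⟩ ⟨_, hb⟩ htop
        (hcop.coprime_dvd_right (Subgroup.card_subgroup_dvd_card A))
    rw [Nat.card_sigma, Finset.sum_congr rfl (fun q _ => hf q), ← Finset.mul_sum]
    congr 1
    rw [← Nat.card_sigma, ← Nat.card_sigma]
    exact Nat.card_congr
      { toFun := fun z => ⟨z.2.1, ⟨z.1, z.2.2⟩⟩
        invFun := fun z => ⟨z.2.1, ⟨z.1, z.2.2⟩⟩
        left_inv := fun _ => rfl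
        right_inv := fun _ => rfl }
  let H : X → Subgroup X := fun x => G ⊓ Subgroup.centralizer ({x} : Set X)
  have hHmem : ∀ (v : V) (g : G), cj g v = v ↔ (g : X) ∈ H v := by
    intro v g
    simp only [H, Subgroup.mem_inf, Subgroup.mem_centralizer_singleton_iff, Subtype.ext_iff, hcj,
      mul_inv_eq_iff_eq_mul]
    exact ⟨fun h => ⟨g.2, h⟩, fun h => h.2⟩
  have hC : ∀ v : V, Nat.card {q : {q : G × G // Commute q.1 q.2} //
        cj q.1.1 v = v ∧ cj q.1.2 v = v} = Nat.card (ConjClasses (H v)) * Nat.card (H v) := by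
    intro v
    rw [← card_comm_eq_card_conjClasses_mul_card]
    exact Nat.card_congr
      { toFun := fun z => ⟨(⟨(z.1.1.1 : X), (hHmem v _).mp z.2.1⟩, ⟨(z.1.1.2 : X), (hHmem v _).mp z.2.2⟩),
          Subtype.ext (congrArg Subtype.val z.1.2 : _)⟩
        invFun := fun p => ⟨⟨(⟨(p.1.1 : X), p.1.1.2.1⟩, ⟨(p.1.2 : X), p.1.2.2.1⟩),
          Subtype.ext (congrArg Subtype.val p.2 : _)⟩,
          ⟨(hHmem v _).mpr p.1.1.2, (hHmem v _).mpr p.1.2.2⟩⟩
        left_inv := fun _ => rfl
        right_inv := fun _ => rfl }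
  -- orbit counting
  let F : X → ℕ := fun x => Nat.card (ConjClasses (H x))
  have hconj : ∀ (g : G) (v : X) (k : X), k ∈ H v → (g : X) * k * (g : X)⁻¹ ∈ H ((g : X) * v * (g : X)⁻¹) := by
    intro g v k hk
    simp only [H, Subgroup.mem_inf, Subgroup.mem_centralizer_singleton_iff] at hk ⊢
    refine ⟨mul_mem (mul_mem g.2 hk.1) (inv_mem g.2), ?_⟩
    calc _ = (g : X) * (k * v) * (g : X)⁻¹ := by group
      _ = (g : X) * (v * k) * (g : X)⁻¹ := by rw [hk.2]
      _ = _ := by group
  have hFinv : ∀ (g : G) (v : X), F ((g : X) * v * (g : X)⁻¹) = F v := by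
    intro g v
    let m : H v ≃* H ((g : X) * v * (g : X)⁻¹) :=
      { toFun := fun k => ⟨_, hconj g v k k.2⟩
        invFun := fun k => ⟨(g : X)⁻¹ * k * g, by
          have := hconj g⁻¹ _ k k.2
          simpa [mul_assoc] using this⟩
        left_inv := fun k => Subtype.ext (by simp [mul_assoc])
        right_inv := fun k => Subtype.ext (by simp [mul_assoc])
        map_mul' := fun k l => Subtype.ext (by simp [mul_assoc]) }
    refine Nat.card_congr (Equiv.symm
      { toFun := ConjClasses.map m.toMonoidHom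
        invFun := ConjClasses.map m.symm.toMonoidHom
        left_inv := ?_
        right_inv := ?_ })
    · intro c
      obtain ⟨x, rfl⟩ := ConjClasses.mk_surjective c
      exact congrArg ConjClasses.mk (m.symm_apply_apply x)
    · intro c
      obtain ⟨x, rfl⟩ := ConjClasses.mk_surjective c
      exact congrArg ConjClasses.mk (m.apply_symm_apply x)
  have hD : ∀ v : V, Nat.card (H v) = Nat.card {g : G // ((cj g v : V) : X) ∈ S} := by
    intro v
    obtain ⟨s, ⟨hs, g0, hg0, hg0s⟩, hu⟩ := hrep _ v.2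
    have huniq : ∀ g : G, ((cj g v : V) : X) ∈ S ↔ cj g v = cj ⟨g0, hg0⟩ v := by
      intro g
      constructor
      · intro h
        refine Subtype.ext ?_
        rw [hcj ⟨g0, hg0⟩]
        show _ = g0 * v * g0⁻¹
        rw [hg0s]
        exact hu _ ⟨h, g, g.2, (hcj g v).symm⟩
      · intro h
        rw [h, hcj]
        show g0 * v * g0⁻¹ ∈ S
        rw [hg0s]; exact hs
    let G0 : G := ⟨g0, hg0⟩
    refine Nat.card_congr
      { toFun := fun k => ⟨G0 * ⟨k.1, k.2.1⟩, (huniq _).mpr ?_⟩
        invFun := fun g => ⟨((G0⁻¹ * g.1 : G) : X), (hHmem v _).mp ?_⟩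
        left_inv := fun k => Subtype.ext (by simp)
        right_inv := fun g => Subtype.ext (Subtype.ext (by simp)) }
    · rw [map_mul, MulAut.mul_apply, (hHmem v ⟨k.1, k.2.1⟩).mpr k.2]
    · rw [map_mul, MulAut.mul_apply, (huniq _).mp g.2, ← MulAut.mul_apply, ← map_mul, inv_mul_cancel, map_one, MulAut.one_apply]
  rw [hA, hB, Finset.sum_congr rfl (fun v _ => hC v)]
  have hX : Nat.card X = Nat.card V * Nat.card G := by
    rw [← Nat.card_prod]; exact (Nat.card_congr e).symm
  rw [hX, mul_left_comm]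
  congr 1
  show ∑ v : V, F v * Nat.card (H v) = (∑ s ∈ S, F s) * Nat.card G
  have h0 : ∀ v : V, F v * Nat.card (H v) = ∑ g : G, if ((cj g v : V) : X) ∈ S then F v else 0 := by
    intro v
    rw [hD v, Nat.card_eq_fintype_card, Fintype.card_subtype, Finset.card_filter, Finset.mul_sum]
    exact Finset.sum_congr rfl fun g _ => by split_ifs <;> simp
  rw [Finset.sum_congr rfl (fun v _ => h0 v), Finset.sum_comm]
  have : ∀ g : G, (∑ v : V, if ((cj g v : V) : X) ∈ S then F v else 0) = ∑ s ∈ S, F s := by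
    intro g
    rw [← Equiv.sum_comp ((cj g).symm.toEquiv) (fun v : V => if ((cj g v : V) : X) ∈ S then F v else 0)]
    have h1 : ∀ w : V, F (((cj g).symm w : V) : X) = F (w : X) := by
      intro w
      rw [← hFinv g ((((cj g).symm w : V) : X)), ← hcj, MulEquiv.apply_symm_apply]
    simp only [MulEquiv.toEquiv_eq_coe, MulEquiv.coe_toEquiv, MulEquiv.apply_symm_apply, h1]
    rw [← Finset.sum_filter]
    refine Finset.sum_bij (fun w _ => (w : X)) (fun w hw => (Finset.mem_filter.mp hw).2)
      (fun a _ b _ h => Subtype.ext h) (fun s hs => ⟨⟨s, hSV s hs⟩, Finset.mem_filter.mpr ⟨Finset.mem_univ _, hs⟩, rfl⟩)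
      (fun w _ => rfl)
  rw [Finset.sum_congr rfl (fun g _ => this g), Finset.sum_const, Finset.card_univ, smul_eq_mul,
    mul_comm, Nat.card_eq_fintype_card]

end Cfsg.Agent.S4956
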