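import Cfsg.Statements.S4958
import Cfsg.Agent.CharBasics.Knorr
import Cfsg.Agent.CharBasics.ModP
import Cfsg.Agent.CharBasics.Extra
import Cfsg.Agent.Blocks.Glauberman
import Cfsg.Agent.S0887

set_option autoImplicit false
open Cfsg CfsgLib.CharBasics CfsgLib.Blocks
open scoped ComplexConjugate

namespace Cfsg.Agent.S4958

open CfsgLib.CharBasics.Knorr

/-- The fixed points of one element. -/
def fix {A C : Type*} [CommGroup A] [Group C] (φ : C →* MulAut A) (c : C) : Subgroup A where
  carrier := {a | φ c a = a}
  one_mem' := map_one _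
  mul_mem' := fun {a b} ha hb => by
    show φ c (a * b) = a * b
    rw [map_mul, show φ c a = a from ha, show φ c b = b from hb]
  inv_mem' := fun {a} ha => by
    show φ c a⁻¹ = a⁻¹
    rw [map_inv, show φ c a = a from ha]

theorem card_eq_relIndex_mul {A : Type*} [Group A] {H K : Subgroup A} (h : H ≤ K) :
    Nat.card K = H.relIndex K * Nat.card H := by
  have := Subgroup.relIndex_mul_relIndex ⊥ H K bot_le h
  rw [Subgroup.relIndex_bot_left, Subgroup.relIndex_bot_left] at this
  rw [← this, mul_comm]

theorem exists_factors {A C : Type*} [CommGroup A] [Finite A] [CommGroup C] [Finite C] (φ : C →* MulAut A)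
    (hcop : (Nat.card C).Coprime (Nat.card A)) :
    ∀ (n : ℕ) (U : Subgroup A), Nat.card U ≤ n → (∀ c : C, ∀ x ∈ U, φ c x ∈ U) →
      ∃ L : List (Subgroup C × ℕ), (∀ P ∈ L, P.1.index < P.2) ∧
        ∀ c : C, weight L c * (Nat.card (U ⊓ fix φ c : Subgroup A) : ℝ) = (Nat.card U : ℝ) := by
  classical
  intro n
  induction n with
  | zero => exact fun U hU => absurd hU (Nat.not_le.2 Nat.card_pos)
  | succ n ih =>
    intro U hU hinv
    by_cases hUb : U = ⊥
    · refine ⟨[], by simp, fun c => ?_⟩
      subst hUb
      rw [bot_inf_eq, weight, one_mul]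
    obtain ⟨U', hU'⟩ := Set.Finite.exists_maximal
      (Set.toFinite {W : Subgroup A | W < U ∧ ∀ c : C, ∀ x ∈ W, φ c x ∈ W})
      ⟨⊥, bot_lt_iff_ne_bot.2 hUb, fun c x hx => by rw [Subgroup.mem_bot.1 hx, map_one]; exact one_mem _⟩
    obtain ⟨hlt, hinv'⟩ := hU'.prop
    have hle := hlt.le
    have hq2 := card_eq_relIndex_mul hle
    have hlt' : Nat.card U' < Nat.card U := by
      refine lt_of_le_of_ne (Subgroup.card_le_of_le hle) fun h => hlt.ne (Subgroup.eq_of_le_of_card_ge hle h.ge)
    obtain ⟨L, hL, hw⟩ := ih U' (by omega) hinv'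
    let K : Subgroup C :=
      { carrier := {c | ∀ x ∈ U, φ c x * x⁻¹ ∈ U'}
        one_mem' := fun x _ => by rw [map_one, MulAut.one_apply, mul_inv_cancel]; exact one_mem _
        mul_mem' := fun {a b} ha hb x hx => by
          have := mul_mem (ha (φ b x) (hinv b x hx)) (hb x hx)
          rwa [mul_assoc, inv_mul_cancel_left, ← MulAut.mul_apply, ← map_mul] at this
        inv_mem' := fun {a} ha x hx => by
          have := inv_mem (ha (φ a⁻¹ x) (hinv _ x hx))
          rwa [← MulAut.mul_apply, ← map_mul, mul_inv_cancel, map_one, MulAut.one_apply, mul_inv_rev, inv_inv] at this }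
    -- outside `K` only `U'` is fixed modulo `U'`
    have hout : ∀ c : C, c ∉ K → ∀ x ∈ U, φ c x * x⁻¹ ∈ U' → x ∈ U' := by
      intro c hc x hx hx'
      let F : Subgroup A :=
        { carrier := {y | y ∈ U ∧ φ c y * y⁻¹ ∈ U'}
          one_mem' := ⟨one_mem _, by rw [map_one, mul_inv_cancel]; exact one_mem _⟩
          mul_mem' := fun {a b} ha hb => ⟨mul_mem ha.1 hb.1, by
            have := mul_mem ha.2 hb.2
            rw [map_mul, mul_inv]
            rwa [mul_mul_mul_comm] at this⟩
          inv_mem' := fun {a} ha => ⟨inv_mem ha.1, by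
            have := inv_mem ha.2
            rw [map_inv]
            rwa [mul_inv] at this⟩ }
      have hF1 : U' ≤ F := fun y hy => ⟨hle hy, mul_mem (hinv' c y hy) (inv_mem hy)⟩
      have hFinv : ∀ d : C, ∀ y ∈ F, φ d y ∈ F := fun d y hy => ⟨hinv d y hy.1, by
        have := hinv' d _ hy.2
        rwa [map_mul, map_inv, ← MulAut.mul_apply, ← map_mul, mul_comm d c, map_mul, MulAut.mul_apply] at this⟩
      rcases eq_or_lt_of_le (show F ≤ U from fun y hy => hy.1) with h | h
      · exact absurd (fun y hy => ((h.symm ▸ hy : y ∈ F)).2) hc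
      · exact hU'.2 ⟨h, hFinv⟩ hF1 ⟨hx, hx'⟩
    set q := U'.relIndex U
    refine ⟨(K, q) :: L, List.forall_mem_cons.2 ⟨?_, hL⟩, fun c => ?_⟩
    · obtain ⟨x₀, hx₀, hx₀'⟩ := SetLike.exists_of_lt hlt
      show K.index < Nat.card (U ⧸ U'.subgroupOf U)
      rw [Subgroup.index_eq_card, Nat.lt_iff_add_one_le, ← Finite.card_option]
      let g : C → U ⧸ U'.subgroupOf U := fun c => ((⟨φ c x₀, hinv c x₀ hx₀⟩ : U) : U ⧸ U'.subgroupOf U)
      have hgeq : ∀ c d : C, g c = g d ↔ c⁻¹ * d ∈ K := by
        intro c d
        simp only [g, QuotientGroup.eq, Subgroup.mem_subgroupOf, Subgroup.coe_mul, Subgroup.coe_inv]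
        constructor
        · intro h
          by_contra hc
          refine hx₀' (hout _ hc x₀ hx₀ ?_)
          have := hinv' c⁻¹ _ h
          rwa [map_mul, map_inv, ← MulAut.mul_apply, ← map_mul, inv_mul_cancel, map_one, MulAut.one_apply,
            ← MulAut.mul_apply, ← map_mul, mul_comm] at this
        · intro h
          have := hinv' c _ (h x₀ hx₀)
          rwa [map_mul, map_inv, ← MulAut.mul_apply, ← map_mul, mul_inv_cancel_left, mul_comm] at this
      refine Nat.card_le_card_of_injective (fun o : Option (C ⧸ K) => o.elim 1 (Quotient.lift g fun a b h => (hgeq a b).2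
        (QuotientGroup.leftRel_apply.1 h))) fun o o' h => ?_
      have hne : ∀ c : C, g c ≠ 1 := fun c h1 => by
        have h1' : φ c x₀ ∈ U' := Subgroup.mem_subgroupOf.1 ((QuotientGroup.eq_one_iff (⟨φ c x₀, hinv c x₀ hx₀⟩ : U)).1 h1)
        have := hinv' c⁻¹ _ h1'
        rw [← MulAut.mul_apply, ← map_mul, inv_mul_cancel, map_one, MulAut.one_apply] at this
        exact hx₀' this
      rcases o with _ | o <;> rcases o' with _ | o'
      · rfl
      · induction o' using Quotient.inductionOn with | _ c => exact absurd h.symm (hne c)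
      · induction o using Quotient.inductionOn with | _ c => exact absurd h (hne c)
      · induction o using Quotient.inductionOn with | _ c =>
        induction o' using Quotient.inductionOn with | _ d =>
        exact congrArg some (QuotientGroup.eq.2 ((hgeq c d).1 h))
    · rw [weight]
      by_cases hc : c ∈ K
      · rw [if_pos hc, mul_one]
        have hfull : U' ⊔ (U ⊓ fix φ c) = U := by
          refine le_antisymm (sup_le hle inf_le_left) fun x hx => ?_
          have hcn : (orderOf c).Coprime (orderOf x) :=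
            (hcop.coprime_dvd_left (orderOf_dvd_natCard c)).coprime_dvd_right (orderOf_dvd_natCard x)
          obtain ⟨m, hm⟩ := exists_pow_eq_self_of_coprime hcn
          set k := orderOf c
          set w := ∏ i ∈ Finset.range k, φ (c ^ i) x with hw'
          have hwU : w ∈ U := Subgroup.prod_mem _ fun i _ => hinv _ x hx
          have hwfix : φ c w = w := by
            have e : φ c w * x = w * x := by
              calc φ c w * x = (∏ i ∈ Finset.range k, φ (c ^ (i + 1)) x) * φ (c ^ 0) x := by
                    rw [hw', map_prod, pow_zero, map_one, MulAut.one_apply]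
                    congr 1
                    exact Finset.prod_congr rfl fun i _ => by rw [pow_succ', map_mul, MulAut.mul_apply]
                _ = ∏ i ∈ Finset.range (k + 1), φ (c ^ i) x := by rw [Finset.prod_range_succ']
                _ = w * x := by
                    rw [Finset.prod_range_succ, pow_orderOf_eq_one, map_one, MulAut.one_apply]
            exact mul_right_cancel e
          have hwmod : w * (x ^ k)⁻¹ ∈ U' := by
            have e : x ^ k = ∏ _i ∈ Finset.range k, x := by rw [Finset.prod_const, Finset.card_range]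
            rw [e, hw', ← Finset.prod_inv_distrib, ← Finset.prod_mul_distrib]
            exact Subgroup.prod_mem _ fun i _ => (pow_mem hc i) x hx
          have h1 : x * (w ^ m)⁻¹ ∈ U' := by
            have := inv_mem (pow_mem hwmod m)
            rwa [mul_pow, inv_pow, hm, mul_inv, inv_inv, mul_comm] at this
          have := mul_mem ((le_sup_left : U' ≤ U' ⊔ (U ⊓ fix φ c)) h1)
            ((le_sup_right : U ⊓ fix φ c ≤ U' ⊔ (U ⊓ fix φ c)) ⟨pow_mem hwU m, pow_mem (show w ∈ fix φ c from hwfix) m⟩)
          rwa [inv_mul_cancel_right] at this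
        have h2 : Nat.card (U ⊓ fix φ c : Subgroup A) = q * Nat.card (U' ⊓ fix φ c : Subgroup A) := by
          have e := Subgroup.relIndex_sup_left (K := U') (H := U ⊓ fix φ c)
          rw [hfull, ← Subgroup.inf_relIndex_right U' (U ⊓ fix φ c),
            show U' ⊓ (U ⊓ fix φ c) = U' ⊓ fix φ c by rw [← inf_assoc, inf_eq_left.2 hle]] at e
          rw [card_eq_relIndex_mul (show U' ⊓ fix φ c ≤ U ⊓ fix φ c from inf_le_inf_right _ hle), ← e]
        rw [h2, hq2, Nat.cast_mul, Nat.cast_mul, ← hw c]; ring
      · rw [if_neg hc]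
        have h2 : U ⊓ fix φ c = U' ⊓ fix φ c := le_antisymm (fun x hx => ⟨hout c hc x hx.1 (by
          rw [show φ c x = x from hx.2, mul_inv_cancel]; exact one_mem _), hx.2⟩) (inf_le_inf_right _ hle)
        rw [h2, hq2, Nat.cast_mul, ← hw c]; ring

/-- Let X be a finite group and V a normal subgroup of X in which every element has order dividing the prime p, whose index in X is prime to p and which is its own centralizer in X; so V is an elementary abelian normal Sylow p-subgroup, and any complement G to V in X is a group of order prime to p acting faithfully on the vector space V by conjugation (the coprime linear setting of the k(GV) problem). Let G be a complement to V in X and suppose that for some v in V the centralizer of v in G is abelian. Then the number of conjugacy classes of X is at most the order of V (the abelian-stabilizer criterion for the k(GV) problem). -/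
theorem result {X : Type*} [Group X] [Finite X] (p : ℕ) [Fact p.Prime] (V : Subgroup X) [V.Normal] (hVexp : ∀ v ∈ V, v ^ p = 1) (hidx : ¬ p ∣ V.index) (hself : Subgroup.centralizer (V : Set X) = V) (G : Subgroup X) (hGV : Subgroup.IsComplement' V G) (v : X) (hv : v ∈ V) (hab : ∀ a ∈ G ⊓ Subgroup.centralizer ({v} : Set X), ∀ b ∈ G ⊓ Subgroup.centralizer ({v} : Set X), a * b = b * a) : Nat.card (ConjClasses X) ≤ Nat.card V := by
  classical
  haveI : Fintype X := Fintype.ofFinite X
  haveI : Fintype V := Fintype.ofFinite V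
  haveI : Fintype (IrrCharacter X) := Fintype.ofFinite _
  have hp : p.Prime := Fact.out
  obtain ⟨M, hM⟩ := exists_modular hp
  have hVab : ∀ a ∈ V, ∀ b ∈ V, a * b = b * a := fun a ha b hb => by
    have h : b ∈ Subgroup.centralizer (V : Set X) := hself.symm ▸ hb
    exact Subgroup.mem_centralizer_iff.1 h a ha
  letI : CommGroup V :=
    { (inferInstance : Group V) with mul_comm := fun a b => Subtype.ext (hVab a a.2 b b.2) }
  set C : Subgroup X := G ⊓ Subgroup.centralizer ({v} : Set X) with hC
  letI : CommGroup C :=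
    { (inferInstance : Group C) with mul_comm := fun a b => Subtype.ext (hab a a.2 b b.2) }
  haveI : Fintype C := Fintype.ofFinite C
  have hVp : IsPGroup p V := fun a => ⟨1, Subtype.ext (by rw [pow_one, Subgroup.coe_pow, hVexp a a.2, Subgroup.coe_one])⟩
  have hpC : ¬ p ∣ Nat.card C := fun h => hidx (h.trans
    ((Subgroup.card_dvd_of_le inf_le_left).trans (hGV.symm.index_eq_card).symm.dvd))
  have hcop : (Nat.card C).Coprime (Nat.card V) := by
    obtain ⟨k, hk⟩ := IsPGroup.iff_card.1 hVp
    rw [hk]
    exact Nat.Coprime.pow_right k ((hp.coprime_iff_not_dvd.2 hpC).symm)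
  let φ : C →* MulAut V := (MulAut.conjNormal).comp C.subtype
  obtain ⟨L, hL, hw⟩ := exists_factors φ hcop _ ⊤ le_rfl (fun _ _ _ => Subgroup.mem_top _)
  have hw' : ∀ c : C, weight L c * (Nat.card (fix φ c) : ℝ) = (Nat.card V : ℝ) := fun c => by
    have := hw c
    rwa [top_inf_eq, Subgroup.card_top] at this
  have hfull : ∀ c : C, (∀ P ∈ L, c ∈ P.1) → c = 1 := by
    intro c hc
    have hw1 : ∀ L' : List (Subgroup C × ℕ), (∀ P ∈ L', c ∈ P.1) → weight L' c = 1 := by
      intro L'
      induction L' with
      | nil => intro _; rfl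
      | cons P L' ih =>
        intro h
        rw [weight, ih fun Q hQ => h Q (List.mem_cons_of_mem _ hQ), if_pos (h P List.mem_cons_self), one_mul]
    have h1 := hw' c
    rw [hw1 L hc, one_mul, Nat.cast_inj] at h1
    have h2 : fix φ c = ⊤ := Subgroup.eq_top_of_card_eq _ h1
    have h3 : (c : X) ∈ V := by
      rw [← hself, Subgroup.mem_centralizer_iff]
      intro a ha
      have h4 := congrArg Subtype.val (show φ c ⟨a, ha⟩ = ⟨a, ha⟩ from (show (⟨a, ha⟩ : V) ∈ fix φ c by rw [h2]; trivial))
      simp only [φ, MonoidHom.comp_apply, MulAut.conjNormal_apply, Subgroup.coe_subtype] at h4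
      calc a * (c : X) = ((c : X) * a * (c : X)⁻¹) * c := by rw [h4]
        _ = (c : X) * a := by group
    exact Subtype.ext (Subgroup.mem_bot.1 (hGV.disjoint.le_bot ⟨h3, c.2.1⟩))
  -- degrees
  haveI : IsMulCommutative V := ⟨⟨fun a b => mul_comm a b⟩⟩
  have hdeg : ∀ χ : IrrCharacter X, ¬ p ∣ charDegree (χ : X → ℂ) := by
    intro χ hd
    obtain ⟨θ, hθ⟩ := exists_restrict_constituent V χ
    have hθ' : classInner (fun n : V => (χ : X → ℂ) n) (θ : V → ℂ) ≠ 0 := by
      rw [classInner_comm]; simpa using hθ
    have h := (Cfsg.Agent.S0887.result V _ χ.2 _ θ.2 hθ' (charDegree (χ : X → ℂ)) (charDegree (θ : V → ℂ))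
      (apply_one (isCharacter_of_irr χ.2)) (apply_one (isCharacter_of_irr θ.2))).2
    rw [charDegree_comm θ.2, Nat.div_one] at h
    exact hidx (hd.trans h)
  obtain ⟨kv, hkv⟩ := hVp ⟨v, hv⟩
  have hne : ∀ χ : IrrCharacter X, ¬ MemLocalIdeal M ((χ : X → ℂ) v) := fun χ h => by
    have h1 := memLocalIdeal_sub hM h (apply_sub_degree_mem hM (isCharacter_of_irr χ.2)
      (show v ^ p ^ kv = 1 from congrArg Subtype.val hkv))
    rw [sub_sub_cancel, apply_one (isCharacter_of_irr χ.2), memLocalIdeal_natCast_iff hM] at h1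
    exact hdeg χ h1
  set N := Nat.card X with hN'
  have hN : N ≠ 0 := Nat.card_pos.ne'
  -- Fourier coefficients of `c ↦ χ (v ^ j * c)`
  have hcoef : ∀ χ : IrrCharacter X, ∃ f : (C →* ℂˣ) → Polynomial ℤ, ∀ (j : ℕ) (c : C),
      psi (zetaRoot N ^ j) f c = (χ : X → ℂ) (v ^ j * c) := by
    intro χ
    let Z := Subgroup.zpowers v
    have hcomm : ∀ (a : Z) (c : C), Commute (a : X) (c : X) := fun a c => by
      obtain ⟨i, hi⟩ := a.2
      have h1 : Commute v (c : X) := (Subgroup.mem_centralizer_singleton_iff.1 c.2.2).symm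
      exact hi ▸ h1.zpow_left i
    let π : Z × C →* X :=
      { toFun := fun x => (x.1 : X) * (x.2 : X)
        map_one' := by simp
        map_mul' := fun x y => by
          simp only [Prod.fst_mul, Prod.snd_mul, Subgroup.coe_mul]
          rw [mul_assoc, ← mul_assoc (y.1 : X), (hcomm y.1 x.2).eq]
          simp only [mul_assoc] }
    haveI : IsMulCommutative (Z × C) := ⟨⟨fun a b => Prod.ext (mul_comm' a.1 b.1) (mul_comm a.2 b.2)⟩⟩
    obtain ⟨r, ψ, hψ, hs⟩ := exists_decomp (isCharacter_comp (isCharacter_of_irr χ.2) π)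
    have hh := fun i => irr_comm_hom (hψ i)
    let Ψ : Fin r → (Z × C →* ℂ) := fun i =>
      { toFun := ψ i, map_one' := (hh i).1, map_mul' := (hh i).2 }
    let v' : Z × C := (⟨v, Subgroup.mem_zpowers v⟩, 1)
    haveI : NeZero N := ⟨hN⟩
    have hroot : ∀ i, ∃ e < N, zetaRoot N ^ e = Ψ i v' := fun i =>
      (zetaRoot_prim hN).eq_pow_of_pow_eq_one (by
        rw [← map_pow, show v' ^ N = 1 from Prod.ext (Subtype.ext (by
          rw [Prod.pow_fst, Subgroup.coe_pow]; exact pow_card_eq_one')) (one_pow _), map_one])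
    choose e he hee using hroot
    let lam : Fin r → (C →* ℂˣ) := fun i => ((Ψ i).comp (MonoidHom.inr Z C)).toHomUnits
    refine ⟨fun l => ∑ i ∈ Finset.univ.filter (fun i => lam i = l), Polynomial.X ^ e i, fun j c => ?_⟩
    have h1 : (χ : X → ℂ) (v ^ j * c) = ∑ i, Ψ i (v' ^ j * (1, c)) := by
      have := congrFun hs (v' ^ j * (1, c))
      rw [Finset.sum_apply] at this
      refine Eq.trans ?_ this
      show (χ : X → ℂ) (v ^ j * c) = (χ : X → ℂ) (π (v' ^ j * (1, c)))
      congr 1
      simp [π, v']
    rw [h1, psi, ← Finset.sum_fiberwise Finset.univ lam]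
    refine Finset.sum_congr rfl fun l _ => ?_
    rw [map_sum, Finset.sum_mul]
    refine Finset.sum_congr rfl fun i hi => ?_
    rw [map_mul, map_pow, map_pow, Polynomial.aeval_X, ← hee i, ← pow_mul, ← pow_mul, mul_comm j,
      ← (Finset.mem_filter.1 hi).2]
    rfl
  choose f hf using hcoef
  have hlow : ∀ χ : IrrCharacter X, (Nat.card C : ℝ) ^ 2 * (coprimeResidues N).card ≤ form N L (f χ) := by
    intro χ
    refine form_ge_card_sq hM hN hpC L hL hfull _ fun h => hne χ ?_
    have := hf χ 1 1
    rw [pow_one, pow_one, Subgroup.coe_one, mul_one] at this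
    rwa [this] at h
  -- column orthogonality
  have hup : ∀ j ∈ coprimeResidues N, ∀ c : C,
      weight L c * ∑ χ : IrrCharacter X, ‖psi (zetaRoot N ^ j) (f χ) c‖ ^ 2 ≤
        (Nat.card V : ℝ) * Nat.card C := by
    intro j hj c
    rw [Finset.sum_congr rfl (fun χ _ => by rw [hf χ j c]), sum_normSq_col, ← hw' c, mul_assoc]
    refine mul_le_mul_of_nonneg_left ?_ (weight_nonneg L c)
    rw [← Nat.cast_mul, Nat.cast_le, ← Nat.card_prod]
    obtain ⟨m, hm⟩ := exists_pow_eq_self_of_coprime
      ((Finset.mem_filter.1 hj).2.coprime_dvd_right (orderOf_dvd_natCard v))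
    set w := v ^ j with hw0
    have hwv : w ∈ V := pow_mem hv j
    have hvc : Commute v (c : X) := (Subgroup.mem_centralizer_singleton_iff.1 c.2.2).symm
    have hwc : Commute w (c : X) := hvc.pow_left j
    have hocop : (orderOf w).Coprime (orderOf (c : X)) := by
      refine (hcop.coprime_dvd_left ?_).coprime_dvd_right ?_ |>.symm
      · rw [Subgroup.orderOf_coe]; exact orderOf_dvd_natCard c
      · rw [show orderOf w = orderOf (⟨w, hwv⟩ : V) from (Subgroup.orderOf_coe (⟨w, hwv⟩ : V))]
        exact orderOf_dvd_natCard _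
    obtain ⟨m1, hm1⟩ := exists_pow_eq_self_of_coprime (x := w) (n := orderOf (c : X)) hocop.symm
    obtain ⟨m2, hm2⟩ := exists_pow_eq_self_of_coprime (x := (c : X)) (n := orderOf w) hocop
    have hwpow : (w * c) ^ (orderOf (c : X) * m1) = w := by
      rw [pow_mul, hwc.mul_pow, pow_orderOf_eq_one, mul_one, hm1]
    have hcpow : (w * c) ^ (orderOf w * m2) = c := by
      rw [pow_mul, hwc.mul_pow, pow_orderOf_eq_one, one_mul, hm2]
    have hdec : ∀ x : Subgroup.centralizer ({w * (c : X)} : Set X), ∃ z : fix φ c × C,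
        ((z.1 : V) : X) * (z.2 : X) = x := by
      intro x
      obtain ⟨⟨a, g⟩, he : (a : X) * (g : X) = x⟩ := hGV.2 (x : X)
      have hx : Commute (x : X) (w * c) := Subgroup.mem_centralizer_singleton_iff.1 x.2
      have hxw : Commute (x : X) w := by have h := hx.pow_right (orderOf (c : X) * m1); rwa [hwpow] at h
      have hxc : Commute (x : X) (c : X) := by have h := hx.pow_right (orderOf w * m2); rwa [hcpow] at h
      have hxv : Commute (x : X) v := hm ▸ hxw.pow_right m
      have hav : Commute (a : X) v := hVab a a.2 v hv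
      have hgv : Commute (g : X) v := by
        have : Commute ((a : X)⁻¹ * x) v := hav.inv_left.mul_left hxv
        rwa [← he, inv_mul_cancel_left] at this
      have hgC : (g : X) ∈ C := ⟨g.2, Subgroup.mem_centralizer_singleton_iff.2 hgv.eq⟩
      have hgc : Commute (g : X) (c : X) := hab g hgC c c.2
      have hac : Commute (a : X) (c : X) := by
        have : Commute ((x : X) * (g : X)⁻¹) (c : X) := hxc.mul_left hgc.inv_left
        rwa [← he, mul_inv_cancel_right] at this
      refine ⟨⟨⟨a, ?_⟩, ⟨g, hgC⟩⟩, he⟩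
      show φ c a = a
      refine Subtype.ext ?_
      simp only [φ, MonoidHom.comp_apply, MulAut.conjNormal_apply, Subgroup.coe_subtype]
      rw [hac.eq.symm, mul_inv_cancel_right]
    choose z hz using hdec
    exact Nat.card_le_card_of_injective z fun x y h => Subtype.ext (by rw [← hz x, ← hz y, h])
  have h1 := Finset.sum_le_sum (s := (Finset.univ : Finset (IrrCharacter X))) fun χ _ => hlow χ
  rw [Finset.sum_const, Finset.card_univ, ← Nat.card_eq_fintype_card, card_irr, nsmul_eq_mul] at h1
  have h2 : ∑ χ : IrrCharacter X, form N L (f χ) ≤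
      ((coprimeResidues N).card : ℝ) * ((Nat.card C : ℝ) * ((Nat.card V : ℝ) * Nat.card C)) := by
    simp only [form]
    rw [Finset.sum_comm, ← nsmul_eq_mul, ← Finset.sum_const]
    refine Finset.sum_le_sum fun j hj => ?_
    rw [Finset.sum_comm, Nat.card_eq_fintype_card (α := C), ← Finset.card_univ, ← nsmul_eq_mul, ← Finset.sum_const]
    refine Finset.sum_le_sum fun c _ => ?_
    rw [← Finset.mul_sum]
    simpa [Nat.card_eq_fintype_card (α := C)] using hup j hj c
  have hφ : (0 : ℝ) < ((coprimeResidues N).card : ℝ) := by exact_mod_cast coprimeResidues_card_pos hN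
  have hC0 : (0 : ℝ) < (Nat.card C : ℝ) := by exact_mod_cast Nat.card_pos
  have h3 := h1.trans h2
  have : (Nat.card (ConjClasses X) : ℝ) ≤ (Nat.card V : ℝ) := by
    refine le_of_mul_le_mul_right ?_ (mul_pos (pow_pos hC0 2) hφ)
    linarith
  exact_mod_cast this

end Cfsg.Agent.S4958
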