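import Cfsg.Statements.S4965
import Mathlib.GroupTheory.GroupAction.CardCommute
import Mathlib.GroupTheory.SemidirectProduct
import Mathlib.Tactic.Group

set_option autoImplicit false
open Cfsg

namespace Cfsg.Agent.S4965

/-- Let X be a finite group with an abelian normal subgroup V (any two elements of V commute), and let φ be the action of X ⧸ V on V induced by conjugation (well defined because V is abelian; the hypothesis hφ says that the class of x acts as conjugation by x). Then X has at most as many conjugacy classes as the semidirect product of V by X ⧸ V formed with this action: the split extension has the largest class number among extensions with the given action. -/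
theorem result {X : Type*} [Group X] [Finite X] (V : Subgroup X) [V.Normal] (hab : ∀ a ∈ V, ∀ b ∈ V, a * b = b * a) (φ : X ⧸ V →* MulAut ↥V) (hφ : ∀ (x : X) (v : ↥V), ((φ (QuotientGroup.mk x) v : ↥V) : X) = x * v * x⁻¹) : Nat.card (ConjClasses X) ≤ Nat.card (ConjClasses (SemidirectProduct ↥V (X ⧸ V) φ)) := by
  classical
  haveI : Finite (SemidirectProduct ↥V (X ⧸ V) φ) := Finite.of_equiv _ SemidirectProduct.equivProd.symm
  have hS : Nat.card (SemidirectProduct ↥V (X ⧸ V) φ) = Nat.card X := by
    rw [Nat.card_congr SemidirectProduct.equivProd, Nat.card_prod, mul_comm, ← Subgroup.card_eq_card_quotient_mul_card_subgroup]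
  refine Nat.le_of_mul_le_mul_right ?_ (Nat.card_pos : 0 < Nat.card X)
  rw [← card_comm_eq_card_conjClasses_mul_card]
  conv_rhs => rw [← hS, ← card_comm_eq_card_conjClasses_mul_card]
  let π : {p : X × X // Commute p.1 p.2} → (X ⧸ V) × (X ⧸ V) := fun p => (p.1.1, p.1.2)
  have hrep : ∀ p, ∃ q, π q = π p := fun p => ⟨p, rfl⟩
  let base : ∀ q : (X ⧸ V) × (X ⧸ V), (∃ p, π p = q) → {p : X × X // Commute p.1 p.2} :=
    fun q h => h.choose
  let b : {p : X × X // Commute p.1 p.2} → {p : X × X // Commute p.1 p.2} :=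
    fun p => base (π p) (hrep p)
  have hb : ∀ p, π (b p) = π p := fun p => (hrep p).choose_spec
  have hbeq : ∀ p p', π p = π p' → b p = b p' := by
    intro p p' h
    show base (π p) _ = base (π p') _
    generalize hrep p = hp
    generalize hrep p' = hp'
    revert hp hp'
    rw [h]
    intros
    rfl
  have hmem1 : ∀ p, p.1.1 * (b p).1.1⁻¹ ∈ V := by
    intro p
    rw [← div_eq_mul_inv, ← QuotientGroup.eq_one_iff, QuotientGroup.mk_div, div_eq_one]
    exact ((Prod.ext_iff.mp (hb p)).1).symm
  have hmem2 : ∀ p, p.1.2 * (b p).1.2⁻¹ ∈ V := by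
    intro p
    rw [← div_eq_mul_inv, ← QuotientGroup.eq_one_iff, QuotientGroup.mk_div, div_eq_one]
    exact ((Prod.ext_iff.mp (hb p)).2).symm
  let f : {p : X × X // Commute p.1 p.2} → SemidirectProduct ↥V (X ⧸ V) φ × SemidirectProduct ↥V (X ⧸ V) φ :=
    fun p => (⟨⟨_, hmem1 p⟩, (π p).1⟩, ⟨⟨_, hmem2 p⟩, (π p).2⟩)
  have hf : ∀ p, Commute (f p).1 (f p).2 := by
    intro p
    have h1 := Prod.ext_iff.mp (hb p)
    have key : p.1.1 * p.1.2 = p.1.2 * p.1.1 := p.2
    have key0 : (b p).1.1 * (b p).1.2 = (b p).1.2 * (b p).1.1 := (b p).2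
    apply SemidirectProduct.ext
    · apply Subtype.ext
      show ((p.1.1 * (b p).1.1⁻¹) * ((φ (π p).1 ⟨_, hmem2 p⟩ : ↥V) : X)) =
        (p.1.2 * (b p).1.2⁻¹) * ((φ (π p).2 ⟨_, hmem1 p⟩ : ↥V) : X)
      rw [← h1.1, ← h1.2]
      show _ * ((φ (QuotientGroup.mk (b p).1.1) _ : ↥V) : X) = _ * ((φ (QuotientGroup.mk (b p).1.2) _ : ↥V) : X)
      rw [hφ, hφ]
      calc p.1.1 * (b p).1.1⁻¹ * ((b p).1.1 * (p.1.2 * (b p).1.2⁻¹) * (b p).1.1⁻¹)
          = (p.1.1 * p.1.2) * ((b p).1.1 * (b p).1.2)⁻¹ := by group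
        _ = (p.1.2 * p.1.1) * ((b p).1.2 * (b p).1.1)⁻¹ := by rw [key, key0]
        _ = _ := by group
    · show (π p).1 * (π p).2 = (π p).2 * (π p).1
      show (QuotientGroup.mk p.1.1 * QuotientGroup.mk p.1.2 : X ⧸ V) = QuotientGroup.mk p.1.2 * QuotientGroup.mk p.1.1
      rw [← QuotientGroup.mk_mul, ← QuotientGroup.mk_mul]
      exact congrArg _ p.2
  refine Nat.card_le_card_of_injective (fun p => (⟨f p, hf p⟩ : {q : _ × _ // Commute q.1 q.2})) ?_
  intro p p' h
  have h' : f p = f p' := congrArg Subtype.val h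
  have hπ : π p = π p' := Prod.ext (congrArg (fun q => q.1.right) h') (congrArg (fun q => q.2.right) h')
  have hbb := hbeq p p' hπ
  apply Subtype.ext
  apply Prod.ext
  · have h1 := congrArg (fun q => (q.1.left : X)) h'
    simp only [f] at h1
    rw [hbb] at h1
    exact mul_right_cancel h1
  · have h1 := congrArg (fun q => (q.2.left : X)) h'
    simp only [f] at h1
    rw [hbb] at h1
    exact mul_right_cancel h1

end Cfsg.Agent.S4965
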