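import Cfsg.Statements.S4966
import Cfsg.Agent.CoprimeForms.Split


set_option autoImplicit false
open Cfsg

namespace Cfsg.Agent.S4966

open CfsgLib

/-- Let F be a finite field of characteristic p, G a finite group of order prime to p, and V a finite-dimensional representation of G over F carrying a nondegenerate G-invariant bilinear form (equivalently, V is self-dual). Then V is the direct sum of two G-invariant subspaces U and W such that U carries a G-invariant alternating bilinear form that is nondegenerate on U and W carries a G-invariant symmetric bilinear form that is nondegenerate on W; moreover when p = 2 the decomposition can be chosen with G acting trivially on W. -/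
theorem result {F : Type*} [Field F] [Fintype F] (p : ℕ) [Fact p.Prime] [CharP F p] {G : Type*} [Group G] [Finite G] (hcop : ¬ p ∣ Nat.card G) {V : Type*} [AddCommGroup V] [Module F V] [FiniteDimensional F V] (ρ : Representation F G V) (B : LinearMap.BilinForm F V) (hB : B.Nondegenerate) (hBinv : ∀ g : G, ∀ x y : V, B (ρ g x) (ρ g y) = B x y) : ∃ U W : Submodule F V, IsCompl U W ∧ (∀ g : G, ∀ u ∈ U, ρ g u ∈ U) ∧ (∀ g : G, ∀ w ∈ W, ρ g w ∈ W) ∧ (∃ A : LinearMap.BilinForm F V, (∀ x : V, A x x = 0) ∧ (∀ g : G, ∀ x ∈ U, ∀ y ∈ U, A (ρ g x) (ρ g y) = A x y) ∧ (∀ x ∈ U, (∀ y ∈ U, A x y = 0) → x = 0)) ∧ (∃ S : LinearMap.BilinForm F V, (∀ x y : V, S x y = S y x) ∧ (∀ g : G, ∀ x ∈ W, ∀ y ∈ W, S (ρ g x) (ρ g y) = S x y) ∧ (∀ x ∈ W, (∀ y ∈ W, S x y = 0) → x = 0)) ∧ (p = 2 → ∀ g : G, ∀ w ∈ W, ρ g w = w) := by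
  classical
  haveI : Fintype G := Fintype.ofFinite G
  have hG : (Fintype.card G : F) ≠ 0 := by
    rw [Ne, CharP.cast_eq_zero_iff F p, ← Nat.card_eq_fintype_card]
    exact hcop
  obtain ⟨U, W, hd, hs, hU, hW, hA, hS, h2⟩ := CfsgLib.CoprimeForms.split_of_nondeg ρ B hBinv (p := p) hG _ le_rfl
    (X := (⊤ : Submodule F V)) (fun _ _ _ => Submodule.mem_top) (fun x _ h => hB.1 x fun y => h y Submodule.mem_top)
  exact ⟨U, W, IsCompl.of_eq hd hs, hU, hW, hA, hS, h2⟩

end Cfsg.Agent.S4966
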