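import Cfsg.Statements.S4967
import Cfsg.Agent.CoprimeForms.Cyclic


set_option autoImplicit false
open Cfsg

namespace Cfsg.Agent.S4967

open CfsgLib

/-- Let F be a finite field with r elements and of characteristic p, H a finite abelian group of order prime to p, and V a faithful irreducible representation of H over F of dimension n (faithful: distinct elements act differently; irreducible: the only H-invariant subspaces are 0 and V). Call V self-dual when it carries a nondegenerate H-invariant bilinear form. If n = 1 and V is self-dual then H has order at most 2. If n ≥ 2 then V is self-dual if and only if n is even and the order of H divides r^(n/2) + 1. -/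
theorem result {F : Type*} [Field F] [Fintype F] (p : ℕ) [Fact p.Prime] [CharP F p] {H : Type*} [CommGroup H] [Finite H] (hcop : ¬ p ∣ Nat.card H) {V : Type*} [AddCommGroup V] [Module F V] [FiniteDimensional F V] (ρ : Representation F H V) (hfaith : Function.Injective ρ) (hirr : ∀ U : Submodule F V, (∀ h : H, ∀ u ∈ U, ρ h u ∈ U) → U = ⊥ ∨ U = ⊤) : (Module.finrank F V = 1 → (∃ B : LinearMap.BilinForm F V, B.Nondegenerate ∧ ∀ h : H, ∀ x y : V, B (ρ h x) (ρ h y) = B x y) → Nat.card H ≤ 2) ∧ (2 ≤ Module.finrank F V → ((∃ B : LinearMap.BilinForm F V, B.Nondegenerate ∧ ∀ h : H, ∀ x y : V, B (ρ h x) (ρ h y) = B x y) ↔ (Even (Module.finrank F V) ∧ Nat.card H ∣ Fintype.card F ^ (Module.finrank F V / 2) + 1))) := by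
  classical
  haveI : Finite V := Module.finite_of_finite F
  haveI : Finite (Module.End F V) := Module.finite_of_finite F
  rcases subsingleton_or_nontrivial V with hV | hV
  · have h0 : Module.finrank F V = 0 := Module.finrank_zero_of_subsingleton
    exact ⟨fun h => by omega, fun h => by omega⟩
  set s := Set.range fun h : H => (ρ h : Module.End F V) with hs
  have hcomm : ∀ a ∈ Algebra.adjoin F s, ∀ b ∈ Algebra.adjoin F s, Commute a b := by
    have h1 : ∀ x ∈ s, ∀ y ∈ s, Commute x y := by
      rintro _ ⟨a, rfl⟩ _ ⟨b, rfl⟩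
      show ρ a * ρ b = ρ b * ρ a
      rw [← map_mul, mul_comm, map_mul]
    intro a ha b hb
    refine Algebra.commute_of_mem_adjoin_of_forall_mem_commute hb fun y hy => ?_
    exact (Algebra.commute_of_mem_adjoin_of_forall_mem_commute ha fun x hx => h1 y hy x hx).symm
  letI : CommRing ↥(Algebra.adjoin F s) :=
    { (inferInstance : Ring ↥(Algebra.adjoin F s)) with mul_comm := fun a b => Subtype.ext (hcomm a a.2 b b.2) }
  haveI : Finite ↥(Algebra.adjoin F s) := inferInstance
  have hker : ∀ a : ↥(Algebra.adjoin F s), a ≠ 0 → Function.Injective (a : Module.End F V) := by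
    intro a ha
    rcases hirr (LinearMap.ker (a : Module.End F V)) (fun h v hv => by
      rw [LinearMap.mem_ker] at hv ⊢
      rw [← Module.End.mul_apply, (hcomm a a.2 (ρ h) (Algebra.subset_adjoin ⟨h, rfl⟩)).eq, Module.End.mul_apply, hv,
        map_zero]) with hk | hk
    · exact LinearMap.ker_eq_bot.1 hk
    · exact absurd (Subtype.ext (LinearMap.ker_eq_top.1 hk)) ha
  haveI : Nontrivial ↥(Algebra.adjoin F s) := ⟨⟨0, 1, fun h => by
    obtain ⟨v, hv⟩ := exists_ne (0 : V)
    exact hv (by simpa using (LinearMap.congr_fun (congrArg Subtype.val h) v).symm)⟩⟩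
  haveI : NoZeroDivisors ↥(Algebra.adjoin F s) := ⟨fun {a b} hab => by
    by_contra hcon
    push Not at hcon
    refine hcon.2 (Subtype.ext (LinearMap.ext fun v => hker a hcon.1 ?_))
    rw [← Module.End.mul_apply, ← Subalgebra.coe_mul, hab]
    simp⟩
  haveI : IsDomain ↥(Algebra.adjoin F s) := NoZeroDivisors.to_isDomain _
  letI : Field ↥(Algebra.adjoin F s) := (Finite.isField_of_domain _).toField
  obtain ⟨v, hv⟩ := exists_ne (0 : V)
  set ev : ↥(Algebra.adjoin F s) →ₗ[F] V := (LinearMap.applyₗ v).comp (Algebra.adjoin F s).val.toLinearMap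
  have hev : ∀ a : ↥(Algebra.adjoin F s), ev a = (a : Module.End F V) v := fun _ => rfl
  have hbij : Function.Bijective ev := by
    refine ⟨(injective_iff_map_eq_zero ev).2 fun a ha => ?_, ?_⟩
    · by_contra hne
      exact hv (hker a hne (by rw [← hev, ha, map_zero]))
    · rw [← LinearMap.range_eq_top]
      refine (hirr _ ?_).resolve_left fun h => hv ?_
      · rintro h _ ⟨a, rfl⟩
        exact ⟨⟨ρ h, Algebra.subset_adjoin ⟨h, rfl⟩⟩ * a, rfl⟩
      · have : ev 1 = v := rfl
        rw [← this]
        exact (Submodule.mem_bot F).1 (h ▸ ⟨1, rfl⟩)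
  set e : ↥(Algebra.adjoin F s) ≃ₗ[F] V := LinearEquiv.ofBijective ev hbij with he
  set u : H →* ↥(Algebra.adjoin F s) :=
    { toFun := fun h => ⟨ρ h, Algebra.subset_adjoin ⟨h, rfl⟩⟩
      map_one' := Subtype.ext (map_one ρ)
      map_mul' := fun a b => Subtype.ext (map_mul ρ a b) } with hu
  have hue : ∀ h a, e (u h * a) = ρ h (e a) := fun h a => rfl
  have huinj : Function.Injective u := fun a b hab => hfaith (congrArg Subtype.val hab)
  have hgen : Algebra.adjoin F (Set.range u) = ⊤ := by
    have := Algebra.adjoin_adjoin_coe_preimage (R := F) (s := s)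
    rw [← this]
    congr 1
    ext a
    constructor
    · rintro ⟨h, rfl⟩
      exact ⟨h, rfl⟩
    · rintro ⟨h, hh⟩
      exact ⟨h, Subtype.ext hh⟩
  obtain ⟨h1, h2⟩ := CfsgLib.CoprimeForms.forms_iff (F := F) u huinj hgen
  have hiff : (∃ B : LinearMap.BilinForm F V, B.Nondegenerate ∧ ∀ h : H, ∀ x y : V, B (ρ h x) (ρ h y) = B x y) ↔
      ∃ b : ↥(Algebra.adjoin F s) →ₗ[F] ↥(Algebra.adjoin F s) →ₗ[F] F, (∀ x, (∀ y, b x y = 0) → x = 0) ∧
        ∀ h x y, b (u h * x) (u h * y) = b x y := by
    constructor
    · rintro ⟨B, hB, hinv⟩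
      refine ⟨B.compl₁₂ e.toLinearMap e.toLinearMap, fun x hx => e.map_eq_zero_iff.1 (hB.1 _ fun y => ?_),
        fun h x y => ?_⟩
      · have := hx (e.symm y)
        simpa using this
      · simp only [LinearMap.compl₁₂_apply, LinearEquiv.coe_coe, hue, hinv]
    · rintro ⟨b, hb, hinv⟩
      refine ⟨b.compl₁₂ e.symm.toLinearMap e.symm.toLinearMap, LinearMap.BilinForm.nondegenerate_iff_ker_eq_bot.2 ?_,
        fun h x y => ?_⟩
      · refine LinearMap.ker_eq_bot'.2 fun x hx => e.symm.map_eq_zero_iff.1 (hb _ fun y => ?_)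
        have := LinearMap.congr_fun hx (e y)
        simpa using this
      · have hh : ∀ z, e.symm (ρ h z) = u h * e.symm z := fun z =>
          e.symm_apply_eq.2 (by rw [hue, e.apply_symm_apply])
        simp only [LinearMap.compl₁₂_apply, LinearEquiv.coe_coe, hh, hinv]
  rw [hiff, ← e.finrank_eq]
  exact ⟨h1, h2⟩

end Cfsg.Agent.S4967
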