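import Cfsg.Statements.S5005
import Cfsg.Agent.MathieuBlock.Cover
import Cfsg.Agent.MathieuBlock.Ok22
import Cfsg.Agent.MathieuOut.Data22

set_option autoImplicit false
open Cfsg

namespace Cfsg.Agent.S5005


open CfsgLib.Golay CfsgLib.MathieuTwo CfsgLib.MathieuOut CfsgLib.MathieuBlock

open CfsgLib.MathieuBlock.D22

local notation "fx" => CfsgLib.MathieuBlock.D22.sys.fixd
local notation "rp" => CfsgLib.MathieuBlock.D22.reps

theorem fix_lt : ∀ m ∈ fx, m < 2 ^ 24 := by decide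

theorem fx_eq : fixGroup fx = Cfsg.Spor.M22 := K22_eq

theorem mem_fx {y : Equiv.Perm Cfsg.GolayPt} :
    y ∈ fixGroup fx ↔ y ∈ Cfsg.M24 ∧ y (ptN 23) = ptN 23 ∧ y (ptN 0) = ptN 0 := by
  rw [show (fx : List ℕ) = [2 ^ 23, 2 ^ 0] by decide, Simple.mem_K22,
    show ptN 23 = none by decide, show ptN 0 = some 0 by decide]

/-- Transitivity on triples. -/
theorem exists_conj {P Q W : Cfsg.GolayPt} (hPQ : P ≠ Q) (hPW : P ≠ W) (hQW : Q ≠ W)
    (h : ∀ R ∈ [P, Q, W], R ≠ ptN 23 ∧ R ≠ ptN 0) :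
    ∃ s ∈ fixGroup fx, s P = ptN 1 ∧ s Q = ptN 2 ∧ s W = ptN 3 := by
  obtain ⟨g, hg, e⟩ := exists_map_tuple (n := 5) le_rfl ![ptN 23, ptN 0, P, Q, W]
    ![ptN 23, ptN 0, ptN 1, ptN 2, ptN 3]
    (by
      simp only [List.forall_mem_cons, List.not_mem_nil, IsEmpty.forall_iff, implies_true, and_true] at h
      intro i j e
      have h0 : ptN 23 ≠ ptN 0 := by decide
      fin_cases i <;> fin_cases j <;> simp_all [eq_comm])
    (by decide)
  exact ⟨g, mem_fx.2 ⟨hg, e 0, e 1⟩, e 2, e 3, e 4⟩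

/-- A moved point is not one of the two fixed points. -/
theorem ne_fixed {g : Equiv.Perm Cfsg.GolayPt} (hg : g ∈ fixGroup fx) {P : Cfsg.GolayPt} (h : g P ≠ P) :
    P ≠ ptN 23 ∧ P ≠ ptN 0 :=
  ⟨fun e => h (e ▸ (mem_fx.1 hg).2.1), fun e => h (e ▸ (mem_fx.1 hg).2.2)⟩

theorem im_eq_ptN {y : Equiv.Perm Cfsg.GolayPt} {l : List ℕ} (hv : validTab l = true) (he : permOf l = y)
    {p : ℕ} (hp : p < 24) : y (ptN p) = ptN (l.getD p 0) := by
  rw [← he, ← im_permOf hv hp, im, ptN_idx]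

/-- Every nontrivial element of odd order is conjugate to a listed one. -/
theorem vanish_of {k : Type} [CommRing k] (S : Sol fx k)
    (h0 : ∀ r < (rp).length, S.A (R rp r) = 0) (g : Equiv.Perm Cfsg.GolayPt) (hg : g ∈ fixGroup fx)
    (h1 : g ≠ 1) : S.A g = 0 := by
  by_cases hev : 2 ∣ orderOf g
  · exact S.supp g hg hev
  obtain ⟨P, hP⟩ : ∃ P, g P ≠ P := not_forall.1 fun h => h1 (Equiv.ext h)
  have hQ : g (g P) ≠ g P := fun e => hP (g.injective e)
  have hW : g (g P) ≠ P := fun e => hev (two_dvd_of_swap hP e)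
  obtain ⟨s, hs, e1, e2, e3⟩ := exists_conj (Ne.symm hP) (Ne.symm hW) (Ne.symm hQ) (by
    simp only [List.forall_mem_cons, List.not_mem_nil, IsEmpty.forall_iff, implies_true, and_true]
    exact ⟨ne_fixed hg hP, ne_fixed hg hQ, ne_fixed hg fun e => hQ (g.injective e)⟩)
  have hy : s * g * s⁻¹ ∈ fixGroup fx := mul_mem (mul_mem hs hg) (inv_mem hs)
  have hy1 : (s * g * s⁻¹) (ptN 1) = ptN 2 := by
    rw [← e1, ← e2, Equiv.Perm.mul_apply, Equiv.Perm.mul_apply, Equiv.Perm.coe_inv, Equiv.symm_apply_apply]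
  have hy2 : (s * g * s⁻¹) (ptN 2) = ptN 3 := by
    rw [← e2, ← e3, Equiv.Perm.mul_apply, Equiv.Perm.mul_apply, Equiv.Perm.coe_inv, Equiv.symm_apply_apply]
  have hc := cov_ok
  simp only [covOk, Bool.and_eq_true, Nat.beq_eq] at hc
  obtain ⟨⟨⟨⟨⟨hh, q1⟩, q2⟩, q3⟩, q4⟩, hall⟩ := hc
  obtain ⟨hhv, hhm⟩ := permOf_mem_fixGroup fix_lt hh (List.mem_singleton_self _)
  obtain ⟨l, hl, hv, he⟩ := mem_coset tree_ok hhv (mem_fx.1 hhm).1 (mem_fx.1 hy).1 (by
    intro p hp
    fin_cases hp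
    · rw [(mem_fx.1 hy).2.1, (mem_fx.1 hhm).2.1]
    · rw [(mem_fx.1 hy).2.2, (mem_fx.1 hhm).2.2]
    · rw [hy1, im_eq_ptN hhv rfl (by omega), q1]
    · rw [hy2, im_eq_ptN hhv rfl (by omega), q2])
  obtain ⟨v, hvv⟩ := exists_of_all2 hall l hl
  have hR : repsOk fx rp = true ∧ repsOk fx CfsgLib.MathieuBlock.D22.conjs = true := by
    have h := sys_ok
    simp only [Sys.ok, Bool.and_eq_true] at h
    exact h.1.1.1.1
  rw [← S.conj s hs g hg, S.val_spec hR.1 hR.2 (fun q hq => (by rw [← he, im_permOf hv hq])) hy hvv]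
  cases v with
  | even q n => rfl
  | conj r c =>
    simp only [vOk, Bool.and_eq_true, Nat.blt_eq] at hvv
    exact h0 r hvv.1.1

theorem inv_mem_fix : ∀ t ∈ CfsgLib.MathieuBlock.D22.invs,
    validTab (dec t) = true ∧ permOf (dec t) ∈ fixGroup fx := by
  have hok := invs_ok
  simp only [invsOk, Bool.and_eq_true] at hok
  obtain ⟨⟨⟨⟨⟨⟨hga, hgb⟩, -⟩, hall⟩, hst⟩, -⟩, -⟩ := hok
  rw [eqTab_iff] at hga hgb
  simp only [List.all_eq_true, Bool.and_eq_true] at hall
  obtain ⟨⟨hav, ham⟩, ⟨hbv, hbm⟩⟩ := CfsgLib.MathieuOut.Cert.gen_spec CfsgLib.MathieuOut.D22.ok.1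
  set L := CfsgLib.MathieuBlock.D22.invs with hL
  suffices key : ∀ r, ∀ e ∈ CfsgLib.MathieuBlock.D22.itree.flat, e.2.2.2 ≤ r →
      validTab (dec e.1) = true ∧ permOf (dec e.1) ∈ fixGroup fx by
    intro t ht
    obtain ⟨e, he, rfl⟩ := List.mem_map.1 ht
    exact key _ e he le_rfl
  simp only [List.all_eq_true] at hst
  intro r
  induction r with
  | zero =>
    intro e he hr
    have h := hst e he
    simp only [Nat.le_zero.1 hr, Nat.beq_refl, cond_true] at h
    exact permOf_mem_fixGroup fix_lt h (List.mem_singleton_self _)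
  | succ r ih =>
    intro e he hr
    have h := hst e he
    have hval : validTab (dec e.1) = true := (hall _ (List.mem_map.2 ⟨e, he, rfl⟩)).1.1.1
    cases hz : Nat.beq e.2.2.2 0 with
    | true => exact ih e he (by rw [Nat.eq_of_beq_eq_true hz]; omega)
    | false =>
      simp only [hz, cond_false, Bool.and_eq_true, Nat.blt_eq, List.all_eq_true, List.mem_range,
        Nat.beq_eq] at h
      obtain ⟨⟨hp, -⟩, heq⟩ := h
      obtain ⟨p, hp', hpe, hlt⟩ := STree.findLt_spec hp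
      obtain ⟨vp, mp⟩ := ih p hp' (by omega)
      rw [hpe] at vp mp
      refine ⟨hval, ?_⟩
      obtain ⟨c, hcv, hcm, hc⟩ : ∃ c, validTab (dec c) = true ∧ permOf (dec c) ∈ fixGroup fx ∧
          ∀ q < 24, look c (look e.2.2.1 q) = look e.1 (look c q) := by
        cases hb : Nat.beq e.2.1 0 with
        | true => exact ⟨_, hga ▸ hav, hga ▸ ham, fun q hq => by have h5 := heq q hq; rw [hb, cond_true] at h5; exact h5⟩
        | false => exact ⟨_, hgb ▸ hbv, hgb ▸ hbm, fun q hq => by have h5 := heq q hq; rw [hb, cond_false] at h5; exact h5⟩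
      have e2 : permOf (dec c) * permOf (dec e.2.2.1) = permOf (dec e.1) * permOf (dec c) := by
        refine ext_im fun q hq => ?_
        have h2 := hc q hq
        rw [(look_spec vp hq).1, (look_spec hcv (im_lt _ _)).1, (look_spec hcv hq).1,
          (look_spec hval (im_lt _ _)).1, ← im_mul, ← im_mul] at h2
        exact h2
      rw [eq_mul_inv_of_mul_eq e2.symm]
      exact mul_mem (mul_mem hcm mp) (inv_mem hcm)

theorem invs_spec {t : Equiv.Perm Cfsg.GolayPt} (ht : t ∈ fixGroup fx) (h2 : t * t = 1) :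
    t ∈ (idT :: CfsgLib.MathieuBlock.D22.invs.map dec).map permOf := by
  rw [List.map_cons, List.mem_cons]
  by_cases h1 : t = 1
  · exact Or.inl (h1.trans permOf_idT.symm)
  right
  obtain ⟨P, hP⟩ : ∃ P, t P ≠ P := not_forall.1 fun h => h1 (Equiv.ext h)
  have h3 : t (t P) = P := by rw [← Equiv.Perm.mul_apply, h2, Equiv.Perm.one_apply]
  have hPf := ne_fixed ht hP
  have hQf := ne_fixed ht (P := t P) (fun e => hP (t.injective e))
  obtain ⟨W, hW⟩ : ∃ W, W ∉ ({P, t P, ptN 23, ptN 0} : Finset Cfsg.GolayPt) := by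
    refine not_forall.1 fun h => ?_
    have h4 := Finset.card_le_card (s := (Finset.univ : Finset Cfsg.GolayPt)) fun x _ => h x
    rw [Finset.card_univ, card_pt] at h4
    exact absurd (h4.trans Finset.card_le_four) (by omega)
  simp only [Finset.mem_insert, Finset.mem_singleton, not_or] at hW
  obtain ⟨s, hs, e1, e2, -⟩ := exists_conj (Ne.symm hP) (Ne.symm hW.1) (Ne.symm hW.2.1) (by
    simp only [List.forall_mem_cons, List.not_mem_nil, IsEmpty.forall_iff, implies_true, and_true]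
    exact ⟨hPf, hQf, hW.2.2⟩)
  have hy : s * t * s⁻¹ ∈ fixGroup fx := mul_mem (mul_mem hs ht) (inv_mem hs)
  have hy1 : (s * t * s⁻¹) (ptN 1) = ptN 2 := by
    rw [← e1, ← e2, Equiv.Perm.mul_apply, Equiv.Perm.mul_apply, Equiv.Perm.coe_inv, Equiv.symm_apply_apply]
  have hy2 : (s * t * s⁻¹) (ptN 2) = ptN 1 := by
    rw [← e2, Equiv.Perm.mul_apply, Equiv.Perm.mul_apply, Equiv.Perm.coe_inv, Equiv.symm_apply_apply, h3, e1]
  have hc := swap_ok
  simp only [swapOk, Bool.and_eq_true, Nat.beq_eq] at hc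
  obtain ⟨⟨⟨⟨⟨hh, q1⟩, q2⟩, q3⟩, q4⟩, hall⟩ := hc
  obtain ⟨hhv, hhm⟩ := permOf_mem_fixGroup fix_lt hh (List.mem_singleton_self _)
  obtain ⟨l, hl, hv, he⟩ := mem_coset tree_ok hhv (mem_fx.1 hhm).1 (mem_fx.1 hy).1 (by
    intro p hp
    fin_cases hp
    · rw [(mem_fx.1 hy).2.1, (mem_fx.1 hhm).2.1]
    · rw [(mem_fx.1 hy).2.2, (mem_fx.1 hhm).2.2]
    · rw [hy1, im_eq_ptN hhv rfl (by omega), q1]
    · rw [hy2, im_eq_ptN hhv rfl (by omega), q2])
  obtain ⟨w, hw⟩ := exists_of_all2 hall l hl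
  cases hlt : Nat.blt w 24 with
  | true =>
    exfalso
    simp only [hlt, cond_true, Bool.not_eq_true'] at hw
    rw [iterT_spec (y := s * t * s⁻¹) (fun q hq => (by rw [← he, im_permOf hv hq])) (of_blt hlt), pow_two,
      show s * t * s⁻¹ * (s * t * s⁻¹) = s * (t * t) * s⁻¹ by group, h2, mul_one, mul_inv_cancel, im,
      Equiv.Perm.one_apply, idx_ptN (of_blt hlt)] at hw
    simp at hw
  | false =>
    simp only [hlt, cond_false, Bool.and_eq_true, Nat.blt_eq, eqTab_iff] at hw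
    set L := CfsgLib.MathieuBlock.D22.invs with hL
    set I : Set (Equiv.Perm Cfsg.GolayPt) := {x | x ∈ (L.map dec).map permOf} with hI
    have hmemI : s * t * s⁻¹ ∈ I := by
      rw [← he, ← hw.2, hI, Set.mem_setOf_eq, List.map_map, List.getD_eq_getElem _ _ hw.1]
      exact List.mem_map.2 ⟨_, List.getElem_mem _, rfl⟩
    have hok := invs_ok
    simp only [invsOk, Bool.and_eq_true] at hok
    obtain ⟨⟨⟨⟨⟨⟨hga, hgb⟩, -⟩, -⟩, -⟩, hA⟩, hB⟩ := hok
    rw [eqTab_iff] at hga hgb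
    have hgenok := CfsgLib.MathieuOut.D22.ok.1
    obtain ⟨⟨hav, ham⟩, ⟨hbv, hbm⟩⟩ := CfsgLib.MathieuOut.Cert.gen_spec hgenok
    have hstep : ∀ (a : List ℕ) (c : ℕ) (mv : List ℕ), dec c = a → validTab a = true →
        permOf a ∈ fixGroup fx →
        all2 (fun x u => CfsgLib.MathieuBlock.D22.itree.findLt u 4096 &&
          keyPts.all fun q => Nat.beq (look c (look x q)) (look u (look c q))) L mv = true →
        ∀ x ∈ I, permOf a * x * (permOf a)⁻¹ ∈ I := by
      intro a c mv hca hv' hm' hall' x hx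
      subst hca
      rw [hI, Set.mem_setOf_eq, List.map_map] at hx ⊢
      obtain ⟨n, hn, rfl⟩ := List.mem_map.1 hx
      obtain ⟨j, hj⟩ := exists_of_all2 hall' n hn
      simp only [Bool.and_eq_true, List.all_eq_true, Nat.beq_eq] at hj
      obtain ⟨p, hp, hpe, -⟩ := STree.findLt_spec hj.1
      have hm : j ∈ L := List.mem_map.2 ⟨p, hp, hpe⟩
      obtain ⟨vn, mn⟩ := inv_mem_fix n hn
      obtain ⟨vj, mj⟩ := inv_mem_fix _ hm
      refine List.mem_map.2 ⟨_, hm, ?_⟩
      simp only [Function.comp_apply]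
      rw [eq_comm, mul_inv_eq_iff_eq_mul, ← inv_mul_eq_one]
      refine keyPts_eq_one (fixd := fx) (mul_mem (inv_mem (mul_mem hm' mn)) (mul_mem mj hm')) fun q hq => ?_
      have hq24 : q < 24 := by revert q; decide
      have h2 := hj.2 q hq
      rw [(look_spec vn hq24).1, (look_spec hv' (im_lt _ _)).1, (look_spec hv' hq24).1,
        (look_spec vj (im_lt _ _)).1, ← im_mul, ← im_mul] at h2
      rw [im_mul, ← h2, ← im_mul, inv_mul_cancel, im, Equiv.Perm.one_apply, idx_ptN hq24]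
    have hcl : ∀ u ∈ fixGroup fx, ∀ x ∈ I, u * x * u⁻¹ ∈ I := by
      intro u hu
      have hgen : Subgroup.closure {permOf CfsgLib.MathieuOut.D22.cert.a, permOf CfsgLib.MathieuOut.D22.cert.b} =
          fixGroup fx := CfsgLib.MathieuOut.Cert.closure_eq hgenok (by
        show Nat.card (fixGroup fx) = 443520
        rw [fx_eq]; exact CfsgLib.MathieuOut.card_M22)
      rw [← hgen, ← Subgroup.mem_toSubmonoid, Subgroup.closure_toSubmonoid_of_finite] at hu
      induction hu using Submonoid.closure_induction with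
      | mem x hx =>
        rcases hx with rfl | rfl
        · exact hstep _ _ _ hga hav ham hA
        · exact hstep _ _ _ hgb hbv hbm hB
      | one => simp
      | mul a b _ _ iha ihb =>
        intro x hx
        have := iha _ (ihb x hx)
        simpa [mul_assoc] using this
    have h4 := hcl s⁻¹ (inv_mem hs) _ hmemI
    rw [show s⁻¹ * (s * t * s⁻¹) * s⁻¹⁻¹ = t by group] at h4
    exact h4

theorem list_nodup : ((idT :: CfsgLib.MathieuBlock.D22.invs.map dec).map permOf).Nodup := by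
  have hok := invs_ok
  simp only [invsOk, Bool.and_eq_true] at hok
  obtain ⟨⟨⟨⟨⟨-, hinc⟩, hall⟩, -⟩, -⟩, -⟩ := hok
  simp only [List.all_eq_true, Bool.and_eq_true] at hall
  rw [List.map_cons, List.nodup_cons, List.map_map]
  refine ⟨fun h => ?_, ?_⟩
  · obtain ⟨n, hn, e⟩ := List.mem_map.1 h
    have e' := permOf_inj (inv_mem_fix n hn).1 validTab_idT e
    have h3 := (hall n hn).1.1.2
    rw [e', (eqTab_iff).2 rfl] at h3
    simp at h3
  · refine List.Nodup.map_on (fun a ha b hb e => ?_) (incr_nodup hinc)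
    have e' := permOf_inj (inv_mem_fix a ha).1 (inv_mem_fix b hb).1 e
    have h1 := Nat.eq_of_beq_eq_true (hall a ha).1.2
    have h2 := Nat.eq_of_beq_eq_true (hall b hb).1.2
    rw [← h1, ← h2, e']

theorem dec_enc_idT : dec (CfsgLib.MathieuTwo.enc idT) = idT := by decide +kernel

theorem list_mem : ∀ l ∈ idT :: CfsgLib.MathieuBlock.D22.invs.map dec,
    validTab l = true ∧ permOf l ∈ fixGroup fx ∧ permOf l * permOf l = 1 := by
  intro l hl
  rcases List.mem_cons.1 hl with rfl | hl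
  · exact ⟨validTab_idT, permOf_idT ▸ one_mem _, by rw [permOf_idT, mul_one]⟩
  · obtain ⟨n, hn, rfl⟩ := List.mem_map.1 hl
    obtain ⟨hv, hm⟩ := inv_mem_fix n hn
    refine ⟨hv, hm, ext_im fun q hq => ?_⟩
    have hok := invs_ok
    simp only [invsOk, Bool.and_eq_true] at hok
    have h2 := hok.1.1.1.2
    simp only [List.all_eq_true, Bool.and_eq_true, List.mem_range, Nat.beq_eq] at h2
    rw [im_mul, ← (look_spec hv hq).1, ← (look_spec hv (look_spec hv hq).2).1, (h2 n hn).2 q hq, im,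
      Equiv.Perm.one_apply, idx_ptN hq]

/-- No class function solves the equations. -/
theorem rigid (k : Type) [CommRing k] [CharP k 2] [Fintype ↥Cfsg.Spor.M22] [DecidableEq ↥Cfsg.Spor.M22]
    (a : ↥Cfsg.Spor.M22 → k) (hcl : ∀ x g, a (x * g * x⁻¹) = a g)
    (hsupp : ∀ g, 2 ∣ orderOf g → a g = 0)
    (heq : ∀ h, a (h * h) = ∑ u ∈ Finset.univ.filter (fun u : ↥Cfsg.Spor.M22 => u * u = 1),
      a (u * h) * a (u * h)) (g : ↥Cfsg.Spor.M22) (hg : g ≠ 1) : a g = 0 := by
  classical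
  let S : Sol fx k :=
    { A := fun y => if h : y ∈ Cfsg.Spor.M22 then a ⟨y, h⟩ else 0
      conj := fun x hx y hy => by
        rw [fx_eq] at hx hy
        rw [dif_pos (mul_mem (mul_mem hx hy) (inv_mem hx)), dif_pos hy]
        exact hcl ⟨x, hx⟩ ⟨y, hy⟩
      supp := fun y hy h => by
        rw [fx_eq] at hy
        rw [dif_pos hy]
        refine hsupp _ ?_
        rwa [← Subgroup.orderOf_coe] }
  have hA : ∀ x : ↥Cfsg.Spor.M22, S.A x = a x := fun x => dif_pos x.2
  have h0 : ∀ r < (rp).length, S.A (R rp r) = 0 := by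
    refine Sys.vanish (C := CfsgLib.MathieuBlock.D22.sys) sys_ok S
      (T := CfsgLib.MathieuTwo.enc idT :: CfsgLib.MathieuBlock.D22.invs)
      (fun t ht => ?_) (fun i hi => ?_) fun y hy => ?_
    · have h' : dec t ∈ idT :: CfsgLib.MathieuBlock.D22.invs.map dec := by
        rcases List.mem_cons.1 ht with rfl | ht
        · rw [dec_enc_idT]; exact List.mem_cons_self
        · exact List.mem_cons_of_mem _ (List.mem_map.2 ⟨t, ht, rfl⟩)
      exact ⟨(list_mem _ h').1, (list_mem _ h').2.1⟩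
    · exact List.all_eq_true.1 rows_ok i (List.mem_range.2 ((show CfsgLib.MathieuBlock.D22.sys.reps.length = 6 by decide +kernel) ▸ hi))
    · rw [fx_eq] at hy
      have e := heq ⟨y, hy⟩
      rw [← hA, Subgroup.coe_mul] at e
      rw [e, show ((CfsgLib.MathieuTwo.enc idT :: CfsgLib.MathieuBlock.D22.invs).map fun t => S.A (permOf (dec t) * y) * S.A (permOf (dec t) * y)) =
        ((idT :: CfsgLib.MathieuBlock.D22.invs.map dec).map permOf).map (fun u => S.A (u * y) * S.A (u * y)) by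
          rw [List.map_map, List.map_cons, List.map_cons, List.map_map, dec_enc_idT]; rfl, ← List.sum_toFinset _ list_nodup]
      refine Finset.sum_bij (fun u _ => (u : Equiv.Perm Cfsg.GolayPt)) (fun u hu => ?_)
        (fun u _ v _ e => Subtype.ext e) (fun u hu => ?_) fun u hu => ?_
      · rw [List.mem_toFinset]
        simp only [Finset.mem_filter, Finset.mem_univ, true_and] at hu
        exact invs_spec (by rw [fx_eq]; exact u.2) (congrArg Subtype.val hu)
      · rw [List.mem_toFinset] at hu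
        obtain ⟨l, hl, rfl⟩ := List.mem_map.1 hu
        obtain ⟨-, hm, h2⟩ := list_mem l hl
        rw [fx_eq] at hm
        exact ⟨⟨_, hm⟩, Finset.mem_filter.2 ⟨Finset.mem_univ _, Subtype.ext h2⟩, rfl⟩
      · rw [← hA, Subgroup.coe_mul]
  rw [← hA]
  refine vanish_of S h0 _ (by rw [fx_eq]; exact g.2) fun e => hg (Subtype.ext e)


/-- All irreducible complex characters of the Mathieu group `M₂₂` lie in a single 2-block: any two of them lie in the same block relative to every maximal ideal of the algebraic integers containing 2. -/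
theorem result (M : Ideal Cfsg.AlgInt) (hM : Cfsg.IsPModular 2 M)
    (χ ψ : Cfsg.IrrCharacter ↥Cfsg.Spor.M22) : Cfsg.SameBlock M (χ : ↥Cfsg.Spor.M22 → ℂ) (ψ : ↥Cfsg.Spor.M22 → ℂ) := by
  classical
  haveI := Fintype.ofFinite ↥Cfsg.Spor.M22
  exact sameBlock_of_rigid hM (fun k _ _ _ a h1 h2 h3 g hg => rigid k a h1 h2 h3 g hg) χ ψ

end Cfsg.Agent.S5005
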