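import Cfsg.Statements.S5013
import Cfsg.Agent.RankOne.Basic

set_option autoImplicit false
open Cfsg

namespace Cfsg.Agent.S5013

/-- In a rank one group with unipotent subgroups A and B (conjugation written g H g⁻¹), for every non-identity a in A the non-identity b in B with b⁻¹ A b = a⁻¹ B a is unique, every non-identity b in B arises in this way from exactly one such a (so a ↦ b(a) is a bijection between the non-identity elements of A and of B), and no non-identity element of A normalizes B (and vice versa). -/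
theorem result {G : Type*} [Group G] {A B : Subgroup G} (h : Cfsg.IsRankOnePair A B) :
    (∀ a ∈ A, a ≠ 1 → ∃! b : G, b ∈ B ∧ b ≠ 1 ∧ Cfsg.conjBy A b⁻¹ = Cfsg.conjBy B a⁻¹) ∧
    (∀ b ∈ B, b ≠ 1 → ∃! a : G, a ∈ A ∧ a ≠ 1 ∧ Cfsg.conjBy A b⁻¹ = Cfsg.conjBy B a⁻¹) ∧
    A ⊓ Subgroup.normalizer (B : Set G) = ⊥ ∧ B ⊓ Subgroup.normalizer (A : Set G) = ⊥ := by
  have h' := Cfsg.RankOnePair_symm h
  refine ⟨fun a ha ha1 => ?_, fun b hb hb1 => ?_, CfsgLib.RankOne.inf_normalizer h,
    CfsgLib.RankOne.inf_normalizer h'⟩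
  · obtain ⟨b, hb, hb1, he⟩ := h.cond_left a ha ha1
    refine ⟨b, ⟨hb, hb1, he⟩, fun y ⟨hy, _, hye⟩ => ?_⟩
    exact inv_injective (CfsgLib.RankOne.conj_injective h' (B.inv_mem hy) (B.inv_mem hb) (hye.trans he.symm))
  · obtain ⟨a, ha, ha1, he⟩ := h.cond_right b hb hb1
    refine ⟨a, ⟨ha, ha1, he.symm⟩, fun y ⟨hy, _, hye⟩ => ?_⟩
    exact inv_injective (CfsgLib.RankOne.conj_injective h (A.inv_mem hy) (A.inv_mem ha) (hye.symm.trans he.symm))

end Cfsg.Agent.S5013
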