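import Cfsg.Statements.S5015
import Cfsg.Agent.RankOne.Basic

set_option autoImplicit false
open Cfsg

namespace Cfsg.Agent.S5015

open CfsgLib.RankOne in
lemma setup {Y Ω : Type*} [Group Y] [MulAction Y Ω]
    (h2 : MulAction.IsMultiplyPretransitive Y Ω 2) (hΩ : 3 ≤ ENat.card Ω) (α : Ω) (A : Subgroup Y)
    (hA : A ≤ MulAction.stabilizer Y α) (hAn : ∀ y ∈ MulAction.stabilizer Y α, Cfsg.conjBy A y = A)
    (hnil : Group.IsNilpotent A) (hreg : ∀ β γ : Ω, β ≠ α → γ ≠ α → ∃! a : Y, a ∈ A ∧ a • β = γ)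
    (y : Y) (hy : y ∉ MulAction.stabilizer Y α) :
    Cfsg.IsRankOnePair A (Cfsg.conjBy A y) ∧
      Subgroup.normalClosure (A : Set Y) = A ⊔ Cfsg.conjBy A y := by
  have hwd : ∀ u v : Y, u • α = v • α → conjBy A u = conjBy A v := by
    intro u v h
    have h1 : v⁻¹ * u ∈ MulAction.stabilizer Y α := by
      rw [MulAction.mem_stabilizer_iff, mul_smul, h, inv_smul_smul]
    rw [← conjBy_inj (g := v⁻¹), conjBy_inv_conjBy, conjBy_conjBy]
    exact hAn _ h1
  have hfix : ∀ (u : Y), ∀ c ∈ conjBy A u, c • (u • α) = u • α := by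
    rintro u _ ⟨a, ha, rfl⟩
    show (u * a * u⁻¹) • (u • α) = u • α
    rw [← mul_smul, inv_mul_cancel_right, mul_smul, MulAction.mem_stabilizer_iff.1 (hA ha)]
  have hreg' : ∀ (u : Y) (β γ : Ω), β ≠ u • α → γ ≠ u • α → ∃! c : Y, c ∈ conjBy A u ∧ c • β = γ := by
    intro u β γ hβ hγ
    have h1 : u⁻¹ • β ≠ α := fun e => hβ (by rw [← e, smul_inv_smul])
    have h1' : u⁻¹ • γ ≠ α := fun e => hγ (by rw [← e, smul_inv_smul])
    obtain ⟨a, ⟨ha, he⟩, huniq⟩ := hreg _ _ h1 h1'
    refine ⟨u * a * u⁻¹, ⟨conj_mem_conjBy ha, by rw [mul_smul, mul_smul, he, smul_inv_smul]⟩, ?_⟩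
    rintro _ ⟨⟨a', ha', rfl⟩, he'⟩
    change (u * a' * u⁻¹) • β = γ at he'
    have : a' = a := huniq a' ⟨ha', by rw [← he', mul_smul, mul_smul, inv_smul_smul]⟩
    rw [this]; rfl
  have hcond : ∀ u v : Y, u • α ≠ v • α → Cfsg.RankOneCondition (conjBy A u) (conjBy A v) := by
    intro u v huv c hc hc1
    have hne : c⁻¹ • (v • α) ≠ v • α := by
      intro e
      have hex := hreg' u (v • α) (v • α) huv.symm huv.symm
      exact hc1 (inv_eq_one.1 (hex.unique ⟨Subgroup.inv_mem _ hc, e⟩ ⟨one_mem _, one_smul Y _⟩))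
    obtain ⟨b, ⟨hb, he⟩, -⟩ := hreg' v (u • α) (c⁻¹ • (v • α)) huv hne
    refine ⟨b⁻¹, inv_mem hb, ?_, ?_⟩
    · intro e
      rw [inv_eq_one] at e
      rw [e, one_smul] at he
      have h3 := hfix u c hc
      rw [he, smul_inv_smul] at h3
      exact hne h3.symm
    · rw [inv_inv, conjBy_conjBy, conjBy_conjBy]
      exact hwd _ _ (by rw [mul_smul, mul_smul]; exact he)
  have hyα : y • α ≠ α := fun e => hy (MulAction.mem_stabilizer_iff.2 e)
  have hA1 : conjBy A 1 = A := conjBy_one A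
  refine ⟨⟨?_, hnil, ?_, ?_, ?_⟩, le_antisymm ?_ ?_⟩
  · intro e
    obtain ⟨δ, hδ1, hδ2⟩ : ∃ δ : Ω, δ ≠ α ∧ δ ≠ y • α := by
      by_contra hne
      push Not at hne
      have hle : ENat.card Ω ≤ 2 := by
        rw [← Set.encard_univ]
        have hsub : (Set.univ : Set Ω) ⊆ {α, y • α} := fun δ _ => by
          by_cases h : δ = α
          · exact Or.inl h
          · exact Or.inr (hne δ h)
        exact (Set.encard_le_encard hsub).trans ((Set.encard_insert_le _ _).trans (by simp; norm_num))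
      exact absurd (hΩ.trans hle) (by norm_num)
    obtain ⟨b, ⟨hb, he⟩, -⟩ := hreg' y α δ hyα.symm hδ2
    rw [← e] at hb
    exact hδ1 (he.symm.trans (MulAction.mem_stabilizer_iff.1 (hA hb)))
  · haveI := hnil
    exact Group.nilpotent_of_mulEquiv (A.equivMapOfInjective _ (MulEquiv.injective _))
  · have := hcond 1 y (by rwa [one_smul, ne_comm])
    rwa [hA1] at this
  · have := hcond y 1 (by rwa [one_smul])
    rwa [hA1] at this
  · rw [Subgroup.normalClosure, Subgroup.closure_le]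
    intro z hz
    obtain ⟨a, ha, hconj⟩ := Group.mem_conjugatesOfSet_iff.1 hz
    obtain ⟨w, rfl⟩ := isConj_iff.1 hconj
    have hmem : w * a * w⁻¹ ∈ conjBy A w := conj_mem_conjBy ha
    by_cases hw : w • α = α
    · rw [hAn w (MulAction.mem_stabilizer_iff.2 hw)] at hmem
      exact Subgroup.mem_sup_left hmem
    · obtain ⟨a', ⟨ha', he⟩, -⟩ := hreg (y • α) (w • α) hyα hw
      rw [hwd w (a' * y) (by rw [mul_smul, he]), ← conjBy_conjBy] at hmem
      obtain ⟨b, hb, hb'⟩ := hmem
      rw [SetLike.mem_coe, ← hb']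
      exact mul_mem (mul_mem (Subgroup.mem_sup_left ha') (Subgroup.mem_sup_right hb))
        (inv_mem (Subgroup.mem_sup_left ha'))
  · refine sup_le Subgroup.le_normalClosure ?_
    rintro _ ⟨a, ha, rfl⟩
    exact (Subgroup.normalClosure_normal (s := (A : Set Y))).conj_mem a (Subgroup.le_normalClosure ha) y

/-- Let a group Y act doubly transitively on a set Ω with at least three points, and suppose that the stabilizer of a point α contains a nilpotent subgroup A, normalized by that stabilizer, which acts regularly on the points other than α. Then for any y in Y moving α, the subgroups A and y A y⁻¹ are the unipotent subgroups of a rank one group, and the normal closure of A in Y (the subgroup generated by all conjugates of A) is generated by A and y A y⁻¹ alone. -/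
theorem result {Y Ω : Type*} [Group Y] [MulAction Y Ω]
    (h2 : MulAction.IsMultiplyPretransitive Y Ω 2) (hΩ : 3 ≤ ENat.card Ω) (α : Ω) (A : Subgroup Y)
    (hA : A ≤ MulAction.stabilizer Y α) (hAn : ∀ y ∈ MulAction.stabilizer Y α, Cfsg.conjBy A y = A)
    (hnil : Group.IsNilpotent A) (hreg : ∀ β γ : Ω, β ≠ α → γ ≠ α → ∃! a : Y, a ∈ A ∧ a • β = γ)
    (y : Y) (hy : y ∉ MulAction.stabilizer Y α) :
    Cfsg.IsRankOnePair A (Cfsg.conjBy A y) ∧ Subgroup.normalClosure (A : Set Y) = A ⊔ Cfsg.conjBy A y := by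
  exact setup h2 hΩ α A hA hAn hnil hreg y hy

end Cfsg.Agent.S5015
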