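import Cfsg.Statements.S5016
import Mathlib
import Cfsg.Agent.H29.RankOneSL

set_option autoImplicit false
open Cfsg

namespace Cfsg.Agent.S5016

/-- For any field k, the special linear group SL₂(k) is a special rank one group with abelian unipotent subgroups, the unipotent subgroups being the group of lower unitriangular matrices and the group of upper unitriangular matrices. -/
theorem result (k : Type*) [Field k] :
    Cfsg.IsRankOneGroup (Matrix.SpecialLinearGroup (Fin 2) k) (Cfsg.lowerUnipotentSL2 k) (Cfsg.upperUnipotentSL2 k) ∧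
    Cfsg.IsSpecialRankOnePair (Cfsg.lowerUnipotentSL2 k) (Cfsg.upperUnipotentSL2 k) ∧
    Cfsg.HasAbelianUnipotents (Cfsg.lowerUnipotentSL2 k) (Cfsg.upperUnipotentSL2 k) := by
  refine ⟨⟨H29.RankOneSL.sup_eq_top, H29.RankOneSL.isRankOnePair⟩,
    ⟨H29.RankOneSL.isRankOnePair, fun a ha ha1 b hb hb1 h =>
      H29.RankOneSL.special ha ha1 hb hb1 h⟩, ⟨⟨fun a b => ?_⟩⟩, ⟨⟨fun a b => ?_⟩⟩⟩
  · obtain ⟨s, hs⟩ := H29.RankOneSL.mem_lower.mp a.2
    obtain ⟨t, ht⟩ := H29.RankOneSL.mem_lower.mp b.2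
    apply Subtype.ext; simp [hs, ht, H29.RankOneSL.lo_mul, add_comm]
  · obtain ⟨s, hs⟩ := H29.RankOneSL.mem_upper.mp a.2
    obtain ⟨t, ht⟩ := H29.RankOneSL.mem_upper.mp b.2
    apply Subtype.ext; simp [hs, ht, H29.RankOneSL.up_mul, add_comm]

end Cfsg.Agent.S5016
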