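import Cfsg.Statements.S5017
import Cfsg.Agent.RankOne.Basic

set_option autoImplicit false
open Cfsg

namespace Cfsg.Agent.S5017

open CfsgLib.RankOne in
lemma dichotomy {X : Type*} [Group X] {A B : Subgroup X} (h : Cfsg.IsRankOneGroup X A B)
    (N : Subgroup X) (hN : N.Normal) : N ⊔ A = ⊤ ∨ N ≤ Subgroup.center X := by
  obtain ⟨hgen, hp⟩ := h
  by_cases hfix : ∀ n ∈ N, conjBy A n = A
  · right
    intro n hn
    have key : ∀ {C D : Subgroup X}, IsRankOnePair C D → (∀ m ∈ N, conjBy D m = D) →
        ∀ m ∈ N, conjBy C m = C → ∀ c ∈ C, m * c = c * m := by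
      intro C D hCD hD m hm hC c hc
      have h1 : m * c * m⁻¹ * c⁻¹ ∈ C :=
        C.mul_mem (hC.le (conj_mem_conjBy hc)) (C.inv_mem hc)
      have h2 : m * (c * m⁻¹ * c⁻¹) ∈ N := N.mul_mem hm (hN.conj_mem _ (N.inv_mem hm) c)
      have h3 := eq_one_of_normalizes hCD h1 (hD _ (by simpa [mul_assoc] using h2))
      calc m * c = m * c * m⁻¹ * c⁻¹ * (c * m) := by group
        _ = c * m := by rw [h3, one_mul]
    have hfixB : ∀ m ∈ N, conjBy B m = B := by
      intro m hm
      obtain ⟨x, -, hx⟩ := right_mem_unipotent hp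
      rw [hx, conjBy_conjBy]
      have := hfix _ (hN.conj_mem m hm x⁻¹)
      rw [inv_inv] at this
      conv_rhs => rw [← this, conjBy_conjBy]
      congr 1
      group
    have hB : conjBy B n = B := hfixB n hn
    rw [Subgroup.mem_center_iff]
    intro y
    have hy : y ∈ Subgroup.centralizer {n} := by
      have : A ⊔ B ≤ Subgroup.centralizer {n} := sup_le
        (fun c hc => Subgroup.mem_centralizer_singleton_iff.2
          (key hp hfixB n hn (hfix n hn) c hc).symm)
        (fun c hc => Subgroup.mem_centralizer_singleton_iff.2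
          (key (RankOnePair_symm hp) hfix n hn hB c hc).symm)
      exact this (hgen ▸ Subgroup.mem_top y)
    exact Subgroup.mem_centralizer_singleton_iff.1 hy
  · left
    push Not at hfix
    obtain ⟨n, hn, hne⟩ := hfix
    have hC : conjBy A n ∈ unipotentSubgroups A B :=
      conjBy_mem_unipotent left_mem_unipotent (hgen ▸ Subgroup.mem_top n)
    obtain ⟨a, ⟨ha, he⟩, -⟩ := exists_unique_conj hp hC (right_mem_unipotent hp) hne hp.ne.symm
    rw [conjBy_conjBy] at he
    rw [eq_top_iff, ← hgen]
    refine sup_le le_sup_right (fun b hb => ?_)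
    rw [← he] at hb
    obtain ⟨c, hc, rfl⟩ := hb
    have han : a * n ∈ N ⊔ A := mul_mem (Subgroup.mem_sup_right ha) (Subgroup.mem_sup_left hn)
    exact mul_mem (mul_mem han (Subgroup.mem_sup_right hc)) (inv_mem han)

lemma exists_lcs_le {X : Type*} [Group X] {A B : Subgroup X} (h : Cfsg.IsRankOnePair A B)
    (N : Subgroup X) [N.Normal] (hN : N ⊔ A = ⊤) :
    ∃ n, (⊤ : Subgroup X).lowerCentralSeries n ≤ N := by
  haveI := h.nilpotent_left
  have hsurj : Function.Surjective ((QuotientGroup.mk' N).comp A.subtype) := by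
    rw [← MonoidHom.range_eq_top, MonoidHom.range_comp, Subgroup.range_subtype]
    have := congrArg (Subgroup.map (QuotientGroup.mk' N)) hN
    rw [Subgroup.map_sup, Subgroup.map_top_of_surjective _ (QuotientGroup.mk'_surjective N),
      QuotientGroup.map_mk'_self, bot_sup_eq] at this
    exact this
  haveI := Group.nilpotent_of_surjective _ hsurj
  obtain ⟨n, hn⟩ := Subgroup.nilpotent_iff_lowerCentralSeries.1 (inferInstance : Group.IsNilpotent (X ⧸ N))
  refine ⟨n, ?_⟩
  have := (Subgroup.lowerCentralSeries.map (QuotientGroup.mk' N) n).trans hn.le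
  rwa [le_bot_iff, Subgroup.map_eq_bot_iff, QuotientGroup.ker_mk'] at this

/-- Let X be a rank one group with unipotent subgroups A and B and N a normal subgroup of X. Then either X = N A or N lies in the centre of X. Consequently a perfect rank one group is quasisimple. -/
theorem result {X : Type*} [Group X] {A B : Subgroup X} (h : Cfsg.IsRankOneGroup X A B) :
    (∀ N : Subgroup X, N.Normal → N ⊔ A = ⊤ ∨ N ≤ Subgroup.center X) ∧
    (Group.IsPerfect X → Cfsg.IsQuasisimple X) := by
  refine ⟨dichotomy h, fun hp => ⟨hp, ?_⟩⟩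
  have hlcs : ∀ n, (⊤ : Subgroup X).lowerCentralSeries n = ⊤ := by
    intro n
    induction n with
    | zero => rfl
    | succ n ih =>
      rw [Subgroup.lowerCentralSeries_succ, ih, ← commutator_def, hp.commutator_eq_top]
  have hnt : Nontrivial (X ⧸ Subgroup.center X) := by
    rw [QuotientGroup.nontrivial_iff]
    intro e
    have htriv : commutator X = ⊥ := by
      rw [eq_bot_iff, commutator_def, Subgroup.commutator_le]
      intro x _ y _
      rw [Subgroup.mem_bot, commutatorElement_eq_one_iff_mul_comm]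
      exact (Subgroup.mem_center_iff.1 (e ▸ Subgroup.mem_top y) x)
    rw [hp.commutator_eq_top] at htriv
    haveI : Subsingleton X := ⟨fun x y => by
      have hx : x ∈ (⊥ : Subgroup X) := htriv ▸ Subgroup.mem_top x
      have hy : y ∈ (⊥ : Subgroup X) := htriv ▸ Subgroup.mem_top y
      rw [Subgroup.mem_bot] at hx hy
      rw [hx, hy]⟩
    exact h.2.ne (Subsingleton.elim _ _)
  refine IsSimpleGroup.mk fun N hN => ?_
  rcases dichotomy h (N.comap (QuotientGroup.mk' (Subgroup.center X))) (hN.comap _) with hA | hZ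
  · right
    obtain ⟨n, hn⟩ := exists_lcs_le h.2 _ hA
    rw [hlcs, top_le_iff] at hn
    rw [← Subgroup.map_comap_eq_self_of_surjective (QuotientGroup.mk'_surjective _) N, hn,
      Subgroup.map_top_of_surjective _ (QuotientGroup.mk'_surjective _)]
  · left
    rw [← Subgroup.map_comap_eq_self_of_surjective (QuotientGroup.mk'_surjective _) N, eq_bot_iff]
    exact (Subgroup.map_mono hZ).trans (QuotientGroup.map_mk'_self _).le

end Cfsg.Agent.S5017
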