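import Cfsg.Statements.S5018
import Cfsg.Agent.RankOne.Basic
import Cfsg.Agent.S5017

set_option autoImplicit false
open Cfsg

namespace Cfsg.Agent.S5018

open CfsgLib.RankOne in
lemma not_nilpotent {X : Type*} [Group X] {A B : Subgroup X} (h : Cfsg.IsRankOneGroup X A B) :
    ¬ Group.IsNilpotent X := by
  intro hnil
  obtain ⟨hgen, hp⟩ := h
  have hproper : Subgroup.normalizer (A : Set X) < ⊤ := by
    rw [lt_top_iff_ne_top]
    intro e
    obtain ⟨x, -, hx⟩ := right_mem_unipotent hp
    exact hp.ne (hx.trans (conjBy_eq_self_iff.2 (e ▸ Subgroup.mem_top x))).symm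
  obtain ⟨x, hx, hxH⟩ := SetLike.exists_of_lt (Group.normalizerCondition_of_isNilpotent _ hproper)
  obtain ⟨a, ha, ha1⟩ := nonidentity_left hp
  refine hxH (conjBy_eq_self_iff.1 ?_)
  refine eq_left_of_fixed hp ha ha1
    (conjBy_mem_unipotent left_mem_unipotent (hgen ▸ Subgroup.mem_top x)) ?_
  have h1 : x⁻¹ * a * x ∈ Subgroup.normalizer (A : Set X) := by
    have := (Subgroup.mem_normalizer_iff.1 (inv_mem hx) a).1 (Subgroup.le_normalizer ha)
    rwa [inv_inv] at this
  conv_rhs => rw [← conjBy_eq_self_iff.2 h1, conjBy_conjBy]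
  rw [conjBy_conjBy]
  congr 1
  group

/-- A rank one group is not nilpotent, and its second centre equals its centre. -/
theorem result {X : Type*} [Group X] {A B : Subgroup X} (h : Cfsg.IsRankOneGroup X A B) :
    Subgroup.upperCentralSeries X 2 = Subgroup.center X ∧ ¬ Group.IsNilpotent X := by
  refine ⟨le_antisymm ?_ ?_, not_nilpotent h⟩
  · rcases S5017.dichotomy h (Subgroup.upperCentralSeries X 2) inferInstance with hA | hZ
    · exfalso
      obtain ⟨n, hn⟩ := S5017.exists_lcs_le h.2 _ hA
      apply not_nilpotent h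
      refine Subgroup.nilpotent_iff_lowerCentralSeries.2
        ⟨n + 1 + 1, Subgroup.lowerCentralSeries_succ_eq_bot _ ?_⟩
      rw [Subgroup.lowerCentralSeries_succ, Subgroup.commutator_le]
      intro x hx y _
      rw [← Subgroup.upperCentralSeries_one]
      exact Subgroup.mem_upperCentralSeries_succ_iff.1 (hn hx) y
    · exact hZ
  · rw [← Subgroup.upperCentralSeries_one]
    exact Subgroup.upperCentralSeries_mono X (by norm_num)

end Cfsg.Agent.S5018
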