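import Cfsg.Statements.S5019
import Cfsg.Agent.RootGroups.Special

set_option autoImplicit false
open Cfsg

namespace Cfsg.Agent.S5019

open CfsgLib.RankOne CfsgLib.RootGroups

section
variable {X : Type*} [Group X] {N : Type*} [AddCommGroup N] [DistribMulAction X N] {A B : Subgroup X}

/-- The vectors fixed by a subgroup. -/
def Fix (A : Subgroup X) (n : N) : Prop := ∀ a ∈ A, a • n = n

lemma fix_all (htop : A ⊔ B = ⊤) {n : N} (hA : Fix A n) (hB : Fix B n) : ∀ x : X, x • n = n := by
  intro x
  have hle : A ⊔ B ≤ MulAction.stabilizer X n := sup_le (fun a ha => hA a ha) (fun b hb => hB b hb)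
  exact hle (htop ▸ Subgroup.mem_top x)

lemma quadratic_conj (hq : ∀ a ∈ A, ∀ a' ∈ A, ∀ n : N, a' • (a • n - n) = a • n - n) {x : X}
    (hB : B = conjBy A x) : ∀ b ∈ B, ∀ b' ∈ B, ∀ n : N, b' • (b • n - n) = b • n - n := by
  subst hB
  rintro _ ⟨a, ha, rfl⟩ _ ⟨a', ha', rfl⟩ n
  simp only [MulEquiv.coe_toMonoidHom, MulAut.conj_apply]
  have e : (x * a * x⁻¹) • n - n = x • (a • (x⁻¹ • n) - x⁻¹ • n) := by
    rw [smul_sub, smul_inv_smul, mul_smul, mul_smul]
  rw [e, mul_smul, mul_smul, inv_smul_smul, hq a ha a' ha']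

/-- A matched pair inverts on the fixed vectors. -/
lemma matched_eq (htop : A ⊔ B = ⊤) (hqA : ∀ a ∈ A, ∀ a' ∈ A, ∀ n : N, a' • (a • n - n) = a • n - n)
    (hqB : ∀ a ∈ B, ∀ a' ∈ B, ∀ n : N, a' • (a • n - n) = a • n - n) {a b : X} (ha : a ∈ A) (hb : b ∈ B)
    (he : conjBy A b⁻¹ = conjBy B a⁻¹) {v : N} (hv : Fix B v) :
    ∀ x : X, x • (v - (b • (a • v - v) - (a • v - v))) = v - (b • (a • v - v) - (a • v - v)) := by
  set w := a • v - v with hw
  have hwA : Fix A w := fun a' ha' => hqA a ha a' ha' v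
  have hainv : a⁻¹ • v = v - w := by
    have h1 : a⁻¹ • w = w := hwA a⁻¹ (A.inv_mem ha)
    rw [hw, smul_sub, inv_smul_smul] at h1
    rw [← sub_sub_self v (a⁻¹ • v), h1]
  have h2 : Fix A (v - b • w) := by
    intro a' ha'
    have hm : b⁻¹ * a' * b⁻¹⁻¹ ∈ conjBy B a⁻¹ := he ▸ conj_mem_conjBy ha'
    obtain ⟨y, hy, hye⟩ := hm
    have e1 : v - b • w = b • (a⁻¹ • v) := by rw [hainv, smul_sub b v w, hv b hb]
    have e2 : a' * b * a⁻¹ = b * a⁻¹ * y := by
      simp only [MulEquiv.coe_toMonoidHom, MulAut.conj_apply, inv_inv] at hye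
      calc a' * b * a⁻¹ = b * (b⁻¹ * a' * b) * a⁻¹ := by group
        _ = b * a⁻¹ * y := by rw [← hye]; group
    rw [e1, ← mul_smul, ← mul_smul, e2, mul_smul _ y, hv y hy, mul_smul]
  refine fix_all htop (fun a' ha' => ?_) (fun b' hb' => ?_)
  · rw [show v - (b • w - w) = (v - b • w) + w by abel, smul_add, h2 a' ha', hwA a' ha']
  · rw [smul_sub, hv b' hb', hqB b hb b' hb' w]

end

/-- Let X be a rank one group with abelian unipotent subgroups A and B, and suppose X acts on an abelian group N (written additively) in such a way that A acts quadratically, meaning a' • (a • n − n) = a • n − n for all a, a' in A and n in N, while X as a whole does not: y • (x • n − n) ≠ x • n − n for some x, y in X and n in N. Then X is a special rank one group. -/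
theorem result {X : Type*} [Group X] {A B : Subgroup X} (h : Cfsg.IsRankOneGroup X A B)
    (hab : Cfsg.HasAbelianUnipotents A B) {N : Type*} [AddCommGroup N] [DistribMulAction X N]
    (hq : ∀ a ∈ A, ∀ a' ∈ A, ∀ n : N, a' • (a • n - n) = a • n - n)
    (hX : ∃ x y : X, ∃ n : N, y • (x • n - n) ≠ x • n - n) : Cfsg.IsSpecialRankOnePair A B := by
  obtain ⟨htop, hp⟩ := h
  obtain ⟨g, -, hBg⟩ := right_mem_unipotent hp
  have hqB := quadratic_conj (N := N) hq hBg
  have htop' : B ⊔ A = ⊤ := sup_comm B A ▸ htop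
  refine special_of_invPairs hp fun a ha ha1 b hb hb1 he => ?_
  obtain ⟨b', hb', -, he'⟩ := hp.cond_left a⁻¹ (A.inv_mem ha) (inv_ne_one.2 ha1)
  have hneg : ∀ v : N, a⁻¹ • v - v = -(a • v - v) := fun v => by
    have h1 := hq a ha a⁻¹ (A.inv_mem ha) v
    rw [smul_sub, inv_smul_smul] at h1
    rw [← h1, neg_sub]
  have hadd : ∀ n : N, (b' * b) • n - n = (b' • n - n) + (b • n - n) := fun n => by
    have h1 := hqB b hb b' hb' n
    rw [smul_sub, sub_eq_iff_eq_add] at h1
    rw [mul_smul, h1]
    abel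
  have hcm : b' * b ∈ B := B.mul_mem hb' hb
  -- the product kills the fixed vectors of `A` modulo global fixed vectors
  have hkey : ∀ u : N, Fix A u → ∀ x : X, x • ((b' * b) • u - u) = (b' * b) • u - u := by
    intro u hu
    have h1 := matched_eq htop' hqB hq hb ha he.symm hu
    have h2 := matched_eq htop' hqB hq hb' (A.inv_mem ha) he'.symm hu
    set q := (b' * b) • u - u with hq'
    have hqf : Fix B q := fun y hy => hqB _ hcm y hy u
    -- `a • q - q` is globally fixed
    have h3 : ∀ x : X, x • (a • q - q) = a • q - q := by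
      intro x
      have e : a • q - q =
          (u - (a⁻¹ • (b' • u - u) - (b' • u - u))) - (u - (a • (b • u - u) - (b • u - u))) := by
        rw [hneg, hq', hadd, smul_add]
        abel
      rw [e, smul_sub, h1 x, h2 x]
    intro x
    have h4 := matched_eq htop hq hqB ha hb he hqf x
    rwa [h3 b, sub_self, sub_zero] at h4
  by_cases hc : b' * b = 1
  · rw [inv_inv, eq_inv_of_mul_eq_one_left hc, inv_inv] at he'
    exact he'
  exfalso
  obtain ⟨a₀, ha₀, -, he₀⟩ := hp.cond_right _ hcm hc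
  have hfixB : ∀ v : N, Fix B v → ∀ x : X, x • v = v := by
    intro v hv x
    have h1 := matched_eq htop hq hqB ha₀ hcm he₀.symm hv x
    rw [smul_sub, hkey _ (fun a' ha' => hq a₀ ha₀ a' ha' v) x] at h1
    exact sub_left_inj.1 h1
  have hfixA : ∀ u : N, Fix A u → ∀ x : X, x • u = u := by
    intro u hu
    have hgu : Fix B (g • u) := by
      rw [hBg]
      rintro _ ⟨y, hy, rfl⟩
      simp only [MulEquiv.coe_toMonoidHom, MulAut.conj_apply]
      rw [mul_smul, mul_smul, inv_smul_smul, hu y hy]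
    intro x
    have h1 := hfixB _ hgu g⁻¹
    rw [inv_smul_smul] at h1
    rw [h1]
    exact hfixB _ hgu x
  obtain ⟨x, y, n, hne⟩ := hX
  apply hne
  have hall : ∀ z : X, ∀ m : N, ∀ w : X, w • (z • m - m) = z • m - m := by
    intro z
    have hz : z ∈ A ⊔ B := htop ▸ Subgroup.mem_top z
    rw [Subgroup.sup_eq_closure] at hz
    have hgen : ∀ z, z ∈ (A : Set X) ∪ (B : Set X) → ∀ m : N, ∀ w : X, w • (z • m - m) = z • m - m :=
      fun z hz m => hz.elim (fun hz => hfixA _ fun a' ha' => hq z hz a' ha' m)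
        (fun hz => hfixB _ fun a' ha' => hqB z hz a' ha' m)
    induction hz using Subgroup.closure_induction'' with
    | mem z hz => exact hgen z hz
    | inv_mem z hz => exact hgen _ (hz.imp A.inv_mem B.inv_mem)
    | one => intro m w; simp
    | mul p q _ _ hp hq =>
      intro m w
      have e : (p * q) • m - m = (q • m - m) + (p • m - m) := by
        have h1 := hq m p
        rw [smul_sub, sub_eq_iff_eq_add] at h1
        rw [mul_smul, h1]; abel
      rw [e, smul_add, hq m w, hp m w]
  exact hall x n y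

end Cfsg.Agent.S5019
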