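import Cfsg.Statements.S5022
import Cfsg.Agent.RootGroups.Power
import Cfsg.Agent.RootGroups.SteinbergSL2

set_option autoImplicit false
open Cfsg

namespace Cfsg.Agent.S5022

/-- Let X be a special rank one group with abelian unipotent subgroups A and B, where A is an elementary abelian p-group for the prime p. Then for every non-identity a in A and the non-identity b in B with b⁻¹ A b = a⁻¹ B a, the subgroup generated by a and b is isomorphic to SL₂(p) or to PSL₂(p). -/
theorem result {X : Type*} [Group X] {A B : Subgroup X} (h : Cfsg.IsRankOneGroup X A B)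
    (hs : Cfsg.IsSpecialRankOnePair A B) (hab : Cfsg.HasAbelianUnipotents A B)
    {p : ℕ} [Fact p.Prime] (hA : Cfsg.IsElementaryAbelian p A)
    {a b : X} (ha : a ∈ A) (ha1 : a ≠ 1) (hb : b ∈ B) (hb1 : b ≠ 1) (hab' : Cfsg.conjBy A b⁻¹ = Cfsg.conjBy B a⁻¹) :
    Nonempty (↥(Subgroup.closure ({a, b} : Set X)) ≃* Matrix.SpecialLinearGroup (Fin 2) (ZMod p)) ∨
    Nonempty (↥(Subgroup.closure ({a, b} : Set X)) ≃* Matrix.ProjectiveSpecialLinearGroup (Fin 2) (ZMod p)) := by
  have hc : ∀ (K : Subgroup X), IsMulCommutative K → ∀ p ∈ K, ∀ q ∈ K, p * q = q * p := fun K hK p hp q hq =>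
    haveI := hK
    congrArg Subtype.val (mul_comm' (⟨p, hp⟩ : K) ⟨q, hq⟩)
  have hP : CfsgLib.RankOnePower.AbPair A B := ⟨hs, hc A hab.1, hc B hab.2⟩
  have hp : p.Prime := Fact.out
  have hBp : ∀ z ∈ B, z ^ p = 1 := by
    intro z hz
    obtain ⟨g, -, hg⟩ := CfsgLib.RankOne.right_mem_unipotent hs.1
    rw [hg] at hz
    obtain ⟨w, hw, rfl⟩ := hz
    rw [← map_pow, hA.2 w hw, map_one]
  have hadd : ∀ z : X, z ^ p = 1 → ∀ x y : ZMod p, z ^ (x + y).val = z ^ x.val * z ^ y.val := fun z hz x y => by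
    rw [ZMod.val_add, ← pow_eq_pow_mod _ hz, pow_add]
  have hmul : ∀ z : X, z ^ p = 1 → ∀ x y : ZMod p, z ^ (x * y).val = (z ^ x.val) ^ y.val := fun z hz x y => by
    rw [ZMod.val_mul, ← pow_eq_pow_mod _ hz, pow_mul]
  have hone : ∀ z : X, z ^ (1 : ZMod p).val = z := fun z => by rw [ZMod.val_one, pow_one]
  have hzero : ∀ z : X, z ≠ 1 → z ^ p = 1 → ∀ x : ZMod p, z ^ x.val = 1 → x = 0 := by
    intro z hz1 hz x hx
    by_contra hx0
    apply hz1
    calc z = z ^ (x * x⁻¹).val := by rw [mul_inv_cancel₀ hx0, hone]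
      _ = 1 := by rw [hmul z hz, hx, one_pow]
  have hap := hA.2 a ha
  have hbp := hBp b hb
  have hmemA : ∀ x : ZMod p, a ^ x.val ∈ A := fun x => A.pow_mem ha _
  have hmemB : ∀ x : ZMod p, b ^ x.val ∈ B := fun x => B.pow_mem hb _
  have hgp : ∀ t : ZMod p, t ≠ 0 → Cfsg.Agent.S5033.gp A B (a ^ t.val) = b ^ (t⁻¹).val := by
    intro t ht
    have h1 : a ^ t.val ≠ 1 := fun e => ht (hzero a ha1 hap t e)
    have h2 := CfsgLib.RankOnePower.powerAt t.val hP a ha h1
    rw [Cfsg.Agent.S5033.gp_eq hs.1 ha ha1 hb hab'] at h2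
    obtain ⟨hg, -, -⟩ := Cfsg.Agent.S5033.gp_spec hs.1 (hmemA t) h1
    calc Cfsg.Agent.S5033.gp A B (a ^ t.val)
        = Cfsg.Agent.S5033.gp A B (a ^ t.val) ^ (t * t⁻¹).val := by rw [mul_inv_cancel₀ ht, hone]
      _ = b ^ (t⁻¹).val := by rw [hmul _ (hBp _ hg), h2]
  have hbraid : ∀ t : ZMod p, t ≠ 0 →
      a ^ t.val * b ^ (-t⁻¹).val * a ^ t.val = b ^ (-t⁻¹).val * a ^ t.val * b ^ (-t⁻¹).val := by
    intro t ht
    have h1 : a ^ t.val ≠ 1 := fun e => ht (hzero a ha1 hap t e)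
    obtain ⟨g1, g2, g3⟩ := Cfsg.Agent.S5033.gp_spec hs.1 (hmemA t) h1
    have hid := hs.2 _ (hmemA t) h1 _ g1 g2 g3
    rw [hgp t ht] at hid
    have e : b ^ (-t⁻¹).val = (b ^ (t⁻¹).val)⁻¹ := eq_inv_of_mul_eq_one_left (by
      rw [← hadd b hbp, neg_add_cancel, ZMod.val_zero, pow_zero])
    rw [e]
    set u := a ^ t.val
    set v := b ^ (t⁻¹).val
    exact Eq.symm <| by
      calc v⁻¹ * u * v⁻¹ = u * (u⁻¹ * v⁻¹ * u) * v⁻¹ := by group
        _ = u * (v⁻¹ * u * v) * v⁻¹ := by rw [hid]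
        _ = u * v⁻¹ * u := by group
  have hconj : ∀ t : ZMod p, t ≠ 0 → ∀ x : ZMod p,
      (a ^ t.val * b ^ (-t⁻¹).val * a ^ t.val) * a ^ x.val =
        b ^ (-(x / t ^ 2)).val * (a ^ t.val * b ^ (-t⁻¹).val * a ^ t.val) := by
    intro t ht x
    have h := hbraid t ht
    set u := a ^ t.val with hu
    set v := b ^ (-t⁻¹).val with hv
    have hsemi : SemiconjBy (u * v * u) u v := by
      show u * v * u * u = v * (u * v * u)
      conv_lhs => rw [h]
      simp only [mul_assoc]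
    have hk := hsemi.pow_right (x / t).val
    rw [hu, hv, ← hmul a hap, ← hmul b hbp, mul_div_cancel₀ _ ht,
      show -t⁻¹ * (x / t) = -(x / t ^ 2) by field_simp] at hk
    exact hk.eq
  let R : CfsgLib.SteinbergSL2.Rel (ZMod p) X :=
    ⟨fun x => a ^ x.val, fun x => b ^ x.val, hadd a hap, hadd b hbp, hbraid, hconj⟩
  have hinf := CfsgLib.RankOne.inf_eq_bot hs.1
  have hker : (CfsgLib.SteinbergSL2.hom R).ker ≤
      Subgroup.center (Matrix.SpecialLinearGroup (Fin 2) (ZMod p)) := by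
    refine CfsgLib.SteinbergSL2.ker_hom_le R (fun x y e => hzero a ha1 hap x ?_) (fun x hx => ?_)
    · have hm : a ^ x.val ∈ A ⊓ B := ⟨hmemA x, (show a ^ x.val = b ^ y.val from e) ▸ hmemB y⟩
      rwa [hinf, Subgroup.mem_bot] at hm
    · by_contra hx0
      have hcm : Commute (a ^ x.val) (b ^ (1 : ZMod p).val) := hx
      rw [hone] at hcm
      exact hs.1.ne (CfsgLib.RankOne.eq_of_commute hs.1 (hmemA x) hb (fun e => hx0 (hzero a ha1 hap x e)) hb1
        CfsgLib.RankOne.left_mem_unipotent (CfsgLib.RankOne.right_mem_unipotent hs.1) hcm.eq)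
  have hrange : (CfsgLib.SteinbergSL2.hom R).range = Subgroup.closure ({a, b} : Set X) := by
    rw [CfsgLib.SteinbergSL2.range_hom]
    refine le_antisymm ((Subgroup.closure_le _).2 ?_) ((Subgroup.closure_le _).2 ?_)
    · rintro _ (⟨x, rfl⟩ | ⟨x, rfl⟩)
      · exact Subgroup.pow_mem _ (Subgroup.subset_closure (by simp)) _
      · exact Subgroup.pow_mem _ (Subgroup.subset_closure (by simp)) _
    · rintro z hz
      simp only [Set.mem_insert_iff, Set.mem_singleton_iff] at hz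
      rcases hz with rfl | rfl
      · exact Subgroup.subset_closure (Or.inl ⟨1, hone _⟩)
      · exact Subgroup.subset_closure (Or.inr ⟨1, hone _⟩)
  have e := (QuotientGroup.quotientKerEquivRange (CfsgLib.SteinbergSL2.hom R)).trans
    (MulEquiv.subgroupCongr hrange)
  by_cases hbot : (CfsgLib.SteinbergSL2.hom R).ker = ⊥
  · exact Or.inl ⟨e.symm.trans ((QuotientGroup.quotientMulEquivOfEq hbot).trans QuotientGroup.quotientBot)⟩
  · right
    have heq : (CfsgLib.SteinbergSL2.hom R).ker = Subgroup.center (Matrix.SpecialLinearGroup (Fin 2) (ZMod p)) := by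
      refine le_antisymm hker fun z hz => ?_
      obtain ⟨⟨k, hk⟩, hk1⟩ := Subgroup.ne_bot_iff_exists_ne_one.1 hbot
      have hscal : ∀ g ∈ Subgroup.center (Matrix.SpecialLinearGroup (Fin 2) (ZMod p)),
          g = 1 ∨ (g : Matrix (Fin 2) (Fin 2) (ZMod p)) = -1 := by
        intro g hg
        obtain ⟨r, hr, hgr⟩ := Matrix.SpecialLinearGroup.mem_center_iff.1 hg
        rw [Fintype.card_fin] at hr
        rcases sq_eq_one_iff.1 hr with rfl | rfl
        · exact Or.inl (Subtype.ext (by rw [← hgr]; simp))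
        · exact Or.inr (by rw [← hgr]; ext i j; fin_cases i <;> fin_cases j <;> simp)
      rcases hscal z hz with rfl | hz'
      · exact one_mem _
      rcases hscal k (hker hk) with rfl | hk'
      · exact absurd rfl (fun e => hk1 (Subtype.ext e))
      rwa [show z = k from Subtype.ext (hz'.trans hk'.symm)]
    exact ⟨e.symm.trans (QuotientGroup.quotientMulEquivOfEq heq)⟩

end Cfsg.Agent.S5022
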