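import Cfsg.Statements.S5033
import Cfsg.Agent.RootGroups.Special

set_option autoImplicit false
open Cfsg
open scoped commutatorElement

namespace Cfsg.Agent.S5033

open CfsgLib.RankOne CfsgLib.RootGroups

section
variable {G : Type*} [Group G] {S : Set (Subgroup G)} {A B C D : Subgroup G}

/-- Evaluation of the swapping element of `(a, b)` at the point attached to `x`. -/
lemma eval (hp : IsSpecialRankOnePair A B) (hcB : ∀ p ∈ B, ∀ q ∈ B, p * q = q * p) {a b x y x' b' : G}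
    (ha : a ∈ A) (ha1 : a ≠ 1) (hb : b ∈ B) (hb1 : b ≠ 1)
    (he : conjBy A b⁻¹ = conjBy B a⁻¹) (hy : y ∈ B) (hey : conjBy A y⁻¹ = conjBy B (x * a)⁻¹)
    (hx' : x' ∈ A) (hx'1 : x' ≠ 1) (hb' : b' ∈ B) (hb'1 : b' ≠ 1) (he' : conjBy A b'⁻¹ = conjBy B x'⁻¹)
    (hu : (b * a⁻¹ * b) * x * (b * a⁻¹ * b)⁻¹ = b'⁻¹) :
    a * x' ≠ 1 ∧ ∀ w ∈ B, w ≠ 1 → conjBy A w⁻¹ = conjBy B (a * x')⁻¹ → w * y = b := by
  obtain ⟨hr, hs⟩ := hp
  have hinv := invPairs_of_identity hr hs
  have hs1 := hs a ha ha1 b hb hb1 he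
  have hbraid : b * a⁻¹ * b = a⁻¹ * b * a⁻¹ := by
    calc b * a⁻¹ * b = (a * (a⁻¹ * b⁻¹ * a) * b⁻¹)⁻¹ := by group
      _ = (a * (b⁻¹ * a * b) * b⁻¹)⁻¹ := by rw [hs1]
      _ = _ := by group
  set m := b * a⁻¹ * b with hm
  have hBm : conjBy B m = A := by
    rw [hm, ← conjBy_conjBy, ← conjBy_conjBy, conjBy_eq_self_of_mem hb, ← he, conjBy_conjBy, mul_inv_cancel,
      conjBy_one]
  have h1 : conjBy B (m * x⁻¹) = conjBy (conjBy A (b * y⁻¹)) a⁻¹ := by
    rw [hbraid, show a⁻¹ * b * a⁻¹ * x⁻¹ = a⁻¹ * (b * (x * a)⁻¹) by group, ← conjBy_conjBy, ← conjBy_conjBy,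
      ← hey, conjBy_conjBy A]
  have h2 : conjBy B (m * x⁻¹) = conjBy B x' := by
    rw [show m * x⁻¹ = (m * x * m⁻¹)⁻¹ * m by group, hu, inv_inv, ← conjBy_conjBy, hBm]
    exact hinv x' hx' hx'1 b' hb' hb'1 he'
  have h3 : conjBy A (b * y⁻¹) = conjBy B (a * x') := by
    have h4 := congrArg (fun Z => conjBy Z a) (h1.symm.trans h2)
    simp only [conjBy_conjBy, mul_inv_cancel_left] at h4
    exact h4
  have hax : a * x' ≠ 1 := fun e => hr.ne <| by
    rw [e, conjBy_one, conjBy_eq_iff, conjBy_eq_self_of_mem (B.inv_mem (B.mul_mem hb (B.inv_mem hy)))] at h3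
    exact h3
  refine ⟨hax, fun w hw hw1 hew => ?_⟩
  rw [← hinv _ (A.mul_mem ha hx') hax w hw hw1 hew] at h3
  rw [← conj_injective (RankOnePair_symm hr) (B.mul_mem hb (B.inv_mem hy)) hw h3, inv_mul_cancel_right]

open Classical in
/-- The partner in `B` of an element of `A`. -/
noncomputable def gp (A B : Subgroup G) (z : G) : G :=
  if h : ∃ b, b ∈ B ∧ b ≠ 1 ∧ conjBy A b⁻¹ = conjBy B z⁻¹ then h.choose else 1

lemma gp_spec (hr : IsRankOnePair A B) {z : G} (hz : z ∈ A) (hz1 : z ≠ 1) :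
    gp A B z ∈ B ∧ gp A B z ≠ 1 ∧ conjBy A (gp A B z)⁻¹ = conjBy B z⁻¹ := by
  have h : ∃ b, b ∈ B ∧ b ≠ 1 ∧ conjBy A b⁻¹ = conjBy B z⁻¹ := by
    obtain ⟨b, hb, hb1, he⟩ := hr.cond_left z hz hz1
    exact ⟨b, hb, hb1, he⟩
  rw [gp, dif_pos h]
  exact h.choose_spec

lemma gp_eq (hr : IsRankOnePair A B) {z b : G} (hz : z ∈ A) (hz1 : z ≠ 1) (hb : b ∈ B)
    (he : conjBy A b⁻¹ = conjBy B z⁻¹) : gp A B z = b := by
  obtain ⟨h1, -, h3⟩ := gp_spec hr hz hz1
  exact inv_injective (conj_injective (RankOnePair_symm hr) (B.inv_mem h1) (B.inv_mem hb) (h3.trans he.symm))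

lemma gp_inj (hr : IsRankOnePair A B) {z z' : G} (hz : z ∈ A) (hz1 : z ≠ 1) (hz' : z' ∈ A) (hz'1 : z' ≠ 1)
    (e : gp A B z = gp A B z') : z = z' := by
  have h := (gp_spec hr hz hz1).2.2
  rw [e, (gp_spec hr hz' hz'1).2.2] at h
  exact inv_injective (conj_injective hr (A.inv_mem hz) (A.inv_mem hz') h.symm)

lemma gp_inv (hp : IsSpecialRankOnePair A B) {z : G} (hz : z ∈ A) (hz1 : z ≠ 1) :
    gp A B z⁻¹ = (gp A B z)⁻¹ := by
  obtain ⟨h1, h2, h3⟩ := gp_spec hp.1 hz hz1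
  refine gp_eq hp.1 (A.inv_mem hz) (inv_ne_one.2 hz1) (B.inv_mem h1) ?_
  rw [inv_inv, inv_inv]
  exact invPairs_of_identity hp.1 hp.2 z hz hz1 _ h1 h2 h3

/-- A special pair with three non-identity elements of `A` has no abelian quotient faithful on `A` and `B`. -/
lemma three_absurd {Q : Type*} [Group Q] (hp : IsSpecialRankOnePair A B)
    (hcA : ∀ p ∈ A, ∀ q ∈ A, p * q = q * p) (hcB : ∀ p ∈ B, ∀ q ∈ B, p * q = q * p)
    (W : Subgroup G) (π : ↥W →* Q) (hW : ∀ z ∈ A, z ≠ 1 → z ∈ W → gp A B z ∈ W)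
    (hcomm : ∀ z w : ↥W, ((z : G) ∈ A ∨ (z : G) ∈ B) → ((w : G) ∈ A ∨ (w : G) ∈ B) → Commute (π z) (π w))
    (hker : ∀ z : ↥W, (z : G) ∈ B → π z = 1 → (z : G) = 1)
    {a x : G} (ha : a ∈ A) (haW : a ∈ W) (ha1 : a ≠ 1) (hx : x ∈ A) (hxW : x ∈ W) (hx1 : x ≠ 1)
    (hxa : x ≠ a) (hxai : x ≠ a⁻¹) : False := by
  obtain ⟨hr, hs⟩ := hp
  have hpair := (⟨hr, hs⟩ : IsSpecialRankOnePair A B)
  set g := gp A B with hg
  -- the image of `g z` is the inverse of that of `z`
  have himg : ∀ z (hz : z ∈ A) (hzW : z ∈ W) (hz1 : z ≠ 1),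
      π ⟨g z, hW z hz hz1 hzW⟩ = (π ⟨z, hzW⟩)⁻¹ := by
    intro z hz hzW hz1
    obtain ⟨h1, h2, h3⟩ := gp_spec hr hz hz1
    set Z : ↥W := ⟨z, hzW⟩
    set Y : ↥W := ⟨g z, hW z hz hz1 hzW⟩
    have hid : Y⁻¹ * Z * Y = Z⁻¹ * Y⁻¹ * Z := Subtype.ext (hs z hz hz1 _ h1 h2 h3)
    have h4 := congrArg π hid
    simp only [map_mul, map_inv] at h4
    have hc : Commute (π Z) (π Y) := hcomm Z Y (Or.inl hz) (Or.inr h1)
    rw [mul_assoc, hc.eq, inv_mul_cancel_left, mul_assoc, ← hc.inv_right.eq, inv_mul_cancel_left] at h4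
    rw [h4, inv_inv]
  have hhom : ∀ p ∈ A, ∀ q ∈ A, p ∈ W → q ∈ W → p ≠ 1 → q ≠ 1 → p * q ≠ 1 → g (p * q) = g p * g q := by
    intro p hp' q hq hpW hqW hp1 hq1 hpq
    have hm := A.mul_mem hp' hq
    have hmW := W.mul_mem hpW hqW
    have e : π (⟨g (p * q), hW _ hm hpq hmW⟩ * (⟨g p, hW p hp' hp1 hpW⟩ * ⟨g q, hW q hq hq1 hqW⟩)⁻¹) = 1 := by
      rw [map_mul, map_inv, map_mul, himg _ hm hmW hpq, himg p hp' hpW hp1, himg q hq hqW hq1, mul_inv_rev,
        inv_inv, inv_inv, show (⟨p * q, hmW⟩ : ↥W) = ⟨p, hpW⟩ * ⟨q, hqW⟩ from rfl, map_mul]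
      rw [(hcomm ⟨p, hpW⟩ ⟨q, hqW⟩ (Or.inl hp') (Or.inl hq)).eq, inv_mul_cancel]
    refine mul_inv_eq_one.1 (hker _ ?_ e)
    exact B.mul_mem (gp_spec hr hm hpq).1
      (B.inv_mem (B.mul_mem (gp_spec hr hp' hp1).1 (gp_spec hr hq hq1).1))
  have key : ∀ a x : G, a ∈ A → a ∈ W → a ≠ 1 → x ∈ A → x ∈ W → x ≠ 1 → x ≠ a → x ≠ a⁻¹ → a * (x * x) = 1 := by
    intro a x ha haW ha1 hx hxW hx1 hxa hxai
    obtain ⟨hb, hb1, he⟩ := gp_spec hr ha ha1
    have hax : x * a ≠ 1 := fun e => hxai (eq_inv_of_mul_eq_one_left e)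
    have hax' : a * x ≠ 1 := by rwa [hcA a ha x hx]
    obtain ⟨hy, hy1, hey⟩ := gp_spec hr (A.mul_mem hx ha) hax
    obtain ⟨hgx, hgx1, hegx⟩ := gp_spec hr hx hx1
    set m := g a * a⁻¹ * g a with hm
    have hmW : m ∈ W := W.mul_mem (W.mul_mem (hW a ha ha1 haW) (W.inv_mem haW)) (hW a ha ha1 haW)
    have huB : m * x * m⁻¹ ∈ B := by
      have e1 : conjBy A m = B := by
        rw [hm, ← conjBy_conjBy, invPairs_of_identity hr hs a ha ha1 _ hb hb1 he, conjBy_conjBy,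
          inv_mul_cancel_right, conjBy_eq_self_of_mem hb]
      exact e1 ▸ conj_mem_conjBy hx
    have hcmx : Commute (π ⟨m, hmW⟩) (π ⟨x, hxW⟩) := by
      have e : (⟨m, hmW⟩ : ↥W) = ⟨g a, hW a ha ha1 haW⟩ * ⟨a, haW⟩⁻¹ * ⟨g a, hW a ha ha1 haW⟩ := rfl
      rw [e, map_mul, map_mul, map_inv]
      exact ((hcomm _ _ (Or.inr hb) (Or.inl hx)).mul_left (hcomm _ _ (Or.inl ha) (Or.inl hx)).inv_left).mul_left
        (hcomm _ _ (Or.inr hb) (Or.inl hx))
    have hu : m * x * m⁻¹ = (g x)⁻¹ := by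
      refine eq_inv_of_mul_eq_one_left (hker (⟨m, hmW⟩ * ⟨x, hxW⟩ * ⟨m, hmW⟩⁻¹ * ⟨g x, hW x hx hx1 hxW⟩)
        (B.mul_mem huB hgx) ?_)
      rw [map_mul, map_mul, map_mul, map_inv, himg x hx hxW hx1, hcmx.eq, mul_inv_cancel_right, mul_inv_cancel]
    have h := (eval hpair hcB ha ha1 hb hb1 he hy hey hx hx1 hgx hgx1 hegx hu).2 (g (x * a)) hy hy1
      (by rw [hcA a ha x hx]; exact hey)
    have hh : g (x * a) = g x * g a := hhom x hx a ha hxW haW hx1 ha1 hax
    rw [show gp A B (x * a) = g x * g a from hh, hh] at h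
    have h' : g x * g x * g a = 1 := by
      have e2 : g a * (g x * g x * g a) = g a := by
        calc g a * (g x * g x * g a) = (g a * g x) * g x * g a := by simp only [mul_assoc]
          _ = (g x * g a) * g x * g a := by rw [hcB _ hb _ hgx]
          _ = g a := by rw [mul_assoc (g x * g a)]; exact h
      exact mul_eq_left.1 e2
    by_contra hne
    by_cases hxx : x * x = 1
    · have e3 : g x = (g x)⁻¹ := by rw [hg, ← gp_inv hpair hx hx1, inv_eq_of_mul_eq_one_right hxx]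
      refine hb1 ?_
      have : g x * g x = 1 := by
        calc g x * g x = g x * (g x)⁻¹ := by rw [← e3]
          _ = 1 := mul_inv_cancel _
      rwa [this, one_mul] at h'
    · have hne' : (x * x) * a ≠ 1 := by rwa [← hcA a ha _ (A.mul_mem hx hx)]
      rw [← hhom x hx x hx hxW hxW hx1 hx1 hxx,
        ← hhom _ (A.mul_mem hx hx) a ha (W.mul_mem hxW hxW) haW hxx ha1 hne'] at h'
      exact (gp_spec hr (A.mul_mem (A.mul_mem hx hx) ha) hne').2.1 h'
  have h1 := key a x ha haW ha1 hx hxW hx1 hxa hxai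
  have h2 := key x a hx hxW hx1 ha haW ha1 hxa.symm (fun e => hxai (by rw [e, inv_inv]))
  have h3 : x = (a * a)⁻¹ := eq_inv_of_mul_eq_one_left h2
  have h4 : a * a * a = 1 := by
    rw [h3] at h1
    calc a * a * a = (a * ((a * a)⁻¹ * (a * a)⁻¹))⁻¹ := by simp [mul_assoc]
      _ = 1 := by rw [h1, inv_one]
  exact hxa (h3.trans (inv_eq_of_mul_eq_one_right h4))

lemma of_eq_iff {z w : G} : Abelianization.of z = Abelianization.of w ↔ z * w⁻¹ ∈ commutator G := by
  rw [← mul_inv_eq_one, ← map_inv, ← map_mul, ← MonoidHom.mem_ker, Abelianization.ker_of]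

lemma mul_gp_mem (hp : IsSpecialRankOnePair A B) {z : G} (hz : z ∈ A) (hz1 : z ≠ 1) :
    z * gp A B z ∈ commutator G := by
  obtain ⟨h1, h2, h3⟩ := gp_spec hp.1 hz hz1
  have h := congrArg (Abelianization.of (G := G)) (hp.2 z hz hz1 _ h1 h2 h3)
  simp only [map_mul, map_inv] at h
  have e : Abelianization.of z = (Abelianization.of (gp A B z))⁻¹ := by
    rw [mul_comm, ← mul_assoc, mul_inv_cancel, one_mul, mul_comm, ← mul_assoc, mul_inv_cancel, one_mul] at h
    exact h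
  rw [← map_inv, of_eq_iff, inv_inv] at e
  exact e

lemma exists_two (h : (3 : ℕ∞) < ENat.card A) :
    ∀ e : G, ∃ a ∈ A, a ≠ 1 ∧ a ≠ e ∧ a ≠ e⁻¹ := by
  intro e
  by_contra hno
  push Not at hno
  have hsub : (A : Set G) ⊆ {1, e, e⁻¹} := fun y hy => by
    by_cases h1 : y = 1
    · exact Or.inl h1
    by_cases h2 : y = e
    · exact Or.inr (Or.inl h2)
    exact Or.inr (Or.inr (hno y hy h1 h2))
  have h3 := (Set.encard_le_encard hsub).trans ((Set.encard_insert_le _ _).trans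
    (add_le_add ((Set.encard_insert_le _ _).trans (le_of_eq (by rw [Set.encard_singleton]))) le_rfl))
  have h5 : ENat.card A ≤ 3 := h3.trans (by norm_num)
  exact absurd (h.trans_le h5) (lt_irrefl _)

/-- `A ∩ G'` has at least three non-identity-free choices. -/
lemma exists_three (hp : IsSpecialRankOnePair A B) (hcA : ∀ p ∈ A, ∀ q ∈ A, p * q = q * p)
    (hcB : ∀ p ∈ B, ∀ q ∈ B, p * q = q * p) (h : (3 : ℕ∞) < ENat.card A) :
    ∃ a ∈ A, ∃ x ∈ A, a ∈ commutator G ∧ x ∈ commutator G ∧ a ≠ 1 ∧ x ≠ 1 ∧ x ≠ a ∧ x ≠ a⁻¹ := by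
  by_contra hno
  push Not at hno
  have hr := hp.1
  have hgK : ∀ z ∈ A, z ≠ 1 → (z ∈ commutator G ↔ gp A B z ∈ commutator G) := fun z hz hz1 =>
    ⟨fun hk => by simpa using mul_mem (inv_mem hk) (mul_gp_mem hp hz hz1),
      fun hk => by simpa using mul_mem (mul_gp_mem hp hz hz1) (inv_mem hk)⟩
  have hsurj : ∀ w ∈ B, w ≠ 1 → ∃ z ∈ A, z ≠ 1 ∧ gp A B z = w := fun w hw hw1 => by
    obtain ⟨z, hz, hz1, he⟩ := hr.cond_right w hw hw1
    exact ⟨z, hz, hz1, gp_eq hr hz hz1 hw he.symm⟩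
  by_cases hT : ∀ z ∈ A, z ∈ commutator G → z = 1
  · obtain ⟨a, ha, ha1, -, -⟩ := exists_two h 1
    obtain ⟨x, hx, hx1, hxa, hxai⟩ := exists_two h a
    refine three_absurd hp hcA hcB ⊤ ((Abelianization.of (G := G)).comp (⊤ : Subgroup G).subtype)
      (fun z _ _ _ => Subgroup.mem_top _) (fun z w _ _ => mul_comm _ _) ?_ ha (Subgroup.mem_top a) ha1 hx
      (Subgroup.mem_top x) hx1 hxa hxai
    intro z hz hzk
    by_contra hz1
    obtain ⟨t, ht, ht1, hte⟩ := hsurj _ hz hz1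
    refine ht1 (hT t ht ((hgK t ht ht1).2 ?_))
    rw [hte, ← Abelianization.ker_of]
    exact MonoidHom.mem_ker.2 hzk
  push Not at hT
  obtain ⟨e, he, heK, he1⟩ := hT
  have hT' : ∀ z ∈ A, z ∈ commutator G → z ≠ 1 → z = e ∨ z = e⁻¹ := fun z hz hzK hz1 => by
    by_cases hze : z = e
    · exact Or.inl hze
    exact Or.inr (hno e he z hz heK hzK he1 hz1 hze)
  obtain ⟨hf, hf1, hef⟩ := gp_spec hr he he1
  set g := gp A B with hg
  have hM : ∀ a ∈ A, a ∉ commutator G → g (e * a) * g (e * a) = g a → False := by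
    intro a ha hak hy
    have ha1 : a ≠ 1 := fun e' => hak (e' ▸ one_mem _)
    have hea : e * a ≠ 1 := fun e' => hak (by rw [eq_inv_of_mul_eq_one_right e']; exact inv_mem heK)
    obtain ⟨hb, hb1, heb⟩ := gp_spec hr ha ha1
    obtain ⟨hyB, hy1, hey⟩ := gp_spec hr (A.mul_mem he ha) hea
    by_cases ha2 : a * a = 1
    · have hbb : g a * g a = 1 := by
        have e3 : g a = (g a)⁻¹ := by rw [hg, ← gp_inv hp ha ha1, inv_eq_of_mul_eq_one_right ha2]
        calc g a * g a = g a * (g a)⁻¹ := by rw [← e3]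
          _ = 1 := mul_inv_cancel _
      have hsq : (e * a) * (e * a) = e * e := by
        calc (e * a) * (e * a) = (e * a) * (a * e) := by rw [hcA e he a ha]
          _ = e * (a * a) * e := by group
          _ = e * e := by rw [ha2, mul_one]
      by_cases hee : e * e = 1
      · have e3 : g (e * a) = (g (e * a))⁻¹ := by
          rw [hg, ← gp_inv hp (A.mul_mem he ha) hea, inv_eq_of_mul_eq_one_right (hsq.trans hee)]
        refine hb1 (hy.symm.trans ?_)
        calc g (e * a) * g (e * a) = g (e * a) * (g (e * a))⁻¹ := by rw [← e3]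
          _ = 1 := mul_inv_cancel _
      obtain ⟨hη, hη1, heη⟩ := gp_spec hr (A.mul_mem he he) hee
      have hsqrt := sqrt_pair hp hcB (A.mul_mem he ha) (hsq ▸ hee) hyB hey hη (by rw [hsq]; exact heη)
      have hηK := (hgK _ (A.mul_mem he he) hee).1 (mul_mem heK heK)
      have hyK : g (e * a) ∈ commutator G := by
        have := mul_mem hηK hηK
        rwa [hsqrt] at this
      refine hak ((hgK a ha ha1).2 ?_)
      show g a ∈ commutator G
      rw [← hy]
      exact mul_mem hyK hyK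
    · obtain ⟨hη, hη1, heη⟩ := gp_spec hr (A.mul_mem ha ha) ha2
      have hsqrt := sqrt_pair hp hcB ha ha2 hb heb hη heη
      have hBA : IsSpecialRankOnePair B A :=
        special_of_invPairs (RankOnePair_symm hr) (invPairs_symm (invPairs_of_identity hr hp.2))
      have h1 := eq_of_sq_eq hBA hcA hη hyB (by rw [hsqrt]; exact hb1) (hsqrt.trans hy.symm)
      exact hak (mul_right_cancel (gp_inj hr (A.mul_mem ha ha) ha2 (A.mul_mem he ha) hea h1) ▸ heK)
  have hP : ∀ a ∈ A, a ∉ commutator G →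
      g (a * e⁻¹) * g (e * a) = g a ∧ e * e ≠ 1 := by
    intro a ha hak
    have ha1 : a ≠ 1 := fun e' => hak (e' ▸ one_mem _)
    have hea : e * a ≠ 1 := fun e' => hak (by rw [eq_inv_of_mul_eq_one_right e']; exact inv_mem heK)
    obtain ⟨hb, hb1, heb⟩ := gp_spec hr ha ha1
    obtain ⟨hyB, hy1, hey⟩ := gp_spec hr (A.mul_mem he ha) hea
    set m := g a * a⁻¹ * g a with hm
    have huB : m * e * m⁻¹ ∈ B := by
      have e1 : conjBy A m = B := by
        rw [hm, ← conjBy_conjBy, invPairs_of_identity hr hp.2 a ha ha1 _ hb hb1 heb, conjBy_conjBy,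
          inv_mul_cancel_right, conjBy_eq_self_of_mem hb]
      exact e1 ▸ conj_mem_conjBy he
    have huK : m * e * m⁻¹ ∈ commutator G := (inferInstance : (commutator G).Normal).conj_mem e heK m
    obtain ⟨t, ht, ht1, hte⟩ := hsurj _ huB (conj_ne_one he1)
    rcases hT' t ht ((hgK t ht ht1).2 (by rw [hte]; exact huK)) ht1 with rfl | rfl
    · -- here `u = g e`
      have hu : m * t * m⁻¹ = (g t⁻¹)⁻¹ := by rw [hg, gp_inv hp ht ht1, inv_inv]; exact hte.symm
      obtain ⟨h1, h2, h3⟩ := gp_spec hr (A.inv_mem ht) (inv_ne_one.2 ht1)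
      obtain ⟨hne, hw⟩ := eval hp hcB ha ha1 hb hb1 heb hyB hey (A.inv_mem ht) (inv_ne_one.2 ht1) h1 h2 h3 hu
      obtain ⟨h4, h5, h6⟩ := gp_spec hr (A.mul_mem ha (A.inv_mem ht)) hne
      have h7 := hw _ h4 h5 h6
      refine ⟨h7, fun htt => hM a ha hak ?_⟩
      rwa [inv_eq_of_mul_eq_one_right htt, hcA a ha t ht] at h7
    · have hu : m * e * m⁻¹ = (g e)⁻¹ := by rw [← hte, hg, gp_inv hp he he1]
      obtain ⟨hne, hw⟩ := eval hp hcB ha ha1 hb hb1 heb hyB hey he he1 hf hf1 hef hu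
      have h7 := hw _ hyB hy1 (by rw [hcA a ha e he]; exact hey)
      exact (hM a ha hak h7).elim
  have hstep : ∀ a ∈ A, a ∉ commutator G → a * e⁻¹ * (a * e⁻¹) = 1 := by
    intro a ha hak
    obtain ⟨h1, hee⟩ := hP a ha hak
    have hee' : e * e = e⁻¹ := (hT' _ (A.mul_mem he he) (mul_mem heK heK) hee).resolve_left
      fun h => he1 (mul_eq_left.1 h)
    have hae : a * e ∉ commutator G := fun h => hak (by simpa using mul_mem h (inv_mem heK))
    obtain ⟨h2, -⟩ := hP _ (A.mul_mem ha he) hae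
    rw [mul_inv_cancel_right, ← mul_assoc, hcA e he a ha, mul_assoc a e e, hee'] at h2
    rw [hcA e he a ha] at h1
    have hne : a * e⁻¹ ≠ 1 := fun h => hak (by rw [mul_inv_eq_one.1 h]; exact heK)
    have ha1 : a ≠ 1 := fun e' => hak (e' ▸ one_mem _)
    obtain ⟨hw, hw1, -⟩ := gp_spec hr (A.mul_mem ha (A.inv_mem he)) hne
    obtain ⟨hb, -, -⟩ := gp_spec hr ha ha1
    have h3 : g (a * e⁻¹) * g (a * e⁻¹) = 1 := by
      rw [← h2, ← mul_assoc] at h1
      calc g (a * e⁻¹) * g (a * e⁻¹) = (g a)⁻¹ * (g (a * e⁻¹) * g a * g (a * e⁻¹)) := by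
            rw [show g (a * e⁻¹) * g a = g a * g (a * e⁻¹) from hcB _ hw _ hb]; group
        _ = 1 := by rw [h1, inv_mul_cancel]
    have h4 : g (a * e⁻¹)⁻¹ = g (a * e⁻¹) := by
      rw [hg, gp_inv hp (A.mul_mem ha (A.inv_mem he)) hne]; exact inv_eq_of_mul_eq_one_right h3
    have h5 := gp_inj hr (A.inv_mem (A.mul_mem ha (A.inv_mem he))) (inv_ne_one.2 hne)
      (A.mul_mem ha (A.inv_mem he)) hne h4
    calc a * e⁻¹ * (a * e⁻¹) = (a * e⁻¹) * (a * e⁻¹)⁻¹ := by rw [h5]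
      _ = 1 := mul_inv_cancel _
  obtain ⟨a, ha, ha1, hae, haei⟩ := exists_two h e
  have hak : a ∉ commutator G := fun hk => (hT' a ha hk ha1).elim hae haei
  have hak' : a⁻¹ ∉ commutator G := fun hk => hak (by simpa using inv_mem hk)
  have s1 := hstep a ha hak
  have s2 := hstep a⁻¹ (A.inv_mem ha) hak'
  obtain ⟨-, hee⟩ := hP a ha hak
  have hee' : e * e = e⁻¹ := (hT' _ (A.mul_mem he he) (mul_mem heK heK) hee).resolve_left
    fun h => he1 (mul_eq_left.1 h)
  have c1 : Commute a e⁻¹ := hcA a ha _ (A.inv_mem he)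
  have h6 : e⁻¹ * e⁻¹ * (e⁻¹ * e⁻¹) = 1 := by
    calc e⁻¹ * e⁻¹ * (e⁻¹ * e⁻¹) = (e⁻¹ * e⁻¹) * (a * a * (a⁻¹ * a⁻¹)) * (e⁻¹ * e⁻¹) := by group
      _ = (a * e⁻¹ * (a * e⁻¹)) * (a⁻¹ * e⁻¹ * (a⁻¹ * e⁻¹)) := by
          have c2 : Commute a⁻¹ e⁻¹ := c1.inv_left
          simp only [mul_assoc, c1.symm.eq, c1.symm.left_comm, c2.symm.eq, c2.symm.left_comm]
      _ = 1 := by rw [s1, s2, one_mul]
  have h7 : e * e * (e * e) = 1 := by
    calc e * e * (e * e) = (e⁻¹ * e⁻¹ * (e⁻¹ * e⁻¹))⁻¹ := by simp [mul_assoc]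
      _ = 1 := by rw [h6, inv_one]
  rw [hee'] at h7
  refine hee ?_
  calc e * e = (e⁻¹ * e⁻¹)⁻¹ := by simp
    _ = 1 := by rw [h7, inv_one]

/-- The hypotheses of the criterion. -/
structure Crit (S : Set (Subgroup G)) : Prop where
  root : IsRootSubgroupSet S
  two : ∃ A ∈ S, ∃ B ∈ S, A ≠ B
  conn : IsConnectedFamily (FAdj S) S
  sep : ∀ A ∈ S, ∀ C ∈ S, A ≠ C → centralizingMembers S A ≠ centralizingMembers S C
  big : IsDegenerateRootSet S → ∀ A ∈ S, 3 < ENat.card A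
  special : ∀ A ∈ S, ∀ B ∈ rankOnePartners S A, IsSpecialRankOnePair A B

namespace Crit

variable {N : Subgroup G}

lemma ni (h : Crit S) (hA : A ∈ S) : ∃ B ∈ S, IsRankOnePair A B := by
  obtain ⟨X, hX, Y, hY, hne⟩ := h.two
  obtain ⟨Z, hZ, hAZ⟩ : ∃ Z ∈ S, A ≠ Z := by
    by_cases e : A = X
    · exact ⟨Y, hY, e ▸ hne⟩
    · exact ⟨X, hX, e⟩
  rcases Relation.ReflTransGen.cases_head (h.conn A hA Z hZ) with e | ⟨W, hW, -⟩
  · exact absurd e hAZ
  · exact ⟨W, hW.2.1, hW.2.2⟩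

lemma cls (h : Crit S) : IsRootSubgroupClass S := by
  obtain ⟨X, hX, -⟩ := h.two
  refine ⟨h.root, ⟨X, hX⟩, fun A hA B hB => ?_⟩
  have hr := h.conn A hA B hB
  clear hB
  induction hr with
  | refl => exact ⟨1, (conjBy_one A).symm⟩
  | @tail Y Z _ hYZ ih =>
    obtain ⟨g, rfl⟩ := ih
    obtain ⟨x, -, hx⟩ := right_mem_unipotent hYZ.2.2
    exact ⟨x * g, by rw [hx, conjBy_conjBy]⟩

lemma nondeg (h : Crit S) (hd : ¬ IsDegenerateRootSet S) : IsNondegenerateRootSet S := by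
  simp only [IsDegenerateRootSet, not_forall, not_not] at hd
  obtain ⟨X, hX, Y, hY, hc⟩ := hd
  obtain ⟨Z, hZ, hp⟩ := h.ni hX
  have hXL : ⁅X, ⁅X, Y⁆⁆ = ⊥ :=
    CfsgLib.RootGroups.commutator_eq_bot_iff.2 fun x hx y hy => (case_comm_left hc hy hx).symm
  refine ⟨⟨X, hX, ⁅X, Y⁆, hc.1, ?_, hXL⟩, ⟨X, hX, Z, hZ, hp⟩, ⟨X, hX, Y, hY, hc⟩⟩
  intro e
  refine h.root.ne_bot _ hc.1 (CfsgLib.RootGroups.commutator_eq_bot_iff.2 fun x hx y hy => ?_)
  exact case_comm_right hc (e ▸ hx) hy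

lemma comm (h : Crit S) (hA : A ∈ S) : ∀ p ∈ A, ∀ q ∈ A, p * q = q * p :=
  fun _ hp _ hq => mul_comm_of_mem h.root hA hp hq

lemma sup_eq_top (h : Crit S) (hA : A ∈ S) : commutator G ⊔ A = ⊤ := by
  rw [eq_top_iff, ← h.root.generates]
  refine iSup₂_le fun Z hZ => ?_
  obtain ⟨g, rfl⟩ := h.cls.2.2 A hA Z hZ
  rintro _ ⟨a, ha, rfl⟩
  rw [MulEquiv.coe_toMonoidHom, MulAut.conj_apply, show g * a * g⁻¹ = (g * a * g⁻¹ * a⁻¹) * a by group]
  exact mul_mem (Subgroup.mem_sup_left (Subgroup.commutator_mem_commutator (Subgroup.mem_top g)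
    (Subgroup.mem_top a))) (Subgroup.mem_sup_right ha)

lemma top_of_le (h : Crit S) (hA : A ∈ S) (hle : A ≤ commutator G) : commutator G = ⊤ := by
  rw [← sup_eq_left.2 hle, h.sup_eq_top hA]

lemma top_of_nondeg (h : Crit S) (hnd : IsNondegenerateRootSet S) : commutator G = ⊤ := by
  obtain ⟨X, -, Y, -, hc⟩ := hnd.2.2
  exact h.top_of_le hc.1 (Subgroup.commutator_mono le_top le_top)

lemma three (h : Crit S) (hd : IsDegenerateRootSet S) (hA : A ∈ S) : ∃ a ∈ A, ∃ x ∈ A,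
    a ∈ commutator G ∧ x ∈ commutator G ∧ a ≠ 1 ∧ x ≠ 1 ∧ x ≠ a ∧ x ≠ a⁻¹ := by
  obtain ⟨B, hB, hp⟩ := h.ni hA
  exact exists_three (h.special A hA B ⟨hB, hp⟩) (h.comm hA) (h.comm hB) (h.big hd A hA)

lemma inf_ne_bot (h : Crit S) (hA : A ∈ S) : ∃ a ∈ A, a ∈ commutator G ∧ a ≠ 1 := by
  by_cases hd : IsDegenerateRootSet S
  · obtain ⟨a, ha, x, -, haK, -, ha1, -⟩ := h.three hd hA
    exact ⟨a, ha, haK, ha1⟩
  · obtain ⟨a, ha, ha1⟩ := exists_nonid h.root hA
    exact ⟨a, ha, by rw [h.top_of_nondeg (h.nondeg hd)]; exact Subgroup.mem_top a, ha1⟩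

/-- A rank one pair is never commutative modulo a normal subgroup meeting the members trivially. -/
lemma key (h : Crit S) [N.Normal] (hN : ∀ A ∈ S, ∀ a ∈ A, a ∈ N → a = 1) (hC : C ∈ S) (hB : B ∈ S)
    (hp : IsRankOnePair C B) (hcb : ⁅C, B⁆ ≤ N) : False := by
  have hq : ∀ c ∈ C, ∀ b ∈ B, Commute (QuotientGroup.mk' N c) (QuotientGroup.mk' N b) := by
    intro c hc b hb
    have h1 : QuotientGroup.mk' N (c * b * c⁻¹ * b⁻¹) = 1 :=
      (QuotientGroup.eq_one_iff _).2 (hcb (CfsgLib.RootGroups.commutator_mem hc hb))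
    rw [map_mul, map_mul, map_mul, map_inv, map_inv, mul_inv_eq_one, mul_inv_eq_iff_eq_mul] at h1
    exact h1
  by_cases hd : IsDegenerateRootSet S
  · obtain ⟨a, ha, ha1, -, -⟩ := exists_two (h.big hd C hC) 1
    obtain ⟨x, hx, hx1, hxa, hxai⟩ := exists_two (h.big hd C hC) a
    refine three_absurd (h.special C hC B ⟨hB, hp⟩) (h.comm hC) (h.comm hB) ⊤
      ((QuotientGroup.mk' N).comp (⊤ : Subgroup G).subtype) (fun z _ _ _ => Subgroup.mem_top _) ?_
      (fun z hz hzk => hN B hB _ hz ((QuotientGroup.eq_one_iff _).1 hzk)) ha (Subgroup.mem_top a) ha1 hx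
      (Subgroup.mem_top x) hx1 hxa hxai
    rintro z w (hz | hz) (hw | hw)
    · exact (show Commute (z : G) w from h.comm hC _ hz _ hw).map (QuotientGroup.mk' N)
    · exact hq _ hz _ hw
    · exact (hq _ hw _ hz).symm
    · exact (show Commute (z : G) w from h.comm hB _ hz _ hw).map (QuotientGroup.mk' N)
  · have hnd := h.nondeg hd
    obtain ⟨D, hD, hnr, hcase⟩ := exists_axis_partner h.cls hnd hC hB hp
    have hni := class_not_isolated h.cls hnd
    obtain ⟨heq, -⟩ := axis_eq h.root (line_of_linePartners h.root hC hD) ⟨hC, le_sup_left⟩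
      ⟨hD.1.1, le_sup_right⟩ hD.1.2.1 hB hp hnr (hni D hD.1.1)
    obtain ⟨d, hd', hd1⟩ := exists_nonid h.root hD.1.1
    refine hd1 (hN D hD.1.1 d hd' ((?_ : D ≤ N) hd'))
    rw [← heq, Subgroup.commutator_le]
    intro c hc y hy
    have hle : ⁅D, B⁆ ≤ (Subgroup.centralizer {QuotientGroup.mk' N c}).comap (QuotientGroup.mk' N) := by
      have h1 : D ⊔ B ≤ (Subgroup.centralizer {QuotientGroup.mk' N c}).comap (QuotientGroup.mk' N) :=
        sup_le (fun u hu => Subgroup.mem_centralizer_singleton_iff.2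
            ((show Commute c u from CfsgLib.RootGroups.commutator_eq_bot_iff.1 hD.1.2.2 c hc u hu).map
              (QuotientGroup.mk' N)).symm.eq)
          (fun u hu => Subgroup.mem_centralizer_singleton_iff.2 (hq c hc u hu).symm.eq)
      refine (Subgroup.commutator_le.2 fun u hu v hv => ?_)
      exact mul_mem (mul_mem (mul_mem (h1 (Subgroup.mem_sup_left hu)) (h1 (Subgroup.mem_sup_right hv)))
        (inv_mem (h1 (Subgroup.mem_sup_left hu)))) (inv_mem (h1 (Subgroup.mem_sup_right hv)))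
    rw [← QuotientGroup.eq_one_iff (N := N), commutatorElement_def]
    show QuotientGroup.mk' N (c * y * c⁻¹ * y⁻¹) = 1
    have h2 : QuotientGroup.mk' N y * QuotientGroup.mk' N c = QuotientGroup.mk' N c * QuotientGroup.mk' N y :=
      Subgroup.mem_centralizer_singleton_iff.1 (hle hy)
    rw [map_mul, map_mul, map_mul, map_inv, map_inv, ← h2]
    group

/-- A normal subgroup of `G` is central or contains the commutator subgroup. -/
lemma dichotomy (h : Crit S) (N : Subgroup G) [N.Normal] : commutator G ≤ N ∨ N ≤ Subgroup.center G := by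
  by_cases hN : ∀ A ∈ S, ∀ a ∈ A, a ∈ N → a = 1
  · right
    intro n hn
    -- `n` normalises every member
    have step : ∀ n ∈ N, ∀ A ∈ S, ∀ Z ∈ S, ⁅Z, A⁆ = ⊥ → ⁅Z, conjBy A n⁆ = ⊥ := by
      intro n hn A hA Z hZ hZA
      have hAn := h.root.conj_mem A hA n
      have hle : ⁅Z, conjBy A n⁆ ≤ N := by
        rw [Subgroup.commutator_le]
        rintro z hz _ ⟨a, ha, rfl⟩
        rw [← QuotientGroup.eq_one_iff (N := N), commutatorElement_def]
        show QuotientGroup.mk' N (z * (n * a * n⁻¹) * z⁻¹ * (n * a * n⁻¹)⁻¹) = 1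
        have e1 : QuotientGroup.mk' N n = 1 := (QuotientGroup.eq_one_iff n).2 hn
        simp only [map_mul, map_inv, e1, one_mul, inv_one, mul_one]
        rw [← map_inv, ← map_inv, ← map_mul, ← map_mul, ← map_mul,
          CfsgLib.RootGroups.commutator_eq_bot_iff.1 hZA z hz a ha, mul_inv_cancel_right, mul_inv_cancel, map_one]
      rcases h.root.pair Z hZ _ hAn with hc | hp | hcase
      · exact hc
      · exact (h.key hN hZ hAn hp hle).elim
      · obtain ⟨y, hy, hy1⟩ := exists_nonid h.root hcase.1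
        exact absurd (hN _ hcase.1 y hy (hle hy)) hy1
    have hnorm : ∀ A ∈ S, conjBy A n = A := by
      intro A hA
      by_contra hne
      refine h.sep _ (h.root.conj_mem A hA n) A hA hne (Set.ext fun Z => ?_)
      rw [mem_centralizingMembers_iff, mem_centralizingMembers_iff]
      refine and_congr_right fun hZ => ⟨fun hc => ?_, step n hn A hA Z hZ⟩
      have := step n⁻¹ (N.inv_mem hn) _ (h.root.conj_mem A hA n) Z hZ hc
      rwa [conjBy_inv_conjBy] at this
    rw [Subgroup.mem_center_iff]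
    intro g
    have hle : (⊤ : Subgroup G) ≤ Subgroup.centralizer {n} := by
      rw [← h.root.generates]
      refine iSup₂_le fun A hA a ha => Subgroup.mem_centralizer_singleton_iff.2 ?_
      have h1 : n * a * n⁻¹ * a⁻¹ ∈ A := A.mul_mem (hnorm A hA ▸ conj_mem_conjBy ha) (A.inv_mem ha)
      have h2 : n * a * n⁻¹ * a⁻¹ ∈ N := by
        rw [show n * a * n⁻¹ * a⁻¹ = n * (a * n⁻¹ * a⁻¹) by group]
        exact N.mul_mem hn ((inferInstance : N.Normal).conj_mem _ (N.inv_mem hn) a)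
      exact (mul_inv_eq_iff_eq_mul.1 (mul_inv_eq_one.1 (hN A hA _ h1 h2))).symm
    exact Subgroup.mem_centralizer_singleton_iff.1 (hle (Subgroup.mem_top g))
  · left
    push Not at hN
    obtain ⟨A, hA, a, ha, haN, ha1⟩ := hN
    have meet : ∀ X ∈ S, ∃ x ∈ X, x ∈ N ∧ x ≠ 1 := by
      intro X hX
      obtain ⟨g, rfl⟩ := h.cls.2.2 A hA X hX
      exact ⟨_, conj_mem_conjBy ha, (inferInstance : N.Normal).conj_mem a haN g,
        CfsgLib.RootGroups.conj_ne_one ha1⟩
    have hadj : ∀ X ∈ S, ∀ Y ∈ S, IsRankOnePair X Y → X ≤ N ⊔ Y := by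
      intro X hX Y hY hp
      obtain ⟨x, hx, hxN, hx1⟩ := meet X hX
      obtain ⟨b, hb, -, he⟩ := hp.cond_left x hx hx1
      intro u hu
      have h1 : b⁻¹ * u * b⁻¹⁻¹ ∈ N ⊔ Y := by
        have h2 : b⁻¹ * u * b⁻¹⁻¹ ∈ conjBy Y x⁻¹ := he ▸ conj_mem_conjBy hu
        obtain ⟨y, hy, hye⟩ := h2
        rw [← hye]
        exact mul_mem (mul_mem (Subgroup.mem_sup_left (N.inv_mem hxN)) (Subgroup.mem_sup_right hy))
          (inv_mem (Subgroup.mem_sup_left (N.inv_mem hxN)))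
      have hb' : b ∈ N ⊔ Y := Subgroup.mem_sup_right hb
      simpa [mul_assoc] using mul_mem (mul_mem hb' h1) (inv_mem hb')
    have hall : ∀ Z ∈ S, Z ≤ N ⊔ A := by
      intro Z hZ
      have hr := h.conn A hA Z hZ
      clear hZ
      induction hr with
      | refl => exact le_sup_right
      | tail _ hXY ih => exact (hadj _ hXY.2.1 _ hXY.1 (RankOnePair_symm hXY.2.2)).trans (sup_le le_sup_left ih)
    have htop : N ⊔ A = ⊤ := by
      rw [eq_top_iff, ← h.root.generates]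
      exact iSup₂_le hall
    rw [commutator_def, Subgroup.commutator_le]
    intro x _ y _
    have himg : ∀ z : G, ∃ a ∈ A, QuotientGroup.mk' N z = QuotientGroup.mk' N a := by
      intro z
      obtain ⟨m, hm, a', ha', e⟩ := Subgroup.mem_sup_of_normal_left.1 (htop ▸ Subgroup.mem_top z)
      exact ⟨a', ha', by rw [← e, map_mul, show QuotientGroup.mk' N m = 1 from (QuotientGroup.eq_one_iff m).2 hm,
        one_mul]⟩
    obtain ⟨p, hp, ep⟩ := himg x
    obtain ⟨q, hq, eq⟩ := himg y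
    rw [← QuotientGroup.eq_one_iff (N := N), commutatorElement_def]
    show QuotientGroup.mk' N (x * y * x⁻¹ * y⁻¹) = 1
    simp only [map_mul, map_inv, ep, eq]
    rw [← map_inv, ← map_inv, ← map_mul, ← map_mul, ← map_mul, h.comm hA p hp q hq, mul_inv_cancel_right,
      mul_inv_cancel, map_one]

lemma not_le_center (h : Crit S) (hA : A ∈ S) {a : G} (ha : a ∈ A) (ha1 : a ≠ 1) :
    a ∉ Subgroup.center G := by
  obtain ⟨B, hB, hp⟩ := h.ni hA
  obtain ⟨b, hb, hb1⟩ := exists_nonid h.root hB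
  exact fun hc => hp.ne (eq_of_commute hp ha hb ha1 hb1 left_mem_unipotent (right_mem_unipotent hp)
    (Subgroup.mem_center_iff.1 hc b).symm)

lemma eq_of_central_mul (h : Crit S) (hA : A ∈ S) {z a : G} (ha : a ∈ A) (ha1 : a ≠ 1)
    (hz : z ∈ Subgroup.center G) (hroot : z * a ∈ rootElements S) : z = 1 := by
  obtain ⟨B, hB, hp⟩ := h.ni hA
  by_contra hz1
  exact Cfsg.Agent.S5025.not_rootElement h.root ⟨hB, hp⟩ (Subgroup.center_le_centralizer _ hz) hz1 a ha ha1 hroot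

lemma commutator_perfect (h : Crit S) : ⁅commutator G, commutator G⁆ = commutator G := by
  rcases h.dichotomy ⁅commutator G, commutator G⁆ with hle | hc
  · exact le_antisymm (Subgroup.commutator_le_left _ _) hle
  exfalso
  obtain ⟨A, hA, -⟩ := h.two
  obtain ⟨a, ha, haK, ha1⟩ := h.inf_ne_bot hA
  obtain ⟨B, hB, hp⟩ := h.ni hA
  obtain ⟨b, hb, hbK, hb1⟩ := h.inf_ne_bot hB
  have hz := hc (CfsgLib.RootGroups.commutator_mem (A := commutator G) (B := commutator G) haK hbK)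
  have h1 := h.eq_of_central_mul hB hb hb1 hz
    ⟨fun e => hb1 (conj_eq_one_iff.1 (by rw [inv_mul_cancel_right] at e; exact e)), conjBy B a,
      h.root.conj_mem B hB a, by rw [inv_mul_cancel_right]; exact conj_mem_conjBy hb⟩
  exact hp.ne (eq_of_commute hp ha hb ha1 hb1 left_mem_unipotent (right_mem_unipotent hp)
    (mul_inv_eq_iff_eq_mul.1 (mul_inv_eq_one.1 h1)))

/-- A proper normal subgroup of the commutator subgroup is central in it. -/
lemma normal_sub (h : Crit S) (M : Subgroup ↥(commutator G)) [M.Normal] :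
    M = ⊤ ∨ M ≤ Subgroup.center ↥(commutator G) := by
  set M' := M.map (commutator G).subtype with hM'
  have hM'K : M' ≤ (commutator G) := Subgroup.map_subtype_le M
  have hconj : ∀ k ∈ (commutator G), ∀ m ∈ M', k * m * k⁻¹ ∈ M' := by
    rintro k hk _ ⟨m, hm, rfl⟩
    exact ⟨⟨k, hk⟩ * m * ⟨k, hk⟩⁻¹, (inferInstance : M.Normal).conj_mem m hm _, rfl⟩
  have hbig : (commutator G) ≤ M' → M = ⊤ := fun hle => (Subgroup.eq_top_iff' M).2 fun x => by
    obtain ⟨m, hm, e⟩ := hle x.2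
    rwa [← Subtype.ext e]
  have hfixed : ∀ A ∈ S, ∀ z ∈ M', z ∉ Subgroup.center G → (∀ a ∈ A, Commute a z) → M = ⊤ := by
    intro A hA z hz hzc hcom
    have hcore : z ∈ M'.normalCore := by
      intro g
      obtain ⟨k, hk, a, ha, e⟩ := Subgroup.mem_sup_of_normal_left.1 (h.sup_eq_top hA ▸ Subgroup.mem_top g)
      rw [← e, show k * a * z * (k * a)⁻¹ = k * (a * z * a⁻¹) * k⁻¹ by group, conj_eq_self (hcom a ha).eq]
      exact hconj k hk z hz
    rcases h.dichotomy M'.normalCore with hle | hc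
    · exact hbig (hle.trans (Subgroup.normalCore_le M'))
    · exact absurd (hc hcore) hzc
  by_cases hint : ∃ A ∈ S, ∃ a ∈ A, a ∈ M' ∧ a ≠ 1
  · obtain ⟨A, hA, a, ha, haM, ha1⟩ := hint
    exact Or.inl (hfixed A hA a haM (h.not_le_center hA ha ha1) fun x hx => h.comm hA x hx a ha)
  push Not at hint
  by_cases hnorm : ∀ m ∈ M', ∀ A ∈ S, conjBy A m = A
  · right
    intro m hm
    have hmM : (m : G) ∈ M' := ⟨m, hm, rfl⟩
    rw [Subgroup.mem_center_iff]
    intro k
    set P := ⨆ A : S, (A : Subgroup G) ⊓ (commutator G) with hP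
    have hPn : P.Normal := ⟨fun x hx g => by
      induction hx using Subgroup.iSup_induction' with
      | hp A y hy =>
        exact Subgroup.mem_iSup_of_mem ⟨conjBy (A : Subgroup G) g, h.root.conj_mem _ A.2 g⟩
          ⟨conj_mem_conjBy hy.1, (inferInstance : (commutator G).Normal).conj_mem y hy.2 g⟩
      | h1 => rw [mul_one, mul_inv_cancel]; exact P.one_mem
      | hmul y z _ _ hy hz =>
        rw [show g * (y * z) * g⁻¹ = (g * y * g⁻¹) * (g * z * g⁻¹) by group]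
        exact P.mul_mem hy hz⟩
    have hKP : (commutator G) ≤ P := by
      rcases h.dichotomy P with hle | hc
      · exact hle
      obtain ⟨A, hA, -⟩ := h.two
      obtain ⟨a, ha, haK, ha1⟩ := h.inf_ne_bot hA
      exact absurd (hc (Subgroup.mem_iSup_of_mem ⟨A, hA⟩ ⟨ha, haK⟩)) (h.not_le_center hA ha ha1)
    have hle : P ≤ Subgroup.centralizer {(m : G)} := iSup_le fun A => fun a ha => by
      refine Subgroup.mem_centralizer_singleton_iff.2 ?_
      have h1 : (m : G) * a * (m : G)⁻¹ * a⁻¹ ∈ (A : Subgroup G) :=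
        (A : Subgroup G).mul_mem (hnorm _ hmM A A.2 ▸ conj_mem_conjBy ha.1) ((A : Subgroup G).inv_mem ha.1)
      have h2 : (m : G) * a * (m : G)⁻¹ * a⁻¹ ∈ M' := by
        rw [show (m : G) * a * (m : G)⁻¹ * a⁻¹ = (m : G) * (a * (m : G)⁻¹ * a⁻¹) by group]
        exact M'.mul_mem hmM (hconj a ha.2 _ (M'.inv_mem hmM))
      exact (mul_inv_eq_iff_eq_mul.1 (mul_inv_eq_one.1 (hint A A.2 _ h1 h2))).symm
    exact Subtype.ext (Subgroup.mem_centralizer_singleton_iff.1 (hle (hKP k.2)))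
  push Not at hnorm
  obtain ⟨m, hm, A, hA, hne⟩ := hnorm
  left
  by_cases hd : IsDegenerateRootSet S
  swap
  · have htop := h.top_of_nondeg (h.nondeg hd)
    haveI : M'.Normal := ⟨fun x hx g => hconj g (by rw [htop]; exact Subgroup.mem_top g) x hx⟩
    rcases h.dichotomy M' with hle | hc
    · exact hbig hle
    refine absurd (conjBy_eq_self_iff.2 (Subgroup.centralizer_le_normalizer (s := (A : Set G))
      (Subgroup.center_le_centralizer _ (hc hm)))) hne
  have hAm := h.root.conj_mem A hA m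
  rcases h.root.pair A hA _ hAm with hc | hp | hcase
  · obtain ⟨a, ha, haK, ha1⟩ := h.inf_ne_bot hA
    have hz : m * a * m⁻¹ * a⁻¹ ∈ M' := by
      rw [show m * a * m⁻¹ * a⁻¹ = m * (a * m⁻¹ * a⁻¹) by group]
      exact M'.mul_mem hm (hconj a haK _ (M'.inv_mem hm))
    refine hfixed A hA _ hz (fun hcen => ?_) fun x hx => ?_
    · have h1 := h.eq_of_central_mul hA ha ha1 hcen ⟨fun e => ha1 (conj_eq_one_iff.1
        (by rw [inv_mul_cancel_right] at e; exact e)), conjBy A m, hAm,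
        by rw [inv_mul_cancel_right]; exact conj_mem_conjBy ha⟩
      rw [mul_inv_eq_one] at h1
      exact hne (eq_of_mem h.root hAm (class_ni h hAm) hA (h1 ▸ conj_mem_conjBy ha) ha ha1)
    · exact (show Commute x (m * a * m⁻¹) from CfsgLib.RootGroups.commutator_eq_bot_iff.1 hc x hx _
        (conj_mem_conjBy ha)).mul_right (h.comm hA x hx _ (A.inv_mem ha))
  · exfalso
    obtain ⟨a, ha, x, hx, haK, hxK, ha1, hx1, hxa, hxai⟩ := h.three hd hA
    have hsp := h.special A hA _ ⟨hAm, hp⟩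
    have hmK : m ∈ (commutator G) := hM'K hm
    have himg : ∀ z : ↥(commutator G), (z : G) ∈ conjBy A m → ∃ w : ↥(commutator G), (w : G) ∈ A ∧
        QuotientGroup.mk' M z = QuotientGroup.mk' M w := by
      intro z hz
      refine ⟨⟨m, hmK⟩⁻¹ * z * ⟨m, hmK⟩, mem_conjBy.1 hz, ?_⟩
      have e1 : QuotientGroup.mk' M ⟨m, hmK⟩ = 1 := by
        obtain ⟨m₀, hm₀, e⟩ := hm
        have e0 : m₀ = ⟨m, hmK⟩ := Subtype.ext e
        exact (QuotientGroup.eq_one_iff _).2 (e0 ▸ hm₀)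
      rw [map_mul, map_mul, map_inv, e1, inv_one, one_mul, mul_one]
    refine three_absurd hsp (h.comm hA) (h.comm hAm) (commutator G) (QuotientGroup.mk' M) ?_ ?_ ?_ ha haK ha1 hx hxK hx1 hxa hxai
    · intro z hz hz1 hzK
      simpa using mul_mem (inv_mem hzK) (mul_gp_mem hsp hz hz1)
    · intro z w hz hw
      have hA' : ∀ z : ↥(commutator G), (z : G) ∈ A ∨ (z : G) ∈ conjBy A m → ∃ w : ↥(commutator G), (w : G) ∈ A ∧
          QuotientGroup.mk' M z = QuotientGroup.mk' M w := fun z hz => hz.elim (fun hz => ⟨z, hz, rfl⟩) (himg z)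
      obtain ⟨z', hz', ez⟩ := hA' z hz
      obtain ⟨w', hw', ew⟩ := hA' w hw
      rw [ez, ew]
      exact (show Commute z' w' from Subtype.ext (h.comm hA _ hz' _ hw')).map _
    · intro z hz hzk
      exact hint _ hAm _ hz ⟨z, (QuotientGroup.eq_one_iff _).1 hzk, rfl⟩
  · exact absurd hcase (hd A hA _ hAm)
where
  class_ni {S : Set (Subgroup G)} (h : Crit S) {X : Subgroup G} (hX : X ∈ S) : ¬ IsIsolatedIn (FAdj S) S X := by
    obtain ⟨Y, hY, hp⟩ := h.ni hX
    exact not_isolated hX hY hp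

end Crit

end

/-- Quasisimplicity criterion for groups generated by abstract root subgroups. Let S be a set of abstract root subgroups of G with more than one member such that: the graph of rank one pairs on S is connected; no two different members of S have the same set of commuting members of S; if S is degenerate then every member of S has more than three elements; and every rank one pair in S is special. Then for every A ∈ S one has G = G' A with A ∩ G' ≠ 1, and the commutator subgroup G' is quasisimple. Moreover G is perfect if S is non-degenerate, or if some rank one pair A, B in S generates a perfect group. -/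
theorem result {G : Type*} [Group G] {S : Set (Subgroup G)} (hS : Cfsg.IsRootSubgroupSet S) (h2 : ∃ A ∈ S, ∃ B ∈ S, A ≠ B)
    (h1 : Cfsg.IsConnectedFamily (Cfsg.FAdj S) S)
    (h2' : ∀ A ∈ S, ∀ C ∈ S, A ≠ C → Cfsg.centralizingMembers S A ≠ Cfsg.centralizingMembers S C)
    (h3 : Cfsg.IsDegenerateRootSet S → ∀ A ∈ S, 3 < ENat.card A)
    (h4 : ∀ A ∈ S, ∀ B ∈ Cfsg.rankOnePartners S A, Cfsg.IsSpecialRankOnePair A B) :
    (∀ A ∈ S, commutator G ⊔ A = ⊤ ∧ A ⊓ commutator G ≠ ⊥) ∧ Cfsg.IsQuasisimple ↥(commutator G) ∧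
    (Cfsg.IsNondegenerateRootSet S → commutator G = ⊤) ∧
    ((∃ A ∈ S, ∃ B ∈ Cfsg.rankOnePartners S A, Group.IsPerfect ↥(A ⊔ B)) → commutator G = ⊤) := by
  have h : Crit S := ⟨hS, h2, h1, h2', h3, h4⟩
  refine ⟨fun A hA => ⟨h.sup_eq_top hA, ?_⟩, ⟨?_, ?_⟩, h.top_of_nondeg, ?_⟩
  · obtain ⟨a, ha, haK, ha1⟩ := h.inf_ne_bot hA
    intro e
    have hm : a ∈ A ⊓ commutator G := ⟨ha, haK⟩
    rw [e] at hm
    exact ha1 (Subgroup.mem_bot.1 hm)
  · refine ⟨Subgroup.map_injective (commutator G).subtype_injective ?_⟩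
    show Subgroup.map _ ⁅(⊤ : Subgroup ↥(commutator G)), ⊤⁆ = _
    rw [Subgroup.map_commutator, ← MonoidHom.range_eq_map, Subgroup.range_subtype]
    exact h.commutator_perfect
  · have hnt : Nontrivial (↥(commutator G) ⧸ Subgroup.center ↥(commutator G)) := by
      rw [QuotientGroup.nontrivial_iff]
      intro e
      obtain ⟨A, hA, -⟩ := h.two
      obtain ⟨a, ha, haK, ha1⟩ := h.inf_ne_bot hA
      obtain ⟨B, hB, hp⟩ := h.ni hA
      obtain ⟨b, hb, hbK, hb1⟩ := h.inf_ne_bot hB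
      have hm : (⟨a, haK⟩ : ↥(commutator G)) ∈ Subgroup.center ↥(commutator G) := by rw [e]; exact Subgroup.mem_top _
      exact hp.ne (eq_of_commute hp ha hb ha1 hb1 left_mem_unipotent (right_mem_unipotent hp)
        (congrArg Subtype.val (Subgroup.mem_center_iff.1 hm ⟨b, hbK⟩)).symm)
    refine IsSimpleGroup.mk fun N hN => ?_
    haveI := hN.comap (QuotientGroup.mk' (Subgroup.center ↥(commutator G)))
    rcases h.normal_sub (N.comap (QuotientGroup.mk' (Subgroup.center ↥(commutator G)))) with hT | hZ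
    · right
      rw [← Subgroup.map_comap_eq_self_of_surjective (QuotientGroup.mk'_surjective _) N, hT,
        Subgroup.map_top_of_surjective _ (QuotientGroup.mk'_surjective _)]
    · left
      rw [← Subgroup.map_comap_eq_self_of_surjective (QuotientGroup.mk'_surjective _) N, eq_bot_iff]
      exact (Subgroup.map_mono hZ).trans (QuotientGroup.map_mk'_self _).le
  · rintro ⟨A, hA, B, hB, hperf⟩
    refine h.top_of_le hA (le_trans le_sup_left (?_ : A ⊔ B ≤ commutator G))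
    calc A ⊔ B = (⊤ : Subgroup ↥(A ⊔ B)).map (A ⊔ B).subtype := by
          rw [← MonoidHom.range_eq_map, Subgroup.range_subtype]
      _ = (commutator ↥(A ⊔ B)).map (A ⊔ B).subtype := by rw [hperf.commutator_eq_top]
      _ ≤ commutator G := by
          rw [commutator_def, commutator_def, Subgroup.map_commutator]
          exact Subgroup.commutator_mono le_top le_top

end Cfsg.Agent.S5033
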