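import Cfsg.Statements.S5020
import Cfsg.Agent.S5022
import Cfsg.Agent.S5033

set_option autoImplicit false
open Cfsg
open scoped commutatorElement

namespace Cfsg.Agent.S5020

open CfsgLib.RankOne CfsgLib.RootGroups
open Cfsg.Agent.S5033 (gp gp_spec gp_eq gp_inj gp_inv eval)

section
variable {G : Type*} [Group G] {A B : Subgroup G}

/-- A subgroup of `A` compatible with the swapping elements is trivial or has four elements. -/
lemma exists_three' (hp : IsSpecialRankOnePair A B) (hcA : ∀ p ∈ A, ∀ q ∈ A, p * q = q * p)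
    (hcB : ∀ p ∈ B, ∀ q ∈ B, p * q = q * p) (h : (3 : ℕ∞) < ENat.card A) (T T' : Subgroup G) (hTA : T ≤ A)
    (hne : ∃ e ∈ T, e ≠ 1) (hgK : ∀ z ∈ A, z ≠ 1 → (z ∈ T ↔ gp A B z ∈ T'))
    (hmove : ∀ a ∈ A, a ≠ 1 → ∀ e ∈ T, (gp A B a * a⁻¹ * gp A B a) * e * (gp A B a * a⁻¹ * gp A B a)⁻¹ ∈ T') :
    ∃ a ∈ T, ∃ x ∈ T, a ≠ 1 ∧ x ≠ 1 ∧ x ≠ a ∧ x ≠ a⁻¹ := by
  by_contra hno
  push Not at hno
  have hr := hp.1
  have hsurj : ∀ w ∈ B, w ≠ 1 → ∃ z ∈ A, z ≠ 1 ∧ gp A B z = w := fun w hw hw1 => by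
    obtain ⟨z, hz, hz1, he⟩ := hr.cond_right w hw hw1
    exact ⟨z, hz, hz1, gp_eq hr hz hz1 hw he.symm⟩
  obtain ⟨e, heK, he1⟩ := hne
  have he : e ∈ A := hTA heK
  have hT' : ∀ z ∈ A, z ∈ T → z ≠ 1 → z = e ∨ z = e⁻¹ := fun z hz hzK hz1 => by
    by_cases hze : z = e
    · exact Or.inl hze
    exact Or.inr (hno e heK z hzK he1 hz1 hze)
  obtain ⟨hf, hf1, hef⟩ := gp_spec hr he he1
  set g := gp A B with hg
  have hM : ∀ a ∈ A, a ∉ T → g (e * a) * g (e * a) = g a → False := by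
    intro a ha hak hy
    have ha1 : a ≠ 1 := fun e' => hak (e' ▸ one_mem _)
    have hea : e * a ≠ 1 := fun e' => hak (by rw [eq_inv_of_mul_eq_one_right e']; exact inv_mem heK)
    obtain ⟨hb, hb1, heb⟩ := gp_spec hr ha ha1
    obtain ⟨hyB, hy1, hey⟩ := gp_spec hr (A.mul_mem he ha) hea
    by_cases ha2 : a * a = 1
    · have hbb : g a * g a = 1 := by
        have e3 : g a = (g a)⁻¹ := by rw [hg, ← gp_inv hp ha ha1, inv_eq_of_mul_eq_one_right ha2]
        calc g a * g a = g a * (g a)⁻¹ := by rw [← e3]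
          _ = 1 := mul_inv_cancel _
      have hsq : (e * a) * (e * a) = e * e := by
        calc (e * a) * (e * a) = (e * a) * (a * e) := by rw [hcA e he a ha]
          _ = e * (a * a) * e := by group
          _ = e * e := by rw [ha2, mul_one]
      by_cases hee : e * e = 1
      · have e3 : g (e * a) = (g (e * a))⁻¹ := by
          rw [hg, ← gp_inv hp (A.mul_mem he ha) hea, inv_eq_of_mul_eq_one_right (hsq.trans hee)]
        refine hb1 (hy.symm.trans ?_)
        calc g (e * a) * g (e * a) = g (e * a) * (g (e * a))⁻¹ := by rw [← e3]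
          _ = 1 := mul_inv_cancel _
      obtain ⟨hη, hη1, heη⟩ := gp_spec hr (A.mul_mem he he) hee
      have hsqrt := sqrt_pair hp hcB (A.mul_mem he ha) (hsq ▸ hee) hyB hey hη (by rw [hsq]; exact heη)
      have hηK : g (e * e) ∈ T' := (hgK _ (A.mul_mem he he) hee).1 (mul_mem heK heK)
      have hyK : g (e * a) ∈ T' := by
        have := mul_mem hηK hηK
        rwa [hsqrt] at this
      refine hak ((hgK a ha ha1).2 ?_)
      show g a ∈ T'
      rw [← hy]
      exact mul_mem hyK hyK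
    · obtain ⟨hη, hη1, heη⟩ := gp_spec hr (A.mul_mem ha ha) ha2
      have hsqrt := sqrt_pair hp hcB ha ha2 hb heb hη heη
      have hBA : IsSpecialRankOnePair B A :=
        special_of_invPairs (RankOnePair_symm hr) (invPairs_symm (invPairs_of_identity hr hp.2))
      have h1 := eq_of_sq_eq hBA hcA hη hyB (by rw [hsqrt]; exact hb1) (hsqrt.trans hy.symm)
      exact hak (mul_right_cancel (gp_inj hr (A.mul_mem ha ha) ha2 (A.mul_mem he ha) hea h1) ▸ heK)
  have hP : ∀ a ∈ A, a ∉ T →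
      g (a * e⁻¹) * g (e * a) = g a ∧ e * e ≠ 1 := by
    intro a ha hak
    have ha1 : a ≠ 1 := fun e' => hak (e' ▸ one_mem _)
    have hea : e * a ≠ 1 := fun e' => hak (by rw [eq_inv_of_mul_eq_one_right e']; exact inv_mem heK)
    obtain ⟨hb, hb1, heb⟩ := gp_spec hr ha ha1
    obtain ⟨hyB, hy1, hey⟩ := gp_spec hr (A.mul_mem he ha) hea
    set m := g a * a⁻¹ * g a with hm
    have huB : m * e * m⁻¹ ∈ B := by
      have e1 : conjBy A m = B := by
        rw [hm, ← conjBy_conjBy, invPairs_of_identity hr hp.2 a ha ha1 _ hb hb1 heb, conjBy_conjBy,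
          inv_mul_cancel_right, conjBy_eq_self_of_mem hb]
      exact e1 ▸ conj_mem_conjBy he
    have huK : m * e * m⁻¹ ∈ T' := hmove a ha ha1 e heK
    obtain ⟨t, ht, ht1, hte⟩ := hsurj _ huB (conj_ne_one he1)
    rcases hT' t ht ((hgK t ht ht1).2 (by rw [hte]; exact huK)) ht1 with rfl | rfl
    · -- here `u = g e`
      have hu : m * t * m⁻¹ = (g t⁻¹)⁻¹ := by rw [hg, gp_inv hp ht ht1, inv_inv]; exact hte.symm
      obtain ⟨h1, h2, h3⟩ := gp_spec hr (A.inv_mem ht) (inv_ne_one.2 ht1)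
      obtain ⟨hne, hw⟩ := eval hp hcB ha ha1 hb hb1 heb hyB hey (A.inv_mem ht) (inv_ne_one.2 ht1) h1 h2 h3 hu
      obtain ⟨h4, h5, h6⟩ := gp_spec hr (A.mul_mem ha (A.inv_mem ht)) hne
      have h7 := hw _ h4 h5 h6
      refine ⟨h7, fun htt => hM a ha hak ?_⟩
      rwa [inv_eq_of_mul_eq_one_right htt, hcA a ha t ht] at h7
    · have hu : m * e * m⁻¹ = (g e)⁻¹ := by rw [← hte, hg, gp_inv hp he he1]
      obtain ⟨hne, hw⟩ := eval hp hcB ha ha1 hb hb1 heb hyB hey he he1 hf hf1 hef hu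
      have h7 := hw _ hyB hy1 (by rw [hcA a ha e he]; exact hey)
      exact (hM a ha hak h7).elim
  have hstep : ∀ a ∈ A, a ∉ T → a * e⁻¹ * (a * e⁻¹) = 1 := by
    intro a ha hak
    obtain ⟨h1, hee⟩ := hP a ha hak
    have hee' : e * e = e⁻¹ := (hT' _ (A.mul_mem he he) (mul_mem heK heK) hee).resolve_left
      fun h => he1 (mul_eq_left.1 h)
    have hae : a * e ∉ T := fun h => hak (by simpa using mul_mem h (inv_mem heK))
    obtain ⟨h2, -⟩ := hP _ (A.mul_mem ha he) hae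
    rw [mul_inv_cancel_right, ← mul_assoc, hcA e he a ha, mul_assoc a e e, hee'] at h2
    rw [hcA e he a ha] at h1
    have hne : a * e⁻¹ ≠ 1 := fun h => hak (by rw [mul_inv_eq_one.1 h]; exact heK)
    have ha1 : a ≠ 1 := fun e' => hak (e' ▸ one_mem _)
    obtain ⟨hw, hw1, -⟩ := gp_spec hr (A.mul_mem ha (A.inv_mem he)) hne
    obtain ⟨hb, -, -⟩ := gp_spec hr ha ha1
    have h3 : g (a * e⁻¹) * g (a * e⁻¹) = 1 := by
      rw [← h2, ← mul_assoc] at h1
      calc g (a * e⁻¹) * g (a * e⁻¹) = (g a)⁻¹ * (g (a * e⁻¹) * g a * g (a * e⁻¹)) := by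
            rw [show g (a * e⁻¹) * g a = g a * g (a * e⁻¹) from hcB _ hw _ hb]; group
        _ = 1 := by rw [h1, inv_mul_cancel]
    have h4 : g (a * e⁻¹)⁻¹ = g (a * e⁻¹) := by
      rw [hg, gp_inv hp (A.mul_mem ha (A.inv_mem he)) hne]; exact inv_eq_of_mul_eq_one_right h3
    have h5 := gp_inj hr (A.inv_mem (A.mul_mem ha (A.inv_mem he))) (inv_ne_one.2 hne)
      (A.mul_mem ha (A.inv_mem he)) hne h4
    calc a * e⁻¹ * (a * e⁻¹) = (a * e⁻¹) * (a * e⁻¹)⁻¹ := by rw [h5]
      _ = 1 := mul_inv_cancel _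
  obtain ⟨a, ha, ha1, hae, haei⟩ := Cfsg.Agent.S5033.exists_two h e
  have hak : a ∉ T := fun hk => (hT' a ha hk ha1).elim hae haei
  have hak' : a⁻¹ ∉ T := fun hk => hak (by simpa using inv_mem hk)
  have s1 := hstep a ha hak
  have s2 := hstep a⁻¹ (A.inv_mem ha) hak'
  obtain ⟨-, hee⟩ := hP a ha hak
  have hee' : e * e = e⁻¹ := (hT' _ (A.mul_mem he he) (mul_mem heK heK) hee).resolve_left
    fun h => he1 (mul_eq_left.1 h)
  have c1 : Commute a e⁻¹ := hcA a ha _ (A.inv_mem he)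
  have h6 : e⁻¹ * e⁻¹ * (e⁻¹ * e⁻¹) = 1 := by
    calc e⁻¹ * e⁻¹ * (e⁻¹ * e⁻¹) = (e⁻¹ * e⁻¹) * (a * a * (a⁻¹ * a⁻¹)) * (e⁻¹ * e⁻¹) := by group
      _ = (a * e⁻¹ * (a * e⁻¹)) * (a⁻¹ * e⁻¹ * (a⁻¹ * e⁻¹)) := by
          have c2 : Commute a⁻¹ e⁻¹ := c1.inv_left
          simp only [mul_assoc, c1.symm.eq, c1.symm.left_comm, c2.symm.eq, c2.symm.left_comm]
      _ = 1 := by rw [s1, s2, one_mul]
  have h7 : e * e * (e * e) = 1 := by
    calc e * e * (e * e) = (e⁻¹ * e⁻¹ * (e⁻¹ * e⁻¹))⁻¹ := by simp [mul_assoc]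
      _ = 1 := by rw [h6, inv_one]
  rw [hee'] at h7
  refine hee ?_
  calc e * e = (e⁻¹ * e⁻¹)⁻¹ := by simp
    _ = 1 := by rw [h7, inv_one]


/-- The swapping element. -/
noncomputable def sw (A B : Subgroup G) (a : G) : G := gp A B a * a⁻¹ * gp A B a

lemma sw_spec (hp : IsSpecialRankOnePair A B) {a : G} (ha : a ∈ A) (ha1 : a ≠ 1) :
    sw A B a ∈ A ⊔ B ∧ conjBy A (sw A B a) = B ∧ conjBy B (sw A B a) = A ∧
      sw A B a * a * (sw A B a)⁻¹ = (gp A B a)⁻¹ := by
  obtain ⟨hb, hb1, he⟩ := gp_spec hp.1 ha ha1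
  have hs := hp.2 a ha ha1 _ hb hb1 he
  have he' := invPairs_of_identity hp.1 hp.2 a ha ha1 _ hb hb1 he
  set b := gp A B a with hbdef
  have hBm : conjBy B (b * a⁻¹ * b) = A := by
    rw [← conjBy_conjBy, ← conjBy_conjBy, conjBy_eq_self_of_mem hb, ← he, conjBy_conjBy, mul_inv_cancel,
      conjBy_one]
  have hAm : conjBy A (b * a⁻¹ * b) = B := by
    rw [← conjBy_conjBy, he', conjBy_conjBy, inv_mul_cancel_right, conjBy_eq_self_of_mem hb]
  refine ⟨mul_mem (mul_mem (Subgroup.mem_sup_right hb) (inv_mem (Subgroup.mem_sup_left ha)))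
    (Subgroup.mem_sup_right hb), hAm, hBm, ?_⟩
  have hbraid : b * a⁻¹ * b = a⁻¹ * b * a⁻¹ := by
    calc b * a⁻¹ * b = (a * (a⁻¹ * b⁻¹ * a) * b⁻¹)⁻¹ := by group
      _ = (a * (b⁻¹ * a * b) * b⁻¹)⁻¹ := by rw [hs]
      _ = _ := by group
  show b * a⁻¹ * b * a * (b * a⁻¹ * b)⁻¹ = b⁻¹
  calc b * a⁻¹ * b * a * (b * a⁻¹ * b)⁻¹ = (a⁻¹ * b * a⁻¹) * a * (b * a⁻¹ * b)⁻¹ := by rw [← hbraid]
    _ = (a⁻¹ * b * a⁻¹) * a * b⁻¹ * a * b⁻¹ := by group
    _ = b⁻¹ := by group

lemma diag_le_normalizer : rankOneDiagonal A B ≤ Subgroup.normalizer (A : Set G) :=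
  le_trans inf_le_left inf_le_right

lemma mem_diag {h : G} (hh : h ∈ A ⊔ B) (hA : conjBy A h = A) (hB : conjBy B h = B) : h ∈ rankOneDiagonal A B :=
  ⟨⟨hh, conjBy_eq_self_iff.1 hA⟩, conjBy_eq_self_iff.1 hB⟩

lemma diag_symm : rankOneDiagonal B A = rankOneDiagonal A B := by
  simp only [rankOneDiagonal, sup_comm B A, inf_assoc, inf_comm (Subgroup.normalizer (B : Set G))]

lemma diag_move {m : G} (hm : m ∈ A ⊔ B) (hA : conjBy A m = B) (hB : conjBy B m = A) :
    conjBy (rankOneDiagonal A B) m = rankOneDiagonal A B := by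
  have key : ∀ {m : G} {A B : Subgroup G}, m ∈ A ⊔ B → conjBy A m = B → conjBy B m = A →
      conjBy (rankOneDiagonal A B) m ≤ rankOneDiagonal A B := by
    rintro m A B hm hA hB _ ⟨h, hh, rfl⟩
    have hhA : conjBy A h = A := conjBy_eq_self_iff.2 hh.1.2
    have hhB : conjBy B h = B := conjBy_eq_self_iff.2 hh.2
    refine mem_diag (mul_mem (mul_mem hm hh.1.1) (inv_mem hm)) ?_ ?_
    · show conjBy A (m * h * m⁻¹) = A
      rw [← conjBy_conjBy, ← conjBy_conjBy, show conjBy A m⁻¹ = B by rw [← hB, conjBy_inv_conjBy], hhB, hB]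
    · show conjBy B (m * h * m⁻¹) = B
      rw [← conjBy_conjBy, ← conjBy_conjBy, show conjBy B m⁻¹ = A by rw [← hA, conjBy_inv_conjBy], hhA, hA]
  refine le_antisymm (key hm hA hB) fun x hx => ?_
  rw [mem_conjBy]
  have h1 := key (m := m⁻¹) (inv_mem hm) (by rw [← hB, conjBy_inv_conjBy]) (by rw [← hA, conjBy_inv_conjBy])
    (conj_mem_conjBy hx)
  simpa using h1

lemma four_le (hp : IsSpecialRankOnePair A B) (hcA : ∀ p ∈ A, ∀ q ∈ A, p * q = q * p)
    (hcB : ∀ p ∈ B, ∀ q ∈ B, p * q = q * p) (h : (3 : ℕ∞) < ENat.card A) :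
    3 < ENat.card ↥(⁅A, rankOneDiagonal A B⁆ : Subgroup G) := by
  have hr := hp.1
  set H := rankOneDiagonal A B with hH
  set T := ⁅A, H⁆ with hT
  set T' := ⁅B, H⁆ with hT'
  have hTA : T ≤ A := Subgroup.commutator_le.2 fun a ha k hk => by
    rw [commutatorElement_def, show a * k * a⁻¹ * k⁻¹ = a * (k * a⁻¹ * k⁻¹) by group]
    exact A.mul_mem ha ((Subgroup.mem_normalizer_iff.1 (diag_le_normalizer hk) _).1 (A.inv_mem ha))
  have hmove : ∀ m ∈ A ⊔ B, conjBy A m = B → conjBy B m = A → conjBy T m = T' := by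
    intro m hm hA hB
    show Subgroup.map _ ⁅A, H⁆ = _
    rw [Subgroup.map_commutator]
    show ⁅conjBy A m, conjBy H m⁆ = _
    rw [hA, hH, diag_move hm hA hB]
  have hgK : ∀ z ∈ A, z ≠ 1 → (z ∈ T ↔ gp A B z ∈ T') := by
    intro z hz hz1
    obtain ⟨h1, h2, h3, h4⟩ := sw_spec hp hz hz1
    constructor
    · intro hzT
      have : (gp A B z)⁻¹ ∈ T' := by rw [← h4, ← hmove _ h1 h2 h3]; exact conj_mem_conjBy hzT
      simpa using inv_mem this
    · intro hg
      have h5 : sw A B z * z * (sw A B z)⁻¹ ∈ conjBy T (sw A B z) := by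
        rw [hmove _ h1 h2 h3, h4]; exact inv_mem hg
      obtain ⟨t, ht, hte⟩ := h5
      rwa [← (MulAut.conj (sw A B z)).injective (a₁ := t) (a₂ := z) hte]
  have hfour : ∀ a x : G, a ∈ T → x ∈ T → a ≠ 1 → x ≠ 1 → x ≠ a → x ≠ a⁻¹ → 3 < ENat.card T := by
    intro a x ha hx ha1 hx1 hxa hxai
    by_contra hle
    push Not at hle
    -- two inverse pairs and the identity are four different elements
    have key : ∀ s : Set G, s ⊆ (T : Set G) → s.encard ≤ 3 := fun s hs =>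
      (Set.encard_le_encard hs).trans hle
    by_cases ha2 : a = a⁻¹
    · by_cases hax : a * x = 1
      · exact hxai (eq_inv_of_mul_eq_one_right hax)
      have h1 := key {1, a, x, a * x} (by
        intro y hy
        simp only [Set.mem_insert_iff, Set.mem_singleton_iff] at hy
        rcases hy with rfl | rfl | rfl | rfl
        exacts [one_mem _, ha, hx, mul_mem ha hx])
      rw [Set.encard_insert_of_notMem (by simp [ha1.symm, hx1.symm, Ne.symm hax]),
        Set.encard_insert_of_notMem (by simp [hxa.symm, hx1]),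
        Set.encard_insert_of_notMem (by simp [ha1]), Set.encard_singleton] at h1
      exact absurd h1 (by norm_num)
    · have h1 := key {1, a, a⁻¹, x} (by
        intro y hy
        simp only [Set.mem_insert_iff, Set.mem_singleton_iff] at hy
        rcases hy with rfl | rfl | rfl | rfl
        exacts [one_mem _, ha, inv_mem ha, hx])
      rw [Set.encard_insert_of_notMem (by simp [ha1, ha1.symm, hx1.symm]),
        Set.encard_insert_of_notMem (by simp [ha2, hxa.symm]),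
        Set.encard_insert_of_notMem (by simp [hxai.symm]), Set.encard_singleton] at h1
      exact absurd h1 (by norm_num)
  by_cases hne : ∃ e ∈ T, e ≠ 1
  · obtain ⟨a, ha, x, hx, ha1, hx1, hxa, hxai⟩ := exists_three' hp hcA hcB h T T' hTA hne hgK
      (fun a ha ha1 e he => by
        obtain ⟨h1, h2, h3, -⟩ := sw_spec hp ha ha1
        rw [← hmove _ h1 h2 h3]
        exact conj_mem_conjBy he)
    exact hfour a x ha hx ha1 hx1 hxa hxai
  exfalso
  push Not at hne
  set g := gp A B with hg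
  -- every swapping element acts on `A` as `x ↦ (g x)⁻¹`
  have hu : ∀ a ∈ A, a ≠ 1 → ∀ x ∈ A, x ≠ 1 → sw A B a * x * (sw A B a)⁻¹ = (g x)⁻¹ := by
    intro a ha ha1 x hx hx1
    obtain ⟨a1, a2, a3, -⟩ := sw_spec hp ha ha1
    obtain ⟨x1, x2, x3, x4⟩ := sw_spec hp hx hx1
    have eA : conjBy B (sw A B a)⁻¹ = A :=
      (congrArg (fun Z => conjBy Z (sw A B a)⁻¹) a2).symm.trans (conjBy_inv_conjBy _ _)
    have eB : conjBy A (sw A B a)⁻¹ = B :=
      (congrArg (fun Z => conjBy Z (sw A B a)⁻¹) a3).symm.trans (conjBy_inv_conjBy _ _)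
    have hk : (sw A B a)⁻¹ * sw A B x ∈ H := mem_diag (mul_mem (inv_mem a1) x1)
      (by rw [← conjBy_conjBy, x2, eA]) (by rw [← conjBy_conjBy, x3, eB])
    have h1 := hne _ (Subgroup.commutator_mem_commutator hx hk)
    rw [commutatorElement_eq_one_iff_mul_comm] at h1
    calc sw A B a * x * (sw A B a)⁻¹
        = sw A B a * (x * ((sw A B a)⁻¹ * sw A B x)) * (sw A B x)⁻¹ := by group
      _ = sw A B x * x * (sw A B x)⁻¹ := by rw [h1]; group
      _ = (g x)⁻¹ := x4
  have hhom : ∀ p ∈ A, ∀ q ∈ A, p ≠ 1 → q ≠ 1 → p * q ≠ 1 → g (p * q) = g p * g q := by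
    intro p hp' q hq hp1 hq1 hpq
    have e := hu p hp' hp1 (p * q) (A.mul_mem hp' hq) hpq
    rw [show sw A B p * (p * q) * (sw A B p)⁻¹ = (sw A B p * p * (sw A B p)⁻¹) * (sw A B p * q * (sw A B p)⁻¹) by
      group, hu p hp' hp1 p hp' hp1, hu p hp' hp1 q hq hq1, ← mul_inv_rev, inv_inj] at e
    rw [← e, hcB _ (gp_spec hr hp' hp1).1 _ (gp_spec hr hq hq1).1]
  have key : ∀ a x : G, a ∈ A → a ≠ 1 → x ∈ A → x ≠ 1 → x ≠ a⁻¹ → a * (x * x) = 1 := by
    intro a x ha ha1 hx hx1 hxai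
    obtain ⟨hb, hb1, he⟩ := gp_spec hr ha ha1
    have hax : x * a ≠ 1 := fun e => hxai (eq_inv_of_mul_eq_one_left e)
    obtain ⟨hy, hy1, hey⟩ := gp_spec hr (A.mul_mem hx ha) hax
    obtain ⟨hgx, hgx1, hegx⟩ := gp_spec hr hx hx1
    have h := (eval hp hcB ha ha1 hb hb1 he hy hey hx hx1 hgx hgx1 hegx (hu a ha ha1 x hx hx1)).2 (g (x * a)) hy hy1
      (by rw [hcA a ha x hx]; exact hey)
    rw [show gp A B (x * a) = g x * g a from hhom x hx a ha hx1 ha1 hax,
      hhom x hx a ha hx1 ha1 hax] at h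
    have h' : g x * g x * g a = 1 := by
      have e2 : g a * (g x * g x * g a) = g a := by
        calc g a * (g x * g x * g a) = (g a * g x) * g x * g a := by simp only [mul_assoc]
          _ = (g x * g a) * g x * g a := by rw [hcB _ hb _ hgx]
          _ = g a := by rw [mul_assoc (g x * g a)]; exact h
      exact mul_eq_left.1 e2
    by_contra hne'
    by_cases hxx : x * x = 1
    · have e3 : g x = (g x)⁻¹ := by rw [hg, ← gp_inv hp hx hx1, inv_eq_of_mul_eq_one_right hxx]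
      refine hb1 ?_
      have : g x * g x = 1 := by
        calc g x * g x = g x * (g x)⁻¹ := by rw [← e3]
          _ = 1 := mul_inv_cancel _
      rwa [this, one_mul] at h'
    · have hne2 : (x * x) * a ≠ 1 := by rwa [← hcA a ha _ (A.mul_mem hx hx)]
      rw [← hhom x hx x hx hx1 hx1 hxx, ← hhom _ (A.mul_mem hx hx) a ha hxx ha1 hne2] at h'
      exact (gp_spec hr (A.mul_mem (A.mul_mem hx hx) ha) hne2).2.1 h'
  obtain ⟨a, ha, ha1, -, -⟩ := Cfsg.Agent.S5033.exists_two h 1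
  obtain ⟨x, hx, hx1, hxa, hxai⟩ := Cfsg.Agent.S5033.exists_two h a
  have h1 := key a x ha ha1 hx hx1 hxai
  have h2 := key x a hx hx1 ha ha1 (fun e => hxai (by rw [e, inv_inv]))
  have h3 : x = (a * a)⁻¹ := eq_inv_of_mul_eq_one_left h2
  have h4 : a * a * a = 1 := by
    rw [h3] at h1
    calc a * a * a = (a * ((a * a)⁻¹ * (a * a)⁻¹))⁻¹ := by simp [mul_assoc]
      _ = 1 := by rw [h1, inv_one]
  exact hxa (h3.trans (inv_eq_of_mul_eq_one_right h4))

lemma isSpecial_conj (hp : IsSpecialRankOnePair A B) (x : G) :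
    IsSpecialRankOnePair (conjBy A x) (conjBy B x) := by
  refine special_of_invPairs (isRankOnePair_conj hp.1 x) ?_
  rintro _ ⟨a, ha, rfl⟩ ha1 _ ⟨b, hb, rfl⟩ hb1 he
  simp only [MulEquiv.coe_toMonoidHom, MulAut.conj_apply] at he ha1 hb1 ⊢
  have hinv := invPairs_of_identity hp.1 hp.2
  have hconv : ∀ (Z : Subgroup G) (z : G), conjBy (conjBy Z x) (x * z * x⁻¹) = conjBy (conjBy Z z) x := by
    intro Z z
    rw [conjBy_conjBy, conjBy_conjBy, inv_mul_cancel_right]
  have hi : ∀ z : G, (x * z * x⁻¹)⁻¹ = x * z⁻¹ * x⁻¹ := fun z => by group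
  rw [hi, hi, hconv, hconv, conjBy_inj] at he
  rw [hconv, hconv, conjBy_inj]
  exact hinv a ha (fun e => ha1 (by rw [e]; group)) b hb (fun e => hb1 (by rw [e]; group)) he

lemma gen_of_small (hfin : ENat.card A ≤ 3) {a : G} (ha : a ∈ A) (ha1 : a ≠ 1) :
    (a ^ 2 = 1 ∧ A = Subgroup.zpowers a ∧ Nat.card A = 2) ∨
      (a ^ 3 = 1 ∧ A = Subgroup.zpowers a ∧ Nat.card A = 3) := by
  haveI : Finite A := ENat.card_lt_top.1 (hfin.trans_lt (ENat.coe_lt_top 3))
  have hle : Nat.card A ≤ 3 := by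
    rw [ENat.card_eq_coe_natCard] at hfin
    exact_mod_cast hfin
  have hdvd : orderOf a ∣ Nat.card A := by
    have h1 := orderOf_dvd_natCard (⟨a, ha⟩ : A)
    rwa [Subgroup.orderOf_mk] at h1
  have hne : orderOf a ≠ 1 := fun e => ha1 (orderOf_eq_one_iff.1 e)
  have hpos : 0 < Nat.card A := Nat.card_pos
  have hn : Nat.card A = 2 ∨ Nat.card A = 3 := by
    rcases hc : Nat.card A with _ | _ | _ | _ | n
    · omega
    · rw [hc, Nat.dvd_one] at hdvd; exact absurd hdvd hne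
    · exact Or.inl rfl
    · exact Or.inr rfl
    · omega
  have hord : orderOf a = Nat.card A := by
    rcases hn with hn | hn <;> rw [hn] at hdvd ⊢
    · exact ((Nat.dvd_prime Nat.prime_two).1 hdvd).resolve_left hne
    · exact ((Nat.dvd_prime Nat.prime_three).1 hdvd).resolve_left hne
  have hz : A = Subgroup.zpowers a :=
    (Subgroup.eq_of_le_of_card_ge (Subgroup.zpowers_le.2 ha) (by rw [Nat.card_zpowers, hord])).symm
  rcases hn with hn | hn
  · exact Or.inl ⟨by rw [← hn, ← hord]; exact pow_orderOf_eq_one a, hz, hn⟩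
  · exact Or.inr ⟨by rw [← hn, ← hord]; exact pow_orderOf_eq_one a, hz, hn⟩

lemma zmod2_sq : ∀ r : ZMod 2, r ^ 2 = 1 → r = 1 := by decide

end

/-- Let X be a special rank one group with abelian unipotent subgroups A and B, and H = N(A) ∩ N(B) its diagonal subgroup. Then either A has at most three elements and X is isomorphic to SL₂(2), SL₂(3) or PSL₂(3); or X = X' A with the commutator subgroup X' quasisimple and the commutator subgroup ⁅A, H⁆ having more than three elements. -/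
theorem result {X : Type*} [Group X] {A B : Subgroup X} (h : Cfsg.IsRankOneGroup X A B)
    (hs : Cfsg.IsSpecialRankOnePair A B) (hab : Cfsg.HasAbelianUnipotents A B) :
    (ENat.card A ≤ 3 ∧ (Nonempty (X ≃* Matrix.SpecialLinearGroup (Fin 2) (ZMod 2)) ∨
        Nonempty (X ≃* Matrix.SpecialLinearGroup (Fin 2) (ZMod 3)) ∨
        Nonempty (X ≃* Matrix.ProjectiveSpecialLinearGroup (Fin 2) (ZMod 3)))) ∨
    (commutator X ⊔ A = ⊤ ∧ Cfsg.IsQuasisimple (commutator X) ∧
      3 < ENat.card ↥(⁅A, Cfsg.rankOneDiagonal A B⁆ : Subgroup X)) := by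
  obtain ⟨htop, hp⟩ := h
  have hc : ∀ (K : Subgroup X), IsMulCommutative K → ∀ p ∈ K, ∀ q ∈ K, p * q = q * p := fun K hK p hp q hq =>
    haveI := hK
    congrArg Subtype.val (mul_comm' (⟨p, hp⟩ : K) ⟨q, hq⟩)
  have hcA := hc A hab.1
  have hcB := hc B hab.2
  by_cases hbig : (3 : ℕ∞) < ENat.card A
  · right
    set S := Cfsg.unipotentSubgroups A B with hS
    have hmem : ∀ Z ∈ S, ∃ x : X, Z = Cfsg.conjBy A x := fun Z ⟨x, _, e⟩ => ⟨x, e⟩
    have hopp : ∀ C ∈ S, ∀ D ∈ S, C ≠ D → Cfsg.IsRankOnePair C D ∧ Cfsg.IsSpecialRankOnePair C D := by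
      intro C hC D hD hne
      obtain ⟨x, -, e1, e2⟩ := two_transitive hp A B C D left_mem_unipotent (right_mem_unipotent hp) hC hD hp.ne hne
      exact ⟨(opp hp hC hD hne).1, e1 ▸ e2 ▸ isSpecial_conj hs x⟩
    have habel : ∀ Z ∈ S, IsMulCommutative Z := by
      intro Z hZ
      obtain ⟨x, rfl⟩ := hmem Z hZ
      refine ⟨⟨?_⟩⟩
      rintro ⟨_, p, hp', rfl⟩ ⟨_, q, hq', rfl⟩
      exact Subtype.ext (by
        show MulAut.conj x p * MulAut.conj x q = MulAut.conj x q * MulAut.conj x p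
        rw [← map_mul, ← map_mul, hcA p hp' q hq'])
    have hroot : Cfsg.IsRootSubgroupSet S := by
      refine ⟨habel, fun Z hZ => ?_, ?_, fun Z hZ g => conjBy_mem_unipotent hZ (htop ▸ Subgroup.mem_top g),
        fun C hC D hD => ?_⟩
      · obtain ⟨x, rfl⟩ := hmem Z hZ
        obtain ⟨a, ha, ha1⟩ := nonidentity_left hp
        exact fun e => CfsgLib.RootGroups.conj_ne_one ha1
          (Subgroup.mem_bot.1 (e ▸ conj_mem_conjBy (g := x) ha))
      · rw [eq_top_iff, ← htop]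
        exact sup_le (le_iSup₂_of_le A left_mem_unipotent le_rfl) (le_iSup₂_of_le B (right_mem_unipotent hp) le_rfl)
      · by_cases e : C = D
        · subst e
          exact Or.inl (CfsgLib.RootGroups.commutator_eq_bot_iff.2 (hc C (habel C hC)))
        · exact Or.inr (Or.inl (hopp C hC D hD e).1)
    have hA : A ∈ S := left_mem_unipotent
    obtain ⟨hgen, hquasi, -, -⟩ := Cfsg.Agent.S5033.result hroot ⟨A, hA, B, right_mem_unipotent hp, hp.ne⟩
      (fun C hC D hD => by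
        by_cases e : C = D
        · subst e; exact Relation.ReflTransGen.refl
        · exact Relation.ReflTransGen.single ⟨hC, hD, (hopp C hC D hD e).1⟩)
      (fun C hC D hD hne e => commutator_ne_bot (hopp C hC D hD hne).1
        (mem_centralizingMembers_iff.1 (e ▸ self_mem_centralizingMembers hroot hC)).2)
      (fun _ Z hZ => by
        obtain ⟨x, rfl⟩ := hmem Z hZ
        rw [← ENat.card_congr (A.equivMapOfInjective (MulAut.conj x).toMonoidHom (MulEquiv.injective _)).toEquiv]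
        exact hbig)
      (fun C hC D hD => (hopp C hC D hD.1 hD.2.ne).2)
    exact ⟨(hgen A hA).1, hquasi, four_le hs hcA hcB hbig⟩
  · left
    push Not at hbig
    refine ⟨hbig, ?_⟩
    obtain ⟨a, ha, ha1⟩ := nonidentity_left hp
    obtain ⟨g, -, hBg⟩ := right_mem_unipotent hp
    obtain ⟨hb, hb1, he⟩ := gp_spec hp ha ha1
    have hbB : ENat.card B ≤ 3 := by
      rw [hBg, ← ENat.card_congr (A.equivMapOfInjective (MulAut.conj g).toMonoidHom (MulEquiv.injective _)).toEquiv]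
      exact hbig
    have hgenB : B = Subgroup.zpowers (gp A B a) := (gen_of_small hbB hb hb1).elim (fun h => h.2.1) (fun h => h.2.1)
    have hclo : ∀ {Ag : Subgroup X}, Ag = Subgroup.zpowers a → Ag = A →
        Subgroup.closure ({a, gp A B a} : Set X) = ⊤ := by
      intro Ag e1 e2
      rw [eq_top_iff, ← htop]
      refine sup_le ((e2.symm.trans e1).le.trans (Subgroup.zpowers_le.2 (Subgroup.subset_closure (by simp))))
        (hgenB.le.trans (Subgroup.zpowers_le.2 (Subgroup.subset_closure (by simp))))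
    have hel : ∀ n : ℕ, a ^ n = 1 → A = Subgroup.zpowers a → Cfsg.IsElementaryAbelian n A := by
      intro n hn hz
      refine ⟨hab.1, fun z hz' => ?_⟩
      obtain ⟨k, rfl⟩ := Subgroup.mem_zpowers_iff.1 (hz ▸ hz')
      rw [← zpow_natCast, ← zpow_mul, mul_comm, zpow_mul, zpow_natCast, hn, one_zpow]
    rcases gen_of_small hbig ha ha1 with ⟨ho, hz, -⟩ | ⟨ho, hz, -⟩
    · haveI : Fact (Nat.Prime 2) := ⟨Nat.prime_two⟩
      have ecl := (MulEquiv.subgroupCongr (hclo hz rfl)).trans Subgroup.topEquiv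
      rcases Cfsg.Agent.S5022.result ⟨htop, hp⟩ hs hab (hel 2 ho hz) ha ha1 hb hb1 he with h1 | h1
      · exact Or.inl (h1.map fun e => ecl.symm.trans e)
      · refine Or.inl (h1.map fun e => (ecl.symm.trans e).trans ?_)
        have hbot : Subgroup.center (Matrix.SpecialLinearGroup (Fin 2) (ZMod 2)) = ⊥ := by
          refine (Subgroup.eq_bot_iff_forall _).2 fun z hz' => ?_
          obtain ⟨r, hr, hzr⟩ := Matrix.SpecialLinearGroup.mem_center_iff.1 hz'
          rw [Fintype.card_fin] at hr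
          have hr1 : r = 1 := zmod2_sq r hr
          exact Subtype.ext (by rw [← hzr, hr1]; simp)
        exact (QuotientGroup.quotientMulEquivOfEq hbot).trans QuotientGroup.quotientBot
    · haveI : Fact (Nat.Prime 3) := ⟨Nat.prime_three⟩
      have ecl := (MulEquiv.subgroupCongr (hclo hz rfl)).trans Subgroup.topEquiv
      rcases Cfsg.Agent.S5022.result ⟨htop, hp⟩ hs hab (hel 3 ho hz) ha ha1 hb hb1 he with h1 | h1
      · exact Or.inr (Or.inl (h1.map fun e => ecl.symm.trans e))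
      · exact Or.inr (Or.inr (h1.map fun e => ecl.symm.trans e))

end Cfsg.Agent.S5020
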