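import Cfsg.Statements.S5021
import Cfsg.Agent.RootGroups.Power

set_option autoImplicit false
open Cfsg

namespace Cfsg.Agent.S5021

/-- In a special rank one group with abelian unipotent subgroups A and B, either A is an elementary abelian p-group for some prime p, or A is torsion-free and divisible (every element of A has an n-th root in A for every positive n). -/
theorem result {X : Type*} [Group X] {A B : Subgroup X} (h : Cfsg.IsRankOneGroup X A B)
    (hs : Cfsg.IsSpecialRankOnePair A B) (hab : Cfsg.HasAbelianUnipotents A B) :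
    (∃ p : ℕ, p.Prime ∧ Cfsg.IsElementaryAbelian p A) ∨
    ((∀ a ∈ A, a ≠ 1 → ¬ IsOfFinOrder a) ∧ ∀ a ∈ A, ∀ n : ℕ, 0 < n → ∃ c ∈ A, c ^ n = a) := by
  have hc : ∀ (K : Subgroup X), IsMulCommutative K → ∀ p ∈ K, ∀ q ∈ K, p * q = q * p := fun K hK p hp q hq =>
    haveI := hK
    congrArg Subtype.val (mul_comm' (⟨p, hp⟩ : K) ⟨q, hq⟩)
  have hP : CfsgLib.RankOnePower.AbPair A B := ⟨hs, hc A hab.1, hc B hab.2⟩
  by_cases htf : ∀ a ∈ A, a ≠ 1 → ¬ IsOfFinOrder a
  · refine Or.inr ⟨htf, fun a ha n hn => ?_⟩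
    by_cases ha1 : a = 1
    · exact ⟨1, A.one_mem, by rw [one_pow, ha1]⟩
    refine CfsgLib.RankOnePower.exists_root hP ha ha1 fun e => ?_
    obtain ⟨hb, hb1, -⟩ := Cfsg.Agent.S5033.gp_spec hs.1 ha ha1
    have hfin : IsOfFinOrder (Cfsg.Agent.S5033.gp A B a) := isOfFinOrder_iff_pow_eq_one.2 ⟨n, hn, e⟩
    obtain ⟨g, -, hg⟩ := CfsgLib.RankOne.right_mem_unipotent hs.1
    obtain ⟨c, hc', hce⟩ : Cfsg.Agent.S5033.gp A B a ∈ Cfsg.conjBy A g := hg ▸ hb
    refine htf c hc' (fun e' => hb1 ?_) ?_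
    · rw [← hce, e', map_one]
    · refine isOfFinOrder_iff_pow_eq_one.2 ⟨n, hn, ?_⟩
      apply (MulAut.conj g).injective
      rw [map_pow, map_one]
      exact hce ▸ e
  · push Not at htf
    obtain ⟨a, ha, ha1, hfin⟩ := htf
    obtain ⟨p, hp, hpd⟩ := Nat.exists_prime_and_dvd (n := orderOf a) (fun e => ha1 (orderOf_eq_one_iff.mp e))
    have hord : orderOf (a ^ (orderOf a / p)) = p := orderOf_pow_orderOf_div hfin.orderOf_pos.ne' hpd
    refine Or.inl ⟨p, hp, hab.1, CfsgLib.RankOnePower.exponent_of_torsion hP (A.pow_mem ha (orderOf a / p)) ?_ ?_⟩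
    · intro e
      rw [e, orderOf_one] at hord
      exact hp.one_lt.ne hord
    · have h1 := pow_orderOf_eq_one (a ^ (orderOf a / p))
      rwa [hord] at h1

end Cfsg.Agent.S5021
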