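import Cfsg.Statements.S5023
import Mathlib

set_option autoImplicit false
open Cfsg

namespace Cfsg.Agent.S5023

/-- Let X be a rank one group with unipotent subgroups A and B that acts faithfully on an abelian group V (written additively) with A acting quadratically: a' • (a • v − v) = a • v − v for all a, a' in A and v in V. Then A is either torsion-free or an elementary abelian p-group for some prime p. -/
theorem result {X : Type*} [Group X] {A B : Subgroup X} (h : Cfsg.IsRankOneGroup X A B)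
    {V : Type*} [AddCommGroup V] [DistribMulAction X V] (hf : ∀ x : X, (∀ v : V, x • v = v) → x = 1)
    (hq : ∀ a ∈ A, ∀ a' ∈ A, ∀ v : V, a' • (a • v - v) = a • v - v) :
    (∀ a ∈ A, a ≠ 1 → ¬ IsOfFinOrder a) ∨ ∃ p : ℕ, p.Prime ∧ Cfsg.IsElementaryAbelian p A := by
  classical
  obtain ⟨-, hp⟩ := h
  by_cases htf : ∀ a ∈ A, a ≠ 1 → ¬ IsOfFinOrder a
  · exact Or.inl htf
  push Not at htf
  obtain ⟨a₀, ha₀, ha₀1, hfin⟩ := htf
  right
  obtain ⟨p, hp', hpd⟩ := Nat.exists_prime_and_dvd (n := orderOf a₀)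
    (fun e => ha₀1 (orderOf_eq_one_iff.mp e))
  have sn : ∀ (g : X) (m : ℕ) (v : V), g • (m • v) = m • (g • v) := fun g m v =>
    map_nsmul (DistribSMul.toAddMonoidHom V g) m v
  set a := a₀ ^ (orderOf a₀ / p) with had
  have haA : a ∈ A := A.pow_mem ha₀ _
  have hao : orderOf a = p := orderOf_pow_orderOf_div hfin.orderOf_pos.ne' hpd
  have ha1 : a ≠ 1 := fun e => hp'.one_lt.ne (by rw [← hao, e, orderOf_one])
  have hpow : ∀ x ∈ A, ∀ (m : ℕ) (v : V), (x ^ m) • v = v + m • (x • v - v) := by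
    intro x hx m v
    induction m with
    | zero => simp
    | succ m ih =>
      rw [pow_succ, mul_smul]
      have h1 : (x ^ m) • (x • v - v) = x • v - v := hq x hx _ (A.pow_mem hx m) v
      rw [smul_sub, sub_eq_iff_eq_add] at h1
      rw [h1, ih, succ_nsmul]
      abel
  -- the kernel of the action on `p V`
  let K : Subgroup X :=
    { carrier := {x | ∀ v : V, x • (p • v) = p • v}
      one_mem' := fun v => one_smul X _
      mul_mem' := fun {x y} hx hy v => by rw [mul_smul, hy, hx]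
      inv_mem' := fun {x} hx v => by rw [inv_smul_eq_iff, hx] }
  have hKn : K.Normal := ⟨fun n hn g v => by
    rw [mul_smul, mul_smul, sn g⁻¹, hn, ← sn g⁻¹, smul_inv_smul]⟩
  have haK : a ∈ K := fun v => by
    have h1 := hpow a haA p v
    rw [← hao, pow_orderOf_eq_one, one_smul, left_eq_add, hao, smul_sub, sub_eq_zero] at h1
    rw [sn]; exact h1
  obtain ⟨b, hb, hb1, hAB⟩ := hp.cond_left a haA ha1
  have hmeet : ∀ x ∈ A, x ∈ B → x = 1 := by
    intro x hxA hxB
    by_contra hx1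
    obtain ⟨c, hc, -, hc'⟩ := hp.cond_left x hxA hx1
    apply hp.ne
    ext y
    have e1 := SetLike.ext_iff.mp hc' (c⁻¹ * y * c)
    simp only [Subgroup.mem_map, MulEquiv.coe_toMonoidHom, MulAut.conj_apply, inv_inv] at e1
    constructor
    · intro hy
      obtain ⟨z, hz, hz'⟩ := e1.mp ⟨y, hy, rfl⟩
      have : y = c * (x⁻¹ * z * x) * c⁻¹ := by rw [hz']; group
      rw [this]
      exact B.mul_mem (B.mul_mem hc (B.mul_mem (B.mul_mem (B.inv_mem hxB) hz) hxB)) (B.inv_mem hc)
    · intro hy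
      obtain ⟨z, hz, hz'⟩ := e1.mpr ⟨x * (c⁻¹ * y * c) * x⁻¹,
        B.mul_mem (B.mul_mem hxB (B.mul_mem (B.mul_mem (B.inv_mem hc) hy) hc)) (B.inv_mem hxB), by group⟩
      have : z = y := mul_left_cancel (mul_right_cancel hz')
      exact this ▸ hz
  have hcomm : ∀ x ∈ A, ∀ y ∈ A, x * y = y * x := fun x hx y hy => by
    have hxy : ∀ v : V, (x * y) • v = x • v + y • v - v := fun v => by
      have h1 := hq y hy x hx v
      rw [smul_sub, sub_eq_iff_eq_add] at h1
      rw [mul_smul, h1]; abel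
    have hyx : ∀ v : V, (y * x) • v = x • v + y • v - v := fun v => by
      have h1 := hq x hx y hy v
      rw [smul_sub, sub_eq_iff_eq_add] at h1
      rw [mul_smul, h1]; abel
    exact inv_mul_eq_one.mp (hf _ fun v => by
      rw [mul_smul, inv_smul_eq_iff, hxy, hyx]) |>.symm
  have hexp : ∀ x ∈ A, x ^ p = 1 := by
    intro x hx
    have hmem : b⁻¹ * x * b ∈ Cfsg.conjBy B a⁻¹ := by
      rw [← hAB]; exact ⟨x, hx, by simp⟩
    obtain ⟨c, hc, hc'⟩ := hmem
    simp only [MulEquiv.coe_toMonoidHom, MulAut.conj_apply, inv_inv] at hc'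
    set b'' := b * c * b⁻¹ with hb''
    have hbB : b'' ∈ B := B.mul_mem (B.mul_mem hb hc) (B.inv_mem hb)
    -- `B` is a conjugate of `A`
    obtain ⟨c', hc', hc''⟩ : ∃ c' ∈ A, (a * b⁻¹) * c' * (a * b⁻¹)⁻¹ = b'' := by
      have h1 : a⁻¹ * b'' * a ∈ Cfsg.conjBy A b⁻¹ := by
        rw [hAB]; exact ⟨b'', hbB, by simp⟩
      obtain ⟨c', hc'A, e⟩ := h1
      simp only [MulEquiv.coe_toMonoidHom, MulAut.conj_apply, inv_inv] at e
      refine ⟨c', hc'A, ?_⟩
      calc (a * b⁻¹) * c' * (a * b⁻¹)⁻¹ = a * (b⁻¹ * c' * b) * a⁻¹ := by group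
        _ = b'' := by rw [e]; group
    have hk : x⁻¹ * b'' ∈ K := by
      have hx' : x = b * (a⁻¹ * c * a) * b⁻¹ := by
        rw [‹a⁻¹ * c * a = b⁻¹ * x * b›]; group
      have : x⁻¹ * b'' = b * (a⁻¹ * (c⁻¹ * a * c)) * b⁻¹ := by rw [hx', hb'']; group
      rw [this]
      refine hKn.conj_mem _ (K.mul_mem (K.inv_mem haK) ?_) b
      simpa using hKn.conj_mem _ haK c⁻¹
    have heq : ∀ v : V, b'' • (p • v) = x • (p • v) := fun v => by
      have := hk v
      rwa [mul_smul, inv_smul_eq_iff] at this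
    have hval : b'' ^ p = x ^ p := by
      rw [← inv_mul_eq_one]
      refine hf _ fun v => ?_
      set g := a * b⁻¹ with hg
      have e1 : (b'' ^ p) • v = v + p • (b'' • v - v) := by
        rw [← hc'', conj_pow, mul_smul, mul_smul, hpow c' hc', smul_add, smul_inv_smul, sn g,
          smul_sub, smul_inv_smul, hg]
        simp only [mul_smul]
      rw [mul_smul, inv_smul_eq_iff, e1, hpow x hx, smul_sub, smul_sub, ← sn, ← sn, heq]
    exact hmeet _ (A.pow_mem hx p) (hval ▸ B.pow_mem hbB p)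
  exact ⟨p, hp', ⟨⟨fun x y => Subtype.ext (hcomm _ x.2 _ y.2)⟩⟩, hexp⟩

end Cfsg.Agent.S5023
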