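import Cfsg.Statements.S5024
import Cfsg.Agent.RootGroups.Basic

set_option autoImplicit false
open Cfsg

namespace Cfsg.Agent.S5024

/-- Let S be a set of abstract root subgroups of G, A and C members of S, B a rank one partner of A in S and D a rank one partner of C in S. If the rank one group ⟨A, B⟩ is contained in ⟨C, D⟩ then the two coincide, and C and D are conjugates of A inside ⟨A, B⟩. -/
theorem result {G : Type*} [Group G] {S : Set (Subgroup G)} (hS : Cfsg.IsRootSubgroupSet S)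
    {A B C D : Subgroup G} (hA : A ∈ S) (hC : C ∈ S) (hB : B ∈ Cfsg.rankOnePartners S A) (hD : D ∈ Cfsg.rankOnePartners S C)
    (hle : A ⊔ B ≤ C ⊔ D) : A ⊔ B = C ⊔ D ∧ C ∈ Cfsg.unipotentSubgroups A B ∧ D ∈ Cfsg.unipotentSubgroups A B := by
  obtain ⟨hBS, hp⟩ := hB
  obtain ⟨hDS, hq⟩ := hD
  have hU : ∀ X ∈ S, ∀ Y ∈ S, Cfsg.IsRankOnePair X Y → X ⊔ Y ≤ C ⊔ D → X ∈ Cfsg.unipotentSubgroups C D := by
    intro X hX Y hY hXY hle'
    refine (CfsgLib.RootGroups.mem_unipotent_of_le hS hC hDS hq hX (le_sup_left.trans hle')).resolve_right ?_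
    intro hcent
    exact CfsgLib.RootGroups.commutator_ne_bot hXY (CfsgLib.RootGroups.commutator_eq_bot_iff.2
      fun x hx y hy => hcent x hx y (hle' (Subgroup.mem_sup_right hy)))
  have hA' := hU A hA B hBS hp hle
  have hB' := hU B hBS A hA (Cfsg.RankOnePair_symm hp) (sup_comm A B ▸ hle)
  obtain ⟨-, heq, hUeq⟩ := CfsgLib.RootGroups.opp hq hA' hB' hp.ne
  rw [hUeq]
  exact ⟨heq, CfsgLib.RankOne.left_mem_unipotent, CfsgLib.RankOne.right_mem_unipotent hq⟩

end Cfsg.Agent.S5024
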