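import Cfsg.Statements.S5026
import Cfsg.Agent.RankOne.Basic

set_option autoImplicit false
open Cfsg

namespace Cfsg.Agent.S5026

/-- Let S be a degenerate set of abstract root subgroups of G (a set of abstract transvection groups) and let a, b be commuting non-identity elements of members of S with a b ≠ 1. Then the members of S centralizing a b are exactly those centralizing both a and b. -/
theorem result {G : Type*} [Group G] {S : Set (Subgroup G)} (hS : Cfsg.IsRootSubgroupSet S) (hdeg : Cfsg.IsDegenerateRootSet S)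
    {a b : G} (ha : a ∈ Cfsg.rootElements S) (hb : b ∈ Cfsg.rootElements S) (hab : a * b = b * a) (hab1 : a * b ≠ 1) :
    Cfsg.centralizingMembers S (Subgroup.zpowers (a * b)) =
      Cfsg.centralizingMembers S (Subgroup.zpowers a) ∩ Cfsg.centralizingMembers S (Subgroup.zpowers b) := by
  obtain ⟨ha1, A, hA, haA⟩ := ha
  obtain ⟨hb1, B, hB, hbB⟩ := hb
  ext X
  simp only [Cfsg.centralizingMembers, Set.mem_inter_iff, Set.mem_ofPred_eq,
    Subgroup.zpowers_eq_closure, Subgroup.centralizer_closure]
  constructor
  swap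
  · rintro ⟨⟨hX, h1⟩, -, h2⟩
    refine ⟨hX, fun x hx => ?_⟩
    have e1 := Subgroup.mem_centralizer_singleton_iff.1 (h1 hx)
    have e2 := Subgroup.mem_centralizer_singleton_iff.1 (h2 hx)
    rw [Subgroup.mem_centralizer_singleton_iff]
    rw [← mul_assoc, e1, mul_assoc, e2, mul_assoc]
  · rintro ⟨hX, h⟩
    have hc : ∀ x ∈ X, x * (a * b) = a * b * x := fun x hx =>
      Subgroup.mem_centralizer_singleton_iff.1 (h hx)
    have transfer : (∀ x ∈ X, x * a = a * x) ↔ (∀ x ∈ X, x * b = b * x) := by
      constructor
      · intro h1 x hx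
        apply mul_left_cancel (a := a)
        rw [← mul_assoc, ← h1 x hx, mul_assoc, hc x hx, mul_assoc]
      · intro h1 x hx
        apply mul_right_cancel (b := b)
        rw [mul_assoc, hc x hx, mul_assoc a x b, h1 x hx, mul_assoc]
    have hcom : ∀ {C : Subgroup G}, C ∈ S → ∀ c ∈ C, ⁅X, C⁆ = ⊥ → ∀ x ∈ X, x * c = c * x :=
      fun {C} _ c hc' h0 x hx =>
        (Subgroup.mem_centralizer_iff.1 (Subgroup.commutator_eq_bot_iff_le_centralizer.1 h0 hx) c hc').symm
    suffices hfin : ∀ x ∈ X, x * a = a * x by
      exact ⟨⟨hX, fun x hx => Subgroup.mem_centralizer_singleton_iff.2 (hfin x hx)⟩, hX,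
        fun x hx => Subgroup.mem_centralizer_singleton_iff.2 (transfer.1 hfin x hx)⟩
    rcases hS.pair X hX A hA with h1 | h1 | h1
    · exact hcom hA a haA h1
    · exfalso
      rcases hS.pair X hX B hB with h2 | h2 | h2
      · have h3 := transfer.2 (hcom hB b hbB h2)
        refine ha1 (CfsgLib.RankOne.eq_one_of_normalizes (Cfsg.RankOnePair_symm h1) haA ?_)
        ext y
        rw [CfsgLib.RankOne.mem_conjBy]
        constructor
        · intro hy
          have h4 := h3 _ hy
          have h5 : a⁻¹ * y * a = y := by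
            calc a⁻¹ * y * a = a⁻¹ * y * a * a * a⁻¹ := by group
              _ = a * (a⁻¹ * y * a) * a⁻¹ := by rw [h4]
              _ = y := by group
          rwa [h5] at hy
        · intro hy
          rwa [mul_assoc, h3 y hy, inv_mul_cancel_left]
      · obtain ⟨e₁, he₁, -, E1⟩ := h1.cond_right a haA ha1
        obtain ⟨e₂, he₂, -, E2⟩ := h2.cond_right b⁻¹ (B.inv_mem hbB) (inv_ne_one.2 hb1)
        rw [inv_inv] at E2
        have hE : Cfsg.conjBy X b = Cfsg.conjBy X a⁻¹ := by
          have hn : Cfsg.conjBy X (a * b) = X := by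
            refine CfsgLib.RankOne.conjBy_eq_self_iff.2 (Subgroup.mem_normalizer_iff.2 fun y => ?_)
            constructor
            · intro hy; rwa [← hc y hy, mul_inv_cancel_right]
            · intro hy
              have h2 := hc _ hy
              have h3 : a * b * y * (a * b)⁻¹ = y := mul_left_cancel (a := a * b) (by rw [← h2]; group)
              rwa [← h3]
          conv_rhs => rw [← hn, CfsgLib.RankOne.conjBy_conjBy, inv_mul_cancel_left]
        rw [hE, ← E1, CfsgLib.RankOne.conjBy_eq_iff, CfsgLib.RankOne.conjBy_conjBy, inv_inv] at E2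
        have hBU : B ∈ Cfsg.unipotentSubgroups X A := by
          refine CfsgLib.RankOne.unipotent_symm (Cfsg.RankOnePair_symm h1) ▸
            (⟨e₂ * e₁⁻¹, ?_, E2⟩ : B ∈ Cfsg.unipotentSubgroups A X)
          exact mul_mem (Subgroup.mem_sup_right he₂) (inv_mem (Subgroup.mem_sup_right he₁))
        have hAB := CfsgLib.RankOne.eq_of_commute h1 haA hbB ha1 hb1
          (CfsgLib.RankOne.right_mem_unipotent h1) hBU hab
        have hmem : a * b ∈ A := A.mul_mem haA (hAB ▸ hbB)
        refine hab1 (CfsgLib.RankOne.eq_one_of_normalizes (Cfsg.RankOnePair_symm h1) hmem ?_)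
        refine CfsgLib.RankOne.conjBy_eq_self_iff.2 (Subgroup.mem_normalizer_iff.2 fun y => ?_)
        constructor
        · intro hy; rwa [← hc y hy, mul_inv_cancel_right]
        · intro hy
          have h2 := hc _ hy
          have h3 : a * b * y * (a * b)⁻¹ = y := mul_left_cancel (a := a * b) (by rw [← h2]; group)
          rwa [← h3]
      · exact hdeg X hX B hB h2
    · exact (hdeg X hX A hA h1).elim

end Cfsg.Agent.S5026
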