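import Cfsg.Statements.S5027
import Cfsg.Agent.RankOne.Basic
import Cfsg.Agent.S5025

set_option autoImplicit false
open Cfsg
open scoped commutatorElement

namespace Cfsg.Agent.S5027

/-- Let S be a set of abstract root subgroups of G such that every member of S has a rank one partner in S (the graph of rank one pairs on S has no isolated vertex). Then the second centre of G equals its centre. -/
theorem result {G : Type*} [Group G] {S : Set (Subgroup G)} (hS : Cfsg.IsRootSubgroupSet S)
    (hF : ∀ A ∈ S, ¬ Cfsg.IsIsolatedIn (Cfsg.FAdj S) S A) : Subgroup.upperCentralSeries G 2 = Subgroup.center G := by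
  refine le_antisymm (fun z hz => ?_) ?_
  swap
  · rw [← Subgroup.upperCentralSeries_one]
    exact Subgroup.upperCentralSeries_mono G (by norm_num)
  suffices h : (⨆ A ∈ S, A) ≤ Subgroup.centralizer {z} by
    rw [hS.generates] at h
    exact Subgroup.mem_center_iff.2 fun g => Subgroup.mem_centralizer_singleton_iff.1 (h (Subgroup.mem_top g))
  refine iSup₂_le fun A hA a ha => ?_
  by_cases ha1 : a = 1
  · exact ha1 ▸ one_mem _
  have hex : ∃ E ∈ S, Cfsg.IsRankOnePair A E := by
    by_contra hne
    push Not at hne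
    exact hF A hA ⟨hA, fun E => ⟨fun h => hne E h.2.1 h.2.2, fun h => hne E h.1 (Cfsg.RankOnePair_symm h.2.2)⟩⟩
  obtain ⟨E, hE, hp⟩ := hex
  have hc : ⁅z, a⁆ ∈ Subgroup.center G := by
    rw [← Subgroup.upperCentralSeries_one]
    exact Subgroup.mem_upperCentralSeries_succ_iff.1 hz a
  rw [Subgroup.mem_centralizer_singleton_iff]
  by_contra hne
  have hc1 : ⁅z, a⁆ ≠ 1 := fun e => hne (commutatorElement_eq_one_iff_mul_comm.1 e).symm
  refine S5025.not_rootElement hS ⟨hE, hp⟩ (Subgroup.mem_centralizer_iff.2
    fun g _ => Subgroup.mem_center_iff.1 hc g) hc1 a ha ha1 ⟨?_, Cfsg.conjBy A z, hS.conj_mem A hA z, ?_⟩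
  · intro e
    rw [commutatorElement_def, inv_mul_cancel_right] at e
    exact ha1 (mul_left_cancel (a := z) (mul_right_cancel (b := z⁻¹) (e.trans (by group))))
  · rw [commutatorElement_def, inv_mul_cancel_right]
    exact CfsgLib.RankOne.conj_mem_conjBy ha

end Cfsg.Agent.S5027
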