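import Cfsg.Statements.S5030
import Cfsg.Agent.RootGroups.Case

set_option autoImplicit false
open Cfsg
open scoped commutatorElement

namespace Cfsg.Agent.S5030

open CfsgLib.RankOne CfsgLib.RootGroups

/-- `A` and `C` commute, both in the commutator case with `B`, and `b ∈ B`. -/
structure Setup {G : Type*} [Group G] (S : Set (Subgroup G)) (A B C : Subgroup G) (b : G) : Prop where
  root : IsRootSubgroupSet S
  memA : A ∈ S
  memB : B ∈ S
  memC : C ∈ S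
  hb : b ∈ B
  hb1 : b ≠ 1
  hAC : ∀ a ∈ A, ∀ c ∈ C, a * c = c * a
  caseA : RootCommutatorCase S B A
  caseC : RootCommutatorCase S B C

namespace Setup

variable {G : Type*} [Group G] {S : Set (Subgroup G)} {A B C : Subgroup G} {b : G}

lemma symm (h : Setup S A B C b) : Setup S C B A b :=
  ⟨h.root, h.memC, h.memB, h.memA, h.hb, h.hb1, fun c hc a ha => (h.hAC a ha c hc).symm, h.caseC, h.caseA⟩

lemma conj_comm (h : Setup S A B C b) {a x : G} (ha : a ∈ A) (hx : x ∈ conjBy A b⁻¹) : a * x = x * a := by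
  rw [mem_conjBy, inv_inv] at hx
  set a₀ := b * x * b⁻¹ with ha₀
  have e : x = (b⁻¹ * a₀ * b * a₀⁻¹) * a₀ := by rw [ha₀]; group
  have h1 : Commute (b⁻¹ * a₀ * b * a₀⁻¹) a := case_comm_right h.caseA
    (by simpa using commutator_mem (B.inv_mem h.hb) hx) ha
  have h2 : Commute a₀ a := mul_comm_of_mem h.root h.memA hx ha
  rw [e]
  exact (h1.mul_left h2).symm.eq

lemma conj_commAC (h : Setup S A B C b) {x y : G} (hx : x ∈ conjBy A b⁻¹) (hy : y ∈ conjBy C b⁻¹) :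
    x * y = y * x := by
  obtain ⟨a, ha, rfl⟩ := hx
  obtain ⟨c, hc, rfl⟩ := hy
  rw [← map_mul, ← map_mul, h.hAC a ha c hc]

lemma sup_comm_eq (h : Setup S A B C b) :
    ⁅A ⊔ conjBy C b⁻¹, conjBy A b⁻¹ ⊔ C⁆ = ⊥ := by
  rw [Subgroup.commutator_eq_bot_iff_le_centralizer]
  refine sup_le (fun a ha => ?_) (fun y hy => ?_)
  · have hle : conjBy A b⁻¹ ⊔ C ≤ Subgroup.centralizer {a} := sup_le
      (fun x hx => Subgroup.mem_centralizer_singleton_iff.2 (h.conj_comm ha hx).symm)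
      (fun c hc => Subgroup.mem_centralizer_singleton_iff.2 (h.hAC a ha c hc).symm)
    exact Subgroup.mem_centralizer_iff.2 fun z hz => Subgroup.mem_centralizer_singleton_iff.1 (hle hz)
  · have hle : conjBy A b⁻¹ ⊔ C ≤ Subgroup.centralizer {y} := sup_le
      (fun x hx => Subgroup.mem_centralizer_singleton_iff.2 (h.conj_commAC hx hy))
      (fun c hc => Subgroup.mem_centralizer_singleton_iff.2 (h.symm.conj_comm hc hy))
    exact Subgroup.mem_centralizer_iff.2 fun z hz => Subgroup.mem_centralizer_singleton_iff.1 (hle hz)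

/-- Every element of `⁅B, C⁆` is `(b⁻¹ c b) c⁻¹` for some `c`. -/
lemma exists_eq (h : Setup S A B C b) {q : G} (hq : q ∈ ⁅B, C⁆) : ∃ c ∈ C, b⁻¹ * c * b * c⁻¹ = q := by
  obtain ⟨c, hc, e⟩ := exists_commutator_eq h.caseC (B.inv_mem h.hb) (inv_ne_one.2 h.hb1) hq
  exact ⟨c, hc, by rw [← e, inv_inv]⟩

lemma mem_conjC (_h : Setup S A B C b) {c : G} (hc : c ∈ C) : b⁻¹ * c * b ∈ conjBy C b⁻¹ := by
  have := conj_mem_conjBy (g := b⁻¹) hc
  rwa [inv_inv] at this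

lemma not_rankOne (h : Setup S A B C b) : ¬ IsRankOnePair A (conjBy C b⁻¹) := by
  intro hr
  obtain ⟨a, ha, ha1⟩ := nonidentity_left hr
  obtain ⟨c, hc, hc1⟩ := exists_nonid h.root h.memC
  set q := b⁻¹ * c * b * c⁻¹ with hq
  have hqQ : q ∈ ⁅B, C⁆ := by simpa [hq] using commutator_mem (B.inv_mem h.hb) hc
  set c' := b⁻¹ * c * b with hc'
  have hc'm : c' ∈ conjBy C b⁻¹ := h.mem_conjC hc
  have hc'1 : c' ≠ 1 := fun e => hc1 <| by
    calc c = b * c' * b⁻¹ := by rw [hc']; group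
      _ = 1 := by rw [e]; group
  have e0 : c' = q * c := by rw [hq, inv_mul_cancel_right]
  have e1 : Commute q c := case_comm_right h.caseC hqQ hc
  have e2 : Commute a c := h.hAC a ha c hc
  by_cases hAQ : IsRankOnePair A ⁅B, C⁆
  · by_cases hq1 : q = 1
    · rw [hq1, one_mul] at e0
      exact hr.ne (eq_of_commute hr ha hc'm ha1 hc'1 left_mem_unipotent (right_mem_unipotent hr)
        (e0 ▸ h.hAC a ha c hc))
    · refine Cfsg.Agent.S5025.not_rootElement h.root ⟨h.memA, RankOnePair_symm hAQ⟩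
        (Subgroup.mem_centralizer_iff.2 ?_) hc1 q hqQ hq1 ⟨?_, conjBy C b⁻¹, h.root.conj_mem C h.memC _, ?_⟩
      · have hle : ⁅B, C⁆ ⊔ A ≤ Subgroup.centralizer {c} := sup_le
          (fun x hx => Subgroup.mem_centralizer_singleton_iff.2 (case_comm_right h.caseC hx hc))
          (fun x hx => Subgroup.mem_centralizer_singleton_iff.2 (h.hAC x hx c hc))
        exact fun g hg => Subgroup.mem_centralizer_singleton_iff.1 (hle hg)
      · rw [← e1.eq, ← e0]; exact hc'1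
      · rw [← e1.eq, ← e0]; exact hc'm
  · refine not_conj_commute hr ha ha1 hc'm hc'1 hc'm hc'1 ?_
    have e3 : Commute (a * q * a⁻¹) q := conj_commute h.root h.memA h.caseC.1 hAQ ha hqQ hqQ
    have e4 : a * c' * a⁻¹ = a * q * a⁻¹ * c := by
      rw [e0]
      calc a * (q * c) * a⁻¹ = a * q * a⁻¹ * (a * c * a⁻¹) := by group
        _ = _ := by rw [conj_eq_self e2.eq]
    have e5 : Commute (a * q * a⁻¹) c := (e2.mul_left e1).mul_left e2.inv_left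
    rw [e4, e0]
    exact ((e3.mul_right e5).mul_left (e1.symm.mul_right (Commute.refl c))).eq

lemma class_two (h : Setup S A B C b) :
    IsMulCommutative ↥(A ⊔ conjBy C b⁻¹) ∨
      (¬ IsMulCommutative ↥(A ⊔ conjBy C b⁻¹) ∧
        ⁅⁅A ⊔ conjBy C b⁻¹, A ⊔ conjBy C b⁻¹⁆, A ⊔ conjBy C b⁻¹⁆ = ⊥) := by
  have hCS := h.root.conj_mem C h.memC b⁻¹
  set C' := conjBy C b⁻¹
  rcases h.root.pair A h.memA C' hCS with hc | hr | hcc
  · left
    have hc' := CfsgLib.RootGroups.commutator_eq_bot_iff.1 hc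
    refine ⟨⟨fun x y => Subtype.ext ?_⟩⟩
    obtain ⟨a, ha, c, hc₁, e⟩ := (mem_sup_of_commute hc').1 x.2
    obtain ⟨a', ha', c', hc₂, e'⟩ := (mem_sup_of_commute hc').1 y.2
    show (x : G) * y = y * x
    rw [e, e']
    have k1 : Commute a a' := mul_comm_of_mem h.root h.memA ha ha'
    have k2 : Commute c c' := mul_comm_of_mem h.root hCS hc₁ hc₂
    have k3 : Commute a c' := hc' a ha c' hc₂
    have k4 : Commute c a' := (hc' a' ha' c hc₁).symm
    exact ((k1.mul_right k3).mul_left (k4.mul_right k2)).eq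
  · exact absurd hr h.not_rankOne
  · right
    constructor
    · intro hcomm
      apply h.root.ne_bot _ hcc.1
      rw [CfsgLib.RootGroups.commutator_eq_bot_iff]
      intro a ha c hc
      exact congrArg Subtype.val (hcomm.is_comm.comm
        (⟨a, Subgroup.mem_sup_left ha⟩ : ↥(A ⊔ C')) ⟨c, Subgroup.mem_sup_right hc⟩)
    · have hM : ∀ m ∈ ⁅A, C'⁆, ∀ x ∈ A ⊔ C', m * x = x * m := hcc.2.1
      have key : ∀ x ∈ A ⊔ C', ∀ y ∈ A ⊔ C', x * y * x⁻¹ * y⁻¹ ∈ ⁅A, C'⁆ := by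
        have mulr : ∀ x ∈ A ⊔ C', ∀ y ∈ A ⊔ C', ∀ z ∈ A ⊔ C', x * y * x⁻¹ * y⁻¹ ∈ ⁅A, C'⁆ →
            x * z * x⁻¹ * z⁻¹ ∈ ⁅A, C'⁆ → x * (y * z) * x⁻¹ * (y * z)⁻¹ ∈ ⁅A, C'⁆ := by
          intro x _ y hy z _ h1 h2
          have e : x * (y * z) * x⁻¹ * (y * z)⁻¹ = (x * y * x⁻¹ * y⁻¹) * (y * (x * z * x⁻¹ * z⁻¹) * y⁻¹) := by
            group
          rw [e, conj_eq_self (hM _ h2 y hy).symm]
          exact mul_mem h1 h2
        have invr : ∀ x ∈ A ⊔ C', ∀ y ∈ A ⊔ C', x * y * x⁻¹ * y⁻¹ ∈ ⁅A, C'⁆ →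
            x * y⁻¹ * x⁻¹ * (y⁻¹)⁻¹ ∈ ⁅A, C'⁆ := by
          intro x _ y hy h1
          have e : x * y⁻¹ * x⁻¹ * (y⁻¹)⁻¹ = y⁻¹ * (x * y * x⁻¹ * y⁻¹)⁻¹ * y := by group
          rw [e, mul_assoc, hM _ (inv_mem h1) y hy, inv_mul_cancel_left]
          exact inv_mem h1
        have ext' : ∀ x ∈ A ⊔ C', (∀ y ∈ (A : Set G) ∪ C', x * y * x⁻¹ * y⁻¹ ∈ ⁅A, C'⁆) →
            ∀ y ∈ A ⊔ C', x * y * x⁻¹ * y⁻¹ ∈ ⁅A, C'⁆ := by
          intro x hx hgen y hy
          rw [Subgroup.sup_eq_closure] at hy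
          induction hy using Subgroup.closure_induction with
          | mem z hz => exact hgen z hz
          | one => simpa using one_mem ⁅A, C'⁆
          | mul u v hu hv iu iv =>
            rw [← Subgroup.sup_eq_closure] at hu hv
            exact mulr x hx u hu v hv iu iv
          | inv u hu iu =>
            rw [← Subgroup.sup_eq_closure] at hu
            exact invr x hx u hu iu
        have gen : ∀ x ∈ (A : Set G) ∪ C', ∀ y ∈ A ⊔ C', x * y * x⁻¹ * y⁻¹ ∈ ⁅A, C'⁆ := by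
          intro x hx
          refine ext' x (hx.elim Subgroup.mem_sup_left Subgroup.mem_sup_right) fun y hy => ?_
          rcases hx with hx | hx <;> rcases hy with hy | hy
          · simp [mul_comm_of_mem h.root h.memA hx hy]
          · exact commutator_mem hx hy
          · rw [Subgroup.commutator_comm]; exact commutator_mem hx hy
          · simp [mul_comm_of_mem h.root hCS hx hy]
        intro x hx
        refine ext' x hx fun y hy => ?_
        have h1 := inv_mem (gen y hy x hx)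
        have e : (y * x * y⁻¹ * x⁻¹)⁻¹ = x * y * x⁻¹ * y⁻¹ := by group
        rwa [e] at h1
      rw [Subgroup.commutator_eq_bot_iff_le_centralizer, Subgroup.commutator_le]
      exact fun x hx y hy => Subgroup.mem_centralizer_iff.2 fun z hz =>
        (hM _ (by rw [commutatorElement_def]; exact key x hx y hy) z hz).symm

lemma comm_transfer (h : Setup S A B C b) (hc : IsMulCommutative ↥(A ⊔ conjBy C b⁻¹)) :
    IsMulCommutative ↥(C ⊔ conjBy A b⁻¹) := by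
  rcases h.symm.class_two with hh | ⟨hh, -⟩
  · exact hh
  exfalso
  apply hh
  have h1 : ⁅⁅B, C⁆, A⁆ = ⊥ := by
    rw [CfsgLib.RootGroups.commutator_eq_bot_iff]
    intro q hq a ha
    obtain ⟨c, hc', rfl⟩ := h.exists_eq hq
    have e1 : Commute (b⁻¹ * c * b) a := congrArg Subtype.val (hc.is_comm.comm
      (⟨_, Subgroup.mem_sup_right (h.mem_conjC hc')⟩ : ↥(A ⊔ conjBy C b⁻¹)) ⟨a, Subgroup.mem_sup_left ha⟩)
    exact (e1.mul_left (Commute.inv_left (h.hAC a ha c hc').symm)).eq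
  have h2 : ⁅⁅C, A⁆, B⁆ = ⊥ := by
    rw [show ⁅C, A⁆ = ⊥ from CfsgLib.RootGroups.commutator_eq_bot_iff.2 fun c hc a ha => (h.hAC a ha c hc).symm]
    exact Subgroup.commutator_bot_left B
  have h3 := CfsgLib.RootGroups.commutator_eq_bot_iff.1 (Subgroup.commutator_commutator_eq_bot_of_rotate h1 h2)
  have hA' : ∀ c ∈ C, ∀ x ∈ conjBy A b⁻¹, c * x = x * c := by
    intro c hc x hx
    rw [mem_conjBy, inv_inv] at hx
    have e : x = (b⁻¹ * (b * x * b⁻¹) * b * (b * x * b⁻¹)⁻¹) * (b * x * b⁻¹) := by group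
    have e1 : Commute (b⁻¹ * (b * x * b⁻¹) * b * (b * x * b⁻¹)⁻¹) c := h3 _
      (by rw [Subgroup.commutator_comm]; simpa using commutator_mem (B.inv_mem h.hb) hx) c hc
    rw [e]
    exact (e1.mul_left (h.hAC _ hx c hc : Commute _ c)).symm.eq
  refine ⟨⟨fun x y => Subtype.ext ?_⟩⟩
  obtain ⟨u, hu, v, hv, e⟩ := (mem_sup_of_commute hA').1 x.2
  obtain ⟨u', hu', v', hv', e'⟩ := (mem_sup_of_commute hA').1 y.2
  show (x : G) * y = y * x
  rw [e, e']
  have k1 : Commute u u' := mul_comm_of_mem h.root h.memC hu hu'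
  have k2 : Commute v v' := mul_comm_of_mem h.root (h.root.conj_mem A h.memA _) hv hv'
  have k3 : Commute u v' := hA' u hu v' hv'
  have k4 : Commute v u' := (hA' u' hu' v hv).symm
  exact ((k1.mul_right k3).mul_left (k4.mul_right k2)).eq

lemma P_le (h : Setup S A B C b) : ⁅B, A⁆ ≤ A ⊔ conjBy A b⁻¹ := by
  intro p hp
  obtain ⟨a, ha, e⟩ := exists_commutator_eq h.caseA (B.inv_mem h.hb) (inv_ne_one.2 h.hb1) hp
  rw [← e, inv_inv]
  refine mul_mem (Subgroup.mem_sup_right ?_) (inv_mem (Subgroup.mem_sup_left ha))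
  have := conj_mem_conjBy (g := b⁻¹) ha
  rwa [inv_inv] at this

lemma conjB_mem (h : Setup S A B C b) {x y : G} (hy : y ∈ B) (hx : x ∈ A ⊔ conjBy A b⁻¹) :
    y * x * y⁻¹ ∈ A ⊔ conjBy A b⁻¹ := by
  have key : ∀ z ∈ B, ∀ a ∈ A, z * a * z⁻¹ ∈ A ⊔ conjBy A b⁻¹ := by
    intro z hz a ha
    have := mul_mem (h.P_le (commutator_mem hz ha)) (Subgroup.mem_sup_left ha : a ∈ A ⊔ conjBy A b⁻¹)
    rwa [inv_mul_cancel_right] at this
  have hle : A ⊔ conjBy A b⁻¹ ≤ (A ⊔ conjBy A b⁻¹).comap (MulAut.conj y).toMonoidHom := by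
    refine sup_le (fun a ha => key y hy a ha) ?_
    intro x hx
    rw [mem_conjBy, inv_inv] at hx
    show y * x * y⁻¹ ∈ A ⊔ conjBy A b⁻¹
    have := key (y * b⁻¹) (B.mul_mem hy (B.inv_mem h.hb)) _ hx
    convert this using 1
    group
  exact hle hx

lemma full_le (_h : Setup S A B C b) : (A ⊔ conjBy C b⁻¹) ⊔ (conjBy A b⁻¹ ⊔ C) =
    (A ⊔ conjBy A b⁻¹) ⊔ (C ⊔ conjBy C b⁻¹) := by
  rw [sup_comm C (conjBy C b⁻¹)]
  exact sup_sup_sup_comm _ _ _ _

lemma normalizes (h : Setup S A B C b) {r : G} (hr : r ∈ A ⊔ B ⊔ C) :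
    conjBy ((A ⊔ conjBy C b⁻¹) ⊔ (conjBy A b⁻¹ ⊔ C)) r = (A ⊔ conjBy C b⁻¹) ⊔ (conjBy A b⁻¹ ⊔ C) := by
  rw [h.full_le, conjBy_eq_self_iff]
  set N := (A ⊔ conjBy A b⁻¹) ⊔ (C ⊔ conjBy C b⁻¹) with hN
  refine (sup_le (sup_le ?_ ?_) ?_ : A ⊔ B ⊔ C ≤ Subgroup.normalizer (N : Set G)) hr
  · exact le_trans (le_sup_left.trans le_sup_left) Subgroup.le_normalizer
  · intro y hy
    have key : ∀ z ∈ B, ∀ x ∈ N, z * x * z⁻¹ ∈ N := by
      intro z hz x hx
      have hle : N ≤ N.comap (MulAut.conj z).toMonoidHom := sup_le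
        (fun x hx => Subgroup.mem_sup_left (h.conjB_mem hz hx))
        (fun x hx => Subgroup.mem_sup_right (h.symm.conjB_mem hz hx))
      exact hle hx
    refine Subgroup.mem_normalizer_iff.2 fun x => ⟨key y hy x, fun hx => ?_⟩
    simpa [mul_assoc] using key y⁻¹ (B.inv_mem hy) _ hx
  · exact le_trans (le_sup_left.trans le_sup_right) Subgroup.le_normalizer

lemma sup_B (h : Setup S A B C b) :
    ((A ⊔ conjBy C b⁻¹) ⊔ (conjBy A b⁻¹ ⊔ C)) ⊔ B = A ⊔ B ⊔ C := by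
  have hsub : ∀ X : Subgroup G, X ≤ A ⊔ B ⊔ C → conjBy X b⁻¹ ≤ A ⊔ B ⊔ C := by
    rintro X hX _ ⟨x, hx, rfl⟩
    have hb : b⁻¹ ∈ A ⊔ B ⊔ C := inv_mem (Subgroup.mem_sup_left (Subgroup.mem_sup_right h.hb))
    exact mul_mem (mul_mem hb (hX hx)) (inv_mem hb)
  refine le_antisymm (sup_le (sup_le (sup_le (le_sup_left.trans le_sup_left) (hsub C le_sup_right))
    (sup_le (hsub A (le_sup_left.trans le_sup_left)) le_sup_right)) (le_sup_right.trans le_sup_left)) ?_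
  exact sup_le (sup_le ((le_sup_left.trans le_sup_left).trans le_sup_left) le_sup_right)
    ((le_sup_right.trans le_sup_right).trans le_sup_left)

/-- `t = [a, q]` commutes with `A`, `C`, `A'`, `C'`. -/
lemma central_part (h : Setup S A B C b) {a q x : G} (ha : a ∈ A) (hq : q ∈ ⁅B, C⁆)
    (hx : x ∈ (A ⊔ conjBy C b⁻¹) ⊔ (conjBy A b⁻¹ ⊔ C)) :
    Commute (a * q * a⁻¹ * q⁻¹) x := by
  obtain ⟨c, hc, rfl⟩ := h.exists_eq hq
  set q := b⁻¹ * c * b * c⁻¹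
  set c' := b⁻¹ * c * b with hc'
  have e : a * q * a⁻¹ * q⁻¹ = a * c' * a⁻¹ * c'⁻¹ := by
    have e0 : c⁻¹ * a⁻¹ = a⁻¹ * c⁻¹ := (Commute.inv_inv (h.hAC a ha c hc)).symm.eq
    calc a * q * a⁻¹ * q⁻¹ = a * c' * (c⁻¹ * a⁻¹) * c * c'⁻¹ := by simp only [q, hc']; group
      _ = _ := by rw [e0]; group
  rw [e]
  have hc'm : c' ∈ conjBy C b⁻¹ := h.mem_conjC hc
  have hX : ∀ z ∈ A ⊔ conjBy C b⁻¹, Commute (a * c' * a⁻¹ * c'⁻¹) z := by
    rcases h.root.pair A h.memA _ (h.root.conj_mem C h.memC b⁻¹) with hcom | hr | hcc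
    · intro z _
      rw [CfsgLib.RootGroups.commutator_eq_bot_iff.1 hcom a ha c' hc'm]
      simp
    · exact absurd hr h.not_rankOne
    · exact fun z hz => hcc.2.1 _ (commutator_mem ha hc'm) z hz
  have hm : a * c' * a⁻¹ * c'⁻¹ ∈ A ⊔ conjBy C b⁻¹ :=
    mul_mem (mul_mem (mul_mem (Subgroup.mem_sup_left ha) (Subgroup.mem_sup_right hc'm))
      (inv_mem (Subgroup.mem_sup_left ha))) (inv_mem (Subgroup.mem_sup_right hc'm))
  have hle : (A ⊔ conjBy C b⁻¹) ⊔ (conjBy A b⁻¹ ⊔ C) ≤ Subgroup.centralizer {a * c' * a⁻¹ * c'⁻¹} := by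
    refine sup_le (fun z hz => Subgroup.mem_centralizer_singleton_iff.2 (hX z hz).symm.eq) fun z hz => ?_
    exact Subgroup.mem_centralizer_singleton_iff.2
      (CfsgLib.RootGroups.commutator_eq_bot_iff.1 h.sup_comm_eq _ hm z hz).symm
  exact (Subgroup.mem_centralizer_singleton_iff.1 (hle hx) : Commute x _).symm

lemma P_le_full (h : Setup S A B C b) : ⁅B, A⁆ ≤ (A ⊔ conjBy C b⁻¹) ⊔ (conjBy A b⁻¹ ⊔ C) :=
  h.P_le.trans (sup_le (le_sup_left.trans le_sup_left) (le_sup_left.trans le_sup_right))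

lemma Q_le_full (h : Setup S A B C b) : ⁅B, C⁆ ≤ (A ⊔ conjBy C b⁻¹) ⊔ (conjBy A b⁻¹ ⊔ C) := by
  rw [h.full_le]
  exact h.symm.P_le.trans le_sup_right

lemma pq_commA (h : Setup S A B C b) {a p q : G} (ha : a ∈ A) (hp : p ∈ ⁅B, A⁆) (hq : q ∈ ⁅B, C⁆) :
    Commute (p * q * p⁻¹ * q⁻¹) a := by
  set t := a * q * a⁻¹ * q⁻¹ with ht
  have h1 : Commute t p := h.central_part ha hq (h.P_le_full hp)
  have h2 : Commute a p := (case_comm_right h.caseA hp ha).symm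
  have e : a * (p * q * p⁻¹ * q⁻¹) * a⁻¹ = p * q * p⁻¹ * q⁻¹ := by
    calc a * (p * q * p⁻¹ * q⁻¹) * a⁻¹ = (a * p * a⁻¹) * (t * q) * (a * p * a⁻¹)⁻¹ * (t * q)⁻¹ := by
          rw [ht]; group
      _ = p * (t * q) * p⁻¹ * (t * q)⁻¹ := by rw [conj_eq_self h2.eq]
      _ = (p * t * p⁻¹) * (p * q * p⁻¹ * q⁻¹) * t⁻¹ := by group
      _ = t * (p * q * p⁻¹ * q⁻¹) * t⁻¹ := by rw [conj_eq_self h1.symm.eq]
      _ = p * q * p⁻¹ * q⁻¹ := by
        have h3 : Commute t q := h.central_part ha hq (h.Q_le_full hq)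
        exact conj_eq_self (((h1.mul_right h3).mul_right h1.inv_right).mul_right h3.inv_right).eq
  exact (eq_of_conj_eq_self e : Commute a _).symm

lemma pq_comm (h : Setup S A B C b) {p q : G} (hp : p ∈ ⁅B, A⁆) (hq : q ∈ ⁅B, C⁆)
    {x : G} (hx : x ∈ A ⊔ B ⊔ C) : Commute (p * q * p⁻¹ * q⁻¹) x := by
  have hle : A ⊔ B ⊔ C ≤ Subgroup.centralizer {p * q * p⁻¹ * q⁻¹} := by
    refine sup_le (sup_le (fun a ha => ?_) (fun y hy => ?_)) (fun c hc => ?_)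
    · exact Subgroup.mem_centralizer_singleton_iff.2 (h.pq_commA ha hp hq).symm.eq
    · have h1 : Commute y p := (case_comm_left h.caseA hp hy).symm
      have h2 : Commute y q := (case_comm_left h.caseC hq hy).symm
      exact Subgroup.mem_centralizer_singleton_iff.2
        (((h1.mul_right h2).mul_right h1.inv_right).mul_right h2.inv_right).eq
    · have h1 := (h.symm.pq_commA hc hq hp).inv_left
      rw [show (q * p * q⁻¹ * p⁻¹)⁻¹ = p * q * p⁻¹ * q⁻¹ by group] at h1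
      exact Subgroup.mem_centralizer_singleton_iff.2 h1.symm.eq
  exact (Subgroup.mem_centralizer_singleton_iff.1 (hle hx) : Commute x _).symm

end Setup

/-- Membership in a term of the upper central series of a subgroup. -/
def InZ {G : Type*} [Group G] (R : Subgroup G) (n : ℕ) (g : G) : Prop :=
  ∃ h : g ∈ R, (⟨g, h⟩ : R) ∈ Subgroup.upperCentralSeries R n

theorem inZ_succ {G : Type*} [Group G] {A B C : Subgroup G} {n : ℕ} {g : G} (hg : g ∈ A ⊔ B ⊔ C)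
    (hA : ∀ y ∈ A, InZ (A ⊔ B ⊔ C) n (g * y * g⁻¹ * y⁻¹)) (hB : ∀ y ∈ B, InZ (A ⊔ B ⊔ C) n (g * y * g⁻¹ * y⁻¹))
    (hC : ∀ y ∈ C, InZ (A ⊔ B ⊔ C) n (g * y * g⁻¹ * y⁻¹)) : InZ (A ⊔ B ⊔ C) (n + 1) g := by
  set R := A ⊔ B ⊔ C with hR
  refine ⟨hg, Subgroup.mem_upperCentralSeries_succ_iff.2 fun y => ?_⟩
  set Z := Subgroup.upperCentralSeries R n
  let q := QuotientGroup.mk' Z
  let K : Subgroup R := (Subgroup.centralizer {q ⟨g, hg⟩}).comap q
  have hmem : ∀ z : R, InZ R n (g * z * g⁻¹ * (z : G)⁻¹) → z ∈ K := by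
    rintro z ⟨hz, hz'⟩
    rw [Subgroup.mem_comap, Subgroup.mem_centralizer_singleton_iff]
    have e : q (⟨g, hg⟩ * z * ⟨g, hg⟩⁻¹ * z⁻¹) = 1 := (QuotientGroup.eq_one_iff _).2 hz'
    rw [map_mul, map_mul, map_mul, map_inv, map_inv, mul_inv_eq_one, mul_inv_eq_iff_eq_mul] at e
    exact e.symm
  have htop : R ≤ K.map R.subtype := sup_le (sup_le
    (fun z hz => ⟨⟨z, Subgroup.mem_sup_left (Subgroup.mem_sup_left hz)⟩, hmem _ (hA z hz), rfl⟩)
    (fun z hz => ⟨⟨z, Subgroup.mem_sup_left (Subgroup.mem_sup_right hz)⟩, hmem _ (hB z hz), rfl⟩))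
    (fun z hz => ⟨⟨z, Subgroup.mem_sup_right hz⟩, hmem _ (hC z hz), rfl⟩)
  obtain ⟨z, hz, hzy⟩ := htop y.2
  rw [Subtype.coe_injective hzy] at hz
  rw [SetLike.mem_coe, Subgroup.mem_comap, Subgroup.mem_centralizer_singleton_iff] at hz
  rw [← QuotientGroup.eq_one_iff, ← QuotientGroup.mk'_apply, map_commutatorElement,
    commutatorElement_eq_one_iff_mul_comm]
  exact hz.symm

theorem inZ_one {G : Type*} [Group G] (R : Subgroup G) (n : ℕ) : InZ R n 1 := ⟨R.one_mem, one_mem _⟩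

theorem inZ_inv {G : Type*} [Group G] {R : Subgroup G} {n : ℕ} {g : G} (h : InZ R n g) : InZ R n g⁻¹ := by
  obtain ⟨h1, h2⟩ := h
  exact ⟨R.inv_mem h1, inv_mem h2⟩

theorem inZ_of_comm {G : Type*} [Group G] {R : Subgroup G} {n : ℕ} {g y : G} (h : g * y = y * g) :
    InZ R n (g * y * g⁻¹ * y⁻¹) := by
  rw [h, mul_inv_cancel_right, mul_inv_cancel]; exact inZ_one R n

theorem inZ_swap {G : Type*} [Group G] {R : Subgroup G} {n : ℕ} {g y : G} (h : InZ R n (g * y * g⁻¹ * y⁻¹)) :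
    InZ R n (y * g * y⁻¹ * g⁻¹) := by
  have := inZ_inv h
  rwa [show (g * y * g⁻¹ * y⁻¹)⁻¹ = y * g * y⁻¹ * g⁻¹ by group] at this

variable {G : Type*} [Group G] {S : Set (Subgroup G)} {A B C : Subgroup G} {b : G}

theorem inZ_two (h : Setup S A B C b) {a q : G} (ha : a ∈ A) (hq : q ∈ ⁅B, C⁆) :
    InZ (A ⊔ B ⊔ C) 2 (a * q * a⁻¹ * q⁻¹) := by
  have hR : (A ⊔ conjBy C b⁻¹) ⊔ (conjBy A b⁻¹ ⊔ C) ≤ A ⊔ B ⊔ C := le_sup_left.trans h.sup_B.le
  have hqR := hR (h.Q_le_full hq)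
  have haR : a ∈ A ⊔ B ⊔ C := Subgroup.mem_sup_left (Subgroup.mem_sup_left ha)
  set t := a * q * a⁻¹ * q⁻¹ with ht
  refine inZ_succ (mul_mem (mul_mem (mul_mem haR hqR) (inv_mem haR)) (inv_mem hqR))
    (fun y hy => inZ_of_comm (h.central_part ha hq (Subgroup.mem_sup_left (Subgroup.mem_sup_left hy))).eq)
    (fun y hy => inZ_swap ?_)
    (fun y hy => inZ_of_comm (h.central_part ha hq (Subgroup.mem_sup_right (Subgroup.mem_sup_right hy))).eq)
  set p := y * a * y⁻¹ * a⁻¹ with hp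
  have hpP : p ∈ ⁅B, A⁆ := commutator_mem hy ha
  have h1 : Commute y q := (case_comm_left h.caseC hq hy).symm
  have h2 : Commute t p := h.central_part ha hq (h.P_le_full hpP)
  set u := p * q * p⁻¹ * q⁻¹ with hu
  have h3 : Commute u t := h.pq_comm hpP hq (mul_mem (mul_mem (mul_mem haR hqR) (inv_mem haR)) (inv_mem hqR))
  have e : y * t * y⁻¹ * t⁻¹ = u := by
    calc y * t * y⁻¹ * t⁻¹ = (p * a) * (y * q * y⁻¹) * (p * a)⁻¹ * (y * q * y⁻¹)⁻¹ * t⁻¹ := by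
          rw [ht, hp]; group
      _ = (p * a) * q * (p * a)⁻¹ * q⁻¹ * t⁻¹ := by rw [conj_eq_self h1.eq]
      _ = (p * t * p⁻¹) * u * t⁻¹ := by rw [hu, ht]; group
      _ = t * u * t⁻¹ := by rw [conj_eq_self h2.symm.eq]
      _ = u := conj_eq_self h3.symm.eq
  rw [e]
  have huR : u ∈ A ⊔ B ⊔ C :=
    mul_mem (mul_mem (mul_mem (hR (h.P_le_full hpP)) hqR) (inv_mem (hR (h.P_le_full hpP)))) (inv_mem hqR)
  exact inZ_succ huR
    (fun z hz => inZ_of_comm (h.pq_comm hpP hq (Subgroup.mem_sup_left (Subgroup.mem_sup_left hz))).eq)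
    (fun z hz => inZ_of_comm (h.pq_comm hpP hq (Subgroup.mem_sup_left (Subgroup.mem_sup_right hz))).eq)
    (fun z hz => inZ_of_comm (h.pq_comm hpP hq (Subgroup.mem_sup_right hz)).eq)

theorem inZ_P (h : Setup S A B C b) {p : G} (hp : p ∈ ⁅B, A⁆) : InZ (A ⊔ B ⊔ C) 3 p := by
  refine inZ_succ ((le_sup_left.trans h.sup_B.le) (h.P_le_full hp))
    (fun y hy => inZ_of_comm (case_comm_right h.caseA hp hy))
    (fun y hy => inZ_of_comm (case_comm_left h.caseA hp hy)) (fun y hy => inZ_swap ?_)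
  have := inZ_two h.symm hy hp
  rwa [show C ⊔ B ⊔ A = A ⊔ B ⊔ C by ac_rfl] at this

theorem nilpotent (h : Setup S A B C b) : Group.IsNilpotent ↥(A ⊔ B ⊔ C) := by
  have hQ : ∀ q ∈ ⁅B, C⁆, InZ (A ⊔ B ⊔ C) 3 q := fun q hq => by
    have := inZ_P h.symm hq
    rwa [show C ⊔ B ⊔ A = A ⊔ B ⊔ C by ac_rfl] at this
  set R := A ⊔ B ⊔ C with hR
  refine ⟨⟨4, (Subgroup.eq_top_iff' _).2 fun r => ?_⟩⟩
  have hle : R ≤ (Subgroup.upperCentralSeries R 4).map R.subtype := by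
    have key : ∀ g, InZ R 4 g → g ∈ (Subgroup.upperCentralSeries R 4).map R.subtype :=
      fun g hg => ⟨_, hg.2, rfl⟩
    refine sup_le (sup_le (fun a ha => key a ?_) (fun y hy => key y ?_)) (fun c hc => key c ?_)
    · exact inZ_succ (Subgroup.mem_sup_left (Subgroup.mem_sup_left ha))
        (fun z hz => inZ_of_comm (mul_comm_of_mem h.root h.memA ha hz))
        (fun z hz => inZ_swap (inZ_P h (commutator_mem hz ha)))
        (fun z hz => inZ_of_comm (h.hAC a ha z hz))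
    · exact inZ_succ (Subgroup.mem_sup_left (Subgroup.mem_sup_right hy))
        (fun z hz => inZ_P h (commutator_mem hy hz))
        (fun z hz => inZ_of_comm (mul_comm_of_mem h.root h.memB hy hz))
        (fun z hz => hQ _ (commutator_mem hy hz))
    · exact inZ_succ (Subgroup.mem_sup_right hc)
        (fun z hz => inZ_of_comm (h.hAC z hz c hc).symm)
        (fun z hz => inZ_swap (hQ _ (commutator_mem hz hc)))
        (fun z hz => inZ_of_comm (mul_comm_of_mem h.root h.memC hc hz))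
  obtain ⟨z, hz, hzr⟩ := hle r.2
  rwa [← Subtype.coe_injective hzr]

/-- Let S be a set of abstract root subgroups of G and A, B, C ∈ S with ⁅A, B⁆ ∈ S and ⁅B, C⁆ ∈ S, where A and C are different and commute. For a non-identity b ∈ B put X = ⟨A, b⁻¹ C b⟩ and Y = ⟨b⁻¹ A b, C⟩ and R = ⟨A, B, C⟩. Then X and Y are either both abelian or both nilpotent of class exactly two; X and Y commute elementwise; XY is normal in R with R = (XY) B; and R is nilpotent. -/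
theorem result {G : Type*} [Group G] {S : Set (Subgroup G)} (hS : Cfsg.IsRootSubgroupSet S)
    {A B C : Subgroup G} (hA : A ∈ S) (hB : B ∈ S) (hC : C ∈ S) (hAB : ⁅A, B⁆ ∈ S) (hBC : ⁅B, C⁆ ∈ S)
    (hAC : C ∈ Cfsg.commutingPartners S A)
    {b : G} (hb : b ∈ B) (hb1 : b ≠ 1) :
    ((IsMulCommutative ↥(A ⊔ Cfsg.conjBy C b⁻¹) ∧ IsMulCommutative ↥(Cfsg.conjBy A b⁻¹ ⊔ C)) ∨
      ((¬ IsMulCommutative ↥(A ⊔ Cfsg.conjBy C b⁻¹) ∧
          ⁅⁅A ⊔ Cfsg.conjBy C b⁻¹, A ⊔ Cfsg.conjBy C b⁻¹⁆, A ⊔ Cfsg.conjBy C b⁻¹⁆ = ⊥) ∧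
        (¬ IsMulCommutative ↥(Cfsg.conjBy A b⁻¹ ⊔ C) ∧
          ⁅⁅Cfsg.conjBy A b⁻¹ ⊔ C, Cfsg.conjBy A b⁻¹ ⊔ C⁆, Cfsg.conjBy A b⁻¹ ⊔ C⁆ = ⊥))) ∧
    ⁅A ⊔ Cfsg.conjBy C b⁻¹, Cfsg.conjBy A b⁻¹ ⊔ C⁆ = ⊥ ∧
    (∀ r ∈ A ⊔ B ⊔ C, Cfsg.conjBy ((A ⊔ Cfsg.conjBy C b⁻¹) ⊔ (Cfsg.conjBy A b⁻¹ ⊔ C)) r =
      (A ⊔ Cfsg.conjBy C b⁻¹) ⊔ (Cfsg.conjBy A b⁻¹ ⊔ C)) ∧
    ((A ⊔ Cfsg.conjBy C b⁻¹) ⊔ (Cfsg.conjBy A b⁻¹ ⊔ C)) ⊔ B = A ⊔ B ⊔ C ∧
    Group.IsNilpotent ↥(A ⊔ B ⊔ C) := by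
  have h : Setup S A B C b := ⟨hS, hA, hB, hC, hb, hb1,
    CfsgLib.RootGroups.commutator_eq_bot_iff.1 hAC.2.2,
    rootCommutatorCase_symm (case_of_commutator_mem hS hA hB hAB), case_of_commutator_mem hS hB hC hBC⟩
  have hY : Cfsg.conjBy A b⁻¹ ⊔ C = C ⊔ Cfsg.conjBy A b⁻¹ := sup_comm _ _
  refine ⟨?_, h.sup_comm_eq, fun r hr => h.normalizes hr, h.sup_B, nilpotent h⟩
  rcases h.class_two with hX | hX
  · left
    exact ⟨hX, by rw [hY]; exact h.comm_transfer hX⟩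
  · right
    refine ⟨hX, ?_⟩
    rw [hY]
    rcases h.symm.class_two with hY' | hY'
    · exact absurd (h.symm.comm_transfer hY') hX.1
    · exact hY'

end Cfsg.Agent.S5030
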