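import Cfsg.Statements.S5031
import Cfsg.Agent.RootGroups.Basic

set_option autoImplicit false
open Cfsg

namespace Cfsg.Agent.S5031

open CfsgLib.RankOne CfsgLib.RootGroups in
theorem different {G : Type*} [Group G] {S : Set (Subgroup G)} (hS : Cfsg.IsRootSubgroupSet S)
    {A B A' B' : Subgroup G} (hA : A ∈ S) (hA' : A' ∈ S) (hp : Cfsg.IsRankOnePair A A')
    (hB : B ∈ S) (hB' : B' ∈ S) (hq : Cfsg.IsRankOnePair B B') (hl : B ∈ Cfsg.linePartners S A) :
    Relation.ReflTransGen (Cfsg.FAdj S) A B := by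
  obtain ⟨⟨-, hBA, hcom⟩, -, hcov, -⟩ := hl
  have hcom' := commutator_eq_bot_iff.1 hcom
  obtain ⟨a, ha, ha1⟩ := exists_nonid hS hA
  obtain ⟨b, hb, hb1⟩ := exists_nonid hS hB
  have hab1 : a * b ≠ 1 := fun e => hBA (Eq.symm (eq_of_mem hS hA (not_isolated hA hA' hp) hB ha
    (by rw [eq_inv_of_mul_eq_one_left e]; exact B.inv_mem hb) ha1))
  obtain ⟨C, ⟨hC, -⟩, habC⟩ := hcov (a * b) (mul_mem (Subgroup.mem_sup_left ha) (Subgroup.mem_sup_right hb)) hab1
  have stA : Relation.ReflTransGen (Cfsg.FAdj S) A A' := Relation.ReflTransGen.single ⟨hA, hA', hp⟩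
  have stB : Relation.ReflTransGen (Cfsg.FAdj S) B' B :=
    Relation.ReflTransGen.single ⟨hB', hB, Cfsg.RankOnePair_symm hq⟩
  rcases rankOne_or hS hA hA' hB hC hp ha ha1 hb habC with h | h
  · exact stA.tail ⟨hA', hB, Cfsg.RankOnePair_symm h⟩
  rw [hcom' a ha b hb] at habC
  rcases rankOne_or hS hB hB' hA hC hq hb hb1 ha habC with h' | h'
  · exact (Relation.ReflTransGen.single ⟨hA, hB', h'⟩).trans stB
  · exact ((stA.tail ⟨hA', hC, Cfsg.RankOnePair_symm h⟩).tail ⟨hC, hB', h'⟩).trans stB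

/-- Let S be a set of abstract root subgroups of G and let A, B ∈ S lie in different connected components of the graph of rank one pairs on S, each component having more than one member. Then B is not a line partner of A. -/
theorem result {G : Type*} [Group G] {S : Set (Subgroup G)} (hS : Cfsg.IsRootSubgroupSet S)
    {A B : Subgroup G} (hA : A ∈ S) (hB : B ∈ S)
    (hne : Cfsg.componentOf (Cfsg.FAdj S) S A ≠ Cfsg.componentOf (Cfsg.FAdj S) S B)
    (hA2 : ∃ A' ∈ Cfsg.componentOf (Cfsg.FAdj S) S A, A' ≠ A) (hB2 : ∃ B' ∈ Cfsg.componentOf (Cfsg.FAdj S) S B, B' ≠ B) :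
    B ∉ Cfsg.linePartners S A := by
  intro hl
  obtain ⟨A', hA', hp⟩ := CfsgLib.RootGroups.exists_partner (CfsgLib.RootGroups.not_isolated_of_component hA2) hA
  obtain ⟨B', hB', hq⟩ := CfsgLib.RootGroups.exists_partner (CfsgLib.RootGroups.not_isolated_of_component hB2) hB
  exact hne (CfsgLib.RootGroups.componentOf_eq hA hB (different hS hA hA' hp hB hB' hq hl))

end Cfsg.Agent.S5031
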