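import Cfsg.Statements.S5032
import Cfsg.Agent.RootGroups.Basic

set_option autoImplicit false
open Cfsg

namespace Cfsg.Agent.S5032

/-- Let S be a set of abstract root subgroups of G with more than one member. Then the graph of rank one pairs on S is connected if and only if S is a single conjugacy class of G and some member of S has a rank one partner in S. -/
theorem result {G : Type*} [Group G] {S : Set (Subgroup G)} (hS : Cfsg.IsRootSubgroupSet S) (h2 : ∃ A ∈ S, ∃ B ∈ S, A ≠ B) :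
    Cfsg.IsConnectedFamily (Cfsg.FAdj S) S ↔
      (Cfsg.IsConjClassOfSubgroups S ∧ ∃ A ∈ S, ¬ Cfsg.IsIsolatedIn (Cfsg.FAdj S) S A) := by
  obtain ⟨A₀, hA₀, B₀, hB₀, hne⟩ := h2
  constructor
  · intro hc
    refine ⟨⟨⟨A₀, hA₀⟩, fun A hA B hB => ?_⟩, A₀, hA₀, ?_⟩
    · have h := hc A hA B hB
      induction h with
      | refl => exact ⟨1, (CfsgLib.RankOne.conjBy_one A).symm⟩
      | @tail X Y _ hXY ih =>
        obtain ⟨g, rfl⟩ := ih hXY.1
        obtain ⟨x, -, hx⟩ := CfsgLib.RankOne.right_mem_unipotent hXY.2.2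
        exact ⟨x * g, by rw [hx, CfsgLib.RankOne.conjBy_conjBy]⟩
    · refine CfsgLib.RootGroups.not_isolated_of_component ⟨B₀, ⟨hB₀, hc A₀ hA₀ B₀ hB₀⟩, hne.symm⟩
  · rintro ⟨⟨-, hcl⟩, A, hA, hni⟩ X hX Y hY
    obtain ⟨g, rfl⟩ := hcl A hA X hX
    obtain ⟨k, rfl⟩ := hcl A hA Y hY
    exact (CfsgLib.RootGroups.reach_symm (CfsgLib.RootGroups.reach_conj_self hS g A hA hni)).trans
      (CfsgLib.RootGroups.reach_conj_self hS k A hA hni)

end Cfsg.Agent.S5032
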