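import Cfsg.Statements.S5034
import Cfsg.Agent.RootGroups.NonDeg

set_option autoImplicit false
open Cfsg
open scoped commutatorElement

namespace Cfsg.Agent.S5034

open CfsgLib.RankOne CfsgLib.RootGroups

/-- Let S be a non-degenerate class of abstract root subgroups of G, A ∈ S and B a rank one partner of A. Then some line partner C of A has ⁅B, C⁆ ∈ S, and the rank one pair A, B is special. -/
theorem result {G : Type*} [Group G] {S : Set (Subgroup G)} (hS : Cfsg.IsRootSubgroupClass S) (hnd : Cfsg.IsNondegenerateRootSet S)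
    {A B : Subgroup G} (hA : A ∈ S) (hB : B ∈ Cfsg.rankOnePartners S A) :
    (∃ C ∈ Cfsg.linePartners S A, C ∈ Cfsg.commutatorPartners S B) ∧ Cfsg.IsSpecialRankOnePair A B := by
  obtain ⟨D, hD, hnr, hcase⟩ := exists_axis_partner hS hnd hA hB.1 hB.2
  have hni := class_not_isolated hS hnd
  refine ⟨⟨D, hD, hD.1.1, by rw [Subgroup.commutator_comm]; exact hcase.1⟩, hB.2, fun a ha ha1 b hb hb1 hab => ?_⟩
  set N := A ⊔ D
  have hN := line_of_linePartners hS.1 hA hD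
  have hAT : A ∈ Cfsg.membersIn S N := ⟨hA, le_sup_left⟩
  have hDT : D ∈ Cfsg.membersIn S N := ⟨hD.1.1, le_sup_right⟩
  obtain ⟨heq, hcA⟩ := axis_eq hS.1 hN hAT hDT hD.1.2.1 hB.1 hB.2 hnr (hni D hD.1.1)
  obtain ⟨d, hd, hd1⟩ := exists_nonid hS.1 hD.1.1
  have hne : a * d ≠ 1 := fun e => hD.1.2.1 <| eq_of_mem hS.1 hD.1.1 (hni D hD.1.1) hA hd
    (by rw [eq_inv_of_mul_eq_one_right e]; exact A.inv_mem ha) hd1
  obtain ⟨C, hC, hadC⟩ := hN.cover _ (N.mul_mem (hAT.2 ha) (hDT.2 hd)) hne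
  obtain ⟨u, hu, hue, hCe⟩ := exists_conj_eq hS.1 hN hAT hDT hD.1.2.1 hB.1 hB.2 hnr ha ha1 hd hC hadC
  have hub : u = b := by
    have := conj_injective (Cfsg.RankOnePair_symm hB.2) (B.inv_mem hb) (B.inv_mem hu) (hab.trans hue)
    exact (inv_inj.1 this).symm
  rw [hub] at hCe
  set m := d⁻¹ * b * d * b⁻¹ with hm
  have hmM : m ∈ ⁅D, B⁆ := by simpa [hm] using commutator_mem (D.inv_mem hd) hb
  have cdm : Commute d m := (case_comm_left hcase hmM hd).symm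
  have cbm : Commute b m := (case_comm_right hcase hmM hb).symm
  have cad : Commute a d := CfsgLib.RootGroups.commutator_eq_bot_iff.1 hD.1.2.2 a ha d hd
  -- `a` sends `m` to `d m`
  have ham : a * m * a⁻¹ = d * m := by
    rw [hCe, mem_conjBy, inv_inv] at hadC
    set a₁ := m * (a * d) * m⁻¹ with ha₁
    have e : a₁ = m * a * m⁻¹ * d := by
      calc a₁ = m * a * (d * m⁻¹) := by rw [ha₁]; group
        _ = m * a * (m⁻¹ * d) := by rw [cdm.inv_right.eq]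
        _ = _ := by group
    have hz : m * a * m⁻¹ * a⁻¹ ∈ D := by
      have h1 := commutator_mem hmM ha
      rwa [Subgroup.commutator_comm, heq] at h1
    have hz1 : a₁ * a⁻¹ = (m * a * m⁻¹ * a⁻¹) * d := by
      calc a₁ * a⁻¹ = m * a * m⁻¹ * (d * a⁻¹) := by rw [e]; group
        _ = m * a * m⁻¹ * (a⁻¹ * d) := by rw [cad.symm.inv_right.eq]
        _ = _ := by group
    have h2 : (m * a * m⁻¹ * a⁻¹) * d = 1 := by
      by_contra hne'
      exact hD.1.2.1 (eq_of_mem hS.1 hD.1.1 (hni D hD.1.1) hA (D.mul_mem hz hd)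
        (hz1 ▸ A.mul_mem hadC (A.inv_mem ha)) hne')
    have h3 : a * m * a⁻¹ * m⁻¹ = d := by
      calc a * m * a⁻¹ * m⁻¹ = (m * a * m⁻¹ * a⁻¹)⁻¹ := by group
        _ = d := inv_eq_of_mul_eq_one_right h2
    calc a * m * a⁻¹ = (a * m * a⁻¹ * m⁻¹) * m := by group
      _ = d * m := by rw [h3]
  have hbd : b * d * b⁻¹ = d * m := by rw [hm]; group
  set b₂ := a * (b⁻¹ * a * b) * a⁻¹ with hb₂def
  have hb₂ : b₂ ∈ B := by
    have h1 : b⁻¹ * a * b ∈ Cfsg.conjBy B a⁻¹ := by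
      rw [← hab]
      have := conj_mem_conjBy (g := b⁻¹) ha
      rwa [inv_inv] at this
    rwa [mem_conjBy, inv_inv] at h1
  have had' : a⁻¹ * d * a = d := by rw [mul_assoc, ← cad.eq, inv_mul_cancel_left]
  have hbm' : b⁻¹ * m * b = m := by rw [mul_assoc, ← cbm.eq, inv_mul_cancel_left]
  have hbd' : b⁻¹ * d * b = d * m⁻¹ := by
    have e : d = b * (d * m⁻¹) * b⁻¹ := by
      calc d = d * m * m⁻¹ := by group
        _ = (b * d * b⁻¹) * (b * m⁻¹ * b⁻¹) := by rw [hbd, conj_eq_self cbm.inv_right.eq]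
        _ = _ := by group
    conv_lhs => rw [e]
    group
  have h2d : b₂ * d * b₂⁻¹ = d * m⁻¹ := by
    calc b₂ * d * b₂⁻¹ = a * (b⁻¹ * (a * (b * (a⁻¹ * d * a) * b⁻¹) * a⁻¹) * b) * a⁻¹ := by
          rw [hb₂def]; group
      _ = a * (b⁻¹ * (a * (d * m) * a⁻¹) * b) * a⁻¹ := by rw [had', hbd]
      _ = a * (b⁻¹ * ((a * d * a⁻¹) * (a * m * a⁻¹)) * b) * a⁻¹ := by group
      _ = a * (b⁻¹ * (d * (d * m)) * b) * a⁻¹ := by rw [conj_eq_self cad.eq, ham]
      _ = a * ((b⁻¹ * d * b) * ((b⁻¹ * d * b) * (b⁻¹ * m * b))) * a⁻¹ := by group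
      _ = a * (d * m⁻¹ * (d * m⁻¹ * m)) * a⁻¹ := by rw [hbd', hbm']
      _ = (a * d * a⁻¹) * (a * m * a⁻¹)⁻¹ * (a * d * a⁻¹) := by group
      _ = d * (d * m)⁻¹ * d := by rw [conj_eq_self cad.eq, ham]
      _ = d * (m⁻¹ * d⁻¹) * d := by rw [mul_inv_rev]
      _ = d * m⁻¹ := by group
  have hfix : d * (b₂ * b) = (b₂ * b) * d := by
    have cb2m : b₂ * m * b₂⁻¹ = m := conj_eq_self (case_comm_right hcase hmM hb₂).symm
    have e : (b₂ * b) * d * (b₂ * b)⁻¹ = d := by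
      calc (b₂ * b) * d * (b₂ * b)⁻¹ = b₂ * (b * d * b⁻¹) * b₂⁻¹ := by group
        _ = (b₂ * d * b₂⁻¹) * (b₂ * m * b₂⁻¹) := by rw [hbd]; group
        _ = d := by rw [h2d, cb2m]; group
    exact (eq_of_conj_eq_self e).symm
  have hone := eq_one_of_commute hS.1 hD.1.1 (hni D hD.1.1) hcase hd hd1 (B.mul_mem hb₂ hb) hfix
  have hb2 : b₂ = b⁻¹ := eq_inv_of_mul_eq_one_left hone
  calc b⁻¹ * a * b = a⁻¹ * b₂ * a := by rw [hb₂def]; group
    _ = a⁻¹ * b⁻¹ * a := by rw [hb2]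

end Cfsg.Agent.S5034
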