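import Cfsg.Statements.S5035
import Cfsg.Agent.RootGroups.Basic

set_option autoImplicit false
open Cfsg

namespace Cfsg.Agent.S5035

open CfsgLib.RankOne CfsgLib.RootGroups

theorem map_conjBy {G H : Type*} [Group G] [Group H] (f : G →* H) (A : Subgroup G) (g : G) :
    (conjBy A g).map f = conjBy (A.map f) (f g) := by
  simp only [Cfsg.conjBy, Subgroup.map_map]
  congr 1
  ext x
  simp

theorem map_pair {G H : Type*} [Group G] [Group H] (f : G →* H) {A B : Subgroup G}
    (h : IsRankOnePair A B) (hab : ∀ x ∈ A, ∀ y ∈ A, x * y = y * x) (hne : A.map f ≠ B.map f) :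
    IsRankOnePair (A.map f) (B.map f) := by
  have hfix : ∀ k ∈ A ⊔ B, f k = 1 → conjBy A k = A := by
    intro k hk hfk
    by_contra hmove
    obtain ⟨a, ⟨ha, he⟩, -⟩ := exists_unique_conj h (conjBy_mem_unipotent left_mem_unipotent hk)
      (right_mem_unipotent h) hmove h.ne.symm
    apply hne
    rw [← he, map_conjBy, map_conjBy, hfk, conjBy_one,
      conjBy_eq_self_of_mem (Subgroup.mem_map_of_mem f ha)]
  have hfixB : ∀ k ∈ A ⊔ B, f k = 1 → conjBy B k = B := by
    intro k hk hfk
    obtain ⟨x, hx, hxe⟩ := right_mem_unipotent h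
    have h1 := hfix (x⁻¹ * k * x) (mul_mem (mul_mem (inv_mem hx) hk) hx) (by simp [hfk])
    rw [hxe, conjBy_conjBy]
    conv_rhs => rw [← h1, conjBy_conjBy]
    congr 1
    group
  have hA1 : ∀ a ∈ A, f a = 1 → a = 1 := fun a ha hfa =>
    eq_one_of_normalizes h ha (hfixB a (Subgroup.mem_sup_left ha) hfa)
  have hB1 : ∀ b ∈ B, f b = 1 → b = 1 := fun b hb hfb =>
    eq_one_of_normalizes (Cfsg.RankOnePair_symm h) hb (hfix b (Subgroup.mem_sup_right hb) hfb)
  have hn : ∀ K : Subgroup G, Group.IsNilpotent K → Group.IsNilpotent (K.map f) := fun K hK =>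
    haveI := hK
    Group.nilpotent_of_surjective (f.subgroupMap K) (f.subgroupMap_surjective K)
  have hcond : ∀ {P Q : Subgroup G}, RankOneCondition P Q → (∀ q ∈ Q, f q = 1 → q = 1) →
      RankOneCondition (P.map f) (Q.map f) := by
    rintro P Q hPQ hQ1 _ ⟨a, ha, rfl⟩ ha1
    obtain ⟨b, hb, hb1, he⟩ := hPQ a ha fun e => ha1 (by rw [e, map_one])
    refine ⟨f b, Subgroup.mem_map_of_mem f hb, fun e => hb1 (hQ1 b hb e), ?_⟩
    rw [← map_inv, ← map_inv, ← map_conjBy, ← map_conjBy, he]
  exact ⟨hne, hn A h.nilpotent_left, hn B h.nilpotent_right, hcond h.cond_left hB1, hcond h.cond_right hA1⟩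

/-- Let S be a set of abstract root subgroups of G whose graph of rank one pairs is connected, and f a homomorphism from G onto a group H. Then either the images of the members of S form a set of abstract root subgroups of H whose graph of rank one pairs is again connected, or H equals the image of a member of S. -/
theorem result {G H : Type*} [Group G] [Group H] {S : Set (Subgroup G)} (hS : Cfsg.IsRootSubgroupSet S)
    (hc : Cfsg.IsConnectedFamily (Cfsg.FAdj S) S) (f : G →* H) (hf : Function.Surjective f) :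
    (Cfsg.IsRootSubgroupSet ((fun A : Subgroup G => A.map f) '' S) ∧
      Cfsg.IsConnectedFamily (Cfsg.FAdj ((fun A : Subgroup G => A.map f) '' S)) ((fun A : Subgroup G => A.map f) '' S)) ∨
    ∃ A ∈ S, A.map f = ⊤ := by
  set T := (fun A : Subgroup G => A.map f) '' S with hT
  have hab : ∀ A ∈ S, ∀ x ∈ A, ∀ y ∈ A, x * y = y * x := fun A hA x hx y hy => mul_comm_of_mem hS hA hx hy
  by_cases hbot : ∃ A ∈ S, A.map f = ⊥
  · right
    obtain ⟨A, hA, hAb⟩ := hbot
    refine ⟨A, hA, ?_⟩
    have hall : ∀ B ∈ S, B.map f = ⊥ := by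
      intro B hB
      have h := hc A hA B hB
      clear hB
      induction h with
      | refl => exact hAb
      | @tail X Y _ hXY ih =>
        obtain ⟨x, -, hx⟩ := right_mem_unipotent hXY.2.2
        rw [hx, map_conjBy, ih, Cfsg.conjBy, Subgroup.map_bot]
    rw [hAb, ← Subgroup.map_top_of_surjective f hf, ← hS.generates, Subgroup.map_iSup]
    simp only [Subgroup.map_iSup]
    exact (le_antisymm (iSup₂_le fun B hB => (hall B hB).le) bot_le).symm
  left
  push Not at hbot
  have hpair : ∀ A ∈ S, ∀ B ∈ S, Cfsg.IsRankOnePair A B →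
      A.map f = B.map f ∨ Cfsg.IsRankOnePair (A.map f) (B.map f) := fun A hA B hB h =>
    (em (A.map f = B.map f)).imp id (map_pair f h (hab A hA))
  refine ⟨⟨?_, ?_, ?_, ?_, ?_⟩, ?_⟩
  · rintro _ ⟨A, hA, rfl⟩
    refine ⟨⟨fun x y => Subtype.ext ?_⟩⟩
    obtain ⟨_, a, ha, rfl⟩ := x
    obtain ⟨_, b, hb, rfl⟩ := y
    show f a * f b = f b * f a
    rw [← map_mul, hab A hA a ha b hb, map_mul]
  · rintro _ ⟨A, hA, rfl⟩
    exact hbot A hA
  · rw [← Subgroup.map_top_of_surjective f hf, ← hS.generates, iSup_image]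
    simp only [Subgroup.map_iSup]
  · rintro _ ⟨A, hA, rfl⟩ h
    obtain ⟨g, rfl⟩ := hf h
    exact ⟨_, hS.conj_mem A hA g, map_conjBy f A g⟩
  · rintro _ ⟨A, hA, rfl⟩ _ ⟨B, hB, rfl⟩
    rcases hS.pair A hA B hB with hcom | hr | hcc
    · left
      rw [← Subgroup.map_commutator, hcom, Subgroup.map_bot]
    · rcases hpair A hA B hB hr with e | h
      · left
        simp only
        rw [← e, CfsgLib.RootGroups.commutator_eq_bot_iff]
        rintro _ ⟨a, ha, rfl⟩ _ ⟨b, hb, rfl⟩
        rw [← map_mul, hab A hA a ha b hb, map_mul]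
      · exact Or.inr (Or.inl h)
    · refine Or.inr (Or.inr ⟨?_, ?_, ?_, ?_⟩)
      · rw [← Subgroup.map_commutator]
        exact ⟨_, hcc.1, rfl⟩
      · rw [← Subgroup.map_commutator, ← Subgroup.map_sup]
        rintro _ ⟨c, hc', rfl⟩ _ ⟨x, hx, rfl⟩
        rw [← map_mul, hcc.2.1 c hc' x hx, map_mul]
      · rintro _ ⟨a, ha, rfl⟩ ha1
        rw [← Subgroup.map_commutator, ← hcc.2.2.1 a ha (fun e => ha1 (by rw [e, map_one])),
          MonoidHom.map_closure, Set.image_image, Subgroup.coe_map, Set.image_image]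
        congr 2
        funext b
        simp
      · rintro _ ⟨b, hb, rfl⟩ hb1
        rw [← Subgroup.map_commutator, ← hcc.2.2.2 b hb (fun e => hb1 (by rw [e, map_one])),
          MonoidHom.map_closure, Set.image_image, Subgroup.coe_map, Set.image_image]
        congr 2
        funext a
        simp
  · rintro _ ⟨A, hA, rfl⟩ _ ⟨B, hB, rfl⟩
    have h := hc A hA B hB
    clear hB
    induction h with
    | refl => exact Relation.ReflTransGen.refl
    | @tail X Y _ hXY ih =>
      rcases hpair X hXY.1 Y hXY.2.1 hXY.2.2 with e | h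
      · simp only at ih ⊢
        rwa [← e]
      · exact ih.tail ⟨⟨X, hXY.1, rfl⟩, ⟨Y, hXY.2.1, rfl⟩, h⟩

end Cfsg.Agent.S5035
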