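import Cfsg.Statements.S5037
import Cfsg.Agent.RootGroups.Commuting

set_option autoImplicit false
open Cfsg
open scoped commutatorElement

namespace Cfsg.Agent.S5037

open CfsgLib.RankOne CfsgLib.RootGroups

section
variable {G : Type*} [Group G] {S : Set (Subgroup G)} {A C : Subgroup G}

theorem degenerate_one (hS : IsRootSubgroupClass S) (hdeg : IsDegenerateRootSet S) (hA : A ∈ S) (hC : C ∈ S)
    (h : centralizingMembers S A ⊆ centralizingMembers S C) :
    centralizingMembers S A = centralizingMembers S C := by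
  refine Set.Subset.antisymm h fun X hX => ?_
  obtain ⟨hXS, hXC⟩ := mem_centralizingMembers_iff.1 hX
  refine mem_centralizingMembers_iff.2 ⟨hXS, ?_⟩
  rcases hS.1.pair X hXS A hA with hc | hr | hcase
  · exact hc
  swap
  · exact absurd hcase (hdeg X hXS A hA)
  exfalso
  have hAC : ⁅A, C⁆ = ⊥ := (mem_centralizingMembers_iff.1 (h (self_mem_centralizingMembers hS.1 hA))).2
  have hp := RankOnePair_symm hr
  have hcA : ∀ {Z : Subgroup G}, Z ∈ S → ⁅Z, A⁆ = ⊥ → ⁅Z, C⁆ = ⊥ := fun hZ hZA =>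
    (mem_centralizingMembers_iff.1 (h (mem_centralizingMembers_iff.2 ⟨hZ, hZA⟩))).2
  -- `X` is the image of `A` under an element centralizing `C`
  obtain ⟨g, hg, hXg⟩ := right_mem_unipotent hp
  have hgC : conjBy C g = C := by
    refine conjBy_eq_self_iff.2 (Subgroup.centralizer_le_normalizer (s := (C : Set G)) ?_)
    exact (sup_le (Subgroup.commutator_eq_bot_iff_le_centralizer.1 hAC)
      (Subgroup.commutator_eq_bot_iff_le_centralizer.1 hXC) : A ⊔ X ≤ _) hg
  have hcX : ∀ {Z : Subgroup G}, Z ∈ S → ⁅Z, X⁆ = ⊥ → ⁅Z, C⁆ = ⊥ := by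
    intro Z hZ hZX
    have h1 : ⁅conjBy Z g⁻¹, A⁆ = ⊥ := by
      rw [← conjBy_inv_conjBy A g, conj_commutator_eq_bot, ← hXg]
      exact hZX
    have h2 := (conj_commutator_eq_bot g).2 (hcA (hS.1.conj_mem Z hZ _) h1)
    rwa [hgC, conjBy_conjBy Z, mul_inv_cancel, conjBy_one] at h2
  have hni : ¬ IsIsolatedIn (FAdj S) S C := by
    obtain ⟨k, rfl⟩ := hS.2.2 A hA C hC
    exact not_isolated_conj hS.1 hA (not_isolated hA hXS hp) k
  obtain ⟨D, hD, hCD⟩ := exists_partner hni hC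
  have hpart : ∀ {Y : Subgroup G}, Y ∈ S → (∀ {Z : Subgroup G}, Z ∈ S → ⁅Z, Y⁆ = ⊥ → ⁅Z, C⁆ = ⊥) →
      IsRankOnePair Y D := by
    intro Y hY hcY
    rcases hS.1.pair Y hY D hD with hc | hr | hcase
    · exact absurd (hcY hD (by rwa [Subgroup.commutator_comm])) (commutator_ne_bot (RankOnePair_symm hCD))
    · exact hr
    · exact absurd hcase (hdeg Y hY D hD)
  have hAD := hpart hA hcA
  have hXD := hpart hXS hcX
  obtain ⟨d, hd, hd1⟩ := nonidentity_left (RankOnePair_symm hCD)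
  obtain ⟨a, ha, ha1, hea⟩ := hAD.cond_right d hd hd1
  obtain ⟨b, hb, hb1, heb⟩ := hXD.cond_right d hd hd1
  obtain ⟨c, hc, hc1, hec⟩ := hCD.cond_right d hd hd1
  have hac : ∀ {Y : Subgroup G}, ⁅Y, C⁆ = ⊥ → ∀ y ∈ Y, conjBy D y⁻¹ = conjBy Y d⁻¹ →
      ⁅conjBy D (c * y⁻¹), D⁆ = ⊥ := by
    intro Y hYC y hy he
    have h1 : ⁅conjBy D y⁻¹, conjBy D c⁻¹⁆ = ⊥ := by rw [he, hec, conj_commutator_eq_bot]; exact hYC
    have h2 := (conj_commutator_eq_bot c).2 h1
    rwa [conjBy_conjBy, conjBy_conjBy, mul_inv_cancel, conjBy_one] at h2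
  have h1 : ⁅conjBy D (a * c⁻¹), D⁆ = ⊥ := by
    have h2 := (conj_commutator_eq_bot (a * c⁻¹)).2 (hac hAC a ha hea)
    rw [conjBy_conjBy, show a * c⁻¹ * (c * a⁻¹) = 1 by group, conjBy_one] at h2
    rwa [Subgroup.commutator_comm]
  -- transfer the centralizer inclusion for `X` to `D`
  have hXDc : ∀ Z ∈ S, ⁅Z, D⁆ = ⊥ → ⁅Z, conjBy D (b * c⁻¹)⁆ = ⊥ := by
    intro Z hZ hZD
    have h2 := (conj_commutator_eq_bot b⁻¹).2 hZD
    rw [heb] at h2
    have h3 := (conj_commutator_eq_bot d).2 h2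
    rw [conjBy_conjBy X, mul_inv_cancel, conjBy_one, conjBy_conjBy] at h3
    have h4 := (conj_commutator_eq_bot d⁻¹).2 (hcX (hS.1.conj_mem Z hZ _) h3)
    rw [← hec, conjBy_conjBy Z, inv_mul_cancel_left] at h4
    have h5 := (conj_commutator_eq_bot b).2 h4
    rwa [conjBy_conjBy, conjBy_conjBy, mul_inv_cancel, conjBy_one] at h5
  have h3 := hXDc _ (hS.1.conj_mem D hD _) h1
  have h4 := (conj_commutator_eq_bot c).2 h3
  rw [conjBy_conjBy, conjBy_conjBy] at h4
  have e1 : c * (a * c⁻¹) = a := by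
    rw [← mul_assoc, ← CfsgLib.RootGroups.commutator_eq_bot_iff.1 hAC a ha c hc, mul_inv_cancel_right]
  have e2 : c * (b * c⁻¹) = b := by
    rw [← mul_assoc, ← CfsgLib.RootGroups.commutator_eq_bot_iff.1 hXC b hb c hc, mul_inv_cancel_right]
  rw [e1, e2] at h4
  obtain ⟨d₁, hd₁, -, he₁⟩ := hAD.cond_left a⁻¹ (A.inv_mem ha) (inv_ne_one.2 ha1)
  obtain ⟨d₂, hd₂, -, he₂⟩ := hXD.cond_left b⁻¹ (X.inv_mem hb) (inv_ne_one.2 hb1)
  rw [inv_inv] at he₁ he₂
  rw [← he₁, ← he₂] at h4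
  have h5 := (conj_commutator_eq_bot d₁).2 h4
  rw [conjBy_conjBy, conjBy_conjBy, mul_inv_cancel, conjBy_one] at h5
  by_cases hu : d₁ * d₂⁻¹ = 1
  · rw [hu, conjBy_one] at h5
    exact commutator_ne_bot hp h5
  have h6 := hcA (hS.1.conj_mem X hXS _) (by rwa [Subgroup.commutator_comm])
  have hle : X ⊔ conjBy X (d₁ * d₂⁻¹) ≤ Subgroup.centralizer (C : Set G) :=
    sup_le (Subgroup.commutator_eq_bot_iff_le_centralizer.1 hXC)
      (Subgroup.commutator_eq_bot_iff_le_centralizer.1 h6)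
  rw [sup_conjBy_eq hXD (D.mul_mem hd₁ (D.inv_mem hd₂)) hu] at hle
  exact commutator_ne_bot (RankOnePair_symm hCD)
    (Subgroup.commutator_eq_bot_iff_le_centralizer.2 (le_trans le_sup_right hle))

theorem partners_two (hS : IsRootSubgroupClass S) (hnd : IsNondegenerateRootSet S) (hA : A ∈ S) (hC : C ∈ S)
    (hne : A ≠ C) (hΩ : rankOnePartners S A ⊆ rankOnePartners S C) :
    ⁅A, C⁆ = ⊥ ∧ rankOnePartners S A = rankOnePartners S C := by
  have hni := class_not_isolated hS hnd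
  have hAC : ⁅A, C⁆ = ⊥ := by
    rcases hS.1.pair A hA C hC with hc | hr | hcase
    · exact hc
    · exact absurd rfl (hΩ ⟨hC, hr⟩ : C ∈ rankOnePartners S C).2.ne
    · exfalso
      obtain ⟨P, hP, hCP, -⟩ := exists_rankOne_commuting hS hnd hA hC hcase
      exact commutator_ne_bot (hΩ hP).2 hCP
  have hb := fun (X : Subgroup G) => not_case_of_partners_subset hS hnd hA hC hΩ hAC (X := X)
  have hsub : centralizingMembers S A ⊆ centralizingMembers S C := by
    intro X hX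
    obtain ⟨hXS, hXA⟩ := mem_centralizingMembers_iff.1 hX
    refine mem_centralizingMembers_iff.2 ⟨hXS, ?_⟩
    rcases hS.1.pair C hC X hXS with hc | hr | hcase
    · rwa [Subgroup.commutator_comm]
    swap
    · exact absurd hcase (hb X hXS hXA)
    exfalso
    obtain ⟨L, hL⟩ := exists_linePartner hS hnd hA
    have hLA : ⁅L, A⁆ = ⊥ := by rw [Subgroup.commutator_comm]; exact hL.1.2.2
    have hLC : ⁅L, C⁆ = ⊥ := by
      rcases hS.1.pair C hC L hL.1.1 with hc | hr' | hcase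
      · rwa [Subgroup.commutator_comm]
      · exact absurd hAC ((line_of_linePartners hS.1 hA hL).not_commute hS.1 (X := L) (Y := A)
          ⟨hL.1.1, le_sup_right⟩ ⟨hA, le_sup_left⟩ hL.1.2.1.symm hC (RankOnePair_symm hr'))
      · exact absurd hcase (hb L hL.1.1 hLA)
    obtain ⟨P, hP, hp, hnr⟩ := exists_partner_axis hS hnd hA hL
    have hN := line_of_linePartners hS.1 hA hL
    obtain ⟨heq, hcAM⟩ := axis_eq hS.1 hN (D := L) ⟨hA, le_sup_left⟩ ⟨hL.1.1, le_sup_right⟩ hL.1.2.1 hP hp hnr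
      (hni L hL.1.1)
    have hcLP := case_of_not_rankOne hS.1 hL.1.1 hP hnr
      (hN.not_commute hS.1 ⟨hA, le_sup_left⟩ ⟨hL.1.1, le_sup_right⟩ hL.1.2.1 hP hp)
    rcases hS.1.pair C hC ⁅L, P⁆ hcLP.1 with hc | hr' | hcM
    · exact hS.1.ne_bot _ hcLP.1 (commute_of_commute hLC (hΩ ⟨hP, hp⟩).2 (by rwa [Subgroup.commutator_comm]))
    · exact hS.1.ne_bot _ hcAM.1 (commute_of_commute hAC hr' (by rw [heq]; exact hLC))
    have hR := hcM.1
    have hRA : ⁅⁅C, ⁅L, P⁆⁆, A⁆ = ⊥ := by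
      refine Subgroup.commutator_commutator_eq_bot_of_rotate ?_ ?_
      · rw [Subgroup.commutator_comm _ A, heq]
        exact hLC
      · rw [hAC, Subgroup.commutator_bot_left]
    have hlR : ⁅C, ⁅L, P⁆⁆ ∈ linePartners S C :=
      linePartners_symm hR (linePartners_commutator hS.1 hC (hni C hC) hcLP.1 hR)
    have hNR := line_of_linePartners hS.1 hC hlR
    obtain ⟨D, hD, hDC, -, hnD⟩ := exists_axis hS.1 hNR (A := C) ⟨hC, le_sup_left⟩ ⟨hR, le_sup_right⟩
      hlR.1.2.1 rfl hXS hr (fun D hD => hni D hD.1)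
    have hDA : ⁅D, A⁆ = ⊥ := by
      refine Subgroup.commutator_eq_bot_iff_le_centralizer.2 (hD.2.trans (sup_le ?_ ?_))
      · exact Subgroup.commutator_eq_bot_iff_le_centralizer.1 (by rwa [Subgroup.commutator_comm])
      · exact Subgroup.commutator_eq_bot_iff_le_centralizer.1 hRA
    have hcDX := case_of_not_rankOne hS.1 hD.1 hXS hnD (hNR.not_commute hS.1 ⟨hC, le_sup_left⟩ hD hDC hXS hr)
    -- `X` has the same property as `C`
    have hΩX : rankOnePartners S A ⊆ rankOnePartners S X := by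
      obtain ⟨g, hg, hXg⟩ := right_mem_unipotent hr
      have hgA : conjBy A g = A := by
        refine conjBy_eq_self_iff.2 (Subgroup.centralizer_le_normalizer (s := (A : Set G)) ?_)
        exact (sup_le (Subgroup.commutator_eq_bot_iff_le_centralizer.1 (by rwa [Subgroup.commutator_comm]))
          (Subgroup.commutator_eq_bot_iff_le_centralizer.1 hXA) : C ⊔ X ≤ _) hg
      rintro Z ⟨hZ, hz⟩
      have h1 := isRankOnePair_conj hz g⁻¹
      rw [conjBy_eq_iff] at hgA
      rw [← hgA] at h1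
      have h2 := isRankOnePair_conj (hΩ ⟨hS.1.conj_mem Z hZ _, h1⟩).2 g
      rw [← hXg, conjBy_conjBy Z, mul_inv_cancel, conjBy_one] at h2
      exact ⟨hZ, h2⟩
    exact not_case_of_partners_subset hS hnd hA hXS hΩX (by rwa [Subgroup.commutator_comm]) hD.1 hDA
      (rootCommutatorCase_symm hcDX)
  obtain ⟨heqC, -⟩ := centralizing_eq_of_subset hS hnd hA hC hsub
  refine ⟨hAC, Set.Subset.antisymm hΩ ?_⟩
  rintro Y ⟨hY, hy⟩
  refine ⟨hY, ?_⟩
  rcases hS.1.pair A hA Y hY with hc | hr | hcase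
  · exfalso
    have h1 : Y ∈ centralizingMembers S C := heqC ▸ mem_centralizingMembers_iff.2
      ⟨hY, by rwa [Subgroup.commutator_comm]⟩
    exact commutator_ne_bot (RankOnePair_symm hy) (mem_centralizingMembers_iff.1 h1).2
  · exact hr
  exfalso
  have h1 : ⁅⁅A, Y⁆, C⁆ = ⊥ := (mem_centralizingMembers_iff.1 (hsub (mem_centralizingMembers_iff.2
    ⟨hcase.1, CfsgLib.RootGroups.commutator_eq_bot_iff.2 fun x hx y hy => case_comm_left hcase hx hy⟩))).2
  have hl : Y ∈ linePartners S ⁅A, Y⁆ := by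
    rw [Subgroup.commutator_comm]
    exact linePartners_commutator hS.1 hY (hni Y hY) hA (by rw [Subgroup.commutator_comm]; exact hcase.1)
  exact (line_of_linePartners hS.1 hcase.1 hl).not_commute hS.1 (X := Y) (Y := ⁅A, Y⁆) ⟨hY, le_sup_right⟩
    ⟨hcase.1, le_sup_left⟩ hl.1.2.1.symm hC (RankOnePair_symm hy) h1

end

/-- Let S be a class of abstract root subgroups of G that is either degenerate or non-degenerate (so either the commutator case never occurs, or all three cases occur), and A ≠ C members of S. If every member of S commuting with A commutes with C, then A and C have the same commuting members of S; and if every rank one partner of A is a rank one partner of C, then A and C commute and have the same rank one partners. -/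
theorem result {G : Type*} [Group G] {S : Set (Subgroup G)} (hS : Cfsg.IsRootSubgroupClass S)
    (hdn : Cfsg.IsDegenerateRootSet S ∨ Cfsg.IsNondegenerateRootSet S)
    {A C : Subgroup G} (hA : A ∈ S) (hC : C ∈ S) (hAC : A ≠ C) :
    (Cfsg.centralizingMembers S A ⊆ Cfsg.centralizingMembers S C →
      Cfsg.centralizingMembers S A = Cfsg.centralizingMembers S C) ∧
    (Cfsg.rankOnePartners S A ⊆ Cfsg.rankOnePartners S C →
      ⁅A, C⁆ = ⊥ ∧ Cfsg.rankOnePartners S A = Cfsg.rankOnePartners S C) := by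
  rcases hdn with hdeg | hnd
  · refine ⟨degenerate_one hS hdeg hA hC, fun hΩ => ?_⟩
    have hcomp : ∀ Y ∈ S, ∀ Z ∈ S, ⁅Y, Z⁆ = ⊥ ∨ Cfsg.IsRankOnePair Y Z := fun Y hY Z hZ =>
      (hS.1.pair Y hY Z hZ).imp id fun h => h.resolve_right (hdeg Y hY Z hZ)
    have hAC' : ⁅A, C⁆ = ⊥ := (hcomp A hA C hC).resolve_right fun hr => (hΩ ⟨hC, hr⟩).2.ne rfl
    have hsub : Cfsg.centralizingMembers S C ⊆ Cfsg.centralizingMembers S A := by
      intro X hX
      obtain ⟨hXS, hXC⟩ := mem_centralizingMembers_iff.1 hX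
      refine mem_centralizingMembers_iff.2 ⟨hXS, (hcomp X hXS A hA).resolve_right fun hr => ?_⟩
      exact commutator_ne_bot (RankOnePair_symm (hΩ ⟨hXS, RankOnePair_symm hr⟩).2) hXC
    have heq := degenerate_one hS hdeg hC hA hsub
    refine ⟨hAC', Set.Subset.antisymm hΩ ?_⟩
    rintro Y ⟨hY, hy⟩
    refine ⟨hY, (hcomp A hA Y hY).resolve_left fun hc => ?_⟩
    have h1 : Y ∈ Cfsg.centralizingMembers S C :=
      heq ▸ mem_centralizingMembers_iff.2 ⟨hY, by rwa [Subgroup.commutator_comm]⟩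
    exact commutator_ne_bot (RankOnePair_symm hy) (mem_centralizingMembers_iff.1 h1).2
  · exact ⟨fun h => (centralizing_eq_of_subset hS hnd hA hC h).1, partners_two hS hnd hA hC hAC⟩

end Cfsg.Agent.S5037
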