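import Cfsg.Statements.S5039
import Cfsg.Agent.RootGroups.Special
import Cfsg.Agent.S5034

set_option autoImplicit false
universe u
open Cfsg
open scoped commutatorElement

namespace Cfsg.Agent.S5039

open CfsgLib.RankOne CfsgLib.RootGroups

section
variable {G : Type*} [Group G] {S : Set (Subgroup G)} {A B C D P Q R : Subgroup G}

/-- `P` and `Q` have the same commuting members apart from themselves. -/
def Eqv (S : Set (Subgroup G)) (P Q : Subgroup G) : Prop :=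
  ∀ Z ∈ S, (Z ≠ P ∧ ⁅Z, P⁆ = ⊥) ↔ (Z ≠ Q ∧ ⁅Z, Q⁆ = ⊥)

lemma Eqv.symm (h : Eqv S P Q) : Eqv S Q P := fun Z hZ => (h Z hZ).symm

lemma Eqv.trans (h : Eqv S P Q) (h' : Eqv S Q R) : Eqv S P R := fun Z hZ => (h Z hZ).trans (h' Z hZ)

lemma Eqv.conj (hS : IsRootSubgroupSet S) (h : Eqv S P Q) (g : G) : Eqv S (conjBy P g) (conjBy Q g) := by
  intro Z hZ
  have e : ∀ X : Subgroup G, (Z ≠ conjBy X g ∧ ⁅Z, conjBy X g⁆ = ⊥) ↔
      (conjBy Z g⁻¹ ≠ X ∧ ⁅conjBy Z g⁻¹, X⁆ = ⊥) := by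
    intro X
    conv_rhs => rw [← conjBy_inv_conjBy X g, conj_commutator_eq_bot]
    simp [conjBy_inj]
  rw [e, e]
  exact h _ (hS.conj_mem Z hZ _)

lemma centralizes (hX : ⁅C, A⁆ = ⊥) (hY : ⁅C, B⁆ = ⊥) {c y : G} (hc : c ∈ C) (hy : y ∈ A ⊔ B) : Commute c y := by
  have hle : A ⊔ B ≤ Subgroup.centralizer {c} := sup_le
    (fun z hz => Subgroup.mem_centralizer_singleton_iff.2
      (CfsgLib.RootGroups.commutator_eq_bot_iff.1 hX c hc z hz).symm)
    (fun z hz => Subgroup.mem_centralizer_singleton_iff.2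
      (CfsgLib.RootGroups.commutator_eq_bot_iff.1 hY c hc z hz).symm)
  exact (Subgroup.mem_centralizer_singleton_iff.1 (hle hy)).symm

/-- If `A` and `B` are equivalent, every commutator in `⟨A, B⟩` lying in `A` is trivial. -/
lemma eq_one_of_commutator (hS : IsRootSubgroupSet S) (hA : A ∈ S) (hB : B ∈ S) (hC : C ∈ S) (hD : D ∈ S)
    (hAC : ⁅A, C⁆ = ⊥) (hne : A ≠ C) (hBC : ⁅C, B⁆ = ⊥) (hp : IsRankOnePair A D) (hq : IsRankOnePair B D)
    (hr : IsRankOnePair C D) (hE : Eqv S A B) {x y : G} (hx : x ∈ A ⊔ B) (hy : y ∈ A ⊔ B)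
    (hxy : x * y * x⁻¹ * y⁻¹ ∈ A) : x * y * x⁻¹ * y⁻¹ = 1 := by
  have hcX : ∀ {c z : G}, c ∈ C → z ∈ A ⊔ B → Commute c z := fun hc hz =>
    centralizes (by rwa [Subgroup.commutator_comm]) hBC hc hz
  -- the member `D^c` attached to a non-identity `a`
  have hc : ∀ a ∈ A, a ≠ 1 → ∃ c ∈ C, c ≠ 1 ∧ conjBy D c ≠ conjBy D a ∧ ⁅conjBy D c, conjBy D a⁆ = ⊥ := by
    intro a ha ha1
    obtain ⟨δ, hδ, hδ1, he⟩ := hp.cond_left a⁻¹ (A.inv_mem ha) (inv_ne_one.2 ha1)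
    obtain ⟨c, hc, hc1, hce⟩ := hr.cond_right δ hδ hδ1
    rw [inv_inv] at he
    refine ⟨c⁻¹, C.inv_mem hc, inv_ne_one.2 hc1, ?_, ?_⟩
    · exact fun e => conjBy_ne_of_commute hS hA hAC hne hp hr ha ha1 (C.inv_mem hc) e.symm
    · rw [hce, ← he, conj_commutator_eq_bot, Subgroup.commutator_comm]; exact hAC
  have U0 : ∀ c ∈ C, c ≠ 1 → ⁅conjBy D c, D⁆ ≠ ⊥ := by
    intro c hc hc1 e
    obtain ⟨d, hd, hd1⟩ := exists_nonid hS hD
    exact not_conj_commute hr hc hc1 hd hd1 hd hd1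
      (CfsgLib.RootGroups.commutator_eq_bot_iff.1 e _ (conj_mem_conjBy hd) d hd)
  have U1 : ∀ a ∈ A, ∀ a' ∈ A, ∀ c ∈ C, a ≠ 1 → a' ≠ 1 → c ≠ 1 → ⁅conjBy D c, conjBy D a⁆ = ⊥ →
      ⁅conjBy D c, conjBy D a'⁆ = ⊥ → a = a' := by
    intro a ha a' ha' c hc ha1 ha'1 hc1 h h'
    have key : ∀ a ∈ A, a ≠ 1 → ⁅conjBy D c, conjBy D a⁆ = ⊥ → ∀ w ∈ D, conjBy C w = conjBy D c →
        conjBy D a = conjBy A w := by
      intro a ha ha1 h w hw hwe
      obtain ⟨v, hv, -, hve⟩ := hp.cond_left a⁻¹ (A.inv_mem ha) (inv_ne_one.2 ha1)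
      rw [inv_inv] at hve
      rw [← hve, ← hwe] at h
      have h2 := (conj_commutator_eq_bot v).2 h
      rw [conjBy_conjBy, conjBy_conjBy, mul_inv_cancel, conjBy_one] at h2
      have hvw : v * w = 1 := by
        by_contra hu
        have hle : C ⊔ conjBy C (v * w) ≤ Subgroup.centralizer (A : Set G) := sup_le
          (Subgroup.commutator_eq_bot_iff_le_centralizer.1 (by rwa [Subgroup.commutator_comm]))
          (Subgroup.commutator_eq_bot_iff_le_centralizer.1 h2)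
        rw [sup_conjBy_eq hr (D.mul_mem hv hw) hu] at hle
        apply commutator_ne_bot (RankOnePair_symm hp)
        exact Subgroup.commutator_eq_bot_iff_le_centralizer.2 (le_sup_right.trans hle)
      rw [← hve, inv_eq_of_mul_eq_one_right hvw]
    obtain ⟨w, hw, -, hwe⟩ := hr.cond_left c⁻¹ (C.inv_mem hc) (inv_ne_one.2 hc1)
    rw [inv_inv] at hwe
    exact conj_injective hp ha ha' ((key a ha ha1 h w⁻¹ (D.inv_mem hw) hwe).trans
      (key a' ha' ha'1 h' w⁻¹ (D.inv_mem hw) hwe).symm)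
  -- matched elements act alike on the class of `D`
  have hAB : ∀ {P Q : Subgroup G}, IsRankOnePair P D → IsRankOnePair Q D → Eqv S P Q → ∀ z ∈ P,
      ∃ z' ∈ Q, Eqv S (conjBy D z) (conjBy D z') := by
    intro P Q hP hQ hPQ z hz
    by_cases hz1 : z = 1
    · exact ⟨1, Q.one_mem, fun Z _ => by rw [hz1]⟩
    obtain ⟨δ, hδ, hδ1, he⟩ := hP.cond_left z⁻¹ (P.inv_mem hz) (inv_ne_one.2 hz1)
    obtain ⟨b, hb, -, hbe⟩ := hQ.cond_right δ hδ hδ1
    rw [inv_inv] at he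
    refine ⟨b⁻¹, Q.inv_mem hb, ?_⟩
    rw [hbe, ← he]
    exact hPQ.conj hS δ⁻¹
  -- the class of `D` under `⟨A, B⟩`
  have horb : ∀ z ∈ A ⊔ B, ∃ a ∈ A, Eqv S (conjBy D z) (conjBy D a) := by
    intro z hz
    have step : ∀ w : G, w ∈ A ∨ w ∈ B → ∀ z : G, (∃ a ∈ A, Eqv S (conjBy D z) (conjBy D a)) →
        ∃ a ∈ A, Eqv S (conjBy D (w * z)) (conjBy D a) := by
      rintro w (hw | hw) z ⟨a, ha, hza⟩
      · exact ⟨w * a, A.mul_mem hw ha, by simpa [conjBy_conjBy] using hza.conj hS w⟩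
      · obtain ⟨b, hb, hab⟩ := hAB hp hq hE a ha
        obtain ⟨a', ha', hba⟩ := hAB hq hp hE.symm (w * b) (B.mul_mem hw hb)
        refine ⟨a', ha', ?_⟩
        have := (hza.trans hab).conj hS w
        rw [conjBy_conjBy, conjBy_conjBy] at this
        exact this.trans hba
    suffices ∀ u : G, (∃ a ∈ A, Eqv S (conjBy D u) (conjBy D a)) →
        ∃ a ∈ A, Eqv S (conjBy D (z * u)) (conjBy D a) by
      simpa using this 1 ⟨1, A.one_mem, fun Z _ => Iff.rfl⟩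
    rw [Subgroup.sup_eq_closure] at hz
    induction hz using Subgroup.closure_induction'' with
    | mem w hw => exact step w hw
    | inv_mem w hw => exact step w⁻¹ (hw.imp A.inv_mem B.inv_mem)
    | one => intro u hu; simpa using hu
    | mul v w _ _ hv hw => intro u hu; rw [mul_assoc]; exact hv _ (hw u hu)
  have hK : ∀ k ∈ A ⊔ B, Eqv S (conjBy D k) D → ∀ a ∈ A, Eqv S (conjBy D (k * a)) (conjBy D a) := by
    intro k hk hkD a ha
    by_cases ha1 : a = 1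
    · rw [ha1, mul_one, conjBy_one]; exact hkD
    obtain ⟨a'', ha'', hE''⟩ := horb (k * a) (mul_mem hk (Subgroup.mem_sup_left ha))
    obtain ⟨c, hc, hc1, hcne, hcc⟩ := hc a ha ha1
    have hkc : Eqv S (conjBy D (k * c)) (conjBy D c) := by
      have := hkD.conj hS c
      rwa [conjBy_conjBy, (hcX hc hk).eq] at this
    have h1 : conjBy D (k * a) ≠ conjBy D (k * c) ∧ ⁅conjBy D (k * a), conjBy D (k * c)⁆ = ⊥ := by
      rw [← conjBy_conjBy D a k, ← conjBy_conjBy D c k]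
      exact ⟨fun e => hcne (conjBy_inj.1 e).symm,
        (conj_commutator_eq_bot k).2 (by rwa [Subgroup.commutator_comm])⟩
    obtain ⟨h2, h3⟩ := (hkc _ (hS.conj_mem D hD _)).1 h1
    obtain ⟨-, h4⟩ := (hE'' _ (hS.conj_mem D hD c)).1 ⟨h2.symm, by rwa [Subgroup.commutator_comm]⟩
    have ha''1 : a'' ≠ 1 := fun e => U0 c hc hc1 (by rwa [e, conjBy_one] at h4)
    obtain rfl := U1 a ha a'' ha'' c hc ha1 ha''1 hc1 hcc h4
    exact hE''
  have huniq : ∀ a ∈ A, Eqv S (conjBy D a) D → a = 1 := by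
    intro a ha h
    by_contra ha1
    obtain ⟨c, hc, hc1, hcne, hcc⟩ := hc a ha ha1
    exact U0 c hc hc1 ((h _ (hS.conj_mem D hD c)).1 ⟨hcne, hcc⟩).2
  have hker : ∀ z ∈ A ⊔ B, ∀ a ∈ A, Eqv S (conjBy D z) (conjBy D a) → ∀ w ∈ A ⊔ B, ∀ a' ∈ A,
      Eqv S (conjBy D w) (conjBy D a') → Eqv S (conjBy D (z * w)) (conjBy D (a * a')) := by
    intro z hz a ha hza w hw a' ha' hwa
    have h1 := hwa.conj hS z
    rw [conjBy_conjBy, conjBy_conjBy] at h1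
    have hk : Eqv S (conjBy D (a⁻¹ * z)) D := by
      have := hza.conj hS a⁻¹
      rwa [conjBy_conjBy, conjBy_conjBy, inv_mul_cancel, conjBy_one] at this
    have h2 := (hK (a⁻¹ * z) (mul_mem (inv_mem (Subgroup.mem_sup_left ha)) hz) hk a' ha').conj hS a
    rw [conjBy_conjBy, conjBy_conjBy, ← mul_assoc, mul_inv_cancel_left] at h2
    exact h1.trans h2
  obtain ⟨a₁, ha₁, h₁⟩ := horb x hx
  obtain ⟨a₂, ha₂, h₂⟩ := horb y hy
  obtain ⟨a₃, ha₃, h₃⟩ := horb x⁻¹ (inv_mem hx)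
  obtain ⟨a₄, ha₄, h₄⟩ := horb y⁻¹ (inv_mem hy)
  have e3 : a₁ * a₃ = 1 := by
    have h := hker x hx a₁ ha₁ h₁ _ (inv_mem hx) a₃ ha₃ h₃
    rw [mul_inv_cancel, conjBy_one] at h
    exact huniq _ (A.mul_mem ha₁ ha₃) h.symm
  have e4 : a₂ * a₄ = 1 := by
    have h := hker y hy a₂ ha₂ h₂ _ (inv_mem hy) a₄ ha₄ h₄
    rw [mul_inv_cancel, conjBy_one] at h
    exact huniq _ (A.mul_mem ha₂ ha₄) h.symm
  have h := hker _ (mul_mem (mul_mem hx hy) (inv_mem hx)) _ (A.mul_mem (A.mul_mem ha₁ ha₂) ha₃)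
    (hker _ (mul_mem hx hy) _ (A.mul_mem ha₁ ha₂) (hker x hx a₁ ha₁ h₁ y hy a₂ ha₂ h₂) _ (inv_mem hx) a₃ ha₃ h₃)
    _ (inv_mem hy) a₄ ha₄ h₄
  have e : a₁ * a₂ * a₃ * a₄ = 1 := by
    calc a₁ * a₂ * a₃ * a₄ = a₁ * (a₂ * a₃) * a₄ := by group
      _ = a₁ * (a₃ * a₂) * a₄ := by rw [mul_comm_of_mem hS hA ha₂ ha₃]
      _ = (a₁ * a₃) * (a₂ * a₄) := by group
      _ = 1 := by rw [e3, e4, one_mul]
  rw [e, conjBy_one] at h
  exact huniq _ hxy h

/-- A degenerate class with two commuting members gives, for an exceptional pair, a common partner. -/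
lemma exists_common (hS : IsRootSubgroupClass S) (hdeg : IsDegenerateRootSet S) (hA : A ∈ S) (hB : B ∈ S)
    (hp : IsRankOnePair A B) (hcomm : ∃ A ∈ S, ∃ C ∈ S, A ≠ C ∧ ⁅A, C⁆ = ⊥) (hE : Eqv S A B) :
    ∃ C ∈ S, ∃ D ∈ S, A ≠ C ∧ ⁅A, C⁆ = ⊥ ∧ IsRankOnePair A D ∧ IsRankOnePair B D ∧ IsRankOnePair C D := by
  obtain ⟨X, hX, Y, hY, hne, hXY⟩ := hcomm
  obtain ⟨g, hgA⟩ := hS.2.2 X hX A hA
  subst hgA
  set A := conjBy X g
  set C₀ := conjBy Y g
  have hC₀ : C₀ ∈ S := hS.1.conj_mem Y hY g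
  have h0 : C₀ ≠ A ∧ ⁅C₀, A⁆ = ⊥ :=
    ⟨fun e => hne (conjBy_inj.1 e).symm, (conj_commutator_eq_bot g).2 (by rwa [Subgroup.commutator_comm])⟩
  by_cases h : ∃ C ∈ S, (C ≠ A ∧ ⁅C, A⁆ = ⊥) ∧ ∃ D ∈ S, IsRankOnePair C D ∧ ¬ (D ≠ A ∧ ⁅D, A⁆ = ⊥)
  · obtain ⟨C, hC, hCA, D, hD, hq, hDA⟩ := h
    have hDA' : ⁅D, A⁆ ≠ ⊥ := fun e => hDA ⟨fun e' => by
      rw [e'] at hq; exact commutator_ne_bot hq hCA.2, e⟩
    have hDB : ⁅D, B⁆ ≠ ⊥ := fun e => hDA' <| ((hE D hD).2 ⟨fun e' => by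
      rw [e'] at hq; exact commutator_ne_bot hq ((hE C hC).1 hCA).2, e⟩).2
    refine ⟨C, hC, D, hD, hCA.1.symm, by rw [Subgroup.commutator_comm]; exact hCA.2, ?_, ?_, hq⟩
    · exact ((hS.1.pair A hA D hD).resolve_left (by rwa [Subgroup.commutator_comm])).resolve_right (hdeg A hA D hD)
    · exact ((hS.1.pair B hB D hD).resolve_left (by rwa [Subgroup.commutator_comm])).resolve_right (hdeg B hB D hD)
  exfalso
  push Not at h
  obtain ⟨k, hk⟩ := hS.2.2 A hA C₀ hC₀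
  have hni : ¬ IsIsolatedIn (FAdj S) S C₀ := hk ▸ not_isolated_conj hS.1 hA (not_isolated hA hB hp) k
  have hreach := reach_conj_self hS.1 k⁻¹ C₀ hC₀ hni
  rw [hk, conjBy_inv_conjBy, ← hk] at hreach
  suffices ∀ Z : Subgroup G, Relation.ReflTransGen (FAdj S) C₀ Z → Z ≠ A ∧ ⁅Z, A⁆ = ⊥ from (this A hreach).1 rfl
  intro Z hZ
  induction hZ with
  | refl => exact h0
  | tail _ hab ih => exact h _ hab.1 ih _ hab.2.1 hab.2.2

end

/-- Let S be a class of abstract root subgroups of G containing two different commuting members. Suppose that, in case S is degenerate and every element of every member of S has order at most 3, the following holds: for every A ∈ S and every rank one partner B of A there are subgroups A₀ ≤ A and B₀ ≤ B generating an image of SL₂(k) with central kernel, k a field with at least four elements, A₀ and B₀ being the images of the unitriangular subgroups. Then every rank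 one pair A, B in S is special. -/
theorem result {G : Type u} [Group G] {S : Set (Subgroup G)} (hS : Cfsg.IsRootSubgroupClass S)
    (hcomm : ∃ A ∈ S, ∃ C ∈ S, A ≠ C ∧ ⁅A, C⁆ = ⊥)
    (hH : Cfsg.IsDegenerateRootSet S → (∀ A ∈ S, ∀ a ∈ A, 0 < orderOf a ∧ orderOf a ≤ 3) →
      ∀ A ∈ S, ∀ B ∈ Cfsg.rankOnePartners S A, ∃ A₀ B₀ : Subgroup G, A₀ ≤ A ∧ B₀ ≤ B ∧
        ∃ (k : Type u) (_ : Field k), 3 < ENat.card k ∧ Cfsg.IsPSL2PairOver k A₀ B₀)
    {A B : Subgroup G} (hA : A ∈ S) (hB : B ∈ Cfsg.rankOnePartners S A) : Cfsg.IsSpecialRankOnePair A B := by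
  obtain ⟨hBS, hp⟩ := hB
  by_cases hdeg : Cfsg.IsDegenerateRootSet S
  swap
  · simp only [Cfsg.IsDegenerateRootSet, not_forall, not_not] at hdeg
    obtain ⟨X, hX, Y, hY, hc⟩ := hdeg
    exact (Cfsg.Agent.S5034.result hS ⟨hcomm, ⟨A, hA, B, hBS, hp⟩, ⟨X, hX, Y, hY, hc⟩⟩ hA ⟨hBS, hp⟩).2
  by_cases hgood : ∀ Z ∈ S, Z ≠ A → ⁅Z, A⁆ = ⊥ → ⁅Z, B⁆ = ⊥
  swap
  · push Not at hgood
    obtain ⟨C, hC, hCA, hcA, hcB⟩ := hgood
    exact special_of_commuting hS.1 hA hC hBS (by rwa [Subgroup.commutator_comm]) hCA.symm hp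
      (((hS.1.pair C hC B hBS).resolve_left hcB).resolve_right (hdeg C hC B hBS))
  by_cases hgood' : ∀ Z ∈ S, Z ≠ B → ⁅Z, B⁆ = ⊥ → ⁅Z, A⁆ = ⊥
  swap
  · push Not at hgood'
    obtain ⟨C, hC, hCB, hcB, hcA⟩ := hgood'
    have h := special_of_commuting hS.1 hBS hC hA (by rwa [Subgroup.commutator_comm]) hCB.symm
      (Cfsg.RankOnePair_symm hp) (((hS.1.pair C hC A hA).resolve_left hcA).resolve_right (hdeg C hC A hA))
    exact special_of_invPairs hp (invPairs_symm (invPairs_of_identity h.1 h.2))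
  by_cases hexp : ∀ a ∈ A, a * a = 1
  · refine special_of_invPairs hp fun a ha _ b hb _ he => ?_
    obtain ⟨g, rfl⟩ := hS.2.2 A hA B hBS
    obtain ⟨b', hb', rfl⟩ := hb
    rw [inv_eq_of_mul_eq_one_right (hexp a ha), ← map_inv, inv_eq_of_mul_eq_one_right (hexp b' hb')] at he
    exact he
  exfalso
  have hne : ∀ Z ∈ S, ⁅Z, A⁆ = ⊥ → ⁅Z, B⁆ = ⊥ → Z ≠ A ∧ Z ≠ B := fun Z _ h1 h2 =>
    ⟨fun e => CfsgLib.RootGroups.commutator_ne_bot hp (e ▸ h2), fun e =>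
      CfsgLib.RootGroups.commutator_ne_bot hp (by rw [Subgroup.commutator_comm]; exact e ▸ h1)⟩
  have hE : Eqv S A B := fun Z hZ =>
    ⟨fun h => ⟨(hne Z hZ h.2 (hgood Z hZ h.1 h.2)).2, hgood Z hZ h.1 h.2⟩,
      fun h => ⟨(hne Z hZ (hgood' Z hZ h.1 h.2) h.2).1, hgood' Z hZ h.1 h.2⟩⟩
  obtain ⟨C, hC, D, hD, hAC, hcAC, hpA, hpB, hpC⟩ := exists_common hS hdeg hA hBS hp hcomm hE
  by_cases hbig : ∃ a ∈ A, a * a ≠ 1 ∧ a * a * a ≠ 1
  · obtain ⟨a, ha, ha2, ha3⟩ := hbig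
    have ha1 : a ≠ 1 := fun e => ha2 (by rw [e, mul_one])
    obtain ⟨δ, hδ, hδ1, he⟩ := hpA.cond_left a ha ha1
    obtain ⟨c, hc, hc1, hce⟩ := hpC.cond_right δ hδ hδ1
    have T : Triple S A C D a c δ :=
      ⟨hS.1, hA, hC, hD, hcAC, hAC, hpA, hpC, ha, ha1, hc, hc1, hδ, he, hce.symm⟩
    obtain ⟨b, hb, hb1⟩ := exists_nonid hS.1 hBS
    exact hp.ne (eq_of_commute hp ha hb ha1 hb1 left_mem_unipotent (right_mem_unipotent hp)
      (T.commute_of_bad hdeg ha2 ha3 hgood hb).symm.eq)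
  push Not at hbig hexp
  have hord : ∀ a ∈ A, 0 < orderOf a ∧ orderOf a ≤ 3 := by
    intro a ha
    by_cases h2 : a * a = 1
    · have hf : a ^ 2 = 1 := by rw [pow_two]; exact h2
      exact ⟨orderOf_pos_iff.2 (isOfFinOrder_iff_pow_eq_one.2 ⟨2, two_pos, hf⟩),
        (orderOf_le_of_pow_eq_one two_pos hf).trans (by norm_num)⟩
    · have hf : a ^ 3 = 1 := by rw [pow_succ, pow_two]; exact hbig a ha h2
      exact ⟨orderOf_pos_iff.2 (isOfFinOrder_iff_pow_eq_one.2 ⟨3, by norm_num, hf⟩),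
        orderOf_le_of_pow_eq_one (by norm_num) hf⟩
  have hordS : ∀ Z ∈ S, ∀ z ∈ Z, 0 < orderOf z ∧ orderOf z ≤ 3 := by
    intro Z hZ z hz
    obtain ⟨g, rfl⟩ := hS.2.2 A hA Z hZ
    obtain ⟨a, ha, rfl⟩ := hz
    rw [orderOf_injective (MulAut.conj g).toMonoidHom (MulEquiv.injective _) a]
    exact hord a ha
  obtain ⟨A₀, B₀, hA₀, hB₀, k, _, hk, φ, hrange, hker, hup, -⟩ := hH hdeg hordS A hA B ⟨hBS, hp⟩
  -- an upper unitriangular element is a commutator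
  obtain ⟨t, ht0, ht1, ht2⟩ : ∃ t : k, t ≠ 0 ∧ t ≠ 1 ∧ t ≠ -1 := by
    by_contra hno
    push Not at hno
    have hsub : (Set.univ : Set k) ⊆ {0, 1, -1} := fun x _ => by
      by_cases h0 : x = 0
      · exact Or.inl h0
      by_cases h1 : x = 1
      · exact Or.inr (Or.inl h1)
      exact Or.inr (Or.inr (hno x h0 h1))
    have h3 := (Set.encard_le_encard hsub).trans (Set.encard_insert_le _ _)
    have h4 : ({1, -1} : Set k).encard ≤ 2 := (Set.encard_insert_le _ _).trans (by simp [one_add_one_eq_two])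
    rw [Set.encard_univ] at h3
    exact absurd (hk.trans_le (h3.trans (add_le_add h4 le_rfl))) (by norm_num)
  let u : k → Matrix.SpecialLinearGroup (Fin 2) k := fun x => ⟨!![1, x; 0, 1], by simp [Matrix.det_fin_two]⟩
  let T : Matrix.SpecialLinearGroup (Fin 2) k := ⟨!![t, 0; 0, t⁻¹], by simp [Matrix.det_fin_two, ht0]⟩
  have ht : t * t - 1 ≠ 0 := by
    intro e
    have e' : (t - 1) * (t + 1) = 0 := by rw [← e]; ring
    rcases mul_eq_zero.1 e' with h | h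
    · exact ht1 (sub_eq_zero.1 h)
    · exact ht2 (eq_neg_of_add_eq_zero_left h)
  set x₀ := (t * t - 1)⁻¹
  have hT : T * u x₀ = u 1 * (u x₀ * T) := by
    apply Subtype.ext
    show !![t, 0; 0, t⁻¹] * !![1, x₀; 0, 1] = !![1, 1; 0, 1] * (!![1, x₀; 0, 1] * !![t, 0; 0, t⁻¹])
    ext i j
    fin_cases i <;> fin_cases j <;> simp [Matrix.mul_apply, Fin.sum_univ_two]
    have hx : (t * t - 1) * x₀ = 1 := mul_inv_cancel₀ ht
    field_simp
    linear_combination hx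
  have hu1A : φ (u 1) ∈ A := hA₀ <| hup ▸ Subgroup.mem_map_of_mem φ (Subgroup.subset_closure
    (by refine ⟨?_, ?_, ?_⟩ <;> simp [u]))
  have hX : ∀ g, φ g ∈ A ⊔ B := fun g => (sup_le_sup hA₀ hB₀) (hrange ▸ ⟨g, rfl⟩)
  have hcom : φ (u 1) = φ T * φ (u x₀) * (φ T)⁻¹ * (φ (u x₀))⁻¹ := by
    rw [← map_mul, ← map_inv, ← map_mul, ← map_inv, ← map_mul, hT]
    congr 1
    group
  have hone := eq_one_of_commutator hS.1 hA hBS hC hD hcAC hAC
    (hgood C hC hAC.symm (by rwa [Subgroup.commutator_comm])) hpA hpB hpC hE (hX T) (hX (u x₀)) (hcom ▸ hu1A)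
  rw [← hcom] at hone
  let w : Matrix.SpecialLinearGroup (Fin 2) k := ⟨!![1, 0; 1, 1], by simp [Matrix.det_fin_two]⟩
  have := congrArg (fun M : Matrix.SpecialLinearGroup (Fin 2) k => (M : Matrix (Fin 2) (Fin 2) k))
    (Subgroup.mem_center_iff.1 (hker (MonoidHom.mem_ker.2 hone)) w)
  change !![1, 0; 1, 1] * !![(1 : k), 1; 0, 1] = !![1, 1; 0, 1] * !![1, 0; 1, 1] at this
  have := congrFun (congrFun this 0) 0
  simp [Matrix.mul_apply, Fin.sum_univ_two] at this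

end Cfsg.Agent.S5039
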