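import Cfsg.Statements.S5040
import Cfsg.Agent.S5042
import Cfsg.Agent.S5036

set_option autoImplicit false
open Cfsg
open scoped commutatorElement

namespace Cfsg.Agent.S5040

open CfsgLib.RankOne CfsgLib.RootGroups

/-- The conjugations fixing a family of subgroups setwise. -/
def setStab {G : Type*} [Group G] (Δ : Set (Subgroup G)) : Subgroup G where
  carrier := {g | (fun A => conjBy A g) '' Δ = Δ}
  one_mem' := by simp only [Set.mem_setOf_eq, conjBy_one, Set.image_id']
  mul_mem' := by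
    intro g h hg hh
    simp only [Set.mem_setOf_eq] at hg hh ⊢
    calc (fun A => conjBy A (g * h)) '' Δ = (fun A => conjBy A g) '' ((fun A => conjBy A h) '' Δ) := by
          rw [Set.image_image]; exact Set.image_congr fun A _ => (conjBy_conjBy A h g).symm
      _ = Δ := by rw [hh, hg]
  inv_mem' := by
    intro g hg
    simp only [Set.mem_setOf_eq] at hg ⊢
    conv_lhs => rw [← hg]
    rw [Set.image_image]
    simp only [conjBy_inv_conjBy, Set.image_id']

lemma mem_setStab_of_commute {G : Type*} [Group G] {S Δ : Set (Subgroup G)} (hΔ : IsWeakTISubset S Δ)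
    {X A : Subgroup G} (hX : X ∈ S) (hA : A ∈ Δ) (h : ∀ x ∈ X, ∀ a ∈ A, x * a = a * x) : X ≤ setStab Δ := by
  intro x hx
  by_cases hx1 : x = 1
  · rw [hx1]; exact one_mem _
  rcases hΔ.2.2.2 x ⟨hx1, X, hX, hx⟩ with he | hd
  · exact he
  refine absurd (Set.disjoint_left.1 hd ⟨A, hA, ?_⟩ hA) id
  refine conjBy_eq_self_iff.2 (Subgroup.mem_normalizer_iff.2 fun y => ⟨fun hy => ?_, fun hy => ?_⟩)
  · rwa [conj_eq_self (h x hx y hy)]
  · have h3 := h x⁻¹ (X.inv_mem hx) _ hy
    have h4 : y = x * y * x⁻¹ := by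
      calc y = x⁻¹ * (x * y * x⁻¹) * x := by group
        _ = _ := by rw [h3]; group
    rwa [h4]

/-- Let S be a non-degenerate class of abstract root subgroups of G and Δ a weak TI-subset of S. Then the members of Δ commute with one another elementwise. -/
theorem result {G : Type*} [Group G] {S : Set (Subgroup G)} (hS : Cfsg.IsRootSubgroupClass S) (hnd : Cfsg.IsNondegenerateRootSet S)
    {Δ : Set (Subgroup G)} (hΔ : Cfsg.IsWeakTISubset S Δ) : Cfsg.IsAbelianFamily Δ := by
  have hni := class_not_isolated hS hnd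
  intro A hA A' hA' a ha a' ha'
  have hAS := hΔ.1 hA
  have hA'S := hΔ.1 hA'
  by_cases hne : A = A'
  · subst hne
    exact mul_comm_of_mem hS.1 hAS ha ha'
  by_contra hnc
  -- a rank one partner of `A` stabilising `Δ`
  have hex : ∃ M ∈ rankOnePartners S A, M ≤ setStab Δ := by
    rcases hS.1.pair A hAS A' hA'S with hc | hr | hcase
    · exact absurd (CfsgLib.RootGroups.commutator_eq_bot_iff.1 hc a ha a' ha') hnc
    · exact ⟨A', ⟨hA'S, hr⟩, mem_setStab_of_commute hΔ hA'S hA' fun x hx y hy => mul_comm_of_mem hS.1 hA'S hx hy⟩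
    · have hC := hcase.1
      have hcs : ⁅A', A⁆ ∈ S := by rw [Subgroup.commutator_comm]; exact hC
      have hlp : A' ∈ linePartners S ⁅A, A'⁆ := by
        rw [Subgroup.commutator_comm]
        exact linePartners_commutator hS.1 hA'S (hni A' hA'S) hAS hcs
      obtain ⟨P, hP, hp, hnr⟩ := exists_partner_axis hS hnd hC hlp
      have hN := line_of_linePartners hS.1 hC hlp
      obtain ⟨heq, hcase'⟩ := axis_eq hS.1 hN (A := ⁅A, A'⁆) (D := A') ⟨hC, le_sup_left⟩
        ⟨hA'S, le_sup_right⟩ hlp.1.2.1 hP hp hnr (hni A' hA'S)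
      have hcaseP := case_of_not_rankOne hS.1 hA'S hP hnr
        (hN.not_commute hS.1 ⟨hC, le_sup_left⟩ ⟨hA'S, le_sup_right⟩ hlp.1.2.1 hP hp)
      have hDC : ⁅⁅A', P⁆, ⁅A', A⁆⁆ = A' := by
        rw [Subgroup.commutator_comm A' A, Subgroup.commutator_comm]
        exact heq
      have hr := (Cfsg.Agent.S5036.result hS.1 hA'S hAS hcs hcaseP.1 hDC).1
      exact ⟨⁅A', P⁆, ⟨hcaseP.1, hr⟩, mem_setStab_of_commute hΔ hcaseP.1 hA'
        fun x hx y hy => case_comm_left hcaseP hx hy⟩
  obtain ⟨M, hM, hMle⟩ := hex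
  have htop : setStab Δ = ⊤ := by
    rw [eq_top_iff, ← Cfsg.Agent.S5042.result hS hnd hAS hM]
    refine sup_le (iSup₂_le fun C hC => ?_) hMle
    exact mem_setStab_of_commute hΔ hC.1.1 hA fun x hx y hy =>
      (CfsgLib.RootGroups.commutator_eq_bot_iff.1 hC.1.2.2 y hy x hx).symm
  refine hΔ.2.2.1 (Set.Subset.antisymm hΔ.1 fun Z hZ => ?_)
  obtain ⟨g, rfl⟩ := hS.2.2 A hAS Z hZ
  have hg : (fun A => conjBy A g) '' Δ = Δ := by
    have : g ∈ setStab Δ := htop ▸ Subgroup.mem_top g
    exact this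
  rw [← hg]
  exact ⟨A, hA, rfl⟩

end Cfsg.Agent.S5040
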