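import Cfsg.Statements.S5045
import Cfsg.Agent.RootInvol.Basic

set_option autoImplicit false
open Cfsg

namespace Cfsg.Agent.S5045

open CfsgLib.RootInvol

section
variable {G : Type*} [Group G] {D : Set G}

lemma exists_odd {a : G} (h : ∃ a' ∈ Cfsg.elemComponentOf (Cfsg.OddAdj D) D a, a' ≠ a) :
    ∃ x, Cfsg.OddAdj D a x := by
  obtain ⟨a', ⟨-, hr⟩, hne⟩ := h
  rcases hr.cases_head with h1 | ⟨x, hx, -⟩
  · exact absurd h1.symm hne
  · exact ⟨x, hx⟩

lemma comp_eq (hD : Cfsg.IsRootInvolutionSet D) {a b : G} (h : Relation.ReflTransGen (Cfsg.OddAdj D) a b) :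
    Cfsg.elemComponentOf (Cfsg.OddAdj D) D a = Cfsg.elemComponentOf (Cfsg.OddAdj D) D b := by
  ext z
  exact ⟨fun hz => ⟨hz.1, (reach_symm hD h).trans hz.2⟩, fun hz => ⟨hz.1, h.trans hz.2⟩⟩

end

/-- Let G be a finite group generated by a set D of root involutions, and W the set of members of D whose product with every other member of D has even order or is trivial (the isolated vertices of the odd-order-product graph on D). Then W is conjugation-invariant and generates a normal 2-subgroup of G meeting D in exactly W; the commutator of two members of D lying in different connected components of that graph, each with more than one member, lies in the subgroup generated by W; and for a in such a component, every member of D commuting with a, different from a and with product with a in D, lies in that component or in W. -/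
theorem result {G : Type*} [Group G] [Finite G] {D : Set G} (hD : Cfsg.IsRootInvolutionSet D) :
    (∀ w ∈ {w | Cfsg.IsIsolatedElem (Cfsg.OddAdj D) D w}, ∀ g : G, g * w * g⁻¹ ∈ {w | Cfsg.IsIsolatedElem (Cfsg.OddAdj D) D w}) ∧
    (Subgroup.closure {w | Cfsg.IsIsolatedElem (Cfsg.OddAdj D) D w}).Normal ∧
    IsPGroup 2 ↥(Subgroup.closure {w | Cfsg.IsIsolatedElem (Cfsg.OddAdj D) D w}) ∧
    (Subgroup.closure {w | Cfsg.IsIsolatedElem (Cfsg.OddAdj D) D w} : Set G) ∩ D = {w | Cfsg.IsIsolatedElem (Cfsg.OddAdj D) D w} ∧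
    (∀ a ∈ D, ∀ b ∈ D, (∃ a' ∈ Cfsg.elemComponentOf (Cfsg.OddAdj D) D a, a' ≠ a) →
      (∃ b' ∈ Cfsg.elemComponentOf (Cfsg.OddAdj D) D b, b' ≠ b) →
      Cfsg.elemComponentOf (Cfsg.OddAdj D) D a ≠ Cfsg.elemComponentOf (Cfsg.OddAdj D) D b →
        a * b * a⁻¹ * b⁻¹ ∈ Subgroup.closure {w | Cfsg.IsIsolatedElem (Cfsg.OddAdj D) D w}) ∧
    (∀ a ∈ D, (∃ a' ∈ Cfsg.elemComponentOf (Cfsg.OddAdj D) D a, a' ≠ a) →
      Cfsg.productPartners D a ⊆ Cfsg.elemComponentOf (Cfsg.OddAdj D) D a ∪ {w | Cfsg.IsIsolatedElem (Cfsg.OddAdj D) D w}) := by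
  set W := {w | Cfsg.IsIsolatedElem (Cfsg.OddAdj D) D w} with hW
  have hconj : ∀ w ∈ W, ∀ g : G, g * w * g⁻¹ ∈ W := by
    intro w hw g
    have key : ∀ b, ¬ Cfsg.OddAdj D (g * w * g⁻¹) b := fun b hb => by
      have := oddAdj_conj hD hb g⁻¹
      rw [inv_inv, show g⁻¹ * (g * w * g⁻¹) * g = w by group] at this
      exact (hw.2 _).1 this
    exact ⟨hD.conj_mem w hw.1 g, fun b => ⟨key b, fun h => key b (oddAdj_symm hD h)⟩⟩
  have hle : Subgroup.closure W ≤ Cfsg.pCore 2 G :=
    (Subgroup.closure_le _).2 fun w hw => isolated_mem_pCore hD hw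
  have h5 : ∀ a ∈ D, ∀ b ∈ D, ∀ x y, Cfsg.OddAdj D a x → Cfsg.OddAdj D b y →
      a * b * a⁻¹ * b⁻¹ ∈ Subgroup.closure W ∨ Relation.ReflTransGen (Cfsg.OddAdj D) a b := by
    intro a ha b hb x y hax hby
    rw [inv_eq hD ha, inv_eq hD hb]
    rcases hD.pair a ha b hb with h | h | ⟨h4, hsq⟩
    · refine Or.inl ?_
      rw [show a * b * a * b = (a * b) * (a * b) by group]
      nth_rewrite 2 [h]
      rw [mul_assoc a, ← mul_assoc b b, mul_self hD hb, one_mul, mul_self hD ha]
      exact one_mem _
    · by_cases hab : a = b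
      · exact Or.inr (hab ▸ Relation.ReflTransGen.refl)
      · exact Or.inr (Relation.ReflTransGen.single ⟨ha, hb, hab, h⟩)
    · rw [show a * b * a * b = (a * b) ^ 2 by rw [pow_two]; group]
      by_cases hz : ∃ z, Cfsg.OddAdj D ((a * b) ^ 2) z
      · obtain ⟨z, hz⟩ := hz
        right
        obtain ⟨ha', e1, c1, -⟩ := four_spec hD ha hb h4 hsq
        have r1 : Relation.ReflTransGen (Cfsg.OddAdj D) a z := by
          rcases oddAdj_split hD ha ha' c1 e1.symm hz with h | h
          · exact Relation.ReflTransGen.single h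
          · have := reach_symm hD (conj_reach hD hax b)
            rw [inv_eq hD hb] at this
            exact this.tail h
        have e2 : (a * b) ^ 2 = a * b * a * b := by rw [pow_two]; group
        have hb' : a * b * a ∈ D := by
          have := hD.conj_mem b hb a
          rwa [inv_eq hD ha] at this
        have c2 : a * b * a * b = b * (a * b * a) := by
          rw [← e2]
          have := inv_eq hD hsq
          rw [← this]
          simp [pow_two, inv_eq hD ha, inv_eq hD hb, mul_assoc]
        have r2 : Relation.ReflTransGen (Cfsg.OddAdj D) b z := by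
          rcases oddAdj_split hD hb' hb c2 e2 hz with h | h
          · have := reach_symm hD (conj_reach hD hby a)
            rw [inv_eq hD ha] at this
            exact this.tail h
          · exact Relation.ReflTransGen.single h
        exact r1.trans (reach_symm hD r2)
      · push Not at hz
        exact Or.inl (Subgroup.subset_closure ⟨hsq, fun z => ⟨hz z, fun h => hz z (oddAdj_symm hD h)⟩⟩)
  refine ⟨hconj, ?_, (CfsgLib.Subnormal.isPGroup_pCore 2).to_le hle, ?_, ?_, ?_⟩
  · refine ⟨fun n hn g => ?_⟩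
    induction hn using Subgroup.closure_induction with
    | mem w hw => exact Subgroup.subset_closure (hconj w hw g)
    | one => simp
    | mul p q _ _ hp hq =>
      rw [show g * (p * q) * g⁻¹ = (g * p * g⁻¹) * (g * q * g⁻¹) by group]; exact mul_mem hp hq
    | inv p _ hp =>
      rw [show g * p⁻¹ * g⁻¹ = (g * p * g⁻¹)⁻¹ by group]; exact inv_mem hp
  · ext d
    exact ⟨fun hd => isolated_of_mem_pCore hD hd.2 (hle hd.1), fun hd => ⟨Subgroup.subset_closure hd, hd.1⟩⟩
  · intro a ha b hb hA hB hne
    obtain ⟨x, hax⟩ := exists_odd hA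
    obtain ⟨y, hby⟩ := exists_odd hB
    exact (h5 a ha b hb x y hax hby).resolve_right fun h => hne (comp_eq hD h)
  · intro a ha hA b hb
    obtain ⟨x, hax⟩ := exists_odd hA
    obtain ⟨⟨hbD, hba, hne⟩, hbaD⟩ := hb
    by_cases hy : ∃ y, Cfsg.OddAdj D b y
    · obtain ⟨y, hby⟩ := hy
      refine Or.inl ⟨hbD, ?_⟩
      have e1 : b = a * (b * a) := by rw [hba, ← mul_assoc, mul_self hD ha, one_mul]
      have c1 : a * (b * a) = b * a * a := by rw [← mul_assoc, ← hba]
      rcases oddAdj_split hD ha hbaD c1 e1 hby with h | h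
      · exact (Relation.ReflTransGen.single h).tail (oddAdj_symm hD hby)
      · have e2 : a = b * (b * a) := by rw [← mul_assoc, mul_self hD hbD, one_mul]
        have c2 : b * (b * a) = b * a * b := by rw [mul_assoc b a b, ← hba]
        rcases oddAdj_split hD hbD hbaD c2 e2 hax with h' | h'
        · exact (Relation.ReflTransGen.single hax).tail (oddAdj_symm hD h')
        · exact (((Relation.ReflTransGen.single hax).tail (oddAdj_symm hD h')).tail h).tail (oddAdj_symm hD hby)
    · push Not at hy
      exact Or.inr ⟨hbD, fun z => ⟨hy z, fun h => hy z (oddAdj_symm hD h)⟩⟩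

end Cfsg.Agent.S5045
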