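import Cfsg.Statements.S5047
import Cfsg.Agent.RootInvol.SameClass

set_option autoImplicit false
open Cfsg

namespace Cfsg.Agent.S5047

open CfsgLib.RootInvol

/-- Let G be a finite group generated by a set D of root involutions whose odd-order-product graph is connected, a ∈ D, and b a member of D different from a, commuting with a, with ab ∈ D, but not having the same commuting members as a. Then some member x of D with bx of order 4 has ax of order 3. -/
theorem result {G : Type*} [Group G] [Finite G] {D : Set G} (hD : Cfsg.IsRootInvolutionSet D)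
    (hc : Cfsg.IsConnectedSet (Cfsg.OddAdj D) D) {a b : G} (ha : a ∈ D) (hb : b ∈ Cfsg.productPartners D a)
    (hbE : b ∉ Cfsg.sameCommutingClass D a) : ∃ x ∈ Cfsg.fourPartners D b, orderOf (a * x) = 3 := by
  obtain ⟨⟨hbD, hba, hne⟩, hbaD⟩ := hb
  have hAne : nbr D a ≠ nbr D b := fun h => hbE ⟨hbD, (sameClass_iff hD hc ha hbD).2 h⟩
  obtain ⟨x₀, hx1, hx2⟩ : ∃ x₀, Cfsg.OddAdj D a x₀ ∧ ¬ Cfsg.OddAdj D b x₀ := by
    by_contra hno
    push Not at hno
    exact hAne (nbr_eq_of_subset hD hc ha hbD hno)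
  obtain ⟨e, heD, he4, hesq, hbe⟩ := exists_four_sq_eq hD hx1 hbD hba.symm (hba ▸ hbaD) hx2
  obtain ⟨k1, k2, k3, k4, k5, k6⟩ := four_facts hD ha heD he4 (by rw [hesq]; exact hbD)
  rw [hesq] at k1 k2 k3 k4
  have hbeD : b * e ∈ D := k4 ▸ k6
  have hAne2 : nbr D b ≠ nbr D e := fun h => by
    have h1 : a * e = e * a := commuting_of_nbr_eq hD hc hbD heD h ha hba.symm
    have h2 : (a * e) ^ 2 = 1 := by
      rw [pow_two]; nth_rewrite 2 [h1]
      rw [mul_assoc a e, ← mul_assoc e e, mul_self hD heD, one_mul, mul_self hD ha]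
    exact ne_one hD hbD (hesq.symm.trans h2)
  obtain ⟨x₁, hx3, hx4⟩ : ∃ x₁, Cfsg.OddAdj D b x₁ ∧ ¬ Cfsg.OddAdj D e x₁ := by
    by_contra hno
    push Not at hno
    exact hAne2 (nbr_eq_of_subset hD hc hbD heD hno)
  obtain ⟨x, hxD, hx4', hxsq, -⟩ := exists_four_sq_eq hD hx3 heD hbe.eq hbeD hx4
  refine ⟨x, ⟨hxD, hx4'⟩, orderOf_eq_three hD ha hbD heD hxD hba.symm (hba ▸ hbaD) hx4' hxsq
    (by rw [orderOf_swap hD ha heD]; exact he4) ?_⟩
  have := inv_eq hD hbD
  rw [← this, ← hesq, ← inv_pow, mul_inv_rev, CfsgLib.RootInvol.inv_eq hD ha, CfsgLib.RootInvol.inv_eq hD heD]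

end Cfsg.Agent.S5047
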