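import Cfsg.Statements.S5048
import Cfsg.Agent.RootInvol.Simple

set_option autoImplicit false
open Cfsg

namespace Cfsg.Agent.S5048

open CfsgLib.RootInvol

/-- Let G be a finite group generated by a set D of root involutions whose odd-order-product graph is connected, with some product of two different commuting members of D again in D. Then the largest solvable normal subgroup of G is the preimage of the centre of G/O₂(G), and the quotient of G by it is a simple group. -/
theorem result {G : Type*} [Group G] [Finite G] {D : Set G} (hD : Cfsg.IsRootInvolutionSet D)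
    (hc : Cfsg.IsConnectedSet (Cfsg.OddAdj D) D) (hDD : (D ∩ Cfsg.commutingProducts D).Nonempty) :
    Cfsg.solvableRadical G = Cfsg.twoZCore G ∧ IsSimpleGroup (G ⧸ Cfsg.twoZCore G) := by
  obtain ⟨hperf, a, x, hax⟩ := commutator_eq_top hD hc hDD
  haveI : Fact (Nat.Prime 2) := ⟨Nat.prime_two⟩
  haveI hQn : (Cfsg.pCore 2 G).Normal := CfsgLib.Subnormal.normal_pCore 2
  have hne : Cfsg.twoZCore G ≠ ⊤ := by
    intro e
    have h1 : (a * x : G) ∈ Cfsg.pCore 2 G := by
      have ha : (a : G ⧸ Cfsg.pCore 2 G) ∈ Subgroup.center _ := (e ▸ Subgroup.mem_top a : a ∈ Cfsg.twoZCore G)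
      have h2 := Subgroup.mem_center_iff.1 ha (x : G ⧸ Cfsg.pCore 2 G)
      refine (QuotientGroup.eq_one_iff _).1 (eq_one_of_sq_of_odd ?_
        (hax.2.2.2.of_dvd_nat (orderOf_map_dvd (QuotientGroup.mk' (Cfsg.pCore 2 G)) (a * x))) (pow_orderOf_eq_one _))
      simp only [QuotientGroup.mk'_apply, QuotientGroup.mk_mul]
      nth_rewrite 2 [← h2]
      rw [mul_assoc, ← mul_assoc (x : G ⧸ Cfsg.pCore 2 G), ← QuotientGroup.mk_mul (Cfsg.pCore 2 G) x x, mul_self hD hax.2.1, QuotientGroup.mk_one, one_mul, ← QuotientGroup.mk_mul,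
        mul_self hD hax.1, QuotientGroup.mk_one]
    obtain ⟨j, hj⟩ := CfsgLib.Subnormal.isPGroup_pCore 2 ⟨_, h1⟩
    obtain ⟨i, -, hi⟩ := (Nat.dvd_prime_pow Nat.prime_two).1 (orderOf_dvd_of_pow_eq_one (congrArg Subtype.val hj : (a * x) ^ 2 ^ j = 1))
    rcases Nat.eq_zero_or_pos i with rfl | hi0
    · rw [pow_zero, orderOf_eq_one_iff, mul_eq_one_iff_eq_inv, inv_eq hD hax.2.1] at hi
      exact hax.2.2.1 hi
    · exact Nat.not_even_iff_odd.2 (hi ▸ hax.2.2.2) (Nat.even_pow.2 ⟨even_two, hi0.ne'⟩)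
  haveI : Nontrivial G := ⟨a, x, hax.2.2.1⟩
  have hns : ¬ Group.IsSolvable G := fun h => by
    haveI := h
    exact (Group.IsSolvable.commutator_lt_top_of_nontrivial (G := G)).ne hperf
  refine ⟨le_antisymm (sSup_le ?_) (le_sSup ⟨inferInstance, ?_⟩), ?_⟩
  · rintro N ⟨hN, hs⟩
    rcases eq_top_or_le_twoZCore hD hc hDD N with rfl | h
    · exact absurd (Group.isSolvable_of_surjective (f := (Subgroup.topEquiv (G := G)).toMonoidHom) (hf := Subgroup.topEquiv.surjective)) hns
    · exact h
  · haveI : Group.IsNilpotent (Cfsg.pCore 2 G) := (CfsgLib.Subnormal.isPGroup_pCore 2).isNilpotent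
    haveI : Group.IsSolvable (Subgroup.center (G ⧸ Cfsg.pCore 2 G)) := Group.isSolvable_of_comm fun p q => Subtype.ext (Subgroup.mem_center_iff.1 q.2 p.1)
    let f : Cfsg.twoZCore G →* Subgroup.center (G ⧸ Cfsg.pCore 2 G) :=
      ((QuotientGroup.mk' (Cfsg.pCore 2 G)).comp (Cfsg.twoZCore G).subtype).codRestrict _ fun z => z.2
    let i : Cfsg.pCore 2 G →* Cfsg.twoZCore G := Subgroup.inclusion fun z hz => by
      show (z : G ⧸ Cfsg.pCore 2 G) ∈ Subgroup.center _
      rw [(QuotientGroup.eq_one_iff z).2 hz]; exact one_mem _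
    refine Group.isSolvable_of_ker_le_range i f fun z hz => ?_
    have h0 : ((z : G) : G ⧸ Cfsg.pCore 2 G) = 1 := congrArg Subtype.val hz
    exact ⟨⟨z, (QuotientGroup.eq_one_iff _).1 h0⟩, Subtype.ext rfl⟩
  · haveI : Nontrivial (G ⧸ Cfsg.twoZCore G) := QuotientGroup.nontrivial_iff.2 hne
    refine ⟨fun K hK => ?_⟩
    rcases eq_top_or_le_twoZCore hD hc hDD (K.comap (QuotientGroup.mk' (Cfsg.twoZCore G))) with h | h
    · right
      rw [← Subgroup.map_comap_eq_self_of_surjective (QuotientGroup.mk'_surjective _) K, h,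
        Subgroup.map_top_of_surjective _ (QuotientGroup.mk'_surjective _)]
    · left
      rw [← Subgroup.map_comap_eq_self_of_surjective (QuotientGroup.mk'_surjective _) K, Subgroup.map_eq_bot_iff,
        QuotientGroup.ker_mk']
      exact h

end Cfsg.Agent.S5048
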