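import Cfsg.Statements.S5049
import Cfsg.Agent.PCore.Basic

set_option autoImplicit false
open Cfsg

namespace Cfsg.Agent.S5049

open scoped commutatorElement

/-- Let G be a finite group generated by a set D of odd transpositions (root involutions with no product of order 4), Q = O₂(G), and for a ∈ D let Q_a be the commutator subgroup of Q with a. Then every member of D commuting with a centralizes Q_a; and for b ∈ D with ab of odd order greater than 1, the centralizer of ab in Q is the intersection of the centralizers of a and b in Q. -/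
theorem result {G : Type*} [Group G] [Finite G] {D : Set G} (hD : Cfsg.IsOddTranspositionSet D) {a : G} (ha : a ∈ D) :
    (∀ e ∈ Cfsg.commutingMembers D a, ∀ q ∈ ⁅Cfsg.pCore 2 G, Subgroup.zpowers a⁆, e * q = q * e) ∧
    (∀ b ∈ Cfsg.oddPartners D a,
      Cfsg.pCore 2 G ⊓ Subgroup.centralizer {a * b} = Cfsg.pCore 2 G ⊓ Subgroup.centralizer {a} ⊓ Subgroup.centralizer {b}) := by
  classical
  obtain ⟨hR, hno4⟩ := hD
  set Q := Cfsg.pCore 2 G with hQ
  haveI hQn : Q.Normal := by
    haveI := CfsgLib.PCore.pCore_characteristic 2 G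
    infer_instance
  have hsq : ∀ d ∈ D, d * d = 1 := fun d hd => by
    rw [← pow_two, ← hR.orderOf_eq d hd]; exact pow_orderOf_eq_one d
  have hinv : ∀ d ∈ D, d⁻¹ = d := fun d hd => inv_eq_of_mul_eq_one_right (hsq d hd)
  -- if `(u v)^2 ∈ Q` then `u` and `v` commute
  have hcomm : ∀ u ∈ D, ∀ v ∈ D, (u * v) * (u * v) ∈ Q → u * v = v * u := by
    intro u hu v hv h
    rcases hR.pair u hu v hv with h' | h' | h'
    · exact h'
    · obtain ⟨j, hj⟩ := CfsgLib.PCore.isPGroup_pCore 2 G ⟨_, h⟩
      have h1 : (u * v) ^ 2 ^ (j + 1) = 1 := by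
        rw [pow_succ', pow_mul, pow_two]
        exact congrArg Subtype.val hj
      obtain ⟨i, -, hi⟩ := (Nat.dvd_prime_pow Nat.prime_two).1 (orderOf_dvd_of_pow_eq_one h1)
      rcases Nat.eq_zero_or_pos i with rfl | hi0
      · rw [pow_zero, orderOf_eq_one_iff] at hi
        have h2 : u = v⁻¹ := mul_eq_one_iff_eq_inv.1 hi
        rw [hinv v hv] at h2
        rw [h2]
      · exfalso
        rw [hi] at h'
        exact (Nat.not_even_iff_odd.2 h') (Nat.even_pow.2 ⟨even_two, hi0.ne'⟩)
    · exact absurd h'.1 (hno4 u hu v hv)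
  have hconjQ : ∀ q ∈ Q, ∀ d : G, q * d * q⁻¹ * d⁻¹ ∈ Q := fun q hq d => by
    rw [show q * d * q⁻¹ * d⁻¹ = q * (d * q⁻¹ * d⁻¹) by group]
    exact mul_mem hq (hQn.conj_mem _ (inv_mem hq) d)
  have hmain : ∀ q ∈ Q, ∀ e ∈ Cfsg.commutingMembers D a, e * (q * a * q⁻¹) = (q * a * q⁻¹) * e := by
    intro q hq e he
    obtain ⟨heD, hea⟩ := he
    refine hcomm e heD _ (hR.conj_mem a ha q) ?_
    rw [← QuotientGroup.eq_one_iff (N := Q)]
    simp only [QuotientGroup.mk_mul, QuotientGroup.mk_inv, (QuotientGroup.eq_one_iff q).2 hq, inv_one, mul_one, one_mul]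
    rw [← QuotientGroup.mk_mul, ← QuotientGroup.mk_mul,
      show e * a * (e * a) = e * a * (a * e) by rw [← hea],
      show e * a * (a * e) = e * (a * a) * e by group, hsq a ha, mul_one, hsq e heD]
    rfl
  refine ⟨?_, ?_⟩
  · intro e he q hq
    have hle : ⁅Q, Subgroup.zpowers a⁆ ≤ Subgroup.centralizer ({e} : Set G) := by
      rw [Subgroup.commutator_le]
      intro g hg z hz
      rw [Subgroup.mem_centralizer_singleton_iff]
      obtain ⟨i, rfl⟩ := Subgroup.mem_zpowers_iff.1 hz
      have h2 : a ^ i = 1 ∨ a ^ i = a := by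
        rcases Int.even_or_odd' i with ⟨j, rfl | rfl⟩
        · left; rw [zpow_mul, zpow_two, hsq a ha, one_zpow]
        · right; rw [zpow_add, zpow_mul, zpow_two, hsq a ha, one_zpow, one_mul, zpow_one]
      rcases h2 with h2 | h2 <;> rw [h2]
      · simp [commutatorElement_def]
      · rw [commutatorElement_def, hinv a ha]
        exact ((show Commute e (g * a * g⁻¹) from hmain g hg e he).mul_right (show Commute e a from he.2)).eq.symm
    exact (Subgroup.mem_centralizer_singleton_iff.1 (hle hq)).symm
  · rintro b ⟨hbD, hba, hodd⟩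
    refine le_antisymm ?_ ?_
    swap
    · rintro q ⟨⟨hq, hqa⟩, hqb⟩
      refine ⟨hq, Subgroup.mem_centralizer_singleton_iff.2 ?_⟩
      exact ((show Commute q a from Subgroup.mem_centralizer_singleton_iff.1 hqa).mul_right
        (show Commute q b from Subgroup.mem_centralizer_singleton_iff.1 hqb)).eq
    rintro q ⟨hq, hqx⟩
    have hqx' : Commute q (a * b) := Subgroup.mem_centralizer_singleton_iff.1 hqx
    set a' := q * a * q⁻¹ with ha'
    have ha'D : a' ∈ D := hR.conj_mem a ha q
    have haa : a * a' = a' * a := hmain q hq a ⟨ha, rfl⟩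
    set c := a' * a with hc
    have hcc : c * c = 1 := by
      rw [hc, show a' * a * (a' * a) = a' * (a * a') * a by group, haa,
        show a' * (a' * a) * a = (a' * a') * (a * a) by group, hsq a' ha'D, hsq a ha, mul_one]
    have hxa : a * (a * b) * a = (a * b)⁻¹ := by
      rw [mul_inv_rev, hinv a ha, hinv b hbD, ← mul_assoc, hsq a ha, one_mul]
    have hxa' : a' * (a * b) * a' = (a * b)⁻¹ := by
      calc a' * (a * b) * a' = q * (a * (q⁻¹ * (a * b) * q) * a) * q⁻¹ := by rw [ha']; group
        _ = q * (a * (a * b) * a) * q⁻¹ := by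
          rw [show q⁻¹ * (a * b) * q = q⁻¹ * ((a * b) * q) by group, ← hqx'.eq, inv_mul_cancel_left]
        _ = (a * b)⁻¹ := by rw [hxa, hqx'.inv_right.eq, mul_inv_cancel_right]
    have hcx : Commute c (a * b) := by
      show c * (a * b) = (a * b) * c
      calc c * (a * b) = a' * (a * (a * b) * a) * a' * (a' * a) := by
            rw [hc, show a' * (a * (a * b) * a) * a' * (a' * a) = a' * (a * (a * b) * a) * (a' * a') * a by group,
              hsq a' ha'D, mul_one, show a' * (a * (a * b) * a) * a = a' * a * (a * b) * (a * a) by group, hsq a ha, mul_one]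
        _ = (a' * (a * b) * a')⁻¹ * (a' * a) := by
            rw [hxa]
            congr 1
            rw [mul_inv_rev (a' * (a * b)) a', mul_inv_rev a' (a * b), hinv a' ha'D, mul_assoc]
        _ = _ := by rw [hxa', inv_inv]
    have hx1 : orderOf (a * b) ≠ 1 := fun h => hba (by
      have := mul_eq_one_iff_eq_inv.1 (orderOf_eq_one_iff.1 h)
      rw [hinv b hbD] at this
      exact this.symm)
    have hcQ : c ∈ Q := by
      have := hconjQ q hq a
      rwa [hinv a ha] at this
    have hc1 : c = 1 := by
      by_contra hne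
      have hoc : orderOf c = 2 := orderOf_eq_prime (by rw [pow_two]; exact hcc) hne
      have ho : orderOf (a' * b) = 2 * orderOf (a * b) := by
        rw [show a' * b = c * (a * b) by
          rw [hc, show a' * a * (a * b) = a' * (a * a) * b by group, hsq a ha, mul_one],
          hcx.orderOf_mul_eq_mul_orderOf_of_coprime (by rw [hoc]; exact hodd.coprime_two_left), hoc]
      rcases hR.pair a' ha'D b hbD with h | h | h
      · have h1 : (a' * b) ^ 2 = 1 := by
          rw [(show Commute a' b from h).mul_pow, pow_two, pow_two, hsq a' ha'D, hsq b hbD, one_mul]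
        have h2 := Nat.le_of_dvd two_pos (orderOf_dvd_of_pow_eq_one h1)
        have := orderOf_pos (a * b)
        omega
      · rw [ho] at h
        exact (Nat.not_even_iff_odd.2 h) (even_two_mul _)
      · exact hno4 a' ha'D b hbD h.1
    have h1 : a' = a⁻¹ := mul_eq_one_iff_eq_inv.1 hc1
    rw [hinv a ha, ha'] at h1
    have hqa : Commute q a := mul_inv_eq_iff_eq_mul.1 h1
    refine ⟨⟨hq, Subgroup.mem_centralizer_singleton_iff.2 hqa.eq⟩, Subgroup.mem_centralizer_singleton_iff.2 ?_⟩
    have h2 := hqa.mul_right hqx'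
    rw [← mul_assoc, hsq a ha, one_mul] at h2
    exact h2.eq


end Cfsg.Agent.S5049
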