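import Cfsg.Statements.S5057
import Mathlib

set_option autoImplicit false
open Cfsg

namespace Cfsg.Agent.S5057

/-- The involutions of the alternating group of degree 6 form a class of root involutions (a single conjugacy class of involutions generating the group, any two of which commute, have product of odd order, or have product of order 4 whose square is again an involution of the class), and the product of any two of them has order at most 5. -/
theorem result :
    Cfsg.IsRootInvolutionClass {g : ↥(alternatingGroup (Fin 6)) | orderOf g = 2} ∧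
    ∀ d ∈ {g : ↥(alternatingGroup (Fin 6)) | orderOf g = 2}, ∀ e ∈ {g : ↥(alternatingGroup (Fin 6)) | orderOf g = 2},
      orderOf (d * e) ≤ 5 := by
  have hiff : ∀ g : alternatingGroup (Fin 6), orderOf g = 2 ↔ (g * g = 1 ∧ g ≠ 1) := fun g => by
    rw [orderOf_eq_prime_iff, pow_two]
  set a₀ : alternatingGroup (Fin 6) :=
    ⟨Equiv.swap 0 1 * Equiv.swap 2 3, Equiv.Perm.mem_alternatingGroup.mpr (by decide)⟩ with ha₀
  have key1 : ∀ b : alternatingGroup (Fin 6), b * b = 1 → b ≠ 1 → ∃ g, b = g * a₀ * g⁻¹ := by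
    rw [ha₀]; decide +kernel
  have key2 : ∀ b : alternatingGroup (Fin 6), b * b = 1 → b ≠ 1 → ((a₀ * b) ^ 3 = 1 ∨ (a₀ * b) ^ 5 = 1 ∨
      ((a₀ * b) ^ 4 = 1 ∧ (a₀ * b = b * a₀ ∨ ((a₀ * b) ^ 2 * (a₀ * b) ^ 2 = 1 ∧ (a₀ * b) ^ 2 ≠ 1)))) := by
    rw [ha₀]; decide +kernel
  have key : ∀ a b : alternatingGroup (Fin 6), a * a = 1 → a ≠ 1 → b * b = 1 → b ≠ 1 →
      (∃ g, b = g * a * g⁻¹) ∧ ((a * b) ^ 3 = 1 ∨ (a * b) ^ 5 = 1 ∨
        ((a * b) ^ 4 = 1 ∧ (a * b = b * a ∨ ((a * b) ^ 2 * (a * b) ^ 2 = 1 ∧ (a * b) ^ 2 ≠ 1)))) := by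
    intro a b ha ha1 hb hb1
    obtain ⟨g, rfl⟩ := key1 a ha ha1
    obtain ⟨k, rfl⟩ := key1 b hb hb1
    refine ⟨⟨k * g⁻¹, by group⟩, ?_⟩
    set b' := g⁻¹ * (k * a₀ * k⁻¹) * g with hb'
    have hbb : k * a₀ * k⁻¹ = g * b' * g⁻¹ := by rw [hb']; group
    have hb2 : b' * b' = 1 := by
      rw [hb', show g⁻¹ * (k * a₀ * k⁻¹) * g * (g⁻¹ * (k * a₀ * k⁻¹) * g) =
        g⁻¹ * ((k * a₀ * k⁻¹) * (k * a₀ * k⁻¹)) * g by group, hb]
      group
    have hb3 : b' ≠ 1 := fun e => hb1 (by rw [hbb, e]; group)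
    rw [hbb]
    have e : g * a₀ * g⁻¹ * (g * b' * g⁻¹) = g * (a₀ * b') * g⁻¹ := by group
    have e' : g * b' * g⁻¹ * (g * a₀ * g⁻¹) = g * (b' * a₀) * g⁻¹ := by group
    rw [e, e', conj_pow, conj_pow, conj_pow, conj_pow, conj_mul]
    simpa only [conj_eq_one_iff, mul_left_inj, mul_right_inj, ne_eq] using key2 b' hb2 hb3
  have hle : ∀ d ∈ {g : alternatingGroup (Fin 6) | orderOf g = 2}, ∀ e ∈ {g : alternatingGroup (Fin 6) | orderOf g = 2},
      orderOf (d * e) ≤ 5 := fun d hd e he => by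
    obtain ⟨h1, h2⟩ := (hiff d).mp hd
    obtain ⟨h3, h4⟩ := (hiff e).mp he
    rcases (key d e h1 h2 h3 h4).2 with h | h | ⟨h, -⟩
    · exact (orderOf_le_of_pow_eq_one (by norm_num) h).trans (by norm_num)
    · exact orderOf_le_of_pow_eq_one (by norm_num) h
    · exact (orderOf_le_of_pow_eq_one (by norm_num) h).trans (by norm_num)
  refine ⟨⟨⟨fun d hd => hd, ?_, fun d hd g => ?_, fun a ha b hb => ?_⟩, ?_, fun a ha b hb =>
    (key a b ((hiff a).mp ha).1 ((hiff a).mp ha).2 ((hiff b).mp hb).1 ((hiff b).mp hb).2).1⟩, hle⟩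
  · have hs : IsSimpleGroup (alternatingGroup (Fin 6)) := alternatingGroup.isSimpleGroup (by simp)
    set c := Subgroup.closure {g : alternatingGroup (Fin 6) | orderOf g = 2} with hc
    have hn : c.Normal := by
      refine ⟨fun x hx g => ?_⟩
      induction hx using Subgroup.closure_induction with
      | mem d hd =>
        refine Subgroup.subset_closure ?_
        change orderOf (g * d * g⁻¹) = 2
        rw [← MulAut.conj_apply, MulEquiv.orderOf_eq]
        exact hd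
      | one => simp
      | mul x y _ _ hx hy =>
        rw [show g * (x * y) * g⁻¹ = (g * x * g⁻¹) * (g * y * g⁻¹) by group]
        exact c.mul_mem hx hy
      | inv x _ hx =>
        rw [show g * x⁻¹ * g⁻¹ = (g * x * g⁻¹)⁻¹ by group]
        exact c.inv_mem hx
    rcases hn.eq_bot_or_eq_top with h | h
    · exfalso
      obtain ⟨g, hg, hg1⟩ : ∃ g : alternatingGroup (Fin 6), g * g = 1 ∧ g ≠ 1 := by decide +kernel
      have h1 : g ∈ c := Subgroup.subset_closure ((hiff g).mpr ⟨hg, hg1⟩)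
      rw [h] at h1
      exact hg1 h1
    · exact h
  · change orderOf (g * d * g⁻¹) = 2
    rw [← MulAut.conj_apply, MulEquiv.orderOf_eq]
    exact hd
  · have hodd : ∀ q : ℕ, Odd q → (a * b) ^ q = 1 → Odd (orderOf (a * b)) := fun q hq h =>
      hq.of_dvd_nat (orderOf_dvd_of_pow_eq_one h)
    rcases (key a b ((hiff a).mp ha).1 ((hiff a).mp ha).2 ((hiff b).mp hb).1 ((hiff b).mp hb).2).2
      with h | h | ⟨h, h' | ⟨h', h''⟩⟩
    · exact Or.inr (Or.inl (hodd 3 (by decide) h))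
    · exact Or.inr (Or.inl (hodd 5 (by decide) h))
    · exact Or.inl h'
    · exact Or.inr (Or.inr ⟨orderOf_eq_prime_pow (p := 2) (n := 1) (by simpa using h'') (by simpa using h),
        (hiff _).mpr ⟨h', h''⟩⟩)
  · obtain ⟨g, hg⟩ : ∃ g : alternatingGroup (Fin 6), g * g = 1 ∧ g ≠ 1 := by decide +kernel
    exact ⟨g, (hiff g).mpr hg⟩

end Cfsg.Agent.S5057
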