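import Cfsg.Statements.S5059

set_option autoImplicit false
universe u
open Cfsg

namespace Cfsg.Agent.S5059

section
variable {k : Type u} [Field k] {M : Type u} [AddCommGroup M] [Module k M]

/-- The unit `1 + w` for `w * w = 0`. -/
def unip (w : M →ₗ[k] M) (hw : w * w = 0) : LinearMap.GeneralLinearGroup k M where
  val := 1 + w
  inv := 1 - w
  val_inv := by
    rw [add_mul, one_mul, mul_sub, mul_one, hw, sub_zero, sub_add_cancel]
  inv_val := by
    rw [sub_mul, one_mul, mul_add, mul_one, hw, add_zero, add_sub_cancel_right]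

lemma unip_mem {G : Subgroup (LinearMap.GeneralLinearGroup k M)} {τ : LinearMap.GeneralLinearGroup k M}
    (hτ : τ ∈ Cfsg.quadraticElements G) (c : k)
    (hw : (c • ((τ : M →ₗ[k] M) - 1)) * (c • ((τ : M →ₗ[k] M) - 1)) = 0) :
    unip _ hw ∈ G :=
  hτ.2.2 ⟨c, rfl⟩

lemma mul_eq_zero_of_range_le {u v : M →ₗ[k] M} (h : LinearMap.range v ≤ LinearMap.ker u) : u * v = 0 :=
  LinearMap.ext fun m => h ⟨m, rfl⟩

lemma mem_class_or_eq_one [FiniteDimensional k M]
    {G : Subgroup (LinearMap.GeneralLinearGroup k M)} {σ ρ : LinearMap.GeneralLinearGroup k M}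
    (hσ : σ ∈ Cfsg.minimalQuadraticElements G)
    (hρ : ∀ c : k, ∃ θ ∈ G, (θ : M →ₗ[k] M) = 1 + c • ((ρ : M →ₗ[k] M) - 1))
    (hr : LinearMap.range ((ρ : M →ₗ[k] M) - 1) ≤ LinearMap.range ((σ : M →ₗ[k] M) - 1))
    (hk : LinearMap.ker ((σ : M →ₗ[k] M) - 1) ≤ LinearMap.ker ((ρ : M →ₗ[k] M) - 1)) :
    ρ ∈ Cfsg.sameActionClass G σ ∪ {1} := by
  by_cases h0 : (ρ : M →ₗ[k] M) - 1 = 0
  · exact Or.inr (Units.ext (sub_eq_zero.1 h0))
  left
  have hsq : LinearMap.range ((σ : M →ₗ[k] M) - 1) ≤ LinearMap.ker ((σ : M →ₗ[k] M) - 1) := by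
    rintro _ ⟨m, rfl⟩; exact LinearMap.congr_fun hσ.1.2.1.1 m
  have hρG : ρ ∈ G := by
    obtain ⟨θ, hθ, he⟩ := hρ 1
    have : θ = ρ := Units.ext (by rw [he, one_smul, add_sub_cancel])
    exact this ▸ hθ
  have hq : ρ ∈ Cfsg.quadraticElements G := by
    refine ⟨hρG, ⟨mul_eq_zero_of_range_le (hr.trans (hsq.trans hk)), h0⟩, ?_⟩
    rintro θ ⟨c, hc⟩
    obtain ⟨θ', hθ', he⟩ := hρ c
    exact (Units.ext (hc.trans he.symm) : θ = θ') ▸ hθ'
  have hrange : LinearMap.range ((ρ : M →ₗ[k] M) - 1) = LinearMap.range ((σ : M →ₗ[k] M) - 1) :=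
    Submodule.eq_of_le_of_finrank_le hr (hσ.2 ρ hq)
  refine ⟨⟨hq, fun τ hτ => le_trans ?_ (hσ.2 τ hτ)⟩, ?_, hrange⟩
  · exact Submodule.finrank_mono hr
  · refine (Submodule.eq_of_le_of_finrank_le hk ?_).symm
    have e1 := LinearMap.finrank_range_add_finrank_ker ((ρ : M →ₗ[k] M) - 1)
    have e2 := LinearMap.finrank_range_add_finrank_ker ((σ : M →ₗ[k] M) - 1)
    rw [hrange] at e1
    omega

/-- The data shared by `σ`'s class and the identity. -/
def Good (G : Subgroup (LinearMap.GeneralLinearGroup k M)) (σ ρ : LinearMap.GeneralLinearGroup k M) : Prop :=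
  (∀ c : k, ∃ θ ∈ G, (θ : M →ₗ[k] M) = 1 + c • ((ρ : M →ₗ[k] M) - 1)) ∧
    LinearMap.range ((ρ : M →ₗ[k] M) - 1) ≤ LinearMap.range ((σ : M →ₗ[k] M) - 1) ∧
    LinearMap.ker ((σ : M →ₗ[k] M) - 1) ≤ LinearMap.ker ((ρ : M →ₗ[k] M) - 1)

variable {G : Subgroup (LinearMap.GeneralLinearGroup k M)} {σ : LinearMap.GeneralLinearGroup k M}

lemma good_of_class {τ : LinearMap.GeneralLinearGroup k M} (hτ : τ ∈ Cfsg.sameActionClass G σ) :
    Good G σ τ := by
  refine ⟨fun c => ⟨unip (c • ((τ : M →ₗ[k] M) - 1)) ?_, ?_, rfl⟩, hτ.2.2.le, hτ.2.1.ge⟩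
  · rw [smul_mul_smul_comm, hτ.1.1.2.1.1, smul_zero]
  · exact unip_mem hτ.1.1 c _

lemma good_prod_zero (hσ : σ ∈ Cfsg.minimalQuadraticElements G) {ρ ρ' : LinearMap.GeneralLinearGroup k M}
    (h : Good G σ ρ) (h' : Good G σ ρ') :
    ((ρ : M →ₗ[k] M) - 1) * ((ρ' : M →ₗ[k] M) - 1) = 0 := by
  refine mul_eq_zero_of_range_le (h'.2.1.trans (le_trans ?_ h.2.2))
  rintro _ ⟨m, rfl⟩; exact LinearMap.congr_fun hσ.1.2.1.1 m

lemma val_mul (hσ : σ ∈ Cfsg.minimalQuadraticElements G) {ρ ρ' : LinearMap.GeneralLinearGroup k M}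
    (h : Good G σ ρ) (h' : Good G σ ρ') :
    ((ρ * ρ' : LinearMap.GeneralLinearGroup k M) : M →ₗ[k] M) - 1 =
      ((ρ : M →ₗ[k] M) - 1) + ((ρ' : M →ₗ[k] M) - 1) := by
  have h0 := good_prod_zero hσ h h'
  rw [Units.val_mul]
  calc (ρ : M →ₗ[k] M) * ρ' - 1
      = ((ρ : M →ₗ[k] M) - 1) + ((ρ' : M →ₗ[k] M) - 1) + ((ρ : M →ₗ[k] M) - 1) * ((ρ' : M →ₗ[k] M) - 1) := by
        noncomm_ring
    _ = _ := by rw [h0, add_zero]

lemma good_mul (hσ : σ ∈ Cfsg.minimalQuadraticElements G) {ρ ρ' : LinearMap.GeneralLinearGroup k M}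
    (h : Good G σ ρ) (h' : Good G σ ρ') : Good G σ (ρ * ρ') := by
  refine ⟨fun c => ?_, ?_, ?_⟩
  · obtain ⟨θ, hθ, e⟩ := h.1 c
    obtain ⟨θ', hθ', e'⟩ := h'.1 c
    refine ⟨θ * θ', G.mul_mem hθ hθ', ?_⟩
    rw [Units.val_mul, e, e', val_mul hσ h h', mul_add, add_mul, add_mul, one_mul, mul_one,
      one_mul, smul_mul_smul_comm, good_prod_zero hσ h h', smul_zero, smul_add, add_zero]
    abel
  · rw [val_mul hσ h h']
    exact (LinearMap.range_add_le _ _).trans (sup_le h.2.1 h'.2.1)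
  · rw [val_mul hσ h h']
    intro m hm
    rw [LinearMap.mem_ker, LinearMap.add_apply, LinearMap.mem_ker.1 (h.2.2 hm),
      LinearMap.mem_ker.1 (h'.2.2 hm), add_zero]

lemma good_one : Good G σ 1 :=
  ⟨fun c => ⟨1, G.one_mem, by simp⟩, by simp, by simp⟩

lemma good_inv (hσ : σ ∈ Cfsg.minimalQuadraticElements G) {ρ : LinearMap.GeneralLinearGroup k M}
    (h : Good G σ ρ) : Good G σ ρ⁻¹ := by
  have e : ((ρ⁻¹ : LinearMap.GeneralLinearGroup k M) : M →ₗ[k] M) - 1 = -((ρ : M →ₗ[k] M) - 1) := by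
    have h1 : (ρ : M →ₗ[k] M) * (1 - ((ρ : M →ₗ[k] M) - 1)) = 1 := by
      calc (ρ : M →ₗ[k] M) * (1 - ((ρ : M →ₗ[k] M) - 1))
          = 1 - ((ρ : M →ₗ[k] M) - 1) * ((ρ : M →ₗ[k] M) - 1) := by noncomm_ring
        _ = 1 := by rw [good_prod_zero hσ h h, sub_zero]
    rw [Units.inv_eq_of_mul_eq_one_right h1]
    abel
  refine ⟨fun c => ?_, ?_, ?_⟩
  · obtain ⟨θ, hθ, e'⟩ := h.1 (-c)
    exact ⟨θ, hθ, by rw [e', e, smul_neg, neg_smul]⟩
  · rw [e, LinearMap.range_neg]; exact h.2.1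
  · rw [e]; intro m hm
    rw [LinearMap.mem_ker, LinearMap.neg_apply, LinearMap.mem_ker.1 (h.2.2 hm), neg_zero]

lemma good_of_mem (hσ : σ ∈ Cfsg.minimalQuadraticElements G) {x : LinearMap.GeneralLinearGroup k M}
    (hx : x ∈ Cfsg.sameActionSubgroup G σ) : Good G σ x := by
  unfold Cfsg.sameActionSubgroup at hx
  induction hx using Subgroup.closure_induction with
  | mem x hx => exact good_of_class hx
  | one => exact good_one
  | mul x y _ _ hx hy => exact good_mul hσ hx hy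
  | inv x _ hx => exact good_inv hσ hx

end

/-- Let k be a field of characteristic not 2 with k not of order 3, M a finite-dimensional k-vector space and G ≤ GL(M) such that (G, M) is a quadratic pair (M irreducible for G, and G generated by its quadratically acting elements σ whose scalar family 1 + c(σ − 1), c ∈ k, lies in G). Write 𝒬_d for the quadratic elements of G of minimal commutator rank, E(σ) for the subgroup generated by the members of 𝒬_d with the same fixed space and commutator space as σ, and Σ for the set of these subgroups. Then for σ ∈ 𝒬_d the subgroup E(σ) consists exactly of those members together with the identity, it is abelian, and if k has prime characteristic p every element of E(σ) has order dividing p. -/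
theorem result {k : Type u} [Field k] (hk2 : ringChar k ≠ 2) (hk3 : Nat.card k ≠ 3)
    {M : Type u} [AddCommGroup M] [Module k M] [FiniteDimensional k M]
    {G : Subgroup (LinearMap.GeneralLinearGroup k M)} (hG : Cfsg.IsQuadraticPair G)
    {σ : LinearMap.GeneralLinearGroup k M} (hσ : σ ∈ Cfsg.minimalQuadraticElements G) :
    (Cfsg.sameActionSubgroup G σ : Set (LinearMap.GeneralLinearGroup k M)) = Cfsg.sameActionClass G σ ∪ {1} ∧
    IsMulCommutative ↥(Cfsg.sameActionSubgroup G σ) ∧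
    (∀ p : ℕ, p.Prime → ringChar k = p → ∀ x ∈ Cfsg.sameActionSubgroup G σ, x ^ p = 1) := by
  refine ⟨?_, ⟨⟨?_⟩⟩, ?_⟩
  · ext x
    constructor
    · intro hx
      have h := good_of_mem hσ hx
      exact mem_class_or_eq_one hσ h.1 h.2.1 h.2.2
    · rintro (hx | hx)
      · exact Subgroup.subset_closure hx
      · rw [Set.mem_singleton_iff.1 hx]; exact one_mem _
  · rintro ⟨x, hx⟩ ⟨y, hy⟩
    have gx := good_of_mem hσ hx
    have gy := good_of_mem hσ hy
    apply Subtype.ext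
    refine Units.ext ?_
    show ((x * y : LinearMap.GeneralLinearGroup k M) : M →ₗ[k] M) = (y * x : LinearMap.GeneralLinearGroup k M)
    have e1 := val_mul hσ gx gy
    have e2 := val_mul hσ gy gx
    rw [add_comm] at e2
    exact sub_left_inj.1 (e1.trans e2.symm)
  · intro p hp hchar x hx
    have gx := good_of_mem hσ hx
    have hn : ∀ n : ℕ, ((x ^ n : LinearMap.GeneralLinearGroup k M) : M →ₗ[k] M) - 1 =
        n • ((x : M →ₗ[k] M) - 1) := by
      intro n
      induction n with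
      | zero => simp
      | succ n ih =>
        rw [pow_succ, val_mul hσ (good_of_mem hσ (pow_mem hx n)) gx, ih, succ_nsmul]
    have hp0 := hn p
    haveI : CharP k p := hchar ▸ ringChar.charP k
    rw [← Nat.cast_smul_eq_nsmul k, CharP.cast_eq_zero, zero_smul] at hp0
    exact Units.ext (sub_eq_zero.1 hp0)

end Cfsg.Agent.S5059
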