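import Cfsg.Statements.S5060
import Cfsg.Agent.QuadPair.GenField
-- import your own Cfsg.Agent.* helpers here

set_option autoImplicit false
open Cfsg

namespace Cfsg.Agent.S5060

/-- Let k ⊆ K be fields with the characteristic of k not 2 and k not of order 3, and let α ∈ K be a non-zero element algebraic over k. Then the subgroup of SL₂(K) generated by the upper unitriangular matrices with entry c and the lower unitriangular matrices with entry cα, c ranging over k, is exactly the group of matrices of SL₂(K) with all entries in k(α). -/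
theorem result {k K : Type*} [Field k] [Field K] [Algebra k K] (hk2 : ringChar k ≠ 2) (hk3 : Nat.card k ≠ 3)
    (α : K) (hα : IsAlgebraic k α) (hα0 : α ≠ 0) :
    (Subgroup.closure ({g : Matrix.SpecialLinearGroup (Fin 2) K | ∃ c : k, (g : Matrix (Fin 2) (Fin 2) K) = !![1, algebraMap k K c; 0, 1]} ∪
        {g : Matrix.SpecialLinearGroup (Fin 2) K | ∃ c : k, (g : Matrix (Fin 2) (Fin 2) K) = !![1, 0; algebraMap k K c * α, 1]}) :
      Set (Matrix.SpecialLinearGroup (Fin 2) K)) =
    {g : Matrix.SpecialLinearGroup (Fin 2) K | ∀ i j : Fin 2, (g : Matrix (Fin 2) (Fin 2) K) i j ∈ IntermediateField.adjoin k ({α} : Set K)} := by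
  classical
  set L := IntermediateField.adjoin k ({α} : Set K)
  have : FiniteDimensional k L := IntermediateField.adjoin.finiteDimensional hα.isIntegral
  have h2 : (2 : k) ≠ 0 := Ring.two_ne_zero hk2
  set s : L := ⟨α, IntermediateField.mem_adjoin_simple_self k α⟩
  have hs : s ≠ 0 := fun h => hα0 (congrArg Subtype.val h)
  have hgen : Algebra.adjoin k {s} = ⊤ := by
    apply Subalgebra.map_injective (f := L.val) Subtype.val_injective
    rw [Algebra.map_top, AlgHom.map_adjoin, Set.image_singleton]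
    have e := IntermediateField.adjoin_simple_toSubalgebra_of_isAlgebraic hα
    refine e.symm.trans ?_
    ext z
    exact ⟨fun hz => ⟨⟨z, hz⟩, rfl⟩, fun ⟨w, hw⟩ => hw ▸ w.2⟩
  have htop := CfsgLib.QuadPair.gens_eq_top h2 hk3 hs hgen
  set f := Matrix.SpecialLinearGroup.map (n := Fin 2) (algebraMap L K)
  have himg : Subgroup.map f ⊤ = Subgroup.closure ({g : Matrix.SpecialLinearGroup (Fin 2) K | ∃ c : k, (g : Matrix (Fin 2) (Fin 2) K) = !![1, algebraMap k K c; 0, 1]} ∪
        {g : Matrix.SpecialLinearGroup (Fin 2) K | ∃ c : k, (g : Matrix (Fin 2) (Fin 2) K) = !![1, 0; algebraMap k K c * α, 1]}) := by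
    rw [← htop, CfsgLib.QuadPair.gens, MonoidHom.map_closure, Set.image_union]
    congr 2
    · ext g
      constructor
      · rintro ⟨_, ⟨c, rfl⟩, rfl⟩
        refine ⟨c, ?_⟩
        ext i j; fin_cases i <;> fin_cases j <;> simp [f, s] <;> rfl
      · rintro ⟨c, hc⟩
        refine ⟨_, ⟨c, rfl⟩, Subtype.ext (hc ▸ ?_)⟩
        ext i j; fin_cases i <;> fin_cases j <;> simp [f, s] <;> rfl
    · ext g
      constructor
      · rintro ⟨_, ⟨c, rfl⟩, rfl⟩
        refine ⟨c, ?_⟩
        ext i j; fin_cases i <;> fin_cases j <;> simp [f, s] <;> rfl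
      · rintro ⟨c, hc⟩
        refine ⟨_, ⟨c, rfl⟩, Subtype.ext (hc ▸ ?_)⟩
        ext i j; fin_cases i <;> fin_cases j <;> simp [f, s] <;> rfl
  rw [← himg]
  ext g
  constructor
  · rintro ⟨h, -, rfl⟩ i j
    exact (h.1 i j).2
  · intro hg
    have hg' : ∀ i j, (g : Matrix (Fin 2) (Fin 2) K) i j ∈ L := hg
    refine ⟨⟨Matrix.of fun i j => ⟨_, hg' i j⟩, ?_⟩, trivial, ?_⟩
    · apply (algebraMap L K).injective
      rw [RingHom.map_det, map_one]
      exact g.2
    · apply Subtype.ext
      ext i j
      rfl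

end Cfsg.Agent.S5060
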