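import Cfsg.Statements.S5064
import Cfsg.Agent.QuadPair.PairField
-- import your own Cfsg.Agent.* helpers here

set_option autoImplicit false
universe u
open Cfsg

namespace Cfsg.Agent.S5064

/-- Let k be a field of characteristic not 2 with k not of order 3, M a finite-dimensional k-vector space and G ≤ GL(M) such that (G, M) is a quadratic pair (M irreducible for G, and G generated by its quadratically acting elements σ whose scalar family 1 + c(σ − 1), c ∈ k, lies in G). Write 𝒬_d for the quadratic elements of G of minimal commutator rank, E(σ) for the subgroup generated by the members of 𝒬_d with the same fixed space and commutator space as σ, and Σ for the set of these subgroups. If σ, τ ∈ 𝒬_d and the subgroup H generated by their two scalar families does not act unipotently on M, then H is isomorphic to SL₂ over a simple algebraic extension k(λ) of k. -/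
theorem result {k : Type u} [Field k] (hk2 : ringChar k ≠ 2) (hk3 : Nat.card k ≠ 3)
    {M : Type u} [AddCommGroup M] [Module k M] [FiniteDimensional k M]
    {G : Subgroup (LinearMap.GeneralLinearGroup k M)} (hG : Cfsg.IsQuadraticPair G)
    {σ τ : LinearMap.GeneralLinearGroup k M} (hσ : σ ∈ Cfsg.minimalQuadraticElements G) (hτ : τ ∈ Cfsg.minimalQuadraticElements G)
    (hH : ¬ Cfsg.IsUnipotentOn (Subgroup.closure (Cfsg.scalarFamily σ ∪ Cfsg.scalarFamily τ))) :
    ∃ (K : Type u) (_ : Field K) (_ : Algebra k K) (lam : K), IsAlgebraic k lam ∧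
      IntermediateField.adjoin k ({lam} : Set K) = ⊤ ∧
      Nonempty (↥(Subgroup.closure (Cfsg.scalarFamily σ ∪ Cfsg.scalarFamily τ)) ≃* Matrix.SpecialLinearGroup (Fin 2) K) := by
  rw [← CfsgLib.QuadPair.pairGrp_eq] at hH ⊢
  obtain ⟨R, _, _, _, ⟨P⟩⟩ := CfsgLib.QuadPair.exists_sl2Pair (Ring.two_ne_zero hk2) hk3
    (CfsgLib.QuadPair.isMin_of_minimal hσ) (CfsgLib.QuadPair.isMin_of_minimal hτ) hH
  let : Field R := P.isField.toField
  refine ⟨R, inferInstance, inferInstance, P.sR, Algebra.IsAlgebraic.isAlgebraic P.sR, ?_, ⟨?_⟩⟩
  · rw [← IntermediateField.toSubalgebra_injective.eq_iff,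
      IntermediateField.adjoin_simple_toSubalgebra_of_isAlgebraic (Algebra.IsAlgebraic.isAlgebraic P.sR)]
    exact P.gen
  · exact ((MulEquiv.subgroupCongr (P.range_hom (Ring.two_ne_zero hk2) hk3)).symm.trans
      (MonoidHom.ofInjective P.toCorner.hom_injective).symm)

end Cfsg.Agent.S5064
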