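import Cfsg.Statements.S5066
import Cfsg.Agent.QuadPair.Pairs

set_option autoImplicit false
universe u
open Cfsg

namespace Cfsg.Agent.S5066

/-- Let k be a field of characteristic not 2 with k not of order 3, M a finite-dimensional k-vector space and G ≤ GL(M) such that (G, M) is a quadratic pair (M irreducible for G, and G generated by its quadratically acting elements σ whose scalar family 1 + c(σ − 1), c ∈ k, lies in G). Write 𝒬_d for the quadratic elements of G of minimal commutator rank, E(σ) for the subgroup generated by the members of 𝒬_d with the same fixed space and commutator space as σ, and Σ for the set of these subgroups. Let E, F ∈ Σ generate a subgroup that is nilpotent of class exactly two. Then D = ⁅E, F⁆ belongs to Σ, equals the subgroup generated by the commutators of e with F, and also of E with f, for every non-identity e ∈ E, f ∈ F, and ⟨E, F⟩ lies in U(D), the set of elements g of G normalizing D with (g − 1)M inside the fixed space of D, (g − 1) mapping that fixed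 space into the commutator space of D, and g acting trivially on the commutator space of D. -/
theorem result {k : Type u} [Field k] (hk2 : ringChar k ≠ 2) (hk3 : Nat.card k ≠ 3)
    {M : Type u} [AddCommGroup M] [Module k M] [FiniteDimensional k M]
    {G : Subgroup (LinearMap.GeneralLinearGroup k M)} (hG : Cfsg.IsQuadraticPair G)
    {E F : Subgroup (LinearMap.GeneralLinearGroup k M)} (hE : E ∈ Cfsg.quadraticRootSubgroups G) (hF : F ∈ Cfsg.quadraticRootSubgroups G)
    (h2 : ⁅E ⊔ F, E ⊔ F⁆ ≠ ⊥ ∧ ⁅⁅E ⊔ F, E ⊔ F⁆, E ⊔ F⁆ = ⊥) :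
    ⁅E, F⁆ ∈ Cfsg.quadraticRootSubgroups G ∧
    (∀ e ∈ E, e ≠ 1 → Subgroup.closure ((fun f : LinearMap.GeneralLinearGroup k M => e * f * e⁻¹ * f⁻¹) '' (F : Set (LinearMap.GeneralLinearGroup k M))) = ⁅E, F⁆) ∧
    (∀ f ∈ F, f ≠ 1 → Subgroup.closure ((fun e : LinearMap.GeneralLinearGroup k M => e * f * e⁻¹ * f⁻¹) '' (E : Set (LinearMap.GeneralLinearGroup k M))) = ⁅E, F⁆) ∧
    ((E ⊔ F : Subgroup (LinearMap.GeneralLinearGroup k M)) : Set (LinearMap.GeneralLinearGroup k M)) ⊆ Cfsg.quadraticUnipotentCore G ⁅E, F⁆ := by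
  obtain ⟨a, ha, rfl⟩ := CfsgLib.QuadPair.mem_roots_iff.1 hE
  obtain ⟨b, hb, rfl⟩ := CfsgLib.QuadPair.mem_roots_iff.1 hF
  have h0 : (2 : k) ≠ 0 := Ring.two_ne_zero hk2
  have hs := CfsgLib.QuadPair.nilpotent_of_class_two h0 hk3 ha hb (CfsgLib.QuadPair.pairGrp_le_sup ha hb) h2.2
  by_cases hz : a * b - b * a = 0
  · exfalso
    refine h2.1 (Subgroup.commutator_eq_bot_iff_le_centralizer.2 ?_)
    have hself : ∀ {x : Module.End k M}, x * x = 0 → CfsgLib.QuadPair.Ecl G x ≤ Subgroup.centralizer
        (CfsgLib.QuadPair.Ecl G x : Set (LinearMap.GeneralLinearGroup k M)) := fun {x} hx g hg => by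
      rw [Subgroup.mem_centralizer_iff]
      intro h hh
      refine CfsgLib.QuadPair.commute_of_dl ?_
      have hg' := (CfsgLib.QuadPair.mem_Ecl hx).1 hg
      have hh' := (CfsgLib.QuadPair.mem_Ecl hx).1 hh
      rw [CfsgLib.QuadPair.cls_mul_eq_zero hx hh' hg', CfsgLib.QuadPair.cls_mul_eq_zero hx hg' hh']
    have hab := Subgroup.commutator_eq_bot_iff_le_centralizer.1
      (CfsgLib.QuadPair.commutator_eq_bot h0 hk3 ha hb hs hz)
    rw [Subgroup.le_centralizer_iff]
    exact sup_le (Subgroup.le_centralizer_iff.1 (sup_le (hself ha.mem.1) (Subgroup.le_centralizer_iff.1 hab)))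
      (Subgroup.le_centralizer_iff.1 (sup_le hab (hself hb.mem.1)))
  · obtain ⟨h1, h3, h4, h5, -, -, h8⟩ := CfsgLib.QuadPair.unipotent_pair h0 hk3 hG.1 ha hb hs hz
    exact ⟨CfsgLib.QuadPair.mem_roots_iff.2 ⟨_, h3, h1⟩, h4, h5, h8⟩

end Cfsg.Agent.S5066
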