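import Cfsg.Statements.S5067

set_option autoImplicit false
open Cfsg

namespace Cfsg.Agent.S5067

lemma class_lt {P : Type*} [Group P] [Group.IsNilpotent P] (hna : ¬ IsMulCommutative P)
    {E : Subgroup P} (hE : IsMulCommutative ↥E) :
    Group.nilpotencyClass ↥(Subgroup.normalClosure (E : Set P)) < Group.nilpotencyClass P := by
  set L : ℕ → Subgroup P := fun n => (⊤ : Subgroup P).lowerCentralSeries n with hL
  set K : Subgroup P := E ⊔ L 1
  have hKn : K.Normal := by
    refine ⟨fun x hx g => ?_⟩
    have h1 : g * x * g⁻¹ * x⁻¹ ∈ L 1 :=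
      Subgroup.commutator_mem_commutator (Subgroup.mem_top g) (Subgroup.mem_top x)
    have := mul_mem ((le_sup_right : L 1 ≤ K) h1) hx
    rwa [inv_mul_cancel_right] at this
  have hle : Subgroup.normalClosure (E : Set P) ≤ K := Subgroup.normalClosure_le_normal (SetLike.coe_subset_coe.2 (le_sup_left : E ≤ K))
  haveI : (L 2).Normal := inferInstanceAs ((⊤ : Subgroup P).lowerCentralSeries 2).Normal
  have hK2 : ⁅K, K⁆ ≤ L 2 := by
    rw [← QuotientGroup.ker_mk' (L 2), ← Subgroup.map_eq_bot_iff, Subgroup.map_commutator,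
      Subgroup.commutator_eq_bot_iff_le_centralizer, Subgroup.map_sup]
    have hcent : (L 1).map (QuotientGroup.mk' (L 2)) ≤ Subgroup.center (P ⧸ L 2) := by
      rintro _ ⟨x, hx, rfl⟩
      refine Subgroup.mem_center_iff.2 fun q => ?_
      obtain ⟨g, rfl⟩ := QuotientGroup.mk'_surjective (L 2) q
      have h1 : x * g * x⁻¹ * g⁻¹ ∈ L 2 :=
        Subgroup.commutator_mem_commutator hx (Subgroup.mem_top g)
      rw [← QuotientGroup.eq_one_iff] at h1
      change QuotientGroup.mk' (L 2) (x * g * x⁻¹ * g⁻¹) = 1 at h1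
      rw [map_mul, map_mul, map_mul, map_inv, map_inv] at h1
      rw [mul_inv_eq_one, mul_inv_eq_iff_eq_mul] at h1
      exact h1.symm
    refine sup_le ?_ (hcent.trans (Subgroup.center_le_centralizer _))
    rintro _ ⟨x, hx, rfl⟩
    refine Subgroup.mem_centralizer_iff.2 ?_
    intro z hz
    have : E.map (QuotientGroup.mk' (L 2)) ⊔ (L 1).map (QuotientGroup.mk' (L 2)) ≤
        Subgroup.centralizer {QuotientGroup.mk' (L 2) x} := by
      refine sup_le ?_ (hcent.trans (Subgroup.center_le_centralizer _))
      rintro _ ⟨e, he, rfl⟩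
      rw [Subgroup.mem_centralizer_singleton_iff, ← map_mul, ← map_mul]
      exact congrArg _ (congrArg Subtype.val (hE.is_comm.comm (⟨e, he⟩ : E) ⟨x, hx⟩))
    exact Subgroup.mem_centralizer_singleton_iff.1 (this hz)
  have hstep : ∀ i, 1 ≤ i → K.lowerCentralSeries i ≤ L (i + 1) := by
    intro i hi
    induction i, hi using Nat.le_induction with
    | base => exact hK2
    | succ i _ ih => exact Subgroup.commutator_mono ih le_top
  set c := Group.nilpotencyClass P with hc
  have hcbot : L c = ⊥ := Subgroup.lowerCentralSeries_eq_bot_iff_nilpotencyClass_le.2 le_rfl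
  have hc2 : 2 ≤ c := by
    by_contra hlt
    have h1 : L 1 = ⊥ := Subgroup.lowerCentralSeries_eq_bot_iff_nilpotencyClass_le.2 (by omega)
    refine hna ⟨⟨fun a b => ?_⟩⟩
    have hm : a * b * a⁻¹ * b⁻¹ ∈ L 1 :=
      Subgroup.commutator_mem_commutator (Subgroup.mem_top a) (Subgroup.mem_top b)
    rw [h1, Subgroup.mem_bot, mul_inv_eq_one, mul_inv_eq_iff_eq_mul] at hm
    exact hm
  have hbot : (Subgroup.normalClosure (E : Set P)).lowerCentralSeries (c - 1) = ⊥ := by
    rw [eq_bot_iff]
    refine (Subgroup.lowerCentralSeries_mono (c - 1) hle).trans ((hstep (c - 1) (by omega)).trans ?_)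
    rw [Nat.sub_add_cancel (by omega), hcbot]
  haveI : Group.IsNilpotent ↥(Subgroup.normalClosure (E : Set P)) := inferInstance
  have : Group.nilpotencyClass ↥(Subgroup.normalClosure (E : Set P)) ≤ c - 1 := by
    rw [← Subgroup.lowerCentralSeries_eq_bot_iff_nilpotencyClass_le,
      ← (Subgroup.map_eq_bot_iff_of_injective _ (Subgroup.subtype_injective _)),
      Subgroup.top_subtype_lowerCentralSeries, hbot]
  omega

/-- Let P be a non-abelian nilpotent p-group (every element of p-power order; P possibly infinite) generated by two abelian subgroups E and F. Then the normal closure of E in P, and likewise that of F, has nilpotency class strictly smaller than that of P. -/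
theorem result {P : Type*} [Group P] {p : ℕ} [Fact p.Prime] (hP : IsPGroup p P) [Group.IsNilpotent P]
    (hna : ¬ IsMulCommutative P) {E F : Subgroup P} (hE : IsMulCommutative ↥E) (hF : IsMulCommutative ↥F) (hgen : E ⊔ F = ⊤) :
    Group.nilpotencyClass ↥(Subgroup.normalClosure (E : Set P)) < Group.nilpotencyClass P ∧
    Group.nilpotencyClass ↥(Subgroup.normalClosure (F : Set P)) < Group.nilpotencyClass P := by
  exact ⟨class_lt hna hE, class_lt hna hF⟩

end Cfsg.Agent.S5067
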