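import Cfsg.Statements.S5069
import Cfsg.Agent.QuadPair.Simple

set_option autoImplicit false
universe u
open Cfsg

namespace Cfsg.Agent.S5069

/-- Let k be a field of characteristic not 2 with k not of order 3, M a finite-dimensional k-vector space and G ≤ GL(M) such that (G, M) is a quadratic pair (M irreducible for G, and G generated by its quadratically acting elements σ whose scalar family 1 + c(σ − 1), c ∈ k, lies in G). Write 𝒬_d for the quadratic elements of G of minimal commutator rank, E(σ) for the subgroup generated by the members of 𝒬_d with the same fixed space and commutator space as σ, and Σ for the set of these subgroups. Then Σ is a disjoint union of finitely many parts Σ₁, …, Σ_r such that the subgroups G_i generated by the Σ_i commute pairwise, each G_i is quasisimple, and inside G_i the members of Σ_i form a class of abstract root subgroups in which every rank one pair A, B contains subgroups A₀ ≤ A, B₀ ≤ B generating an image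 of SL₂(k₁) with central kernel on unitriangular subgroups for some field k₁ with at least four elements. -/
theorem result {k : Type u} [Field k] (hk2 : ringChar k ≠ 2) (hk3 : Nat.card k ≠ 3)
    {M : Type u} [AddCommGroup M] [Module k M] [FiniteDimensional k M]
    {G : Subgroup (LinearMap.GeneralLinearGroup k M)} (hG : Cfsg.IsQuadraticPair G) :
    ∃ (r : ℕ) (part : Fin r → Set (Subgroup (LinearMap.GeneralLinearGroup k M))),
      (⋃ i, part i) = Cfsg.quadraticRootSubgroups G ∧ (∀ i j, i ≠ j → Disjoint (part i) (part j)) ∧ (∀ i, (part i).Nonempty) ∧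
      (∀ i j, i ≠ j → ⁅(⨆ A ∈ part i, A), (⨆ A ∈ part j, A)⁆ = ⊥) ∧
      (∀ i, Cfsg.IsQuasisimple ↥(⨆ A ∈ part i, A) ∧
        Cfsg.IsRootSubgroupClass ((fun A : Subgroup (LinearMap.GeneralLinearGroup k M) => A.subgroupOf (⨆ B ∈ part i, B)) '' (part i)) ∧
        ∀ A ∈ part i, ∀ B ∈ Cfsg.rankOnePartners (part i) A, ∃ A₀ B₀ : Subgroup (LinearMap.GeneralLinearGroup k M), A₀ ≤ A ∧ B₀ ≤ B ∧
          ∃ (k₁ : Type u) (_ : Field k₁), 3 < ENat.card k₁ ∧ Cfsg.IsPSL2PairOver k₁ A₀ B₀) := by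
  have h2 : (2 : k) ≠ 0 := Ring.two_ne_zero hk2
  have := CfsgLib.QuadPair.finite_parts h2 hk3 hG.1
  obtain ⟨r, ⟨f⟩⟩ := Finite.exists_equiv_fin (CfsgLib.QuadPair.part G '' Cfsg.quadraticRootSubgroups G : Set _)
  have hrep : ∀ i, ∃ A ∈ Cfsg.quadraticRootSubgroups G, CfsgLib.QuadPair.part G A = (f.symm i).1 := fun i =>
    (f.symm i).2
  choose rep hrep hpart using hrep
  have hinj : ∀ i j, CfsgLib.QuadPair.part G (rep i) = CfsgLib.QuadPair.part G (rep j) → i = j := fun i j h =>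
    f.symm.injective (Subtype.ext ((hpart i).symm.trans (h.trans (hpart j))))
  refine ⟨r, fun i => CfsgLib.QuadPair.part G (rep i), Set.Subset.antisymm (Set.iUnion_subset fun i A hA => hA.1) ?_,
    ?_, fun i => ⟨rep i, CfsgLib.QuadPair.self_mem_part (hrep i)⟩, ?_, ?_⟩
  · intro A hA
    refine Set.mem_iUnion.2 ⟨f ⟨_, A, hA, rfl⟩, ?_⟩
    rw [hpart, Equiv.symm_apply_apply]
    exact CfsgLib.QuadPair.self_mem_part hA
  · intro i j hij
    rw [Set.disjoint_left]
    intro A hi hj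
    exact hij (hinj i j ((CfsgLib.QuadPair.part_eq (hrep i) hi).symm.trans (CfsgLib.QuadPair.part_eq (hrep j) hj)))
  · exact fun i j hij => CfsgLib.QuadPair.compGrp_commute h2 hk3 hG.1 (hrep i) (hrep j) fun h => hij (hinj i j h)
  intro i
  refine ⟨CfsgLib.QuadPair.isQuasisimple_compGrp h2 hk3 hG.1 (hrep i),
    ⟨CfsgLib.QuadPair.rootSet_subgroupOf rfl ?_ ?_ ?_ ?_, ?_, ?_⟩, ?_⟩
  · intro A hA
    obtain ⟨a, ha, rfl⟩ := CfsgLib.QuadPair.mem_roots_iff.1 hA.1
    exact CfsgLib.QuadPair.isMulCommutative_Ecl ha.mem.1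
  · intro A hA
    obtain ⟨a, ha, rfl⟩ := CfsgLib.QuadPair.mem_roots_iff.1 hA.1
    exact CfsgLib.QuadPair.Ecl_ne_bot ha
  · exact fun A hA g hg => CfsgLib.QuadPair.conjBy_mem_part (hrep i) hg A hA
  · intro A hA B hB
    obtain ⟨a, ha, rfl⟩ := CfsgLib.QuadPair.mem_roots_iff.1 hA.1
    obtain ⟨b, hb, rfl⟩ := CfsgLib.QuadPair.mem_roots_iff.1 hB.1
    exact CfsgLib.QuadPair.pair_cases h2 hk3 hG.1 ha hb fun hs hz =>
      CfsgLib.QuadPair.mem_part_of_part hA (CfsgLib.QuadPair.bracket_mem_part h2 hk3 hG.1 ha hb hs hz)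
  · exact ⟨_, rep i, CfsgLib.QuadPair.self_mem_part (hrep i), rfl⟩
  · rintro _ ⟨A, hA, rfl⟩ _ ⟨B, hB, rfl⟩
    obtain ⟨g, hg, rfl⟩ := CfsgLib.QuadPair.part_conjugate hA.1 (show B ∈ CfsgLib.QuadPair.part G A by
      rw [CfsgLib.QuadPair.part_eq (hrep i) hA]; exact hB)
    rw [CfsgLib.QuadPair.compGrp, CfsgLib.QuadPair.part_eq (hrep i) hA] at hg
    exact ⟨⟨g, hg⟩, (CfsgLib.QuadPair.conjBy_subgroupOf (CfsgLib.QuadPair.le_compGrp hA) ⟨g, hg⟩).symm⟩
  · intro A hA B hB
    obtain ⟨a, ha, rfl⟩ := CfsgLib.QuadPair.mem_roots_iff.1 hA.1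
    obtain ⟨b, hb, rfl⟩ := CfsgLib.QuadPair.mem_roots_iff.1 hB.1.1
    exact CfsgLib.QuadPair.psl2_pair h2 hk3 ha hb hB.2

end Cfsg.Agent.S5069
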