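import Cfsg.Statements.S5070
import Cfsg.Agent.FillTv.Symp

set_option autoImplicit false
open Matrix
open Cfsg

namespace Cfsg.Agent.S5070

/-- Let F be a field, m a natural number and V = F^{2(m+1)} with the standard non-degenerate alternating form f(u, v) = uᵀ J v. For a non-zero vector p let T(p) be the group of symplectic transvections v ↦ v + c f(v, p) p, c ∈ F. Then the subgroups T(p), p ≠ 0, generate the symplectic group Sp_{2(m+1)}(F) and form a degenerate class of abstract F-root subgroups of it (any two of them either commute elementwise or are the unipotent subgroups of a rank one group that is an image of SL₂(F) with central kernel, never the commutator case), and their graph of rank one pairs is connected. -/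
theorem result (F : Type*) [Field F] (m : ℕ) :
    Cfsg.IsRootSubgroupClass {A : Subgroup ↥(Matrix.symplecticGroup (Fin (m + 1)) F) | ∃ p : Fin (m + 1) ⊕ Fin (m + 1) → F, p ≠ 0 ∧
        A = Subgroup.closure {g : ↥(Matrix.symplecticGroup (Fin (m + 1)) F) | ∃ c : F, ∀ v : Fin (m + 1) ⊕ Fin (m + 1) → F,
          (g : Matrix (Fin (m + 1) ⊕ Fin (m + 1)) (Fin (m + 1) ⊕ Fin (m + 1)) F) *ᵥ v =
            v + (c * (v ⬝ᵥ (Matrix.J (Fin (m + 1)) F *ᵥ p))) • p}} ∧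
    Cfsg.IsDegenerateRootSet {A : Subgroup ↥(Matrix.symplecticGroup (Fin (m + 1)) F) | ∃ p : Fin (m + 1) ⊕ Fin (m + 1) → F, p ≠ 0 ∧
        A = Subgroup.closure {g : ↥(Matrix.symplecticGroup (Fin (m + 1)) F) | ∃ c : F, ∀ v : Fin (m + 1) ⊕ Fin (m + 1) → F,
          (g : Matrix (Fin (m + 1) ⊕ Fin (m + 1)) (Fin (m + 1) ⊕ Fin (m + 1)) F) *ᵥ v =
            v + (c * (v ⬝ᵥ (Matrix.J (Fin (m + 1)) F *ᵥ p))) • p}} ∧
    Cfsg.IsKRootSubgroupSet F {A : Subgroup ↥(Matrix.symplecticGroup (Fin (m + 1)) F) | ∃ p : Fin (m + 1) ⊕ Fin (m + 1) → F, p ≠ 0 ∧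
        A = Subgroup.closure {g : ↥(Matrix.symplecticGroup (Fin (m + 1)) F) | ∃ c : F, ∀ v : Fin (m + 1) ⊕ Fin (m + 1) → F,
          (g : Matrix (Fin (m + 1) ⊕ Fin (m + 1)) (Fin (m + 1) ⊕ Fin (m + 1)) F) *ᵥ v =
            v + (c * (v ⬝ᵥ (Matrix.J (Fin (m + 1)) F *ᵥ p))) • p}} ∧
    Cfsg.IsConnectedFamily (Cfsg.FAdj {A : Subgroup ↥(Matrix.symplecticGroup (Fin (m + 1)) F) | ∃ p : Fin (m + 1) ⊕ Fin (m + 1) → F, p ≠ 0 ∧
        A = Subgroup.closure {g : ↥(Matrix.symplecticGroup (Fin (m + 1)) F) | ∃ c : F, ∀ v : Fin (m + 1) ⊕ Fin (m + 1) → F,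
          (g : Matrix (Fin (m + 1) ⊕ Fin (m + 1)) (Fin (m + 1) ⊕ Fin (m + 1)) F) *ᵥ v =
            v + (c * (v ⬝ᵥ (Matrix.J (Fin (m + 1)) F *ᵥ p))) • p}})
      {A : Subgroup ↥(Matrix.symplecticGroup (Fin (m + 1)) F) | ∃ p : Fin (m + 1) ⊕ Fin (m + 1) → F, p ≠ 0 ∧
        A = Subgroup.closure {g : ↥(Matrix.symplecticGroup (Fin (m + 1)) F) | ∃ c : F, ∀ v : Fin (m + 1) ⊕ Fin (m + 1) → F,
          (g : Matrix (Fin (m + 1) ⊕ Fin (m + 1)) (Fin (m + 1) ⊕ Fin (m + 1)) F) *ᵥ v =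
            v + (c * (v ⬝ᵥ (Matrix.J (Fin (m + 1)) F *ᵥ p))) • p}} := by
  simp only [CfsgLib.FillTv.closure_eq_T]
  set S := {A : Subgroup ↥(Matrix.symplecticGroup (Fin (m + 1)) F) | ∃ p : Fin (m + 1) ⊕ Fin (m + 1) → F,
    p ≠ 0 ∧ A = CfsgLib.FillTv.T p}
  have hk := CfsgLib.FillTv.kRoot_degenerate (k := F) (S := S)
    (by rintro _ ⟨p, -, rfl⟩; exact CfsgLib.FillTv.T_comm p)
    (by rintro _ ⟨p, hp, rfl⟩; exact CfsgLib.FillTv.T_ne_bot hp)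
    (CfsgLib.SpGeom.eq_top_of_tv _ fun w c => by
      by_cases hw : w = 0
      · rw [show CfsgLib.SpGeom.tv w c = 1 from CfsgLib.SpGeom.ext_mulVec fun v => by
          simp [CfsgLib.SpGeom.tv_mulVec, hw]]
        exact one_mem _
      · exact le_iSup₂ (f := fun A (_ : A ∈ S) => A) _ ⟨w, hw, rfl⟩ (CfsgLib.FillTv.mem_T.2 ⟨c, rfl⟩))
    (by
      rintro _ ⟨p, hp, rfl⟩ g
      exact ⟨_, CfsgLib.SpGeom.mulVec_ne_zero g hp, CfsgLib.FillTv.T_conj g p⟩)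
    (by rintro _ ⟨p, -, rfl⟩ _ ⟨r, -, rfl⟩; exact CfsgLib.FillTv.T_pair)
  have hconn : Cfsg.IsConnectedFamily (Cfsg.FAdj S) S := by
    rintro _ ⟨p, hp, rfl⟩ _ ⟨r, hr, rfl⟩
    obtain ⟨w, -, h1, h2⟩ := CfsgLib.SpGeom.exists_common CfsgLib.SpGeom.nondeg_top
      (Submodule.mem_top (x := p)) hp (Submodule.mem_top (x := r)) hr
    have hw : w ≠ 0 := fun e => h1 (by rw [e, CfsgLib.SpGeom.form_zero_right])
    refine (Relation.ReflTransGen.single (b := CfsgLib.FillTv.T w) ⟨⟨p, hp, rfl⟩, ⟨w, hw, rfl⟩,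
      CfsgLib.FillTv.isRankOnePair_of_psl2 (CfsgLib.FillTv.T_psl2 h1)⟩).tail
      ⟨⟨w, hw, rfl⟩, ⟨r, hr, rfl⟩,
        Cfsg.RankOnePair_symm (CfsgLib.FillTv.isRankOnePair_of_psl2 (CfsgLib.FillTv.T_psl2 h2))⟩
  have hne : S.Nonempty := ⟨_, Pi.single (Sum.inl 0) 1, Pi.single_ne_zero_iff.2 one_ne_zero, rfl⟩
  exact ⟨CfsgLib.FillTv.class_of_connected hk.1.1 hne hconn, hk.2, hk.1, hconn⟩

end Cfsg.Agent.S5070
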