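import Cfsg.Statements.S5071
import Cfsg.Agent.FillTv.Unitary

set_option autoImplicit false
open Matrix
open Cfsg

namespace Cfsg.Agent.S5071

/-- Let F be a finite field with q² elements, n a natural number, and h the Hermitian form Σ uᵢ vᵢ^q on F^{n+2}. For a non-zero isotropic vector p let T(p) be the group of unitary transvections with centre ⟨p⟩: the elements of SU_{n+2}(q) moving every vector by a multiple of p and fixing every vector perpendicular to p. Let Σ be the set of these T(p) and G₀ the subgroup they generate. Then, viewed inside G₀, the members of Σ form a degenerate class of abstract k-root subgroups of G₀ for some field k with q elements (any two commute or are the unipotent subgroups of a rank one group that is an image of SL₂(k) with central kernel, never the commutator case), and their graph of rank one pairs is connected. -/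
theorem result (F : Type*) [Field F] [Fintype F] (q n : ℕ) (hF : Fintype.card F = q ^ 2) :
    Cfsg.IsRootSubgroupClass ((fun A : Subgroup ↥(Cfsg.SU (n + 2) F q) => A.subgroupOf (⨆ B ∈ {A : Subgroup ↥(Cfsg.SU (n + 2) F q) | ∃ p : Fin (n + 2) → F, p ≠ 0 ∧ Cfsg.hermForm (n + 2) F q p p = 0 ∧
          A = Subgroup.closure {g : ↥(Cfsg.SU (n + 2) F q) |
            (∀ v : Fin (n + 2) → F, ∃ c : F, ((g : Matrix.SpecialLinearGroup (Fin (n + 2)) F) : Matrix (Fin (n + 2)) (Fin (n + 2)) F) *ᵥ v = v + c • p) ∧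
            ∀ v : Fin (n + 2) → F, Cfsg.hermForm (n + 2) F q v p = 0 →
              ((g : Matrix.SpecialLinearGroup (Fin (n + 2)) F) : Matrix (Fin (n + 2)) (Fin (n + 2)) F) *ᵥ v = v}}, B)) ''
      {A : Subgroup ↥(Cfsg.SU (n + 2) F q) | ∃ p : Fin (n + 2) → F, p ≠ 0 ∧ Cfsg.hermForm (n + 2) F q p p = 0 ∧
          A = Subgroup.closure {g : ↥(Cfsg.SU (n + 2) F q) |
            (∀ v : Fin (n + 2) → F, ∃ c : F, ((g : Matrix.SpecialLinearGroup (Fin (n + 2)) F) : Matrix (Fin (n + 2)) (Fin (n + 2)) F) *ᵥ v = v + c • p) ∧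
            ∀ v : Fin (n + 2) → F, Cfsg.hermForm (n + 2) F q v p = 0 →
              ((g : Matrix.SpecialLinearGroup (Fin (n + 2)) F) : Matrix (Fin (n + 2)) (Fin (n + 2)) F) *ᵥ v = v}}) ∧
    Cfsg.IsDegenerateRootSet ((fun A : Subgroup ↥(Cfsg.SU (n + 2) F q) => A.subgroupOf (⨆ B ∈ {A : Subgroup ↥(Cfsg.SU (n + 2) F q) | ∃ p : Fin (n + 2) → F, p ≠ 0 ∧ Cfsg.hermForm (n + 2) F q p p = 0 ∧
          A = Subgroup.closure {g : ↥(Cfsg.SU (n + 2) F q) |
            (∀ v : Fin (n + 2) → F, ∃ c : F, ((g : Matrix.SpecialLinearGroup (Fin (n + 2)) F) : Matrix (Fin (n + 2)) (Fin (n + 2)) F) *ᵥ v = v + c • p) ∧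
            ∀ v : Fin (n + 2) → F, Cfsg.hermForm (n + 2) F q v p = 0 →
              ((g : Matrix.SpecialLinearGroup (Fin (n + 2)) F) : Matrix (Fin (n + 2)) (Fin (n + 2)) F) *ᵥ v = v}}, B)) ''
      {A : Subgroup ↥(Cfsg.SU (n + 2) F q) | ∃ p : Fin (n + 2) → F, p ≠ 0 ∧ Cfsg.hermForm (n + 2) F q p p = 0 ∧
          A = Subgroup.closure {g : ↥(Cfsg.SU (n + 2) F q) |
            (∀ v : Fin (n + 2) → F, ∃ c : F, ((g : Matrix.SpecialLinearGroup (Fin (n + 2)) F) : Matrix (Fin (n + 2)) (Fin (n + 2)) F) *ᵥ v = v + c • p) ∧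
            ∀ v : Fin (n + 2) → F, Cfsg.hermForm (n + 2) F q v p = 0 →
              ((g : Matrix.SpecialLinearGroup (Fin (n + 2)) F) : Matrix (Fin (n + 2)) (Fin (n + 2)) F) *ᵥ v = v}}) ∧
    (∃ (L : Type) (_ : Field L) (_ : Fintype L), Fintype.card L = q ∧ Cfsg.IsKRootSubgroupSet L ((fun A : Subgroup ↥(Cfsg.SU (n + 2) F q) => A.subgroupOf (⨆ B ∈ {A : Subgroup ↥(Cfsg.SU (n + 2) F q) | ∃ p : Fin (n + 2) → F, p ≠ 0 ∧ Cfsg.hermForm (n + 2) F q p p = 0 ∧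
          A = Subgroup.closure {g : ↥(Cfsg.SU (n + 2) F q) |
            (∀ v : Fin (n + 2) → F, ∃ c : F, ((g : Matrix.SpecialLinearGroup (Fin (n + 2)) F) : Matrix (Fin (n + 2)) (Fin (n + 2)) F) *ᵥ v = v + c • p) ∧
            ∀ v : Fin (n + 2) → F, Cfsg.hermForm (n + 2) F q v p = 0 →
              ((g : Matrix.SpecialLinearGroup (Fin (n + 2)) F) : Matrix (Fin (n + 2)) (Fin (n + 2)) F) *ᵥ v = v}}, B)) ''
      {A : Subgroup ↥(Cfsg.SU (n + 2) F q) | ∃ p : Fin (n + 2) → F, p ≠ 0 ∧ Cfsg.hermForm (n + 2) F q p p = 0 ∧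
          A = Subgroup.closure {g : ↥(Cfsg.SU (n + 2) F q) |
            (∀ v : Fin (n + 2) → F, ∃ c : F, ((g : Matrix.SpecialLinearGroup (Fin (n + 2)) F) : Matrix (Fin (n + 2)) (Fin (n + 2)) F) *ᵥ v = v + c • p) ∧
            ∀ v : Fin (n + 2) → F, Cfsg.hermForm (n + 2) F q v p = 0 →
              ((g : Matrix.SpecialLinearGroup (Fin (n + 2)) F) : Matrix (Fin (n + 2)) (Fin (n + 2)) F) *ᵥ v = v}})) ∧
    Cfsg.IsConnectedFamily (Cfsg.FAdj ((fun A : Subgroup ↥(Cfsg.SU (n + 2) F q) => A.subgroupOf (⨆ B ∈ {A : Subgroup ↥(Cfsg.SU (n + 2) F q) | ∃ p : Fin (n + 2) → F, p ≠ 0 ∧ Cfsg.hermForm (n + 2) F q p p = 0 ∧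
          A = Subgroup.closure {g : ↥(Cfsg.SU (n + 2) F q) |
            (∀ v : Fin (n + 2) → F, ∃ c : F, ((g : Matrix.SpecialLinearGroup (Fin (n + 2)) F) : Matrix (Fin (n + 2)) (Fin (n + 2)) F) *ᵥ v = v + c • p) ∧
            ∀ v : Fin (n + 2) → F, Cfsg.hermForm (n + 2) F q v p = 0 →
              ((g : Matrix.SpecialLinearGroup (Fin (n + 2)) F) : Matrix (Fin (n + 2)) (Fin (n + 2)) F) *ᵥ v = v}}, B)) ''
      {A : Subgroup ↥(Cfsg.SU (n + 2) F q) | ∃ p : Fin (n + 2) → F, p ≠ 0 ∧ Cfsg.hermForm (n + 2) F q p p = 0 ∧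
          A = Subgroup.closure {g : ↥(Cfsg.SU (n + 2) F q) |
            (∀ v : Fin (n + 2) → F, ∃ c : F, ((g : Matrix.SpecialLinearGroup (Fin (n + 2)) F) : Matrix (Fin (n + 2)) (Fin (n + 2)) F) *ᵥ v = v + c • p) ∧
            ∀ v : Fin (n + 2) → F, Cfsg.hermForm (n + 2) F q v p = 0 →
              ((g : Matrix.SpecialLinearGroup (Fin (n + 2)) F) : Matrix (Fin (n + 2)) (Fin (n + 2)) F) *ᵥ v = v}})) ((fun A : Subgroup ↥(Cfsg.SU (n + 2) F q) => A.subgroupOf (⨆ B ∈ {A : Subgroup ↥(Cfsg.SU (n + 2) F q) | ∃ p : Fin (n + 2) → F, p ≠ 0 ∧ Cfsg.hermForm (n + 2) F q p p = 0 ∧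
          A = Subgroup.closure {g : ↥(Cfsg.SU (n + 2) F q) |
            (∀ v : Fin (n + 2) → F, ∃ c : F, ((g : Matrix.SpecialLinearGroup (Fin (n + 2)) F) : Matrix (Fin (n + 2)) (Fin (n + 2)) F) *ᵥ v = v + c • p) ∧
            ∀ v : Fin (n + 2) → F, Cfsg.hermForm (n + 2) F q v p = 0 →
              ((g : Matrix.SpecialLinearGroup (Fin (n + 2)) F) : Matrix (Fin (n + 2)) (Fin (n + 2)) F) *ᵥ v = v}}, B)) ''
      {A : Subgroup ↥(Cfsg.SU (n + 2) F q) | ∃ p : Fin (n + 2) → F, p ≠ 0 ∧ Cfsg.hermForm (n + 2) F q p p = 0 ∧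
          A = Subgroup.closure {g : ↥(Cfsg.SU (n + 2) F q) |
            (∀ v : Fin (n + 2) → F, ∃ c : F, ((g : Matrix.SpecialLinearGroup (Fin (n + 2)) F) : Matrix (Fin (n + 2)) (Fin (n + 2)) F) *ᵥ v = v + c • p) ∧
            ∀ v : Fin (n + 2) → F, Cfsg.hermForm (n + 2) F q v p = 0 →
              ((g : Matrix.SpecialLinearGroup (Fin (n + 2)) F) : Matrix (Fin (n + 2)) (Fin (n + 2)) F) *ᵥ v = v}}) := by
  obtain ⟨C⟩ := CfsgLib.UGeom.nonempty_conj hF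
  obtain ⟨L, hL, hfin, ι, hcard, hι⟩ := CfsgLib.FillTv.exists_fixed_field C
  set S := {A : Subgroup ↥(Cfsg.SU (n + 2) F q) | ∃ p : Fin (n + 2) → F, p ≠ 0 ∧ Cfsg.hermForm (n + 2) F q p p = 0 ∧
          A = Subgroup.closure {g : ↥(Cfsg.SU (n + 2) F q) |
            (∀ v : Fin (n + 2) → F, ∃ c : F, ((g : Matrix.SpecialLinearGroup (Fin (n + 2)) F) : Matrix (Fin (n + 2)) (Fin (n + 2)) F) *ᵥ v = v + c • p) ∧
            ∀ v : Fin (n + 2) → F, Cfsg.hermForm (n + 2) F q v p = 0 →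
              ((g : Matrix.SpecialLinearGroup (Fin (n + 2)) F) : Matrix (Fin (n + 2)) (Fin (n + 2)) F) *ᵥ v = v}}
  have hS : ∀ A, A ∈ S ↔ ∃ p : Fin (n + 2) → F, p ≠ 0 ∧ Cfsg.hermForm (n + 2) F q p p = 0 ∧
      A = CfsgLib.UGeom.tsub C p := fun A => exists_congr fun p => and_congr_right fun hp =>
    and_congr_right fun hpp => by rw [CfsgLib.FillTv.closure_eq_tsub C hp hpp]
  have hT : ∀ p : Fin (n + 2) → F, p ≠ 0 → Cfsg.hermForm (n + 2) F q p p = 0 →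
      CfsgLib.UGeom.tsub C p ∈ S := fun p hp hpp => (hS _).2 ⟨p, hp, hpp, rfl⟩
  obtain ⟨h1, h2, h3, h4⟩ := CfsgLib.FillTv.class_inside (k := L) (S := S)
    (fun A hA => by
      obtain ⟨p, -, -, rfl⟩ := (hS A).1 hA
      exact ⟨⟨fun a b => Subtype.ext (CfsgLib.UGeom.tsub_comm C p a a.2 b b.2)⟩⟩)
    (fun A hA => by
      obtain ⟨p, hp, hpp, rfl⟩ := (hS A).1 hA
      exact CfsgLib.FillTv.tsub_ne_bot C hp hpp)
    (fun A hA g => by
      obtain ⟨p, hp, hpp, rfl⟩ := (hS A).1 hA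
      rw [CfsgLib.FillTv.tsub_conj' C g p]
      exact hT _ (CfsgLib.UGeom.SU_mulVec_ne_zero g hp) (by rw [CfsgLib.UGeom.SU_form g, hpp]))
    (fun A hA B hB => by
      obtain ⟨p, hp, hpp, rfl⟩ := (hS A).1 hA
      obtain ⟨r, hr, hrr, rfl⟩ := (hS B).1 hB
      by_cases h : Cfsg.hermForm (n + 2) F q r p = 0
      · exact Or.inl (CfsgLib.FillTv.tsub_commute C hpp hrr (by rw [← CfsgLib.UGeom.form_conj C, h, map_zero]))
      · exact Or.inr (CfsgLib.FillTv.tsub_psl2 C ι hι hpp hrr h))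
    (by
      obtain ⟨p, hp, hpp⟩ := CfsgLib.FillTv.exists_isotropic C n
      exact ⟨_, hT p hp hpp⟩)
    (fun A hA B hB => by
      obtain ⟨p, hp, hpp, rfl⟩ := (hS A).1 hA
      obtain ⟨r, hr, hrr, rfl⟩ := (hS B).1 hB
      obtain ⟨y, hyy, hy1, hy2⟩ := CfsgLib.UGeom.exists_common_iso C hp hpp hr hrr
      have hy : y ≠ 0 := fun e => hy1 (by rw [e, CfsgLib.UGeom.form_zero_left])
      refine (Relation.ReflTransGen.single (b := CfsgLib.UGeom.tsub C y)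
        ⟨hA, hT y hy hyy, CfsgLib.FillTv.tsub_psl2 C ι hι hpp hyy hy1⟩).tail
        ⟨hT y hy hyy, hB, CfsgLib.FillTv.tsub_psl2 C ι hι hyy hrr ?_⟩
      rw [← CfsgLib.UGeom.form_conj C]
      exact (map_ne_zero C.σ).2 hy2)
  exact ⟨h1, h2, ⟨L, hL, hfin, hcard, h3⟩, h4⟩

end Cfsg.Agent.S5071
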