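import Cfsg.Statements.S5072
import Cfsg.Agent.FillTv.Siegel

set_option autoImplicit false
open Matrix
open Cfsg

namespace Cfsg.Agent.S5072

/-- Let F be a field, m a natural number and V = F^{2(m+3)} with the hyperbolic quadratic form q(x, y) = Σ xᵢ yᵢ (non-degenerate, Witt index m + 3 ≥ 3). For a singular line ℓ (a 2-dimensional subspace on which q vanishes) let T(ℓ) be the group of isometries of q fixing every vector of ℓ^⊥ (the Siegel transvection group of ℓ), let Σ be the set of these groups and G₀ the subgroup they generate. Then, viewed inside G₀, the members of Σ form a set of abstract F-root subgroups of G₀ (any two commute, or are the unipotent subgroups of a rank one group that is an image of SL₂(F) with central kernel, or satisfy the commutator case), and their graph of rank one pairs is connected. -/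
theorem result (F : Type*) [Field F] (m : ℕ) :
    Cfsg.IsKRootSubgroupSet F ((fun A : Subgroup ↥(Cfsg.isometryGroup F (Cfsg.quadFormPlus (m + 3) F)) => A.subgroupOf (⨆ B ∈ {A : Subgroup ↥(Cfsg.isometryGroup F (Cfsg.quadFormPlus (m + 3) F)) | ∃ p r : Fin (m + 3) ⊕ Fin (m + 3) → F, LinearIndependent F ![p, r] ∧
          Cfsg.quadFormPlus (m + 3) F p = 0 ∧ Cfsg.quadFormPlus (m + 3) F r = 0 ∧
          Cfsg.quadFormPlus (m + 3) F (p + r) = 0 ∧
          A = Subgroup.closure {σ : ↥(Cfsg.isometryGroup F (Cfsg.quadFormPlus (m + 3) F)) | ∀ v : Fin (m + 3) ⊕ Fin (m + 3) → F,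
            Cfsg.quadFormPlus (m + 3) F (v + p) - Cfsg.quadFormPlus (m + 3) F v - Cfsg.quadFormPlus (m + 3) F p = 0 →
            Cfsg.quadFormPlus (m + 3) F (v + r) - Cfsg.quadFormPlus (m + 3) F v - Cfsg.quadFormPlus (m + 3) F r = 0 →
              ((σ : Matrix.GeneralLinearGroup (Fin (m + 3) ⊕ Fin (m + 3)) F) : Matrix (Fin (m + 3) ⊕ Fin (m + 3)) (Fin (m + 3) ⊕ Fin (m + 3)) F) *ᵥ v = v}}, B)) ''
      {A : Subgroup ↥(Cfsg.isometryGroup F (Cfsg.quadFormPlus (m + 3) F)) | ∃ p r : Fin (m + 3) ⊕ Fin (m + 3) → F, LinearIndependent F ![p, r] ∧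
          Cfsg.quadFormPlus (m + 3) F p = 0 ∧ Cfsg.quadFormPlus (m + 3) F r = 0 ∧
          Cfsg.quadFormPlus (m + 3) F (p + r) = 0 ∧
          A = Subgroup.closure {σ : ↥(Cfsg.isometryGroup F (Cfsg.quadFormPlus (m + 3) F)) | ∀ v : Fin (m + 3) ⊕ Fin (m + 3) → F,
            Cfsg.quadFormPlus (m + 3) F (v + p) - Cfsg.quadFormPlus (m + 3) F v - Cfsg.quadFormPlus (m + 3) F p = 0 →
            Cfsg.quadFormPlus (m + 3) F (v + r) - Cfsg.quadFormPlus (m + 3) F v - Cfsg.quadFormPlus (m + 3) F r = 0 →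
              ((σ : Matrix.GeneralLinearGroup (Fin (m + 3) ⊕ Fin (m + 3)) F) : Matrix (Fin (m + 3) ⊕ Fin (m + 3)) (Fin (m + 3) ⊕ Fin (m + 3)) F) *ᵥ v = v}}) ∧
    Cfsg.IsConnectedFamily (Cfsg.FAdj {A : Subgroup ↥(Cfsg.isometryGroup F (Cfsg.quadFormPlus (m + 3) F)) | ∃ p r : Fin (m + 3) ⊕ Fin (m + 3) → F, LinearIndependent F ![p, r] ∧
          Cfsg.quadFormPlus (m + 3) F p = 0 ∧ Cfsg.quadFormPlus (m + 3) F r = 0 ∧
          Cfsg.quadFormPlus (m + 3) F (p + r) = 0 ∧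
          A = Subgroup.closure {σ : ↥(Cfsg.isometryGroup F (Cfsg.quadFormPlus (m + 3) F)) | ∀ v : Fin (m + 3) ⊕ Fin (m + 3) → F,
            Cfsg.quadFormPlus (m + 3) F (v + p) - Cfsg.quadFormPlus (m + 3) F v - Cfsg.quadFormPlus (m + 3) F p = 0 →
            Cfsg.quadFormPlus (m + 3) F (v + r) - Cfsg.quadFormPlus (m + 3) F v - Cfsg.quadFormPlus (m + 3) F r = 0 →
              ((σ : Matrix.GeneralLinearGroup (Fin (m + 3) ⊕ Fin (m + 3)) F) : Matrix (Fin (m + 3) ⊕ Fin (m + 3)) (Fin (m + 3) ⊕ Fin (m + 3)) F) *ᵥ v = v}})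
      {A : Subgroup ↥(Cfsg.isometryGroup F (Cfsg.quadFormPlus (m + 3) F)) | ∃ p r : Fin (m + 3) ⊕ Fin (m + 3) → F, LinearIndependent F ![p, r] ∧
          Cfsg.quadFormPlus (m + 3) F p = 0 ∧ Cfsg.quadFormPlus (m + 3) F r = 0 ∧
          Cfsg.quadFormPlus (m + 3) F (p + r) = 0 ∧
          A = Subgroup.closure {σ : ↥(Cfsg.isometryGroup F (Cfsg.quadFormPlus (m + 3) F)) | ∀ v : Fin (m + 3) ⊕ Fin (m + 3) → F,
            Cfsg.quadFormPlus (m + 3) F (v + p) - Cfsg.quadFormPlus (m + 3) F v - Cfsg.quadFormPlus (m + 3) F p = 0 →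
            Cfsg.quadFormPlus (m + 3) F (v + r) - Cfsg.quadFormPlus (m + 3) F v - Cfsg.quadFormPlus (m + 3) F r = 0 →
              ((σ : Matrix.GeneralLinearGroup (Fin (m + 3) ⊕ Fin (m + 3)) F) : Matrix (Fin (m + 3) ⊕ Fin (m + 3)) (Fin (m + 3) ⊕ Fin (m + 3)) F) *ᵥ v = v}} := by
  set S := {A : Subgroup ↥(Cfsg.isometryGroup F (Cfsg.quadFormPlus (m + 3) F)) | ∃ p r : Fin (m + 3) ⊕ Fin (m + 3) → F, LinearIndependent F ![p, r] ∧
          Cfsg.quadFormPlus (m + 3) F p = 0 ∧ Cfsg.quadFormPlus (m + 3) F r = 0 ∧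
          Cfsg.quadFormPlus (m + 3) F (p + r) = 0 ∧
          A = Subgroup.closure {σ : ↥(Cfsg.isometryGroup F (Cfsg.quadFormPlus (m + 3) F)) | ∀ v : Fin (m + 3) ⊕ Fin (m + 3) → F,
            Cfsg.quadFormPlus (m + 3) F (v + p) - Cfsg.quadFormPlus (m + 3) F v - Cfsg.quadFormPlus (m + 3) F p = 0 →
            Cfsg.quadFormPlus (m + 3) F (v + r) - Cfsg.quadFormPlus (m + 3) F v - Cfsg.quadFormPlus (m + 3) F r = 0 →
              ((σ : Matrix.GeneralLinearGroup (Fin (m + 3) ⊕ Fin (m + 3)) F) : Matrix (Fin (m + 3) ⊕ Fin (m + 3)) (Fin (m + 3) ⊕ Fin (m + 3)) F) *ᵥ v = v}}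
  have li : ∀ {p r : Fin (m + 3) ⊕ Fin (m + 3) → F}, LinearIndependent F ![p, r] ↔ p ≠ 0 ∧ ∀ c : F, r ≠ c • p :=
    fun {p r} => by
      constructor
      · intro h
        have h0 : p ≠ 0 := h.ne_zero 0
        exact ⟨h0, fun c e => (LinearIndependent.pair_iff' h0).1 h c e.symm⟩
      · rintro ⟨h0, h⟩
        exact (LinearIndependent.pair_iff' h0).2 fun c e => h c e.symm
  have hmem : ∀ A, A ∈ S → ∃ (p r : Fin (m + 3) ⊕ Fin (m + 3) → F) (h : CfsgLib.FillTv.Siegel.SPair p r),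
      p ≠ 0 ∧ (∀ c : F, r ≠ c • p) ∧ A = CfsgLib.FillTv.Siegel.T h := by
    rintro A ⟨p, r, hli, hp, hr, hpr, rfl⟩
    have h : CfsgLib.FillTv.Siegel.SPair p r := ⟨hp, hr, by
      rw [← CfsgLib.FillTv.Siegel.polar_eq, hpr, hp, hr]; ring⟩
    exact ⟨p, r, h, (li.1 hli).1, (li.1 hli).2,
      CfsgLib.FillTv.Siegel.closure_eq_T h (li.1 hli).1 (li.1 hli).2⟩
  have hS : ∀ {p r : Fin (m + 3) ⊕ Fin (m + 3) → F} (h : CfsgLib.FillTv.Siegel.SPair p r), p ≠ 0 →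
      (∀ c : F, r ≠ c • p) → CfsgLib.FillTv.Siegel.T h ∈ S := fun {p r} h h0 hd =>
    ⟨p, r, li.2 ⟨h0, hd⟩, h.qp, h.qr, by rw [CfsgLib.FillTv.Siegel.qf_add, h.qp, h.qr, h.pr]; ring,
      (CfsgLib.FillTv.Siegel.closure_eq_T h h0 hd).symm⟩
  refine ⟨CfsgLib.FillTv.kRoot_inside ?_ ?_ ?_ ?_, ?_⟩
  · intro A hA
    obtain ⟨p, r, h, -, -, rfl⟩ := hmem A hA
    exact CfsgLib.FillTv.Siegel.T_comm h
  · intro A hA
    obtain ⟨p, r, h, h0, hd, rfl⟩ := hmem A hA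
    exact CfsgLib.FillTv.Siegel.T_ne_bot h h0 hd
  · intro A hA g
    obtain ⟨p, r, h, h0, hd, rfl⟩ := hmem A hA
    rw [CfsgLib.FillTv.Siegel.T_conj h g]
    refine hS _ (fun e => h0 ?_) (fun c e => hd c ?_)
    · rw [← CfsgLib.FillTv.Siegel.inv_mulVec' g p, e, Matrix.mulVec_zero]
    · rw [← CfsgLib.FillTv.Siegel.inv_mulVec' g r, e, Matrix.mulVec_smul, CfsgLib.FillTv.Siegel.inv_mulVec']
  · intro A hA B hB
    obtain ⟨p, r, h, -, -, rfl⟩ := hmem A hA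
    obtain ⟨p', r', h', -, -, rfl⟩ := hmem B hB
    exact CfsgLib.FillTv.Siegel.T_pair hS h h'
  · intro A hA B hB
    obtain ⟨p, r, h, h0, hd, rfl⟩ := hmem A hA
    obtain ⟨p', r', h', h0', hd', rfl⟩ := hmem B hB
    refine Relation.ReflTransGen.mono ?_ _ _ (CfsgLib.FillTv.Siegel.connected (by omega) hS h h' h0 hd h0' hd')
    rintro X Y (⟨hX, hY, e⟩ | ⟨hX, hY, e⟩)
    · exact ⟨hX, hY, CfsgLib.FillTv.isRankOnePair_of_psl2 e⟩
    · exact ⟨hX, hY, Cfsg.RankOnePair_symm (CfsgLib.FillTv.isRankOnePair_of_psl2 e)⟩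

end Cfsg.Agent.S5072
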