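import Cfsg.Statements.S5073
import Cfsg.Agent.QuadPair.Pairs

set_option autoImplicit false
universe u
open Cfsg

namespace Cfsg.Agent.S5073

/-- Let k be a field of characteristic not 2 with k not of order 3, M a finite-dimensional k-vector space and G ≤ GL(M) such that (G, M) is a quadratic pair (M irreducible for G, and G generated by its quadratically acting elements σ whose scalar family 1 + c(σ − 1), c ∈ k, lies in G). Write 𝒬_d for the quadratic elements of G of minimal commutator rank, E(σ) for the subgroup generated by the members of 𝒬_d with the same fixed space and commutator space as σ, and Σ for the set of these subgroups. Let E, F ∈ Σ. If some non-identity element of E commutes with some non-identity element of F, or some non-identity element of E normalizes F, then E and F commute elementwise. -/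
theorem result {k : Type u} [Field k] (hk2 : ringChar k ≠ 2) (hk3 : Nat.card k ≠ 3)
    {M : Type u} [AddCommGroup M] [Module k M] [FiniteDimensional k M]
    {G : Subgroup (LinearMap.GeneralLinearGroup k M)} (hG : Cfsg.IsQuadraticPair G)
    {E F : Subgroup (LinearMap.GeneralLinearGroup k M)} (hE : E ∈ Cfsg.quadraticRootSubgroups G) (hF : F ∈ Cfsg.quadraticRootSubgroups G)
    (h : (∃ e ∈ E, e ≠ 1 ∧ ∃ f ∈ F, f ≠ 1 ∧ e * f = f * e) ∨ E ⊓ Subgroup.normalizer (F : Set (LinearMap.GeneralLinearGroup k M)) ≠ ⊥) :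
    ⁅E, F⁆ = ⊥ := by
  obtain ⟨a, ha, rfl⟩ := CfsgLib.QuadPair.mem_roots_iff.1 hE
  obtain ⟨b, hb, rfl⟩ := CfsgLib.QuadPair.mem_roots_iff.1 hF
  have h2 : (2 : k) ≠ 0 := Ring.two_ne_zero hk2
  rcases h with ⟨e, he, hne, f, hf, hnf, hef⟩ | h
  · have he' := (CfsgLib.QuadPair.mem_Ecl ha.mem.1).1 he
    have hf' := (CfsgLib.QuadPair.mem_Ecl hb.mem.1).1 hf
    have he0 : CfsgLib.QuadPair.dl e ≠ 0 := fun h => hne (CfsgLib.QuadPair.dl_eq_zero.1 h)
    have hf0 : CfsgLib.QuadPair.dl f ≠ 0 := fun h => hnf (CfsgLib.QuadPair.dl_eq_zero.1 h)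
    have := CfsgLib.QuadPair.commutator_eq_bot_of_comm h2 hk3 (CfsgLib.QuadPair.isMin_of_mem_cls ha he' he0).1
      (CfsgLib.QuadPair.isMin_of_mem_cls hb hf' hf0).1 (CfsgLib.QuadPair.mul_comm_dl hef)
    rwa [CfsgLib.QuadPair.Ecl_eq_of_mem ha he' he0, CfsgLib.QuadPair.Ecl_eq_of_mem hb hf' hf0] at this
  · obtain ⟨e, ⟨he, hn⟩, hne⟩ := (Subgroup.bot_or_exists_ne_one _).resolve_left h
    have he' := (CfsgLib.QuadPair.mem_Ecl ha.mem.1).1 he
    have he0 : CfsgLib.QuadPair.dl e ≠ 0 := fun h => hne (CfsgLib.QuadPair.dl_eq_zero.1 h)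
    have hm := (Subgroup.mem_normalizer_iff.1 hn (CfsgLib.QuadPair.one_add b hb.mem.1)).1
      (CfsgLib.QuadPair.one_add_mem_Ecl hb.mem.1 (CfsgLib.QuadPair.self_mem_cls hb))
    rw [CfsgLib.QuadPair.mem_Ecl hb.mem.1, CfsgLib.QuadPair.dl_conj, CfsgLib.QuadPair.dl_one_add,
      CfsgLib.QuadPair.val_eq e, CfsgLib.QuadPair.val_eq e⁻¹, CfsgLib.QuadPair.dl_inv_of_sq he'.1.1] at hm
    have := CfsgLib.QuadPair.commutator_eq_bot_of_conj h2 hk3
      (CfsgLib.QuadPair.isMin_of_mem_cls ha he' he0).1 hb (by convert hm using 1; noncomm_ring)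
    rwa [CfsgLib.QuadPair.Ecl_eq_of_mem ha he' he0] at this

end Cfsg.Agent.S5073
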