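import Cfsg.Statements.S5084
import Cfsg.Agent.Fusion.Control
import Cfsg.Agent.Fusion.NormalCriteria

set_option autoImplicit false
open Cfsg

namespace Cfsg.Agent.S5084

/-- In a saturated fusion system over a finite p-group S, a subgroup Q is central in the system if and only if Q ≤ S and no element of Q is conjugate in the system to any element other than itself. -/
theorem result {Ω : Type*} [Group Ω] {S : Subgroup Ω} [Finite S] (p : ℕ) [Fact p.Prime] (hS : IsPGroup p S) (F : Cfsg.FusionSystem S) (hF : F.IsSaturated p) (Q : Subgroup Ω) : F.IsCentral Q ↔ (Q ≤ S ∧ ∀ x ∈ Q, ∀ y : Ω, F.IsConjElt x y → y = x) := by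
  constructor
  · intro h
    refine ⟨h.1, fun x hx y hy => ?_⟩
    obtain ⟨φ, hφ, rfl⟩ := hy
    exact CfsgLib.Fusion.apply_of_isCentral h hφ ⟨x, Subgroup.mem_zpowers x⟩ hx
  · rintro ⟨hQS, h⟩
    have hfix : ∀ {P : Subgroup Ω} {φ : P →* Ω}, φ ∈ F.Hom P → ∀ x : P, (x : Ω) ∈ Q → φ x = x :=
      fun hφ x hx => h x hx _ ⟨_, CfsgLib.Fusion.restrict hφ (Subgroup.zpowers_le.2 x.2), rfl⟩
    have hsc : F.StronglyClosed Q := ⟨hQS, fun R hR φ hφ x => by rw [hfix hφ x (hR x.2)]; exact hR x.2⟩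
    have hZ : S ≤ Subgroup.centralizer (Q : Set Ω) := fun s hs => Subgroup.mem_centralizer_iff.2 fun q hq => by
      have := hfix (F.conj_mem (P := Q) hQS hs) ⟨q, hq⟩ hq
      change s * q * s⁻¹ = q at this
      exact (mul_inv_eq_iff_eq_mul.1 this).symm
    have hab : IsMulCommutative Q := ⟨⟨fun a b => Subtype.ext
      (Subgroup.mem_centralizer_iff.1 (hZ (hQS b.2)) a a.2)⟩⟩
    have hn := CfsgLib.Fusion.isNormal_of_abelian hS hF hsc hab
    refine ⟨hQS, fun P φ hφ => ?_⟩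
    obtain ⟨ψ, hψ, hag, -⟩ := CfsgLib.Fusion.extendsOver_of_isNormal hn hφ
    exact ⟨ψ, hψ, hag, fun x => hfix hψ _ x.2⟩

end Cfsg.Agent.S5084
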