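import Cfsg.Statements.S5085
import Cfsg.Agent.Fusion.Basic

set_option autoImplicit false
open Cfsg

namespace Cfsg.Agent.S5085

/-- In any fusion system, a characteristic subgroup of a subgroup that is normal in the system is itself normal in the system. -/
theorem result {Ω : Type*} [Group Ω] {S : Subgroup Ω} (F : Cfsg.FusionSystem S) (Q U : Subgroup Ω) (hQ : F.IsNormal Q) (hUQ : U ≤ Q) (hU : (U.subgroupOf Q).Characteristic) : F.IsNormal U := by
  refine ⟨hUQ.trans hQ.1, fun P φ hφ => ?_⟩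
  obtain ⟨ψ, hψ, hag, hQQ⟩ := hQ.2 P φ hφ
  have hle : P ⊔ U ≤ P ⊔ Q := sup_le_sup_left hUQ P
  refine ⟨ψ.comp (Subgroup.inclusion hle), CfsgLib.Fusion.restrict hψ hle, fun x => hag x, ?_⟩
  have hmem : ∀ q : Q, ψ ⟨q, Subgroup.mem_sup_right q.2⟩ ∈ Q := fun q =>
    hQQ.le ⟨⟨q, Subgroup.mem_sup_right q.2⟩, q.2, rfl⟩
  have hψr : (ψ.comp (Subgroup.inclusion (le_sup_right : Q ≤ P ⊔ Q))).range = Q := by
    rw [CfsgLib.Fusion.range_restrict, hQQ]
  let α : MulAut Q := CfsgLib.Fusion.isoOfHom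
    ((F.injective_of_mem hψ).comp (Subgroup.inclusion_injective _)) hψr
  have hfix := (Subgroup.characteristic_iff_map_eq.1 hU) α
  ext y
  constructor
  · rintro ⟨x, hx, rfl⟩
    have : α ⟨x, hUQ hx⟩ ∈ (U.subgroupOf Q).map α.toMonoidHom := ⟨_, hx, rfl⟩
    rw [hfix] at this
    exact this
  · intro hy
    have : (⟨y, hUQ hy⟩ : Q) ∈ (U.subgroupOf Q).map α.toMonoidHom := by rw [hfix]; exact hy
    obtain ⟨u, hu, hu'⟩ := this
    exact ⟨⟨u, Subgroup.mem_sup_right hu⟩, hu, (Subtype.ext_iff.1 hu' :)⟩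

end Cfsg.Agent.S5085
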