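import Cfsg.Statements.S5087
import Cfsg.Agent.Fusion.NormalCriteria

set_option autoImplicit false
open Cfsg

namespace Cfsg.Agent.S5087

/-- In a saturated fusion system over a finite p-group S, a subgroup Q is normal in the system if and only if every subgroup P that equals S or is essential contains Q and every element of Aut_F(P) maps Q onto itself. -/
theorem result {Ω : Type*} [Group Ω] {S : Subgroup Ω} [Finite S] (p : ℕ) [Fact p.Prime] (hS : IsPGroup p S) (F : Cfsg.FusionSystem S) (hF : F.IsSaturated p) (Q : Subgroup Ω) : F.IsNormal Q ↔ ∀ P : Subgroup Ω, (P = S ∨ F.IsEssential p P) → (Q ≤ P ∧ ∀ α ∈ F.autGroup P, (Q.subgroupOf P).map α.toMonoidHom = Q.subgroupOf P) := by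
  constructor
  · intro h P hP
    have hsc := CfsgLib.Fusion.stronglyClosed_of_isNormal h
    have hcr : F.IsCentric P ∧ F.IsRadical p P := by
      rcases hP with rfl | hP
      · exact ⟨CfsgLib.Fusion.isCentric_self F, CfsgLib.Fusion.isRadical_self hS hF⟩
      · exact ⟨hP.1, Cfsg.Agent.S5080.result p hS F hF P hP⟩
    have hQP := CfsgLib.Fusion.normal_le_radical hS h hcr.1 hcr.2
    haveI := CfsgLib.Fusion.finite_of_le hcr.1.1
    refine ⟨hQP, fun α hα => Subgroup.eq_of_le_of_card_ge ?_ (le_of_eq ?_)⟩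
    · rintro _ ⟨x, hx, rfl⟩
      exact CfsgLib.Fusion.stronglyClosed_mapsTo hsc ((CfsgLib.Fusion.mem_autGroup hcr.1.1).1 hα) x hx
    · exact (Subgroup.card_map_of_injective α.injective).symm
  · intro h
    obtain ⟨hQS, hS'⟩ := h S (Or.inl rfl)
    have hn : S ≤ Subgroup.normalizer (Q : Set Ω) := by
      have key : ∀ s ∈ S, ∀ x ∈ Q, s * x * s⁻¹ ∈ Q := fun s hs x hx => by
        have hc := CfsgLib.Fusion.autInducedBy_le_autGroup (F := F) le_rfl
          (CfsgLib.Fusion.conjAut_mem (P := S) ⟨s, hs, Subgroup.le_normalizer hs⟩)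
        exact (hS' _ hc).le ⟨⟨x, hQS hx⟩, hx, rfl⟩
      refine fun s hs => Subgroup.mem_normalizer_iff.2 fun x => ⟨key s hs x, fun hx => ?_⟩
      simpa [mul_assoc] using key s⁻¹ (S.inv_mem hs) _ hx
    refine CfsgLib.Fusion.isNormal_of_le_normalSystem (hQ := hQS) (hn := hn)
      (CfsgLib.Fusion.le_of_essential hS hF _ fun P hP α hα => Subgroup.subset_closure ?_)
    obtain ⟨hQP, hα'⟩ := h P hP
    have hPS : P ≤ S := by
      rcases hP with rfl | hP
      · exact le_rfl
      · exact hP.1.1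
    have hm := (CfsgLib.Fusion.mem_autGroup hPS).1 hα
    exact ⟨hm, (P.subtype.comp α.toMonoidHom).comp (Subgroup.inclusion (sup_le le_rfl hQP)),
      CfsgLib.Fusion.restrict_of_eq hm (sup_le le_rfl hQP) fun x => rfl, fun x => rfl,
      fun q hq => (hα' α hα).le ⟨⟨q, hQP hq⟩, hq, rfl⟩⟩

end Cfsg.Agent.S5087
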