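import Cfsg.Statements.S5088
import Cfsg.Agent.Fusion.NormalCriteria

set_option autoImplicit false
open Cfsg

namespace Cfsg.Agent.S5088

/-- In a saturated fusion system over a finite p-group, a subgroup Q is normal in the system if and only if there is a chain of subgroups 1 = Q₀ ≤ Q₁ ≤ ⋯ ≤ Qₙ = Q such that each Qᵢ with i ≥ 1 is strongly closed in the system and [Q, Qᵢ] ≤ Qᵢ₋₁. -/
theorem result {Ω : Type*} [Group Ω] {S : Subgroup Ω} [Finite S] (p : ℕ) [Fact p.Prime] (hS : IsPGroup p S) (F : Cfsg.FusionSystem S) (hF : F.IsSaturated p) (Q : Subgroup Ω) : F.IsNormal Q ↔ ∃ (n : ℕ) (Qs : Fin (n + 1) → Subgroup Ω), Qs 0 = ⊥ ∧ Qs (Fin.last n) = Q ∧ Monotone Qs ∧ ∀ i : Fin n, F.StronglyClosed (Qs i.succ) ∧ ⁅Q, Qs i.succ⁆ ≤ Qs (Fin.castSucc i) := by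
  constructor
  · intro h
    haveI := CfsgLib.Fusion.finite_of_le h.1
    haveI : Group.IsNilpotent Q := (hS.to_le h.1).isNilpotent
    obtain ⟨n, hn⟩ := (Subgroup.isNilpotent_iff_lowerCentralSeries Q).1 ‹Group.IsNilpotent Q›
    refine ⟨n, fun i => Q.lowerCentralSeries (n - i.val), by simpa using hn, by simp,
      fun a b hab => Q.lowerCentralSeries_antitone (Nat.sub_le_sub_left hab n), fun i => ⟨?_, ?_⟩⟩
    · exact CfsgLib.Fusion.stronglyClosed_lowerCentralSeries h _
    · show ⁅Q, Q.lowerCentralSeries (n - i.succ.val)⁆ ≤ Q.lowerCentralSeries (n - (Fin.castSucc i).val)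
      rw [Subgroup.commutator_comm, Fin.val_succ, Fin.val_castSucc,
        show n - i.val = n - (i.val + 1) + 1 from by omega, Subgroup.lowerCentralSeries_succ]
  · rintro ⟨n, Qs, h0, hlast, hmono, h⟩
    have hle : ∀ i, Qs i ≤ Q := fun i => hlast ▸ hmono (Fin.le_last i)
    have hwc : ∀ i, F.WeaklyClosed (Qs i) := fun i => by
      obtain rfl | ⟨j, rfl⟩ := Fin.eq_zero_or_eq_succ i
      · rw [h0]; exact CfsgLib.Fusion.weaklyClosed_bot
      · exact CfsgLib.Fusion.weaklyClosed_of_stronglyClosed (h j).1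
    have hsc : F.StronglyClosed Q := by
      rcases Nat.eq_zero_or_pos n with rfl | hn
      · have : Q = ⊥ := by rw [← hlast, ← h0]; congr 1
        subst this
        refine ⟨bot_le, fun R hR φ _ x => ?_⟩
        have : x = 1 := Subtype.ext (Subgroup.mem_bot.1 (hR x.2))
        rw [this, map_one]
        exact one_mem _
      · have := (h ⟨n - 1, by omega⟩).1
        rwa [show Fin.succ (⟨n - 1, by omega⟩ : Fin n) = Fin.last n from Fin.ext (by simp; omega), hlast] at this
    refine CfsgLib.Fusion.isNormal_of_series hS hF hsc (fun i => Qs ⟨min i n, by omega⟩)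
      (fun a b hab => hmono (Fin.mk_le_mk.2 (min_le_min_right n hab))) ?_ (fun i => hle _) (fun i => ?_)
      (fun i => hwc _) n ?_
    · show Qs ⟨min 0 n, _⟩ = ⊥
      rw [← h0]
      exact congrArg Qs (Fin.ext (by simp))
    · show ⁅Qs ⟨min (i + 1) n, _⟩, Q⁆ ≤ Qs ⟨min i n, _⟩
      rcases Nat.lt_or_ge i n with hi | hi
      · have := (h ⟨i, hi⟩).2
        rw [Subgroup.commutator_comm] at this
        rw [show (⟨min (i + 1) n, by omega⟩ : Fin (n + 1)) = Fin.succ (⟨i, hi⟩ : Fin n) from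
          Fin.ext (Nat.min_eq_left hi), show (⟨min i n, by omega⟩ : Fin (n + 1)) = Fin.castSucc (⟨i, hi⟩ : Fin n) from
          Fin.ext (Nat.min_eq_left hi.le)]
        exact this
      · have e1 : (⟨min i n, by omega⟩ : Fin (n + 1)) = Fin.last n := Fin.ext (by simp; omega)
        rw [e1, hlast]
        exact (Subgroup.commutator_mono (hle _) le_rfl).trans (Subgroup.commutator_le_self Q)
    · show Qs ⟨min n n, _⟩ = Q
      rw [← hlast]
      exact congrArg Qs (Fin.ext (by simp))

end Cfsg.Agent.S5088
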