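import Cfsg.Statements.S5089
import Cfsg.Agent.Fusion.NormalCriteria

set_option autoImplicit false
open Cfsg

namespace Cfsg.Agent.S5089

/-- A saturated fusion system over a finite p-group has a nontrivial subgroup that is normal in the system (O_p(F) ≠ 1) if and only if some nontrivial abelian subgroup is strongly closed in the system. -/
theorem result {Ω : Type*} [Group Ω] {S : Subgroup Ω} [Finite S] (p : ℕ) [Fact p.Prime] (hS : IsPGroup p S) (F : Cfsg.FusionSystem S) (hF : F.IsSaturated p) : F.core ≠ ⊥ ↔ ∃ Q : Subgroup Ω, Q ≠ ⊥ ∧ IsMulCommutative Q ∧ F.StronglyClosed Q := by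
  constructor
  · intro h
    obtain ⟨Q, hQ, hne⟩ : ∃ Q, F.IsNormal Q ∧ Q ≠ ⊥ := by
      by_contra hc
      push Not at hc
      exact h (le_bot_iff.1 (sSup_le fun Q hQ => (hc Q hQ).le))
    haveI := CfsgLib.Fusion.finite_of_le hQ.1
    haveI : Nontrivial Q := (Subgroup.nontrivial_iff_ne_bot Q).2 hne
    refine ⟨(Subgroup.center Q).map Q.subtype, fun h0 => ?_, ⟨⟨?_⟩⟩, CfsgLib.Fusion.stronglyClosed_center hQ⟩
    · have := (hS.to_le hQ.1).center_nontrivial
      rw [Subgroup.map_eq_bot_iff_of_injective _ Q.subtype_injective] at h0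
      exact (Subgroup.nontrivial_iff_ne_bot _).1 this h0
    · rintro ⟨_, x, hx, rfl⟩ ⟨_, y, hy, rfl⟩
      exact Subtype.ext (congrArg Q.subtype (Subgroup.mem_center_iff.1 hy x))
  · rintro ⟨Q, hne, hab, hsc⟩ h0
    have hle : Q ≤ F.core := le_sSup (CfsgLib.Fusion.isNormal_of_abelian hS hF hsc hab)
    exact hne (le_bot_iff.1 (h0 ▸ hle))

end Cfsg.Agent.S5089
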