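import Cfsg.Statements.S5094
import Cfsg.Agent.ZStar.Closed
-- import your own Cfsg.Agent.* helpers here

set_option autoImplicit false
open Cfsg

namespace Cfsg.Agent.S5094

/-- Glauberman's Z*-Theorem in fusion language: for a finite group G with Sylow 2-subgroup S, the centre of the fusion system of G on S is the set of elements of S whose image in G/O(G) is central, O(G) being the largest normal subgroup of odd order. -/
theorem result {G : Type*} [Group G] [Finite G] (S : Sylow 2 G) : (Cfsg.groupFusionSystem (S : Subgroup G)).center = (S : Subgroup G) ⊓ (Subgroup.center (G ⧸ Cfsg.oddCore G)).comap (QuotientGroup.mk' (Cfsg.oddCore G)) := by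
  haveI := Fact.mk Nat.prime_two
  haveI : (Cfsg.oddCore G).Normal := Cfsg.pPrimeCore_normal 2 G
  refine le_antisymm (sSup_le ?_) (le_sSup ⟨inf_le_left, ?_⟩)
  · rintro Q ⟨hQS, hQ⟩ x hx
    have hclosed : CfsgLib.ZStar.ClosedElt S x := by
      refine ⟨hQS hx, fun j g hg => ?_⟩
      set y := x ^ j with hy
      have hyQ : y ∈ Q := Q.pow_mem hx j
      have hle : Subgroup.zpowers y ≤ (S : Subgroup G) := Subgroup.zpowers_le.2 (hQS hyQ)
      have hval : ∀ z : Subgroup.zpowers y, g * (z : G) * g⁻¹ ∈ (S : Subgroup G) := by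
        rintro ⟨_, i, rfl⟩
        show g * y ^ i * g⁻¹ ∈ (S : Subgroup G)
        rw [← conj_zpow]
        exact zpow_mem hg i
      let φ : Subgroup.zpowers y →* G := Cfsg.conjHom (Subgroup.zpowers y) g
      obtain ⟨ψ, -, hext, hfix⟩ := hQ (Subgroup.zpowers y) φ ⟨hle, hval, g, fun z => rfl⟩
      have h1 := hext ⟨y, Subgroup.mem_zpowers y⟩
      have h2 := hfix ⟨y, hyQ⟩
      exact h1.symm.trans h2
    exact ⟨hQS hx, CfsgLib.ZStar.closed_central hclosed⟩
  · rintro P φ ⟨hP, hφS, g, hg⟩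
    obtain ⟨h, h1, h2⟩ := CfsgLib.ZStar.exists_central_extension S P hP (g := g)
      (fun y hy => by rw [← hg ⟨y, hy⟩]; exact hφS ⟨y, hy⟩)
    set Z := (S : Subgroup G) ⊓ (Subgroup.center (G ⧸ Cfsg.oddCore G)).comap (QuotientGroup.mk' (Cfsg.oddCore G))
    have hmap : P ⊔ Z ≤ (S : Subgroup G).comap (MulAut.conj h).toMonoidHom := by
      refine sup_le (fun y hy => ?_) (fun y hy => ?_)
      · show h * y * h⁻¹ ∈ S
        rw [h1 y hy, ← hg ⟨y, hy⟩]
        exact hφS ⟨y, hy⟩
      · show h * y * h⁻¹ ∈ S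
        rw [h2 y hy]
        exact hy.1
    refine ⟨Cfsg.conjHom (P ⊔ Z) h, ⟨sup_le hP inf_le_left, fun z => hmap z.2, h, fun z => rfl⟩,
      fun x => ?_, fun x => ?_⟩
    · show h * (x : G) * h⁻¹ = φ x
      rw [h1 _ x.2, hg x]
    · exact h2 _ x.2

end Cfsg.Agent.S5094
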