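import Cfsg.Statements.S5102
import Cfsg.Agent.Fusion.Group

set_option autoImplicit false
open Cfsg

namespace Cfsg.Agent.S5102

/-- A normal p-subgroup of a finite group G is normal in the fusion system of G on a Sylow p-subgroup. -/
theorem result {G : Type*} [Group G] [Finite G] (p : ℕ) [Fact p.Prime] (S : Sylow p G) (R : Subgroup G) [R.Normal] (hR : IsPGroup p R) : (Cfsg.groupFusionSystem (S : Subgroup G)).IsNormal R := by
  have hRS : R ≤ (S : Subgroup G) := by
    obtain ⟨g, hg⟩ := CfsgLib.Fusion.exists_conj_le S hR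
    intro x hx
    have := hg ⟨g⁻¹ * x * g, by
      have := Subgroup.Normal.conj_mem ‹R.Normal› x hx g⁻¹
      simpa using this, rfl⟩
    simpa [mul_assoc] using this
  refine ⟨hRS, ?_⟩
  rintro P φ ⟨hP, hφS, g, hg⟩
  have hR' : R.map (MulAut.conj g).toMonoidHom = R := by
    ext y
    constructor
    · rintro ⟨x, hx, rfl⟩; exact Subgroup.Normal.conj_mem ‹R.Normal› x hx g
    · intro hy
      refine ⟨g⁻¹ * y * g, ?_, by simp [mul_assoc]⟩
      have := Subgroup.Normal.conj_mem ‹R.Normal› y hy g⁻¹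
      simpa using this
  refine ⟨Cfsg.conjHom (P ⊔ R) g, CfsgLib.Fusion.conjHom_mem_group (sup_le hP hRS) ?_,
    fun x => (hg x).symm, ?_⟩
  · rw [Subgroup.map_sup, hR']
    refine sup_le ?_ hRS
    rintro _ ⟨x, hx, rfl⟩
    have h := hφS ⟨x, hx⟩
    rw [hg] at h
    exact h
  · ext y
    constructor
    · rintro ⟨x, hx, rfl⟩
      exact hR'.le ⟨x, hx, rfl⟩
    · intro hy
      rw [← hR'] at hy
      obtain ⟨x, hx, rfl⟩ := hy
      exact ⟨⟨x, Subgroup.mem_sup_right hx⟩, hx, rfl⟩

end Cfsg.Agent.S5102
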