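import Cfsg.Statements.S5104
import Cfsg.Agent.Fusion.Saturated

set_option autoImplicit false
open Cfsg

namespace Cfsg.Agent.S5104

/-- In a saturated fusion system over a finite p-group S, a fully centralized subgroup U with C_S(U) ≤ U is centric. -/
theorem result {Ω : Type*} [Group Ω] {S : Subgroup Ω} [Finite S] (p : ℕ) [Fact p.Prime] (hS : IsPGroup p S) (F : Cfsg.FusionSystem S) (hF : F.IsSaturated p) (U : Subgroup Ω) (hU : F.IsFullyCentralized U) (hC : Cfsg.FusionSystem.centralizerIn S U ≤ U) : F.IsCentric U := by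
  refine ⟨hU.1, fun Q hQ => ?_⟩
  obtain ⟨φ, hφ, rfl⟩ := hQ
  haveI := CfsgLib.Fusion.finite_centralizerIn (S := S) φ.range
  haveI := CfsgLib.Fusion.finite_centralizerIn (S := S) U
  let c : Cfsg.FusionSystem.centralizerIn S U → Cfsg.FusionSystem.centralizerIn S φ.range :=
    fun g => ⟨φ ⟨g, hC g.2⟩,
      CfsgLib.Fusion.map_mem_centralizerIn hφ le_rfl (fun _ => rfl) (hC g.2) g.2.2⟩
  have hc : Function.Injective c := fun a b h =>
    Subtype.ext (Subtype.ext_iff.1 (F.injective_of_mem hφ (Subtype.ext_iff.1 h)) :)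
  have hs : Function.Surjective c :=
    ((Nat.bijective_iff_injective_and_card c).2 ⟨hc, le_antisymm
      (Nat.card_le_card_of_injective c hc) (hU.2 _ ⟨φ, hφ, rfl⟩)⟩).2
  intro y hy
  obtain ⟨g, hg⟩ := hs ⟨y, hy⟩
  exact ⟨_, (Subtype.ext_iff.1 hg :)⟩

end Cfsg.Agent.S5104
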