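import Cfsg.Statements.S5107
import Cfsg.Agent.Fusion.SeriesNormal
import Cfsg.Agent.Fusion.Group
-- import your own Cfsg.Agent.* helpers here

set_option autoImplicit false
open Cfsg

namespace Cfsg.Agent.S5107

open CfsgLib.Fusion Cfsg.FusionSystem
open scoped commutatorElement

/-- If a Sylow p-subgroup S of a finite group G has nilpotency class at most two and its centre is strongly closed in S with respect to G, then every map of the fusion system of G on S is conjugation by an element of N_G(S), and S is the largest subgroup normal in that fusion system. -/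
theorem result {G : Type*} [Group G] [Finite G] (p : ℕ) [Fact p.Prime] (S : Sylow p G) (hcl : ⁅(S : Subgroup G), (S : Subgroup G)⁆ ≤ (S : Subgroup G) ⊓ Subgroup.centralizer ((S : Subgroup G) : Set G)) (hZ : Cfsg.IsStronglyClosed ((S : Subgroup G) ⊓ Subgroup.centralizer ((S : Subgroup G) : Set G)) (S : Subgroup G)) : (∀ (P : Subgroup G) (φ : P →* G), φ ∈ (Cfsg.groupFusionSystem (S : Subgroup G)).Hom P → ∃ g ∈ Subgroup.normalizer ((S : Subgroup G) : Set G), ∀ x : P, φ x = g * (x : G) * g⁻¹) ∧ (Cfsg.groupFusionSystem (S : Subgroup G)).core = S := by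
    set F := Cfsg.groupFusionSystem (S : Subgroup G)
    set Z := (S : Subgroup G) ⊓ Subgroup.centralizer ((S : Subgroup G) : Set G)
    have hF : F.IsSaturated p := isSaturated_group S
    have hSc : F.StronglyClosed (S : Subgroup G) := ⟨le_rfl, fun R _ φ hφ x => val_mem hφ x⟩
    have hZc : F.StronglyClosed Z := by
      refine ⟨inf_le_left, fun R hR φ hφ x => ?_⟩
      obtain ⟨-, hφS, g, hg⟩ := hφ
      rw [hg]
      exact hZ.2 x (hR x.2) g (hg x ▸ hφS x)
    have hN : F.IsNormal (S : Subgroup G) := by
      refine isNormal_of_series S.isPGroup' hF hSc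
        (fun i => if i = 0 then ⊥ else if i = 1 then Z else (S : Subgroup G)) ?_ (if_pos rfl) ?_ ?_ ?_ 2 rfl
      · refine monotone_nat_of_le_succ fun i => ?_
        rcases i with _ | _ | i
        · simp
        · simp [Z]
        · simp
      · intro i
        rcases i with _ | _ | i
        · simp
        · simp [Z]
        · simp
      · intro i
        rcases i with _ | _ | i
        · simp only [if_pos, Nat.zero_add, one_ne_zero, if_false]
          rw [le_bot_iff, Subgroup.commutator_eq_bot_iff_le_centralizer]
          exact inf_le_right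
        · simpa using hcl
        · simp only [Nat.add_eq_zero_iff, one_ne_zero, and_false, if_false, Nat.add_eq_right]
          simpa using Subgroup.commutator_le.2 fun a ha b hb =>
            (S : Subgroup G).mul_mem ((S : Subgroup G).mul_mem ((S : Subgroup G).mul_mem ha hb)
              ((S : Subgroup G).inv_mem ha)) ((S : Subgroup G).inv_mem hb)
      · intro i
        rcases i with _ | _ | i
        · simpa using weaklyClosed_bot
        · simpa using weaklyClosed_of_stronglyClosed hZc
        · simpa using weaklyClosed_of_stronglyClosed hSc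
    refine ⟨fun P φ hφ => ?_, le_antisymm (sSup_le fun Q hQ => hQ.1) (le_sSup hN)⟩
    obtain ⟨α, hα, h⟩ := exists_aut_of_isNormal hN (le_of_hom hφ) hφ
    rw [autGroup_group le_rfl, mem_autInducedBy] at hα
    obtain ⟨g, -, hg⟩ := hα
    exact ⟨g, mem_normalizer_of_conj hg, fun x => (h x).trans (hg _)⟩

end Cfsg.Agent.S5107
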