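import Cfsg.Statements.S5112
import Cfsg.Agent.Fusion.AlperinCor
import Mathlib.GroupTheory.SpecificGroups.Quaternion
import Mathlib.GroupTheory.SpecificGroups.Dihedral
-- import your own Cfsg.Agent.* helpers here

set_option autoImplicit false
open Cfsg

namespace Cfsg.Agent.S5112

open CfsgLib.Fusion in
theorem eq_one_of_odd {S : Type*} [Group S] [Finite S] (c : S) (j : ℕ) (hj : orderOf c = 2 ^ j)
    (hC : ∀ x, orderOf x = orderOf c → x ∈ Subgroup.zpowers c)
    (hidx : ∀ x y, x ∉ Subgroup.zpowers c → y ∉ Subgroup.zpowers c → x⁻¹ * y ∈ Subgroup.zpowers c)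
    (α : MulAut S) (hα : Odd (orderOf α)) : α = 1 := by
  set N := orderOf α with hN
  have hcop : Nat.Coprime (2 ^ j) N := (Nat.Coprime.pow_left j hα.coprime_two_left)
  obtain ⟨k, hk⟩ := mem_powers_iff_mem_zpowers.2 (hC (α c) (MulEquiv.orderOf_eq α c))
  have hkc : α c = c ^ k := hk.symm
  have hpow : ∀ n : ℕ, (α ^ n) c = c ^ (k ^ n) := by
    intro n
    induction n with
    | zero => simp
    | succ n ih => rw [pow_succ', MulAut.mul_apply, ih, map_pow, hkc, ← pow_mul, ← pow_succ']
  have h1 := hpow N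
  rw [pow_orderOf_eq_one, MulAut.one_apply] at h1
  have hc1 : c ^ k = c := by
    have h2 : ((k : ZMod (2 ^ j))) ^ N = 1 := by
      have h3 : k ^ N ≡ 1 [MOD 2 ^ j] := by
        rw [← hj]; exact pow_eq_pow_iff_modEq.1 (by rw [pow_one]; exact h1.symm)
      have h4 := (ZMod.natCast_eq_natCast_iff _ _ _).2 h3
      push_cast at h4
      exact h4
    haveI : NeZero (2 ^ j) := ⟨pow_ne_zero _ two_ne_zero⟩
    set u : (ZMod (2 ^ j))ˣ := Units.ofPowEqOne _ N h2 hα.pos.ne' with hu
    have h5 : u ^ N = 1 := Units.ext h2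
    have h6 : orderOf u ∣ 2 ^ j := by
      refine (orderOf_dvd_card).trans ?_
      rw [ZMod.card_units_eq_totient]
      rcases Nat.eq_zero_or_pos j with rfl | hj0
      · simp
      · rw [Nat.totient_prime_pow Nat.prime_two hj0]
        simpa using pow_dvd_pow 2 (Nat.sub_le j 1)
    have h7 : u = 1 := orderOf_eq_one_iff.1
      (Nat.eq_one_of_dvd_coprimes hcop h6 (orderOf_dvd_of_pow_eq_one h5))
    have h8 : (k : ZMod (2 ^ j)) = ((1 : ℕ) : ZMod (2 ^ j)) := by
      have := congrArg Units.val h7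
      simpa [hu] using this
    have h9 := (ZMod.natCast_eq_natCast_iff _ _ _).1 h8
    rw [← hj] at h9
    simpa using pow_eq_pow_iff_modEq.2 h9
  have hfix : ∀ x ∈ Subgroup.zpowers c, α x = x := by
    rintro _ ⟨i, rfl⟩
    simp only [map_zpow, hkc, hc1]
  ext x
  by_cases hx : x ∈ Subgroup.zpowers c
  · exact hfix x hx
  have hαx : α x ∉ Subgroup.zpowers c := fun h => hx (α.injective (hfix _ h) ▸ h)
  set d := x⁻¹ * α x with hd'
  have hd : d ∈ Subgroup.zpowers c := hidx x (α x) hx hαx
  have hxd : α x = x * d := by rw [hd', mul_inv_cancel_left]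
  have hn : ∀ n : ℕ, (α ^ n) x = x * d ^ n := by
    intro n
    induction n with
    | zero => simp
    | succ n ih => rw [pow_succ', MulAut.mul_apply, ih, map_mul, map_pow, hfix d hd, hxd, mul_assoc, ← pow_succ']
  have h10 := hn N
  rw [pow_orderOf_eq_one, MulAut.one_apply, left_eq_mul] at h10
  have h11 : d = 1 := orderOf_eq_one_iff.1
    (Nat.eq_one_of_dvd_coprimes hcop (hj ▸ orderOf_dvd_of_mem_zpowers hd) (orderOf_dvd_of_pow_eq_one h10))
  rw [hxd, h11, mul_one]
  rfl

theorem exists_cyclic_char {S : Type*} [Group S] (n : ℕ) (hn : 4 ≤ n)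
    (hshape : Nonempty (S ≃* DihedralGroup (2 ^ (n - 1))) ∨ Nonempty (S ≃* QuaternionGroup (2 ^ (n - 2)))) :
    ∃ (c : S) (j : ℕ), orderOf c = 2 ^ j ∧ (∀ x, orderOf x = orderOf c → x ∈ Subgroup.zpowers c) ∧
      ∀ x y, x ∉ Subgroup.zpowers c → y ∉ Subgroup.zpowers c → x⁻¹ * y ∈ Subgroup.zpowers c := by
  have h8 : 8 ≤ 2 ^ (n - 1) := by
    calc 8 = 2 ^ 3 := by norm_num
      _ ≤ _ := Nat.pow_le_pow_right (by norm_num) (by omega)
  rcases hshape with he₀ | he₀ <;> obtain ⟨e⟩ := id he₀
  · haveI : NeZero (2 ^ (n - 1)) := ⟨pow_ne_zero _ two_ne_zero⟩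
    have hin : ∀ (x : S) i, e x = DihedralGroup.r i → x ∈ Subgroup.zpowers (e.symm (DihedralGroup.r 1)) := by
      intro x i h
      refine ⟨(i.val : ℤ), e.injective ?_⟩
      show e ((e.symm (DihedralGroup.r 1)) ^ ((i.val : ℤ))) = e x
      rw [zpow_natCast, map_pow, MulEquiv.apply_symm_apply, DihedralGroup.r_one_pow, ZMod.natCast_zmod_val, h]
    have ho : orderOf (e.symm (DihedralGroup.r (1 : ZMod (2 ^ (n - 1))))) = 2 ^ (n - 1) := by
      rw [MulEquiv.orderOf_eq, DihedralGroup.orderOf_r_one]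
    refine ⟨_, n - 1, ho, fun x hx => ?_, fun x y hx hy => ?_⟩
    · rcases hex : e x with i | i
      · exact hin x i hex
      · have : orderOf (e x) = 2 := by rw [hex, DihedralGroup.orderOf_sr]
        rw [MulEquiv.orderOf_eq, hx, ho] at this
        omega
    · rcases hex : e x with i | i
      · exact absurd (hin x i hex) hx
      rcases hey : e y with k | k
      · exact absurd (hin y k hey) hy
      exact hin _ (k - i) (by rw [map_mul, map_inv, hex, hey, DihedralGroup.inv_sr, DihedralGroup.sr_mul_sr])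
  · haveI : NeZero (2 ^ (n - 2)) := ⟨pow_ne_zero _ two_ne_zero⟩
    have hin : ∀ (x : S) i, e x = QuaternionGroup.a i → x ∈ Subgroup.zpowers (e.symm (QuaternionGroup.a 1)) := by
      intro x i h
      refine ⟨(i.val : ℤ), e.injective ?_⟩
      show e ((e.symm (QuaternionGroup.a 1)) ^ ((i.val : ℤ))) = e x
      rw [zpow_natCast, map_pow, MulEquiv.apply_symm_apply, QuaternionGroup.a_one_pow, ZMod.natCast_zmod_val, h]
    have ho : orderOf (e.symm (QuaternionGroup.a (1 : ZMod (2 * 2 ^ (n - 2))))) = 2 ^ (n - 1) := by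
      rw [MulEquiv.orderOf_eq, QuaternionGroup.orderOf_a_one, ← pow_succ']
      congr 1; omega
    refine ⟨_, n - 1, ho, fun x hx => ?_, fun x y hx hy => ?_⟩
    · rcases hex : e x with i | i
      · exact hin x i hex
      · have : orderOf (e x) = 4 := by rw [hex, QuaternionGroup.orderOf_xa]
        rw [MulEquiv.orderOf_eq, hx, ho] at this
        omega
    · rcases hex : e x with i | i
      · exact absurd (hin x i hex) hx
      rcases hey : e y with k | k
      · exact absurd (hin y k hey) hy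
      have h : e (x⁻¹ * y) = (QuaternionGroup.xa i)⁻¹ * QuaternionGroup.xa k := by
        rw [map_mul, map_inv, hex, hey]
      exact hin _ _ (h.trans (QuaternionGroup.xa_mul_xa _ _))

/-- If S is a dihedral or generalized quaternion 2-group of order at least 16, then in every saturated fusion system over S (at the prime 2) the automorphism group Aut_F(S) consists of the inner automorphisms of S. -/
theorem result {Ω : Type*} [Group Ω] {S : Subgroup Ω} [Finite S] (n : ℕ) (hn : 4 ≤ n) (hshape : Nonempty (S ≃* DihedralGroup (2 ^ (n - 1))) ∨ Nonempty (S ≃* QuaternionGroup (2 ^ (n - 2)))) (F : Cfsg.FusionSystem S) (hF : F.IsSaturated 2) : F.autGroup S = Cfsg.Inn S := by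
    have hp : IsPGroup 2 S := by
      rcases hshape with he₀ | he₀ <;> obtain ⟨e⟩ := id he₀
      · haveI : NeZero (2 ^ (n - 1)) := ⟨pow_ne_zero _ two_ne_zero⟩
        refine (IsPGroup.of_card (n := n) ?_).of_equiv e.symm
        rw [DihedralGroup.nat_card, ← pow_succ']
        congr 1; omega
      · haveI : NeZero (2 ^ (n - 2)) := ⟨pow_ne_zero _ two_ne_zero⟩
        refine (IsPGroup.of_card (n := n) ?_).of_equiv e.symm
        rw [Nat.card_eq_fintype_card, QuaternionGroup.card, show (4 : ℕ) = 2 ^ 2 by norm_num, ← pow_add]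
        congr 1; omega
    haveI : Fact (Nat.Prime 2) := ⟨Nat.prime_two⟩
    haveI := CfsgLib.Fusion.finite_mulAut (S := S) (le_refl S)
    obtain ⟨c, j, hj, hC, hidx⟩ := exists_cyclic_char n hn hshape
    have haut : IsPGroup 2 (F.autGroup S) := by
      intro γ
      obtain ⟨a, m, hm, he⟩ := Nat.exists_eq_pow_mul_and_not_dvd (orderOf_pos γ).ne' 2 (by norm_num)
      refine ⟨a, Subtype.ext ?_⟩
      refine eq_one_of_odd c j hj hC hidx _ ?_
      have h1 : orderOf ((γ ^ 2 ^ a : F.autGroup S) : MulAut S) = m := by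
        rw [Subgroup.orderOf_coe, orderOf_pow' γ (pow_ne_zero a two_ne_zero), he,
          Nat.gcd_eq_right (Dvd.intro m rfl), Nat.mul_div_cancel_left _ (by positivity)]
      rw [h1]
      exact Nat.odd_iff.2 (by omega)
    obtain ⟨-, R, hR⟩ := CfsgLib.Fusion.fullyAutomized_of_fullyNormalized hp hF (CfsgLib.Fusion.isFullyNormalized_self F)
    have htop : (R : Subgroup (F.autGroup S)) = ⊤ := (R.3 (haut.of_equiv Subgroup.topEquiv.symm) le_top).symm
    rw [hR, Subgroup.subgroupOf_eq_top, CfsgLib.Fusion.autInducedBy_self] at htop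
    exact le_antisymm htop (CfsgLib.Fusion.inn_le_autGroup le_rfl)

end Cfsg.Agent.S5112
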