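import Cfsg.Statements.S5122
import Cfsg.Agent.Fusion.Group

set_option autoImplicit false
open Cfsg

namespace Cfsg.Agent.S5122

/-- Let G be a finite group with Sylow p-subgroup S. Every subgroup P of S has a G-conjugate Q ≤ S such that N_S(Q) is a Sylow p-subgroup of N_G(Q); and for any Q ≤ S with that property, C_S(Q) is a Sylow p-subgroup of C_G(Q) and the automorphisms of Q induced by N_S(Q) form a Sylow p-subgroup of those induced by N_G(Q). -/
theorem result {G : Type*} [Group G] [Finite G] (p : ℕ) [Fact p.Prime] (S : Sylow p G) : (∀ P : Subgroup G, P ≤ S → ∃ g : G, P.map (MulAut.conj g).toMonoidHom ≤ S ∧ (∃ R : Sylow p ↥(Subgroup.normalizer ((P.map (MulAut.conj g).toMonoidHom : Subgroup G) : Set G)), (R : Subgroup ↥(Subgroup.normalizer ((P.map (MulAut.conj g).toMonoidHom : Subgroup G) : Set G))) = (Cfsg.FusionSystem.normalizerIn (S : Subgroup G) (P.map (MulAut.conj g).toMonoidHom)).subgroupOf (Subgroup.normalizer ((P.map (MulAut.conj g).toMonoidHom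 : Subgroup G) : Set G)))) ∧ ∀ Q : Subgroup G, Q ≤ S → (∃ R : Sylow p ↥(Subgroup.normalizer (Q : Set G)), (R : Subgroup ↥(Subgroup.normalizer (Q : Set G))) = (Cfsg.FusionSystem.normalizerIn (S : Subgroup G) Q).subgroupOf (Subgroup.normalizer (Q : Set G))) → (∃ R : Sylow p ↥(Subgroup.centralizer (Q : Set G)), (R : Subgroup ↥(Subgroup.centralizer (Q : Set G))) = (Cfsg.FusionSystem.centralizerIn (S : Subgroup G) Q).subgroupOf (Subgroup.centralizer (Q : Set G))) ∧ (∃ R : Sylow p ↥(Cfsg.autInducedBy ⊤ Q), (R : Subgroup ↥(Cfsg.autInducedBy ⊤ Q)) = (Cfsg.autInducedBy (S : Subgroup G) Q).subgroupOf (Cfsg.autInducedBy ⊤ Q)) := by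
  refine ⟨fun P hP => ?_, fun Q hQ hN => ?_⟩
  · obtain ⟨g, hg, hcard⟩ := CfsgLib.Fusion.exists_conj_normalizerIn S hP
    refine ⟨g, hg, (CfsgLib.Fusion.exists_sylow_subgroupOf_iff inf_le_right).2 ?_⟩
    simp only [CfsgLib.Fusion.pPartCard, CfsgLib.Fusion.card_conj_normalizer]
    exact hcard
  · have hN' := (CfsgLib.Fusion.exists_sylow_subgroupOf_iff inf_le_right).1 hN
    obtain ⟨h1, h2⟩ := CfsgLib.Fusion.sylow_of_normalizerIn S hQ hN'
    exact ⟨(CfsgLib.Fusion.exists_sylow_subgroupOf_iff inf_le_right).2 h1, h2⟩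

end Cfsg.Agent.S5122
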