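import Cfsg.Statements.S5123
import Cfsg.Agent.Fusion.Group

set_option autoImplicit false
open Cfsg

namespace Cfsg.Agent.S5123

/-- Let G be a finite group with Sylow p-subgroup S, P, Q ≤ S and g ∈ G with gPg⁻¹ = Q, and suppose N_S(Q) is a Sylow p-subgroup of N_G(Q). Let N be the set of x ∈ N_S(P) with gxg⁻¹ ∈ N_S(Q)C_G(Q). Then some h ∈ C_G(Q) satisfies (hg)N(hg)⁻¹ ≤ S. -/
theorem result {G : Type*} [Group G] [Finite G] (p : ℕ) [Fact p.Prime] (S : Sylow p G) (P Q : Subgroup G) (hP : P ≤ S) (hQ : Q ≤ S) (g : G) (hg : P.map (MulAut.conj g).toMonoidHom = Q) (hN : (∃ R : Sylow p ↥(Subgroup.normalizer (Q : Set G)), (R : Subgroup ↥(Subgroup.normalizer (Q : Set G))) = (Cfsg.FusionSystem.normalizerIn (S : Subgroup G) Q).subgroupOf (Subgroup.normalizer (Q : Set G)))) : ∃ h ∈ Subgroup.centralizer (Q : Set G), ((Cfsg.FusionSystem.normalizerIn (S : Subgroup G) P) ⊓ (Cfsg.FusionSystem.normalizerIn (S : Subgroup G) Q ⊔ Subgroup.centralizer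 (Q : Set G)).comap (MulAut.conj g).toMonoidHom).map (MulAut.conj (h * g)).toMonoidHom ≤ S := by
  have hN' := (CfsgLib.Fusion.exists_sylow_subgroupOf_iff inf_le_right).1 hN
  obtain ⟨h, hh, hle⟩ := CfsgLib.Fusion.exists_centralizer_conj_le S hQ hN'
    (X := ((Cfsg.FusionSystem.normalizerIn (S : Subgroup G) P) ⊓
      (Cfsg.FusionSystem.normalizerIn (S : Subgroup G) Q ⊔ Subgroup.centralizer (Q : Set G)).comap
        (MulAut.conj g).toMonoidHom).map (MulAut.conj g).toMonoidHom)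
    (((CfsgLib.Fusion.isPGroup_normalizerIn S P).to_le inf_le_left).map _)
    (by rintro _ ⟨x, hx, rfl⟩; exact hx.2)
  refine ⟨h, hh, ?_⟩
  rintro _ ⟨x, hx, rfl⟩
  exact hle ⟨_, ⟨x, hx, rfl⟩, by simp [mul_assoc]⟩

end Cfsg.Agent.S5123
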