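import Cfsg.Statements.S5128
import Cfsg.Agent.Fusion.FactorSat
import Cfsg.Agent.Fusion.SeriesNormal
-- import your own Cfsg.Agent.* helpers here

set_option autoImplicit false
open Cfsg

namespace Cfsg.Agent.S5128

open CfsgLib.Fusion Cfsg.FusionSystem

/-- In a saturated fusion system over a finite p-group S, the product of two strongly closed subgroups is strongly closed. -/
theorem result {Ω : Type*} [Group Ω] {S : Subgroup Ω} [Finite S] (p : ℕ) [Fact p.Prime] (hS : IsPGroup p S) (F : Cfsg.FusionSystem S) (hF : F.IsSaturated p) (T₁ T₂ : Subgroup Ω) (h₁ : F.StronglyClosed T₁) (h₂ : F.StronglyClosed T₂) : F.StronglyClosed (T₁ ⊔ T₂) := by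
    refine ⟨sup_le h₁.1 h₂.1, fun R hR φ hφ x => ?_⟩
    obtain ⟨D, ψ, hψ, hRD, hTD, hn⟩ := nearMap_of_mem hS hF h₁ (Nat.card S + 1) R φ hφ (by omega)
    have hN : T₂ ≤ Subgroup.normalizer (T₁ : Set Ω) :=
      h₂.1.trans (le_normalizer_of_weaklyClosed_fusion (weaklyClosed_of_stronglyClosed h₁))
    have hx : (x : Ω) ∈ ((T₁ ⊔ T₂ : Subgroup Ω) : Set Ω) := hR x.2
    rw [Subgroup.coe_mul_of_right_le_normalizer_left T₁ T₂ hN] at hx
    obtain ⟨t, ht, c, hc, e⟩ := hx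
    have hcD : c ∈ D := by
      rw [show c = t⁻¹ * (x : Ω) by rw [← e, inv_mul_cancel_left]]
      exact D.mul_mem (D.inv_mem (hTD ht)) (hRD x.2)
    have h1 : ψ (Subgroup.inclusion hRD x) ∈ T₁ ⊔ T₂ := by
      rw [show Subgroup.inclusion hRD x = (⟨t, hTD ht⟩ : D) * ⟨c, hcD⟩ from Subtype.ext e.symm, map_mul]
      exact Subgroup.mul_mem_sup (stronglyClosed_mapsTo h₁ hψ _ ht) (stronglyClosed_mapsTo h₂ hψ _ hc)
    have h2 := Subgroup.mul_mem _ h1 (Subgroup.inv_mem _ (Subgroup.mem_sup_left (T := T₂) (hn x)))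
    rwa [mul_inv_rev, inv_inv, mul_inv_cancel_left] at h2

end Cfsg.Agent.S5128
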