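import Cfsg.Statements.S5133
import Cfsg.Agent.Fusion.FactorSat

set_option autoImplicit false
open Cfsg

namespace Cfsg.Agent.S5133

/-- Let F be a saturated fusion system over a finite p-group S, F' a fusion system over S', and α : S → S' a surjective morphism of fusion systems from F to F' (α maps S onto S' and every map of F' with source P' ≤ S' is induced along α by a map of F on the full preimage of P'). Then F' is saturated. -/
theorem result {Ω : Type*} [Group Ω] {S : Subgroup Ω} [Finite S] (p : ℕ) [Fact p.Prime] (hS : IsPGroup p S) (F : Cfsg.FusionSystem S) (hF : F.IsSaturated p) {Ω' : Type*} [Group Ω'] {S' : Subgroup Ω'} (F' : Cfsg.FusionSystem S') (α : S →* Ω') (hα : F.IsSurjectiveMorphism F' α) : F'.IsSaturated p := by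
  obtain ⟨⟨hmem, hmor⟩, hrange, hsurj⟩ := hα
  set Q : Subgroup Ω := α.ker.map S.subtype with hQdef
  have hker : ∀ s : S, α s = 1 ↔ (s : Ω) ∈ Q := fun s =>
    ⟨fun h => ⟨s, h, rfl⟩, by rintro ⟨t, ht, hts⟩; rwa [← Subtype.ext hts]⟩
  have hQS : Q ≤ S := Subgroup.map_subtype_le _
  have hQ : F.StronglyClosed Q := by
    refine ⟨hQS, fun P hPQ φ hφ x => ?_⟩
    obtain ⟨φ', -, hP, hv, hP', he⟩ := hmor P φ hφ
    apply (hker ⟨φ x, hv x⟩).1
    have h1 : α ⟨x, hP x.2⟩ = 1 := (hker _).2 (hPQ x.2)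
    rw [← he x]
    exact (congrArg φ' (Subtype.ext h1 : (⟨α ⟨x, hP x.2⟩, hP' x⟩ : Cfsg.FusionSystem.imageAlong α P) = 1)).trans (map_one φ')
  refine CfsgLib.Fusion.isSaturated_factor hS hF hQ (θ := α) ⟨hQS, hker, hrange, fun P' φ' => ⟨fun h => ?_, ?_⟩⟩
  · exact ⟨(F'.le_of_mem h).1, hsurj P' (F'.le_of_mem h).1 φ' h⟩
  · rintro ⟨hP', φ, hφ, hi⟩
    obtain ⟨φ'', hφ'', hj⟩ := hmor _ φ hφ
    have hle : P' ≤ Cfsg.FusionSystem.imageAlong α (Cfsg.FusionSystem.preimageAlong α P') := fun x hx => by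
      obtain ⟨s, rfl⟩ := hrange.ge (hP' hx)
      exact ⟨s, CfsgLib.Fusion.mem_preimageAlong.2 ⟨s.2, hx⟩, rfl⟩
    refine CfsgLib.Fusion.restrict_of_eq hφ'' hle fun x => ?_
    obtain ⟨d, hd⟩ := CfsgLib.Fusion.exists_section (hP'.trans hrange.ge) x
    rw [CfsgLib.Fusion.induced_apply hi d.2 (CfsgLib.Fusion.val_mem hφ d) hd]
    obtain ⟨hP, hv, hIm, he⟩ := hj
    rw [← he d]
    exact congrArg φ'' (Subtype.ext hd)

end Cfsg.Agent.S5133
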