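import Cfsg.Statements.S5160
import Cfsg.Agent.Fusion.Invariant
import Cfsg.Agent.Fusion.Group

set_option autoImplicit false
open Cfsg

namespace Cfsg.Agent.S5160

/-- Let G be a finite group with nontrivial Sylow p-subgroup S and F its fusion system on S. Suppose (a) no nontrivial proper subgroup of S is strongly closed in F, and (b) the automorphisms of S induced by G are generated by those induced, for R running over the fully normalized radical centric subgroups of F, by the subgroup of N_G(R) generated by its elements of p-power order. Then F is simple. -/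
theorem result {G : Type*} [Group G] [Finite G] (p : ℕ) [Fact p.Prime] (S : Sylow p G) (hS1 : (S : Subgroup G) ≠ ⊥) (ha : ∀ T : Subgroup G, (Cfsg.groupFusionSystem (S : Subgroup G)).StronglyClosed T → T = ⊥ ∨ T = (S : Subgroup G)) (hb : Cfsg.autInducedBy ⊤ (S : Subgroup G) = ⨆ (R : Subgroup G) (_ : (Cfsg.groupFusionSystem (S : Subgroup G)).IsFullyNormalized R ∧ (Cfsg.groupFusionSystem (S : Subgroup G)).IsRadical p R ∧ (Cfsg.groupFusionSystem (S : Subgroup G)).IsCentric R), Cfsg.autInducedBy (Subgroup.closure {g : G | g ∈ Subgroup.normalizer (R : Set G) ∧ ∃ k : ℕ, orderOf g = p ^ k}) (S : Subgroup G)) : (Cfsg.groupFusionSystem (S : Subgroup G)).IsSimple p := by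
  refine ⟨CfsgLib.Fusion.isSaturated_group S, hS1, fun T E hEn => ?_⟩
  obtain ⟨⟨hEsat, hFsat, hinv⟩, -⟩ := hEn
  rcases ha T hinv.2.1 with hT | hT
  · exact Or.inl hT
  subst hT
  refine Or.inr ⟨rfl, CfsgLib.Fusion.hom_eq_of_aut_le hinv ?_⟩
  rw [CfsgLib.Fusion.autGroup_group le_rfl, hb]
  refine iSup₂_le fun R hR => ?_
  obtain ⟨hRn, -, hRc⟩ := hR
  intro α hα
  obtain ⟨g, hg, hgα⟩ := CfsgLib.Fusion.mem_autInducedBy.1 hα
  have hRS := hRn.1
  -- the elements of `N_G(R)` inducing automorphisms in `E`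
  set M := ((E.autGroup R).comap (CfsgLib.Fusion.conjAut R ⊤)).map
    (Cfsg.FusionSystem.normalizerIn ⊤ R).subtype with hM
  haveI := CfsgLib.Fusion.finite_mulAut hRS
  obtain ⟨-, A, hA⟩ := CfsgLib.Fusion.fullyAutomized_of_fullyNormalized S.isPGroup' hFsat hRn
  have hle : Subgroup.closure {g : G | g ∈ Subgroup.normalizer (R : Set G) ∧ ∃ k : ℕ, orderOf g = p ^ k} ≤ M := by
    rw [Subgroup.closure_le]
    rintro x ⟨hxN, k, hxk⟩
    refine ⟨⟨x, trivial, hxN⟩, ?_, rfl⟩
    haveI : ((E.autGroup R).subgroupOf ((Cfsg.groupFusionSystem (S : Subgroup G)).autGroup R)).Normal :=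
      ⟨fun a ha' b => CfsgLib.Fusion.conj_mem_autGroup_of_invariant hinv hRS ha' b.2⟩
    have hxF : CfsgLib.Fusion.conjAut R ⊤ ⟨x, trivial, hxN⟩ ∈ (Cfsg.groupFusionSystem (S : Subgroup G)).autGroup R := by
      rw [CfsgLib.Fusion.autGroup_group hRS, ← CfsgLib.Fusion.range_conjAut]
      exact ⟨_, rfl⟩
    obtain ⟨j, -, hj⟩ := (Nat.dvd_prime_pow (Fact.out : p.Prime)).1 (hxk ▸
      (orderOf_map_dvd (CfsgLib.Fusion.conjAut R ⊤) ⟨x, trivial, hxN⟩).trans
        (dvd_of_eq (Subgroup.orderOf_mk x _)))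
    exact CfsgLib.Fusion.mem_of_sylow_le ((E.autGroup R).subgroupOf ((Cfsg.groupFusionSystem (S : Subgroup G)).autGroup R)) A
      (fun y hy => CfsgLib.Fusion.autInducedBy_le_autGroup hRS (hA.le hy))
      (x := ⟨_, hxF⟩) (k := j) ((Subgroup.orderOf_mk _ hxF).trans hj)
  obtain ⟨n, hn, hng⟩ := hle hg
  have hgN : g ∈ Subgroup.normalizer (R : Set G) := hng ▸ n.2.2
  have hαF : α ∈ (Cfsg.groupFusionSystem (S : Subgroup G)).autGroup (S : Subgroup G) := by
    rw [CfsgLib.Fusion.autGroup_group le_rfl]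
    exact CfsgLib.Fusion.mem_autInducedBy.2 ⟨g, trivial, hgα⟩
  refine CfsgLib.Fusion.mem_autGroup_of_restrict S.isPGroup' hFsat hEsat hinv.1 hαF R hRS hRc ?_ ?_
  · intro x
    rw [hgα]
    exact (Subgroup.mem_normalizer_iff.1 hgN x).symm
  · refine CfsgLib.Fusion.mem_of_eq ((CfsgLib.Fusion.mem_autGroup hRS).1 hn) fun x => ?_
    refine (hgα _).trans ?_
    rw [← hng]
    rfl

end Cfsg.Agent.S5160
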