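import Cfsg.Statements.S5163
import Cfsg.Agent.SLn.PSLFusion
-- import your own Cfsg.Agent.* helpers here

set_option autoImplicit false
open Cfsg CfsgLib.SLn.Unip
open scoped Pointwise

namespace Cfsg.Agent.S5163

/-- For a finite field K of characteristic p and n ≥ 3, the p-fusion system of the projective special linear group PSL_n(K) on a Sylow p-subgroup is simple. -/
theorem result {K : Type*} [Field K] [Fintype K] (p : ℕ) [Fact p.Prime] [CharP K p] (n : ℕ) (hn : 3 ≤ n) (S : Sylow p (Matrix.ProjectiveSpecialLinearGroup (Fin n) K)) : (Cfsg.groupFusionSystem (S : Subgroup (Matrix.ProjectiveSpecialLinearGroup (Fin n) K))).IsSimple p := by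
  classical
  let mk : Matrix.SpecialLinearGroup (Fin n) K →* Matrix.ProjectiveSpecialLinearGroup (Fin n) K :=
    QuotientGroup.mk' (Subgroup.center (Matrix.SpecialLinearGroup (Fin n) K))
  have hmk : Function.Surjective mk := QuotientGroup.mk'_surjective _
  haveI : Finite (Matrix.ProjectiveSpecialLinearGroup (Fin n) K) := Finite.of_surjective _ hmk
  obtain ⟨P0, hP0⟩ := exists_sylow_eq_upperUni (K := K) (n := n) p
  obtain ⟨g0, hg0⟩ := MulAction.exists_smul_eq (Matrix.ProjectiveSpecialLinearGroup (Fin n) K)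
    (P0.mapSurjective hmk) S
  let ψ := (MulAut.conj g0).toMonoidHom.comp mk
  have hψ : Function.Surjective ψ := (MulAut.conj g0).surjective.comp hmk
  have hker : ψ.ker = Subgroup.center (Matrix.SpecialLinearGroup (Fin n) K) := by
    refine Eq.trans ?_ (QuotientGroup.ker_mk' (Subgroup.center (Matrix.SpecialLinearGroup (Fin n) K)))
    ext x
    simp only [ψ, MonoidHom.mem_ker, MonoidHom.coe_comp, Function.comp_apply, MulEquiv.coe_toMonoidHom, map_eq_one_iff _ (MulAut.conj g0).injective]
    rfl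
  have hSeq : (S : Subgroup (Matrix.ProjectiveSpecialLinearGroup (Fin n) K)) = (upperUni K n).map ψ := by
    rw [← hg0, Sylow.coe_subgroup_smul, ← hP0, ← Subgroup.map_map]; rfl
  -- lifting facts
  have hpp : ∀ {x}, x ∈ upperUni K n → ∃ k : ℕ, orderOf x = p ^ k := fun {x} hx =>
    CfsgLib.SL2.exists_orderOf_of_mem P0 (show x ∈ (P0 : Subgroup _) by rw [hP0]; exact hx)
  have hmem : ∀ x : Matrix.SpecialLinearGroup (Fin n) K, (∃ k : ℕ, orderOf x = p ^ k) →
      ψ x ∈ (S : Subgroup (Matrix.ProjectiveSpecialLinearGroup (Fin n) K)) → x ∈ upperUni K n := fun x hx h =>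
    hP0 ▸ CfsgLib.SL2.mem_sylow_of_map ψ hker.le P0 hx (by rwa [hP0, ← hSeq])
  have hconj : ∀ g x : Matrix.SpecialLinearGroup (Fin n) K, orderOf (g * x * g⁻¹) = orderOf x := fun g x => by
    rw [show g * x * g⁻¹ = MulAut.conj g x from rfl, MulEquiv.orderOf_eq]
  have hcomm : ∀ g r : Matrix.SpecialLinearGroup (Fin n) K, r ∈ upperUni K n →
      ψ g * ψ r = ψ r * ψ g → g * r = r * g := by
    intro g r hr h
    obtain ⟨k, hk⟩ := hpp hr
    have hz : g * r * g⁻¹ * r⁻¹ ∈ Subgroup.center (Matrix.SpecialLinearGroup (Fin n) K) := by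
      rw [← hker, MonoidHom.mem_ker]
      simp only [map_mul, map_inv]
      rw [h]; group
    have h1 : (g * r * g⁻¹ * r⁻¹) ^ (p ^ k) = 1 := by
      have hc : Commute (g * r * g⁻¹ * r⁻¹) r := (Subgroup.mem_center_iff.mp hz r).symm
      have e : (g * r * g⁻¹ * r⁻¹ * r) ^ (p ^ k) = 1 := by
        rw [inv_mul_cancel_right, conj_pow, ← hk, pow_orderOf_eq_one]; group
      rw [hc.mul_pow, ← hk, pow_orderOf_eq_one, mul_one] at e
      rw [← hk]; exact e
    have h2 := mul_inv_eq_one.mp (center_eq_one_of_pow p hz k h1)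
    exact mul_inv_eq_iff_eq_mul.mp h2
  obtain ⟨f, hf⟩ : ∃ f : Fin n, (f : ℕ) = 0 := ⟨⟨0, by omega⟩, rfl⟩
  obtain ⟨f', hf'⟩ : ∃ f' : Fin n, (f' : ℕ) = 1 := ⟨⟨1, by omega⟩, rfl⟩
  obtain ⟨l, hl⟩ : ∃ l : Fin n, (l : ℕ) = n - 1 := ⟨⟨n - 1, by omega⟩, rfl⟩
  have hfl : f < l := by rw [Fin.lt_def]; omega
  have hψU : ∀ {x}, x ∈ upperUni K n → ψ x ∈ (S : Subgroup (Matrix.ProjectiveSpecialLinearGroup (Fin n) K)) :=
    fun {x} hx => by rw [hSeq]; exact ⟨x, hx, rfl⟩
  have hψne : ψ (Matrix.SpecialLinearGroup.transvection hfl.ne (1 : K)) ≠ 1 := fun h => by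
    have h' : Matrix.SpecialLinearGroup.transvection hfl.ne (1 : K) ∈ ψ.ker := h
    rw [hker, Matrix.SpecialLinearGroup.transvection_mem_center_iff] at h'
    exact one_ne_zero h'
  refine CfsgLib.Fusion.isSimple_of_generators p S ?_ ?_ ?_
  · intro hbot
    refine hψne ?_
    have := hψU (transvection_mem hfl (1 : K))
    rwa [hbot, Subgroup.mem_bot] at this
  · intro T hT
    by_cases hTbot : T = ⊥
    · exact Or.inl hTbot
    refine Or.inr (le_antisymm hT.1 ?_)
    have hclosed : ∀ t ∈ T, ∀ g, g * t * g⁻¹ ∈ (S : Subgroup (Matrix.ProjectiveSpecialLinearGroup (Fin n) K)) →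
        g * t * g⁻¹ ∈ T := by
      intro t ht g hg
      refine hT.2 (Subgroup.zpowers t) (Subgroup.zpowers_le.mpr ht) _
        (CfsgLib.Fusion.conjHom_mem_group (g := g) ((Subgroup.zpowers_le.mpr ht).trans hT.1) ?_) ⟨t, Subgroup.mem_zpowers t⟩
      rw [MonoidHom.map_zpowers, Subgroup.zpowers_le]
      exact hg
    have hTn : (T.subgroupOf (S : Subgroup (Matrix.ProjectiveSpecialLinearGroup (Fin n) K))).Normal :=
      ⟨fun t ht g => hclosed t.1 ht g.1 (mul_mem (mul_mem g.2 t.2) (inv_mem g.2))⟩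
    have hne := @CfsgLib.PReduced.inf_center_ne_bot _ _ _ p _ S.isPGroup' _ hTn (fun h => hTbot (by
      rwa [Subgroup.subgroupOf_eq_bot, disjoint_iff, inf_eq_left.mpr hT.1] at h))
    obtain ⟨⟨⟨t, htS⟩, htm⟩, ht1⟩ := Subgroup.ne_bot_iff_exists_ne_one.mp hne
    obtain ⟨htT, htZ⟩ := htm
    have htS' := htS
    rw [hSeq] at htS'
    obtain ⟨u, hu, rfl⟩ := htS'
    have hucomm : ∀ r ∈ upperUni K n, u * r = r * u := fun r hr =>
      hcomm u r hr (congrArg Subtype.val (Subgroup.mem_center_iff.mp htZ ⟨ψ r, hψU hr⟩)).symm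
    set c := u.1 f l with hc
    have hu' : u = Matrix.SpecialLinearGroup.transvection hfl.ne c := by
      refine Subtype.ext (Matrix.ext fun i j => ?_)
      rw [Matrix.SpecialLinearGroup.transvection_coe, Matrix.add_apply, Matrix.single_apply]
      by_cases hij : i = j
      · subst hij
        rw [Matrix.one_apply_eq, if_neg (by rintro ⟨rfl, rfl⟩; exact lt_irrefl _ hfl), add_zero]
        exact hu.2 i
      · rw [Matrix.one_apply_ne hij, zero_add]
        by_cases hfl' : f = i ∧ l = j
        · rw [if_pos hfl', hc, hfl'.1, hfl'.2]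
        · rw [if_neg hfl']
          by_cases hj : j < l
          · exact (commute_transvection hj.ne one_ne_zero (hucomm _ (transvection_mem hj 1))).1 i hij
          · have hjl : j = l := by
              rw [Fin.lt_def] at hj; have := j.isLt; exact Fin.ext (by omega)
            have hi : f < i := by
              have h1 : (i : ℕ) ≠ f := fun h => hfl' ⟨(Fin.ext h).symm, hjl.symm⟩
              rw [Fin.lt_def]; omega
            exact (commute_transvection hi.ne one_ne_zero (hucomm _ (transvection_mem hi 1))).2.1 j (fun h => hij h.symm)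
    have hc0 : c ≠ 0 := fun h => ht1 (Subtype.ext (Subtype.ext (by
      show ψ u = 1
      rw [hu', h, Matrix.SpecialLinearGroup.transvection_coeff_zero, map_one])))
    rw [hSeq, Subgroup.map_le_iff_le_comap]
    refine upperUni_le_closure.trans ((Subgroup.closure_le _).mpr ?_)
    rintro _ ⟨a, b, hab, d, rfl⟩
    by_cases hd : d = 0
    · subst hd
      rw [Matrix.SpecialLinearGroup.transvection_coeff_zero]
      exact one_mem _
    obtain ⟨g, hg⟩ := exists_conj_transvection hn hfl.ne hab.ne hc0 hd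
    have hg' : ψ g * ψ u * (ψ g)⁻¹ = ψ (Matrix.SpecialLinearGroup.transvection hab.ne d) := by
      rw [hu', ← hg]; simp
    show ψ _ ∈ T
    rw [← hg']
    exact hclosed _ htT _ (hg'.symm ▸ hψU (transvection_mem hab d))
  · intro h hh
    obtain ⟨g, rfl⟩ := hψ h
    set X := ⨆ (R : Subgroup (Matrix.ProjectiveSpecialLinearGroup (Fin n) K)) (_ : R ≤ (S : Subgroup (Matrix.ProjectiveSpecialLinearGroup (Fin n) K)) ∧
        (S : Subgroup (Matrix.ProjectiveSpecialLinearGroup (Fin n) K)) ≤ Subgroup.normalizer (R : Set (Matrix.ProjectiveSpecialLinearGroup (Fin n) K)) ∧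
        Subgroup.centralizer (R : Set (Matrix.ProjectiveSpecialLinearGroup (Fin n) K)) ≤ R),
        Subgroup.normalizer ((S : Subgroup (Matrix.ProjectiveSpecialLinearGroup (Fin n) K)) : Set (Matrix.ProjectiveSpecialLinearGroup (Fin n) K)) ⊓
          Subgroup.closure {x : Matrix.ProjectiveSpecialLinearGroup (Fin n) K | x ∈ Subgroup.normalizer (R : Set (Matrix.ProjectiveSpecialLinearGroup (Fin n) K)) ∧ ∃ k : ℕ, orderOf x = p ^ k} with hX
    have hnorm : ∀ (H : Subgroup (Matrix.SpecialLinearGroup (Fin n) K)) (x : Matrix.SpecialLinearGroup (Fin n) K),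
        (∀ r ∈ H, x * r * x⁻¹ ∈ H) →
        ψ x ∈ Subgroup.normalizer ((H.map ψ : Subgroup _) : Set (Matrix.ProjectiveSpecialLinearGroup (Fin n) K)) := by
      intro H x hx
      refine Subgroup.mem_normalizer_fintype ?_
      rintro _ ⟨r, hr, rfl⟩
      exact ⟨_, hx r hr, by simp⟩
    have hup : ∀ x : Matrix.SpecialLinearGroup (Fin n) K, IsUpper x → ∀ r ∈ upperUni K n, x * r * x⁻¹ ∈ upperUni K n := by
      intro x hx r hr
      have key : ∀ m : ℕ, IsUpper (x ^ m) := by
        intro m
        induction m with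
        | zero => rw [pow_zero]; exact (one_mem (upperUni K n)).1
        | succ m ih => rw [pow_succ]; exact (mul_entry ih hx).1
      have hxi : IsUpper x⁻¹ := by rw [inv_eq_pow]; exact key _
      refine ⟨(mul_entry (mul_entry hx hr.1).1 hxi).1, fun i => ?_⟩
      refine ((mul_entry (mul_entry hx hr.1).1 hxi).2 i).trans ?_
      rw [(mul_entry hx hr.1).2 i, hr.2 i, mul_one, ← (mul_entry hx hxi).2 i, mul_inv_cancel]
      exact Matrix.one_apply_eq i
    have hR : ∀ (a b : Fin n) (hab : (b : ℕ) = a + 1),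
        (rad (K := K) a b hab).map ψ ≤ (S : Subgroup (Matrix.ProjectiveSpecialLinearGroup (Fin n) K)) ∧
        (S : Subgroup (Matrix.ProjectiveSpecialLinearGroup (Fin n) K)) ≤
          Subgroup.normalizer (((rad (K := K) a b hab).map ψ : Subgroup _) : Set (Matrix.ProjectiveSpecialLinearGroup (Fin n) K)) ∧
        Subgroup.centralizer (((rad (K := K) a b hab).map ψ : Subgroup _) : Set (Matrix.ProjectiveSpecialLinearGroup (Fin n) K)) ≤
          (rad (K := K) a b hab).map ψ := by
      intro a b hab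
      refine ⟨by rw [hSeq]; exact Subgroup.map_mono (rad_le a b hab), ?_, ?_⟩
      · rw [hSeq]
        rintro _ ⟨u, hu, rfl⟩
        exact hnorm _ u fun r hr => rad_conj_uni hu hr
      · intro y hy
        obtain ⟨y', rfl⟩ := hψ y
        obtain ⟨z, hz, hzr⟩ := centralizer_rad hn (g := y') (hab := hab) fun r hr =>
          hcomm y' r hr.1 (Subgroup.mem_centralizer_iff.mp hy _ ⟨r, hr, rfl⟩).symm
        refine ⟨z * y', hzr, ?_⟩
        rw [← hker, MonoidHom.mem_ker] at hz
        rw [map_mul, hz, one_mul]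
    have hle : ∀ (a b : Fin n) (hab : (b : ℕ) = a + 1) x, x ∈ Subgroup.normalizer ((S : Subgroup (Matrix.ProjectiveSpecialLinearGroup (Fin n) K)) : Set (Matrix.ProjectiveSpecialLinearGroup (Fin n) K)) →
        x ∈ Subgroup.closure {y : Matrix.ProjectiveSpecialLinearGroup (Fin n) K | y ∈ Subgroup.normalizer (((rad (K := K) a b hab).map ψ : Subgroup _) : Set (Matrix.ProjectiveSpecialLinearGroup (Fin n) K)) ∧ ∃ k : ℕ, orderOf y = p ^ k} → x ∈ X := fun a b hab x h1 h2 =>
      le_iSup₂ (f := fun R (_ : R ≤ (S : Subgroup (Matrix.ProjectiveSpecialLinearGroup (Fin n) K)) ∧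
        (S : Subgroup (Matrix.ProjectiveSpecialLinearGroup (Fin n) K)) ≤ Subgroup.normalizer (R : Set (Matrix.ProjectiveSpecialLinearGroup (Fin n) K)) ∧
        Subgroup.centralizer (R : Set (Matrix.ProjectiveSpecialLinearGroup (Fin n) K)) ≤ R) =>
        Subgroup.normalizer ((S : Subgroup (Matrix.ProjectiveSpecialLinearGroup (Fin n) K)) : Set (Matrix.ProjectiveSpecialLinearGroup (Fin n) K)) ⊓
          Subgroup.closure {x : Matrix.ProjectiveSpecialLinearGroup (Fin n) K | x ∈ Subgroup.normalizer (R : Set (Matrix.ProjectiveSpecialLinearGroup (Fin n) K)) ∧ ∃ k : ℕ, orderOf x = p ^ k})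
        ((rad (K := K) a b hab).map ψ) (hR a b hab) ⟨h1, h2⟩
    have hord : ∀ x : Matrix.SpecialLinearGroup (Fin n) K, (∃ k : ℕ, orderOf x = p ^ k) → ∃ k : ℕ, orderOf (ψ x) = p ^ k := by
      rintro x ⟨k, hk⟩
      obtain ⟨j, -, hj⟩ := (Nat.dvd_prime_pow (Fact.out : p.Prime)).1 (hk ▸ orderOf_map_dvd ψ x)
      exact ⟨j, hj⟩
    have hUX : ∀ u ∈ upperUni K n, ψ u ∈ X := fun u hu =>
      hle f f' (by omega) _ (Subgroup.le_normalizer (hψU hu))
        (Subgroup.subset_closure ⟨hnorm _ u fun r hr => rad_conj_uni hu hr, hord u (hpp hu)⟩)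
    have hD : ∀ (a b : Fin n) (hab : (b : ℕ) = a + 1) (hne : a ≠ b) (t : K) (ht : t ≠ 0),
        Matrix.SpecialLinearGroup.diag2n hne t ht ∈ X.comap ψ := by
      intro a b hab hne t ht
      refine hle a b hab _ ?_ ?_
      · have := hnorm (upperUni K n) (Matrix.SpecialLinearGroup.diag2n hne t ht)
          (hup _ fun i j hji => by rw [Matrix.SpecialLinearGroup.diag2n_coe, Matrix.diagonal_apply_ne _ hji.ne'])
        rwa [← hSeq] at this
      · have hlt : a < b := by rw [Fin.lt_def]; omega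
        have h1 : ∀ c : K, ψ (Matrix.SpecialLinearGroup.transvection hne c) ∈
            Subgroup.closure {y : Matrix.ProjectiveSpecialLinearGroup (Fin n) K | y ∈ Subgroup.normalizer (((rad (K := K) a b hab).map ψ : Subgroup _) : Set (Matrix.ProjectiveSpecialLinearGroup (Fin n) K)) ∧ ∃ k : ℕ, orderOf y = p ^ k} := fun c =>
          Subgroup.subset_closure ⟨hnorm _ _ fun r hr => rad_conj_uni (transvection_mem hlt c) hr,
            hord _ (hpp (transvection_mem hlt c))⟩
        have h2 : ∀ c : K, ψ (Matrix.SpecialLinearGroup.transvection hne.symm c) ∈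
            Subgroup.closure {y : Matrix.ProjectiveSpecialLinearGroup (Fin n) K | y ∈ Subgroup.normalizer (((rad (K := K) a b hab).map ψ : Subgroup _) : Set (Matrix.ProjectiveSpecialLinearGroup (Fin n) K)) ∧ ∃ k : ℕ, orderOf y = p ^ k} := by
          intro c
          by_cases hc : c = 0
          · subst hc
            rw [Matrix.SpecialLinearGroup.transvection_coeff_zero, map_one]
            exact one_mem _
          refine Subgroup.subset_closure ⟨hnorm _ _ fun r hr => rad_conj_lower hne.symm c hr, hord _ ?_⟩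
          obtain ⟨g', hg'⟩ := exists_conj_transvection hn hne hne.symm hc hc
          rw [← hg', hconj]
          exact hpp (transvection_mem hlt c)
        rw [CfsgLib.SLn.diag2n_decompose hne t ht]
        simp only [map_mul]
        exact mul_mem (mul_mem (mul_mem (mul_mem (mul_mem (h1 _) (h2 _)) (h1 _)) (h1 _)) (h2 _)) (h1 _)
    have hgu : IsUpper g := isUpper_of_conj_mem fun u hu => hmem _ (by
        obtain ⟨k, hk⟩ := hpp hu
        exact ⟨k, (hconj g u).trans hk⟩) (by
        have := (Subgroup.mem_normalizer_iff.mp hh (ψ u)).mp (hψU hu)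
        simpa using this)
    have hdet : ∏ i, g.1 i i = 1 :=
      (Matrix.det_of_isUpperTriangular (M := g.1) (fun i j hij => hgu i j hij)).symm.trans g.2
    let D1 : Matrix.SpecialLinearGroup (Fin n) K := ⟨Matrix.diagonal fun i => (g.1 i i)⁻¹, by
      rw [Matrix.det_diagonal, Finset.prod_inv_distrib, hdet, inv_one]⟩
    have hD1 : IsUpper D1 := fun i j hji => Matrix.diagonal_apply_ne _ hji.ne'
    have hu : D1 * g ∈ upperUni K n := ⟨(mul_entry hD1 hgu).1, fun i => by
      refine ((mul_entry hD1 hgu).2 i).trans ?_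
      show (Matrix.diagonal fun i => (g.1 i i)⁻¹) i i * g.1 i i = 1
      rw [Matrix.diagonal_apply_eq]
      refine inv_mul_cancel₀ fun h0 => zero_ne_one (α := K) ?_
      exact (Finset.prod_eq_zero (f := fun i => g.1 i i) (Finset.mem_univ i) h0).symm.trans hdet⟩
    have hDX : D1 ∈ X.comap ψ := diagonal_mem _ hD D1 fun i j hij => Matrix.diagonal_apply_ne _ hij
    have e : g = D1⁻¹ * (D1 * g) := (inv_mul_cancel_left _ _).symm
    rw [e, map_mul, map_inv]
    exact mul_mem (inv_mem hDX) (hUX _ hu)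

end Cfsg.Agent.S5163
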