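import Cfsg.Statements.S5171
import Cfsg.Agent.SpGeom.StronglyClosed
import Cfsg.Agent.Fusion.CoverSimple
-- import your own Cfsg.Agent.* helpers here

set_option autoImplicit false
open Cfsg CfsgLib.SpBorel

namespace Cfsg.Agent.S5171

/-- For a finite field K of characteristic p and m ≥ 2, excluding the case m = 2 with K of two elements, the p-fusion system of the projective symplectic group PSp_{2m}(K) on a Sylow p-subgroup is simple. -/
theorem result {K : Type*} [Field K] [Fintype K] (p : ℕ) [Fact p.Prime] [CharP K p] (m : ℕ) (hm : 2 ≤ m) (hex : m = 2 → 3 ≤ Fintype.card K) (S : Sylow p (Cfsg.PSp m K)) : (Cfsg.groupFusionSystem (S : Subgroup (Cfsg.PSp m K))).IsSimple p := by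
  classical
  set H := Matrix.symplecticGroup (Fin m) K
  obtain ⟨P, hP⟩ := exists_sylow_uni (F := K) (m := m) p
  let f : H →* Cfsg.PSp m K := QuotientGroup.mk' (Subgroup.center H)
  have hker : f.ker = Subgroup.center H := QuotientGroup.ker_mk' _
  have hm0 : 0 < m := by omega
  obtain ⟨o, ho⟩ : ∃ o : Fin m, (o : ℕ) = 0 := ⟨⟨0, hm0⟩, rfl⟩
  obtain ⟨l, hl⟩ : ∃ l : Fin m, (l : ℕ) + 1 = m := ⟨⟨m - 1, by omega⟩, by simp; omega⟩
  haveI : Nontrivial (Fin m) := Fin.nontrivial_iff_two_le.mpr hm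
  have hkp : ∀ z ∈ f.ker, ∀ k : ℕ, z ^ p ^ k = 1 → z = 1 := by
    intro z hz k hk
    rw [hker, CfsgLib.Symp.mem_center_iff hm0] at hz
    rcases hz with hz | hz
    · exact Subtype.ext hz
    have hd : (-1 : K) ^ p ^ k = 1 := by
      have h1 : z.1 ^ p ^ k = 1 := congrArg Subtype.val hk
      rw [hz] at h1
      have h4 := congrFun (congrFun h1 (Sum.inl o)) (Sum.inl o)
      rw [show (-1 : Matrix (Fin m ⊕ Fin m) (Fin m ⊕ Fin m) K) = Matrix.diagonal (fun _ => (-1 : K)) from by
        rw [← Matrix.diagonal_one, Matrix.diagonal_neg], Matrix.diagonal_pow, Matrix.diagonal_apply_eq,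
        Matrix.one_apply_eq] at h4
      exact h4
    have h0 : ((-1 : K) - 1) ^ p ^ k = 0 := by rw [sub_pow_char_pow, hd, one_pow, sub_self]
    refine Subtype.ext ?_
    rw [hz]
    show (-1 : Matrix (Fin m ⊕ Fin m) (Fin m ⊕ Fin m) K) = 1
    rw [← Matrix.diagonal_one, Matrix.diagonal_neg, sub_eq_zero.mp (eq_zero_of_pow_eq_zero h0)]
  have hUne : (P : Subgroup H) ≠ ⊥ := by
    rw [hP]
    intro hbot
    have hmem : up (Matrix.single o o (1 : K)) (Matrix.transpose_single o o 1) ∈ uni K m := up_mem _ _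
    rw [hbot, Subgroup.mem_bot] at hmem
    have := congrArg (fun g : H => blB g o o) hmem
    simp only [(bl_up _ _).2.1, bl_one.2.1, Matrix.single_apply_same, Matrix.zero_apply] at this
    exact one_ne_zero this
  have hpp : ∀ u ∈ uni K m, ∃ k : ℕ, orderOf u = p ^ k := fun u hu =>
    CfsgLib.SL2.exists_orderOf_of_mem P (show u ∈ (P : Subgroup H) by rw [hP]; exact hu)
  have hT : ∀ {ι : Type} [Fintype ι] [DecidableEq ι] {a b : ι} (hab : a ≠ b) (c : K),
      (Matrix.SpecialLinearGroup.transvection hab c) ^ p = 1 := by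
    intro ι _ _ a b hab c
    have key : ∀ r : ℕ, (Matrix.SpecialLinearGroup.transvection hab c) ^ r =
        Matrix.SpecialLinearGroup.transvection hab ((r : K) * c) := by
      intro r
      induction r with
      | zero => simp
      | succ r ih => rw [pow_succ, ih, ← Matrix.SpecialLinearGroup.transvection_add]; congr 1; push_cast; ring
    rw [key, CharP.cast_eq_zero, zero_mul, Matrix.SpecialLinearGroup.transvection_coeff_zero]
  have hord : ∀ {A : Type _} [Group A] (φ : A →* H) (x : A), x ^ p = 1 → ∃ k : ℕ, orderOf (φ x) = p ^ k := by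
    intro A _ φ x hx
    obtain ⟨j, -, hj⟩ := (Nat.dvd_prime_pow (Fact.out : p.Prime)).1
      (orderOf_dvd_of_pow_eq_one (show φ x ^ p ^ 1 = 1 by rw [pow_one, ← map_pow, hx, map_one]))
    exact ⟨j, hj⟩
  refine CfsgLib.Fusion.isSimple_of_cover p f (QuotientGroup.mk'_surjective _) hker.le hkp P hUne ?_
    (fun i : Simple m => rad (F := K) i) (fun i => hP.symm ▸ rad_le i)
    (fun i u hu r hr => rad_conj i (show u ∈ uni K m by rw [← hP]; exact hu) hr) ?_ ?_ S
  · intro T hT hne hcl
    rw [hP] at hT ⊢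
    refine uni_le_of_closed hm (fun h => by rw [Nat.card_eq_fintype_card]; exact hex h) T hT hne fun g t ht hgt =>
      hcl g t ht (show g * t * g⁻¹ ∈ (P : Subgroup H) by rw [hP]; exact hgt)
  · intro i h hh
    rw [hker]
    exact centralizer_rad hm i hh
  · intro h hh
    have hb : IsBorel h := isBorel_of_conj_mem fun u hu => by
      have := hh u (show u ∈ (P : Subgroup H) by rw [hP]; exact hu)
      rw [← hP]; exact this
    rw [hP]
    set X := f.ker ⊔ ⨆ i : Simple m, Subgroup.normalizer ((uni K m : Subgroup H) : Set H) ⊓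
      Subgroup.closure {x : H | (∀ r ∈ rad i, x * r * x⁻¹ ∈ rad i) ∧ ∃ k : ℕ, orderOf x = p ^ k}
    have hX : ∀ (i : Simple m) (x : H), IsBorel x →
        x ∈ Subgroup.closure {x : H | (∀ r ∈ rad i, x * r * x⁻¹ ∈ rad i) ∧ ∃ k : ℕ, orderOf x = p ^ k} → x ∈ X := by
      intro i x hx hxc
      refine Subgroup.mem_sup_right (Subgroup.mem_iSup_of_mem i ⟨?_, hxc⟩)
      exact Subgroup.mem_normalizer_fintype fun u hu => borel_conj hx hu
    have hUX : ∀ u ∈ uni K m, u ∈ X := fun u hu => hX (.inr ⟨l, hl⟩) u hu.1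
      (Subgroup.subset_closure ⟨fun r hr => rad_conj _ hu hr, hpp u hu⟩)
    have hdgX : ∀ d, dg d ∈ X := by
      refine dg_mem X ?_ ?_
      · intro a b hne hab t
        have hlt : a < b := by rw [Fin.lt_def]; omega
        refine hX (.inl ⟨(a, b), hab⟩) _ ⟨(bl_slev _).2.2, ?_⟩ ?_
        · rw [(bl_slev _).1, Matrix.SpecialLinearGroup.diag2n_coe]
          exact fun i j hij => Matrix.diagonal_apply_ne _ hij.ne'
        have h1 : ∀ c : K, slev (Matrix.SpecialLinearGroup.transvection hne c) ∈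
            Subgroup.closure {x : H | (∀ r ∈ rad (.inl ⟨(a, b), hab⟩), x * r * x⁻¹ ∈ rad (.inl ⟨(a, b), hab⟩)) ∧ ∃ k : ℕ, orderOf x = p ^ k} := fun c =>
          Subgroup.subset_closure ⟨fun r hr => rad_conj _ (slev_mem (CfsgLib.SLn.Unip.transvection_mem hlt c)) hr,
            hord slev _ (hT hne c)⟩
        have h2 : ∀ c : K, slev (Matrix.SpecialLinearGroup.transvection hne.symm c) ∈
            Subgroup.closure {x : H | (∀ r ∈ rad (.inl ⟨(a, b), hab⟩), x * r * x⁻¹ ∈ rad (.inl ⟨(a, b), hab⟩)) ∧ ∃ k : ℕ, orderOf x = p ^ k} := fun c =>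
          Subgroup.subset_closure ⟨fun r hr => short_lower_normal (ab := (a, b)) hab hne.symm c hr,
            hord slev _ (hT hne.symm c)⟩
        rw [CfsgLib.SLn.diag2n_decompose hne (t : K) t.ne_zero]
        simp only [map_mul]
        exact mul_mem (mul_mem (mul_mem (mul_mem (mul_mem (h1 _) (h2 _)) (h1 _)) (h1 _)) (h2 _)) (h1 _)
      · intro l' hl' t
        refine hX (.inr ⟨l', hl'⟩) _ ⟨?_, ?_⟩ ?_
        · rw [(bl_emb _ _).2.2.1]; simp [spot_zero]
        · rw [(bl_emb _ _).1]
          exact fun i j hij => Matrix.diagonal_apply_ne _ hij.ne'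
        refine Subgroup.mem_comap.mp (SetLike.le_def.mp
          ((CfsgLib.SLn.closure_transvections (ι := Fin 2) (F := K)).ge.trans ((Subgroup.closure_le _).mpr ?_))
          (Subgroup.mem_top (CfsgLib.SL2.diagT t)))
        rintro _ ⟨i, j, hij, c, rfl⟩
        refine Subgroup.subset_closure ⟨?_, hord (emb l') _ (hT hij c)⟩
        fin_cases i <;> fin_cases j <;> simp at hij
        · intro r hr
          refine rad_conj _ ⟨⟨?_, ?_⟩, fun x => ?_⟩ hr
          · rw [(bl_emb _ _).2.2.1]; simp [Matrix.SpecialLinearGroup.transvection_coe, spot_zero]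
          · rw [(bl_emb _ _).1]; exact fun i j hij => Matrix.diagonal_apply_ne _ hij.ne'
          · rw [(bl_emb _ _).1]; simp [Matrix.SpecialLinearGroup.transvection_coe, spot_one]
        · intro r hr
          refine long_lower_normal hl' ?_ ?_ ?_ hr <;> simp [Matrix.SpecialLinearGroup.transvection_coe]
    have hne0 : ∀ i, blA h i i ≠ 0 := by
      intro i h0
      have h1 := (borel_mul hb (borel_inv hb)).2 i
      rw [mul_inv_cancel, bl_one.1, Matrix.one_apply_eq, h0, zero_mul] at h1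
      exact one_ne_zero h1
    let d : Fin m → Kˣ := fun i => Units.mk0 _ (hne0 i)
    have hdb : IsBorel (dg d⁻¹) := ⟨(bl_dg _).2, by rw [(bl_dg _).1]; exact fun i j hij => Matrix.diagonal_apply_ne _ hij.ne'⟩
    have hu : dg d⁻¹ * h ∈ uni K m := ⟨(borel_mul hdb hb).1, fun i => by
      rw [(borel_mul hdb hb).2 i, (bl_dg _).1, Matrix.diagonal_apply_eq]
      simp [d, hne0 i]⟩
    have e : h = dg d * (dg d⁻¹ * h) := by
      rw [← mul_assoc, ← map_mul, mul_inv_cancel, map_one, one_mul]
    rw [e]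
    exact mul_mem (hdgX d) (hUX _ hu)

end Cfsg.Agent.S5171
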