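import Cfsg.Statements.S5172
import Cfsg.Agent.SUFusion.Closed
import Cfsg.Agent.Fusion.CoverSimple
import Cfsg.Agent.SLn.Basic
-- import your own Cfsg.Agent.* helpers here

set_option autoImplicit false
open Cfsg CfsgLib.SUFusion

namespace Cfsg.Agent.S5172

/-- For a finite field K with q² elements of characteristic p and n ≥ 4, the p-fusion system of the projective special unitary group PSU_n(q) (realised over K) on a Sylow p-subgroup is simple. -/
theorem result {K : Type*} [Field K] [Fintype K] (p q : ℕ) [Fact p.Prime] [CharP K p] (hK : Fintype.card K = q ^ 2) (n : ℕ) (hn : 4 ≤ n) (S : Sylow p (Cfsg.PSU n K q)) : (Cfsg.groupFusionSystem (S : Subgroup (Cfsg.PSU n K q))).IsSimple p := by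
  classical
  obtain ⟨σ, hσ, hσ2, hσne, -⟩ := CfsgLib.Unitary.exists_conj q hK
  have hn2 : 2 ≤ n := by omega
  -- the model
  set J : Matrix (Fin n) (Fin n) K := Matrix.of fun i j => if j = i.rev then 1 else 0 with hJdef
  have hJl : ∀ M : Matrix (Fin n) (Fin n) K, ∀ i j, (J * M) i j = M i.rev j := fun M i j => by
    rw [Matrix.mul_apply, Finset.sum_eq_single i.rev (fun z _ hz => by simp [hJdef, hz]) (by simp)]
    simp [hJdef]
  have hJr : ∀ M : Matrix (Fin n) (Fin n) K, ∀ i j, (M * J) i j = M i j.rev := fun M i j => by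
    rw [Matrix.mul_apply, Finset.sum_eq_single j.rev (fun z _ hz => ?_) (by simp)]
    · simp [hJdef]
    · have : j ≠ z.rev := fun e => hz (by rw [e, Fin.rev_rev])
      simp [hJdef, this]
  have hstr : ∀ M : Matrix (Fin n) (Fin n) K, str σ M = J * CfsgLib.Unitary.adj σ M * J := fun M => by
    ext i j; rw [hJr, hJl]; rfl
  have hJJ : J * J = 1 := by
    ext i j
    rw [hJl]
    by_cases h : i = j
    · subst h; simp [hJdef]
    · rw [Matrix.one_apply_ne h]
      simp [hJdef, Ne.symm h]
  have hJadj : CfsgLib.Unitary.adj σ J = J := by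
    ext i j
    have h : i = j.rev ↔ j = i.rev := ⟨fun e => by rw [e, Fin.rev_rev], fun e => by rw [e, Fin.rev_rev]⟩
    simp [CfsgLib.Unitary.adj, hJdef, apply_ite σ, h]
  have hJd : J.det ≠ 0 := fun h => by
    have := congrArg Matrix.det hJJ
    rw [Matrix.det_mul, h, zero_mul, Matrix.det_one] at this
    exact zero_ne_one this
  obtain ⟨P, hP⟩ := CfsgLib.Unitary.exists_congr σ hσ2 hσne n J hJadj hJd
  have hPd : IsUnit P.det := by
    refine isUnit_iff_ne_zero.mpr fun h => hJd ?_
    rw [← hP, Matrix.det_mul, h, mul_zero]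
  have hPi : P * P⁻¹ = 1 := Matrix.mul_nonsing_inv P hPd
  have hiP : P⁻¹ * P = 1 := Matrix.nonsing_inv_mul P hPd
  have hconjd : ∀ M : Matrix (Fin n) (Fin n) K, (P * M * P⁻¹).det = M.det := fun M => by
    rw [Matrix.det_mul, Matrix.det_mul, mul_comm, ← mul_assoc, ← Matrix.det_mul, hiP, Matrix.det_one, one_mul]
  have hfwd : ∀ g : iso σ n, CfsgLib.Unitary.IsU σ (P * mat g * P⁻¹) := fun g => by
    have h1 : CfsgLib.Unitary.adj σ (mat g) * J * mat g = J := by
      have h := congrArg (fun M => J * M) (str_mat_mul g)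
      simp only [hstr, ← Matrix.mul_assoc, hJJ, Matrix.one_mul, Matrix.mul_one] at h
      exact h
    show CfsgLib.Unitary.adj σ (P * mat g * P⁻¹) * (P * mat g * P⁻¹) = 1
    calc CfsgLib.Unitary.adj σ (P * mat g * P⁻¹) * (P * mat g * P⁻¹)
        = CfsgLib.Unitary.adj σ P⁻¹ * (CfsgLib.Unitary.adj σ (mat g) * (CfsgLib.Unitary.adj σ P * P) * mat g) * P⁻¹ := by
          rw [CfsgLib.Unitary.adj_mul, CfsgLib.Unitary.adj_mul]; simp only [Matrix.mul_assoc]
      _ = CfsgLib.Unitary.adj σ P⁻¹ * (CfsgLib.Unitary.adj σ P * P) * P⁻¹ := by rw [hP, h1]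
      _ = CfsgLib.Unitary.adj σ (P * P⁻¹) * (P * P⁻¹) := by
          rw [CfsgLib.Unitary.adj_mul]; simp only [Matrix.mul_assoc]
      _ = 1 := by rw [hPi, CfsgLib.Unitary.adj_one, Matrix.one_mul]
  let φ : iso σ n →* Cfsg.SU n K q :=
    { toFun := fun g => ⟨⟨P * mat g * P⁻¹, by rw [hconjd, mat_det]⟩,
        (CfsgLib.Unitary.mem_SU_iff σ q hσ hσ2 _).mpr (hfwd g)⟩
      map_one' := Subtype.ext (Subtype.ext (by
        show P * mat (1 : iso σ n) * P⁻¹ = 1
        rw [mat_one, Matrix.mul_one, hPi]))
      map_mul' := fun g h => Subtype.ext (Subtype.ext (by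
        show P * mat (g * h) * P⁻¹ = P * mat g * P⁻¹ * (P * mat h * P⁻¹)
        rw [mat_mul]
        calc P * (mat g * mat h) * P⁻¹ = P * mat g * (P⁻¹ * P) * mat h * P⁻¹ := by
              rw [hiP, Matrix.mul_one, Matrix.mul_assoc P (mat g)]
          _ = _ := by simp only [Matrix.mul_assoc])) }
  have hφ : Function.Surjective φ := by
    intro M
    set M' : Matrix (Fin n) (Fin n) K := ((M : Matrix.SpecialLinearGroup (Fin n) K) : Matrix (Fin n) (Fin n) K)
    have hM : CfsgLib.Unitary.adj σ M' * M' = 1 := (CfsgLib.Unitary.mem_SU_iff σ q hσ hσ2 M.1).mp M.2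
    have hd : (P⁻¹ * M' * P).det = 1 := by
      rw [Matrix.det_mul, Matrix.det_mul, mul_comm, ← mul_assoc, ← Matrix.det_mul, hPi, Matrix.det_one, one_mul]
      exact M.1.2
    have hs : str σ (P⁻¹ * M' * P) * (P⁻¹ * M' * P) = 1 := by
      rw [hstr]
      calc J * CfsgLib.Unitary.adj σ (P⁻¹ * M' * P) * J * (P⁻¹ * M' * P)
          = J * (CfsgLib.Unitary.adj σ P * CfsgLib.Unitary.adj σ M' * CfsgLib.Unitary.adj σ P⁻¹) *
              (CfsgLib.Unitary.adj σ P * P) * (P⁻¹ * M' * P) := by
            rw [CfsgLib.Unitary.adj_mul, CfsgLib.Unitary.adj_mul, hP]; simp only [Matrix.mul_assoc]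
        _ = J * CfsgLib.Unitary.adj σ P * CfsgLib.Unitary.adj σ M' * (CfsgLib.Unitary.adj σ (P * P⁻¹)) *
              (P * P⁻¹) * (M' * P) := by
            rw [CfsgLib.Unitary.adj_mul σ P P⁻¹]; simp only [Matrix.mul_assoc]
        _ = J * CfsgLib.Unitary.adj σ P * (CfsgLib.Unitary.adj σ M' * M') * P := by
            rw [hPi, CfsgLib.Unitary.adj_one]; simp only [Matrix.mul_assoc, Matrix.one_mul]
        _ = 1 := by rw [hM, Matrix.mul_one, Matrix.mul_assoc, hP, hJJ]
    refine ⟨mk _ hd hs, Subtype.ext (Subtype.ext ?_)⟩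
    show P * (P⁻¹ * M' * P) * P⁻¹ = M'
    rw [Matrix.mul_assoc P⁻¹ M' P, ← Matrix.mul_assoc P P⁻¹, hPi, Matrix.one_mul, Matrix.mul_assoc, hPi,
      Matrix.mul_one]
  let f : iso σ n →* Cfsg.PSU n K q := (QuotientGroup.mk' (Subgroup.center (Cfsg.SU n K q))).comp φ
  have hf : Function.Surjective f := (QuotientGroup.mk'_surjective _).comp hφ
  have hkiff : ∀ g : iso σ n, g ∈ f.ker ↔ ∃ c : K, mat g = c • (1 : Matrix (Fin n) (Fin n) K) := by
    intro g
    have h := CfsgLib.Unitary.mk_pow_eq_one_iff q hK (n := n) (by omega) (φ g) 1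
    rw [pow_one, pow_one] at h
    rw [MonoidHom.mem_ker]
    refine h.trans ⟨?_, ?_⟩
    · rintro ⟨c, hc⟩
      refine ⟨c, ?_⟩
      have hc' : P * mat g * P⁻¹ = c • (1 : Matrix (Fin n) (Fin n) K) := hc
      calc mat g = P⁻¹ * (P * mat g * P⁻¹) * P := by
            rw [Matrix.mul_assoc P (mat g), ← Matrix.mul_assoc P⁻¹ P, hiP, Matrix.one_mul, Matrix.mul_assoc, hiP,
              Matrix.mul_one]
        _ = c • (1 : Matrix (Fin n) (Fin n) K) := by
            rw [hc', Matrix.mul_smul, Matrix.smul_mul, Matrix.mul_one, hiP]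
    · rintro ⟨c, hc⟩
      refine ⟨c, ?_⟩
      show P * mat g * P⁻¹ = _
      rw [hc, Matrix.mul_smul, Matrix.smul_mul, Matrix.mul_one, hPi]
  have hker : f.ker ≤ Subgroup.center (iso σ n) := by
    intro g hg
    obtain ⟨c, hc⟩ := (hkiff g).mp hg
    refine Subgroup.mem_center_iff.mpr fun x => mat_ext ?_
    rw [mat_mul, mat_mul, hc, Matrix.mul_smul, Matrix.smul_mul, Matrix.mul_one, Matrix.one_mul]
  obtain ⟨o, ho⟩ : ∃ o : Fin n, (o : ℕ) = 0 := ⟨⟨0, by omega⟩, rfl⟩
  have hoE : 2 * (o : ℕ) + 1 < n := by omega
  have hkp : ∀ z ∈ f.ker, ∀ k : ℕ, z ^ p ^ k = 1 → z = 1 := by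
    intro z hz k hk
    obtain ⟨c, hc⟩ := (hkiff z).mp hz
    have h1 : mat z ^ p ^ k = 1 := by rw [← mat_pow, hk, mat_one]
    rw [hc, smul_pow, one_pow] at h1
    have h2 := congrFun (congrFun h1 o) o
    rw [Matrix.smul_apply, Matrix.one_apply_eq, smul_eq_mul, mul_one] at h2
    have h0 : (c - 1) ^ p ^ k = 0 := by rw [sub_pow_char_pow, h2, one_pow, sub_self]
    refine mat_ext ?_
    rw [hc, sub_eq_zero.mp (eq_zero_of_pow_eq_zero h0), one_smul, mat_one]
  obtain ⟨U, hU⟩ := exists_sylow_uni (n := n) hσ2 hσne p (by omega)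
  obtain ⟨t0, ht00, ht0⟩ := exists_skew hσne hσ2
  have hUne : (U : Subgroup (iso σ n)) ≠ ⊥ := by
    rw [hU]
    intro hbot
    have hmem : Zr o hoE.ne t0 ht0 ∈ uni σ n :=
      Zr_mem _ (show (o : ℕ) < o.rev by rw [Fin.val_rev]; omega) _ _
    rw [hbot, Subgroup.mem_bot] at hmem
    have h1 := congrFun (congrFun (congrArg mat hmem) o) o.rev
    rw [mat_Zr, pad_apply' (e2 o hoE.ne) _ (a := 0) (b := 1) (x := o) (y := o.rev) rfl rfl, mat_one,
      Matrix.one_apply_ne (fun e => by rw [Fin.ext_iff, Fin.val_rev] at e; omega)] at h1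
    exact ht00 (by simpa using h1)
  let G : Bool → Gr n := fun b => if b then sieG else heiG
  have hGm : ∀ b, ∀ x y : Fin n, x ≤ y → (G b).lv x ≤ (G b).lv y := fun b => by
    cases b
    · exact hei_mono
    · exact sie_mono
  refine CfsgLib.Fusion.isSimple_of_cover p f hf hker hkp U hUne ?_ (fun b : Bool => rad σ (G b))
    (fun b => hU.symm ▸ rad_le_uni (hGm b))
    (fun b u hu r hr => par_conj (uni_le_par (hGm b) (show u ∈ uni σ n by rw [← hU]; exact hu)) hr) ?_ ?_ S
  · intro T hT hne hcl
    rw [hU] at hT ⊢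
    refine uni_le_of_closed hσ2 hσne p hn T hT hne fun g t ht hgt =>
      hcl g t ht (show g * t * g⁻¹ ∈ (U : Subgroup (iso σ n)) by rw [hU]; exact hgt)
  · intro b h hh
    obtain ⟨lam, hlam⟩ : ∃ lam : K, ∀ i k, (G b).lv k ≤ (G b).lv i → mat h i k = if i = k then lam else 0 := by
      cases b
      · exact comm_rad_hei hσ2 hσne hn hh
      · exact comm_rad_sie hσ2 hσne hn hh
    obtain ⟨z, hz, hzh⟩ := exists_scalar hσ2 (by omega) (hGm b) hlam
    exact ⟨z, (hkiff z).mpr hz, hzh⟩
  · intro h hh
    have hb : h ∈ par σ (idG : Gr n) := mem_par_of_conj_mem hσ2 hσne (by omega) fun u hu => by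
      have := hh u (show u ∈ (U : Subgroup (iso σ n)) by rw [hU]; exact hu)
      rw [← hU]; exact this
    rw [hU]
    set S' : Bool → Set (iso σ n) := fun b =>
      {x | (∀ r ∈ rad σ (G b), x * r * x⁻¹ ∈ rad σ (G b)) ∧ ∃ k : ℕ, orderOf x = p ^ k} with hS'
    set X := f.ker ⊔ ⨆ b : Bool,
      Subgroup.normalizer ((uni σ n : Subgroup (iso σ n)) : Set (iso σ n)) ⊓ Subgroup.closure (S' b)
    have hX : ∀ (b : Bool) (x : iso σ n), x ∈ par σ (idG : Gr n) → x ∈ Subgroup.closure (S' b) → x ∈ X := by
      intro b x hx hxc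
      refine Subgroup.mem_sup_right (Subgroup.mem_iSup_of_mem b ⟨?_, hxc⟩)
      exact Subgroup.mem_normalizer_fintype fun u hu => par_conj hx hu
    have hgenS : ∀ (b : Bool) (x : iso σ n), x ∈ par σ (G b) → (∃ k : ℕ, orderOf x = p ^ k) →
        x ∈ Subgroup.closure (S' b) := fun b x hx hk => Subgroup.subset_closure ⟨fun r hr => par_conj hx hr, hk⟩
    have hUX : ∀ u ∈ uni σ n, u ∈ X := fun u hu => hX true u (rad_le_par _ hu)
      (hgenS true u (uni_le_par (hGm true) hu) (exists_pow_of_rad p hu))
    obtain ⟨l, hl⟩ : ∃ l : Fin n, 2 * (l : ℕ) + 1 < n ∧ n ≤ 2 * (l : ℕ) + 3 :=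
      ⟨⟨n / 2 - 1, by omega⟩, by simp only; omega, by simp only; omega⟩
    have hl0 : (l : ℕ) ≠ 0 := by omega
    have hlG : ∀ y : Fin n, ((y : ℕ) = l ∨ y = l.rev ∨ 2 * (y : ℕ) + 1 = n) → (G false).lv y = 1 := by
      intro y hy
      have h1 : (y : ℕ) ≠ 0 ∧ (y : ℕ) + 1 ≠ n := by
        rcases hy with e | e | e
        · omega
        · rw [e, Fin.val_rev]; omega
        · omega
      show (if (y : ℕ) = 0 then 0 else if (y : ℕ) + 1 = n then 2 else 1) = 1
      rw [if_neg h1.1, if_neg h1.2]
    -- pairs of coordinates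
    have hpair : ∀ (i : Fin n) (hi : 2 * (i : ℕ) + 1 < n) (hil : (i : ℕ) ≠ l) (t : Kˣ),
        x4 hσ2 i l hil (by omega) hi.ne hl.1.ne (CfsgLib.SL2.diagT t) ∈ X := by
      intro i hi hil t
      refine hX true _ (x4_mem_par hσ2 hil (by omega) hi.ne hl.1.ne _ (fun _ => ?_) (fun _ => ?_)) ?_
      · simp [CfsgLib.SL2.diagT, CfsgLib.SL2.mk2]
      · simp [CfsgLib.SL2.diagT, CfsgLib.SL2.mk2]
      refine Subgroup.mem_comap.mp (SetLike.le_def.mp
        ((CfsgLib.SLn.closure_transvections (ι := Fin 2) (F := K)).ge.trans ((Subgroup.closure_le _).mpr ?_))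
        (Subgroup.mem_top (CfsgLib.SL2.diagT t)))
      rintro _ ⟨a, b, hab, c, rfl⟩
      refine hgenS true _ (x4_mem_par hσ2 hil (by omega) hi.ne hl.1.ne _ (fun e => ?_) (fun e => ?_)) ?_
      · simp [G, sieG, hi, hl.1] at e
      · simp [G, sieG, hi, hl.1] at e
      have key : ∀ r : ℕ, (Matrix.SpecialLinearGroup.transvection hab c) ^ r =
          Matrix.SpecialLinearGroup.transvection hab ((r : K) * c) := by
        intro r
        induction r with
        | zero => simp
        | succ r ih => rw [pow_succ, ih, ← Matrix.SpecialLinearGroup.transvection_add]; congr 1; push_cast; ring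
      have hp : (Matrix.SpecialLinearGroup.transvection hab c) ^ p = 1 := by
        rw [key, CharP.cast_eq_zero, zero_mul, Matrix.SpecialLinearGroup.transvection_coeff_zero]
      obtain ⟨j, -, hj⟩ := (Nat.dvd_prime_pow (Fact.out : p.Prime)).1
        (orderOf_dvd_of_pow_eq_one (show x4 hσ2 i l hil (by omega) hi.ne hl.1.ne
          (Matrix.SpecialLinearGroup.transvection hab c) ^ p ^ 1 = 1 by rw [pow_one, ← map_pow, hp, map_one]))
      exact ⟨j, hj⟩
    -- the last torus elements
    have hcore : ∀ {k : ℕ} (e : REmb k n), (∀ a, (G false).lv (e.f a) = 1) → ∀ g : iso σ k,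
        (∃ H : Gr n, padHom e g ∈ rad σ H) → padHom e g ∈ Subgroup.closure (S' false) := by
      intro k e he g hg
      obtain ⟨H, hH⟩ := hg
      refine hgenS false _ (padHom_mem_par _ _ _ fun a b hab => ?_) (exists_pow_of_rad p hH)
      rw [he a, he b] at hab
      omega
    have hlrev : (l : ℕ) < l.rev := by rw [Fin.val_rev]; omega
    have hd2 : ∀ (t : K) (ht0' : t ≠ 0) (ht : σ t = t),
        padHom (e2 l hl.1.ne) (d2 t ht0' ht) ∈ Subgroup.closure (S' false) := by
      intro t ht0' ht
      have he : ∀ a, (G false).lv ((e2 l hl.1.ne).f a) = 1 := fun a => by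
        fin_cases a
        · exact hlG l (Or.inl rfl)
        · exact hlG l.rev (Or.inr (Or.inl rfl))
      have hw : ∀ (b : K) (hb0 : b ≠ 0) (hb : b + σ b = 0),
          padHom (e2 l hl.1.ne) (w2 b hb0 hb) ∈ Subgroup.closure (S' false) := by
        intro b hb0 hb
        have hb0' : σ b ≠ 0 := (map_ne_zero σ).mpr hb0
        have hd : (σ b)⁻¹ + σ ((σ b)⁻¹) = 0 := by
          rw [map_inv₀, hσ2]; field_simp; linear_combination hb
        have e : w2 b hb0 hb = l2 ((σ b)⁻¹) hd * u2 b hb * l2 ((σ b)⁻¹) hd := by
          have hsb : σ b = -b := by linear_combination hb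
          refine mat_ext ?_
          simp only [mat_mul, w2, l2, u2, mat_mk, hsb]
          ext i j
          fin_cases i <;> fin_cases j <;> simp [Matrix.mul_apply, Fin.sum_univ_two, hb0] <;> field_simp <;> ring
        have hlow : padHom (e2 l hl.1.ne) (l2 ((σ b)⁻¹) hd) ∈ Subgroup.closure (S' false) :=
          hcore _ he _ ⟨revG, padHom_mem_rad _ _ _ fun x y hxy => by
            fin_cases x <;> fin_cases y <;> simp [e2, l2, revG, mat_mk] at hxy ⊢
            omega⟩
        have hup : padHom (e2 l hl.1.ne) (u2 b hb) ∈ Subgroup.closure (S' false) :=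
          hcore _ he _ ⟨idG, Zr_mem hl.1.ne hlrev b hb⟩
        rw [e, map_mul, map_mul]
        exact mul_mem (mul_mem hlow hup) hlow
      have htb : t * t0 + σ (t * t0) = 0 := by rw [map_mul, ht]; linear_combination t * ht0
      have e : d2 t ht0' ht = w2 (t * t0) (mul_ne_zero ht0' ht00) htb * (w2 t0 ht00 ht0)⁻¹ := by
        rw [eq_mul_inv_iff_mul_eq]
        refine mat_ext ?_
        simp only [mat_mul, w2, d2, mat_mk, map_mul, ht]
        ext i j
        fin_cases i <;> fin_cases j <;> simp [Matrix.mul_apply, Fin.sum_univ_two, mul_comm]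
      rw [e, map_mul, map_inv]
      exact mul_mem (hw _ _ _) (inv_mem (hw _ _ _))
    have hd3 : ∀ (c : Fin n) (hc : 2 * (c : ℕ) + 1 = n) (t : K) (ht0' : t ≠ 0),
        padHom (e3 l c hl.1.ne hc) (d3 hσ2 t ht0') ∈ Subgroup.closure (S' false) := by
      intro c hc t ht0'
      have he : ∀ a, (G false).lv ((e3 l c hl.1.ne hc).f a) = 1 := fun a => by
        fin_cases a
        · exact hlG l (Or.inl rfl)
        · exact hlG c (Or.inr (Or.inr hc))
        · exact hlG l.rev (Or.inr (Or.inl rfl))
      have hw : ∀ (b : K) (hb0 : b ≠ 0),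
          padHom (e3 l c hl.1.ne hc) (w3 hσ2 b hb0) ∈ Subgroup.closure (S' false) := by
        intro b hb0
        obtain ⟨a, ha⟩ := exists_norm_of_trace hσne hσ2 b
        have hb0' : σ b ≠ 0 := (map_ne_zero σ).mpr hb0
        have hd : ∀ u : K, u = σ a / b ∨ u = σ a / σ b → (σ b)⁻¹ + σ ((σ b)⁻¹) + u * σ u = 0 := by
          rintro u (rfl | rfl) <;>
          · rw [map_inv₀, hσ2, map_div₀, hσ2]
            try rw [hσ2]
            field_simp
            linear_combination ha
        have e : w3 hσ2 b hb0 = l3 hσ2 (σ a / b) ((σ b)⁻¹) (hd _ (Or.inl rfl)) * u3 hσ2 a b ha *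
            l3 hσ2 (σ a / σ b) ((σ b)⁻¹) (hd _ (Or.inr rfl)) := by
          refine mat_ext ?_
          simp only [mat_mul, w3, l3, u3, mat_mk, map_div₀, hσ2]
          ext i j
          fin_cases i <;> fin_cases j <;> simp [Matrix.mul_apply, Fin.sum_univ_three] <;> field_simp <;>
            first
              | ring1
              | linear_combination ha
              | linear_combination -ha
              | linear_combination a * ha
              | linear_combination -a * ha
              | linear_combination σ a * ha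
              | linear_combination -σ a * ha
        have hlow : ∀ (u : K) (hu : (σ b)⁻¹ + σ ((σ b)⁻¹) + u * σ u = 0),
            padHom (e3 l c hl.1.ne hc) (l3 hσ2 u ((σ b)⁻¹) hu) ∈ Subgroup.closure (S' false) := fun u hu =>
          hcore _ he _ ⟨revG, padHom_mem_rad _ _ _ fun x y hxy => by
            fin_cases x <;> fin_cases y <;> simp [e3, l3, revG, mat_mk] at hxy ⊢ <;> omega⟩
        have hup : padHom (e3 l c hl.1.ne hc) (u3 hσ2 a b ha) ∈ Subgroup.closure (S' false) :=
          hcore _ he _ ⟨idG, Mr_mem hσ2 hl.1.ne hc (show (l : ℕ) < c by omega) a b ha⟩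
        rw [e, map_mul, map_mul]
        exact mul_mem (mul_mem (hlow _ _) hup) (hlow _ _)
      have e : d3 hσ2 t ht0' = w3 hσ2 (t * t0) (mul_ne_zero ht0' ht00) * (w3 hσ2 t0 ht00)⁻¹ := by
        rw [eq_mul_inv_iff_mul_eq]
        refine mat_ext ?_
        have h1 : σ t ≠ 0 := (map_ne_zero σ).mpr ht0'
        have h2 : σ t0 ≠ 0 := (map_ne_zero σ).mpr ht00
        simp only [mat_mul, w3, d3, mat_mk, map_mul]
        ext i j
        fin_cases i <;> fin_cases j <;> simp [Matrix.mul_apply, Fin.sum_univ_three] <;> field_simp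
      rw [e, map_mul, map_inv]
      exact mul_mem (hw _ _) (inv_mem (hw _ _))
    -- diagonal elements
    have hdiagpar : ∀ D : iso σ n, (∀ x y, x ≠ y → mat D x y = 0) → D ∈ par σ (idG : Gr n) := fun D hD x y hxy =>
      hD x y (by rintro rfl; exact lt_irrefl _ hxy)
    have hdiag : ∀ s : Finset (Fin n), ∀ D : iso σ n, (∀ x y, x ≠ y → mat D x y = 0) →
        (∀ i : Fin n, 2 * (i : ℕ) + 1 < n → i ≠ l → i ∉ s → mat D i i = 1) → D ∈ X := by
      intro s
      induction s using Finset.induction_on with
      | empty =>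
        intro D hD hone
        have hrel : ∀ x, σ (mat D x.rev x.rev) * mat D x x = 1 := by
          intro x
          have h := congrFun (congrFun (str_mat_mul D) x) x
          rw [Matrix.mul_apply, Finset.sum_eq_single x (fun z _ hz => by rw [hD z x hz, mul_zero]) (by simp),
            str_apply, Matrix.one_apply_eq] at h
          exact h
        have hhigh : ∀ x : Fin n, n < 2 * (x : ℕ) + 1 → x ≠ l.rev → mat D x x = 1 := by
          intro x hx hxl
          have h := hrel x
          rw [hone x.rev (by rw [Fin.val_rev]; omega) (fun e => hxl (by rw [← e, Fin.rev_rev])) (by simp),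
            map_one, one_mul] at h
          exact h
        have hdet : ∏ x, mat D x x = 1 := by
          rw [← Matrix.det_of_isUpperTriangular (fun x y hxy => hD x y (ne_of_gt (show y < x from hxy)))]
          exact mat_det D
        set t := mat D l l with ht
        have hlr : t * σ (mat D l.rev l.rev) = 1 := by rw [mul_comm]; exact hrel l
        have hlr2 : σ t * mat D l.rev l.rev = 1 := by have := hrel l.rev; rwa [Fin.rev_rev] at this
        have ht0' : t ≠ 0 := left_ne_zero_of_mul_eq_one hlr
        have hst : σ t ≠ 0 := (map_ne_zero σ).mpr ht0'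
        have hlr3 : mat D l.rev l.rev = (σ t)⁻¹ := by rw [← mul_right_inj' hst, hlr2, mul_inv_cancel₀ hst]
        have hlne : l ≠ l.rev := fun e => by rw [← e] at hlrev; omega
        have hDX : D ∈ Subgroup.closure (S' false) := by
          by_cases hodd : ∃ c : Fin n, 2 * (c : ℕ) + 1 = n
          · obtain ⟨c, hc⟩ := hodd
            have hoth : ∀ x, x ≠ l → x ≠ l.rev → x ≠ c → mat D x x = 1 := by
              intro x h1 h2 h3
              rcases lt_trichotomy (2 * (x : ℕ) + 1) n with h | h | h
              · exact hone x h h1 (by simp)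
              · exact absurd (Fin.ext (by omega)) h3
              · exact hhigh x h h2
            have hcl' : l ≠ c := fun e => by rw [e] at hl; omega
            have hcl'' : l.rev ≠ c := fun e => by rw [← e, Fin.val_rev] at hc; omega
            have hcc : mat D c c = σ t / t := by
              rw [← Finset.mul_prod_erase _ _ (Finset.mem_univ c), Finset.prod_eq_mul l l.rev hlne
                (fun x hx hx' => hoth x hx'.1 hx'.2 (Finset.ne_of_mem_erase hx))
                (by simp [hcl']) (by simp [hcl'']), hlr3, ← ht] at hdet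
              field_simp at hdet ⊢
              linear_combination hdet
            convert hd3 c hc t ht0' using 1
            refine mat_ext (Matrix.ext fun x y => ?_)
            rw [mat_padHom]
            rcases pad_cases (e3 l c hl.1.ne hc) (mat (d3 hσ2 t ht0')) x y with h1 | ⟨a, b, rfl, rfl⟩
            · rw [h1]
              by_cases hxy : x = y
              · subst hxy
                rw [Matrix.one_apply_eq]
                by_cases hxr : ∃ a, x = (e3 l c hl.1.ne hc).f a
                · obtain ⟨a, rfl⟩ := hxr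
                  rw [pad_apply, Matrix.one_apply_eq] at h1
                  fin_cases a <;> simp [d3, mat_mk, e3] at h1 ⊢
                  · rw [← ht]; exact h1
                  · rw [hcc]; exact h1
                  · rw [hlr3, h1, inv_one]
                · push Not at hxr
                  exact hoth x (hxr 0) (hxr 2) (hxr 1)
              · rw [hD x y hxy, Matrix.one_apply_ne hxy]
            · rw [pad_apply]
              fin_cases a <;> fin_cases b <;> simp [d3, mat_mk, e3]
              all_goals first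
                | exact ht.symm
                | exact hcc
                | exact hlr3
                | (refine hD _ _ ?_; simp [Fin.ext_iff, Fin.val_rev]; omega)
          · push Not at hodd
            have hoth : ∀ x, x ≠ l → x ≠ l.rev → mat D x x = 1 := by
              intro x h1 h2
              rcases lt_or_gt_of_ne (hodd x) with h | h
              · exact hone x h h1 (by simp)
              · exact hhigh x h h2
            have htf : σ t = t := by
              rw [Finset.prod_eq_mul l l.rev hlne (fun x _ hx => hoth x hx.1 hx.2) (by simp) (by simp), hlr3,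
                ← ht] at hdet
              exact (eq_of_mul_inv_eq_one hdet).symm
            convert hd2 t ht0' htf using 1
            refine mat_ext (Matrix.ext fun x y => ?_)
            rw [mat_padHom]
            rcases pad_cases (e2 l hl.1.ne) (mat (d2 t ht0' htf)) x y with h1 | ⟨a, b, rfl, rfl⟩
            · rw [h1]
              by_cases hxy : x = y
              · subst hxy
                rw [Matrix.one_apply_eq]
                by_cases hxr : ∃ a, x = (e2 l hl.1.ne).f a
                · obtain ⟨a, rfl⟩ := hxr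
                  rw [pad_apply, Matrix.one_apply_eq] at h1
                  fin_cases a <;> simp [d2, mat_mk, e2] at h1 ⊢
                  · rw [← ht]; exact h1
                  · rw [hlr3, htf, h1, inv_one]
                · push Not at hxr
                  exact hoth x (hxr 0) (hxr 1)
              · rw [hD x y hxy, Matrix.one_apply_ne hxy]
            · rw [pad_apply]
              fin_cases a <;> fin_cases b <;> simp [d2, mat_mk, e2]
              all_goals first
                | exact ht.symm
                | exact (hlr3.trans (by rw [htf]))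
                | (refine hD _ _ ?_; simp [Fin.ext_iff, Fin.val_rev]; omega)
        exact hX false D (hdiagpar D hD) hDX
      | insert i s his ih =>
        intro D hD hone
        by_cases hi : 2 * (i : ℕ) + 1 < n ∧ i ≠ l
        · have hd0 : mat D i i ≠ 0 := by
            intro h0
            have h := congrFun (congrFun (str_mat_mul D) i) i
            rw [Matrix.mul_apply, Finset.sum_eq_single i (fun z _ hz => by rw [hD z i hz, mul_zero]) (by simp),
              h0, mul_zero, Matrix.one_apply_eq] at h
            exact zero_ne_one h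
          have hil : (i : ℕ) ≠ l := fun e => hi.2 (Fin.ext e)
          set y := x4 hσ2 i l hil (by omega) hi.1.ne hl.1.ne (CfsgLib.SL2.diagT (Units.mk0 _ hd0)⁻¹) with hy
          have hyoff : ∀ x z, x ≠ z → mat y x z = 0 := by
            intro x z hxz
            show pad _ _ x z = 0
            rcases pad_cases (e4 i l hil (by omega) hi.1.ne hl.1.ne)
              (mat (phi hσ2 (CfsgLib.SL2.diagT (Units.mk0 _ hd0)⁻¹))) x z with h1 | ⟨a, b, rfl, rfl⟩
            · rw [h1, Matrix.one_apply_ne hxz]
            · rw [pad_apply]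
              fin_cases a <;> fin_cases b <;> simp [phi, mat_mk, CfsgLib.SL2.diagT, CfsgLib.SL2.mk2] at hxz ⊢
          have hprod : ∀ x z, mat (y * D) x z = mat y x x * mat D x z := by
            intro x z
            rw [mat_mul, Matrix.mul_apply, Finset.sum_eq_single x (fun w _ hw => by
              rw [hyoff x w (Ne.symm hw), zero_mul]) (by simp)]
          have hyD : y * D ∈ X := by
            refine ih _ (fun x z hxz => by rw [hprod, hD x z hxz, mul_zero]) fun j hj hjl hjs => ?_
            rw [hprod]
            by_cases hji : j = i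
            · subst hji
              rw [show mat y j j = (mat D j j)⁻¹ from by
                show pad _ _ j j = _
                rw [pad_apply' (e4 j l hil (by omega) hi.1.ne hl.1.ne) _ (a := 0) (b := 0) (x := j) (y := j) rfl rfl]
                simp [phi, mat_mk, CfsgLib.SL2.diagT, CfsgLib.SL2.mk2]]
              exact inv_mul_cancel₀ hd0
            · rw [show mat y j j = 1 from by
                show pad _ _ j j = _
                rw [pad_apply_of _ _ _ _ (Or.inl fun a => ?_), Matrix.one_apply_eq]
                fin_cases a <;> simp [e4, Fin.ext_iff, Fin.val_rev] <;>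
                  (have := Fin.val_ne_of_ne hji; have := Fin.val_ne_of_ne hjl; omega)]
              rw [one_mul]
              exact hone j hj hjl (by simp [hji, hjs])
          have := mul_mem (inv_mem (hpair i hi.1 hil (Units.mk0 _ hd0)⁻¹)) hyD
          rwa [inv_mul_cancel_left] at this
        · refine ih D hD fun j hj hjl hjs => hone j hj hjl ?_
          simp only [Finset.mem_insert, not_or]
          exact ⟨fun e => hi (e ▸ ⟨hj, hjl⟩), hjs⟩
    -- decomposition
    have hrelh : ∀ x, σ (mat h x.rev x.rev) * mat h x x = 1 := by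
      intro x
      have e := congrFun (congrFun (str_mat_mul h) x) x
      rw [Matrix.mul_apply, Finset.sum_eq_single x (fun z _ hz => ?_) (by simp), str_apply, Matrix.one_apply_eq] at e
      · exact e
      · rw [str_apply]
        rcases lt_or_gt_of_ne hz with hlt | hgt
        · rw [hb z.rev x.rev (show (x.rev : ℕ) < z.rev by
            rw [Fin.val_rev, Fin.val_rev]; have := x.isLt; have : (z : ℕ) < x := hlt; omega), map_zero, zero_mul]
        · rw [hb z x hgt, mul_zero]
    let D : iso σ n := mk (Matrix.diagonal fun x => mat h x x) (by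
        rw [Matrix.det_diagonal, ← Matrix.det_of_isUpperTriangular (fun x y hxy => hb x y hxy)]
        exact mat_det h) (by
        have e : str σ (Matrix.diagonal fun x => mat h x x) = Matrix.diagonal fun x => σ (mat h x.rev x.rev) := by
          ext x y
          by_cases hxy : x = y
          · subst hxy; simp [str_apply]
          · have : y.rev ≠ x.rev := fun e => hxy (Fin.rev_inj.mp e).symm
            simp [str_apply, hxy, this]
        rw [e, Matrix.diagonal_mul_diagonal, ← Matrix.diagonal_one]
        congr 1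
        ext x
        exact hrelh x)
    have hDoff : ∀ x y, x ≠ y → mat D x y = 0 := fun x y hxy => Matrix.diagonal_apply_ne _ hxy
    have hu : D⁻¹ * h ∈ uni σ n := by
      intro x y hyx
      rw [mat_mul, mat_inv, mat_mk, Matrix.mul_apply, Finset.sum_eq_single x (fun z _ hz => by
        rw [str_apply, Matrix.diagonal_apply_ne _ (fun e => hz (Fin.rev_inj.mp e)), map_zero, zero_mul]) (by simp),
        str_apply, Matrix.diagonal_apply_eq]
      rcases (show y ≤ x from hyx).lt_or_eq with hlt | heq
      · rw [hb x y hlt, mul_zero, Matrix.one_apply_ne hlt.ne']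
      · subst heq
        rw [hrelh, Matrix.one_apply_eq]
    have e : h = D * (D⁻¹ * h) := (mul_inv_cancel_left _ _).symm
    rw [e]
    exact mul_mem (hdiag Finset.univ D hDoff fun i _ _ hi => absurd (Finset.mem_univ i) hi) (hUX _ hu)

end Cfsg.Agent.S5172
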