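import Cfsg.Statements.S5311
import Cfsg.Agent.Fusion.TransportNormal
-- import your own Cfsg.Agent.* helpers here

set_option autoImplicit false
open Cfsg

namespace Cfsg.Agent.S5311

/-- The layer of a saturated fusion system F over a finite p-group S is characteristic in F: for every automorphism α of S that is an automorphism of F (α and its inverse are morphisms from F to F) and every layer E of F over T, α carries T onto T and, for every map φ of E with source P, the map induced by α on α(P) (that is, α ∘ φ ∘ α⁻¹) is a map of E. -/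
theorem result {Ω : Type*} [Group Ω] {S : Subgroup Ω} [Finite S] (p : ℕ) [Fact p.Prime] (hS : IsPGroup p S) (F : Cfsg.FusionSystem S) (hF : F.IsSaturated p)
    (α : ↥S ≃* ↥S) (hα : F.IsMorphism F (S.subtype.comp α.toMonoidHom))
    (hα' : F.IsMorphism F (S.subtype.comp α.symm.toMonoidHom))
    {T : Subgroup Ω} (E : Cfsg.FusionSystem T) (hE : E.IsLayerOf F p) :
    Cfsg.FusionSystem.imageAlong (S.subtype.comp α.toMonoidHom) T = T ∧
      ∀ (P : Subgroup Ω) (φ : ↥P →* Ω), φ ∈ E.Hom P →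
        ∀ φ' : ↥(Cfsg.FusionSystem.imageAlong (S.subtype.comp α.toMonoidHom) P) →* Ω,
          Cfsg.FusionSystem.InducedAlong (S.subtype.comp α.toMonoidHom) φ φ' →
            φ' ∈ E.Hom (Cfsg.FusionSystem.imageAlong (S.subtype.comp α.toMonoidHom) P) := by
  have hc : CfsgLib.Fusion.Transport.Carries α F F := by
    have key : ∀ {β : ↥S ≃* ↥S}, F.IsMorphism F (S.subtype.comp β.toMonoidHom) →
        ∀ {P : Subgroup Ω} {φ : P →* Ω}, φ ∈ F.Hom P → ∃ φ' ∈ F.Hom (CfsgLib.Fusion.Transport.im β P),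
          ∀ (x : S) (hx : (x : Ω) ∈ P) (y : S), (y : Ω) = φ ⟨x, hx⟩ →
            φ' ⟨β x, CfsgLib.Fusion.Transport.mem_im_of hx⟩ = (β y : Ω) := by
      intro β hβ P φ hφ
      obtain ⟨φ', hφ', hP, hv, hm, hag⟩ := hβ.2 P φ hφ
      refine ⟨φ', hφ', fun x hx y hy => ?_⟩
      refine (hag ⟨x, hx⟩).trans ?_
      exact congrArg (fun s : S => (β s : Ω)) (Subtype.ext hy.symm)
    exact ⟨le_rfl, le_rfl, fun x => iff_of_true (α x).2 x.2, key hα, key hα'⟩
  have hEF := hE.1
  have hTS : T ≤ S := CfsgLib.Fusion.Transport.le_of_subsystem hEF.1.2.2.1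
  -- the layer is contained in each carried copy of it
  have key : ∀ {β : ↥S ≃* ↥S}, CfsgLib.Fusion.Transport.Carries β F F →
      ∀ {R : Subgroup Ω} {E₁ : Cfsg.FusionSystem R}, CfsgLib.Fusion.Transport.Carries β E E₁ →
        E.IsSubsystemOf E₁ := by
    intro β hβ R E₁ hE₁
    refine hE.2.2 R E₁ (hβ.isNormalIn hS hE₁ hEF) fun U C hC => ?_
    have hUS : U ≤ S := CfsgLib.Fusion.Transport.subnormal_le hC.1
    obtain ⟨U', C', hC'⟩ := CfsgLib.Fusion.Transport.exists_carries (e := β.symm) C hUS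
    have hcomp := CfsgLib.Fusion.Transport.Carries.isComponentIn hS hβ.symm hC' hC
    exact hC'.symm.subsystem hE₁ (hE.2.1 U' C' hcomp)
  obtain ⟨T₁, E₁, hE₁⟩ := CfsgLib.Fusion.Transport.exists_carries (e := α) E hTS
  obtain ⟨T₂, E₂, hE₂⟩ := CfsgLib.Fusion.Transport.exists_carries (e := α.symm) E hTS
  have h1 := key hc hE₁
  have h2 := key hc.symm hE₂
  have h3 : E₁.IsSubsystemOf E := hE₁.subsystem hE₂.symm h2
  refine ⟨?_, fun P φ hφ φ' hind => ?_⟩
  · exact hE₁.im_eq.trans (le_antisymm (CfsgLib.Fusion.Transport.le_of_subsystem h3)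
      (CfsgLib.Fusion.Transport.le_of_subsystem h1))
  · obtain ⟨hP, hv, hm, hag⟩ := hind
    refine h3 _ (hE₁.mem_of hφ le_rfl fun x hx hx' y hy => ?_)
    refine (hag ⟨x, hx⟩).trans ?_
    exact congrArg (fun s : S => (α s : Ω)) (Subtype.ext hy.symm)

end Cfsg.Agent.S5311
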