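import Cfsg.Statements.S5345
import Cfsg.Agent.ThreeTrans.Basic

set_option autoImplicit false
open Cfsg

namespace Cfsg.Agent.S5345

/-- Let D be a conjugation-invariant generating set of 3-transpositions of a finite group G and T a Sylow 2-subgroup of G. Then the members of D lying in T generate an abelian subgroup, and their number is the width of D (the largest number of pairwise commuting members of D). -/
theorem result {G : Type*} [Group G] [Finite G] {D : Set G} (hD : Cfsg.IsThreeTranspositionGroup D) (T : Sylow 2 G) : IsMulCommutative (Subgroup.closure {d : G | d ∈ D ∧ d ∈ T}) ∧ {d : G | d ∈ D ∧ d ∈ T}.ncard = Cfsg.commutingWidth D := by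
  set S := {d : G | d ∈ D ∧ d ∈ T}
  have hcomm : ∀ a ∈ S, ∀ b ∈ S, Commute a b := by
    intro a ha b hb
    obtain ⟨k, hk⟩ := T.isPGroup' ⟨a * b, (T : Subgroup G).mul_mem ha.2 hb.2⟩
    exact CfsgLib.ThreeTrans.commute_of_mul_mem_two_group (CfsgLib.ThreeTrans.mul_self hD.1 ha.1)
      (CfsgLib.ThreeTrans.mul_self hD.1 hb.1) (hD.1.2 a ha.1 b hb.1) (congrArg Subtype.val hk)
  refine ⟨Subgroup.isMulCommutative_closure fun a ha b hb => hcomm a ha b hb, ?_⟩
  unfold Cfsg.commutingWidth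
  refine (IsGreatest.csSup_eq (a := S.ncard) ?_).symm
  refine ⟨⟨S, fun x hx => hx.1, Set.toFinite _, hcomm, rfl⟩, ?_⟩
  rintro n ⟨E, hED, -, hE, rfl⟩
  have hcl := Subgroup.isMulCommutative_closure (k := E) fun a ha b hb => hE a ha b hb
  have h2 : IsPGroup 2 (Subgroup.closure E) := by
    intro x
    refine ⟨1, ?_⟩
    rw [pow_one, pow_two]
    refine Subgroup.closure_induction (k := E)
      (p := fun x hx => (⟨x, hx⟩ : Subgroup.closure E) * ⟨x, hx⟩ = 1)
      (fun y hy => Subtype.ext (CfsgLib.ThreeTrans.mul_self hD.1 (hED hy))) (one_mul _)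
      (fun y z hy hz ihy ihz => ?_) (fun y hy ih => ?_) x.2
    · have hc : (⟨y, hy⟩ : Subgroup.closure E) * ⟨z, hz⟩ = ⟨z, hz⟩ * ⟨y, hy⟩ :=
        IsMulCommutative.is_comm.comm _ _
      rw [← MulMemClass.mk_mul_mk _ y z hy hz, Commute.mul_mul_mul_comm hc.symm, ihy, ihz, one_mul]
    · have : (⟨y⁻¹, Subgroup.inv_mem _ hy⟩ : Subgroup.closure E) = ⟨y, hy⟩⁻¹ := rfl
      rw [this, ← mul_inv_rev, ih, inv_one]
  obtain ⟨Q, hQ⟩ := h2.exists_le_sylow
  obtain ⟨g, hg⟩ := MulAction.exists_smul_eq G Q T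
  refine Set.ncard_le_ncard_of_injOn (fun e => g * e * g⁻¹) (fun e he => ⟨hD.2.1 g e (hED he), ?_⟩)
    (fun a _ b _ h => by simpa using h)
  rw [← hg]
  exact Subgroup.smul_mem_pointwise_smul e (MulAut.conj g) (Q : Subgroup G)
    (hQ (Subgroup.subset_closure he))

end Cfsg.Agent.S5345
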