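import Cfsg.Statements.S5346
import Cfsg.Agent.ZStar.Products
import Cfsg.Agent.ThreeTrans.Basic
-- import your own Cfsg.Agent.* helpers here

set_option autoImplicit false
open Cfsg

namespace Cfsg.Agent.S5346

/-- Let D be a conjugation-invariant generating set of 3-transpositions of a finite group G and d a member of D. Then D has width 1 (no two different members of D commute) if and only if G is the product of the subgroup generated by d with the largest normal 3-subgroup of G. -/
theorem result {G : Type*} [Group G] [Finite G] {D : Set G} (hD : Cfsg.IsThreeTranspositionGroup D) {d : G} (hd : d ∈ D) : Cfsg.commutingWidth D = 1 ↔ Subgroup.zpowers d ⊔ Cfsg.pCore 3 G = ⊤ := by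
  haveI := Fact.mk Nat.prime_three
  haveI := Cfsg.pCore_normal 3 G
  obtain ⟨hset, hcl, hgen⟩ := hD
  have hw : Cfsg.commutingWidth D = 1 ↔ ∀ a ∈ D, ∀ b ∈ D, Commute a b → a = b := by
    have hbdd : BddAbove {n : ℕ | ∃ E : Set G, E ⊆ D ∧ E.Finite ∧ (∀ a ∈ E, ∀ b ∈ E, Commute a b) ∧ E.ncard = n} :=
      ⟨Nat.card G, by rintro n ⟨E, -, -, -, rfl⟩; rw [← Nat.card_coe_set_eq]; exact Nat.card_le_card_of_injective _ Subtype.val_injective⟩
    constructor
    · intro h a ha b hb hc
      by_contra hne
      have : 2 ≤ Cfsg.commutingWidth D := le_csSup hbdd ⟨{a, b}, Set.insert_subset ha (Set.singleton_subset_iff.2 hb),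
        Set.toFinite _, by rintro x (rfl | rfl) y (rfl | rfl) <;> first | exact Commute.refl _ | exact hc | exact hc.symm,
        Set.ncard_pair hne⟩
      omega
    · intro h
      refine le_antisymm (csSup_le ⟨1, {d}, Set.singleton_subset_iff.2 hd, Set.toFinite _,
        by rintro x rfl y rfl; exact Commute.refl _, Set.ncard_singleton d⟩ ?_)
        (le_csSup hbdd ⟨{d}, Set.singleton_subset_iff.2 hd, Set.toFinite _,
          by rintro x rfl y rfl; exact Commute.refl _, Set.ncard_singleton d⟩)
      rintro n ⟨E, hE, hfin, hc, rfl⟩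
      exact (Set.ncard_le_one hfin).2 fun a ha b hb => h a (hE ha) b (hE hb) (hc a ha b hb)
  rw [hw]
  have hsq : ∀ a ∈ D, a * a = 1 := fun a ha => CfsgLib.ThreeTrans.mul_self hset ha
  constructor
  · intro h1
    have hcube : ∀ a ∈ D, ∀ b ∈ D, (a * b) ^ 3 = 1 := by
      intro a ha b hb
      rcases hset.2 a ha b hb with h | h
      · have hab : a = b := h1 a ha b hb ((CfsgLib.ThreeTrans.sq_eq_one_iff_commute (hsq a ha) (hsq b hb)).1 h)
        rw [hab, hsq b hb, one_pow]
      · exact h
    have hconj : ∀ a ∈ D, a ∈ conjugatesOf d := by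
      intro a ha
      refine isConj_iff.2 ⟨d * a, ?_⟩
      have h := hcube a ha d hd
      have h' : a * d * a * (d * a * d) = 1 := by
        rw [← h, pow_succ, pow_two]; group
      have hb : a * d * a = d * a * d := by
        rw [eq_inv_of_mul_eq_one_left h', mul_inv_rev, mul_inv_rev, inv_eq_of_mul_eq_one_left (hsq a ha),
          inv_eq_of_mul_eq_one_left (hsq d hd), mul_assoc]
      rw [mul_inv_rev, inv_eq_of_mul_eq_one_left (hsq a ha), inv_eq_of_mul_eq_one_left (hsq d hd)]
      calc d * a * d * (a * d) = d * (a * d * a) * d := by group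
        _ = (d * d) * a * (d * d) := by rw [hb]; group
        _ = a := by rw [hsq d hd, one_mul, mul_one]
    have hprod : ∀ g : G, ∃ k, orderOf (g * d * g⁻¹ * d) = 3 ^ k := fun g => by
      obtain ⟨j, -, hj⟩ := (Nat.dvd_prime_pow Nat.prime_three).1
        (show orderOf (g * d * g⁻¹ * d) ∣ 3 ^ 1 by
          rw [pow_one]; exact orderOf_dvd_of_pow_eq_one (hcube _ (hcl g d hd) d hd))
      exact ⟨j, hj⟩
    refine eq_top_iff.2 (hgen ▸ (Subgroup.closure_le _).2 fun a ha => ?_)
    have h := CfsgLib.ZStar.products_mem_pCore (p := 3) (by norm_num) (hset.1 d hd) hprod (hconj a ha)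
      (IsConj.refl d)
    have e : a = a * d * d := by rw [mul_assoc, hsq d hd, mul_one]
    rw [SetLike.mem_coe, e]
    exact mul_mem (Subgroup.mem_sup_right h) (Subgroup.mem_sup_left (Subgroup.mem_zpowers d))
  · intro htop a ha b hb hc
    set π := QuotientGroup.mk' (Cfsg.pCore 3 G) with hπ
    have hne : ∀ x ∈ D, π x ≠ 1 := by
      intro x hx h
      obtain ⟨k, hk⟩ := CfsgLib.PCore.isPGroup_pCore 3 G ⟨x, (QuotientGroup.eq_one_iff x).1 h⟩
      have h' : orderOf x ∣ 3 ^ k := orderOf_dvd_of_pow_eq_one (congrArg Subtype.val hk)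
      rw [hset.1 x hx] at h'
      have := Nat.prime_two.dvd_of_dvd_pow h'
      omega
    have hd1 : π d * π d = 1 := by rw [← map_mul, hsq d hd, map_one]
    have himg : ∀ x ∈ D, π x = π d := by
      intro x hx
      have h : (⊤ : Subgroup G) ≤ (Subgroup.zpowers (π d)).comap π := htop ▸ sup_le
        (Subgroup.zpowers_le.2 (Subgroup.mem_zpowers (π d)))
        (fun y hy => by
          rw [Subgroup.mem_comap, show π y = 1 from (QuotientGroup.eq_one_iff y).2 hy]; exact one_mem _)
      obtain ⟨i, hi⟩ := h (Subgroup.mem_top x)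
      have hi' : (π d) ^ i = π x := hi
      rcases Int.even_or_odd i with ⟨j, rfl⟩ | ⟨j, rfl⟩
      · exact absurd (by rw [← hi', ← two_mul, zpow_mul, zpow_two, hd1, one_zpow]) (hne x hx)
      · rw [← hi', zpow_add, zpow_mul, zpow_two, hd1, one_zpow, one_mul, zpow_one]
    have hmem : a * b ∈ Cfsg.pCore 3 G := by
      rw [← QuotientGroup.eq_one_iff]
      show π (a * b) = 1
      rw [map_mul, himg a ha, himg b hb, hd1]
    obtain ⟨k, hk⟩ := CfsgLib.PCore.isPGroup_pCore 3 G ⟨a * b, hmem⟩
    have h1 : orderOf (a * b) ∣ 3 ^ k := orderOf_dvd_of_pow_eq_one (congrArg Subtype.val hk)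
    have h2 : orderOf (a * b) ∣ 2 :=
      orderOf_dvd_of_pow_eq_one ((CfsgLib.ThreeTrans.sq_eq_one_iff_commute (hsq a ha) (hsq b hb)).2 hc)
    have h3 : a * b = 1 := orderOf_eq_one_iff.1
      (Nat.eq_one_of_dvd_coprimes (Nat.Coprime.pow_left k (by norm_num : Nat.Coprime 3 2)) h1 h2)
    exact (eq_inv_of_mul_eq_one_left h3).trans (inv_eq_of_mul_eq_one_left (hsq b hb))

end Cfsg.Agent.S5346
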