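import Cfsg.Statements.S5347
import Cfsg.Agent.ThreeTrans.Basic

set_option autoImplicit false
open Cfsg

namespace Cfsg.Agent.S5347

/-- Let D be a conjugation-invariant generating set of 3-transpositions of a finite group G, p a prime bigger than 3, and P a p-subgroup of G. If a member d of D normalizes P then d centralizes P. -/
theorem result {G : Type*} [Group G] [Finite G] {D : Set G} (hD : Cfsg.IsThreeTranspositionGroup D) {p : ℕ} (hp : p.Prime) (hp3 : 3 < p) (P : Subgroup G) (hP : IsPGroup p P) {d : G} (hd : d ∈ D) (hnorm : d ∈ Subgroup.normalizer (P : Set G)) : ∀ x ∈ P, Commute d x := by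
  intro x hx
  have hF : Fact p.Prime := ⟨hp⟩
  have hd' : d⁻¹ = d := CfsgLib.ThreeTrans.inv_eq hD.1 hd
  have he : x * d * x⁻¹ ∈ D := hD.2.1 x d hd
  have hmem : d * (x * d * x⁻¹) ∈ P := by
    have h := P.mul_mem ((Subgroup.mem_normalizer_iff.1 hnorm x).1 hx) (P.inv_mem hx)
    rw [hd'] at h
    simpa [mul_assoc] using h
  obtain ⟨k, hk⟩ := hP ⟨_, hmem⟩
  have hk' : (d * (x * d * x⁻¹)) ^ (p ^ k) = 1 := congrArg Subtype.val hk
  have hone : d * (x * d * x⁻¹) = 1 := by
    rcases hD.1.2 d hd _ he with h | h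
    · exact CfsgLib.ThreeTrans.eq_one_of_pow_coprime hk' h
        (Nat.Coprime.pow_left _ ((Nat.coprime_primes hp Nat.prime_two).2 (by omega)))
    · exact CfsgLib.ThreeTrans.eq_one_of_pow_coprime hk' h
        (Nat.Coprime.pow_left _ ((Nat.coprime_primes hp Nat.prime_three).2 (by omega)))
  rw [mul_eq_one_iff_eq_inv, mul_inv_rev, mul_inv_rev, inv_inv, hd', ← mul_assoc] at hone
  change d * x = x * d
  calc d * x = x * d * x⁻¹ * x := by rw [← hone]
    _ = x * d := inv_mul_cancel_right _ _

end Cfsg.Agent.S5347
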