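import Cfsg.Statements.S5348
import Cfsg.Agent.ThreeTrans.TwoClasses

set_option autoImplicit false
open Cfsg

namespace Cfsg.Agent.S5348

/-- Let D be a conjugation-invariant generating set of 3-transpositions of a finite group G and d a member of D. Let V be the set of members of D commuting with exactly the same members of D as d, and W the set of members w of D such that the members of D other than w commuting with w are precisely the members of D other than d commuting with d. Then V = {d} or W = {d}. -/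
theorem result {G : Type*} [Group G] [Finite G] {D : Set G} (hD : Cfsg.IsThreeTranspositionGroup D) {d : G} (hd : d ∈ D) : {v : G | v ∈ D ∧ ∀ e ∈ D, Commute v e ↔ Commute d e} = {d} ∨ {w : G | w ∈ D ∧ {y : G | y ∈ D ∧ y ≠ d ∧ Commute d y} = {y : G | y ∈ D ∧ y ≠ w ∧ Commute w y}} = {d} := by
  by_contra h
  rw [not_or] at h
  obtain ⟨h1, h2⟩ := h
  obtain ⟨v, ⟨hv, hvV⟩, hvne⟩ : ∃ v ∈ {v : G | v ∈ D ∧ ∀ e ∈ D, Commute v e ↔ Commute d e}, v ≠ d := by
    by_contra hno
    push Not at hno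
    exact h1 (Set.eq_singleton_iff_unique_mem.2 ⟨⟨hd, fun _ _ => Iff.rfl⟩, hno⟩)
  obtain ⟨w, ⟨hw, hwW⟩, hwne⟩ : ∃ w ∈ {w : G | w ∈ D ∧ {y : G | y ∈ D ∧ y ≠ d ∧ Commute d y} = {y : G | y ∈ D ∧ y ≠ w ∧ Commute w y}}, w ≠ d := by
    by_contra hno
    push Not at hno
    exact h2 (Set.eq_singleton_iff_unique_mem.2 ⟨⟨hd, rfl⟩, hno⟩)
  have hdv : Commute d v := (hvV v hv).1 (Commute.refl v)
  have hvmem : v ∈ {y : G | y ∈ D ∧ y ≠ d ∧ Commute d y} := ⟨hv, hvne, hdv⟩
  rw [hwW] at hvmem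
  have hwmem : w ∈ {y : G | y ∈ D ∧ y ≠ d ∧ Commute d y} :=
    ⟨hw, hwne, (hvV w hw).1 hvmem.2.2.symm⟩
  rw [hwW] at hwmem
  exact hwmem.2.1 rfl

end Cfsg.Agent.S5348
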