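import Cfsg.Statements.S5349
import Cfsg.Agent.ThreeTrans.TwoClasses

set_option autoImplicit false
open Cfsg

namespace Cfsg.Agent.S5349

/-- Let D be a conjugacy class of 3-transpositions generating the finite group G, with at least two members, and d a member of D. Then the set of members of D commuting with exactly the same members of D as d coincides with the set of members of D lying in the coset of d modulo the largest normal 2-subgroup of G, and also with the orbit of d under conjugation by that normal 2-subgroup. -/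
theorem result {G : Type*} [Group G] [Finite G] {D : Set G} (hD : Cfsg.IsThreeTranspositionClass D) (hD2 : ∃ a ∈ D, ∃ b ∈ D, a ≠ b) {d : G} (hd : d ∈ D) : {v : G | v ∈ D ∧ ∀ e ∈ D, Commute v e ↔ Commute d e} = {v : G | v ∈ D ∧ d⁻¹ * v ∈ Cfsg.pCore 2 G} ∧ {v : G | v ∈ D ∧ ∀ e ∈ D, Commute v e ↔ Commute d e} = {v : G | ∃ g ∈ Cfsg.pCore 2 G, v = g * d * g⁻¹} := by
  have hV : ∀ v, v ∈ D → ((∀ e ∈ D, Commute v e ↔ Commute d e) ↔ d⁻¹ * v ∈ Cfsg.pCore 2 G) :=
    fun v hv => CfsgLib.ThreeTrans.sameCommuting_iff hD hd hv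
  refine ⟨Set.ext fun v => and_congr_right fun hv => hV v hv, Set.ext fun v => ⟨?_, ?_⟩⟩
  · rintro ⟨hv, h⟩
    obtain ⟨n, hn, hnv⟩ := CfsgLib.ThreeTrans.exists_pairProducts_conj hD hd hv h
    exact ⟨n, CfsgLib.ThreeTrans.pairProducts_le_pCore
      (CfsgLib.ThreeTrans.class_toGroup hD) hn, hnv.symm⟩
  · rintro ⟨g, hg, rfl⟩
    have hv := CfsgLib.ThreeTrans.class_conj_mem hD g hd
    refine ⟨hv, (hV _ hv).2 ?_⟩
    have h : d⁻¹ * g * d ∈ Cfsg.pCore 2 G := by
      simpa using CfsgLib.ThreeTrans.pCore_normal_two.conj_mem g hg d⁻¹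
    simpa [mul_assoc] using Subgroup.mul_mem _ h (Subgroup.inv_mem _ hg)

end Cfsg.Agent.S5349
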