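import Cfsg.Statements.S5350
import Cfsg.Agent.ThreeTrans.Layer

set_option autoImplicit false
open Cfsg

namespace Cfsg.Agent.S5350

open CfsgLib.ThreeTrans

/-- Let D be a conjugacy class of 3-transpositions generating the finite group G, with at least two members, and d a member of D. Then the set of members w of D whose commuting partners in D (other than w) are exactly those of d (other than d) coincides with the set of members of D lying in the coset of d modulo the largest normal 3-subgroup of G, and also with the orbit of d under conjugation by that normal 3-subgroup. -/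
theorem result {G : Type*} [Group G] [Finite G] {D : Set G} (hD : Cfsg.IsThreeTranspositionClass D) (hD2 : ∃ a ∈ D, ∃ b ∈ D, a ≠ b) {d : G} (hd : d ∈ D) : {w : G | w ∈ D ∧ {y : G | y ∈ D ∧ y ≠ d ∧ Commute d y} = {y : G | y ∈ D ∧ y ≠ w ∧ Commute w y}} = {w : G | w ∈ D ∧ d⁻¹ * w ∈ Cfsg.pCore 3 G} ∧ {w : G | w ∈ D ∧ {y : G | y ∈ D ∧ y ≠ d ∧ Commute d y} = {y : G | y ∈ D ∧ y ≠ w ∧ Commute w y}} = {w : G | ∃ g ∈ Cfsg.pCore 3 G, w = g * d * g⁻¹} := by
  have key : ∀ w : G, w ∈ D → (Perp D d = Perp D w ↔ d⁻¹ * w ∈ Cfsg.pCore 3 G) := fun w hw => by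
    rw [inv_eq hD.1 hd]; exact perp_eq_iff hD hd hw
  refine ⟨Set.ext fun w => ⟨fun h => ⟨h.1, (key w h.1).1 h.2⟩, fun h => ⟨h.1, (key w h.1).2 h.2⟩⟩,
    Set.ext fun w => ⟨fun h => ?_, ?_⟩⟩
  · obtain ⟨n, hn, e⟩ := exists_three_conj hD hd h.1 h.2
    exact ⟨n, hn, e.symm⟩
  · rintro ⟨g, hg, rfl⟩
    refine ⟨class_conj_mem hD g hd, (key _ (class_conj_mem hD g hd)).2 ?_⟩
    rw [show d⁻¹ * (g * d * g⁻¹) = (d⁻¹ * g * d) * g⁻¹ by group]
    have h1 := (Cfsg.pCore_normal 3 G).conj_mem g hg d⁻¹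
    rw [inv_inv] at h1
    exact mul_mem h1 (inv_mem hg)

end Cfsg.Agent.S5350
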