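import Cfsg.Statements.S5353
import Cfsg.Agent.ThreeTrans.Layer

set_option autoImplicit false
open Cfsg

namespace Cfsg.Agent.S5353

open CfsgLib.ThreeTrans

/-- Let D be a conjugacy class of 3-transpositions generating the finite group G, with at least two members, such that the largest normal 2-subgroup and the largest normal 3-subgroup of G are central, and let L be a quasisimple normal subgroup with generalized Fitting subgroup of G equal to L times the centre. If L has index at most 2 then G acts primitively on D by conjugation; and if the commuting graph of D is connected then L has index at most 2. -/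
theorem result {G : Type*} [Group G] [Finite G] {D : Set G} (hD : Cfsg.IsThreeTranspositionClass D) (hD2 : ∃ a ∈ D, ∃ b ∈ D, a ≠ b) (h2 : Cfsg.pCore 2 G ≤ Subgroup.center G) (h3 : Cfsg.pCore 3 G ≤ Subgroup.center G) (L : Subgroup G) [L.Normal] (hL : Cfsg.IsQuasisimple L) (hF : Cfsg.generalizedFittingSubgroup G = L ⊔ Subgroup.center G) : (L.index ≤ 2 → Cfsg.IsPrimitiveUnderConj D) ∧ ((Cfsg.commutingGraph D).Connected → L.index ≤ 2) := by
  haveI := Fact.mk Nat.prime_three
  have hC := centralizer_le_center hD h2 h3 L hF
  refine ⟨fun hidx => ?_, fun hconn => ?_⟩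
  · obtain ⟨hM, hG⟩ := mono_of_index_two L hL hidx hC
    exact isPrimitive hD hM (hG 3)
  obtain ⟨a, ha, -, -, -⟩ := id hD2
  refine index_le_two_of_congr hD L ha fun c hc => ?_
  have key : ∀ u v : D, (Cfsg.commutingGraph D).Reachable u v → ((u : G) : G ⧸ L) = ((v : G) : G ⧸ L) := by
    intro u v h
    obtain ⟨w⟩ := h
    induction w with
    | nil => rfl
    | @cons x y z hxy _ ih =>
      refine Eq.trans ?_ ih
      have hc' : Commute (x : G) (y : G) := by
        rcases (SimpleGraph.fromRel_adj _ _ _).1 hxy with ⟨-, h | h⟩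
        · exact h
        · exact h.symm
      have h := mul_mem_of_commute hD hD2 L hL hC y.2 x.2 hc'
      rw [← QuotientGroup.eq_one_iff, QuotientGroup.mk_mul, mul_eq_one_iff_eq_inv, ← QuotientGroup.mk_inv,
        inv_eq hD.1 y.2] at h
      exact h
  rw [← QuotientGroup.eq_one_iff, QuotientGroup.mk_mul, mul_eq_one_iff_eq_inv, ← QuotientGroup.mk_inv,
    inv_eq hD.1 ha]
  exact key ⟨c, hc⟩ ⟨a, ha⟩ (hconn.preconnected _ _)

end Cfsg.Agent.S5353
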