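import Cfsg.Statements.S5354
import Cfsg.Agent.ThreeTrans.Layer

set_option autoImplicit false
open Cfsg

namespace Cfsg.Agent.S5354

open CfsgLib.ThreeTrans

/-- Let D be a conjugation-invariant generating set of 3-transpositions of the finite group G on which G acts primitively by conjugation, and suppose two different members of D commute (width at least 2). Then G has a quasisimple normal subgroup L of index at most 2 with the generalized Fitting subgroup of G equal to L times the centre, the commuting graph of D is connected, and for d in D the subgroup generated by the members of D commuting with d is a maximal D-subgroup: it is proper, and every subgroup generated by members of D that contains it is either it or G. -/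
theorem result {G : Type*} [Group G] [Finite G] {D : Set G} (hD : Cfsg.IsThreeTranspositionGroup D) (hprim : Cfsg.IsPrimitiveUnderConj D) (hw : ∃ a ∈ D, ∃ b ∈ D, a ≠ b ∧ Commute a b) : (∃ L : Subgroup G, L.Normal ∧ Cfsg.IsQuasisimple L ∧ L.index ≤ 2 ∧ Cfsg.generalizedFittingSubgroup G = L ⊔ Subgroup.center G) ∧ (Cfsg.commutingGraph D).Connected ∧ ∀ d ∈ D, Subgroup.closure {y : G | y ∈ D ∧ Commute d y} ≠ ⊤ ∧ ∀ H : Subgroup G, Cfsg.IsDSubgroup D H → Subgroup.closure {y : G | y ∈ D ∧ Commute d y} ≤ H → H = Subgroup.closure {y : G | y ∈ D ∧ Commute d y} ∨ H = ⊤ := by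
  haveI := Fact.mk Nat.prime_three
  have hC' := class_of_primitive hD hprim
  obtain ⟨h2, h3, L, hLn, hL, hidx, hF⟩ := primitive_structure hC' hprim hw
  haveI := hLn
  obtain ⟨hM, hG⟩ := mono_of_index_two L hL hidx (centralizer_le_center hC' h2 h3 L hF)
  refine ⟨⟨L, hLn, hL, hidx, hF⟩, commutingGraph_connected hC' hprim hw, fun d hd => ?_⟩
  set S : Set G := {y : G | y ∈ D ∧ Commute d y}
  have hS : insert d (Perp D d) ⊆ S := by
    rintro y (rfl | hy)
    · exact ⟨hd, Commute.refl y⟩
    · exact ⟨hy.1, hy.2.2⟩
  refine ⟨fun htop => ?_, fun H hH hle => ?_⟩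
  · obtain ⟨e, he, hde⟩ := adj_nonempty hC' (hG 3) hd
    have hmem : e ∈ Subgroup.centralizer ({d} : Set G) := by
      have h : Subgroup.closure S ≤ Subgroup.centralizer ({d} : Set G) := by
        rw [Subgroup.closure_le]
        intro z hz
        rw [SetLike.mem_coe, Subgroup.mem_centralizer_singleton_iff]
        exact hz.2.symm.eq
      exact h (htop ▸ Subgroup.mem_top e)
    exact hde (Subgroup.mem_centralizer_singleton_iff.1 hmem).symm
  by_cases hall : ∀ x ∈ D, x ∈ H → Commute d x
  · refine Or.inl (le_antisymm ?_ hle)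
    rw [← hH, Subgroup.closure_le]
    exact fun x hx => Subgroup.subset_closure ⟨hx.1, hall x hx.1 hx.2⟩
  · push Not at hall
    obtain ⟨x, hx, hxH, hdx⟩ := hall
    refine Or.inr (eq_top_iff.2 ?_)
    rw [← hC'.2.2, Subgroup.closure_le]
    intro y hy
    by_cases hdy : Commute d y
    · exact hle (Subgroup.subset_closure ⟨hy, hdy⟩)
    obtain ⟨g, hg, rfl⟩ := adj_transitive' hC' hM (hG 3) hd ⟨hx, hdx⟩ ⟨hy, hdy⟩
    have hgH : g ∈ H := hle (Subgroup.closure_mono hS hg)
    exact mul_mem (mul_mem hgH hxH) (inv_mem hgH)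

end Cfsg.Agent.S5354
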