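import Cfsg.Statements.S5355
import Cfsg.Agent.ThreeTrans.TwoClasses
import Cfsg.Agent.ThreeTrans.Sym4
-- import your own Cfsg.Agent.* helpers here

set_option autoImplicit false
open Cfsg

namespace Cfsg.Agent.S5355

open CfsgLib.ThreeTrans

theorem exists_partner {G : Type*} [Group G] {D : Set G} (hD : Cfsg.IsThreeTranspositionClass D)
    {d : G} (hd : d ∈ D) (hm : {y : G | y ∈ D ∧ Commute d y}.ncard = 2) {e : G} (he : e ∈ D) :
    ∃ e', e' ∈ D ∧ e' ≠ e ∧ Commute e e' ∧ ∀ f ∈ D, Commute e f → f = e ∨ f = e' := by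
  obtain ⟨d', hset⟩ : ∃ d', {y : G | y ∈ D ∧ Commute d y} = {d, d'} ∧ d ≠ d' := by
    obtain ⟨x, y, hxy, hset⟩ := Set.ncard_eq_two.1 hm
    have hdm : d ∈ ({x, y} : Set G) := hset ▸ ⟨hd, Commute.refl d⟩
    rcases hdm with rfl | rfl
    · exact ⟨y, hset, hxy⟩
    · exact ⟨x, by rw [hset, Set.pair_comm], hxy.symm⟩
  obtain ⟨hset, hne⟩ := hset
  have hd' : d' ∈ D ∧ Commute d d' := hset.ge (Set.mem_insert_of_mem _ rfl)
  obtain ⟨g, rfl⟩ := class_exists_conj hD hd he
  refine ⟨g * d' * g⁻¹, class_conj_mem hD g hd'.1,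
    fun h => hne (mul_left_cancel (mul_right_cancel h.symm)), commute_conj_iff.2 hd'.2,
    fun f hf hcf => ?_⟩
  have h1 : g⁻¹ * f * g ∈ D := by simpa using class_conj_mem hD g⁻¹ hf
  have h2 : Commute d (g⁻¹ * f * g) := by
    rw [← commute_conj_iff (g := g)]; simpa [mul_assoc] using hcf
  rcases hset.le ⟨h1, h2⟩ with h | h
  · exact Or.inl (by rw [← h]; group)
  · rw [Set.mem_singleton_iff] at h
    exact Or.inr (by rw [← h]; group)

theorem n_facts {G : Type*} [Group G] {D : Set G} (hD : Cfsg.IsThreeTranspositionClass D)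
    (π : ∀ e ∈ D, G) (hπ : ∀ e (he : e ∈ D), π e he ∈ D ∧ π e he ≠ e ∧ Commute e (π e he) ∧
      ∀ f ∈ D, Commute e f → f = e ∨ f = π e he)
    {p q : G} (hp : p ∈ D) (hq : q ∈ D) (hpq : ¬ Commute p q) :
    ∃ (φ : Equiv.Perm (Fin 4) →* G) (hr : p * q * p ∈ D), Function.Injective φ ∧
      φ (Equiv.swap 0 1) = p ∧ φ (Equiv.swap 1 2) = q ∧ φ (Equiv.swap 2 3) = π p hp ∧
      φ (Equiv.swap 0 3) = π q hq ∧ φ (Equiv.swap 0 2) = p * q * p ∧
      φ (Equiv.swap 1 3) = π (p * q * p) hr ∧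
      (p * π p hp) * (q * π q hq) = p * q * p * π (p * q * p) hr ∧
      (q * π q hq) * (p * π p hp) = (p * π p hp) * (q * π q hq) ∧
      p * (q * π q hq) * p = (p * π p hp) * (q * π q hq) ∧
      (p * π p hp) * (p * π p hp) = 1 := by
  obtain ⟨hp'D, hp'ne, hp'c, -⟩ := hπ p hp
  have hqp' : ¬ Commute q (π p hp) := by
    intro h
    obtain ⟨-, -, -, h5⟩ := hπ (π p hp) hp'D
    rcases h5 p hp hp'c.symm with e | e
    · exact hp'ne e.symm
    · rcases h5 q hq h.symm with e' | e'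
      · exact hpq (e' ▸ hp'c)
      · exact hpq (e.trans e'.symm ▸ Commute.refl p)
  obtain ⟨φ, hinj, h01, h12, h23⟩ := exists_sym4 hD.1 hp hq hp'D hp'ne.symm hp'c hpq hqp'
  have hconj : ∀ σ τ : Equiv.Perm (Fin 4), φ τ ∈ D → φ (σ * τ * σ⁻¹) ∈ D := fun σ τ h => by
    rw [map_mul, map_mul, map_inv]; exact class_conj_mem hD _ h
  have hr : p * q * p ∈ D := by
    have := class_conj_mem hD p hq; rwa [inv_eq hD.1 hp] at this
  have h02 : φ (Equiv.swap 0 2) = p * q * p := by
    rw [show (Equiv.swap 0 2 : Equiv.Perm (Fin 4)) = Equiv.swap 0 1 * Equiv.swap 1 2 * Equiv.swap 0 1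
      from by decide, map_mul, map_mul, h01, h12]
  have h03D : φ (Equiv.swap 0 3) ∈ D := by
    have h := hconj (Equiv.swap 2 3) (Equiv.swap 0 2) (h02 ▸ hr)
    rwa [show (Equiv.swap 2 3 * Equiv.swap 0 2 * (Equiv.swap 2 3)⁻¹ : Equiv.Perm (Fin 4))
      = Equiv.swap 0 3 from by decide] at h
  have h13D : φ (Equiv.swap 1 3) ∈ D := by
    have h := hconj (Equiv.swap 0 1) (Equiv.swap 0 3) h03D
    rwa [show (Equiv.swap 0 1 * Equiv.swap 0 3 * (Equiv.swap 0 1)⁻¹ : Equiv.Perm (Fin 4))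
      = Equiv.swap 1 3 from by decide] at h
  have h03 : φ (Equiv.swap 0 3) = π q hq := by
    obtain ⟨-, -, -, h4⟩ := hπ q hq
    refine (h4 _ h03D ?_).resolve_left fun h => ?_
    · rw [← h12, Commute, SemiconjBy, ← map_mul, ← map_mul]; congr 1; decide
    · rw [← h12] at h; exact absurd (hinj h) (by decide)
  have h13 : φ (Equiv.swap 1 3) = π (p * q * p) hr := by
    obtain ⟨-, -, -, h4⟩ := hπ _ hr
    refine (h4 _ h13D ?_).resolve_left fun h => ?_
    · rw [← h02, Commute, SemiconjBy, ← map_mul, ← map_mul]; congr 1; decide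
    · rw [← h02] at h; exact absurd (hinj h) (by decide)
  refine ⟨φ, hr, hinj, h01, h12, h23, h03, h02, h13, ?_, ?_, ?_, ?_⟩
  all_goals rw [← h23]
  · rw [← h13, ← h02, ← h03, ← h01, ← h12]; simp only [← map_mul]; congr 1; decide
  · rw [← h03, ← h01, ← h12]; simp only [← map_mul]; congr 1; decide
  · rw [← h03, ← h01, ← h12]; simp only [← map_mul]; congr 1; decide
  · rw [← h01]; simp only [← map_mul]; rw [← map_one φ]; congr 1; decide


/-- Let D be a conjugacy class of 3-transpositions generating the finite group G, with at least two members, and d a member of D. Suppose that every member of D commuting with d commutes with exactly the same members of D as d does, and that exactly one member of D other than d commutes with d. Then G is isomorphic to the symmetric group of degree 4. -/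
theorem result {G : Type*} [Group G] [Finite G] {D : Set G} (hD : Cfsg.IsThreeTranspositionClass D) (hD2 : ∃ a ∈ D, ∃ b ∈ D, a ≠ b) {d : G} (hd : d ∈ D) (hV : {y : G | y ∈ D ∧ Commute d y} = {v : G | v ∈ D ∧ ∀ e ∈ D, Commute v e ↔ Commute d e}) (hm : {y : G | y ∈ D ∧ Commute d y}.ncard = 2) : Nonempty (G ≃* Equiv.Perm (Fin 4)) := by
  choose π hπ using fun (e : G) (he : e ∈ D) => exists_partner hD hd hm he
  obtain ⟨a, ha, b, hb, hab⟩ := hD2
  obtain ⟨x, hx, hax⟩ := exists_not_commute hD ha hb hab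
  obtain ⟨φ, hr, hinj, h01, h12, h23, h03, h02, h13, hA, hB, -, hsq⟩ := n_facts hD π hπ ha hx hax
  have hsub : ∀ e ∈ D, e ∈ φ.range := by
    intro e he
    obtain ⟨he'D, he'ne, he'c, hec⟩ := hπ e he
    by_cases hea : Commute e a
    · obtain ⟨-, -, -, h4⟩ := hπ a ha
      rcases h4 e he hea.symm with h | h
      · exact ⟨_, h01.trans h.symm⟩
      · exact ⟨_, h23.trans h.symm⟩
    by_cases hex : Commute e x
    · obtain ⟨-, -, -, h4⟩ := hπ x hx
      rcases h4 e he hex.symm with h | h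
      · exact ⟨_, h12.trans h.symm⟩
      · exact ⟨_, h03.trans h.symm⟩
    by_cases heu : Commute e (a * x * a)
    · obtain ⟨-, -, -, h4⟩ := hπ (a * x * a) hr
      rcases h4 e he heu.symm with h | h
      · exact ⟨_, h02.trans h.symm⟩
      · exact ⟨_, h13.trans h.symm⟩
    exfalso
    obtain ⟨-, -, -, -, -, -, -, -, -, -, hBa, hCa, hse⟩ := n_facts hD π hπ he ha hea
    obtain ⟨-, -, -, -, -, -, -, -, -, -, -, hCx, -⟩ := n_facts hD π hπ he hx hex
    obtain ⟨-, -, -, -, -, -, -, -, -, -, -, hCu, -⟩ := n_facts hD π hπ he hr heu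
    set ne := e * π e he
    set na := a * π a ha
    set nx := x * π x hx
    have hee : e * e = 1 := mul_self hD.1 he
    have h1 : e * (na * nx) * e = (ne * na) * (ne * nx) := by
      rw [← hCa, ← hCx]
      simp only [mul_assoc]
      rw [← mul_assoc e e, hee, one_mul]
    rw [hA, hCu, ← hA] at h1
    have h2 : ne * na * (ne * nx) = na * nx := by
      rw [← hBa, mul_assoc na, ← mul_assoc ne ne, hse, one_mul]
    rw [h2, mul_eq_right] at h1
    apply he'ne
    calc π e he = e * ne := by rw [← mul_assoc, hee, one_mul]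
      _ = e := by rw [h1, mul_one]
  have hsurj : Function.Surjective φ :=
    MonoidHom.range_eq_top.1 (top_le_iff.1 (hD.2.2 ▸ (Subgroup.closure_le _).2 hsub))
  exact ⟨(MulEquiv.ofBijective φ ⟨hinj, hsurj⟩).symm⟩

end Cfsg.Agent.S5355
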