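import Cfsg.Statements.S5356
import Cfsg.Agent.LargeEx.Basic
import Cfsg.Agent.S5346
import Cfsg.Agent.S5349
import Cfsg.Agent.QDWr.LocalIndex
import Cfsg.Agent.ThreeTrans.Basic

set_option autoImplicit false
open Cfsg

namespace Cfsg.Agent.S5356

universe u

/-- The norm identity: a solution `w` of `v = w + n w`. -/
theorem split_of_norm {G : Type*} [Group G] (V : Subgroup G) [hV : V.Normal]
    (hVc : ∀ a ∈ V, ∀ b ∈ V, a * b = b * a) (hV2 : ∀ a ∈ V, a * a = 1) {n y v : G}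
    (hv : v ∈ V) (hvn : n * v * n⁻¹ = v)
    (hy : ∀ a ∈ V, n * (y * a * y⁻¹) * n⁻¹ = y * (y * (n * a * n⁻¹) * y⁻¹) * y⁻¹)
    (hN : v * (y * v * y⁻¹) * (y * (y * v * y⁻¹) * y⁻¹) = 1) :
    ∃ w ∈ V, v = w * (n * w * n⁻¹) := by
  refine ⟨y * v * y⁻¹, hV.conj_mem v hv y, ?_⟩
  rw [hy v hv, hvn]
  have h1 := eq_inv_of_mul_eq_one_left hN
  have hmem : y * (y * v * y⁻¹) * y⁻¹ ∈ V := hV.conj_mem _ (hV.conj_mem v hv y) y
  have h3 : v * (y * v * y⁻¹) = y * (y * v * y⁻¹) * y⁻¹ :=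
    h1.trans (inv_eq_of_mul_eq_one_left (hV2 _ hmem))
  calc v = v * ((y * v * y⁻¹) * (y * v * y⁻¹)) := by rw [hV2 _ (hV.conj_mem v hv y), mul_one]
    _ = v * (y * v * y⁻¹) * (y * v * y⁻¹) := by group
    _ = (y * (y * v * y⁻¹) * y⁻¹) * (y * v * y⁻¹) := by rw [h3]
    _ = _ := hVc _ hmem _ (hV.conj_mem v hv y)

/-- An involution of a 3-transposition set normalizes a lift of the odd part over a normal 2-subgroup. -/
theorem exists_invariant_lift : ∀ (m : ℕ) (G : Type u) [Group G] [Finite G], Nat.card G = m →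
    ∀ (D : Set G), (∀ g : G, ∀ a ∈ D, g * a * g⁻¹ ∈ D) → (∀ a ∈ D, a * a = 1) →
      (∀ a ∈ D, ∀ b ∈ D, Commute a b ∨ (a * b) ^ 3 = 1) →
    ∀ d ∈ D, Subgroup.closure (conjugatesOf d) = ⊤ → ∀ (O K : Subgroup G), O.Normal → K.Normal →
      IsPGroup 2 O → O ≤ K → (∀ x ∈ K, ∃ k : ℕ, x ^ 3 ^ k ∈ O) → Subgroup.zpowers d ⊔ K = ⊤ → d ∉ O →
      ∃ P : Subgroup G, IsPGroup 3 P ∧ P ≤ K ∧ d ∈ Subgroup.normalizer (P : Set G) ∧ P ⊔ O = K := by
  intro m
  induction m using Nat.strong_induction_on with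
  | _ m ih =>
  intro G _ _ hm D hDconj hD2 hD3 d hd hgen O K hO hK hOp hOK hK3 hdK hdO
  classical
  haveI : Fact (Nat.Prime 2) := ⟨Nat.prime_two⟩
  haveI : Fact (Nat.Prime 3) := ⟨Nat.prime_three⟩
  by_cases hObot : O = ⊥
  · refine ⟨K, fun x => ?_, le_rfl, ?_, by rw [hObot, sup_bot_eq]⟩
    · obtain ⟨k, hk⟩ := hK3 x x.2
      rw [hObot, Subgroup.mem_bot] at hk
      exact ⟨k, Subtype.ext hk⟩
    · rw [Subgroup.normalizer_eq_top]; exact Subgroup.mem_top _
  -- a minimal normal subgroup inside `O`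
  obtain ⟨V, ⟨hVn, hV1, hVO⟩, hVmin⟩ :=
    (Set.toFinite {V : Subgroup G | V.Normal ∧ V ≠ ⊥ ∧ V ≤ O}).exists_minimal ⟨O, hO, hObot, le_rfl⟩
  haveI := hVn
  have hmin : ∀ U : Subgroup G, U.Normal → U ≤ V → U = ⊥ ∨ U = V := fun U hU hUV => by
    by_cases hU1 : U = ⊥
    · exact Or.inl hU1
    · exact Or.inr (le_antisymm hUV (hVmin ⟨hU, hU1, hUV.trans hVO⟩ hUV))
  -- `V` is central in `O`
  have hVcO : ∀ a ∈ V, ∀ o ∈ O, a * o = o * a := by
    set Z : Subgroup G := V ⊓ Subgroup.centralizer (O : Set G) with hZ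
    haveI : (Subgroup.centralizer (O : Set G)).Normal := by haveI := hO; exact Subgroup.normal_centralizer
    have hZn : Z.Normal := by rw [hZ]; infer_instance
    rcases hmin Z hZn inf_le_left with h | h
    · exfalso
      have hVp : Even (Nat.card V) := by
        obtain ⟨k, hk⟩ := (hOp.to_le hVO).exists_card_eq
        rw [hk, Nat.even_pow]
        refine ⟨even_two, fun hk0 => hV1 ?_⟩
        rw [hk0, pow_zero] at hk
        exact Subgroup.eq_bot_of_card_eq _ hk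
      obtain ⟨z, hzV, hz1, hz⟩ := CfsgLib.LargeEx.exists_fixed_of_even (N := V) hOp hVp
      have : z ∈ Z := ⟨hzV, Subgroup.mem_centralizer_iff.2 hz⟩
      rw [h] at this
      exact hz1 (Subgroup.mem_bot.1 this)
    · intro a ha o ho
      exact (Subgroup.mem_centralizer_iff.1 (h.ge ha).2 o ho).symm
  have hVc : ∀ a ∈ V, ∀ b ∈ V, a * b = b * a := fun a ha b hb => hVcO a ha b (hVO hb)
  have hV2 : ∀ a ∈ V, a * a = 1 := by
    let U : Subgroup G :=
      { carrier := {a | a ∈ V ∧ a * a = 1}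
        one_mem' := ⟨one_mem _, one_mul 1⟩
        mul_mem' := fun {a b} ha hb => ⟨mul_mem ha.1 hb.1, by
          calc a * b * (a * b) = a * (b * a) * b := by group
            _ = a * (a * b) * b := by rw [hVc a ha.1 b hb.1]
            _ = (a * a) * (b * b) := by group
            _ = 1 := by rw [ha.2, hb.2, one_mul]⟩
        inv_mem' := fun {a} ha => ⟨inv_mem ha.1, by rw [← mul_inv_rev, ha.2, inv_one]⟩ }
    have hUn : U.Normal := ⟨fun a ha g => ⟨hVn.conj_mem a ha.1 g, by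
      calc g * a * g⁻¹ * (g * a * g⁻¹) = g * (a * a) * g⁻¹ := by group
        _ = 1 := by rw [ha.2]; group⟩⟩
    rcases hmin U hUn (fun a ha => ha.1) with h | h
    · exfalso
      obtain ⟨k, hk⟩ := (hOp.to_le hVO).exists_card_eq
      have hk1 : k ≠ 0 := fun hk0 => hV1 (Subgroup.eq_bot_of_card_eq _ (by rw [hk, hk0, pow_zero]))
      obtain ⟨⟨x, hxV⟩, hx⟩ := exists_prime_orderOf_dvd_card' (G := V) 2 (hk ▸ dvd_pow_self 2 hk1)
      have hxx : x * x = 1 := by
        have := pow_orderOf_eq_one (⟨x, hxV⟩ : V)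
        rw [hx, pow_two] at this
        exact congrArg Subtype.val this
      have : x ∈ U := ⟨hxV, hxx⟩
      rw [h, Subgroup.mem_bot] at this
      subst this
      rw [show (⟨1, hxV⟩ : V) = 1 from rfl, orderOf_one] at hx
      exact absurd hx (by norm_num)
    · exact fun a ha => (h.ge ha).2
  -- the quotient by `V`
  set π := QuotientGroup.mk' V with hπ
  have hsurj := QuotientGroup.mk'_surjective V
  have hker : ∀ x, π x = 1 ↔ x ∈ V := fun x => QuotientGroup.eq_one_iff x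
  have hcardlt : Nat.card (G ⧸ V) < m := by
    rw [← hm, Subgroup.card_eq_card_quotient_mul_card_subgroup V]
    have h2 : 2 ≤ Nat.card V := (Subgroup.one_lt_card_iff_ne_bot V).2 hV1
    have := Nat.card_pos (α := G ⧸ V)
    nlinarith
  have hmapiff : ∀ x, π x ∈ O.map π ↔ x ∈ O := by
    intro x
    refine ⟨?_, fun hx => Subgroup.mem_map_of_mem π hx⟩
    rintro ⟨o, ho, hox⟩
    have h1 : π (o⁻¹ * x) = 1 := by rw [map_mul, map_inv, hox, inv_mul_cancel]
    have := mul_mem ho (hVO ((hker _).1 h1))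
    rwa [mul_inv_cancel_left] at this
  obtain ⟨Pb, hPb3, hPbK, hPbd, hPbO⟩ := ih _ hcardlt (G ⧸ V) rfl (π '' D)
    (by
      rintro g' _ ⟨a, ha, rfl⟩
      obtain ⟨g, rfl⟩ := hsurj g'
      exact ⟨g * a * g⁻¹, hDconj g a ha, by rw [map_mul, map_mul, map_inv]⟩)
    (by rintro _ ⟨a, ha, rfl⟩; rw [← map_mul, hD2 a ha, map_one])
    (by
      rintro _ ⟨a, ha, rfl⟩ _ ⟨b, hb, rfl⟩
      rcases hD3 a ha b hb with h | h
      · exact Or.inl (h.map π)
      · exact Or.inr (by rw [← map_mul, ← map_pow, h, map_one]))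
    (π d) ⟨d, hd, rfl⟩
    (by
      rw [eq_top_iff, ← Subgroup.map_top_of_surjective π hsurj, ← hgen, MonoidHom.map_closure]
      refine Subgroup.closure_mono ?_
      rintro _ ⟨a, ha, rfl⟩
      exact π.map_isConj ha)
    (O.map π) (K.map π) (hO.map π hsurj) (hK.map π hsurj) (hOp.map π) (Subgroup.map_mono hOK)
    (by
      rintro _ ⟨x, hx, rfl⟩
      obtain ⟨k, hk⟩ := hK3 x hx
      exact ⟨k, by rw [← map_pow]; exact Subgroup.mem_map_of_mem π hk⟩)
    (by rw [← MonoidHom.map_zpowers, ← Subgroup.map_sup, hdK, Subgroup.map_top_of_surjective π hsurj])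
    (fun h => hdO ((hmapiff d).1 h))
  -- the preimage `W` and its Sylow 3-subgroup
  set W := Pb.comap π with hW
  have hVW : V ≤ W := fun x hx => by
    show π x ∈ Pb
    rw [(hker x).2 hx]; exact one_mem _
  have hWK : W ≤ K := by
    intro x hx
    obtain ⟨k, hk, hkx⟩ := hPbK hx
    have h1 : π (k⁻¹ * x) = 1 := by rw [map_mul, map_inv, hkx, inv_mul_cancel]
    have := mul_mem hk ((hVO.trans hOK) ((hker _).1 h1))
    rwa [mul_inv_cancel_left] at this
  let S : Sylow 3 W := default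
  set P : Subgroup G := (S : Subgroup W).map W.subtype with hPdef
  have hP3 : IsPGroup 3 P := S.2.map _
  have hPW : P ≤ W := Subgroup.map_subtype_le _
  have hPV1 : ∀ x ∈ P, x ∈ V → x = 1 := by
    intro x hxP hxV
    obtain ⟨k, hk⟩ := hP3 ⟨x, hxP⟩
    obtain ⟨j, hj⟩ := (hOp.to_le hVO) ⟨x, hxV⟩
    have hk' : x ^ 3 ^ k = 1 := congrArg Subtype.val hk
    have hj' : x ^ 2 ^ j = 1 := congrArg Subtype.val hj
    exact orderOf_eq_one_iff.1 (Nat.eq_one_of_dvd_coprimes
      (Nat.Coprime.pow k j (by norm_num : Nat.Coprime 3 2))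
      (orderOf_dvd_of_pow_eq_one hk') (orderOf_dvd_of_pow_eq_one hj'))
  have hWPV : ∀ w ∈ W, ∃ p ∈ P, ∃ a ∈ V, w = a * p := by
    have hPVW : P ⊔ V ≤ W := sup_le hPW hVW
    have htop : (P ⊔ V).map π = Pb := by
      apply le_antisymm
      · rintro _ ⟨x, hx, rfl⟩; exact hPVW hx
      · have hsW : Function.Surjective (π.subgroupComap Pb) := fun ⟨y, hy⟩ => by
          obtain ⟨x, rfl⟩ := hsurj y
          exact ⟨⟨x, hy⟩, rfl⟩
        have hrel : ¬ 3 ∣ (((S : Subgroup W).map (π.subgroupComap Pb))).index := fun h =>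
          S.not_dvd_index (h.trans (Subgroup.index_map_dvd _ hsW))
        obtain ⟨k, hk⟩ := hPb3.index ((S : Subgroup W).map (π.subgroupComap Pb))
        rw [hk] at hrel
        have hk0 : k = 0 := by
          by_contra h
          exact hrel (dvd_pow_self 3 h)
        rw [hk0, pow_zero, Subgroup.index_eq_one] at hk
        intro y hy
        obtain ⟨x, hx, hxy⟩ := (hk.ge (Subgroup.mem_top (⟨y, hy⟩ : Pb)))
        exact ⟨x, Subgroup.mem_sup_left ⟨x, hx, rfl⟩, congrArg Subtype.val hxy⟩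
    intro w hw
    obtain ⟨x, hx, hxw⟩ := htop.ge (show π w ∈ Pb from hw)
    have hxw' : π (w * x⁻¹) = 1 := by rw [map_mul, map_inv, hxw, mul_inv_cancel]
    have hwmem : w ∈ V ⊔ P := by
      have := mul_mem (Subgroup.mem_sup_left ((hker _).1 hxw') : w * x⁻¹ ∈ V ⊔ P) (by rwa [sup_comm])
      rwa [inv_mul_cancel_right] at this
    rw [← SetLike.mem_coe, Subgroup.normal_mul] at hwmem
    obtain ⟨a, ha, p, hp, rfl⟩ := hwmem
    exact ⟨p, hp, a, ha, rfl⟩
  have hPsylow : ∀ R : Subgroup G, R ≤ W → IsPGroup 3 R → Nat.card R = Nat.card P →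
      ∃ w ∈ W, R = P.map (MulAut.conj w).toMonoidHom := by
    intro R hRW hR3 hRc
    obtain ⟨T, hT⟩ := IsPGroup.exists_le_sylow (hR3.of_equiv (Subgroup.subgroupOfEquivOfLe hRW).symm)
    obtain ⟨w, hw⟩ := MulAction.exists_smul_eq W S T
    refine ⟨w, w.2, Subgroup.eq_of_le_of_card_ge ?_ ?_⟩
    · intro x hx
      have h1 : (⟨x, hRW hx⟩ : W) ∈ (T : Subgroup W) := hT hx
      rw [← hw, Sylow.coe_subgroup_smul, Subgroup.mem_smul_pointwise_iff_exists] at h1
      obtain ⟨s, hs, hsx⟩ := h1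
      exact ⟨(s : G), ⟨s, hs, rfl⟩, congrArg Subtype.val hsx⟩
    · rw [hRc, Subgroup.card_map_of_injective (MulAut.conj (w : G)).injective]
  have hdd : d * d = 1 := hD2 d hd
  have hdinv : d⁻¹ = d := inv_eq_of_mul_eq_one_right hdd
  have hdW : ∀ x ∈ W, d * x * d⁻¹ ∈ W := by
    intro x hx
    show π (d * x * d⁻¹) ∈ Pb
    rw [map_mul, map_mul, map_inv]
    exact (Subgroup.mem_normalizer_iff.1 hPbd _).1 hx
  obtain ⟨w, hwW, hw⟩ := hPsylow (P.map (MulAut.conj d).toMonoidHom)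
    (by rintro _ ⟨x, hx, rfl⟩; exact hdW x (hPW hx)) (hP3.map _)
    (Subgroup.card_map_of_injective (MulAut.conj d).injective)
  obtain ⟨p₀, hp₀, v, hv, rfl⟩ := hWPV w hwW
  obtain ⟨n, hn⟩ : ∃ n, n = v⁻¹ * d := ⟨_, rfl⟩
  have hdn : d = v * n := by rw [hn]; group
  have hnP : n ∈ Subgroup.normalizer (P : Set G) := by
    rw [Subgroup.mem_normalizer_iff_map_conj_eq]
    refine Subgroup.eq_of_le_of_card_ge ?_ (Subgroup.card_map_of_injective (MulAut.conj n).injective).ge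
    rintro _ ⟨x, hx, rfl⟩
    have h1 : d * x * d⁻¹ ∈ P.map (MulAut.conj (v * p₀)).toMonoidHom := hw ▸ ⟨x, hx, rfl⟩
    obtain ⟨y, hy, hyx⟩ := h1
    simp only [MulEquiv.coe_toMonoidHom, MulAut.conj_apply] at hyx ⊢
    have : n * x * n⁻¹ = p₀ * y * p₀⁻¹ := by
      calc n * x * n⁻¹ = v⁻¹ * (d * x * d⁻¹) * v := by rw [hn]; group
        _ = v⁻¹ * (v * p₀ * y * (v * p₀)⁻¹) * v := by rw [hyx]
        _ = p₀ * y * p₀⁻¹ := by group
    show n * x * n⁻¹ ∈ P
    rw [this]
    exact mul_mem (mul_mem hp₀ hy) (inv_mem hp₀)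
  have hPO : P ⊔ O = K := by
    refine le_antisymm (sup_le (hPW.trans hWK) hOK) fun k hk => ?_
    obtain ⟨y, hy, o, ho, hyo⟩ : ∃ y ∈ Pb, ∃ o ∈ O.map π, y * o = π k := by
      have hmem : π k ∈ Pb ⊔ O.map π := hPbO ▸ Subgroup.mem_map_of_mem π hk
      haveI : (O.map π).Normal := hO.map π hsurj
      rw [← SetLike.mem_coe, Subgroup.mul_normal] at hmem
      obtain ⟨y, hy, o, ho, h⟩ := hmem
      exact ⟨y, hy, o, ho, h⟩
    obtain ⟨x, rfl⟩ := hsurj y
    obtain ⟨p, hp, a, ha, rfl⟩ := hWPV x hy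
    have h1 : π (p⁻¹ * k) ∈ O.map π := by
      rw [map_mul, map_inv, ← hyo, map_mul, (hker a).2 ha, one_mul, inv_mul_cancel_left]
      exact ho
    have := mul_mem (Subgroup.mem_sup_left hp : p ∈ P ⊔ O) (Subgroup.mem_sup_right ((hmapiff _).1 h1))
    rwa [mul_inv_cancel_left] at this
  -- moving `P` by an element of `V`
  suffices hsuff : ∃ a ∈ V, d ∈ Subgroup.normalizer ((P.map (MulAut.conj a).toMonoidHom : Subgroup G) : Set G) by
    obtain ⟨a, ha, had⟩ := hsuff
    have haK : a ∈ K := hVO.trans hOK ha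
    refine ⟨_, hP3.map _, ?_, had, ?_⟩
    · rintro _ ⟨x, hx, rfl⟩; exact mul_mem (mul_mem haK (hWK (hPW hx))) (inv_mem haK)
    · have hOa : O.map (MulAut.conj a).toMonoidHom = O := by
        haveI := hO; exact Subgroup.Normal.map_conj_eq O a
      have hKa : K.map (MulAut.conj a).toMonoidHom = K := by
        haveI := hK; exact Subgroup.Normal.map_conj_eq K a
      rw [← hOa, ← Subgroup.map_sup, hPO, hKa]
  -- the whole group is generated by `n`, `P` and `O`
  have hGen : ∀ T : Subgroup G, n ∈ T → P ≤ T → O ≤ T → T = ⊤ := by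
    intro T h1 h2 h3
    rw [eq_top_iff, ← hdK]
    refine sup_le (Subgroup.zpowers_le.2 ?_) ?_
    · rw [hdn]; exact mul_mem (h3 (hVO hv)) h1
    · rw [← hPO]; exact sup_le h2 h3
  by_cases hfix : ∃ a ∈ V, a ≠ 1 ∧ ∀ p ∈ P, p * a = a * p
  · -- `P` centralizes `V`
    set C : Subgroup G := V ⊓ Subgroup.centralizer (P : Set G) with hC
    have hCn : C.Normal := by
      rw [← Subgroup.normalizer_eq_top_iff]
      refine hGen _ ?_ ?_ ?_
      · refine (CfsgLib.QDWr.conj_mem_normalizer fun c hc => ⟨hVn.conj_mem c hc.1 n, ?_⟩)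
        show n * c * n⁻¹ ∈ Subgroup.centralizer (P : Set G)
        rw [Subgroup.mem_centralizer_iff]
        intro p hp
        have hp' : n⁻¹ * p * n ∈ P := (Subgroup.mem_normalizer_iff''.1 hnP p).1 hp
        calc p * (n * c * n⁻¹) = n * ((n⁻¹ * p * n) * c) * n⁻¹ := by group
          _ = n * (c * (n⁻¹ * p * n)) * n⁻¹ := by rw [Subgroup.mem_centralizer_iff.1 hc.2 _ hp']
          _ = n * c * n⁻¹ * p := by group
      · intro p hp
        refine CfsgLib.QDWr.conj_mem_normalizer fun c hc => ?_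
        rw [Subgroup.mem_centralizer_iff.1 hc.2 p hp, mul_inv_cancel_right]
        exact hc
      · intro o ho
        refine CfsgLib.QDWr.conj_mem_normalizer fun c hc => ?_
        rw [← hVcO c hc.1 o ho, mul_inv_cancel_right]
        exact hc
    obtain ⟨a, haV, ha1, ha⟩ := hfix
    have hCV : C = V := (hmin C hCn inf_le_left).resolve_left fun h => ha1 (by
      have : a ∈ C := ⟨haV, Subgroup.mem_centralizer_iff.2 ha⟩
      rw [h] at this; exact Subgroup.mem_bot.1 this)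
    refine ⟨1, one_mem _, ?_⟩
    rw [map_one, show (1 : MulAut G).toMonoidHom = MonoidHom.id G from rfl, Subgroup.map_id, hdn]
    exact mul_mem (Subgroup.centralizer_le_normalizer _ (hCV.ge hv).2) hnP
  push Not at hfix
  have hPfree : ∀ a ∈ V, (∀ p ∈ P, p * a = a * p) → a = 1 := fun a ha h => by
    by_contra h1
    obtain ⟨p, hp, hne⟩ := hfix a ha h1
    exact hne (h p hp)
  have hvinv : v⁻¹ = v := inv_eq_of_mul_eq_one_right (hV2 v hv)
  have hnv0 : n = v * d := by rw [hn, hvinv]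
  have hdvd : d * v * d = v := by
    have hnn : n * n ∈ V := by
      rw [hnv0, show v * d * (v * d) = v * (d * v * d) by group]
      have := hVn.conj_mem v hv d
      rw [hdinv] at this
      exact mul_mem hv this
    have hnn1 : n * n = 1 := hPfree _ hnn fun p hp => by
      have h1 : (n * n)⁻¹ * p * (n * n) * p⁻¹ = 1 := hPV1 _
        (mul_mem ((Subgroup.mem_normalizer_iff''.1 (mul_mem hnP hnP) p).1 hp) (inv_mem hp)) (by
          rw [mul_assoc _ (n * n), mul_assoc]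
          refine mul_mem (inv_mem hnn) ?_
          rw [← mul_assoc]
          exact hVn.conj_mem _ hnn p)
      have h2 := mul_inv_eq_one.1 h1
      rw [mul_assoc, inv_mul_eq_iff_eq_mul] at h2
      exact h2
    rw [hnv0, show v * d * (v * d) = v * (d * v * d) by group] at hnn1
    rw [eq_inv_of_mul_eq_one_right hnn1, hvinv]
  have hn2 : n * n = 1 := by
    rw [hnv0, show v * d * (v * d) = v * (d * v * d) by group, hdvd, hV2 v hv]
  have hninv : n⁻¹ = n := inv_eq_of_mul_eq_one_right hn2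
  have hnv : n * v * n⁻¹ = v := by
    rw [hnv0, mul_inv_rev, hdinv, hvinv,
      show v * d * v * (d * v) = v * (d * v * d) * v by group, hdvd, hV2 v hv, one_mul]
  -- `d` is conjugate to `n` by an element of `V` once `v` splits
  suffices hsplit : ∃ w ∈ V, v = w * (n * w * n⁻¹) by
    obtain ⟨w, hwV, hwv⟩ := hsplit
    have hdw : d = w * n * w⁻¹ := by
      rw [hdn, hwv, hninv, inv_eq_of_mul_eq_one_right (hV2 w hwV)]
      calc w * (n * w * n) * n = w * n * w * (n * n) := by group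
        _ = w * n * w := by rw [hn2, mul_one]
    refine ⟨w, hwV, ?_⟩
    rw [Subgroup.mem_normalizer_iff_map_conj_eq]
    have h1 : P.map (MulAut.conj n).toMonoidHom = P := Subgroup.mem_normalizer_iff_map_conj_eq.1 hnP
    have hinner : ∀ x, d * (w * x * w⁻¹) * d⁻¹ = w * (n * x * n⁻¹) * w⁻¹ := fun x => by rw [hdw]; group
    apply SetLike.ext'
    ext x
    constructor
    · rintro ⟨_, ⟨x', hx', rfl⟩, rfl⟩
      refine ⟨n * x' * n⁻¹, ?_, (hinner x').symm⟩
      rw [← h1]; exact ⟨x', hx', rfl⟩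
    · rintro ⟨x', hx', rfl⟩
      obtain ⟨x'', hx'', rfl⟩ := h1.ge hx'
      exact ⟨_, ⟨x'', hx'', rfl⟩, hinner x''⟩
  -- the action on `V`
  set ρ : G →* MulAut V := MulAut.conjNormal with hρdef
  have hρ : ∀ (g : G) (a : V), ((ρ g a : V) : G) = g * a * g⁻¹ := fun g a => MulAut.conjNormal_apply g a
  have hρO : ∀ o ∈ O, ρ o = 1 := fun o ho => by
    refine MulEquiv.ext fun a => Subtype.ext ?_
    rw [hρ, ← hVcO a a.2 o ho, mul_inv_cancel_right]
    rfl
  obtain ⟨a0, ha0V, ha01⟩ : ∃ a ∈ V, a ≠ 1 := by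
    obtain ⟨x, hx⟩ := (Subgroup.ne_bot_iff_exists_ne_one).1 hV1
    exact ⟨x, x.2, fun h => hx (Subtype.ext h)⟩
  obtain ⟨p1, hp1, hp1ne⟩ := hfix a0 ha0V ha01
  set Q := P.map ρ with hQdef
  have hQ3 : IsPGroup 3 Q := hP3.map ρ
  have hQnt : Nontrivial Q := by
    refine ⟨⟨⟨ρ p1, Subgroup.mem_map_of_mem ρ hp1⟩, 1, fun h => hp1ne ?_⟩⟩
    have h' : ρ p1 = 1 := congrArg Subtype.val h
    have h2 := hρ p1 ⟨a0, ha0V⟩
    rw [h'] at h2
    exact (eq_mul_inv_iff_mul_eq.1 h2).symm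
  haveI := hQ3.center_nontrivial
  obtain ⟨⟨⟨ζ, hζQ⟩, hζc⟩, hζord⟩ :=
    exists_prime_orderOf_dvd_card' (G := Subgroup.center Q) 3 (by
      obtain ⟨k, hk⟩ := (hQ3.to_subgroup (Subgroup.center Q)).exists_card_eq
      rw [hk]
      refine dvd_pow_self 3 fun hk0 => ?_
      have h1 : 1 < Nat.card (Subgroup.center Q) := Finite.one_lt_card
      rw [hk, hk0, pow_zero] at h1
      omega)
  rw [← Subgroup.orderOf_coe, ← Subgroup.orderOf_coe] at hζord
  change orderOf ζ = 3 at hζord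
  have hζcomm : ∀ p ∈ P, Commute (ρ p) ζ := fun p hp =>
    congrArg Subtype.val (Subgroup.mem_center_iff.1 hζc ⟨ρ p, Subgroup.mem_map_of_mem ρ hp⟩)
  obtain ⟨ν, hν⟩ : ∃ ν, ν = ρ n := ⟨_, rfl⟩
  have hνν : ν * ν = 1 := by rw [hν, ← map_mul, hn2, map_one]
  have hνinv : ν⁻¹ = ν := inv_eq_of_mul_eq_one_right hνν
  have hνQ : ∀ x ∈ Q, ν * x * ν ∈ Q := by
    rintro _ ⟨p, hp, rfl⟩
    refine ⟨n * p * n⁻¹, (Subgroup.mem_normalizer_iff.1 hnP p).1 hp, ?_⟩
    rw [map_mul, map_mul, map_inv, ← hν, hνinv]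
  -- a central element inverted or centralized by `ν`
  obtain ⟨η, hηQ, hηc, hη1, hη3, hηn⟩ : ∃ η ∈ Q, (∀ p ∈ P, Commute (ρ p) η) ∧ η ≠ 1 ∧ η ^ 3 = 1 ∧
      (ν * η * ν = η⁻¹ ∨ ν * η * ν = η) := by
    have hζ3 : ζ ^ 3 = 1 := hζord ▸ pow_orderOf_eq_one ζ
    have hζ1 : ζ ≠ 1 := fun h => by simp [h] at hζord
    by_cases hi : ν * ζ * ν = ζ⁻¹
    · exact ⟨ζ, hζQ, hζcomm, hζ1, hζ3, Or.inl hi⟩
    have hc' : ∀ p ∈ P, Commute (ρ p) (ν * ζ * ν) := by
      intro p hp
      have hp' : n * p * n⁻¹ ∈ P := (Subgroup.mem_normalizer_iff.1 hnP p).1 hp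
      have := hζcomm _ hp'
      rw [map_mul, map_mul, map_inv, ← hν, hνinv] at this
      calc ρ p * (ν * ζ * ν) = ν * ((ν * ρ p * ν) * ζ) * ν := by
            simp only [mul_assoc]; rw [← mul_assoc ν ν, hνν, one_mul]
        _ = ν * (ζ * (ν * ρ p * ν)) * ν := by rw [this.eq]
        _ = (ν * ζ * ν) * ρ p := by simp only [mul_assoc]; rw [hνν, mul_one]
    have hcz : Commute ζ (ν * ζ * ν) := by
      obtain ⟨p, hp, hpz⟩ := hζQ
      have := hc' p hp
      rwa [hpz] at this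
    refine ⟨ζ * (ν * ζ * ν), mul_mem hζQ (hνQ ζ hζQ), fun p hp => (hζcomm p hp).mul_right (hc' p hp),
      fun h => hi (eq_inv_of_mul_eq_one_right h), ?_, Or.inr ?_⟩
    · rw [hcz.mul_pow, hζ3, one_mul]
      have : ν * ζ * ν = ν * ζ * ν⁻¹ := by rw [hνinv]
      rw [this, conj_pow, hζ3]; group
    · calc ν * (ζ * (ν * ζ * ν)) * ν = (ν * ζ * ν) * ζ * (ν * ν) := by group
        _ = ζ * (ν * ζ * ν) := by rw [hνν, mul_one, hcz.eq]
  have hηinj : ∀ x : V, η x = x → x = 1 := by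
    let F : Subgroup G :=
      { carrier := {a | ∃ h : a ∈ V, η ⟨a, h⟩ = ⟨a, h⟩}
        one_mem' := ⟨one_mem _, map_one η⟩
        mul_mem' := fun {a b} ⟨ha, ha'⟩ ⟨hb, hb'⟩ => ⟨mul_mem ha hb, by
          rw [show (⟨a * b, mul_mem ha hb⟩ : V) = ⟨a, ha⟩ * ⟨b, hb⟩ from rfl, map_mul, ha', hb']⟩
        inv_mem' := fun {a} ⟨ha, ha'⟩ => ⟨inv_mem ha, by
          rw [show (⟨a⁻¹, inv_mem ha⟩ : V) = ⟨a, ha⟩⁻¹ from rfl, map_inv, ha']⟩ }
    have hFn : F.Normal := by
      rw [← Subgroup.normalizer_eq_top_iff]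
      have hcase : ∀ g : G, (∀ x : V, η x = x → η (ρ g x) = ρ g x) →
          g ∈ Subgroup.normalizer (F : Set G) := by
        intro g hg
        refine CfsgLib.QDWr.conj_mem_normalizer fun c hc => ?_
        obtain ⟨hcV, hc'⟩ := hc
        refine ⟨hVn.conj_mem c hcV g, ?_⟩
        have := hg ⟨c, hcV⟩ hc'
        rwa [show (ρ g ⟨c, hcV⟩ : V) = ⟨g * c * g⁻¹, hVn.conj_mem c hcV g⟩ from Subtype.ext (hρ g _)] at this
      refine hGen _ (hcase n fun x hx => ?_) (fun p hp => hcase p fun x hx => ?_)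
        (fun o ho => hcase o fun x hx => by rw [hρO o ho]; exact hx)
      · rw [← hν]
        rcases hηn with h | h
        · have h1 : η * ν = ν * η⁻¹ := by
            calc η * ν = (ν * ν) * η * ν := by rw [hνν, one_mul]
              _ = ν * (ν * η * ν) := by group
              _ = ν * η⁻¹ := by rw [h]
          have h2 : η⁻¹ x = x := by
            nth_rw 1 [← hx]
            exact η.symm_apply_apply x
          calc η (ν x) = (η * ν) x := rfl
            _ = (ν * η⁻¹) x := by rw [h1]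
            _ = ν (η⁻¹ x) := rfl
            _ = ν x := by rw [h2]
        · have h1 : η * ν = ν * η := by
            calc η * ν = (ν * ν) * η * ν := by rw [hνν, one_mul]
              _ = ν * (ν * η * ν) := by group
              _ = ν * η := by rw [h]
          calc η (ν x) = (η * ν) x := rfl
            _ = (ν * η) x := by rw [h1]
            _ = ν (η x) := rfl
            _ = ν x := by rw [hx]
      · calc η (ρ p x) = (η * ρ p) x := rfl
          _ = (ρ p * η) x := by rw [(hηc p hp).eq]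
          _ = ρ p (η x) := rfl
          _ = ρ p x := by rw [hx]
    rcases hmin F hFn (fun a ⟨h, _⟩ => h) with h | h
    · intro x hx
      have : (x : G) ∈ F := ⟨x.2, hx⟩
      rw [h, Subgroup.mem_bot] at this
      exact Subtype.ext this
    · exfalso
      apply hη1
      refine MulEquiv.ext fun x => ?_
      obtain ⟨_, h'⟩ := h.ge x.2
      exact h'
  haveI : IsMulCommutative V := ⟨⟨fun a b => Subtype.ext (hVc a a.2 b b.2)⟩⟩
  have hVm : ∀ a b : V, a * b = b * a := fun a b => Subtype.ext (hVc a a.2 b b.2)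
  have hnorm : ∀ (σ : MulAut V), σ ^ 3 = 1 → ∀ x : V, σ (x * σ x * σ (σ x)) = x * σ x * σ (σ x) := by
    intro σ hσ x
    have h3 : σ (σ (σ x)) = x := by
      have : (σ ^ 3) x = x := by rw [hσ]; rfl
      simpa [pow_succ, MulAut.mul_apply] using this
    rw [map_mul, map_mul, h3]
    rw [hVm _ x, ← mul_assoc]
  -- a norm killing `v`
  suffices hy : ∃ y : G, ν * ρ y * ν = (ρ y)⁻¹ ∧ (ρ y) ^ 3 = 1 ∧
      (⟨v, hv⟩ : V) * ρ y ⟨v, hv⟩ * ρ y (ρ y ⟨v, hv⟩) = 1 by
    obtain ⟨y, hy1, hy3, hyv⟩ := hy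
    refine split_of_norm V hVc hV2 hv hnv (y := y) (fun a ha => ?_) ?_
    · have h1 : ν * ρ y = ρ y * ρ y * ν := by
        calc ν * ρ y = ν * ρ y * (ν * ν) := by rw [hνν, mul_one]
          _ = (ν * ρ y * ν) * ν := by group
          _ = (ρ y)⁻¹ * ν := by rw [hy1]
          _ = _ := by
            rw [show (ρ y)⁻¹ = ρ y * ρ y from inv_eq_of_mul_eq_one_right (by rw [← mul_assoc, ← hy3, pow_succ, pow_two])]
      have h2 := congrArg (fun σ : MulAut V => ((σ ⟨a, ha⟩ : V) : G)) h1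
      simp only [MulAut.mul_apply, hρ, hν] at h2
      exact h2
    · have h2 := congrArg Subtype.val hyv
      simp only [Subgroup.coe_mul, hρ, Subgroup.coe_one] at h2
      exact h2
  rcases hηn with hinv | hcen
  · -- inverted
    obtain ⟨y, hy, hyη⟩ := hηQ
    refine ⟨y, by rw [hyη]; exact hinv, by rw [hyη]; exact hη3, ?_⟩
    rw [hyη]
    exact hηinj _ (hnorm η hη3 _)
  -- centralized: use a second transposition
  obtain ⟨p, hp, hpne⟩ : ∃ p ∈ P, ρ (p * n * p⁻¹) ≠ ν := by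
    by_contra h
    push Not at h
    let T : Subgroup G := (Subgroup.centralizer ({ν} : Set (MulAut V))).comap ρ
    have hT : T = ⊤ := by
      refine hGen T (Subgroup.mem_centralizer_singleton_iff.2 (by rw [← hν])) (fun p hp => ?_) (fun o ho => ?_)
      · refine Subgroup.mem_centralizer_singleton_iff.2 ?_
        have h1 := h p hp
        rw [map_mul, map_mul, map_inv, ← hν, mul_inv_eq_iff_eq_mul] at h1
        exact h1
      · refine Subgroup.mem_centralizer_singleton_iff.2 ?_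
        rw [hρO o ho, one_mul, mul_one]
    have hall : ∀ g, ρ g ∈ Subgroup.zpowers ν := by
      intro g
      have hmem : g ∈ Subgroup.closure (conjugatesOf d) := hgen ▸ Subgroup.mem_top g
      refine Subgroup.closure_induction (p := fun x _ => ρ x ∈ Subgroup.zpowers ν) ?_
        (by rw [map_one]; exact one_mem _) (fun x y _ _ hx hy => by rw [map_mul]; exact mul_mem hx hy)
        (fun x _ hx => by rw [map_inv]; exact inv_mem hx) hmem
      intro x hx
      obtain ⟨c, rfl⟩ := isConj_iff.1 hx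
      have hc : ρ c ∈ Subgroup.centralizer ({ν} : Set (MulAut V)) := (hT.ge (Subgroup.mem_top c) : c ∈ T)
      rw [map_mul, map_mul, map_inv, hdn, map_mul, hρO v (hVO hv), one_mul, ← hν,
        Subgroup.mem_centralizer_singleton_iff.1 hc, mul_inv_cancel_right]
      exact Subgroup.mem_zpowers _
    obtain ⟨p', -, hp'η⟩ := hηQ
    obtain ⟨i, hi⟩ := Subgroup.mem_zpowers_iff.1 (hp'η ▸ hall p')
    have h2 : η * η = 1 := by
      have : ν ^ i * ν ^ i = 1 := by rw [← (Commute.refl ν).mul_zpow, hνν, one_zpow]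
      rwa [hi] at this
    exact hη1 (by rwa [pow_succ, pow_two, h2, one_mul] at hη3)
  obtain ⟨u, hu⟩ : ∃ u : V, u = ρ n (ρ p ⟨v, hv⟩) := ⟨_, rfl⟩
  obtain ⟨y, hy⟩ : ∃ y, y = n * (p * n * p⁻¹) := ⟨_, rfl⟩
  have hyinv : ν * ρ y * ν = (ρ y)⁻¹ := by
    rw [hy, map_mul, map_mul, map_mul, map_inv, ← hν, mul_inv_rev, mul_inv_rev, mul_inv_rev, inv_inv, hνinv]
    calc ν * (ν * (ρ p * ν * (ρ p)⁻¹)) * ν = (ν * ν) * (ρ p * ν * (ρ p)⁻¹) * ν := by group
      _ = _ := by rw [hνν, one_mul]; group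
  have hkey : ∀ q : G, q ∈ P → ρ (q * n * q⁻¹) = ρ (p * n * p⁻¹) →
      (ρ y) ^ 3 = 1 ∧ ((⟨v, hv⟩ : V) * ρ y ⟨v, hv⟩ * ρ y (ρ y ⟨v, hv⟩)) *
        ((ρ n (ρ q ⟨v, hv⟩)) * ρ y (ρ n (ρ q ⟨v, hv⟩)) * ρ y (ρ y (ρ n (ρ q ⟨v, hv⟩)))) = 1 := by
    intro q hq hqp
    obtain ⟨y', hy'⟩ : ∃ y', y' = n * (q * n * q⁻¹) := ⟨_, rfl⟩
    have hρy : ρ y' = ρ y := by rw [hy', hy, map_mul, hqp, ← map_mul]
    have hy'P : y' ∈ P := by
      have h1 : n * q * n⁻¹ ∈ P := (Subgroup.mem_normalizer_iff.1 hnP q).1 hq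
      have h2 := mul_mem h1 (inv_mem hq)
      rw [hninv] at h2
      rw [hy']
      convert h2 using 1
      group
    set c : G := v * (n * (q * v * q⁻¹) * n⁻¹) with hcdef
    have hcV : c ∈ V := mul_mem hv (hVn.conj_mem _ (hVn.conj_mem v hv q) n)
    have hprod : d * (q * d * q⁻¹) = c * y' := by
      rw [hcdef, hy', hdn]; group
    rcases hD3 d hd (q * d * q⁻¹) (hDconj q d hd) with hcom | hcube
    · exfalso
      apply hpne
      have h1 : ρ (d * (q * d * q⁻¹)) = ρ ((q * d * q⁻¹) * d) := by rw [hcom.eq]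
      have hd' : ρ d = ν := by rw [hdn, map_mul, hρO v (hVO hv), one_mul, hν]
      have hq' : ρ (q * d * q⁻¹) = ρ (q * n * q⁻¹) := by simp only [map_mul, map_inv, hd', hν]
      rw [map_mul, map_mul (f := ρ) (q * d * q⁻¹) d, hd', hq', hqp] at h1
      -- the product of two commuting involutions in a group of odd order
      have h2 : ρ y * ρ y = 1 := by
        rw [hy, map_mul, ← hν]
        set μ := ρ (p * n * p⁻¹)
        have hμ : μ * μ = 1 := by
          rw [← map_mul, show p * n * p⁻¹ * (p * n * p⁻¹) = p * (n * n) * p⁻¹ by group, hn2, mul_one,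
            mul_inv_cancel, map_one]
        calc ν * μ * (ν * μ) = ν * (μ * ν) * μ := by group
          _ = ν * (ν * μ) * μ := by rw [h1]
          _ = (ν * ν) * (μ * μ) := by group
          _ = 1 := by rw [hνν, hμ, one_mul]
      obtain ⟨k, hk⟩ := hQ3 ⟨ρ y', Subgroup.mem_map_of_mem ρ hy'P⟩
      have hk' : (ρ y) ^ 3 ^ k = 1 := by rw [← hρy]; exact congrArg Subtype.val hk
      have hy1 : ρ y = 1 := orderOf_eq_one_iff.1 (Nat.eq_one_of_dvd_coprimes
        ((by norm_num : Nat.Coprime 2 3).pow_right k)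
        (orderOf_dvd_of_pow_eq_one (by rw [pow_two, h2])) (orderOf_dvd_of_pow_eq_one hk'))
      rw [hy, map_mul, ← hν] at hy1
      rw [eq_inv_of_mul_eq_one_right hy1, hνinv]
    have hexp : c * (y' * c * y'⁻¹) * (y' * (y' * c * y'⁻¹) * y'⁻¹) * (y' * y' * y') = 1 := by
      rw [hprod] at hcube
      rw [← hcube, pow_succ, pow_two]; group
    have hmem : c * (y' * c * y'⁻¹) * (y' * (y' * c * y'⁻¹) * y'⁻¹) ∈ V :=
      mul_mem (mul_mem hcV (hVn.conj_mem c hcV y')) (hVn.conj_mem _ (hVn.conj_mem c hcV y') y')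
    have hy3 : y' * y' * y' = 1 := hPV1 _ (mul_mem (mul_mem hy'P hy'P) hy'P) (by
      rw [eq_inv_of_mul_eq_one_right hexp]; exact inv_mem hmem)
    refine ⟨by rw [← hρy, ← map_pow, pow_succ, pow_two, hy3, map_one], ?_⟩
    have h2 : (⟨c, hcV⟩ : V) * ρ y ⟨c, hcV⟩ * ρ y (ρ y ⟨c, hcV⟩) = 1 := Subtype.ext (by
      rw [hy3, mul_one] at hexp
      simp only [Subgroup.coe_mul, hρ, ← hρy, Subgroup.coe_one]
      exact hexp)
    have hc2 : (⟨c, hcV⟩ : V) = ⟨v, hv⟩ * ρ n (ρ q ⟨v, hv⟩) := Subtype.ext (by simp [hcdef, hρ])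
    rw [hc2, map_mul, map_mul] at h2
    refine Eq.trans ?_ h2
    set A : V := ⟨v, hv⟩
    set B : V := ρ n (ρ q A)
    set A1 := ρ y A; set A2 := ρ y A1; set B1 := ρ y B; set B2 := ρ y B1
    have hmid : ∀ a b c e : V, a * b * (c * e) = a * c * (b * e) := fun a b c e => by
      rw [mul_assoc, mul_assoc, ← mul_assoc b c e, hVm b c, mul_assoc c b e]
    rw [hmid (A * A1) A2 (B * B1) B2, hmid A A1 B B1]
  obtain ⟨hy3, hN1⟩ := hkey p hp rfl
  rw [← hu] at hN1
  obtain ⟨z, hz, hzη⟩ := hηQ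
  have hcomνη : η * ν = ν * η := by
    calc η * ν = (ν * ν) * η * ν := by rw [hνν, one_mul]
      _ = ν * (ν * η * ν) := by group
      _ = ν * η := by rw [hcen]
  have hzconj : ρ (z * p * n * (z * p)⁻¹) = ρ (p * n * p⁻¹) := by
    have hcpn : η * (ρ p * ν * (ρ p)⁻¹) = (ρ p * ν * (ρ p)⁻¹) * η :=
      (((hηc p hp).symm.mul_right (show Commute η ν from hcomνη)).mul_right (hηc p hp).symm.inv_right).eq
    simp only [map_mul, map_inv, hzη, ← hν]
    calc η * ρ p * ν * (η * ρ p)⁻¹ = η * (ρ p * ν * (ρ p)⁻¹) * η⁻¹ := by group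
      _ = _ := by rw [hcpn]; group
  obtain ⟨-, hN2⟩ := hkey (z * p) (mul_mem hz hp) hzconj
  have hηy : η * ρ y = ρ y * η := by
    rw [hy, map_mul, map_mul, map_mul, map_inv, ← hν]
    exact ((show Commute η ν from hcomνη).mul_right
      (((hηc p hp).symm.mul_right (show Commute η ν from hcomνη)).mul_right (hηc p hp).symm.inv_right)).eq
  obtain ⟨Nu, hNu⟩ : ∃ Nu, Nu = u * ρ y u * ρ y (ρ y u) := ⟨_, rfl⟩
  have hηN : η Nu = Nu := by
    have hu' : ρ n (ρ (z * p) ⟨v, hv⟩) = η u := by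
      rw [map_mul, hzη, MulAut.mul_apply, hu, ← hν]
      show (ν * η) (ρ p ⟨v, hv⟩) = (η * ν) (ρ p ⟨v, hv⟩)
      rw [hcomνη]
    have e1 : ρ y (η u) = η (ρ y u) := by
      show (ρ y * η) u = (η * ρ y) u
      rw [hηy]
    have e2 : ρ y (η (ρ y u)) = η (ρ y (ρ y u)) := by
      show (ρ y * η) (ρ y u) = (η * ρ y) (ρ y u)
      rw [hηy]
    rw [hu', e1, e2, ← map_mul, ← map_mul, ← hNu] at hN2
    rw [← hNu] at hN1
    exact mul_left_cancel (hN2.trans hN1.symm)
  have hNu1 := hηinj Nu hηN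
  rw [← hNu] at hN1
  rw [hNu1, mul_one] at hN1
  exact ⟨y, hyinv, hy3, hN1⟩

/-- Let D be a conjugacy class of 3-transpositions generating the finite group G, with at least two members, and d a member of D such that every member of D commuting with d commutes with exactly the same members of D as d. Then there is a Sylow 3-subgroup P of G normalized by d such that G is generated by d, P and the largest normal 2-subgroup of G. -/
theorem result {G : Type*} [Group G] [Finite G] {D : Set G} (hD : Cfsg.IsThreeTranspositionClass D) (hD2 : ∃ a ∈ D, ∃ b ∈ D, a ≠ b) {d : G} (hd : d ∈ D) (hV : {y : G | y ∈ D ∧ Commute d y} = {v : G | v ∈ D ∧ ∀ e ∈ D, Commute v e ↔ Commute d e}) : ∃ P : Sylow 3 G, d ∈ Subgroup.normalizer (P : Set G) ∧ Subgroup.zpowers d ⊔ (P : Subgroup G) ⊔ Cfsg.pCore 2 G = ⊤ := by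
  classical
  haveI : Fact (Nat.Prime 2) := ⟨Nat.prime_two⟩
  haveI : Fact (Nat.Prime 3) := ⟨Nat.prime_three⟩
  obtain ⟨hset, ⟨d₀, -, hDd₀⟩, hgen⟩ := hD
  set O := Cfsg.pCore 2 G with hO
  haveI hOn : O.Normal := Cfsg.pCore_normal 2 G
  have hOp : IsPGroup 2 O := CfsgLib.LargeEx.isPGroup_pCore 2
  have hcj : IsConj d₀ d := by
    rw [hDd₀] at hd; exact hd
  have hDd : D = conjugatesOf d := hDd₀.trans (IsConj.conjugatesOf_eq hcj)
  have hDconj : ∀ g : G, ∀ a ∈ D, g * a * g⁻¹ ∈ D := fun g a ha => by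
    rw [hDd] at ha ⊢
    exact ha.trans (isConj_iff.2 ⟨g, rfl⟩)
  have hsq : ∀ a ∈ D, a * a = 1 := fun a ha => CfsgLib.ThreeTrans.mul_self hset ha
  have hD3 : ∀ a ∈ D, ∀ b ∈ D, Commute a b ∨ (a * b) ^ 3 = 1 := fun a ha b hb => (hset.2 a ha b hb).imp_left
    fun h => (CfsgLib.ThreeTrans.sq_eq_one_iff_commute (hsq a ha) (hsq b hb)).1 h
  set π := QuotientGroup.mk' O with hπ
  have hker : ∀ x, π x = 1 ↔ x ∈ O := fun x => QuotientGroup.eq_one_iff x
  have hsurj := QuotientGroup.mk'_surjective O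
  have hdO : d ∉ O := by
    intro h
    obtain ⟨a, ha, b, hb, hab⟩ := hD2
    have hV' := (Cfsg.Agent.S5349.result ⟨hset, ⟨d₀, hDd₀ ▸ mem_conjugatesOf_self, hDd₀⟩, hgen⟩ ⟨a, ha, b, hb, hab⟩ hd).1
    have hall : ∀ e ∈ D, e ∈ O := fun e he => by
      rw [hDd] at he
      obtain ⟨g, rfl⟩ := isConj_iff.1 he
      exact hOn.conj_mem d h g
    have hcomm : ∀ e ∈ D, Commute d e := by
      intro e he
      have hm : e ∈ {v : G | v ∈ D ∧ ∀ f ∈ D, Commute v f ↔ Commute d f} := by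
        rw [hV']; exact ⟨he, mul_mem (inv_mem h) (hall e he)⟩
      exact (hV.ge hm).2
    have hcent : d ∈ Subgroup.center G := by
      rw [Subgroup.mem_center_iff]
      intro g
      have hm : g ∈ Subgroup.centralizer ({d} : Set G) := by
        have : Subgroup.closure D ≤ Subgroup.centralizer ({d} : Set G) :=
          (Subgroup.closure_le _).2 fun e he => Subgroup.mem_centralizer_singleton_iff.2 (hcomm e he).symm.eq
        exact this (hgen ▸ Subgroup.mem_top g)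
      exact Subgroup.mem_centralizer_singleton_iff.1 hm
    have hone : ∀ e ∈ D, e = d := by
      intro e he
      rw [hDd] at he
      obtain ⟨g, rfl⟩ := isConj_iff.1 he
      rw [Subgroup.mem_center_iff.1 hcent g, mul_inv_cancel_right]
    exact hab ((hone a ha).trans (hone b hb).symm)
  have hV' := (Cfsg.Agent.S5349.result ⟨hset, ⟨d₀, hDd₀ ▸ mem_conjugatesOf_self, hDd₀⟩, hgen⟩ hD2 hd).1
  -- the image has width one
  have hqconj : ∀ g' : G ⧸ O, ∀ a ∈ π '' D, g' * a * g'⁻¹ ∈ π '' D := by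
    rintro g' _ ⟨a, ha, rfl⟩
    obtain ⟨g, rfl⟩ := hsurj g'
    exact ⟨g * a * g⁻¹, hDconj g a ha, by rw [map_mul, map_mul, map_inv]⟩
  have hqgen : Subgroup.closure (π '' D) = ⊤ := by
    rw [← MonoidHom.map_closure, hgen, Subgroup.map_top_of_surjective π hsurj]
  have hq : Cfsg.IsThreeTranspositionGroup (π '' D) := by
    refine ⟨⟨?_, ?_⟩, hqconj, hqgen⟩
    · rintro _ ⟨a, ha, rfl⟩
      refine orderOf_eq_prime (by rw [pow_two, ← map_mul, hsq a ha, map_one]) fun h => hdO ?_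
      rw [hker, hDd] at *
      obtain ⟨g, rfl⟩ := isConj_iff.1 ha
      have := hOn.conj_mem _ h g⁻¹
      simpa [mul_assoc] using this
    · rintro _ ⟨a, ha, rfl⟩ _ ⟨b, hb, rfl⟩
      refine (hset.2 a ha b hb).imp (fun h => ?_) (fun h => ?_) <;> rw [← map_mul, ← map_pow, h, map_one]
  have hw1 : ∀ e ∈ D, Commute (π d) (π e) → π d = π e := by
    intro e he hc
    rcases hD3 d hd e he with h | h
    · have hm : e ∈ {v : G | v ∈ D ∧ d⁻¹ * v ∈ O} := by
        rw [hO, ← hV', ← hV]; exact ⟨he, h⟩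
      exact QuotientGroup.eq.2 hm.2
    · have h2 : (π d * π e) ^ 2 = 1 := by
        rw [hc.mul_pow, pow_two, pow_two, ← map_mul, ← map_mul, hsq d hd, hsq e he, map_one, one_mul]
      have h3 : (π d * π e) ^ 3 = 1 := by rw [← map_mul, ← map_pow, h, map_one]
      rw [pow_succ, h2, one_mul] at h3
      rw [eq_inv_of_mul_eq_one_left h3, ← map_inv, inv_eq_of_mul_eq_one_right (hsq e he)]
  have hwidth : Cfsg.commutingWidth (π '' D) = 1 := by
    refine le_antisymm (csSup_le ⟨1, {π d}, Set.singleton_subset_iff.2 ⟨d, hd, rfl⟩, Set.toFinite _,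
      by rintro x rfl y rfl; exact Commute.refl _, Set.ncard_singleton _⟩ ?_)
      (le_csSup ⟨Nat.card (G ⧸ O), ?_⟩ ⟨{π d}, Set.singleton_subset_iff.2 ⟨d, hd, rfl⟩, Set.toFinite _,
        by rintro x rfl y rfl; exact Commute.refl _, Set.ncard_singleton _⟩)
    · rintro n ⟨E, hE, hfin, hc, rfl⟩
      refine (Set.ncard_le_one hfin).2 fun x hx y hy => ?_
      obtain ⟨a, ha, rfl⟩ := hE hx
      obtain ⟨b, hb, rfl⟩ := hE hy
      have hcja : IsConj d a := by
        rw [hDd] at ha; exact ha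
      obtain ⟨g, hga⟩ := isConj_iff.1 hcja
      have hb' : g⁻¹ * b * g ∈ D := by simpa using hDconj g⁻¹ b hb
      have hc' : Commute (π d) (π (g⁻¹ * b * g)) := by
        have := (hc _ hx _ hy).map (MulAut.conj (π g)⁻¹).toMonoidHom
        simp only [MulEquiv.coe_toMonoidHom, MulAut.conj_apply, inv_inv] at this
        rw [← map_inv, ← map_mul, ← map_mul, ← map_mul, ← map_mul] at this
        convert this using 2
        rw [← hga]; group
      have := hw1 _ hb' hc'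
      rw [← hga, map_mul, map_mul, this, map_mul, map_mul, map_inv]
      group
    · rintro n ⟨E, -, -, -, rfl⟩
      rw [← Nat.card_coe_set_eq]
      exact Nat.card_le_card_of_injective _ Subtype.val_injective
  have htop := (Cfsg.Agent.S5346.result hq (d := π d) ⟨d, hd, rfl⟩).1 hwidth
  set Kq := Cfsg.pCore 3 (G ⧸ O) with hKq
  haveI hKqn : Kq.Normal := Cfsg.pCore_normal 3 _
  have hKq3 : IsPGroup 3 Kq := CfsgLib.LargeEx.isPGroup_pCore 3
  set K := Kq.comap π with hK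
  have hOK : O ≤ K := fun x hx => by
    show π x ∈ Kq
    rw [(hker x).2 hx]; exact one_mem _
  have hdK : Subgroup.zpowers d ⊔ K = ⊤ := by
    rw [eq_top_iff]
    intro g _
    have hm : π g ∈ Subgroup.zpowers (π d) ⊔ Kq := htop ▸ Subgroup.mem_top _
    rw [← SetLike.mem_coe, Subgroup.mul_normal] at hm
    obtain ⟨a, ha, k, hk, hak⟩ := hm
    obtain ⟨i, rfl⟩ := Subgroup.mem_zpowers_iff.1 ha
    have hmem : (d ^ i)⁻¹ * g ∈ K := by
      show π _ ∈ Kq
      rw [map_mul, map_inv, map_zpow, ← hak, inv_mul_cancel_left]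
      exact hk
    have := mul_mem (Subgroup.mem_sup_left (Subgroup.zpow_mem_zpowers d i) : d ^ i ∈ Subgroup.zpowers d ⊔ K)
      (Subgroup.mem_sup_right hmem)
    rwa [mul_inv_cancel_left] at this
  have hK3 : ∀ x ∈ K, ∃ k : ℕ, x ^ 3 ^ k ∈ O := fun x hx => by
    obtain ⟨k, hk⟩ := hKq3 ⟨π x, hx⟩
    exact ⟨k, (hker _).1 (by rw [map_pow]; exact congrArg Subtype.val hk)⟩
  obtain ⟨P, hP3, hPK, hdP, hPO⟩ := exists_invariant_lift (Nat.card G) G rfl D hDconj hsq hD3 d hd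
    (hDd ▸ hgen) O K hOn inferInstance hOp hOK hK3 hdK hdO
  -- `P` is a Sylow 3-subgroup
  have h3index : ¬ 3 ∣ P.index := by
    obtain ⟨T, hT⟩ := IsPGroup.exists_le_sylow hP3
    have hTP : (T : Subgroup G) = P := by
      refine le_antisymm (fun x hx => ?_) hT
      have hxK : x ∈ K := by
        show π x ∈ Kq
        have hm : π x ∈ Subgroup.zpowers (π d) ⊔ Kq := htop ▸ Subgroup.mem_top _
        rw [← SetLike.mem_coe, Subgroup.mul_normal] at hm
        obtain ⟨a, ha, k, hk, hak⟩ := hm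
        have hak' : a * k = π x := hak
        set ψ := QuotientGroup.mk' Kq
        have hψ : ψ (π x) = ψ a := by
          rw [← hak', map_mul, show ψ k = 1 from (QuotientGroup.eq_one_iff k).2 hk, mul_one]
        obtain ⟨j, hj⟩ := T.2 ⟨x, hx⟩
        have hj' : x ^ 3 ^ j = 1 := congrArg Subtype.val hj
        have ha2 : a * a = 1 := by
          obtain ⟨i, rfl⟩ := Subgroup.mem_zpowers_iff.1 ha
          rw [← (Commute.refl (π d)).mul_zpow, ← map_mul, hsq d hd, map_one, one_zpow]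
        have : ψ a = 1 := orderOf_eq_one_iff.1 (Nat.eq_one_of_dvd_coprimes
          ((by norm_num : Nat.Coprime 2 3).pow_right j)
          (orderOf_dvd_of_pow_eq_one (by rw [pow_two, ← map_mul, ha2, map_one]))
          (orderOf_dvd_of_pow_eq_one (by rw [← hψ, ← map_pow, ← map_pow, hj', map_one, map_one])))
        rw [← QuotientGroup.eq_one_iff]
        exact hψ.trans this
      rw [← hPO, ← SetLike.mem_coe, Subgroup.mul_normal] at hxK
      obtain ⟨p, hp, o, ho, rfl⟩ := hxK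
      have hoT : o ∈ (T : Subgroup G) := by
        have := mul_mem (inv_mem (hT hp)) hx
        simpa using this
      obtain ⟨j, hj⟩ := T.2 ⟨o, hoT⟩
      obtain ⟨i, hi⟩ := hOp ⟨o, ho⟩
      have hj' : o ^ 3 ^ j = 1 := congrArg Subtype.val hj
      have hi' : o ^ 2 ^ i = 1 := congrArg Subtype.val hi
      have : o = 1 := orderOf_eq_one_iff.1 (Nat.eq_one_of_dvd_coprimes
        (Nat.Coprime.pow j i (by norm_num : Nat.Coprime 3 2))
        (orderOf_dvd_of_pow_eq_one hj') (orderOf_dvd_of_pow_eq_one hi'))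
      simpa [this] using hp
    exact hTP ▸ T.not_dvd_index
  refine ⟨hP3.toSylow h3index, ?_, ?_⟩
  · show d ∈ Subgroup.normalizer (P : Set G)
    exact hdP
  · show Subgroup.zpowers d ⊔ P ⊔ O = ⊤
    rw [sup_assoc, hPO, hdK]

end Cfsg.Agent.S5356
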