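import Cfsg.Statements.S5357
import Cfsg.Agent.Forms.Matrix

set_option autoImplicit false
open scoped MatrixGroups
open Cfsg

namespace Cfsg.Agent.S5357

open QuadraticMap Matrix CfsgLib.Forms

section
variable {n : ℕ} (Q : QuadraticForm (ZMod 3) (Fin n → ZMod 3)) {c : ZMod 3}

theorem exists_ker (hn : 5 ≤ n) (u : Fin 4 → Fin n → ZMod 3) :
    ∃ t, t ≠ 0 ∧ ∀ i, polar (⇑Q) (u i) t = 0 := by
  let f : (Fin n → ZMod 3) →ₗ[ZMod 3] (Fin 4 → ZMod 3) :=
    LinearMap.pi fun i => polarBilin Q (u i)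
  obtain ⟨t, ht, ht0⟩ := Submodule.exists_mem_ne_zero_of_ne_bot
    (LinearMap.ker_ne_bot_of_finrank_lt (f := f) (by simp; omega))
  exact ⟨t, ht0, fun i => congrFun (LinearMap.mem_ker.1 ht) i⟩

theorem exists_value (hn : 5 ≤ n) (v w : Fin n → ZMod 3)
    (hW : ∀ t, t ≠ 0 → polar (⇑Q) v t = 0 → polar (⇑Q) w t = 0 →
      ∃ y, polar (⇑Q) v y = 0 ∧ polar (⇑Q) w y = 0 ∧ polar (⇑Q) t y ≠ 0) (d : ZMod 3) :
    ∃ t, polar (⇑Q) v t = 0 ∧ polar (⇑Q) w t = 0 ∧ Q t = d := by
  by_cases h : ∃ t, t ≠ 0 ∧ polar (⇑Q) v t = 0 ∧ polar (⇑Q) w t = 0 ∧ Q t = 0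
  · obtain ⟨t, ht, hv, hw, hq⟩ := h
    obtain ⟨y, hyv, hyw, hy⟩ := hW t ht hv hw
    refine ⟨((d - Q y) * (polar (⇑Q) t y)⁻¹) • t + y, ?_, ?_, ?_⟩
    · rw [polar_add_right, polar_smul_right, hv, hyv, smul_zero, add_zero]
    · rw [polar_add_right, polar_smul_right, hw, hyw, smul_zero, add_zero]
    · rw [QuadraticMap.map_add (⇑Q), QuadraticMap.map_smul, hq, polar_smul_left]
      simp only [smul_eq_mul, mul_zero, zero_add]
      rw [mul_assoc, inv_mul_cancel₀ hy, mul_one]
      ring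
  · exfalso
    push_neg at h
    obtain ⟨a, ha, ha'⟩ := exists_ker Q hn ![v, w, v, w]
    obtain ⟨b, hb, hb'⟩ := exists_ker Q hn ![v, w, a, a]
    obtain ⟨e, he, he'⟩ := exists_ker Q hn ![v, w, a, b]
    have hav : polar (⇑Q) v a = 0 := ha' 0
    have haw : polar (⇑Q) w a = 0 := ha' 1
    have hbv : polar (⇑Q) v b = 0 := hb' 0
    have hbw : polar (⇑Q) w b = 0 := hb' 1
    have hab : polar (⇑Q) a b = 0 := hb' 2
    have hev : polar (⇑Q) v e = 0 := he' 0
    have hew : polar (⇑Q) w e = 0 := he' 1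
    have hae : polar (⇑Q) a e = 0 := he' 2
    have hbe : polar (⇑Q) b e = 0 := he' 3
    have qa := h a ha hav haw
    have qb := h b hb hbv hbw
    have qe := h e he hev hew
    have two : ∀ x y, x ≠ 0 → Q x ≠ 0 → polar (⇑Q) v x = 0 → polar (⇑Q) w x = 0 →
        polar (⇑Q) v y = 0 → polar (⇑Q) w y = 0 → polar (⇑Q) x y = 0 → Q x + Q y ≠ 0 := by
      intro x y _ qx h1 h2 h3 h4 hxy h5
      refine h (x + y) ?_ (by rw [polar_add_right, h1, h3, add_zero])
        (by rw [polar_add_right, h2, h4, add_zero])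
        (by rw [QuadraticMap.map_add (⇑Q), hxy, add_zero, h5])
      intro h0
      have := congrArg (polar (⇑Q) x) h0
      rw [polar_add_right, hxy, polar_self, polar_zero_right, add_zero, two_nsmul] at this
      exact qx ((show ∀ q : ZMod 3, q + q = 0 → q = 0 by decide) _ this)
    have s1 := two a b ha qa hav haw hbv hbw hab
    have s2 := two a e ha qa hav haw hev hew hae
    refine h (a + b + e) ?_ (by rw [polar_add_right, polar_add_right, hav, hbv, hev, add_zero, add_zero])
      (by rw [polar_add_right, polar_add_right, haw, hbw, hew, add_zero, add_zero]) ?_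
    · intro h0
      have := congrArg (polar (⇑Q) a) h0
      rw [polar_add_right, polar_add_right, hab, hae, polar_self, polar_zero_right, add_zero,
        add_zero, two_nsmul] at this
      exact qa ((show ∀ q : ZMod 3, q + q = 0 → q = 0 by decide) _ this)
    · rw [QuadraticMap.map_add (⇑Q), QuadraticMap.map_add (⇑Q), hab, polar_add_left, hae, hbe]
      simp only [add_zero]
      exact (show ∀ q r s : ZMod 3, q ≠ 0 → r ≠ 0 → s ≠ 0 → q + r ≠ 0 → q + s ≠ 0 →
        q + r + s = 0 by decide) _ _ _ qa qb qe s1 s2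

/-- The image of a vector under a reflection. -/
def sig (c : ZMod 3) (v w : Fin n → ZMod 3) : Fin n → ZMod 3 := w - (c⁻¹ * polar (⇑Q) w v) • v

theorem sig_norm (hc : c ≠ 0) {v w : Fin n → ZMod 3} (hv : Q v = c) (hw : Q w = c) :
    Q (sig Q c v w) = c := by
  rw [sig, sub_eq_add_neg, ← neg_smul, QuadraticMap.map_add (⇑Q), QuadraticMap.map_smul,
    polar_smul_right, hv, hw]
  simp only [smul_eq_mul]
  generalize polar (⇑Q) w v = b
  field_simp
  ring

theorem mat_triple (hc : c ≠ 0) {v w : Fin n → ZMod 3} (hv : Q v = c) (hw : Q w = c) :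
    Cfsg.reflectionMatrix (⇑Q) v * Cfsg.reflectionMatrix (⇑Q) w * Cfsg.reflectionMatrix (⇑Q) v
      = Cfsg.reflectionMatrix (⇑Q) (sig Q c v w) := by
  refine Matrix.ext_iff_mulVec.2 fun x => ?_
  simp only [← Matrix.mulVec_mulVec, reflectionMatrix_mulVec, sig_norm Q hc hv hw, hv, hw]
  simp only [sig, polar_sub_left, polar_sub_right, polar_smul_left, polar_smul_right, smul_eq_mul,
    polar_self, two_nsmul, hv]
  rw [polar_comm (⇑Q) v w]
  generalize polar (⇑Q) w v = b
  generalize polar (⇑Q) x v = s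
  generalize polar (⇑Q) x w = t
  match_scalars <;> field_simp <;> ring

theorem mat_smul {v : Fin n → ZMod 3} {k : ZMod 3} (hk : k * k = 1) :
    Cfsg.reflectionMatrix (⇑Q) (k • v) = Cfsg.reflectionMatrix (⇑Q) v := by
  refine Matrix.ext_iff_mulVec.2 fun x => ?_
  simp only [reflectionMatrix_mulVec, QuadraticMap.map_smul, polar_smul_right, smul_eq_mul,
    smul_smul, hk, one_mul]
  congr 2
  calc (Q v)⁻¹ * (k * polar (⇑Q) x v) * k = (Q v)⁻¹ * polar (⇑Q) x v * (k * k) := by ring
    _ = _ := by rw [hk, mul_one]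

end

/-- Let Q be a non-degenerate quadratic form on the n-dimensional coordinate space over the field with three elements, n ≥ 5, and c a non-zero scalar. In the subgroup of the isometry group of Q generated by the reflections in vectors v with Q(v) = c, these reflections form a single conjugacy class of 3-transpositions generating that subgroup. -/
theorem result (n : ℕ) (hn : 5 ≤ n) (Q : QuadraticForm (ZMod 3) (Fin n → ZMod 3)) (hQ : (QuadraticMap.polarBilin Q).Nondegenerate) (c : ZMod 3) (hc : c ≠ 0) : Cfsg.IsThreeTranspositionClass {g : ↥(Cfsg.reflectionSubgroup (⇑Q) c) | (g : ↥(Cfsg.isometryGroup (ZMod 3) (⇑Q))) ∈ Cfsg.reflectionsOfNorm (⇑Q) c} := by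
  classical
  set D := {g : ↥(Cfsg.reflectionSubgroup (⇑Q) c) |
    (g : ↥(Cfsg.isometryGroup (ZMod 3) (⇑Q))) ∈ Cfsg.reflectionsOfNorm (⇑Q) c} with hD_def
  have ext' : ∀ g h : ↥(Cfsg.reflectionSubgroup (⇑Q) c),
      (((g : ↥(Cfsg.isometryGroup (ZMod 3) (⇑Q))) : GL (Fin n) (ZMod 3)) : Matrix (Fin n) (Fin n) (ZMod 3))
      = (((h : ↥(Cfsg.isometryGroup (ZMod 3) (⇑Q))) : GL (Fin n) (ZMod 3)) : Matrix (Fin n) (Fin n) (ZMod 3)) →
      g = h := fun g h e => Subtype.ext (Subtype.ext (Units.ext e))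
  have mk : ∀ v : Fin n → ZMod 3, Q v = c → ∃ g ∈ D,
      (((g : ↥(Cfsg.isometryGroup (ZMod 3) (⇑Q))) : GL (Fin n) (ZMod 3)) : Matrix (Fin n) (Fin n) (ZMod 3))
        = Cfsg.reflectionMatrix (⇑Q) v := by
    intro v hv
    have hmem : CfsgLib.Forms.reflGL Q v (hv ▸ hc) ∈ Cfsg.reflectionsOfNorm (⇑Q) c :=
      ⟨v, hv, CfsgLib.Forms.coe_reflGL Q v _⟩
    exact ⟨⟨_, Subgroup.subset_closure hmem⟩, hmem, CfsgLib.Forms.coe_reflGL Q v _⟩
  have gen : Subgroup.closure D = ⊤ := by
    have : D = (Cfsg.reflectionSubgroup (⇑Q) c).subtype ⁻¹' Cfsg.reflectionsOfNorm (⇑Q) c := rfl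
    rw [this]
    exact Subgroup.closure_closure_coe_preimage
  choose! R hRD hR using mk
  have memD : ∀ g ∈ D, ∃ v, Q v = c ∧ g = R v := by
    rintro g ⟨v, hv, hg⟩
    exact ⟨v, hv, ext' _ _ (hg.trans (hR v hv).symm)⟩
  have triple : ∀ v w, Q v = c → Q w = c → R v * R w * R v = R (sig Q c v w) := by
    intro v w hv hw
    apply ext'
    rw [hR _ (sig_norm Q hc hv hw)]
    simp only [Subgroup.coe_mul, Units.val_mul, hR v hv, hR w hw]
    exact mat_triple Q hc hv hw
  have neg : ∀ v (k : ZMod 3), Q v = c → k * k = 1 → R (k • v) = R v := by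
    intro v k hv hk
    apply ext'
    rw [hR v hv, hR (k • v) (by rw [QuadraticMap.map_smul, hk, hv, smul_eq_mul, one_mul])]
    exact mat_smul Q hk
  have two : ∀ q : ZMod 3, c⁻¹ * (q + q) = c⁻¹ * q + c⁻¹ * q := fun q => mul_add _ _ _
  have sq : ∀ v, Q v = c → R v * R v = 1 := by
    intro v hv
    have h := triple v v hv hv
    have hs : sig Q c v v = (-1 : ZMod 3) • v := by
      rw [sig, polar_self, hv, two_nsmul, two, inv_mul_cancel₀ hc]
      module
    rw [hs, neg v (-1) hv (by ring)] at h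
    exact mul_eq_right.1 h
  have ne1 : ∀ v, Q v = c → R v ≠ 1 := by
    intro v hv h
    have h1 := hR v hv
    rw [h] at h1
    have h2 := congrArg (fun M => M *ᵥ v) h1
    simp only [OneMemClass.coe_one, Units.val_one, Matrix.one_mulVec,
      CfsgLib.Forms.reflectionMatrix_mulVec, polar_self, hv] at h2
    rw [two_nsmul, two, inv_mul_cancel₀ hc, eq_comm, sub_eq_self, smul_eq_zero] at h2
    rcases h2 with h2 | h2
    · exact absurd h2 (by decide)
    · exact hc (by rw [← hv, h2, QuadraticMap.map_zero])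
  have braid : ∀ v w, Q v = c → Q w = c → polar (⇑Q) w v ≠ 0 →
      R v * R w * R v = R w * R v * R w := by
    intro v w hv hw hb
    rw [triple v w hv hw, triple w v hw hv]
    set β := c⁻¹ * polar (⇑Q) w v with hβ
    have hβ0 : β ≠ 0 := mul_ne_zero (inv_ne_zero hc) hb
    have hβ1 : β * β = 1 := (show ∀ q : ZMod 3, q ≠ 0 → q * q = 1 by decide) β hβ0
    have hs : sig Q c v w = (-β) • sig Q c w v := by
      simp only [sig, polar_comm (⇑Q) v w, ← hβ, smul_sub, smul_smul]
      rw [show -β * β = -1 from by rw [neg_mul, hβ1]]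
      module
    rw [hs, neg _ _ (sig_norm Q hc hw hv) (by rw [neg_mul_neg, hβ1])]
  have conj1 : ∀ v w, Q v = c → Q w = c → polar (⇑Q) w v ≠ 0 → IsConj (R v) (R w) := by
    intro v w hv hw hb
    refine isConj_iff.2 ⟨R v * R w, ?_⟩
    have hi : ∀ u, Q u = c → (R u)⁻¹ = R u := fun u hu => inv_eq_of_mul_eq_one_right (sq u hu)
    rw [_root_.mul_inv_rev, hi v hv, hi w hw, braid v w hv hw hb]
    simp only [← mul_assoc]
    rw [mul_assoc (R w * R v), sq w hw, mul_one, mul_assoc, sq v hv, mul_one]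
  have nondeg : ∀ t : Fin n → ZMod 3, t ≠ 0 → ∃ y, polar (⇑Q) t y ≠ 0 := by
    intro t ht
    by_contra h
    push_neg at h
    exact ht (hQ.1 t fun y => h y)
  have conj2 : ∀ v w, Q v = c → Q w = c → IsConj (R v) (R w) := by
    intro v w hv hw
    by_cases hb : polar (⇑Q) w v = 0
    swap
    · exact conj1 v w hv hw hb
    have hvw : polar (⇑Q) v w = 0 := by rw [polar_comm]; exact hb
    have hW : ∀ t, t ≠ 0 → polar (⇑Q) v t = 0 → polar (⇑Q) w t = 0 →
        ∃ y, polar (⇑Q) v y = 0 ∧ polar (⇑Q) w y = 0 ∧ polar (⇑Q) t y ≠ 0 := by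
      intro t ht h1 h2
      obtain ⟨x, hx⟩ := nondeg t ht
      have key : ∀ q r : ZMod 3, r ≠ 0 → q + r⁻¹ * q * (r + r) = 0 := by decide +kernel
      refine ⟨x + (c⁻¹ * polar (⇑Q) v x) • v + (c⁻¹ * polar (⇑Q) w x) • w, ?_, ?_, ?_⟩
      · rw [polar_add_right, polar_add_right, polar_smul_right, polar_smul_right, polar_self, hv,
          hvw, two_nsmul, smul_zero, add_zero, smul_eq_mul]
        exact key _ c hc
      · rw [polar_add_right, polar_add_right, polar_smul_right, polar_smul_right, polar_self, hw,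
          hb, two_nsmul, smul_zero, add_zero, smul_eq_mul]
        exact key _ c hc
      · rw [polar_add_right, polar_add_right, polar_smul_right, polar_smul_right,
          polar_comm (⇑Q) t v, polar_comm (⇑Q) t w, h1, h2, smul_zero, smul_zero, add_zero, add_zero]
        exact hx
    obtain ⟨t, htv, htw, htq⟩ := exists_value Q hn v w hW (-c)
    have hu : Q (v + w + t) = c := by
      rw [QuadraticMap.map_add (⇑Q), QuadraticMap.map_add (⇑Q), polar_add_left, hv, hw, htq, hvw,
        htv, htw]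
      ring
    have huv : polar (⇑Q) (v + w + t) v ≠ 0 := by
      rw [polar_add_left, polar_add_left, polar_self, hv, hb, polar_comm (⇑Q) t v, htv, two_nsmul,
        add_zero, add_zero]
      exact fun h => hc ((show ∀ q : ZMod 3, q + q = 0 → q = 0 by decide) _ h)
    have huw : polar (⇑Q) w (v + w + t) ≠ 0 := by
      rw [polar_add_right, polar_add_right, polar_self, hw, hb, htw, two_nsmul, zero_add, add_zero]
      exact fun h => hc ((show ∀ q : ZMod 3, q + q = 0 → q = 0 by decide) _ h)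
    exact (conj1 v _ hv hu huv).trans (conj1 _ w hu hw huw)
  obtain ⟨v₀, -, -, hv₀⟩ := exists_value Q hn 0 0 (fun t ht _ _ => by
    obtain ⟨y, hy⟩ := nondeg t ht
    exact ⟨y, polar_zero_left _ _, polar_zero_left _ _, hy⟩) c
  refine ⟨⟨?_, ?_⟩, ⟨R v₀, hRD v₀ hv₀, ?_⟩, gen⟩
  · intro d hd
    obtain ⟨v, hv, rfl⟩ := memD d hd
    exact orderOf_eq_prime (by rw [pow_two]; exact sq v hv) (ne1 v hv)
  · intro a ha b hb
    obtain ⟨v, hv, rfl⟩ := memD a ha
    obtain ⟨w, hw, rfl⟩ := memD b hb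
    by_cases h : polar (⇑Q) w v = 0
    · left
      have := triple v w hv hw
      rw [show sig Q c v w = w by rw [sig, h, mul_zero, zero_smul, sub_zero]] at this
      rw [pow_two, ← mul_assoc, this, sq w hw]
    · right
      calc (R v * R w) ^ 3 = (R v * R w * R v) * (R w * R v * R w) := by simp [pow_succ, mul_assoc]
        _ = (R v * R w * R v) * (R v * R w * R v) := by rw [braid v w hv hw h]
        _ = R v * R w * (R v * R v) * R w * R v := by simp only [mul_assoc]
        _ = 1 := by rw [sq v hv, mul_one, mul_assoc (R v), sq w hw, mul_one, sq v hv]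
  · ext g
    constructor
    · intro hg
      obtain ⟨v, hv, rfl⟩ := memD g hg
      exact conj2 v₀ v hv₀ hv
    · intro hg
      have key : ∀ x ∈ Subgroup.closure D, ∀ d ∈ D, x * d * x⁻¹ ∈ D ∧ x⁻¹ * d * x ∈ D := by
        intro x hx
        induction hx using Subgroup.closure_induction with
        | mem y hy =>
          intro d hd
          obtain ⟨v, hv, rfl⟩ := memD y hy
          obtain ⟨w, hw, rfl⟩ := memD d hd
          rw [inv_eq_of_mul_eq_one_right (sq v hv), triple v w hv hw]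
          exact ⟨hRD _ (sig_norm Q hc hv hw), hRD _ (sig_norm Q hc hv hw)⟩
        | one => intro d hd; simpa using hd
        | mul y z _ _ ihy ihz =>
          intro d hd
          refine ⟨?_, ?_⟩
          · simpa [mul_assoc] using (ihy _ (ihz d hd).1).1
          · simpa [mul_assoc] using (ihz _ (ihy d hd).2).2
        | inv y _ ih =>
          intro d hd
          simpa using And.intro (ih d hd).2 (ih d hd).1
      obtain ⟨x, hx⟩ := isConj_iff.1 hg
      rw [← hx]
      exact (key x (by rw [gen]; trivial) _ (hRD v₀ hv₀)).1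
end Cfsg.Agent.S5357
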