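import Cfsg.Statements.S5358
import Cfsg.Agent.Forms.Matrix
-- import your own Cfsg.Agent.* helpers here

set_option autoImplicit false
open scoped MatrixGroups
open Cfsg

namespace Cfsg.Agent.S5358

/-- Let Q be a non-degenerate quadratic form on the n-dimensional coordinate space over the field with three elements and u, v vectors of the same non-zero norm Q(u) = Q(v) spanning different lines (v ≠ u and v ≠ −u). Then the reflection matrices of u and v commute if and only if u and v are orthogonal for the polar form of Q. -/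
theorem result (n : ℕ) (Q : QuadraticForm (ZMod 3) (Fin n → ZMod 3)) (hQ : (QuadraticMap.polarBilin Q).Nondegenerate) (u v : Fin n → ZMod 3) (hu : Q u ≠ 0) (huv : Q u = Q v) (h1 : v ≠ u) (h2 : v ≠ -u) : Commute (Cfsg.reflectionMatrix (⇑Q) u) (Cfsg.reflectionMatrix (⇑Q) v) ↔ QuadraticMap.polar (⇑Q) u v = 0 := by
  have hu2 : QuadraticMap.polar (⇑Q) u u = 2 * Q u := by rw [QuadraticMap.polar_self, nsmul_eq_mul]; norm_num
  have key : ∀ a b w : Fin n → ZMod 3, (Cfsg.reflectionMatrix (⇑Q) a * Cfsg.reflectionMatrix (⇑Q) b).mulVec w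
      = w - ((Q b)⁻¹ * QuadraticMap.polar (⇑Q) w b) • b - ((Q a)⁻¹ * QuadraticMap.polar (⇑Q) w a) • a
        + ((Q b)⁻¹ * QuadraticMap.polar (⇑Q) w b * ((Q a)⁻¹ * QuadraticMap.polar (⇑Q) b a)) • a := by
    intro a b w
    rw [← Matrix.mulVec_mulVec, CfsgLib.Forms.reflectionMatrix_mulVec, CfsgLib.Forms.reflectionMatrix_mulVec,
      QuadraticMap.polar_sub_left, QuadraticMap.polar_smul_left]
    module
  constructor
  · intro hc
    by_contra ht
    have h := congrArg (fun M => M.mulVec u) hc.eq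
    simp only [key] at h
    rw [QuadraticMap.polar_comm (⇑Q) v u, hu2, ← huv] at h
    have h' : ((Q u)⁻¹ * QuadraticMap.polar (⇑Q) u v * ((Q u)⁻¹ * QuadraticMap.polar (⇑Q) u v)) • u
        = ((Q u)⁻¹ * (2 * Q u) * ((Q u)⁻¹ * QuadraticMap.polar (⇑Q) u v)) • v := by
      linear_combination (norm := module) h
    rw [show (Q u)⁻¹ * (2 * Q u) = 2 from by field_simp] at h'
    have hs0 : (Q u)⁻¹ * QuadraticMap.polar (⇑Q) u v ≠ 0 := mul_ne_zero (inv_ne_zero hu) ht
    generalize (Q u)⁻¹ * QuadraticMap.polar (⇑Q) u v = s at hs0 h'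
    have e : ∀ s : ZMod 3, s ≠ 0 → (2 * s = s * s ∨ 2 * s = -(s * s)) := by decide
    rcases e s hs0 with e' | e' <;> rw [e'] at h'
    · exact h1 (smul_right_injective (Fin n → ZMod 3) (mul_ne_zero hs0 hs0) h').symm
    · rw [neg_smul, ← smul_neg] at h'
      exact h2 (by rw [smul_right_injective (Fin n → ZMod 3) (mul_ne_zero hs0 hs0) h', neg_neg])
  · intro h0
    refine Matrix.ext_of_mulVec_single fun i => ?_
    rw [key, key, QuadraticMap.polar_comm (⇑Q) v u, h0]
    module

end Cfsg.Agent.S5358
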