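import Cfsg.Statements.S5359
import Cfsg.Agent.Forms.Matrix

set_option autoImplicit false
open scoped MatrixGroups
open Cfsg

namespace Cfsg.Agent.S5359

open QuadraticMap Matrix CfsgLib.Forms

section
variable {F : Type*} [Field F] {ι : Type} [Fintype ι] [DecidableEq ι]
  (Q : QuadraticForm F (ι → F))

/-- Two vectors, one of them nonsingular, have a common orthogonal vector of each value. -/
theorem exists_common [Finite F] (h2 : (2 : F) ≠ 0) (hQ : (polarBilin Q).Nondegenerate)
    (hn : 5 ≤ Fintype.card ι) {a : ι → F} (ha : Q a ≠ 0) (b : ι → F) {d : F} (hd : d ≠ 0) :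
    ∃ x, Q x = d ∧ polar (⇑Q) x a = 0 ∧ polar (⇑Q) x b = 0 := by
  classical
  set W := Submodule.span F (({a, b} : Finset (ι → F)) : Set (ι → F)) with hW
  have hWdim : Module.finrank F W ≤ 2 :=
    (finrank_span_finset_le_card _).trans Finset.card_le_two
  have haW : a ∈ W := Submodule.subset_span (by simp)
  have hbW : b ∈ W := Submodule.subset_span (by simp)
  have hlt : W ⊓ perp Q W < W := by
    refine lt_of_le_of_ne inf_le_left fun h => ?_
    have h1 := mem_perp.1 (inf_eq_left.1 h haW) a haW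
    rw [polar_self, two_nsmul, ← two_mul] at h1
    exact ha ((mul_eq_zero.1 h1).resolve_left h2)
  have hrad := Submodule.finrank_lt_finrank_of_lt hlt
  obtain ⟨C₀, hC⟩ := Submodule.exists_isCompl (W ⊓ perp Q W)
  set C := C₀ ⊓ perp Q W with hCdef
  have hsup : (W ⊓ perp Q W) ⊔ C = perp Q W := by
    rw [hCdef, ← sup_inf_assoc_of_le C₀ (inf_le_right : W ⊓ perp Q W ≤ perp Q W), hC.sup_eq_top,
      top_inf_eq]
  have hdisj : (W ⊓ perp Q W) ⊓ C = ⊥ :=
    le_bot_iff.1 (le_trans (inf_le_inf le_rfl inf_le_left) hC.inf_eq_bot.le)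
  have e1 := Submodule.finrank_sup_add_finrank_inf_eq (W ⊓ perp Q W) C
  rw [hsup, hdisj, finrank_bot, finrank_perp hQ, Module.finrank_pi] at e1
  have hdj : Disjoint C (perp Q C) := by
    refine Submodule.disjoint_def.2 fun x hx hx' => ?_
    have hxW : x ∈ W := by
      rw [← perp_perp hQ W, mem_perp]
      intro y hy
      rw [← hsup] at hy
      obtain ⟨r, hr, z, hz, rfl⟩ := Submodule.mem_sup.1 hy
      have hxr : polar (⇑Q) x r = 0 := mem_perp.1 hx.2 r hr.1
      rw [polar_add_right, hxr, zero_add]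
      exact mem_perp.1 hx' z hz
    exact (Submodule.mem_bot F).1 (hdisj ▸ ⟨⟨hxW, hx.2⟩, hx⟩ : x ∈ (⊥ : Submodule F (ι → F)))
  obtain ⟨x, hx⟩ := CfsgLib.Forms.exists_value (nondegenerate_comp_subtype hdj) (by omega) hd
  exact ⟨(x : ι → F), hx, mem_perp.1 x.2.2 a haW, mem_perp.1 x.2.2 b hbW⟩

/-- The image of a vector under a reflection. -/
def img (a u : ι → F) : ι → F := u - ((Q a)⁻¹ * polar (⇑Q) u a) • a

theorem img_value {a : ι → F} (ha : Q a ≠ 0) (u : ι → F) : Q (img Q a u) = Q u := by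
  rw [img, sub_eq_add_neg, ← neg_smul, map_add_smul]
  generalize polar (⇑Q) u a = p
  field_simp
  ring

theorem mat_conj {a u : ι → F} (ha : Q a ≠ 0) (hu : Q u ≠ 0) :
    Cfsg.reflectionMatrix (⇑Q) a * Cfsg.reflectionMatrix (⇑Q) u * Cfsg.reflectionMatrix (⇑Q) a
      = Cfsg.reflectionMatrix (⇑Q) (img Q a u) := by
  refine Matrix.ext_iff_mulVec.2 fun x => ?_
  simp only [← Matrix.mulVec_mulVec, reflectionMatrix_mulVec, img_value Q ha]
  simp only [img, polar_sub_left, polar_sub_right, polar_smul_left, polar_smul_right, smul_eq_mul,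
    polar_self, two_nsmul]
  rw [polar_comm (⇑Q) a u]
  generalize polar (⇑Q) u a = b
  generalize polar (⇑Q) x a = s
  generalize polar (⇑Q) x u = t
  match_scalars <;> field_simp <;> ring

theorem mat_pair {a b : ι → F} {d : F} (hd : d ≠ 0) (h2 : (2 : F) ≠ 0) (ha : Q a = d)
    (hb : Q b = d) (hab : polar (⇑Q) a b = 0) :
    Cfsg.reflectionMatrix (⇑Q) (a + b) * Cfsg.reflectionMatrix (⇑Q) (a - b)
      = Cfsg.reflectionMatrix (⇑Q) a * Cfsg.reflectionMatrix (⇑Q) b := by
  have hp : Q (a + b) = 2 * d := by rw [QuadraticMap.map_add (⇑Q), ha, hb, hab]; ring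
  have hm : Q (a - b) = 2 * d := by rw [CfsgLib.Forms.map_sub', ha, hb, hab]; ring
  have hab' : polar (⇑Q) b a = 0 := by rw [polar_comm, hab]
  refine Matrix.ext_iff_mulVec.2 fun x => ?_
  simp only [← Matrix.mulVec_mulVec, reflectionMatrix_mulVec, hp, hm, ha, hb]
  simp only [polar_sub_left, polar_sub_right, polar_add_left, polar_add_right, polar_smul_left,
    polar_smul_right, smul_eq_mul, polar_self, two_nsmul, ha, hb, hab, hab']
  generalize polar (⇑Q) x a = s
  generalize polar (⇑Q) x b = t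
  match_scalars <;> field_simp <;> ring

theorem rmat_sq {a : ι → F} (ha : Q a ≠ 0) :
    Cfsg.reflectionMatrix (⇑Q) a * Cfsg.reflectionMatrix (⇑Q) a = 1 := by
  refine Matrix.ext_iff_mulVec.2 fun x => ?_
  simp only [← Matrix.mulVec_mulVec, reflectionMatrix_mulVec, Matrix.one_mulVec, polar_sub_left,
    polar_smul_left, smul_eq_mul, polar_self, two_nsmul]
  generalize polar (⇑Q) x a = s
  match_scalars <;> field_simp <;> ring

end

/-- Let Q be a non-degenerate quadratic form on the n-dimensional coordinate space over the field with three elements, n odd and at least 5, and c a non-zero scalar. Then the subgroup of the isometry group of Q generated by the reflections in vectors of norm c has index 2 in the isometry group. -/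
theorem result (n : ℕ) (hn : 5 ≤ n) (hodd : Odd n) (Q : QuadraticForm (ZMod 3) (Fin n → ZMod 3)) (hQ : (QuadraticMap.polarBilin Q).Nondegenerate) (c : ZMod 3) (hc : c ≠ 0) : (Cfsg.reflectionSubgroup (⇑Q) c).index = 2 := by
  classical
  have h2 : (2 : ZMod 3) ≠ 0 := by decide
  have z3 : ∀ q r : ZMod 3, q ≠ 0 → r ≠ 0 → q = r ∨ q = -r := by decide
  have hd0 : -c ≠ 0 := neg_ne_zero.2 hc
  have hn' : 5 ≤ Fintype.card (Fin n) := by simpa using hn
  set H := Cfsg.reflectionSubgroup (⇑Q) c with hH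
  let R : ∀ u : Fin n → ZMod 3, Q u ≠ 0 → Cfsg.isometryGroup (ZMod 3) (⇑Q) := fun u hu => reflGL Q u hu
  have ext' : ∀ g h : Cfsg.isometryGroup (ZMod 3) (⇑Q),
      ((g : GL (Fin n) (ZMod 3)) : Matrix (Fin n) (Fin n) (ZMod 3))
        = ((h : GL (Fin n) (ZMod 3)) : Matrix (Fin n) (Fin n) (ZMod 3)) → g = h :=
    fun g h e => Subtype.ext (Units.ext e)
  have hR : ∀ u (hu : Q u ≠ 0), ((R u hu : GL (Fin n) (ZMod 3)) : Matrix (Fin n) (Fin n) (ZMod 3))
      = Cfsg.reflectionMatrix (⇑Q) u := fun u hu => coe_reflGL Q u hu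
  have memH : ∀ u (hu : Q u ≠ 0), Q u = c → R u hu ∈ H := fun u hu h =>
    Subgroup.subset_closure ⟨u, h, hR u hu⟩
  have sq : ∀ u (hu : Q u ≠ 0), R u hu * R u hu = 1 := fun u hu => ext' _ _ (by
    simp only [Subgroup.coe_mul, Units.val_mul, hR, OneMemClass.coe_one, Units.val_one]
    exact rmat_sq Q hu)
  have pair : ∀ u v (hu : Q u ≠ 0) (hv : Q v ≠ 0), Q u = -c → Q v = -c →
      R u hu * R v hv ∈ H := by
    intro u v hu hv qu qv
    have orth : ∀ u v (hu : Q u ≠ 0) (hv : Q v ≠ 0), Q u = -c → Q v = -c →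
        polar (⇑Q) u v = 0 → R u hu * R v hv ∈ H := by
      intro u v hu hv qu qv huv
      have hp : Q (u + v) = c := by
        rw [QuadraticMap.map_add (⇑Q), qu, qv, huv]
        exact (show ∀ q : ZMod 3, -q + -q + 0 = q by decide) c
      have hm : Q (u - v) = c := by
        rw [CfsgLib.Forms.map_sub', qu, qv, huv]
        exact (show ∀ q : ZMod 3, -q + -q - 0 = q by decide) c
      have e : R u hu * R v hv = R (u + v) (hp.symm ▸ hc) * R (u - v) (hm.symm ▸ hc) := ext' _ _ (by
        simp only [Subgroup.coe_mul, Units.val_mul, hR]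
        exact (mat_pair Q hd0 h2 qu qv huv).symm)
      rw [e]
      exact mul_mem (memH _ _ hp) (memH _ _ hm)
    obtain ⟨x, qx, hxu, hxv⟩ := exists_common Q h2 hQ hn' hu v hd0
    have hx : Q x ≠ 0 := qx.symm ▸ hd0
    rw [show R u hu * R v hv = (R u hu * R x hx) * (R x hx * R v hv) by
      rw [mul_assoc, ← mul_assoc (R x hx), sq, one_mul]]
    exact mul_mem (orth u x hu hx qu qx (by rw [polar_comm]; exact hxu))
      (orth x v hx hv qx qv hxv)
  obtain ⟨a, qa⟩ := CfsgLib.Forms.exists_value hQ (by rw [Module.finrank_pi]; omega) hd0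
  have ha : Q a ≠ 0 := qa.symm ▸ hd0
  have hor : ∀ g, g ∈ H ∨ g * R a ha ∈ H := by
    intro g
    have hg : g ∈ Subgroup.closure {g : Cfsg.isometryGroup (ZMod 3) (⇑Q) | ∃ u, Q u ≠ 0 ∧
        ((g : GL (Fin n) (ZMod 3)) : Matrix (Fin n) (Fin n) (ZMod 3)) = Cfsg.reflectionMatrix (⇑Q) u} := by
      rw [closure_reflGL Q hQ (Or.inl (by simp))]; exact Subgroup.mem_top g
    have step : ∀ (x : Cfsg.isometryGroup (ZMod 3) (⇑Q)) u (hu : Q u ≠ 0),
        (x ∈ H ∨ x * R a ha ∈ H) → (x * R u hu ∈ H ∨ x * R u hu * R a ha ∈ H) := by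
      intro x u hu hx
      rcases z3 (Q u) c hu hc with qu | qu
      · rcases hx with hx | hx
        · exact Or.inl (mul_mem hx (memH u hu qu))
        · right
          have hi : Q (img Q a u) = c := (img_value Q ha u).trans qu
          have e : R a ha * R u hu * R a ha = R (img Q a u) (hi.symm ▸ hc) := ext' _ _ (by
            simp only [Subgroup.coe_mul, Units.val_mul, hR]
            exact mat_conj Q ha hu)
          have := mul_mem hx (e ▸ memH _ _ hi : R a ha * R u hu * R a ha ∈ H)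
          simpa [mul_assoc, ← mul_assoc (R a ha) (R a ha), sq a ha] using this
      · rcases hx with hx | hx
        · right
          rw [mul_assoc]
          exact mul_mem hx (pair u a hu ha qu qa)
        · left
          have := mul_mem hx (pair a u ha hu qa qu)
          simpa [mul_assoc, ← mul_assoc (R a ha) (R a ha), sq a ha] using this
    induction hg using Subgroup.closure_induction_right with
    | one => exact Or.inl (one_mem _)
    | mul_right x _ y hy ih =>
      obtain ⟨u, hu, hy⟩ := hy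
      rw [ext' y (R u hu) (hy.trans (hR u hu).symm)]
      exact step x u hu ih
    | mul_inv_cancel x _ y hy ih =>
      obtain ⟨u, hu, hy⟩ := hy
      rw [ext' y (R u hu) (hy.trans (hR u hu).symm), inv_eq_of_mul_eq_one_right (sq u hu)]
      exact step x u hu ih
  let χ : Cfsg.isometryGroup (ZMod 3) (⇑Q) →* ℤˣ :=
    (if IsSquare c then spin h2 hQ else spin h2 hQ * detSign h2 hQ).comp (isoEquiv Q).toMonoidHom
  have hm1 : ¬ IsSquare (-1 : ZMod 3) := by
    rintro ⟨r, hr⟩
    exact (show ∀ r : ZMod 3, ¬ (-1 : ZMod 3) = r * r by decide) r hr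
  have hχ : ∀ u (hu : Q u ≠ 0), χ (R u hu) = if Q u = c then 1 else -1 := by
    intro u hu
    have hne : -c ≠ c := (show ∀ q : ZMod 3, q ≠ 0 → -q ≠ q by decide) c hc
    have hone : (1 : ZMod 3) ≠ -1 := by decide
    simp only [χ, R, reflGL, MonoidHom.comp_apply, MulEquiv.coe_toMonoidHom,
      MulEquiv.apply_symm_apply]
    rcases z3 c 1 hc one_ne_zero with hc1 | hc1 <;> rcases z3 (Q u) c hu hc with qu | qu <;>
      simp [hc1, spin_refl, detSign_refl, qu, hm1, hone, hone.symm]
  have hker : H ≤ χ.ker := by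
    rw [hH, Cfsg.reflectionSubgroup, Subgroup.closure_le]
    rintro g ⟨u, hu, hg⟩
    have hu' : Q u ≠ 0 := hu.symm ▸ hc
    rw [ext' g (R u hu') (hg.trans (hR u hu').symm)]
    show χ _ = 1
    rw [hχ, if_pos hu]
  have hnot : R a ha ∉ H := by
    intro h
    have h1 : χ (R a ha) = 1 := hker h
    rw [hχ, if_neg (show Q a ≠ c by rw [qa]; exact (show ∀ q : ZMod 3, q ≠ 0 → -q ≠ q by decide) c hc)] at h1
    exact absurd h1 (by decide)
  rw [Subgroup.index_eq_two_iff]
  refine ⟨R a ha, fun g => ?_⟩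
  rcases hor g with hg | hg
  · exact Or.inr ⟨hg, fun h => hnot (by simpa using mul_mem (inv_mem hg) h)⟩
  · exact Or.inl ⟨hg, fun h => hnot (by simpa using mul_mem (inv_mem h) hg)⟩

end Cfsg.Agent.S5359
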