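import Cfsg.Statements.S5360
import Cfsg.Agent.S5357
import Cfsg.Agent.S5359
import Cfsg.Agent.S5354
import Cfsg.Agent.Forms.OddNormal

set_option autoImplicit false
open scoped MatrixGroups
open Cfsg

namespace Cfsg.Agent.S5360

open QuadraticMap Matrix CfsgLib.Forms

theorem z_two : (2 : ZMod 3) ≠ 0 := by decide
theorem z_neg_one : (-1 : ZMod 3) ≠ 0 := by decide
theorem z_add : ∀ q : ZMod 3, q ≠ 0 → q + q ≠ 0 := by decide
theorem z_sq : ∀ q : ZMod 3, q ≠ 0 → q * q = 1 := by decide
theorem z_neg : ∀ q : ZMod 3, -q + -q = q := by decide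
theorem z_four : ∀ q : ZMod 3, q + q + -q = q := by decide
theorem z_zero : ∀ q : ZMod 3, q ≠ 0 → q + q - q - q * (1 - 0) = 0 := by decide

section
variable {n : ℕ} (Q : QuadraticForm (ZMod 3) (Fin n → ZMod 3))

/-- A vector of given value orthogonal to three vectors spanning a nondegenerate subspace. -/
theorem exists_perp_three (hn : 5 ≤ n) (hQ : (polarBilin Q).Nondegenerate) (a b e : Fin n → ZMod 3)
    (hW : ∀ α β γ : ZMod 3, polar (⇑Q) (α • a + β • b + γ • e) a = 0 → polar (⇑Q) (α • a + β • b + γ • e) b = 0 →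
      polar (⇑Q) (α • a + β • b + γ • e) e = 0 → α = 0 ∧ β = 0 ∧ γ = 0) {d : ZMod 3} (hd : d ≠ 0) :
    ∃ r, Q r = d ∧ polar (⇑Q) r a = 0 ∧ polar (⇑Q) r b = 0 ∧ polar (⇑Q) r e = 0 := by
  classical
  set W := Submodule.span (ZMod 3) ({a, b, e} : Set (Fin n → ZMod 3)) with hWdef
  have hW3 : Module.finrank (ZMod 3) W ≤ 3 := by
    have h := finrank_span_finset_le_card (R := ZMod 3) ({a, b, e} : Finset (Fin n → ZMod 3))
    simp only [Finset.coe_insert, Finset.coe_singleton] at h
    exact h.trans Finset.card_le_three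
  have hdisj : Disjoint (perp Q W) (perp Q (perp Q W)) := by
    rw [perp_perp hQ, Submodule.disjoint_def]
    intro x hx hxW
    rw [hWdef, Submodule.mem_span_triple] at hxW
    obtain ⟨α, β, γ, rfl⟩ := hxW
    rw [hWdef, mem_perp_span] at hx
    obtain ⟨rfl, rfl, rfl⟩ := hW α β γ (hx a (by simp)) (hx b (by simp)) (hx e (by simp))
    simp
  obtain ⟨r, hr⟩ := CfsgLib.Forms.exists_value (nondegenerate_comp_subtype hdisj)
    (by rw [finrank_perp hQ, Module.finrank_pi, Fintype.card_fin]; omega) hd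
  exact ⟨r, hr, mem_perp.1 r.2 a (Submodule.subset_span (by simp)), mem_perp.1 r.2 b (Submodule.subset_span (by simp)),
    mem_perp.1 r.2 e (Submodule.subset_span (by simp))⟩

end

/-- Let Q be a non-degenerate quadratic form on the n-dimensional coordinate space over the field with three elements, n ≥ 5, c a non-zero scalar, and R the subgroup of the isometry group generated by the reflections of norm c. Then the commutator subgroup of R is quasisimple of index at most 2, the generalized Fitting subgroup of R is the product of the centre and the commutator subgroup, and R acts primitively by conjugation on its reflections of norm c. -/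
theorem result (n : ℕ) (hn : 5 ≤ n) (Q : QuadraticForm (ZMod 3) (Fin n → ZMod 3)) (hQ : (QuadraticMap.polarBilin Q).Nondegenerate) (c : ZMod 3) (hc : c ≠ 0) : Cfsg.IsQuasisimple (commutator ↥(Cfsg.reflectionSubgroup (⇑Q) c)) ∧ (commutator ↥(Cfsg.reflectionSubgroup (⇑Q) c)).index ≤ 2 ∧ Cfsg.generalizedFittingSubgroup ↥(Cfsg.reflectionSubgroup (⇑Q) c) = Subgroup.center ↥(Cfsg.reflectionSubgroup (⇑Q) c) ⊔ commutator ↥(Cfsg.reflectionSubgroup (⇑Q) c) ∧ Cfsg.IsPrimitiveUnderConj {g : ↥(Cfsg.reflectionSubgroup (⇑Q) c) | (g : ↥(Cfsg.isometryGroup (ZMod 3) (⇑Q))) ∈ Cfsg.reflectionsOfNorm (⇑Q) c} := by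
  classical
  haveI : Fact (Nat.Prime 3) := ⟨Nat.prime_three⟩
  have hD := Cfsg.Agent.S5357.result n hn Q hQ c hc
  set D := {g : ↥(Cfsg.reflectionSubgroup (⇑Q) c) |
    (g : ↥(Cfsg.isometryGroup (ZMod 3) (⇑Q))) ∈ Cfsg.reflectionsOfNorm (⇑Q) c} with hDdef
  have h2 : (2 : ZMod 3) ≠ 0 := z_two
  have hn' : 5 ≤ Fintype.card (Fin n) := by simpa using hn
  have hcc : c + c ≠ 0 := z_add c hc
  have hci : c⁻¹ = c := inv_eq_of_mul_eq_one_right (z_sq c hc)
  have hsq1 : ∀ q : ZMod 3, q ≠ 0 → q * q = 1 := z_sq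
  have ext' : ∀ g h : ↥(Cfsg.reflectionSubgroup (⇑Q) c),
      (((g : ↥(Cfsg.isometryGroup (ZMod 3) (⇑Q))) : GL (Fin n) (ZMod 3)) : Matrix (Fin n) (Fin n) (ZMod 3))
      = (((h : ↥(Cfsg.isometryGroup (ZMod 3) (⇑Q))) : GL (Fin n) (ZMod 3)) : Matrix (Fin n) (Fin n) (ZMod 3)) →
      g = h := fun g h e => Subtype.ext (Subtype.ext (Units.ext e))
  have mk : ∀ v : Fin n → ZMod 3, Q v = c → ∃ g ∈ D,
      (((g : ↥(Cfsg.isometryGroup (ZMod 3) (⇑Q))) : GL (Fin n) (ZMod 3)) : Matrix (Fin n) (Fin n) (ZMod 3))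
        = Cfsg.reflectionMatrix (⇑Q) v := by
    intro v hv
    have hmem : CfsgLib.Forms.reflGL Q v (hv ▸ hc) ∈ Cfsg.reflectionsOfNorm (⇑Q) c :=
      ⟨v, hv, CfsgLib.Forms.coe_reflGL Q v _⟩
    exact ⟨⟨_, Subgroup.subset_closure hmem⟩, hmem, CfsgLib.Forms.coe_reflGL Q v _⟩
  choose! R hRD hR using mk
  have memD : ∀ g ∈ D, ∃ v, Q v = c ∧ g = R v := by
    rintro g ⟨v, hv, hg⟩
    exact ⟨v, hv, ext' _ _ (hg.trans (hR v hv).symm)⟩
  have triple : ∀ v w, Q v = c → Q w = c → R v * R w * (R v)⁻¹ = R (Cfsg.Agent.S5357.sig Q c v w) := by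
    intro v w hv hw
    have hinv : (R v)⁻¹ = R v := inv_eq_of_mul_eq_one_right (ext' _ _ (by
      simp only [Subgroup.coe_mul, Units.val_mul, hR v hv, OneMemClass.coe_one, Units.val_one]
      exact Cfsg.Agent.S5359.rmat_sq Q (hv ▸ hc)))
    rw [hinv]
    apply ext'
    rw [hR _ (Cfsg.Agent.S5357.sig_norm Q hc hv hw)]
    simp only [Subgroup.coe_mul, Units.val_mul, hR v hv, hR w hw]
    exact Cfsg.Agent.S5357.mat_triple Q hc hv hw
  have neg : ∀ v (k : ZMod 3), Q v = c → k ≠ 0 → Q (k • v) = c ∧ R (k • v) = R v := by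
    intro v k hv hk
    have hq : Q (k • v) = c := by rw [QuadraticMap.map_smul, hsq1 k hk, hv, smul_eq_mul, one_mul]
    exact ⟨hq, ext' _ _ (by rw [hR v hv, hR _ hq]; exact Cfsg.Agent.S5357.mat_smul Q (hsq1 k hk))⟩
  have sig_eq : ∀ v w, Cfsg.Agent.S5357.sig Q c v w = w - (c * polar (⇑Q) w v) • v := by
    intro v w
    rw [Cfsg.Agent.S5357.sig, hci]
  have pp : ∀ v, Q v = c → polar (⇑Q) v v = c + c := fun v hv => by rw [polar_self, two_nsmul, hv]
  have hprim : Cfsg.IsPrimitiveUnderConj D := by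
    obtain ⟨a₀, qa₀⟩ := CfsgLib.Forms.exists_value hQ (by rw [Module.finrank_pi, Fintype.card_fin]; omega) hc
    obtain ⟨b₀, qb₀, hb₀, -⟩ := Cfsg.Agent.S5359.exists_common Q h2 hQ hn' (qa₀.symm ▸ hc) a₀ hc
    have hne : R b₀ ≠ R a₀ := by
      intro h
      have h1 := congrArg (fun M => M *ᵥ b₀) (((hR b₀ qb₀).symm.trans (by rw [h])).trans (hR a₀ qa₀))
      simp only [reflectionMatrix_mulVec, hb₀, pp b₀ qb₀, qb₀, mul_zero, zero_smul, sub_zero] at h1
      rw [sub_eq_self, smul_eq_zero] at h1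
      rcases h1 with h1 | h1
      · exact mul_ne_zero (inv_ne_zero hc) hcc h1
      · exact hc (by rw [← qb₀, h1, QuadraticMap.map_zero])
    refine ⟨fun a ha b hb => CfsgLib.ThreeTrans.class_exists_conj hD ha hb,
      ⟨_, hRD b₀ qb₀, _, hRD a₀ qa₀, hne⟩, fun B hBD hblock => or_iff_not_imp_left.2 fun hss => ?_⟩
    -- the rule
    have rule : ∀ u w y, Q u = c → Q w = c → Q y = c → R u ∈ B → R w ∈ B → (polar (⇑Q) u y = 0 ∨ y = u) →
        R (Cfsg.Agent.S5357.sig Q c y w) ∈ B := by
      intro u w y hu hw hy hub hwb hcomm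
      rw [← triple y w hy hw]
      rcases hblock (R y) with h | h
      · exact h.subset ⟨R w, hwb, rfl⟩
      · exfalso
        refine Set.disjoint_left.1 h (show R u ∈ _ from ⟨R u, hub, ?_⟩) hub
        show R y * R u * (R y)⁻¹ = R u
        rw [triple y u hy hu]
        rcases hcomm with h0 | rfl
        · rw [sig_eq, h0, mul_zero, zero_smul, sub_zero]
        · rw [sig_eq, pp y hy, show y - (c * (c + c)) • y = (-1 : ZMod 3) • y by
            rw [mul_add, hsq1 c hc]; module]
          exact (neg y (-1) hy z_neg_one).2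
    -- two orthogonal members
    obtain ⟨a, b, qa, qb, haB, hbB, hab⟩ : ∃ a b, Q a = c ∧ Q b = c ∧ R a ∈ B ∧ R b ∈ B ∧ polar (⇑Q) a b = 0 := by
      obtain ⟨x, hx, y, hy, hxy⟩ : ∃ x ∈ B, ∃ y ∈ B, x ≠ y := by
        by_contra hno
        push Not at hno
        exact hss fun x hx y hy => hno x hx y hy
      obtain ⟨a, qa, rfl⟩ := memD x (hBD hx)
      obtain ⟨b, qb, rfl⟩ := memD y (hBD hy)
      by_cases hp : polar (⇑Q) a b = 0
      · exact ⟨a, b, qa, qb, hx, hy, hp⟩
      set κ := (c + c)⁻¹ * polar (⇑Q) a b with hκ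
      set d := b - κ • a with hd
      have hκ0 : κ ≠ 0 := mul_ne_zero (inv_ne_zero hcc) hp
      have hκp : κ * (c + c) = polar (⇑Q) a b := by
        rw [hκ, mul_right_comm, inv_mul_cancel₀ hcc, one_mul]
      have hda : polar (⇑Q) d a = 0 := by
        rw [hd, polar_sub_left, polar_smul_left, pp a qa, polar_comm (⇑Q) b a, smul_eq_mul, hκp, sub_self]
      have hd0 : d ≠ 0 := by
        intro h
        rw [hd, sub_eq_zero] at h
        exact hxy (by rw [h]; exact (neg a κ qa hκ0).2.symm)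
      have hqd : Q d = 0 := by
        have e : Q b = Q (d + κ • a) := by rw [hd, sub_add_cancel]
        rw [QuadraticMap.map_add (⇑Q), QuadraticMap.map_smul, polar_smul_right, hda, qa, qb, hsq1 κ hκ0] at e
        simp only [smul_eq_mul, mul_zero, one_mul, add_zero] at e
        exact add_eq_right.1 e.symm
      obtain ⟨e, he0, hde, hea⟩ := CfsgLib.Forms.OddNormal.exists_partner_perp hQ hd0 hqd hda (qa.symm ▸ hc) h2
      obtain ⟨w, hw, hwa, hwd, hwe⟩ := exists_perp_three Q hn hQ a d e (fun α β γ e1 e2 e3 => by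
        simp only [polar_add_left, polar_smul_left, smul_eq_mul, pp a qa, hda, hea, polar_comm (⇑Q) a d,
          polar_comm (⇑Q) a e, polar_comm (⇑Q) e d, hde, polar_self, hqd, he0, smul_zero, mul_zero, mul_one,
          add_zero, zero_add] at e1 e2 e3
        exact ⟨(mul_eq_zero.1 e1).resolve_right hcc, e3, e2⟩) (neg_ne_zero.2 hc)
      set y₁ := e + c • d with hy₁
      set y₂ := e + (-c) • d + w with hy₂
      have q1 : Q y₁ = c := by
        rw [hy₁, QuadraticMap.map_add (⇑Q), QuadraticMap.map_smul, polar_smul_right, polar_comm (⇑Q) e d, hde, he0, hqd]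
        simp
      have q2 : Q y₂ = c := by
        rw [hy₂, QuadraticMap.map_add (⇑Q), QuadraticMap.map_add (⇑Q), QuadraticMap.map_smul, polar_smul_right,
          polar_add_left, polar_smul_left, polar_comm (⇑Q) e d, hde, he0, hqd, hw, polar_comm (⇑Q) d w,
          polar_comm (⇑Q) e w, hwe, hwd]
        simp only [smul_eq_mul, mul_zero, mul_one, zero_add, add_zero]
        exact z_neg c
      have ha1 : polar (⇑Q) a y₁ = 0 := by
        rw [hy₁, polar_add_right, polar_smul_right, polar_comm (⇑Q) a e, polar_comm (⇑Q) a d, hea, hda, smul_zero, add_zero]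
      have ha2 : polar (⇑Q) a y₂ = 0 := by
        rw [hy₂, polar_add_right, polar_add_right, polar_smul_right, polar_comm (⇑Q) a e, polar_comm (⇑Q) a d,
          polar_comm (⇑Q) a w, hea, hda, hwa, smul_zero, add_zero, add_zero]
      have hb' : b = d + κ • a := by rw [hd, sub_add_cancel]
      have hb1 : polar (⇑Q) b y₁ = 1 := by
        rw [hb', polar_add_left, polar_smul_left, ha1, hy₁, polar_add_right, polar_smul_right, hde, polar_self, hqd]
        simp
      have hb2 : polar (⇑Q) b y₂ = 1 := by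
        rw [hb', polar_add_left, polar_smul_left, ha2, hy₂, polar_add_right, polar_add_right, polar_smul_right, hde,
          polar_self, hqd, polar_comm (⇑Q) d w, hwd]
        simp
      have h12 : polar (⇑Q) y₁ y₂ = 0 := by
        simp only [hy₁, hy₂, polar_add_right, polar_add_left, polar_smul_right, polar_smul_left, polar_self, hqd, he0,
          polar_comm (⇑Q) e d, hde, polar_comm (⇑Q) d w, polar_comm (⇑Q) e w, hwd, hwe, smul_zero, smul_eq_mul,
          mul_zero, mul_one, add_zero, zero_add]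
        ring
      refine ⟨_, _, Cfsg.Agent.S5357.sig_norm Q hc q1 qb, Cfsg.Agent.S5357.sig_norm Q hc q2 qb,
        rule a b y₁ qa qb q1 hx hy (Or.inl ha1), rule a b y₂ qa qb q2 hx hy (Or.inl ha2), ?_⟩
      rw [sig_eq, sig_eq, hb1, hb2]
      simp only [polar_sub_left, polar_sub_right, polar_smul_left, polar_smul_right, pp b qb, hb2,
        polar_comm (⇑Q) y₁ b, hb1, h12, smul_eq_mul, mul_one, mul_zero]
      exact z_zero c hc
    -- everything orthogonal to a
    have step : ∀ a b x, Q a = c → Q b = c → Q x = c → R a ∈ B → R b ∈ B → polar (⇑Q) a b = 0 →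
        polar (⇑Q) a x = 0 → R x ∈ B := by
      intro a b x qa qb qx haB hbB hab hax
      have near : ∀ b x, Q b = c → Q x = c → R b ∈ B → polar (⇑Q) a b = 0 → polar (⇑Q) a x = 0 →
          polar (⇑Q) x b ≠ 0 → R x ∈ B := by
        intro b x qb qx hbB hab hax hxb
        set y := Cfsg.Agent.S5357.sig Q c x b with hy
        have qy : Q y = c := Cfsg.Agent.S5357.sig_norm Q hc qx qb
        have hay : polar (⇑Q) a y = 0 := by
          rw [hy, sig_eq, polar_sub_right, polar_smul_right, hab, hax, smul_zero, sub_zero]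
        have h := rule a b y qa qb qy haB hbB (Or.inl hay)
        set p := polar (⇑Q) b x with hp
        have hp0 : p ≠ 0 := by rwa [hp, polar_comm]
        have hby : polar (⇑Q) b y = c + c - c * p * p := by
          rw [hy, sig_eq, polar_sub_right, polar_smul_right, pp b qb, smul_eq_mul, hp]
        rw [sig_eq y b, hby, mul_assoc, hsq1 p hp0, mul_one, add_sub_cancel_right, hsq1 c hc, one_smul, hy,
          sig_eq x b, sub_sub_cancel] at h
        rwa [(neg x _ qx (mul_ne_zero hc hp0)).2] at h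
      by_cases hxb : polar (⇑Q) x b = 0
      · obtain ⟨r, qr, hra, hrb, hrx⟩ := exists_perp_three Q hn hQ a b x (fun α β γ e1 e2 e3 => by
          simp only [polar_add_left, polar_smul_left, smul_eq_mul, pp a qa, pp b qb, pp x qx, hab, hax, hxb,
            polar_comm (⇑Q) b a, polar_comm (⇑Q) x a, polar_comm (⇑Q) b x, mul_zero, add_zero, zero_add] at e1 e2 e3
          exact ⟨(mul_eq_zero.1 e1).resolve_right hcc, (mul_eq_zero.1 e2).resolve_right hcc,
            (mul_eq_zero.1 e3).resolve_right hcc⟩) (neg_ne_zero.2 hc)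
        set w := b + x + r with hw
        have qw : Q w = c := by
          rw [hw, QuadraticMap.map_add (⇑Q), QuadraticMap.map_add (⇑Q), polar_add_left, qb, qx, qr,
            polar_comm (⇑Q) b x, hxb, polar_comm (⇑Q) b r, polar_comm (⇑Q) x r, hrb, hrx]
          simp only [add_zero]
          exact z_four c
        have haw : polar (⇑Q) a w = 0 := by
          rw [hw, polar_add_right, polar_add_right, hab, hax, polar_comm (⇑Q) a r, hra, add_zero, add_zero]
        refine near w x qw qx (near b w qb qw hbB hab haw ?_) haw hax ?_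
        · rw [hw, polar_add_left, polar_add_left, hxb, hrb, pp b qb, add_zero, add_zero]
          exact hcc
        · rw [hw, polar_add_right, polar_add_right, hxb, polar_comm (⇑Q) x r, hrx, pp x qx, zero_add, add_zero]
          exact hcc
      · exact near b x qb qx hbB hab hax hxb
    refine Set.Subset.antisymm hBD fun g hg => ?_
    obtain ⟨x, qx, rfl⟩ := memD g hg
    obtain ⟨y, qy, hya, hyx⟩ := Cfsg.Agent.S5359.exists_common Q h2 hQ hn' (qa.symm ▸ hc) x hc
    have hyB : R y ∈ B := step a b y qa qb qy haB hbB hab (by rw [polar_comm]; exact hya)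
    exact step y a x qy qa qx hyB haB hya hyx
  obtain ⟨a, qa⟩ := CfsgLib.Forms.exists_value hQ (by rw [Module.finrank_pi, Fintype.card_fin]; omega) hc
  obtain ⟨b, qb, hba, -⟩ := Cfsg.Agent.S5359.exists_common Q h2 hQ hn' (qa.symm ▸ hc) a hc
  have hw : ∃ a ∈ D, ∃ b ∈ D, a ≠ b ∧ Commute a b := by
    refine ⟨R b, hRD b qb, R a, hRD a qa, fun h => ?_, ?_⟩
    · have h1 := congrArg (fun M => M *ᵥ b) (((hR b qb).symm.trans (by rw [h])).trans (hR a qa))
      simp only [reflectionMatrix_mulVec, hba, pp b qb, qb, mul_zero, zero_smul, sub_zero] at h1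
      rw [sub_eq_self, smul_eq_zero] at h1
      rcases h1 with h1 | h1
      · exact mul_ne_zero (inv_ne_zero hc) hcc h1
      · exact hc (by rw [← qb, h1, QuadraticMap.map_zero])
    · have h := triple b a qb qa
      rw [sig_eq, polar_comm, hba, mul_zero, zero_smul, sub_zero, mul_inv_eq_iff_eq_mul] at h
      exact h
  obtain ⟨-, -, L, hLn, hL, hidx, hF⟩ := CfsgLib.ThreeTrans.primitive_structure hD hprim hw
  haveI := hLn
  have hcomm := CfsgLib.ThreeTrans.commutator_eq_of_index L hL hidx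
  rw [hcomm]
  exact ⟨hL, hidx, hF.trans (sup_comm _ _), hprim⟩

end Cfsg.Agent.S5360
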