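import Cfsg.Statements.S5361
import Cfsg.Agent.ThreeTrans.Layer

set_option autoImplicit false
open Cfsg

namespace Cfsg.Agent.S5361

open CfsgLib.ThreeTrans

/-- Let D be a conjugacy class of 3-transpositions generating the finite group G, and suppose the centre of G is trivial and some two different members of D commute. Then the following are equivalent: (1) the commutator subgroup of G is simple (possibly of prime order); (2) G acts primitively on D by conjugation; (3) the largest normal 2-subgroup and the largest normal 3-subgroup of G are trivial and the commuting graph of D is connected. -/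
theorem result {G : Type*} [Group G] [Finite G] {D : Set G} (hD : Cfsg.IsThreeTranspositionClass D) (hZ : Subgroup.center G = ⊥) (hw : ∃ a ∈ D, ∃ b ∈ D, a ≠ b ∧ Commute a b) : (IsSimpleGroup (commutator G) ↔ Cfsg.IsPrimitiveUnderConj D) ∧ (Cfsg.IsPrimitiveUnderConj D ↔ (Cfsg.pCore 2 G = ⊥ ∧ Cfsg.pCore 3 G = ⊥ ∧ (Cfsg.commutingGraph D).Connected)) := by
  haveI := Fact.mk Nat.prime_three
  have hsimple_prim : IsSimpleGroup (commutator G) → Cfsg.IsPrimitiveUnderConj D := fun hs => by
    refine isPrimitive hD (mono_of_simple hs) fun hp => ?_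
    obtain ⟨a, ha, b, hb, hab, hc⟩ := hw
    obtain ⟨k, hk⟩ := hp ⟨a * b, mem_commutator_mul hD ha hb⟩
    have h1 := eq_one_of_pow_coprime (congrArg Subtype.val hk)
      ((sq_eq_one_iff_commute (mul_self hD.1 ha) (mul_self hD.1 hb)).2 hc) (Nat.Coprime.pow_left _ (by norm_num))
    rw [mul_eq_one_iff_eq_inv, inv_eq hD.1 hb] at h1
    exact hab h1
  have hprim_simple : Cfsg.IsPrimitiveUnderConj D → IsSimpleGroup (commutator G) := fun hprim => by
    obtain ⟨h2, h3, L, hLn, hL, hidx, hF⟩ := primitive_structure hD hprim hw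
    haveI := hLn
    rw [commutator_eq_of_index L hL hidx]
    have hcenter : Subgroup.center L = ⊥ := by
      rw [Subgroup.eq_bot_iff_forall]
      intro x hx
      have h1 : (x : G) ∈ Subgroup.centralizer (L : Set G) :=
        Subgroup.mem_centralizer_iff.2 fun y hy => congrArg Subtype.val (Subgroup.mem_center_iff.1 hx ⟨y, hy⟩)
      have h4 := centralizer_le_center hD h2 h3 L hF h1
      rw [hZ, Subgroup.mem_bot] at h4
      exact Subtype.ext h4
    haveI := CfsgLib.Components.quasisimple_nontrivial hL
    exact ⟨fun N hN => (CfsgLib.Components.quasisimple_normal hL hN).imp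
      (fun h => le_bot_iff.1 (hcenter ▸ h)) id⟩
  refine ⟨⟨hsimple_prim, hprim_simple⟩, fun hprim => ?_, fun ⟨h2, h3, hconn⟩ => ?_⟩
  · obtain ⟨h2, h3, -⟩ := primitive_structure hD hprim hw
    exact ⟨le_bot_iff.1 (hZ ▸ h2), le_bot_iff.1 (hZ ▸ h3), commutingGraph_connected hD hprim hw⟩
  · obtain ⟨a, ha, b, hb, hab, -⟩ := hw
    have hD2 : ∃ a ∈ D, ∃ b ∈ D, a ≠ b := ⟨a, ha, b, hb, hab⟩
    have h2' : Cfsg.pCore 2 G ≤ Subgroup.center G := h2 ▸ bot_le
    have h3' : Cfsg.pCore 3 G ≤ Subgroup.center G := h3 ▸ bot_le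
    obtain ⟨L, hLn, hL, hF⟩ := exists_layer_component hD hD2 h2' h3'
    haveI := hLn
    have hC := centralizer_le_center hD h2' h3' L hF
    have hidx : L.index ≤ 2 := by
      refine index_le_two_of_congr hD L ha fun c hc => ?_
      have key : ∀ u v : D, (Cfsg.commutingGraph D).Reachable u v → ((u : G) : G ⧸ L) = ((v : G) : G ⧸ L) := by
        intro u v h
        obtain ⟨w⟩ := h
        induction w with
        | nil => rfl
        | @cons x y z hxy _ ih =>
          refine Eq.trans ?_ ih
          have hc' : Commute (x : G) (y : G) := by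
            rcases (SimpleGraph.fromRel_adj _ _ _).1 hxy with ⟨-, h | h⟩
            · exact h
            · exact h.symm
          have h := mul_mem_of_commute hD hD2 L hL hC y.2 x.2 hc'
          rw [← QuotientGroup.eq_one_iff, QuotientGroup.mk_mul, mul_eq_one_iff_eq_inv, ← QuotientGroup.mk_inv,
            inv_eq hD.1 y.2] at h
          exact h
      rw [← QuotientGroup.eq_one_iff, QuotientGroup.mk_mul, mul_eq_one_iff_eq_inv, ← QuotientGroup.mk_inv,
        inv_eq hD.1 ha]
      exact key ⟨c, hc⟩ ⟨a, ha⟩ (hconn.preconnected _ _)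
    obtain ⟨hM, hG⟩ := mono_of_index_two L hL hidx hC
    exact isPrimitive hD hM (hG 3)

end Cfsg.Agent.S5361
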