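import Cfsg.Statements.S5363
import Cfsg.Agent.ThreeTrans.Basic

set_option autoImplicit false
open Cfsg

namespace Cfsg.Agent.S5363

/-- Let D be a conjugation-invariant set of involutions of a finite group G. Then every product of two members of D has odd order or order 2 if and only if, for every a in D and every b in D different from a and commuting with a, the members of D commuting with a b are exactly those commuting with both a and b. -/
theorem result {G : Type*} [Group G] [Finite G] {D : Set G} (hinv : ∀ d ∈ D, orderOf d = 2) (hconj : ∀ g : G, ∀ d ∈ D, g * d * g⁻¹ ∈ D) : (∀ a ∈ D, ∀ b ∈ D, Odd (orderOf (a * b)) ∨ orderOf (a * b) = 2) ↔ ∀ a ∈ D, ∀ b ∈ D, b ≠ a → Commute a b → {y : G | y ∈ D ∧ Commute (a * b) y} = {y : G | y ∈ D ∧ Commute a y} ∩ {y : G | y ∈ D ∧ Commute b y} := by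
  have hsq : ∀ d ∈ D, d * d = 1 := fun d hd => by
    have := pow_orderOf_eq_one d
    rwa [hinv d hd, pow_two] at this
  have hi : ∀ d ∈ D, d⁻¹ = d := fun d hd => inv_eq_of_mul_eq_one_right (hsq d hd)
  constructor
  · intro h a ha b hb hba hab
    refine Set.ext fun d => ⟨?_, fun ⟨⟨hd, h1⟩, ⟨_, h2⟩⟩ => ⟨hd, h1.mul_left h2⟩⟩
    rintro ⟨hd, hc⟩
    suffices Commute a d by
      refine ⟨⟨hd, this⟩, hd, ?_⟩
      have hb' : b = a * (a * b) := by rw [← mul_assoc, hsq a ha, one_mul]
      rw [hb']
      exact this.mul_left hc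
    rcases h a ha d hd with hodd | h2
    swap
    · have := pow_orderOf_eq_one (a * d)
      rw [h2] at this
      exact (CfsgLib.ThreeTrans.sq_eq_one_iff_commute (hsq a ha) (hsq d hd)).1 this
    have hz2 : (a * b) ^ 2 = 1 :=
      (CfsgLib.ThreeTrans.sq_eq_one_iff_commute (hsq a ha) (hsq b hb)).2 hab
    have hz : a * b ≠ 1 := fun e => hba (by
      rw [mul_eq_one_iff_eq_inv, hi b hb] at e; exact e.symm)
    have hzt : Commute (a * b) (a * d) := ((Commute.refl a).mul_right hab).symm.mul_right hc
    have hbd : b * d = (a * b) * (a * d) := by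
      rw [hab.eq, mul_assoc, ← mul_assoc a, hsq a ha, one_mul]
    rcases h b hb d hd with hodd' | h2'
    · exfalso
      have h1 := pow_orderOf_eq_one (b * d)
      rw [hbd, hzt.mul_pow] at h1
      set n := orderOf (a * b * (a * d))
      have hn : (a * b) ^ n = a * b := by
        obtain ⟨j, hj⟩ : Odd n := by simpa [n, ← hbd] using hodd'
        rw [hj, pow_succ, pow_mul, hz2, one_pow, one_mul]
      rw [hn] at h1
      apply hz
      apply CfsgLib.ThreeTrans.eq_one_of_pow_coprime hz2 (n := orderOf (a * d)) ?_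
        (Nat.coprime_two_left.2 hodd)
      rw [mul_eq_one_iff_eq_inv.1 h1, inv_pow, ← pow_mul, mul_comm n, pow_mul,
        pow_orderOf_eq_one, one_pow, inv_one]
    · have h1 := pow_orderOf_eq_one (b * d)
      rw [h2', hbd, hzt.mul_pow, hz2, one_mul] at h1
      have had : a * d = 1 := CfsgLib.ThreeTrans.eq_one_of_pow_coprime h1 (pow_orderOf_eq_one _)
        (Nat.coprime_two_left.2 hodd)
      rw [mul_eq_one_iff_eq_inv, hi d hd] at had
      rw [had]
  · intro h a ha b hb
    rcases Nat.even_or_odd (orderOf (a * b)) with ⟨k, hk⟩ | hodd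
    swap
    · exact .inl hodd
    right
    have hpos := orderOf_pos (a * b)
    set z := (a * b) ^ k with hzdef
    have hz1 : z ≠ 1 := fun e => by
      have := Nat.le_of_dvd (by omega) (orderOf_dvd_of_pow_eq_one e); omega
    have hz2 : z * z = 1 := by rw [hzdef, ← pow_add, ← hk]; exact pow_orderOf_eq_one _
    have hzi : z⁻¹ = z := inv_eq_of_mul_eq_one_right hz2
    have hza : a * z * a⁻¹ = z := by
      rw [hzdef, ← conj_pow, show a * (a * b) * a⁻¹ = (a * b)⁻¹ by
        rw [mul_inv_rev, hi a ha, hi b hb, ← mul_assoc, hsq a ha, one_mul], inv_pow]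
      exact hzi
    have hzb : b * z * b⁻¹ = z := by
      rw [hzdef, ← conj_pow, show b * (a * b) * b⁻¹ = (a * b)⁻¹ by
        rw [mul_inv_rev, hi a ha, hi b hb, mul_assoc b, mul_assoc a, hsq b hb, mul_one], inv_pow]
      exact hzi
    have hca : Commute a z := by
      change a * z = z * a
      calc a * z = a * z * a⁻¹ * a := (inv_mul_cancel_right _ _).symm
        _ = z * a := by rw [hza]
    have hcb : Commute z b := by
      change z * b = b * z
      calc z * b = b * z * b⁻¹ * b := by rw [hzb]
        _ = b * z := inv_mul_cancel_right _ _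
    have hshift : ∀ j : ℕ, ∀ c ∈ D, (a * b) ^ j * c * ((a * b) ^ j)⁻¹ ∈ D :=
      fun j c hc => hconj _ c hc
    have hinvpow : ∀ j : ℕ, a * ((a * b) ^ j)⁻¹ = (a * b) ^ j * a := by
      intro j
      have : a * (a * b)⁻¹ * a⁻¹ = a * b := by
        rw [mul_inv_rev, hi a ha, hi b hb, mul_assoc a, mul_assoc b, hsq a ha, mul_one]
      calc a * ((a * b) ^ j)⁻¹ = (a * (a * b)⁻¹ * a⁻¹) ^ j * a := by
            rw [conj_pow, inv_pow, inv_mul_cancel_right]
        _ = _ := by rw [this]
    have hcD : z * a ∈ D := by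
      rcases Nat.even_or_odd k with ⟨j, hj⟩ | ⟨j, hj⟩
      · have := hshift j a ha
        rwa [mul_assoc, hinvpow j, ← mul_assoc, ← pow_add, ← hj] at this
      · have := hshift j _ (hconj a b hb)
        rw [hi a ha] at this
        rw [show (a * b) ^ j * (a * b * a) * ((a * b) ^ j)⁻¹
          = (a * b) ^ j * (a * b) * (a * ((a * b) ^ j)⁻¹) by simp [mul_assoc], hinvpow j,
          ← pow_succ, ← mul_assoc, ← pow_add] at this
        rwa [hzdef, show k = j + 1 + j by omega]
    have hne : z * a ≠ a := fun e => hz1 (mul_eq_right.1 e)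
    have hcm : Commute a (z * a) := hca.mul_right (Commute.refl a)
    have hac : a * (z * a) = z := by rw [← mul_assoc, hca.eq, mul_assoc, hsq a ha, mul_one]
    have hsets := h a ha (z * a) hcD hne hcm
    have hbmem : b ∈ {y : G | y ∈ D ∧ Commute (a * (z * a)) y} := ⟨hb, by rw [hac]; exact hcb⟩
    rw [hsets] at hbmem
    have h2 := (CfsgLib.ThreeTrans.sq_eq_one_iff_commute (hsq a ha) (hsq b hb)).2 hbmem.1.2
    have := Nat.le_of_dvd two_pos (orderOf_dvd_of_pow_eq_one h2)
    omega

end Cfsg.Agent.S5363
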