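import Cfsg.Statements.S5364
import Cfsg.Agent.ThreeTrans.Basic

set_option autoImplicit false
open Cfsg

namespace Cfsg.Agent.S5364

/-- Let D be a conjugation-invariant set of involutions of a finite group G and t an involution in the centre of G such that d t does not lie in D for any d in D. If the images of the members of D in G modulo the subgroup generated by t satisfy the 3-transposition order conditions (each has order 2 and any two have product of order at most 3), then so do the members of D. -/
theorem result {G : Type*} [Group G] [Finite G] {D : Set G} (hinv : ∀ d ∈ D, orderOf d = 2) (hconj : ∀ g : G, ∀ d ∈ D, g * d * g⁻¹ ∈ D) (t : G) (ht : orderOf t = 2) (htZ : t ∈ Subgroup.center G) (hDt : ∀ d ∈ D, d * t ∉ D) [(Subgroup.zpowers t).Normal] (himg : Cfsg.IsThreeTranspositionSet ((QuotientGroup.mk : G → G ⧸ Subgroup.zpowers t) '' D)) : Cfsg.IsThreeTranspositionSet D := by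
  refine ⟨hinv, fun d hd e he => ?_⟩
  have hsq : ∀ x ∈ D, x * x = 1 := fun x hx => by
    have := pow_orderOf_eq_one x
    rwa [hinv x hx, pow_two] at this
  have ht2 : t ^ 2 = 1 := by rw [← ht]; exact pow_orderOf_eq_one t
  have hcases : ∀ x : G, x ∈ Subgroup.zpowers t → x = 1 ∨ x = t := by
    intro x hx
    obtain ⟨n, rfl⟩ := (mem_powers_iff_mem_zpowers (x := t)).2 hx
    change t ^ n = 1 ∨ t ^ n = t
    rw [← Nat.div_add_mod n 2, pow_add, pow_mul, ht2, one_pow, one_mul]
    rcases Nat.mod_two_eq_zero_or_one n with h | h <;> simp [h]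
  have aux : ∀ x ∈ D, d * x = t → False := by
    intro x hx hxt
    apply hDt d hd
    rw [← hxt, ← mul_assoc, hsq d hd, one_mul]
    exact hx
  rcases himg.2 _ ⟨d, hd, rfl⟩ _ ⟨e, he, rfl⟩ with h | h
  · rw [← QuotientGroup.mk_mul, ← QuotientGroup.mk_pow, QuotientGroup.eq_one_iff] at h
    refine .inl ((hcases _ h).resolve_right fun h' => aux _ (hconj e d hd) ?_)
    rw [← h', inv_eq_of_mul_eq_one_right (hsq e he)]
    simp [pow_two, mul_assoc]
  · rw [← QuotientGroup.mk_mul, ← QuotientGroup.mk_pow, QuotientGroup.eq_one_iff] at h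
    refine .inr ((hcases _ h).resolve_right fun h' => aux _ (hconj (e * d) e he) ?_)
    rw [← h', mul_inv_rev, inv_eq_of_mul_eq_one_right (hsq e he),
      inv_eq_of_mul_eq_one_right (hsq d hd)]
    simp [pow_succ, mul_assoc]

end Cfsg.Agent.S5364
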