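import Cfsg.Statements.S5387
import Cfsg.Agent.L34.Multiplier
-- import your own Cfsg.Agent.* helpers here

set_option autoImplicit false
open Cfsg
open scoped commutatorElement

namespace Cfsg.Agent.S5387

universe u v

/-- The image of squaring in the two-part has index four. -/
theorem comm_central {P : Type u} [Group P] {z : P} (hz : ∀ y, y * z = z * y) (a b : P) :
    ⁅z * a, b⁆ = ⁅a, b⁆ := by
  calc ⁅z * a, b⁆ = z * (a * b * a⁻¹) * z⁻¹ * b⁻¹ := by rw [commutatorElement_def]; group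
    _ = a * b * a⁻¹ * z * z⁻¹ * b⁻¹ := by rw [← hz (a * b * a⁻¹)]
    _ = ⁅a, b⁆ := by rw [commutatorElement_def]; group

theorem sd_aux {P : Type u} {L : Type v} [Group P] [Group L] [hL : Group.IsPerfect L] (p : P →* L)
    (hp : Function.Surjective p) : Function.Surjective (p.comp (commutator P).subtype) := by
  rw [← MonoidHom.range_eq_top, MonoidHom.range_comp, Subgroup.range_subtype, commutator_def,
    Subgroup.map_commutator, Subgroup.map_top_of_surjective _ hp, ← commutator_def]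
  exact hL.commutator_eq_top

/-- The image of squaring in the two-part has index four. -/
theorem ker_eq_squares {B : Type*} [CommGroup B] (f : Multiplicative (ZMod 3 × ZMod 4 × ZMod 4) →* B)
    (hf : Function.Surjective f) (hB : Nat.card B = 4) (he : ∀ b : B, b * b = 1) :
    f.ker = (powMonoidHom 2 : Multiplicative (ZMod 3 × ZMod 4 × ZMod 4) →* _).range := by
  refine (Subgroup.eq_of_le_of_card_ge ?_ ?_).symm
  · rintro _ ⟨a, rfl⟩
    rw [MonoidHom.mem_ker, powMonoidHom_apply, map_pow, pow_two, he]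
  · have h1 : Nat.card f.ker * f.ker.index = 48 := by
      rw [Subgroup.card_mul_index]; simp
    rw [Subgroup.index_ker, MonoidHom.range_eq_top.2 hf, Subgroup.card_top, hB] at h1
    have h2 : Nat.card (powMonoidHom 2 : Multiplicative (ZMod 3 × ZMod 4 × ZMod 4) →* _).range = 12 := by
      rw [Nat.card_eq_fintype_card, Fintype.card_subtype]
      decide +kernel
    omega


/-- Up to isomorphism there is at most one quasisimple group whose centre is elementary abelian of order 4 and whose central quotient is isomorphic to the projective special linear group of dimension 3 over the field with four elements: any two such groups are isomorphic. -/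
theorem result {L₁ L₂ : Type*} [Group L₁] [Finite L₁] [Group L₂] [Finite L₂] (F : Type) [Field F] [Fintype F] (hF : Fintype.card F = 4) (h₁ : Cfsg.IsQuasisimple L₁) (h₂ : Cfsg.IsQuasisimple L₂) (hc₁ : Nat.card (Subgroup.center L₁) = 4) (hc₂ : Nat.card (Subgroup.center L₂) = 4) (he₁ : ∀ x ∈ Subgroup.center L₁, x * x = 1) (he₂ : ∀ x ∈ Subgroup.center L₂, x * x = 1) (e₁ : L₁ ⧸ Subgroup.center L₁ ≃* Matrix.ProjectiveSpecialLinearGroup (Fin 3) F) (e₂ : L₂ ⧸ Subgroup.center L₂ ≃* Matrix.ProjectiveSpecialLinearGroup (Fin 3) F) : Nonempty (L₁ ≃* L₂) := by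
  classical
  let σ₁ : L₁ →* Matrix.ProjectiveSpecialLinearGroup (Fin 3) F := e₁.toMonoidHom.comp (QuotientGroup.mk' _)
  let σ₂ : L₂ →* Matrix.ProjectiveSpecialLinearGroup (Fin 3) F := e₂.toMonoidHom.comp (QuotientGroup.mk' _)
  have s₁ : Function.Surjective σ₁ := e₁.surjective.comp (QuotientGroup.mk'_surjective _)
  have s₂ : Function.Surjective σ₂ := e₂.surjective.comp (QuotientGroup.mk'_surjective _)
  have k₁ : ∀ x, σ₁ x = 1 ↔ x ∈ Subgroup.center L₁ := fun x => by simp [σ₁]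
  have k₂ : ∀ x, σ₂ x = 1 ↔ x ∈ Subgroup.center L₂ := fun x => by simp [σ₂]
  let P : Subgroup (L₁ × L₂) := (σ₁.comp (MonoidHom.fst L₁ L₂)).eqLocus (σ₂.comp (MonoidHom.snd L₁ L₂))
  let D : Subgroup P := commutator P
  let p₁ : P →* L₁ := (MonoidHom.fst L₁ L₂).comp P.subtype
  let p₂ : P →* L₂ := (MonoidHom.snd L₁ L₂).comp P.subtype
  have sp₁ : Function.Surjective p₁ := fun x => by
    obtain ⟨y, hy⟩ := s₂ (σ₁ x)
    exact ⟨⟨(x, y), hy.symm⟩, rfl⟩
  have sp₂ : Function.Surjective p₂ := fun y => by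
    obtain ⟨x, hx⟩ := s₁ (σ₂ y)
    exact ⟨⟨(x, y), hx⟩, rfl⟩
  haveI := h₁.1
  haveI := h₂.1
  have sd₁ : Function.Surjective (p₁.comp D.subtype) := sd_aux p₁ sp₁
  have sd₂ : Function.Surjective (p₂.comp D.subtype) := sd_aux p₂ sp₂
  let φ : D →* Matrix.ProjectiveSpecialLinearGroup (Fin 3) F := (σ₁.comp p₁).comp D.subtype
  have hker : ∀ d : D, φ d = 1 → p₁ d.1 ∈ Subgroup.center L₁ ∧ p₂ d.1 ∈ Subgroup.center L₂ := fun d hd =>
    ⟨(k₁ _).1 hd, (k₂ _).1 ((d.1.2 : σ₁ _ = σ₂ _).symm.trans hd)⟩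
  have hcen : ∀ d : D, φ d = 1 → ∀ g : P, g * d.1 = d.1 * g := fun d hd g => Subtype.ext (Prod.ext
    (Subgroup.mem_center_iff.1 (hker d hd).1 _) (Subgroup.mem_center_iff.1 (hker d hd).2 _))
  have hperf : commutator D = ⊤ := by
    have hgen : ∀ g : P, ∃ (z : P) (d : D), g = z * d.1 ∧ z ∈ Subgroup.center P := by
      intro g
      obtain ⟨d, hd⟩ := (s₁.comp sd₁) (σ₁ (p₁ g))
      refine ⟨g * d.1⁻¹, d, (inv_mul_cancel_right _ _).symm, Subgroup.mem_center_iff.2 fun y => ?_⟩
      have h0 : σ₁ (p₁ (g * d.1⁻¹)) = 1 := by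
        rw [map_mul, map_mul, map_inv, map_inv, show σ₁ (p₁ d.1) = σ₁ (p₁ g) from hd, mul_inv_cancel]
      exact Subtype.ext (Prod.ext (Subgroup.mem_center_iff.1 ((k₁ _).1 h0) _)
        (Subgroup.mem_center_iff.1 ((k₂ _).1 (((g * d.1⁻¹ : P).2 : σ₁ _ = σ₂ _).symm.trans h0)) _))
    rw [eq_top_iff]
    rintro x -
    have : D ≤ (commutator D).map D.subtype := by
      show ⁅(⊤ : Subgroup P), ⊤⁆ ≤ _
      rw [Subgroup.commutator_le]
      intro a _ b _
      obtain ⟨z, c, rfl, hz⟩ := hgen a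
      obtain ⟨w, d, rfl, hw⟩ := hgen b
      refine ⟨⁅c, d⁆, Subgroup.commutator_mem_commutator (Subgroup.mem_top _) (Subgroup.mem_top _), ?_⟩
      rw [map_commutatorElement]
      have hz' : ∀ y, y * z = z * y := Subgroup.mem_center_iff.1 hz
      have hw' : ∀ y, y * w = w * y := Subgroup.mem_center_iff.1 hw
      show ⁅(c : P), (d : P)⁆ = _
      have e1 : ∀ y, ⁅z * (c : P), y⁆ = ⁅(c : P), y⁆ := fun y => comm_central hz' _ _
      have e2 : ∀ y, ⁅y, w * (d : P)⁆ = ⁅y, (d : P)⁆ := fun y => by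
        rw [← commutatorElement_inv (w * (d : P)), comm_central hw', commutatorElement_inv]
      rw [e1, e2]
    obtain ⟨y, hy, e⟩ := this x.2
    exact Subtype.coe_injective e ▸ hy
  have hφ : Cfsg.IsStemExtension φ :=
    ⟨s₁.comp sd₁, fun d hd => Subgroup.mem_center_iff.2 fun g => Subtype.ext (hcen d hd g.1),
      by rw [hperf]; exact le_top⟩
  obtain ⟨π, hπ⟩ := CfsgLib.L34.stem_bound hF φ hφ
  letI : CommGroup (Subgroup.center L₁) := { (inferInstance : Group (Subgroup.center L₁)) with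
    mul_comm := fun a b => Subtype.ext (Subgroup.mem_center_iff.1 b.2 a) }
  letI : CommGroup (Subgroup.center L₂) := { (inferInstance : Group (Subgroup.center L₂)) with
    mul_comm := fun a b => Subtype.ext (Subgroup.mem_center_iff.1 b.2 a) }
  let f₁ : φ.ker →* Subgroup.center L₁ :=
    ((p₁.comp D.subtype).comp φ.ker.subtype).codRestrict _ fun d => (hker d.1 d.2).1
  let f₂ : φ.ker →* Subgroup.center L₂ :=
    ((p₂.comp D.subtype).comp φ.ker.subtype).codRestrict _ fun d => (hker d.1 d.2).2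
  have sf₁ : Function.Surjective f₁ := fun z => by
    obtain ⟨d, hd⟩ := sd₁ z.1
    exact ⟨⟨d, show σ₁ (p₁ d.1) = 1 by rw [show p₁ d.1 = z.1 from hd]; exact (k₁ _).2 z.2⟩, Subtype.ext hd⟩
  have sf₂ : Function.Surjective f₂ := fun z => by
    obtain ⟨d, hd⟩ := sd₂ z.1
    refine ⟨⟨d, ?_⟩, Subtype.ext hd⟩
    show σ₁ (p₁ d.1) = 1
    exact (d.1.2 : σ₁ _ = σ₂ _).trans ((k₂ _).2 (show p₂ d.1 ∈ _ from (show p₂ d.1 = z.1 from hd) ▸ z.2))
  have hkk : (f₁.comp π).ker = (f₂.comp π).ker := by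
    rw [ker_eq_squares _ (sf₁.comp hπ) hc₁ fun b => Subtype.ext (he₁ b.1 b.2),
      ker_eq_squares _ (sf₂.comp hπ) hc₂ fun b => Subtype.ext (he₂ b.1 b.2)]
  have hker12 : (p₁.comp D.subtype).ker = (p₂.comp D.subtype).ker := by
    have key : ∀ (k : φ.ker), f₁ k = 1 ↔ f₂ k = 1 := fun k => by
      obtain ⟨a, rfl⟩ := hπ k
      exact (iff_of_eq (congrArg (fun H : Subgroup _ => a ∈ H) hkk) :)
    ext d
    simp only [MonoidHom.mem_ker, MonoidHom.comp_apply, Subgroup.coe_subtype]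
    constructor <;> intro h
    · have hd : φ d = 1 := by show σ₁ (p₁ d.1) = 1; rw [h, map_one]
      exact congrArg Subtype.val ((key ⟨d, hd⟩).1 (Subtype.ext h))
    · have hd : φ d = 1 := by
        show σ₁ (p₁ d.1) = 1
        exact (d.1.2 : σ₁ _ = σ₂ _).trans (by show σ₂ (p₂ d.1) = 1; rw [h, map_one])
      exact congrArg Subtype.val ((key ⟨d, hd⟩).2 (Subtype.ext h))
  exact ⟨((QuotientGroup.quotientKerEquivOfSurjective _ sd₁).symm.trans
    (QuotientGroup.quotientMulEquivOfEq hker12)).trans (QuotientGroup.quotientKerEquivOfSurjective _ sd₂)⟩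

end Cfsg.Agent.S5387
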