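import Cfsg.Statements.S5393
import Cfsg.Agent.Golay.DodStab
import Mathlib
open CfsgLib.Golay
open scoped Pointwise

set_option autoImplicit false
open Cfsg

namespace Cfsg.Agent.S5393

/-- The length-24 code built from the squares modulo 23 contains the all-ones word, and the code modulo the all-ones word is an irreducible module over the field with two elements for the code's automorphism group: a subspace of the code that contains the all-ones word and is invariant under every coordinate permutation preserving the code is either the span of the all-ones word or the whole code. -/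
theorem result : (fun _ : Cfsg.GolayPt => (1 : ZMod 2)) ∈ Cfsg.golayCode ∧ ∀ W : Submodule (ZMod 2) (Cfsg.GolayPt → ZMod 2), (fun _ => (1 : ZMod 2)) ∈ W → W ≤ Cfsg.golayCode → (∀ σ ∈ Cfsg.M24, ∀ w ∈ W, (fun p => w (σ.symm p)) ∈ W) → W = Submodule.span (ZMod 2) {fun _ => (1 : ZMod 2)} ∨ W = Cfsg.golayCode := by
  have hone : (fun _ : Cfsg.GolayPt => (1 : ZMod 2)) ∈ Cfsg.golayCode :=
    Submodule.subset_span (Or.inr rfl)
  refine ⟨hone, fun W hW hWC hinv => ?_⟩
  have hcomp : ∀ σ ∈ Cfsg.M24, ∀ s : Finset Cfsg.GolayPt, wordOf s ∈ W → wordOf (σ • s) ∈ W := by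
    intro σ hσ s hs
    have := hinv σ hσ _ hs
    convert this using 1
    funext p
    simp only [wordOf, ← Finset.inv_smul_mem_iff]
    rfl
  by_cases hspan : W ≤ Submodule.span (ZMod 2) {fun _ => (1 : ZMod 2)}
  · exact Or.inl (le_antisymm hspan (Submodule.span_le.2 (Set.singleton_subset_iff.2 hW)))
  refine Or.inr (le_antisymm hWC ?_)
  obtain ⟨w, hw, hwn⟩ := SetLike.not_le_iff_exists.1 hspan
  have compl : ∀ s : Finset Cfsg.GolayPt, wordOf s ∈ W → wordOf sᶜ ∈ W := by
    intro s hs
    convert add_mem hs hW using 1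
    funext p
    by_cases h : p ∈ s <;> simp [wordOf, h]
    rfl
  -- an octad in W
  obtain ⟨o, ho, hoW⟩ : ∃ o ∈ Cfsg.octads, wordOf o ∈ W := by
    have hs : Cfsg.support₂ w ∈ Cfsg.supports (Cfsg.golayCode : Set (Cfsg.GolayPt → ZMod 2)) := ⟨w, hWC hw, rfl⟩
    have hwW : wordOf (Cfsg.support₂ w) ∈ W := by rwa [wordOf_support]
    rcases support_card_cases (mem_supports_iff.1 hs) with e | e | e | e | e
    · exfalso
      apply hwn
      rw [← wordOf_support w, Finset.card_eq_zero.1 e]
      convert zero_mem (Submodule.span (ZMod 2) {fun _ : Cfsg.GolayPt => (1 : ZMod 2)}) using 1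
      funext p; simp [wordOf]
    · exact ⟨_, ⟨hs, e⟩, hwW⟩
    · obtain ⟨d', hd', h8⟩ : ∃ d' ∈ Cfsg.dodecads, (DodStab.D ∩ d').card = 8 := by
        have hex : (dodList.any fun v => Nat.beq (popc (DodStab.sqD &&& v)) 8) = true := by decide +kernel
        obtain ⟨v, hv, h8⟩ := List.any_eq_true.1 hex
        rw [Nat.beq_eq] at h8
        refine ⟨toSet v, mem_dodecads_iff.2 (by rwa [mask_toSet (mem_wtList.1 hv).2.1]), ?_⟩
        rw [← popc_mask, mask_inter, mask_toSet DodStab.sqD_lt, mask_toSet (mem_wtList.1 hv).2.1, h8]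
      obtain ⟨g, hg, eg⟩ := DodStab.exists_map_dodecad ⟨hs, e⟩ DodStab.D_mem
      obtain ⟨g', hg', eg'⟩ := DodStab.exists_map_dodecad ⟨hs, e⟩ hd'
      refine ⟨symmDiff DodStab.D d', ⟨?_, ?_⟩, ?_⟩
      · rw [mem_supports_iff, mask_symmDiff]
        exact inCode_xor (mem_supports_iff.1 DodStab.D_mem.1) (mem_supports_iff.1 hd'.1)
      · rw [symmDiff_def, Finset.sup_eq_union, Finset.card_union_of_disjoint disjoint_sdiff_sdiff]
        have h1 := Finset.card_sdiff_add_card_inter DodStab.D d'
        have h2 := Finset.card_sdiff_add_card_inter d' DodStab.D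
        rw [Finset.inter_comm d'] at h2
        rw [card_of_mem_dodecads DodStab.D_mem] at h1
        rw [card_of_mem_dodecads hd'] at h2
        omega
      · have hadd := add_mem (hcomp g hg _ hwW) (hcomp g' hg' _ hwW)
        rw [eg, eg'] at hadd
        convert hadd using 1
        funext p
        simp only [wordOf, Finset.mem_symmDiff, Pi.add_apply]
        by_cases h1 : p ∈ DodStab.D <;> by_cases h2 : p ∈ d' <;> simp [h1, h2]
        rfl
    · refine ⟨_, mem_wordsOfWeight_iff.2 ⟨?_, ?_⟩, compl _ hwW⟩
      · rw [mask_compl]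
        exact inCode_xor (mem_supports_iff.1 hs) (by decide +kernel)
      · rw [Finset.card_compl, card_pt, e]
    · exfalso
      apply hwn
      rw [← wordOf_support w, Finset.eq_univ_of_card _ (e.trans card_pt.symm)]
      rw [show wordOf (Finset.univ : Finset Cfsg.GolayPt) = fun _ => 1 from funext fun p => by simp [wordOf]]
      exact Submodule.mem_span_singleton_self _
  have hall : ∀ u ∈ Cfsg.octads, wordOf u ∈ W := by
    intro u hu
    obtain ⟨g, hg, rfl⟩ := exists_map_octad ho hu
    exact hcomp g hg o hoW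
  have hb : ∀ a ∈ basis, wordOf (toSet a.2) ∈ W := by
    intro a ha
    refine hall _ (mem_octads_iff.2 ?_)
    have hok : (basis.all fun a => inCode a.2 && Nat.blt a.2 16777216 && Nat.beq (popc a.2) 8) = true := by
      decide +kernel
    have := List.all_eq_true.1 hok a ha
    simp only [Bool.and_eq_true, Nat.beq_eq] at this
    have h24 : a.2 < 2 ^ 24 := of_blt this.1.2
    rw [mask_toSet h24, mem_wtList]
    exact ⟨this.1.1, h24, this.2⟩
  have hsum : ∀ l : List (ℕ × ℕ), (∀ a ∈ l, ∃ v ∈ W, wmask v = a.2) → ∀ m ∈ allSums l, ∃ v ∈ W, wmask v = m := by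
    intro l
    induction l with
    | nil => intro _ m hm; exact ⟨0, zero_mem _, by simp [allSums] at hm; rw [hm, wmask_zero]⟩
    | cons a r ih =>
      obtain ⟨p, b⟩ := a
      intro h m hm
      have ih' := ih fun x hx => h x (List.mem_cons_of_mem _ hx)
      simp only [allSums, List.mem_append, List.mem_map] at hm
      rcases hm with hm | ⟨x, hx, rfl⟩
      · exact ih' m hm
      · obtain ⟨v, hv, rfl⟩ := ih' x hx
        obtain ⟨u, hu, hu'⟩ := h (p, b) List.mem_cons_self
        exact ⟨u + v, add_mem hu hv, by rw [wmask_add, hu']⟩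
  intro v hv
  obtain ⟨u, hu, e⟩ := hsum basis (fun a ha => ⟨_, hb a ha, wmask_wordOf (by
    have hok : (basis.all fun a => Nat.blt a.2 16777216) = true := by decide +kernel
    exact of_blt (List.all_eq_true.1 hok a ha))⟩) (wmask v) (mem_code_iff_list.1 hv)
  rwa [← wmask_injective e]

end Cfsg.Agent.S5393
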