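import Cfsg.Statements.S5394
import Cfsg.Agent.Golay.Invol
import Mathlib
open CfsgLib.Golay
open scoped Pointwise

set_option autoImplicit false
open Cfsg

namespace Cfsg.Agent.S5394

/-- The automorphism group of the length-24 code built from the squares modulo 23 has exactly two conjugacy classes of involutions: an involution either fixes exactly the eight points of an octad or has no fixed points, both kinds occur, and any two involutions of the same kind are conjugate in the group. -/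
theorem result : (∀ g ∈ Cfsg.M24, orderOf g = 2 → (Finset.univ.filter fun p => g p = p) ∈ Cfsg.octads ∨ ∀ p, g p ≠ p) ∧ (∃ g ∈ Cfsg.M24, orderOf g = 2 ∧ (Finset.univ.filter fun p => g p = p) ∈ Cfsg.octads) ∧ (∃ g ∈ Cfsg.M24, orderOf g = 2 ∧ ∀ p, g p ≠ p) ∧ ∀ g ∈ Cfsg.M24, ∀ h ∈ Cfsg.M24, orderOf g = 2 → orderOf h = 2 → ((∀ p, g p ≠ p) ↔ (∀ p, h p ≠ p)) → ∃ k ∈ Cfsg.M24, k * g * k⁻¹ = h := by
  refine ⟨fun g hg ho => ?_, ?_, ?_, fun g hg h hh og oh hiff => ?_⟩
  · obtain ⟨k, -, b, -, h8, h0⟩ := Invol.fixed_cases hg ho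
    cases b
    · exact Or.inr (h0 rfl)
    · exact Or.inl (h8 rfl)
  · obtain ⟨-, hM, hsq, hne⟩ := Invol.permOf_rep true
    refine ⟨_, hM, orderOf_eq_prime (by rw [pow_two]; exact hsq) hne, mem_octads_iff.2 Invol.rep8_fixed⟩
  · obtain ⟨-, hM, hsq, hne⟩ := Invol.permOf_rep false
    exact ⟨_, hM, orderOf_eq_prime (by rw [pow_two]; exact hsq) hne, Invol.rep0_fixed⟩
  · obtain ⟨k, hk, b, rfl, g8, g0⟩ := Invol.fixed_cases hg og
    obtain ⟨l, hl, c, rfl, h8, h0⟩ := Invol.fixed_cases hh oh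
    have oct_fix : ∀ x : Equiv.Perm Cfsg.GolayPt, (Finset.univ.filter fun p => x p = p) ∈ Cfsg.octads →
        ¬ ∀ p, x p ≠ p := by
      intro x hx h
      obtain ⟨p, hp⟩ := Finset.card_pos.1 (by rw [card_of_mem_octads hx]; omega :
        0 < (Finset.univ.filter fun p => x p = p).card)
      exact h p (Finset.mem_filter.1 hp).2
    have hbc : b = c := by
      cases b <;> cases c
      · rfl
      · exact absurd (hiff.1 (g0 rfl)) (oct_fix _ (h8 rfl))
      · exact absurd (hiff.2 (h0 rfl)) (oct_fix _ (g8 rfl))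
      · rfl
    subst hbc
    exact ⟨l * k⁻¹, mul_mem hl (inv_mem hk), by group⟩

end Cfsg.Agent.S5394
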