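import Cfsg.Statements.S5395
import Mathlib
-- import your own Cfsg.Agent.* helpers here

set_option autoImplicit false
open Cfsg
open scoped commutatorElement

namespace Cfsg.Agent.S5395

/-- The homomorphism to the centre given by a central endomorphism. -/
def delta {E : Type*} [Group E] (σ : E →* E) (h : ∀ x, x⁻¹ * σ x ∈ Subgroup.center E) :
    E →* Subgroup.center E where
  toFun x := ⟨x⁻¹ * σ x, h x⟩
  map_one' := Subtype.ext (by simp)
  map_mul' x y := Subtype.ext (by
    show (x * y)⁻¹ * σ (x * y) = x⁻¹ * σ x * (y⁻¹ * σ y)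
    rw [map_mul, mul_inv_rev,
      show y⁻¹ * x⁻¹ * (σ x * σ y) = y⁻¹ * (x⁻¹ * σ x) * σ y from by group,
      Subgroup.mem_center_iff.1 (h x) y⁻¹, mul_assoc])

theorem conj_central {E : Type*} [Group E] (hc : commutator E = Subgroup.center E) (g x : E) :
    x⁻¹ * (MulAut.conj g).toMonoidHom x ∈ Subgroup.center E := by
  rw [← hc]
  have : x⁻¹ * (MulAut.conj g).toMonoidHom x = ⁅x⁻¹, g⁆ := by
    simp [commutatorElement_def, mul_assoc]
  rw [this]
  exact Subgroup.commutator_mem_commutator (Subgroup.mem_top _) (Subgroup.mem_top _)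


/-- For a finite extraspecial 2-group E, an automorphism of E that induces the identity on E modulo its centre is inner (so these automorphisms form exactly the inner automorphism group, an elementary abelian 2-group of order |E|/2). -/
theorem result {E : Type*} [Group E] [Finite E] (hE : Cfsg.IsExtraspecial 2 E) (φ : E ≃* E) (hφ : ∀ x : E, φ x * x⁻¹ ∈ Subgroup.center E) : ∃ g : E, ∀ x : E, φ x = g * x * g⁻¹ := by
  obtain ⟨⟨-, -, hc⟩, hcard⟩ := hE
  obtain ⟨⟨z, hzc⟩, hz1, huniq⟩ := (Nat.card_eq_two_iff' (1 : Subgroup.center E)).1 hcard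
  haveI : NeZero (Monoid.exponent (Abelianization E) : ℂ) :=
    ⟨by exact_mod_cast Monoid.exponent_ne_zero_of_finite⟩
  have hφ' : ∀ x, x⁻¹ * φ.toMonoidHom x ∈ Subgroup.center E := fun x => by
    have h := Subgroup.mem_center_iff.1 (hφ x) x⁻¹
    have : x⁻¹ * φ x = φ x * x⁻¹ := by
      calc x⁻¹ * φ x = x⁻¹ * (φ x * x⁻¹) * x := by group
        _ = φ x * x⁻¹ * x⁻¹ * x := by rw [h]
        _ = φ x * x⁻¹ := by group
    exact this ▸ hφ x
  let Φ : E ⧸ Subgroup.center E → (E →* Subgroup.center E) :=
    fun q => delta (MulAut.conj q.out).toMonoidHom (conj_central hc q.out)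
  have hΦ : Function.Injective Φ := by
    intro a b h
    rw [← a.out_eq, ← b.out_eq]
    refine QuotientGroup.eq.2 (Subgroup.mem_center_iff.2 fun x => ?_)
    have h1 : x⁻¹ * (a.out * x * a.out⁻¹) = x⁻¹ * (b.out * x * b.out⁻¹) :=
      congrArg Subtype.val (DFunLike.congr_fun h x)
    rw [mul_right_inj] at h1
    calc x * (a.out⁻¹ * b.out) = a.out⁻¹ * (a.out * x * a.out⁻¹) * b.out := by group
      _ = a.out⁻¹ * b.out * x := by rw [h1]; group
  haveI hfin : Finite (E →* Subgroup.center E) := Finite.of_injective _ DFunLike.coe_injective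
  have hle : Nat.card (E →* Subgroup.center E) ≤ Nat.card (E ⧸ Subgroup.center E) := by
    classical
    let ε : Subgroup.center E →* ℂˣ :=
      { toFun := fun t => if t = 1 then 1 else -1
        map_one' := if_pos rfl
        map_mul' := fun a b => by
          have hsq : (⟨z, hzc⟩ : Subgroup.center E) * ⟨z, hzc⟩ = 1 := by
            by_contra hne
            exact hz1 (mul_eq_left.1 (huniq _ hne))
          by_cases ha : a = 1
          · simp [ha]
          by_cases hb : b = 1
          · simp [hb]
          rw [huniq a ha, huniq b hb, hsq, if_pos rfl, if_neg hz1, neg_mul_neg, mul_one] }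
    have hε : Function.Injective ε := by
      refine (injective_iff_map_eq_one ε).2 fun a ha => ?_
      by_contra hne
      simp only [ε, MonoidHom.coe_mk, OneHom.coe_mk, if_neg hne] at ha
      exact absurd (congrArg Units.val ha) (by norm_num)
    obtain ⟨e⟩ := CommGroup.monoidHom_mulEquiv_of_hasEnoughRootsOfUnity (Abelianization E) ℂ
    have hd : Nat.card (Abelianization E →* ℂˣ) = Nat.card (E ⧸ Subgroup.center E) := by
      rw [Nat.card_congr e.toEquiv]
      exact Nat.card_congr (QuotientGroup.quotientMulEquivOfEq hc).toEquiv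
    rw [← hd]
    haveI : Finite (Abelianization E →* ℂˣ) := Finite.of_equiv _ e.symm.toEquiv
    refine Nat.card_le_card_of_injective (fun f => Abelianization.lift (ε.comp f)) fun f f' h => ?_
    exact MonoidHom.ext fun x => hε (DFunLike.congr_fun h (Abelianization.of x))
  obtain ⟨q, hq⟩ := ((Nat.bijective_iff_injective_and_card Φ).2
    ⟨hΦ, le_antisymm (Nat.card_le_card_of_injective Φ hΦ) hle⟩).2 (delta φ.toMonoidHom hφ')
  refine ⟨q.out, fun x => ?_⟩
  exact (mul_left_cancel (congrArg Subtype.val (DFunLike.congr_fun hq x))).symm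

end Cfsg.Agent.S5395
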