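import Cfsg.Statements.S5396
import Mathlib
import Cfsg.Agent.CoprimeAction.Frattini
-- import your own Cfsg.Agent.* helpers here

set_option autoImplicit false
open Cfsg

namespace Cfsg.Agent.S5396

open scoped commutatorElement

variable {n : ℕ}

/-- Sum of a binary family. -/
def bsum (f : Fin n → ZMod 2) : ZMod 2 := ∑ i, f i

/-- The cocycle. -/
def cocycle (c : Fin n → ZMod 2) (v w : Fin n → ZMod 2 × ZMod 2) : ZMod 2 :=
  bsum fun i => (v i).1 * (w i).2 + c i * ((v i).1 * (w i).1 + (v i).2 * (w i).2)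

theorem cocycle_add_left (c : Fin n → ZMod 2) (u v w : Fin n → ZMod 2 × ZMod 2) :
    cocycle c (u + v) w = cocycle c u w + cocycle c v w := by
  simp only [cocycle, bsum, ← Finset.sum_add_distrib]
  exact Finset.sum_congr rfl fun i _ => by simp only [Pi.add_apply, Prod.fst_add, Prod.snd_add]; ring

theorem cocycle_add_right (c : Fin n → ZMod 2) (u v w : Fin n → ZMod 2 × ZMod 2) :
    cocycle c u (v + w) = cocycle c u v + cocycle c u w := by
  simp only [cocycle, bsum, ← Finset.sum_add_distrib]
  exact Finset.sum_congr rfl fun i _ => by simp only [Pi.add_apply, Prod.fst_add, Prod.snd_add]; ring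

/-- The commutator form. -/
def form (v w : Fin n → ZMod 2 × ZMod 2) : ZMod 2 :=
  bsum fun i => (v i).1 * (w i).2 + (v i).2 * (w i).1

theorem z2_self : ∀ a : ZMod 2, a + a = 0 := by decide

theorem form_eq (c : Fin n → ZMod 2) (v w : Fin n → ZMod 2 × ZMod 2) :
    cocycle c v w + cocycle c w v = form v w := by
  simp only [cocycle, form, bsum, ← Finset.sum_add_distrib]
  refine Finset.sum_congr rfl fun i _ => ?_
  have h : ∀ a b d e f : ZMod 2, (a * b + f * (a * d + e * b)) + (d * e + f * (d * a + b * e)) = a * b + e * d := by decide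
  exact h _ _ _ _ _

theorem form_add_left (u v w : Fin n → ZMod 2 × ZMod 2) : form (u + v) w = form u w + form v w := by
  simp only [form, bsum, ← Finset.sum_add_distrib]
  exact Finset.sum_congr rfl fun i _ => by simp only [Pi.add_apply, Prod.fst_add, Prod.snd_add]; ring

theorem form_add_right (u v w : Fin n → ZMod 2 × ZMod 2) : form u (v + w) = form u v + form u w := by
  simp only [form, bsum, ← Finset.sum_add_distrib]
  exact Finset.sum_congr rfl fun i _ => by simp only [Pi.add_apply, Prod.fst_add, Prod.snd_add]; ring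

theorem form_single_left (i : Fin n) (a : ZMod 2 × ZMod 2) (w : Fin n → ZMod 2 × ZMod 2) :
    form (Pi.single i a) w = a.1 * (w i).2 + a.2 * (w i).1 := by
  simp only [form, bsum]
  rw [Finset.sum_eq_single i]
  · rw [Pi.single_eq_same]
  · intro j _ hj; rw [Pi.single_eq_of_ne hj]; simp
  · intro h; exact absurd (Finset.mem_univ i) h

theorem form_nondeg {w : Fin n → ZMod 2 × ZMod 2} (h : ∀ v, form v w = 0) : w = 0 := by
  funext i
  have h1 := h (Pi.single i (1, 0))
  have h2 := h (Pi.single i (0, 1))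
  rw [form_single_left] at h1 h2
  simp only [one_mul, zero_mul, add_zero, zero_add] at h1 h2
  exact Prod.ext h2 h1

theorem z2_cases : ∀ s : ZMod 2, s = 0 ∨ s = 1 := by decide

theorem z2_key : ∀ x y : ZMod 2, x + y = 1 → 0 + 0 + x = 1 + (0 + 0 + y) + 0 := by decide

theorem self_zero (v : Fin n → ZMod 2 × ZMod 2) : v + v = 0 :=
  funext fun _ => Prod.ext (z2_self _) (z2_self _)

/-- The extension of the binary space by the cocycle. -/
@[ext] structure Ext (c : Fin n → ZMod 2) where
  /-- vector part -/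
  vec : Fin n → ZMod 2 × ZMod 2
  /-- central part -/
  cen : ZMod 2

instance (c : Fin n → ZMod 2) : Mul (Ext c) := ⟨fun a b => ⟨a.vec + b.vec, a.cen + b.cen + cocycle c a.vec b.vec⟩⟩
instance (c : Fin n → ZMod 2) : One (Ext c) := ⟨⟨0, 0⟩⟩
instance (c : Fin n → ZMod 2) : Inv (Ext c) := ⟨fun a => ⟨a.vec, a.cen + cocycle c a.vec a.vec⟩⟩

theorem cocycle_zero_left (c : Fin n → ZMod 2) (w : Fin n → ZMod 2 × ZMod 2) : cocycle c 0 w = 0 := by
  simp [cocycle, bsum]

theorem cocycle_zero_right (c : Fin n → ZMod 2) (w : Fin n → ZMod 2 × ZMod 2) : cocycle c w 0 = 0 := by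
  simp [cocycle, bsum]

instance (c : Fin n → ZMod 2) : Group (Ext c) where
  mul_assoc a b d := by
    refine Ext.ext (add_assoc _ _ _) ?_
    show a.cen + b.cen + cocycle c a.vec b.vec + d.cen + cocycle c (a.vec + b.vec) d.vec =
      a.cen + (b.cen + d.cen + cocycle c b.vec d.vec) + cocycle c a.vec (b.vec + d.vec)
    rw [cocycle_add_left, cocycle_add_right]
    ring
  one_mul a := by
    refine Ext.ext (zero_add _) ?_
    show 0 + a.cen + cocycle c 0 a.vec = a.cen
    rw [cocycle_zero_left, zero_add, add_zero]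
  mul_one a := by
    refine Ext.ext (add_zero _) ?_
    show a.cen + 0 + cocycle c a.vec 0 = a.cen
    rw [cocycle_zero_right, add_zero, add_zero]
  inv_mul_cancel a := by
    refine Ext.ext (self_zero _) ?_
    show a.cen + cocycle c a.vec a.vec + a.cen + cocycle c a.vec a.vec = 0
    rw [add_right_comm a.cen, z2_self, zero_add, z2_self]

/-- Coordinates. -/
def coords (c : Fin n → ZMod 2) : Ext c ≃ (Fin n → ZMod 2 × ZMod 2) × ZMod 2 where
  toFun a := (a.vec, a.cen)
  invFun p := ⟨p.1, p.2⟩
  left_inv _ := rfl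
  right_inv _ := rfl

instance (c : Fin n → ZMod 2) : Finite (Ext c) := Finite.of_equiv _ (coords c).symm

theorem card_ext (c : Fin n → ZMod 2) : Nat.card (Ext c) = 2 ^ (2 * n + 1) := by
  rw [Nat.card_congr (coords c), Nat.card_prod, Nat.card_fun, Nat.card_prod, Nat.card_zmod, Nat.card_fin,
    pow_succ, pow_mul, pow_two]

theorem vec_mul (c : Fin n → ZMod 2) (a b : Ext c) : (a * b).vec = a.vec + b.vec := rfl
theorem cen_mul (c : Fin n → ZMod 2) (a b : Ext c) : (a * b).cen = a.cen + b.cen + cocycle c a.vec b.vec := rfl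

theorem commute_iff (c : Fin n → ZMod 2) (a b : Ext c) : a * b = b * a ↔ form a.vec b.vec = 0 := by
  have key : ∀ s t x y : ZMod 2, (s + t + x = t + s + y ↔ x + y = 0) := by decide
  rw [Ext.ext_iff, ← form_eq c, vec_mul, vec_mul, cen_mul, cen_mul]
  exact ⟨fun h => (key _ _ _ _).1 h.2, fun h => ⟨add_comm _ _, (key _ _ _ _).2 h⟩⟩

theorem mem_center_iff' (c : Fin n → ZMod 2) (a : Ext c) : a ∈ Subgroup.center (Ext c) ↔ a.vec = 0 := by
  rw [Subgroup.mem_center_iff]
  refine ⟨fun h => form_nondeg fun v => (commute_iff c ⟨v, 0⟩ a).1 (h _), fun h b => (commute_iff c b a).2 ?_⟩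
  rw [h]
  simp [form, bsum]

theorem sq_eq (c : Fin n → ZMod 2) (a : Ext c) : a * a = ⟨0, cocycle c a.vec a.vec⟩ :=
  Ext.ext (self_zero _) (by rw [cen_mul, z2_self, zero_add])

theorem extraspecial (c : Fin n → ZMod 2) (hn : 1 ≤ n) : Cfsg.IsExtraspecial 2 (Ext c) := by
  haveI : Fact (Nat.Prime 2) := ⟨Nat.prime_two⟩
  have hp : IsPGroup 2 (Ext c) := IsPGroup.of_card (card_ext c)
  have hle : commutator (Ext c) ≤ Subgroup.center (Ext c) := by
    rw [commutator_def, Subgroup.commutator_le]
    intro a _ b _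
    rw [mem_center_iff', commutatorElement_def]
    show a.vec + b.vec + a.vec + b.vec = 0
    rw [add_right_comm a.vec b.vec, self_zero, zero_add, self_zero]
  have hge : Subgroup.center (Ext c) ≤ commutator (Ext c) := by
    intro z hz
    rw [mem_center_iff'] at hz
    rcases z2_cases z.cen with h | h
    · rw [show z = 1 from Ext.ext hz h]; exact one_mem _
    · let a : Ext c := ⟨Pi.single ⟨0, hn⟩ (1, 0), 0⟩
      let b : Ext c := ⟨Pi.single ⟨0, hn⟩ (0, 1), 0⟩
      have h1 : a * b = z * (b * a) := by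
        refine Ext.ext (by rw [vec_mul, vec_mul, vec_mul, hz, zero_add, add_comm]) ?_
        have hf : form a.vec b.vec = 1 := by
          rw [form_single_left]
          show (1 : ZMod 2) * ((Pi.single (⟨0, hn⟩ : Fin n) ((0, 1) : ZMod 2 × ZMod 2) : Fin n → ZMod 2 × ZMod 2) ⟨0, hn⟩).2 + 0 * _ = 1
          rw [Pi.single_eq_same, zero_mul, add_zero, one_mul]
        rw [cen_mul, cen_mul, cen_mul, hz, cocycle_zero_left, h]
        rw [← form_eq c] at hf
        exact z2_key _ _ hf
      have h2 : z = ⁅a, b⁆ := by rw [commutatorElement_def, h1]; group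
      rw [h2]
      exact Subgroup.commutator_mem_commutator (Subgroup.mem_top a) (Subgroup.mem_top b)
  have hcen : Nat.card (Subgroup.center (Ext c)) = 2 := by
    let e : Subgroup.center (Ext c) ≃ ZMod 2 :=
      { toFun := fun z => z.1.cen
        invFun := fun s => ⟨⟨0, s⟩, (mem_center_iff' c _).2 rfl⟩
        left_inv := fun z => Subtype.ext (Ext.ext ((mem_center_iff' c _).1 z.2).symm rfl)
        right_inv := fun s => rfl }
    rw [Nat.card_congr e, Nat.card_zmod]
  refine ⟨⟨hp, le_antisymm ?_ (hge.trans (CfsgLib.CoprimeAction.commutator_le_frattini' hp)), le_antisymm hle hge⟩, hcen⟩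
  refine CfsgLib.CoprimeAction.frattini_le_of_elementary (p := 2) (Subgroup.center (Ext c)) hle fun x => ?_
  rw [mem_center_iff', pow_two, vec_mul, self_zero]

/-- The sign. -/
def sgn (a : ZMod 2) : ℤ := if a = 0 then 1 else -1

theorem sgn_add : ∀ a b : ZMod 2, sgn (a + b) = sgn a * sgn b := by decide

theorem sgn_bsum (f : Fin n → ZMod 2) : sgn (bsum f) = ∏ i, sgn (f i) := by
  unfold bsum
  induction (Finset.univ : Finset (Fin n)) using Finset.induction_on with
  | empty => rfl
  | insert i s hi ih => rw [Finset.sum_insert hi, Finset.prod_insert hi, sgn_add, ih]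

theorem total_sum (c : Fin n → ZMod 2) :
    ∑ v : Fin n → ZMod 2 × ZMod 2, sgn (cocycle c v v) = ∏ i, (if c i = 0 then (2 : ℤ) else -2) := by
  have h : ∀ a : ZMod 2, ∑ x : ZMod 2 × ZMod 2, sgn (x.1 * x.2 + a * (x.1 * x.1 + x.2 * x.2)) =
      if a = 0 then (2 : ℤ) else -2 := by decide
  simp only [cocycle, sgn_bsum, ← h]
  rw [Fintype.prod_sum]

/-- A totally singular subgroup. -/
theorem singular_bound (c : Fin n → ZMod 2) (U : Finset (Fin n → ZMod 2 × ZMod 2)) (h0 : (0 : Fin n → ZMod 2 × ZMod 2) ∈ U)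
    (hadd : ∀ u ∈ U, ∀ w ∈ U, u + w ∈ U) (hq : ∀ u ∈ U, cocycle c u u = 0)
    (hB : ∀ u ∈ U, ∀ w ∈ U, form u w = 0) :
    U.card ^ 2 ≤ 2 ^ (2 * n) ∧ (U.card ^ 2 = 2 ^ (2 * n) → 0 < ∏ i, (if c i = 0 then (2 : ℤ) else -2)) := by
  classical
  let W := Finset.univ.filter fun v : Fin n → ZMod 2 × ZMod 2 => ∀ u ∈ U, form u v = 0
  have hchar : ∀ v, ∑ u ∈ U, sgn (form u v) = if v ∈ W then (U.card : ℤ) else 0 := by
    intro v
    split_ifs with hv
    · rw [Finset.sum_congr rfl (g := fun _ => (1 : ℤ)) fun u hu => by rw [(Finset.mem_filter.1 hv).2 u hu]; rfl]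
      simp
    · obtain ⟨w, hw, hwv⟩ : ∃ w ∈ U, form w v ≠ 0 := by
        by_contra h
        push Not at h
        exact hv (Finset.mem_filter.2 ⟨Finset.mem_univ _, h⟩)
      have h1 : ∑ u ∈ U, sgn (form u v) = ∑ u ∈ U, sgn (form (u + w) v) := by
        refine Finset.sum_bij' (fun u _ => u + w) (fun u _ => u + w) (fun u hu => hadd u hu w hw)
          (fun u hu => hadd u hu w hw) (fun u _ => by rw [add_assoc, self_zero, add_zero])
          (fun u _ => by rw [add_assoc, self_zero, add_zero]) (fun u _ => by rw [add_assoc, self_zero, add_zero])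
      have h2 : ∀ u, sgn (form (u + w) v) = -sgn (form u v) := fun u => by
        rw [form_add_left, sgn_add, show sgn (form w v) = -1 from if_neg hwv, mul_neg_one]
      simp only [h2, Finset.sum_neg_distrib] at h1
      omega
  have hUW : U ⊆ W := fun u hu => Finset.mem_filter.2 ⟨Finset.mem_univ _, fun w hw => hB w hw u hu⟩
  have hprod : U.card * W.card = 2 ^ (2 * n) := by
    have h : ∑ v, ∑ u ∈ U, sgn (form u v) = (2 : ℤ) ^ (2 * n) := by
      rw [Finset.sum_comm, Finset.sum_eq_single 0]
      · simp only [form, zero_mul, Pi.zero_apply, Prod.fst_zero, Prod.snd_zero, add_zero, bsum,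
          Finset.sum_const_zero, sgn, if_true, Finset.sum_const, Finset.card_univ]
        simp [pow_mul]
      · intro u _ hu
        obtain ⟨v₀, hv₀⟩ : ∃ v₀, form u v₀ ≠ 0 := by
          by_contra h
          push Not at h
          refine hu (form_nondeg fun v => ?_)
          rw [← form_eq 0, add_comm, form_eq]
          exact h v
        have h1 : ∑ v, sgn (form u v) = ∑ v, sgn (form u (v + v₀)) :=
          (Fintype.sum_equiv (Equiv.addRight v₀) _ _ fun v => rfl).symm
        have h2 : ∀ v, sgn (form u (v + v₀)) = -sgn (form u v) := fun v => by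
          rw [form_add_right, sgn_add, show sgn (form u v₀) = -1 from if_neg hv₀, mul_neg_one]
        simp only [h2, Finset.sum_neg_distrib] at h1
        omega
      · intro h; exact absurd h0 h
    simp only [hchar, Finset.sum_ite_mem, Finset.univ_inter, Finset.sum_const, nsmul_eq_mul] at h
    rw [mul_comm]
    exact_mod_cast h
  refine ⟨?_, fun heq => ?_⟩
  · rw [← hprod, pow_two]
    exact Nat.mul_le_mul_left _ (Finset.card_le_card hUW)
  have hpos : 0 < U.card := Finset.card_pos.2 ⟨0, h0⟩
  have hW : W = U := by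
    refine (Finset.eq_of_subset_of_card_le hUW ?_).symm
    rw [← hprod, pow_two] at heq
    exact (Nat.eq_of_mul_eq_mul_left hpos heq).symm.le
  have hshift : ∀ u ∈ U, ∀ v, sgn (cocycle c (v + u) (v + u)) = sgn (cocycle c v v) * sgn (form u v) := fun u hu v => by
    rw [← sgn_add]
    congr 1
    rw [cocycle_add_left, cocycle_add_right, cocycle_add_right, hq u hu, add_zero, add_assoc, ← form_eq c,
      add_comm (cocycle c v u)]
  have h1 : (U.card : ℤ) * ∑ v, sgn (cocycle c v v) = (U.card : ℤ) * U.card := by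
    calc (U.card : ℤ) * ∑ v, sgn (cocycle c v v) = ∑ u ∈ U, ∑ v, sgn (cocycle c (v + u) (v + u)) := by
          have he : ∀ u : Fin n → ZMod 2 × ZMod 2, ∑ v, sgn (cocycle c (v + u) (v + u)) = ∑ v, sgn (cocycle c v v) :=
            fun u => Fintype.sum_equiv (Equiv.addRight u) _ _ fun v => rfl
          simp only [he]
          simp
      _ = ∑ v, sgn (cocycle c v v) * ∑ u ∈ U, sgn (form u v) := by
          rw [Finset.sum_comm]
          refine Finset.sum_congr rfl fun v _ => ?_
          rw [Finset.mul_sum]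
          exact Finset.sum_congr rfl fun u hu => hshift u hu v
      _ = (U.card : ℤ) * U.card := by
          simp only [hchar, mul_ite, mul_zero, Finset.sum_ite_mem, Finset.univ_inter, hW]
          rw [Finset.sum_congr rfl (g := fun _ => (U.card : ℤ)) fun v hv => by rw [hq v hv]; simp [sgn]]
          simp
  rw [← total_sum, mul_left_cancel₀ (by exact_mod_cast hpos.ne') h1]
  exact_mod_cast hpos


/-- For every n ≥ 1 there exist finite extraspecial 2-groups of order 2^(2n+1) whose 2-rank (the largest rank of an elementary abelian subgroup) is n, and ones whose 2-rank is n + 1 (so for each such order there are two non-isomorphic extraspecial 2-groups, told apart by their 2-rank). -/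
theorem result (n : ℕ) (hn : 1 ≤ n) : ∀ r ∈ ({n, n + 1} : Set ℕ), ∃ (E : Type) (_ : Group E) (_ : Finite E), Cfsg.IsExtraspecial 2 E ∧ Nat.card E = 2 ^ (2 * n + 1) ∧ sSup {k : ℕ | ∃ A : Subgroup E, Cfsg.IsElementaryAbelian 2 A ∧ Nat.card A = 2 ^ k} = r := by
  classical
  intro r hr
  -- the parameter: zero for plus type
  obtain ⟨c, k, hrk, hc⟩ : ∃ (c : Fin n → ZMod 2) (k : ℕ), r = k + 1 ∧
      ((c = 0 ∧ k = n) ∨ (c = Pi.single ⟨0, hn⟩ 1 ∧ k + 1 = n)) := by
    rcases hr with hr | hr
    · exact ⟨Pi.single ⟨0, hn⟩ 1, n - 1, by omega, Or.inr ⟨rfl, by omega⟩⟩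
    · exact ⟨0, n, hr, Or.inl ⟨rfl, rfl⟩⟩
  refine ⟨Ext c, inferInstance, inferInstance, extraspecial c hn, card_ext c, ?_⟩
  refine IsGreatest.csSup_eq ⟨?_, ?_⟩
  · -- a singular subgroup
    let A : Subgroup (Ext c) :=
      { carrier := {a | ∀ i, (a.vec i).2 = 0 ∧ (c i ≠ 0 → (a.vec i).1 = 0)}
        one_mem' := fun i => ⟨rfl, fun _ => rfl⟩
        mul_mem' := fun {a b} ha hb i => by
          refine ⟨?_, fun h => ?_⟩
          · show (a.vec i).2 + (b.vec i).2 = 0
            rw [(ha i).1, (hb i).1, add_zero]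
          · show (a.vec i).1 + (b.vec i).1 = 0
            rw [(ha i).2 h, (hb i).2 h, add_zero]
        inv_mem' := fun {a} ha => ha }
    have hA : ∀ a ∈ A, ∀ b ∈ A, cocycle c a.vec b.vec = 0 := by
      intro a ha b hb
      show bsum _ = 0
      rw [bsum]
      refine Finset.sum_eq_zero fun i _ => ?_
      rw [(hb i).1, (ha i).1, mul_zero, zero_mul, add_zero, zero_add]
      by_cases h : c i = 0
      · rw [h, zero_mul]
      · rw [(ha i).2 h, zero_mul, mul_zero]
    refine ⟨A, ⟨⟨⟨fun a b => Subtype.ext ((commute_iff c _ _).2 ?_)⟩⟩, fun a ha => ?_⟩, ?_⟩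
    · rw [← form_eq c, hA a a.2 b b.2, hA b b.2 a a.2, add_zero]
    · rw [pow_two, sq_eq, hA a ha a ha]
      rfl
    · let e : A ≃ (∀ i : Fin n, {x : ZMod 2 // c i ≠ 0 → x = 0}) × ZMod 2 :=
        { toFun := fun a => (fun i => ⟨(a.1.vec i).1, (a.2 i).2⟩, a.1.cen)
          invFun := fun p => ⟨⟨fun i => ((p.1 i).1, 0), p.2⟩, fun i => ⟨rfl, (p.1 i).2⟩⟩
          left_inv := fun a => Subtype.ext (Ext.ext (funext fun i => Prod.ext rfl (a.2 i).1.symm) rfl)
          right_inv := fun p => rfl }
      rw [Nat.card_congr e, Nat.card_prod, Nat.card_zmod, Nat.card_pi]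
      have hone : ∀ i, Nat.card {x : ZMod 2 // c i ≠ 0 → x = 0} = if c i = 0 then 2 else 1 := fun i => by
        split_ifs with h
        · rw [Nat.card_congr (Equiv.subtypeUnivEquiv fun x h' => absurd h h'), Nat.card_zmod]
        · haveI : Unique {x : ZMod 2 // c i ≠ 0 → x = 0} := ⟨⟨⟨0, fun _ => rfl⟩⟩, fun x => Subtype.ext (x.2 h)⟩
          exact Nat.card_unique
      simp only [hone]
      rw [hrk, pow_succ]
      congr 1
      rcases hc with ⟨rfl, rfl⟩ | ⟨rfl, hk⟩
      · simp
      · rw [← Finset.mul_prod_erase Finset.univ _ (Finset.mem_univ (⟨0, hn⟩ : Fin n)), Pi.single_eq_same,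
          if_neg (by decide), one_mul, Finset.prod_congr rfl (g := fun _ => 2) fun i hi => by
            rw [Pi.single_eq_of_ne (Finset.ne_of_mem_erase hi), if_pos rfl]]
        simp
        omega
  · rintro m ⟨A, ⟨hAc, hAe⟩, hcard⟩
    haveI : Fintype A := Fintype.ofFinite A
    let U : Finset (Fin n → ZMod 2 × ZMod 2) := Finset.univ.image fun a : A => a.1.vec
    have hsq : ∀ a ∈ A, cocycle c a.vec a.vec = 0 := fun a ha => by
      have h := hAe a ha
      rw [pow_two, sq_eq] at h
      exact congrArg Ext.cen h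
    have hb := singular_bound c U (Finset.mem_image.2 ⟨1, Finset.mem_univ _, rfl⟩)
      (by
        intro u hu w hw
        obtain ⟨a, -, rfl⟩ := Finset.mem_image.1 hu
        obtain ⟨b, -, rfl⟩ := Finset.mem_image.1 hw
        exact Finset.mem_image.2 ⟨a * b, Finset.mem_univ _, rfl⟩)
      (by
        intro u hu
        obtain ⟨a, -, rfl⟩ := Finset.mem_image.1 hu
        exact hsq a a.2)
      (by
        intro u hu w hw
        obtain ⟨a, -, rfl⟩ := Finset.mem_image.1 hu
        obtain ⟨b, -, rfl⟩ := Finset.mem_image.1 hw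
        exact (commute_iff c _ _).1 (congrArg Subtype.val (hAc.is_comm.comm a b)))
    have hle : 2 ^ m ≤ 2 * U.card := by
      rw [← hcard, Nat.card_eq_fintype_card]
      have h := Finset.card_le_mul_card_image (f := fun a : A => a.1.vec) (Finset.univ) 2 (fun u _ => by
        refine le_trans (Finset.card_le_card_of_injOn (fun a => a.1.cen) (fun a _ => Finset.mem_univ _) ?_) (le_of_eq (Finset.card_univ.trans (ZMod.card 2)))
        intro a ha b hb he
        exact Subtype.ext (Ext.ext ((Finset.mem_filter.1 ha).2.trans (Finset.mem_filter.1 hb).2.symm) he))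
      rwa [Finset.card_univ] at h
    have hU : U.card ≤ 2 ^ n := (Nat.pow_le_pow_iff_left (two_ne_zero)).1 (by rw [← pow_mul, mul_comm n]; exact hb.1)
    rw [hrk]
    refine (Nat.pow_le_pow_iff_right (show 1 < 2 by norm_num)).1 ?_
    rcases hc with ⟨rfl, rfl⟩ | ⟨rfl, hk⟩
    · rw [pow_succ]; linarith
    · rw [hk]
      by_contra hlt
      have hlt' : U.card ^ 2 = 2 ^ (2 * n) := by
        have hn2 : 2 ^ (n + 1) ≤ 2 ^ m := Nat.pow_le_pow_right (by norm_num) (by
          by_contra h
          exact hlt (Nat.pow_le_pow_right (by norm_num) (by omega)))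
        have : U.card = 2 ^ n := by rw [pow_succ] at hn2; linarith
        rw [this, ← pow_mul, mul_comm n]
      have hneg := hb.2 hlt'
      rw [← Finset.mul_prod_erase Finset.univ _ (Finset.mem_univ (⟨0, hn⟩ : Fin n)), Pi.single_eq_same,
        if_neg (by decide), Finset.prod_congr rfl (g := fun _ => (2 : ℤ)) fun i hi => by
            rw [Pi.single_eq_of_ne (Finset.ne_of_mem_erase hi), if_pos rfl], Finset.prod_const] at hneg
      have hp : (0 : ℤ) < 2 ^ (Finset.univ.erase (⟨0, hn⟩ : Fin n)).card := by positivity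
      linarith

end Cfsg.Agent.S5396
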