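import Cfsg.Statements.S5405
import Cfsg.Agent.Forms.TwoTransp
import Cfsg.Agent.Forms.OrthBasics
import Cfsg.Agent.Forms.Standard

set_option autoImplicit false
open scoped MatrixGroups
open Cfsg

namespace Cfsg.Agent.S5405

open QuadraticMap Matrix CfsgLib.Forms CfsgLib.Forms.TwoTransp
open scoped commutatorElement

section General

variable {ι : Type} [Fintype ι] [DecidableEq ι] (Q : QuadraticForm (ZMod 2) (ι → ZMod 2))

/-- The matrix action. -/
abbrev act (g : Cfsg.isometryGroup (ZMod 2) ⇑Q) (x : ι → ZMod 2) : ι → ZMod 2 :=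
  ((g : GL ι (ZMod 2)) : Matrix ι ι (ZMod 2)) *ᵥ x

variable {n : ℕ} (r : Fin (n + 1) → (ι → ZMod 2)) (hr : ∀ i, Q (r i) = 1)

include hr in
theorem hr0 (i) : Q (r i) ≠ 0 := by rw [hr]; exact one_ne_zero

/-- The transvection of the `i`th root. -/
noncomputable def tv (i : Fin (n + 1)) : Cfsg.isometryGroup (ZMod 2) ⇑Q := reflGL Q (r i) (hr0 Q r hr i)

theorem act_tv (i) (x : ι → ZMod 2) : act Q (tv Q r hr i) x = x + polar Q x (r i) • r i :=
  refl_mulVec Q _ x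

theorem add_self' (x : ι → ZMod 2) : x + x = 0 := by
  funext k; exact CharTwo.add_self_eq_zero _

theorem tv_sq (i) : tv Q r hr i * tv Q r hr i = 1 := by
  refine ext_mv fun x => ?_
  rw [coe_mul_mv]
  show act Q (tv Q r hr i) (act Q (tv Q r hr i) x) = (1 : Matrix ι ι (ZMod 2)) *ᵥ x
  rw [act_tv, act_tv, one_mulVec, polar_add_left, polar_smul_left, polar_self, hr]
  simp [show ((2 : ZMod 2)) = 0 from rfl, add_assoc, add_self']

include hr in
theorem pol_self (i) : polar Q (r i) (r i) = 0 := by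
  rw [polar_self, hr]; rfl

/-- If the transvections of the roots generate, the even words generate the commutator subgroup. -/
theorem omega_eq (p : Fin (n + 1) → Fin (n + 1)) (hp : ∀ i, i ≠ 0 → p i < i)
    (hedge : ∀ i, i ≠ 0 → polar Q (r i) (r (p i)) = 1)
    (hgen : Subgroup.closure (Set.range (tv Q r hr)) = ⊤) :
    Cfsg.Omega (ZMod 2) ⇑Q = Subgroup.closure (Set.range fun i => tv Q r hr i * tv Q r hr 0) := by
  classical
  set t := tv Q r hr with ht
  have hsq : ∀ i, t i * t i = 1 := tv_sq Q r hr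
  have hinv : ∀ i, (t i)⁻¹ = t i := fun i => inv_eq_of_mul_eq_one_right (hsq i)
  set E := Subgroup.closure (Set.range fun i => t i * t 0) with hE
  apply le_antisymm
  · have hg : ∀ i, t i * t 0 ∈ E := fun i => Subgroup.subset_closure ⟨i, rfl⟩
    have hij : ∀ i j, t i * t j ∈ E := fun i j => by
      have := mul_mem (hg i) (inv_mem (hg j))
      rwa [_root_.mul_inv_rev, hinv, hinv, mul_assoc, ← mul_assoc (t 0), hsq, one_mul] at this
    have hn : E.Normal := by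
      rw [← Subgroup.normalizer_eq_top_iff, eq_top_iff, ← hgen, Subgroup.closure_le]
      have hcj : ∀ j, ∀ g ∈ E, t j * g * (t j)⁻¹ ∈ E := by
        intro j g hgE
        induction hgE using Subgroup.closure_induction with
        | mem x hx =>
          obtain ⟨i, rfl⟩ := hx
          rw [hinv]
          have := mul_mem (hij j i) (hij 0 j)
          simpa only [mul_assoc] using this
        | one => simp
        | mul x y _ _ hx hy =>
          have := mul_mem hx hy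
          rwa [show t j * x * (t j)⁻¹ * (t j * y * (t j)⁻¹) = t j * (x * y) * (t j)⁻¹ by group] at this
        | inv x _ hx =>
          have := inv_mem hx
          rwa [show (t j * x * (t j)⁻¹)⁻¹ = t j * x⁻¹ * (t j)⁻¹ by group] at this
      rintro _ ⟨j, rfl⟩
      rw [SetLike.mem_coe, Subgroup.mem_normalizer_iff]
      refine fun g => ⟨hcj j g, fun h => ?_⟩
      have := hcj j _ h
      rwa [show t j * (t j * g * (t j)⁻¹) * (t j)⁻¹ = (t j * t j) * g * (t j * t j)⁻¹ by group, hsq, one_mul,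
        inv_one, mul_one] at this
    haveI := hn
    let π := QuotientGroup.mk' E
    have hπ : ∀ i, π (t i) = π (t 0) := fun i => by
      have := (QuotientGroup.eq_one_iff _).mpr (hij i 0)
      change π (t i * t 0) = 1 at this
      rw [map_mul, mul_eq_one_iff_eq_inv, ← map_inv, hinv] at this
      exact this
    have hall : ∀ g, π g ∈ Subgroup.zpowers (π (t 0)) := fun g => by
      have hg' : g ∈ Subgroup.closure (Set.range t) := by rw [hgen]; trivial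
      induction hg' using Subgroup.closure_induction with
      | mem x hx => obtain ⟨i, rfl⟩ := hx; rw [hπ i]; exact Subgroup.mem_zpowers _
      | one => rw [map_one]; exact one_mem _
      | mul x y _ _ hx hy => rw [map_mul]; exact mul_mem hx hy
      | inv x _ hx => rw [map_inv]; exact inv_mem hx
    show commutator _ ≤ E
    rw [commutator_def, Subgroup.commutator_le]
    intro a _ b _
    rw [← QuotientGroup.eq_one_iff]
    show π ⁅a, b⁆ = 1
    obtain ⟨i, hi⟩ := hall a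
    obtain ⟨j, hj⟩ := hall b
    simp only at hi hj
    rw [map_commutatorElement, ← hi, ← hj, commutatorElement_eq_one_iff_mul_comm]
    exact (Commute.zpow_zpow_self _ i j).eq
  · rw [hE, Subgroup.closure_le]
    rintro _ ⟨i, rfl⟩
    show t i * t 0 ∈ commutator _
    rw [← Abelianization.ker_of (Cfsg.isometryGroup (ZMod 2) ⇑Q), MonoidHom.mem_ker, map_mul]
    have hc : ∀ i, i ≠ 0 → Abelianization.of (t i) = Abelianization.of (t (p i)) := by
      intro i hi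
      have hb : t i * t (p i) * t i = t (p i) * t i * t (p i) := by
        refine ext_mv fun x => ?_
        simp only [coe_mul_mv, ht]
        show act Q _ (act Q _ (act Q _ x)) = act Q _ (act Q _ (act Q _ x))
        simp only [act_tv, polar_add_left, polar_smul_left, pol_self Q r hr, hedge i hi,
          polar_comm Q (r (p i)) (r i), smul_eq_mul, mul_zero, mul_one, add_zero]
        funext k
        simp only [Pi.add_apply, Pi.smul_apply, smul_eq_mul]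
        (ring_nf; reduce_mod_char)
      have := congrArg Abelianization.of hb
      simp only [map_mul] at this
      rw [mul_comm (Abelianization.of (t (p i))) (Abelianization.of (t i))] at this
      exact mul_left_cancel this
    have : ∀ k : ℕ, ∀ i : Fin (n + 1), i.val ≤ k → Abelianization.of (t i) = Abelianization.of (t 0) := by
      intro k
      induction k with
      | zero => intro i hi; rw [show i = 0 from Fin.ext (Nat.le_zero.mp hi)]
      | succ k ih =>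
        intro i hi
        by_cases h0 : i = 0
        · rw [h0]
        · rw [hc i h0]; exact ih _ (by have : (p i).val < i.val := hp i h0; omega)
    rw [this _ i le_rfl, ← map_mul, hsq, map_one]

/-- A cocycle on the even subgroup of a simply laced tree of transvections is principal. -/
theorem principal (p : Fin (n + 1) → Fin (n + 1)) (hp : ∀ i, i ≠ 0 → p i < i)
    (hgram : ∀ a b, a ≠ b → polar Q (r a) (r b) = if (a ≠ 0 ∧ p a = b) ∨ (b ≠ 0 ∧ p b = a) then 1 else 0)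
    (d : Fin (n + 1) → (ι → ZMod 2)) (hd : ∀ i j, polar Q (d i) (r j) = if i = j then 1 else 0)
    (one' : Fin (n + 1)) (hone : one' ≠ 0) (hpone : p one' = 0)
    (hgen : Subgroup.closure (Set.range (tv Q r hr)) = ⊤)
    (f : ↥(Cfsg.Omega (ZMod 2) ⇑Q) → (ι → ZMod 2))
    (hf : ∀ g h : ↥(Cfsg.Omega (ZMod 2) ⇑Q), f (g * h) = f g + act Q g.1 (f h)) :
    ∃ v, ∀ g : ↥(Cfsg.Omega (ZMod 2) ⇑Q), f g = act Q g.1 v - v := by
  classical
  have h2 : (2 : ZMod 2) = 0 := rfl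
  have hneg : ∀ x : ι → ZMod 2, -x = x := fun x => by funext k; exact CharTwo.neg_eq _
  have hedge : ∀ i, i ≠ 0 → polar Q (r i) (r (p i)) = 1 := fun i hi => by
    rw [hgram _ _ (ne_of_gt (hp i hi)), if_pos (Or.inl ⟨hi, rfl⟩)]
  have hpp : ∀ i, i ≠ 0 → p i ≠ i := fun i hi => ne_of_lt (hp i hi)
  set t := tv Q r hr with ht
  have hOm := omega_eq Q r hr p hp hedge hgen
  have hmem : ∀ a b, t a * t b ∈ Cfsg.Omega (ZMod 2) ⇑Q := fun a b => by
    have h1 : ∀ i, t i * t 0 ∈ Cfsg.Omega (ZMod 2) ⇑Q := fun i => by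
      rw [hOm]; exact Subgroup.subset_closure ⟨i, rfl⟩
    have := mul_mem (h1 a) (inv_mem (h1 b))
    rwa [_root_.mul_inv_rev, inv_eq_of_mul_eq_one_right (tv_sq Q r hr b), inv_eq_of_mul_eq_one_right (tv_sq Q r hr 0),
      mul_assoc, ← mul_assoc (t 0), tv_sq Q r hr 0, one_mul] at this
  let g : Fin (n + 1) → Fin (n + 1) → ↥(Cfsg.Omega (ZMod 2) ⇑Q) := fun a b => ⟨t a * t b, hmem a b⟩
  have hact : ∀ a b x, act Q (g a b).1 x =
      x + polar Q x (r b) • r b + (polar Q x (r a) + polar Q x (r b) * polar Q (r b) (r a)) • r a := by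
    intro a b x
    show act Q (t a * t b) x = _
    rw [act, coe_mul_mv]
    show act Q (t a) (act Q (t b) x) = _
    rw [act_tv, act_tv, polar_add_left, polar_smul_left, smul_eq_mul]
  have hone1 : ∀ h : ↥(Cfsg.Omega (ZMod 2) ⇑Q), ∀ x, h = 1 → act Q h.1 x = x := fun h x e => by
    subst e; show (1 : Matrix ι ι (ZMod 2)) *ᵥ x = x; rw [one_mulVec]
  have f1 : f 1 = 0 := by
    have h := hf 1 1
    rw [one_mul, hone1 1 _ rfl, add_self'] at h
    exact h
  let F : Fin (n + 1) → (ι → ZMod 2) := fun i => f (g i 0)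
  have hF0 : F 0 = 0 := by
    show f (g 0 0) = 0
    rw [show g 0 0 = 1 from Subtype.ext (tv_sq Q r hr 0), f1]
  have hfab : ∀ a b, f (g a b) = F a + act Q (g a b).1 (F b) := by
    intro a b
    have e : g a 0 = g a b * g b 0 := Subtype.ext (by
      show t a * t 0 = t a * t b * (t b * t 0)
      rw [mul_assoc, ← mul_assoc (t b), tv_sq, one_mul])
    show f (g a b) = f (g a 0) + _
    rw [e, hf, add_assoc, add_self', add_zero]
  have horth : ∀ a b, a ≠ b → polar Q (r a) (r b) = 0 → polar Q (F a + F b) (r a) = 0 := by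
    intro a b hab h0
    have hba : polar Q (r b) (r a) = 0 := by rw [polar_comm]; exact h0
    have hsq : g a b * g a b = 1 := by
      refine Subtype.ext (ext_mv fun x => ?_)
      show ((↑((g a b).1 * (g a b).1) : GL ι (ZMod 2)) : Matrix ι ι (ZMod 2)) *ᵥ x = (1 : Matrix ι ι (ZMod 2)) *ᵥ x
      rw [coe_mul_mv, one_mulVec]
      show act Q (g a b).1 (act Q (g a b).1 x) = x
      simp only [hact, polar_add_left, polar_smul_left, pol_self Q r hr, hba, h0, smul_eq_mul, mul_zero,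
        add_zero]
      funext k
      simp only [Pi.add_apply, Pi.smul_apply, smul_eq_mul]
      (ring_nf; reduce_mod_char)
    have h := hf (g a b) (g a b)
    rw [hsq, f1, hact _ _ (f (g a b))] at h
    have h' := congrArg (fun y => polar Q (d a) y) h
    simp only [polar_add_right, polar_smul_right, polar_zero_right, hd, if_neg hab, hba, smul_eq_mul, mul_zero,
      mul_one, add_zero, zero_add] at h'
    simp only [↓reduceIte, mul_one, ← add_assoc, CharTwo.add_self_eq_zero, zero_add] at h'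
    rw [hfab, hact, ← polar_comm] at h'
    simp only [polar_add_left, polar_add_right, polar_smul_left, polar_smul_right, pol_self Q r hr, hba, h0, smul_eq_mul,
      mul_zero, add_zero] at h'
    rw [polar_add_left]
    simp only [polar_comm Q _ (r a)] at h' ⊢
    exact h'.symm
  have hadj : ∀ a b, a ≠ b → polar Q (r a) (r b) = 1 → ∃ α β : ZMod 2, F a + F b = α • r a + β • r b := by
    intro a b hab h1
    have hba : polar Q (r b) (r a) = 1 := by rw [polar_comm]; exact h1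
    have hsq : g a b * g a b * g a b = 1 := by
      refine Subtype.ext (ext_mv fun x => ?_)
      show ((↑((g a b).1 * (g a b).1 * (g a b).1) : GL ι (ZMod 2)) : Matrix ι ι (ZMod 2)) *ᵥ x = (1 : Matrix ι ι (ZMod 2)) *ᵥ x
      rw [coe_mul_mv, coe_mul_mv, one_mulVec]
      show act Q (g a b).1 (act Q (g a b).1 (act Q (g a b).1 x)) = x
      simp only [hact, polar_add_left, polar_smul_left, pol_self Q r hr, hba, h1, smul_eq_mul, mul_zero, mul_one,
        add_zero, zero_add]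
      funext k
      simp only [Pi.add_apply, Pi.smul_apply, smul_eq_mul]
      (ring_nf; reduce_mod_char)
    have key : ∀ x, ∃ α β : ZMod 2, act Q (g a b).1 x = x + (α • r a + β • r b) := fun x =>
      ⟨_, _, by rw [hact, add_assoc, add_comm (polar Q x (r b) • r b)]⟩
    have h := hf (g a b * g a b) (g a b)
    rw [hsq, f1, hf] at h
    obtain ⟨α₁, β₁, e1⟩ := key (f (g a b))
    obtain ⟨α₂, β₂, e2⟩ := key (act Q (g a b).1 (f (g a b)))
    obtain ⟨α₃, β₃, e3⟩ := key (F b)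
    have e4 : act Q ((g a b * g a b : ↥(Cfsg.Omega (ZMod 2) ⇑Q))).1 (f (g a b)) =
        f (g a b) + (α₁ • r a + β₁ • r b) + (α₂ • r a + β₂ • r b) := by
      rw [show act Q ((g a b * g a b : ↥(Cfsg.Omega (ZMod 2) ⇑Q))).1 (f (g a b)) =
        act Q (g a b).1 (act Q (g a b).1 (f (g a b))) from coe_mul_mv _ _ _, e2, e1]
    rw [e4, e1, hfab, e3] at h
    refine ⟨α₁ + α₁ + α₂ + α₃, β₁ + β₁ + β₂ + β₃, ?_⟩
    funext k
    have hk := congrFun h k
    simp only [Pi.add_apply, Pi.smul_apply, Pi.zero_apply, smul_eq_mul] at hk ⊢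
    linear_combination (norm := (ring_nf; reduce_mod_char)) -hk
  -- coefficients on the edges
  have hedges : ∀ i, ∃ αβ : ZMod 2 × ZMod 2, i ≠ 0 → F i + F (p i) = αβ.1 • r i + αβ.2 • r (p i) := fun i => by
    by_cases hi : i = 0
    · exact ⟨0, fun h => absurd hi h⟩
    · obtain ⟨α, β, h⟩ := hadj i (p i) (Ne.symm (hpp i hi)) (hedge i hi)
      exact ⟨(α, β), fun _ => h⟩
  choose c hc using hedges
  -- two edges through a common vertex agree there
  have hshare : ∀ i j, i ≠ 0 → j ≠ 0 → i ≠ j → p i = p j → (c i).2 = (c j).2 := by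
    intro i j hi hj hij hpij
    have hadjno : ¬((i ≠ 0 ∧ p i = j) ∨ (j ≠ 0 ∧ p j = i)) := by
      rintro (⟨-, h⟩ | ⟨-, h⟩)
      · exact hpp j hj (hpij.symm.trans h)
      · exact hpp i hi (hpij.trans h)
    have h0 : polar Q (r i) (r j) = 0 := by rw [hgram i j hij, if_neg hadjno]
    have h := horth i j hij h0
    have e : F i + F j = (F i + F (p i)) + (F j + F (p j)) := by
      rw [hpij]; funext k; simp only [Pi.add_apply]; linear_combination -(F (p j) k) * h2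
    rw [e, hc i hi, hc j hj] at h
    simp only [polar_add_left, polar_smul_left, pol_self Q r hr, smul_eq_mul, mul_zero, zero_add, ← hpij] at h
    rw [polar_comm Q (r (p i)), hedge i hi, polar_comm Q (r j), h0] at h
    exact CharTwo.add_eq_zero.mp (by linear_combination h)
  have hchain : ∀ i, i ≠ 0 → p i ≠ 0 → (c i).2 = (c (p i)).1 := by
    intro i hi hk
    have hne : i ≠ p (p i) := ne_of_gt (lt_trans (hp _ hk) (hp i hi))
    have hadjno : ¬((i ≠ 0 ∧ p i = p (p i)) ∨ (p (p i) ≠ 0 ∧ p (p (p i)) = i)) := by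
      rintro (⟨-, h⟩ | ⟨h', h⟩)
      · exact hpp _ hk h.symm
      · exact absurd h (ne_of_lt (lt_trans (hp _ h') (lt_trans (hp _ hk) (hp i hi))))
    have h0 : polar Q (r i) (r (p (p i))) = 0 := by rw [hgram _ _ hne, if_neg hadjno]
    have h := horth i (p (p i)) hne h0
    have e : F i + F (p (p i)) = (F i + F (p i)) + (F (p i) + F (p (p i))) := by
      funext k; simp only [Pi.add_apply]; linear_combination -(F (p i) k) * h2
    rw [e, hc i hi, hc _ hk] at h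
    simp only [polar_add_left, polar_smul_left, pol_self Q r hr, smul_eq_mul, mul_zero, zero_add] at h
    rw [polar_comm Q (r (p i)), hedge i hi, polar_comm Q (r (p (p i))), h0] at h
    exact CharTwo.add_eq_zero.mp (by linear_combination h)
  let l : Fin (n + 1) → ZMod 2 := fun i => if i = 0 then (c one').2 else (c i).1
  have hl : ∀ i, i ≠ 0 → (c i).2 = l (p i) := by
    intro i hi
    by_cases hk : p i = 0
    · show _ = if p i = 0 then _ else _
      rw [if_pos hk]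
      by_cases h1 : i = one'
      · rw [h1]
      · exact hshare i one' hi hone h1 (hk.trans hpone.symm)
    · show _ = if p i = 0 then _ else _
      rw [if_neg hk]; exact hchain i hi hk
  have hFi : ∀ k : ℕ, ∀ i : Fin (n + 1), i.val ≤ k → i ≠ 0 → F i = l 0 • r 0 + l i • r i := by
    intro k
    induction k with
    | zero => intro i hi h0; exact absurd (Fin.ext (Nat.le_zero.mp hi)) h0
    | succ k ih =>
      intro i hi h0
      have h := hc i h0
      rw [hl i h0] at h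
      have hli : (c i).1 = l i := (if_neg h0).symm
      rw [hli] at h
      by_cases hk : p i = 0
      · rw [hk, hF0, add_zero] at h
        rw [h, add_comm]
      · rw [ih _ (by have : (p i).val < i.val := hp i h0; omega) hk] at h
        funext m
        have hm := congrFun h m
        simp only [Pi.add_apply, Pi.smul_apply, smul_eq_mul] at hm ⊢
        linear_combination hm - (l 0 * r 0 m) * h2
  -- the vector
  let μ : Fin (n + 1) → ZMod 2 := fun i => if i = 0 then l 0 else l i + l 0 * polar Q (r 0) (r i)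
  refine ⟨∑ i, μ i • d i, ?_⟩
  have hv : ∀ j, polar Q (∑ i, μ i • d i) (r j) = μ j := fun j => by
    rw [← polarBilin_apply_apply, map_sum, LinearMap.sum_apply]
    simp [hd]
  set v := ∑ i, μ i • d i
  have hgi : ∀ i, f (g i 0) = act Q (g i 0).1 v - v := by
    intro i
    show F i = _
    rw [hact, hv, hv, sub_eq_add_neg, hneg]
    by_cases h0 : i = 0
    · subst h0
      rw [hF0, pol_self Q r hr, mul_zero, add_zero]
      funext m
      simp only [Pi.add_apply, Pi.smul_apply, smul_eq_mul, Pi.zero_apply]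
      linear_combination -(v m + μ 0 * r 0 m) * h2
    · rw [hFi _ i le_rfl h0]
      show _ = v + (if (0 : Fin (n + 1)) = 0 then l 0 else _) • r 0 +
        ((if i = 0 then l 0 else l i + l 0 * polar Q (r 0) (r i)) + (if (0 : Fin (n + 1)) = 0 then l 0 else _) * _) • r i + v
      rw [if_pos rfl, if_neg h0]
      funext m
      simp only [Pi.add_apply, Pi.smul_apply, smul_eq_mul]
      linear_combination -(v m + l 0 * polar Q (r 0) (r i) * r i m) * h2
  rintro ⟨x, hx⟩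
  have hx' : x ∈ Subgroup.closure (Set.range fun i => t i * t 0) := by rw [← hOm]; exact hx
  suffices H : ∀ y, y ∈ Subgroup.closure (Set.range fun i => t i * t 0) →
      ∃ hy : y ∈ Cfsg.Omega (ZMod 2) ⇑Q, f ⟨y, hy⟩ = act Q y v - v by
    obtain ⟨_, h⟩ := H x hx'
    exact h
  intro y hy
  induction hy using Subgroup.closure_induction with
  | mem y hy => obtain ⟨i, rfl⟩ := hy; exact ⟨hmem i 0, hgi i⟩
  | one => exact ⟨one_mem _, by
      show f 1 = act Q (1 : ↥(Cfsg.Omega (ZMod 2) ⇑Q)).1 v - v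
      rw [f1, hone1 1 v rfl, sub_self]⟩
  | mul a b _ _ ha hb =>
    obtain ⟨ha', ea⟩ := ha
    obtain ⟨hb', eb⟩ := hb
    refine ⟨mul_mem ha' hb', ?_⟩
    have h := hf ⟨a, ha'⟩ ⟨b, hb'⟩
    rw [ea, eb] at h
    refine h.trans ?_
    show act Q a v - v + act Q a (act Q b v - v) = act Q (a * b) v - v
    simp only [act, Matrix.mulVec_sub, coe_mul_mv]
    abel
  | inv a _ ha =>
    obtain ⟨ha', ea⟩ := ha
    refine ⟨inv_mem ha', ?_⟩
    have h := hf ⟨a⁻¹, inv_mem ha'⟩ ⟨a, ha'⟩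
    rw [show (⟨a⁻¹, inv_mem ha'⟩ : ↥(Cfsg.Omega (ZMod 2) ⇑Q)) * ⟨a, ha'⟩ = 1 from
      Subtype.ext (inv_mul_cancel a), f1, ea] at h
    have e : act Q a⁻¹ (act Q a v) = v := by
      show ((↑a⁻¹ : GL ι (ZMod 2)) : Matrix ι ι (ZMod 2)) *ᵥ _ = v
      rw [← coe_mul_mv, inv_mul_cancel]
      exact one_mulVec v
    have h' : f ⟨a⁻¹, inv_mem ha'⟩ = -(act Q a⁻¹ (act Q a v - v)) := eq_neg_of_add_eq_zero_left h.symm
    rw [h', act, Matrix.mulVec_sub]
    show -(act Q a⁻¹ (act Q a v) - act Q a⁻¹ v) = _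
    rw [e, neg_sub]

/-- Every transvection is in the group generated by those of the roots. -/
theorem all_refl (N : ℕ) (L : Fin N → (ι → ZMod 2))
    (hL : ∀ k, (∃ i, L k = r i) ∨ ∃ i j, j < k ∧ L k = L j + polar Q (L j) (r i) • r i)
    (hcover : ∀ u, Q u ≠ 0 → ∃ k, L k = u) (u : ι → ZMod 2) (hu : Q u ≠ 0) :
    reflGL Q u hu ∈ Subgroup.closure (Set.range (tv Q r hr)) := by
  suffices H : ∀ m : ℕ, ∀ k : Fin N, k.val ≤ m → ∀ h : Q (L k) ≠ 0, reflGL Q (L k) h ∈ Subgroup.closure (Set.range (tv Q r hr)) by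
    obtain ⟨k, rfl⟩ := hcover u hu
    exact H _ k le_rfl hu
  intro m
  induction m with
  | zero =>
    intro k hk h
    rcases hL k with ⟨i, hi⟩ | ⟨i, j, hj, -⟩
    · simp only [hi]; exact Subgroup.subset_closure ⟨i, rfl⟩
    · have : j.val < k.val := hj; omega
  | succ m ih =>
    intro k hk h
    rcases hL k with ⟨i, hi⟩ | ⟨i, j, hj, e⟩
    · simp only [hi]; exact Subgroup.subset_closure ⟨i, rfl⟩
    · have e' : L k = act Q (tv Q r hr i) (L j) := by rw [act_tv]; exact e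
      have hj' : Q (L j) ≠ 0 := by
        rw [e', act, mem_isometryGroup.1 (tv Q r hr i).2] at h; exact h
      have hc := conj_refl_mv (tv Q r hr i) hj' (by rw [mem_isometryGroup.1 (tv Q r hr i).2]; exact hj')
      have hm : reflGL Q (L k) h = tv Q r hr i * reflGL Q (L j) hj' * (tv Q r hr i)⁻¹ := by
        rw [eq_mul_inv_iff_mul_eq, hc]
        congr 1
        simp only [e']
      rw [hm]
      exact mul_mem (mul_mem (Subgroup.subset_closure ⟨i, rfl⟩) (ih j (by have : j.val < k.val := hj; omega) hj'))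
        (inv_mem (Subgroup.subset_closure ⟨i, rfl⟩))

end General

/-- A binary digit. -/
def bit (k i : ℕ) : ZMod 2 := if k.testBit i then 1 else 0

/-- Vectors of the space `A`. -/
def decA (k : ℕ) : (Fin 1 ⊕ Fin 1) ⊕ Fin 2 → ZMod 2 := Sum.elim (Sum.elim (fun i => bit k i.val) (fun i => bit k (1 + i.val))) (fun i => bit k (2 + i.val))

def rA : Fin 4 → ((Fin 1 ⊕ Fin 1) ⊕ Fin 2 → ZMod 2) := fun i => decA (![3, 5, 8, 4] i)

def dA : Fin 4 → ((Fin 1 ⊕ Fin 1) ⊕ Fin 2 → ZMod 2) := fun i => decA (![1, 3, 4, 11] i)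

def pA : Fin 4 → Fin 4 := ![0, 0, 1, 2]

def codeA : Fin 10 → ℕ := ![3, 5, 8, 4, 6, 13, 12, 14, 9, 10]

def LA : Fin 10 → ((Fin 1 ⊕ Fin 1) ⊕ Fin 2 → ZMod 2) := fun k => decA (codeA k)

def ciA : Fin 10 → Fin 4 := ![0, 0, 0, 0, 1, 2, 3, 2, 3, 3]

def cjA : Fin 10 → Fin 10 := ![0, 0, 0, 0, 0, 1, 2, 4, 5, 7]

/-- The polar form in coordinates. -/
def polA (x y : (Fin 1 ⊕ Fin 1) ⊕ Fin 2 → ZMod 2) : ZMod 2 :=
  Cfsg.quadFormMinus 1 (ZMod 2) 1 1 (x + y) - Cfsg.quadFormMinus 1 (ZMod 2) 1 1 x - Cfsg.quadFormMinus 1 (ZMod 2) 1 1 y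

theorem hrA : ∀ i, Cfsg.quadFormMinus 1 (ZMod 2) 1 1 (rA i) = 1 := by decide +kernel

theorem hgramA : ∀ a b, a ≠ b → polA (rA a) (rA b) =
    if (a ≠ 0 ∧ pA a = b) ∨ (b ≠ 0 ∧ pA b = a) then 1 else 0 := by decide +kernel

theorem hdA : ∀ i j, polA (dA i) (rA j) = if i = j then 1 else 0 := by decide +kernel

theorem hpA : ∀ i, i ≠ 0 → pA i < i := by decide +kernel

theorem hLA : ∀ k, (k.val < 4 ∧ ∃ i : Fin 4, i.val = k.val ∧ LA k = rA i) ∨
    (cjA k < k ∧ LA k = LA (cjA k) + polA (LA (cjA k)) (rA (ciA k)) • rA (ciA k)) := by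
  decide +kernel

theorem hcodeA : ∀ k : Fin 16, Cfsg.quadFormMinus 1 (ZMod 2) 1 1 (decA k.val) = 0 ∨ ∃ j, codeA j = k.val := by decide +kernel

/-- The code of a vector. -/
def encA (u : (Fin 1 ⊕ Fin 1) ⊕ Fin 2 → ZMod 2) : ℕ := (u (.inl (.inl 0))).val * 1 + (u (.inl (.inr 0))).val * 2 + (u (.inr 0)).val * 4 + (u (.inr 1)).val * 8

theorem dec_encA : ∀ u : (Fin 1 ⊕ Fin 1) ⊕ Fin 2 → ZMod 2, decA (encA u) = u ∧ encA u < 16 := by decide +kernel

theorem hcoverA (u : (Fin 1 ⊕ Fin 1) ⊕ Fin 2 → ZMod 2) (hu : Cfsg.quadFormMinus 1 (ZMod 2) 1 1 u ≠ 0) : ∃ k, LA k = u := by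
  obtain ⟨h1, h2⟩ := dec_encA u
  rcases hcodeA ⟨_, h2⟩ with h | ⟨j, hj⟩
  · exact absurd (h1 ▸ h) hu
  · refine ⟨j, ?_⟩
    show decA (codeA j) = u
    rw [hj]; exact h1

/-- Vectors of the space `E6`. -/
def decE6 (k : ℕ) : (Fin 2 ⊕ Fin 2) ⊕ Fin 2 → ZMod 2 := Sum.elim (Sum.elim (fun i => bit k i.val) (fun i => bit k (2 + i.val))) (fun i => bit k (4 + i.val))

def rE6 : Fin 6 → ((Fin 2 ⊕ Fin 2) ⊕ Fin 2 → ZMod 2) := fun i => decE6 (![5, 11, 18, 10, 7, 32] i)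

def dE6 : Fin 6 → ((Fin 2 ⊕ Fin 2) ⊕ Fin 2 → ZMod 2) := fun i => decE6 (![43, 5, 32, 7, 42, 16] i)

def pE6 : Fin 6 → Fin 6 := ![0, 0, 1, 2, 3, 2]

def codeE6 : Fin 36 → ℕ := ![5, 11, 18, 10, 7, 32, 14, 25, 24, 50, 13, 28, 19, 57, 31, 56, 22, 60, 20, 51, 63, 17, 54, 52, 33, 49, 36, 38, 35, 47, 44, 40, 41, 34, 48, 16]

def LE6 : Fin 36 → ((Fin 2 ⊕ Fin 2) ⊕ Fin 2 → ZMod 2) := fun k => decE6 (codeE6 k)

def ciE6 : Fin 36 → Fin 6 := ![0, 0, 0, 0, 0, 0, 1, 2, 3, 5, 4, 2, 3, 5, 4, 5, 3, 5, 4, 5, 5, 4, 5, 5, 2, 5, 2, 2, 2, 1, 3, 1, 3, 3, 2, 5]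

def cjE6 : Fin 36 → Fin 36 := ![0, 0, 0, 0, 0, 0, 0, 1, 2, 2, 3, 6, 7, 7, 8, 8, 11, 11, 12, 12, 14, 16, 16, 18, 19, 21, 22, 23, 25, 26, 27, 28, 28, 31, 33, 34]

/-- The polar form in coordinates. -/
def polE6 (x y : (Fin 2 ⊕ Fin 2) ⊕ Fin 2 → ZMod 2) : ZMod 2 :=
  Cfsg.quadFormMinus 2 (ZMod 2) 1 1 (x + y) - Cfsg.quadFormMinus 2 (ZMod 2) 1 1 x - Cfsg.quadFormMinus 2 (ZMod 2) 1 1 y

theorem hrE6 : ∀ i, Cfsg.quadFormMinus 2 (ZMod 2) 1 1 (rE6 i) = 1 := by decide +kernel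

theorem hgramE6 : ∀ a b, a ≠ b → polE6 (rE6 a) (rE6 b) =
    if (a ≠ 0 ∧ pE6 a = b) ∨ (b ≠ 0 ∧ pE6 b = a) then 1 else 0 := by decide +kernel

theorem hdE6 : ∀ i j, polE6 (dE6 i) (rE6 j) = if i = j then 1 else 0 := by decide +kernel

theorem hpE6 : ∀ i, i ≠ 0 → pE6 i < i := by decide +kernel

theorem hLE6 : ∀ k, (k.val < 6 ∧ ∃ i : Fin 6, i.val = k.val ∧ LE6 k = rE6 i) ∨
    (cjE6 k < k ∧ LE6 k = LE6 (cjE6 k) + polE6 (LE6 (cjE6 k)) (rE6 (ciE6 k)) • rE6 (ciE6 k)) := by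
  decide +kernel

theorem hcodeE6 : ∀ k : Fin 64, Cfsg.quadFormMinus 2 (ZMod 2) 1 1 (decE6 k.val) = 0 ∨ ∃ j, codeE6 j = k.val := by decide +kernel

/-- The code of a vector. -/
def encE6 (u : (Fin 2 ⊕ Fin 2) ⊕ Fin 2 → ZMod 2) : ℕ := (u (.inl (.inl 0))).val * 1 + (u (.inl (.inl 1))).val * 2 + (u (.inl (.inr 0))).val * 4 + (u (.inl (.inr 1))).val * 8 + (u (.inr 0)).val * 16 + (u (.inr 1)).val * 32

theorem dec_encE6 : ∀ u : (Fin 2 ⊕ Fin 2) ⊕ Fin 2 → ZMod 2, decE6 (encE6 u) = u ∧ encE6 u < 64 := by decide +kernel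

theorem hcoverE6 (u : (Fin 2 ⊕ Fin 2) ⊕ Fin 2 → ZMod 2) (hu : Cfsg.quadFormMinus 2 (ZMod 2) 1 1 u ≠ 0) : ∃ k, LE6 k = u := by
  obtain ⟨h1, h2⟩ := dec_encE6 u
  rcases hcodeE6 ⟨_, h2⟩ with h | ⟨j, hj⟩
  · exact absurd (h1 ▸ h) hu
  · refine ⟨j, ?_⟩
    show decE6 (codeE6 j) = u
    rw [hj]; exact h1

/-- Vectors of the space `E8`. -/
def decE8 (k : ℕ) : Fin 4 ⊕ Fin 4 → ZMod 2 := Sum.elim (fun i => bit k i.val) (fun i => bit k (4 + i.val))

def rE8 : Fin 8 → (Fin 4 ⊕ Fin 4 → ZMod 2) := fun i => decE8 (![17, 35, 21, 68, 23, 34, 27, 238] i)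

def dE8 : Fin 8 → (Fin 4 ⊕ Fin 4 → ZMod 2) := fun i => decE8 (![205, 17, 238, 12, 170, 27, 136, 8] i)

def pE8 : Fin 8 → Fin 8 := ![0, 0, 1, 2, 3, 4, 5, 2]

def codeE8 : Fin 120 → ℕ := ![17, 35, 21, 68, 23, 34, 27, 238, 50, 54, 81, 251, 83, 53, 57, 39, 114, 216, 70, 191, 113, 46, 99, 201, 101, 156, 100, 168, 106, 116, 141, 71, 139, 137, 127, 138, 86, 154, 152, 92, 169, 158, 145, 77, 184, 143, 187, 178, 188, 218, 163, 173, 172, 203, 167, 248, 182, 142, 233, 232, 227, 239, 149, 242, 202, 254, 253, 244, 209, 229, 223, 221, 19, 214, 196, 198, 199, 200, 49, 211, 42, 228, 140, 38, 151, 241, 61, 98, 181, 121, 31, 119, 162, 91, 108, 84, 76, 78, 79, 69, 89, 109, 94, 122, 29, 124, 107, 62, 47, 43, 58, 197, 25, 212, 247, 226, 166, 177, 147, 136]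

def LE8 : Fin 120 → (Fin 4 ⊕ Fin 4 → ZMod 2) := fun k => decE8 (codeE8 k)

def ciE8 : Fin 120 → Fin 8 := ![0, 0, 0, 0, 0, 0, 0, 0, 1, 2, 3, 7, 4, 5, 6, 2, 3, 7, 4, 7, 5, 6, 3, 7, 4, 7, 5, 7, 6, 4, 7, 5, 7, 2, 6, 7, 5, 7, 2, 6, 7, 2, 7, 6, 7, 2, 1, 7, 2, 3, 7, 2, 1, 3, 2, 3, 2, 1, 3, 3, 3, 4, 1, 3, 3, 4, 2, 4, 3, 4, 2, 4, 7, 5, 2, 4, 5, 4, 7, 4, 7, 5, 3, 7, 3, 5, 7, 7, 5, 7, 7, 2, 4, 7, 2, 1, 7, 2, 1, 0, 2, 1, 0, 1, 3, 0, 0, 3, 3, 2, 2, 7, 1, 7, 7, 2, 3, 4, 5, 6]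

def cjE8 : Fin 120 → Fin 120 := ![0, 0, 0, 0, 0, 0, 0, 0, 0, 1, 2, 2, 3, 4, 5, 8, 9, 9, 10, 10, 12, 13, 15, 15, 16, 16, 18, 18, 20, 22, 22, 24, 24, 25, 26, 26, 29, 29, 30, 31, 31, 32, 34, 36, 36, 37, 38, 39, 40, 41, 43, 44, 45, 45, 47, 48, 50, 51, 51, 52, 54, 55, 56, 56, 57, 58, 59, 60, 62, 63, 64, 64, 66, 67, 68, 68, 69, 70, 70, 74, 74, 75, 77, 77, 79, 79, 79, 82, 84, 84, 85, 87, 88, 88, 89, 91, 92, 93, 94, 95, 96, 97, 98, 100, 100, 101, 103, 103, 106, 107, 108, 109, 110, 110, 112, 114, 115, 116, 117, 118]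

/-- The polar form in coordinates. -/
def polE8 (x y : Fin 4 ⊕ Fin 4 → ZMod 2) : ZMod 2 :=
  Cfsg.quadFormPlus 4 (ZMod 2) (x + y) - Cfsg.quadFormPlus 4 (ZMod 2) x - Cfsg.quadFormPlus 4 (ZMod 2) y

theorem hrE8 : ∀ i, Cfsg.quadFormPlus 4 (ZMod 2) (rE8 i) = 1 := by decide +kernel

theorem hgramE8 : ∀ a b, a ≠ b → polE8 (rE8 a) (rE8 b) =
    if (a ≠ 0 ∧ pE8 a = b) ∨ (b ≠ 0 ∧ pE8 b = a) then 1 else 0 := by decide +kernel

theorem hdE8 : ∀ i j, polE8 (dE8 i) (rE8 j) = if i = j then 1 else 0 := by decide +kernel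

theorem hpE8 : ∀ i, i ≠ 0 → pE8 i < i := by decide +kernel

theorem hLE8 : ∀ k, (k.val < 8 ∧ ∃ i : Fin 8, i.val = k.val ∧ LE8 k = rE8 i) ∨
    (cjE8 k < k ∧ LE8 k = LE8 (cjE8 k) + polE8 (LE8 (cjE8 k)) (rE8 (ciE8 k)) • rE8 (ciE8 k)) := by
  decide +kernel

theorem hcodeE8 : ∀ k : Fin 256, Cfsg.quadFormPlus 4 (ZMod 2) (decE8 k.val) = 0 ∨ ∃ j, codeE8 j = k.val := by decide +kernel

/-- The code of a vector. -/
def encE8 (u : Fin 4 ⊕ Fin 4 → ZMod 2) : ℕ := (u (.inl 0)).val * 1 + (u (.inl 1)).val * 2 + (u (.inl 2)).val * 4 + (u (.inl 3)).val * 8 + (u (.inr 0)).val * 16 + (u (.inr 1)).val * 32 + (u (.inr 2)).val * 64 + (u (.inr 3)).val * 128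

theorem dec_encE8 : ∀ u : Fin 4 ⊕ Fin 4 → ZMod 2, decE8 (encE8 u) = u ∧ encE8 u < 256 := by decide +kernel

theorem hcoverE8 (u : Fin 4 ⊕ Fin 4 → ZMod 2) (hu : Cfsg.quadFormPlus 4 (ZMod 2) u ≠ 0) : ∃ k, LE8 k = u := by
  obtain ⟨h1, h2⟩ := dec_encE8 u
  rcases hcodeE8 ⟨_, h2⟩ with h | ⟨j, hj⟩
  · exact absurd (h1 ▸ h) hu
  · refine ⟨j, ?_⟩
    show decE8 (codeE8 j) = u
    rw [hj]; exact h1


/-- With Cartan–Dieudonné, transvections generate. -/
theorem top_of_refl {ι : Type} [Fintype ι] [DecidableEq ι] (Q : QuadraticForm (ZMod 2) (ι → ZMod 2))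
    (hQ : (polarBilin Q).Nondegenerate) (h : Nat.card (ZMod 2) ≠ 2 ∨ Fintype.card ι ≠ 4)
    (X : Subgroup (Cfsg.isometryGroup (ZMod 2) ⇑Q)) (hX : ∀ u (hu : Q u ≠ 0), reflGL Q u hu ∈ X) : X = ⊤ := by
  rw [eq_top_iff, ← closure_reflGL Q hQ h, Subgroup.closure_le]
  rintro g ⟨u, hu, e⟩
  rw [show g = reflGL Q u hu from Subtype.ext (Units.ext (e.trans (coe_reflGL Q u hu).symm))]
  exact hX u hu

set_option synthInstance.maxSize 512 in
/-- Four roots spanning the elliptic space: the stages of the transitivity check. -/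
theorem stageA : ∀ m : Fin 4, ∀ y : (Fin 1 ⊕ Fin 1) ⊕ Fin 2 → ZMod 2,
    Cfsg.quadFormMinus 1 (ZMod 2) 1 1 y = 1 → (∀ j : Fin 4, j < m → y ≠ rA j) → (∀ j : Fin 4, j < m → polA y (rA j) = polA (rA m) (rA j)) →
    y = rA m ∨ polA y (rA m) = 1 ∨ ∃ z, Cfsg.quadFormMinus 1 (ZMod 2) 1 1 z = 1 ∧
      (∀ j : Fin 4, j < m → polA z (rA j) = polA (rA m) (rA j)) ∧ polA y z = 1 ∧ polA z (rA m) = 1 := by
  decide +kernel

theorem rinjA : ∀ a b, rA a = rA b → a = b := by decide +kernel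

theorem spanA : ∀ x : (Fin 1 ⊕ Fin 1) ⊕ Fin 2 → ZMod 2, x = ∑ i, polA (dA i) x • rA i := by decide +kernel

/-- The transvections generate the elliptic orthogonal group in dimension four. -/
theorem topA (Q : QuadraticForm (ZMod 2) ((Fin 1 ⊕ Fin 1) ⊕ Fin 2 → ZMod 2))
    (r : Fin 4 → ((Fin 1 ⊕ Fin 1) ⊕ Fin 2 → ZMod 2)) (_hQ : (polarBilin Q).Nondegenerate)
    (X : Subgroup (Cfsg.isometryGroup (ZMod 2) ⇑Q)) (hX : ∀ u (hu : Q u ≠ 0), reflGL Q u hu ∈ X)
    (hpol : ∀ x y, polar Q x y = polA x y)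
    (hQe : ∀ x, Q x = Cfsg.quadFormMinus 1 (ZMod 2) 1 1 x := by intro x; simp) : X = ⊤ := by
  classical
  rw [eq_top_iff]
  intro g _
  have hr1 : ∀ i, Q (rA i) = 1 := fun i => by rw [hQe]; exact hrA i
  have hiso : ∀ (h : Cfsg.isometryGroup (ZMod 2) ⇑Q) x y, polar Q (act Q h x) (act Q h y) = polar Q x y := fun h x y => by
    simp only [polar, act, ← Matrix.mulVec_add, mem_isometryGroup.1 h.2]
  -- move x to y by one transvection
  have step : ∀ x y, Q x = 1 → Q y = 1 → polar Q x y = 1 → ∀ hu : Q (x + y) ≠ 0,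
      act Q (reflGL Q (x + y) hu) x = y := by
    intro x y hx _ hxy hu
    rw [act, refl_mulVec, polar_add_right, polar_self, hx, hxy]
    simp [add_self', ← add_assoc, show (2 : ZMod 2) = 0 from rfl]
  have fixr : ∀ x y z, polar Q z x = polar Q z y → ∀ hu : Q (x + y) ≠ 0, act Q (reflGL Q (x + y) hu) z = z := by
    intro x y z hz hu
    rw [act, refl_mulVec, polar_add_right, hz, CharTwo.add_self_eq_zero, zero_smul, add_zero]
  have hne : ∀ x y, Q x = 1 → Q y = 1 → polar Q x y = 1 → Q (x + y) ≠ 0 := fun x y hx hy hxy => by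
    rw [QuadraticMap.map_add (⇑Q) x y, hx, hy, hxy]; decide
  have main : ∀ k : ℕ, k ≤ 4 → ∃ w ∈ X, ∀ j : Fin 4, j.val < k → act Q (w * g) (rA j) = rA j := by
    intro k
    induction k with
    | zero => exact fun _ => ⟨1, one_mem _, fun j hj => absurd hj (Nat.not_lt_zero _)⟩
    | succ k ih =>
      intro hk
      obtain ⟨w, hw, hwf⟩ := ih (by omega)
      obtain ⟨m, hm⟩ : ∃ m : Fin 4, m.val = k := ⟨⟨k, by omega⟩, rfl⟩
      set y := act Q (w * g) (rA m) with hy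
      have hy1 : Q y = 1 := by rw [hy, act, mem_isometryGroup.1 (w * g).2, hr1]
      have hyj : ∀ j : Fin 4, j < m → polA y (rA j) = polA (rA m) (rA j) := fun j hj => by
        rw [← hpol, ← hpol]
        conv_lhs => rw [← hwf j (by rw [← hm]; exact hj)]
        exact hiso _ _ _
      have lift : ∀ u ∈ X, (∀ j : Fin 4, j.val < k → act Q u (rA j) = rA j) → act Q u y = rA m →
          ∃ w ∈ X, ∀ j : Fin 4, j.val < k + 1 → act Q (w * g) (rA j) = rA j := by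
        intro u hu hf hm'
        refine ⟨u * w, mul_mem hu hw, fun j hj => ?_⟩
        have e : act Q (u * w * g) (rA j) = act Q u (act Q (w * g) (rA j)) := by
          rw [mul_assoc]; exact coe_mul_mv u (w * g) (rA j)
        rw [e]
        by_cases hjk : j.val < k
        · rw [hwf j hjk, hf j hjk]
        · obtain rfl : j = m := Fin.ext (by omega)
          exact hm'
      have hyne : ∀ j : Fin 4, j < m → y ≠ rA j := fun j hj e => by
        have e' : act Q (w * g) (rA m) = act Q (w * g) (rA j) := by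
          rw [hwf j (by rw [← hm]; exact hj)]; exact hy ▸ e
        have hinv : ∀ x, act Q (w * g)⁻¹ (act Q (w * g) x) = x := fun x => by
          rw [act, act, ← coe_mul_mv, inv_mul_cancel]; exact one_mulVec x
        have := congrArg (act Q (w * g)⁻¹) e'
        rw [hinv, hinv] at this
        exact absurd (rinjA m j this) (ne_of_gt hj)
      rcases stageA m y (by rw [← hQe]; exact hy1) hyne hyj with h | h | ⟨z, hz1, hzj, hyz, hzm⟩
      · exact ⟨w, hw, fun j hj => by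
          by_cases hjk : j.val < k
          · exact hwf j hjk
          · obtain rfl : j = m := Fin.ext (by omega)
            exact h⟩
      · have hu := hne y (rA m) hy1 (hr1 m) ((hpol _ _).trans h)
        refine lift _ (hX _ hu) (fun j hj => fixr _ _ _ ?_ hu) (step _ _ hy1 (hr1 m) ((hpol _ _).trans h) hu)
        rw [polar_comm Q, polar_comm Q (rA j), hpol, hpol]
        exact hyj j (by rw [Fin.lt_def, hm]; exact hj)
      · have hz1' : Q z = 1 := (hQe z).trans hz1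
        have h1 := hne y z hy1 hz1' ((hpol _ _).trans hyz)
        have h2 := hne z (rA m) hz1' (hr1 m) ((hpol _ _).trans hzm)
        refine lift _ (mul_mem (hX _ h2) (hX _ h1)) (fun j hj => ?_) ?_
        · have hj' : j < m := by rw [Fin.lt_def, hm]; exact hj
          rw [act, coe_mul_mv]
          show act Q _ (act Q _ _) = _
          rw [fixr y z (rA j) (by rw [polar_comm Q, polar_comm Q (rA j), hpol, hpol, hyj j hj', hzj j hj']) h1,
            fixr z (rA m) (rA j) (by rw [polar_comm Q, polar_comm Q (rA j), hpol, hpol, hzj j hj']) h2]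
        · rw [act, coe_mul_mv]
          show act Q _ (act Q _ _) = _
          rw [step y z hy1 hz1' ((hpol _ _).trans hyz) h1, step z (rA m) hz1' (hr1 m) ((hpol _ _).trans hzm) h2]
  obtain ⟨w, hw, hwf⟩ := main 4 le_rfl
  have hone : w * g = 1 := by
    refine ext_mv fun x => ?_
    show act Q (w * g) x = (1 : Matrix _ _ (ZMod 2)) *ᵥ x
    rw [one_mulVec]
    conv_lhs => rw [spanA x]
    conv_rhs => rw [spanA x]
    simp only [act, Matrix.mulVec_sum, Matrix.mulVec_smul]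
    exact Finset.sum_congr rfl fun i _ => congrArg _ (hwf i i.isLt)
  rw [show g = w⁻¹ from eq_inv_of_mul_eq_one_right hone]
  exact inv_mem hw

theorem certA (B : ((Fin 1 ⊕ Fin 1) ⊕ Fin 2 → ZMod 2) → ((Fin 1 ⊕ Fin 1) ⊕ Fin 2 → ZMod 2) → ZMod 2) (hB : ∀ x y, polA x y = B x y) :
    ∀ k, (∃ i, LA k = rA i) ∨ ∃ i j, j < k ∧ LA k = LA j + B (LA j) (rA i) • rA i := by
  intro k
  rcases hLA k with ⟨-, i, -, h⟩ | ⟨h1, h2⟩
  · exact Or.inl ⟨i, h⟩
  · exact Or.inr ⟨ciA k, cjA k, h1, by rw [← hB]; exact h2⟩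

theorem certE6 (B : ((Fin 2 ⊕ Fin 2) ⊕ Fin 2 → ZMod 2) → ((Fin 2 ⊕ Fin 2) ⊕ Fin 2 → ZMod 2) → ZMod 2) (hB : ∀ x y, polE6 x y = B x y) :
    ∀ k, (∃ i, LE6 k = rE6 i) ∨ ∃ i j, j < k ∧ LE6 k = LE6 j + B (LE6 j) (rE6 i) • rE6 i := by
  intro k
  rcases hLE6 k with ⟨-, i, -, h⟩ | ⟨h1, h2⟩
  · exact Or.inl ⟨i, h⟩
  · exact Or.inr ⟨ciE6 k, cjE6 k, h1, by rw [← hB]; exact h2⟩

theorem certE8 (B : (Fin 4 ⊕ Fin 4 → ZMod 2) → (Fin 4 ⊕ Fin 4 → ZMod 2) → ZMod 2) (hB : ∀ x y, polE8 x y = B x y) :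
    ∀ k, (∃ i, LE8 k = rE8 i) ∨ ∃ i j, j < k ∧ LE8 k = LE8 j + B (LE8 j) (rE8 i) • rE8 i := by
  intro k
  rcases hLE8 k with ⟨-, i, -, h⟩ | ⟨h1, h2⟩
  · exact Or.inl ⟨i, h⟩
  · exact Or.inr ⟨ciE8 k, cjE8 k, h1, by rw [← hB]; exact h2⟩


/-- Vanishing of first cohomology on the natural module for three small orthogonal groups over the field with two elements: for the commutator subgroup of the isometry group of the elliptic quadratic form in dimension 4, of the elliptic form in dimension 6, and of the hyperbolic form in dimension 8, every crossed homomorphism into the natural module (a map f with f(gh) = f(g) + g·f(h)) is principal (of the form g ↦ g·v − v). -/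
theorem result : (∀ f : ↥(Cfsg.Omega (ZMod 2) (Cfsg.quadFormMinus 1 (ZMod 2) 1 1)) → ((Fin 1 ⊕ Fin 1) ⊕ Fin 2 → ZMod 2), (∀ g h : ↥(Cfsg.Omega (ZMod 2) (Cfsg.quadFormMinus 1 (ZMod 2) 1 1)), f (g * h) = f g + Matrix.mulVec (((g : ↥(Cfsg.isometryGroup (ZMod 2) (Cfsg.quadFormMinus 1 (ZMod 2) 1 1))) : GL ((Fin 1 ⊕ Fin 1) ⊕ Fin 2) (ZMod 2)) : Matrix ((Fin 1 ⊕ Fin 1) ⊕ Fin 2) ((Fin 1 ⊕ Fin 1) ⊕ Fin 2) (ZMod 2)) (f h)) → ∃ v : (Fin 1 ⊕ Fin 1) ⊕ Fin 2 → ZMod 2, ∀ g : ↥(Cfsg.Omega (ZMod 2) (Cfsg.quadFormMinus 1 (ZMod 2) 1 1)), f g = Matrix.mulVec (((g : ↥(Cfsg.isometryGroup (ZMod 2) (Cfsg.quadFormMinus 1 (ZMod 2) 1 1))) : GL ((Fin 1 ⊕ Fin 1) ⊕ Fin 2) (ZMod 2)) : Matrix ((Fin 1 ⊕ Fin 1) ⊕ Fin 2) ((Fin 1 ⊕ Fin 1) ⊕ Fin 2) (ZMod 2)) v - v) ∧ (∀ f : ↥(Cfsg.Omega (ZMod 2) (Cfsg.quadFormMinus 2 (ZMod 2) 1 1)) → ((Fin 2 ⊕ Fin 2) ⊕ Fin 2 → ZMod 2), (∀ g h : ↥(Cfsg.Omega (ZMod 2) (Cfsg.quadFormMinus 2 (ZMod 2) 1 1)), f (g * h)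 = f g + Matrix.mulVec (((g : ↥(Cfsg.isometryGroup (ZMod 2) (Cfsg.quadFormMinus 2 (ZMod 2) 1 1))) : GL ((Fin 2 ⊕ Fin 2) ⊕ Fin 2) (ZMod 2)) : Matrix ((Fin 2 ⊕ Fin 2) ⊕ Fin 2) ((Fin 2 ⊕ Fin 2) ⊕ Fin 2) (ZMod 2)) (f h)) → ∃ v : (Fin 2 ⊕ Fin 2) ⊕ Fin 2 → ZMod 2, ∀ g : ↥(Cfsg.Omega (ZMod 2) (Cfsg.quadFormMinus 2 (ZMod 2) 1 1)), f g = Matrix.mulVec (((g : ↥(Cfsg.isometryGroup (ZMod 2) (Cfsg.quadFormMinus 2 (ZMod 2) 1 1))) : GL ((Fin 2 ⊕ Fin 2) ⊕ Fin 2) (ZMod 2)) : Matrix ((Fin 2 ⊕ Fin 2) ⊕ Fin 2) ((Fin 2 ⊕ Fin 2) ⊕ Fin 2) (ZMod 2)) v - v) ∧ (∀ f : ↥(Cfsg.Omega (ZMod 2) (Cfsg.quadFormPlus 4 (ZMod 2))) → (Fin 4 ⊕ Fin 4 → ZMod 2), (∀ g h : ↥(Cfsg.Omega (ZMod 2) (Cfsg.quadFormPlus 4 (ZMod 2))), f (g * h) = f g + Matrix.mulVec (((g : ↥(Cfsg.isometryGroup (ZMod 2) (Cfsg.quadFormPlus 4 (ZMod 2)))) : GL (Fin 4 ⊕ Fin 4) (ZMod 2)) : Matrix (Fin 4 ⊕ Fin 4) (Fin 4 ⊕ Fin 4) (ZMod 2)) (f h)) → ∃ v : Fin 4 ⊕ Fin 4 → ZMod 2, ∀ g :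 ↥(Cfsg.Omega (ZMod 2) (Cfsg.quadFormPlus 4 (ZMod 2))), f g = Matrix.mulVec (((g : ↥(Cfsg.isometryGroup (ZMod 2) (Cfsg.quadFormPlus 4 (ZMod 2)))) : GL (Fin 4 ⊕ Fin 4) (ZMod 2)) : Matrix (Fin 4 ⊕ Fin 4) (Fin 4 ⊕ Fin 4) (ZMod 2)) v - v) := by
  have hab : ∀ z₁ z₂ : ZMod 2, z₁ ^ 2 + 1 * z₁ * z₂ + 1 * z₂ ^ 2 = 0 → z₁ = 0 ∧ z₂ = 0 := by decide
  haveI : Fact (Nat.Prime 2) := ⟨Nat.prime_two⟩
  refine ⟨?_, ?_, ?_⟩
  · have hcoe := CfsgLib.Forms.coe_quadMinus (F := ZMod 2) 1 1 1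
    have hQ := CfsgLib.Forms.nondegenerate_quadMinus (F := ZMod 2) 1 hab
    rw [← hcoe]
    have hpol : ∀ x y, polA x y = polar (⇑(quadMinus (ZMod 2) 1 1 1)) x y := fun x y => by rw [hcoe]; rfl
    refine principal _ rA (fun i => by rw [hcoe]; exact hrA i) pA hpA (fun a b h => by rw [← hpol]; exact hgramA a b h)
      dA (fun i j => by rw [← hpol]; exact hdA i j) 1 (by decide) (by decide) ?_
    refine topA _ rA hQ _ ?_ (fun x y => (hpol x y).symm)
    exact fun u hu => all_refl _ rA _ _ LA (certA (polar _) hpol) (fun u hu => hcoverA u (by rwa [← hcoe])) u hu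
  · have hcoe := CfsgLib.Forms.coe_quadMinus (F := ZMod 2) 2 1 1
    have hQ := CfsgLib.Forms.nondegenerate_quadMinus (F := ZMod 2) 2 hab
    rw [← hcoe]
    have hpol : ∀ x y, polE6 x y = polar (⇑(quadMinus (ZMod 2) 2 1 1)) x y := fun x y => by rw [hcoe]; rfl
    refine principal _ rE6 (fun i => by rw [hcoe]; exact hrE6 i) pE6 hpE6 (fun a b h => by rw [← hpol]; exact hgramE6 a b h)
      dE6 (fun i j => by rw [← hpol]; exact hdE6 i j) 1 (by decide) (by decide) ?_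
    refine top_of_refl _ hQ (Or.inr (by simp)) _ ?_
    exact fun u hu => all_refl _ rE6 _ _ LE6 (certE6 (polar _) hpol) (fun u hu => hcoverE6 u (by rwa [← hcoe])) u hu
  · have hcoe := CfsgLib.Forms.coe_quadPlus (F := ZMod 2) 4
    have hQ := CfsgLib.Forms.nondegenerate_quadPlus (F := ZMod 2) 4
    rw [← hcoe]
    have hpol : ∀ x y, polE8 x y = polar (⇑(quadPlus (ZMod 2) 4)) x y := fun x y => by rw [hcoe]; rfl
    refine principal _ rE8 (fun i => by rw [hcoe]; exact hrE8 i) pE8 hpE8 (fun a b h => by rw [← hpol]; exact hgramE8 a b h)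
      dE8 (fun i j => by rw [← hpol]; exact hdE8 i j) 1 (by decide) (by decide) ?_
    refine top_of_refl _ hQ (Or.inr (by simp)) _ ?_
    exact fun u hu => all_refl _ rE8 _ _ LE8 (certE8 (polar _) hpol) (fun u hu => hcoverE8 u (by rwa [← hcoe])) u hu

end Cfsg.Agent.S5405
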