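import Cfsg.Statements.S5407
import Cfsg.Agent.MonsterPlus.Fusion
-- import your own Cfsg.Agent.* helpers here

set_option autoImplicit false
open Cfsg

namespace Cfsg.Agent.S5407

/-- Let G be a finite group of Monster type at the involution z with Q the extraspecial normal subgroup of order 2^25 of C = C_G(z) (so C/Q is identified with the first Conway group with Q modulo its centre the Leech lattice modulo 2, and z is not weakly closed in Q). Then under any such identification ψ of the Leech lattice modulo 2 with Q modulo its centre, an element x of Q is a conjugate of z other than z exactly when x modulo the centre is the image under ψ of a lattice vector of squared length 64 in the coordinates used here, that is, of norm 8 in the customary normalisation in which the minimal vectors have norm 4 (twice the minimal norm). -/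
theorem result {G : Type*} [Group G] [Finite G] (z : G) (Q : Subgroup (Subgroup.centralizer ({z} : Set G))) [Q.Normal] (hM : Cfsg.IsOfMonsterType z Q) (e : (Subgroup.centralizer ({z} : Set G)) ⧸ Q ≃* Cfsg.Spor.Co1) (ψ : Cfsg.leechLattice → Q ⧸ Subgroup.center Q) (hψ : Cfsg.IsLeechModTwoIso Q e ψ) (x : Q) : (IsConj z ((x : Subgroup.centralizer ({z} : Set G)) : G) ∧ ((x : Subgroup.centralizer ({z} : Set G)) : G) ≠ z) ↔ ∃ v : Cfsg.leechLattice, Cfsg.sqNorm (v : Cfsg.GolayPt → ℤ) = 64 ∧ ψ v = QuotientGroup.mk x := by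
  have hS := hM.1
  constructor
  · rintro ⟨hc, hne⟩
    obtain ⟨q, v, hq, -, hv, hvq⟩ := CfsgLib.MonsterPlus.conj_rep hS hψ
      (s := ((x : Subgroup.centralizer ({z} : Set G)) : G)) ⟨x.1, x.2, rfl⟩ hc hne
    have hqx : q = x := Subtype.ext (Subtype.ext hq)
    exact ⟨v, hv, hqx ▸ hvq⟩
  · rintro ⟨v, hv, hvx⟩
    have hx1 : (QuotientGroup.mk x : Q ⧸ Subgroup.center Q) ≠ 1 := by
      rw [← hvx]
      intro h
      obtain ⟨w, hw⟩ := (hψ.2.2.1 v).1 h
      have h4 : Cfsg.sqNorm (v : Cfsg.GolayPt → ℤ) = 4 * Cfsg.sqNorm (w : Cfsg.GolayPt → ℤ) := by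
        rw [hw]
        simp only [Cfsg.sqNorm, AddSubgroup.coe_add, Pi.add_apply, Finset.mul_sum]
        exact Finset.sum_congr rfl fun i _ => by ring
      by_cases h0 : (w : Cfsg.GolayPt → ℤ) = 0
      · rw [h0] at h4; simp [Cfsg.sqNorm] at h4; simp [Cfsg.sqNorm] at hv; omega
      · have := CfsgLib.Leech.sqNorm_min w.2 h0
        omega
    obtain ⟨g, hgQ, hgz⟩ := hS.2.2.2.2
    obtain ⟨u, y, hu, -, hy, huy⟩ := CfsgLib.MonsterPlus.conj_rep hS hψ (CfsgLib.MonsterPlus.mem_amb.2 hgQ)
      (isConj_iff.2 ⟨g, rfl⟩) hgz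
    obtain ⟨c, -, hc⟩ := CfsgLib.MonsterPlus.conj_amb_of_same_type hS hψ huy hvx hx1 (Or.inr hy) (hy.trans hv.symm)
    refine ⟨IsConj.trans (isConj_iff.2 ⟨g, rfl⟩ : IsConj z (g * z * g⁻¹)) (isConj_iff.2 ⟨c, by rw [← hu]; exact hc⟩), ?_⟩
    exact fun h => hx1 ((CfsgLib.MonsterPlus.mk_eq_one_iff hS x).2 (Or.inr h))

end Cfsg.Agent.S5407
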