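import Cfsg.Statements.S5408
import Cfsg.Agent.MonsterPlus.Lattice
import Cfsg.Agent.Golay.M24
-- import your own Cfsg.Agent.* helpers here

set_option autoImplicit false
open Cfsg

namespace Cfsg.Agent.S5408

open CfsgLib.MonsterPlus CfsgLib.Leech

theorem inj3 {α : Type*} {a b c : α} (hab : a ≠ b) (hac : a ≠ c) (hbc : b ≠ c) : Function.Injective ![a, b, c] := by
  intro s t hst
  fin_cases s <;> fin_cases t <;> simp at hst ⊢
  all_goals first | exact hab hst | exact hac hst | exact hbc hst | exact hab hst.symm | exact hac hst.symm | exact hbc hst.symm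

/-- An element of a centre of order two is fixed by every automorphism and has square one. -/
theorem center_two {K : Type*} [Group K] (h : Nat.card (Subgroup.center K) = 2) {a : K} (ha : a ∈ Subgroup.center K) :
    a * a = 1 ∧ ∀ α : MulAut K, α a = a := by
  have h2 : ∀ b ∈ Subgroup.center K, b * b = 1 := fun b hb => by
    have := pow_card_eq_one' (x := (⟨b, hb⟩ : Subgroup.center K))
    rw [h, pow_two] at this
    exact congrArg Subtype.val this
  refine ⟨h2 a ha, fun α => ?_⟩
  rcases eq_or_ne a 1 with rfl | hne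
  · exact map_one α
  have hmem : α a ∈ Subgroup.center K := Subgroup.mem_center_iff.2 fun g => by
    obtain ⟨g', rfl⟩ := α.surjective g
    rw [← map_mul, ← map_mul, Subgroup.mem_center_iff.1 ha g']
  obtain ⟨u, v, huv, he⟩ := Nat.card_eq_two_iff.1 h
  have key : ∀ x : Subgroup.center K, x = u ∨ x = v := fun x => by
    have : x ∈ ({u, v} : Set _) := he ▸ Set.mem_univ x
    simpa using this
  have h1 : (⟨α a, hmem⟩ : Subgroup.center K) ≠ 1 := fun e => hne (α.injective ((congrArg Subtype.val e).trans (map_one α).symm))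
  have h3 : (⟨a, ha⟩ : Subgroup.center K) ≠ 1 := fun e => hne (congrArg Subtype.val e)
  rcases key ⟨α a, hmem⟩ with e1 | e1 <;> rcases key ⟨a, ha⟩ with e2 | e2 <;> rcases key 1 with e3 | e3
  all_goals first
    | exact congrArg Subtype.val (e1.trans e2.symm)
    | exact absurd (e1.trans e3.symm) h1
    | exact absurd (e2.trans e3.symm) h3


/-- Let G be a finite group of Monster type at the involution z with Q the extraspecial normal subgroup of order 2^25 of C = C_G(z) (so C/Q is identified with the first Conway group with Q modulo its centre the Leech lattice modulo 2, and z is not weakly closed in Q). Then Q is of plus type: it contains an elementary abelian subgroup of order 2^13. -/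
theorem result {G : Type*} [Group G] [Finite G] (z : G) (Q : Subgroup (Subgroup.centralizer ({z} : Set G))) [Q.Normal] (hM : Cfsg.IsOfMonsterType z Q) : ∃ E : Subgroup Q, Cfsg.IsElementaryAbelian 2 E ∧ Nat.card E = 2 ^ 13 := by
  classical
  obtain ⟨⟨-, -, ⟨-, hZ⟩, hcard, -⟩, e, ψ, hadd, hsurj, hker, heq⟩ := hM
  let Z := Subgroup.center Q
  have cz := fun {a : Q} (ha : a ∈ Z) => center_two hZ ha
  let μ : Q →* Q ⧸ Z := QuotientGroup.mk' Z
  have h0 : ψ 0 = 1 := (hker 0).2 ⟨0, (add_zero 0).symm⟩
  have hdbl : ∀ v, ψ v * ψ v = 1 := fun v => by rw [← hadd]; exact (hker _).2 ⟨v, rfl⟩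
  have hcz : ∀ a b, μ a = μ b → ∃ c ∈ Z, b = a * c := fun a b h => by
    obtain ⟨c, hc, h'⟩ := (QuotientGroup.mk'_eq_mk' Z).1 h
    exact ⟨c, hc, h'.symm⟩
  have hcomm : ∀ a b : Q, ∃ ε ∈ Z, a * b = ε * (b * a) := fun a b => by
    obtain ⟨v, hv⟩ := hsurj (μ a)
    obtain ⟨w, hw⟩ := hsurj (μ b)
    obtain ⟨c, hc, h⟩ := hcz (b * a) (a * b) (by rw [map_mul, map_mul, ← hv, ← hw, ← hadd, ← hadd, add_comm])
    exact ⟨c, hc, h.trans (Subgroup.mem_center_iff.1 hc (b * a))⟩
  have hsqZ : ∀ a : Q, a * a ∈ Z := fun a => by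
    obtain ⟨v, hv⟩ := hsurj (μ a)
    rw [← QuotientGroup.eq_one_iff]
    show μ (a * a) = 1
    rw [map_mul, ← hv, hdbl]
  have sq_congr : ∀ a b, μ a = μ b → b * b = a * a := fun a b h => by
    obtain ⟨c, hc, rfl⟩ := hcz a b h
    have hcm : Commute c a := (Subgroup.mem_center_iff.1 hc a).symm
    rw [mul_assoc a c, ← mul_assoc c a, hcm.eq, mul_assoc a c, (cz hc).1, mul_one]
  have cm_congr : ∀ a b a', μ a = μ a' → Commute a b → Commute a' b := fun a b a' h hab => by
    obtain ⟨c, hc, rfl⟩ := hcz a a' h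
    exact hab.mul_left (Subgroup.mem_center_iff.1 hc b).symm
  -- a lift of a lattice vector
  have hL : ∀ v : leechLattice, ∃ q : Q, μ q = ψ v := fun v => QuotientGroup.mk'_surjective Z (ψ v)
  choose L hL using hL
  -- conjugation
  have hconj : ∀ g : Co0, ∃ α : MulAut Q, ∀ v, μ (α (L v)) = ψ (g.1 v) := by
    intro g
    obtain ⟨h, hh⟩ := QuotientGroup.mk_surjective (e.symm (QuotientGroup.mk g))
    refine ⟨MulAut.conjNormal h, fun v => ?_⟩
    have := heq h g (by rw [hh, MulEquiv.apply_symm_apply]) v (L v) (hL v).symm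
    exact this.symm.trans rfl
  have hsq : ∀ (g : Co0) v, L (g.1 v) * L (g.1 v) = L v * L v := fun g v => by
    obtain ⟨α, hα⟩ := hconj g
    rw [sq_congr (α (L v)) (L (g.1 v)) ((hα v).trans (hL _).symm), ← map_mul, (cz (hsqZ _)).2]
  have hcm : ∀ (g : Co0) v w, Commute (L v) (L w) → Commute (L (g.1 v)) (L (g.1 w)) := fun g v w h => by
    obtain ⟨α, hα⟩ := hconj g
    exact (cm_congr _ _ _ ((hα w).trans (hL _).symm) (cm_congr _ _ _ ((hα v).trans (hL _).symm) (h.map α)).symm).symm
  have hperm : ∀ x y z i j k : GolayPt, x ≠ y → x ≠ z → y ≠ z → i ≠ j → i ≠ k → j ≠ k →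
      ∃ g : Co0, g.1 (P x y) = P i j ∧ g.1 (P y z) = P j k ∧ g.1 (P x z) = P i k := by
    intro x y z i j k h1 h2 h3 h4 h5 h6
    obtain ⟨σ, hσ, hv⟩ := CfsgLib.Golay.exists_map_tuple (n := 3) (by norm_num) ![x, y, z] ![i, j, k]
      (inj3 h1 h2 h3) (inj3 h4 h5 h6)
    have e0 : σ x = i := hv 0
    have e1 : σ y = j := hv 1
    have e2 : σ z = k := hv 2
    exact ⟨mono hσ empty_mem, by rw [perm_P, e0, e1], by rw [perm_P, e1, e2], by rw [perm_P, e0, e2]⟩
  have hab : pa ≠ pb := by decide
  have hac : pa ≠ pc := by decide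
  have hbc : pb ≠ pc := by decide
  -- the basic triple
  have htri0 : Commute (L (P pa pb)) (L (P pb pc)) := by
    obtain ⟨α, hα⟩ := hconj gX
    set x := L (P pa pb) with hx
    set y := L v1
    have hxa : μ x = μ (α x) := by rw [hα, gX_u, hx, hL]
    obtain ⟨ε, hε, he1⟩ := hcomm x y
    obtain ⟨c, hc, hxc⟩ := hcz x (α x) hxa
    have hc' : ∀ q, q * c = c * q := fun q => Subgroup.mem_center_iff.1 hc q
    have he2 : x * α y = ε * (α y * x) := by
      have h := congrArg α he1
      rw [map_mul, map_mul, map_mul, (cz hε).2, hxc, mul_assoc, ← hc', ← mul_assoc, ← mul_assoc (α y) x c,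
        ← mul_assoc ε] at h
      exact mul_right_cancel h
    have hε' : ∀ q, q * ε = ε * q := fun q => Subgroup.mem_center_iff.1 hε q
    have hcomm2 : Commute x (α y * y) := by
      show x * (α y * y) = α y * y * x
      calc x * (α y * y) = ε * (α y * x) * y := by rw [← mul_assoc, he2]
        _ = ε * α y * (x * y) := by group
        _ = ε * α y * ε * (y * x) := by rw [he1]; group
        _ = ε * ε * (α y * y * x) := by rw [mul_assoc ε (α y) ε, hε' (α y)]; group
        _ = α y * y * x := by rw [(cz hε).1, one_mul]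
    refine (cm_congr _ _ _ ?_ hcomm2.symm).symm
    rw [map_mul, hα, hL, hL, ← hadd, gX_v1]
  have htri : ∀ i j k, i ≠ j → i ≠ k → j ≠ k → Commute (L (P i j)) (L (P j k)) := by
    intro i j k h1 h2 h3
    obtain ⟨g, e1, e2, -⟩ := hperm pa pb pc i j k hab hac hbc h1 h2 h3
    rw [← e1, ← e2]
    exact hcm g _ _ htri0
  have hex : ∀ i j : GolayPt, ∃ k, i ≠ k ∧ j ≠ k := fun i j => by
    revert i j
    decide
  have hshare : ∀ i j k, i ≠ j → j ≠ k → Commute (L (P i j)) (L (P j k)) := by
    intro i j k h1 h3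
    rcases eq_or_ne i k with rfl | h2
    · rw [P_comm j i]
    · exact htri i j k h1 h2 h3
  -- lift of a diagonal vector
  have hdiag : ∀ i j k, i ≠ j → i ≠ k → j ≠ k →
      μ (L (P i j) * L (P j k) * L (P i k)) = μ (L (P j j)) := by
    intro i j k _ _ _
    rw [map_mul, map_mul, hL, hL, hL, hL, ← hadd, P_add, hadd, mul_assoc]
    have : ψ (P j j) * ψ (P i k) = ψ (P i k) * ψ (P j j) := by rw [← hadd, ← hadd, add_comm]
    rw [this, ← mul_assoc, hdbl, one_mul]
  have hsame : ∀ i j, i ≠ j → L (P i j) * L (P i j) = L (P pa pb) * L (P pa pb) := by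
    intro i j hij
    obtain ⟨k, h1, h2⟩ := hex i j
    obtain ⟨g, e1, -, -⟩ := hperm pa pb pc i j k hab hac hbc hij h1 h2
    rw [← e1, hsq]
  have hone : L (P pa pb) * L (P pa pb) = 1 := by
    set a0 := L (P pa pb) * L (P pa pb) with ha0
    set x := L (P pa pb)
    set y := L (P pa pc)
    set w := L (P pb pc)
    have c1 : Commute x y := by rw [show x = L (P pb pa) by rw [P_comm pb pa]]; exact hshare pb pa pc hab.symm hac
    have c2 : Commute x w := hshare pa pb pc hab hbc
    have c3 : Commute y w := by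
      have := hshare pa pc pb hac hbc.symm
      rwa [P_comm pc pb] at this
    have hy : y * y = a0 := hsame pa pc hac
    have hw : w * w = a0 := hsame pb pc hbc
    have hxc : Commute x (x * y * w) := (((Commute.refl x).mul_right c1).mul_right c2)
    have ht : x * y * w * (x * y * w) = a0 := by
      have e1 : x * y * w * (x * y * w) = x * x * (y * y) * (w * w) := by
        rw [(c2.symm.mul_right (c3.symm)).mul_mul_mul_comm, c1.symm.mul_mul_mul_comm]
      rw [e1, hy, hw, ← ha0, (cz (hsqZ x)).1, one_mul]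
    -- the vector obtained by a sign change
    have hd : μ (x * (x * y * w)) = μ (L (gO.1 (P pa pb))) := by
      have e2 : μ (x * y * w) = μ (L (P pa pa)) := by
        have := hdiag pb pa pc hab.symm hbc hac
        rwa [P_comm pb pa] at this
      rw [map_mul, e2, hL, hL, hL, ← gO_u, ← hadd, add_left_comm, hadd, hadd, hdbl, mul_one]
    have h1 := sq_congr _ _ hd
    rw [hsq, ← ha0, hxc.symm.mul_mul_mul_comm, ← ha0, ht] at h1
    exact h1.trans (cz (hsqZ x)).1
  have hpair : ∀ i j k l, i ≠ j → k ≠ l → Commute (L (P i j)) (L (P k l)) := by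
    intro i j k l hij hkl
    rcases eq_or_ne j k with rfl | h1
    · exact hshare i j l hij hkl
    rcases eq_or_ne j l with rfl | h2
    · rw [P_comm k j]; exact hshare i j k hij hkl.symm
    rcases eq_or_ne i k with rfl | h3
    · rw [P_comm i j]; exact hshare j i l hij.symm hkl
    rcases eq_or_ne i l with rfl | h4
    · rw [P_comm i j, P_comm k i]; exact hshare j i k hij.symm hkl.symm
    have hb : μ (L (P k i) * L (P i l) * (L (P j i) * L (P i k) * L (P j k))) = μ (L (P k l)) := by
      rw [map_mul, hdiag j i k hij.symm h1 h3, map_mul, hL, hL, hL, hL, ← hadd, P_add, hadd, mul_assoc, hdbl, mul_one]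
    refine (cm_congr _ _ _ hb ?_).symm
    have a1 : Commute (L (P i j)) (L (P k i)) := by rw [P_comm i j, P_comm k i]; exact hshare j i k hij.symm h3
    have a2 : Commute (L (P i j)) (L (P i l)) := by rw [P_comm i j]; exact hshare j i l hij.symm h4
    have a3 : Commute (L (P i j)) (L (P j i)) := by rw [P_comm i j]
    have a4 : Commute (L (P i j)) (L (P i k)) := by rw [P_comm i k]; exact a1
    have a5 : Commute (L (P i j)) (L (P j k)) := hshare i j k hij h1
    exact ((a1.mul_right a2).mul_right ((a3.mul_right a4).mul_right a5)).symm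
  -- the subgroup
  let S : Set Q := {q | ∃ i j, i ≠ j ∧ q = L (P i j)} ∪ (Z : Set Q)
  let E := Subgroup.closure S
  have hS : ∀ a ∈ S, ∀ b ∈ S, Commute a b := by
    rintro a (⟨i, j, hij, rfl⟩ | ha) b (⟨k, l, hkl, rfl⟩ | hb)
    · exact hpair i j k l hij hkl
    · exact Subgroup.mem_center_iff.1 hb _
    · exact (Subgroup.mem_center_iff.1 ha _).symm
    · exact Subgroup.mem_center_iff.1 hb _
  have hEcomm : ∀ a ∈ E, ∀ b ∈ E, Commute a b := by
    intro a ha b hb
    induction ha, hb using Subgroup.closure_induction₂ with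
    | mem a b ha hb => exact hS a ha b hb
    | one_left b _ => exact Commute.one_left b
    | one_right b _ => exact Commute.one_right b
    | mul_left _ _ _ _ _ _ h1 h2 => exact h1.mul_left h2
    | mul_right _ _ _ _ _ _ h1 h2 => exact h1.mul_right h2
    | inv_left _ _ _ _ h => exact h.inv_left
    | inv_right _ _ _ _ h => exact h.inv_right
  have hEsq : ∀ a ∈ E, a * a = 1 := by
    intro a ha
    induction ha using Subgroup.closure_induction with
    | mem a ha =>
      rcases ha with ⟨i, j, hij, rfl⟩ | ha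
      · rw [hsame i j hij, hone]
      · exact (cz ha).1
    | one => exact one_mul 1
    | mul a b ha hb h1 h2 => rw [(hEcomm b hb a ha).mul_mul_mul_comm, h1, h2, one_mul]
    | inv a _ h => rw [← mul_inv_rev, h, inv_one]
  -- its order
  have hZE : Z ≤ E := fun c hc => Subgroup.subset_closure (Or.inr hc)
  have hLE : ∀ i j, L (P i j) ∈ E := by
    intro i j
    rcases eq_or_ne i j with rfl | h
    · obtain ⟨k, h1, -⟩ := hex i i
      obtain ⟨l, h2, h3⟩ := hex i k
      have hg : ∀ a b, a ≠ b → L (P a b) ∈ E := fun a b hab => Subgroup.subset_closure (Or.inl ⟨a, b, hab, rfl⟩)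
      obtain ⟨c, hc, e⟩ := hcz _ _ (hdiag k i l h1.symm h3 h2)
      rw [e]
      exact mul_mem (mul_mem (mul_mem (hg _ _ h1.symm) (hg _ _ h2)) (hg _ _ h3)) (hZE hc)
    · exact Subgroup.subset_closure (Or.inl ⟨i, j, h, rfl⟩)
  let Ψ : Multiplicative leechLattice →* Q ⧸ Z :=
    { toFun := fun v => ψ v.toAdd
      map_one' := h0
      map_mul' := fun v w => hadd _ _ }
  have hΨ : Function.Surjective Ψ := fun q => by
    obtain ⟨v, hv⟩ := hsurj q
    exact ⟨Multiplicative.ofAdd v, hv⟩
  let M : AddSubgroup leechLattice := Subgroup.toAddSubgroup' ((E.map μ).comap Ψ)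
  have hMP : ∀ i j, P i j ∈ M := fun i j => ⟨L (P i j), hLE i j, hL _⟩
  have hM2 : ∀ v, v + v ∈ M := fun v => ⟨1, one_mem E, by
    show μ 1 = ψ (v + v)
    rw [map_one, hadd, hdbl]⟩
  have hindex : (E.map μ).index ∣ 2 ^ 12 := by
    have h1 : ((E.map μ).comap Ψ).index = (E.map μ).index := Subgroup.index_comap_of_surjective _ hΨ
    have h2 : M.index = ((E.map μ).comap Ψ).index := rfl
    have h3 := half_le M hMP hM2
    have h4 := AddSubgroup.index_dvd_of_le h3
    have hS' : signs ≤ golayCode.toAddSubgroup := fun w hw => by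
      rcases mem_signs.1 hw with rfl | rfl
      · exact zero_mem _
      · exact one_mem_code
    have hk : Nat.card signs = 2 := by
      rw [← SetLike.coe_sort_coe, Nat.card_coe_set_eq,
        show (signs : Set (GolayPt → ZMod 2)) = {0, 1} from Set.ext fun w => mem_signs]
      exact Set.ncard_pair (by decide)
    have h5 := index_halves hS' hk
    rw [AddSubgroup.index_map_subtype, index_lattice] at h4
    have h6 : M.index * 2 ^ 36 * 2 ∣ 2 ^ 12 * (2 ^ 36 * 2) := by
      rw [← pow49', ← h5]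
      exact Nat.mul_dvd_mul_right h4 2
    rw [← h1, ← h2]
    rw [mul_assoc] at h6
    exact (Nat.mul_dvd_mul_iff_right (Nat.mul_pos (Nat.two_pow_pos 36) two_pos)).1 h6
  haveI : Finite Q := Nat.finite_of_card_ne_zero (by rw [hcard]; exact (Nat.two_pow_pos _).ne')
  have hcardE : 2 ^ 13 ≤ Nat.card E := by
    have hq : Nat.card (Q ⧸ Z) = 2 ^ 24 := by
      have := Subgroup.card_eq_card_quotient_mul_card_subgroup Z
      rw [hcard, hZ, show 2 * 12 + 1 = 24 + 1 from rfl, pow_succ] at this
      exact (Nat.eq_of_mul_eq_mul_right two_pos this).symm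
    have h1 := Subgroup.card_mul_index (E.map μ)
    rw [hq] at h1
    have h2 : (E.map μ).index ≤ 2 ^ 12 := Nat.le_of_dvd (Nat.two_pow_pos _) hindex
    have h3 : 2 ^ 12 ≤ Nat.card (E.map μ) := by
      by_contra hlt
      rw [not_le] at hlt
      have := Nat.mul_lt_mul_of_lt_of_le hlt h2 (Nat.two_pow_pos _)
      rw [h1, ← pow_add] at this
      exact lt_irrefl _ this
    have h4 : Nat.card (E.map μ) * Nat.card Z = Nat.card E := by
      have := Subgroup.card_mul_index (Z.subgroupOf E)
      rw [Nat.card_congr (Subgroup.subgroupOfEquivOfLe hZE).toEquiv] at this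
      rw [← this, mul_comm]
      congr 1
      let f : E →* Q ⧸ Z := μ.comp E.subtype
      have hk : f.ker = Z.subgroupOf E := by
        ext x
        simp [f, μ, Subgroup.mem_subgroupOf]
      rw [← hk, Subgroup.index_ker]
      show _ = Nat.card f.range
      rw [MonoidHom.range_comp, Subgroup.range_subtype]
    rw [← h4, hZ, show (2 : ℕ) ^ 13 = 2 ^ 12 * 2 from pow_succ 2 12]
    exact Nat.mul_le_mul_right 2 h3
  have hpE : IsPGroup 2 E := fun a => ⟨1, Subtype.ext (by simpa [pow_two] using hEsq a a.2)⟩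
  obtain ⟨n, hn⟩ := IsPGroup.iff_card.1 hpE
  obtain ⟨K, hK⟩ := Sylow.exists_subgroup_card_pow_prime (G := E) 2 (n := 13)
    (hn ▸ Nat.pow_dvd_pow 2 ((Nat.pow_le_pow_iff_right (by norm_num)).1 (hn ▸ hcardE)))
  refine ⟨K.map E.subtype, ⟨⟨⟨fun a b => ?_⟩⟩, ?_⟩, ?_⟩
  · obtain ⟨a', -, ha⟩ := a.2
    obtain ⟨b', -, hb⟩ := b.2
    refine Subtype.ext ?_
    show (a : Q) * b = b * a
    rw [← ha, ← hb]
    exact hEcomm _ a'.2 _ b'.2
  · rintro _ ⟨a, -, rfl⟩
    rw [pow_two]
    exact hEsq a a.2
  · rw [Subgroup.card_map_of_injective E.subtype_injective, hK]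

end Cfsg.Agent.S5408
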