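import Cfsg.Statements.S5420
import Cfsg.Agent.LargeEx.Basic
-- import your own Cfsg.Agent.* helpers here

set_option autoImplicit false
open Cfsg

namespace Cfsg.Agent.S5420

/-- Let Q be an extraspecial 2-subgroup of the finite group G whose centralizer in G is its centre Z and which is normal in the centralizer of Z. If Z lies in the largest normal 2-subgroup of G, then Q is a large extraspecial 2-subgroup of G: it normalizes no non-trivial subgroup of G of odd order. -/
theorem result {G : Type*} [Group G] [Finite G] (Q : Subgroup G) (hL1 : Cfsg.IsExtraspecial 2 ↥Q) (hL2 : Subgroup.centralizer (Q : Set G) = ((Subgroup.center ↥Q).map Q.subtype)) (hL3 : Subgroup.centralizer (((Subgroup.center ↥Q).map Q.subtype) : Set G) ≤ Subgroup.normalizer (Q : Set G)) (hZ : ((Subgroup.center ↥Q).map Q.subtype) ≤ Cfsg.pCore 2 G) : Cfsg.IsLargeExtraspecial Q := by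
  obtain ⟨z, e⟩ := CfsgLib.LargeEx.exists_extraData hL1
  refine ⟨hL1, hL2, hL3, fun K hK hQK => (Subgroup.eq_bot_iff_forall K).2 fun k hk => ?_⟩
  apply CfsgLib.LargeEx.inf_centralizer_eq_one e hL2 hL3 hK hQK hk
  have hzO : z ∈ Cfsg.pCore 2 G := hZ (e.mem_center_iff.2 (Or.inr rfl))
  refine CfsgLib.LargeEx.eq_of_bracket_mem hk hzO (hQK e.mem) ?_ ?_
  · rw [Subgroup.normalizer_eq_top_iff.2 (CfsgLib.LargeEx.pCore_normal 2)]
    trivial
  · exact fun x hx hx' =>
      CfsgLib.LargeEx.eq_one_of_isPGroup_two hK (CfsgLib.LargeEx.isPGroup_pCore 2) hx hx'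

end Cfsg.Agent.S5420
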