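import Cfsg.Statements.S5421
import Cfsg.Agent.LargeEx.Basic
-- import your own Cfsg.Agent.* helpers here

set_option autoImplicit false
open Cfsg

namespace Cfsg.Agent.S5421

/-- Let Q be an extraspecial 2-subgroup of the finite group G whose centralizer in G is its centre Z and which is normal in the centralizer of Z. If some involution b of Q outside Z has Z inside the largest normal 2-subgroup of the centralizer of b, then Q is a large extraspecial 2-subgroup of G. -/
theorem result {G : Type*} [Group G] [Finite G] (Q : Subgroup G) (hL1 : Cfsg.IsExtraspecial 2 ↥Q) (hL2 : Subgroup.centralizer (Q : Set G) = ((Subgroup.center ↥Q).map Q.subtype)) (hL3 : Subgroup.centralizer (((Subgroup.center ↥Q).map Q.subtype) : Set G) ≤ Subgroup.normalizer (Q : Set G)) (b : G) (hbQ : b ∈ Q) (hbZ : b ∉ ((Subgroup.center ↥Q).map Q.subtype)) (hb : orderOf b = 2) (hZ : ((Subgroup.center ↥Q).map Q.subtype) ≤ (Cfsg.pCore 2 ↥(Subgroup.centralizer ({b} : Set G))).map (Subgroup.centralizer ({b} : Set G)).subtype) : Cfsg.IsLargeExtraspecial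 Q := by
  obtain ⟨z, e⟩ := CfsgLib.LargeEx.exists_extraData hL1
  refine ⟨hL1, hL2, hL3, fun K hK hQK => ?_⟩
  refine CfsgLib.LargeEx.odd_invariant_eq_bot e hL2 hL3 hbQ ?_ ?_ ?_
    (hZ (e.mem_center_iff.2 (Or.inr rfl))) hK hQK
  · exact fun h => hbZ (e.mem_center_iff.2 (Or.inl h))
  · exact fun h => hbZ (e.mem_center_iff.2 (Or.inr h))
  · rw [← pow_two, ← hb, pow_orderOf_eq_one]

end Cfsg.Agent.S5421
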