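import Cfsg.Statements.S5425
import Cfsg.Agent.Golay.OctInvol
import Cfsg.Agent.S5422
import Cfsg.Agent.S5424
import Cfsg.Agent.SymplecticType.HallStructure
import Cfsg.Agent.PCore.Basic

set_option autoImplicit false
open Cfsg

namespace Cfsg.Agent.S5425

/-- In the Mathieu group of degree 24 (the automorphism group of the length-24 binary Golay code, acting on the 24 coordinates), let z be an involution whose fixed points form an octad (the support of a code word of weight 8), and let Q be the largest normal 2-subgroup of the centralizer C of z. Then Q is extraspecial of order 2^7 with an elementary abelian subgroup of order 16 (plus type), Q is a large extraspecial 2-subgroup, and C is the split extension of Q by the special linear group of degree 3 over the field with two elements. -/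
theorem result (z : ↥Cfsg.M24) (hz : orderOf z = 2) (hfix : (Finset.univ.filter fun p : Cfsg.GolayPt => (z : Equiv.Perm Cfsg.GolayPt) p = p) ∈ Cfsg.octads) (Q : Subgroup ↥Cfsg.M24) (hQ : Q = (Cfsg.pCore 2 ↥(Subgroup.centralizer ({z} : Set ↥Cfsg.M24))).map (Subgroup.centralizer ({z} : Set ↥Cfsg.M24)).subtype) : Cfsg.IsExtraspecial 2 ↥Q ∧ Nat.card ↥Q = 2 ^ 7 ∧ (∃ E : Subgroup ↥Cfsg.M24, E ≤ Q ∧ Cfsg.IsElementaryAbelian 2 E ∧ Nat.card ↥E = 2 ^ 4) ∧ Cfsg.IsLargeExtraspecial Q ∧ ∃ K : Subgroup ↥Cfsg.M24, K ≤ Subgroup.centralizer ({z} : Set ↥Cfsg.M24) ∧ Q ⊓ K = ⊥ ∧ Q ⊔ K = Subgroup.centralizer ({z} : Set ↥Cfsg.M24) ∧ Nonempty (↥K ≃* Matrix.SpecialLinearGroup (Fin 3) (ZMod 2)) := by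
  classical
  haveI : Fact (Nat.Prime 2) := ⟨Nat.prime_two⟩
  obtain ⟨G, zG, f, hzG, hf, hr, hfz, hCG⟩ := CfsgLib.Golay.OctInvol.exists_matrix_rep z hz hfix
  obtain ⟨hQc, hEx, hcard, ⟨E, hEQ, hE2, hEc⟩, hCQ, hN, hcen, K, hKC, hQK, hQK', ⟨eK⟩⟩ :=
    CfsgLib.Heisenberg.transfer (by norm_num) f hf hr hfz _ rfl
  set CG := Subgroup.centralizer ({zG} : Set G) with hCGdef
  set C := Subgroup.centralizer ({z} : Set Cfsg.M24) with hC
  set QG := (Cfsg.pCore 2 ↥CG).map CG.subtype with hQG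
  have hmemC : ∀ x : G, (x : Cfsg.M24) ∈ C ↔ x ∈ CG := by
    intro x
    rw [hC, hCGdef, Subgroup.mem_centralizer_singleton_iff, Subgroup.mem_centralizer_singleton_iff, ← hzG,
      ← Subgroup.coe_mul, ← Subgroup.coe_mul, Subtype.coe_inj]
  have hmapC : CG.map G.subtype = C := by
    ext x
    constructor
    · rintro ⟨y, hy, rfl⟩; exact (hmemC y).2 hy
    · exact fun hx => ⟨⟨x, hCG hx⟩, (hmemC ⟨x, hCG hx⟩).1 hx, rfl⟩
  have hQmap : Q = QG.map G.subtype := by
    rw [hQ, hQG, Subgroup.map_map]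
    let χ : ↥CG ≃* ↥C := (CG.equivMapOfInjective G.subtype G.subtype_injective).trans (MulEquiv.subgroupCongr hmapC)
    rw [← CfsgLib.PCore.map_pCore_equiv χ, Subgroup.map_map]
    rfl
  have hQle : QG ≤ CG := Subgroup.map_subtype_le _
  let eQ : ↥QG ≃* ↥Q := (QG.equivMapOfInjective G.subtype G.subtype_injective).trans (MulEquiv.subgroupCongr hQmap.symm)
  have hExQ : Cfsg.IsExtraspecial 2 ↥Q := CfsgLib.SymplecticHall.isExtraspecial_congr eQ hEx
  have hcardQ : Nat.card ↥Q = 2 ^ 7 := by rw [← Nat.card_congr eQ.toEquiv, hcard]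
  have hcenQ : (Subgroup.center ↥Q).map Q.subtype = Subgroup.zpowers z := by
    rw [show Subgroup.center ↥Q = (Subgroup.center ↥QG).map eQ.toMonoidHom from ?_, Subgroup.map_map,
      show Q.subtype.comp eQ.toMonoidHom = G.subtype.comp QG.subtype from rfl, ← Subgroup.map_map, hcen,
      MonoidHom.map_zpowers]
    · rw [show G.subtype zG = z from hzG]
    · ext y
      obtain ⟨x, rfl⟩ := eQ.surjective y
      simp only [Subgroup.mem_map, MulEquiv.coe_toMonoidHom, Subgroup.mem_center_iff]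
      constructor
      · exact fun h => ⟨x, fun w => eQ.injective (by rw [map_mul, map_mul]; exact h (eQ w)), rfl⟩
      · rintro ⟨x', hx', e⟩ w
        obtain ⟨w, rfl⟩ := eQ.surjective w
        rw [← map_mul, ← map_mul, ← eQ.injective e, hx' w]
  have hzQ : z ∈ Q := by
    have : z ∈ (Subgroup.center ↥Q).map Q.subtype := hcenQ ▸ Subgroup.mem_zpowers z
    exact Subgroup.map_subtype_le _ this
  have hL2 : Subgroup.centralizer (Q : Set Cfsg.M24) = (Subgroup.center ↥Q).map Q.subtype := by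
    refine le_antisymm (fun c hc => ?_) ?_
    · have hcC : c ∈ C := by
        rw [hC, Subgroup.mem_centralizer_singleton_iff]
        exact (Subgroup.mem_centralizer_iff.1 hc z hzQ).symm
      have hc' : (⟨c, hCG hcC⟩ : G) ∈ Subgroup.centralizer (QG : Set G) := Subgroup.mem_centralizer_iff.2
        fun x hx => Subtype.ext (Subgroup.mem_centralizer_iff.1 hc x.1 (hQmap ▸ ⟨x, hx, rfl⟩))
      rw [hCQ, hcen] at hc'
      rw [hcenQ, ← hzG, ← show G.subtype zG = (zG : Cfsg.M24) from rfl, ← MonoidHom.map_zpowers]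
      exact ⟨_, hc', rfl⟩
    · rintro _ ⟨c, hc, rfl⟩
      refine Subgroup.mem_centralizer_iff.2 fun x hx => ?_
      exact congrArg Subtype.val (Subgroup.mem_center_iff.1 hc ⟨x, hx⟩)
  have hL3 : Subgroup.centralizer (((Subgroup.center ↥Q).map Q.subtype) : Set Cfsg.M24) ≤
      Subgroup.normalizer (Q : Set Cfsg.M24) := by
    intro c hc
    have hcC : c ∈ C := by
      rw [hC, Subgroup.mem_centralizer_singleton_iff]
      exact (Subgroup.mem_centralizer_iff.1 hc z (hcenQ ▸ Subgroup.mem_zpowers z)).symm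
    have hc' : (⟨c, hCG hcC⟩ : G) ∈ Subgroup.centralizer (((Subgroup.center ↥QG).map QG.subtype) : Set G) := by
      rw [hcen]
      refine Subgroup.mem_centralizer_iff.2 fun x hx => ?_
      obtain ⟨i, rfl⟩ := Subgroup.mem_zpowers_iff.1 hx
      exact (Commute.zpow_left ((Subgroup.mem_centralizer_singleton_iff.1 ((hmemC ⟨c, hCG hcC⟩).1 hcC)).symm) i).eq
    have h := Subgroup.mem_normalizer_iff_map_conj_eq.1 (hN hc')
    rw [Subgroup.mem_normalizer_iff_map_conj_eq]
    show Q.map (MulAut.conj c).toMonoidHom = Q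
    rw [hQmap, Subgroup.map_map,
      show (MulAut.conj c).toMonoidHom.comp G.subtype = G.subtype.comp (MulAut.conj (⟨c, hCG hcC⟩ : G)).toMonoidHom from rfl,
      ← Subgroup.map_map]
    exact congrArg _ h
  obtain ⟨g, hgQ, hgn⟩ := CfsgLib.Golay.OctInvol.exists_conj_in_core z hz hfix
  rw [← hC, ← hQ] at hgQ
  have hgN : g ∉ Subgroup.normalizer (((Subgroup.center ↥Q).map Q.subtype) : Set Cfsg.M24) := by
    intro hg
    rw [hcenQ] at hg
    exact hgn ((Subgroup.mem_normalizer_iff.1 hg z).1 (Subgroup.mem_zpowers z))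
  have hgZ : ((Subgroup.center ↥Q).map Q.subtype).map (MulAut.conj g).toMonoidHom ≤ Q := by
    rw [hcenQ, MonoidHom.map_zpowers, Subgroup.zpowers_le]
    simpa using hgQ
  refine ⟨hExQ, hcardQ, ⟨E.map G.subtype, hQmap ▸ Subgroup.map_mono hEQ, ⟨?_, ?_⟩, ?_⟩,
    (Cfsg.Agent.S5422.result Q hExQ hL2 hL3 3 (by norm_num) hcardQ g hgN hgZ).2.2,
    K.map G.subtype, hmapC ▸ Subgroup.map_mono hKC, ?_, ?_, ?_⟩
  · haveI := hE2.1
    exact ⟨⟨fun a b => by
      obtain ⟨_, a', ha', rfl⟩ := a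
      obtain ⟨_, b', hb', rfl⟩ := b
      exact Subtype.ext (congrArg (fun x : E => (x.1.1 : Cfsg.M24)) (mul_comm' (⟨a', ha'⟩ : E) ⟨b', hb'⟩))⟩⟩
  · rintro _ ⟨a, ha, rfl⟩
    rw [← map_pow, hE2.2 a ha, map_one]
  · rw [← Nat.card_congr (E.equivMapOfInjective G.subtype G.subtype_injective).toEquiv, hEc]
  · rw [hQmap, ← Subgroup.map_inf _ _ _ G.subtype_injective, hQK, Subgroup.map_bot]
  · rw [hQmap, ← Subgroup.map_sup, hQK', hmapC]
  · exact ⟨((K.equivMapOfInjective G.subtype G.subtype_injective).symm.trans eK).trans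
      (MulEquiv.ofBijective _ (Cfsg.Agent.S5424.toGL_bijective 3)).symm⟩

end Cfsg.Agent.S5425
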