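import Cfsg.Statements.S5426
import Cfsg.Agent.LargeEx.Structure
import Cfsg.Agent.LargeEx.Conjugate
import Cfsg.Agent.Components.Basic
import Cfsg.Agent.CoprimeAction.Frattini
import Cfsg.Agent.PCore.Basic
import Cfsg.Agent.Hall.StructBatch
import Cfsg.Agent.S1325

set_option autoImplicit false
open Cfsg

open CfsgLib.LargeEx CfsgLib.LargeEx.Struct

namespace Cfsg.Agent.S5426

/-- Let Q be a large extraspecial 2-subgroup of the finite group G (extraspecial; centralizer equal to its centre; normal in the centralizer of its centre; normalizing no non-trivial subgroup of odd order) with centre generated by z, and let M be the normal closure of z in G. Then one of the following holds: Q is normal in G; or M is abelian and the generalized Fitting subgroup of G is its largest normal 2-subgroup; or M is the generalized Fitting subgroup of G and is a non-abelian simple group; or M is the generalized Fitting subgroup of G and is the direct product of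 a non-abelian simple subgroup L and its conjugate u L u⁻¹ by some u in Q (the two meet trivially and commute elementwise), with z = z₁ (u z₁ u⁻¹) for some z₁ in L whose centralizer in L is a Sylow 2-subgroup of L with Frattini subgroup inside the subgroup generated by z₁, and Q is not the largest normal 2-subgroup of the centralizer of z. -/
theorem result {G : Type*} [Group G] [Finite G] (Q : Subgroup G) (hQ : Cfsg.IsLargeExtraspecial Q) (z : G) (hz : ((Subgroup.center ↥Q).map Q.subtype) = Subgroup.zpowers z) (M : Subgroup G) (hM : M = Subgroup.normalClosure ({z} : Set G)) : Q.Normal ∨ (IsMulCommutative ↥M ∧ Cfsg.generalizedFittingSubgroup G = Cfsg.pCore 2 G) ∨ (M = Cfsg.generalizedFittingSubgroup G ∧ IsSimpleGroup ↥M ∧ ¬ IsMulCommutative ↥M) ∨ (M = Cfsg.generalizedFittingSubgroup G ∧ ∃ (L : Subgroup G) (u : G), u ∈ Q ∧ IsSimpleGroup ↥L ∧ ¬ IsMulCommutative ↥L ∧ L ⊓ (L).map (MulAut.conj u).toMonoidHom = ⊥ ∧ (∀ x ∈ L, ∀ y ∈ (L).map (MulAut.conj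 u).toMonoidHom, x * y = y * x) ∧ L ⊔ (L).map (MulAut.conj u).toMonoidHom = M ∧ ∃ z₁ ∈ L, z = z₁ * (u * z₁ * u⁻¹) ∧ (∃ R : Sylow 2 ↥L, (R : Subgroup ↥L) = (Subgroup.centralizer ({z₁} : Set G)).subgroupOf L ∧ (frattini ↥(R : Subgroup ↥L)).map ((L.subtype).comp (R : Subgroup ↥L).subtype) ≤ Subgroup.zpowers z₁) ∧ Q ≠ (Cfsg.pCore 2 ↥(Subgroup.centralizer ({z} : Set G))).map (Subgroup.centralizer ({z} : Set G)).subtype) := by
  classical
  haveI : Fact (Nat.Prime 2) := ⟨Nat.prime_two⟩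
  obtain ⟨z', e'⟩ := CfsgLib.LargeEx.exists_extraData hQ.1
  have hzz : z = z' := by
    have h1 : z ∈ Subgroup.zpowers z' := by
      rw [← e'.center_eq, hz]; exact Subgroup.mem_zpowers z
    rcases e'.mem_zpowers_iff.1 h1 with h | h
    · exfalso
      have h2 : z' ∈ Subgroup.zpowers z := by
        rw [← hz, e'.center_eq]; exact Subgroup.mem_zpowers z'
      rw [h, Subgroup.zpowers_one_eq_bot, Subgroup.mem_bot] at h2
      exact e'.ne_one h2
    · exact h
  subst hzz
  have e := e'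
  haveI hMn : M.Normal := by rw [hM]; exact Subgroup.normalClosure_normal
  have hzM : z ∈ M := by rw [hM]; exact Subgroup.subset_normalClosure (Set.mem_singleton z)
  have hleN : ∀ N : Subgroup G, N.Normal → N ≠ ⊥ → M ≤ N := by
    intro N hN hNb
    rw [hM]
    exact Subgroup.normalClosure_le_normal
      (Set.singleton_subset_iff.2 (Struct.mem_of_normal e hQ N hNb))
  have hmin : ∀ N : Subgroup G, N.Normal → N ≤ M → N = ⊥ ∨ N = M := fun N hN hle =>
    (em (N = ⊥)).imp_right fun h => le_antisymm hle (hleN N hN h)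
  have hz1ne : z ≠ 1 := e.ne_one
  by_cases hO : Cfsg.pCore 2 G = ⊥
  rotate_left
  · -- the 2-core is non-trivial
    refine Or.inr (Or.inl ?_)
    haveI hOn : (Cfsg.pCore 2 G).Normal := CfsgLib.LargeEx.pCore_normal 2
    have hOp := CfsgLib.LargeEx.isPGroup_pCore (G := G) 2
    have hzO : z ∈ Cfsg.pCore 2 G := Struct.mem_of_normal e hQ _ hO
    have hZ : Cfsg.pCore 2 G ⊓ Subgroup.centralizer (Cfsg.pCore 2 G : Set G) ≠ ⊥ := by
      intro h
      haveI : Nontrivial (Cfsg.pCore 2 G) := (Subgroup.nontrivial_iff_ne_bot _).2 hO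
      haveI := hOp.center_nontrivial
      obtain ⟨⟨⟨c, hc⟩, hcc⟩, hc1⟩ := exists_ne (1 : Subgroup.center (Cfsg.pCore 2 G))
      have : c ∈ Cfsg.pCore 2 G ⊓ Subgroup.centralizer (Cfsg.pCore 2 G : Set G) :=
        ⟨hc, Subgroup.mem_centralizer_iff.2 fun y hy =>
          congrArg Subtype.val (Subgroup.mem_center_iff.1 hcc ⟨y, hy⟩)⟩
      rw [h, Subgroup.mem_bot] at this
      subst this
      exact hc1 rfl
    have hMZ := hleN _ inferInstance hZ
    refine ⟨⟨⟨fun a b => Subtype.ext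
      ((Subgroup.mem_centralizer_iff.1 (hMZ b.2).2 (a : G) (hMZ a.2).1))⟩⟩, ?_⟩
    rw [CfsgLib.Components.generalizedFitting_eq_pCore_iff]
    set C := Subgroup.centralizer (Cfsg.pCore 2 G : Set G) with hC
    haveI hCn : C.Normal := by rw [hC]; infer_instance
    have hCQ : C ≤ Subgroup.normalizer (Q : Set G) := by
      intro c hc
      refine hQ.2.2.1 (Subgroup.mem_centralizer_iff.2 fun y hy => ?_)
      rcases e.mem_center_iff.1 hy with rfl | rfl
      · simp
      · exact Subgroup.mem_centralizer_iff.1 hc _ hzO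
    -- `C ⊓ Q` lies in the 2-core of `G`
    have hCQO : C ⊓ Q ≤ Cfsg.pCore 2 G := by
      have h1 : (C ⊓ Q).subgroupOf C ≤ Cfsg.pCore 2 ↥C := by
        refine le_sSup ⟨?_, (e.isPGroup.to_le inf_le_right).of_equiv
          (Subgroup.subgroupOfEquivOfLe inf_le_left).symm⟩
        rw [Subgroup.normal_subgroupOf_iff inf_le_left]
        exact fun d c hd hc => ⟨C.mul_mem (C.mul_mem hc hd.1) (C.inv_mem hc),
          (Subgroup.mem_normalizer_iff.1 (hCQ hc) d).1 hd.2⟩
      have h2 : (Cfsg.pCore 2 ↥C).map C.subtype ≤ Cfsg.pCore 2 G :=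
        (CfsgLib.PCore.map_pCore_normal C).trans_le inf_le_left
      intro d hd
      exact h2 ⟨⟨d, hd.1⟩, h1 hd, rfl⟩
    have hodd : ∀ c ∈ C, Odd (orderOf c) → c = 1 := by
      intro c hc hco
      have hcc : c ∈ Subgroup.centralizer (Q : Set G) := by
        rw [Subgroup.mem_centralizer_iff]
        intro q hq
        obtain ⟨d, hd⟩ : ∃ d, d = c * q * c⁻¹ * q⁻¹ := ⟨_, rfl⟩
        have hdQ : d ∈ Q := hd ▸ Q.mul_mem ((Subgroup.mem_normalizer_iff.1 (hCQ hc) q).1 hq)
          (Q.inv_mem hq)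
        have hdC : d ∈ C := by
          have := C.mul_mem hc (hCn.conj_mem c⁻¹ (C.inv_mem hc) q)
          rw [hd]
          simpa [mul_assoc] using this
        have hdc : d * c = c * d :=
          Subgroup.mem_centralizer_iff.1 hc d (hCQO ⟨hdC, hdQ⟩)
        have hpow : ∀ k : ℕ, c ^ k * q = d ^ k * q * c ^ k := by
          intro k
          induction k with
          | zero => simp
          | succ k ih =>
            have hck : d ^ k * c = c * d ^ k := (Commute.pow_left (hdc : Commute d c) k).eq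
            calc c ^ (k + 1) * q = c * (c ^ k * q) := by rw [pow_succ', mul_assoc]
              _ = (c * d ^ k) * q * c ^ k := by rw [ih]; group
              _ = d ^ k * (c * q) * c ^ k := by rw [← hck]; group
              _ = d ^ k * (d * q * c) * c ^ k := by
                rw [show c * q = d * q * c by rw [hd]; group]
              _ = d ^ (k + 1) * q * c ^ (k + 1) := by rw [pow_succ, pow_succ']; group
        have h1 := hpow (orderOf c)
        rw [pow_orderOf_eq_one, one_mul, mul_one] at h1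
        have h2 : d ^ orderOf c = 1 := mul_eq_right.1 h1.symm
        obtain ⟨j, hj⟩ := e.isPGroup ⟨d, hdQ⟩
        have h3 : d ^ 2 ^ j = 1 := congrArg Subtype.val hj
        have h4 : orderOf d ∣ 1 := by
          have := Nat.dvd_gcd (orderOf_dvd_of_pow_eq_one h3) (orderOf_dvd_of_pow_eq_one h2)
          rwa [((Nat.coprime_two_left.2 hco).pow_left j).gcd_eq_one] at this
        have h5 : d = 1 := orderOf_eq_one_iff.1 (Nat.dvd_one.1 h4)
        calc q * c = d * q * c := by rw [h5, one_mul]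
          _ = c * q := by rw [hd]; group
      rw [hQ.2.1] at hcc
      rcases e.mem_center_iff.1 hcc with h | h
      · exact h
      · rw [h, e.orderOf_eq] at hco
        exact absurd hco (by decide)
    refine le_sSup ⟨hCn, fun c => ?_⟩
    obtain ⟨k, m, hm, hkm⟩ := Nat.exists_eq_pow_mul_and_not_dvd
      (orderOf_pos (c : G)).ne' 2 (by norm_num)
    refine ⟨k, Subtype.ext (hodd ((c : G) ^ 2 ^ k) (pow_mem c.2 _) ?_)⟩
    rw [orderOf_pow' _ (pow_ne_zero k two_ne_zero), hkm,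
      Nat.gcd_eq_right (Dvd.intro m rfl), Nat.mul_div_cancel_left _ (pow_pos two_pos k)]
    rwa [Nat.odd_iff, ← Nat.two_dvd_ne_zero]
  -- the 2-core is trivial
  have hCM : Subgroup.centralizer (M : Set G) = ⊥ := by
    by_contra h
    have hMC := hleN _ inferInstance h
    let A : Subgroup G :=
      { carrier := {x | x ∈ M ∧ x * x = 1}
        one_mem' := ⟨M.one_mem, one_mul 1⟩
        mul_mem' := fun {a b} ha hb => ⟨M.mul_mem ha.1 hb.1, by
          calc a * b * (a * b) = a * (b * a) * b := by group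
            _ = a * (a * b) * b := by rw [Subgroup.mem_centralizer_iff.1 (hMC ha.1) b hb.1]
            _ = (a * a) * (b * b) := by group
            _ = 1 := by rw [ha.2, hb.2, one_mul]⟩
        inv_mem' := fun {a} ha => ⟨M.inv_mem ha.1, by rw [← mul_inv_rev, ha.2, inv_one]⟩ }
    have hA : A.Normal := ⟨fun a ha g => ⟨hMn.conj_mem a ha.1 g, by
      calc g * a * g⁻¹ * (g * a * g⁻¹) = g * (a * a) * g⁻¹ := by group
        _ = 1 := by rw [ha.2]; group⟩⟩
    have hAp : IsPGroup 2 A := fun a => ⟨1, Subtype.ext (by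
      rw [Subgroup.coe_pow, pow_one, pow_two]; exact a.2.2)⟩
    have hmem : z ∈ Cfsg.pCore 2 G :=
      (le_sSup (a := A) ⟨hA, hAp⟩ : A ≤ Cfsg.pCore 2 G) ⟨hzM, e.sq⟩
    rw [hO] at hmem
    exact hz1ne (Subgroup.mem_bot.1 hmem)
  have hFit : Cfsg.fittingSubgroup G ≤ M := by
    refine sSup_le fun N hN => ?_
    by_cases hNb : N = ⊥
    · simp [hNb]
    exfalso
    have hMN := hleN N hN.1 hNb
    haveI := hN.2
    haveI : Group.IsNilpotent M :=
      Group.nilpotent_of_mulEquiv (Subgroup.subgroupOfEquivOfLe hMN)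
    haveI : Nontrivial M := ⟨⟨z, hzM⟩, 1, fun h => hz1ne (congrArg Subtype.val h)⟩
    have hne := CfsgLib.Hall.Struct.inf_center_ne_bot (⊤ : Subgroup M) top_ne_bot
    rw [top_inf_eq] at hne
    haveI : Nontrivial (Subgroup.center M) := (Subgroup.nontrivial_iff_ne_bot _).2 hne
    obtain ⟨⟨⟨c, hc⟩, hcc⟩, hc1⟩ := exists_ne (1 : Subgroup.center M)
    have : c ∈ Subgroup.centralizer (M : Set G) :=
      Subgroup.mem_centralizer_iff.2 fun y hy =>
        congrArg Subtype.val (Subgroup.mem_center_iff.1 hcc ⟨y, hy⟩)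
    rw [hCM, Subgroup.mem_bot] at this
    subst this
    exact hc1 rfl
  have hMF : M = Cfsg.generalizedFittingSubgroup G := by
    refine le_antisymm (hleN _ CfsgLib.Components.generalizedFittingSubgroup_normal fun h => ?_)
      (Cfsg.Agent.S1325.result M hFit (hCM ▸ bot_le))
    have hle := CfsgLib.Components.centralizer_generalizedFittingSubgroup_le (G := G)
    rw [h] at hle
    have : z ∈ (⊥ : Subgroup G) := hle (Subgroup.mem_centralizer_iff.2 fun y hy => by
      rw [Subgroup.coe_bot, Set.mem_singleton_iff] at hy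
      simp [hy])
    exact hz1ne (Subgroup.mem_bot.1 this)
  obtain ⟨L, hLM, hLs, hdist, hLZ, hsupM⟩ := Struct.exists_orbit_factor e hQ M hzM hmin hCM
  haveI := hLs
  have hLna : ¬ IsMulCommutative ↥L := by
    intro h
    obtain ⟨x, hx⟩ := exists_ne (1 : L)
    refine hx (Subtype.ext (hLZ x x.2 fun y hy => ?_))
    exact congrArg Subtype.val (h.is_comm.comm x (⟨y, hy⟩ : L))
  by_cases hfix : ∀ q ∈ Q, cj q L = L
  · refine Or.inr (Or.inr (Or.inl ⟨hMF, ?_⟩))
    have hML : M = L := by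
      rw [hsupM]
      exact le_antisymm (iSup_le fun q => (hfix _ q.2).le)
        (le_trans (cj_one L).ge (le_iSup (fun q : Q => cj (q : G) L) 1))
    rw [hML]
    exact ⟨hLs, hLna⟩
  push Not at hfix
  obtain ⟨u, hu, huL⟩ := hfix
  refine Or.inr (Or.inr (Or.inr ⟨hMF, ?_⟩))
  -- conjugates of `L` other than `L` centralize it
  have hcl : ∀ g : G, cj g L ≠ L → ∀ x ∈ cj g L, ∀ y ∈ L, y * x = x * y := by
    intro g hg x hx y hy
    exact (hdist g 1 (by rwa [cj_one]) x hx y (by rwa [cj_one])).symm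
  set CL := Subgroup.centralizer (L : Set G) with hCL
  have hclm : ∀ g : G, cj g L ≠ L → ∀ x ∈ L, g * x * g⁻¹ ∈ CL := fun g hg x hx =>
    Subgroup.mem_centralizer_iff.2 (hcl g hg _ (conj_mem_cj hx))
  have hLC : ∀ a ∈ L, ∀ b ∈ CL, a * b = b * a := fun a ha b hb =>
    Subgroup.mem_centralizer_iff.1 hb a ha
  have hcomp : ∀ a ∈ L, ∀ b ∈ CL, ∀ a' ∈ L, ∀ b' ∈ CL, a * b = a' * b' → a = a' := by
    intro a ha b hb a' ha' b' hb' h
    have h1 : a'⁻¹ * a = b' * b⁻¹ := by
      calc a'⁻¹ * a = a'⁻¹ * (a * b) * b⁻¹ := by group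
        _ = b' * b⁻¹ := by rw [h]; group
    have h2 : a'⁻¹ * a ∈ CL := h1 ▸ CL.mul_mem hb' (CL.inv_mem hb)
    have h3 := hLZ _ (L.mul_mem (L.inv_mem ha') ha) fun y hy => (hLC y hy _ h2).symm
    exact (inv_mul_eq_one.1 h3).symm
  have hcomp1 : ∀ a ∈ L, ∀ b ∈ CL, a * b = 1 → a = 1 := fun a ha b hb h =>
    hcomp a ha b hb 1 L.one_mem 1 CL.one_mem (by rw [h, one_mul])
  have hLnC : L ≤ Subgroup.normalizer (CL : Set G) :=
    CfsgLib.MinNormal.le_normalizer_of_conj fun a ha b hb => by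
      rwa [hLC a ha b hb, mul_inv_cancel_right]
  obtain ⟨z₁, hz₁, c, hc, hzc⟩ : ∃ z₁ ∈ L, ∃ c ∈ CL, z = z₁ * c := by
    have hle : M ≤ L ⊔ CL := by
      rw [hsupM]
      refine iSup_le fun q => ?_
      by_cases h : cj (q : G) L = L
      · exact h.le.trans le_sup_left
      · exact le_trans (fun x hx => Subgroup.mem_centralizer_iff.2 (hcl _ h x hx)) le_sup_right
    have := hle hzM
    rw [← SetLike.mem_coe, Subgroup.coe_mul_of_left_le_normalizer_right L CL hLnC] at this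
    obtain ⟨a, ha, b, hb, hab⟩ := this
    exact ⟨a, ha, b, hb, hab.symm⟩
  have hqz : ∀ q ∈ Q, q * z * q⁻¹ = z := fun q hq => by rw [← e.comm q hq]; group
  have hz₁ne : z₁ ≠ 1 := by
    intro h
    subst h
    rw [one_mul] at hzc
    subst hzc
    apply hz1ne
    rw [← Subgroup.mem_bot, ← hCM, Subgroup.mem_centralizer_iff]
    intro y hy
    rw [hsupM] at hy
    refine commute_iSup (fun q : Q => cj (q : G) L) (fun q w hw => ?_) hy
    rw [mem_cj] at hw
    have h1 := hLC _ hw _ hc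
    have h2 : (q : G) * z * (q : G)⁻¹ = z := hqz _ q.2
    calc w * z = w * ((q : G) * z * (q : G)⁻¹) := by rw [h2]
      _ = (q : G) * (((q : G)⁻¹ * w * q) * z) * (q : G)⁻¹ := by group
      _ = (q : G) * (z * ((q : G)⁻¹ * w * q)) * (q : G)⁻¹ := by rw [h1]
      _ = ((q : G) * z * (q : G)⁻¹) * w := by group
      _ = z * w := by rw [h2]
  have hz₁sq : z₁ * z₁ = 1 := by
    refine hcomp1 _ (L.mul_mem hz₁ hz₁) _ (CL.mul_mem hc hc) ?_
    calc z₁ * z₁ * (c * c) = z₁ * (z₁ * c) * c := by group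
      _ = z₁ * (c * z₁) * c := by rw [hLC _ hz₁ _ hc]
      _ = (z₁ * c) * (z₁ * c) := by group
      _ = 1 := by rw [← hzc]; exact e.sq
  have hz₁inv : z₁⁻¹ = z₁ := inv_eq_of_mul_eq_one_right hz₁sq
  set R := L ⊓ Subgroup.centralizer ({z₁} : Set G) with hR
  have hz₁R : z₁ ∈ R := ⟨hz₁, Subgroup.mem_centralizer_singleton_iff.2 rfl⟩
  have hRz₁ : ∀ x ∈ R, x * z₁ = z₁ * x := fun x hx =>
    Subgroup.mem_centralizer_singleton_iff.1 hx.2
  have hRQ : ∀ x ∈ R, ∀ q ∈ Q, x * q * x⁻¹ * q⁻¹ ∈ Q := by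
    intro x hx q hq
    have h1 : x ∈ Subgroup.normalizer (Q : Set G) := by
      refine hQ.2.2.1 (Subgroup.mem_centralizer_iff.2 fun y hy => ?_)
      rcases e.mem_center_iff.1 hy with h | h <;> rw [h]
      · simp
      · calc z * x = z₁ * (c * x) := by rw [hzc]; group
          _ = z₁ * (x * c) := by rw [hLC x hx.1 c hc]
          _ = (z₁ * x) * c := by group
          _ = (x * z₁) * c := by rw [hRz₁ x hx]
          _ = x * z := by rw [hzc]; group
    exact Q.mul_mem ((Subgroup.mem_normalizer_iff.1 h1 q).1 hq) (Q.inv_mem hq)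
  have hconjQ : ∀ q ∈ Q, ∀ w ∈ Q, q * w * q⁻¹ = w ∨ q * w * q⁻¹ = w * z := by
    intro q hq w hw
    rcases e.bracket q hq w hw with h | h
    · left; rw [h]; group
    · right
      calc q * w * q⁻¹ = w * q * z * q⁻¹ := by rw [h]
        _ = w * (q * z * q⁻¹) := by group
        _ = w * z := by rw [hqz q hq]
  -- `R` is more than `⟨z₁⟩`
  have hbig : ∃ x ∈ R, x ≠ 1 ∧ x ≠ z₁ := by
    by_contra h
    push Not at h
    have hzp : IsPGroup 2 (Subgroup.zpowers (⟨z₁, hz₁⟩ : L)) := by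
      refine IsPGroup.of_card (n := 1) ?_
      rw [Nat.card_zpowers, pow_one, orderOf_eq_prime_iff]
      exact ⟨Subtype.ext (by rw [Subgroup.coe_pow, pow_two]; exact hz₁sq),
        fun h => hz₁ne (congrArg Subtype.val h)⟩
    obtain ⟨S, hS⟩ := hzp.exists_le_sylow
    have hzS : (⟨z₁, hz₁⟩ : L) ∈ (S : Subgroup L) := hS (Subgroup.mem_zpowers _)
    haveI : Nontrivial (S : Subgroup L) :=
      ⟨⟨_, hzS⟩, 1, fun h => hz₁ne (congrArg (fun t : (S : Subgroup L) => ((t : L) : G)) h)⟩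
    haveI := S.2.center_nontrivial
    obtain ⟨⟨⟨⟨n, hnL⟩, hnS⟩, hnc⟩, hn1⟩ := exists_ne (1 : Subgroup.center (S : Subgroup L))
    have hncomm : ∀ s : L, s ∈ (S : Subgroup L) → (s : G) * n = n * s := fun s hs =>
      congrArg (fun t : (S : Subgroup L) => ((t : L) : G))
        (Subgroup.mem_center_iff.1 hnc ⟨s, hs⟩)
    have hnne : n ≠ 1 := by rintro rfl; exact hn1 rfl
    have hnz := h n ⟨hnL, Subgroup.mem_centralizer_singleton_iff.2 (hncomm _ hzS).symm⟩ hnne
    subst hnz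
    have hall : ∀ s ∈ (S : Subgroup L), s = 1 ∨ s = ⟨n, hnL⟩ := by
      intro s hs
      by_cases h1 : (s : G) = 1
      · exact Or.inl (Subtype.ext h1)
      · exact Or.inr (Subtype.ext (h s ⟨s.2, Subgroup.mem_centralizer_singleton_iff.2
          (hncomm s hs)⟩ h1))
    have hP : Subgroup.normalizer ((S : Subgroup L) : Set L) ≤
        Subgroup.centralizer ((S : Subgroup L) : Set L) := by
      intro g hg
      rw [Subgroup.mem_centralizer_iff]
      intro s hs
      rcases hall s hs with rfl | rfl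
      · simp
      · rcases hall _ ((Subgroup.mem_normalizer_iff.1 hg _).1 hs) with h1 | h1
        · exact absurd (congrArg Subtype.val (conj_eq_one_iff.1 h1)) hnne
        · calc (⟨n, hnL⟩ : L) * g = g * ⟨n, hnL⟩ * g⁻¹ * g := by rw [h1]
            _ = g * ⟨n, hnL⟩ := by group
    have hcompl := MonoidHom.ker_transferSylow_isComplement' S hP
    rcases (MonoidHom.transferSylow S hP).normal_ker.eq_bot_or_eq_top with hk | hk
    · rw [hk, Subgroup.isComplement'_bot_left] at hcompl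
      apply hLna
      refine ⟨⟨fun a b => ?_⟩⟩
      have ha := hall a (hcompl ▸ Subgroup.mem_top a)
      have hb := hall b (hcompl ▸ Subgroup.mem_top b)
      rcases ha with rfl | rfl <;> rcases hb with rfl | rfl <;> simp
    · rw [hk, Subgroup.isComplement'_top_left] at hcompl
      rw [hcompl, Subgroup.mem_bot] at hzS
      exact hz₁ne (congrArg Subtype.val hzS)
  obtain ⟨x₀, hx₀, hx₀1, hx₀z⟩ := hbig
  -- there are exactly two conjugates
  have htwo : ∀ q ∈ Q, cj q L = L ∨ cj q L = cj u L := by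
    intro q hq
    by_contra h
    push Not at h
    have hq' : cj q⁻¹ L ≠ L := by
      intro h'
      apply h.1
      conv_lhs => rw [← h', cj_cj, mul_inv_cancel, cj_one]
    have hqu : cj (q⁻¹ * u) L ≠ L := by
      intro h'
      apply h.2
      conv_lhs => rw [← h', cj_cj, ← mul_assoc, mul_inv_cancel, one_mul]
    obtain ⟨w, hw⟩ : ∃ w, w = x₀ * (u * x₀⁻¹ * u⁻¹) := ⟨_, rfl⟩
    have hwQ : w ∈ Q := by
      rw [hw]; simpa [mul_assoc] using hRQ x₀ hx₀ u hu
    have hb : q⁻¹ * w * q⁻¹⁻¹ ∈ CL := by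
      have h1 := CL.mul_mem (hclm _ hq' x₀ hx₀.1) (hclm _ hqu x₀⁻¹ (L.inv_mem hx₀.1))
      rw [hw]
      simpa [mul_assoc] using h1
    have hyC : u * x₀⁻¹ * u⁻¹ ∈ CL := hclm u huL _ (L.inv_mem hx₀.1)
    rcases hconjQ q⁻¹ (Q.inv_mem hq) w hwQ with h1 | h1
    · rw [h1] at hb
      exact hx₀1 (hcomp x₀ hx₀.1 _ hyC 1 L.one_mem w hb (by rw [one_mul, hw]))
    · rw [h1] at hb
      have h2 : x₀ * z₁ = 1 := by
        refine hcomp _ (L.mul_mem hx₀.1 hz₁) _ (CL.mul_mem hyC hc) 1 L.one_mem _ hb ?_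
        rw [one_mul]
        calc x₀ * z₁ * (u * x₀⁻¹ * u⁻¹ * c) = x₀ * (z₁ * (u * x₀⁻¹ * u⁻¹)) * c := by group
          _ = x₀ * ((u * x₀⁻¹ * u⁻¹) * z₁) * c := by rw [hLC _ hz₁ _ hyC]
          _ = w * z := by rw [hw, hzc]; group
      exact hx₀z ((eq_inv_of_mul_eq_one_left h2).trans hz₁inv)
  have huu : cj (u * u) L = L := by
    refine (htwo _ (Q.mul_mem hu hu)).resolve_right fun h => huL ?_
    have := congrArg (cj u⁻¹) h
    rwa [cj_cj, cj_cj, inv_mul_cancel_left, inv_mul_cancel, cj_one] at this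
  have huinv : cj u⁻¹ L ≠ L := by
    intro h
    apply huL
    conv_lhs => rw [← h, cj_cj, mul_inv_cancel, cj_one]
  have hswap : ∀ q ∈ Q, cj q L = L → cj (u⁻¹ * q * u) L = L := by
    intro q hq hqL
    refine (htwo _ (Q.mul_mem (Q.mul_mem (Q.inv_mem hu) hq) hu)).resolve_right fun h => huL ?_
    have h1 : cj q (cj u L) = L := by
      have := congrArg (cj u) h
      rwa [cj_cj, cj_cj, huu, ← mul_assoc, mul_inv_cancel_left, ← cj_cj] at this
    have h2 := congrArg (cj q⁻¹) (h1.trans hqL.symm)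
    simpa [cj_cj, cj_one, ← mul_assoc] using h2
  have hL'C : cj u L ≤ CL := fun x hx => Subgroup.mem_centralizer_iff.2 (hcl u huL x hx)
  have hMLL : M = L ⊔ cj u L := by
    rw [hsupM]
    refine le_antisymm (iSup_le fun q => ?_) (sup_le ?_ ?_)
    · rcases htwo _ q.2 with h | h
      · exact h.le.trans le_sup_left
      · exact h.le.trans le_sup_right
    · exact le_trans (cj_one L).ge (le_iSup (fun q : Q => cj (q : G) L) 1)
    · exact le_iSup (fun q : Q => cj (q : G) L) ⟨u, hu⟩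
  have hsplit : ∀ m ∈ M, ∃ a ∈ L, ∃ b ∈ cj u L, m = a * b := by
    intro m hm
    rw [hMLL, ← SetLike.mem_coe, Subgroup.coe_mul_of_left_le_normalizer_right L (cj u L)
      (CfsgLib.MinNormal.le_normalizer_of_conj fun a ha b hb => by
        rwa [hLC a ha b (hL'C hb), mul_inv_cancel_right])] at hm
    obtain ⟨a, ha, b, hb, hab⟩ := hm
    exact ⟨a, ha, b, hb, hab.symm⟩
  have hzu : z = z₁ * (u * z₁ * u⁻¹) := by
    have hcM : c ∈ M := by
      have := M.mul_mem (M.inv_mem (hLM hz₁)) hzM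
      rwa [hzc, inv_mul_cancel_left] at this
    obtain ⟨a, ha, b, hb, hab⟩ := hsplit c hcM
    have ha1 : (1 : G) = a := hcomp 1 L.one_mem c hc a ha b (hL'C hb) (by rw [one_mul, hab])
    rw [← ha1, one_mul] at hab
    subst hab
    rw [mem_cj] at hb
    have hbC : u⁻¹ * z₁ * u⁻¹⁻¹ ∈ CL := hclm _ huinv z₁ hz₁
    have h2 : z₁ = u⁻¹ * c * u := by
      refine hcomp z₁ hz₁ c hc _ hb _ hbC ?_
      calc z₁ * c = z := hzc.symm
        _ = u⁻¹ * z * u⁻¹⁻¹ := (hqz _ (Q.inv_mem hu)).symm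
        _ = (u⁻¹ * z₁ * u⁻¹⁻¹) * (u⁻¹ * c * u) := by rw [hzc]; group
        _ = _ := (hLC _ hb _ hbC).symm
    rw [hzc, h2]
    group
  -- `L ∩ Q`
  have hLQ : ∀ d ∈ L, d ∈ Q → d = 1 ∨ d = z₁ := by
    intro d hd hdQ
    rcases hconjQ u hu d hdQ with h | h
    · exact Or.inl (hcomp d hd 1 CL.one_mem 1 L.one_mem _ (hclm u huL d hd)
        (by rw [one_mul, mul_one, h]))
    · right
      have h2 : d * z₁ = 1 := hcomp _ (L.mul_mem hd hz₁) c hc 1 L.one_mem _ (hclm u huL d hd)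
        (by rw [one_mul, h, hzc, mul_assoc])
      exact (eq_inv_of_mul_eq_one_left h2).trans hz₁inv
  have hwmem : ∀ x ∈ R, x * (u * x⁻¹ * u⁻¹) ∈ Q := fun x hx => by
    simpa [mul_assoc] using hRQ x hx u hu
  have hRcomm : ∀ x ∈ R, ∀ y ∈ R, x * y * x⁻¹ * y⁻¹ = 1 ∨ x * y * x⁻¹ * y⁻¹ = z₁ := by
    intro x hx y hy
    refine hLQ _ (L.mul_mem (L.mul_mem (L.mul_mem hx.1 hy.1) (L.inv_mem hx.1)) (L.inv_mem hy.1)) ?_
    have hA : y * (u * x⁻¹ * u⁻¹) = (u * x⁻¹ * u⁻¹) * y :=
      hLC y hy.1 _ (hclm u huL _ (L.inv_mem hx.1))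
    have h1 := Q.mul_mem (Q.mul_mem (hwmem x hx) (hwmem y hy))
      (Q.inv_mem (hwmem _ (R.mul_mem hy hx)))
    have h2 : x * (u * x⁻¹ * u⁻¹) * (y * (u * y⁻¹ * u⁻¹)) *
        (y * x * (u * (y * x)⁻¹ * u⁻¹))⁻¹ = x * y * x⁻¹ * y⁻¹ := by
      calc _ = x * ((u * x⁻¹ * u⁻¹) * y) * (u * x * u⁻¹) * x⁻¹ * y⁻¹ := by group
        _ = x * (y * (u * x⁻¹ * u⁻¹)) * (u * x * u⁻¹) * x⁻¹ * y⁻¹ := by rw [hA]
        _ = _ := by group
    rwa [h2] at h1
  have hRsq : ∀ x ∈ R, x * x = 1 ∨ x * x = z₁ := by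
    intro x hx
    obtain ⟨A, hA⟩ : ∃ A, A = u * x⁻¹ * u⁻¹ := ⟨_, rfl⟩
    have hAC : A ∈ CL := hA ▸ hclm u huL _ (L.inv_mem hx.1)
    have h1 : x * x * (A * A) = (x * A) * (x * A) := by
      calc x * x * (A * A) = x * (x * A) * A := by group
        _ = x * (A * x) * A := by rw [hLC x hx.1 A hAC]
        _ = _ := by group
    rcases e.sq_mem (hwmem x hx) with h | h <;> rw [← hA, ← h1] at h
    · exact Or.inl (hcomp1 _ (L.mul_mem hx.1 hx.1) _ (CL.mul_mem hAC hAC) h)
    · exact Or.inr (hcomp _ (L.mul_mem hx.1 hx.1) _ (CL.mul_mem hAC hAC) _ hz₁ _ hc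
        (h.trans hzc))
  have hRp : IsPGroup 2 R := fun x => ⟨2, Subtype.ext (by
    rcases hRsq x x.2 with h | h <;>
      simp only [Subgroup.coe_pow, Subgroup.coe_one] <;>
      rw [show ((x : G) ^ 2 ^ 2) = ((x : G) * x) * ((x : G) * x) by
        rw [← pow_two, ← pow_two, ← pow_mul]; rfl] <;>
      rw [h] <;> simp [hz₁sq])⟩
  -- the stabilizer of `L` in `Q` normalizes `R`
  set Q₁ := Q ⊓ Subgroup.normalizer (L : Set G) with hQ₁
  have hQ₁fix : ∀ q ∈ Q₁, q * z₁ * q⁻¹ = z₁ := by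
    intro q hq
    have hmem := (Subgroup.mem_normalizer_iff.1 hq.2 z₁).1 hz₁
    have hqc : q * c * q⁻¹ ∈ CL := by
      rw [hCL, Subgroup.mem_centralizer_iff]
      intro y hy
      have h1 := hLC _ ((Subgroup.mem_normalizer_iff''.1 hq.2 y).1 hy) c hc
      calc y * (q * c * q⁻¹) = q * ((q⁻¹ * y * q) * c) * q⁻¹ := by group
        _ = q * (c * (q⁻¹ * y * q)) * q⁻¹ := by rw [h1]
        _ = q * c * q⁻¹ * y := by group
    refine hcomp _ hmem _ hqc z₁ hz₁ c hc ?_
    calc q * z₁ * q⁻¹ * (q * c * q⁻¹) = q * z * q⁻¹ := by rw [hzc]; group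
      _ = z₁ * c := (hqz q hq.1).trans hzc
  have hQ₁R : Q₁ ≤ Subgroup.normalizer (R : Set G) := by
    refine CfsgLib.MinNormal.le_normalizer_of_conj fun q hq x hx => ?_
    refine ⟨(Subgroup.mem_normalizer_iff.1 hq.2 x).1 hx.1,
      Subgroup.mem_centralizer_singleton_iff.2 ?_⟩
    have h1 := hQ₁fix q hq
    calc q * x * q⁻¹ * z₁ = q * x * q⁻¹ * (q * z₁ * q⁻¹) := by rw [h1]
      _ = q * (x * z₁) * q⁻¹ := by group
      _ = q * (z₁ * x) * q⁻¹ := by rw [hRz₁ x hx]
      _ = (q * z₁ * q⁻¹) * (q * x * q⁻¹) := by group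
      _ = z₁ * (q * x * q⁻¹) := by rw [h1]
  have hmemQ₁ : ∀ q ∈ Q, cj q L = L → q ∈ Q₁ := fun q hq h => ⟨hq, mem_normalizer_of_cj_eq h⟩
  have hP2 : IsPGroup 2 (R ⊔ Q₁ : Subgroup G) :=
    IsPGroup.to_sup_of_normal_left' hRp (e.isPGroup.to_le inf_le_left) hQ₁R
  obtain ⟨S, hSR, hSN⟩ := exists_invariant_sylow (L := L) hP2
    (sup_le (inf_le_left.trans Subgroup.le_normalizer) inf_le_right)
  obtain ⟨S', hS'⟩ : ∃ S', S' = (S : Subgroup L).map L.subtype := ⟨_, rfl⟩
  rw [← hS'] at hSN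
  have hS'L : S' ≤ L := hS' ▸ Subgroup.map_subtype_le _
  have hRS : R ≤ S' := by
    intro x hx
    obtain ⟨hxL, hxS⟩ := hSR x hx.1 ((le_sup_left : R ≤ R ⊔ Q₁) hx)
    exact hS' ▸ ⟨_, hxS, rfl⟩
  have hS'p : IsPGroup 2 S' := hS' ▸ S.2.map _
  have hSleR : S' ≤ R := by
    have hZne : S' ⊓ Subgroup.centralizer (S' : Set G) ≠ ⊥ := by
      intro h
      haveI : Nontrivial S' :=
        ⟨⟨z₁, hRS hz₁R⟩, 1, fun h' => hz₁ne (congrArg Subtype.val h')⟩
      haveI := hS'p.center_nontrivial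
      obtain ⟨⟨⟨n, hn⟩, hnc⟩, hn1⟩ := exists_ne (1 : Subgroup.center S')
      have : n ∈ S' ⊓ Subgroup.centralizer (S' : Set G) :=
        ⟨hn, Subgroup.mem_centralizer_iff.2 fun y hy =>
          congrArg Subtype.val (Subgroup.mem_center_iff.1 hnc ⟨y, hy⟩)⟩
      rw [h, Subgroup.mem_bot] at this
      subst this
      exact hn1 rfl
    have hinv : Q₁ ≤ Subgroup.normalizer
        ((S' ⊓ Subgroup.centralizer (S' : Set G) : Subgroup G) : Set G) := by
      refine CfsgLib.MinNormal.le_normalizer_of_conj fun q hq k hk => ?_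
      have hqN := hSN ((le_sup_right : Q₁ ≤ R ⊔ Q₁) hq)
      refine ⟨(Subgroup.mem_normalizer_iff.1 hqN k).1 hk.1, Subgroup.mem_centralizer_iff.2 ?_⟩
      intro y hy
      have h1 : q⁻¹ * y * q * k = k * (q⁻¹ * y * q) :=
        Subgroup.mem_centralizer_iff.1 hk.2 _ ((Subgroup.mem_normalizer_iff''.1 hqN y).1 hy)
      calc y * (q * k * q⁻¹) = q * (q⁻¹ * y * q * k) * q⁻¹ := by group
        _ = q * (k * (q⁻¹ * y * q)) * q⁻¹ := by rw [h1]
        _ = q * k * q⁻¹ * y := by group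
    obtain ⟨n, hn, hn1, hnfix⟩ := exists_fixed_of_invariant (e.isPGroup.to_le inf_le_left) hinv
      (even_card_of_isPGroup (hS'p.to_le inf_le_left) hZne)
    have hnL : n ∈ L := hS'L hn.1
    have hnC : u * n * u⁻¹ ∈ CL := hclm u huL n hnL
    obtain ⟨m, hm⟩ : ∃ m, m = n * (u * n * u⁻¹) := ⟨_, rfl⟩
    have hmQ₁ : ∀ q ∈ Q, cj q L = L → q * m = m * q := by
      intro q hq hqL
      have h1 := hnfix q (hmemQ₁ q hq hqL)
      have h2 := hnfix _ (hmemQ₁ (u⁻¹ * q * u) (Q.mul_mem (Q.mul_mem (Q.inv_mem hu) hq) hu)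
        (hswap q hq hqL))
      calc q * m = (q * n) * (u * n * u⁻¹) := by rw [hm]; group
        _ = n * u * ((u⁻¹ * q * u) * n) * u⁻¹ := by rw [h1]; group
        _ = n * u * (n * (u⁻¹ * q * u)) * u⁻¹ := by rw [h2]
        _ = m * q := by rw [hm]; group
    have hmu : u * m = m * u := by
      have h1 := hnfix _ (hmemQ₁ (u * u) (Q.mul_mem hu hu) huu)
      calc u * m = (u * n * u⁻¹) * ((u * u) * n) * (u⁻¹ * u⁻¹) * u := by rw [hm]; group
        _ = (u * n * u⁻¹) * (n * (u * u)) * (u⁻¹ * u⁻¹) * u := by rw [h1]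
        _ = (u * n * u⁻¹ * n) * u := by group
        _ = m * u := by rw [← hLC n hnL _ hnC, hm]
    have hmC : m ∈ Subgroup.centralizer (Q : Set G) := by
      rw [Subgroup.mem_centralizer_iff]
      intro q hq
      rcases htwo q hq with h | h
      · exact hmQ₁ q hq h
      · have h' : cj (u⁻¹ * q) L = L := by rw [← cj_cj, h, cj_cj, inv_mul_cancel, cj_one]
        have h1 := hmQ₁ _ (Q.mul_mem (Q.inv_mem hu) hq) h'
        calc q * m = u * ((u⁻¹ * q) * m) := by group
          _ = u * (m * (u⁻¹ * q)) := by rw [h1]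
          _ = (u * m) * (u⁻¹ * q) := by group
          _ = m * u * (u⁻¹ * q) := by rw [hmu]
          _ = m * q := by group
    rw [hQ.2.1] at hmC
    have hnz : n = z₁ := by
      rcases e.mem_center_iff.1 hmC with h | h
      · exact absurd (hcomp1 n hnL _ hnC (hm.symm.trans h)) hn1
      · exact hcomp n hnL _ hnC z₁ hz₁ c hc (by rw [← hm, h, hzc])
    intro s hs
    refine ⟨hS'L hs, Subgroup.mem_centralizer_singleton_iff.2 ?_⟩
    rw [← hnz]
    exact Subgroup.mem_centralizer_iff.1 hn.2 s hs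
  have hReq : S' = R := le_antisymm hSleR hRS
  have hScoe : (S : Subgroup L) = (Subgroup.centralizer ({z₁} : Set G)).subgroupOf L := by
    apply Subgroup.map_injective L.subtype_injective
    rw [← hS', hReq, Subgroup.subgroupOf_map_subtype, hR, inf_comm]
  refine ⟨L, u, hu, hLs, hLna, ?_, ?_, ?_, z₁, hz₁, hzu, ⟨S, hScoe, ?_⟩, ?_⟩
  · rw [Subgroup.eq_bot_iff_forall]
    intro x hx
    exact hLZ x hx.1 fun y hy => (hcl u huL x hx.2 y hy).symm
  · exact fun x hx y hy => hcl u huL y hy x hx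
  · exact hMLL.symm
  · -- the Frattini subgroup
    obtain ⟨f, hf⟩ : ∃ f : ↥(S : Subgroup L) →* G,
        f = (L.subtype).comp (S : Subgroup L).subtype := ⟨_, rfl⟩
    rw [← hf]
    have hfR : ∀ x, f x ∈ R := fun x => hReq ▸ hS' ▸ hf ▸ ⟨(x : L), x.2, rfl⟩
    have hz12 : ∀ g : G, g = 1 ∨ g = z₁ → g ∈ Subgroup.zpowers z₁ := by
      rintro g (rfl | rfl)
      · exact one_mem _
      · exact Subgroup.mem_zpowers _
    rw [Subgroup.map_le_iff_le_comap]
    haveI : ((Subgroup.zpowers z₁).comap f).Normal := by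
      refine ⟨fun n hn g => ?_⟩
      rw [Subgroup.mem_comap] at hn ⊢
      obtain ⟨k, hk⟩ := hn
      simp only at hk
      rw [map_mul, map_mul, map_inv, ← hk]
      refine ⟨k, ?_⟩
      have h1 : Commute (f g) z₁ := hRz₁ _ (hfR g)
      show z₁ ^ k = _
      rw [(h1.zpow_right k).eq, mul_inv_cancel_right]
    refine CfsgLib.CoprimeAction.frattini_le_of_elementary (p := 2) _ ?_ fun x => ?_
    · rw [commutator_def, Subgroup.commutator_le]
      intro a _ b _
      rw [Subgroup.mem_comap, commutatorElement_def, map_mul, map_mul, map_mul, map_inv, map_inv]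
      exact hz12 _ (hRcomm _ (hfR a) _ (hfR b))
    · rw [Subgroup.mem_comap, map_pow, pow_two]
      exact hz12 _ (hRsq _ (hfR x))
  · -- `Q` is not the 2-core of `C(z)`
    intro hQeq
    set Cz := Subgroup.centralizer ({z} : Set G) with hCz
    have hfac : ∀ a ∈ L, ∀ b ∈ CL, a * b * z = z * (a * b) → a * z₁ = z₁ * a := by
      intro a ha b hb h
      refine hcomp _ (L.mul_mem ha hz₁) _ (CL.mul_mem hb hc) _ (L.mul_mem hz₁ ha) _
        (CL.mul_mem hc hb) ?_
      calc a * z₁ * (b * c) = a * (z₁ * b) * c := by group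
        _ = a * (b * z₁) * c := by rw [hLC _ hz₁ _ hb]
        _ = a * b * z := by rw [hzc]; group
        _ = z * (a * b) := h
        _ = z₁ * (c * a) * b := by rw [hzc]; group
        _ = z₁ * (a * c) * b := by rw [hLC a ha c hc]
        _ = z₁ * a * (c * b) := by group
    have hcomm' : R ≤ Subgroup.normalizer ((cj u R : Subgroup G) : Set G) :=
      CfsgLib.MinNormal.le_normalizer_of_conj fun a ha b hb => by
        have hb' : b ∈ CL := hL'C (Subgroup.map_mono (inf_le_left : R ≤ L) hb)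
        rwa [hLC a ha.1 b hb', mul_inv_cancel_right]
    have hR2p : IsPGroup 2 (R ⊔ cj u R : Subgroup G) :=
      IsPGroup.to_sup_of_normal_right' hRp (hRp.map _) hcomm'
    have hle : M ⊓ Cz ≤ R ⊔ cj u R := by
      rintro m ⟨hmM, hmz⟩
      obtain ⟨a, ha, b, hb, rfl⟩ := hsplit m hmM
      have hmz' : a * b * z = z * (a * b) := Subgroup.mem_centralizer_singleton_iff.1 hmz
      refine Subgroup.mul_mem _ ((le_sup_left : R ≤ R ⊔ cj u R) ⟨ha,
        Subgroup.mem_centralizer_singleton_iff.2 (hfac a ha b (hL'C hb) hmz')⟩)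
        ((le_sup_right : cj u R ≤ R ⊔ cj u R) ?_)
      rw [mem_cj] at hb ⊢
      refine ⟨hb, Subgroup.mem_centralizer_singleton_iff.2 ?_⟩
      have haC : u⁻¹ * a * u⁻¹⁻¹ ∈ CL := hclm _ huinv a ha
      refine hfac _ hb _ haC ?_
      have h1 : u⁻¹ * b * u * (u⁻¹ * a * u⁻¹⁻¹) = u⁻¹ * (a * b) * u := by
        rw [hLC _ hb _ haC]; group
      rw [h1]
      calc u⁻¹ * (a * b) * u * z = u⁻¹ * (a * b * (u * z * u⁻¹)) * u := by group
        _ = u⁻¹ * ((u * z * u⁻¹) * (a * b)) * u := by rw [hqz u hu, hmz']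
        _ = z * (u⁻¹ * (a * b) * u) := by group
    have hD : (M ⊓ Cz).subgroupOf Cz ≤ Cfsg.pCore 2 ↥Cz := by
      refine le_sSup ⟨?_, (hR2p.to_le hle).of_equiv
        (Subgroup.subgroupOfEquivOfLe inf_le_right).symm⟩
      rw [Subgroup.normal_subgroupOf_iff inf_le_right]
      exact fun d g hd hg => ⟨hMn.conj_mem d hd.1 g,
        Cz.mul_mem (Cz.mul_mem hg hd.2) (Cz.inv_mem hg)⟩
    have hxz : x₀ ∈ Cz := by
      refine Subgroup.mem_centralizer_singleton_iff.2 ?_
      calc x₀ * z = (x₀ * z₁) * c := by rw [hzc]; group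
        _ = (z₁ * x₀) * c := by rw [hRz₁ x₀ hx₀]
        _ = z₁ * (x₀ * c) := by group
        _ = z₁ * (c * x₀) := by rw [hLC x₀ hx₀.1 c hc]
        _ = z * x₀ := by rw [hzc]; group
    have hxQ : x₀ ∈ Q := by
      rw [hQeq]
      exact ⟨⟨x₀, hxz⟩, hD (show x₀ ∈ M ⊓ Cz from ⟨hLM hx₀.1, hxz⟩), rfl⟩
    rcases hLQ x₀ hx₀.1 hxQ with h | h
    · exact hx₀1 h
    · exact hx₀z h

end Cfsg.Agent.S5426
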