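import Cfsg.Statements.S5433
import Cfsg.Agent.LargeEx.Basic
-- import your own Cfsg.Agent.* helpers here

set_option autoImplicit false
open Cfsg

namespace Cfsg.Agent.S5433

/-- Let Q be a large extraspecial 2-subgroup of the finite group G (extraspecial; centralizer equal to its centre; normal in the centralizer of its centre; normalizing no non-trivial subgroup of odd order), and L a normal subgroup of G containing Q. Then G is the product of L and the normalizer of Q. -/
theorem result {G : Type*} [Group G] [Finite G] (Q : Subgroup G) (hQ : Cfsg.IsLargeExtraspecial Q) (L : Subgroup G) [L.Normal] (hQL : Q ≤ L) : L ⊔ Subgroup.normalizer (Q : Set G) = ⊤ := by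
  obtain ⟨hQ1, hQ2, hQ3, -⟩ := hQ
  obtain ⟨z, e⟩ := CfsgLib.LargeEx.exists_extraData hQ1
  obtain ⟨P, hP⟩ := IsPGroup.exists_le_sylow
    (e.isPGroup.of_equiv (Subgroup.subgroupOfEquivOfLe hQL).symm)
  have : Fact (Nat.Prime 2) := ⟨Nat.prime_two⟩
  set S := (P : Subgroup ↥L).map L.subtype with hS
  have hQS : Q ≤ S := fun q hq => ⟨⟨q, hQL hq⟩, hP hq, rfl⟩
  have hF := Sylow.normalizer_sup_eq_top (N := L) P
  -- a non-trivial central element of `S`
  have hSp : IsPGroup 2 ↥S := P.2.map _
  have hSn : Nontrivial ↥S :=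
    ⟨⟨z, hQS e.mem⟩, 1, fun h => e.ne_one (congrArg Subtype.val h)⟩
  have hcn := hSp.center_nontrivial
  obtain ⟨⟨⟨c, hcS⟩, hcc⟩, hc1⟩ := exists_ne (1 : ↥(Subgroup.center ↥S))
  have hc : ∀ x ∈ S, c * x = x * c := fun x hx =>
    (congrArg Subtype.val (Subgroup.mem_center_iff.1 hcc ⟨x, hx⟩)).symm
  have hzc : c = z := by
    have : c ∈ Subgroup.centralizer (Q : Set G) :=
      Subgroup.mem_centralizer_iff.2 fun q hq => (hc q (hQS hq)).symm
    rw [hQ2] at this
    rcases e.mem_center_iff.1 this with h | h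
    · subst h; exact absurd rfl hc1
    · exact h
  subst hzc
  rw [eq_top_iff, ← hF]
  refine sup_le (fun g hg => Subgroup.mem_sup_right (hQ3 ?_)) le_sup_left
  rw [Subgroup.mem_centralizer_iff]
  have hg' : g ∈ Subgroup.normalizer (S : Set G) := by
    convert hg using 1
  have hgz : g * c * g⁻¹ ∈ Subgroup.centralizer (Q : Set G) := by
    rw [Subgroup.mem_centralizer_iff]
    intro q hq
    have h1 := (Subgroup.mem_normalizer_iff''.1 hg' q).1 (hQS hq)
    calc q * (g * c * g⁻¹) = g * ((g⁻¹ * q * g) * c) * g⁻¹ := by group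
      _ = g * (c * (g⁻¹ * q * g)) * g⁻¹ := by rw [hc _ h1]
      _ = g * c * g⁻¹ * q := by group
  rw [hQ2] at hgz
  rcases e.mem_center_iff.1 hgz with h | h
  · exact absurd (conj_eq_one_iff.1 h) e.ne_one
  · intro x hx
    rcases e.mem_center_iff.1 hx with rfl | rfl
    · simp
    · calc x * g = g * x * g⁻¹ * g := by rw [h]
        _ = g * x := by group

end Cfsg.Agent.S5433
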