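import Cfsg.Statements.S5427
import Cfsg.Agent.S5422
import Cfsg.Agent.S5433
import Cfsg.Agent.Components.Basic

set_option autoImplicit false
open Cfsg

namespace Cfsg.Agent.S5427

/-- Let z be an involution of the finite group G whose centralizer C has generalized Fitting subgroup Q, an extraspecial 2-group of width at least 2 (order 2^(2w+1), w ≥ 2). Let K be a subgroup of G such that the subgroup U generated by the K-conjugates of z is abelian and C is generated by the C-conjugates of U. Suppose that either some K-conjugate of z other than z lies in Q, or some element u of U ∩ Q outside the subgroup generated by z has z in the largest normal 2-subgroup of its centralizer. Then G is simple and Q is a large extraspecial 2-subgroup of G. -/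
theorem result {G : Type*} [Group G] [Finite G] (z : G) (hz : orderOf z = 2) (Q : Subgroup G) (hQC : Q ≤ Subgroup.centralizer ({z} : Set G)) (hF : (Cfsg.generalizedFittingSubgroup ↥(Subgroup.centralizer ({z} : Set G))).map (Subgroup.centralizer ({z} : Set G)).subtype = Q) (hQ : Cfsg.IsExtraspecial 2 ↥Q) (w : ℕ) (hw : 2 ≤ w) (hcard : Nat.card ↥Q = 2 ^ (2 * w + 1)) (K U : Subgroup G) (hU : U = Subgroup.closure {x : G | ∃ k ∈ K, x = k * z * k⁻¹}) (hUab : IsMulCommutative ↥U) (hgen : Subgroup.closure {x : G | ∃ c ∈ Subgroup.centralizer ({z} : Set G), ∃ u ∈ U, x = c * u * c⁻¹} = Subgroup.centralizer ({z} : Set G)) (h3 : (∃ k ∈ K, k * z * k⁻¹ ∈ Q ∧ k * z * k⁻¹ ≠ z) ∨ ∃ u ∈ U ⊓ Q, u ∉ Subgroup.zpowers z ∧ (∃ hz' : z ∈ Subgroup.centralizer ({u} : Set G), (⟨z, hz'⟩ : ↥(Subgroup.centralizer ({u} : Set G))) ∈ Cfsg.pCore 2 ↥(Subgroup.centralizer ({u} : Set G)))) : IsSimpleGroup G ∧ Cfsg.IsLargeExtraspecial Q := by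
  classical
  set C := Subgroup.centralizer ({z} : Set G) with hC
  obtain ⟨z', e⟩ := CfsgLib.LargeEx.exists_extraData hQ
  have hFle := CfsgLib.Components.centralizer_generalizedFittingSubgroup_le (G := ↥C)
  have hzC : z ∈ C := Subgroup.mem_centralizer_singleton_iff.2 rfl
  have hzQ : z ∈ Q := by
    rw [← hF]
    refine ⟨⟨z, hzC⟩, hFle ?_, rfl⟩
    rw [Subgroup.mem_centralizer_iff]
    intro y _
    exact Subtype.ext (Subgroup.mem_centralizer_singleton_iff.1 y.2)
  have hz1 : z ≠ 1 := fun h => by simp [h] at hz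
  have hzz : z = z' := by
    refine (e.central z hzQ fun x hx => ?_).resolve_left hz1
    exact (Subgroup.mem_centralizer_singleton_iff.1 (hQC hx)).symm
  subst hzz
  have hL2 : Subgroup.centralizer (Q : Set G) = (Subgroup.center ↥Q).map Q.subtype := by
    apply le_antisymm
    · intro c hc
      have hcC : c ∈ C := Subgroup.mem_centralizer_singleton_iff.2
        (Subgroup.mem_centralizer_iff.1 hc z hzQ).symm
      have hcQ : c ∈ Q := by
        rw [← hF]
        refine ⟨⟨c, hcC⟩, hFle ?_, rfl⟩
        rw [Subgroup.mem_centralizer_iff]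
        intro y hy
        exact Subtype.ext (Subgroup.mem_centralizer_iff.1 hc (y : G) (hF ▸ ⟨y, hy, rfl⟩))
      exact e.mem_center_iff.2 (e.central c hcQ fun x hx => (Subgroup.mem_centralizer_iff.1 hc x hx).symm)
    · intro c hc
      rw [Subgroup.mem_centralizer_iff]
      intro x hx
      rcases e.mem_center_iff.1 hc with rfl | rfl
      · simp
      · exact (e.comm x hx).symm
  have hCN : C ≤ Subgroup.normalizer (Q : Set G) := by
    have hn := CfsgLib.Components.generalizedFittingSubgroup_normal (G := ↥C)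
    have hconj : ∀ c ∈ C, ∀ q ∈ Q, c * q * c⁻¹ ∈ Q := by
      intro c hc q hq
      rw [← hF] at hq ⊢
      obtain ⟨y, hy, rfl⟩ := hq
      exact ⟨⟨c, hc⟩ * y * ⟨c, hc⟩⁻¹, hn.conj_mem y hy _, rfl⟩
    intro c hc
    rw [Subgroup.mem_normalizer_iff]
    refine fun q => ⟨hconj c hc q, fun h => ?_⟩
    have := hconj c⁻¹ (inv_mem hc) _ h
    simpa [mul_assoc] using this
  have hL3 : Subgroup.centralizer (((Subgroup.center ↥Q).map Q.subtype) : Set G) ≤
      Subgroup.normalizer (Q : Set G) := by
    intro c hc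
    refine hCN (Subgroup.mem_centralizer_singleton_iff.2 ?_)
    exact (Subgroup.mem_centralizer_iff.1 hc z (e.mem_center_iff.2 (Or.inr rfl))).symm
  have hlarge : Cfsg.IsLargeExtraspecial Q := by
    rcases h3 with ⟨k, _, hkQ, hkz⟩ | ⟨u, hu, huz, hz', hzO⟩
    · refine (Cfsg.Agent.S5422.result Q hQ hL2 hL3 w hw hcard k ?_ ?_).2.2
      · intro hk
        have hm := (Subgroup.mem_normalizer_iff.1 hk z).1 (e.mem_center_iff.2 (Or.inr rfl))
        rcases e.mem_center_iff.1 hm with h | h
        · exact hz1 (conj_eq_one_iff.1 h)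
        · exact hkz h
      · rintro _ ⟨c, hc, rfl⟩
        rcases e.mem_center_iff.1 hc with rfl | rfl
        · simp
        · simpa using hkQ
    · have hu2 : u * u = 1 := by
        have hmem := hu.1
        rw [hU] at hmem
        refine Subgroup.closure_induction (p := fun x _ => x * x = 1) ?_ (by simp) ?_ ?_ hmem
        · rintro x ⟨k, _, rfl⟩
          calc k * z * k⁻¹ * (k * z * k⁻¹) = k * (z * z) * k⁻¹ := by group
            _ = 1 := by rw [e.sq]; group
        · intro x y hx hy h1 h2
          have hxy : x * y = y * x :=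
            congrArg Subtype.val (hUab.is_comm.comm (⟨x, hU ▸ hx⟩ : U) (⟨y, hU ▸ hy⟩ : U))
          calc x * y * (x * y) = x * (y * x) * y := by group
            _ = x * (x * y) * y := by rw [hxy]
            _ = (x * x) * (y * y) := by group
            _ = 1 := by rw [h1, h2, one_mul]
        · intro x _ h1
          rw [← mul_inv_rev, h1, inv_one]
      have hu1 : u ≠ 1 := fun h => huz (h ▸ one_mem _)
      have huz' : u ≠ z := fun h => huz (h ▸ Subgroup.mem_zpowers _)
      exact ⟨hQ, hL2, hL3, fun L hL hQL =>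
        CfsgLib.LargeEx.odd_invariant_eq_bot e hL2 hL3 hu.2 hu1 huz' hu2 ⟨⟨z, hz'⟩, hzO, rfl⟩ hL hQL⟩
  refine ⟨?_, hlarge⟩
  have hNQ : Subgroup.normalizer (Q : Set G) ≤ C := by
    intro g hg
    have hm : g * z * g⁻¹ ∈ Subgroup.centralizer (Q : Set G) := by
      rw [Subgroup.mem_centralizer_iff]
      intro q hq
      have hq' : g⁻¹ * q * g ∈ Q := (Subgroup.mem_normalizer_iff''.1 hg q).1 hq
      calc q * (g * z * g⁻¹) = g * ((g⁻¹ * q * g) * z) * g⁻¹ := by group
        _ = g * (z * (g⁻¹ * q * g)) * g⁻¹ := by rw [e.comm _ hq']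
        _ = g * z * g⁻¹ * q := by group
    rw [hL2] at hm
    rcases e.mem_center_iff.1 hm with h | h
    · exact absurd (conj_eq_one_iff.1 h) hz1
    · exact Subgroup.mem_centralizer_singleton_iff.2 (mul_inv_eq_iff_eq_mul.1 h)
  have : Nontrivial G := ⟨⟨z, 1, hz1⟩⟩
  refine IsSimpleGroup.mk fun N hN => ?_
  by_cases hbot : N = ⊥
  · exact Or.inl hbot
  refine Or.inr ?_
  have hev : Even (Nat.card N) := by
    by_contra h
    refine hbot (hlarge.2.2.2 N (Nat.not_even_iff_odd.1 h) ?_)
    rw [Subgroup.normalizer_eq_top]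
    exact le_top
  obtain ⟨n, hnN, hn1, hn⟩ := CfsgLib.LargeEx.exists_fixed_of_even (N := N) e.isPGroup hev
  have hnQ : n ∈ Subgroup.centralizer (Q : Set G) := Subgroup.mem_centralizer_iff.2 hn
  rw [hL2] at hnQ
  obtain rfl : n = z := (e.mem_center_iff.1 hnQ).resolve_left hn1
  have hUN : U ≤ N := by
    rw [hU, Subgroup.closure_le]
    rintro x ⟨k, _, rfl⟩
    exact hN.conj_mem n hnN k
  have hCle : C ≤ N := by
    rw [← hgen, Subgroup.closure_le]
    rintro x ⟨c, _, u, hu, rfl⟩
    exact hN.conj_mem u (hUN hu) c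
  have htop := @Cfsg.Agent.S5433.result G _ _ Q hlarge N hN (hQC.trans hCle)
  rw [eq_top_iff, ← htop]
  exact sup_le le_rfl (hNQ.trans hCle)

end Cfsg.Agent.S5427
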