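import Cfsg.Statements.S5428
import Cfsg.Agent.LargeEx.Quotient

set_option autoImplicit false
open Cfsg

namespace Cfsg.Agent.S5428

/-- Let z be an involution of the finite group G whose centralizer C has generalized Fitting subgroup Q extraspecial (as a 2-group), let A be a subgroup of C of odd order, and let R be the centralizer of A in Q; suppose R has order at least 32, the largest normal subgroup of odd order of the centralizer of the subgroup generated by A and R lies in A, the order of that centralizer is not divisible by 4, and g is an element of G with g z g⁻¹ in R but outside the centre Z of Q. Let M be the subgroup generated by A and the centralizer of A (A is normal in it). Then: the centralizer in M of the subgroup generated by R and A, joined with A, equals the subgroup generated by A and Z; the image of R in M/A is a large extraspecial 2-subgroup of M/A; and g z g⁻¹ is conjugate to z inside the subgroup generated by R and the centralizer of A in g Q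 g⁻¹. -/
theorem result {G : Type*} [Group G] [Finite G] (z : G) (hz : orderOf z = 2) (Q : Subgroup G) (hQC : Q ≤ Subgroup.centralizer ({z} : Set G)) (hF : (Cfsg.generalizedFittingSubgroup ↥(Subgroup.centralizer ({z} : Set G))).map (Subgroup.centralizer ({z} : Set G)).subtype = Q) (hQ : Cfsg.IsExtraspecial 2 ↥Q) (A : Subgroup G) (hA : A ≤ Subgroup.centralizer ({z} : Set G)) (hAodd : Odd (Nat.card ↥A)) (R : Subgroup G) (hR : R = Q ⊓ Subgroup.centralizer (A : Set G)) (hR32 : 32 ≤ Nat.card ↥R) (hO : (Cfsg.oddCore ↥(Subgroup.centralizer ((A ⊔ R : Subgroup G) : Set G))).map (Subgroup.centralizer ((A ⊔ R : Subgroup G) : Set G)).subtype ≤ A) (h4 : ¬ 4 ∣ Nat.card ↥(Subgroup.centralizer ((A ⊔ R : Subgroup G) : Set G))) (g : G) (hgR : g * z * g⁻¹ ∈ R) (hgZ : g * z * g⁻¹ ∉ ((Subgroup.center ↥Q).map Q.subtype)) (M : Subgroup G) (hM : M = Subgroup.centralizer (A : Set G) ⊔ A) [hn : (A.subgroupOf M).Normal] : (M ⊓ Subgroup.centralizer ((R ⊔ A : Subgroup G) : Set G)) ⊔ A = A ⊔ ((Subgroup.center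 ↥Q).map Q.subtype) ∧ Cfsg.IsLargeExtraspecial ((R.subgroupOf M).map (QuotientGroup.mk' (A.subgroupOf M))) ∧ ∃ x ∈ R ⊔ ((Q).map (MulAut.conj g).toMonoidHom ⊓ Subgroup.centralizer (A : Set G)), x * (g * z * g⁻¹) * x⁻¹ = z := by
  classical
  haveI : Fact (Nat.Prime 2) := ⟨Nat.prime_two⟩
  obtain ⟨e, hL2, hCN⟩ := CfsgLib.LargeEx.setup_of_fstar z hz Q hQC hF hQ
  have hzA : ∀ a ∈ A, a * z = z * a := fun a ha => Subgroup.mem_centralizer_singleton_iff.1 (hA ha)
  have hAQ : A ≤ Subgroup.normalizer (Q : Set G) := hA.trans hCN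
  obtain ⟨n, hn'⟩ := e.isPGroup.exists_card_eq
  have hcop : (Nat.card A).Coprime (Nat.card Q) := by
    rw [hn']; exact Nat.Coprime.pow_right n (Nat.coprime_two_right.2 hAodd)
  have hzCA : z ∈ Subgroup.centralizer (A : Set G) := Subgroup.mem_centralizer_iff.2 hzA
  have hzR : z ∈ R := hR ▸ ⟨e.mem, hzCA⟩
  have hRQ : R ≤ Q := hR ▸ inf_le_left
  have hRA : R ≤ Subgroup.centralizer (A : Set G) := hR ▸ inf_le_right
  have hcenR : ∀ c ∈ R, (∀ x ∈ R, c * x = x * c) → c = 1 ∨ c = z := by
    intro c hc h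
    exact CfsgLib.LargeEx.central_in_fixed e hAQ hAodd hzA (hR ▸ hc) (hR ▸ h)
  have hnaR : ∃ x ∈ R, ∃ y ∈ R, x * y ≠ y * x := by
    by_contra h
    push Not at h
    have hle : R ≤ Subgroup.zpowers z := fun c hc =>
      e.mem_zpowers_iff.2 (hcenR c hc fun x hx => h c hc x hx)
    have := Subgroup.card_le_of_le hle
    rw [Nat.card_zpowers, hz] at this
    omega
  have hRA1 : ∀ x ∈ A, x ∈ R → x = 1 := fun x hxA hxR =>
    CfsgLib.LargeEx.eq_one_of_isPGroup_two hAodd e.isPGroup hxA (hRQ hxR)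
  -- part three
  set s := g * z * g⁻¹ with hs
  have hsQ : s ∈ Q := hRQ hgR
  have hs1 : s ≠ 1 := fun h => e.ne_one (conj_eq_one_iff.1 h)
  have hsz : s ≠ z := fun h => hgZ (e.mem_center_iff.2 (Or.inr h))
  have hcardQ : 8 < Nat.card Q := lt_of_lt_of_le (by omega) ((Subgroup.card_le_of_le hRQ))
  have hC : Subgroup.centralizer (Q : Set G) ≤ Q := hL2 ▸ Subgroup.map_subtype_le _
  have hzS : z ∈ Q.map (MulAut.conj g).toMonoidHom :=
    CfsgLib.LargeEx.mem_conj_of_conj_mem e hC hCN hcardQ g hsQ hsz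
  have eS : CfsgLib.LargeEx.ExtraData (Q.map (MulAut.conj g).toMonoidHom) s := by
    have := e.map (MulAut.conj g).toMonoidHom (MulAut.conj g).injective
    have h2 : (MulAut.conj g).toMonoidHom z = s := by simp [hs]
    rw [h2] at this
    exact this
  have hsA : ∀ a ∈ A, a * s = s * a := fun a ha => Subgroup.mem_centralizer_iff.1 (hRA hgR) a ha
  have hAS : A ≤ Subgroup.normalizer ((Q.map (MulAut.conj g).toMonoidHom : Subgroup G) : Set G) := by
    rw [Subgroup.le_normalizer_iff]
    rintro a ha _ ⟨q, hq, rfl⟩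
    have hag : g⁻¹ * a * g ∈ Subgroup.centralizer ({z} : Set G) := by
      rw [Subgroup.mem_centralizer_singleton_iff]
      calc g⁻¹ * a * g * z = g⁻¹ * (a * s) * g := by rw [hs]; group
        _ = g⁻¹ * (s * a) * g := by rw [hsA a ha]
        _ = z * (g⁻¹ * a * g) := by rw [hs]; group
    refine ⟨_, (Subgroup.mem_normalizer_iff.1 (hCN hag) q).1 hq, ?_⟩
    simp only [MulEquiv.coe_toMonoidHom, MulAut.conj_apply]
    group
  have h3 : ∃ x ∈ R ⊔ ((Q).map (MulAut.conj g).toMonoidHom ⊓ Subgroup.centralizer (A : Set G)),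
      x * s * x⁻¹ = z := by
    obtain ⟨r, hr, hrs⟩ : ∃ r ∈ R, r * s ≠ s * r := by
      by_contra h
      push Not at h
      rcases hcenR s hgR (fun x hx => (h x hx).symm) with h' | h'
      · exact hs1 h'
      · exact hsz h'
    obtain ⟨q, hq, hqz⟩ : ∃ q ∈ (Q).map (MulAut.conj g).toMonoidHom ⊓
        Subgroup.centralizer (A : Set G), q * z ≠ z * q := by
      by_contra h
      push Not at h
      rcases CfsgLib.LargeEx.central_in_fixed eS hAS hAodd hsA ⟨hzS, hzCA⟩
        (fun x hx => (h x hx).symm) with h' | h'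
      · exact e.ne_one h'
      · exact hsz h'.symm
    have h1 : r * s * r⁻¹ = s * z := e.conj_eq_mul hsQ (hRQ hr) hrs
    have h2 : q * z * q⁻¹ = z * s := eS.conj_eq_mul hzS hq.1 hqz
    refine ⟨q * r, mul_mem (Subgroup.mem_sup_right hq) (Subgroup.mem_sup_left hr), ?_⟩
    calc q * r * s * (q * r)⁻¹ = q * (r * s * r⁻¹) * q⁻¹ := by group
      _ = q * (s * z) * q⁻¹ := by rw [h1]
      _ = (q * s) * (q⁻¹ * q) * z * q⁻¹ := by group
      _ = (q * s * q⁻¹) * (q * z * q⁻¹) := by group
      _ = (s * q * q⁻¹) * (z * s) := by rw [h2, eS.comm q hq.1]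
      _ = (s * z) * s := by group
      _ = z * (s * s) := by rw [← e.comm s hsQ, mul_assoc]
      _ = z := by rw [eS.sq, mul_one]
  -- the centralizer of `A ⊔ R`
  have hZle : (Subgroup.center ↥Q).map Q.subtype = Subgroup.zpowers z := e.center_eq
  have hmemD : ∀ c : G, (∀ a ∈ A, a * c = c * a) → (∀ r ∈ R, r * c = c * r) →
      c ∈ Subgroup.centralizer ((A ⊔ R : Subgroup G) : Set G) := by
    intro c h1 h2
    have hle : A ⊔ R ≤ Subgroup.centralizer ({c} : Set G) :=
      sup_le (fun a ha => Subgroup.mem_centralizer_singleton_iff.2 (h1 a ha))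
        (fun r hr => Subgroup.mem_centralizer_singleton_iff.2 (h2 r hr))
    exact Subgroup.mem_centralizer_iff.2 fun x hx => Subgroup.mem_centralizer_singleton_iff.1 (hle hx)
  set D := Subgroup.centralizer ((A ⊔ R : Subgroup G) : Set G) with hD
  have hzD : z ∈ D := hmemD z hzA fun r hr => (e.comm r (hRQ hr)).symm
  have hDle : D ≤ A ⊔ Subgroup.zpowers z := by
    set zD : ↥D := ⟨z, hzD⟩ with hzD'
    set N : Subgroup ↥D := Subgroup.zpowers zD with hN
    have hNc : N ≤ Subgroup.center ↥D := by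
      rw [hN, Subgroup.zpowers_le, Subgroup.mem_center_iff]
      intro d
      exact Subtype.ext (Subgroup.mem_centralizer_iff.1 d.2 z (Subgroup.mem_sup_right hzR)).symm
    haveI : N.Normal := ⟨fun x hx d => by
      rw [Subgroup.mem_center_iff.1 (hNc hx) d, mul_inv_cancel_right]; exact hx⟩
    have hNcard : Nat.card N = 2 := by
      rw [hN, Nat.card_zpowers, ← Subgroup.orderOf_coe]; exact hz
    have hodd : Odd N.index := by
      rw [← Nat.not_even_iff_odd]
      intro hev
      apply h4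
      rw [← N.card_mul_index, hNcard]
      obtain ⟨k, hk⟩ := hev
      exact ⟨k, by omega⟩
    obtain ⟨H, hH⟩ := Subgroup.exists_right_complement'_of_coprime (N := N)
      (by rw [hNcard]; exact Nat.coprime_two_left.2 hodd)
    have hHn : H.Normal := by
      rw [← Subgroup.normalizer_eq_top_iff, eq_top_iff, ← hH.sup_eq_top]
      exact sup_le (hNc.trans ((Subgroup.center_le_centralizer _).trans
        (Subgroup.centralizer_le_normalizer _))) Subgroup.le_normalizer
    have hHodd : Odd (Nat.card H) := by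
      rw [← Subgroup.IsComplement'.index_eq_card hH.symm]; exact hodd
    have hHO : H ≤ Cfsg.oddCore ↥D :=
      le_sSup (show H ∈ {K : Subgroup ↥D | K.Normal ∧ (Nat.card ↥K).Coprime 2} from
        ⟨hHn, Nat.coprime_two_right.2 hHodd⟩)
    have htop : D = (N ⊔ H).map D.subtype := by
      rw [hH.sup_eq_top, ← MonoidHom.range_eq_map, Subgroup.range_subtype]
    rw [htop, Subgroup.map_sup]
    refine sup_le ?_ ?_
    · rw [hN, MonoidHom.map_zpowers]; exact le_sup_right
    · exact ((Subgroup.map_mono hHO).trans hO).trans le_sup_left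
  have hzM : z ∈ M := hM ▸ Subgroup.mem_sup_left hzCA
  have hRM : R ≤ M := hM ▸ hRA.trans le_sup_left
  refine ⟨?_, ?_, h3⟩
  · rw [hZle]
    apply le_antisymm
    · refine sup_le ?_ le_sup_left
      intro c hc
      refine hDle ?_
      have := hc.2
      rwa [sup_comm] at this
    · refine sup_le le_sup_right (le_trans ?_ le_sup_left)
      rw [Subgroup.zpowers_le]
      refine ⟨hzM, ?_⟩
      rw [sup_comm]
      exact hzD
  -- the quotient
  set π := QuotientGroup.mk' (A.subgroupOf M) with hπ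
  have hker : ∀ y : ↥M, π y = 1 ↔ (y : G) ∈ A := fun y => QuotientGroup.eq_one_iff y
  have heqA : ∀ u v : ↥M, π u = π v → (v : G)⁻¹ * (u : G) ∈ A := by
    intro u v h
    have : π (v⁻¹ * u) = 1 := by rw [map_mul, map_inv, h, inv_mul_cancel]
    simpa using (hker _).1 this
  have hinj : ∀ u v : ↥M, (u : G) ∈ R → (v : G) ∈ R → π u = π v → u = v := by
    intro u v hu hv h
    exact Subtype.ext (inv_mul_eq_one.1 (hRA1 _ (heqA u v h) (mul_mem (inv_mem hv) hu))).symm
  have hfz : π ⟨z, hRM hzR⟩ ≠ 1 := fun h => e.ne_one (hRA1 z ((hker _).1 h) hzR)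
  obtain ⟨eB, hexB⟩ := CfsgLib.LargeEx.extraData_image (P := R) (M := M) e π hRQ hRM hzR hfz
    (fun c hc h => by
      rcases hcenR c hc (fun x hx => congrArg Subtype.val
        (hinj (c * ⟨x, hRM hx⟩) (⟨x, hRM hx⟩ * c) (mul_mem hc hx) (mul_mem hx hc)
          (h ⟨x, hRM hx⟩ hx))) with h' | h'
      · exact Or.inl (by rw [show c = 1 from Subtype.ext h', map_one])
      · exact Or.inr (congrArg π (Subtype.ext h')))
    (by
      obtain ⟨x, hx, y, hy, hne⟩ := hnaR
      exact ⟨⟨x, hRM hx⟩, ⟨y, hRM hy⟩, hx, hy, fun h => hne (congrArg Subtype.val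
        (hinj _ _ (mul_mem hx hy) (mul_mem hy hx) h))⟩)
  have hlift : ∀ h : ↥M ⧸ A.subgroupOf M, ∃ c : ↥M,
      (c : G) ∈ Subgroup.centralizer (A : Set G) ∧ π c = h := by
    intro h
    obtain ⟨m, rfl⟩ := QuotientGroup.mk'_surjective (A.subgroupOf M) h
    have hm : (m : G) ∈ Subgroup.centralizer (A : Set G) ⊔ A := hM ▸ m.2
    obtain ⟨c, hc, a, ha, hca⟩ := CfsgLib.CoprimeAction.exists_mul_of_mem_sup
      (Subgroup.centralizer_le_normalizer _) hm
    refine ⟨⟨c, hM ▸ Subgroup.mem_sup_left hc⟩, hc, ?_⟩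
    refine (QuotientGroup.eq).2 ?_
    show c⁻¹ * (m : G) ∈ A
    rw [← hca, ← mul_assoc, inv_mul_cancel, one_mul]
    exact ha
  have hexact : ∀ c r : ↥M, (c : G) ∈ Subgroup.centralizer (A : Set G) → (r : G) ∈ R →
      π c * π r = π r * π c → (c : G) * r = r * c := by
    intro c r hc hr h
    have hra : (r : G) ∈ Subgroup.centralizer (A : Set G) := hRA hr
    set a := (r : G)⁻¹ * ((c : G) * r * (c : G)⁻¹) with ha_def
    have haA : a ∈ A := by
      have := heqA (c * r * c⁻¹) r (by rw [map_mul, map_mul, map_inv, h, mul_inv_cancel_right])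
      simpa [ha_def] using this
    have hcomm : Commute (r : G) a := (Subgroup.mem_centralizer_iff.1 hra a haA).symm
    have hrN : (r : G) ^ Nat.card Q = 1 :=
      orderOf_dvd_iff_pow_eq_one.1 (Subgroup.orderOf_dvd_natCard Q (hRQ hr))
    have h1 : (r : G) * a = c * r * (c : G)⁻¹ := by rw [ha_def]; group
    have h2 : a ^ Nat.card Q = 1 := by
      have h3 : ((r : G) * a) ^ Nat.card Q = 1 := by
        rw [h1, conj_pow, hrN]; group
      rw [hcomm.mul_pow, hrN, one_mul] at h3
      exact h3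
    have ha1 : a = 1 := orderOf_eq_one_iff.1 <| Nat.eq_one_of_dvd_coprimes hcop
      (Subgroup.orderOf_dvd_natCard A haA) (orderOf_dvd_of_pow_eq_one h2)
    rw [ha1, mul_one] at h1
    exact (mul_inv_eq_iff_eq_mul.1 h1.symm)
  have hL2B : Subgroup.centralizer (((R.subgroupOf M).map π) : Set (↥M ⧸ A.subgroupOf M)) =
      (Subgroup.center ↥((R.subgroupOf M).map π)).map ((R.subgroupOf M).map π).subtype := by
    apply le_antisymm
    · intro h hh
      rw [eB.center_eq]
      obtain ⟨c, hc, rfl⟩ := hlift h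
      have hcD : (c : G) ∈ D := hmemD c (Subgroup.mem_centralizer_iff.1 hc) fun r hr =>
        (hexact c ⟨r, hRM hr⟩ hc hr
          ((Subgroup.mem_centralizer_iff.1 hh _ ⟨⟨r, hRM hr⟩, hr, rfl⟩).symm)).symm
      have hle : A ⊔ Subgroup.zpowers z ≤
          ((Subgroup.zpowers (π ⟨z, hRM hzR⟩)).comap π).map M.subtype := by
        refine sup_le (fun a ha => ?_) (Subgroup.zpowers_le.2 ?_)
        · refine ⟨⟨a, hM ▸ Subgroup.mem_sup_right ha⟩, ?_, rfl⟩
          show π _ ∈ Subgroup.zpowers _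
          rw [(hker ⟨a, hM ▸ Subgroup.mem_sup_right ha⟩).2 ha]
          exact one_mem _
        · exact ⟨⟨z, hRM hzR⟩, Subgroup.mem_zpowers _, rfl⟩
      obtain ⟨y, hy, hyc⟩ := hle (hDle hcD)
      obtain rfl : y = c := Subtype.ext hyc
      exact hy
    · intro h hh
      rw [Subgroup.mem_centralizer_iff]
      intro x hx
      rcases eB.mem_center_iff.1 hh with rfl | rfl
      · simp
      · exact (eB.comm x hx).symm
  have hNB : Subgroup.centralizer ({π ⟨z, hRM hzR⟩} : Set (↥M ⧸ A.subgroupOf M)) ≤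
      Subgroup.normalizer (((R.subgroupOf M).map π : Subgroup _) : Set (↥M ⧸ A.subgroupOf M)) := by
    rw [Subgroup.le_normalizer_iff]
    rintro h hh _ ⟨r, hr, rfl⟩
    obtain ⟨c, hc, rfl⟩ := hlift h
    have hcz : (c : G) ∈ Subgroup.centralizer ({z} : Set G) :=
      Subgroup.mem_centralizer_singleton_iff.2
        (hexact c ⟨z, hRM hzR⟩ hc hzR (Subgroup.mem_centralizer_singleton_iff.1 hh))
    refine ⟨c * r * c⁻¹, ?_, by rw [map_mul, map_mul, map_inv]⟩
    show (c : G) * r * (c : G)⁻¹ ∈ R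
    rw [hR]
    exact ⟨(Subgroup.mem_normalizer_iff.1 (hCN hcz) r).1 (hRQ hr),
      (Subgroup.centralizer (A : Set G)).mul_mem ((Subgroup.centralizer (A : Set G)).mul_mem hc (hRA hr))
        ((Subgroup.centralizer (A : Set G)).inv_mem hc)⟩
  have hcardB : 8 < Nat.card ↥((R.subgroupOf M).map π) := by
    have hbij : Function.Bijective (fun r : ↥(R.subgroupOf M) =>
        (⟨π r, Subgroup.mem_map_of_mem π r.2⟩ : ↥((R.subgroupOf M).map π))) := by
      refine ⟨fun u v h => Subtype.ext (hinj _ _ u.2 v.2 (congrArg Subtype.val h)), ?_⟩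
      rintro ⟨_, r, hr, rfl⟩
      exact ⟨⟨r, hr⟩, rfl⟩
    rw [← Nat.card_eq_of_bijective _ hbij, Nat.card_congr (Subgroup.subgroupOfEquivOfLe hRM).toEquiv]
    omega
  obtain ⟨x, hx, hxs⟩ := h3
  have hxM : x ∈ M := hM ▸ Subgroup.mem_sup_left ((sup_le hRA inf_le_right) hx)
  have hconj : π ⟨x, hxM⟩⁻¹ * π ⟨z, hRM hzR⟩ * (π ⟨x, hxM⟩⁻¹)⁻¹ = π ⟨s, hRM hgR⟩ := by
    rw [← map_inv, ← map_mul, ← map_mul]
    refine congrArg π (Subtype.ext ?_)
    show x⁻¹ * z * (x⁻¹)⁻¹ = s
    rw [← hxs]; group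
  refine CfsgLib.LargeEx.large_of_conj eB hexB hL2B hNB hcardB (π ⟨x, hxM⟩⁻¹) ?_ ?_
  · rw [hconj]; exact ⟨_, hgR, rfl⟩
  · rw [hconj]
    exact fun h => hsz (congrArg Subtype.val (hinj _ _ hgR hzR h))

end Cfsg.Agent.S5428
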