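import Cfsg.Statements.S5429
import Cfsg.Agent.LargeEx.Quotient

set_option autoImplicit false
open Cfsg

namespace Cfsg.Agent.S5429

/-- Let z be an involution of the finite group G with centralizer C whose generalized Fitting subgroup Q is extraspecial of width at least 3 (order 2^(2w+1), w ≥ 3); let g be an element of G with g z g⁻¹ in Q but outside the centre Z of Q, and t an involution lying in both Q and g Q g⁻¹ that is not conjugate to z; write P for the centralizer of t in Q and suppose that the elements of C acting trivially by conjugation on P modulo the subgroup generated by t and z are exactly the elements of Q. Then the image of P in the centralizer of t modulo the subgroup generated by t is a large extraspecial 2-subgroup there, and g z g⁻¹ is conjugate to z inside the subgroup generated by P and the centralizer of t in g Q g⁻¹. -/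
theorem result {G : Type*} [Group G] [Finite G] (z : G) (hz : orderOf z = 2) (Q : Subgroup G) (hQC : Q ≤ Subgroup.centralizer ({z} : Set G)) (hF : (Cfsg.generalizedFittingSubgroup ↥(Subgroup.centralizer ({z} : Set G))).map (Subgroup.centralizer ({z} : Set G)).subtype = Q) (hQ : Cfsg.IsExtraspecial 2 ↥Q) (w : ℕ) (hw : 3 ≤ w) (hcard : Nat.card ↥Q = 2 ^ (2 * w + 1)) (g : G) (hgQ : g * z * g⁻¹ ∈ Q) (hgZ : g * z * g⁻¹ ∉ ((Subgroup.center ↥Q).map Q.subtype)) (t : G) (ht : orderOf t = 2) (htQ : t ∈ Q ⊓ (Q).map (MulAut.conj g).toMonoidHom) (htz : ¬ IsConj z t) (P : Subgroup G) (hP : P = Q ⊓ Subgroup.centralizer ({t} : Set G)) (hCP : ∀ c ∈ Subgroup.centralizer ({z} : Set G), (∀ x ∈ P, ∃ y ∈ Subgroup.closure ({t, z} : Set G), c * x * c⁻¹ = x * y) ↔ c ∈ Q) [hn : ((Subgroup.zpowers t).subgroupOf (Subgroup.centralizer ({t} : Set G))).Normal] : Cfsg.IsLargeExtraspecial ((P.subgroupOf (Subgroup.centralizer ({t} : Set G))).map (QuotientGroup.mk' ((Subgroup.zpowers t).subgroupOf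 (Subgroup.centralizer ({t} : Set G))))) ∧ ∃ x ∈ P ⊔ ((Q).map (MulAut.conj g).toMonoidHom ⊓ Subgroup.centralizer ({t} : Set G)), x * (g * z * g⁻¹) * x⁻¹ = z := by
  classical
  haveI : Fact (Nat.Prime 2) := ⟨Nat.prime_two⟩
  obtain ⟨e, hL2, hCN⟩ := CfsgLib.LargeEx.setup_of_fstar z hz Q hQC hF hQ
  set H := Subgroup.centralizer ({t} : Set G) with hH
  have ht1 : t ≠ 1 := fun h => by simp [h] at ht
  have ht2 : t * t = 1 := by rw [← pow_two, ← ht]; exact pow_orderOf_eq_one t
  have htz' : t ≠ z := fun h => htz (h ▸ IsConj.refl z)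
  have hzt : z * t = t * z := e.comm t htQ.1
  obtain ⟨q0, hq0, hq0t⟩ := e.exists_conj_mul htQ.1 ht1 htz'
  have htzz : ∀ g' : G, g' * z * g'⁻¹ ≠ t := fun g' h => htz (isConj_iff.2 ⟨g', h⟩)
  have htzc : ∀ g' : G, g' * z * g'⁻¹ ≠ t * z := by
    intro g' h
    refine htzz (q0⁻¹ * g') ?_
    calc q0⁻¹ * g' * z * (q0⁻¹ * g')⁻¹ = q0⁻¹ * (g' * z * g'⁻¹) * q0 := by group
      _ = q0⁻¹ * (q0 * t * q0⁻¹) * q0 := by rw [h, hq0t]
      _ = t := by group
  have hPQ : P ≤ Q := hP ▸ inf_le_left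
  have hPH : P ≤ H := hP ▸ inf_le_right
  have hmemP : ∀ x, x ∈ P ↔ x ∈ Q ∧ x * t = t * x := by
    intro x; rw [hP, Subgroup.mem_inf, Subgroup.mem_centralizer_singleton_iff]
  have hzP : z ∈ P := (hmemP z).2 ⟨e.mem, hzt⟩
  have hcenP : ∀ c ∈ P, (∀ x ∈ P, c * x = x * c) → c = 1 ∨ c = z ∨ c = t ∨ c = t * z := by
    intro c hc h
    exact e.central_in_centralizer htQ.1 ht1 htz' ((hmemP c).1 hc).1 ((hmemP c).1 hc).2
      fun v hv hvt => h v ((hmemP v).2 ⟨hv, hvt⟩)
  set s := g * z * g⁻¹ with hs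
  have hs1 : s ≠ 1 := fun h => e.ne_one (conj_eq_one_iff.1 h)
  have hsz : s ≠ z := fun h => hgZ (e.mem_center_iff.2 (Or.inr h))
  have hcardQ : 128 ≤ Nat.card Q := by
    rw [hcard]
    exact le_trans (by norm_num) (Nat.pow_le_pow_right (by norm_num : 1 ≤ 2)
      (show 7 ≤ 2 * w + 1 by omega))
  have hC : Subgroup.centralizer (Q : Set G) ≤ Q := hL2 ▸ Subgroup.map_subtype_le _
  have hzS : z ∈ Q.map (MulAut.conj g).toMonoidHom :=
    CfsgLib.LargeEx.mem_conj_of_conj_mem e hC hCN (by omega) g hgQ hsz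
  have eS : CfsgLib.LargeEx.ExtraData (Q.map (MulAut.conj g).toMonoidHom) s := by
    have := e.map (MulAut.conj g).toMonoidHom (MulAut.conj g).injective
    have h2 : (MulAut.conj g).toMonoidHom z = s := by simp [hs]
    rw [h2] at this
    exact this
  have hst : s * t = t * s := eS.comm t htQ.2
  have hts : t ≠ s := fun h => htzz g h.symm
  have hsP : s ∈ P := (hmemP s).2 ⟨hgQ, hst⟩
  obtain ⟨r, hr, hrs⟩ : ∃ r ∈ P, r * s ≠ s * r := by
    by_contra h
    push Not at h
    rcases hcenP s hsP (fun x hx => (h x hx).symm) with h' | h' | h' | h'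
    · exact hs1 h'
    · exact hsz h'
    · exact htzz g h'
    · exact htzc g h'
  have h1 : r * s * r⁻¹ = s * z := e.conj_eq_mul hgQ (hPQ hr) hrs
  have h3 : ∃ x ∈ P ⊔ ((Q).map (MulAut.conj g).toMonoidHom ⊓ Subgroup.centralizer ({t} : Set G)),
      x * s * x⁻¹ = z := by
    obtain ⟨q, hq, hqz⟩ : ∃ q ∈ (Q).map (MulAut.conj g).toMonoidHom ⊓
        Subgroup.centralizer ({t} : Set G), q * z ≠ z * q := by
      by_contra h
      push Not at h
      rcases eS.central_in_centralizer htQ.2 ht1 hts hzS hzt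
        (fun v hv hvt => (h v ⟨hv, Subgroup.mem_centralizer_singleton_iff.2 hvt⟩).symm)
        with h' | h' | h' | h'
      · exact e.ne_one h'
      · exact hsz h'.symm
      · exact htz' h'.symm
      · refine htzz (r * g) ?_
        calc r * g * z * (r * g)⁻¹ = r * s * r⁻¹ := by rw [hs]; group
          _ = s * z := h1
          _ = s * (t * s) := by rw [← h']
          _ = (s * s) * t := by rw [← hst]; group
          _ = t := by rw [eS.sq, one_mul]
    have h2 : q * z * q⁻¹ = z * s := eS.conj_eq_mul hzS hq.1 hqz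
    refine ⟨q * r, mul_mem (Subgroup.mem_sup_right hq) (Subgroup.mem_sup_left hr), ?_⟩
    calc q * r * s * (q * r)⁻¹ = q * (r * s * r⁻¹) * q⁻¹ := by group
      _ = (q * s * q⁻¹) * (q * z * q⁻¹) := by rw [h1]; group
      _ = (s * q * q⁻¹) * (z * s) := by rw [h2, eS.comm q hq.1]
      _ = (s * z) * s := by group
      _ = z * (s * s) := by rw [← e.comm s hgQ, mul_assoc]
      _ = z := by rw [eS.sq, mul_one]
  refine ⟨?_, h3⟩
  set π := QuotientGroup.mk' ((Subgroup.zpowers t).subgroupOf H) with hπ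
  have htpow : ∀ y : G, y ∈ Subgroup.zpowers t ↔ y = 1 ∨ y = t := by
    intro y
    constructor
    · rintro ⟨k, rfl⟩
      rcases Int.even_or_odd k with ⟨j, rfl⟩ | ⟨j, rfl⟩
      · left
        show t ^ (j + j) = 1
        rw [zpow_add, ← (Commute.refl t).mul_zpow, ht2, one_zpow]
      · right
        show t ^ (2 * j + 1) = t
        rw [zpow_add, zpow_mul, zpow_one, zpow_two, ht2, one_zpow, one_mul]
    · rintro (rfl | rfl)
      · exact one_mem _
      · exact Subgroup.mem_zpowers _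
  have hker : ∀ y : ↥H, π y = 1 ↔ (y : G) = 1 ∨ (y : G) = t := fun y =>
    (QuotientGroup.eq_one_iff y).trans (htpow y)
  have heqA : ∀ u v : ↥H, π u = π v → (u : G) = v ∨ (u : G) = v * t := by
    intro u v h
    have h' : π (v⁻¹ * u) = 1 := by rw [map_mul, map_inv, h, inv_mul_cancel]
    rcases (hker _).1 h' with h'' | h''
    · exact Or.inl (inv_mul_eq_one.1 (by simpa using h'')).symm
    · exact Or.inr (by rw [← h'']; simp)
  have hzH : z ∈ H := hPH hzP
  have hbr : ∀ u v : ↥H, (u : G) ∈ P → (v : G) ∈ P → π (u * v) = π (v * u) →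
      (u : G) * v = v * u := by
    intro u v hu hv h
    rcases e.bracket u (hPQ hu) v (hPQ hv) with h' | h'
    · exact h'
    · rcases heqA _ _ h with h'' | h''
      · exact h''
      · have : (v : G) * u * z = v * u * t := h'.symm.trans (by simpa using h'')
        exact absurd (mul_left_cancel this).symm htz'
  have hfz : π ⟨z, hzH⟩ ≠ 1 := fun h => ((hker _).1 h).elim e.ne_one (fun h' => htz' h'.symm)
  have hπt : ∀ hh : t ∈ H, π ⟨t, hh⟩ = 1 := fun hh => (hker _).2 (Or.inr rfl)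
  have htH : t ∈ H := Subgroup.mem_centralizer_singleton_iff.2 rfl
  have hfour : ∀ c : ↥H, ((c : G) = 1 ∨ (c : G) = z ∨ (c : G) = t ∨ (c : G) = t * z) →
      π c = 1 ∨ π c = π ⟨z, hzH⟩ := by
    intro c hc
    rcases hc with h | h | h | h
    · exact Or.inl ((hker _).2 (Or.inl h))
    · exact Or.inr (congrArg π (Subtype.ext h))
    · exact Or.inl ((hker _).2 (Or.inr h))
    · refine Or.inr ?_
      rw [show c = ⟨t, htH⟩ * ⟨z, hzH⟩ from Subtype.ext h, map_mul, hπt, one_mul]
  obtain ⟨eB, hexB⟩ := CfsgLib.LargeEx.extraData_image (P := P) (M := H) e π hPQ hPH hzP hfz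
    (fun c hc h => hfour c (hcenP c hc fun x hx => hbr c ⟨x, hPH hx⟩ hc hx (h ⟨x, hPH hx⟩ hx)))
    (by
      obtain ⟨v, hv, u, hu, hvt, hut, hne⟩ := e.centralizer_nonabelian (by omega) htQ.1 ht1 htz'
      exact ⟨⟨v, hPH ((hmemP v).2 ⟨hv, hvt⟩)⟩, ⟨u, hPH ((hmemP u).2 ⟨hu, hut⟩)⟩,
        (hmemP v).2 ⟨hv, hvt⟩, (hmemP u).2 ⟨hu, hut⟩,
        fun h => hne (hbr _ _ ((hmemP v).2 ⟨hv, hvt⟩) ((hmemP u).2 ⟨hu, hut⟩) h)⟩)
  have hexact : ∀ c : ↥H, π c * π ⟨z, hzH⟩ = π ⟨z, hzH⟩ * π c →
      (c : G) ∈ Subgroup.centralizer ({z} : Set G) := by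
    intro c h
    rw [Subgroup.mem_centralizer_singleton_iff]
    rw [← map_mul, ← map_mul] at h
    rcases heqA _ _ h with h' | h'
    · simpa using h'
    · exfalso
      refine htzc (c : G) ?_
      simp only [Subgroup.coe_mul] at h'
      calc (c : G) * z * (c : G)⁻¹ = z * c * t * (c : G)⁻¹ := by rw [h']
        _ = z * ((c : G) * t) * (c : G)⁻¹ := by group
        _ = z * (t * c) * (c : G)⁻¹ := by rw [Subgroup.mem_centralizer_singleton_iff.1 c.2]
        _ = t * z := by rw [← hzt]; group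
  have hL2B : Subgroup.centralizer (((P.subgroupOf H).map π) : Set (↥H ⧸ (Subgroup.zpowers t).subgroupOf H)) =
      (Subgroup.center ↥((P.subgroupOf H).map π)).map ((P.subgroupOf H).map π).subtype := by
    apply le_antisymm
    · intro h hh
      obtain ⟨c, rfl⟩ := QuotientGroup.mk'_surjective ((Subgroup.zpowers t).subgroupOf H) h
      have hcomm : ∀ x : ↥H, (x : G) ∈ P → π c * π x = π x * π c := fun x hx =>
        (Subgroup.mem_centralizer_iff.1 hh _ ⟨x, hx, rfl⟩).symm
      have hcz := hexact c (hcomm ⟨z, hzH⟩ hzP)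
      have hcQ : (c : G) ∈ Q := by
        refine (hCP c hcz).1 fun x hx => ?_
        refine ⟨x⁻¹ * ((c : G) * x * (c : G)⁻¹), ?_, by group⟩
        have h := hcomm ⟨x, hPH hx⟩ hx
        rw [← map_mul, ← map_mul] at h
        rcases heqA _ _ h with h' | h' <;> simp only [Subgroup.coe_mul] at h' <;> rw [h']
        · convert one_mem (Subgroup.closure ({t, z} : Set G)) using 1
          group
        · rw [show x⁻¹ * (x * c * t * (c : G)⁻¹) = t from
            calc x⁻¹ * (x * c * t * (c : G)⁻¹) = x⁻¹ * (x * ((c : G) * t) * (c : G)⁻¹) := by group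
              _ = x⁻¹ * (x * (t * c) * (c : G)⁻¹) := by
                rw [Subgroup.mem_centralizer_singleton_iff.1 c.2]
              _ = t := by group]
          exact Subgroup.subset_closure (show t ∈ ({t, z} : Set G) from Or.inl rfl)
      have hcP : (c : G) ∈ P := (hmemP _).2 ⟨hcQ, Subgroup.mem_centralizer_singleton_iff.1 c.2⟩
      refine eB.mem_center_iff.2 (hfour c (hcenP c hcP fun x hx => hbr c ⟨x, hPH hx⟩ hcP hx ?_))
      rw [map_mul, map_mul]
      exact hcomm ⟨x, hPH hx⟩ hx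
    · intro h hh
      rw [Subgroup.mem_centralizer_iff]
      intro x hx
      rcases eB.mem_center_iff.1 hh with rfl | rfl
      · simp
      · exact (eB.comm x hx).symm
  have hNB : Subgroup.centralizer ({π ⟨z, hzH⟩} : Set (↥H ⧸ (Subgroup.zpowers t).subgroupOf H)) ≤
      Subgroup.normalizer (((P.subgroupOf H).map π : Subgroup _) :
        Set (↥H ⧸ (Subgroup.zpowers t).subgroupOf H)) := by
    rw [Subgroup.le_normalizer_iff]
    rintro h hh _ ⟨p, hp, rfl⟩
    obtain ⟨c, rfl⟩ := QuotientGroup.mk'_surjective ((Subgroup.zpowers t).subgroupOf H) h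
    have hcz := hexact c (Subgroup.mem_centralizer_singleton_iff.1 hh)
    refine ⟨c * p * c⁻¹, ?_, by rw [map_mul, map_mul, map_inv]⟩
    show (c : G) * p * (c : G)⁻¹ ∈ P
    rw [hP]
    exact ⟨(Subgroup.mem_normalizer_iff.1 (hCN hcz) p).1 (hPQ hp), (c * p * c⁻¹ : ↥H).2⟩
  have hcardP : Nat.card Q ≤ 2 * Nat.card P := by
    let F : Bool × ↥P → ↥Q := fun bp =>
      if bp.1 then ⟨q0 * bp.2, mul_mem hq0 (hPQ bp.2.2)⟩ else ⟨bp.2, hPQ bp.2.2⟩
    have hF : Function.Surjective F := by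
      rintro ⟨x, hx⟩
      by_cases hxt : x * t = t * x
      · exact ⟨(false, ⟨x, (hmemP x).2 ⟨hx, hxt⟩⟩), rfl⟩
      · have hxc : x * t * x⁻¹ = t * z := e.conj_eq_mul htQ.1 hx hxt
        have hm : q0⁻¹ * x ∈ P := by
          refine (hmemP _).2 ⟨mul_mem (inv_mem hq0) hx, ?_⟩
          calc q0⁻¹ * x * t = q0⁻¹ * (x * t * x⁻¹) * x := by group
            _ = q0⁻¹ * (q0 * t * q0⁻¹) * x := by rw [hxc, hq0t]
            _ = t * (q0⁻¹ * x) := by group
        exact ⟨(true, ⟨_, hm⟩), Subtype.ext (by simp [F])⟩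
    calc Nat.card Q ≤ Nat.card (Bool × ↥P) := Nat.card_le_card_of_surjective F hF
      _ = 2 * Nat.card P := by rw [Nat.card_prod, Nat.card_eq_fintype_card, Fintype.card_bool]
  have hcardB : Nat.card P ≤ Nat.card ↥((P.subgroupOf H).map π) * 2 := by
    set ψ := π.comp (P.subgroupOf H).subtype with hψ
    have hk : Nat.card ψ.ker ≤ 2 := by
      have hinj : Function.Injective (fun k : ψ.ker => (⟨((k : ↥(P.subgroupOf H)) : ↥H), (htpow _).2
          ((hker _).1 k.2)⟩ : Subgroup.zpowers t)) := fun a b h =>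
        Subtype.ext (Subtype.ext (Subtype.ext (by simpa using congrArg Subtype.val h)))
      have := Nat.card_le_card_of_injective _ hinj
      rwa [Nat.card_zpowers, ht] at this
    have hr : ψ.range = (P.subgroupOf H).map π := by
      rw [hψ, MonoidHom.range_comp, Subgroup.range_subtype]
    rw [← Nat.card_congr (Subgroup.subgroupOfEquivOfLe hPH).toEquiv,
      Subgroup.card_eq_card_quotient_mul_card_subgroup ψ.ker,
      Nat.card_congr (QuotientGroup.quotientKerEquivRange ψ).toEquiv, hr]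
    exact Nat.mul_le_mul_left _ hk
  obtain ⟨x, hx, hxs⟩ := h3
  have hxH : x ∈ H := (sup_le hPH inf_le_right) hx
  have hconj : π ⟨x, hxH⟩⁻¹ * π ⟨z, hzH⟩ * (π ⟨x, hxH⟩⁻¹)⁻¹ = π ⟨s, hPH hsP⟩ := by
    rw [← map_inv, ← map_mul, ← map_mul]
    refine congrArg π (Subtype.ext ?_)
    show x⁻¹ * z * (x⁻¹)⁻¹ = s
    rw [← hxs]; group
  have h8 : 8 < Nat.card ↥((P.subgroupOf H).map π) := by omega
  refine CfsgLib.LargeEx.large_of_conj eB hexB hL2B hNB h8 (π ⟨x, hxH⟩⁻¹) ?_ ?_
  · rw [hconj]; exact ⟨_, hsP, rfl⟩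
  · rw [hconj]
    intro h
    rcases heqA _ _ h with h' | h'
    · exact hsz h'
    · exact htzc g (h'.trans hzt)

end Cfsg.Agent.S5429
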