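import Cfsg.Statements.S5430
import Cfsg.Agent.LargeEx.PairS3

set_option autoImplicit false
open Cfsg

namespace Cfsg.Agent.S5430

open CfsgLib.LargeEx

section
variable {G : Type*} [Group G]

lemma perm3_fill : ∀ π ρ τ : Equiv.Perm (Fin 3), π ^ 2 = 1 → ρ ^ 2 = 1 → π * ρ ≠ ρ * π →
    τ = 1 ∨ τ = π ∨ τ = ρ ∨ τ = π * ρ ∨ τ = ρ * π ∨ τ = π * ρ * π := by decide +kernel

lemma perm3_core : ∀ σ : Equiv.Perm (Fin 3), σ ^ 2 = 1 → σ ≠ 1 → ∃ τ : Equiv.Perm (Fin 3), (σ * (τ * σ * τ⁻¹)) ^ 2 ≠ 1 := by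
  decide +kernel

/-- The action by conjugation on a finite invariant set, transported to `Fin 3`. -/
lemma exists_hom (X : Subgroup G) (f : Fin 3 → G) (hf : Function.Injective f)
    (hinv : ∀ n ∈ X, ∀ i, ∃ j, n * f i * n⁻¹ = f j) :
    ∃ ψ : ↥X →* Equiv.Perm (Fin 3), ∀ (n : ↥X) i, f (ψ n i) = (n : G) * f i * (n : G)⁻¹ := by
  choose j hj using hinv
  let F : ↥X → Fin 3 → Fin 3 := fun n i => j n n.2 i
  have hF : ∀ n i, f (F n i) = (n : G) * f i * (n : G)⁻¹ := fun n i => (hj n n.2 i).symm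
  have hone : ∀ i, F 1 i = i := fun i => hf (by rw [hF]; simp)
  have hmul : ∀ m n i, F (m * n) i = F m (F n i) := fun m n i => hf (by
    rw [hF, hF, hF]; simp [mul_assoc])
  refine ⟨{ toFun := fun n => ⟨F n, F n⁻¹, fun i => by rw [← hmul, inv_mul_cancel, hone],
              fun i => by rw [← hmul, mul_inv_cancel, hone]⟩
            map_one' := Equiv.ext hone
            map_mul' := fun m n => Equiv.ext (hmul m n) }, hF⟩

end

/-- Let Q be a large extraspecial 2-subgroup of the finite group G (extraspecial; centralizer equal to its centre; normal in the centralizer of its centre; normalizing no non-trivial subgroup of odd order) with centre generated by z, an involution, of width w ≥ 2 (order 2^(2w+1)); let g be an element outside the centralizer H of z with g z g⁻¹ in Q; write V for the subgroup generated by z and g z g⁻¹, X for the subgroup generated by Q and g Q g⁻¹, R for the subgroup generated by the centralizer of z in g Q g⁻¹ and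 the centralizer of g z g⁻¹ in Q, and E for the intersection of Q and g Q g⁻¹. Then R is the centralizer of V in X and is the largest normal 2-subgroup of X, and X/R is isomorphic to the symmetric group of degree 3; moreover the normalizer of V is the product of X and the centralizer of V in H, X is normal in it, and modulo R it is the direct product of X/R and of the centralizer of V in H modulo R. -/
theorem result {G : Type*} [Group G] [Finite G] (Q : Subgroup G) (hQ : Cfsg.IsLargeExtraspecial Q) (z : G) (hz : ((Subgroup.center ↥Q).map Q.subtype) = Subgroup.zpowers z) (hz2 : orderOf z = 2) (w : ℕ) (hw : 2 ≤ w) (hcard : Nat.card ↥Q = 2 ^ (2 * w + 1)) (g : G) (hgH : g ∉ Subgroup.centralizer ({z} : Set G)) (hgQ : g * z * g⁻¹ ∈ Q) (V X R E : Subgroup G) (hV : V = Subgroup.closure ({z, g * z * g⁻¹} : Set G)) (hX : X = Q ⊔ (Q).map (MulAut.conj g).toMonoidHom) (hR : R = ((Q).map (MulAut.conj g).toMonoidHom ⊓ Subgroup.centralizer ({z} : Set G))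 ⊔ (Q ⊓ Subgroup.centralizer ({g * z * g⁻¹} : Set G))) (hE : E = Q ⊓ (Q).map (MulAut.conj g).toMonoidHom) : R = X ⊓ Subgroup.centralizer (V : Set G) ∧ R = (Cfsg.pCore 2 ↥X).map X.subtype ∧ (∃ h : (R.subgroupOf X).Normal, Nonempty (↥X ⧸ R.subgroupOf X ≃* Equiv.Perm (Fin 3))) ∧ Subgroup.normalizer (V : Set G) = X ⊔ (Subgroup.centralizer ({z} : Set G) ⊓ Subgroup.centralizer (V : Set G)) ∧ (∀ y ∈ Subgroup.normalizer (V : Set G), ∀ x ∈ X, y * x * y⁻¹ ∈ X) ∧ R ≤ Subgroup.centralizer ({z} : Set G) ⊓ Subgroup.centralizer (V : Set G) ∧ (∀ x ∈ X, ∀ c ∈ Subgroup.centralizer ({z} : Set G) ⊓ Subgroup.centralizer (V : Set G), x * c * x⁻¹ * c⁻¹ ∈ R) ∧ X ⊓ (Subgroup.centralizer ({z} : Set G) ⊓ Subgroup.centralizer (V : Set G)) = R := by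
  set s := g * z * g⁻¹ with hs
  set P := Q.map (MulAut.conj g).toMonoidHom with hP
  have h : Pair Q P z s := pair_of_large hQ hz hz2 hw hcard hgH hgQ
  have hR' : R = rad Q P z s := hR
  subst hR'
  subst hX
  obtain ⟨x, hx, hxne, hxc⟩ := exists_outside h
  obtain ⟨y, hy, hyne, hyc⟩ := exists_outside h.symm
  have hzs : z * s = s * z := h.e.comm s h.sQ
  have hxz : x * z * x⁻¹ = z := by rw [← h.e.comm x hx, mul_inv_cancel_right]
  have hys : y * s * y⁻¹ = s := by rw [← h.f.comm y hy, mul_inv_cancel_right]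
  have hsz1 : s * z ≠ 1 := fun e => h.ne (by rw [mul_eq_one_iff_eq_inv.1 e, h.e.inv_eq])
  have hszs : s * z ≠ s := fun e => h.e.ne_one (mul_eq_left.1 e)
  have hszz : s * z ≠ z := fun e => h.f.ne_one (mul_eq_right.1 e)
  have hCV : Subgroup.centralizer (V : Set G) = CV z s := by
    ext c
    rw [hV, Subgroup.centralizer_closure, Subgroup.mem_centralizer_iff, mem_CV]
    constructor
    · intro hc
      exact ⟨(hc z (Or.inl rfl)).symm, (hc s (Or.inr rfl)).symm⟩
    · rintro ⟨h1, h2⟩ t (rfl | rfl)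
      exacts [h1.symm, h2.symm]
  have hHV : Subgroup.centralizer ({z} : Set G) ⊓ Subgroup.centralizer (V : Set G) = CV z s := by
    rw [hCV]; exact inf_eq_right.2 inf_le_left
  have hzV : z ∈ V := hV ▸ Subgroup.subset_closure (Or.inl rfl)
  have hsV : s ∈ V := hV ▸ Subgroup.subset_closure (Or.inr rfl)
  have hVfour : ∀ t, t ∈ V ↔ t = 1 ∨ t = z ∨ t = s ∨ t = s * z := fun t => by rw [hV]; exact mem_V_iff h
  let f : Fin 3 → G := ![z, s, s * z]
  have hfinj : Function.Injective f := by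
    intro i j e
    fin_cases i <;> fin_cases j <;> simp [f] at e ⊢ <;>
      first
        | exact h.ne e
        | exact h.ne e.symm
        | exact hszz e
        | exact hszz e.symm
        | exact hszs e
        | exact hszs e.symm
        | exact h.e.ne_one e
        | exact h.e.ne_one e.symm
        | exact h.f.ne_one e
        | exact h.f.ne_one e.symm
  have hXN : ∀ n ∈ Q ⊔ P, n ∈ Subgroup.normalizer (V : Set G) := by
    have key : ∀ n, (∃ u ∈ V, n * z * n⁻¹ = u) → (∃ u ∈ V, n * s * n⁻¹ = u) → n ∈ Subgroup.normalizer (V : Set G) := by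
      rintro n ⟨u, hu, e1⟩ ⟨v, hv, e2⟩
      have hsub : V.map (MulAut.conj n).toMonoidHom ≤ V := by
        rw [hV, MonoidHom.map_closure, Subgroup.closure_le]
        rintro _ ⟨t, ht, rfl⟩
        rcases ht with rfl | rfl
        · show n * _ * n⁻¹ ∈ Subgroup.closure _
          rw [← hV, e1]; exact hu
        · show n * _ * n⁻¹ ∈ Subgroup.closure _
          rw [← hV, e2]; exact hv
      exact Subgroup.mem_normalizer_iff_map_conj_eq.2 (Subgroup.eq_of_le_of_card_ge hsub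
        (le_of_eq (Nat.card_congr (Subgroup.equivMapOfInjective V _ (MulAut.conj n).injective).toEquiv)))
    intro n hn
    refine (sup_le (c := Subgroup.normalizer (V : Set G)) (fun q hq => key q ⟨z, hzV, ?_⟩ ?_)
      (fun q hq => key q ?_ ⟨s, hsV, ?_⟩)) hn
    · rw [← h.e.comm q hq, mul_inv_cancel_right]
    · rcases conj_s h hq with e | e
      · exact ⟨s, hsV, e⟩
      · exact ⟨s * z, mul_mem hsV hzV, e⟩
    · rcases conj_s h.symm hq with e | e
      · exact ⟨z, hzV, e⟩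
      · exact ⟨z * s, mul_mem hzV hsV, e⟩
    · rw [← h.f.comm q hq, mul_inv_cancel_right]
  have hinv : ∀ n ∈ Q ⊔ P, ∀ i, ∃ j, n * f i * n⁻¹ = f j := by
    intro n hn i
    have hfi : f i ∈ V ∧ f i ≠ 1 := by
      fin_cases i <;> simp [f]
      exacts [⟨hzV, h.e.ne_one⟩, ⟨hsV, h.f.ne_one⟩, ⟨mul_mem hsV hzV, hsz1⟩]
    have h1 := (Subgroup.mem_normalizer_iff.1 (hXN n hn) (f i)).1 hfi.1
    rcases (hVfour _).1 h1 with e | e | e | e
    · exact absurd (conj_eq_one_iff.1 e) hfi.2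
    · exact ⟨0, e⟩
    · exact ⟨1, e⟩
    · exact ⟨2, e⟩
  obtain ⟨ψ, hψ⟩ := exists_hom (Q ⊔ P) f hfinj hinv
  have hrad : rad Q P z s = (Q ⊔ P) ⊓ Subgroup.centralizer (V : Set G) := by
    rw [hCV]
    refine le_antisymm (le_inf rad_le_sup (rad_le_CV h)) ?_
    rintro t ⟨ht, htc⟩
    obtain ⟨u, hu, hut⟩ := cases_mod_rad h hP hs hx hxc hy hyc ht
    have huc : u ∈ CV z s := by
      rw [show u = t * (u⁻¹ * t)⁻¹ by group]; exact mul_mem htc (inv_mem (rad_le_CV h hut))
    obtain ⟨k1, k2⟩ := mem_CV.1 huc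
    have kz : u * z * u⁻¹ = z := by rw [k1, mul_inv_cancel_right]
    have ks : u * s * u⁻¹ = s := by rw [k2, mul_inv_cancel_right]
    have exy : x * y * z * (x * y)⁻¹ = s := by
      calc x * y * z * (x * y)⁻¹ = x * (y * z * y⁻¹) * x⁻¹ := by group
        _ = (x * z * x⁻¹) * (x * s * x⁻¹) := by rw [hyc]; group
        _ = z * s * z := by rw [hxz, hxc]; exact (mul_assoc z s z).symm
        _ = s := by rw [hzs, mul_assoc, h.e.sq, mul_one]
    simp only [Set.mem_insert_iff, Set.mem_singleton_iff] at hu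
    rcases hu with rfl | rfl | rfl | rfl | rfl | rfl
    · simpa using hut
    · exact absurd (hxc.symm.trans ks) hszs
    · exact absurd (hyc.symm.trans kz) (fun e => hszz (hzs ▸ e))
    · exact absurd (exy.symm.trans kz) h.ne
    · refine absurd ?_ hszz
      rw [show y * x * z * (y * x)⁻¹ = y * (x * z * x⁻¹) * y⁻¹ by group, hxz, hyc, hzs] at kz
      exact kz
    · refine absurd ?_ h.ne
      rw [show x * y * x * z * (x * y * x)⁻¹ = x * y * (x * z * x⁻¹) * (x * y)⁻¹ by group, hxz, exy] at kz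
      exact kz
  have hker : ψ.ker = (rad Q P z s).subgroupOf (Q ⊔ P) := by
    ext n
    rw [MonoidHom.mem_ker, Subgroup.mem_subgroupOf, hrad, hCV]
    constructor
    · intro hn
      refine ⟨n.2, mem_CV.2 ⟨?_, ?_⟩⟩
      · have h1 := hψ n 0
        rw [hn] at h1
        simp only [Equiv.Perm.coe_one, id, f, Matrix.cons_val_zero] at h1
        exact (eq_mul_inv_iff_mul_eq.1 h1).symm
      · have h1 := hψ n 1
        rw [hn] at h1
        simp only [Equiv.Perm.coe_one, id, f, Matrix.cons_val_one, Matrix.cons_val_zero] at h1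
        exact (eq_mul_inv_iff_mul_eq.1 h1).symm
    · rintro ⟨-, hc⟩
      obtain ⟨k1, k2⟩ := mem_CV.1 hc
      refine Equiv.ext fun i => hfinj ?_
      rw [hψ, Equiv.Perm.one_apply]
      have key : ∀ t, Commute (n : G) t → (n : G) * t * (n : G)⁻¹ = t := fun t ht => by
        rw [ht.eq, mul_inv_cancel_right]
      refine key _ ?_
      fin_cases i <;> simp [f]
      exacts [k1, k2, (show Commute (n : G) s from k2).mul_right k1]
  set a : ↥(Q ⊔ P) := ⟨x, Subgroup.mem_sup_left hx⟩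
  set b : ↥(Q ⊔ P) := ⟨y, Subgroup.mem_sup_right hy⟩
  have hsqmem : ∀ t : ↥(Q ⊔ P), (t : G) * t ∈ rad Q P z s → ψ t ^ 2 = 1 := fun t ht => by
    rw [pow_two, ← map_mul, ← MonoidHom.mem_ker, hker, Subgroup.mem_subgroupOf]
    exact ht
  have ha2 : ψ a ^ 2 = 1 := hsqmem a (by
    show x * x ∈ _
    rcases h.e.sq_mem hx with e | e <;> rw [e]
    exacts [one_mem _, E_le_rad h ⟨h.e.mem, h.zP⟩])
  have hb2 : ψ b ^ 2 = 1 := hsqmem b (by
    show y * y ∈ _
    rcases h.f.sq_mem hy with e | e <;> rw [e]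
    exacts [one_mem _, E_le_rad h ⟨h.sQ, h.f.mem⟩])
  have hab : ψ a * ψ b ≠ ψ b * ψ a := by
    intro e
    have e' : f (ψ (a * b) 0) = f (ψ (b * a) 0) := by rw [map_mul, map_mul, e]
    rw [hψ, hψ] at e'
    simp only [f, Matrix.cons_val_zero, Subgroup.coe_mul, a, b] at e'
    rw [show x * y * z * (x * y)⁻¹ = x * (y * z * y⁻¹) * x⁻¹ by group,
      show y * x * z * (y * x)⁻¹ = y * (x * z * x⁻¹) * y⁻¹ by group, hyc, hxz, hyc,
      show x * (z * s) * x⁻¹ = (x * z * x⁻¹) * (x * s * x⁻¹) by group, hxz, hxc] at e'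
    exact hszs (mul_left_cancel e')
  have hsurj : Function.Surjective ψ := fun τ => by
    rcases perm3_fill (ψ a) (ψ b) τ ha2 hb2 hab with rfl | rfl | rfl | rfl | rfl | rfl
    exacts [⟨1, map_one ψ⟩, ⟨a, rfl⟩, ⟨b, rfl⟩, ⟨a * b, map_mul ψ a b⟩, ⟨b * a, map_mul ψ b a⟩,
      ⟨a * b * a, by rw [map_mul, map_mul]⟩]
  have hnorm : ((rad Q P z s).subgroupOf (Q ⊔ P)).Normal := hker ▸ ψ.normal_ker
  have hcore : rad Q P z s = (Cfsg.pCore 2 ↥(Q ⊔ P)).map (Q ⊔ P).subtype := by
    haveI : Fact (Nat.Prime 2) := ⟨Nat.prime_two⟩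
    refine le_antisymm (fun r hr => ?_) ?_
    · refine ⟨⟨r, rad_le_sup hr⟩, ?_, rfl⟩
      exact Subgroup.mem_sSup_of_mem (S := {N : Subgroup ↥(Q ⊔ P) | N.Normal ∧ IsPGroup 2 N})
        ⟨hnorm, (rad_isPGroup h).of_equiv (Subgroup.subgroupOfEquivOfLe rad_le_sup).symm⟩ hr
    · rintro _ ⟨n, hn, rfl⟩
      haveI : ((Cfsg.pCore 2 ↥(Q ⊔ P)).map ψ).Normal := (CfsgLib.LargeEx.pCore_normal 2).map ψ hsurj
      have hp : IsPGroup 2 ↥((Cfsg.pCore 2 ↥(Q ⊔ P)).map ψ) := (CfsgLib.LargeEx.isPGroup_pCore 2).map ψ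
      have hsq : ∀ σ ∈ (Cfsg.pCore 2 ↥(Q ⊔ P)).map ψ, σ ^ 2 = 1 := by
        intro σ hσ
        obtain ⟨j, hj⟩ := hp ⟨σ, hσ⟩
        have h6 : σ ^ 6 = 1 := by
          have := orderOf_dvd_natCard σ
          rw [Nat.card_perm, Nat.card_fin] at this
          exact orderOf_dvd_iff_pow_eq_one.1 this
        have hj' : σ ^ 2 ^ j = 1 := congrArg Subtype.val hj
        obtain ⟨i, -, hi⟩ := (Nat.dvd_prime_pow Nat.prime_two).1 (orderOf_dvd_of_pow_eq_one hj')
        have h26 : 2 ^ i ∣ 6 := hi ▸ orderOf_dvd_of_pow_eq_one h6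
        rcases i with _ | _ | i
        · rw [pow_zero, orderOf_eq_one_iff] at hi; rw [hi, one_pow]
        · rw [← orderOf_dvd_iff_pow_eq_one, hi]; norm_num
        · exfalso
          have h46 : 2 ^ 2 ∣ 6 := dvd_trans (pow_dvd_pow 2 (by omega)) h26
          norm_num at h46
      have hmem : ψ n ∈ (Cfsg.pCore 2 ↥(Q ⊔ P)).map ψ := ⟨n, hn, rfl⟩
      have h1 : ψ n = 1 := by
        by_contra hne
        obtain ⟨τ, hτ⟩ := perm3_core (ψ n) (hsq _ hmem) hne
        exact hτ (hsq _ (mul_mem hmem (Subgroup.Normal.conj_mem inferInstance _ hmem τ)))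
      rwa [← MonoidHom.mem_ker, hker, Subgroup.mem_subgroupOf] at h1
  have hconjQ : ∀ c ∈ CV z s, ∀ t ∈ Q ⊔ P, c * t * c⁻¹ ∈ Q ⊔ P := by
    intro c hc t ht
    have hle : (Q ⊔ P).map (MulAut.conj c).toMonoidHom ≤ Q ⊔ P := by
      rw [Subgroup.map_sup]
      refine sup_le_sup ?_ ?_ <;> rintro _ ⟨q, hq, rfl⟩
      exacts [h.nQ c (mem_CV.1 hc).1 q hq, h.nP c (mem_CV.1 hc).2 q hq]
    exact hle ⟨t, ht, rfl⟩
  have hCVN : CV z s ≤ Subgroup.normalizer (V : Set G) := by
    intro c hc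
    rw [← hCV] at hc
    exact Subgroup.centralizer_le_normalizer (s := (V : Set G)) hc
  have hNV : Subgroup.normalizer (V : Set G) = (Q ⊔ P) ⊔ CV z s := by
    refine le_antisymm (fun n hn => ?_) (sup_le (fun t ht => hXN t ht) hCVN)
    have hex : ∃ u ∈ Q ⊔ P, u * z * u⁻¹ = n * z * n⁻¹ := by
      rcases (hVfour _).1 ((Subgroup.mem_normalizer_iff.1 hn z).1 hzV) with e | e | e | e
      · exact absurd (conj_eq_one_iff.1 e) h.e.ne_one
      · exact ⟨1, one_mem _, by rw [e]; group⟩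
      · refine ⟨x * y, mul_mem (Subgroup.mem_sup_left hx) (Subgroup.mem_sup_right hy), ?_⟩
        rw [e, show x * y * z * (x * y)⁻¹ = (x * (y * z * y⁻¹) * x⁻¹) by group, hyc,
          show x * (z * s) * x⁻¹ = (x * z * x⁻¹) * (x * s * x⁻¹) by group, hxz, hxc, ← mul_assoc, hzs,
          mul_assoc, h.e.sq, mul_one]
      · exact ⟨y, Subgroup.mem_sup_right hy, by rw [e, hyc, hzs]⟩
    obtain ⟨u, hu, hue⟩ := hex
    set m := u⁻¹ * n with hm
    have hmz : m * z * m⁻¹ = z := by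
      calc m * z * m⁻¹ = u⁻¹ * (n * z * n⁻¹) * u := by rw [hm]; group
        _ = z := by rw [← hue]; group
    have hmN : m ∈ Subgroup.normalizer (V : Set G) := mul_mem (inv_mem (hXN u hu)) hn
    have hcase : ∃ v ∈ Q ⊔ P, v⁻¹ * m ∈ CV z s := by
      have hms := (Subgroup.mem_normalizer_iff.1 hmN s).1 hsV
      rcases (hVfour _).1 hms with e | e | e | e
      · exact absurd (conj_eq_one_iff.1 e) h.f.ne_one
      · exact absurd (mul_left_cancel (mul_right_cancel (e.trans hmz.symm))) h.ne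
      · refine ⟨1, one_mem _, ?_⟩
        rw [inv_one, one_mul]
        exact mem_CV.2 ⟨mul_inv_eq_iff_eq_mul.1 hmz, mul_inv_eq_iff_eq_mul.1 e⟩
      · refine ⟨x, Subgroup.mem_sup_left hx, mem_CV.2 ⟨?_, ?_⟩⟩
        · calc x⁻¹ * m * z = x⁻¹ * (m * z * m⁻¹) * m := by group
            _ = x⁻¹ * (x * z * x⁻¹) * m := by rw [hmz, hxz]
            _ = z * (x⁻¹ * m) := by group
        · calc x⁻¹ * m * s = x⁻¹ * (m * s * m⁻¹) * m := by group
            _ = x⁻¹ * (x * s * x⁻¹) * m := by rw [e, hxc]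
            _ = s * (x⁻¹ * m) := by group
    obtain ⟨v, hv, hvc⟩ := hcase
    rw [show n = (u * v) * (v⁻¹ * m) by rw [hm]; group]
    exact mul_mem (Subgroup.mem_sup_left (mul_mem hu hv)) (Subgroup.mem_sup_right hvc)
  have hnormX : ∀ n ∈ Subgroup.normalizer (V : Set G), ∀ t ∈ Q ⊔ P, n * t * n⁻¹ ∈ Q ⊔ P := by
    have hle : Subgroup.normalizer (V : Set G) ≤ Subgroup.normalizer ((Q ⊔ P : Subgroup G) : Set G) := by
      rw [hNV]
      refine sup_le Subgroup.le_normalizer fun c hc => Subgroup.mem_normalizer_iff.2 fun t => ⟨hconjQ c hc t, fun ht => ?_⟩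
      have := hconjQ c⁻¹ (inv_mem hc) _ ht
      simpa [mul_assoc] using this
    exact fun n hn t ht => (Subgroup.mem_normalizer_iff.1 (hle hn) t).1 ht
  rw [hHV]
  refine ⟨hrad, hcore, ⟨hnorm, ⟨(QuotientGroup.quotientMulEquivOfEq hker.symm).trans
      (QuotientGroup.quotientKerEquivOfSurjective ψ hsurj)⟩⟩, hNV, hnormX, rad_le_CV h, ?_, ?_⟩
  · intro t ht c hc
    rw [hrad, hCV]
    refine ⟨?_, ?_⟩
    · rw [show t * c * t⁻¹ * c⁻¹ = t * (c * t⁻¹ * c⁻¹) by group]
      exact mul_mem ht (hconjQ c hc _ (inv_mem ht))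
    · refine (CV z s).mul_mem ?_ ((CV z s).inv_mem hc)
      rw [← hCV] at hc ⊢
      have hVn : ∀ v ∈ V, t⁻¹ * v * t ∈ V := fun v hv => by
        simpa using (Subgroup.mem_normalizer_iff.1 (inv_mem (hXN t ht)) v).1 hv
      refine Subgroup.mem_centralizer_iff.2 fun v hv => ?_
      have h1 := Subgroup.mem_centralizer_iff.1 hc _ (hVn v hv)
      calc v * (t * c * t⁻¹) = t * ((t⁻¹ * v * t) * c) * t⁻¹ := by group
        _ = t * (c * (t⁻¹ * v * t)) * t⁻¹ := by rw [h1]
        _ = t * c * t⁻¹ * v := by group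
  · rw [hrad, hCV]

end Cfsg.Agent.S5430
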