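import Cfsg.Statements.S5431
import Cfsg.Agent.LargeEx.PairS3

set_option autoImplicit false
open Cfsg

namespace Cfsg.Agent.S5431

open CfsgLib.LargeEx
open scoped commutatorElement

/-- Let Q be a large extraspecial 2-subgroup of the finite group G (extraspecial; centralizer equal to its centre; normal in the centralizer of its centre; normalizing no non-trivial subgroup of odd order) with centre generated by z, an involution, of width w ≥ 2 (order 2^(2w+1)); let g be an element outside the centralizer H of z with g z g⁻¹ in Q; write V for the subgroup generated by z and g z g⁻¹, X for the subgroup generated by Q and g Q g⁻¹, R for the subgroup generated by the centralizer of z in g Q g⁻¹ and the centralizer of g z g⁻¹ in Q, and E for the intersection of Q and g Q g⁻¹. Then V is the centre of R, E lies in the second centre of R, R is nilpotent of class at most 3, E and R/E are elementary abelian, R/E is the direct product of the images of the centralizer of g z g⁻¹ in Q and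 of the centralizer of z in g Q g⁻¹ (R is their product and they meet in E), and the commutator subgroup of X and E lies in V. -/
theorem result {G : Type*} [Group G] [Finite G] (Q : Subgroup G) (hQ : Cfsg.IsLargeExtraspecial Q) (z : G) (hz : ((Subgroup.center ↥Q).map Q.subtype) = Subgroup.zpowers z) (hz2 : orderOf z = 2) (w : ℕ) (hw : 2 ≤ w) (hcard : Nat.card ↥Q = 2 ^ (2 * w + 1)) (g : G) (hgH : g ∉ Subgroup.centralizer ({z} : Set G)) (hgQ : g * z * g⁻¹ ∈ Q) (V X R E : Subgroup G) (hV : V = Subgroup.closure ({z, g * z * g⁻¹} : Set G)) (hX : X = Q ⊔ (Q).map (MulAut.conj g).toMonoidHom) (hR : R = ((Q).map (MulAut.conj g).toMonoidHom ⊓ Subgroup.centralizer ({z} : Set G)) ⊔ (Q ⊓ Subgroup.centralizer ({g * z * g⁻¹} : Set G))) (hE : E = Q ⊓ (Q).map (MulAut.conj g).toMonoidHom) : (Subgroup.center ↥R).map R.subtype = V ∧ E ≤ (Subgroup.upperCentralSeries ↥R 2).map R.subtype ∧ Subgroup.upperCentralSeries ↥R 3 = ⊤ ∧ Cfsg.IsElementaryAbelian 2 E ∧ (∀ x ∈ R, ∀ y ∈ R, x * y * x⁻¹ * y⁻¹ ∈ E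 ∧ x ^ 2 ∈ E) ∧ ((Q).map (MulAut.conj g).toMonoidHom ⊓ Subgroup.centralizer ({z} : Set G)) ⊓ (Q ⊓ Subgroup.centralizer ({g * z * g⁻¹} : Set G)) = E ∧ ⁅X, E⁆ ≤ V := by
  set s := g * z * g⁻¹ with hs
  set P := Q.map (MulAut.conj g).toMonoidHom with hP
  have h : Pair Q P z s := pair_of_large hQ hz hz2 hw hcard hgH hgQ
  have hR' : R = rad Q P z s := hR
  subst hR'
  subst hX
  subst hE
  subst hV
  set R := rad Q P z s with hRdef
  have hZ : ∀ c : ↥R, c ∈ Subgroup.center ↥R ↔ (c : G) ∈ Subgroup.closure ({z, s} : Set G) := by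
    intro c
    constructor
    · intro hc
      refine (mem_V_iff h).2 (mem_V_of_centralizes h (rad_le_CV h c.2) fun v hv hvs => ?_)
      exact (congrArg Subtype.val (Subgroup.mem_center_iff.1 hc ⟨v, CV_of_Q1 h hv hvs⟩)).symm
    · intro hc
      refine Subgroup.mem_center_iff.2 fun r => Subtype.ext ?_
      obtain ⟨k1, k2⟩ := mem_CV.1 (rad_le_CV h r.2)
      show (r : G) * c = c * r
      rcases (mem_V_iff h).1 hc with e | e | e | e <;> rw [e]
      · simp
      · exact k1
      · exact k2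
      · exact (show Commute (r : G) s from k2).mul_right k1
  have hVR : Subgroup.closure ({z, s} : Set G) ≤ R := by
    rw [Subgroup.closure_le]
    rintro t (rfl | rfl)
    exacts [E_le_rad h ⟨h.e.mem, h.zP⟩, E_le_rad h ⟨h.sQ, h.f.mem⟩]
  have hXE : ∀ t ∈ Q ⊔ P, ∀ e ∈ Q ⊓ P, t * e * t⁻¹ * e⁻¹ ∈ Subgroup.closure ({z, s} : Set G) :=
    fun t ht e he => bracket_E h ht he
  have hE2 : Q ⊓ P ≤ (Subgroup.upperCentralSeries ↥R 2).map R.subtype := by
    intro e he
    refine ⟨⟨e, E_le_rad h he⟩, ?_, rfl⟩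
    refine Subgroup.mem_upperCentralSeries_succ_iff.2 fun r => ?_
    rw [Subgroup.upperCentralSeries_one, hZ]
    show e * r * e⁻¹ * (r : G)⁻¹ ∈ _
    rw [show e * r * e⁻¹ * (r : G)⁻¹ = ((r : G) * e * (r : G)⁻¹ * e⁻¹)⁻¹ by group]
    exact inv_mem (hXE r (rad_le_sup r.2) e he)
  refine ⟨?_, hE2, ?_, ⟨⟨⟨fun a b => Subtype.ext (E_comm h a.2 b.2)⟩⟩, fun a ha => E_sq h ha⟩,
    fun x hx y hy => ⟨rad_bracket h hx hy, by rw [pow_two]; exact rad_sq h hx⟩, inf_eq h, ?_⟩
  · ext c
    constructor
    · rintro ⟨c, hc, rfl⟩; exact (hZ c).1 hc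
    · intro hc; exact ⟨⟨c, hVR hc⟩, (hZ _).2 hc, rfl⟩
  · rw [eq_top_iff]
    intro r _
    refine Subgroup.mem_upperCentralSeries_succ_iff.2 fun y => ?_
    obtain ⟨u, hu, hue⟩ := hE2 (rad_bracket h r.2 y.2)
    have : u = ⁅r, y⁆ := Subtype.ext hue
    rw [this] at hu
    simpa [commutatorElement_def] using hu
  · exact Subgroup.commutator_le.2 fun t ht e he => hXE t ht e he

end Cfsg.Agent.S5431
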