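import Cfsg.Statements.S5435
import Cfsg.Agent.SmallFrattiniCent.Main
-- import your own Cfsg.Agent.* helpers here

set_option autoImplicit false
open Cfsg

namespace Cfsg.Agent.S5435

/-- Let L be a finite non-abelian simple group with an involution z whose centralizer R is a Sylow 2-subgroup of L whose Frattini subgroup is the subgroup generated by z. Then R is dihedral of order 8. -/
theorem result {L : Type*} [Group L] [Finite L] [IsSimpleGroup L] (hL : ¬ IsMulCommutative L) (z : L) (hz : orderOf z = 2) (R : Sylow 2 L) (hR : (R : Subgroup L) = Subgroup.centralizer ({z} : Set L)) (hΦ : (frattini ↥(R : Subgroup L)).map (R : Subgroup L).subtype = Subgroup.zpowers z) : Nonempty (↥(R : Subgroup L) ≃* DihedralGroup 4) := by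
  haveI : Fact (Nat.Prime 2) := ⟨Nat.prime_two⟩
  refine CfsgLib.SmallFrattiniCent.dihedral (z := z) ?_
  have hsq := pow_orderOf_eq_one z
  rw [hz, pow_two] at hsq
  have hne : z ≠ 1 := fun h => by rw [h, orderOf_one] at hz; omega
  have hcent : ∀ g : L, g ∈ (R : Subgroup L) ↔ g * z = z * g := fun g => by
    rw [hR, Subgroup.mem_centralizer_iff]; simp [eq_comm]
  have hzp : ∀ k : ℤ, z ^ k = 1 ∨ z ^ k = z := by
    intro k
    rcases Int.even_or_odd k with ⟨j, rfl⟩ | ⟨j, rfl⟩
    · left; rw [← two_mul, zpow_mul, zpow_two, hsq, one_zpow]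
    · right; rw [zpow_add_one, zpow_mul, zpow_two, hsq, one_zpow, one_mul]
  have hin : ∀ a : ↥(R : Subgroup L), (a : L) * a = 1 ∨ (a : L) * a = z := by
    intro a
    have h1 : ((a * a : ↥(R : Subgroup L)) : L) ∈ Subgroup.zpowers z := by
      rw [← hΦ]
      exact ⟨a * a, CfsgLib.SmallFrattiniCent.sq_mem_frattini R.2 a, rfl⟩
    obtain ⟨k, hk⟩ := Subgroup.mem_zpowers_iff.1 h1
    rw [Subgroup.coe_mul] at hk
    rw [← hk]; exact hzp k
  refine ⟨hL, hne, hsq, hcent, fun a ha => hin ⟨a, ha⟩, ?_, ?_⟩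
  · by_contra hcon
    push_neg at hcon
    have hexp : ∀ a : ↥(R : Subgroup L), a * a = 1 := fun a =>
      Subtype.ext ((hin a).resolve_right (hcon a a.2))
    haveI : IsMulCommutative ↥(R : Subgroup L) := ⟨⟨fun a b => by
      have e := fun c => inv_eq_of_mul_eq_one_right (hexp c)
      rw [← e (a * b), mul_inv_rev, e a, e b]⟩⟩
    rw [CfsgLib.SmallFrattiniCent.frattini_eq_bot_of_sq hexp, Subgroup.map_bot] at hΦ
    exact hne (Subgroup.zpowers_eq_bot.1 hΦ.symm)
  · intro g hg
    rw [hcent]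
    have hzΦ : z ∈ (frattini ↥(R : Subgroup L)).map (R : Subgroup L).subtype := by
      rw [hΦ]; exact Subgroup.mem_zpowers z
    obtain ⟨c, hc, hcz⟩ := hzΦ
    have hcz' : (c : L) = z := hcz
    let e := CfsgLib.SmallFrattiniCent.conjAut (R : Subgroup L) g hg
    have hc' : e c ∈ frattini ↥(R : Subgroup L) := by
      have hchar : (frattini ↥(R : Subgroup L)).Characteristic := inferInstance
      have := Subgroup.characteristic_iff_map_eq.1 hchar e
      rw [← this]; exact ⟨c, hc, rfl⟩
    have h1 : g * z * g⁻¹ ∈ Subgroup.zpowers z := by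
      rw [← hΦ]
      refine ⟨e c, hc', ?_⟩
      show g * (c : L) * g⁻¹ = _
      rw [hcz']
    obtain ⟨k, hk⟩ := Subgroup.mem_zpowers_iff.1 h1
    rcases hzp k with h | h <;> rw [h] at hk
    · exact absurd (conj_eq_one_iff.1 hk.symm) hne
    · exact mul_inv_eq_iff_eq_mul.1 hk.symm

end Cfsg.Agent.S5435
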