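import Cfsg.Statements.S5436
import Cfsg.Agent.LargeEx.Conjugate
-- import your own Cfsg.Agent.* helpers here

set_option autoImplicit false
open Cfsg

namespace Cfsg.Agent.S5436

theorem result_aux {G : Type*} [Group G] [Finite G] (z : G) (hz : orderOf z = 2) (C : Subgroup G) (hCdef : C = Subgroup.centralizer ({z} : Set G)) (Q : Subgroup C) [Q.Normal] (hF : Cfsg.generalizedFittingSubgroup ↥(C) = Q) (hQ : Cfsg.IsExtraspecial 2 ↥Q) (w : ℕ) (hw : 2 ≤ w) (hcard : Nat.card ↥Q = 2 ^ (2 * w + 1)) (hnwc : ∃ g : G, (∃ hq : g * z * g⁻¹ ∈ C, (⟨g * z * g⁻¹, hq⟩ : C) ∈ Q) ∧ g * z * g⁻¹ ≠ z) (hsimp : IsSimpleGroup (↥(C) ⧸ Q)) (hna : ¬ IsMulCommutative (↥(C) ⧸ Q)) (hirr : ∀ W : Subgroup C, W.Normal → W ≤ Q → (W = Q ∨ ∀ x ∈ W, (x : G) ∈ Subgroup.zpowers z)) (hwcl : Subgroup.closure {x : C | IsConj z (x : G)} ≠ Q) : IsSimpleGroup G := by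
  classical
  have hzC : z ∈ C := hCdef ▸ Subgroup.mem_centralizer_singleton_iff.2 rfl
  have hz1 : z ≠ 1 := fun h => by rw [h] at hz; simp at hz
  have hzz : z * z = 1 := by rw [← pow_two, ← hz, pow_orderOf_eq_one]
  set z' : C := ⟨z, hzC⟩ with hz'
  obtain ⟨u, eC⟩ := CfsgLib.LargeEx.exists_extraData hQ
  have hz'c : ∀ x : C, x * z' = z' * x := fun x =>
    Subtype.ext (Subgroup.mem_centralizer_singleton_iff.1 (hCdef.le x.2))
  have hz'center : z' ∈ Subgroup.center C := Subgroup.mem_center_iff.2 hz'c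
  have hzQ : z' ∈ Q := by
    rw [← hF]
    refine Subgroup.mem_sup_right ?_
    refine le_sSup (α := Subgroup C) ?_ hz'center
    refine ⟨inferInstance, Subgroup.isNilpotent_of_ker_le_center (1 : Subgroup.center C →* Unit) ?_⟩
    intro a _
    exact Subgroup.mem_center_iff.2 fun b => Subtype.ext (Subgroup.mem_center_iff.1 a.2 b)
  have hu : z' = u := by
    rcases eC.central z' hzQ (fun x _ => (hz'c x).symm) with h | h
    · exact absurd (congrArg Subtype.val h) hz1
    · exact h
  subst hu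
  have e := eC.map C.subtype C.subtype_injective
  change CfsgLib.LargeEx.ExtraData (Q.map C.subtype) z at e
  set P := Q.map C.subtype with hP
  have hPC : P ≤ C := Subgroup.map_subtype_le _
  have hmemP : ∀ x : C, (x : G) ∈ P ↔ x ∈ Q := fun x =>
    Subgroup.mem_map_iff_mem C.subtype_injective
  have hN : Subgroup.centralizer ({z} : Set G) ≤ Subgroup.normalizer (P : Set G) := by
    intro c hc'
    have hc : c ∈ C := hCdef.ge hc'
    rw [Subgroup.mem_normalizer_iff]
    intro x
    constructor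
    · rintro ⟨a, ha, rfl⟩
      exact ⟨⟨c, hc⟩ * a * ⟨c, hc⟩⁻¹, (inferInstance : Q.Normal).conj_mem a ha _, rfl⟩
    · rintro ⟨a, ha, hax⟩
      refine ⟨⟨c, hc⟩⁻¹ * a * ⟨c, hc⟩⁻¹⁻¹, (inferInstance : Q.Normal).conj_mem a ha _, ?_⟩
      simp only [Subgroup.subtype_apply] at hax
      show c⁻¹ * (a : G) * c⁻¹⁻¹ = x
      rw [hax]; group
  -- subgroups of `Q` normal in `C`
  have hirr' : ∀ W : Subgroup C, W.Normal → ∀ w ∈ W, w ∈ Q → (w : G) ≠ 1 → (w : G) ≠ z → Q ≤ W := by
    intro W hW w hwW hwQ hw1 hwz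
    rcases hirr (W ⊓ Q) inferInstance inf_le_right with h | h
    · exact h ▸ inf_le_left
    · rcases e.mem_zpowers_iff.1 (h w ⟨hwW, hwQ⟩) with h' | h'
      · exact absurd h' hw1
      · exact absurd h' hwz
  have hquo : ∀ W : Subgroup C, W.Normal → W ≤ Q ∨ W ⊔ Q = ⊤ := by
    intro W hW
    rcases (hW.map (QuotientGroup.mk' Q) (QuotientGroup.mk'_surjective Q)).eq_bot_or_eq_top with
      h | h
    · rw [Subgroup.map_eq_bot_iff, QuotientGroup.ker_mk'] at h
      exact Or.inl h
    · refine Or.inr ?_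
      have := congrArg (Subgroup.comap (QuotientGroup.mk' Q)) h
      rwa [Subgroup.comap_map_eq, Subgroup.comap_top, QuotientGroup.ker_mk'] at this
  have hcard' : 8 < Nat.card P := by
    rw [hP, ← Nat.card_congr (Q.equivMapOfInjective C.subtype C.subtype_injective).toEquiv, hcard]
    exact lt_of_lt_of_le (by norm_num) (Nat.pow_le_pow_right (by norm_num : 1 ≤ 2)
      (show 4 ≤ 2 * w + 1 by omega))
  -- `Q` contains its centralizer
  have hCQ : Subgroup.centralizer (P : Set G) ≤ P := by
    have h1 : Subgroup.centralizer (Q : Set C) ≤ Q := by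
      by_contra hne
      rcases hquo (Subgroup.centralizer (Q : Set C)) inferInstance with h | h
      · exact hne h
      obtain ⟨a, ha, b, hb, hab⟩ := eC.nonabelian
      let W : Subgroup C :=
        { carrier := {x | x ∈ Q ∧ a * x = x * a}
          one_mem' := ⟨one_mem _, by simp⟩
          mul_mem' := fun {x y} hx hy => ⟨mul_mem hx.1 hy.1, by
            rw [← mul_assoc, hx.2, mul_assoc, hy.2, mul_assoc]⟩
          inv_mem' := fun {x} hx => ⟨inv_mem hx.1, (Commute.inv_right (hx.2)).eq⟩ }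
      have hW : W.Normal := by
        refine ⟨fun x hx c => ?_⟩
        have hc : c ∈ Subgroup.centralizer (Q : Set C) ⊔ Q := h ▸ Subgroup.mem_top c
        rw [Subgroup.mem_sup_of_normal_right] at hc
        obtain ⟨c₁, hc₁, q, hq, rfl⟩ := hc
        have hqx : q * x * q⁻¹ ∈ Q := mul_mem (mul_mem hq hx.1) (inv_mem hq)
        have h2 : c₁ * q * x * (c₁ * q)⁻¹ = q * x * q⁻¹ := by
          calc c₁ * q * x * (c₁ * q)⁻¹ = (c₁ * (q * x * q⁻¹)) * c₁⁻¹ := by group
            _ = ((q * x * q⁻¹) * c₁) * c₁⁻¹ := by rw [Subgroup.mem_centralizer_iff.1 hc₁ _ hqx]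
            _ = q * x * q⁻¹ := by group
        rw [h2]
        refine ⟨hqx, ?_⟩
        rcases eC.bracket q hq x hx.1 with h3 | h3
        · have : q * x * q⁻¹ = x := by rw [h3]; group
          rw [this]; exact hx.2
        · have : q * x * q⁻¹ = x * z' := by
            rw [h3]
            calc x * q * z' * q⁻¹ = x * (q * z') * q⁻¹ := by group
              _ = x * (z' * q) * q⁻¹ := by rw [eC.comm q hq]
              _ = x * z' := by group
          rw [this, ← mul_assoc, hx.2, mul_assoc, hz'c a, mul_assoc]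
      have ha1 : (a : G) ≠ 1 := fun h' => hab (by
        rw [show a = 1 from Subtype.ext h']; simp)
      have haz : (a : G) ≠ z := fun h' => hab (by
        rw [show a = z' from Subtype.ext h']; exact eC.comm b hb)
      exact hab ((hirr' W hW a ⟨ha, rfl⟩ ha ha1 haz hb).2)
    intro x hx
    have hxC : x ∈ C := hCdef.ge (Subgroup.mem_centralizer_singleton_iff.2
      (Subgroup.mem_centralizer_iff.1 hx z e.mem).symm)
    exact (hmemP ⟨x, hxC⟩).2 (h1 (Subgroup.mem_centralizer_iff.2 fun q hq =>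
      Subtype.ext (Subgroup.mem_centralizer_iff.1 hx q ((hmemP q).2 hq))))
  have hL2 : Subgroup.centralizer (P : Set G) = (Subgroup.center ↥P).map P.subtype := by
    ext x
    rw [e.mem_center_iff]
    constructor
    · intro hx
      exact e.central x (hCQ hx) fun y hy => (Subgroup.mem_centralizer_iff.1 hx y hy).symm
    · rintro (rfl | rfl)
      · exact one_mem _
      · exact Subgroup.mem_centralizer_iff.2 fun y hy => (e.comm y hy).symm
  have hL3 : Subgroup.centralizer (((Subgroup.center ↥P).map P.subtype) : Set G) ≤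
      Subgroup.normalizer (P : Set G) := fun x hx =>
    hN (Subgroup.mem_centralizer_singleton_iff.2
      (Subgroup.mem_centralizer_iff.1 hx z (e.mem_center_iff.2 (Or.inr rfl))).symm)
  obtain ⟨g, ⟨hgC, hgQ⟩, hgz⟩ := hnwc
  set s := g * z * g⁻¹ with hs
  have hsP : s ∈ P := (hmemP ⟨s, hgC⟩).2 hgQ
  have hs1 : s ≠ 1 := fun h => hz1 (conj_eq_one_iff.1 h)
  have hzR := CfsgLib.LargeEx.mem_conj_of_conj_mem e hCQ hN hcard' g hsP hgz
  have hs2 : s * s = 1 := by
    rw [hs]
    calc g * z * g⁻¹ * (g * z * g⁻¹) = g * (z * z) * g⁻¹ := by group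
      _ = 1 := by rw [hzz]; group
  -- `z` lies in the 2-core of `C(s)`
  have hzO : z ∈ (Cfsg.pCore 2 ↥(Subgroup.centralizer ({s} : Set G))).map
      (Subgroup.centralizer ({s} : Set G)).subtype := by
    have hle : P.map (MulAut.conj g).toMonoidHom ≤ Subgroup.centralizer ({s} : Set G) := by
      rintro _ ⟨a, ha, rfl⟩
      rw [Subgroup.mem_centralizer_singleton_iff, hs]
      show g * a * g⁻¹ * (g * z * g⁻¹) = g * z * g⁻¹ * (g * a * g⁻¹)
      calc g * a * g⁻¹ * (g * z * g⁻¹) = g * (a * z) * g⁻¹ := by group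
        _ = g * (z * a) * g⁻¹ := by rw [e.comm a ha]
        _ = _ := by group
    have hnorm : ((P.map (MulAut.conj g).toMonoidHom).subgroupOf
        (Subgroup.centralizer ({s} : Set G))).Normal := by
      rw [Subgroup.normal_subgroupOf_iff hle]
      rintro x c ⟨a, ha, rfl⟩ hc
      have hcg : g⁻¹ * c * g ∈ Subgroup.centralizer ({z} : Set G) := by
        rw [Subgroup.mem_centralizer_singleton_iff] at hc ⊢
        calc g⁻¹ * c * g * z = g⁻¹ * (c * s) * g := by rw [hs]; group
          _ = g⁻¹ * (s * c) * g := by rw [hc]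
          _ = z * (g⁻¹ * c * g) := by rw [hs]; group
      have h := (Subgroup.mem_normalizer_iff.1 (hN hcg) a).1 ha
      refine ⟨_, h, ?_⟩
      show g * (g⁻¹ * c * g * a * (g⁻¹ * c * g)⁻¹) * g⁻¹ = c * (g * a * g⁻¹) * c⁻¹
      group
    have hp : IsPGroup 2 ↥((P.map (MulAut.conj g).toMonoidHom).subgroupOf
        (Subgroup.centralizer ({s} : Set G))) :=
      (e.isPGroup.map _).of_equiv (Subgroup.subgroupOfEquivOfLe hle).symm
    refine ⟨⟨z, hle hzR⟩, ?_, rfl⟩
    exact Subgroup.mem_sSup_of_mem (S := {N | N.Normal ∧ IsPGroup 2 N}) (s := (P.map (MulAut.conj g).toMonoidHom).subgroupOf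
        (Subgroup.centralizer ({s} : Set G))) ⟨hnorm, hp⟩ hzR
  -- every non-trivial normal subgroup contains `z`
  have hzN : ∀ N : Subgroup G, N.Normal → N ≠ ⊥ → z ∈ N := by
    intro N hN' hNne
    rcases Nat.even_or_odd (Nat.card N) with he | ho
    · obtain ⟨n, hnN, hn1, hnc⟩ := CfsgLib.LargeEx.exists_fixed_of_even (hN := hN') e.isPGroup he
      have : n ∈ Subgroup.centralizer (P : Set G) := Subgroup.mem_centralizer_iff.2 hnc
      rw [hL2, e.mem_center_iff] at this
      rcases this with h | h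
      · exact absurd h hn1
      · exact h ▸ hnN
    · exact absurd (CfsgLib.LargeEx.odd_invariant_eq_bot e hL2 hL3 hsP hs1 hgz hs2 hzO ho
        (by rw [Subgroup.normalizer_eq_top_iff.2 hN']; exact le_top)) hNne
  -- every non-trivial normal subgroup is everything
  have htop : ∀ N : Subgroup G, N.Normal → N ≠ ⊥ → N = ⊤ := by
    intro N hN' hNne
    have hzM := hzN N hN' hNne
    set W := N.subgroupOf C with hW
    have hWn : W.Normal := hN'.comap _
    have hconjW : ∀ x : C, IsConj z (x : G) → x ∈ W := by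
      intro x hx
      obtain ⟨h, hh⟩ := isConj_iff.1 hx
      exact Subgroup.mem_subgroupOf.2 (hh ▸ hN'.conj_mem z hzM h)
    set T := Subgroup.closure {x : C | IsConj z (x : G)} with hT
    have hTn : T.Normal := by
      refine Subgroup.normalizer_eq_top_iff.1 ?_
      rw [eq_top_iff]
      intro c _
      have key : ∀ d : C, ∀ y ∈ T, d * y * d⁻¹ ∈ T := by
        intro d y hy
        refine Subgroup.closure_induction (p := fun y _ => d * y * d⁻¹ ∈ T) ?_ ?_ ?_ ?_ hy
        · intro x hx
          refine Subgroup.subset_closure ?_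
          show IsConj z ((d * x * d⁻¹ : C) : G)
          exact IsConj.trans hx (isConj_iff.2 ⟨d, rfl⟩)
        · simp
        · intro a b _ _ ha hb
          rw [show d * (a * b) * d⁻¹ = (d * a * d⁻¹) * (d * b * d⁻¹) by group]
          exact mul_mem ha hb
        · intro a _ ha
          rw [show d * a⁻¹ * d⁻¹ = (d * a * d⁻¹)⁻¹ by group]
          exact inv_mem ha
      rw [Subgroup.mem_normalizer_iff]
      intro y
      refine ⟨key c y, fun h => ?_⟩
      have := key c⁻¹ _ h
      rwa [show c⁻¹ * (c * y * c⁻¹) * c⁻¹⁻¹ = y by group] at this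
    have hTW : T ≤ W := (Subgroup.closure_le _).2 hconjW
    have hsT : (⟨s, hgC⟩ : C) ∈ T := Subgroup.subset_closure (isConj_iff.2 ⟨g, rfl⟩)
    have hQT : Q ≤ T := hirr' T hTn _ hsT hgQ hs1 hgz
    have hWtop : W = ⊤ := by
      rcases hquo T hTn with h | h
      · exact absurd (le_antisymm h hQT) hwcl
      · exact top_le_iff.1 (h ▸ sup_le hTW (hQT.trans hTW))
    have hCN : C ≤ N := fun c hc => by
      have : (⟨c, hc⟩ : C) ∈ W := hWtop ▸ Subgroup.mem_top _
      exact this
    have hPN : P ≤ N := hPC.trans hCN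
    -- Frattini argument
    haveI : Fact (Nat.Prime 2) := ⟨Nat.prime_two⟩
    obtain ⟨S, hS⟩ := IsPGroup.exists_le_sylow
      (e.isPGroup.of_equiv (Subgroup.subgroupOfEquivOfLe hPN).symm)
    have hF' := Sylow.normalizer_sup_eq_top (N := N) S
    set S' := (S : Subgroup ↥N).map N.subtype with hS'
    have hPS : P ≤ S' := fun q hq => ⟨⟨q, hPN hq⟩, hS hq, rfl⟩
    have hSp : IsPGroup 2 ↥S' := S.2.map _
    haveI : Nontrivial ↥S' :=
      ⟨⟨z, hPS e.mem⟩, 1, fun h => hz1 (congrArg Subtype.val h)⟩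
    haveI := hSp.center_nontrivial
    obtain ⟨⟨⟨c, hcS⟩, hcc⟩, hc1⟩ := exists_ne (1 : ↥(Subgroup.center ↥S'))
    have hc : ∀ x ∈ S', c * x = x * c := fun x hx =>
      (congrArg Subtype.val (Subgroup.mem_center_iff.1 hcc ⟨x, hx⟩)).symm
    have hcz : c = z := by
      have h1 : c ∈ Subgroup.centralizer (P : Set G) :=
        Subgroup.mem_centralizer_iff.2 fun q hq => (hc q (hPS hq)).symm
      rw [hL2, e.mem_center_iff] at h1
      rcases h1 with h1 | h1
      · subst h1; exact absurd rfl hc1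
      · exact h1
    rw [eq_top_iff, ← hF']
    refine sup_le (fun y hy => hCN (hCdef.ge ?_)) le_rfl
    have hy' : y ∈ Subgroup.normalizer (S' : Set G) := by convert hy using 1
    have hyz : y * z * y⁻¹ ∈ Subgroup.centralizer (P : Set G) := by
      rw [Subgroup.mem_centralizer_iff]
      intro q hq
      have h1 := (Subgroup.mem_normalizer_iff''.1 hy' q).1 (hPS hq)
      calc q * (y * z * y⁻¹) = y * ((y⁻¹ * q * y) * z) * y⁻¹ := by group
        _ = y * (z * (y⁻¹ * q * y)) * y⁻¹ := by rw [← hcz, hc _ h1]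
        _ = y * z * y⁻¹ * q := by group
    rw [hL2, e.mem_center_iff] at hyz
    rcases hyz with h | h
    · exact absurd (conj_eq_one_iff.1 h) hz1
    · rw [Subgroup.mem_centralizer_singleton_iff]
      calc y * z = y * z * y⁻¹ * y := by group
        _ = z * y := by rw [h]
  haveI : Nontrivial G := ⟨z, 1, hz1⟩
  exact ⟨fun N hN' => or_iff_not_imp_left.2 (htop N hN')⟩

/-- Let z be an involution of the finite group G with centralizer H whose generalized Fitting subgroup Q is extraspecial of width at least 2 (order 2^(2w+1), w ≥ 2); suppose some conjugate of z other than z lies in Q, H/Q is a non-abelian simple group, H acts irreducibly by conjugation on Q modulo the subgroup generated by z (the only H-invariant subgroups of Q containing z are that subgroup and Q), and Q is not the subgroup generated by the conjugates of z lying in H. Then G is simple. -/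
theorem result {G : Type*} [Group G] [Finite G] (z : G) (hz : orderOf z = 2) (Q : Subgroup (Subgroup.centralizer ({z} : Set G))) [Q.Normal] (hF : Cfsg.generalizedFittingSubgroup ↥(Subgroup.centralizer ({z} : Set G)) = Q) (hQ : Cfsg.IsExtraspecial 2 ↥Q) (w : ℕ) (hw : 2 ≤ w) (hcard : Nat.card ↥Q = 2 ^ (2 * w + 1)) (hnwc : ∃ g : G, (∃ hq : g * z * g⁻¹ ∈ Subgroup.centralizer ({z} : Set G), (⟨g * z * g⁻¹, hq⟩ : Subgroup.centralizer ({z} : Set G)) ∈ Q) ∧ g * z * g⁻¹ ≠ z) (hsimp : IsSimpleGroup (↥(Subgroup.centralizer ({z} : Set G)) ⧸ Q)) (hna : ¬ IsMulCommutative (↥(Subgroup.centralizer ({z} : Set G)) ⧸ Q)) (hirr : ∀ W : Subgroup (Subgroup.centralizer ({z} : Set G)), W.Normal → W ≤ Q → (W = Q ∨ ∀ x ∈ W, (x : G) ∈ Subgroup.zpowers z)) (hwcl : Subgroup.closure {x : Subgroup.centralizer ({z} : Set G) | IsConj z (x : G)} ≠ Q) : IsSimpleGroup G := by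
  exact result_aux z hz (Subgroup.centralizer ({z} : Set G)) rfl Q hF hQ w hw hcard hnwc hsimp hna hirr hwcl

end Cfsg.Agent.S5436
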