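import Cfsg.Statements.S5437
-- import your own Cfsg.Agent.* helpers here

set_option autoImplicit false
open Cfsg

namespace Cfsg.Agent.S5437

/-- Let I be a set of involutions of the finite group G closed under conjugation, and H a subgroup of G. The following are equivalent: (1) for every member x of I lying in H, the conjugates of x lying in H form a single H-class and the centralizer of x lies in H; (2) for every g outside H, no member of I lies in both H and g H g⁻¹; (3) every member of I lying in H fixes exactly one coset in the action of G on the cosets of H. -/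
theorem result {G : Type*} [Group G] [Finite G] (I : Set G) (hI : ∀ x ∈ I, orderOf x = 2) (hIc : ∀ g : G, ∀ x ∈ I, g * x * g⁻¹ ∈ I) (H : Subgroup G) : ((∀ x ∈ I, x ∈ H → (∀ g : G, g * x * g⁻¹ ∈ H → ∃ h ∈ H, h * x * h⁻¹ = g * x * g⁻¹) ∧ Subgroup.centralizer ({x} : Set G) ≤ H) ↔ (∀ g : G, g ∉ H → ∀ x ∈ I, ¬ (x ∈ H ∧ x ∈ (H : Subgroup G).map (MulAut.conj g).toMonoidHom))) ∧ ((∀ g : G, g ∉ H → ∀ x ∈ I, ¬ (x ∈ H ∧ x ∈ (H : Subgroup G).map (MulAut.conj g).toMonoidHom)) ↔ ∀ x ∈ I, x ∈ H → ∃! c : G ⧸ H, x • c = c) := by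
  have hmem : ∀ (g x : G), x ∈ (H : Subgroup G).map (MulAut.conj g).toMonoidHom ↔
      g⁻¹ * x * g ∈ H := by
    intro g x
    constructor
    · rintro ⟨a, ha, rfl⟩
      have : g⁻¹ * (g * a * g⁻¹) * g = a := by group
      simpa [MulAut.conj_apply, this] using ha
    · intro hx
      exact ⟨_, hx, by simp [MulAut.conj_apply, mul_assoc]⟩
  have hcoset : ∀ (g x : G), x • (QuotientGroup.mk g : G ⧸ H) = QuotientGroup.mk g ↔
      g⁻¹ * x * g ∈ H := by
    intro g x
    rw [MulAction.Quotient.smul_mk, QuotientGroup.eq]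
    have h : (x • g)⁻¹ * g = (g⁻¹ * x * g)⁻¹ := by simp [smul_eq_mul, mul_assoc]
    rw [h, inv_mem_iff]
  constructor
  · constructor
    · intro h g hg x hx hxx
      obtain ⟨hxH, hxg⟩ := hxx
      rw [hmem] at hxg
      have hxI : g⁻¹ * x * g ∈ I := by simpa using hIc g⁻¹ x hx
      obtain ⟨h1, hh1, he⟩ := (h x hx hxH).1 g⁻¹ (by simpa using hxg)
      have : g * h1 ∈ Subgroup.centralizer ({x} : Set G) := by
        rw [Subgroup.mem_centralizer_singleton_iff]
        calc g * h1 * x = g * (h1 * x * h1⁻¹) * h1 := by group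
          _ = x * (g * h1) := by rw [he]; group
      have := (h x hx hxH).2 this
      exact hg (by simpa using mul_mem this (inv_mem hh1))
    · intro h x hx hxH
      refine ⟨fun g hg => ⟨g, ?_, rfl⟩, fun c hc => ?_⟩
      · by_contra hgH
        exact h g⁻¹ (by simpa using hgH) x hx ⟨hxH, (hmem _ _).2 (by simpa using hg)⟩
      · by_contra hcH
        refine h c hcH x hx ⟨hxH, (hmem _ _).2 ?_⟩
        rw [Subgroup.mem_centralizer_singleton_iff] at hc
        rwa [mul_assoc, ← hc, ← mul_assoc, inv_mul_cancel, one_mul]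
  · constructor
    · intro h x hx hxH
      refine ⟨QuotientGroup.mk 1, (hcoset 1 x).2 (by simpa using hxH), ?_⟩
      intro c hc
      induction c using QuotientGroup.induction_on with
      | H g =>
        rw [hcoset] at hc
        refine (QuotientGroup.eq (s := H)).2 ?_
        simp only [mul_one, inv_mem_iff]
        by_contra hg
        exact h g hg x hx ⟨hxH, (hmem _ _).2 hc⟩
    · intro h g hg x hx hxx
      obtain ⟨hxH, hxg⟩ := hxx
      obtain ⟨c, hc, huniq⟩ := h x hx hxH
      have h1 := huniq (QuotientGroup.mk 1) ((hcoset 1 x).2 (by simpa using hxH))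
      have h2 := huniq (QuotientGroup.mk g) ((hcoset g x).2 ((hmem _ _).1 hxg))
      apply hg
      have := (QuotientGroup.eq (s := H)).1 (h1.trans h2.symm)
      simpa using this

end Cfsg.Agent.S5437
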