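import Cfsg.Statements.S5438
-- import your own Cfsg.Agent.* helpers here

set_option autoImplicit false
open Cfsg

namespace Cfsg.Agent.S5438

/-- Let z be a 2-central involution of the finite group G (an involution central in some Sylow 2-subgroup) and H a subgroup containing z such that the coset H is the only coset of H fixed by z (in the action of G on the cosets of H). Then H has odd index in G, and for every 2-element x of H the conjugates of x lying in H form a single H-class. -/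
theorem result {G : Type*} [Group G] [Finite G] (z : G) (hz : Cfsg.IsTwoCentralInvolution z) (H : Subgroup G) (hzH : z ∈ H) (hfix : ∀ g : G, g⁻¹ * z * g ∈ H → g ∈ H) : Odd H.index ∧ ∀ x ∈ H, (∃ k : ℕ, orderOf x = 2 ^ k) → ∀ g : G, g * x * g⁻¹ ∈ H → ∃ h ∈ H, h * x * h⁻¹ = g * x * g⁻¹ := by
  haveI : Fact (Nat.Prime 2) := ⟨Nat.prime_two⟩
  obtain ⟨hz2, P, hzP, hPz⟩ := hz
  have hCH : ∀ c : G, c * z = z * c → c ∈ H := fun c hc => hfix c (by
    rwa [mul_assoc, ← hc, ← mul_assoc, inv_mul_cancel, one_mul])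
  have hPH : (P : Subgroup G) ≤ H := fun x hx => hCH x (hPz x hx)
  refine ⟨?_, ?_⟩
  · rw [← Nat.not_even_iff_odd, even_iff_two_dvd]
    intro h2
    exact P.not_dvd_index (h2.trans (Subgroup.index_dvd_of_le hPH))
  intro x hxH hx2 g hg
  have key : ∀ y ∈ H, (∃ k : ℕ, orderOf y = 2 ^ k) → ∃ c : G,
      c ∈ H ∧ c * z * c⁻¹ * y = y * (c * z * c⁻¹) ∧
      ∃ T : Sylow 2 ↥(Subgroup.centralizer ({y} : Set G)),
        ∀ t : ↥(Subgroup.centralizer ({y} : Set G)), t ∈ (T : Subgroup _) → (t : G) ∈ H := by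
    intro y hy hy2
    set CH := H ⊓ Subgroup.centralizer ({y} : Set G) with hCH'
    obtain ⟨T₀⟩ := (inferInstance : Nonempty (Sylow 2 ↥CH))
    set T := (T₀ : Subgroup ↥CH).map CH.subtype with hT
    have hTp : IsPGroup 2 ↥T := T₀.2.map _
    have hTH : T ≤ H := (Subgroup.map_subtype_le _).trans inf_le_left
    have hTC : T ≤ Subgroup.centralizer ({y} : Set G) :=
      (Subgroup.map_subtype_le _).trans inf_le_right
    -- y lies in T
    have hyCH : y ∈ CH := ⟨hy, Subgroup.mem_centralizer_singleton_iff.2 rfl⟩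
    obtain ⟨k, hk⟩ := hy2
    have hyT : y ∈ T := by
      have hcen : Subgroup.zpowers (⟨y, hyCH⟩ : CH) ≤ Subgroup.center CH := by
        rw [Subgroup.zpowers_le, Subgroup.mem_center_iff]
        exact fun b => Subtype.ext (Subgroup.mem_centralizer_singleton_iff.1 b.2.2)
      have hn : (Subgroup.zpowers (⟨y, hyCH⟩ : CH)).Normal := ⟨fun a ha b => by
        rwa [Subgroup.mem_center_iff.1 (hcen ha) b, mul_inv_cancel_right]⟩
      have hp : IsPGroup 2 (Subgroup.zpowers (⟨y, hyCH⟩ : CH)) :=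
        IsPGroup.of_card (n := k) (by rw [Nat.card_zpowers, Subgroup.orderOf_mk, hk])
      exact ⟨⟨y, hyCH⟩, hp.le_sylow_of_normal T₀ (Subgroup.mem_zpowers _), rfl⟩
    -- T lies in a conjugate of P by an element of H
    obtain ⟨S, hS⟩ := IsPGroup.exists_le_sylow
      (hTp.of_equiv (Subgroup.subgroupOfEquivOfLe hTH).symm)
    obtain ⟨⟨c, hcH⟩, hc⟩ := MulAction.exists_smul_eq ↥H (P.subtype hPH) S
    have hz' : ∀ t ∈ T, c * z * c⁻¹ * t = t * (c * z * c⁻¹) := by
      intro t ht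
      have h1 : (⟨t, hTH ht⟩ : H) ∈ (S : Subgroup H) := hS ht
      rw [← hc, Sylow.coe_subgroup_smul, Subgroup.mem_pointwise_smul_iff_inv_smul_mem] at h1
      have h2 : c⁻¹ * t * c ∈ (P : Subgroup G) := by
        simpa [Sylow.coe_subtype, Subgroup.mem_subgroupOf, MulAut.conj_inv_apply] using h1
      have h3 := hPz _ h2
      calc c * z * c⁻¹ * t = c * (z * (c⁻¹ * t * c)) * c⁻¹ := by group
        _ = c * ((c⁻¹ * t * c) * z) * c⁻¹ := by rw [h3]
        _ = t * (c * z * c⁻¹) := by group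
    set w := c * z * c⁻¹ with hw
    have hwH : w ∈ H := mul_mem (mul_mem hcH hzH) (inv_mem hcH)
    have hwy : w * y = y * w := hz' y hyT
    have hwfix : ∀ t : G, t * w * t⁻¹ ∈ H → t ∈ H := by
      intro t ht
      have : c⁻¹ * t⁻¹ * c ∈ H := hfix _ (by
        have h1 : (c⁻¹ * t⁻¹ * c)⁻¹ * z * (c⁻¹ * t⁻¹ * c) = c⁻¹ * (t * w * t⁻¹) * c := by
          rw [hw]; group
        rw [h1]
        exact mul_mem (mul_mem (inv_mem hcH) ht) hcH)
      have h2 := inv_mem (mul_mem (mul_mem hcH this) (inv_mem hcH))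
      have h3 : (c * (c⁻¹ * t⁻¹ * c) * c⁻¹)⁻¹ = t := by group
      rwa [h3] at h2
    refine ⟨c, hcH, hwy, ?_⟩
    -- w lies in T
    have hwCH : w ∈ CH := ⟨hwH, Subgroup.mem_centralizer_singleton_iff.2 hwy⟩
    have hwT : w ∈ T := by
      have h2 : Subgroup.zpowers (⟨w, hwCH⟩ : CH) ≤
          Subgroup.normalizer ((T₀ : Subgroup CH) : Set CH) := by
        rw [Subgroup.zpowers_le, Subgroup.mem_normalizer_iff]
        intro a
        have hcomm : ∀ b : CH, b ∈ (T₀ : Subgroup CH) → (⟨w, hwCH⟩ : CH) * b = b * ⟨w, hwCH⟩ :=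
          fun b hb => Subtype.ext (hz' b ⟨b, hb, rfl⟩)
        constructor
        · intro ha
          rw [hcomm a ha, mul_inv_cancel_right]
          exact ha
        · intro ha
          have h5 := hcomm _ ha
          have : a = (⟨w, hwCH⟩ : CH) * a * (⟨w, hwCH⟩ : CH)⁻¹ :=
            calc a = (⟨w, hwCH⟩ : CH)⁻¹ * ((⟨w, hwCH⟩ : CH) * a * (⟨w, hwCH⟩ : CH)⁻¹ * ⟨w, hwCH⟩) := by
                  group
              _ = (⟨w, hwCH⟩ : CH)⁻¹ * ((⟨w, hwCH⟩ : CH) * ((⟨w, hwCH⟩ : CH) * a * (⟨w, hwCH⟩ : CH)⁻¹)) := by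
                  rw [h5]
              _ = _ := by group
          rwa [← this] at ha
      have hp : IsPGroup 2 (Subgroup.zpowers (⟨w, hwCH⟩ : CH)) :=
        IsPGroup.of_card (n := 1) (by
          have ho : orderOf w = orderOf z := by
            rw [hw, ← orderOf_injective (MulAut.conj c).toMonoidHom (MulAut.conj c).injective z]
            rfl
          rw [Nat.card_zpowers, Subgroup.orderOf_mk, ho, hz2, pow_one])
      have hmem : Subgroup.zpowers (⟨w, hwCH⟩ : CH) ⊔ (T₀ : Subgroup CH) = T₀ :=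
        T₀.3 (hp.to_sup_of_normal_right' T₀.2 h2) le_sup_right
      exact ⟨⟨w, hwCH⟩, hmem ▸ Subgroup.mem_sup_left (Subgroup.mem_zpowers _), rfl⟩
    -- T is a Sylow subgroup of the centralizer
    obtain ⟨U, hU⟩ := IsPGroup.exists_le_sylow
      (hTp.of_equiv (Subgroup.subgroupOfEquivOfLe hTC).symm)
    refine ⟨U, ?_⟩
    by_contra hne
    push Not at hne
    obtain ⟨t₀, ht₀U, ht₀H⟩ := hne
    set T' := (T.subgroupOf (Subgroup.centralizer ({y} : Set G))).subgroupOf (U : Subgroup _) with hT'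
    have hlt : T' < ⊤ := by
      rw [lt_top_iff_ne_top]
      intro h
      have : (⟨t₀, ht₀U⟩ : (U : Subgroup _)) ∈ T' := h ▸ Subgroup.mem_top _
      exact ht₀H (hTH this)
    haveI : Group.IsNilpotent ↥(U : Subgroup ↥(Subgroup.centralizer ({y} : Set G))) := U.2.isNilpotent
    have hN := normalizerCondition_of_isNilpotent T' hlt
    obtain ⟨t, htN, htT⟩ := SetLike.exists_of_lt hN
    apply htT
    have h1 : (⟨⟨w, hTC hwT⟩, hU hwT⟩ : (U : Subgroup _)) ∈ T' := hwT
    have h2 : ((t : ↥(Subgroup.centralizer ({y} : Set G))) : G) * w *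
        ((t : ↥(Subgroup.centralizer ({y} : Set G))) : G)⁻¹ ∈ T :=
      (Subgroup.mem_normalizer_iff.1 htN _).1 h1
    have htH : ((t : ↥(Subgroup.centralizer ({y} : Set G))) : G) ∈ H := hwfix _ (hTH h2)
    -- T is a Sylow subgroup of `CH`
    have htCH : ((t : ↥(Subgroup.centralizer ({y} : Set G))) : G) ∈ CH := ⟨htH, t.1.2⟩
    have hmax : IsPGroup 2 ↥((U : Subgroup ↥(Subgroup.centralizer ({y} : Set G))).map
        (Subgroup.centralizer ({y} : Set G)).subtype) := U.2.map _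
    set U' := ((U : Subgroup ↥(Subgroup.centralizer ({y} : Set G))).map
        (Subgroup.centralizer ({y} : Set G)).subtype) with hU'
    have h4 : IsPGroup 2 ↥(U'.subgroupOf CH) :=
      hmax.comap_of_injective CH.subtype CH.subtype_injective
    have h5 : (T₀ : Subgroup CH) ≤ U'.subgroupOf CH := fun a ha =>
      ⟨⟨a, a.2.2⟩, hU ⟨a, ha, rfl⟩, rfl⟩
    have h6 := T₀.3 h4 h5
    show ((t : ↥(Subgroup.centralizer ({y} : Set G))) : G) ∈ T
    refine ⟨⟨_, htCH⟩, ?_, rfl⟩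
    rw [← h6]
    exact ⟨_, t.2, rfl⟩
  obtain ⟨a, haH, hax, -⟩ := key x hxH hx2
  have hy2 : ∃ k : ℕ, orderOf (g * x * g⁻¹) = 2 ^ k := by
    obtain ⟨k, hk⟩ := hx2
    refine ⟨k, ?_⟩
    rw [← hk]
    exact orderOf_injective (MulAut.conj g).toMonoidHom (MulAut.conj g).injective x
  obtain ⟨b, hbH, -, T, hT⟩ := key (g * x * g⁻¹) hg hy2
  set u := g * (a * z * a⁻¹) * g⁻¹ with hu
  have huC : u ∈ Subgroup.centralizer ({g * x * g⁻¹} : Set G) := by
    rw [Subgroup.mem_centralizer_singleton_iff, hu]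
    calc g * (a * z * a⁻¹) * g⁻¹ * (g * x * g⁻¹) = g * ((a * z * a⁻¹) * x) * g⁻¹ := by group
      _ = g * (x * (a * z * a⁻¹)) * g⁻¹ := by rw [hax]
      _ = _ := by group
  have hup : IsPGroup 2 (Subgroup.zpowers (⟨u, huC⟩ : ↥(Subgroup.centralizer _))) :=
    IsPGroup.of_card (n := 1) (by
      rw [Nat.card_zpowers, Subgroup.orderOf_mk, pow_one, hu, ← hz2]
      have h1 := orderOf_injective (MulAut.conj g).toMonoidHom (MulAut.conj g).injective (a * z * a⁻¹)
      have h2 := orderOf_injective (MulAut.conj a).toMonoidHom (MulAut.conj a).injective z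
      exact h1.trans h2)
  obtain ⟨T₁, hT₁⟩ := hup.exists_le_sylow
  obtain ⟨⟨d, hdC⟩, hd⟩ := MulAction.exists_smul_eq ↥(Subgroup.centralizer ({g * x * g⁻¹} : Set G)) T₁ T
  have hdu : d * u * d⁻¹ ∈ H := by
    have h1 : ((⟨d, hdC⟩ : ↥(Subgroup.centralizer _)) * ⟨u, huC⟩ * ⟨d, hdC⟩⁻¹) ∈ (T : Subgroup _) := by
      rw [← hd, Sylow.coe_subgroup_smul]
      exact Subgroup.smul_mem_pointwise_smul _ (MulAut.conj _) _ (hT₁ (Subgroup.mem_zpowers _))
    exact hT _ h1
  have hdg : d * g ∈ H := by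
    have h1 : (a⁻¹ * (d * g)⁻¹)⁻¹⁻¹ = a⁻¹ * (d * g)⁻¹ := inv_inv _
    have h2 : a⁻¹ * (d * g)⁻¹ * a ∈ H := by
      refine hfix _ ?_
      have : (a⁻¹ * (d * g)⁻¹ * a)⁻¹ * z * (a⁻¹ * (d * g)⁻¹ * a) = a⁻¹ * (d * u * d⁻¹) * a := by
        rw [hu]; group
      rw [this]
      exact mul_mem (mul_mem (inv_mem haH) hdu) haH
    have h3 := inv_mem (mul_mem (mul_mem haH h2) (inv_mem haH))
    have h4 : (a * (a⁻¹ * (d * g)⁻¹ * a) * a⁻¹)⁻¹ = d * g := by group
    rwa [h4] at h3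
  refine ⟨d * g, hdg, ?_⟩
  rw [Subgroup.mem_centralizer_singleton_iff] at hdC
  calc d * g * x * (d * g)⁻¹ = (d * (g * x * g⁻¹)) * d⁻¹ := by group
    _ = ((g * x * g⁻¹) * d) * d⁻¹ := by rw [hdC]
    _ = g * x * g⁻¹ := by group

end Cfsg.Agent.S5438
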