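import Cfsg.Statements.S5439
-- import your own Cfsg.Agent.* helpers here

set_option autoImplicit false
open Cfsg

namespace Cfsg.Agent.S5439

/-- Let I and J be two different conjugacy classes of involutions of the finite group G and H a subgroup such that every member of I ∪ J fixes exactly one coset in the action on the cosets of H, and such that for every a in I ∩ H and every b in (I ∪ J) ∩ H different from a and commuting with it, the centralizer of a b lies in H. Then H = G. -/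
theorem result {G : Type*} [Group G] [Finite G] (I J : Set G) (a₀ b₀ : G) (ha₀ : orderOf a₀ = 2) (hb₀ : orderOf b₀ = 2) (hI : I = {x | IsConj a₀ x}) (hJ : J = {x | IsConj b₀ x}) (hIJ : I ≠ J) (H : Subgroup G) (hfix : ∀ x ∈ I ∪ J, ∃! c : G ⧸ H, x • c = c) (hcent : ∀ a ∈ I, a ∈ H → ∀ b ∈ I ∪ J, b ∈ H → a ≠ b → a * b = b * a → Subgroup.centralizer ({a * b} : Set G) ≤ H) : H = ⊤ := by
  subst hI hJ
  have hIJ' : ¬ IsConj a₀ b₀ := fun h => hIJ (Set.ext fun x =>
    ⟨fun hx => h.symm.trans hx, fun hx => h.trans hx⟩)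
  have hinv : ∀ x ∈ {x | IsConj a₀ x} ∪ {x | IsConj b₀ x}, x * x = 1 := by
    have : ∀ c y : G, orderOf c = 2 → IsConj c y → y * y = 1 := by
      intro c y hc hy
      obtain ⟨g, rfl⟩ := isConj_iff.1 hy
      have h1 : c * c = 1 := by rw [← pow_two, ← hc, pow_orderOf_eq_one]
      calc g * c * g⁻¹ * (g * c * g⁻¹) = g * (c * c) * g⁻¹ := by group
        _ = 1 := by rw [h1]; group
    rintro x (hx | hx)
    exacts [this a₀ x ha₀ hx, this b₀ x hb₀ hx]
  -- fixed cosets: the centraliser of a member of `H` lies in `H`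
  have hsmul : ∀ (g x : G), x • (QuotientGroup.mk g : G ⧸ H) = QuotientGroup.mk g ↔
      g⁻¹ * x * g ∈ H := by
    intro g x
    rw [MulAction.Quotient.smul_mk, QuotientGroup.eq]
    have h : (x • g)⁻¹ * g = (g⁻¹ * x * g)⁻¹ := by simp [smul_eq_mul, mul_assoc]
    rw [h, inv_mem_iff]
  have huniq : ∀ x ∈ {x | IsConj a₀ x} ∪ {x | IsConj b₀ x}, x ∈ H → ∀ g : G,
      g⁻¹ * x * g ∈ H → g ∈ H := by
    intro x hx hxH g hg
    obtain ⟨c, hc, hu⟩ := hfix x hx
    have h1 := hu (QuotientGroup.mk 1) ((hsmul 1 x).2 (by simpa using hxH))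
    have h2 := hu (QuotientGroup.mk g) ((hsmul g x).2 hg)
    simpa using (QuotientGroup.eq (s := H)).1 (h1.trans h2.symm)
  by_contra hH
  obtain ⟨g₀, hg₀⟩ : ∃ g : G, g ∉ H := by
    by_contra h
    push Not at h
    exact hH (eq_top_iff.2 fun g _ => h g)
  obtain ⟨a, ha, haH⟩ : ∃ a, IsConj a₀ a ∧ a ∈ H := by
    obtain ⟨c, hc, -⟩ := hfix a₀ (Or.inl (IsConj.refl a₀))
    induction c using QuotientGroup.induction_on with
    | H g => exact ⟨_, isConj_iff.2 ⟨g⁻¹, by group⟩, (hsmul g a₀).1 hc⟩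
  obtain ⟨b, hb, hbH⟩ : ∃ b, IsConj b₀ b ∧ b ∉ H := by
    by_contra h
    push Not at h
    exact hg₀ (huniq b₀ (Or.inr (IsConj.refl b₀)) (h b₀ (IsConj.refl b₀)) g₀
      (h _ (isConj_iff.2 ⟨g₀⁻¹, by group⟩)))
  have haa := hinv a (Or.inl ha)
  have hbb := hinv b (Or.inr hb)
  have hai : a⁻¹ = a := inv_eq_of_mul_eq_one_right haa
  have hbi : b⁻¹ = b := inv_eq_of_mul_eq_one_right hbb
  set y := a * b with hy
  have hyinv : ∀ k : ℕ, a * y ^ k * a⁻¹ = (y ^ k)⁻¹ := by
    intro k
    have h1 : a * y * a⁻¹ = y⁻¹ := by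
      rw [hy, mul_inv_rev, hai, hbi]
      calc a * (a * b) * a = (a * a) * b * a := by group
        _ = b * a := by rw [haa, one_mul]
    rw [← conj_pow, h1, inv_pow]
  rcases Nat.even_or_odd (orderOf y) with ⟨n, hn⟩ | ⟨n, hn⟩
  · have hn0 : n ≠ 0 := by
      intro h
      rw [h] at hn
      exact absurd hn (orderOf_pos y).ne'
    set c := y ^ n with hc
    have hcc : c * c = 1 := by rw [hc, ← pow_add, ← hn, pow_orderOf_eq_one]
    have hc1 : c ≠ 1 := pow_ne_one_of_lt_orderOf hn0 (by omega)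
    have hci : c⁻¹ = c := inv_eq_of_mul_eq_one_right hcc
    have hca : c * a = a * c := by
      have := hyinv n
      rw [← hc, hci] at this
      calc c * a = a * c * a⁻¹ * a := by rw [this]
        _ = a * c := by group
    have hcy : c * y = y * c := (Commute.pow_self y n).eq
    have hcb : c * b = b * c := by
      have : b = a * y := by rw [hy, ← mul_assoc, haa, one_mul]
      rw [this]
      calc c * (a * y) = (c * a) * y := (mul_assoc _ _ _).symm
        _ = a * (c * y) := by rw [hca]; group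
        _ = a * y * c := by rw [hcy]; group
    have hacI : a * c ∈ {x | IsConj a₀ x} ∪ {x | IsConj b₀ x} := by
      rcases Nat.even_or_odd n with ⟨m, hm⟩ | ⟨m, hm⟩
      · refine Or.inl (IsConj.trans ha (isConj_iff.2 ⟨(y ^ m)⁻¹, ?_⟩))
        calc (y ^ m)⁻¹ * a * (y ^ m)⁻¹⁻¹ = (a * y ^ m * a⁻¹) * a * y ^ m := by
              rw [hyinv m]; group
          _ = a * c := by rw [hc, hm, pow_add]; group
      · refine Or.inr (IsConj.trans hb (isConj_iff.2 ⟨(y ^ m)⁻¹, ?_⟩))
        have hb' : b = a * y := by rw [hy, ← mul_assoc, haa, one_mul]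
        calc (y ^ m)⁻¹ * b * (y ^ m)⁻¹⁻¹ = (a * y ^ m * a⁻¹) * (a * y) * y ^ m := by
              rw [hyinv m, hb']; group
          _ = a * c := by rw [hc, hm, two_mul, pow_succ, pow_add]; group
    have hcH : c ∈ H := huniq a (Or.inl ha) haH c (by
      rwa [mul_assoc, ← hca, ← mul_assoc, inv_mul_cancel, one_mul])
    have hne : a ≠ a * c := fun h => hc1 (left_eq_mul.1 h)
    have hac : a * (a * c) = c := by rw [← mul_assoc, haa, one_mul]
    have hsub := hcent a ha haH (a * c) hacI (mul_mem haH hcH) hne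
      (by rw [hac, mul_assoc, hca, hac])
    rw [hac] at hsub
    exact hbH (hsub (Subgroup.mem_centralizer_singleton_iff.2 hcb.symm))
  · -- odd order: `a` and `b` would be conjugate
    refine hIJ' (ha.trans ((isConj_iff.2 ⟨(y ^ (n + 1))⁻¹, ?_⟩ : IsConj a b).trans hb.symm))
    calc (y ^ (n + 1))⁻¹ * a * (y ^ (n + 1))⁻¹⁻¹
        = (a * y ^ (n + 1) * a⁻¹) * a * y ^ (n + 1) := by rw [hyinv (n + 1)]; group
      _ = a * (y ^ (2 * n + 1) * y) := by rw [← pow_succ, show 2 * n + 1 + 1 = (n + 1) + (n + 1) by ring, pow_add]; group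
      _ = a * y := by rw [← hn, pow_orderOf_eq_one, one_mul]
      _ = b := by rw [hy, ← mul_assoc, haa, one_mul]

end Cfsg.Agent.S5439
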