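import Cfsg.Statements.S5452
import Cfsg.Agent.USixCover.Lift
-- import your own Cfsg.Agent.* helpers here

set_option autoImplicit false
open Cfsg

namespace Cfsg.Agent.S5452

/-- Let G be a finite group with an involution d whose centralizer C is quasisimple with C modulo the subgroup generated by d isomorphic to the projective special unitary group of dimension 6 over the field with four elements, and suppose some conjugate of d other than d commutes with d. Then every involution of C modulo the subgroup generated by d is the image of an involution of C, and d is not a square in G. -/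
theorem result {G : Type*} [Group G] [Finite G] (d : G) (hd : orderOf d = 2) (hq : Cfsg.IsQuasisimple ↥(Subgroup.centralizer ({d} : Set G))) [hzn : ((Subgroup.zpowers d).subgroupOf (Subgroup.centralizer ({d} : Set G))).Normal] (K : Type) [Field K] [Fintype K] (hK : Fintype.card K = 4) (e : ↥(Subgroup.centralizer ({d} : Set G)) ⧸ (Subgroup.zpowers d).subgroupOf (Subgroup.centralizer ({d} : Set G)) ≃* Cfsg.PSU 6 K 2) (hnwc : ∃ g : G, g * d * g⁻¹ ∈ Subgroup.centralizer ({d} : Set G) ∧ g * d * g⁻¹ ≠ d) : (∀ x : ↥(Subgroup.centralizer ({d} : Set G)) ⧸ (Subgroup.zpowers d).subgroupOf (Subgroup.centralizer ({d} : Set G)), orderOf x = 2 → ∃ y : ↥(Subgroup.centralizer ({d} : Set G)), orderOf y = 2 ∧ (QuotientGroup.mk y : ↥(Subgroup.centralizer ({d} : Set G)) ⧸ (Subgroup.zpowers d).subgroupOf (Subgroup.centralizer ({d} : Set G))) = x) ∧ ¬ ∃ g : G, g ^ 2 = d := by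
  obtain ⟨Cj⟩ := CfsgLib.UGeom.nonempty_conj (F := K) (q := 2) (by rw [hK]; norm_num)
  set W := Subgroup.centralizer ({d} : Set G) with hW
  let Z : Subgroup ↥W := (Subgroup.zpowers d).subgroupOf W
  have hdd : d * d = 1 := by rw [← pow_two, ← hd, pow_orderOf_eq_one]
  have hker : ∀ k : ↥W, k ∈ Z → (∀ a, Commute k a) ∧ k * k = 1 := by
    intro k hk
    obtain ⟨i, hi⟩ := Subgroup.mem_zpowers_iff.1 (Subgroup.mem_subgroupOf.1 hk)
    refine ⟨fun a => Subtype.ext ?_, Subtype.ext ?_⟩
    · have ha : Commute (a : G) d := Subgroup.mem_centralizer_singleton_iff.1 a.2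
      have := (ha.zpow_right i).symm
      rw [hi] at this
      exact this.eq
    · rw [Subgroup.coe_mul, ← hi, ← (Commute.refl d).mul_zpow, hdd, one_zpow, Subgroup.coe_one]
  have hmem : ∀ k, e.toMonoidHom.comp (QuotientGroup.mk' Z) k = 1 → k ∈ Z := fun k hk => by
    have h : e (QuotientGroup.mk' Z k) = 1 := hk
    rw [EmbeddingLike.map_eq_one_iff] at h
    exact (QuotientGroup.eq_one_iff k).1 h
  let E : CfsgLib.USixCover.Ext K ↥W :=
    { π := e.toMonoidHom.comp (QuotientGroup.mk' Z)
      surj := e.surjective.comp (QuotientGroup.mk'_surjective Z)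
      central := fun k hk => (hker k (hmem k hk)).1
      exp_two := fun k hk => (hker k (hmem k hk)).2 }
  have lift : ∀ x : ↥W ⧸ Z, x * x = 1 → ∃ y : ↥W, QuotientGroup.mk' Z y = x ∧ y * y = 1 := by
    intro x hx
    obtain ⟨y, hy, hy2⟩ := CfsgLib.USixCover.exists_lift E Cj (e x) (by rw [← map_mul, hx, map_one])
    exact ⟨y, e.injective hy, hy2⟩
  refine ⟨fun x hx => ?_, ?_⟩
  · have hx2 : x * x = 1 := by rw [← pow_two, ← hx, pow_orderOf_eq_one]
    obtain ⟨y, hy, hy2⟩ := lift x hx2
    refine ⟨y, orderOf_eq_prime (by rw [pow_two, hy2]) ?_, hy⟩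
    rintro rfl
    rw [map_one] at hy
    rw [← hy, orderOf_one] at hx
    omega
  · rintro ⟨g, hg⟩
    have hgW : g ∈ W := by
      rw [hW, Subgroup.mem_centralizer_singleton_iff, ← hg]
      exact (Commute.self_pow g 2).eq
    let g' : ↥W := ⟨g, hgW⟩
    have hg2 : g' * g' ∈ Z := by
      rw [Subgroup.mem_subgroupOf, Subgroup.coe_mul, ← pow_two]
      show g ^ 2 ∈ Subgroup.zpowers d
      rw [hg]
      exact Subgroup.mem_zpowers d
    obtain ⟨y, hy, hy2⟩ := lift (QuotientGroup.mk' Z g') (by
      rw [← map_mul]; exact (QuotientGroup.eq_one_iff _).2 hg2)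
    have hk : g' * y⁻¹ ∈ Z := by
      rw [← QuotientGroup.eq_one_iff]
      show QuotientGroup.mk' Z (g' * y⁻¹) = 1
      rw [map_mul, map_inv, hy, mul_inv_cancel]
    obtain ⟨hc, hk2⟩ := hker _ hk
    have : g' * g' = 1 := by
      rw [show g' = g' * y⁻¹ * y by group, Commute.mul_mul_mul_comm (hc y).symm, hk2, hy2, one_mul]
    have h1 : d = 1 := by
      rw [← hg, pow_two]
      exact congrArg Subtype.val this
    rw [h1, orderOf_one] at hd
    omega

end Cfsg.Agent.S5452
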