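import Cfsg.Statements.S5453
import Cfsg.Agent.ThreeTrans.TransCentralizer

set_option autoImplicit false
open Cfsg
open scoped commutatorElement

namespace Cfsg.Agent.S5453

/-- Let G be a finite group with an involution d whose centralizer C is quasisimple, such that C modulo the subgroup generated by d is of type M(22) with respect to some conjugacy class of 3-transpositions generating it and also has an involution whose own centralizer is quasisimple with quotient by it isomorphic to the projective special unitary group of dimension 6 over the field with four elements and which is not weakly closed in that centralizer; and suppose some conjugate of d other than d commutes with d. Then every involution of C modulo the subgroup generated by d is the image of an involution of C, and d is not a square in G. -/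
theorem result {G : Type*} [Group G] [Finite G] (d : G) (hd : orderOf d = 2) (hq : Cfsg.IsQuasisimple ↥(Subgroup.centralizer ({d} : Set G))) [hzn : ((Subgroup.zpowers d).subgroupOf (Subgroup.centralizer ({d} : Set G))).Normal] (htype : ∃ E : Set (↥(Subgroup.centralizer ({d} : Set G)) ⧸ (Subgroup.zpowers d).subgroupOf (Subgroup.centralizer ({d} : Set G))), Cfsg.IsThreeTranspositionClass E ∧ Cfsg.IsOfTypeM22 _ E) (hinvol : ∃ d' : ↥(Subgroup.centralizer ({d} : Set G)) ⧸ (Subgroup.zpowers d).subgroupOf (Subgroup.centralizer ({d} : Set G)), orderOf d' = 2 ∧ Cfsg.IsQuasisimple ↥(Subgroup.centralizer ({d'} : Set _)) ∧ (∃ (K : Type) (_ : Field K) (_ : Fintype K), Fintype.card K = 4 ∧ ∃ _ : ((Subgroup.zpowers d').subgroupOf (Subgroup.centralizer ({d'} : Set _))).Normal, Nonempty (↥(Subgroup.centralizer ({d'} : Set _)) ⧸ (Subgroup.zpowers d').subgroupOf (Subgroup.centralizer ({d'} : Set _)) ≃* Cfsg.PSU 6 K 2)) ∧ ∃ g, g * d' * g⁻¹ ∈ Subgroup.centralizer ({d'} : Set _) ∧ g * d' * g⁻¹ ≠ d') (hnwc : ∃ g :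 G, g * d * g⁻¹ ∈ Subgroup.centralizer ({d} : Set G) ∧ g * d * g⁻¹ ≠ d) : (∀ x : ↥(Subgroup.centralizer ({d} : Set G)) ⧸ (Subgroup.zpowers d).subgroupOf (Subgroup.centralizer ({d} : Set G)), orderOf x = 2 → ∃ y : ↥(Subgroup.centralizer ({d} : Set G)), orderOf y = 2 ∧ (QuotientGroup.mk y : ↥(Subgroup.centralizer ({d} : Set G)) ⧸ (Subgroup.zpowers d).subgroupOf (Subgroup.centralizer ({d} : Set G))) = x) ∧ ¬ ∃ g : G, g ^ 2 = d := by
  classical
  haveI := Fact.mk Nat.prime_three
  set W := Subgroup.centralizer ({d} : Set G) with hW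
  let Z : Subgroup ↥W := (Subgroup.zpowers d).subgroupOf W
  obtain ⟨E, hE, hT⟩ := htype
  obtain ⟨d', hd', -, ⟨K, _, _, hK, hn, ⟨e⟩⟩, -⟩ := hinvol
  have hdd : d * d = 1 := by
    have := pow_orderOf_eq_one d
    rwa [hd, pow_two] at this
  have hker : ∀ k : ↥W, k ∈ Z → (∀ a, Commute k a) ∧ k * k = 1 := by
    intro k hk
    obtain ⟨i, hi⟩ := Subgroup.mem_zpowers_iff.1 (Subgroup.mem_subgroupOf.1 hk)
    refine ⟨fun a => Subtype.ext ?_, Subtype.ext ?_⟩
    · have ha : Commute (a : G) d := Subgroup.mem_centralizer_singleton_iff.1 a.2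
      have := (ha.zpow_right i).symm
      rw [hi] at this
      exact this.eq
    · rw [Subgroup.coe_mul, ← hi, ← (Commute.refl d).mul_zpow, hdd, one_zpow, Subgroup.coe_one]
  have hZc : Subgroup.center ↥W = Z := by
    refine le_antisymm (fun z hz => ?_) fun z hz => Subgroup.mem_center_iff.2 fun a => ((hker z hz).1 a).symm.eq
    rw [← QuotientGroup.eq_one_iff, ← Subgroup.mem_bot, ← hT.1, Subgroup.mem_center_iff]
    intro q
    induction q using QuotientGroup.induction_on with
    | H g => rw [← QuotientGroup.mk_mul, ← QuotientGroup.mk_mul, Subgroup.mem_center_iff.1 hz g]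
  haveI hsimple : IsSimpleGroup (↥W ⧸ Z) :=
    haveI := hq.2
    (QuotientGroup.quotientMulEquivOfEq hZc).symm.isSimpleGroup
  have hperf : commutator (↥W ⧸ Z) = ⊤ := by
    refine ((Subgroup.Normal.eq_bot_or_eq_top (H := commutator (↥W ⧸ Z)) inferInstance)).resolve_left fun h => ?_
    obtain ⟨-, a, ha, b, hb, hab, -⟩ := hT
    apply hab
    have h1 : ⁅a, b⁆ = 1 := by
      rw [← Subgroup.mem_bot, ← h, commutator_def]
      exact Subgroup.commutator_mem_commutator (Subgroup.mem_top _) (Subgroup.mem_top _)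
    exact commutatorElement_eq_one_iff_commute.1 h1
  have hsimp' : IsSimpleGroup ↥(commutator (↥W ⧸ Z)) := by
    rw [hperf]
    exact Subgroup.topEquiv.isSimpleGroup
  have hnonab : ∃ x y : ↥(commutator (↥W ⧸ Z)), x * y ≠ y * x := by
    obtain ⟨-, a, ha, b, hb, hab, -⟩ := hT
    exact ⟨⟨a, hperf ▸ Subgroup.mem_top a⟩, ⟨b, hperf ▸ Subgroup.mem_top b⟩,
      fun h => hab (congrArg Subtype.val h)⟩
  have hG := CfsgLib.ThreeTrans.not_isPGroup_of_simple (p := 3) hsimp' hnonab
  have hM := CfsgLib.ThreeTrans.mono_of_simple hsimp'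
  have hprim := CfsgLib.ThreeTrans.isPrimitive hE hM hG
  have hgrp := CfsgLib.ThreeTrans.class_toGroup hE
  obtain ⟨hcent, hfix⟩ := CfsgLib.ThreeTrans.twentyTwo_centralizer hgrp hprim hT hd' (hn := hn) hK e
  have lift : ∀ x : ↥W ⧸ Z, x * x = 1 → ∃ y : ↥W, QuotientGroup.mk' Z y = x ∧ y * y = 1 := fun x hx =>
    CfsgLib.ThreeTrans.twentyTwo_lift hgrp hprim hT (QuotientGroup.mk' Z) (QuotientGroup.mk'_surjective Z)
      (fun k hk => hker k ((QuotientGroup.eq_one_iff k).1 hk)) hcent hfix hx
  refine ⟨fun x hx => ?_, ?_⟩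
  · have hx2 : x * x = 1 := by
      have := pow_orderOf_eq_one x
      rwa [hx, pow_two] at this
    obtain ⟨y, hy, hy2⟩ := lift x hx2
    refine ⟨y, orderOf_eq_prime (by rw [pow_two, hy2]) ?_, hy⟩
    rintro rfl
    rw [map_one] at hy
    rw [← hy, orderOf_one] at hx
    omega
  · rintro ⟨g, hg⟩
    have hgW : g ∈ W := by
      rw [hW, Subgroup.mem_centralizer_singleton_iff, ← hg]
      exact (Commute.self_pow g 2).eq
    let g' : ↥W := ⟨g, hgW⟩
    have hg2 : g' * g' ∈ Z := by
      rw [Subgroup.mem_subgroupOf, Subgroup.coe_mul, ← pow_two]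
      show g ^ 2 ∈ Subgroup.zpowers d
      rw [hg]
      exact Subgroup.mem_zpowers d
    obtain ⟨y, hy, hy2⟩ := lift (QuotientGroup.mk' Z g') (by
      rw [← map_mul]; exact (QuotientGroup.eq_one_iff _).2 hg2)
    have hk : g' * y⁻¹ ∈ Z := by
      rw [← QuotientGroup.eq_one_iff]
      show QuotientGroup.mk' Z (g' * y⁻¹) = 1
      rw [map_mul, map_inv, hy, mul_inv_cancel]
    obtain ⟨hc, hk2⟩ := hker _ hk
    have : g' * g' = 1 := by
      rw [show g' = g' * y⁻¹ * y by group, Commute.mul_mul_mul_comm (hc y).symm, hk2, hy2, one_mul]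
    have h1 : d = 1 := by
      rw [← hg, pow_two]
      exact congrArg Subtype.val this
    rw [h1, orderOf_one] at hd
    omega

end Cfsg.Agent.S5453
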