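import Cfsg.Statements.S5457
import Cfsg.Agent.ThreeTrans.TwentyThreeUnique

set_option autoImplicit false
open Cfsg

namespace Cfsg.Agent.S5457

/-- Let G be a finite group with trivial centre generated by a conjugation-invariant set D of 3-transpositions on which it acts primitively, of type M(23), and suppose G also has an involution whose centralizer C is quasisimple, with C modulo the subgroup generated by that involution both of type M(22) (for some generating class of 3-transpositions) and possessing an involution whose own centralizer is quasisimple with quotient by it the projective special unitary group of dimension 6 over the field with four elements and which is not weakly closed in that centralizer, and with the first involution not weakly closed in C. Then D is the only conjugacy class of 3-transpositions generating G. -/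
theorem result {G : Type*} [Group G] [Finite G] {D : Set G} (hD : Cfsg.IsThreeTranspositionGroup D) (hprim : Cfsg.IsPrimitiveUnderConj D) (h23 : Cfsg.IsOfTypeM23 G D) (hM : ∃ d : G, orderOf d = 2 ∧ Cfsg.IsQuasisimple ↥(Subgroup.centralizer ({d} : Set G)) ∧ (∃ (_ : ((Subgroup.zpowers d).subgroupOf (Subgroup.centralizer ({d} : Set G))).Normal), (∃ E : Set (↥(Subgroup.centralizer ({d} : Set G)) ⧸ (Subgroup.zpowers d).subgroupOf (Subgroup.centralizer ({d} : Set G))), Cfsg.IsThreeTranspositionClass E ∧ Cfsg.IsOfTypeM22 _ E) ∧ ∃ d' : ↥(Subgroup.centralizer ({d} : Set G)) ⧸ (Subgroup.zpowers d).subgroupOf (Subgroup.centralizer ({d} : Set G)), orderOf d' = 2 ∧ Cfsg.IsQuasisimple ↥(Subgroup.centralizer ({d'} : Set _)) ∧ (∃ (K : Type) (_ : Field K) (_ : Fintype K), Fintype.card K = 4 ∧ ∃ _ : ((Subgroup.zpowers d').subgroupOf (Subgroup.centralizer ({d'} : Set _))).Normal, Nonempty (↥(Subgroup.centralizer ({d'} : Set _)) ⧸ (Subgroup.zpowers d').subgroupOf (Subgroup.centralizer ({d'} : Set _)) ≃* Cfsg.PSU 6 K 2)) ∧ ∃ g, g * d' * g⁻¹ ∈ Subgroup.centralizer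 ({d'} : Set _) ∧ g * d' * g⁻¹ ≠ d') ∧ ∃ g : G, g * d * g⁻¹ ∈ Subgroup.centralizer ({d} : Set G) ∧ g * d * g⁻¹ ≠ d) (D' : Set G) (hD' : Cfsg.IsThreeTranspositionClass D') : D' = D := by
  obtain ⟨t, ht, hq, ⟨hn, ⟨E, hE, hT⟩, t', ht', -, ⟨K, _, _, hK, hn', ⟨e⟩⟩, -⟩, -⟩ := hM
  exact CfsgLib.ThreeTrans.twentyThree_unique_class hD hprim h23 ht hq (hn := hn) hE hT ht' (hn' := hn') hK e D' hD'

end Cfsg.Agent.S5457
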