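import Cfsg.Statements.S5459
-- import your own Cfsg.Agent.* helpers here

set_option autoImplicit false
open Cfsg
open scoped commutatorElement

namespace Cfsg.Agent.S5459

/-- Let G be a finite group with a quasisimple normal subgroup L and an involution d such that G is generated by L and d, the centre of L has odd order, and d inverts every element of the centre of L. If the commuting graph on the conjugacy class of the image of d in G modulo the centre of L is connected, then the commuting graph on the conjugacy class of d is connected. -/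
theorem result {G : Type*} [Group G] [Finite G] (L : Subgroup G) [L.Normal] (hL : Cfsg.IsQuasisimple ↥L) (d : G) (hd : orderOf d = 2) (hgen : L ⊔ Subgroup.zpowers d = ⊤) (hodd : Odd (Nat.card ↥(Subgroup.center ↥L))) (hinv : ∀ c ∈ (Subgroup.center ↥L).map L.subtype, d * c * d⁻¹ = c⁻¹) [hn : ((Subgroup.center ↥L).map L.subtype).Normal] (hconn : (Cfsg.commutingGraph (conjugatesOf (QuotientGroup.mk d : G ⧸ (Subgroup.center ↥L).map L.subtype))).Connected) : (Cfsg.commutingGraph (conjugatesOf d)).Connected := by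
  classical
  set Z := (Subgroup.center ↥L).map L.subtype with hZ
  set Γ := Cfsg.commutingGraph (conjugatesOf d) with hΓ
  have hZodd : Odd (Nat.card Z) := by
    rwa [hZ, Subgroup.card_map_of_injective L.subtype_injective]
  have hdd : d * d = 1 := by rw [← pow_two, ← hd, pow_orderOf_eq_one]
  have hclosed : ∀ a ∈ conjugatesOf d, ∀ c : G, c * a * c⁻¹ ∈ conjugatesOf d := fun a ha c =>
    IsConj.trans ha (isConj_iff.2 ⟨c, rfl⟩)
  have hinvZ : ∀ a ∈ conjugatesOf d, ∀ c ∈ Z, a * c * a⁻¹ = c⁻¹ := by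
    intro a ha c hc
    obtain ⟨g, rfl⟩ := isConj_iff.1 ha
    have h := hinv (g⁻¹ * c * g) (by simpa using hn.conj_mem c hc g⁻¹)
    calc g * d * g⁻¹ * c * (g * d * g⁻¹)⁻¹ = g * (d * (g⁻¹ * c * g) * d⁻¹) * g⁻¹ := by group
      _ = c⁻¹ := by rw [h]; group
  have hroot : ∀ c ∈ Z, ∃ r ∈ Z, r * r = c := by
    intro c hc
    obtain ⟨k, hk⟩ := hZodd
    refine ⟨c ^ (k + 1), pow_mem hc _, ?_⟩
    have h2 : c ^ Nat.card Z = 1 :=
      orderOf_dvd_iff_pow_eq_one.1 (Subgroup.orderOf_dvd_natCard Z hc)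
    rw [← pow_add, show k + 1 + (k + 1) = Nat.card Z + 1 by omega, pow_succ, h2, one_mul]
  have hshift : ∀ a ∈ conjugatesOf d, ∀ r ∈ Z, r⁻¹ * a * r = a * (r * r) := by
    intro a ha r hr
    have h1 := hinvZ a ha r hr
    calc r⁻¹ * a * r = (a * r * a⁻¹) * a * r := by rw [h1]
      _ = a * (r * r) := by group
  have hconjmem : ∀ a ∈ conjugatesOf d, ∀ c ∈ Z, a * c ∈ conjugatesOf d := by
    intro a ha c hc
    obtain ⟨r, hr, rfl⟩ := hroot c hc
    rw [← hshift a ha r hr]
    simpa using hclosed a ha r⁻¹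
  have hlift : ∀ (u : {x // x ∈ conjugatesOf d}) (b : G), b ∈ conjugatesOf d →
      (QuotientGroup.mk u.1 : G ⧸ Z) ≠ QuotientGroup.mk b →
      Commute (QuotientGroup.mk u.1 : G ⧸ Z) (QuotientGroup.mk b) →
      ∃ w : {x // x ∈ conjugatesOf d}, Γ.Adj u w ∧
        (QuotientGroup.mk w.1 : G ⧸ Z) = QuotientGroup.mk b := by
    intro u b hb hne hcomm
    have ha := u.2
    set a := u.1
    have h1 : (b * a)⁻¹ * (a * b) ∈ Z := by
      rw [← QuotientGroup.eq, QuotientGroup.mk_mul, QuotientGroup.mk_mul]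
      exact hcomm.symm.eq
    obtain ⟨r, hr, hrr⟩ := hroot _ (inv_mem h1)
    refine ⟨⟨b * r, hconjmem b hb r hr⟩, ?_, ?_⟩
    · have har : r * a = a * r⁻¹ := by
        have h3 := hshift a ha r hr
        calc r * a = r * (a * (r * r)) * (r * r)⁻¹ := by group
          _ = r * (r⁻¹ * a * r) * (r * r)⁻¹ := by rw [h3]
          _ = a * r⁻¹ := by group
      have h4 : a * b = b * a * (r * r)⁻¹ := by rw [hrr]; group
      have hcomm' : a * (b * r) = b * r * a := by
        calc a * (b * r) = a * b * r := by group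
          _ = b * a * (r * r)⁻¹ * r := by rw [h4]
          _ = b * (a * r⁻¹) := by group
          _ = b * r * a := by rw [← har]; group
      rw [hΓ, Cfsg.commutingGraph, SimpleGraph.fromRel_adj]
      refine ⟨fun h => hne ?_, Or.inl hcomm'⟩
      rw [show a = b * r from congrArg Subtype.val h, QuotientGroup.eq]
      simpa [mul_assoc] using inv_mem hr
    · rw [QuotientGroup.eq]
      simpa [mul_assoc] using inv_mem hr
  let d₀ : {x // x ∈ conjugatesOf d} := ⟨d, IsConj.refl d⟩
  let cmap : G → (Γ →g Γ) := fun g =>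
    { toFun := fun u => ⟨g * u.1 * g⁻¹, hclosed u.1 u.2 g⟩
      map_rel' := by
        intro u v h
        rw [hΓ, Cfsg.commutingGraph, SimpleGraph.fromRel_adj] at h ⊢
        refine ⟨fun h' => h.1 (Subtype.ext ?_), ?_⟩
        · have := congrArg Subtype.val h'
          simpa using this
        · rcases h.2 with h2 | h2
          · exact Or.inl (by simpa using h2.map (MulAut.conj g).toMonoidHom)
          · exact Or.inr (by simpa using h2.map (MulAut.conj g).toMonoidHom) }
  let R : G → Prop := fun g => Γ.Reachable d₀ (cmap g d₀)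
  have hRmul : ∀ g h, R g → R h → R (g * h) := by
    intro g h hg hh
    refine hg.trans ?_
    have := hh.map (cmap g)
    convert this using 1
    exact Subtype.ext (show g * h * d * (g * h)⁻¹ = g * (h * d * h⁻¹) * g⁻¹ by group)
  have hRC : ∀ g, g * d * g⁻¹ = d → R g := fun g hg => by
    have : cmap g d₀ = d₀ := Subtype.ext hg
    show Γ.Reachable d₀ (cmap g d₀)
    rw [this]
  have hRinv : ∀ g, R g → R g⁻¹ := by
    intro g hg
    have := (hg.map (cmap g⁻¹)).symm
    convert this using 1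
    exact Subtype.ext (show d = g⁻¹ * (g * d * g⁻¹) * g⁻¹⁻¹ by group)
  let H : Subgroup G :=
    { carrier := {g | R g}
      one_mem' := hRC 1 (by simp)
      mul_mem' := fun ha hb => hRmul _ _ ha hb
      inv_mem' := fun ha => hRinv _ ha }
  -- every conjugate is congruent to a reachable one
  have hcover : ∀ x : {x // x ∈ conjugatesOf (QuotientGroup.mk d : G ⧸ Z)},
      ∃ u : {x // x ∈ conjugatesOf d}, Γ.Reachable d₀ u ∧ (QuotientGroup.mk u.1 : G ⧸ Z) = x.1 := by
    intro x
    obtain ⟨p⟩ := hconn.preconnected ⟨QuotientGroup.mk d, IsConj.refl _⟩ x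
    suffices h : ∀ (s t : {x // x ∈ conjugatesOf (QuotientGroup.mk d : G ⧸ Z)}),
        (Cfsg.commutingGraph (conjugatesOf (QuotientGroup.mk d : G ⧸ Z))).Walk s t →
        (∃ u : {x // x ∈ conjugatesOf d}, Γ.Reachable d₀ u ∧ (QuotientGroup.mk u.1 : G ⧸ Z) = s.1) →
        ∃ u : {x // x ∈ conjugatesOf d}, Γ.Reachable d₀ u ∧ (QuotientGroup.mk u.1 : G ⧸ Z) = t.1 from
      h _ _ p ⟨d₀, SimpleGraph.Reachable.refl d₀, rfl⟩
    intro s t q
    induction q with
    | nil => exact id
    | @cons s t t' hadj q ih =>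
      rintro ⟨u, hu, hus⟩
      apply ih
      obtain ⟨c, hc⟩ := isConj_iff.1 t.2
      induction c using QuotientGroup.induction_on with
      | H g =>
        have hbt : (QuotientGroup.mk (g * d * g⁻¹) : G ⧸ Z) = t.1 := by
          rw [← hc]; simp
        rw [Cfsg.commutingGraph, SimpleGraph.fromRel_adj] at hadj
        obtain ⟨w, hw, hwb⟩ := hlift u (g * d * g⁻¹) (hclosed d (IsConj.refl d) g)
          (by rw [hus, hbt]; exact fun h => hadj.1 (Subtype.ext h))
          (by
            rw [hus, hbt]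
            rcases hadj.2 with h | h
            · exact h
            · exact h.symm)
        exact ⟨w, hu.trans hw.reachable, hwb.trans hbt⟩
  have hdH : d ∈ H := hRC d (by simp)
  -- `H Z = G`
  have hHZ : ∀ g : G, ∃ h ∈ H, ∃ c ∈ Z, g = h * c := by
    intro g
    obtain ⟨u, hu, huq⟩ := hcover ⟨QuotientGroup.mk (g * d * g⁻¹), by
      refine isConj_iff.2 ⟨QuotientGroup.mk g, ?_⟩
      simp⟩
    obtain ⟨h, hh⟩ := isConj_iff.1 u.2
    have hhH : h ∈ H := by
      show Γ.Reachable d₀ (cmap h d₀)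
      convert hu using 1
      exact Subtype.ext hh
    rw [QuotientGroup.eq, ← hh] at huq
    -- `g d g⁻¹ = h d h⁻¹ * c`
    set c := (h * d * h⁻¹)⁻¹ * (g * d * g⁻¹) with hc
    obtain ⟨r, hr, hrr⟩ := hroot c huq
    have h5 := hshift _ (hclosed d (IsConj.refl d) h) r hr
    have h6 : (g⁻¹ * r⁻¹ * h) * d * (g⁻¹ * r⁻¹ * h)⁻¹ = d := by
      calc (g⁻¹ * r⁻¹ * h) * d * (g⁻¹ * r⁻¹ * h)⁻¹
          = g⁻¹ * (r⁻¹ * (h * d * h⁻¹) * r) * g := by group
        _ = d := by rw [h5, hrr, hc]; group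
    have h7 : g⁻¹ * r⁻¹ * h ∈ H := hRC _ h6
    refine ⟨h * (g⁻¹ * r⁻¹ * h)⁻¹, mul_mem hhH (inv_mem h7),
      (h * (g⁻¹ * r⁻¹ * h)⁻¹)⁻¹ * g, ?_, by group⟩
    have h8 : (h * (g⁻¹ * r⁻¹ * h)⁻¹)⁻¹ * g = g⁻¹ * r⁻¹ * g := by group
    rw [h8]
    simpa using hn.conj_mem r⁻¹ (inv_mem hr) g⁻¹
  have hLH : L ≤ H := by
    have hsub : commutator ↥L ≤ H.subgroupOf L := by
      rw [commutator_def, Subgroup.commutator_le]
      intro x _ y _
      obtain ⟨h, hh, c, hc, hx⟩ := hHZ x
      obtain ⟨h', hh', c', hc', hy⟩ := hHZ y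
      have hZL : Z ≤ L := Subgroup.map_subtype_le _
      have hhL : h ∈ L := by
        have : h = x.1 * c⁻¹ := by rw [hx]; group
        rw [this]; exact mul_mem x.2 (inv_mem (hZL hc))
      have hh'L : h' ∈ L := by
        have : h' = y.1 * c'⁻¹ := by rw [hy]; group
        rw [this]; exact mul_mem y.2 (inv_mem (hZL hc'))
      have hcen : ∀ c ∈ Z, ∀ l ∈ L, l * c = c * l := by
        rintro _ ⟨c, hc, rfl⟩ l hl
        exact congrArg Subtype.val (Subgroup.mem_center_iff.1 hc ⟨l, hl⟩)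
      rw [Subgroup.mem_subgroupOf]
      have h9 : ((x * y * x⁻¹ * y⁻¹ : L) : G) = h * h' * h⁻¹ * h'⁻¹ := by
        push_cast
        rw [hx, hy]
        calc h * c * (h' * c') * (h * c)⁻¹ * (h' * c')⁻¹
            = h * (c * (h' * c')) * c⁻¹ * h⁻¹ * (c'⁻¹ * h'⁻¹) := by group
          _ = h * ((h' * c') * c) * c⁻¹ * h⁻¹ * (c'⁻¹ * h'⁻¹) := by
              rw [hcen c hc _ (mul_mem hh'L (hZL hc'))]
          _ = h * h' * (c' * h⁻¹) * c'⁻¹ * h'⁻¹ := by group
          _ = h * h' * (h⁻¹ * c') * c'⁻¹ * h'⁻¹ := by rw [hcen c' hc' _ (inv_mem hhL)]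
          _ = h * h' * h⁻¹ * h'⁻¹ := by group
      rw [show ((⁅x, y⁆ : L) : G) = h * h' * h⁻¹ * h'⁻¹ from h9]
      exact mul_mem (mul_mem (mul_mem hh hh') (inv_mem hh)) (inv_mem hh')
    intro l hl
    have : (⟨l, hl⟩ : L) ∈ commutator ↥L := by
      have hperf := hL.1
      rw [hperf.commutator_eq_top]; trivial
    exact hsub this
  have hHtop : H = ⊤ := by
    rw [eq_top_iff, ← hgen]
    exact sup_le hLH (Subgroup.zpowers_le.2 hdH)
  have hreach : ∀ v, Γ.Reachable d₀ v := by
    intro v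
    obtain ⟨g, hg⟩ := isConj_iff.1 v.2
    have : g ∈ H := hHtop ▸ Subgroup.mem_top g
    have h2 : cmap g d₀ = v := Subtype.ext hg
    rw [← h2]
    exact this
  exact { preconnected := fun u v => (hreach u).symm.trans (hreach v), nonempty := ⟨d₀⟩ }

end Cfsg.Agent.S5459
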