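import Cfsg.Statements.S5463
import Cfsg.Agent.ThreeTrans.SixSets

set_option autoImplicit false
open Cfsg

namespace Cfsg.Agent.S5463

/-- Let G be a finite group with trivial centre generated by a conjugation-invariant set D of 3-transpositions on which it acts primitively, such that for some d in D the subgroup generated by the members of D other than d commuting with d has central largest normal 2- and 3-subgroups, and suppose G with D is of type M(22). A product j of two distinct commuting members of D determines the pair: any two 2-element sets of commuting members of D with product j coincide. A product j of three distinct pairwise commuting members of D arises from exactly two such 3-element sets. -/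
theorem result {G : Type*} [Group G] [Finite G] {D : Set G} (hD : Cfsg.IsThreeTranspositionGroup D) (hprim : Cfsg.IsPrimitiveUnderConj D) (d₀ : G) (hd₀ : d₀ ∈ D) (h3 : Cfsg.pCore 3 ↥(Subgroup.closure {y : G | y ∈ D ∧ y ≠ d₀ ∧ Commute d₀ y}) ≤ Subgroup.center ↥(Subgroup.closure {y : G | y ∈ D ∧ y ≠ d₀ ∧ Commute d₀ y})) (h2 : Cfsg.pCore 2 ↥(Subgroup.closure {y : G | y ∈ D ∧ y ≠ d₀ ∧ Commute d₀ y}) ≤ Subgroup.center ↥(Subgroup.closure {y : G | y ∈ D ∧ y ≠ d₀ ∧ Commute d₀ y})) (h22 : Cfsg.IsOfTypeM22 G D) : (∀ (j : G) (l l' : List G), (l.Nodup ∧ l.length = 2 ∧ (∀ a ∈ l, a ∈ D) ∧ (∀ a ∈ l, ∀ b ∈ l, Commute a b) ∧ l.prod = j) → (l'.Nodup ∧ l'.length = 2 ∧ (∀ a ∈ l', a ∈ D) ∧ (∀ a ∈ l', ∀ b ∈ l', Commute a b) ∧ l'.prod = j) → (∀ x : G, x ∈ l ↔ x ∈ l')) ∧ ∀ (j : G) (l₀ : List G), (l₀.Nodup ∧ l₀.length = 3 ∧ (∀ a ∈ l₀, a ∈ D) ∧ (∀ a ∈ l₀, ∀ b ∈ l₀, Commute a b) ∧ l₀.prod = j) → ∃ l₁ l₂ : List G, (l₁.Nodup ∧ l₁.length = 3 ∧ (∀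 a ∈ l₁, a ∈ D) ∧ (∀ a ∈ l₁, ∀ b ∈ l₁, Commute a b) ∧ l₁.prod = j) ∧ (l₂.Nodup ∧ l₂.length = 3 ∧ (∀ a ∈ l₂, a ∈ D) ∧ (∀ a ∈ l₂, ∀ b ∈ l₂, Commute a b) ∧ l₂.prod = j) ∧ ¬ (∀ x : G, x ∈ l₁ ↔ x ∈ l₂) ∧ ∀ l : List G, (l.Nodup ∧ l.length = 3 ∧ (∀ a ∈ l, a ∈ D) ∧ (∀ a ∈ l, ∀ b ∈ l, Commute a b) ∧ l.prod = j) → ((∀ x : G, x ∈ l ↔ x ∈ l₁) ∨ (∀ x : G, x ∈ l ↔ x ∈ l₂)) := by
  classical
  haveI := Fact.mk Nat.prime_three
  have hC := CfsgLib.ThreeTrans.class_of_primitive hD hprim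
  obtain ⟨hZ, d, hd, -, -, -, ⟨F, _, _, hF, ⟨φ⟩⟩, -⟩ := h22
  have hpair : ∃ a ∈ D, ∃ b ∈ D, a ≠ b ∧ Commute a b := by
    by_contra hno
    have he : {y : G | y ∈ D ∧ y ≠ d ∧ Commute d y} = ∅ := Set.eq_empty_iff_forall_notMem.2
      fun y hy => hno ⟨d, hd, y, hy.1, hy.2.1.symm, hy.2.2⟩
    have h1 : Subgroup.closure {y : G | y ∈ D ∧ y ≠ d ∧ Commute d y} = ⊥ := by rw [he, Subgroup.closure_empty]
    have h2 : Nat.card (↥(Subgroup.closure {y : G | y ∈ D ∧ y ≠ d ∧ Commute d y}) ⧸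
        Subgroup.center ↥(Subgroup.closure {y : G | y ∈ D ∧ y ≠ d ∧ Commute d y})) ∣ 1 := by
      rw [show (1 : ℕ) = Nat.card ↥(Subgroup.closure {y : G | y ∈ D ∧ y ≠ d ∧ Commute d y}) by
        rw [h1, Subgroup.card_bot]]
      exact Subgroup.card_quotient_dvd_card _
    rw [Nat.card_congr φ.toEquiv, CfsgLib.ThreeTrans.card_PSU_six hF] at h2
    norm_num at h2
  obtain ⟨hc2, hc3, L, hLn, hL, hidx, hFit⟩ := CfsgLib.ThreeTrans.primitive_structure hC hprim hpair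
  haveI := hLn
  obtain ⟨hM, hG⟩ := CfsgLib.ThreeTrans.mono_of_index_two L hL hidx
    (CfsgLib.ThreeTrans.centralizer_le_center hC hc2 hc3 L hFit)
  have hG' : ∀ p, p = 3 → ¬ IsPGroup p (commutator G) := fun p hp => by subst hp; exact hG 3
  have hN := CfsgLib.ThreeTrans.noDom_of_mono hC hM (hG 3)
  have hm : ∀ a ∈ D, CfsgLib.ThreeTrans.HasUModel D a F := fun a ha => by
    obtain ⟨g, hg⟩ := CfsgLib.ThreeTrans.class_exists_conj hC ha hd
    exact CfsgLib.ThreeTrans.uModel_conj hC hg ⟨φ⟩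
  refine ⟨fun j l l' hl hl' => CfsgLib.ThreeTrans.pair_unique_list hD.1 hN
    ⟨hl.1, hl.2.1, hl.2.2.1, hl.2.2.2.1⟩ ⟨hl'.1, hl'.2.1, hl'.2.2.1, hl'.2.2.2.1⟩
    (hl.2.2.2.2.trans hl'.2.2.2.2.symm), ?_⟩
  intro j l₀ hl₀
  obtain ⟨hn₀, hlen₀, hmem₀, hcomm₀, hp₀⟩ := hl₀
  match l₀, hlen₀ with
  | [a, b, c], _ =>
    have hn' := hn₀
    simp only [List.nodup_cons, List.mem_cons, List.not_mem_nil, or_false, not_or, List.nodup_nil,
      and_true] at hn'
    obtain ⟨⟨nab, nac⟩, nbc, -⟩ := hn'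
    have ha : a ∈ D := hmem₀ a (by simp)
    have hb : b ∈ CfsgLib.ThreeTrans.Perp D a :=
      ⟨hmem₀ b (by simp), Ne.symm nab, hcomm₀ a (by simp) b (by simp)⟩
    have hc : c ∈ CfsgLib.ThreeTrans.Perp D a :=
      ⟨hmem₀ c (by simp), Ne.symm nac, hcomm₀ a (by simp) c (by simp)⟩
    have cbc : Commute b c := hcomm₀ b (by simp) c (by simp)
    obtain ⟨P, Q, R, hP, hQ, hR, hn6, hc6, hp6, huniq⟩ :=
      CfsgLib.ThreeTrans.exists_six hD hprim hZ hC hM hG' hF hm hb hc ha nbc cbc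
    simp only [List.nodup_cons, List.mem_cons, List.not_mem_nil, or_false, not_or, List.nodup_nil,
      and_true] at hn6
    obtain ⟨⟨-, nbP, nbQ, nbR⟩, ⟨ncP, ncQ, ncR⟩, ⟨nPQ, nPR⟩, nQR, -⟩ := hn6
    simp only [List.mem_cons, List.not_mem_nil, or_false, forall_eq_or_imp, forall_eq] at hc6
    obtain ⟨⟨-, -, cbP, cbQ, cbR⟩, ⟨-, -, ccP, ccQ, ccR⟩, ⟨-, -, -, cPQ, cPR⟩, ⟨-, -, -, -, cQR⟩, -⟩ := hc6
    have hcomm1 : ∀ x ∈ [P, Q, R], ∀ y ∈ [P, Q, R], Commute x y := by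
      simp [cPQ, cPR, cQR, cPQ.symm, cPR.symm, cQR.symm]
    have hsq : (P * (Q * R)) * (P * (Q * R)) = 1 := by
      rw [Commute.mul_mul_mul_comm (cPQ.mul_right cPR).symm, Commute.mul_mul_mul_comm cQR.symm,
        CfsgLib.ThreeTrans.mul_self hD.1 hP.1, CfsgLib.ThreeTrans.mul_self hD.1 hQ.1,
        CfsgLib.ThreeTrans.mul_self hD.1 hR.1, one_mul, one_mul]
    have hj : a * (b * c) = j := by simpa using hp₀
    have hPQR : P * (Q * R) = j := by
      have h1 : j * (P * (Q * R)) = 1 := by rw [← hj]; simpa [mul_assoc] using hp6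
      rw [eq_inv_of_mul_eq_one_left h1]
      exact (inv_eq_of_mul_eq_one_right hsq).symm
    refine ⟨[a, b, c], [P, Q, R], ⟨hn₀, rfl, hmem₀, hcomm₀, hp₀⟩,
      ⟨by simp [nPQ, nPR, nQR], rfl, by simp [hP.1, hQ.1, hR.1], hcomm1, by simpa using hPQR⟩, ?_, ?_⟩
    · intro h
      rcases (by simpa using (h P).2 (by simp) : P = a ∨ P = b ∨ P = c) with e | e | e
      · exact hP.2.1 e
      · exact nbP e.symm
      · exact ncP e.symm
    rintro l ⟨hn, hlen, hmem, hcomm, hp⟩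
    by_cases hshare : ∃ x ∈ l, x ∈ [a, b, c]
    · refine Or.inl ?_
      obtain ⟨x, hx, hx'⟩ := hshare
      have hperm := List.perm_cons_erase hx
      have hperm' := List.perm_cons_erase hx'
      have e := hperm.prod_eq' (List.pairwise_of_forall_mem_list hcomm)
      have e' := hperm'.prod_eq' (List.pairwise_of_forall_mem_list hcomm₀)
      rw [List.prod_cons] at e e'
      have key := CfsgLib.ThreeTrans.pair_unique_list hD.1 hN (l := l.erase x) (l' := [a, b, c].erase x)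
        ⟨hn.erase x, by rw [List.length_erase_of_mem hx, hlen], fun u hu => hmem u (List.mem_of_mem_erase hu),
          fun u hu v hv => hcomm u (List.mem_of_mem_erase hu) v (List.mem_of_mem_erase hv)⟩
        ⟨hn₀.erase x, by rw [List.length_erase_of_mem hx']; rfl,
          fun u hu => hmem₀ u (List.mem_of_mem_erase hu),
          fun u hu v hv => hcomm₀ u (List.mem_of_mem_erase hu) v (List.mem_of_mem_erase hv)⟩
        (mul_left_cancel (e.symm.trans ((hp.trans hp₀.symm).trans e')))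
      intro y
      rw [hperm.mem_iff, hperm'.mem_iff, List.mem_cons, List.mem_cons, key]
    · refine Or.inr ?_
      push Not at hshare
      have hcross : ∀ y ∈ l, Commute y a ∧ Commute y b ∧ Commute y c := by
        intro y hy
        have h1 : Commute y (a * b * c) := by
          have h2 : Commute y l.prod := Commute.list_prod_right _ _ fun z hz => hcomm y hy z hz
          rwa [hp, ← hj, ← mul_assoc] at h2
        exact CfsgLib.ThreeTrans.commute_mul_three hD.1 ha hb.1 hc.1 (hmem y hy) hb.2.2 hc.2.2 cbc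
          nab nac nbc h1
      match l, hlen with
      | [x, y, z], _ =>
        have hn' := hn
        simp only [List.nodup_cons, List.mem_cons, List.not_mem_nil, or_false, not_or, List.nodup_nil,
          and_true] at hn'
        obtain ⟨⟨nxy, nxz⟩, nyz, -⟩ := hn'
        simp only [List.mem_cons, List.not_mem_nil, or_false, forall_eq_or_imp, forall_eq, not_or]
          at hshare hcross hmem hcomm
        obtain ⟨⟨xa, xb, xc⟩, ⟨ya, yb, yc⟩, za, zb, zc⟩ := hshare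
        obtain ⟨⟨cxa, cxb, cxc⟩, ⟨cya, cyb, cyc⟩, cza, czb, czc⟩ := hcross
        obtain ⟨⟨-, cxy, cxz⟩, ⟨-, -, cyz⟩, -⟩ := hcomm
        have hp' : x * (y * z) = j := by simpa using hp
        have hjj : j * j = 1 := by rw [← hPQR]; exact hsq
        have hperm := huniq x ⟨hmem.1, xa, cxa.symm⟩ y ⟨hmem.2.1, ya, cya.symm⟩ z ⟨hmem.2.2, za, cza.symm⟩
          (by simp [nbc, Ne.symm xb, Ne.symm yb, Ne.symm zb, Ne.symm xc, Ne.symm yc, Ne.symm zc, nxy, nxz, nyz])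
          (by simp [cbc, cbc.symm, cxb, cyb, czb, cxb.symm, cyb.symm, czb.symm, cxc, cyc, czc, cxc.symm,
            cyc.symm, czc.symm, cxy, cxz, cyz, cxy.symm, cxz.symm, cyz.symm])
          (by rw [show a * (b * (c * (x * (y * z)))) = a * (b * c) * (x * (y * z)) by group, hj, hp', hjj])
        exact fun u => hperm.mem_iff

end Cfsg.Agent.S5463
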