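import Cfsg.Statements.S5464
import Cfsg.Agent.ThreeTrans.FactorTypes

set_option autoImplicit false
open Cfsg

namespace Cfsg.Agent.S5464

/-- Let G be a finite group with trivial centre generated by a conjugation-invariant set D of 3-transpositions on which it acts primitively, such that for some d in D the subgroup generated by the members of D other than d commuting with d has central largest normal 2- and 3-subgroups, and suppose G with D is of type M(23) or of type M(24). Then for m ≤ 3, a product of m distinct pairwise commuting members of D determines the set of factors: any two m-element sets of pairwise commuting members of D with the same product coincide. -/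
theorem result {G : Type*} [Group G] [Finite G] {D : Set G} (hD : Cfsg.IsThreeTranspositionGroup D) (hprim : Cfsg.IsPrimitiveUnderConj D) (d₀ : G) (hd₀ : d₀ ∈ D) (h3 : Cfsg.pCore 3 ↥(Subgroup.closure {y : G | y ∈ D ∧ y ≠ d₀ ∧ Commute d₀ y}) ≤ Subgroup.center ↥(Subgroup.closure {y : G | y ∈ D ∧ y ≠ d₀ ∧ Commute d₀ y})) (h2 : Cfsg.pCore 2 ↥(Subgroup.closure {y : G | y ∈ D ∧ y ≠ d₀ ∧ Commute d₀ y}) ≤ Subgroup.center ↥(Subgroup.closure {y : G | y ∈ D ∧ y ≠ d₀ ∧ Commute d₀ y})) (h : Cfsg.IsOfTypeM23 G D ∨ Cfsg.IsOfTypeM24 G D) (m : ℕ) (hm : m ≤ 3) (j : G) (l l' : List G) (hl : (l.Nodup ∧ l.length = m ∧ (∀ a ∈ l, a ∈ D) ∧ (∀ a ∈ l, ∀ b ∈ l, Commute a b) ∧ l.prod = j)) (hl' : (l'.Nodup ∧ l'.length = m ∧ (∀ a ∈ l', a ∈ D) ∧ (∀ a ∈ l', ∀ b ∈ l', Commute a b) ∧ l'.prod = j)) : (∀ x : G, x ∈ l ↔ x ∈ l') := by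
  haveI := Fact.mk Nat.prime_three
  have hC := CfsgLib.ThreeTrans.class_of_primitive hD hprim
  obtain ⟨hc2, hc3, L, hLn, hL, hidx, hF⟩ := CfsgLib.ThreeTrans.primitive_structure hC hprim
    (CfsgLib.ThreeTrans.exists_pair_of_type h)
  haveI := hLn
  obtain ⟨hM, hG⟩ := CfsgLib.ThreeTrans.mono_of_index_two L hL hidx
    (CfsgLib.ThreeTrans.centralizer_le_center hC hc2 hc3 L hF)
  exact CfsgLib.ThreeTrans.factor_unique hD.1 (CfsgLib.ThreeTrans.noDom_of_mono hC hM (hG 3))
    (CfsgLib.ThreeTrans.six_of_type hC hM (hG 3)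
      (CfsgLib.ThreeTrans.deep_all hC hd₀ (CfsgLib.ThreeTrans.deep_of_core hD h2)) h) hm hl hl'

end Cfsg.Agent.S5464
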