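import Cfsg.Statements.S5471
import Cfsg.Agent.ThreeTrans.TripleStab

set_option autoImplicit false
open Cfsg

namespace Cfsg.Agent.S5471

/-- Let G be a finite group with trivial centre generated by a conjugation-invariant set D of 3-transpositions on which it acts primitively, such that for some d in D the subgroup generated by the members of D other than d commuting with d has central largest normal 2- and 3-subgroups, and suppose G with D is of type M(23). Let d₁, d₂, d₃ be distinct pairwise commuting members of D and j their product. Then the joint centralizer of d₁, d₂, d₃ is normal in the centralizer of j with quotient isomorphic to the symmetric group of degree 3. -/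
theorem result {G : Type*} [Group G] [Finite G] {D : Set G} (hD : Cfsg.IsThreeTranspositionGroup D) (hprim : Cfsg.IsPrimitiveUnderConj D) (d₀ : G) (hd₀ : d₀ ∈ D) (h3 : Cfsg.pCore 3 ↥(Subgroup.closure {y : G | y ∈ D ∧ y ≠ d₀ ∧ Commute d₀ y}) ≤ Subgroup.center ↥(Subgroup.closure {y : G | y ∈ D ∧ y ≠ d₀ ∧ Commute d₀ y})) (h2 : Cfsg.pCore 2 ↥(Subgroup.closure {y : G | y ∈ D ∧ y ≠ d₀ ∧ Commute d₀ y}) ≤ Subgroup.center ↥(Subgroup.closure {y : G | y ∈ D ∧ y ≠ d₀ ∧ Commute d₀ y})) (h23 : Cfsg.IsOfTypeM23 G D) (d₁ d₂ d₃ : G) (h₁ : d₁ ∈ D) (h₂ : d₂ ∈ D) (h₃ : d₃ ∈ D) (h12 : d₁ ≠ d₂) (h13 : d₁ ≠ d₃) (h23 : d₂ ≠ d₃) (c12 : Commute d₁ d₂) (c13 : Commute d₁ d₃) (c23 : Commute d₂ d₃) (K C : Subgroup G) (hK : K = Subgroup.centralizer ({d₁, d₂, d₃} : Set G)) (hC : C = Subgroup.centralizer ({d₁ * d₂ * d₃} : Set G)) : K ≤ C ∧ ∃ _ : (K.subgroupOf C).Normal, Nonempty (↥C ⧸ K.subgroupOf C ≃* Equiv.Perm (Fin 3)) := by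
  have h : Cfsg.IsOfTypeM23 G D ∨ Cfsg.IsOfTypeM24 G D := Or.inl ‹Cfsg.IsOfTypeM23 G D›
  haveI := Fact.mk Nat.prime_three
  have hCl := CfsgLib.ThreeTrans.class_of_primitive hD hprim
  obtain ⟨hc2, hc3, L, hLn, hL, hidx, hF⟩ := CfsgLib.ThreeTrans.primitive_structure hCl hprim
    (CfsgLib.ThreeTrans.exists_pair_of_type h)
  haveI := hLn
  obtain ⟨hM, hG⟩ := CfsgLib.ThreeTrans.mono_of_index_two L hL hidx
    (CfsgLib.ThreeTrans.centralizer_le_center hCl hc2 hc3 L hF)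
  refine CfsgLib.ThreeTrans.triple_stabiliser hCl hM (hG 3) h₁ h₂ h₃ h12 h13 h23 c12 c13 c23 ?_ K C hK hC
  intro g hg
  have hmem : ∀ a ∈ [d₁, d₂, d₃], a ∈ D := by simp [h₁, h₂, h₃]
  have hcomm : ∀ a ∈ [d₁, d₂, d₃], ∀ b ∈ [d₁, d₂, d₃], Commute a b := by
    simp [c12, c13, c23, c12.symm, c13.symm, c23.symm]
  have hn : [d₁, d₂, d₃].Nodup := by simp [h12, h13, h23]
  refine CfsgLib.ThreeTrans.factor_unique hD.1 (CfsgLib.ThreeTrans.noDom_of_mono hCl hM (hG 3))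
    (CfsgLib.ThreeTrans.six_of_type hCl hM (hG 3)
      (CfsgLib.ThreeTrans.deep_all hCl hd₀ (CfsgLib.ThreeTrans.deep_of_core hD h2)) h) le_rfl
    (j := d₁ * d₂ * d₃) ⟨hn.map (MulAut.conj g).injective, rfl, ?_, ?_, ?_⟩
    ⟨hn, rfl, hmem, hcomm, by simp [mul_assoc]⟩
  · intro a ha
    obtain ⟨b, hb, rfl⟩ := List.mem_map.1 ha
    exact hD.2.1 g b (hmem b hb)
  · intro a ha b hb
    obtain ⟨a, ha', rfl⟩ := List.mem_map.1 ha
    obtain ⟨b, hb', rfl⟩ := List.mem_map.1 hb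
    exact (Commute.conj_iff g).2 (hcomm a ha' b hb')
  · simp only [List.map_cons, List.map_nil, List.prod_cons, List.prod_nil, mul_one]
    have e := (Subgroup.mem_centralizer_singleton_iff.1 hg)
    calc g * d₁ * g⁻¹ * (g * d₂ * g⁻¹ * (g * d₃ * g⁻¹)) = g * (d₁ * d₂ * d₃) * g⁻¹ := by group
      _ = d₁ * d₂ * d₃ := by rw [e, mul_inv_cancel_right]

end Cfsg.Agent.S5471
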