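import Cfsg.Statements.S5514
import Cfsg.Agent.OmegaSeven.Main

set_option autoImplicit false
open Cfsg

namespace Cfsg.Agent.S5514

/-- The commutator subgroup of the isometry group of a non-degenerate 7-dimensional quadratic form over the field with three elements, modulo its (trivial) centre — the simple group Ω(7, 3) — has exactly seven conjugacy classes of subgroups of order 3. -/
theorem result : ∃ Y : Fin 7 → Subgroup (Cfsg.POmega (ZMod 3) (Cfsg.quadFormOdd 3 (ZMod 3))), (∀ i, Nat.card (Y i) = 3) ∧ (∀ i j, (∃ g : Cfsg.POmega (ZMod 3) (Cfsg.quadFormOdd 3 (ZMod 3)), (Y i).map (MulAut.conj g).toMonoidHom = Y j) → i = j) ∧ (∀ X : Subgroup (Cfsg.POmega (ZMod 3) (Cfsg.quadFormOdd 3 (ZMod 3))), Nat.card X = 3 → ∃ i, ∃ g : Cfsg.POmega (ZMod 3) (Cfsg.quadFormOdd 3 (ZMod 3)), X.map (MulAut.conj g).toMonoidHom = Y i) := by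
  have h2 : (2 : ZMod 3) ≠ 0 := by decide
  have hnd := CfsgLib.Forms.nondegenerate_quadOdd (F := ZMod 3) 3 h2
  have hc : Nat.card (Subgroup.center (Cfsg.Omega (ZMod 3) (Cfsg.quadFormOdd 3 (ZMod 3)))) = 1 := by
    have h := CfsgLib.OrthOrder.card_center_eq_one hnd (by decide)
      (CfsgLib.OrthOrder.neg_one_notMem_of_odd h2 (by decide))
    rwa [CfsgLib.Forms.coe_quadOdd] at h
  have hb : Subgroup.center (Cfsg.Omega (ZMod 3) (Cfsg.quadFormOdd 3 (ZMod 3))) = ⊥ :=
    Subgroup.card_eq_one.1 hc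
  let e : Cfsg.Omega (ZMod 3) (Cfsg.quadFormOdd 3 (ZMod 3)) ≃*
      Cfsg.POmega (ZMod 3) (Cfsg.quadFormOdd 3 (ZMod 3)) :=
    QuotientGroup.quotientBot.symm.trans (QuotientGroup.quotientMulEquivOfEq hb.symm)
  obtain ⟨Y, h1, h3, h4⟩ := CfsgLib.OmegaSeven.omega_classes
  have key : ∀ (X : Subgroup (Cfsg.Omega (ZMod 3) (Cfsg.quadFormOdd 3 (ZMod 3)))) (g),
      (X.map e.toMonoidHom).map (MulAut.conj (e g)).toMonoidHom =
        (X.map (MulAut.conj g).toMonoidHom).map e.toMonoidHom := by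
    intro X g
    rw [Subgroup.map_map, Subgroup.map_map]
    congr 1
  refine ⟨fun i => (Y i).map e.toMonoidHom, fun i => ?_, fun i j ⟨g, hg⟩ => ?_, fun X hX => ?_⟩
  · rw [Subgroup.card_map_of_injective e.injective, h1]
  · refine h3 i j ⟨e.symm g, Subgroup.map_injective (f := e.toMonoidHom) e.injective ?_⟩
    rw [← key, e.apply_symm_apply]
    exact hg
  · have hXe : (X.map e.symm.toMonoidHom).map e.toMonoidHom = X := by
      rw [Subgroup.map_map]
      ext x
      simp
    obtain ⟨i, g, hg⟩ := h4 (X.map e.symm.toMonoidHom)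
      (by rw [Subgroup.card_map_of_injective e.symm.injective, hX])
    exact ⟨i, e g, by rw [← hXe, key, hg]⟩

end Cfsg.Agent.S5514
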