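import Cfsg.Statements.S5541
-- import your own Cfsg.Agent.* helpers here

set_option autoImplicit false
open Cfsg

namespace Cfsg.Agent.S5541

/-- Let ρ be a representation of a group H on a finite-dimensional real vector space U whose only ρ-invariant subspaces are the zero subspace and U, and suppose U carries a non-zero ρ-invariant symmetric bilinear form. Then the following are equivalent: (1) there is a non-zero ρ-equivariant commutative bilinear product on U of which every ρ-equivariant bilinear product is a scalar multiple; (2) there is a non-zero ρ-invariant trilinear form on U that is symmetric under all permutations of its arguments and of which every ρ-invariant trilinear form is a scalar multiple. -/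
theorem result {H : Type*} [Group H] {U : Type*} [AddCommGroup U] [Module ℝ U] [FiniteDimensional ℝ U] (ρ : Representation ℝ H U) (hirr : ∀ W : Submodule ℝ U, (∀ g : H, W.map (ρ g) ≤ W) → W = ⊥ ∨ W = ⊤) (B : LinearMap.BilinForm ℝ U) (hB0 : B ≠ 0) (hBs : ∀ u v, B u v = B v u) (hBi : ∀ (g : H) (u v : U), B (ρ g u) (ρ g v) = B u v) : (∃ m : U →ₗ[ℝ] U →ₗ[ℝ] U, m ≠ 0 ∧ (∀ u v, m u v = m v u) ∧ (∀ (g : H) (u v : U), m (ρ g u) (ρ g v) = ρ g (m u v)) ∧ ∀ m' : U →ₗ[ℝ] U →ₗ[ℝ] U, (∀ (g : H) (u v : U), m' (ρ g u) (ρ g v) = ρ g (m' u v)) → ∃ c : ℝ, m' = c • m) ↔ (∃ t : U →ₗ[ℝ] U →ₗ[ℝ] U →ₗ[ℝ] ℝ, t ≠ 0 ∧ (∀ u v w, t u v w = t v u w ∧ t u v w = t u w v) ∧ (∀ (g : H) (u v w : U), t (ρ g u) (ρ g v) (ρ g w) = t u v w) ∧ ∀ t' : U →ₗ[ℝ] U →ₗ[ℝ] U →ₗ[ℝ] ℝ, (∀ (g : H) (u v w : U), t' (ρ g u) (ρ g v) (ρ g w) = t' u v w) → ∃ c : ℝ, t' = c • t) := by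
  classical
  -- the form is non-degenerate
  have hker : LinearMap.ker B = ⊥ := by
    rcases hirr (LinearMap.ker B) (fun g => by
      rintro _ ⟨u, hu, rfl⟩
      rw [LinearMap.mem_ker]
      refine LinearMap.ext fun v => ?_
      have h1 : v = ρ g (ρ g⁻¹ v) := by
        rw [← Module.End.mul_apply, ← map_mul, mul_inv_cancel, map_one, Module.End.one_apply]
      rw [h1, hBi]
      simp [LinearMap.mem_ker.1 hu]) with h | h
    · exact h
    · exact absurd (LinearMap.ker_eq_top.1 h) hB0
  have hinj : Function.Injective B := LinearMap.ker_eq_bot.1 hker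
  have hsurj : Function.Surjective B :=
    (LinearMap.injective_iff_surjective_of_finrank_eq_finrank
      (Subspace.dual_finrank_eq (K := ℝ) (V := U)).symm).1 hinj
  let e : U ≃ₗ[ℝ] (U →ₗ[ℝ] ℝ) := LinearEquiv.ofBijective B ⟨hinj, hsurj⟩
  have he : ∀ u, e u = B u := fun u => rfl
  have hes : ∀ f, B (e.symm f) = f := fun f => by rw [← he, e.apply_symm_apply]
  have hg : ∀ (g : H) (w : U), w = ρ g (ρ g⁻¹ w) := fun g w => by
    rw [← Module.End.mul_apply, ← map_mul, mul_inv_cancel, map_one, Module.End.one_apply]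
  -- products correspond to trilinear forms
  have hback : ∀ t : U →ₗ[ℝ] U →ₗ[ℝ] U →ₗ[ℝ] ℝ,
      (∀ (g : H) (u v w : U), t (ρ g u) (ρ g v) (ρ g w) = t u v w) →
      ∀ (g : H) (u v : U), (t.compr₂ (e.symm : (U →ₗ[ℝ] ℝ) →ₗ[ℝ] U)) (ρ g u) (ρ g v)
        = ρ g ((t.compr₂ (e.symm : (U →ₗ[ℝ] ℝ) →ₗ[ℝ] U)) u v) := by
    intro t ht g u v
    apply hinj
    refine LinearMap.ext fun w => ?_
    rw [LinearMap.compr₂_apply, LinearMap.compr₂_apply, LinearEquiv.coe_coe, hes, hg g w, hBi, hes,
      ht]
  have hfwd : ∀ m : U →ₗ[ℝ] U →ₗ[ℝ] U,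
      (∀ (g : H) (u v : U), m (ρ g u) (ρ g v) = ρ g (m u v)) →
      ∀ (g : H) (u v w : U), (m.compr₂ B) (ρ g u) (ρ g v) (ρ g w) = (m.compr₂ B) u v w := by
    intro m hm g u v w
    rw [LinearMap.compr₂_apply, LinearMap.compr₂_apply, hm, hBi]
  constructor
  · rintro ⟨m, hm0, hms, hmi, hmu⟩
    set t := m.compr₂ B with ht
    have ht0 : t ≠ 0 := by
      intro h
      apply hm0
      refine LinearMap.ext fun u => LinearMap.ext fun v => hinj ?_
      rw [LinearMap.zero_apply, LinearMap.zero_apply, map_zero]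
      exact LinearMap.congr_fun (LinearMap.congr_fun h u) v
    have huniq : ∀ t' : U →ₗ[ℝ] U →ₗ[ℝ] U →ₗ[ℝ] ℝ,
        (∀ (g : H) (u v w : U), t' (ρ g u) (ρ g v) (ρ g w) = t' u v w) → ∃ c : ℝ, t' = c • t := by
      intro t' ht'
      obtain ⟨c, hc⟩ := hmu _ (hback t' ht')
      refine ⟨c, LinearMap.ext fun u => LinearMap.ext fun v => ?_⟩
      have := congrArg (fun f => B f) (LinearMap.congr_fun (LinearMap.congr_fun hc u) v)
      simp only [LinearMap.compr₂_apply, LinearEquiv.coe_coe, hes, LinearMap.smul_apply,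
        map_smul] at this
      rw [this, LinearMap.smul_apply, LinearMap.smul_apply, ht, LinearMap.compr₂_apply]
    have h12 : ∀ u v w, t u v w = t v u w := fun u v w => by
      simp only [ht, LinearMap.compr₂_apply, hms u v]
    refine ⟨t, ht0, fun u v w => ⟨h12 u v w, ?_⟩, hfwd m hmi, huniq⟩
    -- the transposition of the last two arguments
    let t' : U →ₗ[ℝ] U →ₗ[ℝ] U →ₗ[ℝ] ℝ :=
      { toFun := fun u => (t u).flip
        map_add' := fun a b => by ext v w; simp
        map_smul' := fun r a => by ext v w; simp }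
    obtain ⟨c, hc⟩ := huniq t' (fun g a b d => hfwd m hmi g a d b)
    have hc' : ∀ a b d, t a d b = c * t a b d := fun a b d => by
      have := LinearMap.congr_fun (LinearMap.congr_fun (LinearMap.congr_fun hc a) b) d
      simpa [t'] using this
    have hsq : ∀ a b d, t a b d = c * c * t a b d := fun a b d => by
      conv_lhs => rw [hc' a d b, hc' a b d]
      ring
    by_cases hc1 : c = 1
    · have := hc' u w v
      rw [hc1, one_mul] at this
      exact this
    · exfalso
      apply ht0
      refine LinearMap.ext fun a => LinearMap.ext fun b => LinearMap.ext fun d => ?_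
      show t a b d = 0
      have h1 := hsq a b d
      have h2 : t a b d = c * t a d b := hc' a d b
      have h3 : t a d b = t d a b := h12 a d b
      have h4 : t d a b = c * t d b a := hc' d b a
      have h5 : t d b a = t b d a := h12 d b a
      have h6 : t b d a = c * t b a d := hc' b a d
      have h7 : t b a d = t a b d := h12 b a d
      have h8 : t a b d = c * c * c * t a b d := by
        conv_lhs => rw [h2, h3, h4, h5, h6, h7]
        ring
      by_contra hne
      apply hc1
      have h9 : c * c = 1 := mul_right_cancel₀ hne (by rw [one_mul]; exact h1.symm)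
      rw [h9, one_mul] at h8
      exact mul_right_cancel₀ hne (by rw [one_mul]; exact h8.symm)
  · rintro ⟨t, ht0, hts, hti, htu⟩
    set m := t.compr₂ (e.symm : (U →ₗ[ℝ] ℝ) →ₗ[ℝ] U) with hm
    refine ⟨m, ?_, ?_, hback t hti, ?_⟩
    · intro h
      apply ht0
      refine LinearMap.ext fun u => LinearMap.ext fun v => ?_
      have := congrArg (fun f => B f) (LinearMap.congr_fun (LinearMap.congr_fun h u) v)
      simpa [hm, hes] using this
    · intro u v
      simp only [hm, LinearMap.compr₂_apply]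
      congr 1
      exact LinearMap.ext fun w => (hts u v w).1
    · intro m' hm'
      obtain ⟨c, hc⟩ := htu _ (hfwd m' hm')
      refine ⟨c, LinearMap.ext fun u => LinearMap.ext fun v => hinj ?_⟩
      have := LinearMap.congr_fun (LinearMap.congr_fun hc u) v
      simp only [LinearMap.compr₂_apply, LinearMap.smul_apply] at this
      rw [this]
      simp [hm, hes]

end Cfsg.Agent.S5541
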