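import Cfsg.Statements.S5543
import Cfsg.Agent.Majorana.Basic
-- import your own Cfsg.Agent.* helpers here

set_option autoImplicit false
open Cfsg

namespace Cfsg.Agent.S5543

/-- Let V be a finite-dimensional real vector space with a commutative bilinear product and a positive-definite symmetric bilinear form that associates with the product and satisfies the Norton inequality (the Majorana setting of the definitions). Let X be a group of linear automorphisms of V in which every element squares to the identity, and suppose every non-identity element x of X is a Majorana involution with an axial vector a(x) of squared length 1, such that for any two distinct non-identity x, y the product a(x) ∘ a(y) equals (1/8)(a(x) + a(y) − a(xy)) (the dihedral subalgebra of type 2A whose third axis belongs to the involution xy). Then X has order at most 4. -/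
theorem result {V : Type*} [AddCommGroup V] [Module ℝ V] [FiniteDimensional ℝ V] (mul : V →ₗ[ℝ] V →ₗ[ℝ] V) (B : LinearMap.BilinForm ℝ V) (hV : Cfsg.Axial.IsMajoranaAmbient mul B) (X : Subgroup (V ≃ₗ[ℝ] V)) (hX : ∀ x ∈ X, x * x = 1) (ax : (V ≃ₗ[ℝ] V) → V) (hax : ∀ x ∈ X, x ≠ 1 → Cfsg.Axial.IsMajoranaPair mul B x (ax x)) (h1 : ∀ x ∈ X, x ≠ 1 → B (ax x) (ax x) = 1) (h2A : ∀ x ∈ X, ∀ y ∈ X, x ≠ 1 → y ≠ 1 → x ≠ y → mul (ax x) (ax y) = (1 / 8 : ℝ) • (ax x + ax y - ax (x * y))) : Nat.card ↥X ≤ 4 := by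
  classical
  by_contra hlt
  push Not at hlt
  haveI : Finite ↥X := Nat.finite_of_card_ne_zero (by omega)
  have hinv : ∀ u ∈ X, u⁻¹ = u := fun u hu => inv_eq_of_mul_eq_one_right (hX u hu)
  have hcomm : ∀ u ∈ X, ∀ v ∈ X, u * v = v * u := by
    intro u hu v hv
    calc u * v = (u * v)⁻¹ := (hinv _ (mul_mem hu hv)).symm
      _ = v * u := by rw [mul_inv_rev, hinv u hu, hinv v hv]
  -- choose three independent involutions
  obtain ⟨⟨x, hxX⟩, hx1⟩ : ∃ x : ↥X, x ≠ 1 := by
    by_contra h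
    push Not at h
    haveI : Subsingleton ↥X := ⟨fun p q => (h p).trans (h q).symm⟩
    have := Finite.card_le_one_iff_subsingleton.2 (inferInstance : Subsingleton ↥X)
    omega
  replace hx1 : x ≠ 1 := fun h => hx1 (Subtype.ext h)
  have hpick : ∀ S : Finset (V ≃ₗ[ℝ] V), S.card ≤ 4 → ∃ u ∈ X, u ∉ S := by
    intro S hS
    by_contra h
    push Not at h
    have h1 : Nat.card ↥X ≤ Nat.card ↥(↑S : Set (V ≃ₗ[ℝ] V)) :=
      Nat.card_mono S.finite_toSet h
    rw [Nat.card_coe_set_eq, Set.ncard_coe_finset] at h1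
    omega
  obtain ⟨y, hyX, hy⟩ := hpick {1, x} (Finset.card_le_two.trans (by norm_num))
  obtain ⟨z, hzX, hz⟩ := hpick {1, x, y, x * y} Finset.card_le_four
  simp only [Finset.mem_insert, Finset.mem_singleton, not_or] at hy hz
  obtain ⟨hy1, hyx⟩ := hy
  obtain ⟨hz1, hzx, hzy, hzxy⟩ := hz
  have e2 : ∀ u ∈ X, ∀ w : V ≃ₗ[ℝ] V, u * (u * w) = w := fun u hu w => by
    rw [← mul_assoc, hX u hu, one_mul]
  have hne : ∀ u ∈ X, ∀ v, u ≠ v → u * v ≠ 1 := by
    intro u hu v huv h
    apply huv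
    calc u = u * (u * v) := by rw [h, mul_one]
      _ = v := e2 u hu v
  have hxy1 : x * y ≠ 1 := hne x hxX y (Ne.symm hyx)
  have hxz1 : x * z ≠ 1 := hne x hxX z (Ne.symm hzx)
  have hyz1 : y * z ≠ 1 := hne y hyX z (Ne.symm hzy)
  have hxyz1 : x * y * z ≠ 1 := hne (x * y) (mul_mem hxX hyX) z (Ne.symm hzxy)
  have hxy : x * y ∈ X := mul_mem hxX hyX
  have hxz : x * z ∈ X := mul_mem hxX hzX
  have hyz : y * z ∈ X := mul_mem hyX hzX
  have hxyz : x * y * z ∈ X := mul_mem hxy hzX
  have m1 : y * (x * z) = x * y * z := by rw [← mul_assoc, hcomm y hyX x hxX]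
  have m2 : (x * y) * (x * z) = y * z := by
    rw [hcomm x hxX y hyX, mul_assoc, e2 x hxX]
  -- the six products
  have p1 := h2A x hxX y hyX hx1 hy1 (Ne.symm hyx)
  have p1' := h2A x hxX (x * y) hxy hx1 hxy1 (fun h => hy1 (left_eq_mul.1 h))
  rw [e2 x hxX] at p1'
  have p2 := h2A x hxX z hzX hx1 hz1 (Ne.symm hzx)
  have p2' := h2A x hxX (x * z) hxz hx1 hxz1 (fun h => hz1 (left_eq_mul.1 h))
  rw [e2 x hxX] at p2'
  have q1 := h2A y hyX z hzX hy1 hz1 (Ne.symm hzy)
  have q2 := h2A y hyX (x * z) hxz hy1 hxz1 (fun h => hxyz1 (by rw [← m1, ← h, hX y hyX]))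
  rw [m1] at q2
  have q3 := h2A (x * y) hxy z hzX hxy1 hz1 (Ne.symm hzxy)
  have q4 := h2A (x * y) hxy (x * z) hxz hxy1 hxz1 (fun h => hzy (mul_left_cancel h).symm)
  rw [m2] at q4
  have hpair := hax x hxX hx1
  have hw1 : ax y - ax (x * y) ∈ Cfsg.Axial.eigen mul (ax x) (1 / 4) := by
    rw [CfsgLib.Majorana.mem_eigen, map_sub, p1, p1']
    module
  have hw2 : ax z - ax (x * z) ∈ Cfsg.Axial.eigen mul (ax x) (1 / 4) := by
    rw [CfsgLib.Majorana.mem_eigen, map_sub, p2, p2']
    module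
  have hmem : (1 / 4 : ℝ) ∈ Cfsg.Axial.majoranaSpectrum := by simp [Cfsg.Axial.majoranaSpectrum]
  have hprod := CfsgLib.Majorana.fusion hpair hmem hmem hw1 hw2
  rw [CfsgLib.Majorana.law_quarter_quarter] at hprod
  have hcalc : mul (ax y - ax (x * y)) (ax z - ax (x * z))
      = (-1 / 4 : ℝ) • (ax (y * z) - ax (x * y * z)) := by
    simp only [map_sub, LinearMap.sub_apply, q1, q2, q3, q4]
    module
  rw [hcalc] at hprod
  -- it is also an eigenvector for `1/4`
  have hneqz : y * z ≠ x * y * z := fun h =>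
    hx1 (mul_right_cancel (b := y * z) (by rw [one_mul, ← mul_assoc]; exact h.symm))
  have p3 := h2A x hxX (y * z) hyz hx1 hyz1 (fun h => hxyz1 (by rw [mul_assoc, ← h, hX x hxX]))
  rw [← mul_assoc] at p3
  have p4 := h2A x hxX (x * y * z) hxyz hx1 hxyz1 (fun h => hyz1 (by
    apply left_eq_mul.1
    rw [← mul_assoc]; exact h))
  rw [mul_assoc x y z, e2 x hxX] at p4
  rw [← mul_assoc] at p4
  have hmul : mul (ax x) (ax (y * z) - ax (x * y * z))
      = (1 / 4 : ℝ) • (ax (y * z) - ax (x * y * z)) := by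
    rw [map_sub, p3, p4]
    module
  have h0 := CfsgLib.Majorana.mem_sum_one_zero hprod
  rw [map_smul, map_smul, hmul, map_smul, hmul] at h0
  have h1z : (3 / 64 : ℝ) • (ax (y * z) - ax (x * y * z)) = 0 := by
    linear_combination (norm := module) h0
  have heq : ax (y * z) = ax (x * y * z) :=
    sub_eq_zero.1 ((smul_eq_zero.1 h1z).resolve_left (by norm_num))
  have p5 := h2A (y * z) hyz (x * y * z) hxyz hyz1 hxyz1 hneqz
  rw [mul_assoc x y z, hcomm x hxX (y * z) hyz, e2 (y * z) hyz, hcomm (y * z) hyz x hxX,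
    ← mul_assoc, ← heq, CfsgLib.Majorana.mul_idem (hax _ hyz hyz1)] at p5
  have hA : ax x = (-6 : ℝ) • ax (y * z) := by
    linear_combination (norm := module) (8 : ℝ) • p5
  have hidem := CfsgLib.Majorana.mul_idem hpair
  rw [hA] at hidem
  simp only [map_smul, LinearMap.smul_apply, CfsgLib.Majorana.mul_idem (hax _ hyz hyz1)] at hidem
  have : (42 : ℝ) • ax (y * z) = 0 := by
    linear_combination (norm := module) hidem
  exact CfsgLib.Majorana.axis_ne_zero (hax _ hyz hyz1)
    ((smul_eq_zero.1 this).resolve_left (by norm_num))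

end Cfsg.Agent.S5543
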