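import Cfsg.Statements.S5544
import Mathlib
import Cfsg.Agent.Majorana.Dihedral

set_option autoImplicit false
open Cfsg

namespace Cfsg.Agent.S5544

/-- Let V be a finite-dimensional real vector space with a commutative bilinear product and a positive-definite symmetric bilinear form that associates with the product and satisfies the Norton inequality (the Majorana setting of the definitions). Let μ₀ and μ₁ be Majorana involutions with axial vectors a₀ and a₁ of squared length 1, each involution having no other axial vector. Then the product μ₀μ₁ has order at most 6: some power (μ₀μ₁)^n with 1 ≤ n ≤ 6 is the identity (so the two involutions generate a dihedral group of order at most 12). This is the 6-transposition property of Majorana involutions. -/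
theorem result {V : Type*} [AddCommGroup V] [Module ℝ V] [FiniteDimensional ℝ V] (mul : V →ₗ[ℝ] V →ₗ[ℝ] V) (B : LinearMap.BilinForm ℝ V) (hV : Cfsg.Axial.IsMajoranaAmbient mul B) (μ₀ μ₁ : V ≃ₗ[ℝ] V) (a₀ a₁ : V) (h₀ : Cfsg.Axial.IsMajoranaPair mul B μ₀ a₀) (h₁ : Cfsg.Axial.IsMajoranaPair mul B μ₁ a₁) (hu₀ : ∀ a : V, Cfsg.Axial.IsMajoranaPair mul B μ₀ a → a = a₀) (hu₁ : ∀ a : V, Cfsg.Axial.IsMajoranaPair mul B μ₁ a → a = a₁) (hn₀ : B a₀ a₀ = 1) (hn₁ : B a₁ a₁ = 1) : ∃ n : ℕ, 1 ≤ n ∧ n ≤ 6 ∧ (μ₀ * μ₁) ^ n = 1 := by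
  exact CfsgLib.Majorana.six_transposition hV h₀ h₁ hn₀ hn₁

end Cfsg.Agent.S5544
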