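import Cfsg.Statements.S5545
import Cfsg.Agent.Majorana.Basic
-- import your own Cfsg.Agent.* helpers here

set_option autoImplicit false
open Cfsg

namespace Cfsg.Agent.S5545

/-- Let V be a finite-dimensional real vector space with a commutative bilinear product and a positive-definite symmetric bilinear form that associates with the product and satisfies the Norton inequality (the Majorana setting of the definitions). Let μ₀, μ₁ be commuting Majorana involutions with distinct axial vectors a₀ ≠ a₁ of squared length 1, each involution having no other axial vector. Then either a₀ and a₁ are orthogonal with a₀ ∘ a₁ = 0 (type 2B), or their inner product is 1/8 and, with a₂ = a₀ + a₁ − 8 a₀ ∘ a₁, the vector a₂ is an idempotent and a₀ ∘ a₂ = (1/8)(a₀ + a₂ − a₁), a₁ ∘ a₂ = (1/8)(a₁ + a₂ − a₀) (type 2A: the three idempotents span a subalgebra with aᵢ ∘ aⱼ = (1/8)(aᵢ + aⱼ − aₖ)). -/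
theorem result {V : Type*} [AddCommGroup V] [Module ℝ V] [FiniteDimensional ℝ V] (mul : V →ₗ[ℝ] V →ₗ[ℝ] V) (B : LinearMap.BilinForm ℝ V) (hV : Cfsg.Axial.IsMajoranaAmbient mul B) (μ₀ μ₁ : V ≃ₗ[ℝ] V) (a₀ a₁ : V) (h₀ : Cfsg.Axial.IsMajoranaPair mul B μ₀ a₀) (h₁ : Cfsg.Axial.IsMajoranaPair mul B μ₁ a₁) (hu₀ : ∀ a : V, Cfsg.Axial.IsMajoranaPair mul B μ₀ a → a = a₀) (hu₁ : ∀ a : V, Cfsg.Axial.IsMajoranaPair mul B μ₁ a → a = a₁) (hn₀ : B a₀ a₀ = 1) (hn₁ : B a₁ a₁ = 1) (hc : μ₀ * μ₁ = μ₁ * μ₀) (hne : a₀ ≠ a₁) : (B a₀ a₁ = 0 ∧ mul a₀ a₁ = 0) ∨ (B a₀ a₁ = 1 / 8 ∧ mul (a₀ + a₁ - (8 : ℝ) • mul a₀ a₁) (a₀ + a₁ - (8 : ℝ) • mul a₀ a₁) = a₀ + a₁ - (8 : ℝ) • mul a₀ a₁ ∧ mul a₀ (a₀ + a₁ - (8 : ℝ) • mul a₀ a₁) = (1 / 8 : ℝ) • (a₀ + (a₀ + a₁ - (8 : ℝ) • mul a₀ a₁) - a₁) ∧ mul a₁ (a₀ + a₁ - (8 : ℝ) • mul a₀ a₁) = (1 / 8 : ℝ) • (a₁ + (a₀ + a₁ - (8 : ℝ) • mul a₀ a₁) - a₀)) := by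
  classical
  have hcomm : ∀ u v : V, mul u v = mul v u := hV.1
  have hBs : ∀ u v : V, B u v = B v u := hV.2.1
  have hpos : ∀ u : V, u ≠ 0 → 0 < B u u := hV.2.2.1
  have hassoc : ∀ u v w : V, B u (mul v w) = B (mul u v) w := hV.2.2.2.1
  -- each involution fixes the other axis
  have hfix : ∀ (μ ν : V ≃ₗ[ℝ] V) (a c : V), Cfsg.Axial.IsMajoranaPair mul B μ a →
      Cfsg.Axial.IsMajoranaPair mul B ν c → μ * ν = ν * μ →
      Cfsg.Axial.IsMajoranaPair mul B μ (ν a) := by
    intro μ ν a c hμ hν hcm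
    obtain ⟨hmulμ, hBμ, ⟨⟨hane, hidem, hspan, hlaw⟩, hprim⟩, hpos', hneg⟩ := hμ
    have hν1 := hν.1
    have he : ∀ r, Cfsg.Axial.eigen mul (ν a) r = (Cfsg.Axial.eigen mul a r).map (ν : V →ₗ[ℝ] V) := by
      intro r
      ext v
      rw [CfsgLib.Majorana.mem_eigen, Submodule.mem_map]
      constructor
      · intro hv
        refine ⟨ν.symm v, CfsgLib.Majorana.mem_eigen.2 ?_, ν.apply_symm_apply v⟩
        apply ν.injective
        rw [hν1, map_smul, ν.apply_symm_apply, hv]
      · rintro ⟨w, hw, rfl⟩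
        rw [LinearEquiv.coe_coe, ← hν1, CfsgLib.Majorana.mem_eigen.1 hw, map_smul]
    have heS : ∀ S, Cfsg.Axial.eigenSum mul (ν a) S
        = (Cfsg.Axial.eigenSum mul a S).map (ν : V →ₗ[ℝ] V) := by
      intro S
      simp only [Cfsg.Axial.eigenSum, Submodule.map_iSup, he]
    have hμν : ∀ w, μ (ν w) = ν (μ w) := fun w => by
      have := congrArg (fun f : V ≃ₗ[ℝ] V => f w) hcm
      simpa using this
    refine ⟨hmulμ, hBμ, ⟨⟨fun h => hane (ν.injective (by simpa using h)), ?_, ?_, ?_⟩, ?_⟩, ?_, ?_⟩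
    · rw [← hν1, hidem]
    · rw [heS, hspan, Submodule.map_top, LinearEquiv.range]
    · intro r hr t ht u hu v hv
      rw [he] at hu hv
      obtain ⟨u', hu', rfl⟩ := hu
      obtain ⟨v', hv', rfl⟩ := hv
      rw [heS]
      exact ⟨mul u' v', hlaw r hr t ht u' hu' v' hv', hν1 u' v'⟩
    · rw [he, hprim, Submodule.map_span, Set.image_singleton]
      rfl
    · intro v hv
      rw [heS] at hv
      obtain ⟨w, hw, rfl⟩ := hv
      simp only [LinearEquiv.coe_coe, hμν]
      rw [show μ w = w from hpos' w hw]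
    · intro v hv
      rw [he] at hv
      obtain ⟨w, hw, rfl⟩ := hv
      simp only [LinearEquiv.coe_coe, hμν]
      rw [show μ w = -w from hneg w hw, map_neg]
  -- the main computation for an ordered pair
  have key : ∀ (μ : V ≃ₗ[ℝ] V) (a b : V), Cfsg.Axial.IsMajoranaPair mul B μ a → B a a = 1 →
      μ b = b → mul b b = b → mul a a = a →
      mul a (mul a b) = (3 / 4 * B a b) • a + (1 / 4 : ℝ) • mul a b →
      mul b (mul a b) = (3 / 4 * B a b) • b + (1 / 4 : ℝ) • mul a b →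
      (16 : ℝ) • mul (mul a b) (mul a b) = (8 * B a b ^ 2 + 2 * B a b) • a
        + (3 * B a b) • b + (4 * B a b - 1) • mul a b := by
    intro μ a b hμ hn hμb hbb haa haw hbw
    set α := B a b with hα
    obtain ⟨u, v, hu, hv, hb⟩ : ∃ u v : V, u ∈ Cfsg.Axial.eigen mul a 0 ∧
        v ∈ Cfsg.Axial.eigen mul a (1 / 4) ∧ b = α • a + u + v := by
      have hspan := hμ.2.2.1.1.2.2.1
      have hmem : b ∈ Cfsg.Axial.eigenSum mul a Cfsg.Axial.majoranaSpectrum := by
        rw [hspan]; trivial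
      rw [Cfsg.Axial.majoranaSpectrum, CfsgLib.Majorana.eigenSum_insert,
        CfsgLib.Majorana.eigenSum_insert, CfsgLib.Majorana.eigenSum_insert,
        CfsgLib.Majorana.eigenSum_singleton] at hmem
      simp only [Submodule.mem_sup] at hmem
      obtain ⟨p, hp, r, ⟨u, hu, t, ⟨v, hv, q, hq, rfl⟩, rfl⟩, rfl⟩ := hmem
      have hsub : ∀ c ∈ ({1, 0, 1 / 4} : Set ℝ), ∀ w ∈ Cfsg.Axial.eigen mul a c, μ w = w := by
        intro c hc w hw
        refine hμ.2.2.2.1 w ?_
        unfold Cfsg.Axial.eigenSum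
        exact Submodule.mem_iSup_of_mem c (Submodule.mem_iSup_of_mem hc hw)
      have hq0 : q = 0 := by
        have h1 : μ p = p := hsub 1 (by simp) p hp
        have h2 : μ u = u := hsub 0 (by simp) u hu
        have h3 : μ v = v := hsub (1 / 4) (by simp) v hv
        have h4 : μ q = -q := hμ.2.2.2.2 q hq
        rw [map_add, map_add, map_add, h1, h2, h3, h4] at hμb
        have : (2 : ℝ) • q = 0 := by linear_combination (norm := module) -hμb
        exact (smul_eq_zero.1 this).resolve_left (by norm_num)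
      rw [hμ.2.2.1.2, Submodule.mem_span_singleton] at hp
      obtain ⟨r, rfl⟩ := hp
      refine ⟨u, v, hu, hv, ?_⟩
      have hBu : B a u = 0 := by
        have h1 := hassoc a a u
        rw [CfsgLib.Majorana.mem_eigen.1 hu, haa, zero_smul, map_zero] at h1
        exact h1.symm
      have hBv : B a v = 0 := by
        have h1 := hassoc a a v
        rw [CfsgLib.Majorana.mem_eigen.1 hv, haa, map_smul, smul_eq_mul] at h1
        linarith
      have hr : α = r := by
        rw [hα, hq0]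
        simp [map_add, map_smul, hn, hBu, hBv]
      rw [hr, hq0, add_zero, add_assoc]
    have hau := CfsgLib.Majorana.mem_eigen.1 hu
    have hav := CfsgLib.Majorana.mem_eigen.1 hv
    rw [zero_smul] at hau
    have hab : mul a b = α • a + (1 / 4 : ℝ) • v := by
      rw [hb, map_add, map_add, map_smul, haa, hau, hav, add_zero]
    have hv' : v = (4 : ℝ) • mul a b - (4 * α) • a := by rw [hab]; module
    have hu' : u = b + (3 * α) • a - (4 : ℝ) • mul a b := by
      linear_combination (norm := module) -hb - hv'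
    -- fusion
    have h0 : (0 : ℝ) ∈ Cfsg.Axial.majoranaSpectrum := by simp [Cfsg.Axial.majoranaSpectrum]
    have h4 : (1 / 4 : ℝ) ∈ Cfsg.Axial.majoranaSpectrum := by simp [Cfsg.Axial.majoranaSpectrum]
    have huu := CfsgLib.Majorana.fusion hμ h0 h0 hu hu
    rw [CfsgLib.Majorana.law_zero_zero, CfsgLib.Majorana.eigenSum_singleton,
      CfsgLib.Majorana.mem_eigen, zero_smul] at huu
    have huv := CfsgLib.Majorana.fusion hμ h0 h4 hu hv
    rw [CfsgLib.Majorana.law_zero_quarter, CfsgLib.Majorana.eigenSum_singleton,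
      CfsgLib.Majorana.mem_eigen] at huv
    have hvv := CfsgLib.Majorana.fusion hμ h4 h4 hv hv
    rw [CfsgLib.Majorana.law_quarter_quarter] at hvv
    have hvv' := CfsgLib.Majorana.mem_sum_one_zero hvv
    have hexp : b = (α ^ 2) • a + (α / 2) • v + mul u u + (2 : ℝ) • mul u v + mul v v := by
      conv_lhs => rw [← hbb, hb]
      simp only [map_add, map_smul, LinearMap.add_apply, LinearMap.smul_apply, hcomm u a, hcomm v a,
        hcomm v u, haa, hau, hav]
      module
    have hP := congrArg (fun t : V => mul a (mul a t) - mul a t) hexp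
    simp only [map_add, map_smul, haa, hav, huu, map_zero, huv, hvv'] at hP
    rw [hb] at hP
    simp only [map_add, map_smul, haa, hau, hav, map_zero] at hP
    have huvv : mul u v = ((2 - α) / 4) • v := by
      linear_combination (norm := module) (8 / 3 : ℝ) • hP
    rw [hu', hv'] at huvv
    simp only [map_add, map_sub, map_smul, LinearMap.add_apply, LinearMap.sub_apply,
      LinearMap.smul_apply, hcomm (mul a b) a, hcomm b a, haa, haw, hbw] at huvv
    linear_combination (norm := module) -huvv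
  have hf1 : μ₁ a₀ = a₀ := hu₀ _ (hfix μ₀ μ₁ a₀ a₁ h₀ h₁ hc)
  have hf0 : μ₀ a₁ = a₁ := hu₁ _ (hfix μ₁ μ₀ a₁ a₀ h₁ h₀ hc.symm)
  have haa := CfsgLib.Majorana.mul_idem h₀
  have hbb := CfsgLib.Majorana.mul_idem h₁
  -- `a (a b)` for a fixed axis
  have hfirst : ∀ (μ : V ≃ₗ[ℝ] V) (a b : V), Cfsg.Axial.IsMajoranaPair mul B μ a → B a a = 1 →
      μ b = b → mul a (mul a b) = (3 / 4 * B a b) • a + (1 / 4 : ℝ) • mul a b := by
    intro μ a b hμ hn hμb
    have hmem : b ∈ Cfsg.Axial.eigenSum mul a Cfsg.Axial.majoranaSpectrum := by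
      rw [hμ.2.2.1.1.2.2.1]; trivial
    rw [Cfsg.Axial.majoranaSpectrum, CfsgLib.Majorana.eigenSum_insert,
      CfsgLib.Majorana.eigenSum_insert, CfsgLib.Majorana.eigenSum_insert,
      CfsgLib.Majorana.eigenSum_singleton] at hmem
    simp only [Submodule.mem_sup] at hmem
    obtain ⟨p, hp, r, ⟨u, hu, t, ⟨v, hv, q, hq, rfl⟩, rfl⟩, rfl⟩ := hmem
    have hsub : ∀ c ∈ ({1, 0, 1 / 4} : Set ℝ), ∀ w ∈ Cfsg.Axial.eigen mul a c, μ w = w := by
      intro c hc w hw
      refine hμ.2.2.2.1 w ?_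
      unfold Cfsg.Axial.eigenSum
      exact Submodule.mem_iSup_of_mem c (Submodule.mem_iSup_of_mem hc hw)
    have hq0 : q = 0 := by
      have h1 : μ p = p := hsub 1 (by simp) p hp
      have h2 : μ u = u := hsub 0 (by simp) u hu
      have h3 : μ v = v := hsub (1 / 4) (by simp) v hv
      have h4 : μ q = -q := hμ.2.2.2.2 q hq
      rw [map_add, map_add, map_add, h1, h2, h3, h4] at hμb
      have : (2 : ℝ) • q = 0 := by linear_combination (norm := module) -hμb
      exact (smul_eq_zero.1 this).resolve_left (by norm_num)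
    rw [hμ.2.2.1.2, Submodule.mem_span_singleton] at hp
    obtain ⟨r, rfl⟩ := hp
    have hidem := CfsgLib.Majorana.mul_idem hμ
    have hau := CfsgLib.Majorana.mem_eigen.1 hu
    have hav := CfsgLib.Majorana.mem_eigen.1 hv
    rw [zero_smul] at hau
    have hBu : B a u = 0 := by
      have h1 := hassoc a a u
      rw [hau, hidem, map_zero] at h1
      exact h1.symm
    have hBv : B a v = 0 := by
      have h1 := hassoc a a v
      rw [hav, hidem, map_smul, smul_eq_mul] at h1
      linarith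
    simp only [hq0, add_zero, map_add, map_smul, hidem, hau, hav, zero_add, hn, hBu, hBv,
      smul_eq_mul, mul_one]
    module
  have haw := hfirst μ₀ a₀ a₁ h₀ hn₀ hf0
  have hbw := hfirst μ₁ a₁ a₀ h₁ hn₁ hf1
  rw [hBs a₁ a₀, hcomm a₁ a₀] at hbw
  have e1 := key μ₀ a₀ a₁ h₀ hn₀ hf0 hbb haa haw hbw
  have e2 := key μ₁ a₁ a₀ h₁ hn₁ hf1 haa hbb
    (by rw [hBs a₁ a₀, hcomm a₁ a₀]; exact hbw) (by rw [hBs a₁ a₀, hcomm a₁ a₀]; exact haw)
  rw [hBs a₁ a₀, hcomm a₁ a₀] at e2
  set α := B a₀ a₁ with hα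
  have hdiff : (α * (8 * α - 1)) • (a₀ - a₁) = 0 := by
    linear_combination (norm := module) e2 - e1
  rcases smul_eq_zero.1 hdiff with h | h
  · rcases mul_eq_zero.1 h with hzero | h8
    · refine Or.inl ⟨hzero, ?_⟩
      by_contra hw
      have hp := hpos _ hw
      have h1 : B (mul a₀ a₁) (mul a₀ a₁) = B a₀ (mul a₁ (mul a₀ a₁)) := (hassoc _ _ _).symm
      have h2 : B a₀ (mul a₀ a₁) = 0 := by rw [hassoc, haa, ← hα, hzero]
      rw [h1, hbw, hzero] at hp
      simp [h2] at hp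
    · have hα8 : α = 1 / 8 := by linarith
      refine Or.inr ⟨hα8, ?_, ?_, ?_⟩
      · rw [hα8] at e1 haw hbw
        simp only [map_add, map_sub, map_smul, LinearMap.add_apply, LinearMap.sub_apply,
          LinearMap.smul_apply, hcomm (mul a₀ a₁) a₀, hcomm (mul a₀ a₁) a₁, hcomm a₁ a₀, haa, hbb,
          haw, hbw]
        linear_combination (norm := module) (4 : ℝ) • e1
      · rw [hα8] at haw
        simp only [map_add, map_sub, map_smul, haa, haw]
        module
      · rw [hα8] at hbw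
        simp only [map_add, map_sub, map_smul, hbb, hbw, hcomm a₁ a₀]
        module
  · exact absurd (sub_eq_zero.1 h) hne

end Cfsg.Agent.S5545
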