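import Cfsg.Statements.S5601
import Cfsg.Agent.Golay.FixCounts
import Mathlib
open CfsgLib.Golay CfsgLib.Golay.Suborb
open scoped Pointwise

set_option autoImplicit false
open scoped Pointwise
open Cfsg

namespace Cfsg.Agent.S5601

/-- The group of the length-24 code has exactly two conjugacy classes of subgroups of order 3: a subgroup of order 3 fixes either exactly 6 of the 24 points or none of them, both cases occur, and two subgroups of order 3 with the same number of fixed points are conjugate. -/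
theorem result : (∀ X : Subgroup ↥Cfsg.M24, Nat.card X = 3 → {p : Cfsg.GolayPt | ∀ x ∈ X, ((x : ↥Cfsg.M24) : Equiv.Perm Cfsg.GolayPt) p = p}.ncard = 6 ∨ {p : Cfsg.GolayPt | ∀ x ∈ X, ((x : ↥Cfsg.M24) : Equiv.Perm Cfsg.GolayPt) p = p}.ncard = 0) ∧ (∃ X : Subgroup ↥Cfsg.M24, Nat.card X = 3 ∧ {p : Cfsg.GolayPt | ∀ x ∈ X, ((x : ↥Cfsg.M24) : Equiv.Perm Cfsg.GolayPt) p = p}.ncard = 6) ∧ (∃ X : Subgroup ↥Cfsg.M24, Nat.card X = 3 ∧ {p : Cfsg.GolayPt | ∀ x ∈ X, ((x : ↥Cfsg.M24) : Equiv.Perm Cfsg.GolayPt) p = p}.ncard = 0) ∧ ∀ X Y : Subgroup ↥Cfsg.M24, Nat.card X = 3 → Nat.card Y = 3 → {p : Cfsg.GolayPt | ∀ x ∈ X, ((x : ↥Cfsg.M24) : Equiv.Perm Cfsg.GolayPt) p = p}.ncard = {p : Cfsg.GolayPt | ∀ x ∈ Y, ((x : ↥Cfsg.M24) : Equiv.Perm Cfsg.GolayPt) p = p}.ncard → ∃ k : ↥Cfsg.M24, MulAut.conj k • X = Y := by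
  have fix_eq : ∀ (X : Subgroup ↥Cfsg.M24) (g : ↥Cfsg.M24), Subgroup.zpowers g = X →
      {p : Cfsg.GolayPt | ∀ x ∈ X, ((x : ↥Cfsg.M24) : Equiv.Perm Cfsg.GolayPt) p = p}.ncard =
        (Ord3.fixSet (g : Equiv.Perm Cfsg.GolayPt)).card := by
    intro X g hX
    rw [← Set.ncard_coe_finset]
    congr 1
    ext p
    simp only [Ord3.fixSet, Set.mem_ofPred_eq, Finset.coe_filter, Finset.mem_univ, true_and]
    constructor
    · exact fun h => h g (hX ▸ Subgroup.mem_zpowers g)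
    · intro h x hx
      rw [← hX] at hx
      obtain ⟨n, rfl⟩ := hx
      exact Equiv.Perm.zpow_apply_eq_self_of_apply_eq_self h n
  have gen : ∀ X : Subgroup ↥Cfsg.M24, Nat.card X = 3 →
      ∃ g : ↥Cfsg.M24, Subgroup.zpowers g = X ∧ orderOf (g : Equiv.Perm Cfsg.GolayPt) = 3 := by
    intro X hX
    haveI : Fact (Nat.Prime 3) := ⟨Nat.prime_three⟩
    have : IsCyclic X := isCyclic_of_prime_card hX
    obtain ⟨g, hg⟩ := IsCyclic.exists_generator (α := X)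
    refine ⟨(g : ↥Cfsg.M24), ?_, ?_⟩
    · refine le_antisymm (Subgroup.zpowers_le.2 g.2) fun x hx => ?_
      obtain ⟨n, hn⟩ := hg ⟨x, hx⟩
      exact ⟨n, congrArg Subtype.val hn⟩
    · rw [orderOf_submonoid, orderOf_submonoid, orderOf_eq_card_of_forall_mem_zpowers hg, hX]
  have mkX : ∀ b : Bool, ∃ X : Subgroup ↥Cfsg.M24, Nat.card X = 3 ∧
      {p : Cfsg.GolayPt | ∀ x ∈ X, ((x : ↥Cfsg.M24) : Equiv.Perm Cfsg.GolayPt) p = p}.ncard =
        bif b then 6 else 0 := by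
    intro b
    obtain ⟨hv, hM, h3, h1, hf⟩ := Ord3.permOf_rep b
    refine ⟨Subgroup.zpowers ⟨_, hM⟩, ?_, ?_⟩
    · rw [Nat.card_zpowers, ← orderOf_submonoid]
      haveI : Fact (Nat.Prime 3) := ⟨Nat.prime_three⟩
      refine orderOf_eq_prime ?_ h1
      rw [pow_succ', pow_two]
      exact h3
    · rw [fix_eq _ ⟨_, hM⟩ rfl, hf]
  refine ⟨fun X hX => ?_, mkX true, mkX false, fun X Y hX hY h => ?_⟩
  · obtain ⟨g, hg, h3⟩ := gen X hX
    rw [fix_eq X g hg]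
    exact Ord3.fix_card_cases g.2 h3
  · obtain ⟨g, hg, g3⟩ := gen X hX
    obtain ⟨h', hh, h3⟩ := gen Y hY
    rw [fix_eq X g hg, fix_eq Y h' hh] at h
    obtain ⟨k, hk, b, eg⟩ := Ord3.ord3_conj g.2 g3
    have hb : (Ord3.fixSet (h' : Equiv.Perm Cfsg.GolayPt)).card = bif b then 6 else 0 := by
      rw [← h, eg, Ord3.card_fixSet_conj, (Ord3.permOf_rep b).2.2.2.2]
    obtain ⟨l, hl, el⟩ := Ord3.ord3_class h'.2 h3 hb
    refine ⟨⟨l * k⁻¹, mul_mem hl (inv_mem hk)⟩, ?_⟩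
    rw [← hg, ← hh]
    have e : MulAut.conj (⟨l * k⁻¹, mul_mem hl (inv_mem hk)⟩ : ↥Cfsg.M24) g = h' := by
      refine Subtype.ext ?_
      rw [MulAut.conj_apply]
      simp only [Subgroup.coe_mul, Subgroup.coe_inv]
      rw [eg, el]
      group
    rw [← e]
    exact MonoidHom.map_zpowers _ _

end Cfsg.Agent.S5601
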