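import Cfsg.Statements.S5602
import Cfsg.Agent.Golay.FixCounts
import Mathlib
open CfsgLib.Golay CfsgLib.Golay.Suborb
open scoped Pointwise

set_option autoImplicit false
open scoped Pointwise
open Cfsg

namespace Cfsg.Agent.S5602

/-- An element of order 3 of the group of the length-24 code having exactly 6 fixed points maps to themselves exactly 21 octads, exactly 15 trios, exactly 16 sextets and exactly 20 dodecads. -/
theorem result (g : Equiv.Perm Cfsg.GolayPt) (hg : g ∈ Cfsg.M24) (h₃ : orderOf g = 3) (h₆ : (Finset.univ.filter fun p => g p = p).card = 6) : {o : Finset Cfsg.GolayPt | o ∈ Cfsg.octads ∧ g • o = o}.ncard = 21 ∧ {T : Finset (Finset Cfsg.GolayPt) | T ∈ Cfsg.trios ∧ g • T = T}.ncard = 15 ∧ {S : Finset (Finset Cfsg.GolayPt) | S ∈ Cfsg.sextets ∧ g • S = S}.ncard = 16 ∧ {d : Finset Cfsg.GolayPt | d ∈ Cfsg.dodecads ∧ g • d = d}.ncard = 20 := by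
  obtain ⟨k, hk, rfl⟩ := Ord3.ord3_class (b := true) hg h₃ h₆
  have hv := (Ord3.permOf_rep true).1
  refine ⟨?_, ?_, ?_, ?_⟩
  · exact (ncard_fixed_conj (S := Cfsg.octads) (fun σ hσ o ho => smul_mem_octads hσ ho) hk _).trans ((ncard_fixed_words 8 hv).trans FixCounts.oct_2)
  · exact (ncard_fixed_conj (S := Cfsg.trios) (fun σ hσ X hX => smul_mem_trios hσ hX) hk _).trans ((ncard_fixed_fams trios_enum hv).trans FixCounts.trio_2)
  · exact (ncard_fixed_conj (S := Cfsg.sextets) (fun σ hσ X hX => smul_mem_sextets hσ hX) hk _).trans ((ncard_fixed_fams sextets_enum hv).trans FixCounts.sex_2)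
  · exact (ncard_fixed_conj (S := Cfsg.dodecads) (fun σ hσ o ho => smul_mem_dodecads hσ ho) hk _).trans ((ncard_fixed_words 12 hv).trans FixCounts.dod_2)

end Cfsg.Agent.S5602
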