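import Cfsg.Statements.S5603
import Cfsg.Agent.Golay.FixCounts
import Mathlib
open CfsgLib.Golay CfsgLib.Golay.Suborb
open scoped Pointwise

set_option autoImplicit false
open scoped Pointwise
open Cfsg

namespace Cfsg.Agent.S5603

/-- A fixed-point-free element of order 3 of the group of the length-24 code maps to themselves exactly 7 sextets and exactly 15 trios. -/
theorem result (g : Equiv.Perm Cfsg.GolayPt) (hg : g ∈ Cfsg.M24) (h₃ : orderOf g = 3) (h₀ : ∀ p, g p ≠ p) : {S : Finset (Finset Cfsg.GolayPt) | S ∈ Cfsg.sextets ∧ g • S = S}.ncard = 7 ∧ {T : Finset (Finset Cfsg.GolayPt) | T ∈ Cfsg.trios ∧ g • T = T}.ncard = 15 := by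
  have h0 : (Ord3.fixSet g).card = bif false then 6 else 0 := by
    rw [cond_false, Finset.card_eq_zero, Ord3.fixSet, Finset.filter_eq_empty_iff]
    exact fun p _ => h₀ p
  obtain ⟨k, hk, rfl⟩ := Ord3.ord3_class (b := false) hg h₃ h0
  have hv := (Ord3.permOf_rep false).1
  refine ⟨?_, ?_⟩
  · exact (ncard_fixed_conj (S := Cfsg.sextets) (fun σ hσ X hX => smul_mem_sextets hσ hX) hk _).trans ((ncard_fixed_fams sextets_enum hv).trans FixCounts.sex_3)
  · exact (ncard_fixed_conj (S := Cfsg.trios) (fun σ hσ X hX => smul_mem_trios hσ hX) hk _).trans ((ncard_fixed_fams trios_enum hv).trans FixCounts.trio_3)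

end Cfsg.Agent.S5603
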