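import Cfsg.Statements.S5604
import Cfsg.Agent.MathieuMisc.Transport
import Cfsg.Agent.MathieuMisc.OrdSeven
import Cfsg.Agent.MathieuOut.Check
import Cfsg.Agent.Golay.Kinds

set_option autoImplicit false
open scoped Pointwise
open Cfsg

namespace Cfsg.Agent.S5604

open CfsgLib.Golay CfsgLib.Golay.Suborb CfsgLib.MathieuTwo CfsgLib.MathieuMisc
open scoped Pointwise

/-- Key of `h * X ^ e * h⁻¹`. -/
def key (h e : ℕ) : ℕ :=
  CfsgLib.MathieuOut.keyPts.foldr (fun q r =>
    CfsgLib.MathieuOut.look h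
      (CfsgLib.MathieuOut.look (OrdSeven.pows.getD e 0) ((dec h).idxOf q)) + 32 * r) 0

/-- Checks. -/
def sevenOk : Bool :=
  let R := OrdSeven.reps
  validTab (dec OrdSeven.x) && presTab (dec OrdSeven.x) &&
  ((List.range 7).all fun e => eqTab (dec (OrdSeven.pows.getD e 0)) (CfsgLib.MathieuOut.powT (dec OrdSeven.x) e)) &&
  eqTab (CfsgLib.MathieuOut.powT (dec OrdSeven.x) 7) idT && !(eqTab (dec OrdSeven.x) idT) &&
  ((List.range 24).all fun q => OrdSeven.fm.testBit q == Nat.beq ((dec OrdSeven.x).getD q 0) q) &&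
  Nat.beq R.length 960 && incr (R.map fun r => r.1) &&
  R.all (fun r => CfsgLib.Golay.gensOk [dec r.2.1] [OrdSeven.fm] && Nat.blt 0 r.2.2 && Nat.blt r.2.2 7 &&
    CfsgLib.MathieuOut.keyPts.all (fun q =>
      Nat.blt ((dec r.2.1).idxOf q) 24 &&
      Nat.beq (CfsgLib.MathieuOut.look r.2.1 ((dec r.2.1).idxOf q)) q) &&
    Nat.beq (key r.2.1 r.2.2) r.1 &&
    [1, 2, 3, 4, 5, 6].all (fun e => Nat.ble r.1 (key r.2.1 e)))

theorem seven_ok : sevenOk = true := by decide +kernel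

/-- Checks for the normaliser. -/
def normOk : Bool :=
  groupOk [] OrdSeven.gens OrdSeven.tree 126 &&
  (OrdSeven.gens.all fun g => (List.range 7).any fun e =>
    eqTab (mulTab g (dec OrdSeven.x)) (mulTab (CfsgLib.MathieuOut.powT (dec OrdSeven.x) e) g)) &&
  Nat.beq ((tabs OrdSeven.tree).filter fun l => eqTab (mulTab l (dec OrdSeven.x)) (mulTab (dec OrdSeven.x) l)).length 42 &&
  inTabs OrdSeven.tree (dec OrdSeven.nab.1) && inTabs OrdSeven.tree (dec OrdSeven.nab.2) &&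
  eqTab (mulTab (dec OrdSeven.nab.1) (dec OrdSeven.x)) (mulTab (dec OrdSeven.x) (dec OrdSeven.nab.1)) &&
  eqTab (mulTab (dec OrdSeven.nab.2) (dec OrdSeven.x)) (mulTab (dec OrdSeven.x) (dec OrdSeven.nab.2)) &&
  !(eqTab (mulTab (dec OrdSeven.nab.1) (dec OrdSeven.nab.2)) (mulTab (dec OrdSeven.nab.2) (dec OrdSeven.nab.1))) &&
  OrdSeven.gens.all (fun g => OrdSeven.trio.all fun m =>
    OrdSeven.trio.contains (actTab g m) && Nat.blt m 16777216)

theorem norm_ok : normOk = true := by decide +kernel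

theorem trio_ok : trioL OrdSeven.trio = true := by decide +kernel

/-- The element of order seven. -/
noncomputable def X : Equiv.Perm Cfsg.GolayPt := permOf (dec OrdSeven.x)

theorem x_facts : validTab (dec OrdSeven.x) = true ∧ X ∈ Cfsg.M24 ∧ orderOf X = 7 ∧
    ∀ e < 7, ∀ q < 24, CfsgLib.MathieuOut.look (OrdSeven.pows.getD e 0) q = im (X ^ e) q := by
  have h := seven_ok
  simp only [sevenOk, Bool.and_eq_true, List.all_eq_true, List.mem_range, eqTab_iff,
    Bool.not_eq_true'] at h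
  obtain ⟨⟨⟨⟨⟨⟨⟨⟨hv, hp⟩, hpw⟩, h7⟩, hne⟩, -⟩, -⟩, -⟩, -⟩ := h
  haveI : Fact (Nat.Prime 7) := ⟨by norm_num⟩
  refine ⟨hv, permOf_mem_M24 hv hp, orderOf_eq_prime ?_ fun e => ?_, fun e he q hq => ?_⟩
  · rw [X, ← (CfsgLib.MathieuOut.powT_spec hv 7).2, h7, permOf_idT]
  · rw [(eqTab_iff).2 ((CfsgLib.MathieuOut.eq_idT_iff hv).2 e)] at hne
    simp at hne
  · obtain ⟨v, e2⟩ := CfsgLib.MathieuOut.powT_spec hv e
    rw [← hpw e he] at v e2
    rw [X, ← e2]
    exact (CfsgLib.MathieuOut.look_spec v hq).1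

/-- The normalising condition. -/
def Normal7 (g : Equiv.Perm Cfsg.GolayPt) : Prop := g * X * g⁻¹ ∈ Subgroup.zpowers X

theorem exists_pow_of_mem {g : Equiv.Perm Cfsg.GolayPt} (hg : g ∈ Subgroup.zpowers X) :
    ∃ e < 7, X ^ e = g := by
  rw [mem_zpowers_iff_mem_range_orderOf, Finset.mem_image] at hg
  obtain ⟨e, he, h⟩ := hg
  rw [Finset.mem_range, x_facts.2.2.1] at he
  exact ⟨e, he, h⟩

theorem normal7_iff {g : Equiv.Perm Cfsg.GolayPt} :
    Normal7 g ↔ g ∈ Subgroup.normalizer ((Subgroup.zpowers X : Subgroup _) : Set (Equiv.Perm Cfsg.GolayPt)) := by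
  constructor
  · intro h
    refine Subgroup.mem_normalizer_fintype fun y hy => ?_
    rw [SetLike.mem_coe] at hy ⊢
    obtain ⟨z, rfl⟩ := Subgroup.mem_zpowers_iff.1 hy
    rw [← conj_zpow]
    exact Subgroup.zpow_mem _ h _
  · intro h
    exact (Subgroup.mem_normalizer_iff.1 h X).1 (Subgroup.mem_zpowers X)

/-- The normaliser inside the group of the code. -/
noncomputable def N0 : Subgroup (Equiv.Perm Cfsg.GolayPt) :=
  Cfsg.M24 ⊓ Subgroup.normalizer ((Subgroup.zpowers X : Subgroup _) : Set (Equiv.Perm Cfsg.GolayPt))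

theorem N0_le : N0 ≤ fixGroup [OrdSeven.fm] := by
  intro g hg
  refine mem_fixGroup.2 ⟨hg.1, fun m hm => ?_⟩
  rw [List.mem_singleton] at hm; subst hm
  have h := seven_ok
  simp only [sevenOk, Bool.and_eq_true, List.all_eq_true, List.mem_range, beq_iff_eq] at h
  have hfix := h.1.1.1.2
  have hsub : g • toSet OrdSeven.fm ⊆ toSet OrdSeven.fm := by
    intro y hy
    obtain ⟨q, hq, rfl⟩ := Finset.mem_smul_finset.1 hy
    rw [mem_toSet] at hq ⊢
    rw [hfix _ (idx q).isLt, Nat.beq_eq, ← im_permOf x_facts.1 (idx q).isLt] at hq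
    rw [hfix _ (idx (g • q)).isLt, Nat.beq_eq, ← im_permOf x_facts.1 (idx (g • q)).isLt]
    have hXq : X q = q := idx_injective (Fin.ext (by rw [im, ptN_idx] at hq; exact hq))
    obtain ⟨e, -, he⟩ := exists_pow_of_mem ((Subgroup.mem_normalizer_iff''.1 hg.2 X).1 (Subgroup.mem_zpowers X))
    have hpq : (X ^ e) q = q := Equiv.Perm.pow_apply_eq_self_of_apply_eq_self hXq e
    rw [he] at hpq
    simp only [Equiv.Perm.mul_apply, Equiv.Perm.inv_eq_iff_eq] at hpq
    rw [im, ptN_idx, Equiv.Perm.smul_def]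
    exact congrArg (fun p => (idx p).val) hpq
  exact Finset.eq_of_subset_of_card_le hsub (by rw [Finset.card_smul_finset])

theorem card_fm : Nat.card (fixGroup [OrdSeven.fm]) = 120960 := by
  have hK : fixGroup [OrdSeven.fm] = Cfsg.M24 ⊓ MulAction.stabilizer (Equiv.Perm Cfsg.GolayPt) (toSet OrdSeven.fm) := by
    ext σ; rw [Subgroup.mem_inf, mem_fixGroup, List.forall_mem_singleton]; rfl
  have hc3 : (toSet OrdSeven.fm).card = 3 := by decide +kernel
  have h := card_stab (K := Cfsg.M24) (x := toSet OrdSeven.fm)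
    (S := ((Finset.univ.powersetCard 3 : Finset (Finset Cfsg.GolayPt)) : Set (Finset Cfsg.GolayPt)))
    (fun g _ => by simp [Finset.card_smul_finset, hc3]) (fun y hy => by
      simp only [Finset.mem_coe, Finset.mem_powersetCard] at hy
      obtain ⟨a, b, c, hab, hac, hbc, rfl⟩ := Finset.card_eq_three.1 hy.2
      obtain ⟨u, v, w, huv, huw, hvw, e⟩ := Finset.card_eq_three.1 hc3
      obtain ⟨g, hg, hgi⟩ := exists_map_tuple (n := 3) (by omega) ![u, v, w] ![a, b, c]
        (by intro i j h; fin_cases i <;> fin_cases j <;> simp_all [eq_comm])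
        (by intro i j h; fin_cases i <;> fin_cases j <;> simp_all [eq_comm])
      have g0 : g u = a := hgi 0
      have g1 : g v = b := hgi 1
      have g2 : g w = c := hgi 2
      refine ⟨g, hg, ?_⟩
      rw [e, Finset.smul_finset_insert, Finset.smul_finset_insert, Finset.smul_finset_singleton]
      simp only [Equiv.Perm.smul_def, g0, g1, g2])
  rw [Set.ncard_coe_finset, Finset.card_powersetCard, Finset.card_univ, card_pt, ← hK, card_M24,
    show Nat.choose 24 3 = 2024 by rfl] at h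
  omega

/-- Key of a permutation. -/
noncomputable def keyP (g : Equiv.Perm Cfsg.GolayPt) : ℕ :=
  CfsgLib.MathieuOut.keyPts.foldr (fun q r => im g q + 32 * r) 0

theorem reps_spec {r : ℕ × ℕ × ℕ} (hr : r ∈ OrdSeven.reps) :
    ∃ h : fixGroup [OrdSeven.fm], r.2.2 ≠ 0 ∧ r.2.2 < 7 ∧
      keyP ((h : Equiv.Perm Cfsg.GolayPt) * X ^ r.2.2 * (h : Equiv.Perm Cfsg.GolayPt)⁻¹) = r.1 ∧
      ∀ e, e ≠ 0 → e < 7 → r.1 ≤ keyP ((h : Equiv.Perm Cfsg.GolayPt) * X ^ e * (h : Equiv.Perm Cfsg.GolayPt)⁻¹) := by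
  have h := seven_ok
  simp only [sevenOk, Bool.and_eq_true, List.all_eq_true, Nat.blt_eq, Nat.beq_eq, Nat.ble_eq] at h
  obtain ⟨⟨⟨⟨⟨hg, h0⟩, h7⟩, hinv⟩, hkey⟩, hmin⟩ := h.2 r hr
  obtain ⟨hv, hm⟩ := permOf_mem_fixGroup (fixd := [OrdSeven.fm]) (fun m hm => by rw [List.mem_singleton] at hm; subst hm; decide) hg
    (List.mem_singleton_self _)
  have hk : ∀ e < 7, key r.2.1 e =
      keyP (permOf (dec r.2.1) * X ^ e * (permOf (dec r.2.1))⁻¹) := by
    intro e he
    have key' : ∀ (F : List ℕ) (a : ℕ), (∀ q ∈ F, q ∈ CfsgLib.MathieuOut.keyPts) →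
        F.foldr (fun q r' => CfsgLib.MathieuOut.look r.2.1
          (CfsgLib.MathieuOut.look (OrdSeven.pows.getD e 0) ((dec r.2.1).idxOf q)) + 32 * r') a =
        F.foldr (fun q r' => im (permOf (dec r.2.1) * X ^ e * (permOf (dec r.2.1))⁻¹) q + 32 * r') a := by
      intro F
      induction F with
      | nil => intro a _; rfl
      | cons q rest ih =>
        intro a hsub
        obtain ⟨hj, hq⟩ := hinv q (hsub q List.mem_cons_self)
        rw [(CfsgLib.MathieuOut.look_spec hv hj).1] at hq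
        have e1 : im ((permOf (dec r.2.1))⁻¹) q = (dec r.2.1).idxOf q := by
          conv_lhs => rw [← hq]
          rw [← im_mul, inv_mul_cancel, im, Equiv.Perm.one_apply, idx_ptN hj]
        rw [List.foldr_cons, List.foldr_cons, ih a fun y hy => hsub y (List.mem_cons_of_mem _ hy),
          x_facts.2.2.2 e he _ hj,
          (CfsgLib.MathieuOut.look_spec hv (im_lt _ _)).1, im_mul, im_mul, e1]
    exact key' _ 0 fun _ h => h
  refine ⟨⟨_, hm⟩, by omega, h7, ?_, fun e he0 he7 => ?_⟩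
  · rw [← hk _ h7]; exact hkey
  · rw [← hk _ he7]
    refine hmin e ?_
    revert he0 he7
    rcases e with _ | _ | _ | _ | _ | _ | _ | e <;> simp

theorem card_N0_le : Nat.card N0 ≤ 126 := by
  choose hh h0 h7 hkey hmin using fun i : Fin OrdSeven.reps.length => reps_spec (List.getElem_mem i.isLt)
  let K := fixGroup [OrdSeven.fm]
  let NK : Subgroup K := N0.subgroupOf K
  let f : Fin OrdSeven.reps.length → K ⧸ NK := fun i => QuotientGroup.mk (hh i)
  have hle : ∀ i j, (hh i)⁻¹ * hh j ∈ NK → OrdSeven.reps[i.val].1 ≤ OrdSeven.reps[j.val].1 := by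
    intro i j hn
    set u := ((hh i : K) : Equiv.Perm Cfsg.GolayPt)
    set v := ((hh j : K) : Equiv.Perm Cfsg.GolayPt)
    have hn2 : u⁻¹ * v ∈ N0 := hn
    obtain ⟨m, hm7, hm⟩ := exists_pow_of_mem ((Subgroup.mem_normalizer_iff.1 hn2.2 _).1
      (Subgroup.pow_mem _ (Subgroup.mem_zpowers X) OrdSeven.reps[j.val].2.2))
    have hm0 : m ≠ 0 := by
      intro h
      rw [h, pow_zero, eq_comm, mul_inv_eq_one] at hm
      have h2 : X ^ OrdSeven.reps[j.val].2.2 = 1 := by simpa using hm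
      have := Nat.le_of_dvd (Nat.pos_of_ne_zero (h0 j)) (orderOf_dvd_of_pow_eq_one h2)
      rw [x_facts.2.2.1] at this
      have := h7 j
      omega
    have e : u * X ^ m * u⁻¹ = v * X ^ OrdSeven.reps[j.val].2.2 * v⁻¹ := by rw [hm]; group
    rw [← hkey j, ← e]
    exact hmin i m hm0 hm7
  have hf : Function.Injective f := by
    intro i j e
    have e2 : (hh i)⁻¹ * hh j ∈ NK := QuotientGroup.eq.1 e
    have e3 : (hh j)⁻¹ * hh i ∈ NK := by simpa using inv_mem e2
    have e4 := le_antisymm (hle i j e2) (hle j i e3)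
    have hok := seven_ok
    simp only [sevenOk, Bool.and_eq_true] at hok
    have hnd := incr_nodup hok.1.2
    exact Fin.ext ((hnd.getElem_inj_iff (hi := by simp) (hj := by simp)).1 (by simpa using e4))
  have h1 := Nat.card_le_card_of_injective f hf
  have hlen : OrdSeven.reps.length = 960 := by decide +kernel
  rw [Nat.card_fin, hlen] at h1
  have h2 := NK.card_mul_index
  have h3 : Nat.card K = 120960 := card_fm
  rw [h3, Nat.card_congr (Subgroup.subgroupOfEquivOfLe N0_le).toEquiv] at h2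
  change 960 ≤ NK.index at h1
  nlinarith

theorem grp_le_N0 : grp OrdSeven.gens ≤ N0 := by
  have h := norm_ok
  simp only [normOk, Bool.and_eq_true] at h
  obtain ⟨⟨⟨⟨⟨⟨⟨⟨hg, hn⟩, -⟩, -⟩, -⟩, -⟩, -⟩, -⟩, -⟩ := h
  refine (Subgroup.closure_le _).2 ?_
  rintro _ ⟨g, hgm, rfl⟩
  obtain ⟨gv, gK, -⟩ := gen_mem hg hgm
  refine ⟨(mem_fixGroup.1 gK).1, normal7_iff.1 ?_⟩
  simp only [List.all_eq_true, List.any_eq_true, eqTab_iff] at hn
  obtain ⟨e, -, he⟩ := hn g hgm
  obtain ⟨v, e2⟩ := CfsgLib.MathieuOut.powT_spec x_facts.1 e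
  have e3 := congrArg permOf he
  rw [(mulTab_spec gv x_facts.1).2, (mulTab_spec v gv).2, e2] at e3
  unfold Normal7 X
  rw [e3, mul_inv_cancel_right]
  exact Subgroup.pow_mem _ (Subgroup.mem_zpowers _) _

theorem N0_eq : grp OrdSeven.gens = N0 := by
  have h := norm_ok
  simp only [normOk, Bool.and_eq_true] at h
  refine Subgroup.eq_of_le_of_card_ge grp_le_N0 ?_
  rw [card_grp h.1.1.1.1.1.1.1.1]
  exact card_N0_le

theorem card_N0 : Nat.card N0 = 126 := by
  have h := norm_ok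
  simp only [normOk, Bool.and_eq_true] at h
  rw [← N0_eq, card_grp h.1.1.1.1.1.1.1.1]

theorem card_C0 : Nat.card ↥(Cfsg.M24 ⊓ Subgroup.centralizer ({X} : Set (Equiv.Perm Cfsg.GolayPt))) = 42 ∧
    ∃ a ∈ Cfsg.M24 ⊓ Subgroup.centralizer ({X} : Set (Equiv.Perm Cfsg.GolayPt)),
    ∃ b ∈ Cfsg.M24 ⊓ Subgroup.centralizer ({X} : Set (Equiv.Perm Cfsg.GolayPt)), a * b ≠ b * a := by
  have h := norm_ok
  simp only [normOk, Bool.and_eq_true, Nat.beq_eq, eqTab_iff, Bool.not_eq_true'] at h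
  obtain ⟨⟨⟨⟨⟨⟨⟨⟨hg, -⟩, hlen⟩, hn1⟩, hn2⟩, hc1⟩, hc2⟩, hne⟩, -⟩ := h
  have hmem : ∀ s, s ∈ Cfsg.M24 ⊓ Subgroup.centralizer ({X} : Set (Equiv.Perm Cfsg.GolayPt)) ↔
      ∃ l ∈ tabs OrdSeven.tree, permOf l = s ∧
        eqTab (mulTab l (dec OrdSeven.x)) (mulTab (dec OrdSeven.x) l) = true := by
    intro s
    rw [Subgroup.mem_inf, Subgroup.mem_centralizer_singleton_iff]
    constructor
    · rintro ⟨hM, hc⟩
      have hsN : s ∈ N0 := ⟨hM, normal7_iff.1 (by
        unfold Normal7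
        rw [show s * X = X * s from hc, mul_inv_cancel_right]
        exact Subgroup.mem_zpowers _)⟩
      rw [← N0_eq] at hsN
      obtain ⟨l, hl, rfl⟩ := (mem_grp hg).1 hsN
      have lv := tab_valid hg hl
      refine ⟨l, hl, rfl, eqTab_iff.2 (permOf_inj (mulTab_spec lv x_facts.1).1 (mulTab_spec x_facts.1 lv).1 ?_)⟩
      rw [(mulTab_spec lv x_facts.1).2, (mulTab_spec x_facts.1 lv).2]
      exact hc
    · rintro ⟨l, hl, rfl, e⟩
      have lv := tab_valid hg hl
      rw [eqTab_iff] at e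
      refine ⟨(mem_fixGroup.1 (grp_le hg (tab_mem hg hl))).1, ?_⟩
      show permOf l * permOf (dec OrdSeven.x) = permOf (dec OrdSeven.x) * permOf l
      rw [← (mulTab_spec lv x_facts.1).2, ← (mulTab_spec x_facts.1 lv).2, e]
  refine ⟨?_, ?_⟩
  · set F := (tabs OrdSeven.tree).filter fun l => eqTab (mulTab l (dec OrdSeven.x)) (mulTab (dec OrdSeven.x) l)
    have hnd : (F.map permOf).Nodup := (List.filter_sublist.map permOf).nodup (perms_nodup hg)
    have e : ((Cfsg.M24 ⊓ Subgroup.centralizer ({X} : Set (Equiv.Perm Cfsg.GolayPt)) : Subgroup _) :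
        Set (Equiv.Perm Cfsg.GolayPt)) = ↑(F.map permOf).toFinset := by
      ext s
      rw [SetLike.mem_coe, hmem, List.coe_toFinset, Set.mem_setOf_eq, List.mem_map]
      simp only [F, List.mem_filter]
      exact ⟨fun ⟨l, a, b, c⟩ => ⟨l, ⟨a, c⟩, b⟩, fun ⟨l, ⟨a, c⟩, b⟩ => ⟨l, a, b, c⟩⟩
    change Nat.card ↑((Cfsg.M24 ⊓ Subgroup.centralizer ({X} : Set (Equiv.Perm Cfsg.GolayPt)) : Subgroup _) :
      Set (Equiv.Perm Cfsg.GolayPt)) = 42
    rw [Nat.card_coe_set_eq, e, Set.ncard_coe_finset, List.toFinset_card_of_nodup hnd, List.length_map, hlen]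
  · have t1 := inTabs_spec hn1
    have t2 := inTabs_spec hn2
    refine ⟨_, (hmem _).2 ⟨_, t1, rfl, eqTab_iff.2 hc1⟩, _, (hmem _).2 ⟨_, t2, rfl, eqTab_iff.2 hc2⟩, ?_⟩
    intro e
    have v1 := tab_valid hg t1
    have v2 := tab_valid hg t2
    rw [← (mulTab_spec v1 v2).2, ← (mulTab_spec v2 v1).2] at e
    rw [eqTab_iff.2 (permOf_inj (mulTab_spec v1 v2).1 (mulTab_spec v2 v1).1 e)] at hne
    simp at hne

theorem N0_trio : ∀ n ∈ N0, n • fam OrdSeven.trio = fam OrdSeven.trio := by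
  have h := norm_ok
  simp only [normOk, Bool.and_eq_true, List.all_eq_true, List.contains_iff_mem, Nat.blt_eq] at h
  have hg := h.1.1.1.1.1.1.1.1
  have htr := h.2
  have hle : grp OrdSeven.gens ≤ MulAction.stabilizer (Equiv.Perm Cfsg.GolayPt) (fam OrdSeven.trio) := by
    refine (Subgroup.closure_le _).2 ?_
    rintro _ ⟨g, hgm, rfl⟩
    obtain ⟨gv, -, -⟩ := gen_mem hg hgm
    refine MulAction.mem_stabilizer_iff.2 (Finset.eq_of_subset_of_card_le ?_ (by rw [Finset.card_smul_finset]))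
    intro t ht
    obtain ⟨u, hu, rfl⟩ := Finset.mem_smul_finset.1 ht
    simp only [fam, List.mem_toFinset, List.mem_map] at hu ⊢
    obtain ⟨m, hm, rfl⟩ := hu
    obtain ⟨hc, hlt⟩ := htr g hgm m hm
    refine ⟨_, hc, ?_⟩
    have hlt' : m < 2 ^ 24 := of_blt (by rw [Nat.blt_eq]; exact hlt)
    conv_lhs => rw [← mask_toSet hlt', ← mask_smul gv, toSet_mask]
  intro n hn
  rw [← N0_eq] at hn
  exact hle hn


/-- For a subgroup S of order 7 of the group of the length-24 code (a Sylow 7-subgroup): the normaliser of S has order 126, the centraliser of S has order 42 and is non-abelian, and the whole normaliser leaves some trio invariant. (These are the orders of a Frobenius group of order 21 times a symmetric group of degree 3; the isomorphism type itself is not asserted here.) -/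
theorem result (S : Subgroup ↥Cfsg.M24) (hS : Nat.card S = 7) : Nat.card ↥(Subgroup.normalizer (S : Set ↥Cfsg.M24)) = 126 ∧ Nat.card ↥(Subgroup.centralizer (S : Set ↥Cfsg.M24)) = 42 ∧ (∃ x ∈ Subgroup.centralizer (S : Set ↥Cfsg.M24), ∃ y ∈ Subgroup.centralizer (S : Set ↥Cfsg.M24), x * y ≠ y * x) ∧ ∃ T ∈ Cfsg.trios, ∀ n ∈ Subgroup.normalizer (S : Set ↥Cfsg.M24), ((n : ↥Cfsg.M24) : Equiv.Perm Cfsg.GolayPt) • T = T := by
  haveI : Fact (Nat.Prime 7) := ⟨by norm_num⟩
  have hXM := x_facts.2.1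
  set x0 : ↥Cfsg.M24 := ⟨X, hXM⟩ with hx0
  have hox : orderOf x0 = 7 := by rw [← Subgroup.orderOf_coe]; exact x_facts.2.2.1
  have f7 : (Nat.card ↥Cfsg.M24).factorization 7 = 1 := by
    rw [card_M24]
    refine le_antisymm ?_ ((Nat.Prime.pow_dvd_iff_le_factorization (by norm_num) (by norm_num)).1 (by norm_num))
    by_contra h
    have h' := (Nat.Prime.pow_dvd_iff_le_factorization (p := 7) (k := 2) (n := 244823040) (by norm_num) (by norm_num)).2 (by omega)
    norm_num at h'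
  let S0 : Sylow 7 ↥Cfsg.M24 := Sylow.ofCard (Subgroup.zpowers x0) (by rw [Nat.card_zpowers, hox, f7]; rfl)
  let S1 : Sylow 7 ↥Cfsg.M24 := Sylow.ofCard S (by rw [hS, f7]; rfl)
  obtain ⟨g, hg⟩ := MulAction.exists_smul_eq ↥Cfsg.M24 S0 S1
  have hS' : S = (Subgroup.zpowers x0).map (MulAut.conj g).toMonoidHom :=
    (congrArg Sylow.toSubgroup hg).symm
  have key : ∀ (A : Subgroup ↥Cfsg.M24) (B : Subgroup (Equiv.Perm Cfsg.GolayPt)),
      (∀ n : ↥Cfsg.M24, n ∈ A ↔ (((g⁻¹ * n * g : ↥Cfsg.M24)) : Equiv.Perm Cfsg.GolayPt) ∈ B) →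
      B ≤ Cfsg.M24 → Nat.card A = Nat.card B := by
    intro A B h hB
    refine Nat.card_congr
      { toFun := fun n => ⟨_, (h n.1).1 n.2⟩
        invFun := fun b => ⟨g * ⟨b.1, hB b.2⟩ * g⁻¹, (h _).2 (by simpa [mul_assoc] using b.2)⟩
        left_inv := fun n => by ext1; ext1; simp [mul_assoc]
        right_inv := fun b => by ext1; simp [mul_assoc] }
  have hxz : ∀ y : ↥Cfsg.M24, (y : Equiv.Perm Cfsg.GolayPt) ∈ Subgroup.zpowers X ↔ y ∈ Subgroup.zpowers x0 := by
    intro y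
    constructor
    · intro h
      obtain ⟨z, hz⟩ := Subgroup.mem_zpowers_iff.1 h
      exact Subgroup.mem_zpowers_iff.2 ⟨z, Subtype.ext (by rw [SubgroupClass.coe_zpow]; exact hz)⟩
    · intro h
      obtain ⟨z, rfl⟩ := Subgroup.mem_zpowers_iff.1 h
      rw [SubgroupClass.coe_zpow]
      exact Subgroup.zpow_mem _ (Subgroup.mem_zpowers _) _
  have hmS : ∀ y : ↥Cfsg.M24, y ∈ S ↔ g⁻¹ * y * g ∈ Subgroup.zpowers x0 := by
    intro y
    rw [hS', Subgroup.mem_map_equiv, MulAut.conj_symm_apply]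
  have hnorm : ∀ n : ↥Cfsg.M24, n ∈ Subgroup.normalizer (S : Set ↥Cfsg.M24) ↔
      (((g⁻¹ * n * g : ↥Cfsg.M24)) : Equiv.Perm Cfsg.GolayPt) ∈ N0 := by
    intro n
    rw [N0, Subgroup.mem_inf, ← normal7_iff]
    constructor
    · intro h
      refine ⟨(g⁻¹ * n * g).2, ?_⟩
      have hgx : g * x0 * g⁻¹ ∈ S := (hmS _).2 (by simp [mul_assoc])
      have h1 := (hxz _).2 ((hmS _).1 ((Subgroup.mem_normalizer_iff.1 h _).1 hgx))
      unfold Normal7
      simpa [hx0, mul_assoc] using h1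
    · rintro ⟨-, h⟩
      refine Subgroup.mem_normalizer_fintype fun y hy => ?_
      rw [SetLike.mem_coe, hmS] at hy ⊢
      rw [← hxz] at hy ⊢
      have h2 := (Subgroup.mem_normalizer_iff.1 (normal7_iff.1 h) _).1 hy
      simpa [mul_assoc] using h2
  have hcent : ∀ n : ↥Cfsg.M24, n ∈ Subgroup.centralizer (S : Set ↥Cfsg.M24) ↔
      (((g⁻¹ * n * g : ↥Cfsg.M24)) : Equiv.Perm Cfsg.GolayPt) ∈
        Cfsg.M24 ⊓ Subgroup.centralizer ({X} : Set (Equiv.Perm Cfsg.GolayPt)) := by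
    intro n
    rw [Subgroup.mem_inf, Subgroup.mem_centralizer_singleton_iff]
    constructor
    · intro h
      refine ⟨(g⁻¹ * n * g).2, ?_⟩
      have hgx : g * x0 * g⁻¹ ∈ S := (hmS _).2 (by simp [mul_assoc])
      have h1 := Subgroup.mem_centralizer_iff.1 h _ hgx
      have h2 := congrArg (fun y : ↥Cfsg.M24 => ((g⁻¹ * y * g : ↥Cfsg.M24) : Equiv.Perm Cfsg.GolayPt)) h1
      simp [hx0, mul_assoc] at h2
      simpa [mul_assoc] using h2.symm
    · rintro ⟨-, h⟩
      rw [Subgroup.mem_centralizer_iff]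
      intro y hy
      rw [SetLike.mem_coe, hmS] at hy
      obtain ⟨z, hz⟩ := Subgroup.mem_zpowers_iff.1 hy
      have hc : Commute (g⁻¹ * n * g) x0 := Subtype.ext h
      have h3 := (hc.zpow_right z).eq
      rw [hz] at h3
      have h4 := congrArg (fun y => g * y * g⁻¹) h3
      simpa [mul_assoc] using h4.symm
  refine ⟨(key _ _ hnorm inf_le_left).trans card_N0, (key _ _ hcent inf_le_left).trans card_C0.1, ?_,
    (g : Equiv.Perm Cfsg.GolayPt) • fam OrdSeven.trio, ?_, fun n hn => ?_⟩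
  · obtain ⟨a, ha, b, hb, hab⟩ := card_C0.2
    refine ⟨g * ⟨a, ha.1⟩ * g⁻¹, (hcent _).2 (by simpa [mul_assoc] using ha),
      g * ⟨b, hb.1⟩ * g⁻¹, (hcent _).2 (by simpa [mul_assoc] using hb), fun e => hab ?_⟩
    have e2 := congrArg (fun y : ↥Cfsg.M24 => ((g⁻¹ * y * g : ↥Cfsg.M24) : Equiv.Perm Cfsg.GolayPt)) e
    simpa [mul_assoc] using e2
  · exact smul_mem_trios g.2 (trioL_spec trio_ok)
  · have h := N0_trio _ ((hnorm n).1 hn)
    simp only [Subgroup.coe_mul, Subgroup.coe_inv, mul_smul, inv_smul_eq_iff] at h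
    exact h

end Cfsg.Agent.S5604
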