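import Cfsg.Statements.S5605
import Cfsg.Agent.Golay.FixCounts
import Mathlib
open CfsgLib.Golay CfsgLib.Golay.Suborb
open scoped Pointwise

set_option autoImplicit false
open scoped Pointwise
open Cfsg

namespace Cfsg.Agent.S5605

/-- An involution of the group of the length-24 code with exactly 8 fixed points maps to themselves exactly 71 octads, exactly 99 trios and exactly 91 sextets. -/
theorem result (g : Equiv.Perm Cfsg.GolayPt) (hg : g ∈ Cfsg.M24) (h₂ : orderOf g = 2) (h₈ : (Finset.univ.filter fun p => g p = p).card = 8) : {o : Finset Cfsg.GolayPt | o ∈ Cfsg.octads ∧ g • o = o}.ncard = 71 ∧ {T : Finset (Finset Cfsg.GolayPt) | T ∈ Cfsg.trios ∧ g • T = T}.ncard = 99 ∧ {S : Finset (Finset Cfsg.GolayPt) | S ∈ Cfsg.sextets ∧ g • S = S}.ncard = 91 := by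
  obtain ⟨k, hk, b, rfl, g8, g0⟩ := Invol.fixed_cases hg h₂
  have hb : b = true := by
    cases b
    · exfalso
      have := g0 rfl
      obtain ⟨p, hp⟩ := Finset.card_pos.1 (by omega : 0 < (Finset.univ.filter fun p =>
        (k * permOf (Invol.repOf false) * k⁻¹) p = p).card)
      exact this p (Finset.mem_filter.1 hp).2
    · rfl
  subst hb
  have hv := (Invol.permOf_rep true).1
  refine ⟨?_, ?_, ?_⟩
  · exact (ncard_fixed_conj (S := Cfsg.octads) (fun σ hσ o ho => smul_mem_octads hσ ho) hk _).trans ((ncard_fixed_words 8 hv).trans FixCounts.oct_0)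
  · exact (ncard_fixed_conj (S := Cfsg.trios) (fun σ hσ X hX => smul_mem_trios hσ hX) hk _).trans ((ncard_fixed_fams trios_enum hv).trans FixCounts.trio_0)
  · exact (ncard_fixed_conj (S := Cfsg.sextets) (fun σ hσ X hX => smul_mem_sextets hσ hX) hk _).trans ((ncard_fixed_fams sextets_enum hv).trans FixCounts.sex_0)

end Cfsg.Agent.S5605
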