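import Cfsg.Statements.S5606
import Cfsg.Agent.Golay.FixCounts
import Mathlib
open CfsgLib.Golay CfsgLib.Golay.Suborb
open scoped Pointwise

set_option autoImplicit false
open scoped Pointwise
open Cfsg

namespace Cfsg.Agent.S5606

/-- A fixed-point-free involution of the group of the length-24 code maps to themselves exactly 15 octads, exactly 75 trios and exactly 51 sextets. -/
theorem result (g : Equiv.Perm Cfsg.GolayPt) (hg : g ∈ Cfsg.M24) (h₂ : orderOf g = 2) (h₀ : ∀ p, g p ≠ p) : {o : Finset Cfsg.GolayPt | o ∈ Cfsg.octads ∧ g • o = o}.ncard = 15 ∧ {T : Finset (Finset Cfsg.GolayPt) | T ∈ Cfsg.trios ∧ g • T = T}.ncard = 75 ∧ {S : Finset (Finset Cfsg.GolayPt) | S ∈ Cfsg.sextets ∧ g • S = S}.ncard = 51 := by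
  obtain ⟨k, hk, b, rfl, g8, g0⟩ := Invol.fixed_cases hg h₂
  have hb : b = false := by
    cases b
    · rfl
    · exfalso
      obtain ⟨p, hp⟩ := Finset.card_pos.1 (by rw [card_of_mem_octads (g8 rfl)]; omega : 0 < (Finset.univ.filter fun p =>
        (k * permOf (Invol.repOf true) * k⁻¹) p = p).card)
      exact h₀ p (Finset.mem_filter.1 hp).2
  subst hb
  have hv := (Invol.permOf_rep false).1
  refine ⟨?_, ?_, ?_⟩
  · exact (ncard_fixed_conj (S := Cfsg.octads) (fun σ hσ o ho => smul_mem_octads hσ ho) hk _).trans ((ncard_fixed_words 8 hv).trans FixCounts.oct_1)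
  · exact (ncard_fixed_conj (S := Cfsg.trios) (fun σ hσ X hX => smul_mem_trios hσ hX) hk _).trans ((ncard_fixed_fams trios_enum hv).trans FixCounts.trio_1)
  · exact (ncard_fixed_conj (S := Cfsg.sextets) (fun σ hσ X hX => smul_mem_sextets hσ hX) hk _).trans ((ncard_fixed_fams sextets_enum hv).trans FixCounts.sex_1)

end Cfsg.Agent.S5606
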