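import Cfsg.Statements.S5608
import Cfsg.Agent.Golay.FixCounts
import Mathlib
open CfsgLib.Golay CfsgLib.Golay.Suborb
open scoped Pointwise

set_option autoImplicit false
open scoped Pointwise
open Cfsg

namespace Cfsg.Agent.S5608

/-- If an element of order 3 and an involution of the group of the length-24 code commute, then either the element of order 3 has exactly 6 fixed points and the involution exactly 8, or both are fixed-point-free. -/
theorem result (x s : Equiv.Perm Cfsg.GolayPt) (hx : x ∈ Cfsg.M24) (hs : s ∈ Cfsg.M24) (h₃ : orderOf x = 3) (h₂ : orderOf s = 2) (hc : Commute x s) : ((Finset.univ.filter fun p => x p = p).card = 6 ∧ (Finset.univ.filter fun p => s p = p).card = 8) ∨ ((Finset.univ.filter fun p => x p = p).card = 0 ∧ (Finset.univ.filter fun p => s p = p).card = 0) := by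
  obtain ⟨k, hk, b, hse, g8, g0⟩ := Invol.fixed_cases hs h₂
  cases b
  · right
    refine ⟨?_, by rw [Finset.card_eq_zero, Finset.filter_eq_empty_iff]; exact fun p _ => g0 rfl p⟩
    rcases Ord3.fix_card_cases hx h₃ with h | h
    · exact absurd h (Ord3.no_six_fpf hx hs h₃ h₂ hc (g0 rfl))
    · exact h
  · left
    refine ⟨?_, card_of_mem_octads (g8 rfl)⟩
    rcases Ord3.fix_card_cases hx h₃ with h | h
    · exact h
    exfalso
    -- `x` would act without fixed points on the eight fixed points of `s`
    have hinv : ∀ p, s p = p ↔ s (x p) = x p := by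
      intro p
      have e : s (x p) = x (s p) := by rw [← Equiv.Perm.mul_apply, ← hc.eq, Equiv.Perm.mul_apply]
      rw [e]
      exact ⟨fun h => by rw [h], fun h => x.injective h⟩
    let y : Equiv.Perm {p // s p = p} := x.subtypePerm fun p => (hinv p).symm
    have h8 : Fintype.card {p // s p = p} = 8 := by
      rw [Fintype.card_subtype]
      exact card_of_mem_octads (g8 rfl)
    have hy : y ^ 3 ^ 1 = 1 := by
      refine Equiv.ext fun p => Subtype.ext ?_
      have hx3 : x ^ 3 = 1 := by rw [← h₃]; exact pow_orderOf_eq_one x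
      simp [y, Equiv.Perm.subtypePerm_pow, hx3]
    obtain ⟨p, hp⟩ := Equiv.Perm.exists_fixed_point_of_prime (p := 3) (n := 1) (by rw [h8]; omega) hy
    have hxp : x p.1 = p.1 := congrArg Subtype.val hp
    have hmem : p.1 ∈ Ord3.fixSet x := Finset.mem_filter.2 ⟨Finset.mem_univ _, hxp⟩
    rw [Finset.card_eq_zero.1 h] at hmem
    exact absurd hmem (Finset.notMem_empty _)

end Cfsg.Agent.S5608
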