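import Cfsg.Statements.S5609
import Cfsg.Agent.Golay.OctStab
import Mathlib
open CfsgLib.Golay
open scoped Pointwise

set_option autoImplicit false
open scoped Pointwise
open Cfsg

namespace Cfsg.Agent.S5609

/-- In the graph on the 759 octads of the length-24 code in which two octads are adjacent when they are disjoint, the graph is connected (of diameter 3) and two distinct octads are at distance 1, 2 or 3 exactly when they meet in 0, 4 or 2 points respectively. -/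
theorem result (o o' : Finset Cfsg.GolayPt) (ho : o ∈ Cfsg.octads) (ho' : o' ∈ Cfsg.octads) (hne : o ≠ o') : (Cfsg.blockGraph Cfsg.octads).Connected ∧ ((Cfsg.blockGraph Cfsg.octads).dist ⟨o, ho⟩ ⟨o', ho'⟩ = 1 ↔ (o ∩ o').card = 0) ∧ ((Cfsg.blockGraph Cfsg.octads).dist ⟨o, ho⟩ ⟨o', ho'⟩ = 2 ↔ (o ∩ o').card = 4) ∧ ((Cfsg.blockGraph Cfsg.octads).dist ⟨o, ho⟩ ⟨o', ho'⟩ = 3 ↔ (o ∩ o').card = 2) := by
  classical
  let G := Cfsg.blockGraph Cfsg.octads
  have hadj : ∀ {u v : Finset Cfsg.GolayPt} (hu : u ∈ Cfsg.octads) (hv : v ∈ Cfsg.octads),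
      G.Adj ⟨u, hu⟩ ⟨v, hv⟩ ↔ (u ∩ v).card = 0 := by
    intro u v hu hv
    simp only [G, Cfsg.blockGraph, SimpleGraph.fromRel_adj]
    rw [Finset.card_eq_zero, ← Finset.disjoint_iff_inter_eq_empty]
    refine ⟨fun h => h.2.elim (fun x => x) (fun x => x.symm), fun h => ⟨fun e => ?_, Or.inl h⟩⟩
    simp only [Subtype.mk.injEq] at e
    subst e
    rw [disjoint_self, Finset.bot_eq_empty] at h
    have := card_of_mem_octads hu
    simp [h] at this
  have mem0 : ∀ v ∈ octList, ∃ u : Finset Cfsg.GolayPt, u ∈ Cfsg.octads ∧ mask u = v := fun v hv =>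
    ⟨toSet v, mem_octads_iff.2 (by rwa [mask_toSet (mem_wtList.1 hv).2.1]), mask_toSet (mem_wtList.1 hv).2.1⟩
  have inter0 : ∀ u v : Finset Cfsg.GolayPt, (u ∩ v).card = 0 ↔ mask u &&& mask v = 0 := fun u v => by
    rw [← mask_inter, Finset.card_eq_zero, ← mask_empty, mask_injective.eq_iff]
  -- the two reference octads
  let R4 : Finset Cfsg.GolayPt := toSet 8966165
  let R2 : Finset Cfsg.GolayPt := toSet 13062145
  have R4_mem : R4 ∈ Cfsg.octads := by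
    rw [mem_octads_iff, mask_toSet (by omega), mem_wtList]
    exact ⟨by decide +kernel, by omega, by decide +kernel⟩
  have R2_mem : R2 ∈ Cfsg.octads := by
    rw [mem_octads_iff, mask_toSet (by omega), mem_wtList]
    exact ⟨by decide +kernel, by omega, by decide +kernel⟩
  have move : ∀ {u v : Finset Cfsg.GolayPt}, u ∈ Cfsg.octads → v ∈ Cfsg.octads →
      ∀ R ∈ Cfsg.octads, (u ∩ v).card = (OctStab.O ∩ R).card →
      ∃ σ ∈ Cfsg.M24, σ • u = OctStab.O ∧ σ • v = R := by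
    intro u v hu hv R hR h
    obtain ⟨g, hg, e⟩ := exists_map_octad hu OctStab.O_mem
    obtain ⟨σ, hσ, hO, e'⟩ := OctStab.transOct (smul_mem_octads hg hv) hR (by
      rw [← e, ← Finset.smul_finset_inter, Finset.card_smul_finset, h, e])
    exact ⟨σ * g, mul_mem hσ hg, by rw [mul_smul, e, hO], by rw [mul_smul, e']⟩
  have back : ∀ {σ : Equiv.Perm Cfsg.GolayPt} (u v : Finset Cfsg.GolayPt),
      (σ • u ∩ σ • v).card = (u ∩ v).card :=
    fun u v => by rw [← Finset.smul_finset_inter, Finset.card_smul_finset]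
  -- distance two
  have path2 : ∀ {u v} (hu : u ∈ Cfsg.octads) (hv : v ∈ Cfsg.octads), (u ∩ v).card = 4 →
      ∃ w, ∃ hw : w ∈ Cfsg.octads, G.Adj ⟨u, hu⟩ ⟨w, hw⟩ ∧ G.Adj ⟨w, hw⟩ ⟨v, hv⟩ := by
    intro u v hu hv h
    obtain ⟨σ, hσ, e1, e2⟩ := move hu hv R4 R4_mem (h.trans (by decide +kernel))
    have hex : (octList.any fun w => Nat.beq (octO &&& w) 0 && Nat.beq (w &&& 8966165) 0) = true := by
      decide +kernel
    obtain ⟨w, hw, hb⟩ := List.any_eq_true.1 hex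
    rw [Bool.and_eq_true, Nat.beq_eq, Nat.beq_eq] at hb
    obtain ⟨W, hW, rfl⟩ := mem0 w hw
    refine ⟨σ⁻¹ • W, smul_mem_octads (inv_mem hσ) hW, ?_, ?_⟩
    · rw [hadj, ← back (σ := σ), e1, smul_inv_smul, inter0, mask_toSet OctStab.octO_lt]; exact hb.1
    · rw [hadj, ← back (σ := σ), smul_inv_smul, e2, inter0, mask_toSet (show 8966165 < 2 ^ 24 by omega)]; exact hb.2
  have path3 : ∀ {u v} (hu : u ∈ Cfsg.octads) (hv : v ∈ Cfsg.octads), (u ∩ v).card = 2 →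
      (∃ w z, ∃ hw : w ∈ Cfsg.octads, ∃ hz : z ∈ Cfsg.octads,
        G.Adj ⟨u, hu⟩ ⟨w, hw⟩ ∧ G.Adj ⟨w, hw⟩ ⟨z, hz⟩ ∧ G.Adj ⟨z, hz⟩ ⟨v, hv⟩) ∧
      ¬ ∃ w, ∃ hw : w ∈ Cfsg.octads, G.Adj ⟨u, hu⟩ ⟨w, hw⟩ ∧ G.Adj ⟨w, hw⟩ ⟨v, hv⟩ := by
    intro u v hu hv h
    obtain ⟨σ, hσ, e1, e2⟩ := move hu hv R2 R2_mem (h.trans (by decide +kernel))
    have hex : ((octList.filter fun w => Nat.beq (octO &&& w) 0).any fun w =>
        (octList.filter fun z => Nat.beq (z &&& 13062145) 0).any fun z => Nat.beq (w &&& z) 0) = true := by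
      decide +kernel
    obtain ⟨w, hw, hb⟩ := List.any_eq_true.1 hex
    obtain ⟨hw, hw0⟩ := List.mem_filter.1 hw
    obtain ⟨z, hz, hwz⟩ := List.any_eq_true.1 hb
    obtain ⟨hz, hz0⟩ := List.mem_filter.1 hz
    rw [Nat.beq_eq] at hw0 hz0 hwz
    obtain ⟨W, hW, rfl⟩ := mem0 w hw
    obtain ⟨Z, hZ, rfl⟩ := mem0 z hz
    refine ⟨⟨σ⁻¹ • W, σ⁻¹ • Z, smul_mem_octads (inv_mem hσ) hW, smul_mem_octads (inv_mem hσ) hZ, ?_, ?_, ?_⟩, ?_⟩
    · rw [hadj, ← back (σ := σ), e1, smul_inv_smul, inter0, mask_toSet OctStab.octO_lt]; exact hw0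
    · rw [hadj, ← back (σ := σ), smul_inv_smul, smul_inv_smul, inter0]; exact hwz
    · rw [hadj, ← back (σ := σ), smul_inv_smul, e2, inter0, mask_toSet (show 13062145 < 2 ^ 24 by omega)]; exact hz0
    · rintro ⟨W, hW, a1, a2⟩
      rw [hadj, ← back (σ := σ), e1, inter0, mask_toSet OctStab.octO_lt] at a1
      rw [hadj, ← back (σ := σ), e2, inter0, mask_toSet (show 13062145 < 2 ^ 24 by omega)] at a2
      have hno : (octList.all fun w => !(Nat.beq (octO &&& w) 0 && Nat.beq (w &&& 13062145) 0)) = true := by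
        decide +kernel
      have := List.all_eq_true.1 hno _ (mem_octads_iff.1 (smul_mem_octads hσ hW))
      simp [a1, a2] at this
  have dist : ∀ {u v} (hu : u ∈ Cfsg.octads) (hv : v ∈ Cfsg.octads), u ≠ v →
      G.Reachable ⟨u, hu⟩ ⟨v, hv⟩ ∧
      (((u ∩ v).card = 0 ∧ G.dist ⟨u, hu⟩ ⟨v, hv⟩ = 1) ∨
       ((u ∩ v).card = 4 ∧ G.dist ⟨u, hu⟩ ⟨v, hv⟩ = 2) ∨
       ((u ∩ v).card = 2 ∧ G.dist ⟨u, hu⟩ ⟨v, hv⟩ = 3)) := by
    intro u v hu hv huv
    have nn : (⟨u, hu⟩ : Cfsg.octads) ≠ ⟨v, hv⟩ := fun e => huv (congrArg Subtype.val e)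
    rcases OctStab.inter_cases hu hv with h | h | h | h
    · exact absurd ((Finset.eq_of_subset_of_card_le (s := u ∩ v) Finset.inter_subset_left
        (by rw [card_of_mem_octads hu]; omega)).symm.trans
        (Finset.eq_of_subset_of_card_le (s := u ∩ v) Finset.inter_subset_right
        (by rw [card_of_mem_octads hv]; omega))) huv
    · obtain ⟨w, hw, a1, a2⟩ := path2 hu hv h
      have r : G.Reachable ⟨u, hu⟩ ⟨v, hv⟩ := a1.reachable.trans a2.reachable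
      refine ⟨r, Or.inr (Or.inl ⟨h, ?_⟩)⟩
      have hle : G.dist ⟨u, hu⟩ ⟨v, hv⟩ ≤ 2 :=
        SimpleGraph.dist_le (SimpleGraph.Walk.cons a1 (SimpleGraph.Walk.cons a2 .nil))
      have h1 : G.dist ⟨u, hu⟩ ⟨v, hv⟩ ≠ 1 := fun e => by
        rw [SimpleGraph.dist_eq_one_iff_adj, hadj] at e; omega
      have := r.pos_dist_of_ne nn
      omega
    · obtain ⟨⟨w, z, hw, hz, a1, a2, a3⟩, no⟩ := path3 hu hv h
      have r : G.Reachable ⟨u, hu⟩ ⟨v, hv⟩ := a1.reachable.trans (a2.reachable.trans a3.reachable)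
      refine ⟨r, Or.inr (Or.inr ⟨h, ?_⟩)⟩
      have hle : G.dist ⟨u, hu⟩ ⟨v, hv⟩ ≤ 3 := SimpleGraph.dist_le
        (SimpleGraph.Walk.cons a1 (SimpleGraph.Walk.cons a2 (SimpleGraph.Walk.cons a3 .nil)))
      have h1 : G.dist ⟨u, hu⟩ ⟨v, hv⟩ ≠ 1 := fun e => by
        rw [SimpleGraph.dist_eq_one_iff_adj, hadj] at e; omega
      have h2 : G.dist ⟨u, hu⟩ ⟨v, hv⟩ ≠ 2 := fun e => by
        obtain ⟨p, hp⟩ := r.exists_walk_length_eq_dist
        rw [e] at hp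
        have b1 := p.adj_getVert_succ (i := 0) (by omega)
        have b2 := p.adj_getVert_succ (i := 1) (by omega)
        rw [SimpleGraph.Walk.getVert_zero] at b1
        rw [show 1 + 1 = p.length by omega, SimpleGraph.Walk.getVert_length] at b2
        exact no ⟨_, (p.getVert 1).2, b1, b2⟩
      have := r.pos_dist_of_ne nn
      omega
    · have a := (hadj hu hv).2 h
      exact ⟨a.reachable, Or.inl ⟨h, SimpleGraph.dist_eq_one_iff_adj.2 a⟩⟩
  obtain ⟨-, hd⟩ := dist ho ho' hne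
  refine ⟨{ preconnected := fun a b => ?_, nonempty := ⟨⟨o, ho⟩⟩ }, ?_⟩
  · by_cases e : a = b
    · exact e ▸ SimpleGraph.Reachable.refl a
    · exact (dist a.2 b.2 fun h => e (Subtype.ext h)).1
  rcases hd with ⟨h, e⟩ | ⟨h, e⟩ | ⟨h, e⟩ <;> simp only [G] at e <;> rw [e, h] <;> decide

end Cfsg.Agent.S5609
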