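import Cfsg.Statements.S5610
import Cfsg.Agent.Golay.SuborbApp
import Mathlib
open CfsgLib.Golay CfsgLib.Golay.Suborb
open scoped Pointwise

set_option autoImplicit false
open scoped Pointwise
open Cfsg

namespace Cfsg.Agent.S5610

/-- The stabiliser of an octad in the group of the length-24 code has exactly three orbits on the 3795 trios, of sizes 15, 420 and 3360, and exactly three orbits on the 1771 sextets, of sizes 35, 840 and 896. -/
theorem result (o : Finset Cfsg.GolayPt) (ho : o ∈ Cfsg.octads) : (∃ X₁ ∈ Cfsg.trios, ∃ X₂ ∈ Cfsg.trios, ∃ X₃ ∈ Cfsg.trios, (MulAction.orbit ↥(MulAction.stabilizer Cfsg.M24 o) X₁).ncard = 15 ∧ (MulAction.orbit ↥(MulAction.stabilizer Cfsg.M24 o) X₂).ncard = 420 ∧ (MulAction.orbit ↥(MulAction.stabilizer Cfsg.M24 o) X₃).ncard = 3360 ∧ Cfsg.trios = MulAction.orbit ↥(MulAction.stabilizer Cfsg.M24 o) X₁ ∪ MulAction.orbit ↥(MulAction.stabilizer Cfsg.M24 o) X₂ ∪ MulAction.orbit ↥(MulAction.stabilizer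 Cfsg.M24 o) X₃) ∧ (∃ Y₁ ∈ Cfsg.sextets, ∃ Y₂ ∈ Cfsg.sextets, ∃ Y₃ ∈ Cfsg.sextets, (MulAction.orbit ↥(MulAction.stabilizer Cfsg.M24 o) Y₁).ncard = 35 ∧ (MulAction.orbit ↥(MulAction.stabilizer Cfsg.M24 o) Y₂).ncard = 840 ∧ (MulAction.orbit ↥(MulAction.stabilizer Cfsg.M24 o) Y₃).ncard = 896 ∧ Cfsg.sextets = MulAction.orbit ↥(MulAction.stabilizer Cfsg.M24 o) Y₁ ∪ MulAction.orbit ↥(MulAction.stabilizer Cfsg.M24 o) Y₂ ∪ MulAction.orbit ↥(MulAction.stabilizer Cfsg.M24 o) Y₃) := by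
  have P := at_octad (b := 8391797) (by decide +kernel) specOctTrio ho
  have R := at_octad (b := 8391797) (by decide +kernel) specOctSex ho
  rw [← stabilizer_singleton]
  constructor
  · obtain ⟨X₁, h₁, v₁, n₁⟩ := P.ncard_orbit (e := (4096, 15)) (by decide) (by decide)
    obtain ⟨X₂, h₂, v₂, n₂⟩ := P.ncard_orbit (e := (512, 420)) (by decide) (by decide)
    obtain ⟨X₃, h₃, v₃, n₃⟩ := P.ncard_orbit (e := (288, 3360)) (by decide) (by decide)
    refine ⟨X₁, h₁, X₂, h₂, X₃, h₃, n₁, n₂, n₃, ?_⟩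
    rw [P.orbit_eq h₁, P.orbit_eq h₂, P.orbit_eq h₃]
    simp only [v₁, v₂, v₃]
    ext Y
    refine ⟨fun hY => ?_, fun h => by rcases h with (h | h) | h <;> exact h.1⟩
    have := P.cover Y hY
    simp only [OctTrio.table, List.map_cons, List.map_nil, List.mem_cons, List.not_mem_nil, or_false] at this
    rcases this with e | e | e
    · exact Or.inl (Or.inl ⟨hY, e⟩)
    · exact Or.inl (Or.inr ⟨hY, e⟩)
    · exact Or.inr ⟨hY, e⟩
  · obtain ⟨X₁, h₁, v₁, n₁⟩ := R.ncard_orbit (e := (512, 35)) (by decide) (by decide)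
    obtain ⟨X₂, h₂, v₂, n₂⟩ := R.ncard_orbit (e := (64, 840)) (by decide) (by decide)
    obtain ⟨X₃, h₃, v₃, n₃⟩ := R.ncard_orbit (e := (86, 896)) (by decide) (by decide)
    refine ⟨X₁, h₁, X₂, h₂, X₃, h₃, n₁, n₂, n₃, ?_⟩
    rw [R.orbit_eq h₁, R.orbit_eq h₂, R.orbit_eq h₃]
    simp only [v₁, v₂, v₃]
    ext Y
    refine ⟨fun hY => ?_, fun h => by rcases h with (h | h) | h <;> exact h.1⟩
    have := R.cover Y hY
    simp only [OctSex.table, List.map_cons, List.map_nil, List.mem_cons, List.not_mem_nil, or_false] at this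
    rcases this with e | e | e
    · exact Or.inl (Or.inl ⟨hY, e⟩)
    · exact Or.inl (Or.inr ⟨hY, e⟩)
    · exact Or.inr ⟨hY, e⟩

end Cfsg.Agent.S5610
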