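import Cfsg.Statements.S5611
import Cfsg.Agent.Golay.SuborbApp
import Mathlib
open CfsgLib.Golay CfsgLib.Golay.Suborb
open scoped Pointwise

set_option autoImplicit false
open scoped Pointwise
open Cfsg

namespace Cfsg.Agent.S5611

/-- The stabiliser of a sextet in the group of the length-24 code has exactly three orbits on the 759 octads, of sizes 15, 360 and 384, and exactly four orbits on the 3795 trios, of sizes 15, 180, 720 and 2880. -/
theorem result (S : Finset (Finset Cfsg.GolayPt)) (hS : S ∈ Cfsg.sextets) : (∃ X₁ ∈ Cfsg.octads, ∃ X₂ ∈ Cfsg.octads, ∃ X₃ ∈ Cfsg.octads, (MulAction.orbit ↥(MulAction.stabilizer Cfsg.M24 S) X₁).ncard = 15 ∧ (MulAction.orbit ↥(MulAction.stabilizer Cfsg.M24 S) X₂).ncard = 360 ∧ (MulAction.orbit ↥(MulAction.stabilizer Cfsg.M24 S) X₃).ncard = 384 ∧ Cfsg.octads = MulAction.orbit ↥(MulAction.stabilizer Cfsg.M24 S) X₁ ∪ MulAction.orbit ↥(MulAction.stabilizer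 Cfsg.M24 S) X₂ ∪ MulAction.orbit ↥(MulAction.stabilizer Cfsg.M24 S) X₃) ∧ (∃ Y₁ ∈ Cfsg.trios, ∃ Y₂ ∈ Cfsg.trios, ∃ Y₃ ∈ Cfsg.trios, ∃ Y₄ ∈ Cfsg.trios, (MulAction.orbit ↥(MulAction.stabilizer Cfsg.M24 S) Y₁).ncard = 15 ∧ (MulAction.orbit ↥(MulAction.stabilizer Cfsg.M24 S) Y₂).ncard = 180 ∧ (MulAction.orbit ↥(MulAction.stabilizer Cfsg.M24 S) Y₃).ncard = 720 ∧ (MulAction.orbit ↥(MulAction.stabilizer Cfsg.M24 S) Y₄).ncard = 2880 ∧ Cfsg.trios = MulAction.orbit ↥(MulAction.stabilizer Cfsg.M24 S) Y₁ ∪ MulAction.orbit ↥(MulAction.stabilizer Cfsg.M24 S) Y₂ ∪ MulAction.orbit ↥(MulAction.stabilizer Cfsg.M24 S) Y₃ ∪ MulAction.orbit ↥(MulAction.stabilizer Cfsg.M24 S) Y₄) := by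
  have P := at_sextet (b := SexOct.base) (by decide +kernel) specSexOct hS
  have R := at_sextet (b := SexTrio.base) (by decide +kernel) specSexTrio hS
  constructor
  · obtain ⟨_, ⟨X₁, ⟨g₁, -⟩, rfl⟩, v₁, n₁⟩ := P.ncard_orbit (e := (512, 15)) (by decide) (by decide)
    obtain ⟨_, ⟨X₂, ⟨g₂, -⟩, rfl⟩, v₂, n₂⟩ := P.ncard_orbit (e := (64, 360)) (by decide) (by decide)
    obtain ⟨_, ⟨X₃, ⟨g₃, -⟩, rfl⟩, v₃, n₃⟩ := P.ncard_orbit (e := (86, 384)) (by decide) (by decide)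
    rw [ncard_orbit_singleton] at n₁ n₂ n₃
    refine ⟨X₁, g₁, X₂, g₂, X₃, g₃, n₁, n₂, n₃, ?_⟩
    apply Set.image_injective.2 Finset.singleton_injective
    rw [Set.image_union, Set.image_union, ← orbit_singleton, ← orbit_singleton, ← orbit_singleton,
      P.orbit_eq (KOct_mem.2 ⟨g₁, trivial⟩), P.orbit_eq (KOct_mem.2 ⟨g₂, trivial⟩),
      P.orbit_eq (KOct_mem.2 ⟨g₃, trivial⟩)]
    simp only [v₁, v₂, v₃]
    ext Y
    refine ⟨fun hY => ?_, fun h => ?_⟩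
    · obtain ⟨y, hy, rfl⟩ := hY
      have hm := (KOct_mem (P := allO) (A := S) (x := y)).2 ⟨hy, trivial⟩
      have := P.cover _ hm
      simp only [SexOct.table, List.map_cons, List.map_nil, List.mem_cons, List.not_mem_nil, or_false] at this
      rcases this with e | e | e
      · exact Or.inl (Or.inl ⟨hm, e⟩)
      · exact Or.inl (Or.inr ⟨hm, e⟩)
      · exact Or.inr ⟨hm, e⟩
    · rcases h with (h | h) | h <;> obtain ⟨⟨y, hy, rfl⟩, -⟩ := h <;> exact ⟨y, hy.1, rfl⟩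
  · obtain ⟨X₁, h₁, v₁, n₁⟩ := R.ncard_orbit (e := (1536, 15)) (by decide) (by decide)
    obtain ⟨X₂, h₂, v₂, n₂⟩ := R.ncard_orbit (e := (640, 180)) (by decide) (by decide)
    obtain ⟨X₃, h₃, v₃, n₃⟩ := R.ncard_orbit (e := (192, 720)) (by decide) (by decide)
    obtain ⟨X₄, h₄, v₄, n₄⟩ := R.ncard_orbit (e := (236, 2880)) (by decide) (by decide)
    refine ⟨X₁, h₁, X₂, h₂, X₃, h₃, X₄, h₄, n₁, n₂, n₃, n₄, ?_⟩
    rw [R.orbit_eq h₁, R.orbit_eq h₂, R.orbit_eq h₃, R.orbit_eq h₄]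
    simp only [v₁, v₂, v₃, v₄]
    ext Y
    refine ⟨fun hY => ?_, fun h => by rcases h with ((h | h) | h) | h <;> exact h.1⟩
    have := R.cover Y hY
    simp only [SexTrio.table, List.map_cons, List.map_nil, List.mem_cons, List.not_mem_nil, or_false] at this
    rcases this with e | e | e | e
    · exact Or.inl (Or.inl (Or.inl ⟨hY, e⟩))
    · exact Or.inl (Or.inl (Or.inr ⟨hY, e⟩))
    · exact Or.inl (Or.inr ⟨hY, e⟩)
    · exact Or.inr ⟨hY, e⟩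

end Cfsg.Agent.S5611
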