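import Cfsg.Statements.S5613
import Cfsg.Agent.Golay.SuborbApp
import Mathlib
open CfsgLib.Golay CfsgLib.Golay.Suborb
open scoped Pointwise

set_option autoImplicit false
open scoped Pointwise
open Cfsg

namespace Cfsg.Agent.S5613

/-- In the group of the length-24 code, the joint stabiliser of two octads has order 10752, 1152 or 720 according as the octads meet in 0, 4 or 2 points. -/
theorem result (o o' : Finset Cfsg.GolayPt) (ho : o ∈ Cfsg.octads) (ho' : o' ∈ Cfsg.octads) : ((o ∩ o').card = 0 → Nat.card ↥(MulAction.stabilizer Cfsg.M24 o ⊓ MulAction.stabilizer Cfsg.M24 o') = 10752) ∧ ((o ∩ o').card = 4 → Nat.card ↥(MulAction.stabilizer Cfsg.M24 o ⊓ MulAction.stabilizer Cfsg.M24 o') = 1152) ∧ ((o ∩ o').card = 2 → Nat.card ↥(MulAction.stabilizer Cfsg.M24 o ⊓ MulAction.stabilizer Cfsg.M24 o') = 720) := by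
  have P := at_octad (b := 8391797) (by decide +kernel) specOctOct ho
  have hX : ({o'} : Fam) ∈ KOct allO ({o} : Fam) := KOct_mem.2 ⟨ho', trivial⟩
  have key : ∀ v n : ℕ, (v, n) ∈ OctOct.table → crossInv ({o} : Fam) {o'} = v →
      n * Nat.card ↥(MulAction.stabilizer Cfsg.M24 o ⊓ MulAction.stabilizer Cfsg.M24 o') = 322560 := by
    intro v n h e
    have := P.card_inf_stab hX (n := n) (by rw [e]; exact h)
    rwa [stabilizer_singleton, stabilizer_singleton, card_stab_octad ho] at this
  refine ⟨fun h => ?_, fun h => ?_, fun h => ?_⟩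
  · have := key 0 30 (by decide) (by rw [crossInv_singleton, h]; norm_num)
    omega
  · have := key 256 280 (by decide) (by rw [crossInv_singleton, h]; norm_num)
    omega
  · have := key 16 448 (by decide) (by rw [crossInv_singleton, h]; norm_num)
    omega

end Cfsg.Agent.S5613
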