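import Cfsg.Statements.S5615
import Cfsg.Agent.Golay.Trio
import Mathlib
open CfsgLib.Golay
open scoped Pointwise

set_option autoImplicit false
open scoped Pointwise
open Cfsg

namespace Cfsg.Agent.S5615

/-- An octad of the length-24 code lies in exactly 15 trios; the stabiliser of the octad in the code's group acts doubly transitively on these 15 trios, and the kernel of this action is the pointwise stabiliser of the octad. -/
theorem result (o : Finset Cfsg.GolayPt) (ho : o ∈ Cfsg.octads) : {T : Finset (Finset Cfsg.GolayPt) | T ∈ Cfsg.trios ∧ o ∈ T}.ncard = 15 ∧ (∀ T₁ T₂ T₁' T₂' : Finset (Finset Cfsg.GolayPt), T₁ ∈ Cfsg.trios → T₂ ∈ Cfsg.trios → T₁' ∈ Cfsg.trios → T₂' ∈ Cfsg.trios → o ∈ T₁ → o ∈ T₂ → o ∈ T₁' → o ∈ T₂' → T₁ ≠ T₂ → T₁' ≠ T₂' → ∃ g ∈ Cfsg.M24, g • o = o ∧ g • T₁ = T₁' ∧ g • T₂ = T₂') ∧ ∀ g ∈ Cfsg.M24, g • o = o → ((∀ T ∈ Cfsg.trios, o ∈ T → g • T = T) ↔ ∀ p ∈ o, g p = p) := by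
  refine ⟨OctStab.ncard_trios_through ho, ?_, ?_⟩
  · intro T₁ T₂ T₁' T₂' h₁ h₂ h₁' h₂' o₁ o₂ o₁' o₂' hne hne'
    obtain ⟨g, hg, e⟩ := exists_map_octad ho OctStab.O_mem
    have up : ∀ T : Finset (Finset Cfsg.GolayPt), o ∈ T → OctStab.O ∈ g • T := fun T h =>
      e ▸ Finset.smul_mem_smul_finset h
    obtain ⟨σ, hσ, hO, e1, e2⟩ := OctStab.to_ref_pair (smul_mem_trios hg h₁) (smul_mem_trios hg h₂)
      (up _ o₁) (up _ o₂) fun h => hne (MulAction.injective g h)
    obtain ⟨τ, hτ, hO', e1', e2'⟩ := OctStab.to_ref_pair (smul_mem_trios hg h₁') (smul_mem_trios hg h₂')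
      (up _ o₁') (up _ o₂') fun h => hne' (MulAction.injective g h)
    refine ⟨g⁻¹ * τ⁻¹ * σ * g, mul_mem (mul_mem (mul_mem (inv_mem hg) (inv_mem hτ)) hσ) hg, ?_, ?_, ?_⟩
    · rw [mul_smul, mul_smul, mul_smul, e, hO, inv_smul_eq_iff.2 hO'.symm, ← e, inv_smul_smul]
    · rw [mul_smul, mul_smul, mul_smul, e1, ← e1', inv_smul_smul, inv_smul_smul]
    · rw [mul_smul, mul_smul, mul_smul, e2, ← e2', inv_smul_smul, inv_smul_smul]
  · intro g hg hgo
    obtain ⟨c, hc, rfl⟩ := exists_map_octad OctStab.O_mem ho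
    have hk : (c⁻¹ * g * c) • OctStab.O = OctStab.O := by
      rw [mul_smul, mul_smul, hgo, inv_smul_smul]
    have key := OctStab.fix_trios_iff (mul_mem (mul_mem (inv_mem hc) hg) hc) hk
    constructor
    · intro h p hp
      obtain ⟨q, hq, rfl⟩ := Finset.mem_smul_finset.1 hp
      have := key.1 (fun T hT hO => by
        rw [mul_smul, mul_smul, h (c • T) (smul_mem_trios hc hT) (Finset.smul_mem_smul_finset hO),
          inv_smul_smul]) q hq
      simp only [Equiv.Perm.mul_apply] at this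
      rwa [Equiv.Perm.inv_eq_iff_eq] at this
    · intro h T hT hoT
      have := key.2 (fun p hp => by
        simp only [Equiv.Perm.mul_apply]
        rw [h (c p) (Finset.smul_mem_smul_finset (a := c) hp)]
        simp) (c⁻¹ • T) (smul_mem_trios (inv_mem hc) hT) (Finset.mem_inv_smul_finset_iff.2 hoT)
      rwa [mul_smul, mul_smul, smul_inv_smul, smul_left_cancel_iff] at this

end Cfsg.Agent.S5615
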