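import Cfsg.Statements.S5616
import Cfsg.Agent.Golay.SuborbApp
import Mathlib
open CfsgLib.Golay CfsgLib.Golay.Suborb
open scoped Pointwise

set_option autoImplicit false
open scoped Pointwise
open Cfsg

namespace Cfsg.Agent.S5616

/-- Let Y be a set of 3 of the 24 points. The sextets of the length-24 code whose tetrads meeting Y number 1, 2 or 3 are respectively 21, 630 and 1120 in number, and two sextets with the same number of tetrads meeting Y are conjugate under the setwise stabiliser of Y in the code's group. -/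
theorem result (Y : Finset Cfsg.GolayPt) (hY : Y.card = 3) : {S : Finset (Finset Cfsg.GolayPt) | S ∈ Cfsg.sextets ∧ (S.filter fun t => (t ∩ Y).Nonempty).card = 1}.ncard = 21 ∧ {S : Finset (Finset Cfsg.GolayPt) | S ∈ Cfsg.sextets ∧ (S.filter fun t => (t ∩ Y).Nonempty).card = 2}.ncard = 630 ∧ {S : Finset (Finset Cfsg.GolayPt) | S ∈ Cfsg.sextets ∧ (S.filter fun t => (t ∩ Y).Nonempty).card = 3}.ncard = 1120 ∧ ∀ S S' : Finset (Finset Cfsg.GolayPt), S ∈ Cfsg.sextets → S' ∈ Cfsg.sextets → (S.filter fun t => (t ∩ Y).Nonempty).card = (S'.filter fun t => (t ∩ Y).Nonempty).card → ∃ g ∈ Cfsg.M24, g • Y = Y ∧ g • S = S' := by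
  have P := at_set (b := 8388613) (k := 3) (by omega) (by decide +kernel) specTriSex hY
  have cnt : ∀ v m n : ℕ, (v, n) ∈ TriSex.table →
      ((v = 81 ∧ m = 1) ∨ (v = 17 ∧ m = 2) ∨ (v = 3 ∧ m = 3)) →
      {S : Finset (Finset Cfsg.GolayPt) | S ∈ Cfsg.sextets ∧ (S.filter fun t => (t ∩ Y).Nonempty).card = m}.ncard = n := by
    intro v m n h hvm
    rw [← P.size_value h]
    congr 1
    ext S
    refine and_congr_right fun hS => ?_
    show meetCount Y S = m ↔ crossInv {Y} S = v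
    rcases triSex_meet hY hS with ⟨e, e'⟩ | ⟨e, e'⟩ | ⟨e, e'⟩ <;> omega
  refine ⟨cnt 81 1 21 (by decide) (by omega), cnt 17 2 630 (by decide) (by omega),
    cnt 3 3 1120 (by decide) (by omega), fun S S' hS hS' h => ?_⟩
  have h' : meetCount Y S = meetCount Y S' := h
  obtain ⟨σ, hσ, hA, e⟩ := P.trans S hS S' hS' (by
    rcases triSex_meet hY hS with ⟨a, b⟩ | ⟨a, b⟩ | ⟨a, b⟩ <;>
      rcases triSex_meet hY hS' with ⟨c, d⟩ | ⟨c, d⟩ | ⟨c, d⟩ <;> omega)
  rw [Finset.smul_finset_singleton, Finset.singleton_inj] at hA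
  exact ⟨σ, hσ, hA, e⟩

end Cfsg.Agent.S5616
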