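import Cfsg.Statements.S5617
import Cfsg.Agent.Golay.SuborbApp
import Mathlib
open CfsgLib.Golay CfsgLib.Golay.Suborb
open scoped Pointwise

set_option autoImplicit false
open scoped Pointwise
open Cfsg

namespace Cfsg.Agent.S5617

/-- The setwise stabiliser, in the group of the length-24 code, of a complementary pair of dodecads has exactly three orbits on the 1771 sextets, of sizes 396, 495 and 880. -/
theorem result (d : Finset Cfsg.GolayPt) (hd : d ∈ Cfsg.dodecads) : ∃ X₁ ∈ Cfsg.sextets, ∃ X₂ ∈ Cfsg.sextets, ∃ X₃ ∈ Cfsg.sextets, (MulAction.orbit ↥(MulAction.stabilizer Cfsg.M24 ({d, Finset.univ \ d} : Finset (Finset Cfsg.GolayPt))) X₁).ncard = 396 ∧ (MulAction.orbit ↥(MulAction.stabilizer Cfsg.M24 ({d, Finset.univ \ d} : Finset (Finset Cfsg.GolayPt))) X₂).ncard = 495 ∧ (MulAction.orbit ↥(MulAction.stabilizer Cfsg.M24 ({d, Finset.univ \ d} : Finset (Finset Cfsg.GolayPt))) X₃).ncard = 880 ∧ Cfsg.sextets = MulAction.orbit ↥(MulAction.stabilizer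 Cfsg.M24 ({d, Finset.univ \ d} : Finset (Finset Cfsg.GolayPt))) X₁ ∪ MulAction.orbit ↥(MulAction.stabilizer Cfsg.M24 ({d, Finset.univ \ d} : Finset (Finset Cfsg.GolayPt))) X₂ ∪ MulAction.orbit ↥(MulAction.stabilizer Cfsg.M24 ({d, Finset.univ \ d} : Finset (Finset Cfsg.GolayPt))) X₃ := by
  rw [← Finset.compl_eq_univ_sdiff]
  have P := at_dodPair (b := DodSex.base) (by decide +kernel) specDodSex hd
  obtain ⟨X₁, h₁, v₁, n₁⟩ := P.ncard_orbit (e := (192, 396)) (by decide) (by decide)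
  obtain ⟨X₂, h₂, v₂, n₂⟩ := P.ncard_orbit (e := (640, 495)) (by decide) (by decide)
  obtain ⟨X₃, h₃, v₃, n₃⟩ := P.ncard_orbit (e := (492, 880)) (by decide) (by decide)
  refine ⟨X₁, h₁, X₂, h₂, X₃, h₃, n₁, n₂, n₃, ?_⟩
  rw [P.orbit_eq h₁, P.orbit_eq h₂, P.orbit_eq h₃]
  simp only [v₁, v₂, v₃]
  ext Y
  refine ⟨fun hY => ?_, fun h => by rcases h with (h | h) | h <;> exact h.1⟩
  have := P.cover Y hY
  simp only [DodSex.table, List.map_cons, List.map_nil, List.mem_cons, List.not_mem_nil, or_false] at this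
  rcases this with e | e | e
  · exact Or.inl (Or.inl ⟨hY, e⟩)
  · exact Or.inl (Or.inr ⟨hY, e⟩)
  · exact Or.inr ⟨hY, e⟩

end Cfsg.Agent.S5617
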