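import Cfsg.Statements.S5619
import Cfsg.Agent.MathieuMisc.Transport
import Cfsg.Agent.MathieuMisc.MNine

set_option autoImplicit false
open scoped Pointwise
open Cfsg

namespace Cfsg.Agent.S5619

open CfsgLib.Golay CfsgLib.MathieuTwo CfsgLib.MathieuMisc
open scoped Pointwise

theorem card_K : Nat.card (fixGroup MNine.fixd) = 72 := by
  rw [show MNine.fixd = DodStab.sqD :: (DodStab.inBase.take 3).map fun i => 2 ^ i by decide +kernel]
  exact DodStab.card_chainA.2.2.2.1

theorem mem_K {σ : Equiv.Perm Cfsg.GolayPt} :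
    σ ∈ fixGroup MNine.fixd ↔ σ ∈ Cfsg.M24 ∧ σ • DodStab.D = DodStab.D ∧
      σ (ptN 0) = ptN 0 ∧ σ (ptN 1) = ptN 1 ∧ σ (ptN 2) = ptN 2 := by
  rw [show MNine.fixd = DodStab.sqD :: (DodStab.inBase.take 3).map fun i => 2 ^ i by decide +kernel]
  refine DodStab.mem_chainA.trans ?_
  simp [DodStab.inBase]

theorem code_mul : ∀ g ∈ MNine.gens2, ∀ l ∈ tabs MNine.tree2,
    MNine.code (mulTab g l) = MNine.code g * MNine.code l := by decide +kernel

theorem code_one : MNine.code idT = 1 := by decide +kernel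

theorem code_ker : ∀ l ∈ tabs MNine.tree2, MNine.code l = 1 → l = idT := by decide +kernel

theorem quat : Nonempty (grp MNine.gens2 ≃* QuaternionGroup 2) :=
  exists_equiv MNine.two_ok MNine.code code_one code_mul code_ker
    (by rw [Nat.card_eq_fintype_card, QuaternionGroup.card])

theorem three_normal : ((grp MNine.gens3).subgroupOf (fixGroup MNine.fixd)).Normal := by
  have hle : grp MNine.gens3 ≤ fixGroup MNine.fixd := grp_le MNine.three_ok
  have hN : grp MNine.gens ≤ Subgroup.normalizer ((grp MNine.gens3 : Subgroup _) : Set (Equiv.Perm Cfsg.GolayPt)) := by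
    refine (Subgroup.closure_le _).2 ?_
    rintro _ ⟨g, hg, rfl⟩
    obtain ⟨gv, -, -⟩ := gen_mem MNine.group_ok hg
    refine Subgroup.mem_normalizer_fintype fun q hq => ?_
    rw [SetLike.mem_coe] at hq ⊢
    obtain ⟨l, hl, rfl⟩ := (mem_grp MNine.three_ok).1 hq
    have h := MNine.normal_ok
    simp only [List.all_eq_true, List.any_eq_true, eqTab_iff] at h
    obtain ⟨r, hr, e⟩ := h g hg l hl
    have lv := tab_valid MNine.three_ok hl
    have rv := tab_valid MNine.three_ok hr
    have e' := congrArg permOf e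
    rw [(mulTab_spec gv lv).2, (mulTab_spec rv gv).2] at e'
    rw [e', mul_inv_cancel_right]
    exact tab_mem MNine.three_ok hr
  rw [grp_eq MNine.group_ok (grp_le MNine.group_ok) card_K] at hN
  exact Subgroup.normal_subgroupOf_of_le_normalizer hN


/-- In the group of the length-24 code, the subgroup fixing a dodecad setwise and three of its points individually (a group of order 72) has a normal Sylow 3-subgroup that is elementary abelian of order 9, and its Sylow 2-subgroups are quaternion of order 8. -/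
theorem result (d : Finset Cfsg.GolayPt) (hd : d ∈ Cfsg.dodecads) (p q r : Cfsg.GolayPt) (hp : p ∈ d) (hq : q ∈ d) (hr : r ∈ d) (hpq : p ≠ q) (hpr : p ≠ r) (hqr : q ≠ r) : (∀ Q : Sylow 3 ↥(MulAction.stabilizer Cfsg.M24 d ⊓ MulAction.stabilizer Cfsg.M24 p ⊓ MulAction.stabilizer Cfsg.M24 q ⊓ MulAction.stabilizer Cfsg.M24 r), (Q : Subgroup ↥(MulAction.stabilizer Cfsg.M24 d ⊓ MulAction.stabilizer Cfsg.M24 p ⊓ MulAction.stabilizer Cfsg.M24 q ⊓ MulAction.stabilizer Cfsg.M24 r)).Normal ∧ Nat.card ↥Q = 9 ∧ ∀ x ∈ (Q : Subgroup ↥(MulAction.stabilizer Cfsg.M24 d ⊓ MulAction.stabilizer Cfsg.M24 p ⊓ MulAction.stabilizer Cfsg.M24 q ⊓ MulAction.stabilizer Cfsg.M24 r)), x ^ 3 = 1) ∧ ∀ P : Sylow 2 ↥(MulAction.stabilizer Cfsg.M24 d ⊓ MulAction.stabilizer Cfsg.M24 p ⊓ MulAction.stabilizer Cfsg.M24 q ⊓ MulAction.stabilizer Cfsg.M24 r), Nonempty (↥P ≃* QuaternionGroup 2) := by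
  obtain ⟨c, hc, hcd, hci⟩ := DodStab.exists_map_in (n := 3) (by omega) hd DodStab.D_mem
    ![p, q, r] ![ptN 0, ptN 1, ptN 2]
    (by intro i j h; fin_cases i <;> fin_cases j <;> simp_all [eq_comm])
    (by intro i j; revert i j; decide +kernel)
    (by intro i; fin_cases i; exacts [hp, hq, hr])
    (by intro i; fin_cases i <;> decide +kernel)
  have h0 : c p = ptN 0 := hci 0
  have h1 : c q = ptN 1 := hci 1
  have h2 : c r = ptN 2 := hci 2
  set K := MulAction.stabilizer Cfsg.M24 d ⊓ MulAction.stabilizer Cfsg.M24 p ⊓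
    MulAction.stabilizer Cfsg.M24 q ⊓ MulAction.stabilizer Cfsg.M24 r with hK
  let e : K ≃* fixGroup MNine.fixd :=
    (K.equivMapOfInjective _ Cfsg.M24.subtype_injective).trans (Simple.conjEquiv c _ _ fun σ => by
      rw [Simple.mem_map_subtype, mem_K, Simple.conj_mem_M24 hc, ← hcd, Simple.conj_smul_eq, ← h0, ← h1, ← h2,
        Simple.conj_apply_eq, Simple.conj_apply_eq, Simple.conj_apply_eq]
      exact ⟨fun ⟨h, ⟨⟨⟨e1, e2⟩, e3⟩, e4⟩⟩ => ⟨h, e1, e2, e3, e4⟩,
        fun ⟨h, e1, e2, e3, e4⟩ => ⟨h, ⟨⟨⟨e1, e2⟩, e3⟩, e4⟩⟩⟩)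
  haveI : Fact (Nat.Prime 2) := ⟨Nat.prime_two⟩
  haveI : Fact (Nat.Prime 3) := ⟨Nat.prime_three⟩
  have hcard : Nat.card K = 72 := (Nat.card_congr e.toEquiv).trans card_K
  have f2 : (72 : ℕ).factorization 2 = 3 := by
    refine le_antisymm ?_ ((Nat.prime_two.pow_dvd_iff_le_factorization (by norm_num)).1 (by norm_num))
    by_contra h
    have h' := (Nat.prime_two.pow_dvd_iff_le_factorization (k := 4) (n := 72) (by norm_num)).2 (by omega)
    norm_num at h'
  have f3 : (72 : ℕ).factorization 3 = 2 := by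
    refine le_antisymm ?_ ((Nat.prime_three.pow_dvd_iff_le_factorization (by norm_num)).1 (by norm_num))
    by_contra h
    have h' := (Nat.prime_three.pow_dvd_iff_le_factorization (k := 3) (n := 72) (by norm_num)).2 (by omega)
    norm_num at h'
  refine ⟨fun Q => ?_, fun P => ?_⟩
  · set N := ((grp MNine.gens3).subgroupOf (fixGroup MNine.fixd)).map e.symm.toMonoidHom with hN
    have hNn : N.Normal := three_normal.map _ e.symm.surjective
    have hNc : Nat.card N = 9 := by
      rw [hN, Subgroup.card_map_of_injective (f := e.symm.toMonoidHom) e.symm.injective,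
        Nat.card_congr (Subgroup.subgroupOfEquivOfLe (grp_le MNine.three_ok)).toEquiv, card_grp MNine.three_ok]
    let S : Sylow 3 K := Sylow.ofCard N (by rw [hNc, hcard, f3]; rfl)
    obtain ⟨g, hg⟩ := MulAction.exists_smul_eq K S Q
    haveI : (S : Subgroup K).Normal := hNn
    have hQ : (Q : Subgroup K) = N := by
      rw [← hg, Sylow.coe_subgroup_smul]
      ext x
      rw [Subgroup.mem_pointwise_smul_iff_inv_smul_mem, MulAut.smul_def, MulAut.conj_inv_apply]
      show g⁻¹ * x * g ∈ N ↔ x ∈ N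
      refine ⟨fun h => ?_, fun h => by simpa using hNn.conj_mem x h g⁻¹⟩
      simpa [mul_assoc] using hNn.conj_mem _ h g
    refine ⟨hQ ▸ hNn, ?_, fun x hx => ?_⟩
    · change Nat.card (Q : Subgroup K) = 9
      rw [hQ, hNc]
    · rw [hQ] at hx
      obtain ⟨y, hy, rfl⟩ := hx
      obtain ⟨l, hl, hle⟩ := (mem_grp MNine.three_ok).1 hy
      have h := MNine.exp_ok
      simp only [List.all_eq_true, eqTab_iff] at h
      have lv := tab_valid MNine.three_ok hl
      obtain ⟨v, e2⟩ := mulTab_spec lv lv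
      obtain ⟨v3, e3⟩ := mulTab_spec lv v
      have h4 := congrArg permOf (h l hl)
      rw [e3, e2, permOf_idT, hle] at h4
      refine e.injective (Subtype.ext ?_)
      rw [map_pow, map_one, SubmonoidClass.coe_pow, pow_three, MulEquiv.coe_toMonoidHom,
        MulEquiv.apply_symm_apply]
      exact h4
  · obtain ⟨eq8⟩ := quat
    set N := ((grp MNine.gens2).subgroupOf (fixGroup MNine.fixd)).map e.symm.toMonoidHom with hN
    have hNc : Nat.card N = 8 := by
      rw [hN, Subgroup.card_map_of_injective (f := e.symm.toMonoidHom) e.symm.injective,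
        Nat.card_congr (Subgroup.subgroupOfEquivOfLe (grp_le MNine.two_ok)).toEquiv, card_grp MNine.two_ok]
    let S : Sylow 2 K := Sylow.ofCard N (by rw [hNc, hcard, f2]; rfl)
    exact ⟨(Sylow.equiv P S).trans (((Subgroup.equivMapOfInjective _ _ e.symm.injective).symm).trans
      ((Subgroup.subgroupOfEquivOfLe (grp_le MNine.two_ok)).trans eq8))⟩

end Cfsg.Agent.S5619
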