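import Cfsg.Statements.S5620
import Cfsg.Agent.MathieuOut.Cards

set_option autoImplicit false
open scoped Pointwise
open Cfsg

namespace Cfsg.Agent.S5620

open CfsgLib.Golay CfsgLib.MathieuTwo
open scoped Pointwise

/-- Conjugated Sylow generators move every point of the dodecad. -/
def moveOk : Bool :=
  (List.range 24).all fun q => !(DodStab.sqD.testBit q) ||
    D11.gens.any fun l => !(Nat.beq ((mulTab gen1 (mulTab l gen1)).getD q 0) q)

theorem move_ok : moveOk = true := by decide +kernel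

theorem gen1_facts : validTab gen1 = true ∧ presTab gen1 = true ∧ mulTab gen1 gen1 = idT ∧
    actTab gen1 DodStab.sqD = 16777215 ^^^ DodStab.sqD ∧ actTab gen1 1 = 2 ^ 23 := by decide +kernel


/-- Inside the stabiliser of the dodecad of squares (a Mathieu group of degree 12), the stabiliser of the residue 0 (a point of the dodecad) and the stabiliser of the extra point (a point outside the dodecad) are isomorphic but not conjugate; conjugation by a suitable element of the code's group that maps the dodecad of squares onto its complement carries the first onto the second. -/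
theorem result : Nonempty (↥(Cfsg.Spor.M12 ⊓ MulAction.stabilizer (Equiv.Perm Cfsg.GolayPt) (none : Cfsg.GolayPt)) ≃* ↥Cfsg.Spor.M11) ∧ (¬ ∃ k ∈ Cfsg.Spor.M12, MulAut.conj k • Cfsg.Spor.M11 = Cfsg.Spor.M12 ⊓ MulAction.stabilizer (Equiv.Perm Cfsg.GolayPt) (none : Cfsg.GolayPt)) ∧ ∃ g ∈ Cfsg.M24, g • Cfsg.Spor.squareDodecad = Finset.univ \ Cfsg.Spor.squareDodecad ∧ MulAut.conj g • Cfsg.Spor.M11 = Cfsg.Spor.M12 ⊓ MulAction.stabilizer (Equiv.Perm Cfsg.GolayPt) (none : Cfsg.GolayPt) := by
  obtain ⟨hv, hp, hsq, hD, h0⟩ := gen1_facts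
  set g := permOf gen1 with hg
  have hgM : g ∈ Cfsg.M24 := permOf_mem_M24 hv hp
  have hgg : g * g = 1 := by rw [← (mulTab_spec hv hv).2, hsq, permOf_idT]
  have hgi : g⁻¹ = g := inv_eq_of_mul_eq_one_right hgg
  have hgD : g • DodStab.D = Finset.univ \ DodStab.D := by
    have e : g • DodStab.D = toSet (16777215 ^^^ DodStab.sqD) := mask_injective (by
      rw [hg, DodStab.D, mask_smul hv, mask_toSet DodStab.sqD_lt, hD,
        mask_toSet (by decide +kernel : 16777215 ^^^ DodStab.sqD < 2 ^ 24)])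
    rw [e]; decide +kernel
  have hg0 : g (some 0) = none := by
    have e : g • toSet 1 = toSet (2 ^ 23) := mask_injective (by
      rw [hg, mask_smul hv, mask_toSet (by norm_num : 1 < 2 ^ 24), h0,
        mask_toSet (by norm_num : 2 ^ 23 < 2 ^ 24)])
    rw [Simple.toSet_none, show (1 : ℕ) = 2 ^ 0 from rfl, Simple.toSet_zero,
      Finset.smul_finset_singleton, Finset.singleton_inj] at e
    exact e
  have hgn : g none = some 0 := by
    have e := congrArg (fun σ : Equiv.Perm Cfsg.GolayPt => σ (some 0)) hgg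
    simpa [hg0] using e
  have hcompl : ∀ x : Equiv.Perm Cfsg.GolayPt,
      x • (Finset.univ \ DodStab.D) = Finset.univ \ DodStab.D ↔ x • DodStab.D = DodStab.D := by
    intro x
    rw [Finset.smul_finset_sdiff, Finset.smul_finset_univ]
    constructor
    · intro h
      have := congrArg (fun s => Finset.univ \ s) h
      simpa using this
    · intro h; rw [h]
  have hdesc : ∀ x, x ∈ Cfsg.Spor.M11 ↔
      x ∈ Cfsg.M24 ∧ x • DodStab.D = DodStab.D ∧ x (some 0) = some 0 := fun x => by
    rw [← K11_eq, fixd_eq.1, Simple.mem_K11]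
    exact ⟨fun ⟨a, b, c⟩ => ⟨a, c, b⟩, fun ⟨a, c, b⟩ => ⟨a, b, c⟩⟩
  have hdesc2 : ∀ x, x ∈ Cfsg.Spor.M12 ↔ x ∈ Cfsg.M24 ∧ x • DodStab.D = DodStab.D := fun x => by
    rw [← K12_eq, fixd_eq.2.1, Simple.mem_stab_dod]
  have heq : MulAut.conj g • Cfsg.Spor.M11 =
      Cfsg.Spor.M12 ⊓ MulAction.stabilizer (Equiv.Perm Cfsg.GolayPt) (none : Cfsg.GolayPt) := by
    ext x
    rw [Subgroup.mem_pointwise_smul_iff_inv_smul_mem, MulAut.smul_def, MulAut.conj_inv_apply, hdesc,
      Subgroup.mem_inf, hdesc2, hgi]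
    show _ ↔ (_ ∧ _) ∧ x none = none
    have hM : g * x * g ∈ Cfsg.M24 ↔ x ∈ Cfsg.M24 := by
      conv_lhs => arg 2; arg 2; rw [← hgi]
      exact Simple.conj_mem_M24 hgM
    have hpt : (g * x * g) (some 0) = some 0 ↔ x none = none := by
      simp only [Equiv.Perm.mul_apply, hg0]
      rw [← hgn]
      exact g.injective.eq_iff
    have hdd : (g * x * g) • DodStab.D = DodStab.D ↔ x • DodStab.D = DodStab.D := by
      rw [mul_smul, mul_smul, hgD, smul_eq_iff_eq_inv_smul, hgi, hgD, hcompl]
    rw [hM, hpt, hdd, and_assoc]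
  refine ⟨?_, ?_, g, hgM, ?_, heq⟩
  · rw [← heq]
    exact ⟨(Subgroup.equivSMul (MulAut.conj g) Cfsg.Spor.M11).symm⟩
  · rintro ⟨k, hk, hke⟩
    obtain ⟨-, hkD⟩ := (hdesc2 k).1 hk
    set q := (idx (k (some 0))).val with hq
    have hqD : DodStab.sqD.testBit q = true := by
      have h1 : k (some 0) ∈ DodStab.D := by
        rw [← hkD]
        exact Finset.smul_mem_smul_finset (by decide +kernel)
      rw [hq]; exact mem_toSet.1 h1
    have h2 := move_ok
    simp only [moveOk, List.all_eq_true, List.mem_range, Bool.or_eq_true, Bool.not_eq_true',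
      List.any_eq_true] at h2
    rcases h2 q (idx (k (some 0))).isLt with h3 | ⟨l, hl, h3⟩
    · rw [hqD] at h3; simp at h3
    obtain ⟨lv, -, lm⟩ := gen_mem D11.group_ok hl
    have hlM : permOf l ∈ Cfsg.Spor.M11 := K11_eq ▸ grp_le D11.group_ok lm
    have hy : MulAut.conj g • permOf l ∈ MulAut.conj k • Cfsg.Spor.M11 := by
      rw [hke, ← heq]
      exact Subgroup.smul_mem_pointwise_smul _ _ _ hlM
    rw [Subgroup.mem_pointwise_smul_iff_inv_smul_mem, MulAut.smul_def, MulAut.smul_def,
      MulAut.conj_inv_apply, MulAut.conj_apply, hdesc, hgi] at hy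
    have h4 := hy.2.2
    simp only [Equiv.Perm.mul_apply] at h4
    rw [Equiv.Perm.inv_eq_iff_eq] at h4
    obtain ⟨v1, e1⟩ := mulTab_spec lv hv
    obtain ⟨v2, e2⟩ := mulTab_spec hv v1
    have h5 : (mulTab gen1 (mulTab l gen1)).getD q 0 = q := by
      rw [← im_permOf v2 (idx (k (some 0))).isLt, e2, e1, im, hq, ptN_idx]
      simp only [Equiv.Perm.mul_apply]
      exact congrArg (fun p => (idx p).val) h4
    rw [← Nat.beq_eq, h3] at h5
    simp at h5
  · rw [Cfsg.Spor.squareDodecad, DodStab.squareDodecad_eq, hgD]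

end Cfsg.Agent.S5620
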