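import Cfsg.Statements.S5621
import Cfsg.Agent.AbsGolay.Basic
import Mathlib
open CfsgLib.AbsGolay

set_option autoImplicit false
open Cfsg

namespace Cfsg.Agent.S5621

/-- Let C be a self-dual binary code of length 24 with minimum weight at least 8 (a 12-dimensional subspace of the 24-dimensional space over the field with two elements, any two of whose words have dot product zero, with no non-zero word of weight below 8 — an abstract extended binary Golay code). Then C is doubly even: every word of C has weight divisible by 4. -/
theorem result (C : Submodule (ZMod 2) (Fin 24 → ZMod 2)) (hdim : Module.finrank (ZMod 2) C = 12) (horth : ∀ v ∈ C, ∀ w ∈ C, ∑ i, v i * w i = 0) (hmin : ∀ w ∈ C, w ≠ 0 → 8 ≤ hammingNorm w) : ∀ w ∈ C, 4 ∣ hammingNorm w := by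
  intro w hw
  have := (IsGolay.span_eight ⟨hdim, horth, hmin⟩ (Cfsg.support₂ w) (by rwa [wordS_supp])).1
  rwa [weight_eq]

end Cfsg.Agent.S5621
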