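import Cfsg.Statements.S5622
import Cfsg.Agent.AbsGolay.Basic
import Mathlib
open CfsgLib.AbsGolay

set_option autoImplicit false
open Cfsg

namespace Cfsg.Agent.S5622

/-- Let C be a self-dual binary code of length 24 with minimum weight at least 8 (a 12-dimensional subspace of the 24-dimensional space over the field with two elements, any two of whose words have dot product zero, with no non-zero word of weight below 8 — an abstract extended binary Golay code). Then the minimum weight of C is exactly 8, and the supports of the words of weight 8 (the octads) form a Steiner system S(5, 8, 24) on the 24 coordinates: every 5 coordinates lie in the support of exactly one word of weight 8. -/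
theorem result (C : Submodule (ZMod 2) (Fin 24 → ZMod 2)) (hdim : Module.finrank (ZMod 2) C = 12) (horth : ∀ v ∈ C, ∀ w ∈ C, ∑ i, v i * w i = 0) (hmin : ∀ w ∈ C, w ≠ 0 → 8 ≤ hammingNorm w) : (∃ w ∈ C, hammingNorm w = 8) ∧ Cfsg.IsSteinerSystem 5 8 (Cfsg.wordsOfWeight (C : Set (Fin 24 → ZMod 2)) 8) := by
  have h : IsGolay C := ⟨hdim, horth, hmin⟩
  have mem : ∀ b : Finset (Fin 24), b ∈ Cfsg.wordsOfWeight (C : Set (Fin 24 → ZMod 2)) 8 ↔
      b.card = 8 ∧ wordS b ∈ C := by
    intro b
    constructor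
    · rintro ⟨⟨w, hw, rfl⟩, hb⟩; exact ⟨hb, by rwa [wordS_supp]⟩
    · rintro ⟨hb, hbC⟩; exact ⟨⟨wordS b, hbC, supp_wordS b⟩, hb⟩
  refine ⟨?_, fun b hb => hb.2, fun s hs => ?_⟩
  · obtain ⟨s, -, hs⟩ := Finset.exists_subset_card_eq (s := (Finset.univ : Finset (Fin 24))) (n := 5)
      (by simp)
    obtain ⟨o, ho, hoC, -⟩ := h.exists_eight hs
    exact ⟨wordS o, hoC, by rw [weight_wordS, ho]⟩
  · obtain ⟨o, ho, hoC, hso⟩ := h.exists_eight hs
    refine ⟨o, ⟨(mem o).2 ⟨ho, hoC⟩, hso⟩, fun b hb => ?_⟩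
    exact h.eight_unique ((mem b).1 hb.1).1 ((mem b).1 hb.1).2 ho hoC hs.ge hb.2 hso

end Cfsg.Agent.S5622
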