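import Cfsg.Statements.S5623
import Cfsg.Agent.AbsGolay.Basic
import Mathlib
open CfsgLib.AbsGolay

set_option autoImplicit false
open Cfsg

namespace Cfsg.Agent.S5623

/-- Let C be a self-dual binary code of length 24 with minimum weight at least 8 (a 12-dimensional subspace of the 24-dimensional space over the field with two elements, any two of whose words have dot product zero, with no non-zero word of weight below 8 — an abstract extended binary Golay code). Then every coset w + C of C in the ambient space contains either exactly one word of weight at most 4, which then has weight at most 3, or exactly six words of weight at most 4, all of weight exactly 4 and with pairwise disjoint supports (a sextet). -/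
theorem result (C : Submodule (ZMod 2) (Fin 24 → ZMod 2)) (hdim : Module.finrank (ZMod 2) C = 12) (horth : ∀ v ∈ C, ∀ w ∈ C, ∑ i, v i * w i = 0) (hmin : ∀ w ∈ C, w ≠ 0 → 8 ≤ hammingNorm w) (w : Fin 24 → ZMod 2) : (∃ u : Fin 24 → ZMod 2, {u : Fin 24 → ZMod 2 | u - w ∈ C ∧ hammingNorm u ≤ 4} = {u} ∧ hammingNorm u ≤ 3) ∨ ({u : Fin 24 → ZMod 2 | u - w ∈ C ∧ hammingNorm u ≤ 4}.ncard = 6 ∧ ∀ u ∈ {u : Fin 24 → ZMod 2 | u - w ∈ C ∧ hammingNorm u ≤ 4}, hammingNorm u = 4 ∧ ∀ u' ∈ {u : Fin 24 → ZMod 2 | u - w ∈ C ∧ hammingNorm u ≤ 4}, u ≠ u' → Disjoint (Finset.univ.filter fun i => u i ≠ 0) (Finset.univ.filter fun i => u' i ≠ 0)) := by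
  have h : IsGolay C := ⟨hdim, horth, hmin⟩
  obtain ⟨t, ht4, ht⟩ := h.tight.1 (Submodule.Quotient.mk w)
  have key : ∀ u : Fin 24 → ZMod 2, u - w ∈ C ↔ coset C (Cfsg.support₂ u) = coset C t := by
    intro u
    rw [ht, coset, wordS_supp, Submodule.Quotient.eq]
  by_cases h4 : t.card = 4
  · right
    have ct : ∀ u : Fin 24 → ZMod 2, u - w ∈ C → hammingNorm u ≤ 4 → hammingNorm u = 4 := by
      intro u hu hu4
      rw [weight_eq] at hu4 ⊢
      by_cases e : Cfsg.support₂ u = t
      · rw [e, h4]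
      · exact (h.small_pair hu4 ht4 e (coset_eq_iff.1 ((key u).1 hu))).1
    refine ⟨?_, ?_⟩
    · rw [← h.tight.2 t h4]
      refine Set.ncard_congr (fun u _ => Cfsg.support₂ u) ?_ ?_ ?_
      · rintro u ⟨hu, hu4⟩; exact ⟨hu4, (key u).1 hu⟩
      · intro u v _ _ e; rw [← wordS_supp u, ← wordS_supp v, e]
      · rintro s ⟨hs, e⟩
        refine ⟨wordS s, ⟨(key _).2 (by rwa [supp_wordS]), by rw [weight_wordS]; exact hs⟩, supp_wordS s⟩
    · rintro u ⟨hu, hu4⟩
      refine ⟨ct u hu hu4, fun u' hu' hne => ?_⟩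
      obtain ⟨hu', hu4'⟩ := hu'
      exact (h.small_pair (s := Cfsg.support₂ u) (t := Cfsg.support₂ u') hu4 hu4'
        (fun e => hne (by rw [← wordS_supp u, ← wordS_supp u', e]))
        (coset_eq_iff.1 (((key u).1 hu).trans ((key u').1 hu').symm))).2.2.1
  · left
    refine ⟨wordS t, ?_, by rw [weight_wordS]; omega⟩
    refine Set.eq_singleton_iff_unique_mem.2 ⟨⟨(key _).2 (by rw [supp_wordS]), by rw [weight_wordS]; omega⟩, ?_⟩
    rintro u ⟨hu, hu4⟩
    by_contra hne
    exact h4 (h.small_pair (s := Cfsg.support₂ u) hu4 ht4 (fun e => hne (by rw [← e, wordS_supp]))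
      (coset_eq_iff.1 ((key u).1 hu))).2.1

end Cfsg.Agent.S5623
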