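import Cfsg.Statements.S5625
import Cfsg.Agent.Steiner.Count

set_option autoImplicit false
open Cfsg

namespace Cfsg.Agent.S5625

/-- In any Steiner system S(5, 8, 24) and for any set Y of three points, the blocks meeting Y in exactly 3, 2, 1 and 0 points number 21, 168, 360 and 210 respectively (so there are 759 blocks in all). -/
theorem result (α : Type*) [Fintype α] [DecidableEq α] (hα : Fintype.card α = 24) (B : Set (Finset α)) (hB : Cfsg.IsSteinerSystem 5 8 B) (Y : Finset α) (hY : Y.card = 3) : {b : Finset α | b ∈ B ∧ (b ∩ Y).card = 3}.ncard = 21 ∧ {b : Finset α | b ∈ B ∧ (b ∩ Y).card = 2}.ncard = 168 ∧ {b : Finset α | b ∈ B ∧ (b ∩ Y).card = 1}.ncard = 360 ∧ {b : Finset α | b ∈ B ∧ (b ∩ Y).card = 0}.ncard = 210 := by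
  have m0 := CfsgLib.Steiner.moments hB Y (i := 0) (by omega)
  have m1 := CfsgLib.Steiner.moments hB Y (i := 1) (by omega)
  have m2 := CfsgLib.Steiner.moments hB Y (i := 2) (by omega)
  have m3 := CfsgLib.Steiner.moments hB Y (i := 3) (by omega)
  simp [hY, hα, Finset.sum_range_succ, Nat.choose_eq_descFactorial_div_factorial,
    Nat.descFactorial_succ, Nat.factorial] at m0 m1 m2 m3
  simp only [CfsgLib.Steiner.ncard_meet]
  omega

end Cfsg.Agent.S5625
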