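import Cfsg.Statements.S5627
import Cfsg.Agent.Steiner.Ovals21

set_option autoImplicit false
open Cfsg

namespace Cfsg.Agent.S5627

open CfsgLib.Steiner CfsgLib.Steiner.Plane21


/-- In a projective plane of order 4 (a Steiner system S(2, 5, 21)), call a set of points independent when no line meets it in more than two points. There are exactly 2520 independent 4-sets and exactly 168 independent 6-sets (hyperovals), and every independent 4-set lies in exactly one hyperoval. -/
theorem result {α : Type*} [Fintype α] [DecidableEq α] (hα : Fintype.card α = 21) (L : Set (Finset α)) (hL : Cfsg.IsSteinerSystem 2 5 L) : {S : Finset α | (S.card = 4 ∧ ∀ l ∈ L, (l ∩ S).card ≤ 2)}.ncard = 2520 ∧ {H : Finset α | (H.card = 6 ∧ ∀ l ∈ L, (l ∩ H).card ≤ 2)}.ncard = 168 ∧ ∀ S : Finset α, (S.card = 4 ∧ ∀ l ∈ L, (l ∩ S).card ≤ 2) → ∃! H : Finset α, (H.card = 6 ∧ ∀ l ∈ L, (l ∩ H).card ≤ 2) ∧ S ⊆ H := by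
  obtain ⟨e, he⟩ := iso21 hL hα
  have hI : ∀ S : Finset (Fin 21), (∀ l ∈ L, (l ∩ S.image e).card ≤ 2) ↔ Indep S := fun S => by
    rw [← he]
    constructor
    · intro h s hs
      have := h _ ⟨s, hs, rfl⟩
      rwa [← Finset.image_inter _ _ e.injective, Finset.card_image_of_injective _ e.injective] at this
    · rintro h _ ⟨s, hs, rfl⟩
      rw [← Finset.image_inter _ _ e.injective, Finset.card_image_of_injective _ e.injective]
      exact h s hs
  have hc : ∀ k, {S : Finset α | S.card = k ∧ ∀ l ∈ L, (l ∩ S).card ≤ 2}.ncard =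
      {S : Finset (Fin 21) | S.card = k ∧ Indep S}.ncard := fun k => by
    rw [← Set.ncard_image_of_injective {S : Finset (Fin 21) | S.card = k ∧ Indep S}
      (Finset.image_injective e.injective)]
    refine congrArg Set.ncard (Set.ext fun S => ?_)
    obtain ⟨T, rfl⟩ : ∃ T : Finset (Fin 21), T.image e = S :=
      ⟨S.image e.symm, by simp [Finset.image_image]⟩
    simp only [Set.mem_setOf_eq, Set.mem_image, (Finset.image_injective e.injective).eq_iff,
      exists_eq_right, hI, Finset.card_image_of_injective _ e.injective]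
  refine ⟨(hc 4).trans (by rw [ncard_indep, arcs_four]), (hc 6).trans ncard_ovals, fun S hS => ?_⟩
  obtain ⟨T, rfl⟩ : ∃ T : Finset (Fin 21), T.image e = S :=
    ⟨S.image e.symm, by simp [Finset.image_image]⟩
  rw [hI, Finset.card_image_of_injective _ e.injective] at hS
  obtain ⟨H, ⟨hH, hTH⟩, hu⟩ := unique_oval hS.1 hS.2
  refine ⟨H.image e, ⟨⟨by rw [Finset.card_image_of_injective _ e.injective, hH.1], (hI H).2 hH.2⟩,
    Finset.image_subset_image hTH⟩, fun K hK => ?_⟩
  obtain ⟨U, rfl⟩ : ∃ U : Finset (Fin 21), U.image e = K :=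
    ⟨K.image e.symm, by simp [Finset.image_image]⟩
  rw [hI, Finset.card_image_of_injective _ e.injective, Finset.image_subset_image_iff e.injective] at hK
  rw [hu U hK]

end Cfsg.Agent.S5627
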