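import Cfsg.Statements.S5628
import Cfsg.Agent.Steiner.Ovals21

set_option autoImplicit false
open Cfsg

namespace Cfsg.Agent.S5628

open CfsgLib.Steiner CfsgLib.Steiner.Plane21


/-- In a projective plane of order 4 (a Steiner system S(2, 5, 21)), every permutation of the six points of a hyperoval (a 6-set met by no line in more than two points) is the restriction of exactly one automorphism of the plane. In particular the stabiliser of a hyperoval in the automorphism group is isomorphic to the symmetric group of degree 6 acting faithfully on the hyperoval. -/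
theorem result {α : Type*} [Fintype α] [DecidableEq α] (hα : Fintype.card α = 21) (L : Set (Finset α)) (hL : Cfsg.IsSteinerSystem 2 5 L) (H : Finset α) (hH : (H.card = 6 ∧ ∀ l ∈ L, (l ∩ H).card ≤ 2)) (σ : Equiv.Perm ↥H) : ∃! g : Equiv.Perm α, g ∈ Cfsg.setSystemAut L ∧ ∀ p : ↥H, g p = σ p := by
  obtain ⟨e, he⟩ := iso21 hL hα
  obtain ⟨T, rfl⟩ : ∃ T : Finset (Fin 21), T.image e = H :=
    ⟨H.image e.symm, by simp [Finset.image_image]⟩
  have hI : T.card = 6 ∧ Indep T := by
    refine ⟨by rw [← hH.1, Finset.card_image_of_injective _ e.injective], fun s hs => ?_⟩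
    have hm : s.image e ∈ L := by rw [← he]; exact ⟨s, hs, rfl⟩
    have := hH.2 _ hm
    rwa [← Finset.image_inter _ _ e.injective, Finset.card_image_of_injective _ e.injective] at this
  let c : ↥T ≃ ↥(T.image e) := e.subtypeEquiv fun a => (e.injective.mem_finset_image).symm
  obtain ⟨g, ⟨hg, hgp⟩, hu⟩ := oval_ext (steiner21 hL hα) hI (c.symm.permCongr σ)
  refine ⟨(CfsgLib.Steiner.autEquiv e he ⟨g, hg⟩).1, ⟨(CfsgLib.Steiner.autEquiv e he ⟨g, hg⟩).2,
    fun p => ?_⟩, fun g' hg' => ?_⟩
  · obtain ⟨q, rfl⟩ := c.surjective p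
    show e (g (e.symm (e q.1))) = (σ (c q)).1
    rw [e.symm_apply_apply, hgp q]
    have : c ((c.symm.permCongr σ) q) = σ (c q) := by simp [Equiv.permCongr_apply]
    exact congrArg Subtype.val this
  · have h := hu ((CfsgLib.Steiner.autEquiv e he).symm ⟨g', hg'.1⟩).1
      ⟨((CfsgLib.Steiner.autEquiv e he).symm ⟨g', hg'.1⟩).2, fun q => ?_⟩
    · have e' : (CfsgLib.Steiner.autEquiv e he).symm ⟨g', hg'.1⟩ = ⟨g, hg⟩ := Subtype.ext h
      rw [← e', MulEquiv.apply_symm_apply]
    · show e.symm (g' (e.symm.symm q.1)) = _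
      refine e.symm_apply_eq.2 ((hg'.2 (c q)).trans ?_)
      have : c ((c.symm.permCongr σ) q) = σ (c q) := by simp [Equiv.permCongr_apply]
      exact (congrArg Subtype.val this).symm

end Cfsg.Agent.S5628
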