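import Cfsg.Statements.S5631
import Cfsg.Agent.GeoLib.Parabolic

set_option autoImplicit false
open Cfsg

namespace Cfsg.Agent.S5631

/-- For a finite field F and n ≥ 13, the stabiliser in SL_n(F) of any proper non-zero subspace W of F^n is a maximal subgroup of SL_n(F). Here SL_n(F) is the kernel of the determinant inside GL_n(F) and the stabiliser is the set of elements of determinant one mapping W onto itself. -/
theorem result {F : Type*} [Field F] [Fintype F] (n : ℕ) (hn : 13 ≤ n) (W : Submodule F (Fin n → F)) (hW0 : W ≠ ⊥) (hW1 : W ≠ ⊤) : Cfsg.Geo.IsMaximalIn (Cfsg.Geo.specialLinear (Fin n) F) (Cfsg.Geo.subspaceStabilizer W ⊓ Cfsg.Geo.specialLinear (Fin n) F) := by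
  haveI : Nontrivial (Fin n) := Fin.nontrivial_iff_two_le.2 (by omega)
  refine ⟨⟨inf_le_right, fun hle => ?_⟩, fun M hM1 hM2 => ?_⟩
  · obtain ⟨w, hw, hw0⟩ := W.exists_mem_ne_zero_of_ne_bot hW0
    obtain ⟨x, hx⟩ : ∃ x, x ∉ W := by
      by_contra h; push Not at h; exact hW1 (eq_top_iff.mpr fun y _ => h y)
    have hnot : w ∉ Submodule.span F {x} := by
      rw [Submodule.mem_span_singleton]
      rintro ⟨c, rfl⟩
      rcases eq_or_ne c 0 with rfl | hc
      · simp at hw0
      · exact hx ((W.smul_mem_iff hc).1 hw)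
    obtain ⟨φ, hφw, hφ⟩ := Submodule.exists_dual_map_eq_bot_of_notMem hnot inferInstance
    have hφx : φ x = 0 := (Submodule.mem_bot F).mp (hφ ▸ Submodule.mem_map_of_mem (Submodule.mem_span_singleton_self x))
    obtain ⟨g, hgS, hg⟩ := CfsgLib.GeoTransvection.exists_transvection x φ hφx
    have h := ((hle hgS).1 w).mp hw
    change (g : Matrix (Fin n) (Fin n) F).mulVec w ∈ W at h
    rw [hg, W.add_mem_iff_right hw] at h
    exact hx ((W.smul_mem_iff hφw).1 h)
  · by_cases h : M ≤ Cfsg.Geo.subspaceStabilizer W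
    · exact Or.inl (le_antisymm (le_inf h hM2) hM1)
    · obtain ⟨g, hg, hgW⟩ := SetLike.not_le_iff_exists.1 h
      exact Or.inr (le_antisymm hM2 (CfsgLib.GeoParabolic.specialLinear_le_of_lt W M hM1 hg hgW))

end Cfsg.Agent.S5631
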