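import Cfsg.Statements.S5632
import Cfsg.Agent.GeoLib.Transvection

set_option autoImplicit false
open Cfsg

namespace Cfsg.Agent.S5632

/-- For a finite field F and subspaces 0 < W < U of F^n with dim W + dim U = n, the elements of SL_n(F) stabilising both W and U form a subgroup that is not maximal in SL_n(F): some subgroup lies strictly between it and SL_n(F). -/
theorem result {F : Type*} [Field F] [Fintype F] (n : ℕ) (W U : Submodule F (Fin n → F)) (hW0 : W ≠ ⊥) (hWU : W < U) (hdim : Module.finrank F W + Module.finrank F U = n) : ∃ K : Subgroup (Matrix.GeneralLinearGroup (Fin n) F), Cfsg.Geo.subspaceStabilizer W ⊓ Cfsg.Geo.subspaceStabilizer U ⊓ Cfsg.Geo.specialLinear (Fin n) F < K ∧ K < Cfsg.Geo.specialLinear (Fin n) F := by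
  obtain ⟨u, huU, huW⟩ := SetLike.exists_of_lt hWU
  have hU1 : U ≠ ⊤ := by
    rintro rfl
    have h1 : 0 < Module.finrank F W := Nat.pos_of_ne_zero fun h => hW0 (Submodule.finrank_eq_zero.mp h)
    rw [finrank_top, Module.finrank_fin_fun] at hdim
    omega
  obtain ⟨v, hv⟩ : ∃ v, v ∉ U := by
    by_contra h; push Not at h; exact hU1 (eq_top_iff.mpr fun y _ => h y)
  refine CfsgLib.GeoTransvection.joint_stabilizer_not_maximal hW0 ?_ u v huU hv ?_
  · exact fun h => (h ▸ hWU).ne (eq_top_iff.mpr (h ▸ hWU).le).symm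
  · intro h
    obtain ⟨w, hw, z, hz, hwz⟩ := Submodule.mem_sup.mp h
    obtain ⟨c, rfl⟩ := Submodule.mem_span_singleton.mp hz
    by_cases hc : c = 0
    · subst hc
      rw [zero_smul, add_zero] at hwz
      exact huW (hwz ▸ hw)
    · apply hv
      have h2 : c • v ∈ U := by
        have : c • v = u - w := by rw [← hwz]; abel
        rw [this]
        exact U.sub_mem huU (hWU.le hw)
      simpa [smul_smul, inv_mul_cancel₀ hc] using U.smul_mem c⁻¹ h2

end Cfsg.Agent.S5632
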