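import Cfsg.Statements.S5633
import Cfsg.Agent.GeoLib.Transvection

set_option autoImplicit false
open Cfsg

namespace Cfsg.Agent.S5633

/-- For a finite field F and complementary non-zero subspaces W ⊕ U = F^n with dim W < dim U, the elements of SL_n(F) stabilising both W and U form a subgroup that is not maximal in SL_n(F): some subgroup lies strictly between it and SL_n(F). -/
theorem result {F : Type*} [Field F] [Fintype F] (n : ℕ) (W U : Submodule F (Fin n → F)) (hW0 : W ≠ ⊥) (hWU : W ⊓ U = ⊥) (hWU' : W ⊔ U = ⊤) (hdim : Module.finrank F W < Module.finrank F U) : ∃ K : Subgroup (Matrix.GeneralLinearGroup (Fin n) F), Cfsg.Geo.subspaceStabilizer W ⊓ Cfsg.Geo.subspaceStabilizer U ⊓ Cfsg.Geo.specialLinear (Fin n) F < K ∧ K < Cfsg.Geo.specialLinear (Fin n) F := by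
  obtain ⟨v, hvW, hv0⟩ := W.ne_bot_iff.mp hW0
  have hU0 : U ≠ ⊥ := by rintro rfl; simp at hdim
  obtain ⟨u, huU, hu0⟩ := U.ne_bot_iff.mp hU0
  have hne : ∀ x, x ∈ W → x ∈ U → x = 0 := fun x h1 h2 =>
    (Submodule.mem_bot F).mp (hWU ▸ Submodule.mem_inf.mpr ⟨h1, h2⟩)
  refine CfsgLib.GeoTransvection.joint_stabilizer_not_maximal hW0 ?_ u v huU (fun h => hv0 (hne v hvW h)) ?_
  · intro h
    exact hU0 (by rw [← hWU, h, top_inf_eq])
  · intro h
    have : u ∈ W := (sup_le le_rfl ((Submodule.span_singleton_le_iff_mem _ _).mpr hvW) : W ⊔ Submodule.span F {v} ≤ W) h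
    exact hu0 (hne u this huU)

end Cfsg.Agent.S5633
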