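import Cfsg.Statements.S5634
import Cfsg.Agent.GeoLib.MonoTop
import Cfsg.Agent.GeoLib.BlockTop

set_option autoImplicit false
open Cfsg

namespace Cfsg.Agent.S5634

/-- For a finite field F with q elements and n ≥ 13, let D be a decomposition of F^n into t ≥ 2 independent subspaces of equal dimension m ≥ 1 spanning F^n. Unless m = 1 and q ≤ 4, or m = 2 and q = 2, the elements of SL_n(F) permuting the members of D form a maximal subgroup of SL_n(F). -/
theorem result {F : Type*} [Field F] [Fintype F] (n : ℕ) (hn : 13 ≤ n) {t : ℕ} (m : ℕ) (D : Fin t → Submodule F (Fin n → F)) (hD : Cfsg.Geo.IsMDecomposition m D) (h1 : ¬ (m = 1 ∧ Fintype.card F ≤ 4)) (h2 : ¬ (m = 2 ∧ Fintype.card F = 2)) : Cfsg.Geo.IsMaximalIn (Cfsg.Geo.specialLinear (Fin n) F) (Cfsg.Geo.decompositionStabilizer D ⊓ Cfsg.Geo.specialLinear (Fin n) F) := by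
  classical
  have hcard : n = t * m := by
    have hint : DirectSum.IsInternal D :=
      DirectSum.isInternal_submodule_of_iSupIndep_of_iSup_eq_top hD.indep hD.iSup_eq_top
    have h : Module.finrank F (Fin n → F) = ∑ i, Module.finrank F (D i) := by
      rw [← Module.finrank_directSum]
      exact (LinearEquiv.ofBijective (DirectSum.coeLinearMap D) hint).finrank_eq.symm
    simpa [hD.finrank_eq] using h
  haveI : Nontrivial (Fin n) := Fin.nontrivial_iff_two_le.2 (by omega)
  have hq2 : 2 ≤ Fintype.card F := Fintype.one_lt_card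
  refine ⟨lt_of_le_not_ge inf_le_right fun hle => ?_, fun M hGM hMS => ?_⟩
  · obtain ⟨a, b, hab⟩ : ∃ a b : Fin t, a ≠ b :=
      ⟨⟨0, by have := hD.two_le; omega⟩, ⟨1, by have := hD.two_le; omega⟩, by simp⟩
    obtain ⟨π, hπm, hπs, hπi, hπ0⟩ := CfsgLib.GeoDecomp.exists_proj hD
    have hne : ∀ c, ∃ x ∈ D c, x ≠ 0 := fun c => (D c).exists_mem_ne_zero_of_ne_bot fun h => by
      have := hD.finrank_eq c; rw [h, finrank_bot] at this; exact hD.pos.ne this
    obtain ⟨x, hx, hx0⟩ := hne a
    obtain ⟨w, hw, hw0⟩ := hne b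
    obtain ⟨η, hη, -⟩ := CfsgLib.GeoBlock.exists_dual (W := (⊥ : Submodule F (Fin n → F))) (x := x) (by simpa using hx0)
    obtain ⟨g, hgS, hg⟩ := CfsgLib.GeoTransvection.exists_transvection w (η.comp (π a))
      (by simp [hπ0 a b hab w hw])
    obtain ⟨σ, hσ⟩ := (hle hgS).1
    have himg : x + w ∈ D (σ a) := by
      rw [← hσ a]
      refine ⟨x, hx, ?_⟩
      rw [Matrix.toLin'_apply, hg, LinearMap.comp_apply, hπi a x hx, hη, one_smul]
    by_cases hsa : σ a = a
    · have h := hπ0 b (σ a) (by rw [hsa]; exact hab.symm) _ himg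
      rw [map_add, hπ0 b a hab.symm x hx, hπi b w hw, zero_add] at h
      exact hw0 h
    · have h := hπ0 a (σ a) (Ne.symm hsa) _ himg
      rw [map_add, hπi a x hx, hπ0 a b hab w hw, add_zero] at h
      exact hx0 h
  by_cases hle : M ≤ Cfsg.Geo.decompositionStabilizer D
  · exact Or.inl (le_antisymm (le_inf hle hMS) hGM)
  refine Or.inr (le_antisymm hMS ?_)
  obtain ⟨g, hg, hgn⟩ := SetLike.not_le_iff_exists.1 hle
  by_cases hm : m = 1
  swap
  · have := hD.pos
    exact CfsgLib.GeoBlock.specialLinear_le_of_not_stab hD (by omega)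
      (fun h => ⟨by subst h; omega, by
        by_contra hc; exact h2 ⟨h, by omega⟩⟩) hGM hg hgn
  subst hm
  obtain rfl : n = t := by omega
  have hb' : ∀ i, ∃ b ∈ D i, b ≠ 0 := fun i => (D i).exists_mem_ne_zero_of_ne_bot fun h => by
    have := hD.finrank_eq i; rw [h, finrank_bot] at this; exact zero_ne_one this
  choose b hb hb0 using hb'
  have hli : LinearIndependent F b := hD.indep.linearIndependent _ hb hb0
  let P : Matrix (Fin n) (Fin n) F := Matrix.of fun i j => b j i
  have hPu : IsUnit P := Matrix.linearIndependent_cols_iff_isUnit.1 hli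
  obtain ⟨p, hp⟩ : ∃ p : GL (Fin n) F, (p : Matrix (Fin n) (Fin n) F) = P := ⟨hPu.unit, rfl⟩
  have hspan : ∀ j, D j = Submodule.span F {b j} := fun j => (Submodule.eq_of_le_of_finrank_eq
    ((Submodule.span_singleton_le_iff_mem _ _).2 (hb j)) (by rw [finrank_span_singleton (hb0 j), hD.finrank_eq])).symm
  have hPb : ∀ j, (p : Matrix (Fin n) (Fin n) F).mulVec (Pi.single j 1) = b j := fun j => by
    rw [hp, Matrix.mulVec_single_one]; rfl
  have hstab : ∀ h : GL (Fin n) F, CfsgLib.GeoMono.IsMon (h : Matrix (Fin n) (Fin n) F) →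
      p * h * p⁻¹ ∈ Cfsg.Geo.decompositionStabilizer D := by
    intro h hh
    refine CfsgLib.GeoDecomp.mem_stabilizer hD fun j => ?_
    obtain ⟨i, hi⟩ := hh j
    refine ⟨i, fun x hx => ?_⟩
    rw [hspan, Submodule.mem_span_singleton] at hx
    obtain ⟨c, rfl⟩ := hx
    have he : (h : Matrix (Fin n) (Fin n) F).mulVec (Pi.single j 1) = (h : Matrix (Fin n) (Fin n) F) i j • Pi.single i 1 := by
      rw [Matrix.mulVec_single_one]
      ext l
      rcases eq_or_ne l i with rfl | hl
      · simp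
      · simp [Matrix.col, hi l hl, hl]
    rw [Matrix.mulVec_smul, ← hPb j, Units.val_mul, Units.val_mul, ← Matrix.mulVec_mulVec, ← Matrix.mulVec_mulVec,
      CfsgLib.GeoFull.inv_mulVec_cancel, he, Matrix.mulVec_smul, hPb]
    exact (D i).smul_mem _ ((D i).smul_mem _ (hb i))
  have hdetc : ∀ h : GL (Fin n) F, p * h * p⁻¹ ∈ Cfsg.Geo.specialLinear (Fin n) F ↔ h ∈ Cfsg.Geo.specialLinear (Fin n) F :=
    fun h => by simp [Cfsg.Geo.specialLinear, MonoidHom.mem_ker, mul_comm, mul_left_comm]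
  let M' : Subgroup (GL (Fin n) F) := M.comap (MulAut.conj p).toMonoidHom
  have hM' : ∀ h, h ∈ M' ↔ p * h * p⁻¹ ∈ M := fun h => Iff.rfl
  have hall := CfsgLib.GeoMono.specialLinear_le_of_not_mon (M := M') (by simpa using hn)
    (by by_contra hc; exact h1 ⟨rfl, by omega⟩)
    (fun h hh => (hdetc h).1 (hMS hh)) (fun h hh hmon => hGM ⟨hstab h hmon, (hdetc h).2 hh⟩)
    (g₀ := p⁻¹ * g * p) (by rw [hM']; simpa [mul_assoc] using hg) (fun hmon => hgn (by simpa [mul_assoc] using hstab _ hmon))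
  intro h hh
  have := hall ((hdetc (p⁻¹ * h * p)).1 (by simpa [mul_assoc] using hh))
  rw [hM'] at this
  simpa [mul_assoc] using this

end Cfsg.Agent.S5634
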