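import Cfsg.Statements.S5635
import Cfsg.Agent.GeoLib.NonMax

set_option autoImplicit false
open Cfsg

namespace Cfsg.Agent.S5635

/-- For a finite field F with q elements and n ≥ 13, let D be a decomposition of F^n into t ≥ 2 independent subspaces of equal dimension m spanning F^n, where m = 1 and q ≤ 4, or m = 2 and q = 2. Then the elements of SL_n(F) permuting the members of D form a subgroup that is not maximal: some subgroup lies strictly between it and SL_n(F). -/
theorem result {F : Type*} [Field F] [Fintype F] (n : ℕ) (hn : 13 ≤ n) {t : ℕ} (m : ℕ) (D : Fin t → Submodule F (Fin n → F)) (hD : Cfsg.Geo.IsMDecomposition m D) (h : (m = 1 ∧ Fintype.card F ≤ 4) ∨ (m = 2 ∧ Fintype.card F = 2)) : ∃ K : Subgroup (Matrix.GeneralLinearGroup (Fin n) F), Cfsg.Geo.decompositionStabilizer D ⊓ Cfsg.Geo.specialLinear (Fin n) F < K ∧ K < Cfsg.Geo.specialLinear (Fin n) F := by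
  classical
  obtain ⟨π, hπ1, hπ2, hπ3, hπ4⟩ := CfsgLib.GeoDecomp.exists_proj hD
  have hcard : n = t * m := by
    have h1 : Module.finrank F (Fin n → F) = ∑ i, Module.finrank F (D i) := by
      have hint : DirectSum.IsInternal D :=
        DirectSum.isInternal_submodule_of_iSupIndep_of_iSup_eq_top hD.indep hD.iSup_eq_top
      rw [← Module.finrank_directSum]
      exact (LinearEquiv.ofBijective (DirectSum.coeLinearMap D) hint).finrank_eq.symm
    simpa [hD.finrank_eq] using h1
  have ht : 7 ≤ t := by rcases h with ⟨rfl, -⟩ | ⟨rfl, -⟩ <;> omega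
  have hne : ∀ i, ∃ d ∈ D i, d ≠ 0 := fun i => (D i).exists_mem_ne_zero_of_ne_bot fun h => by
    have := hD.finrank_eq i; rw [h, finrank_bot] at this; exact hD.pos.ne this
  choose e he he0 using hne
  let Φ := CfsgLib.GeoNonMax.weight π
  have hΦe : ∀ i, Φ (e i) = 1 := fun i => by
    show CfsgLib.GeoNonMax.weight π (e i) = 1
    rw [CfsgLib.GeoNonMax.weight, Finset.sum_eq_single i (fun j _ hj => by rw [hπ4 j i hj _ (he i), if_pos rfl])
      (fun h => absurd (Finset.mem_univ i) h), hπ3 i _ (he i), if_neg (he0 i)]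
  have hΦee : ∀ i j, i ≠ j → Φ (e i + e j) = 2 := fun i j hij => by
    show CfsgLib.GeoNonMax.weight π (e i + e j) = 2
    rw [CfsgLib.GeoNonMax.weight, Finset.sum_eq_add i j hij]
    · rw [map_add, hπ3 i _ (he i), hπ4 i j hij _ (he j), add_zero, if_neg (he0 i), map_add,
        hπ4 j i hij.symm _ (he i), zero_add, hπ3 j _ (he j), if_neg (he0 j), one_add_one_eq_two]
    · intro c _ hc
      rw [map_add, hπ4 c i hc.1 _ (he i), hπ4 c j hc.2 _ (he j), add_zero, if_pos rfl]
    · exact fun h => absurd (Finset.mem_univ i) h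
    · exact fun h => absurd (Finset.mem_univ j) h
  obtain ⟨a, ha⟩ : ∃ a : Fin 6 → Fin t, Function.Injective a :=
    ⟨fun i => ⟨i.val, by omega⟩, fun i j h => Fin.ext (by simpa using h)⟩
  -- a map preserving the weight outside the stabiliser
  suffices hx : ∃ g ∈ Cfsg.Geo.specialLinear (Fin n) F, g ∈ CfsgLib.GeoNonMax.fixFun Φ ∧
      g ∉ Cfsg.Geo.decompositionStabilizer D by
    obtain ⟨g, hg1, hg2, hg3⟩ := hx
    refine ⟨CfsgLib.GeoNonMax.fixFun Φ ⊓ Cfsg.Geo.specialLinear (Fin n) F, ?_, ?_⟩
    · refine lt_of_le_not_ge (le_inf (fun x hx => CfsgLib.GeoNonMax.weight_stab hπ1 hπ2 hπ3 hπ4 hx.1) inf_le_right) ?_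
      exact fun hle => hg3 (hle ⟨hg2, hg1⟩).1
    · refine lt_of_le_not_ge inf_le_right fun hle => ?_
      have h01 := ha.ne (show (0 : Fin 6) ≠ 1 by decide)
      obtain ⟨φ, hφ1, hφ⟩ := Submodule.exists_dual_map_eq_bot_of_notMem (p := D (a 1)) (x := e (a 0))
        (fun hc => he0 _ (CfsgLib.GeoDecomp.eq_zero_of_mem hD h01 (he _) hc)) inferInstance
      have hφb : φ (e (a 1)) = 0 := (Submodule.mem_bot F).1 (hφ ▸ Submodule.mem_map_of_mem (he (a 1)))
      obtain ⟨u, hu, hudet⟩ := CfsgLib.GeoNonMax.exists_rankOne (e (a 1)) ((φ (e (a 0)))⁻¹ • φ)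
        (by simp [hφb])
      have := (hle (CfsgLib.GeoNonMax.mem_specialLinear.2 (by rw [hudet]; simp [hφb]))).1 (e (a 0))
      rw [hu, LinearMap.smul_apply, smul_eq_mul, inv_mul_cancel₀ hφ1, one_smul, hΦee _ _ h01, hΦe] at this
      exact one_ne_zero (show (1 : F) = 0 by linear_combination this)
  rcases h with ⟨rfl, hq⟩ | ⟨rfl, hq⟩
  · -- coordinates
    have hc' : ∀ i, ∃ c : (Fin n → F) →ₗ[F] F, ∀ x, π i x = c x • e i := by
      intro i
      have hsp : Submodule.span F {e i} = D i := Submodule.eq_of_le_of_finrank_eq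
        ((Submodule.span_singleton_le_iff_mem _ _).2 (he i)) (by rw [finrank_span_singleton (he0 i), hD.finrank_eq])
      let E := LinearEquiv.toSpanNonzeroSingleton F (Fin n → F) (e i) (he0 i)
      let p : (Fin n → F) →ₗ[F] Submodule.span F {e i} := (π i).codRestrict _ fun x => by rw [hsp]; exact hπ1 i x
      refine ⟨E.symm.toLinearMap.comp p, fun x => ?_⟩
      have := congrArg Subtype.val (E.apply_symm_apply (p x))
      exact this.symm
    choose c hc using hc'
    have hce : ∀ i j, c i (e j) = if i = j then 1 else 0 := by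
      intro i j
      rcases eq_or_ne i j with rfl | hij
      · rw [if_pos rfl]
        have := hc i (e i)
        rw [hπ3 i _ (he i)] at this
        exact smul_left_injective F (he0 i) (by simpa using this.symm)
      · rw [if_neg hij]
        have := hc i (e j)
        rw [hπ4 i j hij _ (he j)] at this
        exact (smul_eq_zero.1 this.symm).resolve_right (he0 i)
    have hΦc : ∀ x, Φ x = ∑ i, c i x ^ (Fintype.card F - 1) := fun x => by
      show CfsgLib.GeoNonMax.weight π x = _
      refine Finset.sum_congr rfl fun i _ => ?_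
      rcases eq_or_ne (c i x) 0 with h0 | h0
      · rw [hc, h0, zero_smul, if_pos rfl, zero_pow (by have := Fintype.one_lt_card (α := F); omega)]
      · rw [hc, if_neg (smul_ne_zero h0 (he0 i)), FiniteField.pow_card_sub_one_eq_one _ h0]
    -- four coordinates at once
    have hr : ∀ b : Fin 4 → Fin t, Function.Injective b → ∃ g : GL (Fin n) F, g ∈ CfsgLib.GeoNonMax.fixFun Φ ∧
        (∀ g' : GL (Fin n) F, (g' : Matrix (Fin n) (Fin n) F).mulVec (e (b 0)) =
          (g : Matrix (Fin n) (Fin n) F).mulVec (e (b 0)) → g' ∉ Cfsg.Geo.decompositionStabilizer D) ∧ (g : Matrix (Fin n) (Fin n) F).det = 1 + 4 ∧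
        (∀ i, (∀ j, b j ≠ i) → (g : Matrix (Fin n) (Fin n) F).mulVec (e i) = e i) := by
      intro b hb
      set L : Module.Dual F (Fin n → F) := ∑ j, c (b j)
      set w := ∑ j, e (b j)
      have hLe : ∀ i, L (e i) = ∑ j, if b j = i then 1 else 0 := fun i => by
        simp [L, LinearMap.sum_apply, hce]
      have hLb : ∀ j, L (e (b j)) = 1 := fun j => by
        rw [hLe, Finset.sum_eq_single j (fun l _ hl => if_neg (hb.ne hl)) (fun h => absurd (Finset.mem_univ j) h), if_pos rfl]
      have hLw : L w = 4 := by simp [w, map_sum, hLb]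
      have hp : (4 : F) = 0 ∨ (3 : F) = 0 := by
        have h2 := Fintype.one_lt_card (α := F)
        have h0 : ((Fintype.card F : ℕ) : F) = 0 := FiniteField.cast_card_eq_zero F
        interval_cases hN : Fintype.card F
        · exact Or.inl (by norm_num at h0; linear_combination 2 * h0)
        · exact Or.inr (by exact_mod_cast h0)
        · exact Or.inl (by exact_mod_cast h0)
      have h14 : (1 : F) + 4 ≠ 0 := by
        rcases hp with h | h
        · rw [h, add_zero]; exact one_ne_zero
        · intro h'; exact one_ne_zero (show (1 : F) = 0 by linear_combination 2 * h - h')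
      obtain ⟨g, hg, hgdet⟩ := CfsgLib.GeoNonMax.exists_rankOne w L (by rwa [hLw])
      have hcw : ∀ i, c i w = ∑ j, if i = b j then 1 else 0 := fun i => by simp [w, map_sum, hce]
      refine ⟨g, fun x => ?_, fun g' hg' hgs => ?_, by rw [hgdet, hLw], fun i hi => ?_⟩
      · rw [hΦc, hΦc, hg, ← sub_eq_zero, ← Finset.sum_sub_distrib,
          ← Finset.sum_subset (Finset.subset_univ (Finset.univ.image b)) (fun i _ hi => by
            rw [map_add, map_smul, hcw, Finset.sum_eq_zero fun j _ => if_neg ?_]
            · simp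
            · rintro rfl; exact hi (Finset.mem_image_of_mem b (Finset.mem_univ j))),
          Finset.sum_image hb.injOn]
        have hcj : ∀ j, c (b j) w = 1 := fun j => by
          rw [hcw, Finset.sum_eq_single j (fun l _ hl => if_neg (hb.ne hl.symm)) (fun h => absurd (Finset.mem_univ j) h), if_pos rfl]
        simp only [map_add, map_smul, hcj, smul_eq_mul, mul_one]
        have hL : L x = c (b 0) x + c (b 1) x + c (b 2) x + c (b 3) x := by
          simp [L, Fin.sum_univ_four, LinearMap.add_apply]
        rw [Fin.sum_univ_four]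
        generalize c (b 0) x = x₀, c (b 1) x = x₁, c (b 2) x = x₂, c (b 3) x = x₃, L x = l at hL ⊢
        have h2 := Fintype.one_lt_card (α := F)
        have h0 : ((Fintype.card F : ℕ) : F) = 0 := FiniteField.cast_card_eq_zero F
        interval_cases hN : Fintype.card F
        · norm_num at h0
          linear_combination 2 * l * h0
        · norm_num at h0
          linear_combination 2 * l ^ 2 * h0 - 2 * l * hL
        · have h2' : (2 : F) = 0 := by
            have : (2 : F) * 2 = 0 := by norm_num at h0; linear_combination h0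
            exact mul_self_eq_zero.1 this
          subst hL
          linear_combination (5 * (x₀ + x₁ + x₂ + x₃) ^ 3 - 3 * (x₀ + x₁ + x₂ + x₃) *
            (x₀ * x₁ + x₀ * x₂ + x₀ * x₃ + x₁ * x₂ + x₁ * x₃ + x₂ * x₃)) * h2'
      · obtain ⟨σ, hσ⟩ := hgs
        have himg : e (b 0) + w ∈ D (σ (b 0)) := by
          rw [← hσ (b 0)]
          exact ⟨e (b 0), he _, by rw [Matrix.toLin'_apply, hg', hg, hLb, one_smul]⟩
        obtain ⟨j, hj0, hjσ⟩ : ∃ j : Fin 4, j ≠ 0 ∧ b j ≠ σ (b 0) := by
          by_cases h1 : b 1 = σ (b 0)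
          · exact ⟨2, by decide, fun h2 => absurd (hb (h2.trans h1.symm)) (by decide)⟩
          · exact ⟨1, by decide, h1⟩
        have := congrArg (c (b j)) (show (0 : Fin n → F) = π (b j) (e (b 0) + w) from (hπ4 _ _ hjσ _ himg).symm)
        rw [map_zero, hc, map_smul, map_add, hce, hce, if_neg (hb.ne hj0), zero_add, if_pos rfl, smul_eq_mul,
          mul_one, hcw, Finset.sum_eq_single j (fun l _ hl => if_neg (hb.ne hl.symm))
            (fun h => absurd (Finset.mem_univ j) h), if_pos rfl] at this
        exact zero_ne_one this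
      · rw [hg, hLe, Finset.sum_eq_zero fun j _ => if_neg (hi j), zero_smul, add_zero]
    obtain ⟨b₁, hb₁⟩ : ∃ b : Fin 4 → Fin t, b = fun i => ⟨i.val, by omega⟩ := ⟨_, rfl⟩
    obtain ⟨b₂, hb₂⟩ : ∃ b : Fin 4 → Fin t, b = fun i => ⟨4 + i.val, by omega⟩ := ⟨_, rfl⟩
    have hinj₁ : Function.Injective b₁ := fun i j h => Fin.ext (by simpa [hb₁] using h)
    have hinj₂ : Function.Injective b₂ := fun i j h => Fin.ext (by simpa [hb₂] using h)
    obtain ⟨g₁, hg₁, hn₁, hd₁, -⟩ := hr b₁ hinj₁
    obtain ⟨g₂, hg₂, -, hd₂, hfix₂⟩ := hr b₂ hinj₂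
    by_cases h4 : (4 : F) = 0
    · exact ⟨g₁, CfsgLib.GeoNonMax.mem_specialLinear.2 (by rw [hd₁, h4, add_zero]), hg₁, hn₁ g₁ rfl⟩
    have h3 : (3 : F) = 0 := by
      have h2 := Fintype.one_lt_card (α := F)
      have h0 : ((Fintype.card F : ℕ) : F) = 0 := FiniteField.cast_card_eq_zero F
      interval_cases hN : Fintype.card F
      · exact absurd (by norm_num at h0; linear_combination 2 * h0) h4
      · exact_mod_cast h0
      · exact absurd (by exact_mod_cast h0) h4
    refine ⟨g₁ * g₂, CfsgLib.GeoNonMax.mem_specialLinear.2 ?_, mul_mem hg₁ hg₂, fun hs => ?_⟩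
    · rw [Units.val_mul, Matrix.det_mul, hd₁, hd₂]; linear_combination 8 * h3
    · refine hn₁ _ ?_ hs
      rw [Units.val_mul, ← Matrix.mulVec_mulVec, hfix₂ _ fun j => ?_]
      simp only [hb₁, hb₂, ne_eq, Fin.ext_iff]
      omega
  · -- three members
    have hF : ∀ z : F, z = 0 ∨ z = 1 := by
      intro z
      by_contra hz
      push Not at hz
      have h3 : ({0, 1, z} : Finset F).card = 3 := by
        rw [Finset.card_insert_of_notMem (by simp [hz.1.symm]), Finset.card_pair hz.2.symm]
      have := Finset.card_le_univ ({0, 1, z} : Finset F)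
      omega
    have h2 : (2 : F) = 0 := by
      have h0 : ((Fintype.card F : ℕ) : F) = 0 := FiniteField.cast_card_eq_zero F
      rw [hq] at h0; exact_mod_cast h0
    have hSL : ∀ g : GL (Fin n) F, g ∈ Cfsg.Geo.specialLinear (Fin n) F := fun g =>
      CfsgLib.GeoNonMax.mem_specialLinear.2 ((hF _).resolve_left
        ((Matrix.isUnit_iff_isUnit_det _).1 g.isUnit).ne_zero)
    -- the functional of a member vanishing on its chosen vector
    have hlam' : ∀ i, ∃ φ : Module.Dual F (Fin n → F), φ (e i) = 0 ∧ (∀ j, j ≠ i → ∀ d ∈ D j, φ d = 0) ∧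
        (∃ b ∈ D i, φ b = 1) ∧ ∀ d ∈ D i, φ d = 0 → d = 0 ∨ d = e i := by
      intro i
      obtain ⟨b, hb, hbe⟩ : ∃ b ∈ D i, b ∉ Submodule.span F {e i} := by
        refine SetLike.not_le_iff_exists.1 fun hle => ?_
        have := Submodule.finrank_mono hle
        rw [hD.finrank_eq, finrank_span_singleton (he0 i)] at this
        omega
      obtain ⟨φ, hφb, hφ⟩ := Submodule.exists_dual_map_eq_bot_of_notMem hbe inferInstance
      have hφe : φ (e i) = 0 := (Submodule.mem_bot F).1 (hφ ▸ Submodule.mem_map_of_mem (Submodule.mem_span_singleton_self _))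
      have hφb1 : φ b = 1 := (hF _).resolve_left hφb
      have hli : LinearIndependent F ![e i, b] := (LinearIndependent.pair_iff' (he0 i)).2 fun c hc =>
        hbe (Submodule.mem_span_singleton.2 ⟨c, hc⟩)
      have hspan : Submodule.span F {e i, b} = D i := Submodule.eq_of_le_of_finrank_le
        (Submodule.span_le.2 (by rintro z (rfl | rfl); exacts [he i, hb]))
        (by rw [hD.finrank_eq, ← Matrix.range_cons_cons_empty (e i) b ![], finrank_span_eq_card hli]; simp)
      refine ⟨φ.comp (π i), by rw [LinearMap.comp_apply, hπ3 i _ (he i), hφe],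
        fun j hj d hd => by rw [LinearMap.comp_apply, hπ4 i j hj.symm d hd, map_zero],
        ⟨b, hb, by rw [LinearMap.comp_apply, hπ3 i b hb, hφb1]⟩, fun d hd h0 => ?_⟩
      rw [LinearMap.comp_apply, hπ3 i d hd] at h0
      rw [← hspan, Submodule.mem_span_pair] at hd
      obtain ⟨r, s, rfl⟩ := hd
      rw [map_add, map_smul, map_smul, hφe, hφb1, smul_zero, zero_add, smul_eq_mul, mul_one] at h0
      subst h0
      rcases hF r with rfl | rfl <;> simp
    choose l hle hlo hlb hlk using hlam'
    set L : Module.Dual F (Fin n → F) := l (a 0) + l (a 1) + l (a 2)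
    set w := e (a 0) + e (a 1) + e (a 2)
    have hlej : ∀ i j, l i (e j) = 0 := fun i j => by
      rcases eq_or_ne j i with rfl | hji
      · exact hle j
      · exact hlo i j hji _ (he j)
    have hLw : L w = 0 := by simp [L, w, hlej]
    obtain ⟨g, hg, -⟩ := CfsgLib.GeoNonMax.exists_rankOne w L (by rw [hLw, add_zero]; exact one_ne_zero)
    have hne : ∀ i j : Fin 6, i ≠ j → a i ≠ a j := fun i j h => ha.ne h
    have hπw : ∀ i, π i w = (if a 0 = i then e i else 0) + (if a 1 = i then e i else 0) +
        (if a 2 = i then e i else 0) := by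
      intro i
      have : ∀ j, π i (e j) = if j = i then e i else 0 := fun j => by
        rcases eq_or_ne j i with rfl | hji
        · rw [if_pos rfl, hπ3 j _ (he j)]
        · rw [if_neg hji, hπ4 i j hji.symm _ (he j)]
      simp [w, map_add, this]
    refine ⟨g, hSL g, fun x => ?_, fun hgs => ?_⟩
    · show CfsgLib.GeoNonMax.weight π ((g : Matrix (Fin n) (Fin n) F).mulVec x) = CfsgLib.GeoNonMax.weight π x
      rw [hg]
      rcases hF (L x) with hL | hL
      · rw [hL, zero_smul, add_zero]
      rw [hL, one_smul, CfsgLib.GeoNonMax.weight, CfsgLib.GeoNonMax.weight]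
      have key : ∀ i, (if π i (x + w) = 0 then (0 : F) else 1) = (if π i x = 0 then 0 else 1) +
          ((if a 0 = i then 1 + l i x else 0) + (if a 1 = i then 1 + l i x else 0) +
            (if a 2 = i then 1 + l i x else 0)) := by
        intro i
        have hone : a 0 = i ∨ a 1 = i ∨ a 2 = i → π i w = e i ∧
            ((if a 0 = i then 1 + l i x else 0) + (if a 1 = i then 1 + l i x else 0) +
              (if a 2 = i then 1 + l i x else (0 : F))) = 1 + l i x := by
          rintro (h | h | h) <;> subst h <;> simp [hπw, hne]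
        by_cases hin : a 0 = i ∨ a 1 = i ∨ a 2 = i
        swap
        · push Not at hin
          simp [map_add, hπw, hin.1, hin.2.1, hin.2.2]
        obtain ⟨h1, h1'⟩ := hone hin
        rw [map_add, h1, h1']
        have hlx : l i x = l i (π i x) := by
          conv_lhs => rw [← hπ2 x, map_sum]
          exact Finset.sum_eq_single i (fun j _ hj => hlo i j hj _ (hπ1 j x)) (fun h => absurd (Finset.mem_univ i) h)
        rw [hlx]
        rcases hF (l i (π i x)) with h0 | h0
        · rw [h0, add_zero]
          rcases hlk i _ (hπ1 i x) h0 with hz | hz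
          · rw [hz, zero_add, if_neg (he0 i), if_pos rfl, zero_add]
          · rw [hz, if_neg (he0 i), ← two_smul F (e i), h2, zero_smul, if_pos rfl, one_add_one_eq_two, h2]
        · rw [h0, one_add_one_eq_two, h2, add_zero, if_neg, if_neg]
          · intro hz; rw [hz, map_zero] at h0; exact zero_ne_one h0
          · intro hz
            have := congrArg (l i) hz
            rw [map_add, hle, h0, add_zero, map_zero] at this
            exact one_ne_zero this
      simp only [key, Finset.sum_add_distrib, Finset.sum_ite_eq, Finset.mem_univ, if_true]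
      have : L x = l (a 0) x + l (a 1) x + l (a 2) x := rfl
      linear_combination 2 * h2 + hL - this
    · obtain ⟨σ, hσ⟩ := hgs
      obtain ⟨b, hb, hlb1⟩ := hlb (a 0)
      have hLb : L b = 1 := by
        simp [L, hlb1, hlo _ _ (hne 0 1 (by decide)) b hb, hlo _ _ (hne 0 2 (by decide)) b hb]
      have himg : b + w ∈ D (σ (a 0)) := by
        rw [← hσ (a 0)]
        exact ⟨b, hb, by rw [Matrix.toLin'_apply, hg, hLb, one_smul]⟩
      obtain ⟨j, hj0, hjσ⟩ : ∃ j : Fin 6, (j = 1 ∨ j = 2) ∧ a j ≠ σ (a 0) := by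
        by_cases h1 : a 1 = σ (a 0)
        · exact ⟨2, Or.inr rfl, fun h2 => hne 2 1 (by decide) (h2.trans h1.symm)⟩
        · exact ⟨1, Or.inl rfl, h1⟩
      have h' := hπ4 _ _ hjσ _ himg
      rw [map_add, hπ4 _ _ (hne j 0 (by rcases hj0 with rfl | rfl <;> decide)) b hb, zero_add, hπw] at h'
      rcases hj0 with rfl | rfl <;> simp [hne] at h' <;> exact he0 _ h'

end Cfsg.Agent.S5635
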