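import Cfsg.Statements.S5638
import Mathlib

set_option autoImplicit false
open Cfsg

namespace Cfsg.Agent.S5638

/-- Over the field with 2 elements, for n = 2 n₂ ≥ 13, the stabiliser in SL_n of a tensor decomposition with factors of dimensions 2 and n₂ (the conjugate by any P of the Kronecker-product subgroup transported along any bijection Fin n ≃ Fin 2 × Fin n₂, intersected with SL_n) is not a maximal subgroup: some subgroup lies strictly between it and SL_n. -/
theorem result {F : Type*} [Field F] [Fintype F] (n : ℕ) (hn : 13 ≤ n) (hq : Fintype.card F = 2) (n₂ : ℕ) (e : Fin n ≃ Fin 2 × Fin n₂) (P : Matrix.GeneralLinearGroup (Fin n) F) : ∃ K : Subgroup (Matrix.GeneralLinearGroup (Fin n) F), Cfsg.Geo.tensorProductSubgroup 2 n₂ e P ⊓ Cfsg.Geo.specialLinear (Fin n) F < K ∧ K < Cfsg.Geo.specialLinear (Fin n) F := by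
  classical
  obtain hn2 : n = 2 * n₂ := by simpa using Fintype.card_congr e
  have : NeZero n₂ := ⟨by omega⟩
  have hF : ∀ x : F, x = 0 ∨ x = 1 := by
    intro x
    by_contra hx
    push Not at hx
    have h3 : ({0, 1, x} : Finset F).card = 3 := by
      rw [Finset.card_insert_of_notMem (by simp [hx.1.symm]),
        Finset.card_pair hx.2.symm]
    have := Finset.card_le_univ ({0, 1, x} : Finset F)
    omega
  have h11 : (1 : F) + 1 = 0 := by
    rcases hF (1 + 1) with h | h
    · exact h
    · exact absurd (add_eq_left.mp h) one_ne_zero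
  let κ := Fin 2 × Fin n₂
  let ω : Matrix (Fin 2) (Fin 2) F := !![0, 1; 1, 1]
  let W : Matrix κ κ F := Matrix.kroneckerMap (· * ·) ω (1 : Matrix (Fin n₂) (Fin n₂) F)
  have hM2 : ∀ (M : Matrix κ κ F), M + M = 0 := fun M => by
    ext i j; rw [Matrix.add_apply, Matrix.zero_apply]
    calc M i j + M i j = M i j * (1 + 1) := by ring
    _ = 0 := by rw [h11, mul_zero]
  let K₀ : Subgroup (GL κ F) :=
    { carrier := {g | (g : Matrix κ κ F) * W = W * g ∨ (g : Matrix κ κ F) * W = (W + 1) * g}
      mul_mem' := by
        intro g h hg hh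
        simp only [Set.mem_ofPred_eq, Units.val_mul] at *
        rcases hg with hg | hg <;> rcases hh with hh | hh
        · left; rw [mul_assoc, hh, ← mul_assoc, hg, mul_assoc]
        · right; rw [mul_assoc, hh, ← mul_assoc, mul_add, hg, mul_one]; noncomm_ring
        · right; rw [mul_assoc, hh, ← mul_assoc, hg, mul_assoc]
        · left
          rw [mul_assoc, hh, ← mul_assoc, mul_add, hg, mul_one]
          simp only [add_mul, one_mul, mul_assoc]
          rw [add_assoc, hM2, add_zero]
      one_mem' := by simp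
      inv_mem' := by
        intro g hg
        simp only [Set.mem_ofPred_eq] at *
        rcases hg with hg | hg
        · left
          rw [Units.inv_mul_eq_iff_eq_mul, ← mul_assoc, hg, mul_assoc, Units.mul_inv, mul_one]
        · right
          rw [Units.inv_mul_eq_iff_eq_mul, ← mul_assoc, mul_add, hg, mul_one]
          simp only [add_mul, one_mul, mul_assoc, Units.mul_inv, mul_one]
          rw [add_assoc, hM2, add_zero] }
  have hle : Cfsg.Geo.kroneckerSubgroup 2 n₂ F < K₀ := by
    refine lt_of_le_of_ne ?_ ?_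
    · rintro g ⟨a, b, hg⟩
      show _ ∨ _
      have ha : (a : Matrix (Fin 2) (Fin 2) F) * ω = ω * a ∨
          (a : Matrix (Fin 2) (Fin 2) F) * ω = (ω + 1) * a := by
        have hdet : (a : Matrix (Fin 2) (Fin 2) F).det ≠ 0 :=
          ((Matrix.isUnit_iff_isUnit_det _).mp a.isUnit).ne_zero
        revert hdet
        generalize (a : Matrix (Fin 2) (Fin 2) F) = A
        rw [Matrix.eta_fin_two A]
        rcases hF (A 0 0) with h1 | h1 <;> rcases hF (A 0 1) with h2 | h2 <;>
          rcases hF (A 1 0) with h3 | h3 <;> rcases hF (A 1 1) with h4 | h4 <;>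
          simp [h1, h2, h3, h4, ω, Matrix.one_fin_two, Matrix.det_fin_two, h11]
      have h1 : (g : Matrix κ κ F) * W =
          Matrix.kroneckerMap (· * ·) ((a : Matrix (Fin 2) (Fin 2) F) * ω) (b : Matrix (Fin n₂) (Fin n₂) F) := by
        rw [hg, ← Matrix.mul_kronecker_mul, mul_one]
      rcases ha with ha | ha
      · left; rw [h1, ha, hg, ← Matrix.mul_kronecker_mul, one_mul]
      · right
        rw [h1, ha, hg, ← Matrix.one_kronecker_one (m := Fin 2) (n := Fin n₂),
          ← Matrix.add_kronecker, ← Matrix.mul_kronecker_mul, one_mul]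
    · intro heq
      let E : Matrix (Fin n₂) (Fin n₂) F :=
        Matrix.single ⟨0, by omega⟩ ⟨1, by omega⟩ 1
      have hEE : E * E = 0 :=
        Matrix.single_mul_single_of_ne _ _ _ _ (by simp [Fin.ext_iff]) _
      let N : Matrix κ κ F := Matrix.kroneckerMap (· * ·) ω E
      have hNN : (1 + N) * (1 + N) = 1 := by
        have : N * N = 0 := by rw [← Matrix.mul_kronecker_mul, hEE, Matrix.kronecker_zero]
        rw [show (1 + N) * (1 + N) = 1 + (N + N) + N * N by noncomm_ring, hM2, this]; simp
      let u : GL κ F := ⟨1 + N, 1 + N, hNN, hNN⟩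
      have hu : u ∈ K₀ := by
        left
        show (1 + N) * W = W * (1 + N)
        rw [add_mul, mul_add, one_mul, mul_one, ← Matrix.mul_kronecker_mul,
          ← Matrix.mul_kronecker_mul, mul_one, one_mul]
      rw [← heq] at hu
      obtain ⟨a, b, hab⟩ := hu
      have hab' : (1 + N : Matrix κ κ F) = Matrix.kroneckerMap (· * ·)
          (a : Matrix (Fin 2) (Fin 2) F) (b : Matrix (Fin n₂) (Fin n₂) F) := hab
      have e1 := congrFun (congrFun hab' (0, ⟨0, by omega⟩)) (0, ⟨0, by omega⟩)
      have e2 := congrFun (congrFun hab' (0, ⟨0, by omega⟩)) (1, ⟨0, by omega⟩)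
      have e3 := congrFun (congrFun hab' (0, ⟨0, by omega⟩)) (1, ⟨1, by omega⟩)
      simp [N, E, ω, Matrix.one_apply, Matrix.single_apply, Fin.ext_iff] at e1 e2 e3
      rcases e2 with e2 | e2
      · rw [e2, zero_mul] at e3; exact one_ne_zero e3
      · rw [e2, mul_zero] at e1; exact one_ne_zero e1
  have hlt : K₀ < ⊤ := by
    refine lt_of_le_of_ne le_top fun heq => ?_
    let T : Matrix κ κ F := Matrix.single (0, ⟨0, by omega⟩) (0, ⟨1, by omega⟩) 1
    have hTT : (1 + T) * (1 + T) = 1 := by
      have : T * T = 0 := Matrix.single_mul_single_of_ne _ _ _ _ (by intro h; have h' := congrArg (fun x : Fin 2 × Fin n₂ => (x.1.val, x.2.val)) h; simp at h') _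
      rw [show (1 + T) * (1 + T) = 1 + (T + T) + T * T by noncomm_ring, hM2, this]; simp
    let v : GL κ F := ⟨1 + T, 1 + T, hTT, hTT⟩
    have hv : v ∈ K₀ := heq ▸ Subgroup.mem_top v
    have hv' : (1 + T) * W = W * (1 + T) ∨ (1 + T) * W = (W + 1) * (1 + T) := hv
    rcases hv' with h | h
    · rw [add_mul, mul_add, one_mul, mul_one, add_right_inj] at h
      have := congrFun (congrFun h (0, ⟨0, by omega⟩)) (1, ⟨1, by omega⟩)
      rw [Matrix.single_mul_apply_same,
        Matrix.mul_single_apply_of_ne _ _ _ _ _ (by intro h; have h' := congrArg (fun x : Fin 2 × Fin n₂ => (x.1.val, x.2.val)) h; simp at h')] at this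
      simp [W, ω] at this
    · rw [add_mul (1 : Matrix κ κ F) T, one_mul, mul_add (W + 1), mul_one] at h
      have := congrFun (congrFun h (0, ⟨0, by omega⟩)) (0, ⟨0, by omega⟩)
      rw [Matrix.add_apply, Matrix.add_apply, Matrix.single_mul_apply_same,
        Matrix.mul_single_apply_of_ne _ _ _ _ _ (by intro h; have h' := congrArg (fun x : Fin 2 × Fin n₂ => (x.1.val, x.2.val)) h; simp at h')] at this
      simp [W, ω, Matrix.one_apply, Fin.ext_iff] at this
  have hSL : Cfsg.Geo.specialLinear (Fin n) F = ⊤ := by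
    rw [eq_top_iff]
    intro g _
    rw [Cfsg.Geo.specialLinear, MonoidHom.mem_ker]
    apply Units.ext
    exact (hF _).resolve_left (Units.ne_zero _)
  rw [hSL, inf_top_eq]
  refine ⟨(K₀.map (Cfsg.Geo.glReindex e.symm).toMonoidHom).map (MulAut.conj P).toMonoidHom, ?_, ?_⟩
  · rw [Cfsg.Geo.tensorProductSubgroup]
    exact (Subgroup.map_lt_map_iff_of_injective (f := (MulAut.conj P).toMonoidHom) (MulAut.conj P).injective).mpr
      ((Subgroup.map_lt_map_iff_of_injective (f := (Cfsg.Geo.glReindex e.symm).toMonoidHom) (Cfsg.Geo.glReindex e.symm).injective).mpr hle)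
  · have h1 : K₀.map (Cfsg.Geo.glReindex e.symm).toMonoidHom < ⊤ := by
      have := (Subgroup.map_lt_map_iff_of_injective (f := (Cfsg.Geo.glReindex e.symm).toMonoidHom) (Cfsg.Geo.glReindex e.symm).injective).mpr hlt
      exact this.trans_le le_top
    have := (Subgroup.map_lt_map_iff_of_injective (f := (MulAut.conj P).toMonoidHom) (MulAut.conj P).injective).mpr h1
    rwa [Subgroup.map_top_of_surjective _ (MulAut.conj P).surjective] at this

end Cfsg.Agent.S5638
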