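import Cfsg.Statements.S5642
import Cfsg.Agent.GeoLib.FullSL

set_option autoImplicit false
open Cfsg

namespace Cfsg.Agent.S5642

/-- For a finite field F and n ≥ 13, let f be a non-degenerate symplectic form on F^n (so n is even). Then the elements of SL_n(F) that are similarities of f (f(gu, gv) = c f(u, v) for a non-zero scalar c depending on g) form a maximal subgroup of SL_n(F). -/
theorem result {F : Type*} [Field F] [Fintype F] (n : ℕ) (hn : 13 ≤ n) (f : (Fin n → F) → (Fin n → F) → F) (hf : Cfsg.Geo.IsSymplecticForm f) : Cfsg.Geo.IsMaximalIn (Cfsg.Geo.specialLinear (Fin n) F) (Cfsg.Geo.similarityGroup f ⊓ Cfsg.Geo.specialLinear (Fin n) F) := by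
  classical
  haveI : Nontrivial (Fin n) := Fin.nontrivial_iff_two_le.2 (by omega)
  let B : LinearMap.BilinForm F (Fin n → F) := LinearMap.mk₂ F f hf.bilinear.add_left
    (fun c x v => by rw [hf.bilinear.smul_left, smul_eq_mul]) hf.bilinear.add_right
    (fun c v x => by rw [hf.bilinear.smul_right, smul_eq_mul])
  have hB : ∀ x, (∀ y, B x y = 0) → x = 0 := fun x hx => by_contra fun h0 => by
    obtain ⟨y, hy⟩ := (hf.nondegenerate x h0).2
    exact hy (hx y)
  have hinj : Function.Injective B := (injective_iff_map_eq_zero B).2 fun x hx => hB x fun y => by rw [hx]; rfl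
  have hskew : ∀ x y, B y x = -B x y := fun x y => hf.skew y x
  -- symplectic transvections lie in the similarity group
  have hsymp : ∀ (w : Fin n → F) (c : F), CfsgLib.GeoParabolic.HasTv
      (Cfsg.Geo.similarityGroup f ⊓ Cfsg.Geo.specialLinear (Fin n) F) w (c • B w) := by
    intro w c g hg
    refine ⟨⟨1, fun x y => ?_⟩, ?_⟩
    · show B _ _ = _ * B x y
      rw [hg, hg]
      simp [show B w w = 0 from hf.alternating w, hskew w x]
      ring
    · obtain ⟨s, hs, hs'⟩ := CfsgLib.GeoTransvection.exists_transvection w (c • B w)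
        (by simp [show B w w = 0 from hf.alternating w])
      rwa [show g = s from CfsgLib.GeoFull.gl_ext fun x => by rw [hg, hs']]
  -- a transvection which is no similarity
  refine ⟨lt_of_le_not_ge inf_le_right fun hle => ?_, fun M hGM hMS => ?_⟩
  · obtain ⟨v, hv⟩ := exists_ne (0 : Fin n → F)
    obtain ⟨y, hy⟩ : ∃ y, B v y ≠ 0 := by
      by_contra h'; push Not at h'; exact hv (hB v h')
    -- a vector outside the plane of `v` and `y`, orthogonal to `v`
    obtain ⟨u, hu, hu'⟩ : ∃ u, B v u = 0 ∧ u ∉ Submodule.span F {v} := by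
      by_contra hall
      push Not at hall
      have hle' : LinearMap.ker (B v) ≤ Submodule.span F {v} := fun z hz => hall z hz
      have h1 := Submodule.finrank_mono hle'
      rw [finrank_span_singleton hv] at h1
      have h3 := (B v).finrank_range_add_finrank_ker
      have h4 := Submodule.finrank_le (LinearMap.range (B v))
      simp at h4
      rw [Module.finrank_fin_fun] at h3
      omega
    have huv : B u v = 0 := by rw [hskew, hu, neg_zero]
    obtain ⟨g, hgS, hg⟩ := CfsgLib.GeoTransvection.exists_transvection v (B u) huv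
    obtain ⟨c, hc⟩ := (hle hgS).1
    -- `f (g v) (g y) = f v y`
    have h1 := hc v y
    rw [hg, hg, huv, zero_smul, add_zero] at h1
    change B v (y + B u y • v) = _ * B v y at h1
    rw [map_add, map_smul, show B v v = 0 from hf.alternating v, smul_zero, add_zero] at h1
    have hc1 : (c : F) = 1 := by
      field_simp at h1
      exact h1.symm
    have h2 : ∀ a b, B u b * B a v + B u a * B v b = 0 := by
      intro a b
      have h := hc a b
      rw [hg, hg, hc1, one_mul] at h
      change B (a + B u a • v) (b + B u b • v) = B a b at h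
      simp [show B v v = 0 from hf.alternating v] at h
      linear_combination h
    refine hu' (Submodule.mem_span_singleton.2 ⟨B u y / B v y, hinj (LinearMap.ext fun b => ?_)⟩)
    have := h2 y b
    rw [hskew v y] at this
    simp
    field_simp
    linear_combination this
  by_cases hle : M ≤ Cfsg.Geo.similarityGroup f
  · exact Or.inl (le_antisymm (le_inf hle hMS) hGM)
  refine Or.inr (le_antisymm hMS ?_)
  obtain ⟨g, hg, hgn⟩ := SetLike.not_le_iff_exists.1 hle
  let gi := ((g⁻¹ : Matrix.GeneralLinearGroup (Fin n) F) : Matrix (Fin n) (Fin n) F)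
  by_contra hnot
  refine hgn ?_
  -- every conjugate functional is proportional to the old one
  have hprop : ∀ v, ∃ c : F, (B (gi.mulVec v)).comp (Matrix.toLin' gi) = c • B v := by
    intro v
    rcases eq_or_ne v 0 with rfl | hv
    · exact ⟨0, by simp⟩
    have h := CfsgLib.GeoParabolic.hasTv_conj hg (fun t ht => hGM (hsymp (gi.mulVec v) 1 t ht) :
      CfsgLib.GeoParabolic.HasTv M (gi.mulVec v) ((1 : F) • B (gi.mulVec v)))
    rw [CfsgLib.GeoFull.mulVec_inv_cancel, one_smul] at h
    by_contra hne
    push Not at hne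
    refine hnot (CfsgLib.GeoFull.symplectic_le (fun x => hf.alternating x) hB
      (fun w c t ht => hGM (hsymp w c t ht)) hv ?_ ?_ h)
    · show B (gi.mulVec v) (gi.mulVec v) = 0
      exact hf.alternating _
    · rw [Submodule.mem_span_singleton]
      rintro ⟨c, hc⟩
      exact hne c hc.symm
  choose c hc using hprop
  have hc' : ∀ v x, B (gi.mulVec v) (gi.mulVec x) = c v * B v x := fun v x => by
    simpa using LinearMap.congr_fun (hc v) x
  -- the factor does not depend on the vector
  have hpair : ∀ v w, B v w ≠ 0 → c v = c w := by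
    intro v w hvw
    have h1 := hc' v w
    have h2 := hc' w v
    rw [hskew (gi.mulVec v), h1, hskew v w] at h2
    exact mul_right_cancel₀ hvw (by linear_combination -h2)
  obtain ⟨v₀, hv₀⟩ := exists_ne (0 : Fin n → F)
  have hconst : ∀ v, v ≠ 0 → c v = c v₀ := by
    intro v hv
    by_cases h : B v v₀ = 0
    · obtain ⟨a, ha⟩ : ∃ a, B v a ≠ 0 := by
        by_contra h'; push Not at h'; exact hv (hB v h')
      obtain ⟨b, hb⟩ : ∃ b, B v₀ b ≠ 0 := by
        by_contra h'; push Not at h'; exact hv₀ (hB v₀ h')
      by_cases ha' : B v₀ a = 0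
      · by_cases hb' : B v b = 0
        · rw [hpair v (a + b) (by simpa [hb'] using ha), hpair v₀ (a + b) (by simpa [ha'] using hb)]
        · rw [hpair v b hb', hpair v₀ b hb]
      · rw [hpair v a ha, hpair v₀ a ha']
    · exact hpair v v₀ h
  have hscal : ∀ v x, B (gi.mulVec v) (gi.mulVec x) = c v₀ * B v x := by
    intro v x
    rcases eq_or_ne v 0 with rfl | hv
    · simp
    · rw [hc', hconst v hv]
  have hc0 : c v₀ ≠ 0 := by
    intro h0
    obtain ⟨a, ha⟩ : ∃ a, B v₀ a ≠ 0 := by
      by_contra h'; push Not at h'; exact hv₀ (hB v₀ h')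
    have := hscal ((g : Matrix (Fin n) (Fin n) F).mulVec v₀) ((g : Matrix (Fin n) (Fin n) F).mulVec a)
    rw [CfsgLib.GeoFull.inv_mulVec_cancel, CfsgLib.GeoFull.inv_mulVec_cancel, h0, zero_mul] at this
    exact ha this
  have : g⁻¹ ∈ Cfsg.Geo.similarityGroup f := ⟨Units.mk0 _ hc0, hscal⟩
  simpa using inv_mem this

end Cfsg.Agent.S5642
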