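import Cfsg.Statements.S5643
import Cfsg.Agent.GeoLib.HermFull

set_option autoImplicit false
open Cfsg

namespace Cfsg.Agent.S5643

/-- For a finite field F and n ≥ 13, let σ be a field automorphism of F of order two and f a non-degenerate unitary form on F^n with respect to σ. Then the elements of SL_n(F) that are similarities of f form a maximal subgroup of SL_n(F). -/
theorem result {F : Type*} [Field F] [Fintype F] (n : ℕ) (hn : 13 ≤ n) (σ : F ≃+* F) (f : (Fin n → F) → (Fin n → F) → F) (hf : Cfsg.Geo.IsUnitaryForm σ f) : Cfsg.Geo.IsMaximalIn (Cfsg.Geo.specialLinear (Fin n) F) (Cfsg.Geo.similarityGroup f ⊓ Cfsg.Geo.specialLinear (Fin n) F) := by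
  classical
  haveI : Nontrivial (Fin n) := Fin.nontrivial_iff_two_le.2 (by omega)
  have haddr : ∀ v x y, f v (x + y) = f v x + f v y := fun v x y => by
    rw [hf.herm, hf.add_left, map_add, ← hf.herm, ← hf.herm]
  have hsmr : ∀ (c : F) v x, f v (c • x) = σ c * f v x := fun c v x => by
    rw [hf.herm, hf.smul_left, map_mul, ← hf.herm]
  let B : (Fin n → F) →ₛₗ[(σ : F →+* F)] (Fin n → F) →ₗ[F] F :=
    { toFun := fun v =>
        { toFun := fun x => f x v
          map_add' := fun x y => hf.add_left x y v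
          map_smul' := fun c x => by rw [RingHom.id_apply, smul_eq_mul]; exact hf.smul_left c x v }
      map_add' := fun u v => LinearMap.ext fun x => haddr x u v
      map_smul' := fun c v => LinearMap.ext fun x => hsmr c x v }
  have hBf : ∀ u v, B u v = f v u := fun u v => rfl
  let H : CfsgLib.GeoHerm.Herm (Fin n) F :=
    { σ := (σ : F →+* F)
      ne_id := fun h => hf.ne_refl (RingEquiv.ext fun a => by simpa using RingHom.congr_fun h a)
      invol := hf.involutive
      B := B
      symm := fun u v => (hf.herm u v).symm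
      inj := (injective_iff_map_eq_zero B).2 fun v hv => by_contra fun h0 => by
        obtain ⟨x, hx⟩ := (hf.nondegenerate v h0).1
        exact hx (LinearMap.congr_fun hv x) }
  have hHB : H.B = B := rfl
  have hroots : CfsgLib.GeoHerm.HasRoots H (Cfsg.Geo.similarityGroup f ⊓ Cfsg.Geo.specialLinear (Fin n) F) := by
    intro d a hd ha hda g hg
    obtain ⟨s, hsS, hs, hsQ⟩ := CfsgLib.GeoHerm.exists_root H hd ha hda
    rw [show g = s from CfsgLib.GeoFull.gl_ext fun x => by rw [hg, hs]]
    exact ⟨⟨1, fun u v => by rw [← hBf, Units.val_one, one_mul]; exact hsQ v u⟩, hsS⟩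
  have hcard : 13 ≤ Fintype.card (Fin n) := by simpa using hn
  refine ⟨lt_of_le_not_ge inf_le_right fun hle => ?_, fun M hGM hMS => ?_⟩
  · -- a transvection centred at an anisotropic vector is no similarity
    obtain ⟨v, hv⟩ : ∃ v, B v v ≠ 0 := by
      by_contra hall
      push Not at hall
      obtain ⟨x, hx⟩ := exists_ne (0 : Fin n → F)
      refine hx (H.inj ?_)
      rw [map_zero]
      exact LinearMap.ext fun y => CfsgLib.Hermitian.eq_zero_of_diag H.ne_id B ⟨fun a b => H.symm a b⟩ ⊤
        (fun w _ => hall w) x trivial y trivial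
    have hv0 : v ≠ 0 := fun h => hv (by rw [h]; simp)
    obtain ⟨x, hx, hx0⟩ := (CfsgLib.GeoHerm.perp H (Submodule.span F {v})).exists_mem_ne_zero_of_ne_bot fun h => by
      have := CfsgLib.GeoHerm.le_finrank_perp H (Submodule.span F {v})
      rw [h, finrank_bot, finrank_span_singleton hv0] at this
      omega
    have hvx : B v x = 0 := hx v (Submodule.mem_span_singleton_self v)
    have hxv : x ∉ Submodule.span F {v} := fun h => by
      obtain ⟨c, rfl⟩ := Submodule.mem_span_singleton.1 h
      rw [map_smul, smul_eq_mul, mul_eq_zero] at hvx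
      rcases hvx with h | h
      · exact hx0 (by rw [h, zero_smul])
      · exact hv h
    obtain ⟨φ, hφx, hφ⟩ := Submodule.exists_dual_map_eq_bot_of_notMem hxv inferInstance
    have hφv : φ v = 0 := (Submodule.mem_bot F).mp (hφ ▸ Submodule.mem_map_of_mem (Submodule.mem_span_singleton_self v))
    obtain ⟨g, hgS, hg⟩ := CfsgLib.GeoTransvection.exists_transvection v φ hφv
    obtain ⟨c, hc⟩ := (hle hgS).1
    have h1 := hc v v
    rw [hg, hφv, zero_smul, add_zero, ← hBf] at h1
    have hc1 : (c : F) = 1 := mul_right_cancel₀ hv (by rw [one_mul]; exact h1.symm)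
    have h2 := hc x x
    rw [hg, ← hBf, ← hBf x, hc1, one_mul, CfsgLib.GeoHerm.add_smul_self H] at h2
    have hxv' : B x v = 0 := CfsgLib.GeoHerm.comm_zero H hvx
    rw [hHB] at h2
    rw [hvx, hxv', mul_zero, mul_zero, add_zero, add_zero] at h2
    have hσ0 : H.σ (φ x) ≠ 0 := fun h => hφx (by rw [← H.invol (φ x), h, map_zero])
    exact mul_ne_zero (mul_ne_zero hσ0 hφx) hv (add_eq_left.1 h2)
  by_cases hle : M ≤ Cfsg.Geo.similarityGroup f
  · exact Or.inl (le_antisymm (le_inf hle hMS) hGM)
  refine Or.inr (le_antisymm hMS ?_)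
  obtain ⟨g, hg, hgn⟩ := SetLike.not_le_iff_exists.1 hle
  let gi : Matrix (Fin n) (Fin n) F := ((g⁻¹ : Matrix.GeneralLinearGroup (Fin n) F) : Matrix (Fin n) (Fin n) F)
  let B' : (Fin n → F) →ₛₗ[H.σ] (Fin n → F) →ₗ[F] F :=
    { toFun := fun v => (B (gi.mulVec v)).comp (Matrix.toLin' gi)
      map_add' := fun u v => by rw [Matrix.mulVec_add, map_add, LinearMap.add_comp]
      map_smul' := fun c v => by rw [Matrix.mulVec_smul, LinearMap.map_smulₛₗ, LinearMap.smul_comp] }
  have hB'f : ∀ u v, B' u v = B (gi.mulVec u) (gi.mulVec v) := fun u v => rfl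
  have hB' : Function.Injective B' := (injective_iff_map_eq_zero B').2 fun v hv => by
    have h0 : gi.mulVec v = 0 := H.inj (by
      rw [map_zero]
      refine LinearMap.ext fun y => ?_
      have := LinearMap.congr_fun hv ((g : Matrix (Fin n) (Fin n) F).mulVec y)
      rw [hB'f, CfsgLib.GeoFull.inv_mulVec_cancel] at this
      simpa [hHB] using this)
    simpa [gi] using congrArg (g : Matrix (Fin n) (Fin n) F).mulVec h0
  have hS' : ∀ u v, H.σ (B' u v) = B' v u := fun u v => H.symm _ _
  have hrM : CfsgLib.GeoHerm.HasRoots H M := fun d a hd ha hda t ht => hGM (hroots d a hd ha hda t ht)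
  have hrM' : CfsgLib.GeoHerm.HasRoots { H with B := B', symm := hS', inj := hB' } M := by
    intro d a hd ha hda t ht
    change ∀ z, (t : Matrix (Fin n) (Fin n) F).mulVec z = z + B' a z • d - B' d z • a at ht
    have h1 : g⁻¹ * t * g ∈ M := hrM (gi.mulVec d) (gi.mulVec a) hd ha hda _ fun x => by
      rw [Units.val_mul, Units.val_mul, ← Matrix.mulVec_mulVec, ← Matrix.mulVec_mulVec, ht, hB'f, hB'f,
        CfsgLib.GeoFull.inv_mulVec_cancel, Matrix.mulVec_sub, Matrix.mulVec_add, Matrix.mulVec_smul,
        Matrix.mulVec_smul, CfsgLib.GeoFull.inv_mulVec_cancel, hHB]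
    have : t = g * (g⁻¹ * t * g) * g⁻¹ := by group
    rw [this]; exact mul_mem (mul_mem hg h1) (inv_mem hg)
  have hne : ∀ c : F, ∃ x y, B' x y ≠ c * H.B x y := by
    intro c
    by_contra hall
    push Not at hall
    have hc0 : c ≠ 0 := by
      intro h0
      obtain ⟨x, hx⟩ := exists_ne (0 : Fin n → F)
      exact hx (hB' (by rw [map_zero]; exact LinearMap.ext fun y => by rw [hall, h0, zero_mul]; rfl))
    have : g⁻¹ ∈ Cfsg.Geo.similarityGroup f := ⟨Units.mk0 c hc0, fun u v => hall v u⟩
    exact hgn (by simpa using inv_mem this)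
  obtain ⟨v, u, hv, hu, huv, hM⟩ :=
    CfsgLib.GeoHerm.exists_tv_of_two_forms H B' hB' hS' (by omega) hrM hrM' hne
  exact CfsgLib.GeoHerm.specialLinear_le_of_tv H (by omega) hrM hv huv hu hM

end Cfsg.Agent.S5643
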