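import Cfsg.Statements.S5644
import Cfsg.Agent.GeoLib.OrthFull
import Cfsg.Agent.Forms.SimilitudeStd

set_option autoImplicit false
open Cfsg

namespace Cfsg.Agent.S5644

/-- For a finite field F of odd order and n ≥ 13, let Q be a non-degenerate quadratic form on F^n (its polar form is non-degenerate). Then the elements of SL_n(F) that are similarities of Q (Q(gv) = c Q(v) for a non-zero scalar c depending on g) form a maximal subgroup of SL_n(F). -/
theorem result {F : Type*} [Field F] [Fintype F] (n : ℕ) (hn : 13 ≤ n) (hodd : Odd (Fintype.card F)) (Q : (Fin n → F) → F) (hQ : Cfsg.Geo.IsNondegenerateQuadraticForm Q) : Cfsg.Geo.IsMaximalIn (Cfsg.Geo.specialLinear (Fin n) F) (Cfsg.Geo.quadSimilarityGroup Q ⊓ Cfsg.Geo.specialLinear (Fin n) F) := by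
  classical
  haveI : Nontrivial (Fin n) := Fin.nontrivial_iff_two_le.2 (by omega)
  obtain ⟨Q, rfl, hQn⟩ := CfsgLib.Forms.exists_quadForm hQ
  have h2 : (2 : F) ≠ 0 := (CfsgLib.Forms.Simil.two_ne_of_odd hodd).2
  have hroots : CfsgLib.GeoOrth.HasRoots Q (Cfsg.Geo.quadSimilarityGroup ⇑Q ⊓ Cfsg.Geo.specialLinear (Fin n) F) := by
    intro d a hd ha hda g hg
    obtain ⟨s, hsS, hs, hsQ⟩ := CfsgLib.GeoOrth.exists_root hd ha hda
    rw [show g = s from CfsgLib.GeoFull.gl_ext fun x => by rw [hg, hs]]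
    exact ⟨⟨1, fun v => by rw [hsQ]; simp⟩, hsS⟩
  have hcard : 13 ≤ Fintype.card (Fin n) := by simpa using hn
  refine ⟨lt_of_le_not_ge inf_le_right fun hle => ?_, fun M hGM hMS => ?_⟩
  · -- a transvection centred at an anisotropic vector is no similarity
    obtain ⟨v, hv⟩ : ∃ v, Q v ≠ 0 := by
      by_contra hall
      push Not at hall
      obtain ⟨x, hx⟩ := exists_ne (0 : Fin n → F)
      exact hx (CfsgLib.Forms.polar_ext hQn fun y => by simp [QuadraticMap.polar, hall])
    have hv0 : v ≠ 0 := fun h => hv (by rw [h, map_zero])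
    obtain ⟨x, hx⟩ : ∃ x, x ∉ Submodule.span F {v} := by
      by_contra hall
      push Not at hall
      have h := congrArg (fun U : Submodule F (Fin n → F) => Module.finrank F U)
        (eq_top_iff.2 fun y _ => hall y : Submodule.span F {v} = ⊤)
      simp [finrank_span_singleton hv0] at h
      omega
    obtain ⟨φ, hφx, hφ⟩ := Submodule.exists_dual_map_eq_bot_of_notMem hx inferInstance
    have hφv : φ v = 0 := (Submodule.mem_bot F).mp (hφ ▸ Submodule.mem_map_of_mem (Submodule.mem_span_singleton_self v))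
    have hf : ∀ k : F, ((k / φ x) • φ) v = 0 ∧ ((k / φ x) • φ) x = k := fun k =>
      ⟨by simp [hφv], by simp [hφx]⟩
    have hval : ∀ k : F, ∃ c : F, Q v = c * Q v ∧ Q x + k * k * Q v + k * QuadraticMap.polar Q x v = c * Q x := by
      intro k
      obtain ⟨g, hgS, hg⟩ := CfsgLib.GeoTransvection.exists_transvection v _ (hf k).1
      obtain ⟨c, hc⟩ := (hle hgS).1
      refine ⟨c, ?_, ?_⟩
      · rw [← hc, hg, (hf k).1, zero_smul, add_zero]
      · rw [← hc, hg, (hf k).2, CfsgLib.Forms.map_add_smul]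
    obtain ⟨c, hc, e⟩ := hval 1
    obtain ⟨c', hc', e'⟩ := hval (-1)
    have hc1 : c = 1 := mul_right_cancel₀ hv (by rw [one_mul]; exact hc.symm)
    have hc1' : c' = 1 := mul_right_cancel₀ hv (by rw [one_mul]; exact hc'.symm)
    rw [hc1] at e
    rw [hc1'] at e'
    exact mul_ne_zero h2 hv (by linear_combination e + e')
  by_cases hle : M ≤ Cfsg.Geo.quadSimilarityGroup ⇑Q
  · exact Or.inl (le_antisymm (le_inf hle hMS) hGM)
  refine Or.inr (le_antisymm hMS ?_)
  obtain ⟨g, hg, hgn⟩ := SetLike.not_le_iff_exists.1 hle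
  let gi : Matrix (Fin n) (Fin n) F := ((g⁻¹ : Matrix.GeneralLinearGroup (Fin n) F) : Matrix (Fin n) (Fin n) F)
  let Q' : QuadraticForm F (Fin n → F) := Q.comp (Matrix.toLin' gi)
  have hpol : ∀ x y, QuadraticMap.polar Q' x y = QuadraticMap.polar Q (gi.mulVec x) (gi.mulVec y) := fun x y => by
    simp [QuadraticMap.polar, Q', Matrix.mulVec_add]
  have hQ' : (QuadraticMap.polarBilin Q').Nondegenerate := CfsgLib.Forms.nondegenerate_iff.2 fun x hx => by
    have h0 : gi.mulVec x = 0 := CfsgLib.Forms.polar_ext hQn fun y => by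
      have := hx ((g : Matrix (Fin n) (Fin n) F).mulVec y)
      rwa [hpol, CfsgLib.GeoFull.inv_mulVec_cancel] at this
    simpa [gi] using congrArg (g : Matrix (Fin n) (Fin n) F).mulVec h0
  have hrM : CfsgLib.GeoOrth.HasRoots Q M := fun d a hd ha hda t ht => hGM (hroots d a hd ha hda t ht)
  have hrM' : CfsgLib.GeoOrth.HasRoots Q' M := by
    intro d a hd ha hda t ht
    have h1 : g⁻¹ * t * g ∈ M := hrM (gi.mulVec d) (gi.mulVec a) hd ha (by rwa [← hpol]) _ fun x => by
      rw [Units.val_mul, Units.val_mul, ← Matrix.mulVec_mulVec, ← Matrix.mulVec_mulVec, ht, hpol, hpol,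
        CfsgLib.GeoFull.inv_mulVec_cancel, Matrix.mulVec_sub, Matrix.mulVec_add, Matrix.mulVec_smul,
        Matrix.mulVec_smul, CfsgLib.GeoFull.inv_mulVec_cancel]
    have : t = g * (g⁻¹ * t * g) * g⁻¹ := by group
    rw [this]; exact mul_mem (mul_mem hg h1) (inv_mem hg)
  have hne : ∀ c : F, ∃ x y, QuadraticMap.polar Q' x y ≠ c * QuadraticMap.polar Q x y := by
    intro c
    by_contra hall
    push Not at hall
    have hQc : ∀ x, Q (gi.mulVec x) = c * Q x := fun x => by
      have := hall x x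
      rw [hpol, QuadraticMap.polar_self, QuadraticMap.polar_self, nsmul_eq_mul, nsmul_eq_mul] at this
      exact mul_left_cancel₀ h2 (by push_cast at this; linear_combination this)
    have hc0 : c ≠ 0 := by
      intro h0
      obtain ⟨x, hx⟩ := exists_ne (0 : Fin n → F)
      exact hx (CfsgLib.Forms.polar_ext hQ' fun y => by rw [hall, h0, zero_mul])
    have : g⁻¹ ∈ Cfsg.Geo.quadSimilarityGroup ⇑Q := ⟨Units.mk0 c hc0, hQc⟩
    exact hgn (by simpa using inv_mem this)
  obtain ⟨v, u, hv, hu, huv, hM⟩ := CfsgLib.GeoOrth.exists_tv_of_two_forms hQn hQ' hcard hrM hrM' hne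
  exact CfsgLib.GeoOrth.specialLinear_le_of_tv' h2 hQn (by omega) hrM hv hu huv hM

end Cfsg.Agent.S5644
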