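import Cfsg.Statements.S5645
import Cfsg.Agent.GeoLib.SpCen
import Cfsg.Agent.Forms.GeoBridge
import Cfsg.Agent.Forms.WittSesq

set_option autoImplicit false
open Cfsg

namespace Cfsg.Agent.S5645

/-- For a finite field F and m ≥ 7, in the symplectic group Sp_2m(F) of the standard alternating form on F^(2m) (as a subgroup of GL_2m(F)), the stabiliser of any non-zero subspace on which the form vanishes identically is a maximal subgroup. -/
theorem result {F : Type*} [Field F] [Fintype F] (m : ℕ) (hm : 7 ≤ m) (W : Submodule F (Fin m ⊕ Fin m → F)) (hW0 : W ≠ ⊥) (hW : Cfsg.Geo.IsTotallySingularFor (Cfsg.sympForm m F) W) : Cfsg.Geo.IsMaximalIn (Cfsg.spGL m F) (Cfsg.Geo.subspaceStabilizer W ⊓ Cfsg.spGL m F) := by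
  classical
  let B : LinearMap.BilinForm F (Fin m ⊕ Fin m → F) := LinearMap.mk₂ F (Cfsg.sympForm m F)
    CfsgLib.SpGeom.form_add_left (fun c x y => by rw [CfsgLib.SpGeom.form_smul_left, smul_eq_mul])
    CfsgLib.SpGeom.form_add_right (fun c x y => by rw [CfsgLib.SpGeom.form_smul_right, smul_eq_mul])
  have hB : ∀ x y, Cfsg.sympForm m F x y = B x y := fun x y => rfl
  have hskew : ∀ x y, B y x = -B x y := fun x y => CfsgLib.SpGeom.form_skew x y
  have halt : ∀ x, B x x = 0 := fun x => CfsgLib.SpGeom.form_self x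
  have hinj : Function.Injective B := (injective_iff_map_eq_zero B).2 fun x hx => by_contra fun h0 => by
    obtain ⟨y, hy⟩ := CfsgLib.SpGeom.exists_form_ne_zero h0
    exact hy (LinearMap.congr_fun hx y)
  have hsep : ∀ (S : Submodule F (Fin m ⊕ Fin m → F)) x, x ∉ S → ∃ y, (∀ s ∈ S, B s y = 0) ∧ B x y = 1 := by
    intro S x hx
    obtain ⟨y, hy, hxy⟩ := CfsgLib.Forms.exists_ne_zero_of_not_mem (σ := RingHom.id F) (B := B) hinj hx
    exact ⟨(B x y)⁻¹ • y, fun s hs => by rw [map_smul, hy s hs, smul_zero],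
      by rw [map_smul, smul_eq_mul, inv_mul_cancel₀ hxy]⟩
  -- the orthogonal space
  let U : Submodule F (Fin m ⊕ Fin m → F) :=
    { carrier := {x | ∀ w ∈ W, B w x = 0}
      add_mem' := fun ha hb w hw => by rw [map_add, ha w hw, hb w hw, add_zero]
      zero_mem' := fun w _ => map_zero _
      smul_mem' := fun c x hx w hw => by rw [map_smul, hx w hw, smul_zero] }
  have hWU : W ≤ U := fun x hx w hw => hW w hw x hx
  set G := Cfsg.Geo.subspaceStabilizer W ⊓ Cfsg.spGL m F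
  have hGtv : ∀ v ∈ U, CfsgLib.GeoSp.Cen G v := fun v hv c =>
    ⟨CfsgLib.Forms.mem_subspaceStabilizer_of_le fun x hx => by
      rw [CfsgLib.GeoSp.tvGL_mulVec, hB, hv x hx, mul_zero, zero_smul, add_zero]; exact hx,
      CfsgLib.GeoSp.tvGL_mem v c⟩
  refine ⟨lt_of_le_not_ge inf_le_right fun hle => ?_, fun M hGM hMS => ?_⟩
  · obtain ⟨w, hw, hw0⟩ := W.exists_mem_ne_zero_of_ne_bot hW0
    obtain ⟨v, -, hwv⟩ := hsep ⊥ w (by simpa using hw0)
    have h := ((hle (CfsgLib.GeoSp.tvGL_mem v 1)).1 w).1 hw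
    change (CfsgLib.GeoSp.tvGL v 1 : Matrix (Fin m ⊕ Fin m) (Fin m ⊕ Fin m) F).mulVec w ∈ W at h
    rw [CfsgLib.GeoSp.tvGL_mulVec, hB, hwv, one_mul, one_smul, W.add_mem_iff_right hw] at h
    exact one_ne_zero (hwv.symm.trans (hW w hw v h))
  by_cases hle : M ≤ Cfsg.Geo.subspaceStabilizer W
  · exact Or.inl (le_antisymm (le_inf hle hMS) hGM)
  refine Or.inr (le_antisymm hMS (CfsgLib.GeoSp.spGL_le_of_tv M fun x => ?_))
  show CfsgLib.GeoSp.Cen M x
  obtain ⟨g, hg, hgn⟩ := SetLike.not_le_iff_exists.1 hle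
  have hCU : ∀ v ∈ U, CfsgLib.GeoSp.Cen M v := fun v hv c => hGM (hGtv v hv c)
  -- a centre outside
  obtain ⟨v, hvU, hv⟩ : ∃ v, v ∉ U ∧ CfsgLib.GeoSp.Cen M v := by
    by_contra hall
    push Not at hall
    refine hgn (CfsgLib.Forms.mem_subspaceStabilizer_of_le fun w hw => by_contra fun hout => ?_)
    obtain ⟨y, hy, hgy⟩ := hsep W _ hout
    set y' := ((g⁻¹ : Matrix.GeneralLinearGroup (Fin m ⊕ Fin m) F) : Matrix (Fin m ⊕ Fin m) (Fin m ⊕ Fin m) F).mulVec y
    have hU : (g : Matrix (Fin m ⊕ Fin m) (Fin m ⊕ Fin m) F).mulVec '' (U : Set _) ⊆ (U : Set _) := by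
      rintro _ ⟨u, hu, rfl⟩
      by_contra h
      exact hall _ h (CfsgLib.GeoSp.cen_map hg (hMS hg) (hCU u hu))
    have hsurj : U.map (Matrix.toLin' (g : Matrix (Fin m ⊕ Fin m) (Fin m ⊕ Fin m) F)) = U := by
      refine Submodule.eq_of_le_of_finrank_le ?_ ?_
      · rintro _ ⟨u, hu, rfl⟩; simpa using hU ⟨u, hu, rfl⟩
      · exact ((Submodule.equivMapOfInjective _ (fun a b e => Matrix.mulVec_injective_of_isUnit g.isUnit (by simpa using e)) U).finrank_eq).le
    have hyU : y ∈ U := fun z hz => hy z hz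
    rw [← hsurj] at hyU
    obtain ⟨u, hu, hue⟩ := hyU
    rw [Matrix.toLin'_apply] at hue
    rw [← hue, ← hB, CfsgLib.GeoSp.mem_spGL.1 (hMS hg), hB] at hgy
    rw [hu w hw] at hgy
    exact zero_ne_one hgy
  -- the whole coset
  have hcoset : ∀ v, v ∉ U → CfsgLib.GeoSp.Cen M v → ∀ z ∈ U, CfsgLib.GeoSp.Cen M (v + z) := by
    intro v hvU hv z hz
    by_cases hvz : B v z = 0
    swap
    · exact CfsgLib.GeoSp.cen_add' hv (hCU z hz) hvz
    obtain ⟨w, hw, hwv⟩ : ∃ w ∈ W, B w v ≠ 0 := by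
      by_contra h; push Not at h; exact hvU h
    have hvw : B v w ≠ 0 := by rw [hskew]; exact neg_ne_zero.2 hwv
    have h1 := CfsgLib.GeoSp.cen_add' hv (hCU w (hWU hw)) hvw
    have := CfsgLib.GeoSp.cen_add' h1 (hCU (z - w) (sub_mem hz (hWU hw))) (by
      rw [hB, map_sub, map_add, LinearMap.add_apply, LinearMap.add_apply, hvz, halt, hz w hw]
      simpa using hvw)
    rwa [add_assoc, add_sub_cancel] at this
  by_cases hx : x ∈ U
  · exact hCU x hx
  by_cases hdep : x ∈ Submodule.span F {v} ⊔ U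
  · obtain ⟨a, ha, b, hb, rfl⟩ := Submodule.mem_sup.1 hdep
    obtain ⟨c, rfl⟩ := Submodule.mem_span_singleton.1 ha
    rcases eq_or_ne c 0 with rfl | hc
    · rw [zero_smul, zero_add]; exact hCU b hb
    · rw [show c • v + b = c • (v + c⁻¹ • b) by rw [smul_add, smul_smul, mul_inv_cancel₀ hc, one_smul]]
      exact CfsgLib.GeoSp.cen_smul c (hcoset v hvU hv _ (U.smul_mem _ hb))
  -- a vector of `W` separating the two classes
  obtain ⟨w, hw, hwd, hwv⟩ : ∃ w ∈ W, B w (x - v) = 0 ∧ B w v ≠ 0 := by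
    by_contra hall
    push Not at hall
    obtain ⟨w₀, hw₀, hw₀v⟩ : ∃ w ∈ W, B w v ≠ 0 := by
      by_contra h; push Not at h; exact hvU h
    refine hdep (Submodule.mem_sup.2 ?_)
    set c := B w₀ x / B w₀ v
    refine ⟨c • v, Submodule.smul_mem _ _ (Submodule.mem_span_singleton_self v), x - c • v, fun u hu => ?_, add_sub_cancel _ _⟩
    by_cases hd0 : B w₀ (x - v) = 0
    · exact absurd hd0 fun h => hw₀v (hall w₀ hw₀ h)
    set k := B u (x - v) / B w₀ (x - v) with hk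
    have e : ∀ z, B (u - k • w₀) z = B u z - k * B w₀ z := fun z => by simp
    have h := hall (u - k • w₀) (sub_mem hu (W.smul_mem _ hw₀))
      (by rw [e, hk, div_mul_cancel₀ _ hd0, sub_self])
    rw [e, sub_eq_zero, hk] at h
    show B u (x - c • v) = 0
    rw [map_sub, map_smul, smul_eq_mul]
    simp only [c]
    rw [map_sub] at hd0
    rw [map_sub, map_sub] at h
    field_simp at h ⊢
    linear_combination (-1 : F) * h
  obtain ⟨y, hy⟩ : ∃ y, y = (B v w)⁻¹ • (x - v) := ⟨_, rfl⟩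
  have hwy : B w y = 0 := by rw [hy, map_smul, hwd, smul_zero]
  obtain ⟨s, hsS, hs⟩ := CfsgLib.GeoSp.exists_short (show Cfsg.sympForm m F w y = 0 from hwy)
  have hsM : s ∈ M := hGM ⟨CfsgLib.Forms.mem_subspaceStabilizer_of_le fun z hz => by
    rw [hs, hW z hz w hw, zero_smul, add_zero]; exact add_mem hz (W.smul_mem _ hw), hsS⟩
  have h1 := CfsgLib.GeoSp.cen_map hsM hsS hv
  have hvw : B v w ≠ 0 := by rw [hskew]; exact neg_ne_zero.2 hwv
  rw [hs, hB, hB, hy, smul_smul, mul_inv_cancel₀ hvw, one_smul] at h1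
  have hout : v + B v ((B v w)⁻¹ • (x - v)) • w + (x - v) ∉ U := by
    intro h
    refine hx ?_
    have := sub_mem h (U.smul_mem (B v ((B v w)⁻¹ • (x - v))) (hWU hw))
    convert this using 1
    abel
  have := hcoset _ hout h1 ((-B v ((B v w)⁻¹ • (x - v))) • w) (U.smul_mem _ (hWU hw))
  convert this using 1
  module

end Cfsg.Agent.S5645
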