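import Cfsg.Statements.S5646
import Cfsg.Agent.GeoLib.SpCen
import Cfsg.Agent.Forms.GeoBridge
import Cfsg.Agent.Forms.WittSesq

set_option autoImplicit false
open Cfsg

namespace Cfsg.Agent.S5646

/-- For a finite field F and m ≥ 7, in the symplectic group Sp_2m(F) of the standard alternating form on F^(2m), the stabiliser of any non-zero subspace W on which the form is non-degenerate and with dim W < m is a maximal subgroup. -/
theorem result {F : Type*} [Field F] [Fintype F] (m : ℕ) (hm : 7 ≤ m) (W : Submodule F (Fin m ⊕ Fin m → F)) (hW0 : W ≠ ⊥) (hW : Cfsg.Geo.IsNondegenerateOn (Cfsg.sympForm m F) W) (hdim : Module.finrank F W < m) : Cfsg.Geo.IsMaximalIn (Cfsg.spGL m F) (Cfsg.Geo.subspaceStabilizer W ⊓ Cfsg.spGL m F) := by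
  classical
  let B : LinearMap.BilinForm F (Fin m ⊕ Fin m → F) := LinearMap.mk₂ F (Cfsg.sympForm m F)
    CfsgLib.SpGeom.form_add_left (fun c x y => by rw [CfsgLib.SpGeom.form_smul_left, smul_eq_mul])
    CfsgLib.SpGeom.form_add_right (fun c x y => by rw [CfsgLib.SpGeom.form_smul_right, smul_eq_mul])
  have hB : ∀ x y, Cfsg.sympForm m F x y = B x y := fun x y => rfl
  have halt : ∀ x, B x x = 0 := fun x => CfsgLib.SpGeom.form_self x
  have hskew : ∀ x y, B y x = -B x y := fun x y => CfsgLib.SpGeom.form_skew x y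
  let U : Submodule F (Fin m ⊕ Fin m → F) := LinearMap.BilinForm.orthogonal B W
  have hrefl : B.IsRefl := fun x y h => by rw [hskew, h, neg_zero]
  have hBn : B.Nondegenerate := hrefl.nondegenerate_iff_separatingLeft.2 fun x hx => by_contra fun h0 => by
    obtain ⟨y, hy⟩ := CfsgLib.SpGeom.exists_form_ne_zero h0
    exact hy (hx y)
  have hc : IsCompl W U := by
    refine LinearMap.BilinForm.isCompl_orthogonal_of_restrict_nondegenerate hrefl ?_
    have hr : (B.restrict W).IsRefl := fun x y h => hrefl _ _ h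
    refine hr.nondegenerate_iff_separatingLeft.2 fun x hx => by_contra fun h0 => ?_
    obtain ⟨y, hy, hxy⟩ := (hW x x.2 fun h => h0 (Subtype.ext h)).2
    exact hxy (hx ⟨y, hy⟩)
  have hU : ∀ x ∈ U, ∀ w ∈ W, B w x = 0 := fun x hx w hw => hx w hw
  have hU' : ∀ x ∈ U, ∀ w ∈ W, B x w = 0 := fun x hx w hw => by rw [hskew, hx w hw, neg_zero]
  have hndW : ∀ u ∈ W, u ≠ 0 → ∃ y ∈ W, Cfsg.sympForm m F u y ≠ 0 := fun u hu h0 => (hW u hu h0).2
  have hndU : ∀ u ∈ U, u ≠ 0 → ∃ y ∈ U, Cfsg.sympForm m F u y ≠ 0 := by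
    intro u hu h0
    obtain ⟨z, hz⟩ := CfsgLib.SpGeom.exists_form_ne_zero h0
    obtain ⟨a, ha, b, hb, rfl⟩ := Submodule.mem_sup.1 (show z ∈ W ⊔ U by rw [hc.sup_eq_top]; trivial)
    refine ⟨b, hb, ?_⟩
    rwa [CfsgLib.SpGeom.form_add_right, hB u a, hU' u hu a ha, zero_add] at hz
  set G := Cfsg.Geo.subspaceStabilizer W ⊓ Cfsg.spGL m F
  have hG : ∀ v, (v ∈ W ∨ v ∈ U) → CfsgLib.GeoSp.Cen G v := fun v hv c =>
    ⟨CfsgLib.Forms.mem_subspaceStabilizer_of_le fun x hx => by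
      rw [CfsgLib.GeoSp.tvGL_mulVec]
      rcases hv with h | h
      · exact add_mem hx (W.smul_mem _ h)
      · rw [hB, hU v h x hx, mul_zero, zero_smul, add_zero]; exact hx,
      CfsgLib.GeoSp.tvGL_mem v c⟩
  refine ⟨lt_of_le_not_ge inf_le_right fun hle => ?_, fun M hGM hMS => ?_⟩
  · obtain ⟨w, hw, hw0⟩ := W.exists_mem_ne_zero_of_ne_bot hW0
    obtain ⟨a, ha, hwa⟩ := hndW w hw hw0
    obtain ⟨b, hb, hb0⟩ := U.exists_mem_ne_zero_of_ne_bot fun h => by
      have := Submodule.finrank_add_eq_of_isCompl hc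
      rw [h, finrank_bot, Module.finrank_fintype_fun_eq_card] at this
      simp at this; omega
    have h := ((hle (CfsgLib.GeoSp.tvGL_mem (a + b) 1)).1 w).1 hw
    change (CfsgLib.GeoSp.tvGL (a + b) 1 : Matrix (Fin m ⊕ Fin m) (Fin m ⊕ Fin m) F).mulVec w ∈ W at h
    rw [CfsgLib.GeoSp.tvGL_mulVec, hB, map_add, hU b hb w hw, add_zero, one_mul, W.add_mem_iff_right hw,
      W.smul_mem_iff (show B w a ≠ 0 from hwa), W.add_mem_iff_right ha] at h
    exact hb0 (Submodule.disjoint_def.1 hc.disjoint b h hb)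
  by_cases hle : M ≤ Cfsg.Geo.subspaceStabilizer W
  · exact Or.inl (le_antisymm (le_inf hle hMS) hGM)
  refine Or.inr (le_antisymm hMS (CfsgLib.GeoSp.spGL_le_of_tv M fun x => ?_))
  show CfsgLib.GeoSp.Cen M x
  obtain ⟨g, hg, hgn⟩ := SetLike.not_le_iff_exists.1 hle
  have hC : ∀ v, (v ∈ W ∨ v ∈ U) → CfsgLib.GeoSp.Cen M v := fun v hv c => hGM (hG v hv c)
  let gM : (Fin m ⊕ Fin m → F) →ₗ[F] (Fin m ⊕ Fin m → F) := Matrix.toLin' (g : Matrix (Fin m ⊕ Fin m) (Fin m ⊕ Fin m) F)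
  have hgi : Function.Injective gM := fun a b e => Matrix.mulVec_injective_of_isUnit g.isUnit (by simpa [gM] using e)
  -- a mixed centre
  obtain ⟨a, ha, ha0, b, hb, hb0, hab⟩ : ∃ a ∈ W, a ≠ 0 ∧ ∃ b ∈ U, b ≠ 0 ∧ CfsgLib.GeoSp.Cen M (a + b) := by
    obtain ⟨u, hu, hu1, hu2⟩ : ∃ u ∈ U, gM u ∉ W ∧ gM u ∉ U := by
      have hW' : ¬ U.map gM ≤ W := fun h => by
        have h1 := Submodule.finrank_mono h
        rw [← (Submodule.equivMapOfInjective gM hgi U).finrank_eq] at h1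
        have h2 := Submodule.finrank_add_eq_of_isCompl hc
        rw [Module.finrank_fintype_fun_eq_card] at h2
        simp at h2; omega
      have hU'' : ¬ U.map gM ≤ U := fun h => by
        have he : U.map gM = U := Submodule.eq_of_le_of_finrank_le h ((Submodule.equivMapOfInjective gM hgi U).finrank_eq).le
        refine hgn (CfsgLib.Forms.mem_subspaceStabilizer_of_le fun w hw => ?_)
        obtain ⟨a, ha, b, hb, e⟩ := Submodule.mem_sup.1 (show gM w ∈ W ⊔ U by rw [hc.sup_eq_top]; trivial)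
        have hb0 : b = 0 := by_contra fun h0 => by
          obtain ⟨y, hy, hby⟩ := hndU b hb h0
          rw [← he] at hy
          obtain ⟨u, hu, rfl⟩ := hy
          apply hby
          have h1 : B (gM w) (gM u) = B w u := by simpa [gM, hB] using CfsgLib.GeoSp.mem_spGL.1 (hMS hg) w u
          rw [hU u hu w hw, ← e, map_add, LinearMap.add_apply,
            hU (gM u) (h ⟨u, hu, rfl⟩) a ha, zero_add] at h1
          rw [hB]; exact h1
        rw [hb0, add_zero] at e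
        show gM w ∈ W
        rw [← e]; exact ha
      obtain ⟨_, ⟨u₁, hu₁, rfl⟩, h1⟩ := SetLike.not_le_iff_exists.1 hW'
      obtain ⟨_, ⟨u₂, hu₂, rfl⟩, h2⟩ := SetLike.not_le_iff_exists.1 hU''
      by_cases h3 : gM u₁ ∈ U
      · by_cases h4 : gM u₂ ∈ W
        · refine ⟨u₁ + u₂, add_mem hu₁ hu₂, fun h => h1 ?_, fun h => h2 ?_⟩
          · rw [map_add] at h; exact (W.add_mem_iff_left h4).1 h
          · rw [map_add] at h; exact (U.add_mem_iff_right h3).1 h
        · exact ⟨u₂, hu₂, h4, h2⟩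
      · exact ⟨u₁, hu₁, h1, h3⟩
    obtain ⟨a, ha, b, hb, e⟩ := Submodule.mem_sup.1 (show gM u ∈ W ⊔ U by rw [hc.sup_eq_top]; trivial)
    refine ⟨a, ha, fun h => hu2 ?_, b, hb, fun h => hu1 ?_, ?_⟩
    · rw [← e, h, zero_add]; exact hb
    · rw [← e, h, add_zero]; exact ha
    · rw [e]; simpa [gM] using CfsgLib.GeoSp.cen_map hg (hMS hg) (hC u (Or.inr hu))
  obtain ⟨a', ha', b', hb', rfl⟩ := Submodule.mem_sup.1 (show x ∈ W ⊔ U by rw [hc.sup_eq_top]; trivial)
  rcases eq_or_ne a' 0 with rfl | ha'0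
  · rw [zero_add]; exact hC b' (Or.inr hb')
  rcases eq_or_ne b' 0 with rfl | hb'0
  · rw [add_zero]; exact hC a' (Or.inl ha')
  have h1 := CfsgLib.GeoSp.cen_change hndW (fun v hv => hC v (Or.inl hv)) ha ha0 (fun v hv => hU' b hb v hv) hab ha' ha'0
  rw [add_comm] at h1
  have h2 := CfsgLib.GeoSp.cen_change hndU (fun v hv => hC v (Or.inr hv)) hb hb0 (fun v hv => hU v hv a' ha') h1 hb' hb'0
  rwa [add_comm] at h2

end Cfsg.Agent.S5646
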