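import Cfsg.Statements.S5647
import Cfsg.Agent.GeoLib.SpGL
import Cfsg.Agent.GeoLib.Decomp
import Cfsg.Agent.Forms.SympEmbed

set_option autoImplicit false
open Cfsg

namespace Cfsg.Agent.S5647

/-- For a finite field F with q elements and m ≥ 7, let D be a decomposition of F^(2m) into t ≥ 2 pairwise orthogonal subspaces of equal dimension k on each of which the standard alternating form is non-degenerate, spanning F^(2m). Unless k = 2 and q = 2, the elements of Sp_2m(F) permuting the members of D form a maximal subgroup of Sp_2m(F). -/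
theorem result {F : Type*} [Field F] [Fintype F] (m : ℕ) (hm : 7 ≤ m) {t : ℕ} (k : ℕ) (D : Fin t → Submodule F (Fin m ⊕ Fin m → F)) (hD : Cfsg.Geo.IsNondegenerateMDecomposition (Cfsg.sympForm m F) k D) (hex : ¬ (k = 2 ∧ Fintype.card F = 2)) : Cfsg.Geo.IsMaximalIn (Cfsg.spGL m F) (Cfsg.Geo.decompositionStabilizer D ⊓ Cfsg.spGL m F) := by
  classical
  obtain ⟨π, hπmem, hπsum, hπid, hπ0⟩ := CfsgLib.GeoDecomp.exists_proj hD.decomp
  let B : LinearMap.BilinForm F (Fin m ⊕ Fin m → F) := LinearMap.mk₂ F (Cfsg.sympForm m F)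
    CfsgLib.SpGeom.form_add_left (fun c x y => by rw [CfsgLib.SpGeom.form_smul_left, smul_eq_mul])
    CfsgLib.SpGeom.form_add_right (fun c x y => by rw [CfsgLib.SpGeom.form_smul_right, smul_eq_mul])
  have hB : ∀ x y, Cfsg.sympForm m F x y = B x y := fun x y => rfl
  have halt : ∀ x, B x x = 0 := fun x => CfsgLib.SpGeom.form_self x
  have hskew : ∀ x y, B y x = -B x y := fun x y => CfsgLib.SpGeom.form_skew x y
  have horth : ∀ i j, i ≠ j → ∀ x ∈ D i, ∀ y ∈ D j, B x y = 0 := hD.orthogonal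
  have hnd : ∀ i, ∀ x ∈ D i, x ≠ 0 → ∃ y ∈ D i, B x y ≠ 0 := fun i x hx h0 => (hD.nondegenerate i x hx h0).2
  have hne : ∀ i, ∃ x ∈ D i, x ≠ 0 := fun i => (D i).exists_mem_ne_zero_of_ne_bot fun h => by
    have := hD.decomp.finrank_eq i; rw [h, finrank_bot] at this; exact hD.decomp.pos.ne this
  -- two vectors orthogonal to each other in a member
  have hpick : ∀ i, ∀ u ∈ D i, u ≠ 0 → ∃ b ∈ D i, b ≠ 0 ∧ b ≠ u ∧ B u b = 0 := by
    intro i u hu hu0
    by_cases hk : k = 2
    · have : Fintype.card F ≠ 2 := fun h => hex ⟨hk, h⟩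
      obtain ⟨γ, hγ0, hγ1⟩ : ∃ γ : F, γ ≠ 0 ∧ γ ≠ 1 := by
        by_contra hall
        push Not at hall
        have h1 : (Finset.univ : Finset F) ⊆ {0, 1} := fun x _ => by
          rcases eq_or_ne x 0 with rfl | hx
          · simp
          · simp [hall x hx]
        have h2 := (Finset.card_le_card h1).trans Finset.card_le_two
        have := Fintype.one_lt_card (α := F)
        rw [Finset.card_univ] at h2
        omega
      exact ⟨γ • u, (D i).smul_mem _ hu, smul_ne_zero hγ0 hu0, fun h => hγ1 (smul_left_injective F hu0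
        (by simpa using h)), by rw [map_smul, halt, smul_zero]⟩
    · let φ : D i →ₗ[F] F := (B u).comp (D i).subtype
      have h3 := φ.finrank_range_add_finrank_ker
      have h4 := Submodule.finrank_le (LinearMap.range φ)
      have hk1 : k ≠ 1 := by
        intro h1
        obtain ⟨y, hy, huy⟩ := hnd i u hu hu0
        have hsp : Submodule.span F {u} = D i := Submodule.eq_of_le_of_finrank_eq
          ((Submodule.span_singleton_le_iff_mem _ _).2 hu) (by rw [finrank_span_singleton hu0, hD.decomp.finrank_eq, h1])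
        rw [← hsp, Submodule.mem_span_singleton] at hy
        obtain ⟨c, rfl⟩ := hy
        exact huy (by rw [map_smul, halt, smul_zero])
      rw [hD.decomp.finrank_eq i] at h3
      simp at h4
      have := hD.decomp.pos
      by_contra hall
      push Not at hall
      have hle : LinearMap.ker φ ≤ (Submodule.span F {u}).comap (D i).subtype := fun b hb => by
        rw [Submodule.mem_comap]
        by_contra hout
        refine hall (b : Fin m ⊕ Fin m → F) b.2 (fun h => hout (by simp [h])) (fun h => hout ?_) hb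
        show (b : Fin m ⊕ Fin m → F) ∈ Submodule.span F {u}
        rw [h]; exact Submodule.mem_span_singleton_self u
      have h5 := (Submodule.finrank_mono hle).trans_eq (Submodule.comapSubtypeEquivOfLe
        ((Submodule.span_singleton_le_iff_mem _ _).2 hu)).finrank_eq
      rw [finrank_span_singleton hu0] at h5
      omega
  -- a swap of two members
  have hswap : ∀ i j, i ≠ j → ∃ g : Matrix.GeneralLinearGroup (Fin m ⊕ Fin m) F,
      g ∈ Cfsg.Geo.decompositionStabilizer D ⊓ Cfsg.spGL m F ∧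
        (∀ x ∈ D i, (g : Matrix (Fin m ⊕ Fin m) (Fin m ⊕ Fin m) F).mulVec x ∈ D j) ∧ (∀ x ∈ D j, (g : Matrix (Fin m ⊕ Fin m) (Fin m ⊕ Fin m) F).mulVec x ∈ D i) ∧
          ∀ l, l ≠ i → l ≠ j → ∀ x ∈ D l, (g : Matrix (Fin m ⊕ Fin m) (Fin m ⊕ Fin m) F).mulVec x = x := by
    intro i j hij
    let Bi : ∀ a, LinearMap.BilinForm F (D a) := fun a => B.compl₁₂ (D a).subtype (D a).subtype
    have hA : ∀ a, (Bi a).IsAlt := fun a x => halt x
    have hS : ∀ a, (Bi a).SeparatingLeft := fun a x hx => by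
      by_contra h0
      obtain ⟨y, hy, hxy⟩ := hnd a x x.2 (fun h => h0 (Subtype.ext h))
      exact hxy (hx ⟨y, hy⟩)
    have heven : ∀ a, ∃ n, Module.finrank F (D a) = 2 * n := by
      intro a
      obtain ⟨n, r, b, -, -, -, hrad⟩ := Cfsg.Agent.S0752.result (Bi a) (hA a)
      rcases Nat.eq_zero_or_pos r with rfl | hr
      · exact ⟨n, by rw [Module.finrank_eq_card_basis b]; simp; omega⟩
      · exact absurd (hS a _ (hrad ⟨0, hr⟩)) (b.ne_zero _)
    obtain ⟨n, hn⟩ := heven i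
    obtain ⟨e₁, he₁⟩ := CfsgLib.Forms.exists_symp_coord hn (Bi i) (hA i) (hS i)
    obtain ⟨e₂, he₂⟩ := CfsgLib.Forms.exists_symp_coord
      (show Module.finrank F (D j) = 2 * n by rw [hD.decomp.finrank_eq, ← hn, hD.decomp.finrank_eq]) (Bi j) (hA j) (hS j)
    let p : ∀ a, (Fin m ⊕ Fin m → F) →ₗ[F] D a := fun a => (π a).codRestrict (D a) (hπmem a)
    let L : (Fin m ⊕ Fin m → F) →ₗ[F] (Fin m ⊕ Fin m → F) := LinearMap.id - π i - π j +
      (D j).subtype ∘ₗ (e₁.trans e₂.symm).toLinearMap ∘ₗ p i + (D i).subtype ∘ₗ (e₂.trans e₁.symm).toLinearMap ∘ₗ p j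
    have hp : ∀ a, ∀ x (hx : x ∈ D a), p a x = ⟨x, hx⟩ := fun a x hx => Subtype.ext (hπid a x hx)
    have hp0 : ∀ a b, a ≠ b → ∀ x ∈ D b, p a x = 0 := fun a b h x hx => Subtype.ext (hπ0 a b h x hx)
    have hLi : ∀ x (hx : x ∈ D i), L x = (e₂.symm (e₁ ⟨x, hx⟩) : Fin m ⊕ Fin m → F) := fun x hx => by
      simp [L, hπid i x hx, hπ0 j i hij.symm x hx, hp i x hx, hp0 j i hij.symm x hx]
    have hLj : ∀ x (hx : x ∈ D j), L x = (e₁.symm (e₂ ⟨x, hx⟩) : Fin m ⊕ Fin m → F) := fun x hx => by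
      simp [L, hπid j x hx, hπ0 i j hij x hx, hp j x hx, hp0 i j hij x hx]
    have hLl : ∀ l, l ≠ i → l ≠ j → ∀ x ∈ D l, L x = x := fun l hi hj x hx => by
      simp [L, hπ0 i l (Ne.symm hi) x hx, hπ0 j l (Ne.symm hj) x hx, hp0 i l (Ne.symm hi) x hx, hp0 j l (Ne.symm hj) x hx]
    have hLL : ∀ x, L (L x) = x := by
      intro x
      conv_lhs => rw [← hπsum x]
      simp only [map_sum]
      conv_rhs => rw [← hπsum x]
      refine Finset.sum_congr rfl fun l _ => ?_
      rcases eq_or_ne l i with rfl | hi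
      · rw [hLi _ (hπmem _ x), hLj _ (Submodule.coe_mem _)]; simp
      rcases eq_or_ne l j with rfl | hj
      · rw [hLj _ (hπmem _ x), hLi _ (Submodule.coe_mem _)]; simp
      rw [hLl l hi hj _ (hπmem l x), hLl l hi hj _ (hπmem l x)]
    have hiso : ∀ x y, B (L x) (L y) = B x y := by
      have hcl : ∀ a, ∀ x ∈ D a, ∀ b, ∀ y ∈ D b, B (L x) (L y) = B x y := by
        have hto : ∀ a, ∀ x ∈ D a, L x ∈ D (Equiv.swap i j a) := by
          intro a x hx
          rcases eq_or_ne a i with rfl | hi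
          · rw [Equiv.swap_apply_left, hLi x hx]; exact Submodule.coe_mem _
          rcases eq_or_ne a j with rfl | hj
          · rw [Equiv.swap_apply_right, hLj x hx]; exact Submodule.coe_mem _
          rw [Equiv.swap_apply_of_ne_of_ne hi hj, hLl a hi hj x hx]; exact hx
        intro a x hx b y hy
        by_cases hab : a = b
        · subst hab
          rcases eq_or_ne a i with rfl | hi
          · rw [hLi x hx, hLi y hy]
            show Bi j _ _ = Bi a ⟨x, hx⟩ ⟨y, hy⟩
            rw [← he₂, ← he₁, LinearEquiv.apply_symm_apply, LinearEquiv.apply_symm_apply]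
          rcases eq_or_ne a j with rfl | hj
          · rw [hLj x hx, hLj y hy]
            show Bi i _ _ = Bi a ⟨x, hx⟩ ⟨y, hy⟩
            rw [← he₁, ← he₂, LinearEquiv.apply_symm_apply, LinearEquiv.apply_symm_apply]
          rw [hLl a hi hj x hx, hLl a hi hj y hy]
        · rw [horth a b hab x hx y hy, horth _ _ ((Equiv.swap i j).injective.ne hab) _ (hto a x hx) _ (hto b y hy)]
      intro x y
      conv_lhs => rw [← hπsum x, ← hπsum y]
      conv_rhs => rw [← hπsum x, ← hπsum y]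
      simp only [map_sum, LinearMap.sum_apply]
      exact Finset.sum_congr rfl fun a _ => Finset.sum_congr rfl fun b _ => hcl _ _ (hπmem _ x) _ _ (hπmem _ y)
    let Lm := LinearMap.toMatrix' L
    have hLm : ∀ x, Lm.mulVec x = L x := fun x => LinearMap.toMatrix'_mulVec L x
    have hsq : Lm * Lm = 1 := Matrix.ext_iff_mulVec.2 fun x => by
      rw [← Matrix.mulVec_mulVec, hLm, hLm, hLL, Matrix.one_mulVec]
    let g : Matrix.GeneralLinearGroup (Fin m ⊕ Fin m) F := ⟨Lm, Lm, hsq, hsq⟩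
    have hg : ∀ x, (g : Matrix (Fin m ⊕ Fin m) (Fin m ⊕ Fin m) F).mulVec x = L x := hLm
    refine ⟨g, ⟨CfsgLib.GeoDecomp.mem_stabilizer hD.decomp fun a => ?_, CfsgLib.GeoSp.mem_spGL.2 fun u v => ?_⟩,
      fun x hx => ?_, fun x hx => ?_, fun l hi hj x hx => by rw [hg, hLl l hi hj x hx]⟩
    · rcases eq_or_ne a i with rfl | hi
      · exact ⟨j, fun x hx => by rw [hg, hLi x hx]; exact Submodule.coe_mem _⟩
      rcases eq_or_ne a j with rfl | hj
      · exact ⟨i, fun x hx => by rw [hg, hLj x hx]; exact Submodule.coe_mem _⟩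
      exact ⟨a, fun x hx => by rw [hg, hLl a hi hj x hx]; exact hx⟩
    · rw [hg, hg]; exact hiso u v
    · rw [hg, hLi x hx]; exact Submodule.coe_mem _
    · rw [hg, hLj x hx]; exact Submodule.coe_mem _
  -- transvections centred in a member
  have htvG : ∀ a, ∀ v ∈ D a, ∀ c : F, CfsgLib.GeoSp.tvGL v c ∈ Cfsg.Geo.decompositionStabilizer D ⊓ Cfsg.spGL m F := by
    intro a v hv c
    refine ⟨CfsgLib.GeoDecomp.mem_stabilizer hD.decomp fun b => ⟨b, fun x hx => ?_⟩, CfsgLib.GeoSp.tvGL_mem v c⟩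
    rw [CfsgLib.GeoSp.tvGL_mulVec]
    rcases eq_or_ne b a with rfl | hba
    · exact add_mem hx (Submodule.smul_mem _ _ hv)
    · rw [hB, horth b a hba x hx v hv, mul_zero, zero_smul, add_zero]; exact hx
  obtain ⟨i₀, i₁, hi01⟩ : ∃ a b : Fin t, a ≠ b := by
    have h2 := hD.decomp.two_le
    exact ⟨⟨0, by omega⟩, ⟨1, by omega⟩, fun h => by simp at h⟩
  refine ⟨lt_of_le_not_ge inf_le_right fun hle => ?_, fun M hGM hMS => ?_⟩
  · obtain ⟨a, ha, ha0⟩ := hne i₀
    obtain ⟨b, hb, hb0⟩ := hne i₁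
    obtain ⟨x, hx, hxa⟩ := hnd i₀ a ha ha0
    obtain ⟨σ, hσ⟩ := (hle (CfsgLib.GeoSp.tvGL_mem (a + b) 1)).1
    have himg : x + B x a • (a + b) ∈ D (σ i₀) := by
      rw [← hσ i₀]
      refine ⟨x, hx, ?_⟩
      rw [Matrix.toLin'_apply, CfsgLib.GeoSp.tvGL_mulVec, one_mul, hB, map_add, horth i₀ i₁ hi01 x hx b hb, add_zero]
    have hxa' : B x a ≠ 0 := by rw [hskew]; exact neg_ne_zero.2 hxa
    have h1 : π i₁ (x + B x a • (a + b)) = B x a • b := by
      rw [map_add, map_smul, map_add, hπ0 i₁ i₀ hi01.symm x hx, hπ0 i₁ i₀ hi01.symm a ha, hπid i₁ b hb, zero_add, zero_add]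
    have h0 : π i₀ (x + B x a • (a + b)) = x + B x a • a := by
      rw [map_add, map_smul, map_add, hπid i₀ x hx, hπid i₀ a ha, hπ0 i₀ i₁ hi01 b hb, add_zero]
    by_cases hs : σ i₀ = i₀
    · rw [hs] at himg
      rw [hπ0 i₁ i₀ hi01.symm _ himg] at h1
      exact smul_ne_zero hxa' hb0 h1.symm
    · rw [hπ0 i₀ (σ i₀) (Ne.symm hs) _ himg] at h0
      refine hxa' ?_
      rw [eq_neg_of_add_eq_zero_left h0.symm]
      simp [halt]
  by_cases hle : M ≤ Cfsg.Geo.decompositionStabilizer D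
  · exact Or.inl (le_antisymm (le_inf hle hMS) hGM)
  refine Or.inr (le_antisymm hMS (CfsgLib.GeoSp.spGL_le_of_tv M ?_))
  obtain ⟨g, hg, hgn⟩ := SetLike.not_le_iff_exists.1 hle
  -- the centres of the transvections in `M`
  let C : Set (Fin m ⊕ Fin m → F) := {w | ∀ c : F, CfsgLib.GeoSp.tvGL w c ∈ M}
  have hCmap : ∀ h ∈ M, ∀ w ∈ C, (h : Matrix (Fin m ⊕ Fin m) (Fin m ⊕ Fin m) F).mulVec w ∈ C := fun h hh w hw c => by
    rw [← CfsgLib.GeoSp.tvGL_conj (hMS hh)]; exact mul_mem (mul_mem hh (hw c)) (inv_mem hh)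
  have hCsmul : ∀ (a : F) w, w ∈ C → a • w ∈ C := fun a w hw c => by rw [CfsgLib.GeoSp.tvGL_smul]; exact hw _
  have hCadd : ∀ v ∈ C, ∀ w ∈ C, B v w ≠ 0 → ∀ c : F, v + c • w ∈ C := by
    intro v hv w hw hvw c
    have := hCmap _ (hw (c / B v w)) v hv
    rwa [CfsgLib.GeoSp.tvGL_mulVec, hB, div_mul_cancel₀ _ hvw] at this
  have hCD : ∀ a, ∀ v ∈ D a, v ∈ C := fun a v hv c => hGM (htvG a v hv c)
  have hBπ : ∀ a, ∀ v ∈ D a, ∀ x, B x v = B (π a x) v := fun a v hv x => by
    conv_lhs => rw [← hπsum x]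
    rw [map_sum, LinearMap.sum_apply]
    exact Finset.sum_eq_single a (fun b _ hb => horth b a hb _ (hπmem b x) v hv)
      (fun h => absurd (Finset.mem_univ a) h)
  -- a non-zero component can be changed to any non-zero one
  have hchange : ∀ a, ∀ w ∈ C, π a w ≠ 0 → ∀ u ∈ D a, u ≠ 0 → w - π a w + u ∈ C := by
    intro a w hw hwa u hu hu0
    have h1 : ∀ w ∈ C, ∀ u ∈ D a, B (π a w) u ≠ 0 → w - π a w + u ∈ C := fun w hw u hu h => by
      have hd : u - π a w ∈ D a := sub_mem hu (hπmem a w)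
      have := hCadd w hw _ (hCD a _ hd) (by rw [hBπ a _ hd, map_sub, halt, sub_zero]; exact h) 1
      rwa [one_smul, show w + (u - π a w) = w - π a w + u by abel] at this
    by_cases h : B (π a w) u = 0
    swap
    · exact h1 w hw u hu h
    obtain ⟨y, hy, hyw⟩ := hnd a _ (hπmem a w) hwa
    obtain ⟨z, hz, hzu⟩ := hnd a u hu hu0
    obtain ⟨x, hx, hxw, hxu⟩ : ∃ x ∈ D a, B (π a w) x ≠ 0 ∧ B u x ≠ 0 := by
      by_cases hy' : B u y = 0
      · by_cases hz' : B (π a w) z = 0
        · exact ⟨y + z, add_mem hy hz, by simpa [hz'] using hyw, by simpa [hy'] using hzu⟩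
        · exact ⟨z, hz, hz', hzu⟩
      · exact ⟨y, hy, hyw, hy'⟩
    have h2 := h1 w hw x hx hxw
    have e : π a (w - π a w + x) = x := by
      rw [map_add, map_sub, hπid a _ (hπmem a w), hπid a x hx, sub_self, zero_add]
    have h3 := h1 _ h2 u hu (by rw [e, hskew]; exact neg_ne_zero.2 hxu)
    rwa [e, add_sub_cancel_right] at h3
  -- two members whose sum lies in `C`
  let R : Fin t → Fin t → Prop := fun i j => ∀ a ∈ D i, ∀ b ∈ D j, a + b ∈ C
  have hRof : ∀ w ∈ C, ∀ i j, i ≠ j → π i w ≠ 0 → π j w ≠ 0 → R i j := by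
    intro w hw i j hij hi hj
    obtain ⟨a₀, ha₀, hia⟩ := hnd i _ (hπmem i w) hi
    obtain ⟨b₀, hb₀, hb00, hbne, hjb⟩ := hpick j _ (hπmem j w) hj
    have ha₀0 : a₀ ≠ 0 := fun h => hia (by rw [h, map_zero])
    have h1 := hchange i w hw hi a₀ ha₀ ha₀0
    have e1 : π j (w - π i w + a₀) = π j w := by
      rw [map_add, map_sub, hπ0 j i hij.symm _ (hπmem i w), hπ0 j i hij.symm a₀ ha₀, sub_zero, add_zero]
    have h2 := hchange j _ h1 (by rwa [e1]) b₀ hb₀ hb00
    rw [e1] at h2
    have hne' : B w (w - π i w + a₀ - π j w + b₀) ≠ 0 := by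
      rw [map_add, map_sub, map_add, map_sub, halt, hBπ i _ (hπmem i w), halt, hBπ j _ (hπmem j w), halt,
        hBπ i a₀ ha₀, hBπ j b₀ hb₀, hjb]
      simpa using hia
    have h3 := hCadd w hw _ h2 hne' (-1)
    have e3 : w + (-1 : F) • (w - π i w + a₀ - π j w + b₀) = (π i w - a₀) + (π j w - b₀) := by
      rw [neg_one_smul]; abel
    rw [e3] at h3
    intro a ha b hb
    rcases eq_or_ne a 0 with rfl | ha0
    · rw [zero_add]; exact hCD j b hb
    rcases eq_or_ne b 0 with rfl | hb0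
    · rw [add_zero]; exact hCD i a ha
    set z₁ := π i w - a₀
    set z₂ := π j w - b₀
    have hz₁ : z₁ ∈ D i := sub_mem (hπmem i w) ha₀
    have hz₂ : z₂ ∈ D j := sub_mem (hπmem j w) hb₀
    have hz₁0 : z₁ ≠ 0 := fun h => hia (by rw [← sub_eq_zero.1 h, halt])
    have hz₂0 : z₂ ≠ 0 := fun h => hbne (sub_eq_zero.1 h).symm
    have p1 : π i (z₁ + z₂) = z₁ := by rw [map_add, hπid i _ hz₁, hπ0 i j hij _ hz₂, add_zero]
    have h4 := hchange i _ h3 (by rwa [p1]) a ha ha0
    rw [p1, add_sub_cancel_left, add_comm] at h4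
    have p2 : π j (a + z₂) = z₂ := by rw [map_add, hπid j _ hz₂, hπ0 j i hij.symm _ ha, zero_add]
    have h5 := hchange j _ h4 (by rwa [p2]) b hb hb0
    rwa [p2, add_sub_cancel_right] at h5
  -- the moved member gives one pair
  obtain ⟨v, w, hv, hw⟩ : ∃ v, ∃ l, v ∈ D l ∧
      ∃ i j, i ≠ j ∧ π i ((g : Matrix (Fin m ⊕ Fin m) (Fin m ⊕ Fin m) F).mulVec v) ≠ 0 ∧
        π j ((g : Matrix (Fin m ⊕ Fin m) (Fin m ⊕ Fin m) F).mulVec v) ≠ 0 := by
    by_contra hall
    push Not at hall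
    refine hgn (CfsgLib.GeoDecomp.mem_stabilizer hD.decomp fun l => ?_)
    have hsingle : ∀ v ∈ D l, ∀ i, π i ((g : Matrix (Fin m ⊕ Fin m) (Fin m ⊕ Fin m) F).mulVec v) ≠ 0 →
        (g : Matrix (Fin m ⊕ Fin m) (Fin m ⊕ Fin m) F).mulVec v ∈ D i := fun v hv i hi => by
      rw [← hπsum ((g : Matrix (Fin m ⊕ Fin m) (Fin m ⊕ Fin m) F).mulVec v),
        Finset.sum_eq_single i (fun j _ hj => hall v l hv i j hj.symm hi) (fun h => absurd (Finset.mem_univ i) h)]
      exact hπmem i _
    have hnz : ∀ v, v ≠ 0 → ∃ i, π i ((g : Matrix (Fin m ⊕ Fin m) (Fin m ⊕ Fin m) F).mulVec v) ≠ 0 := fun v hv => by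
      by_contra h
      push Not at h
      have h' := hπsum ((g : Matrix (Fin m ⊕ Fin m) (Fin m ⊕ Fin m) F).mulVec v)
      rw [Finset.sum_eq_zero fun i _ => h i] at h'
      exact hv (Matrix.mulVec_injective_of_isUnit g.isUnit (by rw [← h', Matrix.mulVec_zero]))
    obtain ⟨v₀, hv₀, hv₀0⟩ := hne l
    obtain ⟨i, hi⟩ := hnz v₀ hv₀0
    refine ⟨i, fun v hv => ?_⟩
    rcases eq_or_ne v 0 with rfl | hv0
    · simp
    by_cases hvi : π i ((g : Matrix (Fin m ⊕ Fin m) (Fin m ⊕ Fin m) F).mulVec v) = 0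
    · have hz : π i ((g : Matrix (Fin m ⊕ Fin m) (Fin m ⊕ Fin m) F).mulVec (v + v₀)) ≠ 0 := by
        rw [Matrix.mulVec_add, map_add, hvi, zero_add]; exact hi
      have := sub_mem (hsingle _ (add_mem hv hv₀) i hz) (hsingle v₀ hv₀ i hi)
      rwa [Matrix.mulVec_add, add_sub_cancel_right] at this
    · exact hsingle v hv i hvi
  obtain ⟨i, j, hij, hi, hj⟩ := hw
  have hR0 : R i j := hRof _ (hCmap g hg v (hCD w v hv)) i j hij hi hj
  -- move the pair around
  have hRswap : ∀ a b x y, x ≠ y → R x y → R (Equiv.swap a b x) (Equiv.swap a b y) := by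
    intro a b x y _ hxy
    rcases eq_or_ne a b with rfl | hab
    · simpa using hxy
    obtain ⟨h, hh, h1, h2, h3⟩ := hswap a b hab
    have hto : ∀ c, ∀ z ∈ D c, (h : Matrix (Fin m ⊕ Fin m) (Fin m ⊕ Fin m) F).mulVec z ∈ D (Equiv.swap a b c) := by
      intro c z hz
      rcases eq_or_ne c a with rfl | hca
      · rw [Equiv.swap_apply_left]; exact h1 z hz
      rcases eq_or_ne c b with rfl | hcb
      · rw [Equiv.swap_apply_right]; exact h2 z hz
      rw [Equiv.swap_apply_of_ne_of_ne hca hcb, h3 c hca hcb z hz]; exact hz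
    have hhinv : ∀ c, ∀ z ∈ D (Equiv.swap a b c), ∃ z' ∈ D c, (h : Matrix (Fin m ⊕ Fin m) (Fin m ⊕ Fin m) F).mulVec z' = z := by
      intro c z hz
      let Hl := Matrix.toLin' (h : Matrix (Fin m ⊕ Fin m) (Fin m ⊕ Fin m) F)
      have hinj : Function.Injective Hl := fun u u' e => Matrix.mulVec_injective_of_isUnit h.isUnit (by simpa [Hl] using e)
      have : (D c).map Hl = D (Equiv.swap a b c) := Submodule.eq_of_le_of_finrank_le
        (by rintro _ ⟨u, hu, rfl⟩; simpa [Hl] using hto c u hu)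
        (by rw [← (Submodule.equivMapOfInjective _ hinj (D c)).finrank_eq, hD.decomp.finrank_eq, hD.decomp.finrank_eq])
      rw [← this] at hz
      obtain ⟨u, hu, e⟩ := hz
      exact ⟨u, hu, by simpa [Hl] using e⟩
    intro p hp q hq
    obtain ⟨p', hp', rfl⟩ := hhinv x p hp
    obtain ⟨q', hq', rfl⟩ := hhinv y q hq
    rw [← Matrix.mulVec_add]
    exact hCmap h (hGM hh) _ (hxy p' hp' q' hq')
  have hRall : ∀ x y, x ≠ y → R x y := by
    intro x y hxy
    have h1 := hRswap i x i j hij hR0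
    rw [Equiv.swap_apply_left] at h1
    have hne' : x ≠ Equiv.swap i x j := by
      intro h
      exact hij ((Equiv.swap i x).injective (by rw [Equiv.swap_apply_left, ← h]))
    have h2 := hRswap (Equiv.swap i x j) y x _ hne' h1
    rwa [Equiv.swap_apply_left, Equiv.swap_apply_of_ne_of_ne hne' hxy] at h2
  -- every vector is a centre
  have hall : ∀ s : Finset (Fin t), ∀ x : Fin m ⊕ Fin m → F, (∀ l, l ∉ s → π l x = 0) → x ∈ C := by
    intro s
    induction hn' : s.card using Nat.strong_induction_on generalizing s with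
    | _ N ih =>
      intro x hx
      have hxs : x = ∑ l ∈ s, π l x := by
        conv_lhs => rw [← hπsum x]
        exact (Finset.sum_subset (Finset.subset_univ s) fun l _ hl => hx l hl).symm
      by_cases hex0 : ∃ l ∈ s, π l x = 0
      · obtain ⟨l, hl, hl0⟩ := hex0
        refine ih (s.erase l).card (hn' ▸ Finset.card_erase_lt_of_mem hl) _ rfl x fun a ha => ?_
        rcases eq_or_ne a l with rfl | hal
        · exact hl0
        · exact hx a fun has => ha (Finset.mem_erase.2 ⟨hal, has⟩)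
      push Not at hex0
      rcases Nat.lt_or_ge N 3 with hN | hN
      · interval_cases N
        · rw [hxs, Finset.card_eq_zero.1 hn', Finset.sum_empty]; exact hCD i₀ 0 (zero_mem _)
        · obtain ⟨l, rfl⟩ := Finset.card_eq_one.1 hn'
          rw [hxs, Finset.sum_singleton]; exact hCD l _ (hπmem l x)
        · obtain ⟨a, b, hab, rfl⟩ := Finset.card_eq_two.1 hn'
          rw [hxs, Finset.sum_pair hab]; exact hRall a b hab _ (hπmem a x) _ (hπmem b x)
      obtain ⟨a, b, ha, hb, hab⟩ := Finset.one_lt_card_iff.1 (show 1 < s.card by omega)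
      obtain ⟨d, hd, hdb⟩ := hnd b _ (hπmem b x) (hex0 b hb)
      -- split off the component at `a`
      set u := π a x + d with hu
      have huC : u ∈ C := hRall a b hab _ (hπmem a x) d hd
      set w' := x - π a x - d with hw'
      have hw'C : w' ∈ C := by
        refine ih (s.erase a).card (hn' ▸ Finset.card_erase_lt_of_mem ha) _ rfl w' fun l hl => ?_
        rcases eq_or_ne l a with rfl | hla
        · rw [hw', map_sub, map_sub, hπid _ _ (hπmem _ x), sub_self, hπ0 l b hab d hd, sub_zero]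
        · have hls : l ∉ s := fun h => hl (Finset.mem_erase.2 ⟨hla, h⟩)
          have hlb : l ≠ b := fun h => hls (h ▸ hb)
          rw [hw', map_sub, map_sub, hx l hls, hπ0 l a hla _ (hπmem a x), hπ0 l b hlb d hd, sub_zero, sub_zero]
      have huw : B u w' ≠ 0 := by
        have e1 : B x (π a x) = 0 := by rw [hBπ a _ (hπmem a x), halt]
        have e2 : B x d = B (π b x) d := hBπ b d hd x
        have e3 : B (π a x) d = 0 := horth a b hab _ (hπmem a x) d hd
        rw [hu, hw', map_add, LinearMap.add_apply, map_sub, map_sub, map_sub, map_sub, halt, halt, hskew x (π a x),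
          hskew x d, hskew (π a x) d, e1, e2, e3]
        simpa using hdb
      have := hCadd u huC w' hw'C huw 1
      rwa [one_smul, show u + w' = x by rw [hu, hw']; abel] at this
  intro x c
  exact hall Finset.univ x (fun l hl => absurd (Finset.mem_univ l) hl) c

end Cfsg.Agent.S5647
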