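import Cfsg.Statements.S5648
import Cfsg.Agent.GeoLib.NonMax
import Cfsg.Agent.GeoLib.SpGL

set_option autoImplicit false
open Cfsg

namespace Cfsg.Agent.S5648

/-- Over the field with 2 elements and for m ≥ 7, let D be a decomposition of F^(2m) into t pairwise orthogonal non-degenerate 2-dimensional subspaces for the standard alternating form (t = m ≥ 2). Then the elements of Sp_2m(2) permuting the members of D form a subgroup that is not maximal: some subgroup lies strictly between it and Sp_2m(2). -/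
theorem result {F : Type*} [Field F] [Fintype F] (m : ℕ) (hm : 7 ≤ m) (hq : Fintype.card F = 2) {t : ℕ} (D : Fin t → Submodule F (Fin m ⊕ Fin m → F)) (hD : Cfsg.Geo.IsNondegenerateMDecomposition (Cfsg.sympForm m F) 2 D) : ∃ K : Subgroup (Matrix.GeneralLinearGroup (Fin m ⊕ Fin m) F), Cfsg.Geo.decompositionStabilizer D ⊓ Cfsg.spGL m F < K ∧ K < Cfsg.spGL m F := by
  classical
  obtain ⟨π, hπ1, hπ2, hπ3, hπ4⟩ := CfsgLib.GeoDecomp.exists_proj hD.decomp
  have hF : ∀ z : F, z = 0 ∨ z = 1 := by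
    intro z
    by_contra hz
    push Not at hz
    have h3 : ({0, 1, z} : Finset F).card = 3 := by
      rw [Finset.card_insert_of_notMem (by simp [hz.1.symm]), Finset.card_pair hz.2.symm]
    have := Finset.card_le_univ ({0, 1, z} : Finset F)
    omega
  have h2 : (2 : F) = 0 := by
    have h0 : ((Fintype.card F : ℕ) : F) = 0 := FiniteField.cast_card_eq_zero F
    rw [hq] at h0; exact_mod_cast h0
  have ht : 3 ≤ t := by
    have hint : DirectSum.IsInternal D :=
      DirectSum.isInternal_submodule_of_iSupIndep_of_iSup_eq_top hD.decomp.indep hD.decomp.iSup_eq_top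
    have h1 : Module.finrank F (Fin m ⊕ Fin m → F) = ∑ i, Module.finrank F (D i) := by
      rw [← Module.finrank_directSum]
      exact (LinearEquiv.ofBijective (DirectSum.coeLinearMap D) hint).finrank_eq.symm
    simp [hD.decomp.finrank_eq] at h1
    omega
  have hpair : ∀ i, ∃ e ∈ D i, e ≠ 0 ∧ ∃ b ∈ D i, sympForm m F b e = 1 ∧
      ∀ d ∈ D i, sympForm m F d e = 0 → d = 0 ∨ d = e := by
    intro i
    obtain ⟨e, he, he0⟩ := (D i).exists_mem_ne_zero_of_ne_bot fun h => by
      have := hD.decomp.finrank_eq i; rw [h, finrank_bot] at this; omega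
    obtain ⟨⟨b, hb, hbe⟩, -⟩ := hD.nondegenerate i e he he0
    have hbe1 : sympForm m F b e = 1 := (hF _).resolve_left hbe
    have hli : LinearIndependent F ![e, b] := (LinearIndependent.pair_iff' he0).2 fun c hc => by
      rw [← hc, CfsgLib.SpGeom.form_smul_left, CfsgLib.SpGeom.form_self, mul_zero] at hbe
      exact hbe rfl
    have hspan : Submodule.span F {e, b} = D i := Submodule.eq_of_le_of_finrank_le
      (Submodule.span_le.2 (by rintro z (rfl | rfl); exacts [he, hb]))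
      (by rw [hD.decomp.finrank_eq, ← Matrix.range_cons_cons_empty e b ![], finrank_span_eq_card hli]; simp)
    refine ⟨e, he, he0, b, hb, hbe1, fun d hd h0 => ?_⟩
    rw [← hspan, Submodule.mem_span_pair] at hd
    obtain ⟨r, s, rfl⟩ := hd
    rw [CfsgLib.SpGeom.form_add_left, CfsgLib.SpGeom.form_smul_left, CfsgLib.SpGeom.form_smul_left,
      CfsgLib.SpGeom.form_self, mul_zero, zero_add, hbe1, mul_one] at h0
    subst h0
    rcases hF r with rfl | rfl <;> simp
  choose e he he0 b hb hbe hk using hpair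
  have hb0 : ∀ i, b i ≠ 0 := fun i h => zero_ne_one (α := F) (by
    rw [← hbe i, h, CfsgLib.SpGeom.form_zero_left])
  have hbe0 : ∀ i, b i + e i ≠ 0 := fun i h => zero_ne_one (α := F) (by
    have := congrArg (fun z => sympForm m F z (e i)) h
    simp only [CfsgLib.SpGeom.form_add_left, CfsgLib.SpGeom.form_self, CfsgLib.SpGeom.form_zero_left, hbe,
      add_zero] at this
    exact this.symm)
  have hord : ∀ i j, i ≠ j → ∀ x ∈ D i, sympForm m F x (e j) = 0 := fun i j h x hx => hD.orthogonal i j h x hx _ (he j)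
  obtain ⟨i₀, i₁, i₂, h01, h02, h12⟩ : ∃ a b c : Fin t, a ≠ b ∧ a ≠ c ∧ b ≠ c :=
    ⟨⟨0, by omega⟩, ⟨1, by omega⟩, ⟨2, by omega⟩, by simp, by simp, by simp⟩
  refine ⟨CfsgLib.GeoNonMax.fixFun (CfsgLib.GeoNonMax.weight π) ⊓ Cfsg.spGL m F, ?_, ?_⟩
  · refine lt_of_le_not_ge (le_inf (fun x hx => CfsgLib.GeoNonMax.weight_stab hπ1 hπ2 hπ3 hπ4 hx.1) inf_le_right)
      fun hle => ?_
    let l : Fin t → Module.Dual F (Fin m ⊕ Fin m → F) := fun i =>
      { toFun := fun x => sympForm m F x (e i)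
        map_add' := fun x y => CfsgLib.SpGeom.form_add_left x y _
        map_smul' := fun c x => CfsgLib.SpGeom.form_smul_left c x _ }
    have hlπ : ∀ i x, l i x = l i (π i x) := fun i x => by
      conv_lhs => rw [← hπ2 x, map_sum]
      exact Finset.sum_eq_single i (fun j _ hj => hord j i hj _ (hπ1 j x)) (fun h => absurd (Finset.mem_univ i) h)
    have hin : CfsgLib.GeoSp.tvGL (e i₀ + e i₁ + e i₂) 1 ∈
        CfsgLib.GeoNonMax.fixFun (CfsgLib.GeoNonMax.weight π) ⊓ Cfsg.spGL m F := by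
      refine ⟨fun x => ?_, CfsgLib.GeoSp.tvGL_mem _ _⟩
      rw [CfsgLib.GeoSp.tvGL_mulVec, one_mul, CfsgLib.SpGeom.form_add_right, CfsgLib.SpGeom.form_add_right]
      exact CfsgLib.GeoNonMax.weight_three hF h2 hπ1 hπ3 hπ4 he he0 l
        (fun i => CfsgLib.SpGeom.form_self _) hlπ hk h01 h02 h12 x
    obtain ⟨σ, hσ⟩ := (hle hin).1
    have himg : b i₀ + (e i₀ + e i₁ + e i₂) ∈ D (σ i₀) := by
      rw [← hσ i₀]
      refine ⟨b i₀, hb i₀, ?_⟩
      rw [Matrix.toLin'_apply, CfsgLib.GeoSp.tvGL_mulVec, CfsgLib.SpGeom.form_add_right,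
        CfsgLib.SpGeom.form_add_right, hbe, hord i₀ i₁ h01 _ (hb i₀), hord i₀ i₂ h02 _ (hb i₀)]
      simp
    by_cases h1 : i₁ = σ i₀
    · have h' := hπ4 i₂ (σ i₀) (fun h => h12 (h1.trans h.symm)) _ himg
      rw [map_add, map_add, map_add, hπ4 i₂ i₀ h02.symm _ (hb i₀), hπ4 i₂ i₀ h02.symm _ (he i₀),
        hπ4 i₂ i₁ h12.symm _ (he i₁), hπ3 i₂ _ (he i₂), zero_add, zero_add, zero_add] at h'
      exact he0 _ h'
    · have h' := hπ4 i₁ (σ i₀) h1 _ himg
      rw [map_add, map_add, map_add, hπ4 i₁ i₀ h01.symm _ (hb i₀), hπ4 i₁ i₀ h01.symm _ (he i₀),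
        hπ4 i₁ i₂ h12 _ (he i₂), hπ3 i₁ _ (he i₁), zero_add, zero_add, add_zero] at h'
      exact he0 _ h'
  · refine lt_of_le_not_ge inf_le_right fun hle => ?_
    have := (hle (CfsgLib.GeoSp.tvGL_mem (e i₀ + e i₁) 1)).1 (b i₀)
    rw [CfsgLib.GeoSp.tvGL_mulVec, CfsgLib.SpGeom.form_add_right, hbe, hord i₀ i₁ h01 _ (hb i₀), add_zero,
      one_mul, one_smul, ← add_assoc,
      CfsgLib.GeoNonMax.weight_two hπ3 hπ4 h01 (add_mem (hb i₀) (he i₀)) (hbe0 i₀) (he i₁) (he0 i₁),
      CfsgLib.GeoNonMax.weight_one hπ3 hπ4 (hb i₀) (hb0 i₀)] at this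
    exact one_ne_zero (show (1 : F) = 0 by linear_combination this)

end Cfsg.Agent.S5648
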