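import Cfsg.Statements.S5649
import Cfsg.Agent.GeoLib.SpGL
import Cfsg.Agent.GeoLib.Decomp
import Cfsg.Agent.GeoLib.HermFull

set_option autoImplicit false
open Cfsg

namespace Cfsg.Agent.S5649

/-- For a finite field F of odd order and m ≥ 7, let D be a decomposition of F^(2m) into two complementary subspaces of dimension m on each of which the standard alternating form vanishes identically. Then the elements of Sp_2m(F) preserving or interchanging the two subspaces form a maximal subgroup of Sp_2m(F). -/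
theorem result {F : Type*} [Field F] [Fintype F] (m : ℕ) (hm : 7 ≤ m) (hodd : Odd (Fintype.card F)) (D : Fin 2 → Submodule F (Fin m ⊕ Fin m → F)) (hD : Cfsg.Geo.IsMDecomposition m D) (hts : ∀ i, Cfsg.Geo.IsTotallySingularFor (Cfsg.sympForm m F) (D i)) : Cfsg.Geo.IsMaximalIn (Cfsg.spGL m F) (Cfsg.Geo.decompositionStabilizer D ⊓ Cfsg.spGL m F) := by
  classical
  obtain ⟨π, hπmem, hπsum, hπid, hπ0⟩ := CfsgLib.GeoDecomp.exists_proj hD
  have h2 : (2 : F) ≠ 0 := by
    have h : ringChar F ≠ 2 := by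
      rw [Ne, FiniteField.even_card_iff_char_two, Nat.odd_iff.1 hodd]
      exact one_ne_zero
    exact Ring.two_ne_zero h
  let B : LinearMap.BilinForm F (Fin m ⊕ Fin m → F) := LinearMap.mk₂ F (Cfsg.sympForm m F)
    CfsgLib.SpGeom.form_add_left (fun c x y => by rw [CfsgLib.SpGeom.form_smul_left, smul_eq_mul])
    CfsgLib.SpGeom.form_add_right (fun c x y => by rw [CfsgLib.SpGeom.form_smul_right, smul_eq_mul])
  have hB : ∀ x y, Cfsg.sympForm m F x y = B x y := fun x y => rfl
  have halt : ∀ x, B x x = 0 := fun x => CfsgLib.SpGeom.form_self x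
  have hskew : ∀ x y, B y x = -B x y := fun x y => CfsgLib.SpGeom.form_skew x y
  have hBnd : ∀ x, (∀ y, B x y = 0) → x = 0 := fun x h => by_contra fun h0 => by
    obtain ⟨y, hy⟩ := CfsgLib.SpGeom.exists_form_ne_zero h0
    exact hy (h y)
  let o : Fin 2 → Fin 2 := Equiv.swap 0 1
  have ho : ∀ i, o i ≠ i ∧ o (o i) = i := by decide
  have hsplit : ∀ i x, π i x + π (o i) x = x := by
    intro i x
    conv_rhs => rw [← hπsum x]
    rw [Fin.sum_univ_two]
    fin_cases i
    · rfl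
    · show π 1 x + π (o 1) x = _
      rw [show o 1 = 0 by decide, add_comm]
  have hts' : ∀ i, ∀ x ∈ D i, ∀ y ∈ D i, B x y = 0 := hts
  -- the pairing
  have hpair : ∀ i, ∀ x ∈ D i, (∀ y ∈ D (o i), B x y = 0) → x = 0 := fun i x hx h => hBnd x fun y => by
    rw [← hsplit i y, map_add, hts' i x hx _ (hπmem i y), h _ (hπmem _ y), add_zero]
  have hsep : ∀ i, ∀ (S : Submodule F (Fin m ⊕ Fin m → F)), ∀ x ∈ D (o i), x ∉ S → S ≤ D (o i) →
      ∃ y ∈ D i, (∀ s ∈ S, B s y = 0) ∧ B x y ≠ 0 := by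
    intro i S x hx hxS hS
    have hinj : Function.Injective B := (injective_iff_map_eq_zero B).2 fun z hz => hBnd z fun y => by rw [hz]; rfl
    obtain ⟨y, hy, hxy⟩ := CfsgLib.Forms.exists_ne_zero_of_not_mem (σ := RingHom.id F) (B := B) hinj hxS
    have e : ∀ s ∈ D (o i), B s y = B s (π i y) := fun s hs => by
      conv_lhs => rw [← hsplit i y]
      rw [map_add, hts' (o i) s hs _ (hπmem _ y), add_zero]
    exact ⟨π i y, hπmem i y, fun s hs => by rw [← e s (hS hs)]; exact hy s hs, by rw [← e x hx]; exact hxy⟩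
  have hsep1 : ∀ i, ∀ s ∈ D (o i), ∀ x ∈ D (o i), x ∉ Submodule.span F {s} → ∃ y ∈ D i, B s y = 0 ∧ B x y ≠ 0 := by
    intro i s hs x hx hxs
    obtain ⟨y, hy, h1, h2⟩ := hsep i _ x hx hxs ((Submodule.span_singleton_le_iff_mem _ _).2 hs)
    exact ⟨y, hy, h1 s (Submodule.mem_span_singleton_self s), h2⟩
  -- short root elements
  let SR : (Fin m ⊕ Fin m → F) → (Fin m ⊕ Fin m → F) → Matrix.GeneralLinearGroup (Fin m ⊕ Fin m) F → Prop :=
    fun x y g => ∀ z, (g : Matrix (Fin m ⊕ Fin m) (Fin m ⊕ Fin m) F).mulVec z = z + B z y • x + B z x • y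
  have hSRex : ∀ x y, B x y = 0 → ∃ g ∈ Cfsg.spGL m F, SR x y g := by
    intro x y hxy
    have hyx : B y x = 0 := by rw [hskew, hxy, neg_zero]
    obtain ⟨s, -, hs⟩ := CfsgLib.GeoTransvection.exists_transvection x (B.flip y) hxy
    obtain ⟨t, -, ht⟩ := CfsgLib.GeoTransvection.exists_transvection y (B.flip x) hyx
    have e : SR x y (s * t) := fun z => by
      rw [Units.val_mul, ← Matrix.mulVec_mulVec, hs, ht]
      simp [halt y]
      abel
    refine ⟨s * t, CfsgLib.GeoSp.mem_spGL.2 fun u v => ?_, e⟩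
    rw [hB, hB, e, e]
    simp [halt x, halt y, hxy, hyx, hskew x v, hskew y v]
    ring
  set G := Cfsg.Geo.decompositionStabilizer D ⊓ Cfsg.spGL m F with hG
  have hSRG : ∀ i, ∀ x ∈ D i, ∀ y ∈ D (o i), B x y = 0 → ∀ g, SR x y g → g ∈ G := by
    intro i x hx y hy hxy g hg
    refine ⟨CfsgLib.GeoDecomp.mem_stabilizer hD fun j => ⟨j, fun z hz => ?_⟩, ?_⟩
    · rw [hg]
      rcases eq_or_ne j i with rfl | hji
      · rw [hts' _ z hz x hx, zero_smul, add_zero]; exact add_mem hz (Submodule.smul_mem _ _ hx)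
      · have hj : j = o i := (show ∀ a b : Fin 2, b ≠ a → b = o a by decide) i j hji
        subst hj
        rw [hts' _ z hz y hy, zero_smul, add_zero]; exact add_mem hz (Submodule.smul_mem _ _ hy)
    · obtain ⟨g', hg', e⟩ := hSRex x y hxy
      rwa [show g = g' from CfsgLib.GeoFull.gl_ext fun z => by rw [hg, e]]
  have hne : ∀ i, ∃ x ∈ D i, x ≠ 0 := fun i => (D i).exists_mem_ne_zero_of_ne_bot fun h => by
    have := hD.finrank_eq i; rw [h, finrank_bot] at this; omega
  refine ⟨lt_of_le_not_ge inf_le_right fun hle => ?_, fun M hGM hMS => ?_⟩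
  · obtain ⟨a, ha, ha0⟩ := hne 0
    obtain ⟨b, hb, hb', hba⟩ : ∃ b ∈ D 1, b ∈ D 1 ∧ B b a ≠ 0 := by
      by_contra hall
      push Not at hall
      exact ha0 (hpair 0 a ha fun y hy => by
        rw [show o 0 = 1 by decide] at hy; rw [hskew, hall y hy hy, neg_zero])
    obtain ⟨σ, hσ⟩ := (hle (CfsgLib.GeoSp.tvGL_mem a 1)).1
    have himg : b + B b a • a ∈ D (σ 1) := by
      rw [← hσ 1]
      exact ⟨b, hb, by rw [Matrix.toLin'_apply, CfsgLib.GeoSp.tvGL_mulVec, one_mul, hB]⟩
    have h0 : π 0 (b + B b a • a) = B b a • a := by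
      rw [map_add, map_smul, hπid 0 a ha, hπ0 0 1 (by decide) b hb, zero_add]
    have h1 : π 1 (b + B b a • a) = b := by
      rw [map_add, map_smul, hπid 1 b hb, hπ0 1 0 (by decide) a ha, smul_zero, add_zero]
    have hb0 : b ≠ 0 := fun h => hba (by rw [h]; simp)
    generalize σ 1 = s at himg
    fin_cases s
    · rw [hπ0 1 0 (by decide) _ himg] at h1; exact hb0 h1.symm
    · rw [hπ0 0 1 (by decide) _ himg] at h0; exact smul_ne_zero hba ha0 h0.symm
  by_cases hle : M ≤ Cfsg.Geo.decompositionStabilizer D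
  · exact Or.inl (le_antisymm (le_inf hle hMS) hGM)
  refine Or.inr (le_antisymm hMS (CfsgLib.GeoSp.spGL_le_of_tv M ?_))
  obtain ⟨g, hg, hgn⟩ := SetLike.not_le_iff_exists.1 hle
  let gM : (Fin m ⊕ Fin m → F) →ₗ[F] (Fin m ⊕ Fin m → F) := Matrix.toLin' (g : Matrix (Fin m ⊕ Fin m) (Fin m ⊕ Fin m) F)
  have hgMi : Function.Injective gM := fun a b e => Matrix.mulVec_injective_of_isUnit g.isUnit (by simpa [gM] using e)
  have hgB : ∀ u v, B (gM u) (gM v) = B u v := fun u v => by
    simpa [gM, hB] using CfsgLib.GeoSp.mem_spGL.1 (hMS hg) u v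
  -- a mixed image of a pure vector
  obtain ⟨k, d₀, hd₀, hmix⟩ : ∃ k, ∃ d₀ ∈ D k, ∀ i, π i (gM d₀) ≠ 0 := by
    by_contra hall
    push Not at hall
    refine hgn (CfsgLib.GeoDecomp.mem_stabilizer hD fun l => ?_)
    have hcase : ∀ v ∈ D l, ∃ i, gM v ∈ D i := fun v hv => by
      obtain ⟨i, hi⟩ := hall l v hv
      exact ⟨o i, by rw [← hsplit i (gM v), hi, zero_add]; exact hπmem _ _⟩
    obtain ⟨v₀, hv₀, hv₀0⟩ := hne l
    obtain ⟨i, hi⟩ := hcase v₀ hv₀
    refine ⟨i, fun v hv => ?_⟩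
    obtain ⟨j, hj⟩ := hcase v hv
    rcases eq_or_ne j i with rfl | hji
    · exact hj
    obtain ⟨j', hj'⟩ := hcase _ (add_mem hv hv₀)
    rw [map_add] at hj'
    rcases eq_or_ne j' i with rfl | hj'i
    · exact (Submodule.add_mem_iff_left _ hi).1 hj'
    · have hjj : j' = j := (show ∀ a b c : Fin 2, b ≠ a → c ≠ a → c = b by decide) i j j' hji hj'i
      rw [hjj] at hj'
      exact absurd (CfsgLib.GeoDecomp.eq_zero_of_mem hD hji ((Submodule.add_mem_iff_right _ hj).1 hj') hi)
        fun h => hv₀0 (hgMi (by rw [h, map_zero]))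
  -- the transvection centres
  let Cn : Set (Fin m ⊕ Fin m → F) := {w | ∀ c : F, CfsgLib.GeoSp.tvGL w c ∈ M}
  have hCmap : ∀ h ∈ M, ∀ w ∈ Cn, (h : Matrix (Fin m ⊕ Fin m) (Fin m ⊕ Fin m) F).mulVec w ∈ Cn := fun h hh w hw c => by
    rw [← CfsgLib.GeoSp.tvGL_conj (hMS hh)]; exact mul_mem (mul_mem hh (hw c)) (inv_mem hh)
  have hCsmul : ∀ (a : F) w, w ∈ Cn → a • w ∈ Cn := fun a w hw c => by rw [CfsgLib.GeoSp.tvGL_smul]; exact hw _
  have hCadd : ∀ v ∈ Cn, ∀ w ∈ Cn, B v w ≠ 0 → v + w ∈ Cn := by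
    intro v hv w hw hvw
    have := hCmap _ (hw (1 / B v w)) v hv
    rwa [CfsgLib.GeoSp.tvGL_mulVec, hB, div_mul_cancel₀ _ hvw, one_smul] at this
  -- a new short root element
  obtain ⟨i, d, hd, hd0, y, hdy, hyout, hyM⟩ : ∃ i, ∃ d ∈ D i, d ≠ 0 ∧ ∃ y, B d y = 0 ∧
      π i y ∉ Submodule.span F {d} ∧ ∃ r ∈ M, SR d y r := by
    by_contra hnone
    push Not at hnone
    -- vectors orthogonal to the images
    let A : Fin 2 → (Fin m ⊕ Fin m → F) → Submodule F (Fin m ⊕ Fin m → F) := fun i d =>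
      D (o k) ⊓ LinearMap.ker (B d₀) ⊓ LinearMap.ker ((B d).comp gM)
    have hchoose : ∀ i, ∃ d ∈ D i, π i (gM d₀) ∉ Submodule.span F {d} ∧ B d (gM d₀) = 0 ∧ d ≠ 0 := by
      intro i
      set p := π i (gM d₀)
      obtain ⟨S, hS⟩ : ∃ S : Submodule F (Fin m ⊕ Fin m → F), S = D i ⊓ LinearMap.ker (B.flip (gM d₀)) := ⟨_, rfl⟩
      have h1 := Submodule.finrank_sup_add_finrank_inf_eq (D i) (LinearMap.ker (B.flip (gM d₀)))
      have h2 := (B.flip (gM d₀)).finrank_range_add_finrank_ker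
      have h3 := Submodule.finrank_le (LinearMap.range (B.flip (gM d₀)))
      have h4 := Submodule.finrank_le (D i ⊔ LinearMap.ker (B.flip (gM d₀)))
      rw [hD.finrank_eq, ← hS] at h1
      simp at h3 h4
      simp [Module.finrank_fintype_fun_eq_card] at h2
      obtain ⟨d, hd, hdp⟩ : ∃ d ∈ S, d ∉ Submodule.span F {p} := by
        by_contra hall
        push Not at hall
        have := (Submodule.finrank_mono (show S ≤ Submodule.span F {p} from hall)).trans_eq (finrank_span_singleton (hmix i))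
        omega
      rw [hS] at hd
      refine ⟨d, hd.1, fun hp => hdp ?_, hd.2, fun h => hdp (by rw [h]; exact zero_mem _)⟩
      obtain ⟨c, hc⟩ := Submodule.mem_span_singleton.1 hp
      have hc0 : c ≠ 0 := fun h0 => hmix i (show p = 0 by rw [← hc, h0, zero_smul])
      rw [← hc]
      exact Submodule.mem_span_singleton.2 ⟨c⁻¹, by rw [smul_smul, inv_mul_cancel₀ hc0, one_smul]⟩
    choose d hd hdp hdq hdne using hchoose
    have hA : ∀ i, ∀ a₀ ∈ A i (d i), π i (gM a₀) ∈ Submodule.span F {d i, π i (gM d₀)} := by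
      intro i a₀ ha₀
      by_contra hout
      obtain ⟨a, ha, haS, hap⟩ := hsep (o i) (Submodule.span F {d i, π i (gM d₀)}) (π i (gM a₀))
        (by rw [(ho i).2]; exact hπmem i _) hout
        (Submodule.span_le.2 (by
          rw [(ho i).2]
          rintro z (rfl | rfl)
          · exact hd i
          · exact hπmem i _))
      have hBπ : ∀ z, B z a = B (π i z) a := fun z => by
        conv_lhs => rw [← hsplit i z]
        rw [map_add, LinearMap.add_apply, hts' _ _ (hπmem (o i) z) a ha, add_zero]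
      have e1 : B (d i) a = 0 := haS _ (Submodule.subset_span (by simp))
      have e2 : B (gM d₀) a = 0 := by rw [hBπ]; exact haS _ (Submodule.subset_span (by simp))
      have e3 : B (gM a₀) a ≠ 0 := by rw [hBπ]; exact hap
      have e4 : B (d i) (gM a₀) = 0 := ha₀.2
      have e5 : B d₀ a₀ = 0 := ha₀.1.2
      obtain ⟨x, -, hx⟩ := hSRex (d i) a e1
      obtain ⟨y₀, -, hy₀⟩ := hSRex d₀ a₀ e5
      have hxM : x ∈ M := hGM (hSRG i _ (hd i) _ ha e1 x hx)
      have hyM : g * y₀ * g⁻¹ ∈ M := mul_mem (mul_mem hg (hGM (hSRG k _ hd₀ _ ha₀.1.1 e5 y₀ hy₀))) (inv_mem hg)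
      set d' := gM d₀ with hd'
      set a' := gM a₀ with ha'
      have hy : SR d' a' (g * y₀ * g⁻¹) := fun z => by
        rw [Units.val_mul, Units.val_mul, ← Matrix.mulVec_mulVec, ← Matrix.mulVec_mulVec, hy₀, Matrix.mulVec_add,
          Matrix.mulVec_add, Matrix.mulVec_smul, Matrix.mulVec_smul, CfsgLib.GeoFull.mulVec_inv_cancel]
        have e : ∀ w, B (((g⁻¹ : Matrix.GeneralLinearGroup (Fin m ⊕ Fin m) F) : Matrix (Fin m ⊕ Fin m) (Fin m ⊕ Fin m) F).mulVec z) w =
            B z (gM w) := fun w => by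
          rw [← hgB]; simp [gM]
        rw [e, e]
        simp [gM, hd', ha']
      set p := B a' a with hp
      obtain ⟨r, -, hr⟩ := hSRex (d i) (p • d') (by rw [map_smul, hdq i, smul_zero])
      refine hnone i (d i) (hd i) (hdne i) (p • d') (by rw [map_smul, hdq i, smul_zero]) ?_ r ?_ hr
      · rw [map_smul, Submodule.smul_mem_iff _ e3]; exact hdp i
      · have f1 : B d' (d i) = 0 := by rw [hskew, hdq i, neg_zero]
        have f2 : B a' (d i) = 0 := by rw [hskew, e4, neg_zero]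
        have f3 : B d' a' = 0 := by rw [hd', ha', hgB, e5]
        have f4 : B a' d' = 0 := by rw [hskew, f3, neg_zero]
        have f5 : B a (d i) = 0 := by rw [hskew, e1, neg_zero]
        have f6 : B a d' = 0 := by rw [hskew, e2, neg_zero]
        have f7 : B a a' = -p := by rw [hp]; exact hskew _ _
        obtain ⟨Y, hY⟩ : ∃ Y, Y = g * y₀ * g⁻¹ := ⟨_, rfl⟩
        rw [← hY] at hy hyM
        have he : r * Y * x = x * Y := CfsgLib.GeoFull.gl_ext fun z => by
          simp only [Units.val_mul, ← Matrix.mulVec_mulVec]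
          rw [hr, hy, hy, hx, hx]
          simp only [map_add, map_smul, LinearMap.add_apply, LinearMap.smul_apply, hdq i, e1, e2, e4, f1, f2, f3,
            f4, f5, f6, f7, halt, smul_eq_mul]
          simp [← hp]
          module
        have hr' : r = x * Y * x⁻¹ * Y⁻¹ := by rw [← he]; group
        rw [hr']
        exact mul_mem (mul_mem (mul_mem hxM hyM) (inv_mem hxM)) (inv_mem hyM)
    -- the two failures contradict each other
    set X := Submodule.span F {d 0, π 0 (gM d₀)} ⊔ Submodule.span F {d 1, π 1 (gM d₀)}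
    set A' := A 0 (d 0) ⊓ LinearMap.ker ((B (d 1)).comp gM)
    have hA' : A'.map gM ≤ X := by
      rintro _ ⟨a, ha, rfl⟩
      rw [← hsplit 0 (gM a), show o 0 = (1 : Fin 2) by decide]
      exact Submodule.add_mem_sup (hA 0 a ha.1) (hA 1 a ⟨ha.1.1, ha.2⟩)
    have hd'X : gM d₀ ∈ X := by
      rw [← hsplit 0 (gM d₀), show o 0 = (1 : Fin 2) by decide]
      exact Submodule.add_mem_sup (Submodule.subset_span (by simp)) (Submodule.subset_span (by simp))
    have hd'A : gM d₀ ∉ A'.map gM := by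
      rintro ⟨a, ha, e⟩
      have := hgMi e
      subst this
      exact hmix 0 (by rw [CfsgLib.GeoDecomp.eq_zero_of_mem hD (ho k).1.symm hd₀ ha.1.1.1, map_zero, map_zero])
    have hlt := Submodule.finrank_lt_finrank_of_lt (lt_of_le_of_ne hA' fun h => hd'A (h ▸ hd'X))
    rw [← (Submodule.equivMapOfInjective gM hgMi A').finrank_eq] at hlt
    have hX : Module.finrank F X ≤ 4 := (Submodule.finrank_add_le_finrank_add_finrank _ _).trans
      (add_le_add (CfsgLib.GeoHerm.finrank_pair_le _ _) (CfsgLib.GeoHerm.finrank_pair_le _ _))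
    have hcut : ∀ (S : Submodule F (Fin m ⊕ Fin m → F)) (φ : Module.Dual F (Fin m ⊕ Fin m → F)),
        Module.finrank F S ≤ Module.finrank F ↥(S ⊓ LinearMap.ker φ) + 1 := fun S φ => by
      have h1 := Submodule.finrank_sup_add_finrank_inf_eq S (LinearMap.ker φ)
      have h2 := φ.finrank_range_add_finrank_ker
      have h3 := Submodule.finrank_le (LinearMap.range φ)
      have h4 := Submodule.finrank_le (S ⊔ LinearMap.ker φ)
      simp at h3
      omega
    have c1 := hcut (D (o k)) (B d₀)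
    have c2 := hcut (D (o k) ⊓ LinearMap.ker (B d₀)) ((B (d 0)).comp gM)
    have c3 := hcut (A 0 (d 0)) ((B (d 1)).comp gM)
    rw [hD.finrank_eq] at c1
    simp only [A] at c3
    simp only [A', A] at hlt
    omega
  -- a transvection at a pure vector
  obtain ⟨r, hrM, hr⟩ := hyM
  obtain ⟨u, hu, hdu, huy⟩ := hsep1 (o i) d (by rw [(ho i).2]; exact hd) (π i y) (by rw [(ho i).2]; exact hπmem i y) hyout
  have hyu : B y u = B (π i y) u := by
    conv_lhs => rw [← hsplit i y]
    rw [map_add, LinearMap.add_apply, hts' _ _ (hπmem (o i) y) u hu, add_zero]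
  have hdC : d ∈ Cn := by
    intro c
    set b := -c / (2 * B y u) with hb
    obtain ⟨s, -, hs⟩ := hSRex d (b • u) (by rw [map_smul, hdu, smul_zero])
    have hsM : s ∈ M := hGM (hSRG i d hd _ (Submodule.smul_mem _ _ hu) (by rw [map_smul, hdu, smul_zero]) s hs)
    have hyd : B y d = 0 := by rw [hskew, hdy, neg_zero]
    have hud : B u d = 0 := by rw [hskew, hdu, neg_zero]
    have huy' : B u y = -B y u := hskew _ _
    have he : CfsgLib.GeoSp.tvGL d c * s * r = r * s := CfsgLib.GeoFull.gl_ext fun z => by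
      rw [Units.val_mul (_ * s), Units.val_mul (CfsgLib.GeoSp.tvGL d c), Units.val_mul r, ← Matrix.mulVec_mulVec,
        ← Matrix.mulVec_mulVec, ← Matrix.mulVec_mulVec, CfsgLib.GeoSp.tvGL_mulVec, hB, hr, hs, hs, hr]
      simp only [map_add, map_smul, LinearMap.add_apply, LinearMap.smul_apply, halt, hdy, hdu, hyd, hud, huy',
        smul_eq_mul, hb]
      have hne0 : B y u ≠ 0 := by rw [hyu]; exact huy
      match_scalars <;> field_simp <;> ring
    rw [show CfsgLib.GeoSp.tvGL d c = r * s * r⁻¹ * s⁻¹ by rw [← he]; group]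
    exact mul_mem (mul_mem (mul_mem hrM hsM) (inv_mem hrM)) (inv_mem hsM)
  -- the whole member
  have hDi : ∀ x ∈ D i, x ∈ Cn := by
    intro x hx
    by_cases hdep : x ∈ Submodule.span F {d}
    · obtain ⟨c, rfl⟩ := Submodule.mem_span_singleton.1 hdep
      exact hCsmul c d hdC
    have hxd : d ∉ Submodule.span F {x - d} := fun h => by
      obtain ⟨c, hc⟩ := Submodule.mem_span_singleton.1 h
      have hc0 : c ≠ 0 := fun h0 => hd0 (by rw [← hc, h0, zero_smul])
      refine hdep (Submodule.mem_span_singleton.2 ⟨c⁻¹ + 1, ?_⟩)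
      rw [add_smul, one_smul]
      nth_rw 1 [← hc]
      rw [smul_smul, inv_mul_cancel₀ hc0, one_smul, sub_add_cancel]
    obtain ⟨v, hv, hv1, hv2⟩ := hsep1 (o i) (x - d) (by rw [(ho i).2]; exact sub_mem hx hd) d
      (by rw [(ho i).2]; exact hd) hxd
    have h1 : B (x - d) ((B d v)⁻¹ • v) = 0 := by rw [map_smul, hv1, smul_zero]
    obtain ⟨s, -, hs⟩ := hSRex (x - d) ((B d v)⁻¹ • v) h1
    have := hCmap s (hGM (hSRG i _ (sub_mem hx hd) _ (Submodule.smul_mem _ _ hv) h1 s hs)) d hdC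
    rw [hs, map_smul, smul_eq_mul, inv_mul_cancel₀ hv2, one_smul, hts' _ d hd _ (sub_mem hx hd), zero_smul,
      add_zero, add_sub_cancel] at this
    exact this
  -- interchanging the members
  obtain ⟨J, hJG, hJ⟩ : ∃ J ∈ G, ∀ l, ∀ x ∈ D (o l), ∃ z ∈ D l,
      (J : Matrix (Fin m ⊕ Fin m) (Fin m ⊕ Fin m) F).mulVec z = x := by
    let b := Module.finBasis F (D 0)
    let Φ : D 1 →ₗ[F] Module.Dual F (D 0) :=
      { toFun := fun w => (B.flip (w : Fin m ⊕ Fin m → F)).comp (D 0).subtype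
        map_add' := fun w w' => by rw [Submodule.coe_add, map_add, LinearMap.add_comp]
        map_smul' := fun c w => by rw [Submodule.coe_smul, map_smul, LinearMap.smul_comp]; rfl }
    have hΦ : ∀ w z, Φ w z = B (z : Fin m ⊕ Fin m → F) (w : Fin m ⊕ Fin m → F) := fun w z => rfl
    have hΦi : Function.Injective Φ := (injective_iff_map_eq_zero Φ).2 fun w hw =>
      Subtype.ext (hpair 1 w w.2 fun z hz => by
        rw [show o 1 = 0 by decide] at hz
        have := LinearMap.congr_fun hw ⟨z, hz⟩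
        rw [hΦ, LinearMap.zero_apply] at this
        rw [hskew, this, neg_zero])
    let e : D 0 ≃ₗ[F] D 1 := b.toDualEquiv.trans (LinearMap.linearEquivOfInjective Φ hΦi (by
      rw [Subspace.dual_finrank_eq, hD.finrank_eq, hD.finrank_eq])).symm
    have he : ∀ a z : D 0, B (z : Fin m ⊕ Fin m → F) (e a : Fin m ⊕ Fin m → F) = b.toDual a z := fun a z => by
      rw [← hΦ]
      have h : Φ (e a) = b.toDualEquiv a :=
        LinearEquiv.apply_symm_apply (LinearMap.linearEquivOfInjective Φ hΦi (by rw [Subspace.dual_finrank_eq, hD.finrank_eq, hD.finrank_eq])) _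
      rw [h]; rfl
    have hsym : ∀ a z : D 0, b.toDual a z = b.toDual z a := by
      intro a z
      have : b.toDual = b.toDual.flip := b.ext fun i' => b.ext fun j' => by
        simp [Module.Basis.toDual_apply, eq_comm]
      exact LinearMap.congr_fun (LinearMap.congr_fun this a) z
    let p : ∀ l, (Fin m ⊕ Fin m → F) →ₗ[F] D l := fun l => (π l).codRestrict (D l) (hπmem l)
    let L : (Fin m ⊕ Fin m → F) →ₗ[F] (Fin m ⊕ Fin m → F) :=
      (D 1).subtype ∘ₗ e.toLinearMap ∘ₗ p 0 - (D 0).subtype ∘ₗ e.symm.toLinearMap ∘ₗ p 1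
    have hp : ∀ l, ∀ x (hx : x ∈ D l), p l x = ⟨x, hx⟩ := fun l x hx => Subtype.ext (hπid l x hx)
    have hp0 : ∀ l l', l ≠ l' → ∀ x ∈ D l', p l x = 0 := fun l l' h x hx => Subtype.ext (hπ0 l l' h x hx)
    have hL0 : ∀ x (hx : x ∈ D 0), L x = (e ⟨x, hx⟩ : Fin m ⊕ Fin m → F) := fun x hx => by
      simp [L, hp 0 x hx, hp0 1 0 (by decide) x hx]
    have hL1 : ∀ x (hx : x ∈ D 1), L x = -(e.symm ⟨x, hx⟩ : Fin m ⊕ Fin m → F) := fun x hx => by
      simp [L, hp 1 x hx, hp0 0 1 (by decide) x hx]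
    have hdec : ∀ x, π 0 x + π 1 x = x := fun x => by
      have := hsplit 0 x
      rwa [show o 0 = (1 : Fin 2) by decide] at this
    have hLL : ∀ x, L (-L x) = x := by
      intro x
      conv_lhs => rw [← hdec x]
      rw [map_add, hL0 _ (hπmem 0 x), hL1 _ (hπmem 1 x), map_neg, map_add, map_neg, hL1 _ (Submodule.coe_mem _),
        hL0 _ (Submodule.coe_mem _)]
      simp
      exact (add_comm _ _).trans (hdec x)
    have hiso : ∀ x y, B (L x) (L y) = B x y := by
      intro x y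
      conv_lhs => rw [← hdec x, ← hdec y]
      conv_rhs => rw [← hdec x, ← hdec y]
      simp only [map_add, map_neg, LinearMap.add_apply, hL0 _ (hπmem 0 _), hL1 _ (hπmem 1 _), LinearMap.neg_apply,
        hts' 0 _ (hπmem 0 x) _ (hπmem 0 y), hts' 1 _ (hπmem 1 x) _ (hπmem 1 y),
        hts' 0 _ (Submodule.coe_mem _) _ (Submodule.coe_mem _), hts' 1 _ (Submodule.coe_mem _) _ (Submodule.coe_mem _)]
      set x0 : D 0 := ⟨π 0 x, hπmem 0 x⟩ with hx0
      set y0 : D 0 := ⟨π 0 y, hπmem 0 y⟩ with hy0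
      obtain ⟨x1, hx1⟩ := e.surjective ⟨π 1 x, hπmem 1 x⟩
      obtain ⟨y1, hy1⟩ := e.surjective ⟨π 1 y, hπmem 1 y⟩
      have q1 : π 1 x = (e x1 : Fin m ⊕ Fin m → F) := (congrArg Subtype.val hx1).symm
      have q2 : π 1 y = (e y1 : Fin m ⊕ Fin m → F) := (congrArg Subtype.val hy1).symm
      rw [← hx1, ← hy1, e.symm_apply_apply, e.symm_apply_apply, q1, q2, hskew (π 0 y) (e x1 : Fin m ⊕ Fin m → F),
        show π 0 x = (x0 : Fin m ⊕ Fin m → F) from rfl, show π 0 y = (y0 : Fin m ⊕ Fin m → F) from rfl,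
        hskew (y1 : Fin m ⊕ Fin m → F) (e x0 : Fin m ⊕ Fin m → F), he, he, he, he, hsym y1 x0, hsym x1 y0]
      ring
    let Lm := LinearMap.toMatrix' L
    have hLm : ∀ x, Lm.mulVec x = L x := fun x => LinearMap.toMatrix'_mulVec L x
    have hsq : Lm * -Lm = 1 := Matrix.ext_iff_mulVec.2 fun x => by
      rw [← Matrix.mulVec_mulVec, Matrix.neg_mulVec, hLm, hLm, hLL, Matrix.one_mulVec]
    let J : Matrix.GeneralLinearGroup (Fin m ⊕ Fin m) F := ⟨Lm, -Lm, hsq, mul_eq_one_comm.1 hsq⟩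
    have hJ : ∀ x, (J : Matrix (Fin m ⊕ Fin m) (Fin m ⊕ Fin m) F).mulVec x = L x := hLm
    refine ⟨J, ⟨CfsgLib.GeoDecomp.mem_stabilizer hD fun l => ⟨o l, fun x hx => ?_⟩,
      CfsgLib.GeoSp.mem_spGL.2 fun u v => by rw [hJ, hJ]; exact hiso u v⟩, fun l x hx => ⟨-L x, ?_, by rw [hJ, hLL]⟩⟩
    · rw [hJ]
      fin_cases l
      · rw [hL0 x hx]; exact Submodule.coe_mem _
      · rw [hL1 x hx]; exact neg_mem (Submodule.coe_mem _)
    · fin_cases l
      · have hx' : x ∈ D 1 := hx
        rw [hL1 x hx']; exact neg_mem (neg_mem (Submodule.coe_mem _))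
      · have hx' : x ∈ D 0 := hx
        rw [hL0 x hx']; exact neg_mem (Submodule.coe_mem _)
  have hDo : ∀ x ∈ D (o i), x ∈ Cn := fun x hx => by
    obtain ⟨z, hz, rfl⟩ := hJ i x hx
    exact hCmap J (hGM hJG) z (hDi z hz)
  intro x c
  refine (?_ : x ∈ Cn) c
  rw [← hsplit i x]
  set a := π i x
  set b := π (o i) x
  have ha : a ∈ D i := hπmem i x
  have hb : b ∈ D (o i) := hπmem _ x
  by_cases hab : B a b = 0
  swap
  · exact hCadd _ (hDi a ha) _ (hDo b hb) hab
  rcases eq_or_ne a 0 with h0 | ha0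
  · rw [h0, zero_add]; exact hDo b hb
  obtain ⟨v, hv, hav⟩ : ∃ v ∈ D (o i), B a v ≠ 0 := by
    by_contra h
    push Not at h
    exact ha0 (hpair i a ha h)
  have h1 : a + v ∈ Cn := hCadd _ (hDi a ha) _ (hDo v hv) hav
  have := hCadd _ h1 _ (hDo (b - v) (sub_mem hb hv)) (by
    rw [map_sub, map_add, LinearMap.add_apply, LinearMap.add_apply, hab, hts' _ v hv b hb, hts' _ v hv v hv]
    simpa using hav)
  rwa [add_assoc, add_sub_cancel] at this

end Cfsg.Agent.S5649
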