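import Cfsg.Statements.S5652
import Cfsg.Agent.GeoLib.OrthFull
import Cfsg.Agent.GeoLib.SpGL

set_option autoImplicit false
open Cfsg

namespace Cfsg.Agent.S5652

/-- For a finite field F of characteristic two and m ≥ 7, let Q be a non-degenerate quadratic form on F^(2m) whose polar form is the standard alternating form. Then the elements of Sp_2m(F) that are similarities of Q (they are exactly the isometries of Q) form a maximal subgroup of Sp_2m(F). -/
theorem result {F : Type*} [Field F] [Fintype F] (m : ℕ) (hm : 7 ≤ m) (heven : ¬ Odd (Fintype.card F)) (Q : (Fin m ⊕ Fin m → F) → F) (hQ : Cfsg.Geo.IsNondegenerateQuadraticForm Q) (hpol : ∀ u v, QuadraticMap.polar Q u v = Cfsg.sympForm m F u v) : Cfsg.Geo.IsMaximalIn (Cfsg.spGL m F) (Cfsg.Geo.quadSimilarityGroup Q ⊓ Cfsg.spGL m F) := by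
  classical
  obtain ⟨Q, rfl, hQn⟩ := CfsgLib.Forms.exists_quadForm hQ
  have h2 : (2 : F) = 0 := by
    have := Fintype.card F
    by_contra h
    exact heven (Nat.odd_iff.2 (FiniteField.odd_card_of_char_ne_two fun hc => h (by
      have := ringChar.eq_iff.1 hc; exact CharTwo.two_eq_zero)))
  have hcard : 14 ≤ Fintype.card (Fin m ⊕ Fin m) := by simp; omega
  have hskew : ∀ x y, Cfsg.sympForm m F y x = Cfsg.sympForm m F x y := fun x y => by
    rw [← hpol, ← hpol, QuadraticMap.polar_comm]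
  -- orthogonal transvections
  have htv : ∀ v, Q v ≠ 0 →
      CfsgLib.GeoSp.tvGL v (-(Q v)⁻¹) ∈ Cfsg.Geo.quadSimilarityGroup ⇑Q ⊓ Cfsg.spGL m F := by
    intro v hv
    refine ⟨⟨1, fun x => ?_⟩, CfsgLib.GeoSp.tvGL_mem _ _⟩
    rw [CfsgLib.GeoSp.tvGL_mulVec, CfsgLib.Forms.map_add_smul, ← hpol]
    rw [Units.val_one]
    field_simp
    ring
  refine ⟨lt_of_le_not_ge inf_le_right fun hle => ?_, fun M hGM hMS => ?_⟩
  · obtain ⟨v, hv, hv0, hvQ⟩ := CfsgLib.Forms.exists_singular Q ⊤ (by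
      rw [finrank_top, Module.finrank_fintype_fun_eq_card]; omega)
    obtain ⟨x, hx, hxQ⟩ : ∃ x ∈ CfsgLib.Forms.perp Q (Submodule.span F {v}), Q x ≠ 0 := by
      by_contra hall
      push Not at hall
      have := CfsgLib.Forms.two_finrank_le_of_singular hQn hall
      rw [CfsgLib.Forms.finrank_perp hQn, finrank_span_singleton hv0, Module.finrank_fintype_fun_eq_card] at this
      omega
    obtain ⟨c, hc⟩ := (hle (CfsgLib.GeoSp.tvGL_mem v 1)).1
    have hxv : QuadraticMap.polar Q x v = 0 :=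
      CfsgLib.Forms.mem_perp.1 hx v (Submodule.mem_span_singleton_self v)
    have hQe : ∀ y, Q y + QuadraticMap.polar Q y v * QuadraticMap.polar Q y v = c * Q y := fun y => by
      rw [← hc, CfsgLib.GeoSp.tvGL_mulVec, CfsgLib.Forms.map_add_smul, hvQ, ← hpol]
      ring
    have hc1 : (c : F) = 1 := mul_right_cancel₀ hxQ (by
      have := hQe x; rw [hxv] at this; linear_combination -this)
    obtain ⟨y, -, hy⟩ := CfsgLib.Forms.exists_polar_eq_one hQn (U := ⊥) (x := v) (by simpa using hv0)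
    have := hQe y
    rw [hc1, QuadraticMap.polar_comm, hy] at this
    exact one_ne_zero (by linear_combination this)
  by_cases hle : M ≤ Cfsg.Geo.quadSimilarityGroup ⇑Q
  · exact Or.inl (le_antisymm (le_inf hle hMS) hGM)
  refine Or.inr (le_antisymm hMS (CfsgLib.GeoSp.spGL_le_of_tv M ?_))
  obtain ⟨g, hg, hgn⟩ := SetLike.not_le_iff_exists.1 hle
  let gi : Matrix (Fin m ⊕ Fin m) (Fin m ⊕ Fin m) F :=
    ((g⁻¹ : Matrix.GeneralLinearGroup (Fin m ⊕ Fin m) F) : Matrix (Fin m ⊕ Fin m) (Fin m ⊕ Fin m) F)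
  -- the quadratic forms differ by the square of a linear form
  let δ : (Fin m ⊕ Fin m → F) → F := fun x => Q (gi.mulVec x) - Q x
  have hδadd : ∀ x y, δ (x + y) = δ x + δ y := by
    intro x y
    have h := CfsgLib.GeoSp.mem_spGL.1 (inv_mem (hMS hg)) x y
    rw [← hpol, ← hpol] at h
    simp only [δ, Matrix.mulVec_add, QuadraticMap.map_add (⇑Q)]
    linear_combination h
  have hδsmul : ∀ (c : F) x, δ (c • x) = c * c * δ x := fun c x => by
    simp only [δ, Matrix.mulVec_smul, QuadraticMap.map_smul, smul_eq_mul]; ring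
  choose r hr using fun x => CfsgLib.Forms.exists_sq h2 (δ x)
  have hsq : ∀ a b : F, a * a = b * b → a = b := fun a b h => by
    have : (a - b) * (a - b) = 0 := by linear_combination h + (b * b - a * b) * h2
    exact sub_eq_zero.1 (mul_self_eq_zero.1 this)
  let ψ : Module.Dual F (Fin m ⊕ Fin m → F) :=
    { toFun := r
      map_add' := fun x y => hsq _ _ (by rw [hr, hδadd, ← hr x, ← hr y]; linear_combination -(r x * r y) * h2)
      map_smul' := fun c x => hsq _ _ (by
        rw [hr, hδsmul, ← hr x, RingHom.id_apply, smul_eq_mul]; ring) }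
  obtain ⟨t, ht⟩ := CfsgLib.Forms.exists_dual_vec hQn ψ
  have hQ' : ∀ x, Q (gi.mulVec x) = Q x + QuadraticMap.polar Q t x * QuadraticMap.polar Q t x := fun x => by
    rw [ht]; show _ = _ + r x * r x
    rw [hr]; simp [δ]
  have ht0 : t ≠ 0 := by
    intro h0
    have : g⁻¹ ∈ Cfsg.Geo.quadSimilarityGroup ⇑Q := ⟨1, fun x => by
      show Q (gi.mulVec x) = _
      rw [hQ', h0, QuadraticMap.polar_zero_left]; simp⟩
    exact hgn (by simpa using inv_mem this)
  intro w
  rcases eq_or_ne w 0 with rfl | hw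
  · intro c
    have : CfsgLib.GeoSp.tvGL (0 : Fin m ⊕ Fin m → F) c = 1 := CfsgLib.GeoFull.gl_ext fun x => by
      rw [CfsgLib.GeoSp.tvGL_mulVec]; simp
    rw [this]; exact one_mem M
  have hmain : ∀ β : F, Q w + β * β ≠ 0 → CfsgLib.GeoSp.tvGL w (-(Q w + β * β)⁻¹) ∈ M := by
    intro β hβ
    -- a vector of the value of `t` with given product with `w`
    obtain ⟨y, -, hy⟩ := CfsgLib.Forms.exists_polar_eq_one hQn (U := ⊥) (x := w) (by simpa using hw)
    obtain ⟨e, he, he0, heU⟩ := CfsgLib.GeoOrth.exists_singular_out hQn (Submodule.span F {w, y}) (by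
      have := CfsgLib.GeoOrth.finrank_pair_le w y; omega)
    obtain ⟨e', he', he'0, hee⟩ := CfsgLib.Forms.exists_partner hQn he he0 heU
    rw [CfsgLib.GeoOrth.mem_perp_pair] at he he'
    set k := Q t - β * β * Q y
    set s := β • y + (e + k • e') with hs
    have hye : QuadraticMap.polar Q y (e + k • e') = 0 := by
      rw [QuadraticMap.polar_add_right, QuadraticMap.polar_smul_right, QuadraticMap.polar_comm Q y e, he.2,
        QuadraticMap.polar_comm Q y e', he'.2]; simp
    have hsQ : Q s = Q t := by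
      rw [hs, QuadraticMap.map_add (⇑Q) (β • y), QuadraticMap.map_smul, QuadraticMap.polar_smul_left, hye,
        CfsgLib.Forms.map_add_smul, he0, he'0, hee]
      simp [k]
    have hsw : QuadraticMap.polar Q s w = β := by
      rw [hs, QuadraticMap.polar_add_left, QuadraticMap.polar_add_left, QuadraticMap.polar_smul_left,
        QuadraticMap.polar_smul_left, he.1, he'.1, QuadraticMap.polar_comm Q y w, hy]
      simp
    have hse' : QuadraticMap.polar Q s e' = 1 := by
      rw [hs, QuadraticMap.polar_add_left, QuadraticMap.polar_add_left, QuadraticMap.polar_smul_left,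
        QuadraticMap.polar_smul_left, hee, QuadraticMap.polar_self, he'0, QuadraticMap.polar_comm Q y e', he'.2]
      simp
    have hs0 : s ≠ 0 := fun h => by rw [h, QuadraticMap.polar_zero_left] at hse'; exact zero_ne_one hse'
    obtain ⟨h, hh, hts⟩ := CfsgLib.Forms.exists_rootGroup_map hQn
      (by rw [Module.finrank_fintype_fun_eq_card]; omega) ht0 hs0 hsQ.symm
    have hiso := CfsgLib.Forms.rootGroup_le_isom hh
    obtain ⟨H, rfl⟩ : ∃ H, CfsgLib.Forms.glEquiv H = h := ⟨_, CfsgLib.Forms.glEquiv.apply_symm_apply h⟩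
    have hH : ∀ x, CfsgLib.Forms.glEquiv H x = (H : Matrix (Fin m ⊕ Fin m) (Fin m ⊕ Fin m) F).mulVec x := fun x => CfsgLib.Forms.glEquiv_apply H x
    have hHQ : ∀ x, Q ((H : Matrix (Fin m ⊕ Fin m) (Fin m ⊕ Fin m) F).mulVec x) = Q x := fun x => by rw [← hH]; exact hiso x
    have hHsp : H ∈ Cfsg.spGL m F := CfsgLib.GeoSp.mem_spGL.2 fun a b => by
      rw [← hpol, ← hpol]; simp only [QuadraticMap.polar, ← Matrix.mulVec_add, hHQ]
    have hHM : H ∈ M := hGM ⟨⟨1, fun x => by rw [hHQ]; simp⟩, hHsp⟩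
    set z := ((H⁻¹ : Matrix.GeneralLinearGroup (Fin m ⊕ Fin m) F) : Matrix (Fin m ⊕ Fin m) (Fin m ⊕ Fin m) F).mulVec w with hz
    have hHz : (H : Matrix (Fin m ⊕ Fin m) (Fin m ⊕ Fin m) F).mulVec z = w := CfsgLib.GeoFull.mulVec_inv_cancel H w
    have hQz : Q z = Q w := by rw [← hHQ z, hHz]
    have htz : QuadraticMap.polar Q t z = β := by
      rw [hpol, ← CfsgLib.GeoSp.mem_spGL.1 hHsp, hHz, ← hpol, ← hH, hts, hsw]
    have hval : Q (gi.mulVec z) = Q w + β * β := by rw [hQ', hQz, htz]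
    have h1 := hGM (htv (gi.mulVec z) (by rwa [hval]))
    rw [hval] at h1
    have h2' := mul_mem (mul_mem hg h1) (inv_mem hg)
    rw [CfsgLib.GeoSp.tvGL_conj (hMS hg), CfsgLib.GeoFull.mulVec_inv_cancel] at h2'
    have h3 := mul_mem (mul_mem hHM h2') (inv_mem hHM)
    rwa [CfsgLib.GeoSp.tvGL_conj hHsp, hHz] at h3
  intro c
  rcases eq_or_ne c 0 with rfl | hc
  · rw [CfsgLib.GeoSp.tvGL_zero]; exact one_mem M
  obtain ⟨β, hβ⟩ := CfsgLib.Forms.exists_sq h2 (-c⁻¹ - Q w)
  have he : Q w + β * β = -c⁻¹ := by rw [hβ]; ring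
  have := hmain β (by rw [he]; exact neg_ne_zero.2 (inv_ne_zero hc))
  rwa [he, inv_neg, inv_inv, neg_neg] at this

end Cfsg.Agent.S5652
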