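import Cfsg.Statements.S5653
import Cfsg.Agent.GeoLib.SUGeom
import Cfsg.Agent.Forms.GeoBridge
import Cfsg.Agent.UGeom.Eichler

set_option autoImplicit false
open Cfsg

namespace Cfsg.Agent.S5653

/-- Let F be the field with q² elements and n ≥ 13, and let SU_n(q) be the group of matrices of determinant one preserving the standard unitary form Σ u_i v_i^q on F^n (the intersection of the unitary group GU_n with the kernel of the determinant). The elements of SU_n(q) stabilising a non-zero subspace on which the form vanishes identically form a maximal subgroup of SU_n(q). -/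
theorem result {F : Type*} [Field F] [Fintype F] (n q : ℕ) (hF : Fintype.card F = q ^ 2) (hn : 13 ≤ n) (W : Submodule F (Fin n → F)) (hW0 : W ≠ ⊥) (hW : Cfsg.Geo.IsTotallySingularFor (Cfsg.hermForm n F q) W) : Cfsg.Geo.IsMaximalIn (Cfsg.GU n F q ⊓ Cfsg.Geo.specialLinear (Fin n) F) (Cfsg.Geo.subspaceStabilizer W ⊓ (Cfsg.GU n F q ⊓ Cfsg.Geo.specialLinear (Fin n) F)) := by
  classical
  obtain ⟨C⟩ := CfsgLib.UGeom.nonempty_conj hF
  let H := CfsgLib.GeoSU.stdHerm C n
  have hH : ∀ u v, H.B u v = Cfsg.hermForm n F q v u := fun u v => rfl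
  have hwn : ∀ w ∈ W, ∀ x ∈ W, H.B w x = 0 := fun w hw x hx => hW x hx w hw
  let U := CfsgLib.GeoHerm.perp H W
  have hWU : W ≤ U := fun x hx w hw => hwn w hw x hx
  set G := Cfsg.Geo.subspaceStabilizer W ⊓ (Cfsg.GU n F q ⊓ Cfsg.Geo.specialLinear (Fin n) F)
  obtain ⟨w₀, hw₀, hw₀0⟩ := W.exists_mem_ne_zero_of_ne_bot hW0
  refine ⟨lt_of_le_not_ge inf_le_right fun hle => ?_, fun M hGM hMS => ?_⟩
  · obtain ⟨f, -, hff, hwf⟩ := CfsgLib.GeoHerm.exists_partner H (U := ⊥) (d := w₀)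
      (fun u hu => by rw [(Submodule.mem_bot F).1 hu]; simp) (hwn w₀ hw₀ w₀ hw₀) (by simpa using hw₀0)
    have hff' : Cfsg.hermForm n F q f f = 0 := hff
    obtain ⟨c, hc0, hc⟩ := CfsgLib.UGeom.exists_trace_zero C
    obtain ⟨g, -, hg⟩ := CfsgLib.GeoTransvection.exists_transvection f (c • H.B f) (by
      show c * Cfsg.hermForm n F q f f = 0; rw [hff', mul_zero])
    have h := ((hle (CfsgLib.GeoSU.utv_mem_GU C hff' hc hg)).1 w₀).1 hw₀
    change (g : Matrix (Fin n) (Fin n) F).mulVec w₀ ∈ W at h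
    rw [hg, W.add_mem_iff_right hw₀] at h
    have hfw : (c • H.B f) w₀ ≠ 0 := by
      rw [LinearMap.smul_apply, smul_eq_mul]
      exact mul_ne_zero hc0 fun h0 => one_ne_zero (hwf.symm.trans (CfsgLib.GeoHerm.comm_zero H h0))
    rw [W.smul_mem_iff hfw] at h
    exact one_ne_zero (hwf.symm.trans (hwn w₀ hw₀ f h))
  by_cases hle : M ≤ Cfsg.Geo.subspaceStabilizer W
  · exact Or.inl (le_antisymm (le_inf hle hMS) hGM)
  refine Or.inr (le_antisymm hMS (CfsgLib.GeoSU.le_of_cent C (by omega) fun x hx => ?_))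
  obtain ⟨g, hg, hgn⟩ := SetLike.not_le_iff_exists.1 hle
  have hMU : M ≤ Cfsg.GU n F q := hMS.trans inf_le_left
  have hCU : ∀ v ∈ U, Cfsg.hermForm n F q v v = 0 → CfsgLib.GeoSU.Cent C M v := fun v hv hvv =>
    ⟨hvv, fun c hc t ht => hGM ⟨CfsgLib.Forms.mem_subspaceStabilizer_of_le fun w hw => by
      rw [ht, LinearMap.smul_apply, CfsgLib.GeoHerm.comm_zero H (hv w hw), smul_zero, zero_smul, add_zero]
      exact hw, CfsgLib.GeoSU.utv_mem_GU C hvv hc ht⟩⟩
  by_cases hxU : x ∈ U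
  · exact hCU x hxU hx
  -- an isotropic centre outside
  obtain ⟨v, hvU, hv⟩ : ∃ v, v ∉ U ∧ CfsgLib.GeoSU.Cent C M v := by
    by_contra hall
    push Not at hall
    let I := {u : Fin n → F // u ∈ U ∧ H.B u u = 0}
    let φ : I → I := fun u => ⟨(g : Matrix (Fin n) (Fin n) F).mulVec u.1, by
      by_contra h
      exact hall _ (fun h' => h ⟨h', by rw [hH, CfsgLib.GeoSU.mem_GU.1 (hMU hg)]; exact u.2.2⟩)
        (CfsgLib.GeoSU.cent_map C hg (hMU hg) (hCU u.1 u.2.1 u.2.2))⟩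
    have hφ : Function.Surjective φ := Finite.surjective_of_injective fun a b e =>
      Subtype.ext (Matrix.mulVec_injective_of_isUnit g.isUnit (congrArg Subtype.val e))
    refine hgn (CfsgLib.Forms.mem_subspaceStabilizer_of_le fun w hw => by_contra fun hout => ?_)
    set y := (g : Matrix (Fin n) (Fin n) F).mulVec w
    have hy : y ∈ U ∧ H.B y y = 0 := (φ ⟨w, hWU hw, hwn w hw w hw⟩).2
    obtain ⟨e, he, hee, hye⟩ := CfsgLib.GeoHerm.exists_singular_polar H hy.1 hy.2 hout hout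
    obtain ⟨⟨u, hu, huu⟩, hue⟩ := hφ ⟨e, he, hee⟩
    have hue' : (g : Matrix (Fin n) (Fin n) F).mulVec u = e := congrArg Subtype.val hue
    apply hye
    rw [← hue', hH, CfsgLib.GeoSU.mem_GU.1 (hMU hg), ← hH]
    exact hu w hw
  -- a vector of `W` orthogonal to neither
  obtain ⟨a, ha, hva⟩ : ∃ a ∈ W, H.B a v ≠ 0 := by
    by_contra h; push Not at h; exact hvU h
  obtain ⟨b, hb, hxb⟩ : ∃ b ∈ W, H.B b x ≠ 0 := by
    by_contra h; push Not at h; exact hxU h
  obtain ⟨d, hd, hvd, hxd⟩ : ∃ d ∈ W, H.B d v ≠ 0 ∧ H.B d x ≠ 0 := by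
    by_cases h1 : H.B a x = 0
    · by_cases h2 : H.B b v = 0
      · exact ⟨a + b, add_mem ha hb, by simpa [h2] using hva, by simpa [h1] using hxb⟩
      · exact ⟨b, hb, h2, hxb⟩
    · exact ⟨a, ha, hva, h1⟩
  have hv' := CfsgLib.GeoSU.cent_smul C (Cfsg.hermForm n F q x d / Cfsg.hermForm n F q v d) hv
  set k := Cfsg.hermForm n F q x d / Cfsg.hermForm n F q v d with hk
  have hvd' : Cfsg.hermForm n F q v d ≠ 0 := hvd
  have e1 : Cfsg.hermForm n F q (k • v) d = Cfsg.hermForm n F q x d := by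
    rw [CfsgLib.UGeom.form_smul_left, hk, div_mul_cancel₀ _ hvd']
  obtain ⟨s, hsS, hsv, hsf⟩ := CfsgLib.GeoSU.exists_eich_move C (hW d hd d hd) e1
    (by rw [e1]; exact hxd) (by rw [hv'.1, hx])
  have hsM : s ∈ M := hGM ⟨CfsgLib.Forms.mem_subspaceStabilizer_of_le fun y hy => by
    obtain ⟨c, t, e, -⟩ := hsf y
    rw [e, hW y hy d hd, mul_zero, zero_smul, add_zero]
    exact add_mem hy (W.smul_mem _ hd), hsS⟩
  have := CfsgLib.GeoSU.cent_map C hsM hsS.1 hv'
  rwa [hsv] at this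

end Cfsg.Agent.S5653
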