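import Cfsg.Statements.S5654
import Cfsg.Agent.GeoLib.SUGeom
import Cfsg.Agent.Forms.GeoBridge
import Cfsg.Agent.UGeom.Eichler

set_option autoImplicit false
open Cfsg

namespace Cfsg.Agent.S5654

/-- Let F be the field with q² elements and n ≥ 13. In SU_n(q) (determinant-one isometries of the standard unitary form on F^n) the stabiliser of a non-zero subspace W on which the form is non-degenerate and with 2 dim W < n is a maximal subgroup. -/
theorem result {F : Type*} [Field F] [Fintype F] (n q : ℕ) (hF : Fintype.card F = q ^ 2) (hn : 13 ≤ n) (W : Submodule F (Fin n → F)) (hW0 : W ≠ ⊥) (hW : Cfsg.Geo.IsNondegenerateOn (Cfsg.hermForm n F q) W) (hdim : 2 * Module.finrank F W < n) : Cfsg.Geo.IsMaximalIn (Cfsg.GU n F q ⊓ Cfsg.Geo.specialLinear (Fin n) F) (Cfsg.Geo.subspaceStabilizer W ⊓ (Cfsg.GU n F q ⊓ Cfsg.Geo.specialLinear (Fin n) F)) := by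
  classical
  obtain ⟨C⟩ := CfsgLib.UGeom.nonempty_conj hF
  let H := CfsgLib.GeoSU.stdHerm C n
  have hH : ∀ u v, H.B u v = Cfsg.hermForm n F q v u := fun u v => rfl
  let U := CfsgLib.GeoHerm.perp H W
  have hUW : ∀ a ∈ W, ∀ b ∈ U, H.B a b = 0 := fun a ha b hb => hb a ha
  have hWU : ∀ a ∈ W, ∀ b ∈ U, H.B b a = 0 := fun a ha b hb => CfsgLib.GeoHerm.comm_zero H (hb a ha)
  have hdisj : Disjoint W U := Submodule.disjoint_def.2 fun x hx hxU => by_contra fun h0 => by
    obtain ⟨y, hy, hxy⟩ := (hW x hx h0).2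
    exact hxy (CfsgLib.GeoHerm.comm_zero H (CfsgLib.GeoHerm.comm_zero H (hxU y hy)))
  have hc : IsCompl W U := by
    refine ⟨hdisj, codisjoint_iff.2 (Submodule.eq_top_of_finrank_eq ?_)⟩
    have h1 := Submodule.finrank_sup_add_finrank_inf_eq W U
    have h2 := CfsgLib.GeoHerm.le_finrank_perp H W
    have h3 := Submodule.finrank_le (W ⊔ U)
    rw [disjoint_iff.1 hdisj, finrank_bot] at h1
    rw [Module.finrank_fintype_fun_eq_card] at h3 ⊢
    simp only [Fintype.card_fin] at h2 h3 ⊢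
    change n ≤ Module.finrank F U + _ at h2
    omega
  have hdec : ∀ x, ∃ a ∈ W, ∃ b ∈ U, a + b = x := fun x =>
    Submodule.mem_sup.1 (show x ∈ W ⊔ U by rw [hc.sup_eq_top]; trivial)
  have hndW : ∀ u ∈ W, u ≠ 0 → ∃ y ∈ W, Cfsg.hermForm n F q u y ≠ 0 := fun u hu h0 => (hW u hu h0).2
  have hndU : ∀ u ∈ U, u ≠ 0 → ∃ y ∈ U, Cfsg.hermForm n F q u y ≠ 0 := by
    intro u hu h0
    by_contra hall
    push Not at hall
    refine h0 (CfsgLib.UGeom.ext_form C fun z => ?_)
    obtain ⟨a, ha, b, hb, rfl⟩ := hdec z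
    have e1 : Cfsg.hermForm n F q u b = 0 := hall b hb
    have e2 : Cfsg.hermForm n F q u a = 0 := hUW a ha u hu
    rw [CfsgLib.UGeom.form_zero_left, CfsgLib.UGeom.form_add_right C, e1, e2, add_zero]
  -- hyperbolic pairs in the complement
  have hdimU : n ≤ Module.finrank F U + Module.finrank F W := by
    have := CfsgLib.GeoHerm.le_finrank_perp H W
    simpa using this
  obtain ⟨e, he, he0, hee⟩ := CfsgLib.GeoHerm.exists_singular H U (by omega)
  have heW : e ∉ W := fun h => he0 (Submodule.disjoint_def.1 hdisj e h he)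
  obtain ⟨f, hf, hff, hef⟩ := CfsgLib.GeoHerm.exists_partner H he hee heW
  have hfe : H.B f e = 1 := by rw [← H.symm, hef, map_one]
  set W' := W ⊔ Submodule.span F {e, f} with hW'
  obtain ⟨e', he', he'0, he'e⟩ := CfsgLib.GeoHerm.exists_singular H (CfsgLib.GeoHerm.perp H W') (by
    have h1 := CfsgLib.GeoHerm.le_finrank_perp H W'
    have h2 : Module.finrank F W' ≤ Module.finrank F W + 2 :=
      (Submodule.finrank_add_le_finrank_add_finrank _ _).trans (Nat.add_le_add_left (CfsgLib.GeoHerm.finrank_pair_le e f) _)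
    simp at h1
    omega)
  have heW' : e' ∉ W' := by
    intro h
    obtain ⟨w, hw, z, hz, rfl⟩ := Submodule.mem_sup.1 h
    obtain ⟨a, b, rfl⟩ := Submodule.mem_span_pair.1 hz
    have hb : a • e + b • f ∈ U := add_mem (U.smul_mem _ he) (U.smul_mem _ hf)
    have hwU : w ∈ U := by
      have := sub_mem (show w + (a • e + b • f) ∈ U from fun u hu => he' u (Submodule.mem_sup_left hu)) hb
      rwa [add_sub_cancel_right] at this
    have hw0 : w = 0 := Submodule.disjoint_def.1 hdisj w hw hwU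
    subst hw0
    rw [zero_add] at he' he'0
    have h1 := he' e (Submodule.mem_sup_right (Submodule.subset_span (by simp)))
    have h2 := he' f (Submodule.mem_sup_right (Submodule.subset_span (by simp)))
    simp [hee, hef, hff, hfe] at h1 h2
    exact he'0 (by simp [h1, h2])
  obtain ⟨f', hf', hf'f, he'f⟩ := CfsgLib.GeoHerm.exists_partner H he' he'e heW'
  have hf'e' : H.B f' e' = 1 := by rw [← H.symm, he'f, map_one]
  have he'U : e' ∈ U := fun u hu => he' u (Submodule.mem_sup_left hu)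
  have hf'U : f' ∈ U := fun u hu => hf' u (Submodule.mem_sup_left hu)
  have o1 : H.B e e' = 0 := he' e (Submodule.mem_sup_right (Submodule.subset_span (by simp)))
  have o2 : H.B f e' = 0 := he' f (Submodule.mem_sup_right (Submodule.subset_span (by simp)))
  have o3 : H.B e f' = 0 := hf' e (Submodule.mem_sup_right (Submodule.subset_span (by simp)))
  have o4 : H.B f f' = 0 := hf' f (Submodule.mem_sup_right (Submodule.subset_span (by simp)))
  set G := Cfsg.Geo.subspaceStabilizer W ⊓ (Cfsg.GU n F q ⊓ Cfsg.Geo.specialLinear (Fin n) F)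
  have hGtv : ∀ v, (v ∈ W ∨ v ∈ U) → Cfsg.hermForm n F q v v = 0 → CfsgLib.GeoSU.Cent C G v := by
    refine fun v hv hvv => ⟨hvv, fun c hc t ht => ⟨CfsgLib.Forms.mem_subspaceStabilizer_of_le fun w hw => ?_,
      CfsgLib.GeoSU.utv_mem_GU C hvv hc ht⟩⟩
    rw [ht]
    rcases hv with h | h
    · exact add_mem hw (W.smul_mem _ h)
    · rw [LinearMap.smul_apply, hWU w hw v h, smul_zero, zero_smul, add_zero]; exact hw
  obtain ⟨c₀, hc₀0, hc₀⟩ := CfsgLib.UGeom.exists_trace_zero C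
  refine ⟨lt_of_le_not_ge inf_le_right fun hle => ?_, fun M hGM hMS => ?_⟩
  · -- move a vector of `W` by an isotropic vector with a component in `U`
    obtain ⟨w, hw, hw0⟩ := W.exists_mem_ne_zero_of_ne_bot hW0
    obtain ⟨a, ha, hwa⟩ := hndW w hw hw0
    obtain ⟨s, hs⟩ := CfsgLib.GeoHerm.exists_trace H (-H.B a a) (by rw [map_neg, H.symm])
    set v := a + (e + s • f) with hv
    have hvv : Cfsg.hermForm n F q v v = 0 := by
      show H.B v v = 0
      simp only [hv, map_add, LinearMap.add_apply, LinearMap.map_smulₛₗ, LinearMap.smul_apply, map_smul, smul_eq_mul,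
        RingHom.id_apply, hee, hff, hef, hfe, hUW a ha e he, hUW a ha f hf, hWU a ha e he, hWU a ha f hf]
      linear_combination hs
    obtain ⟨g, -, hg⟩ := CfsgLib.GeoTransvection.exists_transvection v (c₀ • H.B v) (by
      show c₀ * Cfsg.hermForm n F q v v = 0; rw [hvv, mul_zero])
    have h := ((hle (CfsgLib.GeoSU.utv_mem_GU C hvv hc₀ hg)).1 w).1 hw
    change (g : Matrix (Fin n) (Fin n) F).mulVec w ∈ W at h
    rw [hg, W.add_mem_iff_right hw] at h
    have hk : (c₀ • H.B v) w ≠ 0 := by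
      rw [LinearMap.smul_apply, smul_eq_mul]
      refine mul_ne_zero hc₀0 ?_
      rw [hv, map_add, map_add, LinearMap.add_apply, LinearMap.add_apply, LinearMap.map_smulₛₗ, LinearMap.smul_apply,
        hWU w hw e he, hWU w hw f hf, smul_zero, add_zero, add_zero]
      exact hwa
    rw [W.smul_mem_iff hk, hv, W.add_mem_iff_right ha] at h
    have h0 := Submodule.disjoint_def.1 hdisj _ h (add_mem he (U.smul_mem _ hf))
    have := congrArg (H.B f) h0
    simp [hfe, hff] at this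
  by_cases hle : M ≤ Cfsg.Geo.subspaceStabilizer W
  · exact Or.inl (le_antisymm (le_inf hle hMS) hGM)
  refine Or.inr (le_antisymm hMS (CfsgLib.GeoSU.le_of_cent C (by omega) fun x hx => ?_))
  obtain ⟨g, hg, hgn⟩ := SetLike.not_le_iff_exists.1 hle
  have hMU : M ≤ Cfsg.GU n F q := hMS.trans inf_le_left
  have hC : ∀ v, (v ∈ W ∨ v ∈ U) → Cfsg.hermForm n F q v v = 0 → CfsgLib.GeoSU.Cent C M v := fun v hv hvv =>
    ⟨hvv, fun c hc t ht => hGM ((hGtv v hv hvv).2 c hc t ht)⟩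
  -- classes of centres, by the norm of the component in `W`
  let Cls : F → Prop := fun ν => ∃ a ∈ W, a ≠ 0 ∧ H.B a a = ν ∧ ∃ b ∈ U, b ≠ 0 ∧ CfsgLib.GeoSU.Cent C M (a + b)
  have hnorm : ∀ a ∈ W, ∀ b ∈ U, H.B (a + b) (a + b) = H.B a a + H.B b b := fun a ha b hb => by
    simp [hUW a ha b hb, hWU a ha b hb]
  -- all vectors of a class
  have horbit : ∀ ν, Cls ν → ∀ a' ∈ W, a' ≠ 0 → H.B a' a' = ν → ∀ b' ∈ U, b' ≠ 0 → H.B b' b' = -ν →
      CfsgLib.GeoSU.Cent C M (a' + b') := by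
    rintro ν ⟨a, ha, ha0, hν, b, hb, hb0, hab⟩ a' ha' ha'0 hν' b' hb' hb'0 hb'ν
    have hbν : H.B b b = -ν := by
      have h1 : H.B (a + b) (a + b) = 0 := hab.1
      rw [hnorm a ha b hb, hν] at h1
      exact eq_neg_of_add_eq_zero_right h1
    obtain ⟨g₁, hg₁, e₁⟩ := CfsgLib.GeoSU.exists_loc_move C hndW ha ha' ha0 ha'0 (hν.trans hν'.symm)
    obtain ⟨g₂, hg₂, e₂⟩ := CfsgLib.GeoSU.exists_loc_move C hndU hb hb' hb0 hb'0 (hbν.trans hb'ν.symm)
    obtain ⟨w, hw, hwb, hww⟩ : ∃ w ∈ U, H.B b' w = 0 ∧ H.B w w ≠ 0 := by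
      by_contra hall
      push Not at hall
      let Y := U ⊓ LinearMap.ker (H.B b')
      have hY : ∀ a ∈ Y, ∀ b ∈ Y, H.B a b = 0 :=
        CfsgLib.Hermitian.eq_zero_of_diag H.ne_id H.B ⟨fun a b => H.symm a b⟩ Y fun a ha => hall a ha.1 ha.2
      have hu : ∀ u ∈ U, ∀ v ∈ U, H.B b' v • u - H.B b' u • v ∈ Y := fun u hu v hv =>
        ⟨sub_mem (U.smul_mem _ hu) (U.smul_mem _ hv), by
          show H.B b' _ = 0
          rw [map_sub, map_smul, map_smul, smul_eq_mul, smul_eq_mul, mul_comm, sub_self]⟩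
      have hkill : ∀ z ∈ U, H.B e z = 0 → H.B f z = 0 → H.B z z = 0 → H.B b' z = 0 := by
        intro z hz h1 h2 h3
        have h := hY _ (hu e he z hz) _ (hu f hf z hz)
        simp [h1, CfsgLib.GeoHerm.comm_zero H h2, h3, hef] at h
        exact h
      have he'Y : e' ∈ Y := ⟨he'U, hkill e' he'U o1 o2 he'e⟩
      have hf'Y : f' ∈ Y := ⟨hf'U, hkill f' hf'U o3 o4 hf'f⟩
      exact one_ne_zero (he'f.symm.trans (hY e' he'Y f' hf'Y))
    obtain ⟨r, hr, -, hrS⟩ := CfsgLib.GeoSU.exists_loc_det C hw hww (mul_mem hg₂.1 hg₁.1)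
    have hfix2 : ∀ y ∈ W, (g₂ : Matrix (Fin n) (Fin n) F).mulVec y = y := fun y hy =>
      hg₂.2.2 y fun s hs => hWU y hy s hs
    have hfix1 : ∀ y ∈ U, (g₁ : Matrix (Fin n) (Fin n) F).mulVec y = y := fun y hy =>
      hg₁.2.2 y fun s hs => hUW s hs y hy
    have hfixr : ∀ y, H.B w y = 0 → (r : Matrix (Fin n) (Fin n) F).mulVec y = y := fun y hy =>
      hr.2.2 y fun s hs => by
        obtain ⟨k, rfl⟩ := Submodule.mem_span_singleton.1 hs
        rw [CfsgLib.UGeom.form_smul_right C, ← hH, hy, mul_zero]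
    have hrM : r * (g₂ * g₁) ∈ M := hGM ⟨CfsgLib.Forms.mem_subspaceStabilizer_of_le fun y hy => by
      rw [Units.val_mul, Units.val_mul, ← Matrix.mulVec_mulVec, ← Matrix.mulVec_mulVec,
        hfix2 _ (CfsgLib.GeoSU.loc_mapsTo hg₁ hy), hfixr _ (hWU _ (CfsgLib.GeoSU.loc_mapsTo hg₁ hy) w hw)]
      exact CfsgLib.GeoSU.loc_mapsTo hg₁ hy, hrS⟩
    have := CfsgLib.GeoSU.cent_map C hrM hrS.1 hab
    rw [Units.val_mul, Units.val_mul, ← Matrix.mulVec_mulVec, ← Matrix.mulVec_mulVec, Matrix.mulVec_add, e₁,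
      hfix1 b hb, Matrix.mulVec_add, hfix2 a' ha', e₂, hfixr] at this
    · exact this
    · rw [map_add, hWU a' ha' w hw, CfsgLib.GeoHerm.comm_zero H hwb, add_zero]
  -- all classes with a non-zero norm are the same
  have hscale : ∀ ν ν', Cls ν → ν ≠ 0 → ν' ≠ 0 → H.σ ν' = ν' → Cls ν' := by
    rintro ν ν' ⟨a, ha, ha0, hν, b, hb, hb0, hab⟩ hν0 hν'0 hν'f
    obtain ⟨l, hl0, hl⟩ := CfsgLib.Hermitian.exists_norm H.ne_id H.invol (a := ν' / ν) (div_ne_zero hν'0 hν0)
      (by rw [map_div₀, hν'f, ← hν, H.symm])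
    refine ⟨l • a, W.smul_mem _ ha, smul_ne_zero hl0 ha0, ?_, l • b, U.smul_mem _ hb, smul_ne_zero hl0 hb0, ?_⟩
    · rw [map_smul, LinearMap.map_smulₛₗ, LinearMap.smul_apply, smul_eq_mul, smul_eq_mul, hν, ← mul_assoc,
        mul_comm l, hl, div_mul_cancel₀ _ hν0]
    · rw [← smul_add]; exact CfsgLib.GeoSU.cent_smul C l hab
  -- a new class from two
  have hmix : ∀ a₁ ∈ W, ∀ a₂ ∈ W, a₁ ≠ 0 → a₂ ≠ 0 → Cls (H.B a₁ a₁) → Cls (H.B a₂ a₂) → a₁ + a₂ ≠ 0 →
      Cls (H.B (a₁ + a₂) (a₁ + a₂)) := by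
    intro a₁ ha₁ a₂ ha₂ h1 h2 hc1 hc2 h12
    obtain ⟨s₁, hs₁⟩ := CfsgLib.GeoHerm.exists_trace H (-H.B a₁ a₁) (by rw [map_neg, H.symm])
    obtain ⟨s₂, hs₂⟩ := CfsgLib.GeoHerm.exists_trace H (-H.B a₂ a₂) (by rw [map_neg, H.symm])
    set γ := c₀⁻¹ - H.B a₂ a₁ with hγ
    set b₂ := e + s₂ • f
    set b₁ := γ • f + (e' + s₁ • f') with hb₁
    have hb₂U : b₂ ∈ U := add_mem he (U.smul_mem _ hf)
    have hb₁U : b₁ ∈ U := add_mem (U.smul_mem _ hf) (add_mem he'U (U.smul_mem _ hf'U))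
    have hf'e : H.B f' e = 0 := CfsgLib.GeoHerm.comm_zero H o3
    have hf'f₁ : H.B f' f = 0 := CfsgLib.GeoHerm.comm_zero H o4
    have he'e₁ : H.B e' e = 0 := CfsgLib.GeoHerm.comm_zero H o1
    have he'f₁ : H.B e' f = 0 := CfsgLib.GeoHerm.comm_zero H o2
    have hn₂ : H.B b₂ b₂ = -H.B a₂ a₂ := by
      simp [b₂, hee, hff, hef, hfe]; linear_combination hs₂
    have hn₁ : H.B b₁ b₁ = -H.B a₁ a₁ := by
      simp [hb₁, hff, he'e, hf'f, he'f, hf'e', o2, o4, he'f₁, hf'f₁]; linear_combination hs₁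
    have hprod : H.B b₂ b₁ = γ := by
      simp [b₂, hb₁, hef, hff, o1, o2, o3, o4]
    have hpf : H.B f' b₁ = 1 := by simp [hb₁, hf'f₁, hf'e', hf'f]
    have hpf₂ : H.B f' b₂ = 0 := by simp [b₂, hf'e, hf'f₁]
    have hb₁0 : b₁ ≠ 0 := fun h => by rw [h, map_zero] at hpf; exact zero_ne_one hpf
    have hb₂0 : b₂ ≠ 0 := fun h => by
      have h' : H.B f b₂ = 1 := by simp [b₂, hfe, hff]
      rw [h, map_zero] at h'; exact zero_ne_one h'
    have hw₁ := horbit _ hc1 a₁ ha₁ h1 rfl b₁ hb₁U hb₁0 hn₁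
    have hw₂ := horbit _ hc2 a₂ ha₂ h2 rfl b₂ hb₂U hb₂0 hn₂
    have := CfsgLib.GeoSU.cent_add C hMU hw₁ hw₂ hc₀
    have hval : Cfsg.hermForm n F q (a₁ + b₁) (a₂ + b₂) = c₀⁻¹ := by
      rw [← hH]
      simp only [map_add, LinearMap.add_apply, hUW a₂ ha₂ b₁ hb₁U, hWU a₁ ha₁ b₂ hb₂U, hprod, hγ]
      ring
    rw [hval, mul_inv_cancel₀ hc₀0, one_smul, show a₁ + b₁ + (a₂ + b₂) = (a₁ + a₂) + (b₁ + b₂) by abel] at this
    refine ⟨a₁ + a₂, add_mem ha₁ ha₂, h12, rfl, b₁ + b₂, add_mem hb₁U hb₂U, fun h => ?_, this⟩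
    have h' := congrArg (H.B f') h
    rw [map_add, hpf, hpf₂, add_zero, map_zero] at h'
    exact one_ne_zero h'
  -- some class occurs
  obtain ⟨ν₀, hν₀⟩ : ∃ ν, Cls ν := by
    by_contra hall
    push Not at hall
    have hpure : ∀ u, (u ∈ W ∨ u ∈ U) → Cfsg.hermForm n F q u u = 0 →
        (g : Matrix (Fin n) (Fin n) F).mulVec u ∈ W ∨ (g : Matrix (Fin n) (Fin n) F).mulVec u ∈ U := by
      intro u hu huu
      obtain ⟨a, ha, b, hb, hab⟩ := hdec ((g : Matrix (Fin n) (Fin n) F).mulVec u)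
      rcases eq_or_ne a 0 with rfl | ha0
      · rw [zero_add] at hab; exact Or.inr (hab ▸ hb)
      rcases eq_or_ne b 0 with rfl | hb0
      · rw [add_zero] at hab; exact Or.inl (hab ▸ ha)
      exact absurd ⟨a, ha, ha0, rfl, b, hb, hb0, hab ▸ CfsgLib.GeoSU.cent_map C hg (hMU hg) (hC u hu huu)⟩ (hall _)
    let gM := Matrix.toLin' (g : Matrix (Fin n) (Fin n) F)
    have hgM : ∀ u, gM u = (g : Matrix (Fin n) (Fin n) F).mulVec u := fun u => Matrix.toLin'_apply _ _
    have hgi : Function.Injective gM := fun a b e => Matrix.mulVec_injective_of_isUnit g.isUnit (by rwa [hgM, hgM] at e)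
    have hgB : ∀ u v, H.B (gM u) (gM v) = H.B u v := fun u v => by
      rw [hH, hH, hgM, hgM]; exact CfsgLib.GeoSU.mem_GU.1 (hMU hg) v u
    let Z := Submodule.span F {u : Fin n → F | u ∈ U ∧ H.B u u = 0}
    have hZ : U ≤ Z := by
      intro x hxU
      by_contra hxZ
      obtain ⟨y, hy, hxy⟩ := CfsgLib.GeoHerm.exists_polar_eq_one H hxZ
      obtain ⟨a, ha, b, hb, rfl⟩ := hdec y
      rw [map_add, hWU a ha x hxU, zero_add] at hxy
      have hbW : b ∉ W := fun h => by
        rw [Submodule.disjoint_def.1 hdisj b h hb, map_zero] at hxy; exact zero_ne_one hxy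
      obtain ⟨u, hu, huu, hne⟩ := CfsgLib.GeoHerm.exists_singular_polar H he hee heW hbW
      refine hne (CfsgLib.GeoHerm.comm_zero H ?_)
      have := hy u (Submodule.subset_span ⟨hu, huu⟩)
      rwa [map_add, hWU a ha u hu, zero_add] at this
    have hsame : (∀ u ∈ U, H.B u u = 0 → gM u ∈ W) ∨ (∀ u ∈ U, H.B u u = 0 → gM u ∈ U) := by
      by_contra h
      push Not at h
      obtain ⟨⟨u, hu, huu, hu'⟩, ⟨v, hv, hvv, hv'⟩⟩ := h
      have hguU : gM u ∈ U := (hpure u (Or.inr hu) huu).resolve_left (by rwa [← hgM])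
      have hgvW : gM v ∈ W := (hpure v (Or.inr hv) hvv).resolve_right (by rwa [← hgM])
      have huv : H.B u v = 0 := by rw [← hgB]; exact hWU _ hgvW _ hguU
      have huvv : H.B (u + v) (u + v) = 0 := by simp [huu, hvv, huv, CfsgLib.GeoHerm.comm_zero H huv]
      rcases hpure (u + v) (Or.inr (add_mem hu hv)) huvv with h | h <;> rw [← hgM, map_add] at h
      · exact hu' ((W.add_mem_iff_left hgvW).1 h)
      · exact hv' ((U.add_mem_iff_right hguU).1 h)
    rcases hsame with h | h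
    · have hle' : U.map gM ≤ W := (Submodule.map_mono hZ).trans (by
        rw [Submodule.map_span, Submodule.span_le]; rintro _ ⟨u, hu, rfl⟩; exact h u hu.1 hu.2)
      have h1 := Submodule.finrank_mono hle'
      rw [← (Submodule.equivMapOfInjective gM hgi U).finrank_eq] at h1
      omega
    · have hle' : U.map gM ≤ U := (Submodule.map_mono hZ).trans (by
        rw [Submodule.map_span, Submodule.span_le]; rintro _ ⟨u, hu, rfl⟩; exact h u hu.1 hu.2)
      have heq : U.map gM = U :=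
        Submodule.eq_of_le_of_finrank_le hle' (Submodule.equivMapOfInjective gM hgi U).finrank_eq.le
      refine hgn (CfsgLib.Forms.mem_subspaceStabilizer_of_le fun w hw => ?_)
      obtain ⟨a, ha, b, hb, hab⟩ := hdec ((g : Matrix (Fin n) (Fin n) F).mulVec w)
      have hb0 : b = 0 := by_contra fun h0 => by
        obtain ⟨y, hy, hby⟩ := hndU b hb h0
        rw [← heq] at hy
        obtain ⟨u, hu, rfl⟩ := hy
        refine hby (CfsgLib.GeoHerm.comm_zero H ?_)
        have h1 : H.B (gM w) (gM u) = 0 := by rw [hgB]; exact hUW w hw u hu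
        rw [hgM w, ← hab, map_add, LinearMap.add_apply, hUW a ha _ (hle' ⟨u, hu, rfl⟩), zero_add] at h1
        exact h1
      rw [hb0, add_zero] at hab
      exact hab ▸ ha
  obtain ⟨A, hA, B, hB, rfl⟩ := hdec x
  have hAB : H.B A A + H.B B B = 0 := (hnorm A hA B hB).symm.trans hx
  rcases eq_or_ne A 0 with rfl | hA0
  · rw [zero_add]; exact hC B (Or.inr hB) (by simpa using hx)
  rcases eq_or_ne B 0 with rfl | hB0
  · rw [add_zero]; exact hC A (Or.inl hA) (by simpa using hx)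
  have hfin : Cls (H.B A A) := by
    by_cases hAA : H.B A A = 0
    · rw [hAA]
      by_cases h0 : ν₀ = 0
      · rwa [h0] at hν₀
      -- an isotropic vector as the sum of two anisotropic ones
      obtain ⟨p, hp, hpp, hAp⟩ : ∃ p ∈ W, H.B p p = 0 ∧ H.B A p = 1 := by
        obtain ⟨y, hy, hAy⟩ := hndW A hA hA0
        obtain ⟨t, ht⟩ := CfsgLib.GeoHerm.exists_trace H
          (-H.B ((H.B A y)⁻¹ • y) ((H.B A y)⁻¹ • y)) (by rw [map_neg, H.symm])
        have hAy' : H.B A y ≠ 0 := fun h => hAy (CfsgLib.GeoHerm.comm_zero H h)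
        have h1 : H.B A ((H.B A y)⁻¹ • y) = 1 := by rw [map_smul, smul_eq_mul, inv_mul_cancel₀ hAy']
        refine ⟨(H.B A y)⁻¹ • y + t • A, add_mem (W.smul_mem _ hy) (W.smul_mem _ hA), ?_, ?_⟩
        · rw [CfsgLib.GeoHerm.add_smul_self, h1, hAA, ← H.symm A, h1, map_one]
          linear_combination ht
        · rw [map_add, h1, map_smul, hAA, smul_zero, add_zero]
      have hpA : H.B p A = 1 := by rw [← H.symm, hAp, map_one]
      obtain ⟨τ, hτf, hτ0, hτ2⟩ : ∃ τ : F, H.σ τ = τ ∧ τ ≠ 0 ∧ τ + 2 ≠ 0 := by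
        by_cases h3 : (1 : F) + 2 = 0
        · refine ⟨2, map_ofNat _ _, fun h => one_ne_zero (α := F) (by linear_combination h3 - h), fun h => one_ne_zero (α := F) ?_⟩
          linear_combination h - h3
        · exact ⟨1, map_one _, one_ne_zero, h3⟩
      obtain ⟨s, hs⟩ := CfsgLib.GeoHerm.exists_trace H τ hτf
      set a₂ := -(p + s • A) with ha₂def
      set a₁ := A - a₂ with ha₁def
      have hn2 : H.B a₂ a₂ = τ := by simp [ha₂def, hpp, hAp, hpA, hAA]; linear_combination hs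
      have hn1 : H.B a₁ a₁ = τ + 2 := by
        simp [ha₁def, ha₂def, hpp, hAp, hpA, hAA]; linear_combination hs
      have h2f : H.σ (τ + 2) = τ + 2 := by rw [map_add, hτf, map_ofNat]
      have ha₂W : a₂ ∈ W := neg_mem (add_mem hp (W.smul_mem _ hA))
      have := hmix a₁ (sub_mem hA ha₂W) a₂ ha₂W (fun h => hτ2 (by rw [← hn1, h]; simp))
        (fun h => hτ0 (by rw [← hn2, h]; simp)) (by rw [hn1]; exact hscale _ _ hν₀ h0 hτ2 h2f)
        (by rw [hn2]; exact hscale _ _ hν₀ h0 hτ0 hτf) (by rw [ha₁def, sub_add_cancel]; exact hA0)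
      rwa [ha₁def, sub_add_cancel, hAA] at this
    · refine ?_
      by_cases h0 : ν₀ = 0
      · obtain ⟨a, ha, ha0, haa, -⟩ := hν₀.imp fun _ h => h
        rw [h0] at hν₀ haa
        obtain ⟨y, hy, hay⟩ := hndW a ha ha0
        have hay' : H.B a y ≠ 0 := fun h => hay (CfsgLib.GeoHerm.comm_zero H h)
        set y₁ := (H.B a y)⁻¹ • y with hy₁
        have h1 : H.B a y₁ = 1 := by rw [hy₁, map_smul, smul_eq_mul, inv_mul_cancel₀ hay']
        obtain ⟨t, ht⟩ := CfsgLib.GeoHerm.exists_trace H (-H.B y₁ y₁) (by rw [map_neg, H.symm])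
        set p := y₁ + t • a with hp
        have hpp : H.B p p = 0 := by
          rw [hp, CfsgLib.GeoHerm.add_smul_self, haa, ← H.symm a, h1, map_one]
          linear_combination ht
        have hap : H.B a p = 1 := by rw [hp, map_add, h1, map_smul, haa, smul_zero, add_zero]
        obtain ⟨l, hl⟩ : ∃ l, l + H.σ l = H.B A A := CfsgLib.GeoHerm.exists_trace H _ (H.symm A A)
        have hl0 : l ≠ 0 := fun h => hAA (by rw [← hl, h, map_zero, add_zero])
        have hnew : H.B (a + l • p) (a + l • p) = H.B A A := by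
          rw [CfsgLib.GeoHerm.add_smul_self, haa, hpp, hap, ← H.symm a, hap, map_one]
          linear_combination hl
        have := hmix a ha (l • p) (W.smul_mem _ (add_mem (W.smul_mem _ hy) (W.smul_mem _ ha))) ha0
          (smul_ne_zero hl0 fun h => by rw [h, map_zero] at hap; exact zero_ne_one hap)
          (by rwa [haa]) (by rw [map_smul, LinearMap.map_smulₛₗ, LinearMap.smul_apply, hpp]; simpa using hν₀)
          (fun h => hAA (by rw [← hnew, h]; simp))
        rwa [hnew] at this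
      · exact hscale _ _ hν₀ h0 hAA (H.symm A A)
  exact horbit _ hfin A hA hA0 rfl B hB hB0 (eq_neg_of_add_eq_zero_right hAB)

end Cfsg.Agent.S5654
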