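import Cfsg.Statements.S5656
import Cfsg.Agent.GeoLib.NonMax
import Cfsg.Agent.GeoLib.SUGL

set_option autoImplicit false
open Cfsg

namespace Cfsg.Agent.S5656

/-- Let F be the field with 4 elements (q = 2) and n ≥ 13. Let D be a decomposition of F^n into t pairwise orthogonal 2-dimensional subspaces, each non-degenerate for the standard unitary form Σ u_i v_i². Then the elements of SU_n(2) permuting the members of D form a subgroup that is not maximal: some subgroup lies strictly between it and SU_n(2). -/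
theorem result {F : Type*} [Field F] [Fintype F] (n : ℕ) (hF : Fintype.card F = 4) (hn : 13 ≤ n) {t : ℕ} (D : Fin t → Submodule F (Fin n → F)) (hD : Cfsg.Geo.IsNondegenerateMDecomposition (Cfsg.hermForm n F 2) 2 D) : ∃ K : Subgroup (Matrix.GeneralLinearGroup (Fin n) F), Cfsg.Geo.decompositionStabilizer D ⊓ (Cfsg.GU n F 2 ⊓ Cfsg.Geo.specialLinear (Fin n) F) < K ∧ K < (Cfsg.GU n F 2 ⊓ Cfsg.Geo.specialLinear (Fin n) F) := by
  classical
  obtain ⟨C⟩ := CfsgLib.UGeom.nonempty_conj (F := F) (q := 2) (by rw [hF]; norm_num)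
  have h2 : (2 : F) = 0 := by
    have h0 : ((Fintype.card F : ℕ) : F) = 0 := FiniteField.cast_card_eq_zero F
    rw [hF] at h0
    have : (2 : F) * 2 = 0 := by norm_num at h0; linear_combination h0
    exact mul_self_eq_zero.1 this
  have hnorm : ∀ c : F, c ≠ 0 → c * C.σ c = 1 := fun c hc => by
    have := FiniteField.pow_card_sub_one_eq_one c hc
    rw [hF] at this; rw [C.pow]; linear_combination this
  have hself : ∀ x, hermForm n F 2 x x ≠ 0 → hermForm n F 2 x x = 1 := fun x hx => by
    have h1 := hnorm _ hx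
    rw [CfsgLib.UGeom.form_conj C] at h1
    have h3 := FiniteField.pow_card_sub_one_eq_one _ hx
    rw [hF] at h3
    linear_combination h3 - hermForm n F 2 x x * h1
  have ht : 4 ≤ t := by
    have hint : DirectSum.IsInternal D :=
      DirectSum.isInternal_submodule_of_iSupIndep_of_iSup_eq_top hD.decomp.indep hD.decomp.iSup_eq_top
    have h1 : Module.finrank F (Fin n → F) = ∑ i, Module.finrank F (D i) := by
      rw [← Module.finrank_directSum]
      exact (LinearEquiv.ofBijective (DirectSum.coeLinearMap D) hint).finrank_eq.symm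
    simp [hD.decomp.finrank_eq] at h1
    omega
  -- the anisotropic frame of a member
  have hmem : ∀ i, ∃ a ∈ D i, hermForm n F 2 a a = 1 ∧ ∃ b ∈ D i, b ≠ 0 ∧ hermForm n F 2 a b = 0 ∧
      ∀ y ∈ D i, hermForm n F 2 y y = 1 → (∃ c : F, y = c • a) ∨ hermForm n F 2 y a = 0 := by
    intro i
    obtain ⟨a, ha, haa⟩ : ∃ a ∈ D i, hermForm n F 2 a a ≠ 0 := by
      by_contra hall
      push Not at hall
      obtain ⟨x, hx, hx0⟩ := (D i).exists_mem_ne_zero_of_ne_bot fun h => by
        have := hD.decomp.finrank_eq i; rw [h, finrank_bot] at this; omega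
      obtain ⟨-, y, hy, hxy⟩ := hD.nondegenerate i x hx hx0
      obtain ⟨z, hz⟩ : ∃ z : F, z + C.σ z ≠ 0 := by
        by_contra h
        push Not at h
        refine C.ne_id (RingHom.ext fun z => ?_)
        show C.σ z = z
        linear_combination h z - z * h2
      have := hall (x + (C.σ (z / hermForm n F 2 x y)) • y) (add_mem hx ((D i).smul_mem _ hy))
      rw [CfsgLib.UGeom.form_add_left, CfsgLib.UGeom.form_add_right C, CfsgLib.UGeom.form_add_right C,
        CfsgLib.UGeom.form_smul_left, CfsgLib.UGeom.form_smul_left, CfsgLib.UGeom.form_smul_right C,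
        CfsgLib.UGeom.form_smul_right C, C.invol, hall x hx, hall y hy, ← CfsgLib.UGeom.form_conj C x y,
        div_mul_cancel₀ _ hxy, ← map_mul, div_mul_cancel₀ _ hxy] at this
      exact hz (by linear_combination this)
    have ha1 := hself a haa
    have ha0 : a ≠ 0 := fun h => haa (by rw [h, CfsgLib.UGeom.form_zero_left])
    obtain ⟨b, hb, hba⟩ : ∃ b ∈ D i, b ∉ Submodule.span F {a} := by
      refine SetLike.not_le_iff_exists.1 fun hle => ?_
      have := Submodule.finrank_mono hle
      rw [hD.decomp.finrank_eq, finrank_span_singleton ha0] at this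
      omega
    set b' := b - hermForm n F 2 b a • a with hb'
    have hb'a : hermForm n F 2 b' a = 0 := by
      rw [hb', CfsgLib.UGeom.form_sub_left, CfsgLib.UGeom.form_smul_left, ha1, mul_one, sub_self]
    have hab' : hermForm n F 2 a b' = 0 := by rw [← CfsgLib.UGeom.form_conj C, hb'a, map_zero]
    have hb'0 : b' ≠ 0 := fun h => hba (Submodule.mem_span_singleton.2 ⟨hermForm n F 2 b a, (sub_eq_zero.1 h).symm⟩)
    have hb'm : b' ∈ D i := sub_mem hb ((D i).smul_mem _ ha)
    have hli : LinearIndependent F ![a, b'] := (LinearIndependent.pair_iff' ha0).2 fun c hc => hb'0 (by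
      rw [← hc, CfsgLib.UGeom.form_smul_left, ha1, mul_one] at hb'a
      rw [← hc, hb'a, zero_smul])
    have hspan : Submodule.span F {a, b'} = D i := Submodule.eq_of_le_of_finrank_le
      (Submodule.span_le.2 (by rintro z (rfl | rfl); exacts [ha, hb'm]))
      (by rw [hD.decomp.finrank_eq, ← Matrix.range_cons_cons_empty a b' ![], finrank_span_eq_card hli]; simp)
    have hbb : hermForm n F 2 b' b' = 1 := by
      refine hself b' fun h => ?_
      obtain ⟨-, y, hy, hby⟩ := hD.nondegenerate i b' hb'm hb'0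
      rw [← hspan, Submodule.mem_span_pair] at hy
      obtain ⟨r, s, rfl⟩ := hy
      exact hby (by rw [CfsgLib.UGeom.form_add_right C, CfsgLib.UGeom.form_smul_right C,
        CfsgLib.UGeom.form_smul_right C, hb'a, h, mul_zero, mul_zero, add_zero])
    refine ⟨a, ha, ha1, b', hb'm, hb'0, hab', fun y hy hyy => ?_⟩
    rw [← hspan, Submodule.mem_span_pair] at hy
    obtain ⟨r, s, rfl⟩ := hy
    rw [CfsgLib.UGeom.form_add_left, CfsgLib.UGeom.form_add_right C, CfsgLib.UGeom.form_add_right C,
      CfsgLib.UGeom.form_smul_left, CfsgLib.UGeom.form_smul_left, CfsgLib.UGeom.form_smul_left,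
      CfsgLib.UGeom.form_smul_left, CfsgLib.UGeom.form_smul_right C, CfsgLib.UGeom.form_smul_right C,
      CfsgLib.UGeom.form_smul_right C, CfsgLib.UGeom.form_smul_right C, ha1, hb'a, hab', hbb] at hyy
    rcases eq_or_ne r 0 with rfl | hr
    · exact Or.inr (by rw [zero_smul, zero_add, CfsgLib.UGeom.form_smul_left, hb'a, mul_zero])
    rcases eq_or_ne s 0 with rfl | hs
    · exact Or.inl ⟨r, by rw [zero_smul, add_zero]⟩
    have := hnorm r hr; have := hnorm s hs
    exact absurd (show (1 : F) = 0 by linear_combination hyy - hnorm r hr - hnorm s hs) one_ne_zero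
  choose a ha haa b hb hb0 hab hfr using hmem
  have ha0 : ∀ i, a i ≠ 0 := fun i h => zero_ne_one (α := F) (by rw [← haa i, h, CfsgLib.UGeom.form_zero_left])
  have hba : ∀ i, hermForm n F 2 (b i) (a i) = 0 := fun i => by rw [← CfsgLib.UGeom.form_conj C, hab, map_zero]
  have hbb : ∀ i, hermForm n F 2 (b i) (b i) = 1 := fun i => by
    refine hself _ fun h => ?_
    obtain ⟨-, y, hy, hby⟩ := hD.nondegenerate i (b i) (hb i) (hb0 i)
    have hli : LinearIndependent F ![a i, b i] := (LinearIndependent.pair_iff' (ha0 i)).2 fun c hc => hb0 i (by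
      have h' := hba i
      rw [← hc, CfsgLib.UGeom.form_smul_left, haa, mul_one] at h'
      rw [← hc, h', zero_smul])
    have hspan : Submodule.span F {a i, b i} = D i := Submodule.eq_of_le_of_finrank_le
      (Submodule.span_le.2 (by rintro z (rfl | rfl); exacts [ha i, hb i]))
      (by rw [hD.decomp.finrank_eq, ← Matrix.range_cons_cons_empty (a i) (b i) ![], finrank_span_eq_card hli]; simp)
    rw [← hspan, Submodule.mem_span_pair] at hy
    obtain ⟨r, s, rfl⟩ := hy
    exact hby (by rw [CfsgLib.UGeom.form_add_right C, CfsgLib.UGeom.form_smul_right C,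
      CfsgLib.UGeom.form_smul_right C, hba, h, mul_zero, mul_zero, add_zero])
  obtain ⟨π, hπ1, hπ2, hπ3, hπ4⟩ := CfsgLib.GeoDecomp.exists_proj hD.decomp
  let A : (Fin n → F) → Prop := fun x => ∃ i, x ∈ D i ∧ hermForm n F 2 x x = 1
  let Φ : (Fin n → F) → F := fun x => if A x then 1 else 0
  have hΦ : ∀ {g : GL (Fin n) F}, (∀ x, A ((g : Matrix (Fin n) (Fin n) F).mulVec x) ↔ A x) →
      g ∈ CfsgLib.GeoNonMax.fixFun Φ := fun {g} h x => if_congr (h x) rfl rfl
  have hΦ' : ∀ {g : GL (Fin n) F} {x}, g ∈ CfsgLib.GeoNonMax.fixFun Φ → A x →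
      A ((g : Matrix (Fin n) (Fin n) F).mulVec x) := fun {g x} h hx => by
    have := h x
    by_contra hc
    simp [Φ, hx, hc] at this
  have horth : ∀ i j, i ≠ j → ∀ x ∈ D i, ∀ y ∈ D j, hermForm n F 2 x y = 0 := hD.orthogonal
  have htv : ∀ w, hermForm n F 2 w w = 0 → ∃ g ∈ Cfsg.GU n F 2 ⊓ Cfsg.Geo.specialLinear (Fin n) F,
      ∀ x, (g : Matrix (Fin n) (Fin n) F).mulVec x = x + hermForm n F 2 x w • w := by
    intro w hw
    obtain ⟨g, -, hg⟩ := CfsgLib.GeoTransvection.exists_transvection w ((1 : F) • (CfsgLib.GeoSU.stdHerm C n).B w)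
      (by simp [CfsgLib.GeoSU.stdHerm_apply, hw])
    refine ⟨g, CfsgLib.GeoSU.utv_mem_GU C hw (c := 1) (by rw [map_one, one_add_one_eq_two, h2]) hg, fun x => ?_⟩
    rw [hg]; simp [CfsgLib.GeoSU.stdHerm_apply]
  obtain ⟨i, j, k, l, hij, hik, hil, hjk, hjl, hkl⟩ : ∃ a b c d : Fin t,
      a ≠ b ∧ a ≠ c ∧ a ≠ d ∧ b ≠ c ∧ b ≠ d ∧ c ≠ d :=
    ⟨⟨0, by omega⟩, ⟨1, by omega⟩, ⟨2, by omega⟩, ⟨3, by omega⟩, by simp, by simp, by simp, by simp, by simp, by simp⟩
  refine ⟨CfsgLib.GeoNonMax.fixFun Φ ⊓ (Cfsg.GU n F 2 ⊓ Cfsg.Geo.specialLinear (Fin n) F), ?_, ?_⟩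
  · refine lt_of_le_not_ge (le_inf (fun g hg => hΦ fun x => ?_) inf_le_right) fun hle => ?_
    · obtain ⟨⟨σ, hσ⟩, hgU, -⟩ := hg
      have hh : hermForm n F 2 ((g : Matrix (Fin n) (Fin n) F).mulVec x) ((g : Matrix (Fin n) (Fin n) F).mulVec x) =
          hermForm n F 2 x x := CfsgLib.GeoSU.mem_GU.1 hgU x x
      constructor
      · rintro ⟨c, hc, h1⟩
        refine ⟨σ.symm c, ?_, hh ▸ h1⟩
        rw [← σ.apply_symm_apply c, ← hσ] at hc
        obtain ⟨z, hz, hzx⟩ := hc
        rw [Matrix.toLin'_apply] at hzx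
        rwa [← Matrix.mulVec_injective_of_isUnit g.isUnit hzx]
      · rintro ⟨c, hc, h1⟩
        refine ⟨σ c, ?_, hh ▸ h1⟩
        rw [← hσ c]
        exact ⟨x, hc, Matrix.toLin'_apply _ _⟩
    · -- exchange one line of two members
      have hw : hermForm n F 2 (a i + a j) (a i + a j) = 0 := by
        rw [CfsgLib.UGeom.form_add_left, CfsgLib.UGeom.form_add_right C, CfsgLib.UGeom.form_add_right C, haa, haa,
          horth i j hij _ (ha i) _ (ha j), horth j i hij.symm _ (ha j) _ (ha i), add_zero, zero_add,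
          one_add_one_eq_two, h2]
      obtain ⟨g, hg, hgv⟩ := htv _ hw
      have himg : ∀ x, A x → A ((g : Matrix (Fin n) (Fin n) F).mulVec x) := by
        rintro x ⟨c, hc, hx⟩
        have hxx : hermForm n F 2 ((g : Matrix (Fin n) (Fin n) F).mulVec x) ((g : Matrix (Fin n) (Fin n) F).mulVec x)
            = 1 := (CfsgLib.GeoSU.mem_GU.1 hg.1 x x).trans hx
        suffices h : ∃ c', (g : Matrix (Fin n) (Fin n) F).mulVec x ∈ D c' by
          obtain ⟨c', hc'⟩ := h
          exact ⟨c', hc', hxx⟩
        rw [hgv, CfsgLib.UGeom.form_add_right C]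
        by_cases hci : c = i
        · subst hci
          rw [horth c j hij x hc _ (ha j), add_zero]
          rcases hfr c x hc hx with ⟨r, rfl⟩ | h0
          · refine ⟨j, ?_⟩
            rw [CfsgLib.UGeom.form_smul_left, haa, mul_one, smul_add, ← add_assoc, ← add_smul,
              show r + r = 0 by linear_combination r * h2, zero_smul, zero_add]
            exact (D j).smul_mem _ (ha j)
          · exact ⟨c, by rwa [h0, zero_smul, add_zero]⟩
        by_cases hcj : c = j
        · subst hcj
          rw [horth c i hij.symm x hc _ (ha i), zero_add]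
          rcases hfr c x hc hx with ⟨r, rfl⟩ | h0
          · refine ⟨i, ?_⟩
            rw [CfsgLib.UGeom.form_smul_left, haa, mul_one, smul_add, add_left_comm, ← add_smul,
              show r + r = 0 by linear_combination r * h2, zero_smul, add_zero]
            exact (D i).smul_mem _ (ha i)
          · exact ⟨c, by rwa [h0, zero_smul, add_zero]⟩
        exact ⟨c, by rwa [horth c i hci x hc _ (ha i), horth c j hcj x hc _ (ha j), add_zero, zero_smul, add_zero]⟩
      have hin : g ∈ CfsgLib.GeoNonMax.fixFun Φ := hΦ fun x => ⟨fun hx => by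
        have := himg _ hx
        rwa [Matrix.mulVec_mulVec, ← Units.val_mul, show g * g = 1 from CfsgLib.GeoFull.gl_ext fun z => by
          rw [Units.val_mul, ← Matrix.mulVec_mulVec, hgv, hgv, CfsgLib.UGeom.form_add_left,
            CfsgLib.UGeom.form_smul_left, hw, mul_zero, add_zero, add_assoc, ← add_smul,
            show hermForm n F 2 z (a i + a j) + hermForm n F 2 z (a i + a j) = 0 by
              linear_combination hermForm n F 2 z (a i + a j) * h2,
            zero_smul, add_zero, Units.val_one, Matrix.one_mulVec],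
          Units.val_one, Matrix.one_mulVec] at this, himg x⟩
      obtain ⟨σ, hσ⟩ := (hle ⟨hin, hg⟩).1
      have e1 : b i ∈ D (σ i) := by
        rw [← hσ i]
        exact ⟨b i, hb i, by rw [Matrix.toLin'_apply, hgv, CfsgLib.UGeom.form_add_right C, hba,
          horth i j hij _ (hb i) _ (ha j), add_zero, zero_smul, add_zero]⟩
      have e2 : a j ∈ D (σ i) := by
        rw [← hσ i]
        exact ⟨a i, ha i, by rw [Matrix.toLin'_apply, hgv, CfsgLib.UGeom.form_add_right C, haa,
          horth i j hij _ (ha i) _ (ha j), add_zero, one_smul, ← add_assoc, ← two_smul F, h2, zero_smul, zero_add]⟩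
      by_cases h : σ i = i
      · exact ha0 j (CfsgLib.GeoDecomp.eq_zero_of_mem hD.decomp hij (h ▸ e2) (ha j))
      · exact hb0 i (CfsgLib.GeoDecomp.eq_zero_of_mem hD.decomp h e1 (hb i))
  · refine lt_of_le_not_ge inf_le_right fun hle => ?_
    set w := a i + a j + a k + a l with hwdef
    have hw : hermForm n F 2 w w = 0 := by
      simp only [hwdef, CfsgLib.UGeom.form_add_left, CfsgLib.UGeom.form_add_right C, haa,
        horth _ _ hij _ (ha i) _ (ha j), horth _ _ hik _ (ha i) _ (ha k), horth _ _ hil _ (ha i) _ (ha l),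
        horth _ _ hjk _ (ha j) _ (ha k), horth _ _ hjl _ (ha j) _ (ha l), horth _ _ hkl _ (ha k) _ (ha l),
        horth _ _ hij.symm _ (ha j) _ (ha i), horth _ _ hik.symm _ (ha k) _ (ha i), horth _ _ hil.symm _ (ha l) _ (ha i),
        horth _ _ hjk.symm _ (ha k) _ (ha j), horth _ _ hjl.symm _ (ha l) _ (ha j), horth _ _ hkl.symm _ (ha l) _ (ha k)]
      linear_combination 2 * h2
    obtain ⟨g, hg, hgv⟩ := htv w hw
    obtain ⟨c, hc, -⟩ := hΦ' (hle hg).1 (x := a i) ⟨i, ha i, haa i⟩
    have e : (g : Matrix (Fin n) (Fin n) F).mulVec (a i) = a j + a k + a l := by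
      rw [hgv, hwdef, CfsgLib.UGeom.form_add_right C, CfsgLib.UGeom.form_add_right C, CfsgLib.UGeom.form_add_right C,
        haa, horth i j hij _ (ha i) _ (ha j), horth i k hik _ (ha i) _ (ha k), horth i l hil _ (ha i) _ (ha l),
        add_zero, add_zero, add_zero, one_smul, ← add_assoc, ← add_assoc, ← add_assoc, ← two_smul F (a i), h2,
        zero_smul, zero_add]
    rw [e] at hc
    by_cases hcj : c = j
    · subst hcj
      have h' := hπ4 k c hjk.symm _ hc
      rw [map_add, map_add, hπ4 k c hjk.symm _ (ha c), hπ4 k l hkl _ (ha l), hπ3 k _ (ha k), zero_add, add_zero] at h'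
      exact ha0 k h'
    · have h' := hπ4 j c (Ne.symm hcj) _ hc
      rw [map_add, map_add, hπ4 j k hjk _ (ha k), hπ4 j l hjl _ (ha l), hπ3 j _ (ha j), add_zero, add_zero] at h'
      exact ha0 j h'

end Cfsg.Agent.S5656
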