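import Cfsg.Statements.S5657
import Cfsg.Agent.GeoLib.SUGeom
import Cfsg.Agent.GeoLib.Decomp

set_option autoImplicit false
open Cfsg

namespace Cfsg.Agent.S5657

/-- Let F be the field with q² elements and n = 2k ≥ 13. Let D be a decomposition of F^n into two complementary subspaces of dimension k on each of which the standard unitary form vanishes identically. Then the elements of SU_n(q) preserving or interchanging the two subspaces form a maximal subgroup of SU_n(q). -/
theorem result {F : Type*} [Field F] [Fintype F] (n q : ℕ) (hF : Fintype.card F = q ^ 2) (hn : 13 ≤ n) (k : ℕ) (hk : 2 * k = n) (D : Fin 2 → Submodule F (Fin n → F)) (hD : Cfsg.Geo.IsMDecomposition k D) (hts : ∀ i, Cfsg.Geo.IsTotallySingularFor (Cfsg.hermForm n F q) (D i)) : Cfsg.Geo.IsMaximalIn (Cfsg.GU n F q ⊓ Cfsg.Geo.specialLinear (Fin n) F) (Cfsg.Geo.decompositionStabilizer D ⊓ (Cfsg.GU n F q ⊓ Cfsg.Geo.specialLinear (Fin n) F)) := by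
  classical
  obtain ⟨C⟩ := CfsgLib.UGeom.nonempty_conj hF
  obtain ⟨π, hπmem, hπsum, hπid, hπ0⟩ := CfsgLib.GeoDecomp.exists_proj hD
  let H := CfsgLib.GeoSU.stdHerm C n
  let B := H.B
  have hB : ∀ u v, B u v = Cfsg.hermForm n F q v u := fun u v => rfl
  have hsym : ∀ u v, H.σ (B u v) = B v u := H.symm
  have hcomm : ∀ {u v}, B u v = 0 → B v u = 0 := fun h => CfsgLib.GeoHerm.comm_zero H h
  have hBnd : ∀ x, (∀ y, B x y = 0) → x = 0 := fun x h => H.inj (by rw [map_zero]; exact LinearMap.ext h)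
  let o : Fin 2 → Fin 2 := Equiv.swap 0 1
  have ho : ∀ i, o i ≠ i ∧ o (o i) = i := by decide
  have hsplit : ∀ i x, π i x + π (o i) x = x := by
    intro i x
    conv_rhs => rw [← hπsum x]
    rw [Fin.sum_univ_two]
    fin_cases i
    · rfl
    · show π 1 x + π (o 1) x = _
      rw [show o 1 = 0 by decide, add_comm]
  have hts' : ∀ i, ∀ x ∈ D i, ∀ y ∈ D i, B x y = 0 := fun i x hx y hy => hts i y hy x hx
  -- the pairing
  have hpair : ∀ i, ∀ x ∈ D i, (∀ y ∈ D (o i), B x y = 0) → x = 0 := fun i x hx h => hBnd x fun y => by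
    rw [← hsplit i y, map_add, hts' i x hx _ (hπmem i y), h _ (hπmem _ y), add_zero]
  have hsep : ∀ i, ∀ (S : Submodule F (Fin n → F)), ∀ x ∈ D (o i), x ∉ S → S ≤ D (o i) →
      ∃ y ∈ D i, (∀ s ∈ S, B s y = 0) ∧ B x y = 1 := by
    intro i S x hx hxS hS
    obtain ⟨y, hy, hxy⟩ := CfsgLib.GeoHerm.exists_polar_eq_one H hxS
    have e : ∀ s ∈ D (o i), B s y = B s (π i y) := fun s hs => by
      conv_lhs => rw [← hsplit i y]
      rw [map_add, hts' (o i) s hs _ (hπmem _ y), add_zero]
    exact ⟨π i y, hπmem i y, fun s hs => by rw [← e s (hS hs)]; exact hy s hs, by rw [← e x hx]; exact hxy⟩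
  have hsep1 : ∀ i, ∀ s ∈ D (o i), ∀ x ∈ D (o i), x ∉ Submodule.span F {s} → ∃ y ∈ D i, B s y = 0 ∧ B x y = 1 := by
    intro i s hs x hx hxs
    obtain ⟨y, hy, h1, h2⟩ := hsep i _ x hx hxs ((Submodule.span_singleton_le_iff_mem _ _).2 hs)
    exact ⟨y, hy, h1 s (Submodule.mem_span_singleton_self s), h2⟩
  -- short root elements
  let SR : (Fin n → F) → (Fin n → F) → Matrix.GeneralLinearGroup (Fin n) F → Prop :=
    fun x y g => ∀ z, (g : Matrix (Fin n) (Fin n) F).mulVec z = z + B y z • x - B x z • y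
  set S := Cfsg.GU n F q ⊓ Cfsg.Geo.specialLinear (Fin n) F with hS
  have hSB : ∀ g ∈ S, ∀ u v, B ((g : Matrix (Fin n) (Fin n) F).mulVec u) ((g : Matrix (Fin n) (Fin n) F).mulVec v) = B u v :=
    fun g hg u v => CfsgLib.GeoSU.mem_GU.1 hg.1 v u
  have hSRex : ∀ x y, B x x = 0 → B y y = 0 → B x y = 0 → ∃ g ∈ S, SR x y g := by
    intro x y hx hy hxy
    obtain ⟨g, hg, e, he⟩ := CfsgLib.GeoHerm.exists_root H hx hy hxy
    exact ⟨g, ⟨CfsgLib.GeoSU.mem_GU.2 fun u v => he v u, hg⟩, e⟩
  set G := Cfsg.Geo.decompositionStabilizer D ⊓ S with hG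
  have hSRG : ∀ i, ∀ x ∈ D i, ∀ y ∈ D (o i), B x y = 0 → ∀ g, SR x y g → g ∈ G := by
    intro i x hx y hy hxy g hg
    refine ⟨CfsgLib.GeoDecomp.mem_stabilizer hD fun j => ⟨j, fun z hz => ?_⟩, ?_⟩
    · rw [hg]
      rcases eq_or_ne j i with rfl | hji
      · rw [hts' _ x hx z hz, zero_smul, sub_zero]; exact add_mem hz (Submodule.smul_mem _ _ hx)
      · have hj : j = o i := (show ∀ a b : Fin 2, b ≠ a → b = o a by decide) i j hji
        subst hj
        rw [hts' _ y hy z hz, zero_smul, add_zero]; exact sub_mem hz (Submodule.smul_mem _ _ hy)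
    · obtain ⟨g', hg', e⟩ := hSRex x y (hts' i x hx x hx) (hts' _ y hy y hy) hxy
      rwa [show g = g' from CfsgLib.GeoFull.gl_ext fun z => by rw [hg, e]]
  have hne : ∀ i, ∃ x ∈ D i, x ≠ 0 := fun i => (D i).exists_mem_ne_zero_of_ne_bot fun h => by
    have := hD.finrank_eq i; rw [h, finrank_bot] at this; omega
  obtain ⟨c0, hc0, hc0'⟩ : ∃ c : F, c ≠ 0 ∧ c + H.σ c = 0 := by
    obtain ⟨t, ht⟩ : ∃ t, H.σ t ≠ t := by
      by_contra hall
      push Not at hall
      exact H.ne_id (RingHom.ext hall)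
    exact ⟨H.σ t - t, sub_ne_zero.2 ht, by rw [map_sub, H.invol]; ring⟩
  refine ⟨lt_of_le_not_ge inf_le_right fun hle => ?_, fun M hGM hMS => ?_⟩
  · obtain ⟨a, ha, ha0⟩ := hne 0
    obtain ⟨b, hb, hba⟩ : ∃ b ∈ D 1, B a b ≠ 0 := by
      by_contra hall
      push Not at hall
      exact ha0 (hpair 0 a ha hall)
    have hφ : (c0 • B a) a = 0 := by rw [LinearMap.smul_apply, hts' 0 a ha a ha, smul_zero]
    obtain ⟨t, -, ht⟩ := CfsgLib.GeoTransvection.exists_transvection a (c0 • B a) hφ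
    have htS : t ∈ S := CfsgLib.GeoSU.utv_mem_GU C (hts' 0 a ha a ha) hc0' ht
    obtain ⟨σ, hσ⟩ := (hle htS).1
    have himg : b + (c0 * B a b) • a ∈ D (σ 1) := by
      rw [← hσ 1]
      exact ⟨b, hb, by rw [Matrix.toLin'_apply, ht]; rfl⟩
    have h0 : π 0 (b + (c0 * B a b) • a) = (c0 * B a b) • a := by
      rw [map_add, map_smul, hπid 0 a ha, hπ0 0 1 (by decide) b hb, zero_add]
    have h1 : π 1 (b + (c0 * B a b) • a) = b := by
      rw [map_add, map_smul, hπid 1 b hb, hπ0 1 0 (by decide) a ha, smul_zero, add_zero]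
    have hb0 : b ≠ 0 := fun h => hba (by rw [h]; simp)
    generalize σ 1 = s at himg
    fin_cases s
    · rw [hπ0 1 0 (by decide) _ himg] at h1; exact hb0 h1.symm
    · rw [hπ0 0 1 (by decide) _ himg] at h0; exact smul_ne_zero (mul_ne_zero hc0 hba) ha0 h0.symm
  by_cases hle : M ≤ Cfsg.Geo.decompositionStabilizer D
  · exact Or.inl (le_antisymm (le_inf hle hMS) hGM)
  refine Or.inr (le_antisymm hMS (CfsgLib.GeoSU.le_of_cent C (by omega) ?_))
  obtain ⟨g, hg, hgn⟩ := SetLike.not_le_iff_exists.1 hle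
  let gM : (Fin n → F) →ₗ[F] (Fin n → F) := Matrix.toLin' (g : Matrix (Fin n) (Fin n) F)
  have hgMi : Function.Injective gM := fun a b e => Matrix.mulVec_injective_of_isUnit g.isUnit (by simpa [gM] using e)
  have hgB : ∀ u v, B (gM u) (gM v) = B u v := fun u v => by
    simpa [gM] using hSB g (hMS hg) u v
  -- a mixed image of a pure vector
  obtain ⟨l₀, d₀, hd₀, hmix⟩ : ∃ l₀, ∃ d₀ ∈ D l₀, ∀ i, π i (gM d₀) ≠ 0 := by
    by_contra hall
    push Not at hall
    refine hgn (CfsgLib.GeoDecomp.mem_stabilizer hD fun l => ?_)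
    have hcase : ∀ v ∈ D l, ∃ i, gM v ∈ D i := fun v hv => by
      obtain ⟨i, hi⟩ := hall l v hv
      exact ⟨o i, by rw [← hsplit i (gM v), hi, zero_add]; exact hπmem _ _⟩
    obtain ⟨v₀, hv₀, hv₀0⟩ := hne l
    obtain ⟨i, hi⟩ := hcase v₀ hv₀
    refine ⟨i, fun v hv => ?_⟩
    obtain ⟨j, hj⟩ := hcase v hv
    rcases eq_or_ne j i with rfl | hji
    · exact hj
    obtain ⟨j', hj'⟩ := hcase _ (add_mem hv hv₀)
    rw [map_add] at hj'
    rcases eq_or_ne j' i with rfl | hj'i
    · exact (Submodule.add_mem_iff_left _ hi).1 hj'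
    · have hjj : j' = j := (show ∀ a b c : Fin 2, b ≠ a → c ≠ a → c = b by decide) i j j' hji hj'i
      rw [hjj] at hj'
      exact absurd (CfsgLib.GeoDecomp.eq_zero_of_mem hD hji ((Submodule.add_mem_iff_right _ hj).1 hj') hi)
        fun h => hv₀0 (hgMi (by rw [h, map_zero]))
  -- a new short root element
  obtain ⟨i, d, hd, hd0, y, hdy, hyy, hyout, hyM⟩ : ∃ i, ∃ d ∈ D i, d ≠ 0 ∧ ∃ y, B d y = 0 ∧ B y y = 0 ∧
      π i y ∉ Submodule.span F {d} ∧ ∃ r ∈ M, SR d y r := by
    by_contra hnone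
    push Not at hnone
    -- vectors orthogonal to the images
    let A : Fin 2 → (Fin n → F) → Submodule F (Fin n → F) := fun i d =>
      D (o l₀) ⊓ LinearMap.ker (B d₀) ⊓ LinearMap.ker ((B d).comp gM)
    have hchoose : ∀ i, ∃ d ∈ D i, π i (gM d₀) ∉ Submodule.span F {d} ∧ B d (gM d₀) = 0 ∧ d ≠ 0 := by
      intro i
      set p := π i (gM d₀)
      obtain ⟨S, hS⟩ : ∃ S : Submodule F (Fin n → F), S = D i ⊓ LinearMap.ker (B (gM d₀)) := ⟨_, rfl⟩
      have h1 := Submodule.finrank_sup_add_finrank_inf_eq (D i) (LinearMap.ker (B (gM d₀)))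
      have h2 := (B (gM d₀)).finrank_range_add_finrank_ker
      have h3 := Submodule.finrank_le (LinearMap.range (B (gM d₀)))
      have h4 := Submodule.finrank_le (D i ⊔ LinearMap.ker (B (gM d₀)))
      rw [hD.finrank_eq, ← hS] at h1
      simp at h3 h4
      simp [Module.finrank_fintype_fun_eq_card] at h2
      obtain ⟨d, hd, hdp⟩ : ∃ d ∈ S, d ∉ Submodule.span F {p} := by
        by_contra hall
        push Not at hall
        have := (Submodule.finrank_mono (show S ≤ Submodule.span F {p} from hall)).trans_eq (finrank_span_singleton (hmix i))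
        omega
      rw [hS] at hd
      refine ⟨d, hd.1, fun hp => hdp ?_, hcomm hd.2, fun h => hdp (by rw [h]; exact zero_mem _)⟩
      obtain ⟨c, hc⟩ := Submodule.mem_span_singleton.1 hp
      have hc0 : c ≠ 0 := fun h0 => hmix i (show p = 0 by rw [← hc, h0, zero_smul])
      rw [← hc]
      exact Submodule.mem_span_singleton.2 ⟨c⁻¹, by rw [smul_smul, inv_mul_cancel₀ hc0, one_smul]⟩
    choose d hd hdp hdq hdne using hchoose
    have hA : ∀ i, ∀ a₀ ∈ A i (d i), π i (gM a₀) ∈ Submodule.span F {d i, π i (gM d₀)} := by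
      intro i a₀ ha₀
      by_contra hout
      obtain ⟨a, ha, haS, hap⟩ := hsep (o i) (Submodule.span F {d i, π i (gM d₀)}) (π i (gM a₀))
        (by rw [(ho i).2]; exact hπmem i _) hout
        (Submodule.span_le.2 (by
          rw [(ho i).2]
          rintro z (rfl | rfl)
          · exact hd i
          · exact hπmem i _))
      have hBπ : ∀ z, B z a = B (π i z) a := fun z => by
        conv_lhs => rw [← hsplit i z]
        rw [map_add, LinearMap.add_apply, hts' _ _ (hπmem (o i) z) a ha, add_zero]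
      have e1 : B (d i) a = 0 := haS _ (Submodule.subset_span (by simp))
      have e2 : B (gM d₀) a = 0 := by rw [hBπ]; exact haS _ (Submodule.subset_span (by simp))
      have e3 : B (gM a₀) a ≠ 0 := by rw [hBπ, hap]; exact one_ne_zero
      have e4 : B (d i) (gM a₀) = 0 := ha₀.2
      have e5 : B d₀ a₀ = 0 := ha₀.1.2
      have e1' : B (d i) (d i) = 0 := hts' i _ (hd i) _ (hd i)
      obtain ⟨x, -, hx⟩ := hSRex (d i) a e1' (hts' _ a ha a ha) e1
      obtain ⟨y₀, -, hy₀⟩ := hSRex d₀ a₀ (hts' _ _ hd₀ _ hd₀) (hts' _ _ ha₀.1.1 _ ha₀.1.1) e5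
      have hxM : x ∈ M := hGM (hSRG i _ (hd i) _ ha e1 x hx)
      have hyM : g * y₀ * g⁻¹ ∈ M := mul_mem (mul_mem hg (hGM (hSRG l₀ _ hd₀ _ ha₀.1.1 e5 y₀ hy₀))) (inv_mem hg)
      set d' := gM d₀ with hd'
      set a' := gM a₀ with ha'
      have hy : SR d' a' (g * y₀ * g⁻¹) := fun z => by
        rw [Units.val_mul, Units.val_mul, ← Matrix.mulVec_mulVec, ← Matrix.mulVec_mulVec, hy₀, Matrix.mulVec_sub,
          Matrix.mulVec_add, Matrix.mulVec_smul, Matrix.mulVec_smul, CfsgLib.GeoFull.mulVec_inv_cancel]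
        have e : ∀ w, B w (((g⁻¹ : Matrix.GeneralLinearGroup (Fin n) F) : Matrix (Fin n) (Fin n) F).mulVec z) =
            B (gM w) z := fun w => by
          rw [← hgB]; simp [gM, CfsgLib.GeoFull.mulVec_inv_cancel]
        rw [e, e]
        simp [gM, hd', ha']
      set p := B a' a with hp
      have f0 : B d' d' = 0 := by rw [hd', hgB]; exact hts' _ _ hd₀ _ hd₀
      have f9 : B a' a' = 0 := by rw [ha', hgB]; exact hts' _ _ ha₀.1.1 _ ha₀.1.1
      have h1 : B (d i) ((-p) • d') = 0 := by rw [map_smul, hdq i, smul_zero]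
      have h2 : B ((-p) • d') ((-p) • d') = 0 := by
        rw [map_smul, LinearMap.map_smulₛₗ, LinearMap.smul_apply, f0, smul_zero, smul_zero]
      obtain ⟨r, -, hr⟩ := hSRex (d i) ((-p) • d') e1' h2 h1
      refine hnone i (d i) (hd i) (hdne i) ((-p) • d') h1 h2 ?_ r ?_ hr
      · rw [map_smul, Submodule.smul_mem_iff _ (neg_ne_zero.2 e3)]; exact hdp i
      · have f1 : B d' (d i) = 0 := hcomm (hdq i)
        have f2 : B a' (d i) = 0 := hcomm e4
        have f3 : B d' a' = 0 := by rw [hd', ha', hgB, e5]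
        have f4 : B a' d' = 0 := hcomm f3
        have f5 : B a (d i) = 0 := hcomm e1
        have f6 : B a d' = 0 := hcomm e2
        have f7 : B a a' = H.σ p := (hsym a' a).symm
        obtain ⟨Y, hY⟩ : ∃ Y, Y = g * y₀ * g⁻¹ := ⟨_, rfl⟩
        rw [← hY] at hy hyM
        have he : r * Y * x = x * Y := CfsgLib.GeoFull.gl_ext fun z => by
          simp only [Units.val_mul, ← Matrix.mulVec_mulVec]
          rw [hr, hy, hy, hx, hx]
          simp only [map_add, map_sub, map_smul, LinearMap.map_smulₛₗ, LinearMap.smul_apply, map_neg, hdq i, e1,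
            e2, e4, f0, f1, f2, f3, f4, f5, f6, f7, f9, e1', hts' _ a ha a ha, ← hp, smul_eq_mul]
          module
        have hr' : r = x * Y * x⁻¹ * Y⁻¹ := by rw [← he]; group
        rw [hr']
        exact mul_mem (mul_mem (mul_mem hxM hyM) (inv_mem hxM)) (inv_mem hyM)
    -- the two failures contradict each other
    set X := Submodule.span F {d 0, π 0 (gM d₀)} ⊔ Submodule.span F {d 1, π 1 (gM d₀)}
    set A' := A 0 (d 0) ⊓ LinearMap.ker ((B (d 1)).comp gM)
    have hA' : A'.map gM ≤ X := by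
      rintro _ ⟨a, ha, rfl⟩
      rw [← hsplit 0 (gM a), show o 0 = (1 : Fin 2) by decide]
      exact Submodule.add_mem_sup (hA 0 a ha.1) (hA 1 a ⟨ha.1.1, ha.2⟩)
    have hd'X : gM d₀ ∈ X := by
      rw [← hsplit 0 (gM d₀), show o 0 = (1 : Fin 2) by decide]
      exact Submodule.add_mem_sup (Submodule.subset_span (by simp)) (Submodule.subset_span (by simp))
    have hd'A : gM d₀ ∉ A'.map gM := by
      rintro ⟨a, ha, e⟩
      have := hgMi e
      subst this
      exact hmix 0 (by rw [CfsgLib.GeoDecomp.eq_zero_of_mem hD (ho l₀).1.symm hd₀ ha.1.1.1, map_zero, map_zero])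
    have hlt := Submodule.finrank_lt_finrank_of_lt (lt_of_le_of_ne hA' fun h => hd'A (h ▸ hd'X))
    rw [← (Submodule.equivMapOfInjective gM hgMi A').finrank_eq] at hlt
    have hX : Module.finrank F X ≤ 4 := (Submodule.finrank_add_le_finrank_add_finrank _ _).trans
      (add_le_add (CfsgLib.GeoHerm.finrank_pair_le _ _) (CfsgLib.GeoHerm.finrank_pair_le _ _))
    have hcut : ∀ (S : Submodule F (Fin n → F)) (φ : Module.Dual F (Fin n → F)),
        Module.finrank F S ≤ Module.finrank F ↥(S ⊓ LinearMap.ker φ) + 1 := fun S φ => by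
      have h1 := Submodule.finrank_sup_add_finrank_inf_eq S (LinearMap.ker φ)
      have h2 := φ.finrank_range_add_finrank_ker
      have h3 := Submodule.finrank_le (LinearMap.range φ)
      have h4 := Submodule.finrank_le (S ⊔ LinearMap.ker φ)
      simp at h3
      omega
    have c1 := hcut (D (o l₀)) (B d₀)
    have c2 := hcut (D (o l₀) ⊓ LinearMap.ker (B d₀)) ((B (d 0)).comp gM)
    have c3 := hcut (A 0 (d 0)) ((B (d 1)).comp gM)
    rw [hD.finrank_eq] at c1
    simp only [A] at c3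
    simp only [A', A] at hlt
    omega
  -- a transvection at a pure vector
  obtain ⟨r, hrM, hr⟩ := hyM
  obtain ⟨u, hu, hdu, huy⟩ := hsep1 (o i) d (by rw [(ho i).2]; exact hd) (π i y) (by rw [(ho i).2]; exact hπmem i y) hyout
  have hyu : B y u = 1 := by
    conv_lhs => rw [← hsplit i y]
    rw [map_add, LinearMap.add_apply, huy, hts' _ _ (hπmem (o i) y) u hu, add_zero]
  have hdd : B d d = 0 := hts' i d hd d hd
  have hdC : CfsgLib.GeoSU.Cent C M d := by
    refine ⟨hdd, fun c hc t ht => ?_⟩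
    obtain ⟨e, he⟩ := CfsgLib.GeoHerm.exists_trace H 1 (map_one _)
    set b := -c * e with hb
    have hσb : H.σ b - b = c := by
      rw [hb, map_mul, map_neg]
      have : H.σ c = -c := eq_neg_of_add_eq_zero_right hc
      rw [this]
      linear_combination c * he
    obtain ⟨s, -, hs⟩ := hSRex d (b • u) hdd (by simp [hts' _ u hu u hu]) (by rw [map_smul, hdu, smul_zero])
    have hsM : s ∈ M := hGM (hSRG i d hd _ (Submodule.smul_mem _ _ hu) (by rw [map_smul, hdu, smul_zero]) s hs)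
    have hyd : B y d = 0 := hcomm hdy
    have hud : B u d = 0 := hcomm hdu
    have huy' : B u y = 1 := by rw [← hsym, hyu, map_one]
    have ht' : ∀ z, (t : Matrix (Fin n) (Fin n) F).mulVec z = z + (c * B d z) • d := ht
    have he : t * s * r = r * s := CfsgLib.GeoFull.gl_ext fun z => by
      rw [Units.val_mul (t * s), Units.val_mul t, Units.val_mul r, ← Matrix.mulVec_mulVec,
        ← Matrix.mulVec_mulVec, ← Matrix.mulVec_mulVec, ht', hr, hs, hs, hr]
      simp only [map_add, map_sub, map_smul, LinearMap.map_smulₛₗ, LinearMap.smul_apply, hdy, hdu, hyd, hud, huy',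
        hyu, hyy, hdd, hts' _ u hu u hu, smul_eq_mul, ← hσb]
      module
    rw [show t = r * s * r⁻¹ * s⁻¹ by rw [← he]; group]
    exact mul_mem (mul_mem (mul_mem hrM hsM) (inv_mem hrM)) (inv_mem hsM)
  -- the whole member
  have hDi : ∀ x ∈ D i, CfsgLib.GeoSU.Cent C M x := by
    intro x hx
    by_cases hdep : x ∈ Submodule.span F {d}
    · obtain ⟨c, rfl⟩ := Submodule.mem_span_singleton.1 hdep
      exact CfsgLib.GeoSU.cent_smul C c hdC
    have hxd : d ∉ Submodule.span F {x - d} := fun h => by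
      obtain ⟨c, hc⟩ := Submodule.mem_span_singleton.1 h
      have hc0 : c ≠ 0 := fun h0 => hd0 (by rw [← hc, h0, zero_smul])
      refine hdep (Submodule.mem_span_singleton.2 ⟨c⁻¹ + 1, ?_⟩)
      rw [add_smul, one_smul]
      nth_rw 1 [← hc]
      rw [smul_smul, inv_mul_cancel₀ hc0, one_smul, sub_add_cancel]
    obtain ⟨v, hv, hv1, hv2⟩ := hsep1 (o i) (x - d) (by rw [(ho i).2]; exact sub_mem hx hd) d
      (by rw [(ho i).2]; exact hd) hxd
    obtain ⟨s, hsS, hs⟩ := hSRex (x - d) v (hts' i _ (sub_mem hx hd) _ (sub_mem hx hd)) (hts' _ v hv v hv) hv1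
    have := CfsgLib.GeoSU.cent_map C (hGM (hSRG i _ (sub_mem hx hd) _ hv hv1 s hs)) hsS.1 hdC
    rw [hs, show B v d = 1 by rw [← hsym, hv2, map_one], hts' i _ (sub_mem hx hd) d hd, zero_smul, sub_zero,
      one_smul, add_sub_cancel] at this
    exact this
  -- interchanging the members
  obtain ⟨J, hJG, hJ⟩ : ∃ J ∈ G, ∀ l, ∀ x ∈ D l, (J : Matrix (Fin n) (Fin n) F).mulVec x ∈ D (o l) := by
    let bas := Module.finBasis F (D 0)
    let p : (Fin n → F) →ₗ[F] D 0 := (π 0).codRestrict (D 0) (hπmem 0)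
    choose u hu using fun j => CfsgLib.GeoHerm.exists_dual_vec H ((bas.coord j).comp p)
    let w : Fin (Module.finrank F (D 0)) → (Fin n → F) := fun j => bas j
    have hw : ∀ j, w j ∈ D 0 := fun j => (bas j).2
    have hp0 : ∀ x ∈ D 1, p x = 0 := fun x hx => Subtype.ext (hπ0 0 1 (by decide) x hx)
    have hu1 : ∀ j, ∀ x, B (u j) x = bas.repr (p x) j := fun j x => LinearMap.congr_fun (hu j) x
    have huD : ∀ j, u j ∈ D 1 := by
      intro j
      have h0 : π 0 (u j) = 0 := hpair 0 _ (hπmem 0 _) fun z hz => by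
        have hz1 : z ∈ D 1 := by rwa [show o 0 = 1 by decide] at hz
        have e : B (u j) z = 0 := by rw [hu1, hp0 z hz1]; simp
        rw [← hsplit 0 (u j), map_add, LinearMap.add_apply, hts' _ _ (hπmem _ _) z hz, add_zero] at e
        exact e
      rw [← hsplit 0 (u j), h0, zero_add, show o 0 = 1 by decide]
      exact hπmem 1 _
    have huw : ∀ j l, B (u j) (w l) = if l = j then 1 else 0 := fun j l => by
      rw [hu1, show p (w l) = bas l from Subtype.ext (hπid 0 _ (hw l)), bas.repr_self, Finsupp.single_apply]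
    have hwu : ∀ j l, B (w l) (u j) = if l = j then 1 else 0 := fun j l => by
      rw [← hsym, huw]; split <;> simp
    have hπ0' : ∀ x, ∑ j, B (u j) x • w j = π 0 x := fun x => by
      have h := congrArg Subtype.val (bas.sum_repr (p x))
      rw [Submodule.coe_sum] at h
      simp only [Submodule.coe_smul] at h
      rw [show π 0 x = (p x : Fin n → F) from rfl]
      simpa [hu1, w] using h
    have hπ1' : ∀ x, ∑ j, B (w j) x • u j = π 1 x := fun x => by
      refine (sub_eq_zero.1 (hpair 1 _ (sub_mem (hπmem 1 x) (Submodule.sum_mem _ fun j _ => Submodule.smul_mem _ _ (huD j))) ?_)).symm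
      intro z hz
      rw [show o 1 = 0 by decide] at hz
      refine hcomm ?_
      have hbz : z = ∑ j, B (u j) z • w j := by rw [hπ0' z, hπid 0 z hz]
      have hw0 : ∀ j, B (w j) (π 1 x - ∑ l, B (w l) x • u l) = 0 := fun j => by
        have e : B (w j) x = B (w j) (π 1 x) := by
          conv_lhs => rw [← hsplit 0 x]
          rw [map_add, hts' 0 _ (hw j) _ (hπmem 0 x), zero_add, show o 0 = 1 by decide]
        simp [hwu, ← e]
      rw [hbz, map_sum, LinearMap.sum_apply]
      exact Finset.sum_eq_zero fun j _ => by rw [LinearMap.map_smulₛₗ, LinearMap.smul_apply, hw0, smul_zero]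
    let L : (Fin n → F) →ₗ[F] (Fin n → F) := ∑ j, ((B (u j)).smulRight (u j) + (B (w j)).smulRight (w j))
    have hL : ∀ x, L x = ∑ j, (B (u j) x • u j + B (w j) x • w j) := fun x => by simp [L]
    have huu : ∀ j l, B (u j) (u l) = 0 := fun j l => hts' 1 _ (huD j) _ (huD l)
    have hww : ∀ j l, B (w j) (w l) = 0 := fun j l => hts' 0 _ (hw j) _ (hw l)
    have hdec : ∀ x, ∑ j, (B (u j) x • w j + B (w j) x • u j) = x := fun x => by
      rw [Finset.sum_add_distrib, hπ0', hπ1']
      exact hsplit 0 x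
    have hLw : ∀ j, L (w j) = u j := fun j => by simp [hL, huw, hww]
    have hLu : ∀ j, L (u j) = w j := fun j => by simp [hL, hwu, huu]
    have hLL : L * L = 1 := LinearMap.ext fun x => by
      show L (L x) = x
      rw [hL x, map_sum]
      simp only [map_add, map_smul, hLu, hLw]
      exact hdec x
    have hiso : ∀ x y, B (L x) (L y) = B x y := fun x y => by
      conv_rhs => rw [← hdec x, ← hdec y]
      rw [hL, hL]
      simp [huw, hwu, huu, hww, Finset.sum_add_distrib, add_comm]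
    have hLD : ∀ l, ∀ x ∈ D l, L x ∈ D (o l) := by
      intro l x hx
      rw [hL]
      refine Submodule.sum_mem _ fun j _ => ?_
      fin_cases l
      · rw [hts' 0 _ (hw j) x hx, zero_smul, add_zero]; exact Submodule.smul_mem _ _ (huD j)
      · rw [hts' 1 _ (huD j) x hx, zero_smul, zero_add]; exact Submodule.smul_mem _ _ (hw j)
    obtain ⟨L', hdet, hiso', hL'⟩ : ∃ L' : (Fin n → F) →ₗ[F] (Fin n → F), LinearMap.det L' = 1 ∧
        (∀ x y, B (L' x) (L' y) = B x y) ∧ ∀ l, ∀ x ∈ D l, L' x ∈ D (o l) := by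
      rcases mul_self_eq_one_iff.1 (show LinearMap.det L * LinearMap.det L = 1 by
        rw [← map_mul, hLL, map_one]) with h | h
      · exact ⟨L, h, hiso, hLD⟩
      let j₀ : Fin (Module.finrank F (D 0)) := ⟨0, by rw [hD.finrank_eq]; omega⟩
      have hσc : H.σ c0 = -c0 := eq_neg_of_add_eq_zero_right hc0'
      let T : (Fin n → F) →ₗ[F] (Fin n → F) := LinearMap.transvection ((c0 - 1) • B (u j₀)) (w j₀) *
        LinearMap.transvection ((-c0⁻¹ - 1) • B (w j₀)) (u j₀)
      have hT : ∀ x, T x = x + ((c0 - 1) * B (u j₀) x) • w j₀ + ((-c0⁻¹ - 1) * B (w j₀) x) • u j₀ := fun x => by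
        simp [T, LinearMap.transvection.apply, huu]
        module
      refine ⟨T * L, ?_, fun x y => ?_, fun l x hx => ?_⟩
      · rw [map_mul, map_mul, LinearMap.transvection.det, LinearMap.transvection.det, h]
        simp [huw, hwu, hc0]
      · show B (T (L x)) (T (L y)) = _
        rw [← hiso x y, hT, hT]
        simp only [map_add, map_smul, LinearMap.map_smulₛₗ, LinearMap.add_apply, LinearMap.smul_apply, smul_eq_mul,
          huu, hww, huw, hwu, map_mul, map_sub, map_neg, map_inv₀, map_one, hσc, hsym, if_true]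
        field_simp
        ring
      · rw [Module.End.mul_apply, hT]
        have hLx := hLD l x hx
        fin_cases l
        · rw [hts' 1 _ (huD j₀) _ hLx, mul_zero, zero_smul, add_zero]
          exact add_mem hLx (Submodule.smul_mem _ _ (huD j₀))
        · rw [hts' 0 _ (hw j₀) _ hLx, mul_zero, zero_smul, add_zero]
          exact add_mem hLx (Submodule.smul_mem _ _ (hw j₀))
    have hd1 : (LinearMap.toMatrix' L').det = 1 := by rw [LinearMap.det_toMatrix', hdet]
    let J := Matrix.GeneralLinearGroup.mkOfDetNeZero (LinearMap.toMatrix' L') (by rw [hd1]; exact one_ne_zero)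
    have hJ : ∀ x, (J : Matrix (Fin n) (Fin n) F).mulVec x = L' x := fun x => LinearMap.toMatrix'_mulVec L' x
    refine ⟨J, ⟨CfsgLib.GeoDecomp.mem_stabilizer hD fun l => ⟨o l, fun x hx => by rw [hJ]; exact hL' l x hx⟩,
      CfsgLib.GeoSU.mem_GU.2 fun x y => by rw [hJ, hJ]; exact hiso' y x, MonoidHom.mem_ker.2 (Units.ext hd1)⟩,
      fun l x hx => by rw [hJ]; exact hL' l x hx⟩
  have hDo : ∀ x ∈ D (o i), CfsgLib.GeoSU.Cent C M x := fun x hx => by
    have hmap : (D i).map (Matrix.toLin' (J : Matrix (Fin n) (Fin n) F)) = D (o i) := by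
      refine Submodule.eq_of_le_of_finrank_le ?_ ?_
      · rintro _ ⟨z, hz, rfl⟩
        exact hJ i z hz
      · rw [← (Submodule.equivMapOfInjective _ (fun a b e => Matrix.mulVec_injective_of_isUnit J.isUnit e) (D i)).finrank_eq,
          hD.finrank_eq, hD.finrank_eq]
    rw [← hmap] at hx
    obtain ⟨z, hz, rfl⟩ := hx
    exact CfsgLib.GeoSU.cent_map C (hGM hJG) hJG.2.1 (hDi z hz)
  intro x hx
  have hMU : M ≤ Cfsg.GU n F q := fun m hm => (hMS hm).1
  have hz : ∀ a ∈ D i, ∀ b ∈ D (o i), B (a + b) (a + b) = 0 → B a b ≠ 0 → CfsgLib.GeoSU.Cent C M (a + b) := by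
    intro a ha b hb hab hne
    rw [map_add, map_add, LinearMap.add_apply, LinearMap.add_apply, hts' _ a ha a ha, hts' _ b hb b hb, zero_add,
      add_zero] at hab
    have h2 : (B a b)⁻¹ + H.σ (B a b)⁻¹ = 0 := by
      have hne' : B b a ≠ 0 := fun h => hne (hcomm h)
      rw [map_inv₀, hsym]
      field_simp
      linear_combination hab
    have := CfsgLib.GeoSU.cent_add C hMU (hDo b hb) (hDi a ha) h2
    rwa [← hB, inv_mul_cancel₀ hne, one_smul, add_comm b a] at this
  have hxx : B x x = 0 := hx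
  rw [← hsplit i x] at hxx ⊢
  set a := π i x
  set b := π (o i) x
  have ha : a ∈ D i := hπmem i x
  have hb : b ∈ D (o i) := hπmem _ x
  by_cases hab : B a b = 0
  swap
  · exact hz a ha b hb hxx hab
  rcases eq_or_ne b 0 with h0 | hb0
  · rw [h0, add_zero]; exact hDi a ha
  obtain ⟨a₂, ha₂, hl⟩ : ∃ a₂ ∈ D i, B a₂ b ≠ 0 := by
    by_contra h
    push Not at h
    refine hb0 (hpair (o i) b hb fun z hz => hcomm (h z ?_))
    rwa [(ho i).2] at hz
  set a' := a + (c0 * B a₂ b) • a₂ with ha'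
  have ha'i : a' ∈ D i := add_mem ha (Submodule.smul_mem _ _ ha₂)
  have h2 : B a₂ (a' + b) = B a₂ b := by rw [map_add, hts' _ a₂ ha₂ a' ha'i, zero_add]
  have hba : B b a = 0 := hcomm hab
  have h1 : B a' b ≠ 0 := by
    simp [ha', hab, hc0, hl]
  have hneg : -c0 + H.σ (-c0) = 0 := by rw [map_neg]; linear_combination -hc0'
  have h3 : B (a' + b) (a' + b) = 0 := by
    have hσc : H.σ c0 = -c0 := eq_neg_of_add_eq_zero_right hc0'
    simp [ha', hts' _ a ha a ha, hts' _ b hb b hb, hts' _ a₂ ha₂ a₂ ha₂, hts' _ a ha a₂ ha₂, hts' _ a₂ ha₂ a ha, hab,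
      hba, hσc, hsym]
    rw [← hsym a₂ b]
    ring
  have := CfsgLib.GeoSU.cent_add C hMU (hz a' ha'i b hb h3 h1) (hDi a₂ ha₂) hneg
  rw [← hB, h2] at this
  convert this using 1
  rw [ha']
  module

end Cfsg.Agent.S5657
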