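import Cfsg.Statements.S5659
import Cfsg.Agent.GeoLib.SUGL
import Cfsg.Agent.GeoLib.Subfield
import Cfsg.Agent.GeoLib.OrthFull

set_option autoImplicit false
open Cfsg

namespace Cfsg.Agent.S5659

/-- Let F be the field with q² elements, q odd, n ≥ 13, and F₀ the subfield with q elements. Let P be an invertible matrix such that the standard unitary form takes values in F₀ on the F₀-span of the columns of P (so it restricts to a non-degenerate symmetric bilinear form there). Then the elements of SU_n(q) lying in the subfield group of P form a maximal subgroup of SU_n(q). -/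
theorem result {F : Type*} [Field F] [Fintype F] (n q : ℕ) (hF : Fintype.card F = q ^ 2) (hn : 13 ≤ n) (hodd : Odd q) (F₀ : Subfield F) (hcard : Fintype.card F = Nat.card F₀ ^ 2) (P : Matrix.GeneralLinearGroup (Fin n) F) (hP : Cfsg.Geo.IsFormRationalStructure (Cfsg.hermForm n F q) F₀ 1 P) : Cfsg.Geo.IsMaximalIn (Cfsg.GU n F q ⊓ Cfsg.Geo.specialLinear (Fin n) F) (Cfsg.Geo.subfieldSubgroup F₀ P ⊓ (Cfsg.GU n F q ⊓ Cfsg.Geo.specialLinear (Fin n) F)) := by
  classical
  obtain ⟨C⟩ := CfsgLib.UGeom.nonempty_conj hF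
  let H := CfsgLib.GeoSU.stdHerm C n
  let B := H.B
  have hB : ∀ u v, B u v = Cfsg.hermForm n F q v u := fun u v => rfl
  let P' : Matrix (Fin n) (Fin n) F := (P : Matrix (Fin n) (Fin n) F)
  let R : (Fin n → F) → Prop := CfsgLib.GeoSubfield.Rat' F₀ P
  -- the subfield is the fixed field
  have hq : Nat.card F₀ = q := Nat.pow_left_injective two_ne_zero (hcard.symm.trans hF)
  have h2 : (2 : F) ≠ 0 := by
    have h : ringChar F ≠ 2 := by
      rw [Ne, FiniteField.even_card_iff_char_two, hF, Nat.odd_iff.1 hodd.pow]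
      exact one_ne_zero
    exact Ring.two_ne_zero h
  have hfix : ∀ a ∈ F₀, C.σ a = a := fun a ha => by
    have := FiniteField.pow_card (⟨a, ha⟩ : F₀)
    rw [← Nat.card_eq_fintype_card, hq] at this
    rw [C.pow]
    exact congrArg Subtype.val this
  have hfix' : ∀ a, C.σ a = a → a ∈ F₀ := by
    intro a ha
    by_contra hout
    have h1 : (insert a ((F₀ : Set F).toFinset)).card = q + 1 := by
      rw [Finset.card_insert_of_notMem (by simpa using hout), Set.toFinset_card, ← Nat.card_eq_fintype_card]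
      exact congrArg (· + 1) hq
    have h2 : ((Polynomial.X : Polynomial F) ^ q - Polynomial.X).natDegree = q := FiniteField.X_pow_card_sub_X_natDegree_eq F C.two_le
    have h3 : (insert a ((F₀ : Set F).toFinset)).card ≤ q := by
      refine le_trans ?_ h2.le
      refine Polynomial.card_le_degree_of_subset_roots fun z hz => ?_
      rw [Polynomial.mem_roots (FiniteField.X_pow_card_sub_X_ne_zero F C.two_le)]
      rw [Finset.mem_val, Finset.mem_insert] at hz
      rcases hz with rfl | hz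
      · simp [← C.pow, ha]
      · simp [← C.pow, hfix z (by simpa using hz)]
    omega
  obtain ⟨ω, hσω, hω0⟩ : ∃ ω : F, C.σ ω = -ω ∧ ω ≠ 0 := by
    obtain ⟨t, ht⟩ : ∃ t, C.σ t ≠ t := by
      by_contra hall
      push Not at hall
      exact C.ne_id (RingHom.ext hall)
    exact ⟨C.σ t - t, by rw [map_sub, C.invol]; ring, sub_ne_zero.2 ht⟩
  have hω : ω ∉ F₀ := fun h => hω0 (mul_left_cancel₀ h2 (by rw [mul_zero]; linear_combination hσω - hfix ω h))
  let w2 : F₀ := ⟨ω * ω, hfix' _ (by rw [map_mul, hσω, neg_mul_neg])⟩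
  have hw2 : (w2 : F) = ω * ω := rfl
  have h20 : (2 : F₀) ≠ 0 := fun h => h2 (by
    have := congrArg F₀.subtype h
    rwa [map_ofNat, map_zero] at this)
  have hdec : ∀ a : F, ∃ b c : F₀, (b : F) + ω * c = a := by
    intro a
    refine ⟨⟨(a + C.σ a) / 2, hfix' _ (by rw [map_div₀, map_add, C.invol, map_ofNat, add_comm])⟩,
      ⟨(a - C.σ a) / (2 * ω), hfix' _ (by rw [map_div₀, map_sub, C.invol, map_mul, map_ofNat, hσω, mul_neg,
        ← neg_sub a, neg_div_neg_eq])⟩, ?_⟩
    field_simp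
    ring
  have hcoord : ∀ r s : F₀, (r : F) + ω * s = 0 → r = 0 ∧ s = 0 := by
    intro r s h
    have hs : s = 0 := by
      by_contra hs
      have hs' : (s : F) ≠ 0 := fun e => hs (Subtype.ext e)
      refine hω ?_
      rw [show ω = -(r : F) / s by field_simp; linear_combination h]
      exact div_mem (neg_mem r.2) s.2
    refine ⟨Subtype.ext ?_, hs⟩
    simpa [hs] using h
  -- coordinates of the rational vectors
  let e : (Fin n → F₀) → (Fin n → F) := fun a => P'.mulVec fun i => (a i : F)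
  have heR : ∀ a, R (e a) := fun a => CfsgLib.GeoSubfield.rat_mulVec fun i => (a i).2
  have headd : ∀ a b, e (a + b) = e a + e b := fun a b => by
    rw [← Matrix.mulVec_add]; rfl
  have hesmul : ∀ (k : F₀) a, e (k • a) = (k : F) • e a := fun k a => by
    rw [← Matrix.mulVec_smul]; rfl
  have he0 : e 0 = 0 := by rw [← zero_smul F₀ (0 : Fin n → F₀), hesmul]; simp
  have hesub : ∀ a b, e (a - b) = e a - e b := fun a b => by
    rw [← Matrix.mulVec_sub]; rfl
  have heinj : ∀ a b, e a = e b → a = b := fun a b h =>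
    funext fun i => Subtype.ext (congrFun (Matrix.mulVec_injective_of_isUnit P.isUnit h) i)
  have hsmulR : ∀ (k : F) a b, a ≠ 0 → k • e a = e b → k ∈ F₀ := fun k a b ha h =>
    CfsgLib.GeoSubfield.mem_of_smul (heR a) (fun h0 => ha (heinj _ _ (h0.trans he0.symm))) (h ▸ heR b)
  have huniq : ∀ a b, e a + ω • e b = 0 → a = 0 ∧ b = 0 := by
    intro a b h
    have hb : b = 0 := by
      by_contra hb
      refine hω (hsmulR ω b (-a) hb ?_)
      rw [← zero_sub a, hesub, he0, zero_sub]
      exact eq_neg_of_add_eq_zero_right h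
    refine ⟨heinj _ _ ?_, hb⟩
    rw [hb, he0, smul_zero, add_zero] at h
    rw [h, he0]
  have hindep : ∀ a b, a ≠ 0 → b ∉ Submodule.span F₀ {a} → ∀ s t : F, s • e a + t • e b = 0 → s = 0 ∧ t = 0 := by
    intro a b ha hb s t h
    have ht : t = 0 := by
      by_contra ht
      have h' : (-(s / t)) • e a = e b := by
        have h'' : e b = t⁻¹ • (-(s • e a)) := by
          rw [← eq_neg_of_add_eq_zero_right h, smul_smul, inv_mul_cancel₀ ht, one_smul]
        rw [h'', smul_neg, smul_smul, neg_smul, div_eq_inv_mul]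
      have hk := hsmulR _ a b ha h'
      exact hb (Submodule.mem_span_singleton.2 ⟨⟨_, hk⟩, heinj _ _ (by rw [hesmul]; exact h')⟩)
    refine ⟨?_, ht⟩
    rw [ht, zero_smul, add_zero, smul_eq_zero] at h
    exact h.resolve_right fun h0 => ha (heinj _ _ (h0.trans he0.symm))
  have hexp : ∀ w : Fin n → F, ∃ a b, w = e a + ω • e b := by
    intro w
    choose b c hbc using fun i => hdec ((((P⁻¹ : Matrix.GeneralLinearGroup (Fin n) F) : Matrix (Fin n) (Fin n) F).mulVec w) i)
    refine ⟨b, c, ?_⟩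
    show w = P'.mulVec _ + ω • P'.mulVec _
    rw [← Matrix.mulVec_smul, ← Matrix.mulVec_add,
      show (fun i => (b i : F)) + ω • (fun i => (c i : F)) =
        ((P⁻¹ : Matrix.GeneralLinearGroup (Fin n) F) : Matrix (Fin n) (Fin n) F).mulVec w from
        funext fun i => by simpa using hbc i]
    exact (CfsgLib.GeoFull.mulVec_inv_cancel P w).symm
  -- the symmetric form on the coordinates
  have hval : ∀ a b, Cfsg.hermForm n F q (e a) (e b) ∈ F₀ := fun a b => by
    simpa using hP (fun i => (a i : F)) (fun i => (b i : F)) (fun i => (a i).2) (fun i => (b i).2)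
  let B₀ : LinearMap.BilinForm F₀ (Fin n → F₀) := LinearMap.mk₂ F₀ (fun a b => (⟨_, hval a b⟩ : F₀))
    (fun a a' b => Subtype.ext (by
      show Cfsg.hermForm n F q (e (a + a')) (e b) = _
      rw [headd, CfsgLib.UGeom.form_add_left]; rfl))
    (fun k a b => Subtype.ext (by
      show Cfsg.hermForm n F q (e (k • a)) (e b) = _
      rw [hesmul, CfsgLib.UGeom.form_smul_left]; rfl))
    (fun a b b' => Subtype.ext (by
      show Cfsg.hermForm n F q (e a) (e (b + b')) = _
      rw [headd, CfsgLib.UGeom.form_add_right C]; rfl))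
    (fun k a b => Subtype.ext (by
      show Cfsg.hermForm n F q (e a) (e (k • b)) = _
      rw [hesmul, CfsgLib.UGeom.form_smul_right C, hfix _ k.2]; rfl))
  have hh : ∀ a b, Cfsg.hermForm n F q (e a) (e b) = (B₀ a b : F) := fun a b => rfl
  have hsymm : ∀ a b, B₀ a b = B₀ b a := fun a b => Subtype.ext (by
    rw [← hh, ← hh, ← CfsgLib.UGeom.form_conj C (e b) (e a), hfix _ (hval b a)])
  let Q := B₀.toQuadraticMap
  have hQB : ∀ a, Q a = B₀ a a := fun a => rfl
  have hpolar : ∀ a b, QuadraticMap.polar Q a b = 2 * B₀ a b := fun a b => by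
    rw [LinearMap.BilinMap.polar_toQuadraticMap, hsymm b a, two_mul]
  have hpz : ∀ {a b}, QuadraticMap.polar Q a b = 0 → B₀ a b = 0 := fun h => by
    rw [hpolar] at h; exact (mul_eq_zero.1 h).resolve_left h20
  have hQ : (QuadraticMap.polarBilin Q).Nondegenerate := by
    have hleft : ∀ a, (∀ b, QuadraticMap.polar Q a b = 0) → a = 0 := by
      intro a h
      refine heinj _ _ ?_
      rw [he0]
      refine CfsgLib.UGeom.ext_form C fun z => ?_
      obtain ⟨x, y, rfl⟩ := hexp z
      rw [CfsgLib.UGeom.form_zero_left, CfsgLib.UGeom.form_add_right C, CfsgLib.UGeom.form_smul_right C, hh, hh,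
        hpz (h x), hpz (h y)]
      simp
    exact ⟨fun a h => hleft a h, fun b h => hleft b fun a => by rw [QuadraticMap.polar_comm]; exact h a⟩
  have hcoset : ∀ (U : Submodule F₀ (Fin n → F₀)), 2 * Module.finrank F₀ U + 3 ≤ n → ∀ z,
      ∃ v, B₀ v v = 0 ∧ ∀ u ∈ U, B₀ u v = B₀ u z := by
    intro U hU z
    obtain ⟨ε, hε, hε0, hεU⟩ := CfsgLib.GeoOrth.exists_singular_out hQ U (by simpa using hU)
    obtain ⟨φ, hφ, hφ0, hεφ⟩ := CfsgLib.Forms.exists_partner hQ hε hε0 hεU
    have e1 : B₀ φ ε = B₀ ε φ := hsymm _ _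
    rw [hpolar] at hεφ
    rw [hQB] at hε0 hφ0
    have hUz : ∀ u ∈ U, B₀ u ε = 0 ∧ B₀ u φ = 0 := fun u hu =>
      ⟨hpz (by rw [QuadraticMap.polar_comm]; exact CfsgLib.Forms.mem_perp.1 hε u hu),
        hpz (by rw [QuadraticMap.polar_comm]; exact CfsgLib.Forms.mem_perp.1 hφ u hu)⟩
    set z' := z - (2 * B₀ z φ) • ε - (2 * B₀ z ε) • φ with hz'
    refine ⟨z' + ε + (-B₀ z' z') • φ, ?_, fun u hu => ?_⟩
    · have hzε : B₀ z' ε = 0 := by
        simp only [hz', map_sub, map_smul, LinearMap.sub_apply, LinearMap.smul_apply, hε0, e1, smul_eq_mul]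
        linear_combination (-B₀ z ε) * hεφ
      have hzφ : B₀ z' φ = 0 := by
        simp only [hz', map_sub, map_smul, LinearMap.sub_apply, LinearMap.smul_apply, hφ0, smul_eq_mul]
        linear_combination (-B₀ z φ) * hεφ
      have hεz : B₀ ε z' = 0 := by rw [hsymm]; exact hzε
      have hφz : B₀ φ z' = 0 := by rw [hsymm]; exact hzφ
      simp only [map_add, map_smul, LinearMap.add_apply, LinearMap.smul_apply, hε0, hφ0, e1, hzε, hzφ, hεz, hφz,
        smul_eq_mul]
      linear_combination (-B₀ z' z') * hεφ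
    · simp [hz', (hUz u hu).1, (hUz u hu).2]
  have hval1 : ∀ (U : Submodule F₀ (Fin n → F₀)) a, a ∉ U → 2 * Module.finrank F₀ U + 5 ≤ n → ∀ α,
      ∃ v, B₀ v v = 0 ∧ (∀ u ∈ U, B₀ u v = 0) ∧ B₀ a v = α := by
    intro U a ha hU α
    obtain ⟨f, hf, haf⟩ := CfsgLib.Forms.exists_polar_eq_one hQ ha
    have hle : Module.finrank F₀ ↥(U ⊔ Submodule.span F₀ {a}) ≤ Module.finrank F₀ U + 1 :=
      (Submodule.finrank_add_le_finrank_add_finrank _ _).trans
        (Nat.add_le_add_left (finrank_span_singleton fun h0 => ha (by rw [h0]; exact zero_mem _)).le _)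
    obtain ⟨v, hv, hvU⟩ := hcoset (U ⊔ Submodule.span F₀ {a}) (by omega) ((2 * α) • f)
    refine ⟨v, hv, fun u hu => ?_, ?_⟩
    · rw [hvU u (Submodule.mem_sup_left hu), map_smul,
        hpz (by rw [QuadraticMap.polar_comm]; exact CfsgLib.Forms.mem_perp.1 hf u hu), smul_zero]
    · rw [hvU a (Submodule.mem_sup_right (Submodule.mem_span_singleton_self a)), map_smul, smul_eq_mul]
      rw [hpolar] at haf
      linear_combination α * haf
  have hspan2 : ∀ a b : Fin n → F₀, Module.finrank F₀ (Submodule.span F₀ ({a, b} : Set (Fin n → F₀))) ≤ 2 :=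
    fun a b => CfsgLib.GeoHerm.finrank_pair_le a b
  have hval2 : ∀ a b, a ≠ 0 → b ∉ Submodule.span F₀ {a} → ∀ α β,
      ∃ v, B₀ v v = 0 ∧ B₀ a v = α ∧ B₀ b v = β := by
    intro a b ha hb α β
    have ha' : a ∉ Submodule.span F₀ {b} := fun h => by
      obtain ⟨c, hc⟩ := Submodule.mem_span_singleton.1 h
      have hc0 : c ≠ 0 := fun h0 => ha (by rw [← hc, h0, zero_smul])
      exact hb (Submodule.mem_span_singleton.2 ⟨c⁻¹, by rw [← hc, smul_smul, inv_mul_cancel₀ hc0, one_smul]⟩)
    obtain ⟨fa, hfa, haf⟩ := CfsgLib.Forms.exists_polar_eq_one hQ ha'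
    obtain ⟨fb, hfb, hbf⟩ := CfsgLib.Forms.exists_polar_eq_one hQ hb
    obtain ⟨v, hv, hvU⟩ := hcoset (Submodule.span F₀ {a, b}) (by have := hspan2 a b; omega)
      ((2 * α) • fa + (2 * β) • fb)
    have e1 : B₀ b fa = 0 := hpz (by
      rw [QuadraticMap.polar_comm]; exact CfsgLib.Forms.mem_perp.1 hfa b (Submodule.mem_span_singleton_self b))
    have e2 : B₀ a fb = 0 := hpz (by
      rw [QuadraticMap.polar_comm]; exact CfsgLib.Forms.mem_perp.1 hfb a (Submodule.mem_span_singleton_self a))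
    rw [hpolar] at haf hbf
    refine ⟨v, hv, ?_, ?_⟩
    · rw [hvU a (Submodule.subset_span (by simp)), map_add, map_smul, map_smul, e2, smul_eq_mul, smul_zero, add_zero]
      linear_combination α * haf
    · rw [hvU b (Submodule.subset_span (by simp)), map_add, map_smul, map_smul, e1, smul_zero, zero_add, smul_eq_mul]
      linear_combination β * hbf
  -- root elements
  let SR : (Fin n → F) → (Fin n → F) → Matrix.GeneralLinearGroup (Fin n) F → Prop :=
    fun x y g => ∀ z, (g : Matrix (Fin n) (Fin n) F).mulVec z = z + B y z • x - B x z • y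
  set S := Cfsg.GU n F q ⊓ Cfsg.Geo.specialLinear (Fin n) F with hS
  have hSRex : ∀ x y, B x x = 0 → B y y = 0 → B x y = 0 → ∃ g ∈ S, SR x y g := by
    intro x y hx hy hxy
    obtain ⟨g, hg, e, he⟩ := CfsgLib.GeoHerm.exists_root H hx hy hxy
    exact ⟨g, ⟨CfsgLib.GeoSU.mem_GU.2 fun u v => he v u, hg⟩, e⟩
  set G := Cfsg.Geo.subfieldSubgroup F₀ P ⊓ S with hG
  have hBe : ∀ a b, B (e a) (e b) = (B₀ b a : F) := fun a b => rfl
  have hBz : ∀ {a b}, B₀ a b = 0 → B (e a) (e b) = 0 := fun {a b} h => by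
    rw [hBe, hsymm, h]; rfl
  have hroot : ∀ d a, B₀ d d = 0 → B₀ a a = 0 → B₀ d a = 0 → ∃ g ∈ G, SR (e d) (e a) g := by
    intro d a hd ha hda
    obtain ⟨g, hg, hgf⟩ := hSRex (e d) (e a) (hBz hd) (hBz ha) (hBz hda)
    refine ⟨g, ⟨CfsgLib.GeoSubfield.mem_subfield one_ne_zero fun i => ?_, hg⟩, hgf⟩
    have he : (P : Matrix (Fin n) (Fin n) F).mulVec (Pi.single i 1) = e (Pi.single i 1) :=
      congrArg P'.mulVec (funext fun j => by rcases eq_or_ne j i with rfl | h <;> simp [*])
    rw [one_smul, he, hgf, hBe, hBe, ← hesmul, ← hesmul, ← headd, ← hesub]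
    exact heR _
  have hne0 : ∃ d, B₀ d d = 0 ∧ d ≠ 0 := by
    obtain ⟨d, -, hd, hd'⟩ := CfsgLib.GeoOrth.exists_singular_out hQ ⊥ (by simp; omega)
    exact ⟨d, hd, by simpa using hd'⟩
  refine ⟨lt_of_le_not_ge inf_le_right fun hle => ?_, fun M hGM hMS => ?_⟩
  · obtain ⟨d, hd, hd0⟩ := hne0
    obtain ⟨f, -, -, hdf⟩ := hval1 ⊥ d (by simpa using hd0) (by simp; omega) 1
    obtain ⟨g, -, hg⟩ := CfsgLib.GeoTransvection.exists_transvection (e d) (ω • B (e d)) (by simp [hBz hd])
    obtain ⟨l, hl, hlg⟩ := CfsgLib.GeoSubfield.exists_scalar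
      (hle (CfsgLib.GeoSU.utv_mem_GU C (hBz hd) (by rw [hσω, add_neg_cancel]) hg)).1
    have h1 := hlg _ (heR d)
    rw [hg, LinearMap.smul_apply, hBz hd, smul_zero, zero_smul, add_zero] at h1
    have hl0 := CfsgLib.GeoSubfield.mem_of_smul (heR d) (fun h => hd0 (heinj _ _ (h.trans he0.symm))) h1
    have h3 := CfsgLib.GeoSubfield.rat_smul (inv_mem hl0) (hlg _ (heR f))
    rw [smul_smul, inv_mul_cancel₀ hl, one_smul, hg, LinearMap.smul_apply, hBe, hsymm, hdf, OneMemClass.coe_one,
      smul_eq_mul, mul_one] at h3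
    have h4 := CfsgLib.GeoSubfield.rat_sub h3 (heR f)
    rw [add_sub_cancel_left] at h4
    exact hω (CfsgLib.GeoSubfield.mem_of_smul (heR d) (fun h => hd0 (heinj _ _ (h.trans he0.symm))) h4)
  by_cases hle : M ≤ Cfsg.Geo.subfieldSubgroup F₀ P
  · exact Or.inl (le_antisymm (le_inf hle hMS) hGM)
  refine Or.inr (le_antisymm hMS (CfsgLib.GeoSU.le_of_cent C (by omega) ?_))
  have hMU : M ≤ Cfsg.GU n F q := fun m hm => (hMS hm).1
  obtain ⟨g, hg, hgn⟩ := SetLike.not_le_iff_exists.1 hle
  let gM : (Fin n → F) →ₗ[F] (Fin n → F) := Matrix.toLin' (g : Matrix (Fin n) (Fin n) F)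
  have hgMi : Function.Injective gM := fun a b h => Matrix.mulVec_injective_of_isUnit g.isUnit (by simpa [gM] using h)
  have hgB : ∀ u v, B (gM u) (gM v) = B u v := fun u v => by
    simpa [gM, hB] using CfsgLib.GeoSU.mem_GU.1 (hMU hg) v u
  -- a singular rational vector leaving the rational lines
  obtain ⟨d₀, hd₀, hd₀0, hgd₀⟩ : ∃ d, B₀ d d = 0 ∧ d ≠ 0 ∧ ∀ (l : F) x, gM (e d) ≠ l • e x := by
    by_contra hall
    push Not at hall
    choose l x hlx using hall
    have hl0 : ∀ d hd hd0, l d hd hd0 ≠ 0 := fun d hd hd0 h => hd0 (heinj _ _ (hgMi (by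
      rw [hlx d hd hd0, h, zero_smul, he0, map_zero])))
    have hpairrat : ∀ d d', ∀ hd : B₀ d d = 0, ∀ hd0 : d ≠ 0, ∀ hd' : B₀ d' d' = 0, ∀ hd'0 : d' ≠ 0,
        B₀ d d' = 0 → d' ∉ Submodule.span F₀ {d} → l d' hd' hd'0 / l d hd hd0 ∈ F₀ := by
      intro d d' hd hd0 hd' hd'0 hdd' hind
      have hs : B₀ (d + d') (d + d') = 0 := by simp [hd, hd', hdd', hsymm d' d]
      have hs0 : d + d' ≠ 0 := fun h => hind (by
        rw [eq_neg_of_add_eq_zero_right h]; exact neg_mem (Submodule.mem_span_singleton_self d))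
      have hmu0 := hl0 _ hs hs0
      set mu := l (d + d') hs hs0
      obtain ⟨a0, a1, ha⟩ := hdec (l d hd hd0 / mu)
      obtain ⟨b0, b1, hb⟩ := hdec (l d' hd' hd'0 / mu)
      have e1 := hlx (d + d') hs hs0
      rw [headd, map_add, hlx d hd hd0, hlx d' hd' hd'0, show l (d + d') hs hs0 = mu from rfl] at e1
      have e2 : e (a0 • x d hd hd0 + b0 • x d' hd' hd'0 - x (d + d') hs hs0) +
          ω • e (a1 • x d hd hd0 + b1 • x d' hd' hd'0) = 0 := by
        rw [hesub, headd, headd, hesmul, hesmul, hesmul, hesmul]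
        have e3 := congrArg (fun v => mu⁻¹ • v) e1
        simp only [smul_add, smul_smul, inv_mul_cancel₀ hmu0, one_smul] at e3
        rw [show mu⁻¹ * l d hd hd0 = (a0 : F) + ω * a1 by rw [ha, div_eq_inv_mul],
          show mu⁻¹ * l d' hd' hd'0 = (b0 : F) + ω * b1 by rw [hb, div_eq_inv_mul]] at e3
        linear_combination (norm := module) e3
      have e4 : gM ((((a1 : F) / l d hd hd0) • e d + ((b1 : F) / l d' hd' hd'0) • e d')) = 0 := by
        rw [map_add, map_smul, map_smul, hlx d hd hd0, hlx d' hd' hd'0, smul_smul, smul_smul,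
          div_mul_cancel₀ _ (hl0 d hd hd0), div_mul_cancel₀ _ (hl0 d' hd' hd'0), ← hesmul, ← hesmul, ← headd,
          (huniq _ _ e2).2, he0]
      obtain ⟨f1, f2⟩ := hindep d d' hd0 hind _ _ (hgMi (by rw [e4, map_zero]))
      rw [(div_eq_zero_iff.1 f1).resolve_right (hl0 d hd hd0), mul_zero, add_zero] at ha
      rw [(div_eq_zero_iff.1 f2).resolve_right (hl0 d' hd' hd'0), mul_zero, add_zero] at hb
      have : l d' hd' hd'0 / l d hd hd0 = (b0 : F) / a0 := by
        rw [ha, hb, div_div_div_cancel_right₀ hmu0]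
      rw [this]
      exact div_mem b0.2 a0.2
    obtain ⟨d₁, hd₁, hd₁0⟩ := hne0
    set c := (l d₁ hd₁ hd₁0)⁻¹ with hc
    let Z : Submodule F₀ (Fin n → F₀) :=
      { carrier := {d | R (c • gM (e d))}
        add_mem' := fun {a b} ha hb => by
          show R (c • gM (e (a + b)))
          rw [headd, map_add, smul_add]; exact CfsgLib.GeoSubfield.rat_add ha hb
        zero_mem' := by
          show R (c • gM (e 0))
          rw [he0, map_zero, smul_zero, ← he0]; exact heR 0
        smul_mem' := fun k a ha => by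
          show R (c • gM (e (k • a)))
          rw [hesmul, map_smul, smul_comm]; exact CfsgLib.GeoSubfield.rat_smul k.2 ha }
    have hZ : CfsgLib.Forms.perp Q ⊥ ≤ Z := by
      refine CfsgLib.GeoOrth.perp_le_of_singular hQ (by simp; omega) fun d _ hd hdU => ?_
      have hd0 : d ≠ 0 := by simpa using hdU
      rw [hQB] at hd
      show R (c • gM (e d))
      rw [hlx d hd hd0, smul_smul]
      refine CfsgLib.GeoSubfield.rat_smul ?_ (heR _)
      obtain ⟨f, hf, hf0, hfU⟩ := CfsgLib.GeoOrth.exists_singular_out hQ (Submodule.span F₀ {d₁, d}) (by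
        have := hspan2 d₁ d; simp; omega)
      rw [CfsgLib.Forms.mem_perp_span] at hf
      rw [hQB] at hf0
      have hf0' : f ≠ 0 := fun h => hfU (by rw [h]; exact zero_mem _)
      have p1 := hpairrat d₁ f hd₁ hd₁0 hf0 hf0' (hpz (by rw [QuadraticMap.polar_comm]; exact hf d₁ (by simp)))
        (fun h => hfU (Submodule.span_mono (by simp) h))
      have p2 := hpairrat d f hd hd0 hf0 hf0' (hpz (by rw [QuadraticMap.polar_comm]; exact hf d (by simp)))
        (fun h => hfU (Submodule.span_mono (by simp) h))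
      have := div_mem p1 p2
      rwa [div_div_div_cancel_left' _ _ (hl0 f hf0 hf0'), div_eq_inv_mul] at this
    refine hgn (CfsgLib.GeoSubfield.mem_subfield (c := c) (inv_ne_zero (hl0 _ _ _)) fun i => ?_)
    have he : (P : Matrix (Fin n) (Fin n) F).mulVec (Pi.single i 1) = e (Pi.single i 1) :=
      congrArg P'.mulVec (funext fun j => by rcases eq_or_ne j i with rfl | h <;> simp [*])
    rw [he]
    exact hZ (show Pi.single i 1 ∈ CfsgLib.Forms.perp Q ⊥ from CfsgLib.Forms.mem_perp.2 (by simp))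
  obtain ⟨x, y, hxy⟩ := hexp (gM (e d₀))
  have hx0 : x ≠ 0 := fun h => hgd₀ ω y (by rw [hxy, h, he0, zero_add])
  have hyx : y ∉ Submodule.span F₀ {x} := fun h => by
    obtain ⟨k, hk⟩ := Submodule.mem_span_singleton.1 h
    exact hgd₀ (1 + ω * k) x (by rw [hxy, ← hk, hesmul]; module)
  have hd₀' : B (e d₀) (e d₀) = 0 := hBz hd₀
  -- a partner outside the plane
  obtain ⟨a₀, ha₀, hda₀, hga₀⟩ : ∃ a, B₀ a a = 0 ∧ B₀ d₀ a = 0 ∧
      ∀ s t : F, gM (e a) ≠ s • e x + t • e y := by
    by_contra hall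
    push Not at hall
    obtain ⟨f₁, hf₁, hf₁0, hf₁U⟩ := CfsgLib.GeoOrth.exists_singular_out hQ (Submodule.span F₀ {d₀}) (by
      rw [finrank_span_singleton hd₀0]; simp; omega)
    obtain ⟨f₂, hf₂, hf₂0, hf₁₂⟩ := CfsgLib.Forms.exists_partner hQ hf₁ hf₁0 hf₁U
    rw [CfsgLib.Forms.mem_perp_span] at hf₁ hf₂
    rw [hpolar] at hf₁₂
    rw [hQB] at hf₁0 hf₂0
    have q1 : B₀ d₀ f₁ = 0 := hpz (by rw [QuadraticMap.polar_comm]; exact hf₁ d₀ (by simp))
    have q2 : B₀ d₀ f₂ = 0 := hpz (by rw [QuadraticMap.polar_comm]; exact hf₂ d₀ (by simp))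
    obtain ⟨s, t, hst⟩ := hall f₁ hf₁0 q1
    obtain ⟨s', t', hst'⟩ := hall f₂ hf₂0 q2
    have hγ : t - s * ω ≠ 0 := by
      intro h
      have e1 : gM (e f₁) = s • gM (e d₀) := by
        rw [hst, hxy, sub_eq_zero.1 h]; module
      rw [← map_smul] at e1
      obtain ⟨f1, -⟩ := hindep d₀ f₁ hd₀0 hf₁U s (-1) (by rw [hgMi e1]; module)
      have := hgMi e1
      rw [f1, zero_smul, ← he0] at this
      exact hf₁U (by rw [heinj _ _ this]; exact zero_mem _)
    have e2 : (t - s * ω) • gM (e f₂) =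
        (s' * (t - s * ω) - ω * (s' * 0) - (t' - s' * ω) * s) • gM (e d₀) + (t' - s' * ω) • gM (e f₁) := by
      rw [hst, hst', hxy]; module
    have e3 := congrArg (B (gM (e f₁))) e2
    rw [map_add, map_smul, map_smul, map_smul, hgB, hgB, hgB, hBe, hBe, hBe, q1, hf₁0] at e3
    simp only [ZeroMemClass.coe_zero, smul_zero, add_zero, smul_eq_mul, mul_zero] at e3
    have : B₀ f₂ f₁ = 0 := Subtype.ext (((mul_eq_zero.1 e3).resolve_left hγ))
    rw [hsymm, this, mul_zero] at hf₁₂
    exact zero_ne_one hf₁₂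
  obtain ⟨x', y', hxy'⟩ := hexp (gM (e a₀))
  -- a rational centre
  obtain ⟨d, hd, hd0, hdC⟩ : ∃ d, B₀ d d = 0 ∧ d ≠ 0 ∧ CfsgLib.GeoSU.Cent C M (e d) := by
    obtain ⟨d, hdp, hdd, hdU⟩ := CfsgLib.GeoOrth.exists_singular_out hQ
      (Submodule.span F₀ {x, y} ⊔ Submodule.span F₀ {x', y'}) (by
        have h1 := hspan2 x y
        have h2 := hspan2 x' y'
        have h3 := Submodule.finrank_add_le_finrank_add_finrank (Submodule.span F₀ {x, y}) (Submodule.span F₀ {x', y'})
        simp; omega)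
    rw [hQB] at hdd
    have hdo : ∀ z ∈ Submodule.span F₀ {x, y} ⊔ Submodule.span F₀ {x', y'}, B₀ d z = 0 := fun z hz =>
      hpz (CfsgLib.Forms.mem_perp.1 hdp z hz)
    have q1 : B₀ d x = 0 := hdo x (Submodule.mem_sup_left (Submodule.subset_span (by simp)))
    have q2 : B₀ d y = 0 := hdo y (Submodule.mem_sup_left (Submodule.subset_span (by simp)))
    have q3 : B₀ d x' = 0 := hdo x' (Submodule.mem_sup_right (Submodule.subset_span (by simp)))
    have q4 : B₀ d y' = 0 := hdo y' (Submodule.mem_sup_right (Submodule.subset_span (by simp)))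
    have hd0 : d ≠ 0 := fun h => hdU (by rw [h]; exact zero_mem _)
    obtain ⟨z, hz, hzU⟩ : ∃ z, (z = x' ∨ z = y') ∧ z ∉ Submodule.span F₀ {d} ⊔ Submodule.span F₀ {x, y} := by
      by_contra hall
      push Not at hall
      have hin : ∀ z, (z = x' ∨ z = y') → ∃ k m : F₀, k • x + m • y = z := by
        intro z hz
        obtain ⟨v, hv, w, hw, hvw⟩ := Submodule.mem_sup.1 (hall z hz)
        obtain ⟨k, rfl⟩ := Submodule.mem_span_singleton.1 hv
        rcases eq_or_ne k 0 with rfl | hk
        · rw [zero_smul, zero_add] at hvw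
          obtain ⟨k', m', hkm⟩ := Submodule.mem_span_pair.1 hw
          exact ⟨k', m', hkm.trans hvw⟩
        · refine absurd ((Submodule.smul_mem_iff _ hk).1 ?_) hdU
          rw [show k • d = z - w by rw [← hvw, add_sub_cancel_right]]
          exact sub_mem (Submodule.mem_sup_right (Submodule.subset_span (by rcases hz with rfl | rfl <;> simp)))
            (Submodule.mem_sup_left hw)
      obtain ⟨k, m, hkm⟩ := hin x' (Or.inl rfl)
      obtain ⟨k', m', hkm'⟩ := hin y' (Or.inr rfl)
      refine hga₀ ((k : F) + ω * k') ((m : F) + ω * m') ?_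
      rw [hxy', ← hkm, ← hkm', headd, headd, hesmul, hesmul, hesmul, hesmul]
      module
    obtain ⟨a, haa, haU, haz⟩ := hval1 _ z hzU (by
      have h1 := hspan2 x y
      have h3 := Submodule.finrank_add_le_finrank_add_finrank (Submodule.span F₀ {d}) (Submodule.span F₀ {x, y})
      rw [finrank_span_singleton hd0] at h3
      omega) 1
    have r1 : B₀ d a = 0 := haU d (Submodule.mem_sup_left (Submodule.mem_span_singleton_self d))
    have r2 : B₀ x a = 0 := haU x (Submodule.mem_sup_right (Submodule.subset_span (by simp)))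
    have r3 : B₀ y a = 0 := haU y (Submodule.mem_sup_right (Submodule.subset_span (by simp)))
    have hBl : ∀ p p' v, B (e p + ω • e p') (e v) = (B₀ v p : F) - ω * (B₀ v p' : F) := fun p p' v => by
      rw [map_add, LinearMap.map_smulₛₗ, LinearMap.add_apply, LinearMap.smul_apply, hBe, hBe, smul_eq_mul,
        show H.σ ω = -ω from hσω]
      ring
    set d' := gM (e d₀) with hd'
    set a' := gM (e a₀) with ha'
    set p := B a' (e a) with hp
    have hp0 : p ≠ 0 := by
      intro h
      rw [hp, hxy', hBl] at h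
      obtain ⟨f1, f2⟩ := hcoord (B₀ a x') (-B₀ a y') (by rw [← h]; push_cast; ring)
      rcases hz with rfl | rfl
      · rw [hsymm, f1] at haz; exact zero_ne_one haz
      · rw [hsymm, neg_eq_zero.1 f2] at haz; exact zero_ne_one haz
    have e1' : B (e d) (e d) = 0 := hBz hdd
    have haa' : B (e a) (e a) = 0 := hBz haa
    have e1 : B (e d) (e a) = 0 := hBz r1
    have e2 : B d' (e a) = 0 := by rw [hxy, hBl, hsymm, r2, hsymm, r3]; simp
    have f1 : B d' (e d) = 0 := by rw [hxy, hBl, q1, q2]; simp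
    have f2 : B a' (e d) = 0 := by rw [hxy', hBl, q3, q4]; simp
    have hdq : B (e d) d' = 0 := CfsgLib.GeoHerm.comm_zero H f1
    have e4 : B (e d) a' = 0 := CfsgLib.GeoHerm.comm_zero H f2
    have f0 : B d' d' = 0 := by rw [hd', hgB]; exact hd₀'
    have f9 : B a' a' = 0 := by rw [ha', hgB]; exact hBz ha₀
    have f3 : B d' a' = 0 := by rw [hd', ha', hgB]; exact hBz hda₀
    have f4 : B a' d' = 0 := CfsgLib.GeoHerm.comm_zero H f3
    have f5 : B (e a) (e d) = 0 := CfsgLib.GeoHerm.comm_zero H e1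
    have f6 : B (e a) d' = 0 := CfsgLib.GeoHerm.comm_zero H e2
    have f7 : B (e a) a' = H.σ p := (H.symm a' (e a)).symm
    obtain ⟨s₁, hs₁G, hs₁⟩ := hroot d a hdd haa r1
    obtain ⟨y₀, hy₀G, hy₀⟩ := hroot d₀ a₀ hd₀ ha₀ hda₀
    obtain ⟨Y, hYdef⟩ : ∃ Y, Y = g * y₀ * g⁻¹ := ⟨_, rfl⟩
    have hYM : Y ∈ M := hYdef ▸ mul_mem (mul_mem hg (hGM hy₀G)) (inv_mem hg)
    have hY : SR d' a' Y := fun w => by
      rw [hYdef, Units.val_mul, Units.val_mul, ← Matrix.mulVec_mulVec, ← Matrix.mulVec_mulVec, hy₀, Matrix.mulVec_sub,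
        Matrix.mulVec_add, Matrix.mulVec_smul, Matrix.mulVec_smul, CfsgLib.GeoFull.mulVec_inv_cancel]
      have e : ∀ u, B u (((g⁻¹ : Matrix.GeneralLinearGroup (Fin n) F) : Matrix (Fin n) (Fin n) F).mulVec w) =
          B (gM u) w := fun u => by
        rw [← hgB]; simp [gM, CfsgLib.GeoFull.mulVec_inv_cancel]
      rw [e, e]
      simp [gM, hd', ha']
    set y₁ := (-p) • d' with hy₁
    have g1 : B (e d) y₁ = 0 := by rw [hy₁, map_smul, hdq, smul_zero]
    have g2 : B y₁ y₁ = 0 := by
      rw [hy₁, map_smul, LinearMap.map_smulₛₗ, LinearMap.smul_apply, f0, smul_zero, smul_zero]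
    obtain ⟨r, -, hr⟩ := hSRex (e d) y₁ e1' g2 g1
    have hrM : r ∈ M := by
      have he : r * Y * s₁ = s₁ * Y := CfsgLib.GeoFull.gl_ext fun w => by
        simp only [Units.val_mul, ← Matrix.mulVec_mulVec]
        rw [hr, hY, hY, hs₁, hs₁]
        simp only [hy₁, map_add, map_sub, map_smul, LinearMap.map_smulₛₗ, LinearMap.smul_apply, map_neg, hdq, e1,
          e2, e4, f0, f1, f2, f3, f4, f5, f6, f7, f9, e1', haa', ← hp, smul_eq_mul]
        module
      rw [show r = s₁ * Y * s₁⁻¹ * Y⁻¹ by rw [← he]; group]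
      exact mul_mem (mul_mem (mul_mem (hGM hs₁G) hYM) (inv_mem (hGM hs₁G))) (inv_mem hYM)
    -- a vector pairing irrationally
    obtain ⟨u, huu, hdu, hirr⟩ : ∃ u, B₀ u u = 0 ∧ B₀ d u = 0 ∧ B y₁ (e u) ∉ F₀ := by
      have hdxy : d ∉ Submodule.span F₀ {x, y} := fun h => hdU (Submodule.mem_sup_left h)
      have hxdy : x ∉ Submodule.span F₀ {d, y} := fun h => by
        obtain ⟨k, m, hkm⟩ := Submodule.mem_span_pair.1 h
        rcases eq_or_ne k 0 with rfl | hk
        · rw [zero_smul, zero_add] at hkm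
          have hm : m ≠ 0 := fun h0 => hx0 (by rw [← hkm, h0, zero_smul])
          exact hyx (Submodule.mem_span_singleton.2 ⟨m⁻¹, by rw [← hkm, smul_smul, inv_mul_cancel₀ hm, one_smul]⟩)
        · refine hdxy ((Submodule.smul_mem_iff _ hk).1 ?_)
          rw [show k • d = x - m • y by rw [← hkm, add_sub_cancel_right]]
          exact sub_mem (Submodule.subset_span (by simp)) (Submodule.smul_mem _ _ (Submodule.subset_span (by simp)))
      have hydx : y ∉ Submodule.span F₀ {d, x} := fun h => by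
        obtain ⟨k, m, hkm⟩ := Submodule.mem_span_pair.1 h
        rcases eq_or_ne k 0 with rfl | hk
        · rw [zero_smul, zero_add] at hkm
          exact hyx (Submodule.mem_span_singleton.2 ⟨m, hkm⟩)
        · refine hdxy ((Submodule.smul_mem_iff _ hk).1 ?_)
          rw [show k • d = y - m • x by rw [← hkm, add_sub_cancel_right]]
          exact sub_mem (Submodule.subset_span (by simp)) (Submodule.smul_mem _ _ (Submodule.subset_span (by simp)))
      obtain ⟨u₁, hu₁, hu₁U, hu₁x⟩ := hval1 _ x hxdy (by have := hspan2 d y; omega) 1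
      obtain ⟨u₂, hu₂, hu₂U, hu₂y⟩ := hval1 _ y hydx (by have := hspan2 d x; omega) 1
      have v1 : B y₁ (e u₁) = H.σ (-p) := by
        rw [hy₁, LinearMap.map_smulₛₗ, LinearMap.smul_apply, hxy, hBl, hsymm u₁ x, hu₁x, hsymm u₁ y,
          hu₁U y (Submodule.subset_span (by simp))]
        simp
      have v2 : B y₁ (e u₂) = H.σ (-p) * -ω := by
        rw [hy₁, LinearMap.map_smulₛₗ, LinearMap.smul_apply, hxy, hBl, hsymm u₂ y, hu₂y, hsymm u₂ x,
          hu₂U x (Submodule.subset_span (by simp))]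
        simp
      by_cases h1 : B y₁ (e u₁) ∈ F₀
      swap
      · exact ⟨u₁, hu₁, hu₁U d (Submodule.subset_span (by simp)), h1⟩
      refine ⟨u₂, hu₂, hu₂U d (Submodule.subset_span (by simp)), fun h => hω ?_⟩
      rw [v1] at h1
      rw [v2] at h
      have hne : H.σ (-p) ≠ 0 := (map_ne_zero H.σ).2 (neg_ne_zero.2 hp0)
      have := neg_mem (mul_mem (inv_mem h1) h)
      rwa [← mul_assoc, inv_mul_cancel₀ hne, one_mul, neg_neg] at this
    refine ⟨d, hdd, hd0, e1', fun c hc t ht => ?_⟩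
    set T := B y₁ (e u) with hT
    have hTne : H.σ T - T ≠ 0 := sub_ne_zero.2 fun h => hirr (hfix' _ h)
    have hb : c / (H.σ T - T) ∈ F₀ := by
      refine hfix' _ ?_
      show H.σ _ = _
      rw [map_div₀, map_sub, H.invol, show H.σ c = -c from eq_neg_of_add_eq_zero_right hc, ← neg_sub (H.σ T) T,
        neg_div_neg_eq]
    set b : F₀ := ⟨_, hb⟩ with hbdef
    obtain ⟨s, hsG, hs⟩ := hroot d (b • u) hdd (by simp [huu]) (by simp [hdu])
    rw [hesmul] at hs
    have hbσ : H.σ (b : F) = b := hfix _ b.2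
    have hcT : c = (b : F) * H.σ T - (b : F) * T := by
      rw [hbdef, ← mul_sub, div_mul_cancel₀ _ hTne]
    have hyd : B y₁ (e d) = 0 := CfsgLib.GeoHerm.comm_zero H g1
    have hdu' : B (e d) (e u) = 0 := hBz hdu
    have hud : B (e u) (e d) = 0 := CfsgLib.GeoHerm.comm_zero H hdu'
    have huy' : B (e u) y₁ = H.σ T := (H.symm y₁ (e u)).symm
    have ht' : ∀ z, (t : Matrix (Fin n) (Fin n) F).mulVec z = z + (c * B (e d) z) • e d := ht
    have he : t * s * r = r * s := CfsgLib.GeoFull.gl_ext fun w => by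
      rw [Units.val_mul (t * s), Units.val_mul t, Units.val_mul r, ← Matrix.mulVec_mulVec,
        ← Matrix.mulVec_mulVec, ← Matrix.mulVec_mulVec, ht', hr, hs, hs, hr]
      simp only [map_add, map_sub, map_smul, LinearMap.map_smulₛₗ, LinearMap.smul_apply, g1, hdu', hyd, hud, huy',
        g2, e1', hBz huu, ← hT, hbσ, smul_eq_mul, hcT]
      module
    rw [show t = r * s * r⁻¹ * s⁻¹ by rw [← he]; group]
    exact mul_mem (mul_mem (mul_mem hrM (hGM hsG)) (inv_mem hrM)) (inv_mem (hGM hsG))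
  -- all rational singular centres
  have hmove : ∀ a b, B₀ a a = 0 → a ≠ 0 → B₀ b b = 0 → B₀ a b = 0 → b ∉ Submodule.span F₀ {a} →
      CfsgLib.GeoSU.Cent C M (e a) → CfsgLib.GeoSU.Cent C M (e b) := by
    intro a b ha ha0 hb hab hind hC
    have hind' : b - a ∉ Submodule.span F₀ {a} := fun h => hind (by
      simpa using add_mem h (Submodule.mem_span_singleton_self a))
    obtain ⟨v, hv, hav, hbv⟩ := hval2 a (b - a) ha0 hind' 1 0
    obtain ⟨s, hsG, hs⟩ := hroot (b - a) v (by simp [ha, hb, hab, hsymm b a]) hv hbv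
    have hsb := CfsgLib.GeoSU.cent_map C (hGM hsG) hsG.2.1 hC
    rw [hs, hBe, hBe, hav, show B₀ a (b - a) = 0 by rw [map_sub, hab, ha, sub_zero], ZeroMemClass.coe_zero,
      OneMemClass.coe_one, zero_smul, sub_zero, one_smul, hesub, add_sub_cancel] at hsb
    exact hsb
  have hsing : ∀ b, B₀ b b = 0 → CfsgLib.GeoSU.Cent C M (e b) := by
    intro b hb
    by_cases hdep : b ∈ Submodule.span F₀ {d}
    · obtain ⟨k, rfl⟩ := Submodule.mem_span_singleton.1 hdep
      rw [hesmul]; exact CfsgLib.GeoSU.cent_smul C _ hdC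
    obtain ⟨f, hf, hf0, hfU⟩ := CfsgLib.GeoOrth.exists_singular_out hQ (Submodule.span F₀ {d, b}) (by
      have := hspan2 d b; simp; omega)
    rw [CfsgLib.Forms.mem_perp_span] at hf
    rw [hQB] at hf0
    have hfd : f ∉ Submodule.span F₀ {d} := fun h => hfU (Submodule.span_mono (by simp) h)
    have hbf : b ∉ Submodule.span F₀ {f} := fun h => by
      obtain ⟨k, hk⟩ := Submodule.mem_span_singleton.1 h
      rcases eq_or_ne k 0 with rfl | hk0
      · exact hdep (by rw [← hk, zero_smul]; exact zero_mem _)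
      · exact hfU ((Submodule.smul_mem_iff _ hk0).1 (by rw [hk]; exact Submodule.subset_span (by simp)))
    exact hmove f b hf0 (fun h => hfU (by rw [h]; exact zero_mem _)) hb (hpz (hf b (by simp))) hbf
      (hmove d f hd hd0 hf0 (hpz (by rw [QuadraticMap.polar_comm]; exact hf d (by simp))) hfd hdC)
  -- the isotropic vectors
  have hωk : ∀ k : F₀, ω * k + C.σ (ω * k) = 0 := fun k => by
    rw [map_mul, hσω, hfix _ k.2]; ring
  have hbase : ∀ a b, B₀ a a = 0 → B₀ b b = 0 → B₀ a b ≠ 0 → CfsgLib.GeoSU.Cent C M (e a + ω • e b) := by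
    intro a b ha hb hab
    have := CfsgLib.GeoSU.cent_add C hMU (hsing a ha) (hsing b hb) (hωk (B₀ a b)⁻¹)
    rwa [hh, mul_assoc, ← MulMemClass.coe_mul, inv_mul_cancel₀ hab, OneMemClass.coe_one, mul_one] at this
  have hstep : ∀ a b v (k : F₀), B₀ v v = 0 →
      CfsgLib.GeoSU.Cent C M (e (a - (k * w2 * B₀ b v) • v) + ω • e (b - (k * B₀ a v) • v)) →
      CfsgLib.GeoSU.Cent C M (e a + ω • e b) := by
    intro a b v k hv hC
    have := CfsgLib.GeoSU.cent_add C hMU hC (hsing v hv) (hωk k)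
    rw [CfsgLib.UGeom.form_add_left, CfsgLib.UGeom.form_smul_left, hh, hh] at this
    simp only [map_sub, map_smul, LinearMap.sub_apply, LinearMap.smul_apply, hv, smul_zero, sub_zero] at this
    rw [hesub, hesub, hesmul, hesmul] at this
    convert this using 1
    simp only [MulMemClass.coe_mul, hw2]
    module
  have hiso : ∀ a b, B₀ a a = w2 * B₀ b b → B₀ b b ≠ 0 → a ≠ 0 ∧ b ∉ Submodule.span F₀ {a} := by
    intro a b hab hb
    refine ⟨fun h => ?_, fun h => ?_⟩
    · rw [h, map_zero, eq_comm, mul_eq_zero] at hab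
      rcases hab with h | h
      · exact mul_ne_zero hω0 hω0 (congrArg Subtype.val h)
      · exact hb h
    · obtain ⟨k, rfl⟩ := Submodule.mem_span_singleton.1 h
      simp only [map_smul, LinearMap.smul_apply, smul_eq_mul] at hab hb
      have ha : B₀ a a ≠ 0 := fun h0 => hb (by rw [h0, mul_zero, mul_zero])
      have h1 : (k : F) * ω * ((k : F) * ω) = 1 := by
        have e1 : w2 * (k * k) = 1 := mul_right_cancel₀ ha (by linear_combination -hab)
        have e2 := congrArg Subtype.val e1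
        simp only [MulMemClass.coe_mul, hw2, OneMemClass.coe_one] at e2
        linear_combination e2
      have hk : (k : F) ≠ 0 := fun h0 => by simp [h0] at h1
      refine hω ?_
      rcases mul_self_eq_one_iff.1 h1 with h1 | h1
      · rw [show ω = (k : F)⁻¹ by field_simp; linear_combination h1]; exact inv_mem k.2
      · rw [show ω = -(k : F)⁻¹ by field_simp; linear_combination h1]; exact neg_mem (inv_mem k.2)
  have hmain : ∀ a b, B₀ a a = w2 * B₀ b b → B₀ b b ≠ 0 → B₀ a b ≠ 0 →
      CfsgLib.GeoSU.Cent C M (e a + ω • e b) := by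
    intro a b hab hb hne
    obtain ⟨β, hβ, hgood⟩ : ∃ β : F₀, β * β = 1 ∧ 2 * β * B₀ a b ≠ B₀ b b * (1 + w2) := by
      by_contra hall
      push Not at hall
      have e1 := hall 1 (one_mul 1)
      have e2 := hall (-1) (by ring)
      exact mul_ne_zero (mul_ne_zero h20 h20) hne (by linear_combination e1 - e2)
    obtain ⟨h1, h2'⟩ := hiso a b hab hb
    obtain ⟨v, hv, hav, hbv⟩ := hval2 a b h1 h2' 1 β
    have hβ0 : β ≠ 0 := fun h => by simp [h] at hβ
    set k := B₀ b b / (2 * β) with hk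
    have hkβ : 2 * k * β = B₀ b b := by rw [hk]; field_simp
    refine hstep a b v k hv (hbase _ _ ?_ ?_ ?_)
    · simp only [map_sub, map_smul, LinearMap.sub_apply, LinearMap.smul_apply, hv, hav, hbv, hsymm v a, hsymm v b,
        smul_eq_mul]
      linear_combination hab - w2 * hkβ
    · simp only [map_sub, map_smul, LinearMap.sub_apply, LinearMap.smul_apply, hv, hav, hbv, hsymm v b, hsymm v a,
        smul_eq_mul]
      linear_combination -hkβ
    · simp only [map_sub, map_smul, LinearMap.sub_apply, LinearMap.smul_apply, hv, hav, hbv, hsymm v b, hsymm v a,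
        smul_eq_mul]
      intro h
      refine hgood ?_
      linear_combination 2 * β * h + (1 + w2) * hkβ + (2 * k * w2 * β) * hβ
  intro w hw
  obtain ⟨a, b, rfl⟩ := hexp w
  have hab : B₀ a a = w2 * B₀ b b := by
    simp only [CfsgLib.UGeom.form_add_left, CfsgLib.UGeom.form_smul_left, CfsgLib.UGeom.form_add_right C,
      CfsgLib.UGeom.form_smul_right C, hh, hsymm b a, hσω] at hw
    apply Subtype.ext
    rw [MulMemClass.coe_mul, hw2]
    linear_combination hw
  by_cases hbb : B₀ b b = 0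
  · rw [hbb, mul_zero] at hab
    rcases eq_or_ne a 0 with rfl | ha0
    · rw [he0, zero_add]; exact CfsgLib.GeoSU.cent_smul C _ (hsing b hbb)
    by_cases hdep : b ∈ Submodule.span F₀ {a}
    · obtain ⟨k, rfl⟩ := Submodule.mem_span_singleton.1 hdep
      rw [hesmul, smul_smul, show e a + (ω * k) • e a = (1 + ω * k) • e a by rw [add_smul, one_smul]]
      exact CfsgLib.GeoSU.cent_smul C _ (hsing a hab)
    by_cases hne : B₀ a b = 0
    swap
    · exact hbase a b hab hbb hne
    obtain ⟨v, hv, hav, hbv⟩ := hval2 a b ha0 hdep 1 1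
    have hw1 : (1 + w2 : F₀) ≠ 0 ∨ (1 + w2 : F₀) = 0 := ne_or_eq _ _
    rcases hw1 with hw1 | hw1
    · refine hstep a b v 1 hv (hmain _ _ ?_ ?_ ?_)
      all_goals simp only [map_sub, map_smul, LinearMap.sub_apply, LinearMap.smul_apply, hv, hav, hbv, hsymm v b,
        hsymm v a, hab, hbb, hne, smul_eq_mul]
      · ring
      · intro h; exact h20 (by linear_combination -h)
      · intro h; exact hw1 (by linear_combination -h)
    · set a' := a - (1 * w2 * B₀ b v) • v
      set b' := b - (1 * B₀ a v) • v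
      have c1 : B₀ a' a' = w2 * B₀ b' b' := by
        simp only [a', b', map_sub, map_smul, LinearMap.sub_apply, LinearMap.smul_apply, hv, hav, hbv, hsymm v b,
          hsymm v a, hab, hbb, hne, smul_eq_mul]
        ring
      have c2 : B₀ b' b' ≠ 0 := by
        simp only [b', map_sub, map_smul, LinearMap.sub_apply, LinearMap.smul_apply, hv, hav, hbv, hsymm v b,
          hsymm v a, hbb, smul_eq_mul]
        intro h; exact h20 (by linear_combination -h)
      have c3 : B₀ a' b' = 0 := by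
        simp only [a', b', map_sub, map_smul, LinearMap.sub_apply, LinearMap.smul_apply, hv, hav, hbv, hsymm v b,
          hsymm v a, hne, smul_eq_mul]
        linear_combination -hw1
      refine hstep a b v 1 hv ?_
      obtain ⟨k1, k2⟩ := hiso a' b' c1 c2
      obtain ⟨v', hv', hav', hbv'⟩ := hval2 a' b' k1 k2 0 1
      refine hstep a' b' v' 1 hv' (hmain _ _ ?_ ?_ ?_)
      all_goals simp only [map_sub, map_smul, LinearMap.sub_apply, LinearMap.smul_apply, hv', hav', hbv',
        hsymm v' b', hsymm v' a', c3, smul_eq_mul]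
      · linear_combination c1
      · intro h; exact c2 (by linear_combination h)
      · intro h; exact mul_ne_zero hω0 hω0 (congrArg Subtype.val (show w2 = 0 by linear_combination -h))
  by_cases hne : B₀ a b = 0
  swap
  · exact hmain a b hab hbb hne
  obtain ⟨k1, k2⟩ := hiso a b hab hbb
  obtain ⟨v, hv, hav, hbv⟩ := hval2 a b k1 k2 0 1
  refine hstep a b v 1 hv (hmain _ _ ?_ ?_ ?_)
  all_goals simp only [map_sub, map_smul, LinearMap.sub_apply, LinearMap.smul_apply, hv, hav, hbv,
    hsymm v b, hsymm v a, hne, smul_eq_mul]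
  · linear_combination hab
  · intro h; exact hbb (by linear_combination h)
  · intro h; exact mul_ne_zero hω0 hω0 (congrArg Subtype.val (show w2 = 0 by linear_combination -h))

end Cfsg.Agent.S5659
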