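import Cfsg.Statements.S5660
import Cfsg.Agent.GeoLib.SUGL
import Cfsg.Agent.GeoLib.Subfield

set_option autoImplicit false
open Cfsg

namespace Cfsg.Agent.S5660

/-- Let F be the field with q² elements, n ≥ 13 even, and F₀ the subfield with q elements. Let ζ be a non-zero element with ζ + ζ^q = 0 and P an invertible matrix such that ζ times the standard unitary form takes values in F₀ on the F₀-span of the columns of P and the form vanishes on every pair (u, u) of that span (so ζ times the form restricts to a non-degenerate alternating form there). Then the elements of SU_n(q) lying in the subfield group of P form a maximal subgroup of SU_n(q). -/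
theorem result {F : Type*} [Field F] [Fintype F] (n q : ℕ) (hF : Fintype.card F = q ^ 2) (hn : 13 ≤ n) (heven : Even n) (F₀ : Subfield F) (hcard : Fintype.card F = Nat.card F₀ ^ 2) (ζ : F) (hζ0 : ζ ≠ 0) (hζ : ζ + ζ ^ q = 0) (P : Matrix.GeneralLinearGroup (Fin n) F) (hP : Cfsg.Geo.IsFormRationalStructure (Cfsg.hermForm n F q) F₀ ζ P) (halt : ∀ u : Fin n → F, (∀ i, u i ∈ F₀) → Cfsg.hermForm n F q (Matrix.mulVec (P : Matrix (Fin n) (Fin n) F) u) (Matrix.mulVec (P : Matrix (Fin n) (Fin n) F) u) = 0) : Cfsg.Geo.IsMaximalIn (Cfsg.GU n F q ⊓ Cfsg.Geo.specialLinear (Fin n) F) (Cfsg.Geo.subfieldSubgroup F₀ P ⊓ (Cfsg.GU n F q ⊓ Cfsg.Geo.specialLinear (Fin n) F)) := by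
  classical
  obtain ⟨C⟩ := CfsgLib.UGeom.nonempty_conj hF
  haveI : Nontrivial (Fin n) := Fin.nontrivial_iff_two_le.2 (by omega)
  let P' : Matrix (Fin n) (Fin n) F := (P : Matrix (Fin n) (Fin n) F)
  let R : (Fin n → F) → Prop := CfsgLib.GeoSubfield.Rat' F₀ P
  -- the subfield is the fixed field
  have hq : Nat.card F₀ = q := Nat.pow_left_injective two_ne_zero (hcard.symm.trans hF)
  have hfix : ∀ a ∈ F₀, C.σ a = a := fun a ha => by
    have := FiniteField.pow_card (⟨a, ha⟩ : F₀)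
    rw [← Nat.card_eq_fintype_card, hq] at this
    rw [C.pow]
    exact congrArg Subtype.val this
  have hfix' : ∀ a, C.σ a = a → a ∈ F₀ := by
    intro a ha
    by_contra hout
    have h1 : (insert a ((F₀ : Set F).toFinset)).card = q + 1 := by
      rw [Finset.card_insert_of_notMem (by simpa using hout), Set.toFinset_card, ← Nat.card_eq_fintype_card]
      exact congrArg (· + 1) hq
    have h2 : ((Polynomial.X : Polynomial F) ^ q - Polynomial.X).natDegree = q := FiniteField.X_pow_card_sub_X_natDegree_eq F C.two_le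
    have h3 : (insert a ((F₀ : Set F).toFinset)).card ≤ q := by
      refine le_trans ?_ h2.le
      refine Polynomial.card_le_degree_of_subset_roots fun z hz => ?_
      rw [Polynomial.mem_roots (FiniteField.X_pow_card_sub_X_ne_zero F C.two_le)]
      rw [Finset.mem_val, Finset.mem_insert] at hz
      rcases hz with rfl | hz
      · simp [← C.pow, ha]
      · simp [← C.pow, hfix z (by simpa using hz)]
    omega
  -- two coordinates over the subfield
  obtain ⟨ω, hω⟩ : ∃ ω : F, ω ∉ F₀ := by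
    by_contra hall
    push Not at hall
    exact C.ne_id (RingHom.ext fun a => hfix a (hall a))
  have hσω : C.σ ω - ω ≠ 0 := sub_ne_zero.2 fun h => hω (hfix' ω h)
  have hdec : ∀ a : F, ∃ b ∈ F₀, ∃ c ∈ F₀, b + ω * c = a := by
    intro a
    have hcdef : C.σ ((C.σ a - a) / (C.σ ω - ω)) = (C.σ a - a) / (C.σ ω - ω) := by
      rw [map_div₀, map_sub, map_sub, C.invol, C.invol, ← neg_sub (C.σ a), ← neg_sub (C.σ ω), neg_div_neg_eq]
    refine ⟨a - ω * ((C.σ a - a) / (C.σ ω - ω)), hfix' _ ?_, _, hfix' _ hcdef, by ring⟩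
    rw [map_sub, map_mul, hcdef]
    field_simp
    ring
  -- rational vectors
  have hRval : ∀ u v, R u → R v → ζ * Cfsg.hermForm n F q u v ∈ F₀ := fun u v hu hv => by
    obtain ⟨a, ha, rfl⟩ := CfsgLib.GeoSubfield.rat_eq hu
    obtain ⟨b, hb, rfl⟩ := CfsgLib.GeoSubfield.rat_eq hv
    exact hP a b ha hb
  have hR0 : ∀ u, R u → Cfsg.hermForm n F q u u = 0 := fun u hu => by
    obtain ⟨a, ha, rfl⟩ := CfsgLib.GeoSubfield.rat_eq hu
    exact halt a ha
  have hζ' : C.σ ζ = -ζ := by rw [C.pow]; linear_combination hζ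
  have htr : ∀ u v, R u → R v → C.σ (Cfsg.hermForm n F q u v) = -Cfsg.hermForm n F q u v := fun u v hu hv => by
    have h := hfix _ (hRval u v hu hv)
    rw [map_mul, hζ'] at h
    exact mul_left_cancel₀ hζ0 (by linear_combination -h)
  have htr' : ∀ u v, R u → R v → Cfsg.hermForm n F q v u = -Cfsg.hermForm n F q u v := fun u v hu hv => by
    rw [← CfsgLib.UGeom.form_conj C, htr u v hu hv]
  have hratio : ∀ u v u' v', R u → R v → R u' → R v' → Cfsg.hermForm n F q u v / Cfsg.hermForm n F q u' v' ∈ F₀ :=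
    fun u v u' v' hu hv hu' hv' => by
      refine hfix' _ ?_
      rw [map_div₀, htr u v hu hv, htr u' v' hu' hv', neg_div_neg_eq]
  -- expansion along the rational structure
  have hexp : ∀ w : Fin n → F, ∃ x y, R x ∧ R y ∧ w = x + ω • y := by
    intro w
    choose b hb c hc hbc using fun i => hdec ((((P⁻¹ : Matrix.GeneralLinearGroup (Fin n) F) : Matrix (Fin n) (Fin n) F).mulVec w) i)
    refine ⟨P'.mulVec b, P'.mulVec c, CfsgLib.GeoSubfield.rat_mulVec hb, CfsgLib.GeoSubfield.rat_mulVec hc, ?_⟩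
    rw [← Matrix.mulVec_smul, ← Matrix.mulVec_add,
      show b + ω • c = ((P⁻¹ : Matrix.GeneralLinearGroup (Fin n) F) : Matrix (Fin n) (Fin n) F).mulVec w from
        funext fun i => by simpa using hbc i]
    exact (CfsgLib.GeoFull.mulVec_inv_cancel P w).symm
  -- some rational vector is not orthogonal
  have hpair : ∀ u, u ≠ 0 → ∃ z, R z ∧ Cfsg.hermForm n F q u z ≠ 0 := by
    intro u hu
    by_contra hall
    push Not at hall
    refine hu (CfsgLib.UGeom.ext_form C (v := u) (w := 0) fun z => ?_)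
    obtain ⟨x, y, hx, hy, rfl⟩ := hexp z
    rw [CfsgLib.UGeom.form_zero_left, CfsgLib.UGeom.form_add_right C,
      CfsgLib.UGeom.form_smul_right C, hall x hx, hall y hy, mul_zero, add_zero]
  set G := Cfsg.Geo.subfieldSubgroup F₀ P ⊓ (Cfsg.GU n F q ⊓ Cfsg.Geo.specialLinear (Fin n) F) with hG
  -- rational centres
  have hcent : ∀ v, R v → CfsgLib.GeoSU.Cent C G v := by
    intro v hv
    refine ⟨hR0 v hv, fun c hc g hg => ⟨CfsgLib.GeoSubfield.mem_subfield one_ne_zero fun i => ?_,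
      CfsgLib.GeoSU.utv_mem_GU C (hR0 v hv) hc hg⟩⟩
    have hei := CfsgLib.GeoSubfield.rat_single (F₀ := F₀) (P := P) i
    rw [one_smul, hg]
    refine CfsgLib.GeoSubfield.rat_add hei (CfsgLib.GeoSubfield.rat_smul (hfix' _ ?_) hv)
    show C.σ (c * Cfsg.hermForm n F q _ v) = c * Cfsg.hermForm n F q _ v
    rw [map_mul, htr _ _ hei hv]
    linear_combination (-Cfsg.hermForm n F q (P'.mulVec (Pi.single i 1)) v) * hc
  -- an isotropic vector off the rational lines
  obtain ⟨x₀, hx₀, hx₀0⟩ : ∃ x, R x ∧ x ≠ 0 := by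
    refine ⟨_, CfsgLib.GeoSubfield.rat_single ⟨0, by omega⟩, fun h => ?_⟩
    have := congrArg ((P⁻¹ : Matrix.GeneralLinearGroup (Fin n) F) : Matrix (Fin n) (Fin n) F).mulVec h
    rw [CfsgLib.GeoFull.inv_mulVec_cancel, Matrix.mulVec_zero] at this
    simpa using congrFun this ⟨0, by omega⟩
  have hindep : ∀ x y, R x → R y → x ≠ 0 → (∀ a ∈ F₀, y ≠ a • x) → ∀ k : F, y ≠ k • x := by
    intro x y hx hy hx0 h k hk
    exact h k (CfsgLib.GeoSubfield.mem_of_smul hx hx0 (hk ▸ hy)) hk
  refine ⟨lt_of_le_not_ge inf_le_right fun hle => ?_, fun M hGM hMS => ?_⟩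
  · -- a transvection at a non-rational isotropic vector
    obtain ⟨z, hz, hxz⟩ := hpair x₀ hx₀0
    obtain ⟨b, hb⟩ := hpair x₀ hx₀0
    -- a rational vector orthogonal to x₀, off its line
    obtain ⟨y, hy, hxy, hy'⟩ : ∃ y, R y ∧ Cfsg.hermForm n F q x₀ y = 0 ∧ ∀ k : F, y ≠ k • x₀ := by
      by_contra hall
      push Not at hall
      have hall2 : ∀ i, ∃ k : F, P'.mulVec (Pi.single i 1) -
          (Cfsg.hermForm n F q x₀ (P'.mulVec (Pi.single i 1)) / Cfsg.hermForm n F q x₀ z) • z = k • x₀ := fun i => by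
        have hei := CfsgLib.GeoSubfield.rat_single (F₀ := F₀) (P := P) i
        have hk := hratio x₀ _ x₀ z hx₀ hei hx₀ hz
        refine hall _ (CfsgLib.GeoSubfield.rat_sub hei (CfsgLib.GeoSubfield.rat_smul hk hz)) ?_
        rw [CfsgLib.UGeom.form_sub_right C, CfsgLib.UGeom.form_smul_right C, hfix _ hk, div_mul_cancel₀ _ hxz, sub_self]
      have htop : (⊤ : Submodule F (Fin n → F)) ≤ Submodule.span F {x₀, z} := by
        intro w _
        have hw : w = ∑ i, (((P⁻¹ : Matrix.GeneralLinearGroup (Fin n) F) : Matrix (Fin n) (Fin n) F).mulVec w) i •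
            P'.mulVec (Pi.single i 1) := by
          simp only [← Matrix.mulVec_smul, ← Matrix.mulVec_sum]
          rw [← pi_eq_sum_univ']
          exact (CfsgLib.GeoFull.mulVec_inv_cancel P w).symm
        rw [hw]
        refine Submodule.sum_mem _ fun i _ => Submodule.smul_mem _ _ ?_
        obtain ⟨k, hk⟩ := hall2 i
        rw [sub_eq_iff_eq_add] at hk
        rw [hk]
        exact add_mem (Submodule.smul_mem _ _ (Submodule.subset_span (by simp)))
          (Submodule.smul_mem _ _ (Submodule.subset_span (by simp)))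
      have h2 := (Submodule.finrank_mono htop).trans (CfsgLib.GeoHerm.finrank_pair_le x₀ z)
      rw [finrank_top, Module.finrank_fin_fun] at h2
      omega
    set w := x₀ + ω • y with hw
    have hww : Cfsg.hermForm n F q w w = 0 := by
      rw [hw, CfsgLib.UGeom.form_add_left, CfsgLib.UGeom.form_smul_left, CfsgLib.UGeom.form_add_right C,
        CfsgLib.UGeom.form_add_right C, CfsgLib.UGeom.form_smul_right C, CfsgLib.UGeom.form_smul_right C,
        htr' x₀ y hx₀ hy, hxy, hR0 x₀ hx₀, hR0 y hy]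
      ring
    obtain ⟨c, hc0, hc⟩ : ∃ c : F, c ≠ 0 ∧ c + C.σ c = 0 := ⟨ζ, hζ0, by rw [hζ']; ring⟩
    obtain ⟨g, -, hg⟩ := CfsgLib.GeoTransvection.exists_transvection w (c • (CfsgLib.GeoSU.stdHerm C n).B w) (by
      simp [CfsgLib.GeoSU.stdHerm_apply, hww])
    obtain ⟨l, hl, hlg⟩ := CfsgLib.GeoSubfield.exists_scalar (hle (CfsgLib.GeoSU.utv_mem_GU C hww hc hg)).1
    -- evaluate on a vector orthogonal to `w`
    have hxw : Cfsg.hermForm n F q x₀ w = 0 := by
      rw [hw, CfsgLib.UGeom.form_add_right C, CfsgLib.UGeom.form_smul_right C, hxy, hR0 x₀ hx₀]; ring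
    have h1 := hlg x₀ hx₀
    rw [hg] at h1
    simp only [LinearMap.smul_apply, CfsgLib.GeoSU.stdHerm_apply, hxw, smul_zero, zero_smul, add_zero] at h1
    have hl0 := CfsgLib.GeoSubfield.mem_of_smul hx₀ hx₀0 h1
    obtain ⟨u, hu, hwu⟩ := hpair w (fun h => by
      rcases eq_or_ne ω 0 with h0 | h0
      · exact hω (h0 ▸ zero_mem _)
      · refine hy' (-ω⁻¹) ?_
        have h' : ω • y = -x₀ := eq_neg_of_add_eq_zero_right h
        rw [neg_smul, ← smul_neg, ← h', smul_smul, inv_mul_cancel₀ h0, one_smul])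
    have h2 := CfsgLib.GeoSubfield.rat_smul (inv_mem hl0) (hlg u hu)
    rw [smul_smul, inv_mul_cancel₀ hl, one_smul, hg] at h2
    have h3 := CfsgLib.GeoSubfield.rat_sub h2 hu
    rw [add_sub_cancel_left] at h3
    set k := (c • (CfsgLib.GeoSU.stdHerm C n).B w) u with hk
    have hk0 : k ≠ 0 := by
      rw [hk, LinearMap.smul_apply, CfsgLib.GeoSU.stdHerm_apply, smul_eq_mul]
      exact mul_ne_zero hc0 fun h => hwu (by rw [← CfsgLib.UGeom.form_conj C, h, map_zero])
    -- compare the two coordinates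
    obtain ⟨a, ha, d, hd, hkd⟩ := hdec k
    obtain ⟨e, he, e', he', hee⟩ := hdec (k * ω)
    have h4 : (k • w - (a • x₀ + e • y)) = ω • (d • x₀ + e' • y) := by
      rw [hw, smul_add, smul_smul, ← hee, ← hkd]
      module
    have h5 : R (ω • (d • x₀ + e' • y)) := by
      rw [← h4]
      exact CfsgLib.GeoSubfield.rat_sub h3 (CfsgLib.GeoSubfield.rat_add
        (CfsgLib.GeoSubfield.rat_smul ha hx₀) (CfsgLib.GeoSubfield.rat_smul he hy))
    have h6 : R (d • x₀ + e' • y) := CfsgLib.GeoSubfield.rat_add (CfsgLib.GeoSubfield.rat_smul hd hx₀) (CfsgLib.GeoSubfield.rat_smul he' hy)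
    have h7 : d • x₀ + e' • y = 0 := by_contra fun h => hω (CfsgLib.GeoSubfield.mem_of_smul h6 h h5)
    have he'0 : e' = 0 := by
      by_contra h
      refine hy' (-(e'⁻¹ * d)) ?_
      have h' : e' • y = -(d • x₀) := eq_neg_of_add_eq_zero_right h7
      rw [neg_smul, mul_smul, ← smul_neg, ← h', smul_smul, inv_mul_cancel₀ h, one_smul]
    rw [he'0, zero_smul, add_zero, smul_eq_zero] at h7
    rw [h7.resolve_right hx₀0, mul_zero, add_zero] at hkd
    rw [he'0, mul_zero, add_zero, ← hkd] at hee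
    have hkF : k ∈ F₀ := hkd ▸ ha
    have hkω : k * ω ∈ F₀ := by rw [← hkd, ← hee]; exact he
    exact hω (by simpa [hk0] using div_mem hkω hkF)
  by_cases hle : M ≤ Cfsg.Geo.subfieldSubgroup F₀ P
  · exact Or.inl (le_antisymm (le_inf hle hMS) hGM)
  refine Or.inr (le_antisymm hMS (CfsgLib.GeoSU.le_of_cent C (by omega) ?_))
  obtain ⟨g, hg, hgn⟩ := SetLike.not_le_iff_exists.1 hle
  have hMU : M ≤ Cfsg.GU n F q := hMS.trans inf_le_left
  have hcM : ∀ v, R v → CfsgLib.GeoSU.Cent C M v := fun v hv =>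
    ⟨(hcent v hv).1, fun c hc t ht => hGM ((hcent v hv).2 c hc t ht)⟩
  -- some rational vector leaves the rational lines
  obtain ⟨v, hv, hgv⟩ : ∃ v, R v ∧ ∀ (l : F) u, R u → (g : Matrix (Fin n) (Fin n) F).mulVec v ≠ l • u := by
    by_contra hall
    push Not at hall
    choose lam u hu heq using fun i => hall _ (CfsgLib.GeoSubfield.rat_single (F₀ := F₀) (P := P) i)
    have hne : ∀ i, lam i ≠ 0 ∧ u i ≠ 0 := by
      intro i
      rw [← not_or]
      intro h
      have h0 : (g : Matrix (Fin n) (Fin n) F).mulVec (P'.mulVec (Pi.single i 1)) = 0 := by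
        rw [heq i]; rcases h with h | h <;> simp [h]
      rw [Matrix.mulVec_mulVec, ← Units.val_mul] at h0
      have h1 := congrArg (((g * P)⁻¹ : Matrix.GeneralLinearGroup (Fin n) F) : Matrix (Fin n) (Fin n) F).mulVec h0
      rw [CfsgLib.GeoFull.inv_mulVec_cancel, Matrix.mulVec_zero] at h1
      simpa using congrFun h1 i
    have hfixr : ∀ i j, C.σ (lam i) * lam j = lam i * C.σ (lam j) := by
      intro i j
      rcases eq_or_ne i j with rfl | hij
      · ring
      obtain ⟨μ, w, hw, hμ⟩ := hall _ (CfsgLib.GeoSubfield.rat_add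
        (CfsgLib.GeoSubfield.rat_single (F₀ := F₀) (P := P) i) (CfsgLib.GeoSubfield.rat_single j))
      rw [Matrix.mulVec_add, heq i, heq j] at hμ
      obtain ⟨a, ha, hae⟩ := CfsgLib.GeoSubfield.rat_eq (hu i)
      obtain ⟨b, hb, hbe⟩ := CfsgLib.GeoSubfield.rat_eq (hu j)
      obtain ⟨d, hd, hde⟩ := CfsgLib.GeoSubfield.rat_eq hw
      rw [hae, hbe, hde, ← Matrix.mulVec_smul, ← Matrix.mulVec_smul, ← Matrix.mulVec_smul, ← Matrix.mulVec_add] at hμ
      have hcoord := Matrix.mulVec_injective_of_isUnit P.isUnit hμ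
      have hindab : ∀ s t : F, s • a + t • b = 0 → s = 0 := by
        intro s t h
        by_contra hs
        have e1 : (g : Matrix (Fin n) (Fin n) F).mulVec (P'.mulVec
            ((s / lam i) • Pi.single i 1 + (t / lam j) • Pi.single j 1)) = 0 := by
          rw [Matrix.mulVec_add, Matrix.mulVec_add, Matrix.mulVec_smul, Matrix.mulVec_smul, Matrix.mulVec_smul,
            Matrix.mulVec_smul, heq i, heq j, hae, hbe, smul_smul, smul_smul, div_mul_cancel₀ _ (hne i).1,
            div_mul_cancel₀ _ (hne j).1, ← Matrix.mulVec_smul, ← Matrix.mulVec_smul, ← Matrix.mulVec_add, h,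
            Matrix.mulVec_zero]
        rw [Matrix.mulVec_mulVec, ← Units.val_mul] at e1
        have h1 := congrArg (((g * P)⁻¹ : Matrix.GeneralLinearGroup (Fin n) F) : Matrix (Fin n) (Fin n) F).mulVec e1
        rw [CfsgLib.GeoFull.inv_mulVec_cancel, Matrix.mulVec_zero] at h1
        have := congrFun h1 i
        simp [hij, hs, (hne i).1] at this
      have hz : (C.σ (lam i) * μ - lam i * C.σ μ) • a + (C.σ (lam j) * μ - lam j * C.σ μ) • b = 0 := by
        funext k
        have e1 := congrFun hcoord k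
        simp only [Pi.add_apply, Pi.smul_apply, smul_eq_mul] at e1
        have e2 := congrArg C.σ e1
        simp only [map_add, map_mul, hfix _ (ha k), hfix _ (hb k), hfix _ (hd k)] at e2
        simp only [Pi.add_apply, Pi.smul_apply, smul_eq_mul, Pi.zero_apply]
        linear_combination μ * e2 - C.σ μ * e1
      have hia := hindab _ _ hz
      have hib : C.σ (lam j) * μ - lam j * C.σ μ = 0 := by
        rw [hia, zero_smul, zero_add, smul_eq_zero] at hz
        exact hz.resolve_right fun h => (hne j).2 (by rw [hbe, h, Matrix.mulVec_zero])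
      have hμ0 : μ ≠ 0 := fun h => by
        rw [h, zero_smul] at hcoord
        exact (hne i).1 (hindab _ _ hcoord)
      exact mul_right_cancel₀ hμ0 (by linear_combination lam j * hia - lam i * hib)
    let i₀ : Fin n := ⟨0, by omega⟩
    refine hgn (CfsgLib.GeoSubfield.mem_subfield (inv_ne_zero (hne i₀).1) fun i => ?_)
    rw [heq i, smul_smul]
    refine CfsgLib.GeoSubfield.rat_smul (hfix' _ ?_) (hu i)
    rw [map_mul, map_inv₀]
    field_simp [(hne i₀).1, (map_ne_zero C.σ).2 (hne i₀).1]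
    linear_combination hfixr i i₀
  obtain ⟨x₁, y₁, hx₁, hy₁, hxy₁⟩ := hexp ((g : Matrix (Fin n) (Fin n) F).mulVec v)
  have hw₁ : CfsgLib.GeoSU.Cent C M (x₁ + ω • y₁) := hxy₁ ▸ CfsgLib.GeoSU.cent_map C hg (hMU hg) (hcM v hv)
  -- the pairs of coordinates of centres
  let T : (Fin n → F) → (Fin n → F) → Prop := fun x y =>
    R x ∧ R y ∧ x ≠ 0 ∧ (∀ k : F, y ≠ k • x) ∧ CfsgLib.GeoSU.Cent C M (x + ω • y)
  have hx₁0 : x₁ ≠ 0 := fun h => hgv ω y₁ hy₁ (by rw [hxy₁, h, zero_add])
  have hT₁ : T x₁ y₁ := ⟨hx₁, hy₁, hx₁0, fun k hk => hgv (1 + ω * k) x₁ hx₁ (by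
    rw [hxy₁, hk, add_smul, one_smul, smul_smul]), hw₁⟩
  have hTform : ∀ x y, T x y → Cfsg.hermForm n F q x y = 0 := by
    rintro x y ⟨hx, hy, -, -, hC, -⟩
    rw [CfsgLib.UGeom.form_add_left, CfsgLib.UGeom.form_smul_left, CfsgLib.UGeom.form_add_right C,
      CfsgLib.UGeom.form_add_right C, CfsgLib.UGeom.form_smul_right C, CfsgLib.UGeom.form_smul_right C,
      htr' x y hx hy, hR0 x hx, hR0 y hy] at hC
    have : (C.σ ω - ω) * Cfsg.hermForm n F q x y = 0 := by linear_combination hC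
    exact (mul_eq_zero.1 this).resolve_left hσω
  -- moving by a rational transvection
  have hmove : ∀ x y z, T x y → R z → z ≠ 0 → Cfsg.hermForm n F q x z ≠ 0 → ∃ y', T z y' := by
    intro x y z hT hz hz0 hxz'
    have hd := CfsgLib.GeoSubfield.rat_sub hz hT.1
    have hval : Cfsg.hermForm n F q x (z - x) = Cfsg.hermForm n F q x z := by
      rw [CfsgLib.UGeom.form_sub_right C, hR0 x hT.1, sub_zero]
    set c := (Cfsg.hermForm n F q x z)⁻¹ with hc
    have hctr : c + C.σ c = 0 := by rw [hc, map_inv₀, htr x z hT.1 hz, inv_neg, add_neg_cancel]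
    obtain ⟨t, -, ht⟩ := CfsgLib.GeoTransvection.exists_transvection (z - x) (c • (CfsgLib.GeoSU.stdHerm C n).B (z - x))
      (by show c * Cfsg.hermForm n F q _ _ = 0; rw [hR0 _ hd, mul_zero])
    have htM : t ∈ M := (hcM _ hd).2 c hctr t ht
    set k := c * Cfsg.hermForm n F q y (z - x) with hk
    have hkF : k ∈ F₀ := by
      refine hfix' _ ?_
      rw [hk, map_mul, htr y _ hT.2.1 hd, eq_neg_of_add_eq_zero_right hctr, neg_mul_neg]
    have htx : (t : Matrix (Fin n) (Fin n) F).mulVec x = z := by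
      rw [ht, LinearMap.smul_apply, CfsgLib.GeoSU.stdHerm_apply, smul_eq_mul, hval, hc, inv_mul_cancel₀ hxz',
        one_smul, add_sub_cancel]
    have hty : (t : Matrix (Fin n) (Fin n) F).mulVec y = y + k • (z - x) := by
      rw [ht, LinearMap.smul_apply, CfsgLib.GeoSU.stdHerm_apply, smul_eq_mul]
    refine ⟨y + k • (z - x), hz, CfsgLib.GeoSubfield.rat_add hT.2.1 (CfsgLib.GeoSubfield.rat_smul hkF hd), hz0,
      fun l hl => hT.2.2.2.1 l ?_, ?_⟩
    · refine Matrix.mulVec_injective_of_isUnit t.isUnit ?_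
      show (t : Matrix (Fin n) (Fin n) F).mulVec y = (t : Matrix (Fin n) (Fin n) F).mulVec (l • x)
      rw [Matrix.mulVec_smul, hty, htx, hl]
    · have := CfsgLib.GeoSU.cent_map C htM (hMU htM) hT.2.2.2.2
      rwa [Matrix.mulVec_add, Matrix.mulVec_smul, htx, hty] at this
  have hmove2 : ∀ x y z, T x y → R z → (∀ k : F, z ≠ k • x) → Cfsg.hermForm n F q x z = 0 →
      Cfsg.hermForm n F q y z ≠ 0 → T x z := by
    intro x y z hT hz hzx hxz' hyz
    have hd := CfsgLib.GeoSubfield.rat_sub hz hT.2.1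
    have hval : Cfsg.hermForm n F q y (z - y) = Cfsg.hermForm n F q y z := by
      rw [CfsgLib.UGeom.form_sub_right C, hR0 y hT.2.1, sub_zero]
    set c := (Cfsg.hermForm n F q y z)⁻¹ with hc
    have hctr : c + C.σ c = 0 := by rw [hc, map_inv₀, htr y z hT.2.1 hz, inv_neg, add_neg_cancel]
    obtain ⟨t, -, ht⟩ := CfsgLib.GeoTransvection.exists_transvection (z - y) (c • (CfsgLib.GeoSU.stdHerm C n).B (z - y))
      (by show c * Cfsg.hermForm n F q _ _ = 0; rw [hR0 _ hd, mul_zero])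
    have htM : t ∈ M := (hcM _ hd).2 c hctr t ht
    refine ⟨hT.1, hz, hT.2.2.1, hzx, ?_⟩
    have := CfsgLib.GeoSU.cent_map C htM (hMU htM) hT.2.2.2.2
    rw [Matrix.mulVec_add, Matrix.mulVec_smul, ht, ht, LinearMap.smul_apply, LinearMap.smul_apply,
      CfsgLib.GeoSU.stdHerm_apply, CfsgLib.GeoSU.stdHerm_apply, smul_eq_mul, smul_eq_mul, hval, hc,
      inv_mul_cancel₀ hyz, one_smul, add_sub_cancel, CfsgLib.UGeom.form_sub_right C, hxz', hTform x y hT,
      sub_zero, mul_zero, zero_smul, add_zero] at this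
    exact this
  intro w hw
  obtain ⟨x, y, hx, hy, rfl⟩ := hexp w
  by_cases hx0 : x = 0
  · rw [hx0, zero_add]; exact CfsgLib.GeoSU.cent_smul C ω (hcM y hy)
  by_cases hdep : ∃ k : F, y = k • x
  · obtain ⟨k, rfl⟩ := hdep
    rw [smul_smul, show x + (ω * k) • x = (1 + ω * k) • x by rw [add_smul, one_smul]]
    exact CfsgLib.GeoSU.cent_smul C _ (hcM x hx)
  push Not at hdep
  have hxy : Cfsg.hermForm n F q x y = 0 := by
    rw [CfsgLib.UGeom.form_add_left, CfsgLib.UGeom.form_smul_left, CfsgLib.UGeom.form_add_right C,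
      CfsgLib.UGeom.form_add_right C, CfsgLib.UGeom.form_smul_right C, CfsgLib.UGeom.form_smul_right C,
      htr' x y hx hy, hR0 x hx, hR0 y hy] at hw
    have : (C.σ ω - ω) * Cfsg.hermForm n F q x y = 0 := by linear_combination hw
    exact (mul_eq_zero.1 this).resolve_left hσω
  -- first coordinate
  obtain ⟨y₂, hT₂⟩ : ∃ y', T x y' := by
    obtain ⟨a, ha, ha'⟩ := hpair x₁ hx₁0
    obtain ⟨b, hb, hb'⟩ := hpair x hx0
    obtain ⟨z, hz, hz1, hz2⟩ : ∃ z, R z ∧ Cfsg.hermForm n F q x₁ z ≠ 0 ∧ Cfsg.hermForm n F q x z ≠ 0 := by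
      by_cases h1 : Cfsg.hermForm n F q x a = 0
      · by_cases h2 : Cfsg.hermForm n F q x₁ b = 0
        · refine ⟨a + b, CfsgLib.GeoSubfield.rat_add ha hb, ?_, ?_⟩
          · rwa [CfsgLib.UGeom.form_add_right C, h2, add_zero]
          · rwa [CfsgLib.UGeom.form_add_right C, h1, zero_add]
        · exact ⟨b, hb, h2, hb'⟩
      · exact ⟨a, ha, ha', h1⟩
    have hz0 : z ≠ 0 := fun h => hz1 (by rw [h, CfsgLib.UGeom.form_zero_right C])
    obtain ⟨y', hT'⟩ := hmove x₁ y₁ z hT₁ hz hz0 hz1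
    exact hmove z y' x hT' hx hx0 (by rw [htr' x z hx hz]; exact neg_ne_zero.2 hz2)
  -- second coordinate
  have hz₀ : ∀ u, R u → (∀ k : F, u ≠ k • x) →
      ∃ z, R z ∧ Cfsg.hermForm n F q x z = 0 ∧ Cfsg.hermForm n F q u z ≠ 0 := by
    intro u hu hux
    obtain ⟨a, ha, ha'⟩ := hpair x hx0
    by_contra hall
    push Not at hall
    set k := Cfsg.hermForm n F q u a / Cfsg.hermForm n F q x a
    refine hux k (sub_eq_zero.1 (by_contra fun h => ?_))
    obtain ⟨b, hb, hb'⟩ := hpair _ h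
    have hl := hratio x b x a hx hb hx ha
    have h1 := hall (b - (Cfsg.hermForm n F q x b / Cfsg.hermForm n F q x a) • a)
      (CfsgLib.GeoSubfield.rat_sub hb (CfsgLib.GeoSubfield.rat_smul hl ha))
      (by rw [CfsgLib.UGeom.form_sub_right C, CfsgLib.UGeom.form_smul_right C, hfix _ hl, div_mul_cancel₀ _ ha', sub_self])
    rw [CfsgLib.UGeom.form_sub_right C, CfsgLib.UGeom.form_smul_right C, hfix _ hl] at h1
    refine hb' ?_
    rw [CfsgLib.UGeom.form_sub_left, CfsgLib.UGeom.form_smul_left]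
    simp only [k]
    linear_combination h1
  obtain ⟨p, hp, hp1, hp2⟩ := hz₀ y₂ hT₂.2.1 hT₂.2.2.2.1
  obtain ⟨r, hr', hr1, hr2⟩ := hz₀ y hy hdep
  obtain ⟨z, hz, hz1, hz2, hz3⟩ : ∃ z, R z ∧ Cfsg.hermForm n F q x z = 0 ∧
      Cfsg.hermForm n F q y₂ z ≠ 0 ∧ Cfsg.hermForm n F q y z ≠ 0 := by
    by_cases h1 : Cfsg.hermForm n F q y p = 0
    · by_cases h2 : Cfsg.hermForm n F q y₂ r = 0
      · refine ⟨p + r, CfsgLib.GeoSubfield.rat_add hp hr', ?_, ?_, ?_⟩
        · rw [CfsgLib.UGeom.form_add_right C, hp1, hr1, add_zero]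
        · rwa [CfsgLib.UGeom.form_add_right C, h2, add_zero]
        · rwa [CfsgLib.UGeom.form_add_right C, h1, zero_add]
      · exact ⟨r, hr', hr1, h2, hr2⟩
    · exact ⟨p, hp, hp1, hp2, h1⟩
  have hzx : ∀ k : F, z ≠ k • x := by
    rintro k rfl
    refine hz3 ?_
    rw [CfsgLib.UGeom.form_smul_right C, htr' x y hx hy, hxy, neg_zero, mul_zero]
  have hT₃ := hmove2 x y₂ z hT₂ hz hzx hz1 hz2
  exact (hmove2 x z y hT₃ hy hdep hxy (by rw [htr' y z hy hz]; exact neg_ne_zero.2 hz3)).2.2.2.2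

end Cfsg.Agent.S5660
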