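import Cfsg.Statements.S5665
import Cfsg.Agent.GeoLib.SpUnitary

set_option autoImplicit false
open Cfsg Matrix

namespace Cfsg.Agent.S5665

/-- For a finite field F of odd order and m ≥ 7, let K be a subfield of the algebra of 2m × 2m matrices over F containing the scalars, of degree 2 over F, that is closed under adjoints for the standard alternating form on F^(2m) but whose elements are not all self-adjoint (so the adjoint map induces the automorphism of order two of K). Then the elements of Sp_2m(F) normalising K form a maximal subgroup of Sp_2m(F). -/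
theorem result {F : Type*} [Field F] [Fintype F] (m : ℕ) (hm : 7 ≤ m) (hodd : Odd (Fintype.card F)) (K : Subalgebra F (Matrix (Fin m ⊕ Fin m) (Fin m ⊕ Fin m) F)) (hK : Cfsg.Geo.IsFieldSubalgebra 2 K) (hac : Cfsg.Geo.IsAdjointClosedFor (Cfsg.sympForm m F) K) (hnsa : ¬ Cfsg.Geo.IsSelfAdjointFor (Cfsg.sympForm m F) K) : Cfsg.Geo.IsMaximalIn (Cfsg.spGL m F) (Cfsg.Geo.subalgebraNormalizer K ⊓ Cfsg.spGL m F) := by
  classical
  have h2 : (2 : F) ≠ 0 := by
    intro h
    have hc : ringChar F = 2 := by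
      haveI := ringChar.charP F
      have := (ringChar.spec F 2).1 (by exact_mod_cast h)
      rcases (Nat.dvd_prime Nat.prime_two).1 this with h1 | h1
      · exact absurd h1 CharP.ringChar_ne_one
      · exact h1
    exact Nat.not_even_iff_odd.2 hodd (Nat.even_iff.2 (FiniteField.even_card_iff_char_two.1 hc))
  simp only [Cfsg.Geo.IsSelfAdjointFor, not_forall, exists_prop] at hnsa
  obtain ⟨k, hk, u, v, huv⟩ := hnsa
  obtain ⟨k', hk', hadj⟩ := hac k hk
  have hadj' : ∀ u v, sympForm m F (k' *ᵥ u) v = sympForm m F u (k *ᵥ v) := fun u v => by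
    rw [CfsgLib.SpGeom.form_skew, ← hadj, CfsgLib.SpGeom.form_skew, neg_neg]
  set J := k - k' with hJdef
  have hJK : J ∈ K := sub_mem hk hk'
  have hskew : ∀ x y, sympForm m F (J *ᵥ x) y = - sympForm m F x (J *ᵥ y) := fun x y => by
    rw [hJdef, Matrix.sub_mulVec, Matrix.sub_mulVec, CfsgLib.SpGeom.form_sub_left,
      CfsgLib.SpGeom.form_sub_right, hadj, hadj']
    ring
  have hJne : ∀ c : F, J ≠ c • 1 := by
    intro c h
    have hc : c = 0 := by
      have := hskew u (k *ᵥ v - k' *ᵥ v)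
      rw [h, Matrix.smul_mulVec, Matrix.one_mulVec, Matrix.smul_mulVec, Matrix.one_mulVec,
        CfsgLib.SpGeom.form_smul_left, CfsgLib.SpGeom.form_smul_right, CfsgLib.SpGeom.form_sub_right,
        ← hadj] at this
      have h' : 2 * c * (sympForm m F u (k *ᵥ v) - sympForm m F (k *ᵥ u) v) = 0 := by linear_combination this
      simpa [h2, sub_ne_zero.2 (Ne.symm huv)] using h'
    rw [hc, zero_smul, hJdef, sub_eq_zero] at h
    exact huv (by rw [hadj, h])
  have hind : LinearIndependent F ![(1 : K), ⟨J, hJK⟩] := by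
    refine LinearIndependent.pair_iff.2 fun s t hst => ?_
    have hst' : s • (1 : Matrix (Fin m ⊕ Fin m) (Fin m ⊕ Fin m) F) + t • J = 0 := congrArg Subtype.val hst
    rcases eq_or_ne t 0 with rfl | ht
    · haveI : Nonempty (Fin m ⊕ Fin m) := ⟨Sum.inl ⟨0, by omega⟩⟩
      exact ⟨by simpa using hst', rfl⟩
    · exact absurd (show J = (-(t⁻¹ * s)) • 1 by
        linear_combination (norm := (match_scalars <;> field_simp <;> ring)) t⁻¹ • hst') (hJne _)
  have hspan : ∀ x ∈ K, ∃ a b : F, x = a • 1 + b • J := by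
    intro x hx
    haveI : FiniteDimensional F K := Module.finite_of_finrank_eq_succ hK.finrank_eq
    have htop := hind.span_eq_top_of_card_eq_finrank (by simp [hK.finrank_eq])
    have hxm : (⟨x, hx⟩ : K) ∈ Submodule.span F {(1 : K), ⟨J, hJK⟩} := by
      rw [← Matrix.range_cons_cons_empty (1 : K) ⟨J, hJK⟩ ![], htop]; trivial
    obtain ⟨a, b, hab⟩ := Submodule.mem_span_pair.1 hxm
    exact ⟨a, b, (congrArg Subtype.val hab).symm⟩
  obtain ⟨α, β, hJJ⟩ := hspan _ (mul_mem hJK hJK)
  have hsq : ∀ x, J *ᵥ (J *ᵥ x) = α • x + β • (J *ᵥ x) := fun x => by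
    rw [Matrix.mulVec_mulVec, hJJ, Matrix.add_mulVec, Matrix.smul_mulVec, Matrix.smul_mulVec, Matrix.one_mulVec]
  have hβ : β = 0 := by
    by_contra hβ
    refine hJne 0 (Matrix.toLin'.injective (LinearMap.ext fun x => CfsgLib.SpGeom.ext_form fun y => ?_))
    rw [zero_smul, map_zero, Matrix.toLin'_apply, LinearMap.zero_apply, CfsgLib.SpGeom.form_zero_left]
    have e : sympForm m F (J *ᵥ (J *ᵥ x)) y = sympForm m F x (J *ᵥ (J *ᵥ y)) := by
      rw [hskew, hskew, neg_neg]
    rw [hsq, hsq] at e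
    simp only [CfsgLib.SpGeom.form_add_left, CfsgLib.SpGeom.form_smul_left, CfsgLib.SpGeom.form_add_right,
      CfsgLib.SpGeom.form_smul_right] at e
    have : 2 * β * sympForm m F (J *ᵥ x) y = 0 := by linear_combination e + β * hskew x y
    simpa [h2, hβ] using this
  subst hβ
  have hJ : CfsgLib.GeoSp.SkewRoot J α := by
    refine ⟨hskew, fun x => by rw [hsq, zero_smul, add_zero], fun s hs => ?_⟩
    have h0 : (J - s • 1) * (J + s • 1) = 0 := by
      simp only [sub_mul, mul_add, smul_mul_assoc, mul_smul_comm, one_mul, mul_one, hJJ]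
      rw [← hs]
      module
    have hA : J - s • 1 ≠ 0 := sub_ne_zero.2 (hJne s)
    obtain ⟨y, hy, hxy⟩ := hK.inv (J - s • 1) (sub_mem hJK (K.smul_mem (one_mem K) s)) hA
    have := congrArg (fun z => y * z) h0
    rw [mul_zero, ← mul_assoc, hK.comm y hy _ (sub_mem hJK (K.smul_mem (one_mem K) s)), hxy, one_mul] at this
    exact hJne (-s) (by linear_combination (norm := module) this)
  -- membership in the normaliser
  have hin : ∀ h : GL (Fin m ⊕ Fin m) F, (∀ x, (h : Matrix _ _ F) *ᵥ (J *ᵥ x) = J *ᵥ ((h : Matrix _ _ F) *ᵥ x)) →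
      h ∈ Cfsg.Geo.subalgebraNormalizer K := by
    intro h hh
    have hc : ∀ x ∈ K, (h : Matrix _ _ F) * x = x * (h : Matrix _ _ F) := by
      intro x hx
      obtain ⟨a, b, rfl⟩ := hspan x hx
      have : (h : Matrix _ _ F) * J = J * (h : Matrix _ _ F) := Matrix.toLin'.injective (LinearMap.ext fun x => by
        rw [Matrix.toLin'_apply, Matrix.toLin'_apply, ← Matrix.mulVec_mulVec, ← Matrix.mulVec_mulVec, hh])
      simp [mul_add, add_mul, this]
    intro x
    constructor
    · intro hx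
      rwa [hc x hx, Units.mul_inv_cancel_right]
    · intro hx
      have := hc _ hx
      rw [Units.inv_mul_cancel_right] at this
      rwa [(Units.mul_right_inj h).1 this] at hx
  have hnorm : ∀ g : GL (Fin m ⊕ Fin m) F, g ∉ Cfsg.Geo.subalgebraNormalizer K → ∀ a b : F, ∃ x,
      (g : Matrix _ _ F) *ᵥ (J *ᵥ x) ≠ a • ((g : Matrix _ _ F) *ᵥ x) + b • (J *ᵥ ((g : Matrix _ _ F) *ᵥ x)) := by
    intro g hg a b
    by_contra! hcon
    have hgJ : (g : Matrix _ _ F) * J = (a • 1 + b • J) * (g : Matrix _ _ F) :=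
      Matrix.toLin'.injective (LinearMap.ext fun x => by
        rw [Matrix.toLin'_apply, Matrix.toLin'_apply, ← Matrix.mulVec_mulVec, ← Matrix.mulVec_mulVec, hcon,
          Matrix.add_mulVec, Matrix.smul_mulVec, Matrix.smul_mulVec, Matrix.one_mulVec])
    have hb : b ≠ 0 := by
      rintro rfl
      rw [zero_smul, add_zero, smul_mul_assoc, one_mul] at hgJ
      refine hJne a ((Units.mul_right_inj g).1 ?_)
      rw [hgJ, mul_smul_comm, mul_one]
    refine hg fun x => ⟨fun hx => ?_, fun hx => ?_⟩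
    · obtain ⟨c, d, rfl⟩ := hspan x hx
      rw [mul_add, add_mul, mul_smul_comm, mul_smul_comm, smul_mul_assoc, smul_mul_assoc, mul_one,
        Units.mul_inv, hgJ, Units.mul_inv_cancel_right]
      exact add_mem (K.smul_mem (one_mem K) c)
        (K.smul_mem (add_mem (K.smul_mem (one_mem K) a) (K.smul_mem hJK b)) d)
    · obtain ⟨c, d, hcd⟩ := hspan _ hx
      have hx' : x = (↑g⁻¹ : Matrix _ _ F) * (c • 1 + d • J) * (↑g : Matrix _ _ F) := by
        rw [← hcd, ← mul_assoc, ← mul_assoc, Units.inv_mul, one_mul, Units.inv_mul_cancel_right]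
      have hJ' : (↑g⁻¹ : Matrix _ _ F) * J * (↑g : Matrix _ _ F) = b⁻¹ • (J - a • 1) := by
        rw [add_mul, smul_mul_assoc, smul_mul_assoc, one_mul] at hgJ
        rw [mul_assoc, show J * (↑g : Matrix _ _ F) = b⁻¹ • ((↑g : Matrix _ _ F) * J - a • (↑g : Matrix _ _ F)) by
          rw [hgJ, add_sub_cancel_left, smul_smul, inv_mul_cancel₀ hb, one_smul]]
        rw [mul_smul_comm, mul_sub, mul_smul_comm, ← mul_assoc, Units.inv_mul, one_mul]
      rw [hx', mul_add, add_mul, mul_smul_comm, mul_smul_comm, smul_mul_assoc, smul_mul_assoc, mul_one,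
        Units.inv_mul, hJ']
      exact add_mem (K.smul_mem (one_mem K) c)
        (K.smul_mem (K.smul_mem (sub_mem hJK (K.smul_mem (one_mem K) a)) _) d)
  refine ⟨lt_of_le_not_ge inf_le_right fun hge => ?_, fun M hGM hMS => ?_⟩
  · obtain ⟨T, hT, hTout⟩ := hJ.tv_not_norm h2 hm
    have hTN : T ∈ Cfsg.Geo.subalgebraNormalizer K := (hge hT).1
    obtain ⟨a, b, hab⟩ := hspan _ ((hTN J).1 hJK)
    obtain ⟨x, hx⟩ := hTout a b
    refine hx ?_
    rw [Matrix.mulVec_mulVec, show (T : Matrix _ _ F) * J = (a • 1 + b • J) * (T : Matrix _ _ F) by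
      rw [← hab, Units.inv_mul_cancel_right], ← Matrix.mulVec_mulVec, Matrix.add_mulVec, Matrix.smul_mulVec,
      Matrix.smul_mulVec, Matrix.one_mulVec]
  by_cases hle : M ≤ Cfsg.Geo.subalgebraNormalizer K
  · exact Or.inl (le_antisymm (le_inf hle hMS) hGM)
  obtain ⟨g, hg, hgn⟩ := SetLike.not_le_iff_exists.1 hle
  exact Or.inr (le_antisymm hMS (hJ.spGL_le h2 hm (fun h hS hh => hGM ⟨hin h hh, hS⟩) hg (hMS hg) (hnorm g hgn)))

end Cfsg.Agent.S5665
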