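import Cfsg.Statements.S5667
import Cfsg.Agent.GeoLib.NonMax
import Cfsg.Agent.GeoLib.SpGL
import Cfsg.Agent.GeoLib.TensorTools

set_option autoImplicit false
open Cfsg

namespace Cfsg.Agent.S5667

/-- Over the field with 3 elements and for m ≥ 7, suppose the standard alternating form on F^(2m) is similar, through P and e, to the tensor product of a non-degenerate symplectic form f₁ on F^(n₁) and a non-degenerate symmetric bilinear form f₂ on F^3. Then the elements of Sp_2m(3) in the stabiliser of this tensor decomposition form a subgroup that is not maximal: some subgroup lies strictly between it and Sp_2m(3). -/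
theorem result {F : Type*} [Field F] [Fintype F] (m : ℕ) (hm : 7 ≤ m) (hq : Fintype.card F = 3) (n₁ : ℕ) (e : (Fin m ⊕ Fin m) ≃ Fin n₁ × Fin 3) (P : Matrix.GeneralLinearGroup (Fin m ⊕ Fin m) F) (f₁ : (Fin n₁ → F) → (Fin n₁ → F) → F) (f₂ : (Fin 3 → F) → (Fin 3 → F) → F) (hf₁ : Cfsg.Geo.IsSymplecticForm f₁) (hf₂ : Cfsg.Geo.IsSymmetricForm f₂) (hT : Cfsg.Geo.IsTensorFormStructure id (Cfsg.sympForm m F) f₁ f₂ e P) : ∃ K : Subgroup (Matrix.GeneralLinearGroup (Fin m ⊕ Fin m) F), Cfsg.Geo.tensorProductSubgroup n₁ 3 e P ⊓ Cfsg.spGL m F < K ∧ K < Cfsg.spGL m F := by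
  classical
  have hn₁ : 4 ≤ n₁ := by
    have := Fintype.card_congr e
    simp at this; omega
  obtain ⟨δ, w, hδ, hw, hexp, hfr⟩ := CfsgLib.GeoTensor.exists_frame_three hq hf₂
  obtain ⟨⟨hl₂, hls₂, hr₂, hrs₂⟩, hsymm₂, hnd₂⟩ := hf₂
  obtain ⟨⟨hl₁, hls₁, hr₁, hrs₁⟩, hskew₁, halt₁, hnd₁⟩ := hf₁
  obtain ⟨c, hc, hf⟩ := CfsgLib.GeoTensor.form_pure (σ := RingHom.id F) (f := sympForm m F) (e := e) (P := P)
    (CfsgLib.GeoTensor.eq_gram hl₁ hls₁ hr₁ hrs₁) (CfsgLib.GeoTensor.eq_gram hl₂ hls₂ hr₂ hrs₂) hT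
  obtain ⟨x₀, hx₀⟩ : ∃ x₀ : Fin n₁ → F, x₀ ≠ 0 :=
    ⟨Pi.single ⟨0, by omega⟩ 1, fun h => one_ne_zero (α := F) (by simpa using congrFun h ⟨0, by omega⟩)⟩
  obtain ⟨⟨x₁, hx₁⟩, -⟩ := hnd₁ x₀ hx₀
  have hw0 : ∀ k, w k ≠ 0 := fun k h => hδ (by
    have := hw k k
    rw [if_pos rfl, h] at this
    rw [← this]; simpa using hls₂ 0 0 (0 : Fin 3 → F))
  let A : (Fin m ⊕ Fin m → F) → Prop := CfsgLib.GeoTensor.InMembers e P w
  let Φ : (Fin m ⊕ Fin m → F) → F := fun x => if A x then 1 else 0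
  have hΦ : ∀ {g : GL (Fin m ⊕ Fin m) F}, (∀ x, A x → A ((g : Matrix _ _ F).mulVec x)) →
      (∀ x, A x → A (((g⁻¹ : GL (Fin m ⊕ Fin m) F) : Matrix _ _ F).mulVec x)) →
      g ∈ CfsgLib.GeoNonMax.fixFun Φ := fun {g} h h' x => if_congr ⟨fun hx => by
        have := h' _ hx
        rwa [CfsgLib.GeoFull.inv_mulVec_cancel] at this, h x⟩ rfl rfl
  have hcomp : ∀ x x' k k', sympForm m F (CfsgLib.GeoTensor.pure e P x (w k)) (CfsgLib.GeoTensor.pure e P x' (w k')) =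
      if k = k' then c * δ * f₁ x x' else 0 := fun x x' k k' => by
    rw [hf, hw]; split_ifs <;> ring
  have hmapA : ∀ g : GL (Fin m ⊕ Fin m) F, g ∈ Cfsg.Geo.tensorProductSubgroup n₁ 3 e P → g ∈ Cfsg.spGL m F →
      ∀ x, A x → A ((g : Matrix _ _ F).mulVec x) := by
    intro g hg hgS x hx
    obtain ⟨α, β, hαβ⟩ := CfsgLib.GeoTensor.exists_factors hg
    obtain ⟨x, k, rfl⟩ := hx
    have h : ∀ y y', f₁ ((α : Matrix (Fin n₁) (Fin n₁) F).mulVec x₁) ((α : Matrix (Fin n₁) (Fin n₁) F).mulVec x₀) *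
        f₂ ((β : Matrix (Fin 3) (Fin 3) F).mulVec y) ((β : Matrix (Fin 3) (Fin 3) F).mulVec y') =
          f₁ x₁ x₀ * f₂ y y' := fun y y' => by
      have h := CfsgLib.GeoSp.mem_spGL.1 hgS (CfsgLib.GeoTensor.pure e P x₁ y) (CfsgLib.GeoTensor.pure e P x₀ y')
      rw [hαβ, hαβ, hf, hf] at h
      exact mul_left_cancel₀ hc h
    have hne : f₁ ((α : Matrix (Fin n₁) (Fin n₁) F).mulVec x₁) ((α : Matrix (Fin n₁) (Fin n₁) F).mulVec x₀) ≠ 0 := by
      intro h0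
      have h' := h (w 0) (w 0)
      rw [h0, zero_mul, hw, if_pos rfl] at h'
      exact mul_ne_zero hx₁ hδ h'.symm
    obtain ⟨j, r, hr⟩ := hfr (Matrix.toLin' (β : Matrix (Fin 3) (Fin 3) F))
      (f₁ x₁ x₀ / f₁ ((α : Matrix (Fin n₁) (Fin n₁) F).mulVec x₁) ((α : Matrix (Fin n₁) (Fin n₁) F).mulVec x₀))
      (div_ne_zero hx₁ hne) (fun y y' => by
        rw [Matrix.toLin'_apply, Matrix.toLin'_apply, div_mul_eq_mul_div, eq_div_iff hne]
        linear_combination h y y') k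
    rw [Matrix.toLin'_apply] at hr
    exact ⟨r • (α : Matrix (Fin n₁) (Fin n₁) F).mulVec x, j, by
      rw [hαβ, hr, CfsgLib.GeoTensor.pure_smul_left, CfsgLib.GeoTensor.pure_smul_right]⟩
  refine ⟨CfsgLib.GeoNonMax.fixFun Φ ⊓ Cfsg.spGL m F, ?_, ?_⟩
  · refine lt_of_le_not_ge (le_inf (fun g hg => hΦ (hmapA g hg.1 hg.2)
      (hmapA _ (inv_mem hg.1) (inv_mem hg.2))) inf_le_right) fun hle => ?_
    set v := CfsgLib.GeoTensor.pure e P x₀ (w 0) with hv
    have htv : ∀ (a : F) x k, (CfsgLib.GeoSp.tvGL v a : Matrix _ _ F).mulVec (CfsgLib.GeoTensor.pure e P x (w k)) =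
        CfsgLib.GeoTensor.pure e P (x + (if k = 0 then a * (c * δ * f₁ x x₀) else 0) • x₀) (w k) := fun a x k => by
      rw [CfsgLib.GeoSp.tvGL_mulVec, hv, hcomp, CfsgLib.GeoTensor.pure_add_left, CfsgLib.GeoTensor.pure_smul_left]
      split_ifs with h
      · subst h; rfl
      · simp
    have hA : ∀ a : F, ∀ x, A x → A ((CfsgLib.GeoSp.tvGL v a : Matrix _ _ F).mulVec x) := by
      rintro a x ⟨x, k, rfl⟩
      exact ⟨_, k, htv a x k⟩
    have hin : CfsgLib.GeoSp.tvGL v 1 ∈ CfsgLib.GeoNonMax.fixFun Φ := hΦ (hA 1) (by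
      rw [CfsgLib.GeoSp.tvGL_inv]; exact hA _)
    obtain ⟨α, β, hαβ⟩ := CfsgLib.GeoTensor.exists_factors (hle ⟨hin, CfsgLib.GeoSp.tvGL_mem v 1⟩).1
    have hb := fun x => CfsgLib.GeoTensor.pure_eq ((hαβ x (w 1)).symm.trans
      ((htv 1 x 1).trans (by rw [if_neg (by decide), zero_smul, add_zero])))
    have ha := CfsgLib.GeoTensor.pure_eq ((hαβ x₁ (w 0)).symm.trans (htv 1 x₁ 0))
    obtain ⟨j, hj⟩ := Function.ne_iff.1 (hw0 1)
    obtain ⟨j₀, hj₀⟩ := Function.ne_iff.1 (hw0 0)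
    obtain ⟨i, hi⟩ := Function.ne_iff.1 hx₀
    have hβj : (β : Matrix (Fin 3) (Fin 3) F).mulVec (w 1) j ≠ 0 := fun h => by
      have := hb x₀ i j
      rw [h, mul_zero] at this
      exact mul_ne_zero hi hj this.symm
    set ρ := w 1 j / (β : Matrix (Fin 3) (Fin 3) F).mulVec (w 1) j with hρ
    have hα : ∀ x, (α : Matrix (Fin n₁) (Fin n₁) F).mulVec x = ρ • x := fun x => funext fun k => by
      have := hb x k j
      rw [Pi.smul_apply, smul_eq_mul, hρ, div_mul_eq_mul_div, eq_div_iff hβj]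
      linear_combination this
    have hprop : (w 0 j₀ * (c * δ * f₁ x₁ x₀)) • x₀ =
        (ρ * (β : Matrix (Fin 3) (Fin 3) F).mulVec (w 0) j₀ - w 0 j₀) • x₁ := funext fun k => by
      have := ha k j₀
      rw [hα, if_pos rfl, one_mul, Pi.smul_apply, smul_eq_mul, Pi.add_apply, Pi.smul_apply, smul_eq_mul] at this
      simp only [Pi.smul_apply, smul_eq_mul]
      linear_combination (-1 : F) * this
    have h3 := congrArg (fun z => f₁ z x₀) hprop
    simp only [hls₁, halt₁, mul_zero] at h3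
    have h4 := (mul_eq_zero.1 h3.symm).resolve_right hx₁
    rw [h4, zero_smul] at hprop
    exact hx₀ ((smul_eq_zero.1 hprop).resolve_left (mul_ne_zero hj₀ (mul_ne_zero (mul_ne_zero hc hδ) hx₁)))
  · refine lt_of_le_not_ge inf_le_right fun hle => ?_
    set v := CfsgLib.GeoTensor.pure e P x₀ (w 0) + CfsgLib.GeoTensor.pure e P x₀ (w 1) with hv
    have h := (hle (CfsgLib.GeoSp.tvGL_mem v 1)).1 (CfsgLib.GeoTensor.pure e P x₁ (w 0))
    set κ := c * δ * f₁ x₁ x₀ with hκ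
    have hκ0 : κ ≠ 0 := mul_ne_zero (mul_ne_zero hc hδ) hx₁
    have e1 : (CfsgLib.GeoSp.tvGL v 1 : Matrix _ _ F).mulVec (CfsgLib.GeoTensor.pure e P x₁ (w 0)) =
        CfsgLib.GeoTensor.pure e P (x₁ + κ • x₀) (w 0) + CfsgLib.GeoTensor.pure e P (κ • x₀) (w 1) := by
      rw [CfsgLib.GeoSp.tvGL_mulVec, hv, CfsgLib.SpGeom.form_add_right, hcomp, hcomp, if_pos rfl,
        if_neg (by decide), add_zero, one_mul, smul_add, CfsgLib.GeoTensor.pure_add_left,
        CfsgLib.GeoTensor.pure_smul_left, CfsgLib.GeoTensor.pure_smul_left, ← hκ]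
      abel
    have hA : A (CfsgLib.GeoTensor.pure e P x₁ (w 0)) := ⟨_, 0, rfl⟩
    rw [e1] at h
    by_cases hAg : A (CfsgLib.GeoTensor.pure e P (x₁ + κ • x₀) (w 0) + CfsgLib.GeoTensor.pure e P (κ • x₀) (w 1))
    swap
    · simp [Φ, hA, hAg] at h
    obtain ⟨z, k, hz⟩ := hAg
    -- pair with the two members
    have hp : ∀ l x', (if (0 : Fin 3) = l then c * δ * f₁ (x₁ + κ • x₀) x' else 0) +
        (if (1 : Fin 3) = l then c * δ * f₁ (κ • x₀) x' else 0) = if k = l then c * δ * f₁ z x' else 0 := by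
      intro l x'
      rw [← hcomp, ← hcomp, ← hcomp, ← CfsgLib.SpGeom.form_add_left, hz]
    by_cases hk : k = 0
    · subst hk
      obtain ⟨-, x', hx'⟩ := hnd₁ x₀ hx₀
      have := hp 1 x'
      rw [if_neg (by decide), if_pos rfl, if_neg (by decide), zero_add, hls₁] at this
      exact mul_ne_zero (mul_ne_zero hc hδ) (mul_ne_zero hκ0 hx') this
    · have := hp 0 x₀
      rw [if_pos rfl, if_neg (by decide), if_neg hk, add_zero, hl₁, hls₁, halt₁, mul_zero, add_zero] at this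
      exact hκ0 this

end Cfsg.Agent.S5667
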