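import Cfsg.Statements.S5671
import Cfsg.Agent.GeoLib.NonMax
import Cfsg.Agent.GeoLib.SUGL
import Cfsg.Agent.GeoLib.TensorTools

set_option autoImplicit false
open Cfsg

namespace Cfsg.Agent.S5671

/-- Let F be the field with 4 elements (q = 2) and n = 2 n₂ ≥ 13. Suppose the standard unitary form Σ u_i v_i² on F^n is similar, through P and e, to the tensor product of non-degenerate unitary forms f₁ on F^2 and f₂ on F^(n₂). Then the elements of SU_n(2) in the stabiliser of this tensor decomposition form a subgroup that is not maximal: some subgroup lies strictly between it and SU_n(2). -/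
theorem result {F : Type*} [Field F] [Fintype F] (n : ℕ) (hF : Fintype.card F = 4) (hn : 13 ≤ n) (n₂ : ℕ) (e : Fin n ≃ Fin 2 × Fin n₂) (P : Matrix.GeneralLinearGroup (Fin n) F) (f₁ : (Fin 2 → F) → (Fin 2 → F) → F) (f₂ : (Fin n₂ → F) → (Fin n₂ → F) → F) (hf₁ : Cfsg.Geo.IsUnitaryFormPow 2 f₁) (hf₂ : Cfsg.Geo.IsUnitaryFormPow 2 f₂) (hT : Cfsg.Geo.IsTensorFormStructure (fun x : F => x ^ 2) (Cfsg.hermForm n F 2) f₁ f₂ e P) : ∃ K : Subgroup (Matrix.GeneralLinearGroup (Fin n) F), Cfsg.Geo.tensorProductSubgroup 2 n₂ e P ⊓ (Cfsg.GU n F 2 ⊓ Cfsg.Geo.specialLinear (Fin n) F) < K ∧ K < (Cfsg.GU n F 2 ⊓ Cfsg.Geo.specialLinear (Fin n) F) := by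
  classical
  obtain ⟨C⟩ := CfsgLib.UGeom.nonempty_conj (F := F) (q := 2) (by rw [hF]; norm_num)
  have h2 : (2 : F) = 0 := by
    have h0 : ((Fintype.card F : ℕ) : F) = 0 := FiniteField.cast_card_eq_zero F
    rw [hF] at h0
    have : (2 : F) * 2 = 0 := by norm_num at h0; linear_combination h0
    exact mul_self_eq_zero.1 this
  have hnorm : ∀ c : F, c ≠ 0 → c * C.σ c = 1 := fun c hc => by
    have := FiniteField.pow_card_sub_one_eq_one c hc
    rw [hF] at this; rw [C.pow]; linear_combination this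
  have hn2 : 7 ≤ n₂ := by
    have := Fintype.card_congr e
    simp at this; omega
  have hσ₁ : ∀ v w, f₁ v w = C.σ (f₁ w v) := fun v w => by rw [C.pow]; exact hf₁.herm v w
  have hσ₂ : ∀ v w, f₂ v w = C.σ (f₂ w v) := fun v w => by rw [C.pow]; exact hf₂.herm v w
  have hr₁ : ∀ v x y, f₁ v (x + y) = f₁ v x + f₁ v y := fun v x y => by
    rw [hσ₁, hf₁.add_left, map_add, ← hσ₁, ← hσ₁]
  have hr₂ : ∀ v x y, f₂ v (x + y) = f₂ v x + f₂ v y := fun v x y => by
    rw [hσ₂, hf₂.add_left, map_add, ← hσ₂, ← hσ₂]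
  have hrs₁ : ∀ (c : F) v x, f₁ v (c • x) = C.σ c * f₁ v x := fun c v x => by
    rw [hσ₁, hf₁.smul_left, map_mul, ← hσ₁]
  have hrs₂ : ∀ (c : F) v x, f₂ v (c • x) = C.σ c * f₂ v x := fun c v x => by
    rw [hσ₂, hf₂.smul_left, map_mul, ← hσ₂]
  obtain ⟨c, hc, hf⟩ := CfsgLib.GeoTensor.form_pure (σ := C.σ) (f := hermForm n F 2) (e := e) (P := P)
    (CfsgLib.GeoTensor.eq_gram hf₁.add_left hf₁.smul_left hr₁ hrs₁)
    (CfsgLib.GeoTensor.eq_gram hf₂.add_left hf₂.smul_left hr₂ hrs₂)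
    (by rwa [show (C.σ : F → F) = fun x => x ^ 2 from funext C.pow])
  obtain ⟨a, b, haa, hb0, hab, hba, h12⟩ := CfsgLib.GeoTensor.exists_frame C.invol C.ne_id h2 hnorm le_rfl
    hf₁.add_left hf₁.smul_left hσ₁ hf₁.nondegenerate
  obtain ⟨hbb, hfr⟩ := h12 rfl
  obtain ⟨u, v, huu, hv0, huv, hvu, -⟩ := CfsgLib.GeoTensor.exists_frame C.invol C.ne_id h2 hnorm
    (show 2 ≤ n₂ by omega) hf₂.add_left hf₂.smul_left hσ₂ hf₂.nondegenerate
  have ha0 : a ≠ 0 := fun h => one_ne_zero (α := F) (by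
    rw [← haa, h]; simpa using hf₁.smul_left 0 0 (0 : Fin 2 → F))
  have hu0 : u ≠ 0 := fun h => one_ne_zero (α := F) (by
    rw [← huu, h]; simpa using hf₂.smul_left 0 0 (0 : Fin n₂ → F))
  -- a self-orthogonal vector of the second factor
  obtain ⟨y₀, hy₀, hy₀0, hy₁⟩ : ∃ y₀, f₂ y₀ y₀ = 0 ∧ y₀ ≠ 0 ∧ ∃ y₁, f₂ y₁ y₀ ≠ 0 := by
    suffices h : ∃ y₀, f₂ y₀ y₀ = 0 ∧ y₀ ≠ 0 by
      obtain ⟨y₀, h1, h2'⟩ := h
      exact ⟨y₀, h1, h2', (hf₂.nondegenerate y₀ h2').1⟩
    by_cases hvv : f₂ v v = 0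
    · exact ⟨v, hvv, hv0⟩
    have h1 := hnorm _ hvv
    rw [← hσ₂ v v] at h1
    refine ⟨u + v, ?_, fun h => ?_⟩
    · rw [hf₂.add_left, hr₂, hr₂, huu, huv, hvu]
      rcases mul_self_eq_one_iff.1 h1 with h | h <;> rw [h]
      · linear_combination h2
      · ring
    · have := congrArg (fun z => f₂ z u) h
      simp only [hf₂.add_left, huu, hvu, add_zero] at this
      exact one_ne_zero (this.trans (by simpa using hf₂.smul_left 0 0 u))
  obtain ⟨y₁, hy₁⟩ := hy₁
  -- the union of the two members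
  let A : (Fin n → F) → Prop := fun x => ∃ y, x = CfsgLib.GeoTensor.pure e P a y ∨ x = CfsgLib.GeoTensor.pure e P b y
  let Φ : (Fin n → F) → F := fun x => if A x then 1 else 0
  have hΦ : ∀ {g : GL (Fin n) F}, (∀ x, A x → A ((g : Matrix (Fin n) (Fin n) F).mulVec x)) →
      (∀ x, A x → A (((g⁻¹ : GL (Fin n) F) : Matrix (Fin n) (Fin n) F).mulVec x)) →
      g ∈ CfsgLib.GeoNonMax.fixFun Φ := fun {g} h h' x => if_congr ⟨fun hx => by
        have := h' _ hx
        rwa [CfsgLib.GeoFull.inv_mulVec_cancel] at this, h x⟩ rfl rfl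
  have htv : ∀ w, hermForm n F 2 w w = 0 → ∃ g ∈ Cfsg.GU n F 2 ⊓ Cfsg.Geo.specialLinear (Fin n) F,
      g * g = 1 ∧ ∀ x, (g : Matrix (Fin n) (Fin n) F).mulVec x = x + hermForm n F 2 x w • w := by
    intro w hw
    obtain ⟨g, -, hg⟩ := CfsgLib.GeoTransvection.exists_transvection w ((1 : F) • (CfsgLib.GeoSU.stdHerm C n).B w)
      (by simp [CfsgLib.GeoSU.stdHerm_apply, hw])
    have hg' : ∀ x, (g : Matrix (Fin n) (Fin n) F).mulVec x = x + hermForm n F 2 x w • w := fun x => by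
      rw [hg]; simp [CfsgLib.GeoSU.stdHerm_apply]
    refine ⟨g, CfsgLib.GeoSU.utv_mem_GU C hw (c := 1) (by rw [map_one, one_add_one_eq_two, h2]) hg, ?_, hg'⟩
    refine CfsgLib.GeoFull.gl_ext fun z => ?_
    rw [Units.val_mul, ← Matrix.mulVec_mulVec, hg', hg', CfsgLib.UGeom.form_add_left,
      CfsgLib.UGeom.form_smul_left, hw, mul_zero, add_zero, add_assoc, ← add_smul,
      show hermForm n F 2 z w + hermForm n F 2 z w = 0 by linear_combination hermForm n F 2 z w * h2,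
      zero_smul, add_zero, Units.val_one, Matrix.one_mulVec]
  have hmapA : ∀ g : GL (Fin n) F, g ∈ Cfsg.Geo.tensorProductSubgroup 2 n₂ e P → g ∈ Cfsg.GU n F 2 →
      ∀ x, A x → A ((g : Matrix (Fin n) (Fin n) F).mulVec x) := by
    intro g hg hgU x hx
    obtain ⟨α, β, hαβ⟩ := CfsgLib.GeoTensor.exists_factors hg
    have hiso : ∀ x : Fin 2 → F, f₁ x x ≠ 0 → f₁ ((α : Matrix (Fin 2) (Fin 2) F).mulVec x) ((α : Matrix (Fin 2) (Fin 2) F).mulVec x) ≠ 0 := by
      intro x hx
      have h := CfsgLib.GeoSU.mem_GU.1 hgU (CfsgLib.GeoTensor.pure e P x u) (CfsgLib.GeoTensor.pure e P x u)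
      rw [hαβ, hf, hf, huu, mul_one] at h
      intro h0
      rw [h0, zero_mul, mul_zero] at h
      exact mul_ne_zero hc hx h.symm
    have key : ∀ x y, f₁ x x ≠ 0 → A ((g : Matrix (Fin n) (Fin n) F).mulVec (CfsgLib.GeoTensor.pure e P x y)) := by
      intro x y hx
      rw [hαβ]
      rcases hfr _ (hiso x hx) with ⟨r, hr⟩ | ⟨r, hr⟩
      · exact ⟨r • (β : Matrix (Fin n₂) (Fin n₂) F).mulVec y, Or.inl (by
          rw [hr, CfsgLib.GeoTensor.pure_smul_left, CfsgLib.GeoTensor.pure_smul_right])⟩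
      · exact ⟨r • (β : Matrix (Fin n₂) (Fin n₂) F).mulVec y, Or.inr (by
          rw [hr, CfsgLib.GeoTensor.pure_smul_left, CfsgLib.GeoTensor.pure_smul_right])⟩
    obtain ⟨y, rfl | rfl⟩ := hx
    · exact key a y (by rw [haa]; exact one_ne_zero)
    · exact key b y (by rw [hbb]; exact one_ne_zero)
  refine ⟨CfsgLib.GeoNonMax.fixFun Φ ⊓ (Cfsg.GU n F 2 ⊓ Cfsg.Geo.specialLinear (Fin n) F), ?_, ?_⟩
  · refine lt_of_le_not_ge (le_inf (fun g hg => hΦ (hmapA g hg.1 hg.2.1)
      (hmapA _ (inv_mem hg.1) (inv_mem hg.2.1))) inf_le_right) fun hle => ?_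
    have hw : hermForm n F 2 (CfsgLib.GeoTensor.pure e P a y₀) (CfsgLib.GeoTensor.pure e P a y₀) = 0 := by
      rw [hf, hy₀, mul_zero, mul_zero]
    obtain ⟨g, hg, hgg, hgv⟩ := htv _ hw
    have hga : ∀ y, (g : Matrix (Fin n) (Fin n) F).mulVec (CfsgLib.GeoTensor.pure e P a y) =
        CfsgLib.GeoTensor.pure e P a (y + (c * f₂ y y₀) • y₀) := fun y => by
      rw [hgv, hf, haa, one_mul, CfsgLib.GeoTensor.pure_add_right, CfsgLib.GeoTensor.pure_smul_right]
    have hgb : ∀ y, (g : Matrix (Fin n) (Fin n) F).mulVec (CfsgLib.GeoTensor.pure e P b y) =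
        CfsgLib.GeoTensor.pure e P b y := fun y => by
      rw [hgv, hf, hba, zero_mul, mul_zero, zero_smul, add_zero]
    have hmap : ∀ x, A x → A ((g : Matrix (Fin n) (Fin n) F).mulVec x) := by
      rintro x ⟨y, rfl | rfl⟩
      · exact ⟨_, Or.inl (hga y)⟩
      · exact ⟨_, Or.inr (hgb y)⟩
    have hin : g ∈ CfsgLib.GeoNonMax.fixFun Φ := hΦ hmap (by rwa [inv_eq_of_mul_eq_one_right hgg])
    obtain ⟨α, β, hαβ⟩ := CfsgLib.GeoTensor.exists_factors (hle ⟨hin, hg⟩).1
    have hb := fun y => CfsgLib.GeoTensor.pure_eq ((hαβ b y).symm.trans (hgb y))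
    have ha := CfsgLib.GeoTensor.pure_eq ((hαβ a y₁).symm.trans (hga y₁))
    obtain ⟨i, hi⟩ := Function.ne_iff.1 hb0
    obtain ⟨j, hj⟩ := Function.ne_iff.1 hy₀0
    have hαi : (α : Matrix (Fin 2) (Fin 2) F).mulVec b i ≠ 0 := fun h => by
      have := hb y₀ i j
      rw [h, zero_mul] at this
      exact mul_ne_zero hi hj this.symm
    set ρ := b i / (α : Matrix (Fin 2) (Fin 2) F).mulVec b i with hρ
    have hβ : ∀ y, (β : Matrix (Fin n₂) (Fin n₂) F).mulVec y = ρ • y := fun y => funext fun k => by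
      have := hb y i k
      rw [Pi.smul_apply, smul_eq_mul, hρ, div_mul_eq_mul_div, eq_div_iff hαi]
      linear_combination this
    obtain ⟨i', hi'⟩ := Function.ne_iff.1 ha0
    have hprop : (a i' * (c * f₂ y₁ y₀)) • y₀ = ((α : Matrix (Fin 2) (Fin 2) F).mulVec a i' * ρ - a i') • y₁ := funext fun k => by
      have := ha i' k
      rw [hβ, Pi.smul_apply, smul_eq_mul, Pi.add_apply, Pi.smul_apply, smul_eq_mul] at this
      simp only [Pi.smul_apply, smul_eq_mul]
      linear_combination (-1 : F) * this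
    have h3 := congrArg (fun z => f₂ z y₀) hprop
    simp only [hf₂.smul_left, hy₀, mul_zero] at h3
    have h4 := (mul_eq_zero.1 h3.symm).resolve_right hy₁
    rw [h4, zero_smul] at hprop
    exact hy₀0 ((smul_eq_zero.1 hprop).resolve_left (mul_ne_zero hi' (mul_ne_zero hc hy₁)))
  · refine lt_of_le_not_ge inf_le_right fun hle => ?_
    have hw : hermForm n F 2 (CfsgLib.GeoTensor.pure e P a u + CfsgLib.GeoTensor.pure e P b u)
        (CfsgLib.GeoTensor.pure e P a u + CfsgLib.GeoTensor.pure e P b u) = 0 := by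
      rw [CfsgLib.UGeom.form_add_left, CfsgLib.UGeom.form_add_right C, CfsgLib.UGeom.form_add_right C,
        hf, hf, hf, hf, haa, hab, hba, hbb, huu]
      linear_combination c * h2
    obtain ⟨g, hg, -, hgv⟩ := htv _ hw
    have h := (hle hg).1 (CfsgLib.GeoTensor.pure e P a (u + v))
    have e1 : (g : Matrix (Fin n) (Fin n) F).mulVec (CfsgLib.GeoTensor.pure e P a (u + v)) =
        CfsgLib.GeoTensor.pure e P a ((u + v) + c • u) + CfsgLib.GeoTensor.pure e P b (c • u) := by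
      rw [hgv, CfsgLib.UGeom.form_add_right C, hf, hf, haa, hab, hf₂.add_left, huu, hvu, add_zero, one_mul, mul_one,
        zero_mul, mul_zero, add_zero, smul_add]
      simp only [CfsgLib.GeoTensor.pure_add_right, CfsgLib.GeoTensor.pure_smul_right]
      abel
    have hA : A (CfsgLib.GeoTensor.pure e P a (u + v)) := ⟨_, Or.inl rfl⟩
    rw [e1] at h
    by_cases hAg : A (CfsgLib.GeoTensor.pure e P a ((u + v) + c • u) + CfsgLib.GeoTensor.pure e P b (c • u))
    swap
    · simp [Φ, hA, hAg] at h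
    have hind : ∀ y z, CfsgLib.GeoTensor.pure e P a y = CfsgLib.GeoTensor.pure e P b z → y = 0 ∧ z = 0 := by
      intro y z hyz
      have h1 : y = 0 := by
        by_contra hy
        obtain ⟨w, hw⟩ := (hf₂.nondegenerate y hy).2
        have := hf a y a w
        rw [hyz, hf, hba, haa, zero_mul, mul_zero, one_mul] at this
        exact mul_ne_zero hc hw this.symm
      refine ⟨h1, ?_⟩
      rw [h1, CfsgLib.GeoTensor.pure_zero_right] at hyz
      by_contra hz
      exact CfsgLib.GeoTensor.pure_ne_zero hb0 hz hyz.symm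
    obtain ⟨z, hz | hz⟩ := hAg
    · have h5 := hind (z - ((u + v) + c • u)) (c • u) (by
        have hsub : CfsgLib.GeoTensor.pure e P a (z - ((u + v) + c • u)) =
            CfsgLib.GeoTensor.pure e P a z - CfsgLib.GeoTensor.pure e P a ((u + v) + c • u) := by
          rw [eq_sub_iff_add_eq, ← CfsgLib.GeoTensor.pure_add_right, sub_add_cancel]
        rw [hsub, ← hz, add_sub_cancel_left])
      exact smul_ne_zero hc hu0 h5.2
    · have h5 := hind ((u + v) + c • u) (z - c • u) (by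
        have hsub : CfsgLib.GeoTensor.pure e P b (z - c • u) =
            CfsgLib.GeoTensor.pure e P b z - CfsgLib.GeoTensor.pure e P b (c • u) := by
          rw [eq_sub_iff_add_eq, ← CfsgLib.GeoTensor.pure_add_right, sub_add_cancel]
        rw [hsub, ← hz, add_sub_cancel_right])
      have h6 := congrArg (fun w => f₂ w v) h5.1
      simp only [hf₂.add_left, hf₂.smul_left, huv, mul_zero, add_zero, zero_add] at h6
      -- `v` is not orthogonal to everything, hence `v + (1 + c) u` is non-zero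
      have h7 : v = (-(1 + c)) • u := by linear_combination (norm := module) h5.1
      have h8 := hvu
      rw [h7, hf₂.smul_left, huu, mul_one] at h8
      exact hv0 (by rw [h7, h8, zero_smul])

end Cfsg.Agent.S5671
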