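import Cfsg.Statements.S5674
import Cfsg.Agent.GeoLib.OmegaParabolic

set_option autoImplicit false
open Cfsg

namespace Cfsg.Agent.S5674

/-- Let F be a finite field of odd order, m ≥ 6, Q the standard quadratic form x₀² + Σ x_i y_i on F^(2m+1) and Ω the commutator subgroup of its isometry group inside GL_(2m+1)(F). The elements of Ω stabilising a non-zero subspace on which Q vanishes form a maximal subgroup of Ω. -/
theorem result {F : Type*} [Field F] [Fintype F] (hodd : Odd (Fintype.card F)) (m : ℕ) (hm : 6 ≤ m) (W : Submodule F (Unit ⊕ (Fin m ⊕ Fin m) → F)) (hW0 : W ≠ ⊥) (hW : Cfsg.Geo.IsTotallySingularQuad (Cfsg.quadFormOdd m F) W) : Cfsg.Geo.IsMaximalIn (Cfsg.Geo.omegaGL (Cfsg.quadFormOdd m F)) (Cfsg.Geo.subspaceStabilizer W ⊓ Cfsg.Geo.omegaGL (Cfsg.quadFormOdd m F)) := by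
  rw [← CfsgLib.Forms.coe_quadOdd] at hW ⊢
  have h2 : (2 : F) ≠ 0 := by
    have h : ringChar F ≠ 2 := by
      rw [Ne, FiniteField.even_card_iff_char_two, Nat.odd_iff.1 hodd]
      exact one_ne_zero
    exact Ring.two_ne_zero h
  have hnd := CfsgLib.Forms.nondegenerate_quadOdd (F := F) m h2
  have hcard : Fintype.card (Unit ⊕ (Fin m ⊕ Fin m)) = 2 * m + 1 := by simp; omega
  refine CfsgLib.GeoOrth.maximal_singular hnd (by rw [hcard]; omega) hW0 hW ?_
  have hle := CfsgLib.Forms.two_finrank_le_of_singular hnd hW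
  rw [Module.finrank_fintype_fun_eq_card, hcard] at hle
  by_cases hd : Module.finrank F W = m
  · refine Or.inl fun x hx hxx => by_contra fun hxW => ?_
    have hs : ∀ y ∈ W ⊔ Submodule.span F {x}, (CfsgLib.Forms.quadOdd F m) y = 0 := by
      intro y hy
      obtain ⟨w, hw, z, hz, rfl⟩ := Submodule.mem_sup.1 hy
      obtain ⟨c, rfl⟩ := Submodule.mem_span_singleton.1 hz
      rw [CfsgLib.Forms.map_add_smul, hW w hw, hxx, QuadraticMap.polar_comm, CfsgLib.Forms.mem_perp.1 hx w hw]; ring
    have h := CfsgLib.Forms.two_finrank_le_of_singular hnd hs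
    have hlt := Submodule.finrank_lt_finrank_of_lt (lt_of_le_of_ne (le_sup_left (b := Submodule.span F {x}))
      fun e => hxW (e.ge (Submodule.mem_sup_right (Submodule.mem_span_singleton_self x))))
    rw [Module.finrank_fintype_fun_eq_card, hcard] at h
    omega
  · exact Or.inr (by rw [hcard]; omega)

end Cfsg.Agent.S5674
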