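import Cfsg.Statements.S5675
import Cfsg.Agent.GeoLib.OmegaSplitMax

set_option autoImplicit false
open Cfsg

namespace Cfsg.Agent.S5675

/-- Let F be a finite field of odd order q, m ≥ 6, Q the standard quadratic form on F^(2m+1) and Ω the commutator subgroup of its isometry group. Let W be a non-zero subspace of even dimension on which the polar form of Q is non-degenerate; exclude the case q = 3, dim W = 2 with Q vanishing on some line of W (a plus-type plane). Then the elements of Ω stabilising W (equivalently, stabilising its orthogonal complement, of odd dimension) form a maximal subgroup of Ω. -/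
theorem result {F : Type*} [Field F] [Fintype F] (hodd : Odd (Fintype.card F)) (m : ℕ) (hm : 6 ≤ m) (W : Submodule F (Unit ⊕ (Fin m ⊕ Fin m) → F)) (hW0 : W ≠ ⊥) (hev : Even (Module.finrank F W)) (hW : Cfsg.Geo.IsNondegenerateOn (QuadraticMap.polar (Cfsg.quadFormOdd m F)) W) (hex : ¬ (Fintype.card F = 3 ∧ Module.finrank F W = 2 ∧ Cfsg.Geo.IsPlusTypeOn (Cfsg.quadFormOdd m F) W)) : Cfsg.Geo.IsMaximalIn (Cfsg.Geo.omegaGL (Cfsg.quadFormOdd m F)) (Cfsg.Geo.subspaceStabilizer W ⊓ Cfsg.Geo.omegaGL (Cfsg.quadFormOdd m F)) := by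
  rw [← CfsgLib.Forms.coe_quadOdd] at hW hex ⊢
  have h2 : (2 : F) ≠ 0 := by
    have h : ringChar F ≠ 2 := by
      rw [Ne, FiniteField.even_card_iff_char_two, Nat.odd_iff.1 hodd]
      exact one_ne_zero
    exact Ring.two_ne_zero h
  have hnd := CfsgLib.Forms.nondegenerate_quadOdd (F := F) m h2
  have hcard : Fintype.card (Unit ⊕ (Fin m ⊕ Fin m)) = 2 * m + 1 := by simp; omega
  obtain ⟨r, hr⟩ := hev
  have hS := CfsgLib.GeoOrth.exists_split hnd hW
  have hsum := Submodule.finrank_add_eq_of_isCompl hS.compl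
  rw [Module.finrank_fintype_fun_eq_card, hcard] at hsum
  refine CfsgLib.GeoOrth.maximal_nondeg hnd (by rw [hcard]; omega) hW0 (fun h => ?_) hW
    (Or.inl (by rw [hcard]; omega)) ?_
  · rw [h, finrank_top, Module.finrank_fintype_fun_eq_card, hcard] at hr
    omega
  rintro X (rfl | rfl) hX ⟨e, he, he0, hee⟩
  · by_contra hlt
    refine hex ⟨?_, hX, Submodule.span F {e}, (Submodule.span_singleton_le_iff_mem _ _).2 he, fun z hz => ?_, ?_⟩
    · have := Fintype.one_lt_card (α := F)
      rw [Nat.card_eq_fintype_card] at hlt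
      obtain ⟨s, hs⟩ := hodd
      omega
    · obtain ⟨c, rfl⟩ := Submodule.mem_span_singleton.1 hz
      rw [QuadraticMap.map_smul, hee, smul_zero]
    · rw [finrank_span_singleton he0, hX]
  · omega

end Cfsg.Agent.S5675
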