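import Cfsg.Statements.S5677
import Cfsg.Agent.OrthBlock.Top
-- import your own Cfsg.Agent.* helpers here

set_option autoImplicit false
open Cfsg

namespace Cfsg.Agent.S5677

/-- Let F be a finite field of odd order q, m ≥ 6, Q the standard quadratic form on F^(2m+1) and Ω the commutator subgroup of its isometry group. Let D be a decomposition of F^(2m+1) into t ≥ 2 pairwise orthogonal, pairwise Q-isometric subspaces of equal dimension k > 1 on which the polar form is non-degenerate. Unless q = 3 and k = 3, the elements of Ω permuting the members of D form a maximal subgroup of Ω. -/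
theorem result {F : Type*} [Field F] [Fintype F] (hodd : Odd (Fintype.card F)) (m : ℕ) (hm : 6 ≤ m) {t : ℕ} (k : ℕ) (hk : 1 < k) (D : Fin t → Submodule F (Unit ⊕ (Fin m ⊕ Fin m) → F)) (hD : Cfsg.Geo.IsOrthogonalMDecomposition (Cfsg.quadFormOdd m F) k D) (hex : ¬ (Fintype.card F = 3 ∧ k = 3)) : Cfsg.Geo.IsMaximalIn (Cfsg.Geo.omegaGL (Cfsg.quadFormOdd m F)) (Cfsg.Geo.decompositionStabilizer D ⊓ Cfsg.Geo.omegaGL (Cfsg.quadFormOdd m F)) := by
  classical
  have h2 : (2 : F) ≠ 0 := by
    intro h
    have : CharP F 2 := ringChar.of_eq (ringChar.eq_iff.2 (CharTwo.of_one_ne_zero_of_two_eq_zero one_ne_zero h))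
    exact absurd hodd (Nat.not_odd_iff.2 (FiniteField.even_card_iff_char_two.1 (ringChar.eq F 2)))
  rw [← CfsgLib.Forms.coe_quadOdd] at hD ⊢
  have hcard : 2 * m + 1 = t * k := by
    have hint : DirectSum.IsInternal D :=
      DirectSum.isInternal_submodule_of_iSupIndep_of_iSup_eq_top hD.decomp.decomp.indep hD.decomp.decomp.iSup_eq_top
    have h1 : Module.finrank F (Unit ⊕ (Fin m ⊕ Fin m) → F) = ∑ i, Module.finrank F (D i) := by
      rw [← Module.finrank_directSum]
      exact (LinearEquiv.ofBijective (DirectSum.coeLinearMap D) hint).finrank_eq.symm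
    simp [hD.decomp.decomp.finrank_eq] at h1
    omega
  have hko : Odd k := (Nat.odd_mul.1 (hcard ▸ odd_two_mul_add_one m)).2
  obtain ⟨r, hr⟩ := hko
  obtain ⟨s, hs⟩ := hodd
  have hcF : Nat.card F = Fintype.card F := Nat.card_eq_fintype_card
  have hF1 := Fintype.one_lt_card (α := F)
  refine CfsgLib.OrthBlock.maximal_orthDecomp (CfsgLib.Forms.nondegenerate_quadOdd (F := F) m h2) (by simp; omega) h2
    hD (by omega) ?_
  by_contra h
  push Not at h
  exact hex ⟨by omega, by omega⟩

end Cfsg.Agent.S5677
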