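import Cfsg.Statements.S5686
import Cfsg.Agent.Forms.GeoBridge

set_option autoImplicit false
open Cfsg

namespace Cfsg.Agent.S5686

/-- Let F be a finite field with q elements, n ≥ 13 even, Q a non-degenerate quadratic form on F^n of plus type (some subspace of dimension n/2 is totally singular), and Ω the commutator subgroup of the isometry group of Q, viewed inside GL_n(F). The elements of Ω stabilising a subspace of dimension n/2 − 1 on which Q vanishes form a subgroup that is not maximal: some subgroup lies strictly between it and Ω. -/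
theorem result {F : Type*} [Field F] [Fintype F] {n : ℕ} (hn : 13 ≤ n) (heven : Even n) (Q : (Fin n → F) → F) (hQ : Cfsg.Geo.IsNondegenerateQuadraticForm Q) (hplus : Cfsg.Geo.IsPlusTypeOn Q ⊤) (W : Submodule F (Fin n → F)) (hW : Cfsg.Geo.IsTotallySingularQuad Q W) (hdim : 2 * (Module.finrank F W + 1) = n) : ∃ K : Subgroup (Matrix.GeneralLinearGroup (Fin n) F), Cfsg.Geo.subspaceStabilizer W ⊓ Cfsg.Geo.omegaGL Q < K ∧ K < Cfsg.Geo.omegaGL Q := by
  obtain ⟨Q, rfl, hnd⟩ := CfsgLib.Forms.exists_quadForm hQ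
  have hV : Module.finrank F (Fin n → F) = n := Module.finrank_fin_fun F
  have hcd : Nat.card F ≠ 2 ∨ Fintype.card (Fin n) ≠ 4 := Or.inr (by simp; omega)
  obtain ⟨U0, -, hU0s, hU0d⟩ := hplus
  rw [finrank_top, hV] at hU0d
  have hU0 : CfsgLib.Forms.IsMaxSingular Q U0 := ⟨by rw [hV]; exact hU0d, hU0s⟩
  -- a maximal totally singular subspace over `W`
  have hcount := CfsgLib.Forms.finrank_inf_perp hnd (H := W) hU0
  obtain ⟨z, ⟨hzU, hzW⟩, hzW'⟩ : ∃ z ∈ U0 ⊓ CfsgLib.Forms.perp Q W, z ∉ W := by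
    by_contra hall
    push Not at hall
    have h1 : U0 ⊓ CfsgLib.Forms.perp Q W ≤ U0 ⊓ W := fun z hz => ⟨hz.1, hall z hz⟩
    have := Submodule.finrank_mono h1
    omega
  set U := W ⊔ Submodule.span F {z}
  have hUs : ∀ u ∈ U, Q u = 0 := by
    intro u hu
    obtain ⟨w, hw, y, hy, rfl⟩ := Submodule.mem_sup.1 hu
    obtain ⟨c, rfl⟩ := Submodule.mem_span_singleton.1 hy
    have hp : QuadraticMap.polar Q w z = 0 := by
      rw [QuadraticMap.polar_comm]; exact CfsgLib.Forms.mem_perp.1 hzW w hw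
    rw [CfsgLib.Forms.map_add_smul, hW w hw, hU0s z hzU, hp]; ring
  have hzU' : z ∈ U := Submodule.mem_sup_right (Submodule.mem_span_singleton_self z)
  have hlt : W < U := lt_of_le_of_ne le_sup_left fun h => hzW' (h ▸ hzU')
  have h2U := CfsgLib.Forms.two_finrank_le_of_singular hnd hUs
  have hUdim := Submodule.finrank_lt_finrank_of_lt hlt
  rw [hV] at h2U
  have hU : CfsgLib.Forms.IsMaxSingular Q U := ⟨by rw [hV]; omega, hUs⟩
  refine ⟨Cfsg.Geo.subspaceStabilizer U ⊓ Cfsg.Geo.omegaGL ⇑Q, ⟨?_, ?_⟩, ⟨inf_le_right, ?_⟩⟩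
  · rintro g ⟨hgW, hgO⟩
    refine ⟨?_, hgO⟩
    obtain ⟨hmax, hpar⟩ := CfsgLib.Forms.omega_map_parity hnd hcd hgO hU
    show g ∈ Cfsg.Geo.subspaceStabilizer U
    rw [CfsgLib.Forms.mem_subspaceStabilizer]
    have hgW' := CfsgLib.Forms.mem_subspaceStabilizer.1 hgW
    have hWle : W ≤ U ⊓ U.map (CfsgLib.Forms.glEquiv g : (Fin n → F) →ₗ[F] (Fin n → F)) :=
      le_inf le_sup_left (hgW'.symm.le.trans (Submodule.map_mono le_sup_left))
    have h3 := Submodule.finrank_mono hWle
    have h4 : Module.finrank F ↥(U ⊓ U.map (CfsgLib.Forms.glEquiv g : (Fin n → F) →ₗ[F] (Fin n → F))) ≤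
        Module.finrank F U := Submodule.finrank_mono inf_le_left
    have h5 := hmax.1
    have h6 := hU.1
    rw [hV] at h5 h6
    have e1 := Submodule.eq_of_le_of_finrank_le (inf_le_left (a := U)
      (b := U.map (CfsgLib.Forms.glEquiv g : (Fin n → F) →ₗ[F] (Fin n → F)))) (by omega)
    exact (Submodule.eq_of_le_of_finrank_le (e1.symm.le.trans inf_le_right) (by omega)).symm
  · intro hle
    obtain ⟨w, hw, hw0⟩ := W.exists_mem_ne_zero_of_ne_bot fun h => by
      rw [h, finrank_bot] at hdim; omega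
    obtain ⟨g, hgO, hgW, -, hgY⟩ := CfsgLib.Forms.exists_omega_not_mem hnd (by simp; omega) (d := z)
      (hU0s z hzU) (CfsgLib.Forms.polar_eq_zero_of_singular hUs (le_sup_left (a := W) hw) hzU') hw hw0 hzW'
    exact hgW (hle ⟨hgY U hzU' fun y hy => CfsgLib.Forms.polar_eq_zero_of_singular hUs hy hzU', hgO⟩).1
  · intro hle
    obtain ⟨d, v, hd, hdU, hv, hv0, hvd⟩ := CfsgLib.Forms.exists_singular_outside hnd (by simp; omega) hU
    obtain ⟨g, hgO, hgU, -, -⟩ := CfsgLib.Forms.exists_omega_not_mem hnd (by simp; omega) hd hvd hv hv0 hdU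
    exact hgU (hle hgO).1

end Cfsg.Agent.S5686
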