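import Cfsg.Statements.S5687
import Cfsg.Agent.GeoLib.OmegaParabolic

set_option autoImplicit false
open Cfsg

namespace Cfsg.Agent.S5687

/-- Let F be a finite field with q elements, n ≥ 13 even, Q a non-degenerate quadratic form on F^n of minus type (no subspace of dimension n/2 is totally singular), and Ω the commutator subgroup of the isometry group of Q, viewed inside GL_n(F). The elements of Ω stabilising a non-zero subspace on which Q vanishes form a maximal subgroup of Ω. -/
theorem result {F : Type*} [Field F] [Fintype F] {n : ℕ} (hn : 13 ≤ n) (heven : Even n) (Q : (Fin n → F) → F) (hQ : Cfsg.Geo.IsNondegenerateQuadraticForm Q) (hminus : ¬ Cfsg.Geo.IsPlusTypeOn Q ⊤) (W : Submodule F (Fin n → F)) (hW0 : W ≠ ⊥) (hW : Cfsg.Geo.IsTotallySingularQuad Q W) : Cfsg.Geo.IsMaximalIn (Cfsg.Geo.omegaGL Q) (Cfsg.Geo.subspaceStabilizer W ⊓ Cfsg.Geo.omegaGL Q) := by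
  obtain ⟨Q, rfl, hnd⟩ := CfsgLib.Forms.exists_quadForm hQ
  have hV : Module.finrank F (Fin n → F) = n := Module.finrank_fin_fun F
  have hcard : Fintype.card (Fin n) = n := Fintype.card_fin n
  refine CfsgLib.GeoOrth.maximal_singular hnd (by rw [hcard]; exact hn) hW0 hW ?_
  have hhalf : ∀ X : Submodule F (Fin n → F), (∀ y ∈ X, Q y = 0) → 2 * Module.finrank F X + 2 ≤ n := by
    intro X hX
    have hle := CfsgLib.Forms.two_finrank_le_of_singular hnd hX
    rw [hV] at hle
    have hne : 2 * Module.finrank F X ≠ n := fun h => hminus ⟨X, le_top, hX, by rw [h, finrank_top, hV]⟩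
    obtain ⟨r, hr⟩ := heven
    omega
  have hle := hhalf W hW
  by_cases hd : 2 * Module.finrank F W + 2 = n
  · refine Or.inl fun x hx hxx => by_contra fun hxW => ?_
    have h := hhalf (W ⊔ Submodule.span F {x}) (by
      intro y hy
      obtain ⟨w, hw, z, hz, rfl⟩ := Submodule.mem_sup.1 hy
      obtain ⟨c, rfl⟩ := Submodule.mem_span_singleton.1 hz
      rw [CfsgLib.Forms.map_add_smul, hW w hw, hxx, QuadraticMap.polar_comm, CfsgLib.Forms.mem_perp.1 hx w hw]; ring)
    have hlt := Submodule.finrank_lt_finrank_of_lt (lt_of_le_of_ne (le_sup_left (b := Submodule.span F {x}))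
      fun e => hxW (e.ge (Submodule.mem_sup_right (Submodule.mem_span_singleton_self x))))
    omega
  · exact Or.inr (by rw [hcard]; obtain ⟨r, hr⟩ := heven; omega)

end Cfsg.Agent.S5687
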