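import Cfsg.Statements.S5688
import Cfsg.Agent.GeoLib.OmegaSplitMax

set_option autoImplicit false
open Cfsg

namespace Cfsg.Agent.S5688

/-- Let F be a finite field with q elements, n ≥ 13 even, Q a non-degenerate quadratic form on F^n of plus type (some subspace of dimension n/2 is totally singular), and Ω the commutator subgroup of the isometry group of Q, viewed inside GL_n(F). Let W be a non-zero proper subspace with dim W ≠ n/2 on which the polar form of Q is non-degenerate. Exclude the case q ≤ 3 in which W, or its orthogonal complement, is a plane containing a line on which Q vanishes. Then the elements of Ω stabilising W form a maximal subgroup of Ω. -/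
theorem result {F : Type*} [Field F] [Fintype F] {n : ℕ} (hn : 13 ≤ n) (heven : Even n) (Q : (Fin n → F) → F) (hQ : Cfsg.Geo.IsNondegenerateQuadraticForm Q) (hplus : Cfsg.Geo.IsPlusTypeOn Q ⊤) (W : Submodule F (Fin n → F)) (hW0 : W ≠ ⊥) (hW1 : W ≠ ⊤) (hdim : 2 * Module.finrank F W ≠ n) (hW : Cfsg.Geo.IsNondegenerateOn (QuadraticMap.polar Q) W) (hex : ¬ (Fintype.card F ≤ 3 ∧ (∃ U : Submodule F (Fin n → F), Module.finrank F U = 2 ∧ Cfsg.Geo.IsNondegenerateOn (QuadraticMap.polar Q) U ∧ Cfsg.Geo.IsPlusTypeOn Q U ∧ (U = W ∨ (Cfsg.Geo.AreOrthogonalFor (QuadraticMap.polar Q) U W ∧ Module.finrank F U + Module.finrank F W = n))))) : Cfsg.Geo.IsMaximalIn (Cfsg.Geo.omegaGL Q) (Cfsg.Geo.subspaceStabilizer W ⊓ Cfsg.Geo.omegaGL Q) := by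
  obtain ⟨Q, rfl, hnd⟩ := CfsgLib.Forms.exists_quadForm hQ
  have hS := CfsgLib.GeoOrth.exists_split hnd hW
  have hsum := Submodule.finrank_add_eq_of_isCompl hS.compl
  rw [Module.finrank_fin_fun] at hsum
  refine CfsgLib.GeoOrth.maximal_nondeg hnd (by simpa using hn) hW0 hW1 hW (Or.inl (by simpa using hdim)) ?_
  rintro X hXeq hX ⟨e, he, he0, hee⟩
  by_contra hlt
  rw [Nat.card_eq_fintype_card] at hlt
  refine hex ⟨by omega, X, hX, ?_, ⟨Submodule.span F {e}, (Submodule.span_singleton_le_iff_mem _ _).2 he,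
    fun z hz => ?_, by rw [finrank_span_singleton he0, hX]⟩, ?_⟩
  · rcases hXeq with rfl | rfl
    · exact hW
    · intro x hx hx0
      have : ¬ ∀ y ∈ CfsgLib.Forms.perp Q W, QuadraticMap.polar Q x y = 0 := fun h => hx0 (hS.eq_zero hnd hx h)
      push Not at this
      obtain ⟨y, hy, hxy⟩ := this
      exact ⟨⟨y, hy, by rwa [QuadraticMap.polar_comm]⟩, y, hy, hxy⟩
  · obtain ⟨c, rfl⟩ := Submodule.mem_span_singleton.1 hz
    rw [QuadraticMap.map_smul, hee, smul_zero]
  · rcases hXeq with rfl | rfl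
    · exact Or.inl rfl
    · exact Or.inr ⟨fun u hu v hv => CfsgLib.Forms.mem_perp.1 hu v hv, by omega⟩

end Cfsg.Agent.S5688
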