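import Cfsg.Statements.S5689
import Cfsg.Agent.GeoLib.OmegaSplitMax
import Cfsg.Agent.Forms.EvenType

set_option autoImplicit false
open Cfsg

namespace Cfsg.Agent.S5689

/-- Let F be a finite field with q elements, n ≥ 13 even, Q a non-degenerate quadratic form on F^n of minus type (no subspace of dimension n/2 is totally singular), and Ω the commutator subgroup of the isometry group of Q, viewed inside GL_n(F). Let W be a non-zero proper subspace on which the polar form of Q is non-degenerate, not of odd dimension n/2. Exclude the case q ≤ 3 in which W, or its orthogonal complement, is a plane containing a line on which Q vanishes. Then the elements of Ω stabilising W form a maximal subgroup of Ω. -/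
theorem result {F : Type*} [Field F] [Fintype F] {n : ℕ} (hn : 13 ≤ n) (heven : Even n) (Q : (Fin n → F) → F) (hQ : Cfsg.Geo.IsNondegenerateQuadraticForm Q) (hminus : ¬ Cfsg.Geo.IsPlusTypeOn Q ⊤) (W : Submodule F (Fin n → F)) (hW0 : W ≠ ⊥) (hW1 : W ≠ ⊤) (hdim : ¬ (2 * Module.finrank F W = n ∧ Odd (Module.finrank F W))) (hW : Cfsg.Geo.IsNondegenerateOn (QuadraticMap.polar Q) W) (hex : ¬ (Fintype.card F ≤ 3 ∧ (∃ U : Submodule F (Fin n → F), Module.finrank F U = 2 ∧ Cfsg.Geo.IsNondegenerateOn (QuadraticMap.polar Q) U ∧ Cfsg.Geo.IsPlusTypeOn Q U ∧ (U = W ∨ (Cfsg.Geo.AreOrthogonalFor (QuadraticMap.polar Q) U W ∧ Module.finrank F U + Module.finrank F W = n))))) : Cfsg.Geo.IsMaximalIn (Cfsg.Geo.omegaGL Q) (Cfsg.Geo.subspaceStabilizer W ⊓ Cfsg.Geo.omegaGL Q) := by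
  obtain ⟨Q, rfl, hnd⟩ := CfsgLib.Forms.exists_quadForm hQ
  have hS := CfsgLib.GeoOrth.exists_split hnd hW
  have hsum := Submodule.finrank_add_eq_of_isCompl hS.compl
  rw [Module.finrank_fin_fun] at hsum
  refine CfsgLib.GeoOrth.maximal_nondeg hnd (by simpa using hn) hW0 hW1 hW ?_ ?_
  · by_cases hd : 2 * Module.finrank F W = n
    swap
    · exact Or.inl (by simpa using hd)
    refine Or.inr fun g hg hgW => hminus ?_
    have hk : Even (Module.finrank F W) := Nat.not_odd_iff_even.1 fun h => hdim ⟨hd, h⟩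
    obtain ⟨m, hm⟩ := hk
    have hm1 : 1 ≤ m := Nat.one_le_iff_ne_zero.2 fun h => hW0 (by
      rw [← Submodule.finrank_eq_zero, hm, h])
    have hm2 : Module.finrank F W = 2 * m := by omega
    let QW := Q.comp W.subtype
    have hQW : (QuadraticMap.polarBilin QW).Nondegenerate :=
      CfsgLib.Forms.nondegenerate_comp_subtype hS.compl.disjoint
    have hQW' : (QuadraticMap.polarBilin (-QW)).Nondegenerate := CfsgLib.Forms.nondegenerate_iff.2 fun x hx =>
      CfsgLib.Forms.polar_ext hQW fun y => by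
        have h := hx y
        rwa [show ⇑(-QW) = -⇑QW from rfl, QuadraticMap.polar_neg, neg_eq_zero] at h
    obtain ⟨f, hf⟩ : ∃ f : W ≃ₗ[F] W, ∀ w, QW (f w) = -QW w := by
      by_cases hp : ∃ S : Submodule F W, (∀ v ∈ S, QW v = 0) ∧ m ≤ Module.finrank F S
      · obtain ⟨S, hS0, hSd⟩ := hp
        obtain ⟨g1, hg1⟩ := CfsgLib.Forms.exists_isometry_plus hm1 hm2 hQW S hS0 hSd
        obtain ⟨g2, hg2⟩ := CfsgLib.Forms.exists_isometry_plus hm1 hm2 hQW' S
          (fun v hv => by rw [QuadraticMap.neg_apply, hS0 v hv, neg_zero]) hSd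
        exact ⟨g2.trans g1.symm, fun w => by
          rw [← hg1, LinearEquiv.trans_apply, LinearEquiv.apply_symm_apply, hg2, QuadraticMap.neg_apply]⟩
      · rcases CfsgLib.Forms.exists_singular_or_elliptic hm1 hm2 hQW with ⟨e, h0, hp'⟩ | ⟨c, hc, -⟩
        · exact absurd (CfsgLib.Forms.not_singular_half e h0 hp') hp
        have hab := CfsgLib.Forms.anis_of_irred hc
        obtain ⟨g1, hg1⟩ := CfsgLib.Forms.exists_isometry_minus hm1 hm2 hQW hp hab
        obtain ⟨g2, hg2⟩ := CfsgLib.Forms.exists_isometry_minus hm1 hm2 hQW' (fun ⟨S, hS0, hSd⟩ => hp ⟨S,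
          fun v hv => by have h := hS0 v hv; rwa [QuadraticMap.neg_apply, neg_eq_zero] at h, hSd⟩) hab
        exact ⟨g2.trans g1.symm, fun w => by
          rw [← hg1, LinearEquiv.trans_apply, LinearEquiv.apply_symm_apply, hg2, QuadraticMap.neg_apply]⟩
    let L : W →ₗ[F] (Fin n → F) :=
      W.subtype + (Matrix.toLin' (g : Matrix (Fin n) (Fin n) F)) ∘ₗ W.subtype ∘ₗ f.toLinearMap
    have hL : ∀ w : W, L w = (w : Fin n → F) + (g : Matrix (Fin n) (Fin n) F).mulVec (f w : Fin n → F) :=
      fun w => rfl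
    have hLi : Function.Injective L := (injective_iff_map_eq_zero L).2 fun w hw => by
      rw [hL] at hw
      refine Subtype.ext (Submodule.disjoint_def.1 hS.compl.disjoint _ w.2 ?_)
      rw [eq_neg_of_add_eq_zero_left hw]
      exact neg_mem (hgW _ (f w).2)
    refine ⟨LinearMap.range L, le_top, ?_, ?_⟩
    · rintro _ ⟨w, rfl⟩
      have h1 : Q (f w : Fin n → F) = -Q (w : Fin n → F) := hf w
      rw [hL, QuadraticMap.map_add (⇑Q), (CfsgLib.GeoOrth.polar_omega hg).1, h1,
        hS.orth _ w.2 _ (hgW _ (f w).2)]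
      ring
    · rw [LinearMap.finrank_range_of_inj hLi, finrank_top, Module.finrank_fin_fun]
      exact hd
  rintro X hXeq hX ⟨e, he, he0, hee⟩
  by_contra hlt
  rw [Nat.card_eq_fintype_card] at hlt
  refine hex ⟨by omega, X, hX, ?_, ⟨Submodule.span F {e}, (Submodule.span_singleton_le_iff_mem _ _).2 he,
    fun z hz => ?_, by rw [finrank_span_singleton he0, hX]⟩, ?_⟩
  · rcases hXeq with rfl | rfl
    · exact hW
    · intro x hx hx0
      have : ¬ ∀ y ∈ CfsgLib.Forms.perp Q W, QuadraticMap.polar Q x y = 0 := fun h => hx0 (hS.eq_zero hnd hx h)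
      push Not at this
      obtain ⟨y, hy, hxy⟩ := this
      exact ⟨⟨y, hy, by rwa [QuadraticMap.polar_comm]⟩, y, hy, hxy⟩
  · obtain ⟨c, rfl⟩ := Submodule.mem_span_singleton.1 hz
    rw [QuadraticMap.map_smul, hee, smul_zero]
  · rcases hXeq with rfl | rfl
    · exact Or.inl rfl
    · exact Or.inr ⟨fun u hu v hv => CfsgLib.Forms.mem_perp.1 hu v hv, by omega⟩

end Cfsg.Agent.S5689
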