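import Cfsg.Statements.S5691
import Cfsg.Agent.GeoLib.OmegaParabolic

set_option autoImplicit false
open Cfsg

namespace Cfsg.Agent.S5691

/-- Let F be a finite field with q elements, n ≥ 13 even, Q a non-degenerate quadratic form on F^n (of either type), and Ω the commutator subgroup of the isometry group of Q, viewed inside GL_n(F). Suppose q is even and v is a vector with Q(v) ≠ 0. Then the elements of Ω stabilising the line spanned by v form a maximal subgroup of Ω. -/
theorem result {F : Type*} [Field F] [Fintype F] {n : ℕ} (hn : 13 ≤ n) (heven : Even n) (Q : (Fin n → F) → F) (hQ : Cfsg.Geo.IsNondegenerateQuadraticForm Q) (hchar : ¬ Odd (Fintype.card F)) (v : (Fin n → F)) (hv : Q v ≠ 0) : Cfsg.Geo.IsMaximalIn (Cfsg.Geo.omegaGL Q) (Cfsg.Geo.subspaceStabilizer (Submodule.span F {v}) ⊓ Cfsg.Geo.omegaGL Q) := by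
  obtain ⟨Q, rfl, hnd⟩ := CfsgLib.Forms.exists_quadForm hQ
  have hn5 : 5 ≤ Fintype.card (Fin n) := by simp; omega
  have h2 : (2 : F) = 0 := by
    have h : ringChar F = 2 := FiniteField.even_card_iff_char_two.2 (Nat.not_odd_iff.1 hchar)
    haveI : CharP F 2 := ringChar.of_eq h
    exact CharTwo.two_eq_zero
  have hv0 : v ≠ 0 := fun h => hv (by rw [h, QuadraticMap.map_zero])
  have hvv : QuadraticMap.polar Q v v = 0 := by
    rw [QuadraticMap.polar_self, nsmul_eq_mul, Nat.cast_ofNat, h2, zero_mul]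
  refine ⟨lt_of_le_not_ge inf_le_right fun hge => ?_, fun M hGM hMS => ?_⟩
  · -- a partner of an orthogonal singular vector
    obtain ⟨e, he, hee, -⟩ := CfsgLib.GeoOrth.exists_singular_out hnd (⊥ : Submodule F (Fin n → F)) (by simp; omega)
    obtain ⟨d, -, hdd, hvd⟩ : ∃ d, True ∧ Q d = 0 ∧ QuadraticMap.polar Q v d ≠ 0 := by
      obtain ⟨e', -, h1, h2⟩ := CfsgLib.GeoOrth.exists_singular_ne hnd (U := ⊥) (by simp; omega) (a := v)
        (by simpa using hv0)
      exact ⟨e', trivial, h1, h2⟩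
    obtain ⟨a, ha, hda, hva⟩ := CfsgLib.GeoOrth.exists_aniso₂ hnd hn5 d v
    obtain ⟨g, hg, hgv⟩ := CfsgLib.GeoOrth.exists_isSiegel hnd hn5 hdd hda
    have h := ((hge hg).1 v).1 (Submodule.mem_span_singleton_self v)
    change (g : Matrix (Fin n) (Fin n) F).mulVec v ∈ Submodule.span F {v} at h
    obtain ⟨c, hc⟩ := Submodule.mem_span_singleton.1 h
    have h' := congrArg (QuadraticMap.polar Q v) hc
    rw [hgv, QuadraticMap.polar_smul_right, QuadraticMap.polar_sub_right, QuadraticMap.polar_add_right,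
      QuadraticMap.polar_smul_right, QuadraticMap.polar_smul_right, QuadraticMap.polar_comm Q a v, hva, hvv,
      QuadraticMap.polar_comm Q d v] at h'
    simp only [smul_eq_mul, mul_zero, zero_add, zero_sub, sub_zero] at h'
    exact mul_ne_zero (mul_ne_zero ha hvd) hvd (by linear_combination h')
  by_cases hle' : M ≤ Cfsg.Geo.subspaceStabilizer (Submodule.span F {v})
  · exact Or.inl (le_antisymm (le_inf hle' hMS) hGM)
  refine Or.inr (le_antisymm hMS ?_)
  have hsv : ∀ d a, Q d = 0 → QuadraticMap.polar Q d v = 0 → QuadraticMap.polar Q a v = 0 →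
      QuadraticMap.polar Q d a = 0 → CfsgLib.GeoOrth.SiegelIn Q M d a := by
    intro d a hdd hdv hav hda r hr
    obtain ⟨r', hr', hrv⟩ := CfsgLib.GeoOrth.exists_isSiegel hnd hn5 hdd hda
    refine hGM ⟨CfsgLib.Forms.mem_subspaceStabilizer_of_le fun z hz => ?_, by
      rwa [show r = r' from CfsgLib.GeoFull.gl_ext fun y => by rw [hr, hrv]]⟩
    obtain ⟨c, rfl⟩ := Submodule.mem_span_singleton.1 hz
    rw [hr, QuadraticMap.polar_smul_right, QuadraticMap.polar_smul_right, hdv, hav]
    simpa using Submodule.smul_mem _ c (Submodule.mem_span_singleton_self v)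
  obtain ⟨g, hg, hgn⟩ := SetLike.not_le_iff_exists.1 hle'
  set v' := (g : Matrix (Fin n) (Fin n) F).mulVec v with hv'
  have hgv : v' ∉ Submodule.span F {v} := by
    intro h
    refine hgn (CfsgLib.Forms.mem_subspaceStabilizer_of_le fun z hz => ?_)
    obtain ⟨c, rfl⟩ := Submodule.mem_span_singleton.1 hz
    rw [Matrix.mulVec_smul]
    exact Submodule.smul_mem _ c h
  obtain ⟨d, hd, hdd, hdU⟩ := CfsgLib.GeoOrth.exists_singular_out hnd (Submodule.span F {v, v'}) (by
    have := CfsgLib.GeoOrth.finrank_pair_le (F := F) v v'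
    simp; omega)
  rw [CfsgLib.GeoOrth.mem_perp_pair] at hd
  have hv'v' : QuadraticMap.polar Q d v' = 0 := hd.2
  have hd0 : d ≠ 0 := fun h => hdU (by rw [h]; exact zero_mem _)
  -- the centre `d` is full
  have hfull : CfsgLib.GeoOrth.FullCen Q M d := by
    obtain ⟨f, hf, hvf⟩ := CfsgLib.Forms.exists_polar_eq_one hnd (CfsgLib.GeoOrth.not_mem_span_pair hgv hdU :
      v' ∉ Submodule.span F {v, d})
    rw [CfsgLib.GeoOrth.mem_perp_pair] at hf
    obtain ⟨f₁, hf₁, hvf₁⟩ := CfsgLib.Forms.exists_polar_eq_one hnd (show v ∉ Submodule.span F {d, v'} from fun h => by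
      obtain ⟨s, t, hst⟩ := Submodule.mem_span_pair.1 h
      rcases eq_or_ne s 0 with rfl | hs
      · rw [zero_smul, zero_add] at hst
        rcases eq_or_ne t 0 with rfl | ht
        · exact hv0 (by rw [← hst, zero_smul])
        · exact hgv (Submodule.mem_span_singleton.2 ⟨t⁻¹, by rw [← hst, smul_smul, inv_mul_cancel₀ ht, one_smul]⟩)
      · refine hdU ((Submodule.smul_mem_iff _ hs).1 ?_)
        rw [show s • d = v - t • v' by rw [← hst, add_sub_cancel_right]]
        exact sub_mem (Submodule.subset_span (by simp)) (Submodule.smul_mem _ _ (Submodule.subset_span (by simp))))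
    rw [CfsgLib.GeoOrth.mem_perp_pair] at hf₁
    intro a hda
    -- split `a` along the two hyperplanes
    set b := QuadraticMap.polar Q a v • f₁ with hb
    have hdb : QuadraticMap.polar Q d b = 0 := by
      rw [hb, QuadraticMap.polar_smul_right, QuadraticMap.polar_comm Q d f₁, hf₁.1, smul_zero]
    have hab : QuadraticMap.polar Q d (a - b) = 0 := by rw [QuadraticMap.polar_sub_right, hda, hdb, sub_zero]
    have h1 := hsv d (a - b) hdd hd.1 (by
      rw [QuadraticMap.polar_sub_left, hb, QuadraticMap.polar_smul_left, QuadraticMap.polar_comm Q f₁ v, hvf₁,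
        smul_eq_mul, mul_one, sub_self]) hab
    have hinv : ∀ x, QuadraticMap.polar Q x v' = 0 →
        QuadraticMap.polar Q (((g⁻¹ : Matrix.GeneralLinearGroup (Fin n) F) : Matrix (Fin n) (Fin n) F).mulVec x) v = 0 := by
      intro x hx
      rw [← (CfsgLib.GeoOrth.polar_omega (hMS hg)).2, CfsgLib.GeoFull.mulVec_inv_cancel]
      exact hx
    have h2 := CfsgLib.GeoOrth.siegelIn_map hg (hMS hg)
      (hsv (((g⁻¹ : Matrix.GeneralLinearGroup (Fin n) F) : Matrix (Fin n) (Fin n) F).mulVec d)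
        (((g⁻¹ : Matrix.GeneralLinearGroup (Fin n) F) : Matrix (Fin n) (Fin n) F).mulVec b)
        (by rw [(CfsgLib.GeoOrth.polar_omega (inv_mem (hMS hg))).1, hdd])
        (hinv d hv'v') (hinv b (by rw [hb, QuadraticMap.polar_smul_left, hf₁.2, smul_zero]))
        (by rw [(CfsgLib.GeoOrth.polar_omega (inv_mem (hMS hg))).2, hdb]))
    rw [CfsgLib.GeoFull.mulVec_inv_cancel, CfsgLib.GeoFull.mulVec_inv_cancel] at h2
    have := CfsgLib.GeoOrth.siegelIn_add hnd hn5 hdd hab hdb h1 h2
    rwa [sub_add_cancel] at this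
  -- move it off its orthogonal space
  obtain ⟨d₂, hd₂, hd₂s, hdd₂⟩ := CfsgLib.Forms.exists_partner hnd (U := Submodule.span F {v}) (d := d)
    (CfsgLib.Forms.mem_perp.2 fun u hu => by
      obtain ⟨c, rfl⟩ := Submodule.mem_span_singleton.1 hu
      rw [QuadraticMap.polar_smul_right, hd.1, smul_zero]) hdd
    (fun h => hdU (Submodule.span_mono (by simp) h))
  have hd₂v : QuadraticMap.polar Q d₂ v = 0 := CfsgLib.Forms.mem_perp.1 hd₂ v (Submodule.mem_span_singleton_self v)
  exact CfsgLib.GeoOrth.omega_le_of_fullCen_siegel hnd hn5 hdd hfull hd₂s (by rw [hdd₂]; exact one_ne_zero)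
    hd₂v hv (hsv d₂ v hd₂s hd₂v hvv hd₂v)

end Cfsg.Agent.S5691
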