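import Cfsg.Statements.S5693
import Cfsg.Agent.GeoLib.OrthNonMax

set_option autoImplicit false
open Cfsg

namespace Cfsg.Agent.S5693

/-- Let F be a finite field with q elements, n ≥ 13 even, Q a non-degenerate quadratic form on F^n of plus type (some subspace of dimension n/2 is totally singular), and Ω the commutator subgroup of the isometry group of Q, viewed inside GL_n(F). Let D be a decomposition of F^n into t ≥ 2 pairwise orthogonal, pairwise Q-isometric subspaces of equal dimension k on which the polar form is non-degenerate (with, for even k, all members of plus type or t even; for odd k, q odd and square discriminant), in one of the cases: k = 2 with q = 3; k = 2 with plus-type members and q ∈ {2, 4, 5}; k = 3 with q = 3; k = 4 with plus-type members and q = 2. Then the elements of Ω permuting the members of D form a subgroup that is not maximal: some subgroup lies strictly between it and Ω. -/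
theorem result {F : Type*} [Field F] [Fintype F] {n : ℕ} (hn : 13 ≤ n) (heven : Even n) (Q : (Fin n → F) → F) (hQ : Cfsg.Geo.IsNondegenerateQuadraticForm Q) (hplus : Cfsg.Geo.IsPlusTypeOn Q ⊤) {t : ℕ} (k : ℕ) (D : Fin t → Submodule F (Fin n → F)) (hD : Cfsg.Geo.IsOrthogonalMDecomposition Q k D) (hke : Even k → ((∀ i, Cfsg.Geo.IsPlusTypeOn Q (D i)) ∨ Even t)) (hko : Odd k → (Odd (Fintype.card F) ∧ Cfsg.Geo.HasSquareDiscriminant Q)) (hcase : ((k = 2 ∧ (Fintype.card F = 3 ∨ ((∀ i, Cfsg.Geo.IsPlusTypeOn Q (D i)) ∧ (Fintype.card F = 2 ∨ Fintype.card F = 4 ∨ Fintype.card F = 5)))) ∨ (k = 3 ∧ Fintype.card F = 3) ∨ (k = 4 ∧ Fintype.card F = 2 ∧ ∀ i, Cfsg.Geo.IsPlusTypeOn Q (D i)))) : ∃ K : Subgroup (Matrix.GeneralLinearGroup (Fin n) F), Cfsg.Geo.decompositionStabilizer D ⊓ Cfsg.Geo.omegaGL Q < K ∧ K < Cfsg.Geo.omegaGL Q := by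
  classical
  obtain ⟨Q, rfl, hnd⟩ := CfsgLib.Forms.exists_quadForm hQ
  have hn13 : 13 ≤ Fintype.card (Fin n) := by simpa using hn
  have hn5 : 5 ≤ Fintype.card (Fin n) := by omega
  by_cases h3 : Fintype.card F = 3
  · refine CfsgLib.GeoNonMax.not_maximal_three h3 hnd hn13 ?_ hD
    rcases hcase with ⟨h, -⟩ | ⟨h, -⟩ | ⟨-, h, -⟩
    · exact Or.inl h
    · exact Or.inr h
    · omega
  have hcase' : (∀ i, Cfsg.Geo.IsPlusTypeOn Q (D i)) ∧ ((k = 2 ∧ (Fintype.card F = 2 ∨ Fintype.card F = 4 ∨
      Fintype.card F = 5)) ∨ (k = 4 ∧ Fintype.card F = 2)) := by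
    rcases hcase with ⟨h, h' | ⟨hp, h'⟩⟩ | ⟨-, h⟩ | ⟨h, h', hp⟩
    · exact absurd h' h3
    · exact ⟨hp, Or.inl ⟨h, h'⟩⟩
    · exact absurd h h3
    · exact ⟨hp, Or.inr ⟨h, h'⟩⟩
  obtain ⟨hpl, hcase⟩ := hcase'
  have hcard : n = t * k := by
    have hint : DirectSum.IsInternal D :=
      DirectSum.isInternal_submodule_of_iSupIndep_of_iSup_eq_top hD.decomp.decomp.indep hD.decomp.decomp.iSup_eq_top
    have h1 : Module.finrank F (Fin n → F) = ∑ i, Module.finrank F (D i) := by
      rw [← Module.finrank_directSum]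
      exact (LinearEquiv.ofBijective (DirectSum.coeLinearMap D) hint).finrank_eq.symm
    simpa [hD.decomp.decomp.finrank_eq] using h1
  have ht : 4 ≤ t := by rcases hcase with ⟨rfl, -⟩ | ⟨rfl, -⟩ <;> omega
  have horth : ∀ i j, i ≠ j → ∀ x ∈ D i, ∀ y ∈ D j, QuadraticMap.polar Q x y = 0 := hD.decomp.orthogonal
  -- hyperbolic pairs
  have hpartner : ∀ i, ∀ e ∈ D i, e ≠ 0 → Q e = 0 → ∃ f ∈ D i, Q f = 0 ∧ QuadraticMap.polar Q e f = 1 := by
    intro i e he he0 heQ
    obtain ⟨-, y, hy, hey⟩ := hD.decomp.nondegenerate i e he he0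
    set y' := (QuadraticMap.polar Q e y)⁻¹ • y with hy'
    have h1 : QuadraticMap.polar Q e y' = 1 := by
      rw [hy', QuadraticMap.polar_smul_right, smul_eq_mul, inv_mul_cancel₀ hey]
    refine ⟨y' - Q y' • e, sub_mem ((D i).smul_mem _ hy) ((D i).smul_mem _ he), ?_, ?_⟩
    · rw [CfsgLib.Forms.map_sub', QuadraticMap.map_smul Q (Q y') e, heQ, QuadraticMap.polar_smul_right,
        QuadraticMap.polar_comm Q y' e, h1]
      simp
    · simp [QuadraticMap.polar_sub_right, QuadraticMap.polar_smul_right, QuadraticMap.polar_self, heQ, h1]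
  have hex : ∀ i, ∃ e ∈ D i, ∃ f ∈ D i, Q e = 0 ∧ Q f = 0 ∧ QuadraticMap.polar Q e f = 1 ∧
      (k = 4 → ∃ e' ∈ D i, ∃ f' ∈ D i, Q e' = 0 ∧ Q f' = 0 ∧ QuadraticMap.polar Q e' f' = 1 ∧
        QuadraticMap.polar Q e e' = 0 ∧ QuadraticMap.polar Q e f' = 0 ∧ QuadraticMap.polar Q f e' = 0 ∧
        QuadraticMap.polar Q f f' = 0) := by
    intro i
    obtain ⟨U, hU, hUs, hUd⟩ := hpl i
    rw [hD.decomp.decomp.finrank_eq] at hUd
    obtain ⟨e, he, he0⟩ := U.exists_mem_ne_zero_of_ne_bot fun h => by
      rw [h, finrank_bot] at hUd; have := hD.decomp.decomp.pos; omega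
    obtain ⟨f, hf, hfQ, hef⟩ := hpartner i e (hU he) he0 (hUs e he)
    refine ⟨e, hU he, f, hf, hUs e he, hfQ, hef, fun hk4 => ?_⟩
    have hUU : ∀ x ∈ U, ∀ y ∈ U, QuadraticMap.polar Q x y = 0 := fun x hx y hy => by
      rw [QuadraticMap.polar, hUs _ (add_mem hx hy), hUs x hx, hUs y hy]; ring
    obtain ⟨x, hx, hxe⟩ : ∃ x ∈ U, x ∉ Submodule.span F {e} := SetLike.not_le_iff_exists.1 fun h => by
      have := Submodule.finrank_mono h
      rw [finrank_span_singleton he0] at this; omega
    set e' := x - QuadraticMap.polar Q x f • e with he'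
    have he'U : e' ∈ U := sub_mem hx (U.smul_mem _ he)
    have he'0 : e' ≠ 0 := fun h => hxe (Submodule.mem_span_singleton.2 ⟨_, (sub_eq_zero.1 h).symm⟩)
    have hfe' : QuadraticMap.polar Q f e' = 0 := by
      rw [QuadraticMap.polar_comm, he', QuadraticMap.polar_sub_left, QuadraticMap.polar_smul_left, hef]; simp
    obtain ⟨-, y, hy, hey⟩ := hD.decomp.nondegenerate i e' (hU he'U) he'0
    set z := y - QuadraticMap.polar Q y f • e - QuadraticMap.polar Q y e • f with hz
    have hzD : z ∈ D i := sub_mem (sub_mem hy ((D i).smul_mem _ (hU he))) ((D i).smul_mem _ hf)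
    have hze : QuadraticMap.polar Q e z = 0 := by
      rw [hz]; simp [QuadraticMap.polar_sub_right, QuadraticMap.polar_self, hUs e he, hef, QuadraticMap.polar_comm Q y e]
    have hzf : QuadraticMap.polar Q f z = 0 := by
      rw [hz]; simp [QuadraticMap.polar_sub_right, QuadraticMap.polar_self, hfQ, QuadraticMap.polar_comm Q f e, hef,
        QuadraticMap.polar_comm Q y f]
    have hez : QuadraticMap.polar Q e' z = QuadraticMap.polar Q e' y := by
      rw [hz]; simp [QuadraticMap.polar_sub_right, hUU e' he'U e he, QuadraticMap.polar_comm Q e' f, hfe']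
    set z' := (QuadraticMap.polar Q e' y)⁻¹ • z with hz'
    refine ⟨e', hU he'U, z' - Q z' • e', sub_mem ((D i).smul_mem _ hzD) ((D i).smul_mem _ (hU he'U)), hUs _ he'U,
      ?_, ?_, hUU e he e' he'U, ?_, hfe', ?_⟩
    · have h1 : QuadraticMap.polar Q e' z' = 1 := by
        rw [hz', QuadraticMap.polar_smul_right, smul_eq_mul, hez, inv_mul_cancel₀ hey]
      rw [CfsgLib.Forms.map_sub', QuadraticMap.map_smul Q (Q z') e', hUs e' he'U, QuadraticMap.polar_smul_right,
        QuadraticMap.polar_comm Q z' e', h1]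
      simp
    · simp [QuadraticMap.polar_sub_right, QuadraticMap.polar_self, hUs e' he'U, hz', hez, inv_mul_cancel₀ hey]
    · rw [hz']; simp [QuadraticMap.polar_sub_right, hze, hUU e he e' he'U]
    · rw [hz']; simp [QuadraticMap.polar_sub_right, hzf, hfe']
  choose e he f hf heQ hfQ hef h4 using hex
  obtain ⟨a, hadef⟩ : ∃ a : Fin t → Fin n → F, ∀ u, a u = e u + f u := ⟨_, fun _ => rfl⟩
  have ha : ∀ i, a i ∈ D i := fun i => hadef i ▸ add_mem (he i) (hf i)
  have haQ : ∀ i, Q (a i) = 1 := fun i => by
    simp [hadef, QuadraticMap.map_add (⇑Q), heQ, hfQ, hef]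
  have hea : ∀ i, QuadraticMap.polar Q (e i) (a i) = 1 := fun i => by
    simp [hadef, QuadraticMap.polar_add_right, QuadraticMap.polar_self, heQ, hef]
  have hne : ∀ i, e i ≠ 0 ∧ f i ≠ 0 ∧ a i ≠ 0 := fun i => by
    refine ⟨fun h => ?_, fun h => ?_, fun h => ?_⟩
    · exact zero_ne_one (α := F) (by rw [← hef i, h, QuadraticMap.polar_zero_left])
    · exact zero_ne_one (α := F) (by rw [← hef i, h, QuadraticMap.polar_zero_right])
    · exact zero_ne_one (α := F) (by rw [← haQ i, h, QuadraticMap.map_zero])
  obtain ⟨i, j, l, hij, hil, hjl⟩ : ∃ a b c : Fin t, a ≠ b ∧ a ≠ c ∧ b ≠ c :=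
    ⟨⟨0, by omega⟩, ⟨1, by omega⟩, ⟨2, by omega⟩, by simp, by simp, by simp⟩
  obtain ⟨π, hπ1, hπ2, hπ3, hπ4⟩ := CfsgLib.GeoDecomp.exists_proj hD.decomp.decomp
  -- the element moving every invariant
  obtain ⟨g₀, hg₀O, hg₀⟩ := CfsgLib.GeoOrth.exists_isSiegel hnd hn5 (heQ i) (horth i l hil _ (he i) _ (ha l))
  have hg₀a : (g₀ : Matrix (Fin n) (Fin n) F).mulVec (a i) = f i - a l := by
    rw [hg₀, hea, haQ, horth l i hil.symm _ (ha l) _ (ha i), hadef]; module
  have hnotmem : ∀ {x y : Fin n → F} {u v c : Fin t}, u ≠ v → x ∈ D u → x ≠ 0 → y ∈ D v → y ≠ 0 → x + y ∉ D c := by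
    intro x y u v c huv hx hx0 hy hy0 hc
    by_cases hcu : c = u
    · exact hy0 (CfsgLib.GeoDecomp.eq_zero_of_mem hD.decomp.decomp huv.symm hy
        (by subst hcu; simpa using sub_mem hc hx))
    · have := hπ4 u c (Ne.symm hcu) _ hc
      rw [map_add, hπ3 u x hx, hπ4 u v huv y hy, add_zero] at this
      exact hx0 this
  have hframe_lt : CfsgLib.GeoNonMax.fixFun (CfsgLib.GeoNonMax.frameFun Q D 1) ⊓ Cfsg.Geo.omegaGL Q <
      Cfsg.Geo.omegaGL Q := by
    refine lt_of_le_not_ge inf_le_right fun hle => ?_
    obtain ⟨c, hc, -⟩ := CfsgLib.GeoNonMax.frame_of_mem (hle hg₀O).1 ⟨i, ha i, haQ i⟩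
    rw [hg₀a, sub_eq_add_neg] at hc
    exact hnotmem hil (hf i) (hne i).2.1 (neg_mem (ha l)) (neg_ne_zero.2 (hne l).2.2) hc
  have hF : Fintype.card F = 2 → ∀ z : F, z = 0 ∨ z = 1 := by
    intro hq z
    by_contra hz
    push Not at hz
    have h3 : ({0, 1, z} : Finset F).card = 3 := by
      rw [Finset.card_insert_of_notMem (by simp [hz.1.symm]), Finset.card_pair hz.2.symm]
    have := Finset.card_le_univ ({0, 1, z} : Finset F)
    omega
  have hchar : Fintype.card F = 2 ∨ Fintype.card F = 4 → (2 : F) = 0 := by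
    have h0 : ((Fintype.card F : ℕ) : F) = 0 := FiniteField.cast_card_eq_zero F
    rintro (h | h) <;> rw [h] at h0
    · exact_mod_cast h0
    · have : (2 : F) * 2 = 0 := by norm_num at h0; linear_combination h0
      exact mul_self_eq_zero.1 this
  -- plane members: coordinates
  have hcoord : k = 2 → ∀ u, ∀ y ∈ D u, y = QuadraticMap.polar Q y (f u) • e u + QuadraticMap.polar Q y (e u) • f u := by
    intro hk u y hy
    have hli : LinearIndependent F ![e u, f u] := (LinearIndependent.pair_iff' (hne u).1).2 fun c hc => by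
      have := hef u
      rw [← hc, QuadraticMap.polar_smul_right, QuadraticMap.polar_self, heQ] at this
      simp at this
    have hspan : Submodule.span F {e u, f u} = D u := Submodule.eq_of_le_of_finrank_le
      (Submodule.span_le.2 (by rintro z (rfl | rfl); exacts [he u, hf u]))
      (by rw [hD.decomp.decomp.finrank_eq, hk, ← Matrix.range_cons_cons_empty (e u) (f u) ![], finrank_span_eq_card hli]; simp)
    rw [← hspan, Submodule.mem_span_pair] at hy
    obtain ⟨r, s, rfl⟩ := hy
    simp [QuadraticMap.polar_add_left, QuadraticMap.polar_self, heQ, hfQ, hef, QuadraticMap.polar_comm Q (f u) (e u)]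
  have hQxy : k = 2 → ∀ u, ∀ y ∈ D u, Q y = QuadraticMap.polar Q y (f u) * QuadraticMap.polar Q y (e u) := by
    intro hk u y hy
    conv_lhs => rw [hcoord hk u y hy]
    simp [QuadraticMap.map_add (⇑Q), QuadraticMap.map_smul, heQ, hfQ, hef]
    ring
  rcases hcase with ⟨hk, hq | hq | hq⟩ | ⟨hk, hq⟩
  · -- two elements: the sum of the non-singular vectors
    have h2 := hchar (Or.inl hq)
    set S := ∑ u, a u with hS
    have hπS : ∀ u, π u S = a u := fun u => by
      rw [hS, map_sum, Finset.sum_eq_single u (fun v _ hv => hπ4 u v hv.symm _ (ha v))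
        (fun h => absurd (Finset.mem_univ u) h), hπ3 u _ (ha u)]
    have hpS : ∀ u x, x ∈ D u → QuadraticMap.polar Q x S = QuadraticMap.polar Q x (a u) := fun u x hx => by
      show (QuadraticMap.polarBilin Q x) S = _
      rw [hS, map_sum]
      simp only [QuadraticMap.polarBilin_apply_apply]
      rw [Finset.sum_eq_single u (fun v _ hv => horth u v hv.symm x hx _ (ha v)) (fun h => absurd (Finset.mem_univ u) h)]
    have huniq : ∀ u, ∀ y ∈ D u, Q y = 1 → y = a u := by
      intro u y hy hyQ
      rw [hQxy hk u y hy] at hyQ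
      rw [hcoord hk u y hy]
      rcases hF hq (QuadraticMap.polar Q y (f u)) with h | h <;> rw [h] at hyQ ⊢
      · simp at hyQ
      · rw [one_mul] at hyQ; rw [hyQ, one_smul, one_smul, hadef]
    let Φ : (Fin n → F) → F := fun x => if x = S then 1 else 0
    refine ⟨CfsgLib.GeoNonMax.fixFun Φ ⊓ Cfsg.Geo.omegaGL Q, ?_, ?_⟩
    · refine lt_of_le_not_ge (le_inf (fun g hg => ?_) inf_le_right) fun hle => ?_
      · obtain ⟨⟨σ, hσ⟩, hgO⟩ := hg
        have hgS : (g : Matrix (Fin n) (Fin n) F).mulVec S = S := by
          rw [hS, Matrix.mulVec_sum]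
          refine Fintype.sum_equiv σ _ _ fun u => huniq _ _ ?_ ?_
          · rw [← hσ u]; exact ⟨a u, ha u, Matrix.toLin'_apply _ _⟩
          · rw [(CfsgLib.GeoOrth.polar_omega hgO).1, haQ]
        intro x
        refine if_congr ⟨fun h => ?_, fun h => by rw [h, hgS]⟩ rfl rfl
        exact Matrix.mulVec_injective_of_isUnit g.isUnit (h.trans hgS.symm)
      · have hd : Q (e i + e j) = 0 := by
          simp [QuadraticMap.map_add (⇑Q), heQ, horth i j hij _ (he i) _ (he j)]
        have hda : QuadraticMap.polar Q (e i + e j) (a l) = 0 := by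
          simp [QuadraticMap.polar_add_left, horth i l hil _ (he i) _ (ha l), horth j l hjl _ (he j) _ (ha l)]
        obtain ⟨g, hgO, hg⟩ := CfsgLib.GeoOrth.exists_isSiegel hnd hn5 hd hda
        have hgS : (g : Matrix (Fin n) (Fin n) F).mulVec S = S := by
          rw [hg, QuadraticMap.polar_add_left, hpS i _ (he i), hpS j _ (he j), hea, hea, one_add_one_eq_two, h2,
            hpS l _ (ha l), QuadraticMap.polar_self, haQ, nsmul_eq_mul, Nat.cast_ofNat, h2]
          simp
        have hin : g ∈ CfsgLib.GeoNonMax.fixFun Φ := fun x => if_congr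
          ⟨fun h => Matrix.mulVec_injective_of_isUnit g.isUnit (h.trans hgS.symm), fun h => by rw [h, hgS]⟩ rfl rfl
        obtain ⟨σ, hσ⟩ := (hle ⟨hin, hgO⟩).1
        have himg : (e i + f i) + e j + a l ∈ D (σ i) := by
          rw [← hσ i]
          refine ⟨f i, hf i, ?_⟩
          rw [Matrix.toLin'_apply, hg, QuadraticMap.polar_add_left, hef, horth j i hij.symm _ (he j) _ (hf i),
            horth l i hil.symm _ (ha l) _ (hf i), haQ]
          have h1 : (-1 : F) = 1 := by linear_combination (-1 : F) * h2
          match_scalars <;> simp [h1]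
        by_cases hcj : σ i = j
        · have h := hπ4 l (σ i) (by rw [hcj]; exact hjl.symm) _ himg
          rw [map_add, map_add, map_add, hπ4 l i hil.symm _ (he i), hπ4 l i hil.symm _ (hf i),
            hπ4 l j hjl.symm _ (he j), hπ3 l _ (ha l), zero_add, zero_add, zero_add] at h
          exact (hne l).2.2 h
        · have h := hπ4 j (σ i) (Ne.symm hcj) _ himg
          rw [map_add, map_add, map_add, hπ4 j i hij.symm _ (he i), hπ4 j i hij.symm _ (hf i),
            hπ4 j l hjl _ (ha l), hπ3 j _ (he j), zero_add, zero_add, add_zero] at h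
          exact (hne j).1 h
    · refine lt_of_le_not_ge inf_le_right fun hle => ?_
      have h := (hle hg₀O).1 S
      have hgS : (g₀ : Matrix (Fin n) (Fin n) F).mulVec S ≠ S := by
        intro hc
        have := congrArg (π i) hc
        rw [hg₀, hpS i _ (he i), hpS l _ (ha l), hea, QuadraticMap.polar_self, haQ, nsmul_eq_mul, Nat.cast_ofNat, h2,
          map_sub, map_add, map_smul, map_smul, hπS, hπ3 i _ (he i), hπ4 i l hil _ (ha l)] at this
        simp at this
        exact (hne i).1 this
      simp [Φ, hgS] at h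
  · -- four elements: a rational structure
    have h2 := hchar (Or.inr hq)
    have hx3 : ∀ x : F, x ≠ 0 → x * (x * x) = 1 := fun x hx => by
      have := FiniteField.pow_card_sub_one_eq_one x hx
      rw [hq] at this; linear_combination this
    have hx4 : ∀ x : F, x * x * (x * x) = x := fun x => by
      rcases eq_or_ne x 0 with rfl | hx
      · ring
      · linear_combination x * hx3 x hx
    obtain ⟨ω, hω0, hω1⟩ : ∃ ω : F, ω ≠ 0 ∧ ω ≠ 1 := by
      by_contra hall
      push Not at hall
      have h1 : (Finset.univ : Finset F) ⊆ {0, 1} := fun x _ => by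
        rcases eq_or_ne x 0 with rfl | hx
        · simp
        · simp [hall x hx]
      have := (Finset.card_le_card h1).trans Finset.card_le_two
      rw [Finset.card_univ] at this
      omega
    have hω2 : ω + ω * ω = 1 := by
      have : (ω + 1) * (ω + ω * ω + 1) = 0 := by linear_combination hx3 ω hω0 + (ω + ω * ω + 1) * h2
      rcases mul_eq_zero.1 this with h | h
      · exact absurd (show ω = 1 by linear_combination h - h2) hω1
      · linear_combination h - h2
    let X : Fin t → (Fin n → F) → F := fun u z => QuadraticMap.polar Q (π u z) (f u)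
    let Y : Fin t → (Fin n → F) → F := fun u z => QuadraticMap.polar Q (π u z) (e u)
    let R : (Fin n → F) → Prop := fun z => ∀ u, Y u z = X u z * X u z
    let Φ : (Fin n → F) → F := fun x => if R x then 1 else 0
    have hRQ : ∀ u, ∀ y ∈ D u, (Y u y = X u y * X u y ↔ y = 0 ∨ Q y = 1) := by
      intro u y hy
      simp only [X, Y, hπ3 u y hy]
      rw [hQxy hk u y hy]
      constructor
      · intro h
        rcases eq_or_ne (QuadraticMap.polar Q y (f u)) 0 with h0 | h0
        · left
          rw [hcoord hk u y hy, h, h0]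
          simp
        · right; rw [h]; exact hx3 _ h0
      · rintro (rfl | h)
        · simp
        · have h0 : QuadraticMap.polar Q y (f u) ≠ 0 := fun h0 => by rw [h0, zero_mul] at h; exact zero_ne_one h
          refine mul_left_cancel₀ h0 ?_
          rw [h, hx3 _ h0]
    have hRsingle : ∀ u, ∀ y ∈ D u, (R y ↔ y = 0 ∨ Q y = 1) := by
      intro u y hy
      rw [← hRQ u y hy]
      refine ⟨fun h => h u, fun h v => ?_⟩
      rcases eq_or_ne v u with rfl | hvu
      · exact h
      · simp [X, Y, hπ4 v u hvu y hy]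
    have hRadd : ∀ x y, R x → R y → R (x + y) := fun x y hx hy u => by
      simp only [X, Y, map_add, QuadraticMap.polar_add_left]
      rw [show QuadraticMap.polar Q (π u x) (e u) = _ from hx u, show QuadraticMap.polar Q (π u y) (e u) = _ from hy u]
      simp only [X]
      linear_combination -(QuadraticMap.polar Q (π u x) (f u) * QuadraticMap.polar Q (π u y) (f u)) * h2
    have hR0 : R 0 := fun u => by simp [X, Y]
    have hmem : ∀ g : GL (Fin n) F, g ∈ Cfsg.Geo.decompositionStabilizer D ⊓ Cfsg.Geo.omegaGL Q → ∀ z, R z →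
        R ((g : Matrix (Fin n) (Fin n) F).mulVec z) := by
      rintro g ⟨⟨σ, hσ⟩, hgO⟩ z hz
      rw [← hπ2 z, Matrix.mulVec_sum]
      refine Finset.sum_induction _ R hRadd hR0 fun u _ => ?_
      refine (hRsingle (σ u) _ (by rw [← hσ u]; exact ⟨π u z, hπ1 u z, Matrix.toLin'_apply _ _⟩)).2 ?_
      rcases (hRQ u _ (hπ1 u z)).1 (by simpa [X, Y, hπ3 u _ (hπ1 u z)] using hz u) with h | h
      · exact Or.inl (by rw [h, Matrix.mulVec_zero])
      · exact Or.inr (by rw [(CfsgLib.GeoOrth.polar_omega hgO).1, h])
    have hfix : ∀ {g : GL (Fin n) F}, (∀ z, R z → R ((g : Matrix _ _ F).mulVec z)) →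
        (∀ z, R z → R (((g⁻¹ : GL (Fin n) F) : Matrix _ _ F).mulVec z)) → g ∈ CfsgLib.GeoNonMax.fixFun Φ :=
      fun {g} h h' x => if_congr ⟨fun hx => by
        have := h' _ hx
        rwa [CfsgLib.GeoFull.inv_mulVec_cancel] at this, h x⟩ rfl rfl
    refine ⟨CfsgLib.GeoNonMax.fixFun Φ ⊓ Cfsg.Geo.omegaGL Q, ?_, ?_⟩
    · refine lt_of_le_not_ge (le_inf (fun g hg => hfix (hmem g hg) (hmem _ (inv_mem hg))) inf_le_right) fun hle => ?_
      have hd : Q (a i + a j) = 0 := by
        rw [QuadraticMap.map_add (⇑Q), haQ, haQ, horth i j hij _ (ha i) _ (ha j), one_add_one_eq_two, h2, add_zero]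
      have hda : QuadraticMap.polar Q (a i + a j) (a l) = 0 := by
        simp [QuadraticMap.polar_add_left, horth i l hil _ (ha i) _ (ha l), horth j l hjl _ (ha j) _ (ha l)]
      obtain ⟨g, hgO, hg⟩ := CfsgLib.GeoOrth.exists_isSiegel hnd hn5 hd hda
      -- rational values
      have hB : ∀ u z, R z → QuadraticMap.polar Q (a u) z = 0 ∨ QuadraticMap.polar Q (a u) z = 1 := by
        intro u z hz
        have : QuadraticMap.polar Q (a u) z = QuadraticMap.polar Q (a u) (π u z) := by
          conv_lhs => rw [← hπ2 z, ← QuadraticMap.polarBilin_apply_apply, map_sum]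
          exact Finset.sum_eq_single u (fun v _ hv => horth u v hv.symm _ (ha u) _ (hπ1 v z))
            (fun h => absurd (Finset.mem_univ u) h)
        rw [this, hadef, QuadraticMap.polar_add_left, QuadraticMap.polar_comm Q (e u), QuadraticMap.polar_comm Q (f u)]
        show Y u z + X u z = 0 ∨ Y u z + X u z = 1
        rw [hz u]
        rcases eq_or_ne (X u z) 0 with h | h
        · left; rw [h]; ring
        · rcases eq_or_ne (X u z) 1 with h' | h'
          · left; rw [h']; linear_combination h2
          · right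
            have : (X u z + 1) * (X u z + X u z * X u z + 1) = 0 := by
              linear_combination hx3 _ h + (X u z + X u z * X u z + 1) * h2
            rcases mul_eq_zero.1 this with h'' | h''
            · exact absurd (show X u z = 1 by linear_combination h'' - h2) h'
            · linear_combination h'' - h2
      have h01 : ∀ r : F, (r = 0 ∨ r = 1) → ∀ v, R v → R (r • v) := by
        rintro r (rfl | rfl) v hv
        · rw [zero_smul]; exact hR0
        · rwa [one_smul]
      have hneg : ∀ v : Fin n → F, -v = v := fun v => by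
        rw [← neg_one_smul F v, show (-1 : F) = 1 by linear_combination (-1 : F) * h2, one_smul]
      have hsum01 : ∀ r s : F, (r = 0 ∨ r = 1) → (s = 0 ∨ s = 1) → r + s = 0 ∨ r + s = 1 := by
        rintro r s (rfl | rfl) (rfl | rfl) <;> simp [one_add_one_eq_two, h2]
      have hgR : ∀ z, R z → R ((g : Matrix _ _ F).mulVec z) := by
        intro z hz
        rw [hg, sub_eq_add_neg, hneg, haQ, one_mul, sub_eq_add_neg,
          show -QuadraticMap.polar Q (a i + a j) z = QuadraticMap.polar Q (a i + a j) z by
            linear_combination (-QuadraticMap.polar Q (a i + a j) z) * h2,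
          QuadraticMap.polar_add_left]
        refine hRadd _ _ (hRadd _ _ hz (h01 _ (hsum01 _ _ (hB l z hz) (hsum01 _ _ (hB i z hz) (hB j z hz))) _
          (hRadd _ _ ((hRsingle i _ (ha i)).2 (Or.inr (haQ i))) ((hRsingle j _ (ha j)).2 (Or.inr (haQ j))))))
          (h01 _ (hsum01 _ _ (hB i z hz) (hB j z hz)) _ ((hRsingle l _ (ha l)).2 (Or.inr (haQ l))))
      have hgg : g * g = 1 := by
        refine CfsgLib.GeoFull.gl_ext fun z => ?_
        rw [Units.val_mul, ← Matrix.mulVec_mulVec, hg, hg, Units.val_one, Matrix.one_mulVec]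
        have haa : QuadraticMap.polar Q (a l) (a l) = 0 := by
          rw [QuadraticMap.polar_self, haQ, nsmul_eq_mul, Nat.cast_ofNat, h2, zero_mul]
        simp only [QuadraticMap.polar_add_right, QuadraticMap.polar_sub_right, QuadraticMap.polar_smul_right,
          QuadraticMap.polar_self, QuadraticMap.polar_comm Q (a l) (a i + a j), hda, hd, haa, haQ, smul_eq_mul,
          nsmul_zero, mul_zero, add_zero, sub_zero]
        linear_combination (norm := module) congrArg (fun r => r • ((QuadraticMap.polar Q (a l) z -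
          1 * QuadraticMap.polar Q (a i + a j) z) • (a i + a j) - QuadraticMap.polar Q (a i + a j) z • a l)) h2
      have hin : g ∈ CfsgLib.GeoNonMax.fixFun Φ := hfix hgR (by rwa [inv_eq_of_mul_eq_one_right hgg])
      obtain ⟨σ, hσ⟩ := (hle ⟨hin, hgO⟩).1
      obtain ⟨b, hb⟩ : ∃ b, b = ω • e i + (ω * ω) • f i := ⟨_, rfl⟩
      have hbi : b ∈ D i := hb ▸ add_mem ((D i).smul_mem _ (he i)) ((D i).smul_mem _ (hf i))
      have hab : QuadraticMap.polar Q (a i) b = 1 := by
        simp [hb, hadef, QuadraticMap.polar_add_left, QuadraticMap.polar_add_right, QuadraticMap.polar_self, heQ, hfQ,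
          hef, QuadraticMap.polar_comm Q (f i) (e i)]
        linear_combination hω2
      have himg : b + (a i + a j) + a l ∈ D (σ i) := by
        rw [← hσ i]
        refine ⟨b, hbi, ?_⟩
        rw [Matrix.toLin'_apply, hg, QuadraticMap.polar_add_left, hab, horth j i hij.symm _ (ha j) _ hbi,
          horth l i hil.symm _ (ha l) _ hbi, haQ]
        have h1 : (-1 : F) = 1 := by linear_combination (-1 : F) * h2
        match_scalars <;> simp [h1]
      by_cases hcj : σ i = j
      · have h := hπ4 l (σ i) (by rw [hcj]; exact hjl.symm) _ himg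
        rw [map_add, map_add, map_add, hπ4 l i hil.symm _ hbi, hπ4 l i hil.symm _ (ha i),
          hπ4 l j hjl.symm _ (ha j), hπ3 l _ (ha l), zero_add, zero_add, zero_add] at h
        exact (hne l).2.2 h
      · have h := hπ4 j (σ i) (Ne.symm hcj) _ himg
        rw [map_add, map_add, map_add, hπ4 j i hij.symm _ hbi, hπ4 j i hij.symm _ (ha i),
          hπ4 j l hjl _ (ha l), hπ3 j _ (ha j), zero_add, zero_add, add_zero] at h
        exact (hne j).2.2 h
    · refine lt_of_le_not_ge inf_le_right fun hle => ?_
      have h := (hle hg₀O).1 (a i)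
      have hnR : ¬ R ((g₀ : Matrix (Fin n) (Fin n) F).mulVec (a i)) := fun hR => by
        have := hR i
        rw [hg₀a] at this
        simp [X, Y, map_sub, hπ3 i _ (hf i), hπ4 i l hil _ (ha l), QuadraticMap.polar_self, hfQ,
          QuadraticMap.polar_comm Q (f i) (e i), hef] at this
      simp [Φ, hnR, (hRsingle i _ (ha i)).2 (Or.inr (haQ i))] at h
  · -- five elements
    have h0 : ((Fintype.card F : ℕ) : F) = 0 := FiniteField.cast_card_eq_zero F
    rw [hq] at h0
    have h5 : (5 : F) = 0 := by exact_mod_cast h0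
    have h2 : (2 : F) ≠ 0 := fun h => one_ne_zero (α := F) (by linear_combination h5 - 2 * h)
    refine ⟨_, CfsgLib.GeoNonMax.stab_lt_frame hnd h2 hD.decomp ht one_ne_zero (a := a) (b := fun u => e u - f u) ha haQ
      (fun u => sub_mem (he u) (hf u)) (fun u h => ?_) (fun u => ?_) (fun u y hy hyQ => ?_), hframe_lt⟩
    · have := congrArg (QuadraticMap.polar Q (e u)) h
      simp [QuadraticMap.polar_sub_right, QuadraticMap.polar_self, heQ, hef] at this
    · simp [hadef, QuadraticMap.polar_sub_left, QuadraticMap.polar_add_right, QuadraticMap.polar_self, heQ, hfQ, hef,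
        QuadraticMap.polar_comm Q (f u) (e u)]
    · rw [hQxy hk u y hy] at hyQ
      set x := QuadraticMap.polar Q y (f u)
      set x' := QuadraticMap.polar Q y (e u)
      have hx0 : x ≠ 0 := fun h => by rw [h, zero_mul] at hyQ; exact zero_ne_one hyQ
      have hx4 : x ^ 4 = 1 := by
        have := FiniteField.pow_card_sub_one_eq_one x hx0
        rwa [hq] at this
      have : (x - 1) * ((x + 1) * (x * x + 1)) = 0 := by linear_combination hx4
      rcases mul_eq_zero.1 this with h | h
      · rw [sub_eq_zero] at h; rw [h, one_mul] at hyQ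
        refine Or.inl ?_
        rw [hcoord hk u y hy]; show x • e u + x' • f u = _
        rw [h, hyQ, one_smul, one_smul, hadef]
      rcases mul_eq_zero.1 h with h | h
      · have hx : x = -1 := eq_neg_of_add_eq_zero_left h
        have hx' : x' = -1 := by rw [hx] at hyQ; linear_combination -hyQ
        refine Or.inr (Or.inl ?_)
        rw [hcoord hk u y hy]; show x • e u + x' • f u = _
        rw [hx, hx', hadef]; simp only [neg_smul, one_smul]; rw [neg_add]
      · refine Or.inr (Or.inr ?_)
        rw [hadef, QuadraticMap.polar_add_right]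
        show x' + x = 0
        refine mul_left_cancel₀ hx0 ?_
        linear_combination hyQ + h
  · -- two elements, four dimensions
    have h2 := hchar (Or.inl hq)
    choose e' he' f' hf' he'Q hf'Q he'f' hee' hef' hfe' hff' using fun u => h4 u hk
    obtain ⟨v, hvdef⟩ : ∃ v : Fin t → Fin n → F, ∀ u, v u = e' u + f' u + e u := ⟨_, fun _ => rfl⟩
    obtain ⟨u', hu'def⟩ : ∃ v : Fin t → Fin n → F, ∀ u, v u = e' u + f' u := ⟨_, fun _ => rfl⟩
    obtain ⟨v', hv'def⟩ : ∃ v : Fin t → Fin n → F, ∀ u, v u = e u + f u + e' u := ⟨_, fun _ => rfl⟩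
    have hv : ∀ u, v u ∈ D u := fun u => hvdef u ▸ add_mem (add_mem (he' u) (hf' u)) (he u)
    have hvQ : ∀ u, Q (v u) = 1 := fun u => by
      simp [hvdef, QuadraticMap.map_add (⇑Q), QuadraticMap.polar_add_left, he'Q, hf'Q, he'f', heQ,
        QuadraticMap.polar_comm Q (e' u) (e u), QuadraticMap.polar_comm Q (f' u) (e u), hee', hef']
    have hav : ∀ u, QuadraticMap.polar Q (a u) (v u) = 1 := fun u => by
      simp [hadef, hvdef, QuadraticMap.polar_add_left, QuadraticMap.polar_add_right, QuadraticMap.polar_self, heQ,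
        hee', hef', hfe', hff', QuadraticMap.polar_comm Q (f u) (e u), hef]
    have hsplit : ∀ u, ∀ y ∈ D u, Q y = 1 →
        y ∈ Submodule.span F {a u, v u} ∨ (QuadraticMap.polar Q y (a u) = 0 ∧ QuadraticMap.polar Q y (v u) = 0) := by
      intro u y hy hyQ
      set r := QuadraticMap.polar Q y (v u)
      set s := QuadraticMap.polar Q y (a u)
      set z := y - r • a u - s • v u with hzdef
      have hzD : z ∈ D u := sub_mem (sub_mem hy ((D u).smul_mem _ (ha u))) ((D u).smul_mem _ (hv u))
      have haa : QuadraticMap.polar Q (a u) (a u) = 0 := by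
        rw [QuadraticMap.polar_self, haQ, nsmul_eq_mul, Nat.cast_ofNat, h2, zero_mul]
      have hvv : QuadraticMap.polar Q (v u) (v u) = 0 := by
        rw [QuadraticMap.polar_self, hvQ, nsmul_eq_mul, Nat.cast_ofNat, h2, zero_mul]
      have hza : QuadraticMap.polar Q z (a u) = 0 := by
        rw [hzdef, QuadraticMap.polar_sub_left, QuadraticMap.polar_sub_left, QuadraticMap.polar_smul_left,
          QuadraticMap.polar_smul_left, QuadraticMap.polar_comm Q (v u) (a u), hav, haa]
        simp [s]
      have hzv : QuadraticMap.polar Q z (v u) = 0 := by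
        rw [hzdef, QuadraticMap.polar_sub_left, QuadraticMap.polar_sub_left, QuadraticMap.polar_smul_left,
          QuadraticMap.polar_smul_left, hav, hvv]
        simp [r]
      by_cases hz0 : z = 0
      · left
        rw [hzdef, sub_sub, sub_eq_zero] at hz0
        rw [hz0]
        exact add_mem (Submodule.smul_mem _ _ (Submodule.subset_span (by simp)))
          (Submodule.smul_mem _ _ (Submodule.subset_span (by simp)))
      right
      -- the complementary plane is anisotropic
      have hu'D : u' u ∈ D u := hu'def u ▸ add_mem (he' u) (hf' u)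
      have hv'D : v' u ∈ D u := hv'def u ▸ add_mem (add_mem (he u) (hf u)) (he' u)
      have hspan : Submodule.span F (Set.range ![a u, v u, u' u, v' u]) = D u := by
        have hli : LinearIndependent F ![a u, v u, u' u, v' u] := by
          refine Fintype.linearIndependent_iff.2 fun c hc => ?_
          have k1 := congrArg (QuadraticMap.polar Q (e u)) hc
          have k2 := congrArg (QuadraticMap.polar Q (f u)) hc
          have k3 := congrArg (QuadraticMap.polar Q (e' u)) hc
          have k4 := congrArg (QuadraticMap.polar Q (f' u)) hc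
          simp [Fin.sum_univ_four, hadef, hvdef, hu'def, hv'def, QuadraticMap.polar_add_right, QuadraticMap.polar_self,
            heQ, hfQ, he'Q, hf'Q, hef, he'f', hee', hef', hfe', hff', QuadraticMap.polar_comm Q (e' u) (e u),
            QuadraticMap.polar_comm Q (f' u) (e u), QuadraticMap.polar_comm Q (e' u) (f u),
            QuadraticMap.polar_comm Q (f' u) (f u), QuadraticMap.polar_comm Q (f u) (e u),
            QuadraticMap.polar_comm Q (f' u) (e' u)] at k1 k2 k3 k4
          intro w; fin_cases w
          · show c 0 = 0; linear_combination k1 - k4 + k3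
          · show c 1 = 0; linear_combination k2 - k1
          · show c 2 = 0; linear_combination k3 - k2 + k1
          · show c 3 = 0; linear_combination k4 - k3
        refine Submodule.eq_of_le_of_finrank_le (Submodule.span_le.2 ?_) ?_
        · rintro w ⟨j, rfl⟩
          fin_cases j
          exacts [ha u, hv u, hu'D, hv'D]
        · rw [hD.decomp.decomp.finrank_eq, hk, finrank_span_eq_card hli]; simp
      obtain ⟨c, hc⟩ := Submodule.mem_span_range_iff_exists_fun F |>.1 (hspan.symm ▸ hzD : z ∈ Submodule.span F (Set.range ![a u, v u, u' u, v' u]))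
      rw [Fin.sum_univ_four] at hc
      simp only [Matrix.cons_val_zero, Matrix.cons_val_one, Matrix.cons_val_two, Matrix.cons_val_three,
        Matrix.head_cons, Matrix.tail_cons] at hc
      have p1 : QuadraticMap.polar Q (u' u) (a u) = 0 := by
        simp [hu'def, hadef, QuadraticMap.polar_add_left, QuadraticMap.polar_comm Q (e' u),
          QuadraticMap.polar_comm Q (f' u), hee', hef', hfe', hff']
      have p2 : QuadraticMap.polar Q (v' u) (a u) = 0 := by
        simp [hv'def, hadef, QuadraticMap.polar_add_left, QuadraticMap.polar_self, heQ, hfQ, hef,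
          QuadraticMap.polar_comm Q (e' u), QuadraticMap.polar_comm Q (f u) (e u), hee', hfe']
        linear_combination h2
      have q1 : Q (u' u) = 1 := by rw [hu'def, QuadraticMap.map_add (⇑Q), he'Q, hf'Q, he'f', zero_add, zero_add]
      have p3 : QuadraticMap.polar Q (u' u) (v u) = 0 := by
        rw [hvdef, ← hu'def, QuadraticMap.polar_add_right, QuadraticMap.polar_self, q1, hu'def,
          QuadraticMap.polar_add_left, QuadraticMap.polar_comm Q (e' u) (e u), QuadraticMap.polar_comm Q (f' u) (e u),
          hee', hef', add_zero, add_zero, nsmul_one, Nat.cast_ofNat, h2]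
      have p4 : QuadraticMap.polar Q (v' u) (v u) = 0 := by
        simp [hv'def, hvdef, QuadraticMap.polar_add_left, QuadraticMap.polar_self, heQ, he'Q, hef, hee', hef',
          hfe', hff', he'f', QuadraticMap.polar_comm Q (e' u) (e u), QuadraticMap.polar_comm Q (f u) (e u)]
        linear_combination h2
      have q2 : Q (v' u) = 1 := by
        simp [hv'def, QuadraticMap.map_add (⇑Q), QuadraticMap.polar_add_left, heQ, hfQ, hef, he'Q, hee', hfe']
      have q3 : QuadraticMap.polar Q (u' u) (v' u) = 1 := by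
        simp [hu'def, hv'def, QuadraticMap.polar_add_left, QuadraticMap.polar_add_right, QuadraticMap.polar_self, he'Q,
          QuadraticMap.polar_comm Q (e' u) (e u), QuadraticMap.polar_comm Q (f' u) (e u),
          QuadraticMap.polar_comm Q (e' u) (f u), QuadraticMap.polar_comm Q (f' u) (f u),
          QuadraticMap.polar_comm Q (f' u) (e' u), hee', hef', hfe', hff', he'f']
      rw [← hc] at hza hzv
      simp only [QuadraticMap.polar_add_left, QuadraticMap.polar_smul_left, p1, p2, p3, p4, haa, hvv, hav,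
        QuadraticMap.polar_comm Q (v u) (a u), smul_eq_mul, mul_zero, mul_one, add_zero, zero_add] at hza hzv
      rw [hza, hzv, zero_smul, zero_smul, zero_add, zero_add] at hc
      have hQz : Q z = 1 := by
        rw [← hc, QuadraticMap.map_add (⇑Q), QuadraticMap.map_smul, QuadraticMap.map_smul, QuadraticMap.polar_smul_left,
          QuadraticMap.polar_smul_right, q1, q2, q3]
        rcases hF hq (c 2) with h | h <;> rcases hF hq (c 3) with h' | h' <;> simp only [h, h', zero_smul, zero_add,
          add_zero, smul_eq_mul, mul_zero, mul_one, one_mul, zero_mul] at hc ⊢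
        · exact absurd hc.symm hz0
        · linear_combination h2
      have hyz : y = (r • a u + s • v u) + z := by rw [hzdef]; abel
      have hzW : QuadraticMap.polar Q (r • a u + s • v u) z = 0 := by
        rw [QuadraticMap.polar_add_left, QuadraticMap.polar_smul_left, QuadraticMap.polar_smul_left,
          QuadraticMap.polar_comm Q (a u) z, QuadraticMap.polar_comm Q (v u) z, ← hc]
        simp [QuadraticMap.polar_add_left, p1, p2, p3, p4]
      rw [hyz, QuadraticMap.map_add (⇑Q) _ z, hQz, hzW, QuadraticMap.map_add (⇑Q), QuadraticMap.map_smul,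
        QuadraticMap.map_smul, QuadraticMap.polar_smul_left, QuadraticMap.polar_smul_right, haQ, hvQ, hav] at hyQ
      simp only [smul_eq_mul, mul_one, add_zero] at hyQ
      show s = 0 ∧ r = 0
      rcases hF hq r with h | h <;> rcases hF hq s with h' | h' <;> rw [h, h'] at hyQ
      · exact ⟨h', h⟩
      all_goals exact absurd (show (1 : F) = 0 by first | linear_combination hyQ | linear_combination hyQ - h2) one_ne_zero
    refine ⟨CfsgLib.GeoNonMax.fixFun (CfsgLib.GeoNonMax.frameFun Q D 1) ⊓ Cfsg.Geo.omegaGL Q, ?_, hframe_lt⟩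
    refine lt_of_le_not_ge (le_inf (fun g hg => ?_) inf_le_right) fun hle => ?_
    · have key : ∀ g ∈ Cfsg.Geo.decompositionStabilizer D ⊓ Cfsg.Geo.omegaGL Q, ∀ x,
          CfsgLib.GeoNonMax.InFrame Q D 1 x →
          CfsgLib.GeoNonMax.InFrame Q D 1 ((g : Matrix (Fin n) (Fin n) F).mulVec x) := by
        rintro g ⟨⟨σ, hσ⟩, hgO⟩ x ⟨c, hc, hx⟩
        exact ⟨σ c, by rw [← hσ c]; exact ⟨x, hc, Matrix.toLin'_apply _ _⟩, by
          rw [(CfsgLib.GeoOrth.polar_omega hgO).1, hx]⟩
      exact CfsgLib.GeoNonMax.mem_fix_frame (key g hg) (key _ (inv_mem hg))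
    obtain ⟨dd, hdd⟩ : ∃ d, d = a i + a j := ⟨_, rfl⟩
    obtain ⟨aa, haa'⟩ : ∃ d, d = v i + v j := ⟨_, rfl⟩
    have hd : Q dd = 0 := by
      rw [hdd, QuadraticMap.map_add (⇑Q), haQ, haQ, horth i j hij _ (ha i) _ (ha j), one_add_one_eq_two, h2, add_zero]
    have haQ' : Q aa = 0 := by
      rw [haa', QuadraticMap.map_add (⇑Q), hvQ, hvQ, horth i j hij _ (hv i) _ (hv j), one_add_one_eq_two, h2, add_zero]
    have hda : QuadraticMap.polar Q dd aa = 0 := by
      rw [hdd, haa', QuadraticMap.polar_add_left, QuadraticMap.polar_add_right, QuadraticMap.polar_add_right,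
        hav, hav, horth i j hij _ (ha i) _ (hv j), horth j i hij.symm _ (ha j) _ (hv i), add_zero, zero_add,
        one_add_one_eq_two, h2]
    obtain ⟨g, hgO, hg⟩ := CfsgLib.GeoOrth.exists_isRoot hnd hn5 hd haQ' hda
    have hpm : ∀ x y : Fin n → F, x - y = x + y := fun x y => by
      rw [sub_eq_add_neg, ← neg_one_smul F y, show (-1 : F) = 1 by linear_combination (-1 : F) * h2, one_smul]
    have htwo : ∀ x : Fin n → F, x + x = 0 := fun x => by rw [← two_smul F, h2, zero_smul]
    have hsw : ∀ c₁ c₂, c₁ ≠ c₂ → ∀ (r s : F), QuadraticMap.polar Q (v c₁ + v c₂) (r • a c₁ + s • v c₁) = r ∧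
        QuadraticMap.polar Q (a c₁ + a c₂) (r • a c₁ + s • v c₁) = s := by
      intro c₁ c₂ h r s
      constructor <;>
        simp [QuadraticMap.polar_add_left, QuadraticMap.polar_add_right, QuadraticMap.polar_self, haQ, hvQ,
          horth c₂ c₁ h.symm _ (hv c₂) _ (ha c₁), horth c₂ c₁ h.symm _ (hv c₂) _ (hv c₁),
          horth c₂ c₁ h.symm _ (ha c₂) _ (ha c₁), horth c₂ c₁ h.symm _ (ha c₂) _ (hv c₁),
          QuadraticMap.polar_comm Q (v c₁) (a c₁), hav, h2, one_add_one_eq_two]
    have hzero : ∀ c, c ≠ i → c ≠ j → ∀ x ∈ D c, QuadraticMap.polar Q aa x = 0 ∧ QuadraticMap.polar Q dd x = 0 :=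
      fun c hci hcj x hx => by
        simp [haa', hdd, QuadraticMap.polar_add_left, horth i c (Ne.symm hci) _ (hv i) x hx,
          horth j c (Ne.symm hcj) _ (hv j) x hx, horth i c (Ne.symm hci) _ (ha i) x hx,
          horth j c (Ne.symm hcj) _ (ha j) x hx]
    have hmv : ∀ x, CfsgLib.GeoNonMax.InFrame Q D 1 x →
        CfsgLib.GeoNonMax.InFrame Q D 1 ((g : Matrix (Fin n) (Fin n) F).mulVec x) := by
      rintro x ⟨c, hc, hx⟩
      suffices h : ∃ c', (g : Matrix (Fin n) (Fin n) F).mulVec x ∈ D c' by
        obtain ⟨c', hc'⟩ := h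
        exact ⟨c', hc', by rw [(CfsgLib.GeoOrth.polar_omega hgO).1, hx]⟩
      rw [hg]
      by_cases hcij : c = i ∨ c = j
      swap
      · push Not at hcij
        exact ⟨c, by rw [(hzero c hcij.1 hcij.2 x hc).1, (hzero c hcij.1 hcij.2 x hc).2]; simpa using hc⟩
      rcases hsplit c x hc hx with hx' | ⟨hxa, hxv⟩
      · obtain ⟨r, s, rfl⟩ := Submodule.mem_span_pair.1 hx'
        rcases hcij with rfl | rfl
        · refine ⟨j, ?_⟩
          rw [haa', hdd, (hsw c j hij r s).1, (hsw c j hij r s).2, hpm, smul_add, smul_add,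
            show r • a c + s • v c + (r • a c + r • a j) + (s • v c + s • v j) =
              (r • a j + s • v j) + ((r • a c + s • v c) + (r • a c + s • v c)) by abel, htwo, add_zero]
          exact add_mem ((D j).smul_mem _ (ha j)) ((D j).smul_mem _ (hv j))
        · refine ⟨i, ?_⟩
          rw [haa', hdd, add_comm (v i), add_comm (a i), (hsw c i hij.symm r s).1, (hsw c i hij.symm r s).2, hpm,
            smul_add, smul_add,
            show r • a c + s • v c + (r • a c + r • a i) + (s • v c + s • v i) =
              (r • a i + s • v i) + ((r • a c + s • v c) + (r • a c + s • v c)) by abel, htwo, add_zero]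
          exact add_mem ((D i).smul_mem _ (ha i)) ((D i).smul_mem _ (hv i))
      · refine ⟨c, ?_⟩
        have h1 : QuadraticMap.polar Q aa x = 0 ∧ QuadraticMap.polar Q dd x = 0 := by
          rcases hcij with rfl | rfl
          · simp [haa', hdd, QuadraticMap.polar_add_left, QuadraticMap.polar_comm Q (v c) x, hxv,
              QuadraticMap.polar_comm Q (a c) x, hxa, horth j c hij.symm _ (hv j) x hc, horth j c hij.symm _ (ha j) x hc]
          · simp [haa', hdd, QuadraticMap.polar_add_left, QuadraticMap.polar_comm Q (v c) x, hxv,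
              QuadraticMap.polar_comm Q (a c) x, hxa, horth i c hij _ (hv i) x hc, horth i c hij _ (ha i) x hc]
        rw [h1.1, h1.2]; simpa using hc
    have hgg : g * g = 1 := by
      refine CfsgLib.GeoFull.gl_ext fun z => ?_
      rw [Units.val_mul, ← Matrix.mulVec_mulVec, hg, hg, Units.val_one, Matrix.one_mulVec]
      simp only [QuadraticMap.polar_add_right, QuadraticMap.polar_sub_right, QuadraticMap.polar_smul_right,
        QuadraticMap.polar_self, QuadraticMap.polar_comm Q aa dd, hda, hd, haQ', smul_eq_mul, nsmul_zero, mul_zero,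
        add_zero, sub_zero]
      linear_combination (norm := module) congrArg (fun r => r • (QuadraticMap.polar Q aa z • dd -
        QuadraticMap.polar Q dd z • aa)) h2
    have hin : g ∈ CfsgLib.GeoNonMax.fixFun (CfsgLib.GeoNonMax.frameFun Q D 1) :=
      CfsgLib.GeoNonMax.mem_fix_frame hmv (by rwa [inv_eq_of_mul_eq_one_right hgg])
    obtain ⟨σ, hσ⟩ := (hle ⟨hin, hgO⟩).1
    have hu'0 : u' i ≠ 0 := fun h => by
      have := congrArg (QuadraticMap.polar Q (e' i)) h
      simp [hu'def, QuadraticMap.polar_add_right, QuadraticMap.polar_self, he'Q, he'f'] at this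
    have hu'D : u' i ∈ D i := hu'def i ▸ add_mem (he' i) (hf' i)
    have e1 : a j ∈ D (σ i) := by
      rw [← hσ i]
      refine ⟨a i, ha i, ?_⟩
      have h1 : QuadraticMap.polar Q aa (a i) = 1 := by rw [haa']; simpa using (hsw i j hij 1 0).1
      have h2' : QuadraticMap.polar Q dd (a i) = 0 := by rw [hdd]; simpa using (hsw i j hij 1 0).2
      rw [Matrix.toLin'_apply, hg, h1, h2', zero_smul, sub_zero, one_smul, hdd, ← add_assoc, htwo, zero_add]
    have e2 : u' i ∈ D (σ i) := by
      rw [← hσ i]
      refine ⟨u' i, hu'D, ?_⟩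
      have h1 : QuadraticMap.polar Q aa (u' i) = 0 := by
        simp [haa', hu'def, hvdef, QuadraticMap.polar_add_left, QuadraticMap.polar_add_right, QuadraticMap.polar_self,
          he'Q, hf'Q, he'f', hee', hef', QuadraticMap.polar_comm Q (f' i) (e' i),
          horth j i hij.symm _ (he' j) _ (he' i), horth j i hij.symm _ (he' j) _ (hf' i),
          horth j i hij.symm _ (hf' j) _ (he' i), horth j i hij.symm _ (hf' j) _ (hf' i),
          horth j i hij.symm _ (he j) _ (he' i), horth j i hij.symm _ (he j) _ (hf' i)]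
        linear_combination h2
      have h2' : QuadraticMap.polar Q dd (u' i) = 0 := by
        simp [hdd, hu'def, hadef, QuadraticMap.polar_add_left, QuadraticMap.polar_add_right, hee', hef', hfe', hff',
          horth j i hij.symm _ (he j) _ (he' i), horth j i hij.symm _ (he j) _ (hf' i),
          horth j i hij.symm _ (hf j) _ (he' i), horth j i hij.symm _ (hf j) _ (hf' i)]
      rw [Matrix.toLin'_apply, hg, h1, h2']
      simp
    by_cases hc : σ i = i
    · exact (hne j).2.2 (CfsgLib.GeoDecomp.eq_zero_of_mem hD.decomp.decomp hij (hc ▸ e1) (ha j))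
    · exact hu'0 (CfsgLib.GeoDecomp.eq_zero_of_mem hD.decomp.decomp hc e2 hu'D)

end Cfsg.Agent.S5693
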