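import Cfsg.Statements.S5697
import Cfsg.Agent.GeoLib.OmegaRoots
import Cfsg.Agent.GeoLib.Decomp
import Cfsg.Agent.GeoLib.HermFull

set_option autoImplicit false
open Cfsg

namespace Cfsg.Agent.S5697

/-- Let F be a finite field with q elements, n ≥ 13 even, Q a non-degenerate quadratic form on F^n of plus type (some subspace of dimension n/2 is totally singular), and Ω the commutator subgroup of the isometry group of Q, viewed inside GL_n(F). Suppose n/2 is even and let D be a decomposition of F^n into two complementary subspaces of dimension n/2 on each of which Q vanishes. Then the elements of Ω preserving or interchanging the two subspaces form a maximal subgroup of Ω. -/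
theorem result {F : Type*} [Field F] [Fintype F] {n : ℕ} (hn : 13 ≤ n) (heven : Even n) (Q : (Fin n → F) → F) (hQ : Cfsg.Geo.IsNondegenerateQuadraticForm Q) (hplus : Cfsg.Geo.IsPlusTypeOn Q ⊤) (k : ℕ) (hk : 2 * k = n) (hke : Even k) (D : Fin 2 → Submodule F (Fin n → F)) (hD : Cfsg.Geo.IsMDecomposition k D) (hts : ∀ i, Cfsg.Geo.IsTotallySingularQuad Q (D i)) : Cfsg.Geo.IsMaximalIn (Cfsg.Geo.omegaGL Q) (Cfsg.Geo.decompositionStabilizer D ⊓ Cfsg.Geo.omegaGL Q) := by
  classical
  obtain ⟨Q, rfl, hnd⟩ := CfsgLib.Forms.exists_quadForm hQ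
  obtain ⟨π, hπmem, hπsum, hπid, hπ0⟩ := CfsgLib.GeoDecomp.exists_proj hD
  have hV : Module.finrank F (Fin n → F) = n := Module.finrank_fin_fun F
  have hcard5 : 5 ≤ Fintype.card (Fin n) := by simp; omega
  have hk8 : 8 ≤ k := by obtain ⟨r, rfl⟩ := hke; omega
  let B := QuadraticMap.polarBilin Q
  have hB : ∀ u v, B u v = QuadraticMap.polar Q u v := fun u v => rfl
  have hsym : ∀ u v, B u v = B v u := fun u v => QuadraticMap.polar_comm Q u v
  have hcomm : ∀ {u v}, B u v = 0 → B v u = 0 := fun h => by rw [hsym]; exact h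
  have hBnd : ∀ x, (∀ y, B x y = 0) → x = 0 := fun x h => hnd.1 x h
  let o : Fin 2 → Fin 2 := Equiv.swap 0 1
  have ho : ∀ i, o i ≠ i ∧ o (o i) = i := by decide
  have hsplit : ∀ i x, π i x + π (o i) x = x := by
    intro i x
    conv_rhs => rw [← hπsum x]
    rw [Fin.sum_univ_two]
    fin_cases i
    · rfl
    · show π 1 x + π (o 1) x = _
      rw [show o 1 = 0 by decide, add_comm]
  have hts' : ∀ i, ∀ x ∈ D i, ∀ y ∈ D i, B x y = 0 := fun i x hx y hy =>
    CfsgLib.Forms.polar_eq_zero_of_singular (hts i) hx hy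
  -- the pairing
  have hpair : ∀ i, ∀ x ∈ D i, (∀ y ∈ D (o i), B x y = 0) → x = 0 := fun i x hx h => hBnd x fun y => by
    rw [← hsplit i y, map_add, hts' i x hx _ (hπmem i y), h _ (hπmem _ y), add_zero]
  have hsep : ∀ i, ∀ (S : Submodule F (Fin n → F)), ∀ x ∈ D (o i), x ∉ S → S ≤ D (o i) →
      ∃ y ∈ D i, (∀ s ∈ S, B s y = 0) ∧ B x y = 1 := by
    intro i S x hx hxS hS
    obtain ⟨y, hy, hxy⟩ := CfsgLib.Forms.exists_polar_eq_one hnd hxS
    have hy' : ∀ s ∈ S, B s y = 0 := fun s hs => hcomm (CfsgLib.Forms.mem_perp.1 hy s hs)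
    have e : ∀ s ∈ D (o i), B s y = B s (π i y) := fun s hs => by
      conv_lhs => rw [← hsplit i y]
      rw [map_add, hts' (o i) s hs _ (hπmem _ y), add_zero]
    exact ⟨π i y, hπmem i y, fun s hs => by rw [← e s (hS hs)]; exact hy' s hs, by rw [← e x hx]; exact hxy⟩
  set S := Cfsg.Geo.omegaGL ⇑Q with hS
  set G := Cfsg.Geo.decompositionStabilizer D ⊓ S with hG
  have hex : ∀ d a, Q d = 0 → Q a = 0 → B d a = 0 → ∃ g ∈ S, CfsgLib.GeoOrth.IsRoot Q d a g := fun d a h1 h2 h3 =>
    CfsgLib.GeoOrth.exists_isRoot hnd hcard5 h1 h2 h3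
  have hSRG : ∀ i, ∀ x ∈ D i, ∀ y ∈ D (o i), B x y = 0 → CfsgLib.GeoOrth.RootIn Q G x y := by
    intro i x hx y hy hxy g hg
    refine ⟨CfsgLib.GeoDecomp.mem_stabilizer hD fun j => ⟨j, fun z hz => ?_⟩, ?_⟩
    · rw [hg, ← hB, ← hB]
      rcases eq_or_ne j i with rfl | hji
      · rw [hts' _ x hx z hz, zero_smul, sub_zero]; exact add_mem hz (Submodule.smul_mem _ _ hx)
      · have hj : j = o i := (show ∀ a b : Fin 2, b ≠ a → b = o a by decide) i j hji
        subst hj
        rw [hts' _ y hy z hz, zero_smul, add_zero]; exact sub_mem hz (Submodule.smul_mem _ _ hy)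
    · obtain ⟨g', hg', e⟩ := hex x y (hts i x hx) (hts _ y hy) hxy
      rwa [CfsgLib.GeoOrth.isRoot_unique hg e]
  have hne : ∀ i, ∃ x ∈ D i, x ≠ 0 := fun i => (D i).exists_mem_ne_zero_of_ne_bot fun h => by
    have := hD.finrank_eq i; rw [h, finrank_bot] at this; omega
  have hcut : ∀ (W : Submodule F (Fin n → F)) (φ : Module.Dual F (Fin n → F)),
      Module.finrank F W ≤ Module.finrank F ↥(W ⊓ LinearMap.ker φ) + 1 := fun W φ => by
    have h1 := Submodule.finrank_sup_add_finrank_inf_eq W (LinearMap.ker φ)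
    have h2 := φ.finrank_range_add_finrank_ker
    have h3 := Submodule.finrank_le (LinearMap.range φ)
    have h4 := Submodule.finrank_le (W ⊔ LinearMap.ker φ)
    simp at h3
    omega
  have hspan2 : ∀ a b : Fin n → F, Module.finrank F (Submodule.span F ({a, b} : Set (Fin n → F))) ≤ 2 :=
    fun a b => CfsgLib.GeoHerm.finrank_pair_le a b
  refine ⟨lt_of_le_not_ge inf_le_right fun hle => ?_, fun M hGM hMS => ?_⟩
  · obtain ⟨d, hd, hd0⟩ := hne 0
    obtain ⟨v, ⟨hv, hvd⟩, hv0⟩ := Submodule.exists_mem_ne_zero_of_ne_bot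
      (p := D 1 ⊓ LinearMap.ker (B d)) fun h => by
        have := hcut (D 1) (B d)
        rw [h, finrank_bot, hD.finrank_eq] at this; omega
    obtain ⟨g, hgO, -, hgv, -⟩ := CfsgLib.Forms.exists_omega_not_mem hnd hcard5 (hts 0 d hd)
      (show QuadraticMap.polar Q v d = 0 from hcomm hvd) hv hv0
      (fun h => hd0 (CfsgLib.GeoDecomp.eq_zero_of_mem hD (by decide : (0 : Fin 2) ≠ 1) hd h))
    obtain ⟨σ, hσ⟩ := (hle hgO).1
    have hmem : v + d ∈ D (σ 1) := by
      rw [← hσ 1]
      exact ⟨v, hv, by simpa using hgv⟩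
    rcases (by decide : ∀ a : Fin 2, a = 0 ∨ a = 1) (σ 1) with h | h
    · rw [h] at hmem
      exact hv0 (CfsgLib.GeoDecomp.eq_zero_of_mem hD (by decide : (0 : Fin 2) ≠ 1) (by simpa using sub_mem hmem hd) hv)
    · rw [h] at hmem
      exact hd0 (CfsgLib.GeoDecomp.eq_zero_of_mem hD (by decide : (0 : Fin 2) ≠ 1) hd (by simpa using sub_mem hmem hv))
  by_cases hle : M ≤ Cfsg.Geo.decompositionStabilizer D
  · exact Or.inl (le_antisymm (le_inf hle hMS) hGM)
  refine Or.inr (le_antisymm hMS (CfsgLib.GeoOrth.omegaGL_le_of_roots hnd hcard5 ?_))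
  obtain ⟨g, hg, hgn⟩ := SetLike.not_le_iff_exists.1 hle
  let gM : (Fin n → F) →ₗ[F] (Fin n → F) := Matrix.toLin' (g : Matrix (Fin n) (Fin n) F)
  have hgMv : ∀ v, gM v = (g : Matrix (Fin n) (Fin n) F).mulVec v := fun v => Matrix.toLin'_apply _ _
  have hgMi : Function.Injective gM := fun a b e => Matrix.mulVec_injective_of_isUnit g.isUnit (by simpa [gM] using e)
  have hgB : ∀ u v, B (gM u) (gM v) = B u v := fun u v => by
    rw [hgMv, hgMv]; exact (CfsgLib.GeoOrth.polar_omega (hMS hg)).2 u v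
  have hgQ : ∀ u, Q (gM u) = Q u := fun u => by
    rw [hgMv]; exact (CfsgLib.GeoOrth.polar_omega (hMS hg)).1 u
  -- a mixed image of a pure vector
  obtain ⟨l₀, d₀, hd₀, hmix⟩ : ∃ l₀, ∃ d₀ ∈ D l₀, ∀ i, π i (gM d₀) ≠ 0 := by
    by_contra hall
    push Not at hall
    refine hgn (CfsgLib.GeoDecomp.mem_stabilizer hD fun l => ?_)
    have hcase : ∀ v ∈ D l, ∃ i, gM v ∈ D i := fun v hv => by
      obtain ⟨i, hi⟩ := hall l v hv
      exact ⟨o i, by rw [← hsplit i (gM v), hi, zero_add]; exact hπmem _ _⟩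
    obtain ⟨v₀, hv₀, hv₀0⟩ := hne l
    obtain ⟨i, hi⟩ := hcase v₀ hv₀
    refine ⟨i, fun v hv => ?_⟩
    obtain ⟨j, hj⟩ := hcase v hv
    rcases eq_or_ne j i with rfl | hji
    · exact hj
    obtain ⟨j', hj'⟩ := hcase _ (add_mem hv hv₀)
    rw [map_add] at hj'
    rcases eq_or_ne j' i with rfl | hj'i
    · exact (Submodule.add_mem_iff_left _ hi).1 hj'
    · have hjj : j' = j := (show ∀ a b c : Fin 2, b ≠ a → c ≠ a → c = b by decide) i j j' hji hj'i
      rw [hjj] at hj'
      exact absurd (CfsgLib.GeoDecomp.eq_zero_of_mem hD hji ((Submodule.add_mem_iff_right _ hj).1 hj') hi)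
        fun h => hv₀0 (hgMi (by rw [h, map_zero]))
  -- a new root element
  obtain ⟨i, d, hd, hd0, y, hy0, hdy, hyout, hyM⟩ : ∃ i, ∃ d ∈ D i, d ≠ 0 ∧ ∃ y, Q y = 0 ∧ B d y = 0 ∧
      π i y ∉ Submodule.span F {d} ∧ CfsgLib.GeoOrth.RootIn Q M d y := by
    by_contra hnone
    push Not at hnone
    -- vectors orthogonal to the images
    let A : Fin 2 → (Fin n → F) → Submodule F (Fin n → F) := fun i d =>
      D (o l₀) ⊓ LinearMap.ker (B d₀) ⊓ LinearMap.ker ((B d).comp gM)
    have hchoose : ∀ i, ∃ d ∈ D i, π i (gM d₀) ∉ Submodule.span F {d} ∧ B d (gM d₀) = 0 ∧ d ≠ 0 := by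
      intro i
      set p := π i (gM d₀)
      obtain ⟨d, hd, hdp⟩ : ∃ d ∈ D i ⊓ LinearMap.ker (B (gM d₀)), d ∉ Submodule.span F {p} := by
        by_contra hall
        push Not at hall
        have h1 := hcut (D i) (B (gM d₀))
        have h2 := (Submodule.finrank_mono (show D i ⊓ LinearMap.ker (B (gM d₀)) ≤ Submodule.span F {p} from hall)).trans_eq
          (finrank_span_singleton (hmix i))
        rw [hD.finrank_eq] at h1
        omega
      refine ⟨d, hd.1, fun hp => hdp ?_, hcomm hd.2, fun h => hdp (by rw [h]; exact zero_mem _)⟩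
      obtain ⟨c, hc⟩ := Submodule.mem_span_singleton.1 hp
      have hc0 : c ≠ 0 := fun h0 => hmix i (show p = 0 by rw [← hc, h0, zero_smul])
      rw [← hc]
      exact Submodule.mem_span_singleton.2 ⟨c⁻¹, by rw [smul_smul, inv_mul_cancel₀ hc0, one_smul]⟩
    choose d hd hdp hdq hdne using hchoose
    have hA : ∀ i, ∀ a₀ ∈ A i (d i), π i (gM a₀) ∈ Submodule.span F {d i, π i (gM d₀)} := by
      intro i a₀ ha₀
      by_contra hout
      obtain ⟨a, ha, haS, hap⟩ := hsep (o i) (Submodule.span F {d i, π i (gM d₀)}) (π i (gM a₀))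
        (by rw [(ho i).2]; exact hπmem i _) hout
        (Submodule.span_le.2 (by
          rw [(ho i).2]
          rintro z (rfl | rfl)
          · exact hd i
          · exact hπmem i _))
      have hBπ : ∀ z, B z a = B (π i z) a := fun z => by
        conv_lhs => rw [← hsplit i z]
        rw [map_add, LinearMap.add_apply, hts' _ _ (hπmem (o i) z) a ha, add_zero]
      have e1 : B (d i) a = 0 := haS _ (Submodule.subset_span (by simp))
      have e2 : B (gM d₀) a = 0 := by rw [hBπ]; exact haS _ (Submodule.subset_span (by simp))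
      have e3 : B (gM a₀) a = 1 := by rw [hBπ]; exact hap
      have e4 : B (d i) (gM a₀) = 0 := ha₀.2
      have e5 : B d₀ a₀ = 0 := ha₀.1.2
      have hq : Q (gM d₀) = 0 := by rw [hgQ]; exact hts _ _ hd₀
      have hg' : CfsgLib.GeoOrth.RootIn Q M (gM d₀) (gM a₀) := by
        rw [hgMv, hgMv]
        exact CfsgLib.GeoOrth.rootIn_map hg (hMS hg) fun r hr => hGM (hSRG l₀ _ hd₀ _ ha₀.1.1 e5 r hr)
      have hr := CfsgLib.GeoOrth.rootIn_comm hnd hcard5 (M := M) (hts i _ (hd i)) (hts _ _ ha) hq
        (show Q (gM a₀) = 0 by rw [hgQ]; exact hts _ _ ha₀.1.1) e1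
        (show B (gM d₀) (gM a₀) = 0 by rw [hgB]; exact e5) (hdq i) e4 e2
        (fun r hr => hGM (hSRG i _ (hd i) _ ha e1 r hr)) hg'
      rw [← hB, e3] at hr
      refine hnone i (d i) (hd i) (hdne i) ((-1 : F) • gM d₀) ?_ ?_ ?_ hr
      · rw [QuadraticMap.map_smul, hq, smul_zero]
      · rw [map_smul, hdq i, smul_zero]
      · rw [map_smul, Submodule.smul_mem_iff _ (neg_ne_zero.2 one_ne_zero)]; exact hdp i
    -- the two failures contradict each other
    set X := Submodule.span F {d 0, π 0 (gM d₀)} ⊔ Submodule.span F {d 1, π 1 (gM d₀)}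
    set A' := A 0 (d 0) ⊓ LinearMap.ker ((B (d 1)).comp gM)
    have hA' : A'.map gM ≤ X := by
      rintro _ ⟨a, ha, rfl⟩
      rw [← hsplit 0 (gM a), show o 0 = (1 : Fin 2) by decide]
      exact Submodule.add_mem_sup (hA 0 a ha.1) (hA 1 a ⟨ha.1.1, ha.2⟩)
    have hd'X : gM d₀ ∈ X := by
      rw [← hsplit 0 (gM d₀), show o 0 = (1 : Fin 2) by decide]
      exact Submodule.add_mem_sup (Submodule.subset_span (by simp)) (Submodule.subset_span (by simp))
    have hd'A : gM d₀ ∉ A'.map gM := by
      rintro ⟨a, ha, e⟩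
      have := hgMi e
      subst this
      exact hmix 0 (by rw [CfsgLib.GeoDecomp.eq_zero_of_mem hD (ho l₀).1.symm hd₀ ha.1.1.1, map_zero, map_zero])
    have hlt := Submodule.finrank_lt_finrank_of_lt (lt_of_le_of_ne hA' fun h => hd'A (h ▸ hd'X))
    rw [← (Submodule.equivMapOfInjective gM hgMi A').finrank_eq] at hlt
    have hX : Module.finrank F X ≤ 4 := (Submodule.finrank_add_le_finrank_add_finrank _ _).trans
      (add_le_add (hspan2 _ _) (hspan2 _ _))
    have c1 := hcut (D (o l₀)) (B d₀)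
    have c2 := hcut (D (o l₀) ⊓ LinearMap.ker (B d₀)) ((B (d 0)).comp gM)
    have c3 := hcut (A 0 (d 0)) ((B (d 1)).comp gM)
    rw [hD.finrank_eq] at c1
    simp only [A] at c3
    simp only [A', A] at hlt
    omega
  -- a root element inside a member
  obtain ⟨e, he, hed, hdeM⟩ : ∃ e ∈ D i, e ∉ Submodule.span F {d} ∧ CfsgLib.GeoOrth.RootIn Q M d e := by
    obtain ⟨e, hei, hne'⟩ : ∃ e ∈ D i ⊓ LinearMap.ker (B y), e ∉ Submodule.span F {d, π i y} := by
      by_contra hall
      push Not at hall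
      have h1 := hcut (D i) (B y)
      have h2 := (Submodule.finrank_mono (show D i ⊓ LinearMap.ker (B y) ≤ Submodule.span F {d, π i y} from hall)).trans
        (hspan2 _ _)
      rw [hD.finrank_eq] at h1
      omega
    have hyde : π i y ∉ Submodule.span F {d, e} :=
      fun h => hne' (by
        obtain ⟨s, t, hst⟩ := Submodule.mem_span_pair.1 h
        have ht : t ≠ 0 := fun h0 => hyout (Submodule.mem_span_singleton.2 ⟨s, by rw [← hst, h0, zero_smul, add_zero]⟩)
        refine (Submodule.smul_mem_iff _ ht).1 ?_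
        rw [show t • e = π i y - s • d by rw [← hst, add_sub_cancel_left]]
        exact sub_mem (Submodule.subset_span (by simp)) (Submodule.smul_mem _ _ (Submodule.subset_span (by simp))))
    obtain ⟨u, hu, huS, hu1⟩ := hsep (o i) (Submodule.span F {d, e}) (π i y) (by rw [(ho i).2]; exact hπmem i y) hyde
      (Submodule.span_le.2 (by
        rw [(ho i).2]
        rintro z (rfl | rfl)
        · exact hd
        · exact hei.1))
    have heu : B e u = 0 := huS e (Submodule.subset_span (by simp))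
    have hdu : B d u = 0 := huS d (Submodule.subset_span (by simp))
    have hyu : B u y = 1 := by
      rw [hsym, ← hsplit i y, map_add, LinearMap.add_apply, hts' _ _ (hπmem (o i) y) u hu, add_zero, hu1]
    have hr := CfsgLib.GeoOrth.rootIn_comm hnd hcard5 (M := M) (hts i d hd) hy0 (hts i e hei.1) (hts _ u hu) hdy heu
      (hts' i d hd e hei.1) hdu (show B e y = 0 from hcomm hei.2) hyM
      (fun r hr => hGM (hSRG i e hei.1 u hu heu r hr))
    rw [← hB, hyu, neg_one_smul] at hr
    refine ⟨-e, neg_mem hei.1, fun h => hne' ?_, hr⟩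
    rw [← neg_neg e]
    exact Submodule.span_mono (by simp) (neg_mem h)
  -- every root element inside that member
  have hmove : ∀ d ∈ D i, ∀ e ∈ D i, e ∉ Submodule.span F {d} → d ≠ 0 → CfsgLib.GeoOrth.RootIn Q M d e →
      ∀ e' ∈ D i, CfsgLib.GeoOrth.RootIn Q M d e' := by
    intro d hd e he hed hd0 hde
    have key : ∀ e ∈ D i, e ∉ Submodule.span F {d} → CfsgLib.GeoOrth.RootIn Q M d e →
        ∀ e' ∈ D i, e' ∉ Submodule.span F {d, e} → CfsgLib.GeoOrth.RootIn Q M d e' := by
      intro e he hed hde e' he' hout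
      have hout' : e ∉ Submodule.span F {d, e' - e} := fun h => by
        obtain ⟨s, t, hst⟩ := Submodule.mem_span_pair.1 h
        rcases eq_or_ne t 0 with rfl | ht
        · exact hed (Submodule.mem_span_singleton.2 ⟨s, by rw [← hst, zero_smul, add_zero]⟩)
        · refine hout ((Submodule.smul_mem_iff _ ht).1 ?_)
          rw [show t • e' = -(s • d) + (1 + t) • e by linear_combination (norm := module) hst]
          exact add_mem (neg_mem (Submodule.smul_mem _ _ (Submodule.subset_span (by simp))))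
            (Submodule.smul_mem _ _ (Submodule.subset_span (by simp)))
      obtain ⟨v, hv, hvS, hv1⟩ := hsep (o i) (Submodule.span F {d, e' - e}) e (by rw [(ho i).2]; exact he) hout'
        (Submodule.span_le.2 (by
          rw [(ho i).2]
          rintro z (rfl | rfl)
          · exact hd
          · exact sub_mem he' he))
      have hxv : B (e' - e) v = 0 := hvS _ (Submodule.subset_span (by simp))
      obtain ⟨s, hsS, hs⟩ := hex (e' - e) v (hts i _ (sub_mem he' he)) (hts _ v hv) hxv
      have := CfsgLib.GeoOrth.rootIn_map (hGM (hSRG i _ (sub_mem he' he) v hv hxv s hs)) hsS hde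
      rw [hs, hs, ← hB, ← hB, ← hB, ← hB, hsym v d, hvS d (Submodule.subset_span (by simp)), hsym v e, hv1,
        hts' i _ (sub_mem he' he) d hd, hts' i _ (sub_mem he' he) e he] at this
      simpa using this
    intro e' he'
    by_cases h1 : e' ∈ Submodule.span F {d}
    · obtain ⟨c, rfl⟩ := Submodule.mem_span_singleton.1 h1
      intro r hr
      rw [show r = 1 from CfsgLib.GeoFull.gl_ext fun z => by
        rw [hr, Units.val_one, Matrix.one_mulVec, QuadraticMap.polar_smul_left, smul_eq_mul]; module]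
      exact one_mem M
    by_cases h2 : e' ∈ Submodule.span F {d, e}
    swap
    · exact key e he hed hde e' he' h2
    obtain ⟨f, hf, hfde⟩ : ∃ f ∈ D i, f ∉ Submodule.span F {d, e} := by
      by_contra hall
      push Not at hall
      have h3 := (Submodule.finrank_mono (show D i ≤ Submodule.span F {d, e} from hall)).trans (hspan2 _ _)
      rw [hD.finrank_eq] at h3
      omega
    have hfd : f ∉ Submodule.span F {d} := fun h => hfde (Submodule.span_mono (by simp) h)
    refine key f hf hfd (key e he hed hde f hf hfde) e' he' fun h => hfde ?_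
    obtain ⟨s, t, hst⟩ := Submodule.mem_span_pair.1 h
    have ht : t ≠ 0 := fun h0 => h1 (Submodule.mem_span_singleton.2 ⟨s, by rw [← hst, h0, zero_smul, add_zero]⟩)
    refine (Submodule.smul_mem_iff _ ht).1 ?_
    rw [show t • f = e' - s • d by rw [← hst, add_sub_cancel_left]]
    exact sub_mem h2 (Submodule.smul_mem _ _ (Submodule.subset_span (by simp)))
  have hall := hmove d hd e he hed hd0 hdeM
  have hDi : ∀ a ∈ D i, ∀ b ∈ D i, CfsgLib.GeoOrth.RootIn Q M a b := by
    intro a ha
    have hnd' : ∀ a ∈ D i, a ∉ Submodule.span F {d} → ∀ b ∈ D i, CfsgLib.GeoOrth.RootIn Q M a b := by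
      intro a ha had
      refine hmove a ha (-d) (neg_mem hd) ?_ (fun h => had (by rw [h]; exact zero_mem _))
        (CfsgLib.GeoOrth.rootIn_swap (hall a ha))
      intro h
      obtain ⟨c, hc⟩ := Submodule.mem_span_singleton.1 h
      have hc0 : c ≠ 0 := fun h0 => hd0 (neg_eq_zero.1 (by rw [← hc, h0, zero_smul]))
      exact had (Submodule.mem_span_singleton.2 ⟨-c⁻¹, by
        rw [neg_smul, ← smul_neg, ← hc, smul_smul, inv_mul_cancel₀ hc0, one_smul]⟩)
    by_cases had : a ∈ Submodule.span F {d}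
    · rcases eq_or_ne a 0 with rfl | ha0
      · intro b _ r hr
        rw [show r = 1 from CfsgLib.GeoFull.gl_ext fun z => by
          rw [hr, Units.val_one, Matrix.one_mulVec, QuadraticMap.polar_zero_left]; simp]
        exact one_mem M
      obtain ⟨c, hc⟩ := Submodule.mem_span_singleton.1 had
      have hea : e ∉ Submodule.span F {a} := fun h => hed (by
        obtain ⟨c', hc'⟩ := Submodule.mem_span_singleton.1 h
        rw [← hc', ← hc]; exact Submodule.smul_mem _ _ (Submodule.smul_mem _ _ (Submodule.mem_span_singleton_self d)))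
      refine hmove a ha (-e) (neg_mem he) (fun h => hea (by simpa using neg_mem h)) ha0
        (CfsgLib.GeoOrth.rootIn_swap (hnd' e he hed a ha))
    · exact hnd' a ha had
  -- interchanging the members
  obtain ⟨J, hJG, hJ⟩ : ∃ J ∈ G, ∀ l, ∀ x ∈ D l, (J : Matrix (Fin n) (Fin n) F).mulVec x ∈ D (o l) := by
    let bas := Module.finBasis F (D 0)
    let p : (Fin n → F) →ₗ[F] D 0 := (π 0).codRestrict (D 0) (hπmem 0)
    choose u hu using fun j => CfsgLib.Forms.exists_dual_vec hnd ((bas.coord j).comp p)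
    let w : Fin (Module.finrank F (D 0)) → (Fin n → F) := fun j => bas j
    have hw : ∀ j, w j ∈ D 0 := fun j => (bas j).2
    have hp0 : ∀ x ∈ D 1, p x = 0 := fun x hx => Subtype.ext (hπ0 0 1 (by decide) x hx)
    have hu1 : ∀ j, ∀ x, B (u j) x = bas.repr (p x) j := fun j x => hu j x
    have huD : ∀ j, u j ∈ D 1 := by
      intro j
      have h0 : π 0 (u j) = 0 := hpair 0 _ (hπmem 0 _) fun z hz => by
        have hz1 : z ∈ D 1 := by rwa [show o 0 = 1 by decide] at hz
        have e : B (u j) z = 0 := by rw [hu1, hp0 z hz1]; simp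
        rw [← hsplit 0 (u j), map_add, LinearMap.add_apply, hts' _ _ (hπmem _ _) z hz, add_zero] at e
        exact e
      rw [← hsplit 0 (u j), h0, zero_add, show o 0 = 1 by decide]
      exact hπmem 1 _
    have huw : ∀ j l, B (u j) (w l) = if l = j then 1 else 0 := fun j l => by
      rw [hu1, show p (w l) = bas l from Subtype.ext (hπid 0 _ (hw l)), bas.repr_self, Finsupp.single_apply]
    have hwu : ∀ j l, B (w l) (u j) = if l = j then 1 else 0 := fun j l => by rw [hsym, huw]
    have hπ0' : ∀ x, ∑ j, B (u j) x • w j = π 0 x := fun x => by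
      have h := congrArg Subtype.val (bas.sum_repr (p x))
      rw [Submodule.coe_sum] at h
      simp only [Submodule.coe_smul] at h
      rw [show π 0 x = (p x : Fin n → F) from rfl]
      simpa [hu1, w] using h
    have hπ1' : ∀ x, ∑ j, B (w j) x • u j = π 1 x := fun x => by
      refine (sub_eq_zero.1 (hpair 1 _ (sub_mem (hπmem 1 x) (Submodule.sum_mem _ fun j _ => Submodule.smul_mem _ _ (huD j))) ?_)).symm
      intro z hz
      rw [show o 1 = 0 by decide] at hz
      refine hcomm ?_
      have hbz : z = ∑ j, B (u j) z • w j := by rw [hπ0' z, hπid 0 z hz]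
      have hw0 : ∀ j, B (w j) (π 1 x - ∑ l, B (w l) x • u l) = 0 := fun j => by
        have e : B (w j) x = B (w j) (π 1 x) := by
          conv_lhs => rw [← hsplit 0 x]
          rw [map_add, hts' 0 _ (hw j) _ (hπmem 0 x), zero_add, show o 0 = 1 by decide]
        simp [hwu, ← e]
      rw [hbz, map_sum, LinearMap.sum_apply]
      exact Finset.sum_eq_zero fun j _ => by rw [map_smul, LinearMap.smul_apply, hw0, smul_zero]
    have hQv : ∀ j, Q (w j - u j) = -1 := fun j => by
      rw [CfsgLib.Forms.map_sub', hts 0 _ (hw j), hts 1 _ (huD j), ← hB, hwu, if_pos rfl]; ring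
    let v : Fin (Module.finrank F (D 0)) → {z : Fin n → F // Q z ≠ 0} := fun j =>
      ⟨w j - u j, by rw [hQv]; exact neg_ne_zero.2 one_ne_zero⟩
    have horth : ∀ j l, j ≠ l → B (w j - u j) (w l - u l) = 0 := fun j l hjl => by
      simp only [map_sub, LinearMap.sub_apply, hwu, huw, if_neg hjl, if_neg (Ne.symm hjl), hts' 0 _ (hw j) _ (hw l),
        hts' 1 _ (huD j) _ (huD l), sub_zero]
    have hprod : ∀ l : List (Fin (Module.finrank F (D 0))), l.Nodup → ∀ z,
        CfsgLib.Forms.reflProd Q (l.map v) z = z + (l.map fun j => B z (w j - u j) • (w j - u j)).sum := by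
      intro l
      induction l with
      | nil =>
        intro _ z
        show z = z + _
        simp
      | cons j l ih =>
        intro hl z
        rw [List.nodup_cons] at hl
        show CfsgLib.Forms.refl Q (w j - u j) (v j).2 (CfsgLib.Forms.reflProd Q (l.map v) z) = _
        rw [ih hl.2, CfsgLib.Forms.refl_apply]
        have h0 : B (l.map fun j' => B z (w j' - u j') • (w j' - u j')).sum (w j - u j) = 0 := by
          rw [map_list_sum, List.map_map]
          have := hl.1
          clear ih hl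
          induction l with
          | nil => simp
          | cons a l ih =>
            simp only [List.mem_cons, not_or] at this
            rw [List.map_cons, List.sum_cons, LinearMap.add_apply, ih this.2, Function.comp_apply, map_smul,
              LinearMap.smul_apply, horth a j (Ne.symm this.1), smul_zero, add_zero]
        rw [List.map_cons, List.sum_cons, hQv, QuadraticMap.polar_add_left, ← hB, ← hB, h0, add_zero, inv_neg_one]
        module
    have hk' : Module.finrank F (D 0) = k := hD.finrank_eq 0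
    obtain ⟨J, hJO, hJv⟩ := CfsgLib.Forms.exists_omegaGL (CfsgLib.Forms.reflProd_mem_commutator hnd
      ((List.finRange (Module.finrank F (D 0))).map v)
      (by rw [List.length_map, List.length_finRange, hk']; exact hke)
      (by
        rw [CfsgLib.Forms.valueProd, List.map_map,
          List.map_congr_left (g := fun _ => (-1 : F)) (fun j _ => show ((fun u : {z : Fin n → F // Q z ≠ 0} => Q u.1) ∘ v) j = -1 from hQv j), List.map_const', List.prod_replicate,
          List.length_finRange, hk', hke.neg_one_pow]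
        exact IsSquare.one))
    have hdec : ∀ x, ∑ j, (B (u j) x • w j + B (w j) x • u j) = x := fun x => by
      rw [Finset.sum_add_distrib, hπ0', hπ1']
      exact hsplit 0 x
    have hJL : ∀ x, (J : Matrix (Fin n) (Fin n) F).mulVec x = ∑ j, (B (u j) x • u j + B (w j) x • w j) := fun x => by
      rw [hJv]
      show CfsgLib.Forms.reflProd Q _ x = _
      rw [hprod _ (List.nodup_finRange _), ← List.ofFn_eq_map, List.sum_ofFn]
      conv_lhs => enter [1]; rw [← hdec x]
      rw [← Finset.sum_add_distrib]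
      refine Finset.sum_congr rfl fun j _ => ?_
      rw [map_sub, hsym x (w j), hsym x (u j)]
      module
    have hJD : ∀ l, ∀ x ∈ D l, (J : Matrix (Fin n) (Fin n) F).mulVec x ∈ D (o l) := by
      intro l x hx
      rw [hJL]
      refine Submodule.sum_mem _ fun j _ => ?_
      fin_cases l
      · rw [hts' 0 _ (hw j) x hx, zero_smul, add_zero]; exact Submodule.smul_mem _ _ (huD j)
      · rw [hts' 1 _ (huD j) x hx, zero_smul, zero_add]; exact Submodule.smul_mem _ _ (hw j)
    exact ⟨J, ⟨CfsgLib.GeoDecomp.mem_stabilizer hD fun l => ⟨o l, hJD l⟩, hJO⟩, hJD⟩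
  have hDo : ∀ a ∈ D (o i), ∀ b ∈ D (o i), CfsgLib.GeoOrth.RootIn Q M a b := fun a ha b hb => by
    have hmap : (D i).map (Matrix.toLin' (J : Matrix (Fin n) (Fin n) F)) = D (o i) := by
      refine Submodule.eq_of_le_of_finrank_le ?_ ?_
      · rintro _ ⟨z, hz, rfl⟩
        exact hJ i z hz
      · rw [← (Submodule.equivMapOfInjective _ (fun a b e => Matrix.mulVec_injective_of_isUnit J.isUnit e) (D i)).finrank_eq,
          hD.finrank_eq, hD.finrank_eq]
    rw [← hmap] at ha hb
    obtain ⟨x, hx, rfl⟩ := ha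
    obtain ⟨z, hz, rfl⟩ := hb
    exact CfsgLib.GeoOrth.rootIn_map (hGM hJG) hJG.2 (hDi x hx z hz)
  -- roots centred in the member
  have hbase : ∀ d ∈ D i, ∀ a, Q a = 0 → B d a = 0 → CfsgLib.GeoOrth.RootIn Q M d a := by
    intro d hd a ha hda
    have h2 : B d (π (o i) a) = 0 := by
      rwa [← hsplit i a, map_add, hts' i d hd _ (hπmem i a), zero_add] at hda
    have h12 : B (π i a) (π (o i) a) = 0 := by
      rw [← hsplit i a, QuadraticMap.map_add (⇑Q), hts i _ (hπmem i a), hts _ _ (hπmem _ a), zero_add, zero_add] at ha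
      exact ha
    rw [← hsplit i a]
    exact CfsgLib.GeoOrth.rootIn_add hnd hcard5 (hts i d hd) (hts i _ (hπmem i a)) (hts _ _ (hπmem _ a))
      (hts' i d hd _ (hπmem i a)) h2 h12 (hDi d hd _ (hπmem i a))
      (fun r hr => hGM (hSRG i d hd _ (hπmem _ a) h2 r hr))
  -- pushing a centre into the member
  have hpush : ∀ d1 ∈ D i, d1 ≠ 0 → ∀ d2 ∈ D (o i), B d1 d2 = 0 → ∀ a, Q a = 0 → B (d1 + d2) a = 0 →
      CfsgLib.GeoOrth.RootIn Q M (d1 + d2) a := by
    intro d1 hd1 hd10 d2 hd2 h12 a ha hda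
    obtain ⟨y, hy, hy1⟩ : ∃ y ∈ D (o i), B d1 y = 1 := by
      obtain ⟨y, hy, -, h⟩ := hsep (o i) ⊥ d1 (by rw [(ho i).2]; exact hd1) (by simpa using hd10) bot_le
      exact ⟨y, hy, h⟩
    obtain ⟨s, hsS, hs⟩ := hex (-d2) y (hts _ _ (neg_mem hd2)) (hts _ y hy) (hts' _ _ (neg_mem hd2) y hy)
    have hsd : (s : Matrix (Fin n) (Fin n) F).mulVec (d1 + d2) = d1 := by
      rw [hs, ← hB, ← hB]
      simp only [map_add, map_neg, LinearMap.neg_apply, hsym y d1, hy1, hts' _ y hy d2 hd2, hsym d2 d1, h12,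
        hts' _ d2 hd2 d2 hd2]
      simp
    have h := CfsgLib.GeoOrth.rootIn_map (inv_mem (hDo _ (neg_mem hd2) y hy s hs)) (inv_mem hsS)
      (hbase d1 hd1 ((s : Matrix (Fin n) (Fin n) F).mulVec a) (by rw [(CfsgLib.GeoOrth.polar_omega hsS).1]; exact ha)
        (by rw [← hsd, hB, (CfsgLib.GeoOrth.polar_omega hsS).2]; exact hda))
    have e : ((s⁻¹ : Matrix.GeneralLinearGroup (Fin n) F) : Matrix (Fin n) (Fin n) F).mulVec d1 = d1 + d2 := by
      conv_lhs => rw [← hsd]
      rw [CfsgLib.GeoFull.inv_mulVec_cancel]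
    rw [CfsgLib.GeoFull.inv_mulVec_cancel, e] at h
    exact h
  intro d a hd ha hda
  rw [← hB] at hda
  have hd12 : B (π i d) (π (o i) d) = 0 := by
    rw [← hsplit i d, QuadraticMap.map_add (⇑Q), hts i _ (hπmem i d), hts _ _ (hπmem _ d), zero_add, zero_add] at hd
    exact hd
  rw [← hsplit i d] at hda ⊢
  rcases ne_or_eq (π i d) 0 with h1 | h1
  · exact hpush _ (hπmem i d) h1 _ (hπmem _ d) hd12 a ha hda
  rw [h1, zero_add] at hda ⊢
  set d2 := π (o i) d
  have hd2 : d2 ∈ D (o i) := hπmem _ d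
  rcases eq_or_ne d2 0 with h2 | h2
  · intro r hr
    rw [show r = 1 from CfsgLib.GeoFull.gl_ext fun z => by
      rw [hr, h2, Units.val_one, Matrix.one_mulVec, QuadraticMap.polar_zero_left]; simp]
    exact one_mem M
  obtain ⟨y, hy, -, hy1⟩ := hsep i ⊥ d2 hd2 (by simpa using h2) bot_le
  obtain ⟨x, ⟨hx, hxd⟩, hx0⟩ := Submodule.exists_mem_ne_zero_of_ne_bot
    (p := D i ⊓ LinearMap.ker (B d2)) fun h => by
      have := hcut (D i) (B d2)
      rw [h, finrank_bot, hD.finrank_eq] at this; omega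
  obtain ⟨s, hsS, hs⟩ := hex x y (hts i x hx) (hts i y hy) (hts' i x hx y hy)
  have hxd' : B d2 x = 0 := hxd
  have hsd : (s : Matrix (Fin n) (Fin n) F).mulVec d2 = x + d2 := by
    rw [hs, ← hB, ← hB, hsym y d2, hy1, hsym x d2, hxd']
    simp [add_comm]
  have h := CfsgLib.GeoOrth.rootIn_map (inv_mem (hDi x hx y hy s hs)) (inv_mem hsS)
    (hpush x hx hx0 d2 hd2 (hcomm hxd') ((s : Matrix (Fin n) (Fin n) F).mulVec a)
      (by rw [(CfsgLib.GeoOrth.polar_omega hsS).1]; exact ha)
      (by rw [← hsd, hB, (CfsgLib.GeoOrth.polar_omega hsS).2]; exact hda))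
  have e' : ((s⁻¹ : Matrix.GeneralLinearGroup (Fin n) F) : Matrix (Fin n) (Fin n) F).mulVec (x + d2) = d2 := by
    rw [← hsd, CfsgLib.GeoFull.inv_mulVec_cancel]
  rw [CfsgLib.GeoFull.inv_mulVec_cancel, e'] at h
  exact h

end Cfsg.Agent.S5697
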