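import Cfsg.Statements.S5698
import Cfsg.Agent.Forms.GeoBridge

set_option autoImplicit false
open Cfsg

namespace Cfsg.Agent.S5698

/-- Let F be a finite field with q elements, n ≥ 13 even, Q a non-degenerate quadratic form on F^n of plus type (some subspace of dimension n/2 is totally singular), and Ω the commutator subgroup of the isometry group of Q, viewed inside GL_n(F). Suppose n/2 is odd and let D be a decomposition of F^n into two complementary subspaces of dimension n/2 on each of which Q vanishes. Then the elements of Ω preserving or interchanging the two subspaces form a subgroup that is not maximal: some subgroup lies strictly between it and Ω. -/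
theorem result {F : Type*} [Field F] [Fintype F] {n : ℕ} (hn : 13 ≤ n) (heven : Even n) (Q : (Fin n → F) → F) (hQ : Cfsg.Geo.IsNondegenerateQuadraticForm Q) (hplus : Cfsg.Geo.IsPlusTypeOn Q ⊤) (k : ℕ) (hk : 2 * k = n) (hko : Odd k) (D : Fin 2 → Submodule F (Fin n → F)) (hD : Cfsg.Geo.IsMDecomposition k D) (hts : ∀ i, Cfsg.Geo.IsTotallySingularQuad Q (D i)) : ∃ K : Subgroup (Matrix.GeneralLinearGroup (Fin n) F), Cfsg.Geo.decompositionStabilizer D ⊓ Cfsg.Geo.omegaGL Q < K ∧ K < Cfsg.Geo.omegaGL Q := by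
  obtain ⟨Q, rfl, hnd⟩ := CfsgLib.Forms.exists_quadForm hQ
  have hV : Module.finrank F (Fin n → F) = n := Module.finrank_fin_fun F
  have hcd : Nat.card F ≠ 2 ∨ Fintype.card (Fin n) ≠ 4 := Or.inr (by simp; omega)
  have hD0 : ∀ i, CfsgLib.Forms.IsMaxSingular Q (D i) := fun i =>
    ⟨by rw [hV, hD.finrank_eq i]; exact hk, hts i⟩
  have hdisj : ∀ {i j : Fin 2}, i ≠ j → D i ⊓ D j = ⊥ := fun hij =>
    disjoint_iff.1 (hD.indep.pairwiseDisjoint hij)
  have hkey : ∀ {i j : Fin 2}, i ≠ j → ∀ {v d : Fin n → F}, v ∈ D i → d ∈ D j → d ≠ 0 → v ≠ 0 →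
      d ∉ D i ∧ v + d ∉ D i ∧ v + d ∉ D j := by
    intro i j hij v d hv hd hd0 hv0
    have h1 : d ∉ D i := fun h => hd0 (by
      have : d ∈ D i ⊓ D j := ⟨h, hd⟩
      rwa [hdisj hij, Submodule.mem_bot] at this)
    refine ⟨h1, fun h => h1 (by simpa using (D i).sub_mem h hv), fun h => hv0 ?_⟩
    have : v ∈ D i ⊓ D j := ⟨hv, by simpa using (D j).sub_mem h hd⟩
    rwa [hdisj hij, Submodule.mem_bot] at this
  have hpair : ∀ i j : Fin 2, ∃ d v, d ∈ D j ∧ d ≠ 0 ∧ v ∈ D i ∧ v ≠ 0 ∧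
      QuadraticMap.polar Q v d = 0 := by
    intro i j
    obtain ⟨d, hd, hd0⟩ := (D j).exists_mem_ne_zero_of_ne_bot fun h => by
      have := hD.finrank_eq j; rw [h, finrank_bot] at this; omega
    let φ : D i →ₗ[F] F := ((QuadraticMap.polarBilin Q).flip d).comp (D i).subtype
    have hker : LinearMap.ker φ ≠ ⊥ := LinearMap.ker_ne_bot_of_finrank_lt (by
      rw [Module.finrank_self, hD.finrank_eq i]; omega)
    obtain ⟨v, hv, hv0⟩ := Submodule.exists_mem_ne_zero_of_ne_bot hker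
    exact ⟨d, v, hd, hd0, v.2, fun h => hv0 (Subtype.ext h), by simpa [φ] using hv⟩
  refine ⟨Cfsg.Geo.subspaceStabilizer (D 0) ⊓ Cfsg.Geo.omegaGL ⇑Q, ⟨?_, ?_⟩, ⟨inf_le_right, ?_⟩⟩
  · rintro g ⟨⟨σ, hσ⟩, hgO⟩
    refine ⟨?_, hgO⟩
    show g ∈ Cfsg.Geo.subspaceStabilizer (D 0)
    rw [CfsgLib.Forms.mem_subspaceStabilizer]
    obtain ⟨-, hpar⟩ := CfsgLib.Forms.omega_map_parity hnd hcd hgO (hD0 0)
    have e : (D 0).map (CfsgLib.Forms.glEquiv g : (Fin n → F) →ₗ[F] (Fin n → F)) = D (σ 0) := by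
      rw [← hσ 0]
      congr 1
    rw [e] at hpar ⊢
    rcases (by decide : ∀ a : Fin 2, a = 0 ∨ a = 1) (σ 0) with h | h
    · rw [h]
    · rw [h, hdisj (by decide : (0 : Fin 2) ≠ 1), finrank_bot, hD.finrank_eq 0] at hpar
      obtain ⟨r, rfl⟩ := hko
      omega
  · intro hle
    obtain ⟨d, v, hd, hd0, hv, hv0, hvd⟩ := hpair 1 0
    obtain ⟨hdX, hn1, hn0⟩ := hkey (by decide : (1 : Fin 2) ≠ 0) hv hd hd0 hv0
    obtain ⟨g, hgO, -, hgv, hgY⟩ := CfsgLib.Forms.exists_omega_not_mem hnd (by simp; omega) (hts 0 d hd)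
      hvd hv hv0 hdX
    obtain ⟨σ, hσ⟩ := (hle ⟨hgY (D 0) hd fun y hy =>
      CfsgLib.Forms.polar_eq_zero_of_singular (hts 0) hy hd, hgO⟩).1
    have hmem : v + d ∈ D (σ 1) := by
      rw [← hσ 1]
      exact ⟨v, hv, by simpa using hgv⟩
    rcases (by decide : ∀ a : Fin 2, a = 0 ∨ a = 1) (σ 1) with h | h
    · exact hn0 (h ▸ hmem)
    · exact hn1 (h ▸ hmem)
  · intro hle
    obtain ⟨d, v, hd, hd0, hv, hv0, hvd⟩ := hpair 0 1
    obtain ⟨hdX, -, -⟩ := hkey (by decide : (0 : Fin 2) ≠ 1) hv hd hd0 hv0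
    obtain ⟨g, hgO, hgU, -, -⟩ := CfsgLib.Forms.exists_omega_not_mem hnd (by simp; omega) (hts 1 d hd)
      hvd hv hv0 hdX
    exact hgU (hle hgO).1

end Cfsg.Agent.S5698
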