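import Cfsg.Statements.S5699
import Cfsg.Agent.GeoLib.OmegaSplitMax
import Cfsg.Agent.GeoLib.Decomp

set_option autoImplicit false
open Cfsg

namespace Cfsg.Agent.S5699

/-- Let F be a finite field with q elements, n ≥ 13 even, Q a non-degenerate quadratic form on F^n (of either type), and Ω the commutator subgroup of the isometry group of Q, viewed inside GL_n(F). Let D be a decomposition of F^n into two orthogonal subspaces of odd dimension n/2 on which the polar form is non-degenerate and which are not Q-isometric to each other. Then the elements of Ω permuting (necessarily fixing) the two subspaces form a maximal subgroup of Ω. -/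
theorem result {F : Type*} [Field F] [Fintype F] {n : ℕ} (hn : 13 ≤ n) (heven : Even n) (Q : (Fin n → F) → F) (hQ : Cfsg.Geo.IsNondegenerateQuadraticForm Q) (k : ℕ) (hk : 2 * k = n) (hko : Odd k) (D : Fin 2 → Submodule F (Fin n → F)) (hD : Cfsg.Geo.IsNondegenerateMDecomposition (QuadraticMap.polar Q) k D) (hni : ¬ Cfsg.Geo.AreIsometricFor Q (D 0) (D 1)) : Cfsg.Geo.IsMaximalIn (Cfsg.Geo.omegaGL Q) (Cfsg.Geo.decompositionStabilizer D ⊓ Cfsg.Geo.omegaGL Q) := by
  obtain ⟨Q, rfl, hnd⟩ := CfsgLib.Forms.exists_quadForm hQ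
  have hS := CfsgLib.GeoOrth.exists_split hnd (hD.nondegenerate 0)
  have hsum := Submodule.finrank_add_eq_of_isCompl hS.compl
  rw [Module.finrank_fin_fun, hD.decomp.finrank_eq] at hsum
  have hk7 : 7 ≤ k := by omega
  have hperp : D 1 = CfsgLib.Forms.perp Q (D 0) := Submodule.eq_of_le_of_finrank_le
    (fun v hv => CfsgLib.Forms.mem_perp.2 fun u hu => hD.orthogonal 1 0 (by decide) v hv u hu)
    (by rw [hD.decomp.finrank_eq]; omega)
  have hiso : ∀ g ∈ Cfsg.Geo.omegaGL ⇑Q, ¬ ∀ w ∈ D 0, (g : Matrix (Fin n) (Fin n) F).mulVec w ∈ D 1 := by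
    intro g hg hgW
    let L := Matrix.toLin' (g : Matrix (Fin n) (Fin n) F)
    have hLi : Function.Injective L := fun a b h => Matrix.mulVec_injective_of_isUnit g.isUnit (by simpa [L] using h)
    have hmap : (D 0).map L = D 1 := Submodule.eq_of_le_of_finrank_le
      (by rintro _ ⟨v, hv, rfl⟩; simpa [L] using hgW v hv)
      (by rw [← (Submodule.equivMapOfInjective L hLi (D 0)).finrank_eq, hD.decomp.finrank_eq, hD.decomp.finrank_eq])
    exact hni ⟨(Submodule.equivMapOfInjective L hLi (D 0)).trans (LinearEquiv.ofEq _ _ hmap), fun w => by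
      simpa [L] using (CfsgLib.GeoOrth.polar_omega hg).1 (w : Fin n → F)⟩
  have heq : Cfsg.Geo.decompositionStabilizer D ⊓ Cfsg.Geo.omegaGL ⇑Q =
      Cfsg.Geo.subspaceStabilizer (D 0) ⊓ Cfsg.Geo.omegaGL ⇑Q := by
    refine le_antisymm ?_ ?_
    · intro g hg
      refine ⟨?_, hg.2⟩
      obtain ⟨σ, hσ⟩ := hg.1
      have h : σ 0 = 0 := by
        rcases (by decide : ∀ a : Fin 2, a = 0 ∨ a = 1) (σ 0) with h | h
        · exact h
        · refine absurd (fun w hw => ?_) (hiso g hg.2)
          rw [← h, ← hσ 0]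
          exact ⟨w, hw, Matrix.toLin'_apply _ _⟩
      refine CfsgLib.Forms.mem_subspaceStabilizer_of_le fun w hw => ?_
      have hm : (g : Matrix (Fin n) (Fin n) F).mulVec w ∈ (D 0).map (Matrix.toLin' (g : Matrix (Fin n) (Fin n) F)) :=
        ⟨w, hw, Matrix.toLin'_apply _ _⟩
      rwa [hσ 0, h] at hm
    · intro g hg
      refine ⟨?_, hg.2⟩
      refine CfsgLib.GeoDecomp.mem_stabilizer hD.decomp fun i => ⟨i, fun x hx => ?_⟩
      rcases (by decide : ∀ a : Fin 2, a = 0 ∨ a = 1) i with rfl | rfl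
      · exact (hg.1 x).1 hx
      · rw [hperp] at hx ⊢
        exact ((hS.stabilizer_le hnd hg.1 hg.2) x).1 hx
  rw [heq]
  refine CfsgLib.GeoOrth.maximal_nondeg hnd (by simpa using hn) (fun h => ?_) (fun h => ?_) (hD.nondegenerate 0)
    (Or.inr (hperp ▸ hiso)) ?_
  · have := hD.decomp.finrank_eq 0; rw [h, finrank_bot] at this; omega
  · have := hD.decomp.finrank_eq 0; rw [h, finrank_top, Module.finrank_fin_fun] at this; omega
  rintro X (rfl | rfl) hX -
  · rw [hD.decomp.finrank_eq] at hX; omega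
  · omega

end Cfsg.Agent.S5699
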