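import Cfsg.Statements.S5700
import Cfsg.Agent.GeoLib.OmegaUnitary

set_option autoImplicit false
open Cfsg Matrix

namespace Cfsg.Agent.S5700

/-- Let F be a finite field with q elements, n ≥ 13 even, Q a non-degenerate quadratic form on F^n (of either type), and Ω the commutator subgroup of the isometry group of Q, viewed inside GL_n(F). Let K be a subfield of the algebra of n × n matrices over F containing the scalars, of degree 2 over F, closed under adjoints for the polar form of Q but not consisting of self-adjoint elements, and such that every k in K rescales Q (Q(k v) = c Q(v) for a constant c depending on k). Then the elements of Ω normalising K form a maximal subgroup of Ω. -/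
theorem result {F : Type*} [Field F] [Fintype F] {n : ℕ} (hn : 13 ≤ n) (heven : Even n) (Q : (Fin n → F) → F) (hQ : Cfsg.Geo.IsNondegenerateQuadraticForm Q) (K : Subalgebra F (Matrix (Fin n) (Fin n) F)) (hK : Cfsg.Geo.IsFieldSubalgebra 2 K) (hac : Cfsg.Geo.IsAdjointClosedFor (QuadraticMap.polar Q) K) (hnsa : ¬ Cfsg.Geo.IsSelfAdjointFor (QuadraticMap.polar Q) K) (hsc : ∀ k ∈ K, ∃ c : F, ∀ v : (Fin n → F), Q (Matrix.mulVec k v) = c * Q v) : Cfsg.Geo.IsMaximalIn (Cfsg.Geo.omegaGL Q) (Cfsg.Geo.subalgebraNormalizer K ⊓ Cfsg.Geo.omegaGL Q) := by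
  obtain ⟨Q, rfl, hnd⟩ := CfsgLib.Forms.exists_quadForm hQ
  haveI : Nontrivial (Fin n → F) := by
    haveI : Nonempty (Fin n) := ⟨⟨0, by omega⟩⟩
    infer_instance
  simp only [Cfsg.Geo.IsSelfAdjointFor, not_forall, exists_prop] at hnsa
  obtain ⟨k, hkK, u, v, huv⟩ := hnsa
  obtain ⟨k', hk'K, hadj⟩ := hac k hkK
  set B := QuadraticMap.polar ⇑Q with hB
  have hext : ∀ x y, (∀ z, B z x = B z y) → x = y := fun x y h => sub_eq_zero.1 (hnd.2 (x - y) fun z => by
    show B z (x - y) = 0
    rw [hB, QuadraticMap.polar_sub_right, ← hB, h, sub_self])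
  have hne1 : ∀ c : F, k ≠ c • 1 := fun c h => huv (by
    rw [h, Matrix.smul_mulVec, Matrix.one_mulVec, Matrix.smul_mulVec, Matrix.one_mulVec, hB,
      QuadraticMap.polar_smul_left, QuadraticMap.polar_smul_right])
  have hind : LinearIndependent F ![(1 : K), ⟨k, hkK⟩] := by
    refine LinearIndependent.pair_iff.2 fun s r hst => ?_
    have hst' : s • (1 : Matrix (Fin n) (Fin n) F) + r • k = 0 := congrArg Subtype.val hst
    rcases eq_or_ne r 0 with rfl | ht
    · haveI : Nonempty (Fin n) := ⟨⟨0, by omega⟩⟩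
      exact ⟨by simpa using hst', rfl⟩
    · exact absurd (show k = (-(r⁻¹ * s)) • 1 by
        linear_combination (norm := (match_scalars <;> field_simp <;> ring)) r⁻¹ • hst') (hne1 _)
  have hspan : ∀ x ∈ K, ∃ a b : F, x = a • 1 + b • k := by
    intro x hx
    haveI : FiniteDimensional F K := Module.finite_of_finrank_eq_succ hK.finrank_eq
    have htop := hind.span_eq_top_of_card_eq_finrank (by simp [hK.finrank_eq])
    have hxm : (⟨x, hx⟩ : K) ∈ Submodule.span F {(1 : K), ⟨k, hkK⟩} := by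
      rw [← Matrix.range_cons_cons_empty (1 : K) ⟨k, hkK⟩ ![], htop]; trivial
    obtain ⟨a, b, hab⟩ := Submodule.mem_span_pair.1 hxm
    exact ⟨a, b, (congrArg Subtype.val hab).symm⟩
  obtain ⟨α, t, hkk⟩ := hspan _ (mul_mem hkK hkK)
  obtain ⟨N, rfl⟩ : ∃ N, α = -N := ⟨-α, (neg_neg α).symm⟩
  have hsq : ∀ x, k *ᵥ (k *ᵥ x) = t • (k *ᵥ x) - N • x := fun x => by
    rw [Matrix.mulVec_mulVec, hkk, Matrix.add_mulVec, Matrix.smul_mulVec, Matrix.smul_mulVec, Matrix.one_mulVec]
    module
  -- the adjoint is the other root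
  have hk'sq : k' * k' = (-N) • 1 + t • k' := by
    refine Matrix.toLin'.injective (LinearMap.ext fun y => hext _ _ fun z => ?_)
    rw [Matrix.toLin'_apply, Matrix.toLin'_apply, ← Matrix.mulVec_mulVec, ← hadj, ← hadj, hsq, Matrix.add_mulVec,
      Matrix.smul_mulVec, Matrix.smul_mulVec, Matrix.one_mulVec]
    simp only [hB, QuadraticMap.polar_sub_left, QuadraticMap.polar_add_right, QuadraticMap.polar_smul_left,
      QuadraticMap.polar_smul_right]
    rw [← hB, hadj]
    simp only [smul_eq_mul]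
    ring
  have hk' : k' = t • 1 - k := by
    have h0 : (k' - k) * (k' + k - t • 1) = 0 := by
      simp only [sub_mul, mul_sub, mul_add, hkk, hk'sq, hK.comm k' hk'K k hkK, mul_smul_comm, mul_one]
      module
    have hne : k' - k ≠ 0 := fun h => huv (by rw [hadj, sub_eq_zero.1 h])
    obtain ⟨y, hy, hxy⟩ := hK.inv _ (sub_mem hk'K hkK) hne
    have := congrArg (fun z => y * z) h0
    rw [mul_zero, ← mul_assoc, hK.comm y hy _ (sub_mem hk'K hkK), hxy, one_mul] at this
    linear_combination (norm := module) this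
  have hadj2 : ∀ x y, B (k *ᵥ x) y = t * B x y - B x (k *ᵥ y) := fun x y => by
    rw [hadj, hk', Matrix.sub_mulVec, Matrix.smul_mulVec, Matrix.one_mulVec, hB, QuadraticMap.polar_sub_right,
      QuadraticMap.polar_smul_right, smul_eq_mul]
  obtain ⟨w₁, w₂, hw⟩ : ∃ w₁ w₂, B w₁ w₂ ≠ 0 := by
    obtain ⟨w₁, hw₁⟩ := exists_ne (0 : Fin n → F)
    by_contra! h
    exact hw₁ (hext _ _ fun z => by rw [h, hB, QuadraticMap.polar_zero_right])
  have hqk : ∀ x, Q (k *ᵥ x) = N * Q x := by
    obtain ⟨c, hc⟩ := hsc k hkK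
    suffices c = N by subst this; exact hc
    have h1 : B (k *ᵥ w₁) (k *ᵥ w₂) = c * B w₁ w₂ := by
      simp only [hB, QuadraticMap.polar, ← Matrix.mulVec_add, hc]; ring
    rw [hadj2, hsq, hB, QuadraticMap.polar_sub_right, QuadraticMap.polar_smul_right,
      QuadraticMap.polar_smul_right, smul_eq_mul, smul_eq_mul, sub_sub_cancel] at h1
    exact (mul_right_cancel₀ hw h1).symm
  have hdiag : ∀ x, B (k *ᵥ x) x = t * Q x := by
    obtain ⟨c, hc⟩ := hsc (k + 1) (add_mem hkK (one_mem K))
    have h0 : ∀ x, B (k *ᵥ x) x = (c - N - 1) * Q x := fun x => by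
      have := hc x
      rw [Matrix.add_mulVec, Matrix.one_mulVec, QuadraticMap.map_add (⇑Q), hqk] at this
      rw [hB]
      linear_combination this
    suffices c - N - 1 = t by intro x; rw [h0, this]
    refine mul_right_cancel₀ hw ?_
    have h3 := h0 (w₁ + w₂)
    rw [Matrix.mulVec_add, QuadraticMap.map_add (⇑Q)] at h3
    simp only [hB, QuadraticMap.polar_add_left, QuadraticMap.polar_add_right] at h3
    rw [← hB, h0, h0] at h3
    have h4 := hadj2 w₂ w₁
    rw [hB, QuadraticMap.polar_comm Q w₂ w₁, QuadraticMap.polar_comm Q w₂ (k *ᵥ w₁), ← hB] at h4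
    linear_combination -h3 + h4
  have hk : CfsgLib.GeoOrth.HermRoot Q k t N := by
    refine ⟨hadj2, hsq, hqk, hdiag, fun s hs => ?_⟩
    have h0 : (k + s • 1) * (k - (t + s) • 1) = 0 := by
      simp only [mul_sub, add_mul, mul_smul_comm, smul_mul_assoc, one_mul, mul_one, hkk]
      linear_combination (norm := module) (-hs) • (1 : Matrix (Fin n) (Fin n) F)
    have hA : k + s • 1 ≠ 0 := fun h => hne1 (-s) (by linear_combination (norm := module) h)
    have hAK := add_mem hkK (K.smul_mem (one_mem K) s)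
    obtain ⟨y, hy, hxy⟩ := hK.inv _ hAK hA
    have := congrArg (fun z => y * z) h0
    rw [mul_zero, ← mul_assoc, hK.comm y hy _ hAK, hxy, one_mul, sub_eq_zero] at this
    exact hne1 _ this
  have hin : ∀ h : GL (Fin n) F, CfsgLib.GeoOrth.HermRoot.Comm k h → h ∈ Cfsg.Geo.subalgebraNormalizer K := by
    intro h hh
    have hc : ∀ x ∈ K, (h : Matrix _ _ F) * x = x * (h : Matrix _ _ F) := by
      intro x hx
      obtain ⟨a, b, rfl⟩ := hspan x hx
      have : (h : Matrix _ _ F) * k = k * (h : Matrix _ _ F) := Matrix.toLin'.injective (LinearMap.ext fun x => by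
        rw [Matrix.toLin'_apply, Matrix.toLin'_apply, ← Matrix.mulVec_mulVec, ← Matrix.mulVec_mulVec, hh])
      simp [mul_add, add_mul, this]
    intro x
    constructor
    · intro hx
      rwa [hc x hx, Units.mul_inv_cancel_right]
    · intro hx
      have := hc _ hx
      rw [Units.inv_mul_cancel_right] at this
      rwa [(Units.mul_right_inj h).1 this] at hx
  have hnorm : ∀ g : GL (Fin n) F, g ∉ Cfsg.Geo.subalgebraNormalizer K → ∀ a b : F, ∃ x,
      (g : Matrix _ _ F) *ᵥ (k *ᵥ x) ≠ a • ((g : Matrix _ _ F) *ᵥ x) + b • (k *ᵥ ((g : Matrix _ _ F) *ᵥ x)) := by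
    intro g hg a b
    by_contra! hcon
    have hgJ : (g : Matrix _ _ F) * k = (a • 1 + b • k) * (g : Matrix _ _ F) :=
      Matrix.toLin'.injective (LinearMap.ext fun x => by
        rw [Matrix.toLin'_apply, Matrix.toLin'_apply, ← Matrix.mulVec_mulVec, ← Matrix.mulVec_mulVec, hcon,
          Matrix.add_mulVec, Matrix.smul_mulVec, Matrix.smul_mulVec, Matrix.one_mulVec])
    have hb : b ≠ 0 := by
      rintro rfl
      rw [zero_smul, add_zero, smul_mul_assoc, one_mul] at hgJ
      refine hne1 a ((Units.mul_right_inj g).1 ?_)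
      rw [hgJ, mul_smul_comm, mul_one]
    refine hg fun x => ⟨fun hx => ?_, fun hx => ?_⟩
    · obtain ⟨c, d, rfl⟩ := hspan x hx
      rw [mul_add, add_mul, mul_smul_comm, mul_smul_comm, smul_mul_assoc, smul_mul_assoc, mul_one,
        Units.mul_inv, hgJ, Units.mul_inv_cancel_right]
      exact add_mem (K.smul_mem (one_mem K) c)
        (K.smul_mem (add_mem (K.smul_mem (one_mem K) a) (K.smul_mem hkK b)) d)
    · obtain ⟨c, d, hcd⟩ := hspan _ hx
      have hx' : x = (↑g⁻¹ : Matrix _ _ F) * (c • 1 + d • k) * (↑g : Matrix _ _ F) := by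
        rw [← hcd, ← mul_assoc, ← mul_assoc, Units.inv_mul, one_mul, Units.inv_mul_cancel_right]
      have hJ' : (↑g⁻¹ : Matrix _ _ F) * k * (↑g : Matrix _ _ F) = b⁻¹ • (k - a • 1) := by
        rw [add_mul, smul_mul_assoc, smul_mul_assoc, one_mul] at hgJ
        rw [mul_assoc, show k * (↑g : Matrix _ _ F) = b⁻¹ • ((↑g : Matrix _ _ F) * k - a • (↑g : Matrix _ _ F)) by
          rw [hgJ, add_sub_cancel_left, smul_smul, inv_mul_cancel₀ hb, one_smul]]
        rw [mul_smul_comm, mul_sub, mul_smul_comm, ← mul_assoc, Units.inv_mul, one_mul]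
      rw [hx', mul_add, add_mul, mul_smul_comm, mul_smul_comm, smul_mul_assoc, smul_mul_assoc, mul_one,
        Units.inv_mul, hJ']
      exact add_mem (K.smul_mem (one_mem K) c)
        (K.smul_mem (K.smul_mem (sub_mem hkK (K.smul_mem (one_mem K) a)) _) d)
  have hn13 : 13 ≤ Fintype.card (Fin n) := by simpa using hn
  refine ⟨lt_of_le_not_ge inf_le_right fun hge => ?_, fun M hGM hMS => ?_⟩
  · obtain ⟨T, hT, hTout⟩ := CfsgLib.GeoOrth.HermRoot.exists_out hnd hn13 hk
    have hTN : T ∈ Cfsg.Geo.subalgebraNormalizer K := (hge hT).1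
    obtain ⟨a, b, hab⟩ := hspan _ ((hTN k).1 hkK)
    obtain ⟨x, hx⟩ := hTout a b
    refine hx ?_
    rw [Matrix.mulVec_mulVec, show (T : Matrix _ _ F) * k = (a • 1 + b • k) * (T : Matrix _ _ F) by
      rw [← hab, Units.inv_mul_cancel_right], ← Matrix.mulVec_mulVec, Matrix.add_mulVec, Matrix.smul_mulVec,
      Matrix.smul_mulVec, Matrix.one_mulVec]
  by_cases hle : M ≤ Cfsg.Geo.subalgebraNormalizer K
  · exact Or.inl (le_antisymm (le_inf hle hMS) hGM)
  obtain ⟨g, hg, hgn⟩ := SetLike.not_le_iff_exists.1 hle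
  exact Or.inr (le_antisymm hMS (CfsgLib.GeoOrth.HermRoot.omega_le hnd hn13 hk
    (fun h hS hh => hGM ⟨hin h hh, hS⟩) hg (hMS hg) (hnorm g hgn)))

end Cfsg.Agent.S5700
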