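import Cfsg.Statements.S5705
import Cfsg.Agent.GeoLib.TensorTools
import Cfsg.Agent.GeoLib.OmegaParabolic

set_option autoImplicit false
open Cfsg

namespace Cfsg.Agent.S5705

/-- Let F be the field with 2 elements, n = 2 n₂ ≥ 13 even, Q a non-degenerate quadratic form on F^n of plus type and Ω the commutator subgroup of its isometry group. Suppose that, through P and e, the polar form of Q is similar to the tensor product of non-degenerate symplectic forms f₁ on F^2 and f₂ on F^(n₂), and Q vanishes on the images of all pure tensors. Then the elements of Ω in the stabiliser of this tensor decomposition form a subgroup that is not maximal: some subgroup lies strictly between it and Ω. -/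
theorem result {F : Type*} [Field F] [Fintype F] {n : ℕ} (hn : 13 ≤ n) (heven : Even n) (Q : (Fin n → F) → F) (hQ : Cfsg.Geo.IsNondegenerateQuadraticForm Q) (hplus : Cfsg.Geo.IsPlusTypeOn Q ⊤) (hq : Fintype.card F = 2) (n₂ : ℕ) (h2 : 2 < n₂) (e : (Fin n) ≃ Fin 2 × Fin n₂) (P : Matrix.GeneralLinearGroup (Fin n) F) (f₁ : (Fin 2 → F) → (Fin 2 → F) → F) (f₂ : (Fin n₂ → F) → (Fin n₂ → F) → F) (hf₁ : Cfsg.Geo.IsSymplecticForm f₁) (hf₂ : Cfsg.Geo.IsSymplecticForm f₂) (hT : Cfsg.Geo.IsTensorFormStructure id (QuadraticMap.polar Q) f₁ f₂ e P) (hpure : (∀ (x₁ : Fin 2 → F) (x₂ : Fin n₂ → F), Q (Matrix.mulVec (P : Matrix (Fin n) (Fin n) F) ((fun a : Fin 2 × Fin n₂ => x₁ a.1 * x₂ a.2) ∘ e)) = 0)) : ∃ K : Subgroup (Matrix.GeneralLinearGroup (Fin n) F), Cfsg.Geo.tensorProductSubgroup 2 n₂ e P ⊓ Cfsg.Geo.omegaGL Q < K ∧ K < Cfsg.Geo.omegaGL Q := by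
  classical
  obtain ⟨Q, rfl, hnd⟩ := CfsgLib.Forms.exists_quadForm hQ
  have hn5 : 5 ≤ Fintype.card (Fin n) := by rw [Fintype.card_fin]; omega
  have hF : ∀ z : F, z = 0 ∨ z = 1 := by
    intro z
    by_contra hz
    push Not at hz
    have h3 : ({0, 1, z} : Finset F).card = 3 := by
      rw [Finset.card_insert_of_notMem (by simp [hz.1.symm]), Finset.card_pair hz.2.symm]
    have := Finset.card_le_univ ({0, 1, z} : Finset F)
    omega
  have h2' : (2 : F) = 0 := by
    have h0 : ((Fintype.card F : ℕ) : F) = 0 := FiniteField.cast_card_eq_zero F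
    rw [hq] at h0; exact_mod_cast h0
  have hone : ∀ z : F, z ≠ 0 → z = 1 := fun z hz => (hF z).resolve_left hz
  obtain ⟨⟨hl₁, hls₁, hr₁, hrs₁⟩, hskew₁, halt₁, hnd₁⟩ := hf₁
  obtain ⟨⟨hl₂, hls₂, hr₂, hrs₂⟩, hskew₂, halt₂, hnd₂⟩ := hf₂
  obtain ⟨c, hc, hf⟩ := CfsgLib.GeoTensor.form_pure (σ := RingHom.id F) (f := QuadraticMap.polar Q) (e := e) (P := P)
    (CfsgLib.GeoTensor.eq_gram hl₁ hls₁ hr₁ hrs₁) (CfsgLib.GeoTensor.eq_gram hl₂ hls₂ hr₂ hrs₂) hT
  obtain rfl := hone c hc
  obtain ⟨a, ha⟩ : ∃ a : Fin 2 → F, a = Pi.single 0 1 := ⟨_, rfl⟩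
  obtain ⟨b, hb⟩ : ∃ b : Fin 2 → F, b = Pi.single 1 1 := ⟨_, rfl⟩
  have hg₁ := CfsgLib.GeoTensor.eq_gram (σ := RingHom.id F) hl₁ hls₁ hr₁ hrs₁
  have hab : f₁ a b = 1 := by
    refine hone _ fun h0 => ?_
    obtain ⟨-, x, hx⟩ := hnd₁ a (fun h => by simpa [ha] using congrFun h 0)
    refine hx ?_
    rw [hg₁]
    simp [Fin.sum_univ_two, ha, halt₁, show f₁ (Pi.single 0 1) (Pi.single 1 1) = 0 by rw [← ha, ← hb, h0]]
  have haa : f₁ a a = 0 := halt₁ a
  have hba : f₁ b a = 1 := by rw [hskew₁, hab]; linear_combination (-1 : F) * h2'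
  have hbb : f₁ b b = 0 := halt₁ b
  have hQp : ∀ x y, Q (CfsgLib.GeoTensor.pure e P x y) = 0 := hpure
  have hf' : ∀ x y x' y', QuadraticMap.polar Q (CfsgLib.GeoTensor.pure e P x y) (CfsgLib.GeoTensor.pure e P x' y') =
      f₁ x x' * f₂ y y' := fun x y x' y' => by rw [hf, one_mul]
  -- three vectors of the second factor
  have hn₂ : 3 ≤ n₂ := h2
  obtain ⟨y, hy0⟩ : ∃ y : Fin n₂ → F, y ≠ 0 := ⟨Pi.single ⟨0, by omega⟩ 1, fun h => one_ne_zero (α := F)
    (by simpa using congrFun h ⟨0, by omega⟩)⟩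
  obtain ⟨-, w₀, hyw₀⟩ := hnd₂ y hy0
  have hyw₁ : f₂ y w₀ = 1 := hone _ hyw₀
  obtain ⟨z, hyz, hwz, hz0⟩ : ∃ z, f₂ y z = 0 ∧ f₂ w₀ z = 0 ∧ z ≠ 0 := by
    let L : (Fin n₂ → F) →ₗ[F] (F × F) :=
      { toFun := fun v => (f₂ y v, f₂ w₀ v), map_add' := fun u v => by simp [hr₂], map_smul' := fun r v => by simp [hrs₂] }
    obtain ⟨z, hz, hz0⟩ := (LinearMap.ker L).exists_mem_ne_zero_of_ne_bot fun h => by
      have h1 := L.finrank_range_add_finrank_ker
      have h4 := Submodule.finrank_le (LinearMap.range L)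
      rw [h, finrank_bot] at h1
      simp at h1 h4; omega
    exact ⟨z, congrArg Prod.fst hz, congrArg Prod.snd hz, hz0⟩
  have hzw : f₂ z w₀ = 0 := by rw [hskew₂, hwz, neg_zero]
  have hzy : f₂ z y = 0 := by rw [hskew₂, hyz, neg_zero]
  -- the element of order three of the first factor
  obtain ⟨α, hα⟩ : ∃ α : Matrix (Fin 2) (Fin 2) F, α = !![0, 1; 1, 1] := ⟨_, rfl⟩
  let M0 : Matrix (Fin n) (Fin n) F := Matrix.of fun i j => if (e i).2 = (e j).2 then α (e i).1 (e j).1 else 0
  have hPP : ∀ v, ((P⁻¹ : GL (Fin n) F) : Matrix (Fin n) (Fin n) F).mulVec ((P : Matrix (Fin n) (Fin n) F).mulVec v) = v :=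
    fun v => CfsgLib.GeoFull.inv_mulVec_cancel P v
  let Am : Matrix (Fin n) (Fin n) F := (P : Matrix (Fin n) (Fin n) F) * M0 * ((P⁻¹ : GL (Fin n) F) : Matrix (Fin n) (Fin n) F)
  have hAm : ∀ x u, Am.mulVec (CfsgLib.GeoTensor.pure e P x u) = CfsgLib.GeoTensor.pure e P (α.mulVec x) u := by
    intro x u
    simp only [Am, CfsgLib.GeoTensor.pure, ← Matrix.mulVec_mulVec, hPP]
    congr 1
    funext i
    simp only [Matrix.mulVec, dotProduct, M0, Matrix.of_apply]
    rw [← e.symm.sum_comp, Fintype.sum_prod_type, Finset.sum_mul]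
    simp [Finset.sum_ite_eq, mul_comm, mul_left_comm]
  have hspan : ∀ (G H : Matrix (Fin n) (Fin n) F), (∀ x u, G.mulVec (CfsgLib.GeoTensor.pure e P x u) =
      H.mulVec (CfsgLib.GeoTensor.pure e P x u)) → G = H := by
    intro G H h
    have h' : G * (P : Matrix (Fin n) (Fin n) F) = H * (P : Matrix (Fin n) (Fin n) F) := by
      refine Matrix.ext_of_mulVec_single fun i => ?_
      have := h (Pi.single (e i).1 1) (Pi.single (e i).2 1)
      have e1 : (fun j => (Pi.single (e i).1 (1 : F) : Fin 2 → F) (e j).1 * (Pi.single (e i).2 (1 : F) : Fin n₂ → F) (e j).2) =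
          Pi.single i 1 := by
        funext j
        rcases eq_or_ne j i with rfl | hj
        · simp
        · rcases eq_or_ne (e j).1 (e i).1 with h1 | h1
          · have h2 : (e j).2 ≠ (e i).2 := fun h2 => hj (e.injective (Prod.ext h1 h2))
            simp [hj, h2]
          · simp [hj, h1]
      simp only [CfsgLib.GeoTensor.pure, e1, Matrix.mulVec_mulVec] at this
      exact this
    exact (Units.mul_left_inj P).1 h'
  have hcases : ∀ x : Fin 2 → F, α.mulVec (α.mulVec (α.mulVec x)) = x := fun x => by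
    funext i
    fin_cases i <;> simp [hα, Matrix.mulVec, dotProduct, Fin.sum_univ_two]
    · linear_combination x 1 * h2'
    · linear_combination (x 0 + x 1) * h2'
  have hcube : Am * Am * Am = 1 := hspan _ _ fun x u => by
    rw [← Matrix.mulVec_mulVec, ← Matrix.mulVec_mulVec, hAm, hAm, hAm, hcases, Matrix.one_mulVec]
  obtain ⟨A, hA, hA2, hA3⟩ : ∃ A : GL (Fin n) F,
      (∀ x u, (A : Matrix (Fin n) (Fin n) F).mulVec (CfsgLib.GeoTensor.pure e P x u) =
        CfsgLib.GeoTensor.pure e P (α.mulVec x) u) ∧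
      (∀ x u, ((A⁻¹ : GL (Fin n) F) : Matrix (Fin n) (Fin n) F).mulVec (CfsgLib.GeoTensor.pure e P x u) =
        CfsgLib.GeoTensor.pure e P (α.mulVec (α.mulVec x)) u) ∧ A ^ 3 = 1 := by
    refine ⟨⟨Am, Am * Am, by rw [← mul_assoc, hcube], hcube⟩, hAm, fun x u => ?_, Units.ext ?_⟩
    · show (Am * Am).mulVec _ = _
      rw [← Matrix.mulVec_mulVec, hAm, hAm]
    · rw [pow_succ, pow_succ, pow_one, Units.val_mul, Units.val_mul]; exact hcube
  have hαa : α.mulVec a = b := by funext i; fin_cases i <;> simp [hα, ha, hb, Matrix.mulVec, dotProduct, Fin.sum_univ_two]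
  have hαb : α.mulVec b = a + b := by
    funext i; fin_cases i <;> simp [hα, ha, hb, Matrix.mulVec, dotProduct, Fin.sum_univ_two]
  let K : Subgroup (GL (Fin n) F) := Subgroup.normalizer ((Subgroup.zpowers A : Subgroup (GL (Fin n) F)) : Set (GL (Fin n) F))
  have hmemK : ∀ g, g * A * g⁻¹ = A ∨ g * A * g⁻¹ = A⁻¹ → g ∈ K := by
    intro g hg
    have h1 : (Subgroup.zpowers A).map (MulAut.conj g).toMonoidHom = Subgroup.zpowers A := by
      rw [MonoidHom.map_zpowers]
      rcases hg with h | h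
      · rw [show (MulAut.conj g).toMonoidHom A = A from h]
      · rw [show (MulAut.conj g).toMonoidHom A = A⁻¹ from h, Subgroup.zpowers_inv]
    refine Subgroup.mem_normalizer_iff.2 fun h => ?_
    constructor
    · exact fun hh => h1 ▸ Subgroup.mem_map_of_mem _ hh
    · intro hh
      rw [← h1] at hh
      obtain ⟨h', hh', e'⟩ := hh
      rwa [← (MulAut.conj g).injective e']
  have hK : ∀ g ∈ K, g * A * g⁻¹ ∈ Subgroup.zpowers A := fun g hg =>
    (Subgroup.mem_normalizer_iff.1 hg A).1 (Subgroup.mem_zpowers A)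
  have hpow : ∀ h ∈ Subgroup.zpowers A, h = 1 ∨ h = A ∨ h = A⁻¹ := by
    intro h hh
    obtain ⟨k, rfl⟩ := Subgroup.mem_zpowers_iff.1 hh
    rw [zpow_eq_zpow_emod' k hA3]
    have h0 := Int.emod_nonneg k (by norm_num : (3 : ℤ) ≠ 0)
    have h3 := Int.emod_lt_of_pos k (by norm_num : (0 : ℤ) < 3)
    have : k % 3 = 0 ∨ k % 3 = 1 ∨ k % 3 = 2 := by omega
    rcases this with e' | e' | e' <;> norm_num [e']
    exact Or.inr (Or.inr (eq_inv_of_mul_eq_one_left (by rw [← hA3]; group)))
  refine ⟨K ⊓ Cfsg.Geo.omegaGL Q, lt_of_le_not_ge (le_inf (fun g hg => ?_) inf_le_right) fun hle => ?_,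
    lt_of_le_not_ge inf_le_right fun hle => ?_⟩
  · obtain ⟨p, q, hpq⟩ := CfsgLib.GeoTensor.exists_factors hg.1
    refine hmemK g ?_
    have hpi : ∀ x, (p : Matrix (Fin 2) (Fin 2) F).mulVec (((p⁻¹ : GL (Fin 2) F) : Matrix (Fin 2) (Fin 2) F).mulVec x) = x :=
      CfsgLib.GeoFull.mulVec_inv_cancel p
    obtain ⟨B, hB⟩ : ∃ B, B = (p : Matrix (Fin 2) (Fin 2) F) * α * ((p⁻¹ : GL (Fin 2) F) : Matrix (Fin 2) (Fin 2) F) := ⟨_, rfl⟩
    have htr : B.trace = 1 := by
      rw [hB, Matrix.trace_mul_cycle, ← Units.val_mul, inv_mul_cancel, Units.val_one, one_mul, hα, Matrix.trace_fin_two]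
      simp
    have hdet : B.det = 1 := by
      rw [hB, Matrix.det_units_conj, hα, Matrix.det_fin_two]
      simp
      linear_combination (-1 : F) * h2'
    have hB' : B = α ∨ B = α * α := by
      rw [Matrix.trace_fin_two] at htr
      rw [Matrix.det_fin_two] at hdet
      have e11 : B 1 1 = 1 - B 0 0 := by linear_combination htr
      have h01 : B 0 1 = 1 ∧ B 1 0 = 1 := by
        rcases hF (B 0 0) with h0 | h0 <;> rw [e11, h0] at hdet <;>
          rcases hF (B 0 1) with h1 | h1 <;> rcases hF (B 1 0) with h1' | h1' <;> rw [h1, h1'] at hdet <;>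
          first | exact ⟨h1, h1'⟩ | exact absurd (show (1 : F) = 0 by linear_combination -hdet) one_ne_zero
      rcases hF (B 0 0) with h0 | h0
      · left; ext i j; fin_cases i <;> fin_cases j <;> simp [hα, h0, h01, e11]
      · right; ext i j; fin_cases i <;> fin_cases j <;>
          simp [hα, h0, h01, e11, Matrix.mul_apply, Fin.sum_univ_two]
        linear_combination (-1 : F) * h2'
    have key : ∀ x u, (g : Matrix (Fin n) (Fin n) F).mulVec ((A : Matrix (Fin n) (Fin n) F).mulVec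
        (CfsgLib.GeoTensor.pure e P x u)) = CfsgLib.GeoTensor.pure e P (B.mulVec ((p : Matrix (Fin 2) (Fin 2) F).mulVec x))
          ((q : Matrix (Fin n₂) (Fin n₂) F).mulVec u) := fun x u => by
      rw [hA, hpq, hB, ← Matrix.mulVec_mulVec, ← Matrix.mulVec_mulVec, CfsgLib.GeoFull.inv_mulVec_cancel]
    rcases hB' with hB' | hB'
    · left
      rw [mul_inv_eq_iff_eq_mul]
      refine Units.ext (hspan _ _ fun x u => ?_)
      rw [Units.val_mul, Units.val_mul, ← Matrix.mulVec_mulVec, ← Matrix.mulVec_mulVec, key, hpq, hA, hB']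
    · right
      rw [mul_inv_eq_iff_eq_mul]
      refine Units.ext (hspan _ _ fun x u => ?_)
      rw [Units.val_mul, Units.val_mul, ← Matrix.mulVec_mulVec, ← Matrix.mulVec_mulVec, key, hpq, hA2, hB',
        ← Matrix.mulVec_mulVec]
  · -- a root element along an invariant line
    obtain ⟨v, hv⟩ : ∃ v, v = CfsgLib.GeoTensor.pure e P a y + CfsgLib.GeoTensor.pure e P b z := ⟨_, rfl⟩
    obtain ⟨Av, hAv⟩ : ∃ Av, Av = CfsgLib.GeoTensor.pure e P b y + CfsgLib.GeoTensor.pure e P (a + b) z := ⟨_, rfl⟩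
    have hQv : Q v = 0 := by rw [hv, QuadraticMap.map_add (⇑Q), hQp, hQp, hf', hyz]; simp
    have hQAv : Q Av = 0 := by rw [hAv, QuadraticMap.map_add (⇑Q), hQp, hQp, hf', hyz]; simp
    have hvA : QuadraticMap.polar Q v Av = 0 := by
      rw [hv, hAv]
      simp only [QuadraticMap.polar_add_left, QuadraticMap.polar_add_right, hf', halt₂, hyz, hzy]
      ring
    obtain ⟨r, hrO, hr⟩ := CfsgLib.GeoOrth.exists_isRoot hnd hn5 hQv hQAv hvA
    have hAv' : (A : Matrix (Fin n) (Fin n) F).mulVec v = Av := by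
      rw [hv, hAv, Matrix.mulVec_add, hA, hA, hαa, hαb]
    have hneg : ∀ u : Fin n → F, -u = u := fun u => by
      rw [← neg_one_smul F u, show (-1 : F) = 1 by linear_combination (-1 : F) * h2', one_smul]
    have hAAv : (A : Matrix (Fin n) (Fin n) F).mulVec Av = v + Av := by
      rw [hv, hAv, Matrix.mulVec_add, hA, hA, hαb, Matrix.mulVec_add, hαa, hαb]
      simp only [CfsgLib.GeoTensor.pure_add_left]
      have : ∀ u : Fin n → F, u + u = 0 := fun u => by rw [← two_smul F, h2', zero_smul]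
      linear_combination (norm := module) this (CfsgLib.GeoTensor.pure e P b z) - this (CfsgLib.GeoTensor.pure e P b z)
    have hpolar : ∀ s t, QuadraticMap.polar Q ((A : Matrix (Fin n) (Fin n) F).mulVec s) ((A : Matrix (Fin n) (Fin n) F).mulVec t) =
        QuadraticMap.polar Q s t := by
      intro s t
      have h1 : ∀ x, (QuadraticMap.polarBilin Q).compl₁₂ (Matrix.toLin' (A : Matrix (Fin n) (Fin n) F))
          (Matrix.toLin' (A : Matrix (Fin n) (Fin n) F)) x = QuadraticMap.polarBilin Q x := by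
        have hd : ∀ x x', f₁ (α.mulVec x) (α.mulVec x') = f₁ x x' := fun x x' => by
          rw [hg₁, hg₁ x x']
          simp [Fin.sum_univ_two, hα, Matrix.mulVec, dotProduct, ← ha, ← hb, haa, hab, hba, hbb]
          linear_combination (x 1 * x' 1) * h2'
        intro x
        refine LinearMap.ext fun x' => ?_
        have hb1 : ∀ i j, QuadraticMap.polar Q ((A : Matrix (Fin n) (Fin n) F).mulVec ((P : Matrix (Fin n) (Fin n) F).mulVec (Pi.single i 1)))
            ((A : Matrix (Fin n) (Fin n) F).mulVec ((P : Matrix (Fin n) (Fin n) F).mulVec (Pi.single j 1))) =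
            QuadraticMap.polar Q ((P : Matrix (Fin n) (Fin n) F).mulVec (Pi.single i 1)) ((P : Matrix (Fin n) (Fin n) F).mulVec (Pi.single j 1)) := by
          intro i j
          have e1 : ∀ k, (P : Matrix (Fin n) (Fin n) F).mulVec (Pi.single k 1) =
              CfsgLib.GeoTensor.pure e P (Pi.single (e k).1 1) (Pi.single (e k).2 1) := fun k => by
            rw [CfsgLib.GeoTensor.pure]; congr 1
            funext l
            rcases eq_or_ne l k with rfl | hl
            · simp
            · rcases eq_or_ne (e l).1 (e k).1 with h1 | h1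
              · have h2 : (e l).2 ≠ (e k).2 := fun h2 => hl (e.injective (Prod.ext h1 h2))
                simp [hl, h2]
              · simp [hl, h1]
          rw [e1, e1, hA, hA, hf', hf', hd]
        rw [← CfsgLib.GeoFull.mulVec_inv_cancel P x, ← CfsgLib.GeoFull.mulVec_inv_cancel P x',
          pi_eq_sum_univ' (((P⁻¹ : GL (Fin n) F) : Matrix (Fin n) (Fin n) F).mulVec x),
          pi_eq_sum_univ' (((P⁻¹ : GL (Fin n) F) : Matrix (Fin n) (Fin n) F).mulVec x'), Matrix.mulVec_sum, Matrix.mulVec_sum]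
        simp only [Matrix.mulVec_smul, map_sum, map_smul, LinearMap.sum_apply, LinearMap.smul_apply,
          LinearMap.compl₁₂_apply, Matrix.toLin'_apply, QuadraticMap.polarBilin_apply_apply, hb1]
      exact LinearMap.congr_fun (h1 s) t
    have hcomm : r * A = A * r := by
      refine CfsgLib.GeoFull.gl_ext fun u => ?_
      rw [Units.val_mul, Units.val_mul, ← Matrix.mulVec_mulVec, ← Matrix.mulVec_mulVec, hr, hr, Matrix.mulVec_sub,
        Matrix.mulVec_add, Matrix.mulVec_smul, Matrix.mulVec_smul, hAv', hAAv, ← hpolar Av u, ← hpolar v u, hAv', hAAv,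
        QuadraticMap.polar_add_left]
      simp only [sub_eq_add_neg, hneg]
      match_scalars <;> first
        | linear_combination (0 : F) * h2'
        | linear_combination (-(QuadraticMap.polar Q Av ((A : Matrix (Fin n) (Fin n) F).mulVec u))) * h2'
        | linear_combination (QuadraticMap.polar Q Av ((A : Matrix (Fin n) (Fin n) F).mulVec u)) * h2'
        | linear_combination (-(QuadraticMap.polar Q v ((A : Matrix (Fin n) (Fin n) F).mulVec u))) * h2'
        | linear_combination (QuadraticMap.polar Q v ((A : Matrix (Fin n) (Fin n) F).mulVec u)) * h2'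
    have hrK : r ∈ K := hmemK r (Or.inl (by rw [hcomm, mul_inv_cancel_right]))
    obtain ⟨p, q, hpq⟩ := CfsgLib.GeoTensor.exists_factors (hle ⟨hrK, hrO⟩).1
    have hx := (hpq a w₀).symm
    have e1 : QuadraticMap.polar Q v (CfsgLib.GeoTensor.pure e P a w₀) = 0 := by
      rw [hv, QuadraticMap.polar_add_left, hf', hf', haa, hzw]; simp
    have e2 : QuadraticMap.polar Q Av (CfsgLib.GeoTensor.pure e P a w₀) = 1 := by
      rw [hAv, QuadraticMap.polar_add_left, hf', hf', hba, hzw, hyw₁]; simp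
    rw [hr, e1, e2, zero_smul, sub_zero, one_smul, hv, ← add_assoc, ← CfsgLib.GeoTensor.pure_add_right] at hx
    set x' := (p : Matrix (Fin 2) (Fin 2) F).mulVec a
    set u' := (q : Matrix (Fin n₂) (Fin n₂) F).mulVec w₀
    have hco : ∀ j, x' 0 * u' j = (w₀ + y) j ∧ x' 1 * u' j = z j := by
      intro j
      have h : ∀ i, x' i * u' j = a i * (w₀ + y) j + b i * z j := by
        intro i
        have h' := congrFun (congrArg (fun s => ((P⁻¹ : GL (Fin n) F) : Matrix (Fin n) (Fin n) F).mulVec s) hx) (e.symm (i, j))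
        simp only [CfsgLib.GeoTensor.pure, Matrix.mulVec_add, hPP, Pi.add_apply, Equiv.apply_symm_apply] at h'
        exact h'
      exact ⟨by simpa [ha, hb] using h 0, by simpa [ha, hb] using h 1⟩
    have hz1 : x' 1 = 1 := hone _ fun h => hz0 (funext fun j => by simpa [h] using (hco j).2.symm)
    rcases hF (x' 0) with h | h
    · have hu : w₀ + y = 0 := funext fun j => by simpa [h] using (hco j).1.symm
      have := congrArg (fun s => f₂ y s) hu
      simp only [hr₂, hyw₁, halt₂, add_zero] at this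
      exact one_ne_zero (this.trans (by simpa using hrs₂ 0 y 0))
    · have hu : w₀ + y = z := funext fun j => by
        have h1 := hco j; rw [h, hz1] at h1; exact h1.1.symm.trans h1.2
      have := congrArg (fun s => f₂ y s) hu
      simp only [hr₂, hyw₁, halt₂, add_zero, hyz] at this
      exact one_ne_zero this
  · -- a root element not normalising it
    obtain ⟨d, hd⟩ : ∃ d, d = CfsgLib.GeoTensor.pure e P a y := ⟨_, rfl⟩
    obtain ⟨d', hd'⟩ : ∃ d', d' = CfsgLib.GeoTensor.pure e P a z := ⟨_, rfl⟩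
    obtain ⟨r, hrO, hr⟩ := CfsgLib.GeoOrth.exists_isRoot hnd hn5 (d := d) (a := d') (by rw [hd, hQp]) (by rw [hd', hQp])
      (by rw [hd, hd', hf', haa, zero_mul])
    have hfixa : (r : Matrix (Fin n) (Fin n) F).mulVec (CfsgLib.GeoTensor.pure e P a w₀) = CfsgLib.GeoTensor.pure e P a w₀ := by
      rw [hr, hd, hd', hf', hf', haa]; simp
    have hmoveb : (r : Matrix (Fin n) (Fin n) F).mulVec (CfsgLib.GeoTensor.pure e P b w₀) =
        CfsgLib.GeoTensor.pure e P b w₀ - CfsgLib.GeoTensor.pure e P a z := by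
      rw [hr, hd, hd', hf', hf', hab, hzw, hyw₁]; simp
    have hcoord : ∀ {x x'' : Fin 2 → F} {u : Fin n₂ → F}, CfsgLib.GeoTensor.pure e P b w₀ - CfsgLib.GeoTensor.pure e P a z =
        CfsgLib.GeoTensor.pure e P x u → x 1 = 1 → u = w₀ ∧ (x 0 = 0 → False) := by
      intro x x'' u h hx1
      have h' : ∀ i j, b i * w₀ j - a i * z j = x i * u j := fun i j => by
        have h' := congrFun (congrArg (fun s => ((P⁻¹ : GL (Fin n) F) : Matrix (Fin n) (Fin n) F).mulVec s) h) (e.symm (i, j))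
        simp only [CfsgLib.GeoTensor.pure, Matrix.mulVec_sub, hPP, Pi.sub_apply, Equiv.apply_symm_apply] at h'
        exact h'
      refine ⟨funext fun j => ?_, fun h0 => hz0 (funext fun j => ?_)⟩
      · simpa [ha, hb, hx1] using (h' 1 j).symm
      · simpa [ha, hb, h0] using h' 0 j
    obtain ⟨C, hC⟩ : ∃ C, C = r * A * r⁻¹ := ⟨_, rfl⟩
    have hcj := hpow _ (hK r (hle hrO).1)
    rw [← hC] at hcj
    have hrr : r * A = C * r := by rw [hC, inv_mul_cancel_right]
    have himg := congrArg (fun g : GL (Fin n) F => (g : Matrix (Fin n) (Fin n) F).mulVec (CfsgLib.GeoTensor.pure e P a w₀)) hrr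
    simp only [Units.val_mul, ← Matrix.mulVec_mulVec, hA, hαa, hmoveb, hfixa] at himg
    rcases hcj with h | h | h <;> rw [h] at himg
    · rw [Units.val_one, Matrix.one_mulVec] at himg
      have := CfsgLib.GeoTensor.pure_eq (e := e) (P := P) (x := b) (y := w₀) (x' := a) (y' := w₀)
      have h' := congrFun (congrArg (fun s => ((P⁻¹ : GL (Fin n) F) : Matrix (Fin n) (Fin n) F).mulVec s) himg)
      obtain ⟨j, hj⟩ := Function.ne_iff.1 (show w₀ ≠ 0 from fun h => hyw₀ (by rw [h]; simpa using hrs₂ 0 y 0))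
      have h'' := h' (e.symm (1, j))
      simp only [CfsgLib.GeoTensor.pure, Matrix.mulVec_sub, hPP, Pi.sub_apply, Equiv.apply_symm_apply] at h''
      exact hj (by simpa [ha, hb] using h'')
    · rw [hA, hαa] at himg
      exact (hcoord (x'' := a) himg (by simp [hb])).2 (by simp [hb])
    · rw [hA2, hαa, hαb] at himg
      have h' := congrFun (congrArg (fun s => ((P⁻¹ : GL (Fin n) F) : Matrix (Fin n) (Fin n) F).mulVec s) himg)
      obtain ⟨j, hj⟩ : ∃ j, z j ≠ w₀ j := by
        by_contra hall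
        push Not at hall
        exact hyw₀ (by rw [← show z = w₀ from funext hall]; exact hyz)
      have h'' := h' (e.symm (0, j))
      simp only [CfsgLib.GeoTensor.pure, Matrix.mulVec_sub, hPP, Pi.sub_apply, Equiv.apply_symm_apply] at h''
      simp [ha, hb] at h''
      exact hj (by linear_combination -h'' - (w₀ j) * h2')

end Cfsg.Agent.S5705
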