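import Cfsg.Statements.S5707
import Cfsg.Agent.GeoLib.TensorClifford
import Cfsg.Agent.GeoLib.TensorTools
import Cfsg.Agent.GeoLib.OmegaParabolic
import Cfsg.Agent.Forms.OrthBasics

set_option autoImplicit false
open Cfsg

namespace Cfsg.Agent.S5707

open Matrix CfsgLib.GeoClifford

theorem minor_ne {F : Type*} [Field F] {k : ℕ} {v m w : Fin k → F} (hv : v ≠ 0) (h0 : w ⬝ᵥ v = 0) (h1 : w ⬝ᵥ m ≠ 0) :
    ∃ r s, v r * m s - v s * m r ≠ 0 := by
  by_contra hcon
  push Not at hcon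
  obtain ⟨r, hr⟩ := Function.ne_iff.mp hv
  refine h1 ?_
  have he : m = (m r / v r) • v := funext fun s => by
    rw [Pi.smul_apply, smul_eq_mul, div_mul_eq_mul_div, eq_div_iff hr]
    linear_combination hcon r s
  rw [he, dotProduct_smul, h0, smul_zero]

theorem gen_one {F : Type*} [Field F] (h2 : (2 : F) = 0) {k : ℕ} (hk : k = 2) {G : Matrix (Fin k) (Fin k) F}
    (hG : Gᵀ = G) (hGd : ∀ i, G i i = 0) (a : Fin k → F) : Gen G (vecMulVec a (G *ᵥ a)) := by
  refine ⟨?_, ?_, fun h => absurd (hk.symm.trans h) (by norm_num)⟩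
  · rw [vecMulVec_mul_vecMulVec, dotProduct_comm, qzero h2 hG hGd, zero_smul]
    exact vecMulVec_zero a
  · rw [mul_vecMulVec, transpose_vecMulVec]

theorem gen_two {F : Type*} [Field F] (h2 : (2 : F) = 0) {k : ℕ} {G : Matrix (Fin k) (Fin k) F}
    (hG : Gᵀ = G) (hGd : ∀ i, G i i = 0) (a b : Fin k → F) (hab : a ⬝ᵥ G *ᵥ b = 0) :
    Gen G (vecMulVec a (G *ᵥ b) + vecMulVec b (G *ᵥ a)) := by
  have hs : ∀ x y, (G *ᵥ x) ⬝ᵥ y = y ⬝ᵥ G *ᵥ x := fun x y => dotProduct_comm _ _
  have hba : b ⬝ᵥ G *ᵥ a = 0 := by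
    rw [Matrix.dotProduct_mulVec, ← hG, Matrix.vecMul_transpose, hs, hab]
  refine ⟨?_, ?_, fun _ i => ?_⟩
  · simp only [add_mul, mul_add, vecMulVec_mul_vecMulVec, hs, hba, hab, qzero h2 hG hGd, zero_smul]
    simp
  · simp only [mul_add, mul_vecMulVec, Matrix.transpose_add, transpose_vecMulVec]
    exact add_comm _ _
  · simp only [mul_add, mul_vecMulVec, Matrix.add_apply, vecMulVec_apply]
    linear_combination ((G *ᵥ a) i * (G *ᵥ b) i) * h2

theorem exists_frame {F : Type*} [Field F] (h2 : (2 : F) = 0) {k : ℕ} (hk : k = 2 ∨ k = 4)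
    {G : Matrix (Fin k) (Fin k) F} (hG : Gᵀ = G) (hGd : ∀ i, G i i = 0) (hdet : IsUnit G.det) :
    ∃ (e e' : Matrix (Fin k) (Fin k) F) (a c u v : Fin k → F), Gen G e ∧ Gen G e' ∧ e *ᵥ a = 0 ∧
      (∃ r s, c r * (e *ᵥ c) s - c s * (e *ᵥ c) r ≠ 0) ∧ (∃ r s, a r * (e' *ᵥ a) s - a s * (e' *ᵥ a) r ≠ 0) ∧
      (∃ r s, a r * (e' *ᵥ a + e *ᵥ (e' *ᵥ a)) s - a s * (e' *ᵥ a + e *ᵥ (e' *ᵥ a)) r ≠ 0) ∧
      u ⬝ᵥ G *ᵥ v = 0 ∧ u ⬝ᵥ G *ᵥ (e *ᵥ v) ≠ 0 ∧ a ⬝ᵥ G *ᵥ c ≠ 0 := by
  have hn : ∀ z : F, -z = z := fun z => by linear_combination (-z) * h2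
  have hsym : ∀ x y : Fin k → F, x ⬝ᵥ G *ᵥ y = y ⬝ᵥ G *ᵥ x := fun x y => by
    rw [Matrix.dotProduct_mulVec, ← hG, Matrix.vecMul_transpose, hG, dotProduct_comm]
  have hself : ∀ x : Fin k → F, x ⬝ᵥ G *ᵥ x = 0 := qzero h2 hG hGd
  have hvm : ∀ x y w : Fin k → F, vecMulVec x (G *ᵥ y) *ᵥ w = (w ⬝ᵥ G *ᵥ y) • x := fun x y w => by
    rw [vecMulVec_mulVec, dotProduct_comm]; simp
  have hpair : ∀ x : Fin k → F, x ≠ 0 → ∃ y, x ⬝ᵥ G *ᵥ y = 1 := fun x hx => by
    have h0 : G *ᵥ x ≠ 0 := fun h => hx (by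
      rw [← Matrix.one_mulVec x, ← Matrix.nonsing_inv_mul G hdet, ← Matrix.mulVec_mulVec, h, Matrix.mulVec_zero])
    obtain ⟨i, hi⟩ := Function.ne_iff.mp h0
    exact ⟨Pi.single i ((G *ᵥ x) i)⁻¹, by rw [hsym, single_dotProduct, inv_mul_cancel₀ hi]⟩
  have hne : ∀ x y, x ⬝ᵥ G *ᵥ y = 1 → x ≠ 0 := fun x y h hx => by simp [hx] at h
  obtain ⟨a, ha⟩ : ∃ a : Fin k → F, a ≠ 0 := ⟨Pi.single ⟨0, by omega⟩ 1, by simp⟩
  obtain ⟨c, hac⟩ := hpair a ha
  have hca : c ⬝ᵥ G *ᵥ a = 1 := by rw [hsym, hac]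
  have hc : c ≠ 0 := hne c a hca
  rcases hk with hk | hk
  · refine ⟨vecMulVec a (G *ᵥ a), vecMulVec c (G *ᵥ c), a, c, c, c, gen_one h2 hk hG hGd a, gen_one h2 hk hG hGd c,
      by rw [hvm, hself, zero_smul], ?_, ?_, ?_, hself c, ?_, by rw [hac]; exact one_ne_zero⟩
    · exact minor_ne (w := G *ᵥ c) hc (by rw [dotProduct_comm, hself]) (by
        rw [hvm, hca, one_smul, dotProduct_comm, hac]; exact one_ne_zero)
    · exact minor_ne (w := G *ᵥ a) ha (by rw [dotProduct_comm, hself]) (by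
        rw [hvm, hac, one_smul, dotProduct_comm, hca]; exact one_ne_zero)
    · exact minor_ne (w := G *ᵥ a) ha (by rw [dotProduct_comm, hself]) (by
        rw [hvm, hac, one_smul, hvm, hca, one_smul, dotProduct_comm, add_dotProduct, hca, hself, add_zero]
        exact one_ne_zero)
    · rw [hvm, hca, one_smul, hca]; exact one_ne_zero
  · obtain ⟨b, hb0, hab, hcb⟩ : ∃ b : Fin k → F, b ≠ 0 ∧ a ⬝ᵥ G *ᵥ b = 0 ∧ c ⬝ᵥ G *ᵥ b = 0 := by
      let R : (Fin k → F) →ₗ[F] (F × F) :=
        { toFun := fun x => (a ⬝ᵥ G *ᵥ x, c ⬝ᵥ G *ᵥ x)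
          map_add' := fun x y => by simp [Matrix.mulVec_add, dotProduct_add]
          map_smul' := fun r x => by simp [Matrix.mulVec_smul, dotProduct_smul] }
      obtain ⟨b, hb, hb0⟩ := (LinearMap.ker R).exists_mem_ne_zero_of_ne_bot fun h => by
        have h1 := R.finrank_range_add_finrank_ker
        have h4 := Submodule.finrank_le (LinearMap.range R)
        rw [h, finrank_bot] at h1
        simp at h1 h4; omega
      exact ⟨b, hb0, congrArg Prod.fst hb, congrArg Prod.snd hb⟩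
    obtain ⟨y, hby⟩ := hpair b hb0
    obtain ⟨d, hd⟩ : ∃ d, d = y + (c ⬝ᵥ G *ᵥ y) • a + (a ⬝ᵥ G *ᵥ y) • c := ⟨_, rfl⟩
    have hval : ∀ x, x ⬝ᵥ G *ᵥ d = x ⬝ᵥ G *ᵥ y + (c ⬝ᵥ G *ᵥ y) * (x ⬝ᵥ G *ᵥ a) + (a ⬝ᵥ G *ᵥ y) * (x ⬝ᵥ G *ᵥ c) :=
      fun x => by simp [hd, Matrix.mulVec_add, Matrix.mulVec_smul, dotProduct_add, dotProduct_smul]
    have had : a ⬝ᵥ G *ᵥ d = 0 := by
      rw [hval, hself, hac]; linear_combination (a ⬝ᵥ G *ᵥ y) * h2
    have hcd : c ⬝ᵥ G *ᵥ d = 0 := by
      rw [hval, hself, hca]; linear_combination (c ⬝ᵥ G *ᵥ y) * h2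
    have hbd : b ⬝ᵥ G *ᵥ d = 1 := by
      rw [hval, hsym b a, hab, hsym b c, hcb, hby]; ring
    have hdb : d ⬝ᵥ G *ᵥ b = 1 := by rw [hsym, hbd]
    have hda : d ⬝ᵥ G *ᵥ a = 0 := by rw [hsym, had]
    have hdc : d ⬝ᵥ G *ᵥ c = 0 := by rw [hsym, hcd]
    have hec : (vecMulVec a (G *ᵥ b) + vecMulVec b (G *ᵥ a)) *ᵥ c = b := by
      rw [Matrix.add_mulVec, hvm, hvm, hcb, hca, zero_smul, one_smul, zero_add]
    have he'a : (vecMulVec c (G *ᵥ d) + vecMulVec d (G *ᵥ c)) *ᵥ a = d := by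
      rw [Matrix.add_mulVec, hvm, hvm, had, hac, zero_smul, one_smul, zero_add]
    have hed : (vecMulVec a (G *ᵥ b) + vecMulVec b (G *ᵥ a)) *ᵥ d = a := by
      rw [Matrix.add_mulVec, hvm, hvm, hdb, hda, zero_smul, one_smul, add_zero]
    refine ⟨_, _, a, c, d, c, gen_two h2 hG hGd a b hab, gen_two h2 hG hGd c d hcd,
      by rw [Matrix.add_mulVec, hvm, hvm, hab, hself, zero_smul, zero_smul, add_zero], ?_, ?_, ?_, hdc, ?_,
      by rw [hac]; exact one_ne_zero⟩
    · rw [hec]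
      exact minor_ne (w := G *ᵥ d) hc (by rw [dotProduct_comm, hcd]) (by
        rw [dotProduct_comm, hbd]; exact one_ne_zero)
    · rw [he'a]
      exact minor_ne (w := G *ᵥ b) ha (by rw [dotProduct_comm, hab]) (by
        rw [dotProduct_comm, hdb]; exact one_ne_zero)
    · rw [he'a, hed]
      exact minor_ne (w := G *ᵥ b) ha (by rw [dotProduct_comm, hab]) (by
        rw [dotProduct_comm, add_dotProduct, hdb, hab, add_zero]; exact one_ne_zero)
    · rw [hec, hdb]; exact one_ne_zero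

theorem not_pure {F : Type*} [Field F] {k t : ℕ} {p q : Fin t} (hpq : p ≠ q) {v m : Fin k → F}
    (hvm : ∃ r s, v r * m s - v s * m r ≠ 0) (w : Fin t → Fin k → F) :
    pureVec (fun _ => v) + pureVec (Function.update (fun _ : Fin t => v) p m) +
      pureVec (Function.update (fun _ : Fin t => v) q m) ≠ pureVec w := by
  obtain ⟨r, s, hrs⟩ := hvm
  have hv : ∃ o, v o ≠ 0 := by
    by_contra h
    push Not at h
    exact hrs (by rw [h, h]; ring)
  obtain ⟨o, ho⟩ := hv
  intro heq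
  obtain ⟨R, hR⟩ : ∃ R, R = ∏ l ∈ (Finset.univ.erase p).erase q, v o := ⟨_, rfl⟩
  obtain ⟨R', hR'⟩ : ∃ R', R' = ∏ l ∈ (Finset.univ.erase p).erase q, w l o := ⟨_, rfl⟩
  let pt : Fin k → Fin k → Fin t → Fin k := fun x y => Function.update (Function.update (fun _ => o) p x) q y
  have hev : ∀ (z : Fin t → Fin k → F) x y, pureVec z (pt x y) =
      z p x * (z q y * ∏ l ∈ (Finset.univ.erase p).erase q, z l o) := fun z x y => by
    rw [pureVec, ← Finset.mul_prod_erase _ _ (Finset.mem_univ p),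
      ← Finset.mul_prod_erase _ _ (Finset.mem_erase.mpr ⟨hpq.symm, Finset.mem_univ q⟩)]
    refine congrArg₂ _ (by simp [pt, hpq]) (congrArg₂ _ (by simp [pt]) (Finset.prod_congr rfl fun l hl => ?_))
    simp only [Finset.mem_erase] at hl
    simp [pt, Function.update_of_ne hl.1, Function.update_of_ne hl.2.1]
  have hupd : ∀ (i : Fin t), i ∉ (Finset.univ.erase p).erase q →
      ∏ l ∈ (Finset.univ.erase p).erase q, Function.update (fun _ : Fin t => v) i m l o = R := fun i hi => by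
    rw [hR]
    exact Finset.prod_congr rfl fun l hl => by rw [Function.update_of_ne fun h : l = i => hi (h ▸ hl)]
  have hD : ∀ x y, R * (v x * v y + m x * v y + v x * m y) = R' * (w p x * w q y) := fun x y => by
    have h := congrFun heq (pt x y)
    simp only [Pi.add_apply, hev] at h
    rw [hupd p (by simp), hupd q (by simp), ← hR, ← hR'] at h
    simp only [Function.update_self, Function.update_of_ne hpq, Function.update_of_ne hpq.symm] at h
    linear_combination h
  have hR0 : R ≠ 0 := hR ▸ Finset.prod_ne_zero_iff.mpr fun _ _ => ho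
  refine hrs (pow_eq_zero_iff two_ne_zero |>.mp (?_ : (v r * m s - v s * m r) ^ 2 = 0))
  refine (mul_eq_zero.mp (show (R * R) * (v r * m s - v s * m r) ^ 2 = 0 from ?_)).resolve_left (mul_ne_zero hR0 hR0)
  linear_combination (-(R * (v s * v s + m s * v s + v s * m s))) * hD r r - (R' * (w p r * w q r)) * hD s s +
    (R * (v s * v r + m s * v r + v s * m r)) * hD r s + (R' * (w p r * w q s)) * hD s r

/-- Let F be a finite field with q elements, n ≥ 13 even, Q a non-degenerate quadratic form on F^n of plus type (some subspace of dimension n/2 is totally singular), and Ω the commutator subgroup of the isometry group of Q, viewed inside GL_n(F). Suppose q is even and that, through P and e, the polar form of Q is similar to the t-fold tensor power (t ≥ 2) of a non-degenerate symplectic form f₁ on F^k with k ≤ 4 and (q, k) ≠ (2, 2), Q vanishing on the images of all pure tensors. Then the elements of Ω in the stabiliser of this decomposition form a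 subgroup that is not maximal: some subgroup lies strictly between it and Ω. -/
theorem result {F : Type*} [Field F] [Fintype F] {n : ℕ} (hn : 13 ≤ n) (heven : Even n) (Q : (Fin n → F) → F) (hQ : Cfsg.Geo.IsNondegenerateQuadraticForm Q) (hplus : Cfsg.Geo.IsPlusTypeOn Q ⊤) (hchar : ¬ Odd (Fintype.card F)) (k t : ℕ) (ht : 2 ≤ t) (hk : k ≤ 4) (hex1 : ¬ (Fintype.card F = 2 ∧ k = 2)) (e : (Fin n) ≃ (Fin t → Fin k)) (P : Matrix.GeneralLinearGroup (Fin n) F) (f₁ : (Fin k → F) → (Fin k → F) → F) (hf₁ : Cfsg.Geo.IsSymplecticForm f₁) (hT : Cfsg.Geo.IsTensorPowerFormStructure id (QuadraticMap.polar Q) f₁ e P) (hpure : (∀ xs : Fin t → (Fin k → F), Q (Matrix.mulVec (P : Matrix (Fin n) (Fin n) F) ((fun a : Fin t → Fin k => ∏ i, xs i (a i)) ∘ e)) = 0)) : ∃ K : Subgroup (Matrix.GeneralLinearGroup (Fin n) F), Cfsg.Geo.tensorWreathSubgroup k t e P ⊓ Cfsg.Geo.omegaGL Q < K ∧ K < Cfsg.Geo.omegaGL Q := by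
  classical
  obtain ⟨Q, rfl, hnd⟩ := CfsgLib.Forms.exists_quadForm hQ
  have h2 : (2 : F) = 0 := by
    by_contra h
    refine hchar (Nat.odd_iff.mpr (FiniteField.odd_card_of_char_ne_two fun hc => h ?_))
    have := ringChar.Nat.cast_ringChar (R := F)
    rw [hc] at this
    exact_mod_cast this
  have hadd : ∀ Z : Matrix (Fin t → Fin k) (Fin t → Fin k) F, Z + Z = 0 := fun Z => by
    rw [← two_smul F, h2, zero_smul]
  obtain ⟨⟨hl₁, hls₁, hr₁, hrs₁⟩, hskew₁, halt₁, hnd₁⟩ := hf₁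
  obtain ⟨G, hGdef⟩ : ∃ G, G = Cfsg.Geo.gramMatrix f₁ := ⟨_, rfl⟩
  have hG : Gᵀ = G := by
    ext i j
    rw [hGdef]
    show f₁ _ _ = f₁ _ _
    rw [hskew₁]
    linear_combination (-(f₁ (Pi.single i 1) (Pi.single j 1))) * h2
  have hGd : ∀ i, G i i = 0 := fun i => hGdef ▸ halt₁ _
  have hdet : IsUnit G.det := isUnit_iff_ne_zero.mpr fun h => by
    obtain ⟨v, hv, hGv⟩ := Matrix.exists_mulVec_eq_zero_iff.mpr h
    obtain ⟨-, y, hy⟩ := hnd₁ v hv
    refine hy ?_
    rw [CfsgLib.GeoTensor.eq_gram (σ := RingHom.id F) hl₁ hls₁ hr₁ hrs₁, Finset.sum_comm]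
    refine Finset.sum_eq_zero fun b _ => ?_
    have h' := congrFun hGv b
    simp only [Matrix.mulVec, dotProduct, Pi.zero_apply] at h'
    rw [← Finset.sum_mul]
    refine mul_eq_zero_of_left ?_ _
    rw [← h']
    refine Finset.sum_congr rfl fun a _ => ?_
    rw [show G b a = G a b from congrFun (congrFun hG a) b, hGdef, mul_comm]
    rfl
  have hcard : k ^ t = n := by
    have h := Fintype.card_congr e
    simp at h
    omega
  have hk24 : k = 2 ∨ k = 4 := by
    rcases (show k = 0 ∨ k = 1 ∨ k = 2 ∨ k = 3 ∨ k = 4 by omega) with rfl | rfl | rfl | rfl | rfl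
    · rw [zero_pow (by omega)] at hcard; omega
    · rw [one_pow] at hcard; omega
    · exact Or.inl rfl
    · have hs : ∀ i j, G i j = G j i := fun i j => congrFun (congrFun hG j) i
      refine absurd ?_ hdet.ne_zero
      rw [Matrix.det_fin_three, hGd, hGd, hGd, hs 1 0, hs 2 0, hs 2 1]
      linear_combination (G 0 1 * G 0 2 * G 1 2) * h2
    · exact Or.inr rfl
  obtain ⟨B, hB⟩ : ∃ B : Matrix (Fin t → Fin k) (Fin t → Fin k) F, B = ptMat (fun _ => G) 1 := ⟨_, rfl⟩
  -- transport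
  obtain ⟨L, hL⟩ : ∃ L : ((Fin t → Fin k) → F) →ₗ[F] (Fin n → F), ∀ v, L v = (P).val *ᵥ (v ∘ e) :=
    ⟨(Matrix.mulVecLin (P : Matrix (Fin n) (Fin n) F)).comp (LinearMap.funLeft F F e), fun v => rfl⟩
  have hLi : Function.Injective L := fun u v h => by
    rw [hL, hL] at h
    exact e.surjective.injective_comp_right (Matrix.mulVec_injective_of_isUnit P.isUnit h)
  have hLs : Function.Surjective L := fun x =>
    ⟨((P⁻¹ : GL (Fin n) F).val *ᵥ x) ∘ e.symm, by
      rw [hL, Function.comp_assoc, e.symm_comp_self, Function.comp_id, Matrix.mulVec_mulVec, ← Units.val_mul,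
        mul_inv_cancel, Units.val_one, Matrix.one_mulVec]⟩
  obtain ⟨c₀, hc₀, hform⟩ := hT
  have hpol : ∀ u v, QuadraticMap.polar Q (L u) (L v) = c₀ * (u ⬝ᵥ B *ᵥ v) := fun u v => by
    rw [hL, hL, hform, hB]
    simp only [dotProduct, Matrix.mulVec, ptMat, Finset.mul_sum, hGdef, Equiv.Perm.coe_one, id_eq, mul_assoc]
  let φ : GL (Fin t → Fin k) F →* GL (Fin n) F :=
    (MulAut.conj P).toMonoidHom.comp (Cfsg.Geo.glReindex e.symm).toMonoidHom
  have hφ : ∀ (g : GL (Fin t → Fin k) F) v, (φ g).val *ᵥ L v = L ((g).val *ᵥ v) := by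
    intro g v
    rw [hL, hL]
    show (P * Cfsg.Geo.glReindex e.symm g * P⁻¹ : GL (Fin n) F).val *ᵥ _ = _
    rw [Units.val_mul, Units.val_mul, ← Matrix.mulVec_mulVec, ← Matrix.mulVec_mulVec,
      CfsgLib.GeoFull.inv_mulVec_cancel]
    refine congrArg _ (funext fun i => ?_)
    simp only [Matrix.mulVec, dotProduct, Function.comp_apply]
    rw [← Equiv.sum_comp e (fun y => (g : Matrix (Fin t → Fin k) (Fin t → Fin k) F) (e i) y * v y)]
    rfl
  have hφi : Function.Injective φ :=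
    (MulAut.conj P).injective.comp (Cfsg.Geo.glReindex e.symm).injective
  -- the shape of the elements of the standard group
  have hstd : ∀ g ∈ Cfsg.Geo.tensorWreathStandard k t F, ∃ a σ, (g).val = ptMat a σ := by
    intro g hg
    rw [Cfsg.Geo.tensorWreathStandard, ← Subgroup.mem_toSubmonoid, Subgroup.closure_toSubmonoid_of_finite] at hg
    induction hg using Submonoid.closure_induction with
    | mem g hg =>
      rcases hg with ⟨gs, hgs⟩ | ⟨σ, hσ⟩
      · exact ⟨fun i => (gs i).val, 1, Matrix.ext fun x y => by rw [hgs]; rfl⟩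
      · refine ⟨fun _ => 1, σ.symm, Matrix.ext fun x y => ?_⟩
        rw [hσ]
        split_ifs with h
        · exact (Finset.prod_eq_one fun i _ => by rw [h, Function.comp_apply, Equiv.apply_symm_apply]; exact Matrix.one_apply_eq (x i)).symm
        · obtain ⟨j, hj⟩ := Function.ne_iff.mp h
          refine (Finset.prod_eq_zero (Finset.mem_univ (σ j)) ?_).symm
          rw [Equiv.symm_apply_apply]
          exact Matrix.one_apply_ne fun h' => hj h'.symm
    | one => exact ⟨fun _ => 1, 1, by rw [ptMat_one]; rfl⟩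
    | mul g h _ _ hg hh =>
      obtain ⟨a, σ, hg⟩ := hg
      obtain ⟨b, τ, hh⟩ := hh
      exact ⟨_, _, by rw [Units.val_mul, hg, hh, ptMat_mul]⟩
  obtain ⟨W, hW⟩ : ∃ W, W = cliffordSpan t G := ⟨_, rfl⟩
  obtain ⟨p, q, hpq⟩ : ∃ p q : Fin t, p ≠ q := ⟨⟨0, by omega⟩, ⟨1, by omega⟩, fun h => by simp at h⟩
  have hBt : Bᵀ = B := by
    rw [hB, ptMat_transpose]
    exact congrArg₂ ptMat (funext fun _ => hG) (by ext; rfl)
  -- the involutions
  have hinv : ∀ A, Gen G A → ∃ x : GL (Fin t → Fin k) F, x ∈ spanNormalizer W ∧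
      (φ x) ∈ Cfsg.isometryGroup F ⇑Q ∧ (x).val = 1 + (slot p A + slot q A) := by
    intro A hA
    obtain ⟨N, hN⟩ : ∃ N, N = slot p A + slot q A := ⟨_, rfl⟩
    have hNW : N ∈ W := by rw [hN, hW]; exact add_mem (slot_mem_cliffordSpan p hA) (slot_mem_cliffordSpan q hA)
    have hNN : N * N = 0 := by
      rw [hN, add_mul, mul_add, mul_add, slot_mul, slot_mul, hA.1, slot_zero, slot_zero, zero_add, add_zero,
        slot_comm hpq, hadd]
    have hxx : (1 + N) * (1 + N) = 1 := by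
      rw [add_mul, mul_add, mul_add, one_mul, one_mul, mul_one, hNN, add_zero, add_assoc, hadd, add_zero]
    have hBs : ∀ i, (B * slot i A)ᵀ = B * slot i A ∧ ∀ y, (B * slot i A) y y = 0 := fun i => by
      have e1 : B * slot i A = ptMat (Function.update (fun _ => G) i (G * A)) 1 := by
        rw [hB, slot, ptMat_mul]
        refine congrArg₂ ptMat (funext fun l => ?_) (by ext; rfl)
        rcases eq_or_ne l i with rfl | h
        · simp
        · simp [Function.update_of_ne h]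
      refine ⟨?_, fun y => ?_⟩
      · rw [e1, ptMat_transpose]
        refine congrArg₂ ptMat (funext fun l => ?_) (by ext; rfl)
        show (Function.update (fun _ => G) i (G * A) l)ᵀ = _
        rcases eq_or_ne l i with rfl | h
        · simp [hA.2.1]
        · simp [Function.update_of_ne h, hG]
      · obtain ⟨l, hl⟩ : ∃ l, l ≠ i := by
          rcases eq_or_ne p i with rfl | h
          · exact ⟨q, hpq.symm⟩
          · exact ⟨p, h⟩
        rw [e1]
        exact Finset.prod_eq_zero (Finset.mem_univ l) (by simp [Function.update_of_ne hl, hGd])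
    have hBN : (B * N)ᵀ = B * N := by rw [hN, mul_add, Matrix.transpose_add, (hBs p).1, (hBs q).1]
    have hdiag : ∀ y, (B * N) y y = 0 := fun y => by
      rw [hN, mul_add, Matrix.add_apply, (hBs p).2, (hBs q).2, add_zero]
    have hadj : ∀ u v, (N *ᵥ u) ⬝ᵥ B *ᵥ v = u ⬝ᵥ B *ᵥ (N *ᵥ v) := fun u v => by
      rw [← Matrix.vecMul_transpose, ← Matrix.dotProduct_mulVec, Matrix.mulVec_mulVec, Matrix.mulVec_mulVec]
      rw [show Nᵀ * B = B * N by rw [← hBN, Matrix.transpose_mul, hBt]]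
    have hQN : ∀ v, Q (L (N *ᵥ v)) = 0 := by
      have hsum : ∀ (s : Finset (Fin t → Fin k)) (v : (Fin t → Fin k) → F),
          Q (L (N *ᵥ ∑ y ∈ s, v y • (Pi.single y 1 : (Fin t → Fin k) → F))) = 0 := by
        intro s v
        induction s using Finset.induction_on with
        | empty => simp
        | insert y s hy ih =>
          rw [Finset.sum_insert hy, Matrix.mulVec_add, map_add, QuadraticMap.map_add (⇑Q), ih, hpol, hadj,
            Matrix.mulVec_mulVec _ N N, hNN, Matrix.zero_mulVec, Matrix.mulVec_zero, dotProduct_zero, mul_zero, add_zero,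
            add_zero, Matrix.mulVec_smul, map_smul, QuadraticMap.map_smul]
          refine smul_eq_zero_of_right _ ?_
          rw [← pureVec_single, hN, Matrix.add_mulVec, slot_mulVec, slot_mulVec, map_add, QuadraticMap.map_add (⇑Q), hpol]
          have hp0 : ∀ xs : Fin t → Fin k → F, Q (L (pureVec xs)) = 0 := fun xs => by rw [hL]; exact hpure xs
          rw [hp0, hp0, hB, ptMat_mulVec, pureVec_dot, zero_add, zero_add]
          refine mul_eq_zero_of_right _ ?_
          by_cases ht3 : ∃ l, l ≠ p ∧ l ≠ q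
          · obtain ⟨l, hlp, hlq⟩ := ht3
            refine Finset.prod_eq_zero (Finset.mem_univ l) ?_
            simp [Function.update_of_ne hlp, Function.update_of_ne hlq, hGd]
          · have ht2 : t = 2 := by
              have : (Finset.univ : Finset (Fin t)) ⊆ {p, q} := fun l _ => by
                by_contra h
                simp only [Finset.mem_insert, Finset.mem_singleton, not_or] at h
                exact ht3 ⟨l, h⟩
              have := (Finset.card_le_card this).trans Finset.card_le_two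
              simp at this
              omega
            have hk4 : k = 4 := by
              rcases hk24 with h | h
              · rw [h, ht2] at hcard; omega
              · exact h
            refine Finset.prod_eq_zero (Finset.mem_univ p) ?_
            simp only [Function.update_self, Function.update_of_ne hpq, Equiv.Perm.coe_one, id_eq]
            rw [Matrix.mulVec_single_one, dotProduct_comm]
            have h1 := congrFun (congrFun hA.2.1 (y p)) (y p)
            have h3 := hA.2.2 hk4 (y p)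
            rw [Matrix.mul_apply] at h3
            simp only [dotProduct, Matrix.mulVec_single_one, Matrix.col_apply]
            rw [← h3]
            exact Finset.sum_congr rfl fun j _ => by rw [show G j (y p) = G (y p) j from congrFun (congrFun hG (y p)) j]
      intro v
      have := hsum Finset.univ v
      rwa [show ∑ y, v y • (Pi.single y 1 : (Fin t → Fin k) → F) = v from (pi_eq_sum_univ' v).symm] at this
    let x : GL (Fin t → Fin k) F := ⟨1 + N, 1 + N, hxx, hxx⟩
    refine ⟨x, fun X hX => ?_, CfsgLib.Forms.mem_isometryGroup.mpr fun z => ?_, hN ▸ rfl⟩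
    · show (1 + N) * X * (1 + N) ∈ W
      obtain ⟨s, hs⟩ := span_anticomm h2 hk24 hG hGd hdet (hW ▸ hNW) (hW ▸ hX)
      have hXN : X * N = s • 1 + N * X := by
        rw [← hs, add_comm (N * X), add_assoc, hadd, add_zero]
      have hNXN : N * X * N = s • N := by
        rw [mul_assoc, hXN, mul_add, mul_smul_comm, mul_one, ← mul_assoc, hNN, zero_mul, add_zero]
      have e1 : (1 + N) * X * (1 + N) = X + s • 1 + s • N := by
        rw [← hs, ← hNXN]; noncomm_ring
      rw [e1]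
      exact add_mem (add_mem hX (W.smul_mem _ (hW ▸ one_mem_cliffordSpan G))) (W.smul_mem _ hNW)
    · obtain ⟨v, rfl⟩ := hLs z
      rw [hφ]
      show Q (L ((1 + N) *ᵥ v)) = _
      rw [Matrix.add_mulVec, Matrix.one_mulVec, map_add, QuadraticMap.map_add (⇑Q), hQN, hpol, Matrix.mulVec_mulVec,
        qzero h2 hBN hdiag]
      simp
  obtain ⟨ε, ε', a, c, u, v, hε, hε', hεa, hm1, hm2, hm3, huv, huev, hac⟩ := exists_frame h2 hk24 hG hGd hdet
  obtain ⟨x, hxW, hxI, hx⟩ := hinv ε hε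
  obtain ⟨x', hx'W, hx'I, hx'⟩ := hinv ε' hε'
  have happ : ∀ A, ∀ w : Fin k → F, (1 + (slot p A + slot q A)) *ᵥ pureVec (fun _ : Fin t => w) =
      pureVec (fun _ : Fin t => w) + pureVec (Function.update (fun _ : Fin t => w) p (A *ᵥ w)) +
        pureVec (Function.update (fun _ : Fin t => w) q (A *ᵥ w)) := fun A w => by
    rw [Matrix.add_mulVec, Matrix.add_mulVec, Matrix.one_mulVec, slot_mulVec, slot_mulVec, add_assoc]
  -- an element outside the stabiliser
  obtain ⟨z, hzW, hzO, hznp⟩ : ∃ z : GL (Fin t → Fin k) F, z ∈ spanNormalizer W ∧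
      φ z ∈ Cfsg.Geo.omegaGL ⇑Q ∧ z ∉ Cfsg.Geo.tensorWreathStandard k t F := by
    have hout : ∀ (z : GL (Fin t → Fin k) F) (w m : Fin k → F), (∃ r s, w r * m s - w s * m r ≠ 0) →
        (z).val *ᵥ pureVec (fun _ : Fin t => w) = pureVec (fun _ : Fin t => w) +
          pureVec (Function.update (fun _ : Fin t => w) p m) + pureVec (Function.update (fun _ : Fin t => w) q m) →
        z ∉ Cfsg.Geo.tensorWreathStandard k t F := fun z w m hm hz hmem => by
      obtain ⟨as, σ, has⟩ := hstd z hmem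
      rw [has, ptMat_mulVec] at hz
      exact not_pure hpq hm _ hz.symm
    by_cases h1 : (⟨φ x, hxI⟩ : Cfsg.isometryGroup F ⇑Q) ∈ Cfsg.Omega F ⇑Q
    · exact ⟨x, hxW, CfsgLib.Forms.mem_omegaGL.mpr ⟨_, h1, rfl⟩, hout x c _ hm1 (hx ▸ happ ε c)⟩
    by_cases h3 : (⟨φ x', hx'I⟩ : Cfsg.isometryGroup F ⇑Q) ∈ Cfsg.Omega F ⇑Q
    · exact ⟨x', hx'W, CfsgLib.Forms.mem_omegaGL.mpr ⟨_, h3, rfl⟩, hout x' a _ hm2 (hx' ▸ happ ε' a)⟩
    refine ⟨x * x', mul_mem hxW hx'W, ?_, hout _ a _ hm3 ?_⟩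
    · refine CfsgLib.Forms.mem_omegaGL.mpr ⟨⟨φ x, hxI⟩ * ⟨φ x', hx'I⟩, ?_, by rw [map_mul]; rfl⟩
      rw [Subgroup.mul_mem_iff_of_index_two (CfsgLib.Forms.index_Omega_two h2 hnd
        (Or.inr (by rw [Fintype.card_fin]; omega)) (by rw [Fintype.card_fin]; omega))]
      exact iff_of_false h1 h3
    · rw [Units.val_mul, hx, hx', ← Matrix.mulVec_mulVec, happ, Matrix.add_mulVec, Matrix.one_mulVec, Matrix.add_mulVec,
        Matrix.mulVec_add, Matrix.mulVec_add, Matrix.mulVec_add, Matrix.mulVec_add]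
      simp only [slot_mulVec, Function.update_self, Function.update_of_ne hpq, Function.update_of_ne hpq.symm, hεa,
        pureVec_update_zero, Function.update_idem, add_zero, zero_add, pureVec_update_add]
      abel
  have hcriterion : ∀ g : GL (Fin n) F, g ∈ Cfsg.Geo.tensorWreathSubgroup k t e P → g ∈ Cfsg.Geo.omegaGL ⇑Q →
      g ∈ (spanNormalizer W).map φ := by
    intro g hg hgO
    rw [Cfsg.Geo.tensorWreathSubgroup, Subgroup.map_map] at hg
    obtain ⟨g₀, hg₀, rfl⟩ := hg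
    obtain ⟨as, σ, has⟩ := hstd g₀ hg₀
    refine ⟨g₀, ?_, rfl⟩
    have hpres := (CfsgLib.GeoOrth.polar_omega hgO).2
    have hgB : (g₀).valᵀ * B * (g₀).val = B := by
      refine Matrix.ext fun i j => ?_
      have h := hpres (L (Pi.single i 1)) (L (Pi.single j 1))
      rw [hφ, hφ, hpol, hpol] at h
      have h' := mul_left_cancel₀ hc₀ h
      rw [← Matrix.vecMul_transpose, ← Matrix.dotProduct_mulVec, Matrix.mulVec_mulVec, Matrix.mulVec_mulVec] at h'
      simpa [mul_assoc] using h'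
    obtain ⟨H, hH⟩ : ∃ H, H = fun i => (as (σ.symm i))ᵀ * G * as (σ.symm i) := ⟨_, rfl⟩
    have hHB : ptMat H 1 = ptMat (fun _ : Fin t => G) 1 := by
      rw [← hB, ← hgB, has, ptMat_transpose, hB, ptMat_mul, ptMat_mul, hH]
      exact congrArg₂ ptMat (funext fun i => rfl) (Equiv.ext fun i => (σ.apply_symm_apply i).symm)
    obtain ⟨r₀, s₀, hrs₀⟩ : ∃ r s, G r s ≠ 0 := by
      obtain ⟨i⟩ : Nonempty (Fin k) := ⟨⟨0, by omega⟩⟩
      by_contra hall
      push Not at hall
      exact hdet.ne_zero (Matrix.det_eq_zero_of_row_eq_zero i fun j => hall i j)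
    have hsim : ∀ i, ∃ μ : F, μ ≠ 0 ∧ H i = μ • G := fun i => by
      obtain ⟨C, hC⟩ : ∃ C, C = ∏ l ∈ Finset.univ.erase i, H l r₀ s₀ := ⟨_, rfl⟩
      obtain ⟨D, hD⟩ : ∃ D, D = ∏ l ∈ Finset.univ.erase i, G r₀ s₀ := ⟨_, rfl⟩
      have hent : ∀ r s, H i r s * C = G r s * D := fun r s => by
        have h := congrFun (congrFun hHB (Function.update (fun _ => r₀) i r)) (Function.update (fun _ => s₀) i s)
        simp only [ptMat, Equiv.Perm.coe_one, id_eq] at h
        rw [← Finset.mul_prod_erase _ _ (Finset.mem_univ i), ← Finset.mul_prod_erase _ _ (Finset.mem_univ i)] at h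
        simp only [Function.update_self] at h
        rw [hC, hD]
        convert h using 2 <;>
          exact Finset.prod_congr rfl fun l hl => by
            rw [Function.update_of_ne (Finset.ne_of_mem_erase hl), Function.update_of_ne (Finset.ne_of_mem_erase hl)]
      have hD0 : D ≠ 0 := hD ▸ Finset.prod_ne_zero_iff.mpr fun _ _ => hrs₀
      have hC0 : C ≠ 0 := fun h => mul_ne_zero hrs₀ hD0 (by rw [← hent, h, mul_zero])
      refine ⟨D / C, div_ne_zero hD0 hC0, Matrix.ext fun r s => ?_⟩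
      rw [Matrix.smul_apply, smul_eq_mul, div_mul_eq_mul_div, eq_div_iff hC0, hent, mul_comm]
    intro X hX
    rw [hW] at hX ⊢
    induction hX using Submodule.span_induction with
    | mem X hX =>
      rcases hX with rfl | ⟨j, A, hA, rfl⟩
      · rw [mul_one, ← Units.val_mul, mul_inv_cancel, Units.val_one]; exact one_mem_cliffordSpan G
      obtain ⟨i, rfl⟩ := σ.surjective j
      obtain ⟨μ, hμ, hμG⟩ := hsim (σ i)
      rw [hH] at hμG
      simp only [Equiv.symm_apply_apply] at hμG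
      have hai : IsUnit (as i).det := isUnit_iff_ne_zero.mpr fun h => by
        have := congrArg Matrix.det hμG
        rw [Matrix.det_mul, h, mul_zero, Matrix.det_smul] at this
        exact mul_ne_zero (pow_ne_zero _ hμ) hdet.ne_zero this.symm
      obtain ⟨A', hA'⟩ : ∃ A', A' = as i * A * (as i)⁻¹ := ⟨_, rfl⟩
      have hGA' : G * A' = μ • (((as i)⁻¹)ᵀ * (G * A) * (as i)⁻¹) := by
        have e1 : G * as i = μ • (((as i)⁻¹)ᵀ * G) := by
          rw [← Matrix.mul_smul, ← hμG, ← mul_assoc, ← mul_assoc, ← Matrix.transpose_mul,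
            Matrix.mul_nonsing_inv _ hai, Matrix.transpose_one, one_mul]
        rw [hA', ← mul_assoc, ← mul_assoc, e1]
        simp only [smul_mul_assoc, mul_assoc]
      have hgen : Gen G A' := by
        refine ⟨?_, ?_, fun hk4 r => ?_⟩
        · rw [hA', show as i * A * (as i)⁻¹ * (as i * A * (as i)⁻¹) = as i * (A * ((as i)⁻¹ * as i) * A) * (as i)⁻¹ by
            simp only [mul_assoc], Matrix.nonsing_inv_mul _ hai, mul_one, hA.1, mul_zero, zero_mul]
        · rw [hGA', Matrix.transpose_smul, Matrix.transpose_mul, Matrix.transpose_mul, Matrix.transpose_transpose,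
            hA.2.1]
          simp only [mul_assoc]
        · rw [hGA', Matrix.smul_apply, smul_eq_mul]
          refine mul_eq_zero_of_right _ ?_
          have := qzero h2 hA.2.1 (hA.2.2 hk4) (fun l => (as i)⁻¹ l r)
          rw [← this, mul_assoc]
          rfl
      have hcomm : (g₀).val * slot (σ i) A = slot i A' * (g₀).val := by
        rw [has, slot, slot, ptMat_mul, ptMat_mul]
        refine congrArg₂ ptMat (funext fun l => ?_) (by ext; rfl)
        rcases eq_or_ne l i with rfl | hl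
        · simp [hA', mul_assoc, Matrix.nonsing_inv_mul _ hai]
        · simp [Function.update_of_ne hl, Function.update_of_ne (σ.injective.ne hl)]
      rw [hcomm, mul_assoc, ← Units.val_mul, mul_inv_cancel, Units.val_one, mul_one]
      exact slot_mem_cliffordSpan i hgen
    | zero => simp
    | add X Y _ _ hX hY => rw [mul_add, add_mul]; exact add_mem hX hY
    | smul r X _ hX => rw [mul_smul_comm, smul_mul_assoc]; exact Submodule.smul_mem _ r hX
  refine ⟨(spanNormalizer W).map φ ⊓ Cfsg.Geo.omegaGL ⇑Q,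
    lt_of_le_not_ge (fun g hg => ⟨hcriterion g hg.1 hg.2, hg.2⟩) fun hle => ?_, lt_of_le_not_ge inf_le_right fun hle => ?_⟩
  · have h := (hle ⟨⟨z, hzW, rfl⟩, hzO⟩).1
    rw [Cfsg.Geo.tensorWreathSubgroup, Subgroup.map_map] at h
    obtain ⟨z', hz', he⟩ := h
    exact hznp (hφi he ▸ hz')
  -- a Siegel element does not normalise the space
  obtain ⟨X, hXdef⟩ : ∃ X, X = slot p ε := ⟨_, rfl⟩
  obtain ⟨a₀, ha₀⟩ : ∃ a₀, a₀ = pureVec (Function.update (fun _ : Fin t => a) p u) := ⟨_, rfl⟩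
  obtain ⟨d₀, hd₀⟩ : ∃ d₀, d₀ = pureVec (Function.update (fun _ : Fin t => c) p v) := ⟨_, rfl⟩
  obtain ⟨β, hβ⟩ : ∃ β, β = fun x y : (Fin t → Fin k) → F => c₀ * (x ⬝ᵥ B *ᵥ y) := ⟨_, rfl⟩
  have hβs : ∀ x, β x x = 0 := fun x => by
    rw [hβ]
    refine mul_eq_zero_of_right _ (qzero h2 hBt (fun y => ?_) x)
    rw [hB]
    exact Finset.prod_eq_zero (Finset.mem_univ p) (hGd _)
  have hβc : ∀ x y, β x y = β y x := fun x y => by
    rw [hβ]
    show c₀ * _ = c₀ * _
    rw [Matrix.dotProduct_mulVec, ← hBt, Matrix.vecMul_transpose, hBt, dotProduct_comm]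
  have hpureβ : ∀ x y : Fin t → Fin k → F, β (pureVec x) (pureVec y) = c₀ * ∏ i, x i ⬝ᵥ G *ᵥ y i := fun x y => by
    rw [hβ]
    show c₀ * _ = _
    rw [hB, ptMat_mulVec, pureVec_dot]
    rfl
  have had : β a₀ d₀ = 0 := by
    rw [ha₀, hd₀, hpureβ]
    exact mul_eq_zero_of_right _ (Finset.prod_eq_zero (Finset.mem_univ p) (by simpa using huv))
  have hXd : X *ᵥ d₀ = pureVec (Function.update (fun _ : Fin t => c) p (ε *ᵥ v)) := by
    rw [hXdef, hd₀, slot_mulVec, Function.update_self, Function.update_idem]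
  obtain ⟨ρ, hρ⟩ : ∃ ρ, ρ = β a₀ (X *ᵥ d₀) := ⟨_, rfl⟩
  have hρ0 : ρ ≠ 0 := by
    rw [hρ, hXd, ha₀, hpureβ]
    refine mul_ne_zero hc₀ (Finset.prod_ne_zero_iff.mpr fun i _ => ?_)
    rcases eq_or_ne i p with rfl | hi
    · simpa using huev
    · simpa [Function.update_of_ne hi] using hac
  have hBX : (B * X)ᵀ = B * X ∧ ∀ y, (B * X) y y = 0 := by
    have e1 : B * X = ptMat (Function.update (fun _ => G) p (G * ε)) 1 := by
      rw [hB, hXdef, slot, ptMat_mul]
      refine congrArg₂ ptMat (funext fun l => ?_) (by ext; rfl)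
      rcases eq_or_ne l p with rfl | h
      · simp
      · simp [Function.update_of_ne h]
    refine ⟨?_, fun y => ?_⟩
    · rw [e1, ptMat_transpose]
      refine congrArg₂ ptMat (funext fun l => ?_) (by ext; rfl)
      show (Function.update (fun _ => G) p (G * ε) l)ᵀ = _
      rcases eq_or_ne l p with rfl | h
      · simp [hε.2.1]
      · simp [Function.update_of_ne h, hG]
    · rw [e1]
      exact Finset.prod_eq_zero (Finset.mem_univ q) (by simp [Function.update_of_ne hpq.symm, hGd])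
  have hXsym : ∀ x y, β x (X *ᵥ y) = β y (X *ᵥ x) := fun x y => by
    rw [hβ]
    show c₀ * _ = c₀ * _
    rw [Matrix.mulVec_mulVec, Matrix.mulVec_mulVec, Matrix.dotProduct_mulVec, ← hBX.1, Matrix.vecMul_transpose,
      hBX.1, dotProduct_comm]
  have hXself : ∀ x, β x (X *ᵥ x) = 0 := fun x => by
    rw [hβ]
    show c₀ * _ = 0
    rw [Matrix.mulVec_mulVec, qzero h2 hBX.1 hBX.2, mul_zero]
  have hQd : Q (L d₀) = 0 := by rw [hd₀, hL]; exact hpure _
  have hQa : Q (L a₀) = 0 := by rw [ha₀, hL]; exact hpure _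
  have hpolβ : ∀ x y, QuadraticMap.polar Q (L x) (L y) = β x y := fun x y => by rw [hpol, hβ]
  obtain ⟨S, hSO, hS⟩ := CfsgLib.GeoOrth.exists_isSiegel hnd (by rw [Fintype.card_fin]; omega) hQd
    (a := L a₀) (by rw [hpolβ, hβc, had])
  obtain ⟨⟨S₀, hS₀, rfl⟩, -⟩ := hle hSO
  have hSv : ∀ x, (S₀).val *ᵥ x = x + β a₀ x • d₀ - β d₀ x • a₀ := fun x => hLi (by
    rw [← hφ, hS, hQa, zero_mul, sub_zero, hpolβ, hpolβ]
    simp only [map_sub, map_add, map_smul])
  have hβl : ∀ x y y', β x (y + y') = β x y + β x y' := fun x y y' => by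
    rw [hβ]; simp [Matrix.mulVec_add, dotProduct_add, mul_add]
  have hβm : ∀ x y (r : F), β x (r • y) = r * β x y := fun x y r => by
    rw [hβ]; simp [Matrix.mulVec_smul, dotProduct_smul, mul_left_comm]
  have hSd : (S₀).val *ᵥ d₀ = d₀ := by rw [hSv, had, hβs]; simp
  have hSa : (S₀).val *ᵥ a₀ = a₀ := by rw [hSv, hβc d₀, had, hβs]; simp
  have hneg : ∀ x : (Fin t → Fin k) → F, -x = x := fun x => funext fun i => by
    show -x i = x i
    linear_combination (-(x i)) * h2
  have hSS : ∀ x, (S₀).val *ᵥ ((S₀).val *ᵥ x) = x := fun x => by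
    conv_lhs => rw [hSv x, Matrix.mulVec_sub, Matrix.mulVec_add, Matrix.mulVec_smul, Matrix.mulVec_smul, hSd, hSa, hSv]
    simp only [sub_eq_add_neg, hneg]
    funext i
    simp only [Pi.add_apply, Pi.smul_apply, smul_eq_mul]
    linear_combination (β a₀ x * d₀ i + β d₀ x * a₀ i) * h2
  have hSinv : ∀ x, (S₀⁻¹ : GL (Fin t → Fin k) F).val *ᵥ x = (S₀).val *ᵥ x := fun x => by
    conv_lhs => rw [← hSS x]
    exact CfsgLib.GeoFull.inv_mulVec_cancel _ _
  obtain ⟨s, hs⟩ := span_anticomm h2 hk24 hG hGd hdet (hW ▸ hS₀ X (hW ▸ hXdef ▸ slot_mem_cliffordSpan p hε))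
    (hXdef ▸ slot_mem_cliffordSpan p hε)
  have hXX : ∀ x, X *ᵥ (X *ᵥ x) = 0 := fun x => by
    rw [Matrix.mulVec_mulVec, hXdef, slot_mul, hε.1, slot_zero, Matrix.zero_mulVec]
  obtain ⟨w, hw0, hw1, hw2, hw3, hw4⟩ : ∃ w, w ≠ 0 ∧ β a₀ w = 0 ∧ β d₀ w = 0 ∧ β a₀ (X *ᵥ w) = 0 ∧
      β d₀ (X *ᵥ w) = 0 := by
    let R : ((Fin t → Fin k) → F) →ₗ[F] (Fin 4 → F) :=
      { toFun := fun x => ![β a₀ x, β d₀ x, β a₀ (X *ᵥ x), β d₀ (X *ᵥ x)]
        map_add' := fun x y => by simp [hβl, Matrix.mulVec_add]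
        map_smul' := fun r x => by simp [hβm, Matrix.mulVec_smul] }
    obtain ⟨w, hw, hw0⟩ := (LinearMap.ker R).exists_mem_ne_zero_of_ne_bot fun h => by
      have h1 := R.finrank_range_add_finrank_ker
      have h4 := Submodule.finrank_le (LinearMap.range R)
      rw [h, finrank_bot] at h1
      simp at h1 h4; omega
    exact ⟨w, hw0, congrFun hw 0, congrFun hw 1, congrFun hw 2, congrFun hw 3⟩
  have hSfix : ∀ y, β a₀ y = 0 → β d₀ y = 0 → (S₀).val *ᵥ y = y := fun y h h' => by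
    rw [hSv, h, h']; simp
  have e1 : (S₀).val *ᵥ (X *ᵥ d₀) = X *ᵥ d₀ + ρ • d₀ := by
    rw [hSv, ← hρ, hXself]; simp
  have e2 := congrArg (fun M : Matrix (Fin t → Fin k) (Fin t → Fin k) F => M *ᵥ d₀) hs
  have e3 := congrArg (fun M : Matrix (Fin t → Fin k) (Fin t → Fin k) F => M *ᵥ w) hs
  simp only [Matrix.add_mulVec, ← Matrix.mulVec_mulVec, Matrix.smul_mulVec, Matrix.one_mulVec, hSinv] at e2 e3
  have f1 := hSfix w hw1 hw2
  have f2 := hSfix (X *ᵥ w) hw3 hw4
  simp only [e1, hSd, f1, f2, Matrix.mulVec_add, Matrix.mulVec_smul, hXX, Matrix.mulVec_zero, zero_add, add_zero] at e2 e3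
  have hs0 : s = 0 := (smul_eq_zero.mp e3.symm).resolve_right hw0
  rw [hs0, zero_smul] at e2
  have hdd : (ρ * ρ) • d₀ = 0 := funext fun i => by
    have h := congrFun e2 i
    simp only [Pi.add_apply, Pi.smul_apply, Pi.zero_apply, smul_eq_mul] at h ⊢
    linear_combination h - (ρ * (X *ᵥ d₀) i) * h2
  have hd0 : d₀ ≠ 0 := fun h => hρ0 (by rw [hρ, h, Matrix.mulVec_zero, hβ]; simp)
  exact mul_ne_zero hρ0 hρ0 ((smul_eq_zero.mp hdd).resolve_right hd0)

end Cfsg.Agent.S5707
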