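import Cfsg.Statements.S5710
import Cfsg.Agent.GeoLib.TensorTools
import Cfsg.Agent.GeoLib.NonMax
import Cfsg.Agent.GeoLib.OmegaParabolic

set_option autoImplicit false
open Cfsg

namespace Cfsg.Agent.S5710

/-- Let F be the field with 3 elements, n = 3 n₂ ≥ 13 even, Q a non-degenerate quadratic form on F^n of minus type and Ω the commutator subgroup of its isometry group. Suppose that, through P and e, the polar form of Q is similar to the tensor product of non-degenerate symmetric bilinear forms f₁ on F^3 and f₂ on F^(n₂), n₂ even and at least 4, of minus type. Then the elements of Ω in the stabiliser of this tensor decomposition form a subgroup that is not maximal: some subgroup lies strictly between it and Ω. -/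
theorem result {F : Type*} [Field F] [Fintype F] {n : ℕ} (hn : 13 ≤ n) (heven : Even n) (Q : (Fin n → F) → F) (hQ : Cfsg.Geo.IsNondegenerateQuadraticForm Q) (hminus : ¬ Cfsg.Geo.IsPlusTypeOn Q ⊤) (hq : Fintype.card F = 3) (n₂ : ℕ) (h2 : 4 ≤ n₂) (h2e : Even n₂) (e : (Fin n) ≃ Fin 3 × Fin n₂) (P : Matrix.GeneralLinearGroup (Fin n) F) (f₁ : (Fin 3 → F) → (Fin 3 → F) → F) (f₂ : (Fin n₂ → F) → (Fin n₂ → F) → F) (hf₁ : Cfsg.Geo.IsSymmetricForm f₁) (hf₂ : Cfsg.Geo.IsSymmetricForm f₂) (hf₂m : ¬ Cfsg.Geo.IsPlusTypeOn (fun v : Fin n₂ → F => f₂ v v) ⊤) (hT : Cfsg.Geo.IsTensorFormStructure id (QuadraticMap.polar Q) f₁ f₂ e P) : ∃ K : Subgroup (Matrix.GeneralLinearGroup (Fin n) F), Cfsg.Geo.tensorProductSubgroup 3 n₂ e P ⊓ Cfsg.Geo.omegaGL Q < K ∧ K < Cfsg.Geo.omegaGL Q := by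
  classical
  obtain ⟨Q, rfl, hnd⟩ := CfsgLib.Forms.exists_quadForm hQ
  have h2 : (2 : F) ≠ 0 := by
    intro h
    have h0 : ((Fintype.card F : ℕ) : F) = 0 := FiniteField.cast_card_eq_zero F
    rw [hq] at h0
    exact one_ne_zero (α := F) (by norm_num at h0; linear_combination h0 - h)
  have hn5 : 5 ≤ Fintype.card (Fin n) := by simp; omega
  have hn₂ : 5 ≤ n₂ := by
    have := Fintype.card_congr e
    simp at this; omega
  obtain ⟨δ, w, hδ, hw, hexp, hfr⟩ := CfsgLib.GeoTensor.exists_frame_three hq hf₁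
  obtain ⟨⟨hl₁, hls₁, hr₁, hrs₁⟩, hsymm₁, hnd₁⟩ := hf₁
  obtain ⟨⟨hl₂, hls₂, hr₂, hrs₂⟩, hsymm₂, hnd₂⟩ := hf₂
  obtain ⟨c, hc, hf⟩ := CfsgLib.GeoTensor.form_pure (σ := RingHom.id F) (f := QuadraticMap.polar Q) (e := e) (P := P)
    (CfsgLib.GeoTensor.eq_gram hl₁ hls₁ hr₁ hrs₁) (CfsgLib.GeoTensor.eq_gram hl₂ hls₂ hr₂ hrs₂) hT
  let W : Fin 3 → ((Fin n₂ → F) →ₗ[F] (Fin n → F)) := fun k =>
    { toFun := fun y => CfsgLib.GeoTensor.pure e P (w k) y
      map_add' := fun y y' => CfsgLib.GeoTensor.pure_add_right _ y y'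
      map_smul' := fun r y => CfsgLib.GeoTensor.pure_smul_right r _ y }
  have hW : ∀ k y, W k y = CfsgLib.GeoTensor.pure e P (w k) y := fun k y => rfl
  have hw0 : ∀ k, w k ≠ 0 := fun k h => hδ (by
    have := hw k k
    rw [if_pos rfl, h] at this
    rw [← this]; simpa using hls₁ 0 0 (0 : Fin 3 → F))
  have hcomp : ∀ k k' y y', QuadraticMap.polar Q (W k y) (W k' y') = if k = k' then c * δ * f₂ y y' else 0 :=
    fun k k' y y' => by
      rw [hW, hW, hf, hw]; split_ifs <;> ring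
  have hinj : ∀ k y, W k y = 0 → y = 0 := fun k y h => by
    by_contra hy
    exact CfsgLib.GeoTensor.pure_ne_zero (hw0 k) hy h
  -- a singular vector in the first member
  obtain ⟨y₀, hy₀0, hd⟩ : ∃ y₀, y₀ ≠ 0 ∧ Q (W 0 y₀) = 0 := by
    obtain ⟨z, ⟨y, rfl⟩, hz0, hz⟩ := CfsgLib.Forms.exists_singular Q (LinearMap.range (W 0)) (by
      rw [LinearMap.finrank_range_of_inj (LinearMap.ker_eq_bot.1 (LinearMap.ker_eq_bot'.2 (hinj 0)))]
      simp; omega)
    exact ⟨y, fun h => hz0 (by rw [h, map_zero]), hz⟩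
  obtain ⟨-, ⟨y₂, hy₂⟩⟩ := hnd₂ y₀ hy₀0
  let A : (Fin n → F) → Prop := fun z => ∃ k y, z = W k y
  let Φ : (Fin n → F) → F := fun x => if A x then 1 else 0
  have hΦ : ∀ {g : GL (Fin n) F}, (∀ x, A x → A ((g : Matrix _ _ F).mulVec x)) →
      (∀ x, A x → A (((g⁻¹ : GL (Fin n) F) : Matrix _ _ F).mulVec x)) →
      g ∈ CfsgLib.GeoNonMax.fixFun Φ := fun {g} h h' x => if_congr ⟨fun hx => by
        have := h' _ hx
        rwa [CfsgLib.GeoFull.inv_mulVec_cancel] at this, h x⟩ rfl rfl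
  have hmapA : ∀ g : GL (Fin n) F, g ∈ Cfsg.Geo.tensorProductSubgroup 3 n₂ e P →
      g ∈ Cfsg.Geo.omegaGL Q → ∀ x, A x → A ((g : Matrix _ _ F).mulVec x) := by
    intro g hg hgS x hx
    obtain ⟨α, β, hαβ⟩ := CfsgLib.GeoTensor.exists_factors hg
    obtain ⟨k, y, rfl⟩ := hx
    have h : ∀ z z', f₁ ((α : Matrix (Fin 3) (Fin 3) F).mulVec z) ((α : Matrix (Fin 3) (Fin 3) F).mulVec z') *
        f₂ ((β : Matrix (Fin n₂) (Fin n₂) F).mulVec y₀) ((β : Matrix (Fin n₂) (Fin n₂) F).mulVec y₂) =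
          f₁ z z' * f₂ y₀ y₂ := fun z z' => by
      have h := (CfsgLib.GeoOrth.polar_omega hgS).2 (CfsgLib.GeoTensor.pure e P z y₀) (CfsgLib.GeoTensor.pure e P z' y₂)
      rw [hαβ, hαβ, hf, hf] at h
      exact mul_left_cancel₀ hc h
    have hne : f₂ ((β : Matrix (Fin n₂) (Fin n₂) F).mulVec y₀) ((β : Matrix (Fin n₂) (Fin n₂) F).mulVec y₂) ≠ 0 := by
      intro h0
      have h' := h (w 0) (w 0)
      rw [h0, mul_zero, hw, if_pos rfl] at h'
      exact mul_ne_zero hδ hy₂ h'.symm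
    obtain ⟨j, r, hr⟩ := hfr (Matrix.toLin' (α : Matrix (Fin 3) (Fin 3) F))
      (f₂ y₀ y₂ / f₂ ((β : Matrix (Fin n₂) (Fin n₂) F).mulVec y₀) ((β : Matrix (Fin n₂) (Fin n₂) F).mulVec y₂))
      (div_ne_zero hy₂ hne) (fun z z' => by
        rw [Matrix.toLin'_apply, Matrix.toLin'_apply, div_mul_eq_mul_div, eq_div_iff hne]
        linear_combination h z z') k
    rw [Matrix.toLin'_apply] at hr
    exact ⟨j, r • (β : Matrix (Fin n₂) (Fin n₂) F).mulVec y, by
      rw [hW, hW, hαβ, hr, CfsgLib.GeoTensor.pure_smul_left, CfsgLib.GeoTensor.pure_smul_right]⟩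
  refine ⟨CfsgLib.GeoNonMax.fixFun Φ ⊓ Cfsg.Geo.omegaGL Q, ?_, ?_⟩
  · refine lt_of_le_not_ge (le_inf (fun g hg => hΦ (hmapA g hg.1 hg.2)
      (hmapA _ (inv_mem hg.1) (inv_mem hg.2))) inf_le_right) fun hle => ?_
    -- a Siegel element inside the first member
    obtain ⟨a, ha, had⟩ : ∃ a, a ∉ Submodule.span F {y₀} ∧ f₂ y₀ a = 0 := by
      let L : Module.Dual F (Fin n₂ → F) :=
        { toFun := f₂ y₀, map_add' := hr₂ y₀, map_smul' := fun r v => hrs₂ r y₀ v }
      have h1 := L.finrank_range_add_finrank_ker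
      have h4 := Submodule.finrank_le (LinearMap.range L)
      simp at h1 h4
      obtain ⟨a, ha, hout⟩ := SetLike.not_le_iff_exists.1
        (show ¬ LinearMap.ker L ≤ Submodule.span F {y₀} from fun h => by
          have := Submodule.finrank_mono h
          rw [finrank_span_singleton hy₀0] at this; omega)
      exact ⟨a, hout, ha⟩
    have hda : QuadraticMap.polar Q (W 0 y₀) (W 0 a) = 0 := by rw [hcomp, if_pos rfl, had, mul_zero]
    obtain ⟨g, hgO, hg⟩ := CfsgLib.GeoOrth.exists_isSiegel hnd hn5 hd hda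
    have hgfix : ∀ k, k ≠ 0 → ∀ y, (g : Matrix _ _ F).mulVec (W k y) = W k y := fun k hk y => by
      rw [hg, hcomp, hcomp, if_neg (Ne.symm hk), if_neg (Ne.symm hk)]; simp
    have hgW : ∀ y, ∃ y', (g : Matrix _ _ F).mulVec (W 0 y) = W 0 y' := fun y =>
      ⟨y + (QuadraticMap.polar Q (W 0 a) (W 0 y) - Q (W 0 a) * QuadraticMap.polar Q (W 0 y₀) (W 0 y)) • y₀ -
        QuadraticMap.polar Q (W 0 y₀) (W 0 y) • a, by rw [hg, map_sub, map_add, map_smul, map_smul]⟩
    have hA : ∀ x, A x → A ((g : Matrix _ _ F).mulVec x) := by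
      rintro x ⟨k, y, rfl⟩
      rcases eq_or_ne k 0 with rfl | hk
      · obtain ⟨y', hy'⟩ := hgW y
        exact ⟨0, y', hy'⟩
      · exact ⟨k, y, hgfix k hk y⟩
    have hA' : ∀ x, A x → A (((g⁻¹ : GL (Fin n) F) : Matrix _ _ F).mulVec x) := by
      rintro x ⟨k, y, rfl⟩
      rcases eq_or_ne k 0 with rfl | hk
      · let G : LinearMap.range (W 0) →ₗ[F] LinearMap.range (W 0) :=
          ((Matrix.toLin' (g : Matrix _ _ F)).comp (LinearMap.range (W 0)).subtype).codRestrict _ (by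
            rintro ⟨_, y, rfl⟩
            obtain ⟨y', hy'⟩ := hgW y
            exact ⟨y', by simp [hy']⟩)
        have hGi : Function.Injective G := fun u v huv => Subtype.ext
          (Matrix.mulVec_injective_of_isUnit g.isUnit (by simpa [G] using congrArg Subtype.val huv))
        obtain ⟨⟨_, y', rfl⟩, hG⟩ := (LinearMap.injective_iff_surjective.1 hGi) ⟨W 0 y, y, rfl⟩
        have hG' : (g : Matrix _ _ F).mulVec (W 0 y') = W 0 y := by simpa [G] using congrArg Subtype.val hG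
        exact ⟨0, y', by rw [← hG', CfsgLib.GeoFull.inv_mulVec_cancel]⟩
      · exact ⟨k, y, by conv_lhs => rw [← hgfix k hk y, CfsgLib.GeoFull.inv_mulVec_cancel]⟩
    obtain ⟨α, β, hαβ⟩ := CfsgLib.GeoTensor.exists_factors (hle ⟨hΦ hA hA', hgO⟩).1
    have hb := fun y => CfsgLib.GeoTensor.pure_eq ((hαβ (w 1) y).symm.trans (hgfix 1 (by decide) y))
    obtain ⟨j, hj⟩ := Function.ne_iff.1 (hw0 1)
    obtain ⟨j₀, hj₀⟩ := Function.ne_iff.1 hy₀0
    have hαj : (α : Matrix (Fin 3) (Fin 3) F).mulVec (w 1) j ≠ 0 := fun h => by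
      have := hb y₀ j j₀
      rw [h, zero_mul] at this
      exact mul_ne_zero hj hj₀ this.symm
    set ρ := w 1 j / (α : Matrix (Fin 3) (Fin 3) F).mulVec (w 1) j with hρ
    have hβ : ∀ y, (β : Matrix (Fin n₂) (Fin n₂) F).mulVec y = ρ • y := fun y => funext fun k => by
      have := hb y j k
      rw [Pi.smul_apply, smul_eq_mul, hρ, div_mul_eq_mul_div, eq_div_iff hαj]
      linear_combination this
    have h : CfsgLib.GeoTensor.pure e P (ρ • (α : Matrix (Fin 3) (Fin 3) F).mulVec (w 0)) y₂ =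
        CfsgLib.GeoTensor.pure e P (w 0) (y₂ + (QuadraticMap.polar Q (W 0 a) (W 0 y₂) -
          Q (W 0 a) * QuadraticMap.polar Q (W 0 y₀) (W 0 y₂)) • y₀ -
          QuadraticMap.polar Q (W 0 y₀) (W 0 y₂) • a) := by
      rw [CfsgLib.GeoTensor.pure_smul_left, ← CfsgLib.GeoTensor.pure_smul_right, ← hβ, ← hαβ, ← hW, ← hW, hg,
        map_sub, map_add, map_smul, map_smul]
    obtain ⟨j', hj'⟩ := Function.ne_iff.1 (hw0 0)
    set t₂ := QuadraticMap.polar Q (W 0 a) (W 0 y₂) - Q (W 0 a) * QuadraticMap.polar Q (W 0 y₀) (W 0 y₂)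
    set t₃ := QuadraticMap.polar Q (W 0 y₀) (W 0 y₂) with ht₃
    have hvec : (ρ * (α : Matrix (Fin 3) (Fin 3) F).mulVec (w 0) j') • y₂ = w 0 j' • (y₂ + t₂ • y₀ - t₃ • a) :=
      funext fun k => by simpa [smul_eq_mul, mul_assoc] using CfsgLib.GeoTensor.pure_eq h j' k
    have h3 := congrArg (fun z => f₂ y₀ z) hvec
    have hy00 : f₂ y₀ y₀ = 0 := by
      have := hcomp 0 0 y₀ y₀
      rw [QuadraticMap.polar_self, hd, smul_zero, if_pos rfl] at this
      exact (mul_eq_zero.1 this.symm).resolve_left (mul_ne_zero hc hδ)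
    simp only [sub_eq_add_neg, ← neg_smul, hrs₂, hr₂, hy00, had, mul_zero, add_zero] at h3
    have h4 := mul_right_cancel₀ hy₂ h3
    rw [h4] at hvec
    have ha' : t₃ • a = t₂ • y₀ := by
      have := smul_right_injective (Fin n₂ → F) hj' hvec
      linear_combination (norm := module) this
    have ht : t₃ ≠ 0 := by
      rw [ht₃, hcomp, if_pos rfl]; exact mul_ne_zero (mul_ne_zero hc hδ) hy₂
    exact ha (Submodule.mem_span_singleton.2 ⟨t₃⁻¹ * t₂, by rw [← smul_smul, ← ha', smul_smul, inv_mul_cancel₀ ht, one_smul]⟩)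
  · refine lt_of_le_not_ge inf_le_right fun hle => ?_
    have hda : QuadraticMap.polar Q (W 0 y₀) (W 1 y₂) = 0 := by rw [hcomp, if_neg (by decide)]
    obtain ⟨g, hgO, hg⟩ := CfsgLib.GeoOrth.exists_isSiegel hnd hn5 hd hda
    have h := (hle hgO).1 (W 0 y₂)
    have hA : A (W 0 y₂) := ⟨0, y₂, rfl⟩
    have e1 : (g : Matrix _ _ F).mulVec (W 0 y₂) =
        W 0 (y₂ + (-(Q (W 1 y₂) * (c * δ * f₂ y₀ y₂))) • y₀) + W 1 ((-(c * δ * f₂ y₀ y₂)) • y₂) := by
      rw [hg, hcomp, hcomp, if_neg (show (1 : Fin 3) ≠ 0 by decide), if_pos rfl]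
      simp only [map_add, map_smul]
      module
    rw [e1] at h
    by_cases hAg : A (W 0 (y₂ + (-(Q (W 1 y₂) * (c * δ * f₂ y₀ y₂))) • y₀) + W 1 ((-(c * δ * f₂ y₀ y₂)) • y₂))
    swap
    · simp only [Φ, if_pos hA, if_neg hAg] at h; exact zero_ne_one h
    obtain ⟨k, z, hz⟩ := hAg
    have hp : ∀ l x', (if (0 : Fin 3) = l then c * δ * f₂ (y₂ + (-(Q (W 1 y₂) * (c * δ * f₂ y₀ y₂))) • y₀) x' else 0) +
        (if (1 : Fin 3) = l then c * δ * f₂ ((-(c * δ * f₂ y₀ y₂)) • y₂) x' else 0) =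
          if k = l then c * δ * f₂ z x' else 0 := by
      intro l x'
      rw [← hcomp, ← hcomp, ← hcomp, ← QuadraticMap.polar_add_left, hz]
    by_cases hk : k = 0
    · subst hk
      obtain ⟨-, x', hx'⟩ := hnd₂ y₂ fun h => hy₂ (by rw [h]; simpa using hrs₂ 0 y₀ 0)
      have := hp 1 x'
      rw [if_neg (by decide), if_pos rfl, if_neg (by decide), zero_add, hls₂] at this
      exact mul_ne_zero (mul_ne_zero hc hδ) (mul_ne_zero (neg_ne_zero.2 (mul_ne_zero (mul_ne_zero hc hδ) hy₂)) hx') this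
    · have := hp 0 y₀
      have hy00 : f₂ y₀ y₀ = 0 := by
        have := hcomp 0 0 y₀ y₀
        rw [QuadraticMap.polar_self, hd, smul_zero, if_pos rfl] at this
        exact (mul_eq_zero.1 this.symm).resolve_left (mul_ne_zero hc hδ)
      rw [if_pos rfl, if_neg (by decide), if_neg hk, add_zero, hl₂, hls₂, hy00, mul_zero, add_zero, hsymm₂] at this
      exact mul_ne_zero (mul_ne_zero hc hδ) hy₂ this

end Cfsg.Agent.S5710
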