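import Cfsg.Statements.S5778
import Mathlib
import Cfsg.Agent.GeoPrime.Unitary
import Cfsg.Agent.GeoPrime.Three.Subfield
import Cfsg.Agent.GeoPrime.Three.SingerCases
import Cfsg.Agent.GeoPrime.Three.Monomial
import Cfsg.Agent.GeoPrime.Three.Heis

set_option autoImplicit false
open Cfsg

namespace Cfsg.Agent.S5778

/-- Every maximal subgroup of SU_3(q), q ≥ 3, is of one of the listed geometric types or lies in the residual class. Let F be the field with q² elements, f the standard unitary form Σ u_i v_i^q on F^3, and H a maximal subgroup of SU_3(q) (the determinant-one isometries of f, inside GL_3(F)). Then H is the intersection with SU_3(q) of one of: the stabiliser of a non-zero subspace on which f vanishes; the stabiliser of a non-degenerate 1-space; for q ≠ 5, the stabiliser of a decomposition into three mutually orthogonal non-degenerate 1-spaces; for q ≠ 3, 5, the normaliser of an adjoint-closed degree-3 subfield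 of the matrix algebra; a subfield group of odd prime index whose F₀-structure carries f; for q odd, q ≥ 7, a subfield group of index 2 whose F₀-structure carries f; for q = p ≡ 2 mod 3 prime with p ≥ 11, the normaliser of an absolutely irreducible subgroup of order 27 with centre of order 3, exponent 3 and all characteristic abelian subgroups cyclic, contained in the similarity group of f — or else H lies in the residual class of the unitary case. -/
theorem result {F : Type*} [Field F] [Fintype F] (q : ℕ) (hF : Fintype.card F = q ^ 2) (hq : 3 ≤ q) (H : Subgroup (Matrix.GeneralLinearGroup (Fin 3) F)) (hH : Cfsg.Geo.IsMaximalIn (Cfsg.GU 3 F q ⊓ Cfsg.Geo.specialLinear (Fin 3) F) H) :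
    (∃ W : Submodule F (Fin 3 → F), W ≠ ⊥ ∧ Cfsg.Geo.IsTotallySingularFor (Cfsg.hermForm 3 F q) W ∧ H = Cfsg.Geo.subspaceStabilizer W ⊓ (Cfsg.GU 3 F q ⊓ Cfsg.Geo.specialLinear (Fin 3) F)) ∨
    (∃ W : Submodule F (Fin 3 → F), W ≠ ⊥ ∧ Cfsg.Geo.IsNondegenerateOn (Cfsg.hermForm 3 F q) W ∧ 2 * Module.finrank F W < 3 ∧ H = Cfsg.Geo.subspaceStabilizer W ⊓ (Cfsg.GU 3 F q ⊓ Cfsg.Geo.specialLinear (Fin 3) F)) ∨
    (q ≠ 5 ∧ ∃ D : Fin 3 → Submodule F (Fin 3 → F), Cfsg.Geo.IsNondegenerateMDecomposition (Cfsg.hermForm 3 F q) 1 D ∧ H = Cfsg.Geo.decompositionStabilizer D ⊓ (Cfsg.GU 3 F q ⊓ Cfsg.Geo.specialLinear (Fin 3) F)) ∨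
    (q ≠ 3 ∧ q ≠ 5 ∧ ∃ K : Subalgebra F (Matrix (Fin 3) (Fin 3) F), Cfsg.Geo.IsFieldSubalgebra 3 K ∧ Cfsg.Geo.IsAdjointClosedFor (Cfsg.hermForm 3 F q) K ∧ H = Cfsg.Geo.subalgebraNormalizer K ⊓ (Cfsg.GU 3 F q ⊓ Cfsg.Geo.specialLinear (Fin 3) F)) ∨
    (∃ (F₀ : Subfield F) (r : ℕ) (P : Matrix.GeneralLinearGroup (Fin 3) F), r.Prime ∧ Odd r ∧ Fintype.card F = Nat.card F₀ ^ r ∧ Cfsg.Geo.IsFormRationalStructure (Cfsg.hermForm 3 F q) F₀ 1 P ∧ H = Cfsg.Geo.subfieldSubgroup F₀ P ⊓ (Cfsg.GU 3 F q ⊓ Cfsg.Geo.specialLinear (Fin 3) F)) ∨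
    (Odd q ∧ 7 ≤ q ∧ ∃ (F₀ : Subfield F) (P : Matrix.GeneralLinearGroup (Fin 3) F), Fintype.card F = Nat.card F₀ ^ 2 ∧ Cfsg.Geo.IsFormRationalStructure (Cfsg.hermForm 3 F q) F₀ 1 P ∧ H = Cfsg.Geo.subfieldSubgroup F₀ P ⊓ (Cfsg.GU 3 F q ⊓ Cfsg.Geo.specialLinear (Fin 3) F)) ∨
    (∃ (p : ℕ) (R : Subgroup (Matrix.GeneralLinearGroup (Fin 3) F)), p.Prime ∧ q = p ∧ p % 3 = 2 ∧ 11 ≤ p ∧ Cfsg.Geo.IsSymplecticTypeGroup 3 R ∧ Cfsg.Geo.ActsAbsolutelyIrreducibly (Cfsg.Geo.matrixSet R) ∧ R ≤ Cfsg.Geo.similarityGroup (Cfsg.hermForm 3 F q) ∧ Nat.card R = 27 ∧ Nat.card (Subgroup.center R) = 3 ∧ H = Cfsg.Geo.subgroupNormalizer R ⊓ (Cfsg.GU 3 F q ⊓ Cfsg.Geo.specialLinear (Fin 3) F)) ∨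
    Cfsg.Geo.InUnitaryResidualClass H := by
  obtain ⟨p₀, k₀, σ, hp₀, hC₀, -, hq₀, hne, hinv, hσ⟩ := CfsgLib.GeoPrime.exists_conj hF
  have D : CfsgLib.GeoPrime.UData 3 F q σ := ⟨hne, hinv, hσ, hF⟩
  have hchar : ∀ r : ℕ, r.Prime → q = r → CharP F r := by
    intro r hr hqr
    have h1 : r ∣ p₀ ^ k₀ := by rw [← hq₀, hqr]
    rwa [(Nat.prime_dvd_prime_iff_eq hr hp₀).mp (hr.dvd_of_dvd_pow h1)]
  haveI : NeZero (3 : ℕ) := ⟨by norm_num⟩
  rcases CfsgLib.GeoPrime.unitary_incl (n := 3) D Nat.prime_three le_rfl hH with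
    h | h | h | h | (h | h) | h | h
  · exact Or.inl h
  · exact Or.inr (Or.inl h)
  · obtain ⟨L, hL, b, rfl, horth, hdiag, hle⟩ := h
    rcases eq_or_ne q 5 with rfl | hq5
    · haveI := hchar 5 (by norm_num) rfl
      exact (CfsgLib.GeoPrime.Three.no_monomial_five D hH b horth hdiag hle).elim
    · exact Or.inr (Or.inr (Or.inl ⟨hq5, _, hL, CfsgLib.GeoPrime.eq_inf_of_maximal hH hle
        (CfsgLib.GeoPrime.Three.su3_not_le_decompositionStabilizer D hq b horth hdiag)⟩))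
  · obtain ⟨K, hK, hA, hR, x, hx, hxs, hxK⟩ := h
    have hle : H ≤ Cfsg.Geo.subalgebraNormalizer K := fun z hz => (hR.le hz).1
    refine Or.inr (Or.inr (Or.inr (Or.inl ⟨fun h3 => ?_, fun h5 => ?_, K, hK, hA, hR⟩)))
    · subst h3
      haveI := hchar 3 Nat.prime_three rfl
      exact CfsgLib.GeoPrime.Three.no_singer_three D hH hK hA hle hx hxs hxK
    · subst h5
      haveI := hchar 5 (by norm_num) rfl
      exact CfsgLib.GeoPrime.Three.no_singer_five D hH hK hA hle hx hxs hxK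
  · exact Or.inr (Or.inr (Or.inr (Or.inr (Or.inl h))))
  · obtain ⟨hodd, F₀, P, hc, hform, heq⟩ := h
    rcases le_or_gt 7 q with h7 | h7
    · exact Or.inr (Or.inr (Or.inr (Or.inr (Or.inr (Or.inl ⟨hodd, h7, F₀, P, hc, hform, heq⟩)))))
    have hle : H ≤ Cfsg.Geo.subfieldSubgroup F₀ P := fun z hz => (heq.le hz).1
    obtain rfl | rfl : q = 3 ∨ q = 5 := by
      obtain ⟨m, hm⟩ := hodd
      omega
    · haveI := hchar 3 Nat.prime_three rfl
      exact Or.inr (Or.inr (Or.inl ⟨by norm_num,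
        CfsgLib.GeoPrime.Three.subfield_three D hH hc hform hle⟩))
    · haveI := hchar 5 (by norm_num) rfl
      exact (CfsgLib.GeoPrime.Three.no_subfield_five D hH hc hform hle).elim
  · obtain ⟨p, k, R, hp, hC, hqp, hk, hdvd, hpk, -, hT, hA, hG, hc, hz, hRH, hc2, hR⟩ := h
    have hk1 : k = 1 := by have := Nat.le_of_dvd (by norm_num) hdvd; omega
    subst hk1
    rw [pow_one] at hqp hpk
    subst hqp
    haveI := Fact.mk hp
    haveI := hC
    have hc27 : Nat.card R = 27 := by rw [hc]; norm_num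
    by_cases hp11 : 11 ≤ q
    · refine Or.inr (Or.inr (Or.inr (Or.inr (Or.inr (Or.inr (Or.inl ⟨q, R, hp, rfl, by simpa using hpk, hp11, hT,
        hA, fun x hx => ⟨1, fun u v => ?_⟩, hc27, hz, CfsgLib.GeoPrime.eq_inf_of_maximal hH hR
          (CfsgLib.GeoPrime.Three.su3_not_le_normalizer D hp11 hA (fun x hx => (hH.1.le (hRH hx)).2) hc27 hz)⟩))))))
      rw [CfsgLib.GeoPrime.mem_GU.mp (hG hx), Units.val_one, one_mul]
    · obtain rfl : q = 5 := by
        have h1 : q ≤ 10 := by omega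
        interval_cases q <;> first | rfl | omega | (norm_num at hp)
      exact (CfsgLib.GeoPrime.Three.no_heisenberg_five D hH hRH hA hc27 hc2 hR).elim
  · exact Or.inr (Or.inr (Or.inr (Or.inr (Or.inr (Or.inr (Or.inr h))))))

end Cfsg.Agent.S5778
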