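import Cfsg.Statements.S5796
import Mathlib
import Cfsg.Agent.GeoPrime.Unitary
import Cfsg.Agent.GeoPrime.USu5

set_option autoImplicit false
open Cfsg

namespace Cfsg.Agent.S5796

/-- Every maximal subgroup of SU_5(q) is of one of the listed geometric types or lies in the residual class. Let F be the field with q² elements (characteristic p), f the standard unitary form Σ u_i v_i^q on F^5, and H a maximal subgroup of SU_5(q) (inside GL_5(F)). Then H is the intersection with SU_5(q) of one of: the stabiliser of a non-zero totally isotropic subspace; the stabiliser of a non-degenerate 1-space or 2-space; the stabiliser of a decomposition into five mutually orthogonal non-degenerate 1-spaces; for q ≥ 3, the normaliser of an adjoint-closed degree-5 subfield of the matrix algebra; a subfield group of odd prime index whose F₀-structure carries f; for q odd, a subfield group of index 2 whose F₀-structure carries f;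 for q = p ≡ 4 mod 5 or q = p² with p ≡ 2, 3 mod 5, the normaliser of an absolutely irreducible 5-group of exponent 5, order 125 and centre of order 5 with all characteristic abelian subgroups cyclic inside the similarity group of f — or else H lies in the residual class of the unitary case. -/
theorem result {F : Type*} [Field F] [Fintype F] (q : ℕ) (hF : Fintype.card F = q ^ 2) (H : Subgroup (Matrix.GeneralLinearGroup (Fin 5) F)) (hH : Cfsg.Geo.IsMaximalIn (Cfsg.GU 5 F q ⊓ Cfsg.Geo.specialLinear (Fin 5) F) H) :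
    (∃ W : Submodule F (Fin 5 → F), W ≠ ⊥ ∧ Cfsg.Geo.IsTotallySingularFor (Cfsg.hermForm 5 F q) W ∧ H = Cfsg.Geo.subspaceStabilizer W ⊓ (Cfsg.GU 5 F q ⊓ Cfsg.Geo.specialLinear (Fin 5) F)) ∨
    (∃ W : Submodule F (Fin 5 → F), W ≠ ⊥ ∧ Cfsg.Geo.IsNondegenerateOn (Cfsg.hermForm 5 F q) W ∧ 2 * Module.finrank F W < 5 ∧ H = Cfsg.Geo.subspaceStabilizer W ⊓ (Cfsg.GU 5 F q ⊓ Cfsg.Geo.specialLinear (Fin 5) F)) ∨
    (∃ D : Fin 5 → Submodule F (Fin 5 → F), Cfsg.Geo.IsNondegenerateMDecomposition (Cfsg.hermForm 5 F q) 1 D ∧ H = Cfsg.Geo.decompositionStabilizer D ⊓ (Cfsg.GU 5 F q ⊓ Cfsg.Geo.specialLinear (Fin 5) F)) ∨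
    (3 ≤ q ∧ ∃ K : Subalgebra F (Matrix (Fin 5) (Fin 5) F), Cfsg.Geo.IsFieldSubalgebra 5 K ∧ Cfsg.Geo.IsAdjointClosedFor (Cfsg.hermForm 5 F q) K ∧ H = Cfsg.Geo.subalgebraNormalizer K ⊓ (Cfsg.GU 5 F q ⊓ Cfsg.Geo.specialLinear (Fin 5) F)) ∨
    (∃ (F₀ : Subfield F) (r : ℕ) (P : Matrix.GeneralLinearGroup (Fin 5) F), r.Prime ∧ Odd r ∧ Fintype.card F = Nat.card F₀ ^ r ∧ Cfsg.Geo.IsFormRationalStructure (Cfsg.hermForm 5 F q) F₀ 1 P ∧ H = Cfsg.Geo.subfieldSubgroup F₀ P ⊓ (Cfsg.GU 5 F q ⊓ Cfsg.Geo.specialLinear (Fin 5) F)) ∨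
    (Odd q ∧ ∃ (F₀ : Subfield F) (P : Matrix.GeneralLinearGroup (Fin 5) F), Fintype.card F = Nat.card F₀ ^ 2 ∧ Cfsg.Geo.IsFormRationalStructure (Cfsg.hermForm 5 F q) F₀ 1 P ∧ H = Cfsg.Geo.subfieldSubgroup F₀ P ⊓ (Cfsg.GU 5 F q ⊓ Cfsg.Geo.specialLinear (Fin 5) F)) ∨
    (∃ (p : ℕ) (R : Subgroup (Matrix.GeneralLinearGroup (Fin 5) F)), p.Prime ∧ CharP F p ∧ ((q = p ∧ p % 5 = 4) ∨ (q = p ^ 2 ∧ (p % 5 = 2 ∨ p % 5 = 3))) ∧ Cfsg.Geo.IsSymplecticTypeGroup 5 R ∧ Cfsg.Geo.ActsAbsolutelyIrreducibly (Cfsg.Geo.matrixSet R) ∧ R ≤ Cfsg.Geo.similarityGroup (Cfsg.hermForm 5 F q) ∧ Nat.card R = 125 ∧ Nat.card (Subgroup.center R) = 5 ∧ H = Cfsg.Geo.subgroupNormalizer R ⊓ (Cfsg.GU 5 F q ⊓ Cfsg.Geo.specialLinear (Fin 5) F)) ∨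
    Cfsg.Geo.InUnitaryResidualClass H := by
  obtain ⟨-, -, σ, -, -, -, -, hne, hinv, hσ⟩ := CfsgLib.GeoPrime.exists_conj hF
  rcases CfsgLib.GeoPrime.unitary_cases (n := 5) ⟨hne, hinv, hσ, hF⟩ (by norm_num) (by norm_num) hH (by norm_num) with
    h | h | h | h | (h | h) | h | h
  · exact Or.inl h
  · exact Or.inr (Or.inl h)
  · exact Or.inr (Or.inr (Or.inl h))
  · obtain ⟨K, hK, hA, hR, x, hx, hxs, hxK⟩ := h
    refine Or.inr (Or.inr (Or.inr (Or.inl ⟨?_, K, hK, hA, hR⟩)))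
    by_contra hlt
    have h1 : 1 < q ^ 2 := by rw [← hF]; exact Fintype.one_lt_card
    obtain rfl : q = 2 := by
      rcases q with _ | _ | _ | q
      · simp at h1
      · simp at h1
      · rfl
      · omega
    exact CfsgLib.GeoPrime.no_field_case_su5_two ⟨hne, hinv, hσ, hF⟩ hH hK hA
      (fun z hz => (hR.le hz).1) hx hxs hxK
  · exact Or.inr (Or.inr (Or.inr (Or.inr (Or.inl h))))
  · exact Or.inr (Or.inr (Or.inr (Or.inr (Or.inr (Or.inl h)))))
  · obtain ⟨p, k, R, hp, hC, hqp, hk, hdvd, hpk, hmin, hT, hA, hG, hc, hz, hR⟩ := h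
    refine Or.inr (Or.inr (Or.inr (Or.inr (Or.inr (Or.inr (Or.inl
      ⟨p, R, hp, hC, ?_, hT, hA, fun x hx => ⟨1, fun u v => ?_⟩, by simpa using hc, hz, hR⟩))))))
    swap
    · rw [CfsgLib.GeoPrime.mem_GU.mp (hG hx), Units.val_one, one_mul]
    have hle : 2 * k ≤ 4 := Nat.le_of_dvd (by norm_num) hdvd
    have hlt := Nat.mod_lt p (show 5 > 0 by norm_num)
    obtain rfl | rfl : k = 1 ∨ k = 2 := by omega
    · exact Or.inl ⟨by rw [hqp, pow_one], by simpa using hpk⟩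
    · refine Or.inr ⟨hqp, ?_⟩
      generalize p % 5 = r at hpk hlt ⊢
      interval_cases r <;> simp_all
  · exact Or.inr (Or.inr (Or.inr (Or.inr (Or.inr (Or.inr (Or.inr h))))))

end Cfsg.Agent.S5796
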