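import Cfsg.Statements.S5856
import Mathlib
import Cfsg.Agent.GeoPrime.Unitary

set_option autoImplicit false
open Cfsg

namespace Cfsg.Agent.S5856

/-- Every maximal subgroup of SU_11(q) is of one of the listed geometric types or lies in the residual class. Let F be the field with q² elements (characteristic p), f the standard unitary form Σ u_i v_i^q on F^11, and H a maximal subgroup of SU_11(q) (inside GL_11(F)). Then H is the intersection with SU_11(q) of one of: the stabiliser of a non-zero totally isotropic subspace; the stabiliser of a non-zero non-degenerate subspace W with 2 dim W < 11; the stabiliser of a decomposition into 11 mutually orthogonal non-degenerate 1-spaces; the normaliser of an adjoint-closed degree-11 subfield of the matrix algebra; a subfield group of odd prime index whose F₀-structure carries f; for q odd, a subfield group of index 2 whose F₀-structure carries f; for q = p with p ≡ 10 mod 11, or q = p⁵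 with p ≡ 2, 6, 7 or 8 mod 11, the normaliser of an absolutely irreducible 11-group of exponent 11, order 11³ and centre of order 11 with all characteristic abelian subgroups cyclic consisting of isometries of f — or else H lies in the residual class of the unitary case (modulo scalars H is almost simple, with absolutely irreducible perfect socle preimage realisable over no proper subfield and fixing no non-degenerate quadratic or symplectic form). -/
theorem result {F : Type*} [Field F] [Fintype F] (q : ℕ) (hF : Fintype.card F = q ^ 2) (H : Subgroup (Matrix.GeneralLinearGroup (Fin 11) F)) (hH : Cfsg.Geo.IsMaximalIn (Cfsg.GU 11 F q ⊓ Cfsg.Geo.specialLinear (Fin 11) F) H) :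
    (∃ W : Submodule F (Fin 11 → F), W ≠ ⊥ ∧ Cfsg.Geo.IsTotallySingularFor (Cfsg.hermForm 11 F q) W ∧ H = Cfsg.Geo.subspaceStabilizer W ⊓ (Cfsg.GU 11 F q ⊓ Cfsg.Geo.specialLinear (Fin 11) F)) ∨
    (∃ W : Submodule F (Fin 11 → F), W ≠ ⊥ ∧ Cfsg.Geo.IsNondegenerateOn (Cfsg.hermForm 11 F q) W ∧ 2 * Module.finrank F W < 11 ∧ H = Cfsg.Geo.subspaceStabilizer W ⊓ (Cfsg.GU 11 F q ⊓ Cfsg.Geo.specialLinear (Fin 11) F)) ∨
    (∃ D : Fin 11 → Submodule F (Fin 11 → F), Cfsg.Geo.IsNondegenerateMDecomposition (Cfsg.hermForm 11 F q) 1 D ∧ H = Cfsg.Geo.decompositionStabilizer D ⊓ (Cfsg.GU 11 F q ⊓ Cfsg.Geo.specialLinear (Fin 11) F)) ∨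
    (∃ K : Subalgebra F (Matrix (Fin 11) (Fin 11) F), Cfsg.Geo.IsFieldSubalgebra 11 K ∧ Cfsg.Geo.IsAdjointClosedFor (Cfsg.hermForm 11 F q) K ∧ H = Cfsg.Geo.subalgebraNormalizer K ⊓ (Cfsg.GU 11 F q ⊓ Cfsg.Geo.specialLinear (Fin 11) F)) ∨
    (∃ (F₀ : Subfield F) (r : ℕ) (P : Matrix.GeneralLinearGroup (Fin 11) F), r.Prime ∧ Odd r ∧ Fintype.card F = Nat.card F₀ ^ r ∧ Cfsg.Geo.IsFormRationalStructure (Cfsg.hermForm 11 F q) F₀ 1 P ∧ H = Cfsg.Geo.subfieldSubgroup F₀ P ⊓ (Cfsg.GU 11 F q ⊓ Cfsg.Geo.specialLinear (Fin 11) F)) ∨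
    (Odd q ∧ ∃ (F₀ : Subfield F) (P : Matrix.GeneralLinearGroup (Fin 11) F), Fintype.card F = Nat.card F₀ ^ 2 ∧ Cfsg.Geo.IsFormRationalStructure (Cfsg.hermForm 11 F q) F₀ 1 P ∧ H = Cfsg.Geo.subfieldSubgroup F₀ P ⊓ (Cfsg.GU 11 F q ⊓ Cfsg.Geo.specialLinear (Fin 11) F)) ∨
    (∃ (p : ℕ) (R : Subgroup (Matrix.GeneralLinearGroup (Fin 11) F)), p.Prime ∧ CharP F p ∧ ((q = p ∧ p % 11 = 10) ∨ (q = p ^ 5 ∧ (p % 11 = 2 ∨ p % 11 = 6 ∨ p % 11 = 7 ∨ p % 11 = 8))) ∧ Cfsg.Geo.IsSymplecticTypeGroup 11 R ∧ Cfsg.Geo.ActsAbsolutelyIrreducibly (Cfsg.Geo.matrixSet R) ∧ R ≤ Cfsg.GU 11 F q ∧ Nat.card R = 1331 ∧ Nat.card (Subgroup.center R) = 11 ∧ H = Cfsg.Geo.subgroupNormalizer R ⊓ (Cfsg.GU 11 F q ⊓ Cfsg.Geo.specialLinear (Fin 11) F)) ∨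
    Cfsg.Geo.InUnitaryResidualClass H := by
  obtain ⟨-, -, σ, -, -, -, -, hne, hinv, hσ⟩ := CfsgLib.GeoPrime.exists_conj hF
  rcases CfsgLib.GeoPrime.unitary_cases (n := 11) ⟨hne, hinv, hσ, hF⟩ (by norm_num) (by norm_num) hH (by norm_num) with
    h | h | h | h | (h | h) | h | h
  · exact Or.inl h
  · exact Or.inr (Or.inl h)
  · exact Or.inr (Or.inr (Or.inl h))
  · obtain ⟨K, hK, hA, hR, -⟩ := h
    exact Or.inr (Or.inr (Or.inr (Or.inl ⟨K, hK, hA, hR⟩)))
  · exact Or.inr (Or.inr (Or.inr (Or.inr (Or.inl h))))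
  · exact Or.inr (Or.inr (Or.inr (Or.inr (Or.inr (Or.inl h)))))
  · obtain ⟨p, k, R, hp, hC, hqp, hk, hdvd, hpk, hmin, hT, hA, hG, hc, hz, hR⟩ := h
    refine Or.inr (Or.inr (Or.inr (Or.inr (Or.inr (Or.inr (Or.inl
      ⟨p, R, hp, hC, ?_, hT, hA, hG, by simpa using hc, hz, hR⟩))))))
    have hle : 2 * k ≤ 10 := Nat.le_of_dvd (by norm_num) hdvd
    have hlt := Nat.mod_lt p (show 11 > 0 by norm_num)
    obtain rfl | rfl | rfl | rfl | rfl : k = 1 ∨ k = 2 ∨ k = 3 ∨ k = 4 ∨ k = 5 := by omega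
    · exact Or.inl ⟨by rw [hqp, pow_one], by simpa using hpk⟩
    · norm_num at hdvd
    · norm_num at hdvd
    · norm_num at hdvd
    · refine Or.inr ⟨hqp, ?_⟩
      have h2 := hmin 2 (by norm_num) (by norm_num)
      generalize p % 11 = r at hpk h2 hlt ⊢
      interval_cases r <;> simp_all
  · exact Or.inr (Or.inr (Or.inr (Or.inr (Or.inr (Or.inr (Or.inr h))))))

end Cfsg.Agent.S5856
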