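import Cfsg.Statements.S5876
import Mathlib
import Cfsg.Agent.PrimitiveLinear.FixedSpace

set_option autoImplicit false
open Cfsg

namespace Cfsg.Agent.S5876

/-- Fixed-point spaces in primitive soluble linear groups. Let F be a finite field and G a soluble subgroup of GL_n(F) that acts irreducibly on F^n and primitively (G preserves no decomposition of F^n into two or more independent subspaces of equal dimension). Then every non-identity element g of G has fixed-point space {v : g v = v} of dimension at most 3n/4. -/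
theorem result {F : Type*} [Field F] [Fintype F] {n : ℕ} (G : Subgroup (Matrix.GeneralLinearGroup (Fin n) F)) (hsol : IsSolvable G) (hirr : Cfsg.Geo.ActsIrreducibly (Cfsg.Geo.matrixSet G)) (hprim : ∀ (m t : ℕ) (D : Fin t → Submodule F (Fin n → F)), 2 ≤ t → Cfsg.Geo.IsMDecomposition m D → ¬ G ≤ Cfsg.Geo.decompositionStabilizer D) (g : Matrix.GeneralLinearGroup (Fin n) F) (hg : g ∈ G) (hg1 : g ≠ 1) :
    4 * Module.finrank F (Module.End.eigenspace (Matrix.toLin' (g : Matrix (Fin n) (Fin n) F)) 1) ≤ 3 * n := by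
  let ρ : G →* Module.End F (Fin n → F) :=
    { toFun := fun x => Matrix.toLin' ((x : Matrix.GeneralLinearGroup (Fin n) F) : Matrix (Fin n) (Fin n) F)
      map_one' := by simp [Module.End.one_eq_id]
      map_mul' := fun x y => by simp [Matrix.toLin'_mul, Module.End.mul_eq_comp] }
  haveI : Group.IsSolvable G := hsol
  have hinj : Function.Injective ρ := fun x y h =>
    Subtype.ext (Units.ext (Matrix.toLin'.injective h))
  have hirr' : ∀ W : Submodule F (Fin n → F), (∀ x, ∀ v ∈ W, ρ x v ∈ W) → W = ⊥ ∨ W = ⊤ := by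
    intro W hW
    refine hirr W ?_
    rintro _ ⟨x, hx, rfl⟩ _ ⟨v, hv, rfl⟩
    exact hW ⟨x, hx⟩ v hv
  have hprim' : CfsgLib.PrimitiveLinear.NoSystem ρ := fun t m D ht hm hd hi htop hall =>
    hprim m t D ht ⟨ht, hm, hd, hi, htop⟩ fun x hx => hall ⟨x, hx⟩
  have hg' : (⟨g, hg⟩ : G) ≠ 1 := fun h => hg1 (congrArg Subtype.val h)
  have key := CfsgLib.PrimitiveLinear.finrank_fixed_le hinj hirr' hprim' hg'
  rw [Module.finrank_fin_fun] at key
  rw [Module.End.eigenspace_def, one_smul]
  exact key

end Cfsg.Agent.S5876
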