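import Cfsg.Statements.S5877
import Cfsg.Agent.ExtraEig.Main

set_option autoImplicit false
open Cfsg
open scoped commutatorElement

namespace Cfsg.Agent.S5877

/-- Eigenspaces of elements normalising an absolutely irreducible extraspecial group. Let F be a finite field, r a prime, and R ≤ GL_n(F) an absolutely irreducible extraspecial r-group (an r-group whose centre equals its derived subgroup and has order r) of exponent r or 4. Let g ∈ GL_n(F) normalise the product of R with the scalar matrices, have prime order ϖ and not be scalar, and let W be the eigenspace of g for any c ∈ F (W may be the zero subspace). Then dim W ≤ 3n/4 if ϖ = 2, dim W ≤ 2n/3 if ϖ = 3, and dim W ≤ n/2 if ϖ > 3; moreover if ϖ = 3 and 3 does not divide n then dim W ≤ n/2. -/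
theorem result {F : Type*} [Field F] [Fintype F] {n r ϖ : ℕ} (R : Subgroup (Matrix.GeneralLinearGroup (Fin n) F)) (hr : r.Prime) (hR : IsPGroup r R) (hZ : Nat.card (Subgroup.center R) = r) (hext : commutator R = Subgroup.center R) (hexp : Monoid.exponent R = r ∨ Monoid.exponent R = 4) (hirr : Cfsg.Geo.ActsAbsolutelyIrreducibly (Cfsg.Geo.matrixSet R)) (g : Matrix.GeneralLinearGroup (Fin n) F) (hg : g ∈ Cfsg.Geo.subgroupNormalizer (R ⊔ Cfsg.Geo.scalars (Fin n) F)) (hϖ : ϖ.Prime) (hord : orderOf g = ϖ) (hns : g ∉ Cfsg.Geo.scalars (Fin n) F) (c : F) :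
    (ϖ = 2 → 4 * Module.finrank F (Module.End.eigenspace (Matrix.toLin' (g : Matrix (Fin n) (Fin n) F)) c) ≤ 3 * n) ∧
    (ϖ = 3 → 3 * Module.finrank F (Module.End.eigenspace (Matrix.toLin' (g : Matrix (Fin n) (Fin n) F)) c) ≤ 2 * n) ∧
    (3 < ϖ → 2 * Module.finrank F (Module.End.eigenspace (Matrix.toLin' (g : Matrix (Fin n) (Fin n) F)) c) ≤ n) ∧
    (ϖ = 3 → ¬ 3 ∣ n → 2 * Module.finrank F (Module.End.eigenspace (Matrix.toLin' (g : Matrix (Fin n) (Fin n) F)) c) ≤ n) := by
  haveI : NeZero n := ⟨by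
    rintro rfl
    exact hns (by rw [Subsingleton.elim g 1]; exact one_mem _)⟩
  set S := Cfsg.Geo.scalars (Fin n) F with hS'
  have hRN : ∀ x ∈ R, x ∈ R ⊔ S := fun x hx => (le_sup_left : R ≤ R ⊔ S) hx
  have hcent : ∀ z : Subgroup.center R, ((z : R) : Matrix.GeneralLinearGroup (Fin n) F) ∈ S := by
    intro z
    obtain ⟨d, hd⟩ := hirr.2 (((z : R) : Matrix.GeneralLinearGroup (Fin n) F) : Matrix (Fin n) (Fin n) F) (by
      rintro _ ⟨x, hx, rfl⟩
      have h := congrArg (fun w : R => (w : Matrix.GeneralLinearGroup (Fin n) F))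
        (Subgroup.mem_center_iff.mp z.2 ⟨x, hx⟩)
      simp only [Subgroup.coe_mul] at h
      rw [← Units.val_mul, ← Units.val_mul, ← h])
    have hd0 : d ≠ 0 := by
      rintro rfl
      rw [zero_smul] at hd
      exact Units.ne_zero _ hd
    exact (Cfsg.Geo.mem_scalars_iff _).mpr ⟨Units.mk0 d hd0, hd⟩
  have hrel : ∀ a ∈ R, ∀ b ∈ R, ∃ l : F, l ^ r = 1 ∧ CfsgLib.ExtraEig.Rel a b l := by
    intro a ha b hb
    have hz : ⁅(⟨a, ha⟩ : R), ⟨b, hb⟩⁆ ∈ Subgroup.center R := by
      rw [← hext, commutator_def]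
      exact Subgroup.commutator_mem_commutator (Subgroup.mem_top _) (Subgroup.mem_top _)
    obtain ⟨d, hd⟩ := (Cfsg.Geo.mem_scalars_iff _).mp (hcent ⟨_, hz⟩)
    have hzr : (⁅(⟨a, ha⟩ : R), ⟨b, hb⟩⁆ : R) ^ r = 1 := by
      have h := congrArg Subtype.val (pow_card_eq_one' (x := (⟨_, hz⟩ : Subgroup.center R)))
      rw [hZ] at h
      simpa using h
    refine ⟨d, ?_, ?_⟩
    · have h := congrArg (fun w : R => ((w : Matrix.GeneralLinearGroup (Fin n) F) : Matrix (Fin n) (Fin n) F)) hzr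
      simp only [SubgroupClass.coe_pow, Units.val_pow_eq_pow_val, Subgroup.coe_one, Units.val_one] at h
      rw [hd, smul_pow, one_pow] at h
      simpa using congrFun (congrFun h 0) 0
    · unfold CfsgLib.ExtraEig.Rel
      conv_lhs => rw [show a * b = ((⁅(⟨a, ha⟩ : R), ⟨b, hb⟩⁆ : R) : Matrix.GeneralLinearGroup (Fin n) F) * (b * a) by
        simp only [commutatorElement_def, Subgroup.coe_mul, Subgroup.coe_inv]; group]
      rw [Units.val_mul, hd, Matrix.smul_mul, one_mul]
  have hdec : ∀ x ∈ R ⊔ S, ∃ a ∈ R, ∃ s ∈ S, a * s = x := fun x hx =>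
    Subgroup.mem_sup_of_normal_right.mp hx
  have hSy : CfsgLib.ExtraEig.Sy r (R ⊔ S) := by
    refine ⟨?_, ?_, ?_⟩
    · intro x hx y hy
      obtain ⟨a, ha, s, hs, rfl⟩ := hdec x hx
      obtain ⟨b, hb, t, ht, rfl⟩ := hdec y hy
      obtain ⟨l, -, hl⟩ := hrel a ha b hb
      have h1 := (hl.mul_right (CfsgLib.ExtraEig.rel_scalar (g := a) ht)).mul_left
        (CfsgLib.ExtraEig.rel_one_iff.mpr (CfsgLib.ExtraEig.scalar_commute (g := b * t) hs))
      exact ⟨_, h1⟩
    · intro x hx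
      obtain ⟨a, ha, s, hs, rfl⟩ := hdec x hx
      rw [(show Commute a s from (CfsgLib.ExtraEig.scalar_commute hs).symm).mul_pow]
      refine S.mul_mem ?_ (S.pow_mem hs r)
      obtain ⟨d, hd⟩ := hirr.2 (((a ^ r : Matrix.GeneralLinearGroup (Fin n) F)) : Matrix (Fin n) (Fin n) F) (by
        rintro _ ⟨b, hb, rfl⟩
        obtain ⟨l, hlr, hl⟩ := hrel a ha b hb
        have h2 := hl.pow_left r
        rw [hlr, CfsgLib.ExtraEig.rel_one_iff] at h2
        rw [← Units.val_mul, ← Units.val_mul, h2])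
      have hd0 : d ≠ 0 := by
        rintro rfl
        rw [zero_smul] at hd
        exact Units.ne_zero _ hd
      exact (Cfsg.Geo.mem_scalars_iff _).mpr ⟨Units.mk0 d hd0, hd⟩
    · intro M hM
      exact hirr.2 M (by rintro _ ⟨b, hb, rfl⟩; exact hM b (hRN b hb))
  have hg' := Subgroup.mem_normalizer_iff.mp hg
  refine CfsgLib.ExtraEig.bounds hSy hr (fun x hx => (hg' x).mp hx) (fun x hx => ?_) hϖ hord hns c
  rw [SetLike.mem_coe.symm, SetLike.mem_coe, hg' (g⁻¹ * x * g)]
  simpa [mul_assoc] using hx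

end Cfsg.Agent.S5877
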