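import Cfsg.Statements.S5938
import Cfsg.Agent.H29.Dickson.Exists

set_option autoImplicit false
open Cfsg

namespace Cfsg.Agent.S5938

/-- Let p be a prime with p ≡ ±1 (mod 8) and F a field with p elements. Then PSL_2(F) has a maximal subgroup isomorphic to the symmetric group S_4. -/
theorem result {F : Type*} [Field F] [Fintype F] (p : ℕ) [Fact p.Prime] (hF : Fintype.card F = p) (hp : p % 8 = 1 ∨ p % 8 = 7) : ∃ H : Subgroup (Matrix.ProjectiveSpecialLinearGroup (Fin 2) F), IsCoatom H ∧ Nonempty (H ≃* Equiv.Perm (Fin 4)) := by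
  have := CfsgLib.H29.Dickson.charP_of_card p hF
  exact CfsgLib.H29.Dickson.exists_max_S4 p hF hp

end Cfsg.Agent.S5938
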