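import Cfsg.Statements.S5942
import Cfsg.Agent.H29.Dickson.Exists

set_option autoImplicit false
open Cfsg

namespace Cfsg.Agent.S5942

/-- Let K and F be finite fields of odd characteristic with #F = (#K)^r for an odd prime r. Then PSL_2(F) has a maximal subgroup isomorphic to PSL_2(K). -/
theorem result {F K : Type*} [Field F] [Fintype F] [Field K] [Fintype K] (q r : ℕ) (hK : Fintype.card K = q) (hF : Fintype.card F = q ^ r) (hq : Odd q) (hr : r.Prime) (hr2 : r ≠ 2) : ∃ H : Subgroup (Matrix.ProjectiveSpecialLinearGroup (Fin 2) F), IsCoatom H ∧ Nonempty (H ≃* Matrix.ProjectiveSpecialLinearGroup (Fin 2) K) := by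
  obtain ⟨p, a, hp, hc, ha, hq'⟩ := CfsgLib.H29.Dickson.exists_common hK hF
  have := Fact.mk hp
  subst hq'
  have h2 : (2 : F) ≠ 0 := fun h => Nat.not_even_iff_odd.mpr (hq.pow (n := r)) (by
    rw [← hF]; exact CfsgLib.H29.Dickson.two_eq_zero_iff.mp h)
  obtain ⟨N, hN, -, hPS⟩ := CfsgLib.H29.Dickson.exists_max_sub p h2 ha hr hF
  obtain ⟨H, hH, ⟨e⟩⟩ := CfsgLib.H29.Dickson.coatom_of_maxIn hN
  obtain rfl := hPS hr2
  obtain ⟨e'⟩ := CfsgLib.H29.Dickson.iso_PS (CfsgLib.H29.Dickson.fixF F p a) (K := K)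
    (by rw [CfsgLib.H29.Dickson.card_fixF p ha hF, hK])
  exact ⟨H, hH, ⟨e.trans e'⟩⟩

end Cfsg.Agent.S5942
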