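import Cfsg.Statements.S5943
import Cfsg.Agent.H29.Dickson.Exists

set_option autoImplicit false
open Cfsg

namespace Cfsg.Agent.S5943

/-- Let K and F be finite fields of characteristic 2 with #K = q > 2 and #F = q^r for a prime r. Then PSL_2(F) has a maximal subgroup isomorphic to PSL_2(K) (which equals PGL_2(K) in characteristic 2). -/
theorem result {F K : Type*} [Field F] [Fintype F] [Field K] [Fintype K] (q r : ℕ) (hK : Fintype.card K = q) (hF : Fintype.card F = q ^ r) (hq : Even q) (hq2 : q ≠ 2) (hr : r.Prime) : ∃ H : Subgroup (Matrix.ProjectiveSpecialLinearGroup (Fin 2) F), IsCoatom H ∧ Nonempty (H ≃* Matrix.ProjectiveSpecialLinearGroup (Fin 2) K) := by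
  obtain ⟨p, a, hp, hc, ha, hq'⟩ := CfsgLib.H29.Dickson.exists_common hK hF
  subst hq'
  obtain rfl : p = 2 :=
    ((Nat.prime_dvd_prime_iff_eq Nat.prime_two hp).mp (Nat.prime_two.dvd_of_dvd_pow (even_iff_two_dvd.mp hq))).symm
  have := Fact.mk hp
  have h2 : (2 : F) = 0 := CfsgLib.H29.Dickson.two_eq_zero_iff.mpr (by
    rw [hF]; exact (Nat.even_pow' hr.ne_zero).mpr hq)
  have ha2 : 2 ≤ a := by
    by_contra h
    exact hq2 (by rw [show a = 1 by omega, pow_one])
  obtain ⟨H, hH, ⟨e⟩⟩ := CfsgLib.H29.Dickson.coatom_of_maxIn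
    (CfsgLib.H29.Dickson.exists_max_sub_even h2 ha2 hr hF)
  obtain ⟨e'⟩ := CfsgLib.H29.Dickson.iso_PS (CfsgLib.H29.Dickson.fixF F 2 a) (K := K)
    (by rw [CfsgLib.H29.Dickson.card_fixF 2 (by omega) hF, hK])
  exact ⟨H, hH, ⟨e.trans e'⟩⟩

end Cfsg.Agent.S5943
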