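import Cfsg.Statements.S5944
-- no helpers

set_option autoImplicit false
open Cfsg

namespace Cfsg.Agent.S5944

/-- For n ≠ 4, every proper subgroup of the symmetric group S_n other than the alternating group A_n has index at least n. -/
theorem result (n : ℕ) (hn : n ≠ 4) (H : Subgroup (Equiv.Perm (Fin n))) (hH : H ≠ ⊤) (hA : H ≠ alternatingGroup (Fin n)) : n ≤ H.index := by
  have hi0 : H.index ≠ 0 := Subgroup.index_ne_zero_of_finite
  have hi1 : H.index ≠ 1 := fun h => hH (Subgroup.index_eq_one.mp h)
  have hi2 : H.index ≠ 2 := fun h => hA (Equiv.Perm.eq_alternatingGroup_of_index_eq_two h)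
  by_cases h3 : n ≤ 3
  · omega
  by_contra hlt
  have h5 : 5 ≤ Nat.card (Fin n) := by simp; omega
  have hcore : H.normalCore = ⊥ := by
    by_contra hb
    have hle := (Equiv.Perm.alternatingGroup_le_of_normal h5
      ((Subgroup.nontrivial_iff_ne_bot _).mpr hb)).trans (Subgroup.normalCore_le H)
    have : Nontrivial (Fin n) := Fin.nontrivial_iff_two_le.mpr (by omega)
    have hd := Subgroup.index_dvd_of_le hle
    rw [alternatingGroup.index_eq_two] at hd
    rcases (Nat.dvd_prime Nat.prime_two).mp hd with h | h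
    · exact hi1 h
    · exact hi2 h
  rw [Subgroup.normalCore_eq_ker, MonoidHom.ker_eq_bot_iff] at hcore
  have hd := Subgroup.card_dvd_of_injective _ hcore
  rw [Nat.card_perm, Nat.card_perm, ← Subgroup.index_eq_card, Nat.card_fin] at hd
  have := Nat.le_of_dvd (Nat.factorial_pos _) hd
  have := (Nat.factorial_lt (Nat.pos_of_ne_zero hi0)).mpr (not_le.mp hlt)
  omega

end Cfsg.Agent.S5944
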