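import Cfsg.Statements.S5945
import Cfsg.Agent.H29.S6Totals

set_option autoImplicit false
open Cfsg

namespace Cfsg.Agent.S5945

/-- The symmetric group S_6 has exactly 12 subgroups of index 6; each of them is isomorphic to S_5, and at least one of them is not the stabilizer of any point. -/
theorem result : Nat.card {H : Subgroup (Equiv.Perm (Fin 6)) // H.index = 6} = 12 ∧ (∀ H : Subgroup (Equiv.Perm (Fin 6)), H.index = 6 → Nonempty (H ≃* Equiv.Perm (Fin 5))) ∧ ∃ H : Subgroup (Equiv.Perm (Fin 6)), H.index = 6 ∧ ∀ a : Fin 6, H ≠ MulAction.stabilizer (Equiv.Perm (Fin 6)) a := by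
  classical
  obtain ⟨θ, hθ, hcls⟩ := CfsgLib.H29.S6.exists_outer (Ω := Fin 6) (by simp)
  have hidx : ∀ x : Fin 6, (MulAction.stabilizer (Equiv.Perm (Fin 6)) x).index = 6 := fun x => by
    rw [CfsgLib.H29.SymIndex.index_stabilizer_point]; simp
  have hidx' : ∀ x : Fin 6,
      ((MulAction.stabilizer (Equiv.Perm (Fin 6)) x).comap θ.toMonoidHom).index = 6 := fun x => by
    rw [Subgroup.index_comap_of_surjective _ θ.surjective, hidx]
  refine ⟨?_, ?_, ⟨_, hidx' 0, fun a => hθ 0 a⟩⟩
  · let F : Fin 6 ⊕ Fin 6 → {H : Subgroup (Equiv.Perm (Fin 6)) // H.index = 6} :=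
      Sum.elim (fun x => ⟨_, hidx x⟩) (fun x => ⟨_, hidx' x⟩)
    have hF : Function.Bijective F := by
      constructor
      · rintro (a | a) (b | b) h
        · exact congrArg Sum.inl (CfsgLib.H29.SymIndex.stabilizer_injective (by simp) (congrArg Subtype.val h))
        · exact absurd (congrArg Subtype.val h).symm (hθ b a)
        · exact absurd (congrArg Subtype.val h) (hθ a b)
        · exact congrArg Sum.inr (CfsgLib.H29.S6.comap_injective_point (by simp) θ (congrArg Subtype.val h))
      · rintro ⟨H, hH⟩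
        rcases hcls H hH with ⟨x, rfl⟩ | ⟨x, rfl⟩
        · exact ⟨Sum.inl x, rfl⟩
        · exact ⟨Sum.inr x, rfl⟩
    rw [← Nat.card_congr (Equiv.ofBijective F hF)]
    simp
  · intro H hH
    rcases hcls H hH with ⟨x, rfl⟩ | ⟨x, rfl⟩
    · exact CfsgLib.H29.SymIndex.nonempty_stabilizer_equiv (by simp) x
    · obtain ⟨f⟩ := CfsgLib.H29.SymIndex.nonempty_stabilizer_equiv (n := 5) (by simp) x
      let g : ((MulAction.stabilizer (Equiv.Perm (Fin 6)) x).comap θ.toMonoidHom) ≃*
          MulAction.stabilizer (Equiv.Perm (Fin 6)) x :=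
        MulEquiv.ofBijective
          ((θ.toMonoidHom.comp (Subgroup.subtype _)).codRestrict
            (MulAction.stabilizer (Equiv.Perm (Fin 6)) x) fun a => a.2)
          ⟨fun a b h => Subtype.ext (θ.injective (congrArg Subtype.val h)),
            fun b => ⟨⟨θ.symm b.1, show θ (θ.symm b.1) ∈ MulAction.stabilizer (Equiv.Perm (Fin 6)) x by rw [θ.apply_symm_apply]; exact b.2⟩,
              Subtype.ext (θ.apply_symm_apply b.1)⟩⟩
      exact ⟨g.trans f⟩

end Cfsg.Agent.S5945
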