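import Cfsg.Statements.S5949
import Cfsg.Agent.SubElusive.Cases

set_option autoImplicit false
open scoped MatrixGroups
open Cfsg

namespace Cfsg.Agent.S5949

/-- Elements of prime order of PSL_n(q) with no fixed `m`-space. Here `T = PSL_n(F)` for a field `F` with `q = p^f` elements (`n ≥ 2`, `(n, q) ≠ (2, 2), (2, 3)`); an element of `T` of prime order `r` is represented by a matrix `x` of determinant 1 with `x^r` scalar and `x` not scalar; `i` denotes the multiplicative order of `q` modulo `r` (when `r ≠ p`), and `(a)_r` the `r`-part of `a`. Let `1 ≤ m ≤ n/2` and let `r` be a prime dividing the number of `m`-dimensional subspaces of `F^n`. Then every element of `T` of order `r` fixes some `m`-dimensional subspace (the action on `m`-spaces is `r`-elusive) if and only if `r ≠ p` and either (i) `i = 1` and (`r ∣ m`, or `(q−1)_r ≥ (n)_r` where in addition `q ≡ 1 (mod 4)` is required when `r = 2` and `n` is even), or (ii) `2 ≤ i ≤ m` and `n mod i ≥ m mod i`. -/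
theorem result {F : Type*} [Field F] [Fintype F] {p : ℕ} [Fact p.Prime] [CharP F p] {q : ℕ} (hq : Fintype.card F = q)
    (n m : ℕ) (hn : 2 ≤ n) (hT : (n, q) ≠ (2, 2) ∧ (n, q) ≠ (2, 3)) (hm : 1 ≤ m) (hmn : 2 * m ≤ n)
    (r : ℕ) [Fact r.Prime] (hrΩ : r ∣ Nat.card {W : Submodule F (Fin n → F) // Module.finrank F ↥W = m}) :
    (∀ x : Matrix.SpecialLinearGroup (Fin n) F,
      (∃ c : F, ((x ^ r : Matrix.SpecialLinearGroup (Fin n) F) : Matrix (Fin n) (Fin n) F) = c • (1 : Matrix (Fin n) (Fin n) F)) →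
      (∀ c : F, (x : Matrix (Fin n) (Fin n) F) ≠ c • (1 : Matrix (Fin n) (Fin n) F)) →
      ∃ W : Submodule F (Fin n → F), Module.finrank F ↥W = m ∧ W.map (Matrix.toLin' (x : Matrix (Fin n) (Fin n) F)) ≤ W) ↔
    (r ≠ p ∧
      ((orderOf (q : ZMod r) = 1 ∧ (r ∣ m ∨ (padicValNat r n ≤ padicValNat r (q - 1) ∧ (r = 2 → Even n → q % 4 = 1)))) ∨
       (2 ≤ orderOf (q : ZMod r) ∧ orderOf (q : ZMod r) ≤ m ∧ m % orderOf (q : ZMod r) ≤ n % orderOf (q : ZMod r)))) := by
  classical
  subst hq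
  have hr : r.Prime := Fact.out
  obtain ⟨t, hta, htn, htd⟩ := CfsgLib.SubElusive.exists_dvd_sub (F := F) (V := Fin n → F) (Fact.out : r.Prime) (Module.finrank_fin_fun F) (show m ≤ n by omega) hrΩ
  obtain ⟨hrq0, hi0, hin, hnmod⟩ := CfsgLib.SubElusive.order_facts hr Fintype.one_lt_card hta htn htd
  have hrp : r ≠ p := by
    intro h
    obtain ⟨f, -, hf⟩ := FiniteField.card F p
    exact hrq0 (hf ▸ h ▸ dvd_pow_self r f.2.ne')
  set i := orderOf (Fintype.card F : ZMod r) with hi
  have hi1 : r ∣ Fintype.card F - 1 ↔ i = 1 := CfsgLib.SubElusive.r_dvd_sub_iff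
  simp only [ne_eq, hrp, not_false_iff, true_and, false_and, false_or, Matrix.SpecialLinearGroup.coe_pow]
  have hSL : ∀ x : Matrix.SpecialLinearGroup (Fin n) F, (x : Matrix (Fin n) (Fin n) F).det = 1 := fun x => x.det_coe
  constructor
  · intro h
    rcases eq_or_lt_of_le (show 1 ≤ i from hi0) with h1 | h1
    · refine Or.inl ⟨h1.symm, ?_⟩
      by_cases hm' : r ∣ m
      · exact Or.inl hm'
      refine Or.inr ((CfsgLib.SubElusive.no_nonsplit_iff hrp (hi1.mpr h1.symm) (by omega)).mp ?_)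
      rintro ⟨c, hc, hrn, hd⟩
      obtain ⟨x, hx, hx'⟩ := CfsgLib.SubElusive.exists_witness_nonsplit (n := n) (by omega) hrp hc hrn hd
      obtain ⟨W, hW, hWi⟩ := h x ⟨c, hx⟩ hx'
      exact hm' (hW ▸ (CfsgLib.SubElusive.nonsplit _ hc hx).2.2.1 W hWi)
    · obtain ⟨x, hx, hx', hxs⟩ := CfsgLib.SubElusive.exists_witness_split (F := F) (n := n) hrp h1 hin
      obtain ⟨W, hW, hWi⟩ := h x ⟨1, by rw [hx, one_smul]⟩ hx'
      have hb := hxs W ⊤ le_top hWi le_top
      rw [hW, finrank_top, Module.finrank_fin_fun, Nat.sub_self, Nat.zero_mod, add_zero] at hb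
      simp only [← hi] at hb
      refine Or.inr ⟨h1, ?_, hb⟩
      by_contra hlt
      have := Nat.mod_eq_of_lt (show m < i by omega)
      omega
  · intro h x ⟨c, hx⟩ hx'
    have hc0 := CfsgLib.SubElusive.scalar_data (hSL x) (by omega) hx
    by_cases hc : ∃ d : F, d ^ r = c
    · obtain ⟨d, rfl⟩ := hc
      have hd : d ≠ 0 := fun h0 => hc0 (by rw [h0, zero_pow hr.ne_zero])
      have hcrit : m % i ≤ n % i := by
        rcases h with ⟨h1, -⟩ | ⟨-, -, h1⟩
        · rw [h1, Nat.mod_one, Nat.mod_one]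
        · exact h1
      obtain ⟨U, W, -, hU, -, hUi, -⟩ := CfsgLib.SubElusive.chain_split hrp _ hd hx (m := m) (m' := 0)
        fun e k hek => CfsgLib.SubElusive.choice_one hek (by omega) hcrit
      exact ⟨U, hU, hUi⟩
    · push Not at hc
      obtain ⟨hrn, hcp, -, hch⟩ := CfsgLib.SubElusive.nonsplit _ hc hx
      have hd := CfsgLib.SubElusive.det_nonsplit (Nat.div_mul_cancel hrn).symm hcp
      rw [hSL x] at hd
      have hrm : r ∣ m := by
        rcases h with ⟨h1, hrm | hcond⟩ | ⟨h1, -⟩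
        · exact hrm
        · exact absurd ⟨c, hc, hrn, hd.symm⟩ ((CfsgLib.SubElusive.no_nonsplit_iff hrp (hi1.mpr h1) (by omega)).mpr hcond)
        · obtain ⟨d, hd'⟩ := CfsgLib.SubElusive.order_gt_one_power (F := F) (r := r)
            (fun hh => by have := hi1.mp hh; omega) c
          exact absurd hd' (hc d)
      obtain ⟨U, W, -, hU, -, hUi, -⟩ := hch m n hrm hrn (by omega) le_rfl
      exact ⟨U, hU, hUi⟩

end Cfsg.Agent.S5949
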