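import Cfsg.Statements.S5950
import Cfsg.Agent.SubElusive.Semi

set_option autoImplicit false
open scoped MatrixGroups
open Cfsg

namespace Cfsg.Agent.S5950

/-- Elements of prime order of PSL_n(q) fixing no decomposition `F^n = U ⊕ W` with `dim U = m`. Here `T = PSL_n(F)` for a field `F` with `q = p^f` elements (`n ≥ 2`, `(n, q) ≠ (2, 2), (2, 3)`); an element of `T` of prime order `r` is represented by a matrix `x` of determinant 1 with `x^r` scalar and `x` not scalar; `i` denotes the multiplicative order of `q` modulo `r` (when `r ≠ p`), and `(a)_r` the `r`-part of `a`. Let `n ≥ 3`, `1 ≤ m < n/2`, and let `r` be a prime dividing the number of such decompositions (unordered pairs `{U, W}` of complementary subspaces with `dim U = m`; since `m ≠ n − m` these are the ordered pairs with `dim U = m`). Then every element of `T` of order `r` fixes such a pair (fixes both `U` and `W` for some complementary `U, W` with `dim U = m`) if and only if one of: (i) `r = p > 2` and every partition of `n`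 into parts of size at most `p` contains, as a sub-multiset, a partition of `m`; (ii) `r = p = 2` and `n` is odd or `m` is even; (iii) `r ≠ p`, `i = 1`, and `r ∣ m` or `(q−1)_r ≥ (n)_r` (with `q ≡ 1 (mod 4)` required when `r = 2` and `n` is even); (iv) `r ≠ p`, `2 ≤ i ≤ m` and `n mod i ≥ m mod i`. -/
theorem result {F : Type*} [Field F] [Fintype F] {p : ℕ} [Fact p.Prime] [CharP F p] {q : ℕ} (hq : Fintype.card F = q)
    (n m : ℕ) (hn : 3 ≤ n) (hm : 1 ≤ m) (hmn : 2 * m < n)
    (r : ℕ) [Fact r.Prime]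
    (hrΩ : r ∣ Nat.card {P : Submodule F (Fin n → F) × Submodule F (Fin n → F) // IsCompl P.1 P.2 ∧ Module.finrank F ↥P.1 = m}) :
    (∀ x : Matrix.SpecialLinearGroup (Fin n) F,
      (∃ c : F, ((x ^ r : Matrix.SpecialLinearGroup (Fin n) F) : Matrix (Fin n) (Fin n) F) = c • (1 : Matrix (Fin n) (Fin n) F)) →
      (∀ c : F, (x : Matrix (Fin n) (Fin n) F) ≠ c • (1 : Matrix (Fin n) (Fin n) F)) →
      ∃ U W : Submodule F (Fin n → F), IsCompl U W ∧ Module.finrank F ↥U = m ∧
        U.map (Matrix.toLin' (x : Matrix (Fin n) (Fin n) F)) ≤ U ∧ W.map (Matrix.toLin' (x : Matrix (Fin n) (Fin n) F)) ≤ W) ↔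
    ((r = p ∧ 2 < p ∧ (∀ μ : Multiset ℕ, (∀ a ∈ μ, 0 < a ∧ a ≤ p) → μ.sum = n → ∃ ν : Multiset ℕ, ν ≤ μ ∧ ν.sum = m)) ∨
     (r = p ∧ p = 2 ∧ (Odd n ∨ Even m)) ∨
     (r ≠ p ∧
      ((orderOf (q : ZMod r) = 1 ∧ (r ∣ m ∨ (padicValNat r n ≤ padicValNat r (q - 1) ∧ (r = 2 → Even n → q % 4 = 1)))) ∨
       (2 ≤ orderOf (q : ZMod r) ∧ orderOf (q : ZMod r) ≤ m ∧ m % orderOf (q : ZMod r) ≤ n % orderOf (q : ZMod r))))) := by
  classical
  subst hq
  have hr : r.Prime := Fact.out
  haveI : Nonempty (Fin n) := ⟨⟨0, by omega⟩⟩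
  have hSL : ∀ x : Matrix.SpecialLinearGroup (Fin n) F, (x : Matrix (Fin n) (Fin n) F).det = 1 := fun x => x.det_coe
  rcases eq_or_ne r p with rfl | hrp
  · -- the defining characteristic
    have hP : (∀ x : Matrix.SpecialLinearGroup (Fin n) F,
        (∃ c : F, ((x ^ r : Matrix.SpecialLinearGroup (Fin n) F) : Matrix (Fin n) (Fin n) F) = c • (1 : Matrix (Fin n) (Fin n) F)) →
        (∀ c : F, (x : Matrix (Fin n) (Fin n) F) ≠ c • (1 : Matrix (Fin n) (Fin n) F)) →
        ∃ U W : Submodule F (Fin n → F), IsCompl U W ∧ Module.finrank F ↥U = m ∧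
          U.map (Matrix.toLin' (x : Matrix (Fin n) (Fin n) F)) ≤ U ∧ W.map (Matrix.toLin' (x : Matrix (Fin n) (Fin n) F)) ≤ W) ↔
        ∀ μ : Multiset ℕ, (∀ a ∈ μ, 0 < a ∧ a ≤ r) → μ.sum = n → ∃ ν : Multiset ℕ, ν ≤ μ ∧ ν.sum = m := by
      simp only [Matrix.SpecialLinearGroup.coe_pow]
      constructor
      · intro h μ hμ hs
        by_cases hall : ∀ a ∈ μ, a ≤ 1
        · have hμ1 : μ = Multiset.replicate (Multiset.card μ) 1 :=
            Multiset.eq_replicate_card.mpr fun a ha => by have := hμ a ha; have := hall a ha; omega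
          rw [hμ1] at hs ⊢
          simp at hs
          exact ⟨Multiset.replicate m 1, (Multiset.replicate_le_replicate _).mpr (by omega), by simp⟩
        let π : Nat.Partition n := { parts := μ, parts_pos := fun {a} ha => (hμ a ha).1, parts_sum := hs }
        obtain ⟨A, hAnil, hA, -⟩ := CfsgLib.NilType.exists_matrix (F := F) π
        have hAr : A ^ r = 0 := (CfsgLib.NilType.pow_eq_zero_iff_type hA r).mpr fun a ha => (hμ a ha).2
        have hMr : (1 + A) ^ r = 1 := by
          rw [add_pow_char_of_commute _ (Commute.one_left A), one_pow, hAr, add_zero]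
        have hdet : (1 + A).det = 1 := by
          apply frobenius_inj F r
          rw [frobenius_def, frobenius_def, ← Matrix.det_pow, hMr, Matrix.det_one, one_pow]
        obtain ⟨U, W, hUW, hU, hUi, hWi⟩ := h ⟨1 + A, hdet⟩ ⟨1, by simpa using hMr⟩ fun c hc => by
          change 1 + A = c • (1 : Matrix (Fin n) (Fin n) F) at hc
          have hc1 : c = 1 := by
            apply frobenius_inj F r
            rw [frobenius_def, frobenius_def, one_pow]
            rw [hc, _root_.smul_pow, one_pow] at hMr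
            exact smul_left_injective F (one_ne_zero : (1 : Matrix (Fin n) (Fin n) F) ≠ 0) (hMr.trans (one_smul F _).symm)
          rw [hc1, one_smul, add_eq_left] at hc
          exact hall fun a ha => (CfsgLib.NilType.pow_eq_zero_iff_type hA 1).mp (by rw [pow_one, hc]) a ha
        have hinv : ∀ Y : Submodule F (Fin n → F), Y.map (Matrix.toLin' (1 + A)) ≤ Y → Y.map (Matrix.toLin' A) ≤ Y := by
          rintro Y hY _ ⟨y, hy, rfl⟩
          have h1 := Y.sub_mem (hY ⟨y, hy, rfl⟩) hy
          rwa [map_add, Matrix.toLin'_one, LinearMap.add_apply, LinearMap.id_apply, add_sub_cancel_left] at h1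
        exact CfsgLib.SubElusive.type_split A hAnil hA U W hUW hU (hinv U hUi) (hinv W hWi)
      · intro h x ⟨c, hx⟩ hx'
        have hc0 := CfsgLib.SubElusive.scalar_data (hSL x) (by omega) hx
        obtain ⟨d, hd⟩ := Finite.injective_iff_surjective.mp (frobenius_inj F r) c
        rw [frobenius_def] at hd
        have hd0 : d ≠ 0 := fun h0 => hc0 (by rw [← hd, h0, zero_pow hr.ne_zero])
        obtain ⟨A, hA⟩ : ∃ A, A = d⁻¹ • (x : Matrix (Fin n) (Fin n) F) - 1 := ⟨_, rfl⟩
        have hAr : A ^ r = 0 := by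
          rw [hA, sub_pow_char_of_commute _ (Commute.one_right _), _root_.smul_pow, hx, smul_smul, ← hd, ← mul_pow,
            inv_mul_cancel₀ hd0, one_pow, one_smul, one_pow, sub_self]
        obtain ⟨U, W, hUW, hU, hUi, hWi⟩ := CfsgLib.SubElusive.pair_of_nilpotent A hAr hr.pos h
        have hinv : ∀ Y : Submodule F (Fin n → F), Y.map (Matrix.toLin' A) ≤ Y →
            Y.map (Matrix.toLin' (x : Matrix (Fin n) (Fin n) F)) ≤ Y := by
          rintro Y hY _ ⟨y, hy, rfl⟩
          have h1 := Y.smul_mem d (Y.add_mem (hY ⟨y, hy, rfl⟩) hy)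
          rwa [hA, map_sub, Matrix.toLin'_one, LinearMap.sub_apply, LinearMap.id_apply, sub_add_cancel, map_smul,
            LinearMap.smul_apply, smul_smul, mul_inv_cancel₀ hd0, one_smul] at h1
        exact ⟨U, W, hUW, hU, hinv U hUi, hinv W hWi⟩
    rw [hP]
    rcases hr.eq_two_or_odd with h2 | hodd
    · subst h2
      rw [CfsgLib.SubElusive.binary_parts (show m ≤ n by omega)]
      simp
    · have h2 : 2 < r := by have := hr.two_le; omega
      simp [h2, h2.ne']
  · -- other characteristics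
    simp only [ne_eq, hrp, not_false_iff, true_and, false_and, false_or, Matrix.SpecialLinearGroup.coe_pow]
    have hrq : ¬ r ∣ Fintype.card F := by
      obtain ⟨f, hp, hf⟩ := FiniteField.card F p
      rw [hf]
      exact fun h => hrp ((Nat.prime_dvd_prime_iff_eq hr hp).mp (hr.dvd_of_dvd_pow h))
    have hrF : (r : F) ≠ 0 := CfsgLib.SubElusive.r_ne_zero hrp
    obtain ⟨t, hta, htn, htd⟩ := CfsgLib.SubElusive.exists_dvd_sub (F := F) (V := Fin n → F) hr (Module.finrank_fin_fun F)
      (show m ≤ n by omega) (CfsgLib.SubElusive.dvd_of_dvd_card_compl_pairs hr hrq hrΩ)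
    obtain ⟨hrq0, hi0, hin, hnmod⟩ := CfsgLib.SubElusive.order_facts hr Fintype.one_lt_card hta htn htd
    set i := orderOf (Fintype.card F : ZMod r) with hi
    have hi1 : r ∣ Fintype.card F - 1 ↔ i = 1 := CfsgLib.SubElusive.r_dvd_sub_iff
    constructor
    · intro h
      rcases eq_or_lt_of_le (show 1 ≤ i from hi0) with h1 | h1
      · refine Or.inl ⟨h1.symm, ?_⟩
        by_cases hm' : r ∣ m
        · exact Or.inl hm'
        refine Or.inr ((CfsgLib.SubElusive.no_nonsplit_iff hrp (hi1.mpr h1.symm) (by omega)).mp ?_)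
        rintro ⟨c, hc, hrn, hd⟩
        obtain ⟨x, hx, hx'⟩ := CfsgLib.SubElusive.exists_witness_nonsplit (n := n) (by omega) hrp hc hrn hd
        obtain ⟨W, W', -, hW, hWi, -⟩ := h x ⟨c, hx⟩ hx'
        exact hm' (hW ▸ (CfsgLib.SubElusive.nonsplit _ hc hx).2.2.1 W hWi)
      · obtain ⟨x, hx, hx', hxs⟩ := CfsgLib.SubElusive.exists_witness_split (F := F) (n := n) hrp h1 hin
        obtain ⟨W, W', -, hW, hWi, -⟩ := h x ⟨1, by rw [hx, one_smul]⟩ hx'
        have hb := hxs W ⊤ le_top hWi le_top
        rw [hW, finrank_top, Module.finrank_fin_fun, Nat.sub_self, Nat.zero_mod, add_zero] at hb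
        simp only [← hi] at hb
        refine Or.inr ⟨h1, ?_, hb⟩
        by_contra hlt
        have := Nat.mod_eq_of_lt (show m < i by omega)
        omega
    · intro h x ⟨c, hx⟩ hx'
      have hc0 := CfsgLib.SubElusive.scalar_data (hSL x) (by omega) hx
      by_cases hc : ∃ d : F, d ^ r = c
      · obtain ⟨d, rfl⟩ := hc
        have hd : d ≠ 0 := fun h0 => hc0 (by rw [h0, zero_pow hr.ne_zero])
        have hcrit : m % i ≤ n % i := by
          rcases h with ⟨h1, -⟩ | ⟨-, -, h1⟩
          · rw [h1, Nat.mod_one, Nat.mod_one]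
          · exact h1
        obtain ⟨U, W, -, hU, -, hUi, -⟩ := CfsgLib.SubElusive.chain_split hrp _ hd hx (m := m) (m' := 0)
          fun e k hek => CfsgLib.SubElusive.choice_one hek (by omega) hcrit
        obtain ⟨W', hUW, hWi'⟩ := CfsgLib.SubElusive.exists_compl hrF _ hc0 hx U hUi
        exact ⟨U, W', hUW, hU, hUi, hWi'⟩
      · push Not at hc
        obtain ⟨hrn, hcp, -, hch⟩ := CfsgLib.SubElusive.nonsplit _ hc hx
        have hd := CfsgLib.SubElusive.det_nonsplit (Nat.div_mul_cancel hrn).symm hcp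
        rw [hSL x] at hd
        have hrm : r ∣ m := by
          rcases h with ⟨h1, hrm | hcond⟩ | ⟨h1, -⟩
          · exact hrm
          · exact absurd ⟨c, hc, hrn, hd.symm⟩ ((CfsgLib.SubElusive.no_nonsplit_iff hrp (hi1.mpr h1) (by omega)).mpr hcond)
          · obtain ⟨d, hd'⟩ := CfsgLib.SubElusive.order_gt_one_power (F := F) (r := r)
              (fun hh => by have := hi1.mp hh; omega) c
            exact absurd hd' (hc d)
        obtain ⟨U, W, -, hU, -, hUi, -⟩ := hch m n hrm hrn (by omega) le_rfl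
        obtain ⟨W', hUW, hWi'⟩ := CfsgLib.SubElusive.exists_compl hrF _ hc0 hx U hUi
        exact ⟨U, W', hUW, hU, hUi, hWi'⟩

end Cfsg.Agent.S5950
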