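import Cfsg.Statements.S5952
-- no helpers

set_option autoImplicit false
open Cfsg

namespace Cfsg.Agent.S5952

theorem exists_le_finrank_eq {F V : Type*} [Field F] [AddCommGroup V] [Module F V]
    [FiniteDimensional F V] (C : Submodule F V) (k : ℕ) (hk : k ≤ Module.finrank F C) :
    ∃ C' : Submodule F V, C' ≤ C ∧ Module.finrank F C' = k := by
  induction k with
  | zero => exact ⟨⊥, bot_le, finrank_bot F V⟩
  | succ k ih =>
    obtain ⟨C', hle, hc⟩ := ih (by omega)
    obtain ⟨x, hxC, hx⟩ := SetLike.exists_of_lt (hle.lt_of_ne fun h => by rw [h] at hc; omega)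
    refine ⟨C' ⊔ F ∙ x, sup_le hle ((Submodule.span_singleton_le_iff_mem _ _).mpr hxC), ?_⟩
    have hd : Disjoint C' (F ∙ x) := by
      rw [Submodule.disjoint_span_singleton]
      exact fun h => absurd h hx
    have h1 := Submodule.finrank_sup_add_finrank_inf_eq C' (F ∙ x)
    rw [hd.eq_bot, finrank_bot, add_zero, finrank_span_singleton (fun h : x = 0 => hx (by rw [h]; exact C'.zero_mem)), hc] at h1
    exact h1

/-- Which dimensions of invariant subspaces a semisimple linear map has. Let `V` be a finite-dimensional vector space over a field `F` and `f` an invertible semisimple linear map of `V`. Suppose `V` is the internal direct sum of the fixed space `C_V(f)` (the eigenspace for 1) and subspaces `U_1, …, U_s`, each `f`-invariant of dimension `a ≥ 1` on which `f` acts irreducibly (no `f`-invariant subspaces other than 0 and `U_j`). Let `0 < m < dim V` and `ℓ = m mod a`. Then `f` leaves some `m`-dimensional subspace invariant if and only if `dim C_V(f) ≥ m`, or `a ≤ m` and `dim C_V(f) ≥ ℓ`. -/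
theorem result {F V : Type*} [Field F] [AddCommGroup V] [Module F V]
    [FiniteDimensional F V] (f : V →ₗ[F] V) (hf : Function.Bijective f) (hss : Module.End.IsSemisimple f)
    {s a : ℕ} (ha : 1 ≤ a) (U : Fin s → Submodule F V)
    (hUinv : ∀ j, (U j).map f ≤ U j) (hUdim : ∀ j, Module.finrank F ↥(U j) = a)
    (hUirr : ∀ j, ∀ W : Submodule F V, W ≤ U j → W.map f ≤ W → W = ⊥ ∨ W = U j)
    (hdec : DirectSum.IsInternal (fun o : Option (Fin s) => o.elim (Module.End.eigenspace f 1) U))
    (m : ℕ) (hm : 0 < m) (hmV : m < Module.finrank F V) :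
    (∃ W : Submodule F V, Module.finrank F ↥W = m ∧ W.map f ≤ W) ↔
    (m ≤ Module.finrank F ↥(Module.End.eigenspace f 1) ∨
      (a ≤ m ∧ m % a ≤ Module.finrank F ↥(Module.End.eigenspace f 1))) := by
  classical
  set C : Submodule F V := Module.End.eigenspace f 1 with hC
  let Φ : Option (Fin s) → Submodule F V := fun o => o.elim C U
  have hind : iSupIndep Φ := hdec.submodule_iSupIndep
  have htop : iSup Φ = ⊤ := hdec.submodule_iSup_eq_top
  have hΦinv : ∀ o, (Φ o).map f ≤ Φ o := by
    rintro (_ | j)
    · rintro _ ⟨x, hx, rfl⟩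
      have hfx : f x = x := by simpa [Φ, hC] using hx
      rwa [hfx]
    · exact hUinv j
  have hinv : ∀ S : Finset (Fin s), (C ⊔ S.sup U).map f ≤ C ⊔ S.sup U := by
    intro S
    rw [Submodule.map_sup]
    refine sup_le ((hΦinv none).trans le_sup_left) (le_sup_of_le_right ?_)
    rw [Submodule.map_le_iff_le_comap]
    refine Finset.sup_le fun j hj => ?_
    rw [← Submodule.map_le_iff_le_comap]
    exact (hUinv j).trans (Finset.le_sup hj)
  have hdisj : ∀ (S : Finset (Fin s)) (j : Fin s), j ∉ S → Disjoint (C ⊔ S.sup U) (U j) := by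
    intro S j hj
    refine Disjoint.mono_left ?_ (hind (some j)).symm
    refine sup_le ?_ (Finset.sup_le fun i hi => ?_)
    · exact le_iSup₂ (f := fun (o : Option (Fin s)) (_ : o ≠ some j) => Φ o) none (by simp)
    · exact le_iSup₂ (f := fun (o : Option (Fin s)) (_ : o ≠ some j) => Φ o) (some i)
        (by simp; exact fun h => hj (h ▸ hi))
  have hdimS : ∀ S : Finset (Fin s),
      Module.finrank F ↥(C ⊔ S.sup U) = Module.finrank F C + a * S.card := by
    intro S
    induction S using Finset.induction with
    | empty => rw [Finset.sup_empty, sup_bot_eq, Finset.card_empty, mul_zero, add_zero]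
    | @insert j S hj ih =>
      rw [Finset.sup_insert, sup_comm (U j), ← sup_assoc]
      have h := Submodule.finrank_sup_add_finrank_inf_eq (C ⊔ S.sup U) (U j)
      rw [(hdisj S j hj).eq_bot, finrank_bot, add_zero, ih, hUdim] at h
      rw [h, Finset.card_insert_of_notMem hj, mul_add, mul_one, add_assoc]
  have key : ∀ (S : Finset (Fin s)) (W : Submodule F V), W.map f ≤ W → W ≤ C ⊔ S.sup U →
      ∃ e k, Module.finrank F W = e + a * k ∧ e ≤ Module.finrank F C := by
    intro S
    induction S using Finset.induction with
    | empty =>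
      intro W _ hle
      rw [Finset.sup_empty, sup_bot_eq] at hle
      exact ⟨_, 0, by omega, Submodule.finrank_mono hle⟩
    | @insert j S hj ih =>
      intro W hW hle
      set A : Submodule F V := C ⊔ S.sup U with hA
      have hAU : C ⊔ (insert j S).sup U = A ⊔ U j := by
        rw [Finset.sup_insert, hA, sup_comm (U j), sup_assoc]
      rw [hAU] at hle
      have hWA : (W ⊓ A).map f ≤ W ⊓ A :=
        le_inf ((Submodule.map_mono inf_le_left).trans hW)
          ((Submodule.map_mono inf_le_right).trans (hinv S))
      obtain ⟨e, k, hek, he⟩ := ih (W ⊓ A) hWA inf_le_right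
      have hXinv : ((W ⊔ A) ⊓ U j).map f ≤ (W ⊔ A) ⊓ U j := by
        refine le_inf ((Submodule.map_mono inf_le_left).trans ?_)
          ((Submodule.map_mono inf_le_right).trans (hUinv j))
        rw [Submodule.map_sup]
        exact sup_le_sup hW (hinv S)
      have hmod : W ⊔ A = A ⊔ ((W ⊔ A) ⊓ U j) := by
        rw [inf_comm, ← sup_inf_assoc_of_le _ (le_sup_right : A ≤ W ⊔ A), eq_comm, inf_eq_right]
        exact sup_le hle le_sup_left
      rcases hUirr j _ inf_le_right hXinv with h | h
      · rw [h, sup_bot_eq] at hmod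
        have : W ⊓ A = W := inf_eq_left.mpr (hmod ▸ le_sup_left)
        rw [this] at hek
        exact ⟨e, k, hek, he⟩
      · rw [h] at hmod
        have h1 := Submodule.finrank_sup_add_finrank_inf_eq W A
        have h2 := Submodule.finrank_sup_add_finrank_inf_eq A (U j)
        rw [(hdisj S j hj).eq_bot, finrank_bot, add_zero, hUdim] at h2
        rw [hmod] at h1
        exact ⟨e, k + 1, by rw [mul_add, mul_one]; omega, he⟩
  have huniv : C ⊔ (Finset.univ : Finset (Fin s)).sup U = ⊤ := by
    rw [eq_top_iff, ← htop]
    refine iSup_le ?_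
    rintro (_ | j)
    · exact le_sup_left
    · exact le_sup_of_le_right (Finset.le_sup (Finset.mem_univ j))
  constructor
  · rintro ⟨W, hWm, hWf⟩
    obtain ⟨e, k, hek, he⟩ := key Finset.univ W hWf (huniv ▸ le_top)
    rw [hWm] at hek
    rcases Nat.eq_zero_or_pos k with hk | hk
    · subst hk; left; omega
    · right
      refine ⟨?_, ?_⟩
      · have := Nat.le_mul_of_pos_right a hk
        omega
      · rw [hek, Nat.add_mul_mod_self_left]
        exact (Nat.mod_le _ _).trans he
  · intro hcase
    have hV : Module.finrank F V = Module.finrank F C + a * s := by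
      have := hdimS Finset.univ
      rw [huniv, finrank_top, Finset.card_univ, Fintype.card_fin] at this
      exact this
    obtain ⟨t, hts, htm, htc⟩ :
        ∃ t, t ≤ s ∧ a * t ≤ m ∧ m ≤ a * t + Module.finrank F C := by
      rcases hcase with hc | ⟨ham, hmc⟩
      · exact ⟨0, by omega, by omega, by omega⟩
      · by_cases hsm : m / a ≤ s
        · exact ⟨m / a, hsm, Nat.mul_div_le _ _, by have := Nat.div_add_mod m a; omega⟩
        · refine ⟨s, le_rfl, ?_, by omega⟩
          have := (Nat.mul_le_mul_left a (le_of_not_ge hsm)).trans (Nat.mul_div_le m a)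
          exact this
    obtain ⟨S, -, hS⟩ := Finset.exists_subset_card_eq (s := (Finset.univ : Finset (Fin s))) (n := t)
      (by rw [Finset.card_univ, Fintype.card_fin]; exact hts)
    obtain ⟨C', hC'le, hC'⟩ := exists_le_finrank_eq C (m - a * t) (by omega)
    have hfix : C'.map f ≤ C' := by
      rintro _ ⟨x, hx, rfl⟩
      have hfx : f x = x := by simpa [hC] using hC'le hx
      rwa [hfx]
    refine ⟨C' ⊔ S.sup U, ?_, ?_⟩
    · have hd : Disjoint C (S.sup U) := by
        refine (hind none).mono_right (Finset.sup_le fun i _ => ?_)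
        exact le_iSup₂ (f := fun (o : Option (Fin s)) (_ : o ≠ none) => Φ o) (some i) (by simp)
      have h1 := Submodule.finrank_sup_add_finrank_inf_eq C (S.sup U)
      have h2 := Submodule.finrank_sup_add_finrank_inf_eq C' (S.sup U)
      rw [hd.eq_bot, finrank_bot, add_zero, hdimS S, hS] at h1
      rw [(hd.mono_left hC'le).eq_bot, finrank_bot, add_zero] at h2
      omega
    · rw [Submodule.map_sup]
      refine sup_le_sup hfix ?_
      rw [Submodule.map_le_iff_le_comap]
      refine Finset.sup_le fun j hj => ?_
      rw [← Submodule.map_le_iff_le_comap]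
      exact (hUinv j).trans (Finset.le_sup hj)

end Cfsg.Agent.S5952
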