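import Cfsg.Statements.S5953
import Cfsg.Agent.SubElusive.UnitTI

set_option autoImplicit false
open scoped MatrixGroups
open Cfsg

namespace Cfsg.Agent.S5953

open Matrix CfsgLib.SubElusive CfsgLib.SemiClasses CfsgLib.FormConj CfsgLib.FormConj.Semi

section

variable {F : Type*} [Field F] [Fintype F] {p q : ℕ} [Fact p.Prime] [CharP F p] {θ : F →+* F} {n m r : ℕ}
  [hr : Fact r.Prime]

theorem rescale (hq : ∀ a, θ a = a ^ q) {x : Matrix (Fin n) (Fin n) F} (hx : dag θ x * x = 1) {z w : F}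
    (hxz : x ^ r = z • 1) (hw : w ^ r = z) (hw1 : w ^ (q + 1) = 1) :
    w⁻¹ ≠ 0 ∧ dag θ (w⁻¹ • x) * (w⁻¹ • x) = 1 ∧ (w⁻¹ • x) ^ r = 1 := by
  have hw0 : w ≠ 0 := fun h => by rw [h, zero_pow (Nat.succ_ne_zero q)] at hw1; exact zero_ne_one hw1
  refine ⟨inv_ne_zero hw0, ?_, ?_⟩
  · rw [dag_mul_smul hx, map_inv₀, ← mul_inv, hq, ← pow_succ, hw1, inv_one, one_smul]
  · rw [_root_.smul_pow, hxz, smul_smul, inv_pow, hw, inv_mul_cancel₀, one_smul]
    exact hw ▸ pow_ne_zero _ hw0

/-- A scalar outside the `r`-th powers of norm one is no `r`-th power. -/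
theorem nonroot (hq2 : Fintype.card F = q ^ 2) (hr2 : r ≠ 2) (hd : r ∣ q + 1) {z : F} (hzq : z ^ (q + 1) = 1)
    (hz : z ^ ((q + 1) / r) ≠ 1) (w : F) : w ^ r ≠ z := fun hw => hz (by
  have hrpr : r.Prime := hr.out
  obtain ⟨t, ht⟩ := hd
  have hw0 : w ≠ 0 := fun h => by
    rw [← hw, h, zero_pow hrpr.ne_zero, zero_pow (Nat.succ_ne_zero q)] at hzq; exact zero_ne_one hzq
  have h1 : (w ^ (q + 1)) ^ r = 1 := by rw [← pow_mul, mul_comm, pow_mul, hw, hzq]
  have h2 : (w ^ (q + 1)) ^ (q - 1) = 1 := by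
    rw [← pow_mul, ← Nat.sq_sub_sq, one_pow, ← hq2, FiniteField.pow_card_sub_one_eq_one w hw0]
  have hcop : r.Coprime (q - 1) := hrpr.coprime_iff_not_dvd.mpr fun hd' => by
    have h3 := Nat.dvd_sub (ht ▸ dvd_mul_right r t : r ∣ q + 1) hd'
    rcases q with _ | _ | q
    · have := Fintype.one_lt_card (α := F); rw [hq2] at this; simp at this
    · have := Fintype.one_lt_card (α := F); rw [hq2] at this; simp at this
    rw [show q + 1 + 1 + 1 - (q + 1 + 1 - 1) = 2 by omega] at h3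
    exact hr2 ((Nat.prime_dvd_prime_iff_eq hrpr Nat.prime_two).mp h3)
  have h4 := pow_gcd_eq_one.mpr ⟨h1, h2⟩
  rw [hcop.gcd_eq_one, pow_one] at h4
  rw [ht, Nat.mul_div_cancel_left _ hrpr.pos, ← hw, ← pow_mul, ← ht, h4])

variable {L : Type*} [Field L] [Finite L] [Algebra F L] {ζ : L}

omit [Fintype F] [CharP F p] [Fact p.Prime] [Finite L] in
/-- A scalar matrix has a single eigenvalue. -/
theorem mult_scalar (a : F) (x : ZMod r) (hx : mult ζ (a • (1 : Matrix (Fin n) (Fin n) F)) x ≠ 0) :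
    mult ζ (a • (1 : Matrix (Fin n) (Fin n) F)) x = n := by
  simp only [mult, Matrix.smul_one_eq_diagonal, Matrix.charpoly_diagonal, Finset.prod_const, Finset.card_univ,
    Fintype.card_fin, Polynomial.map_pow, Polynomial.map_sub, Polynomial.map_X, Polynomial.map_C] at hx ⊢
  have h1 := (Polynomial.rootMultiplicity_pos'.mp (Nat.pos_of_ne_zero hx)).2
  rw [Polynomial.IsRoot.def, Polynomial.eval_pow, Polynomial.eval_sub, Polynomial.eval_X, Polynomial.eval_C] at h1
  rw [sub_eq_zero.mp (eq_zero_of_pow_eq_zero h1), Polynomial.rootMultiplicity_X_sub_C_pow]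

/-- What a semisimple witness yields. -/
theorem of_witness (hζ : IsPrimitiveRoot ζ r) (hrp : r ≠ p) (hr2 : r ≠ 2) (hq2 : Fintype.card F = q ^ 2)
    (hq : ∀ a, θ a = a ^ q) (hθ : ∀ a, θ (θ a) = a) (hne : θ ≠ RingHom.id F) {h : (ZMod r)ˣ}
    (hh : (h : ZMod r) = -(q : ZMod r)) (f : ZMod r → ℕ) (hf : ∀ x, f (x * (h : ZMod r)) = f x)
    (hfs : ∑ x, f x = n) (hflt : ∀ x, f x < n) (hsym : r ∣ q + 1 → ∀ x, f (-x) = f x) (hall : AllTI θ n m r) :
    ∃ g : ZMod r → ℕ, (∀ x, g (x * ((h * h : (ZMod r)ˣ) : ZMod r)) = g x) ∧ ∑ x, g x = m ∧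
      ∀ x, g x + g (x * (h : ZMod r)) ≤ f x := by
  classical
  have hrpr : r.Prime := hr.out
  obtain ⟨A, hA, hAr, hAm⟩ := exists_selfDual_mult (F := F) hζ hrp hq2 hq hh f hf hfs
  obtain ⟨B, C, hC, hCA, hB, hBr, hdetA, hBd⟩ :=
    exists_unitary_pow hθ hne hA (r := r) (z := 1) (by rw [one_smul]; exact hAr)
  rw [one_smul] at hBr
  have hBm : ∀ x, mult ζ B x = f x := fun x => by
    rw [← congrFun (mult_of_similar (r := r) (ζ := ζ) hC hCA) x, hAm]
  have hdr : B.det ^ r = 1 := by rw [← Matrix.det_pow, hBr, Matrix.det_one]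
  have hdet : B.det = 1 := by
    by_cases hd : r ∣ q + 1
    · have hs := hsym hd
      have h1 : (B.det * B.det) = 1 := by
        apply (algebraMap F L).injective
        rw [map_mul, map_one, det_of_mult hζ hBr]
        conv_lhs => arg 2; rw [← Equiv.prod_comp (Equiv.neg (ZMod r))]
        rw [← Finset.prod_mul_distrib]
        refine Finset.prod_eq_one fun x _ => ?_
        rw [Equiv.neg_apply, hBm, hBm, hs, ← mul_pow, ← pow_add]
        have h2 : ((x.val + (-x).val : ℕ) : ZMod r) = 0 := by simp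
        obtain ⟨e, he⟩ := (ZMod.natCast_eq_zero_iff _ _).mp h2
        rw [he, pow_mul, hζ.pow_eq_one, one_pow, one_pow]
      have h3 := pow_gcd_eq_one.mpr ⟨hdr, (show B.det ^ 2 = 1 by rw [pow_two, h1])⟩
      rwa [((Nat.coprime_primes hrpr Nat.prime_two).mpr hr2).gcd_eq_one, pow_one] at h3
    · rw [hq, ← pow_succ] at hBd
      have h3 := pow_gcd_eq_one.mpr ⟨hdr, hBd⟩
      rwa [(hrpr.coprime_iff_not_dvd.mpr hd).gcd_eq_one, pow_one] at h3
  have hns : ∀ z : F, B ≠ z • 1 := fun z hz => by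
    obtain ⟨x, hx⟩ : ∃ x, f x ≠ 0 := by
      by_contra hno
      push Not at hno
      rw [Finset.sum_eq_zero fun x _ => hno x] at hfs
      have := hflt 0
      omega
    have := hflt x
    rw [← hBm, hz] at hx
    have h2 := mult_scalar (ζ := ζ) z x hx
    rw [← hz, hBm] at h2
    omega
  obtain ⟨g, hg, hgs, hgle⟩ := ti_mult hζ hrp hq2 hq hθ hh hB hBr (hall B hdet hB ⟨1, by rw [one_smul, hBr]⟩ hns)
  exact ⟨g, hg, hgs, fun x => (hgle x).trans (hBm x).le⟩

theorem odd_case (hq2 : Fintype.card F = q ^ 2) (hq : ∀ a, θ a = a ^ q) (hθ : ∀ a, θ (θ a) = a)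
    (hne : θ ≠ RingHom.id F) (hn : 3 ≤ n) (hm : 1 ≤ m) (hmn : 2 * m ≤ n) (hrp : r ≠ p) (hr2 : r ≠ 2) {i b c : ℕ}
    (hi : i = orderOf (q : ZMod r)) (hb : b = if Even i then i / 2 else i)
    (hc : c = if i % 4 = 0 then i else if i % 4 = 2 then i / 2 else 2 * i)
    (hcount : ∃ j, n - 2 * m < j ∧ j ≤ n ∧ (-(q : ZMod r)) ^ j = 1) :
    AllTI θ n m r ↔ b ≤ m ∧ 2 * (m % b) ≤ n % c ∧
      (i % 4 ≠ 2 ∨ (i % 4 = 2 ∧ (r - 1) / b + 2 * (m / b) ≤ n / b ∧
        (2 < i ∨ (i = 2 ∧ (r ∣ m ∨ padicValNat r n ≤ padicValNat r (q + 1)))))) := by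
  classical
  have hrpr : r.Prime := hr.out
  obtain ⟨P, hP, hLfin, hζ⟩ := exists_root_field F hrpr (natCast_ne_zero hrp)
  obtain ⟨u, hu⟩ := exists_unit_card (F := F) (r := r) (p := p) (q := q) (hq2 ▸ dvd_pow_self q two_ne_zero) hrp
  have hui : orderOf u = i := by rw [← orderOf_units, hu, hi]
  have hi0 : 0 < i := hui ▸ orderOf_pos u
  obtain ⟨h, hh⟩ : ∃ h : (ZMod r)ˣ, h = -u := ⟨_, rfl⟩
  have hhq : (h : ZMod r) = -(q : ZMod r) := by rw [hh, Units.val_neg, hu]
  have hch : orderOf h = c := by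
    rw [hh, hc]
    rcases Nat.even_or_odd i with he | ho
    · rw [orderOf_neg_even u hr2 (hui.symm ▸ he), hui]
      rw [Nat.even_iff] at he
      split_ifs <;> omega
    · rw [orderOf_neg_odd u hr2 (hui.symm ▸ ho), hui]
      rw [Nat.odd_iff] at ho
      split_ifs <;> omega
  have hhh : orderOf (h * h) = b := by
    rw [hh, neg_mul_neg, ← pow_two, orderOf_pow' u two_ne_zero, hui, hb]
    rcases Nat.even_or_odd i with he | ho
    · rw [if_pos he, Nat.gcd_eq_right (even_iff_two_dvd.mp he)]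
    · rw [if_neg (Nat.not_even_iff_odd.mpr ho), (Nat.coprime_two_right.mpr ho).gcd_eq_one, Nat.div_one]
  have hc0 : 0 < c := hch ▸ orderOf_pos h
  have hb0 : 0 < b := hhh ▸ orderOf_pos (h * h)
  have hcb : (i % 4 = 2 → c = b) ∧ (i % 4 ≠ 2 → c = 2 * b) := by
    rw [hb, hc]
    rcases Nat.even_or_odd i with he | ho
    · rw [if_pos he]
      rw [Nat.even_iff] at he
      constructor <;> intro h4 <;> split_ifs <;> omega
    · rw [if_neg (Nat.not_even_iff_odd.mpr ho)]
      rw [Nat.odd_iff] at ho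
      constructor <;> intro h4 <;> split_ifs <;> omega
  have hmem : h ∈ Subgroup.zpowers (h * h) → i % 4 = 2 := fun hm' => by
    by_contra h4
    obtain ⟨e, he⟩ := Subgroup.mem_zpowers_iff.mp hm'
    have h1 : h ^ b = 1 := by
      conv_lhs => rw [← he]
      rw [← zpow_natCast, ← _root_.zpow_mul, mul_comm e, _root_.zpow_mul, zpow_natCast, ← hhh, pow_orderOf_eq_one, _root_.one_zpow]
    have h2 := Nat.le_of_dvd hb0 (hch ▸ orderOf_dvd_of_pow_eq_one h1)
    have := hcb.2 h4
    omega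
  have hbr : b ∣ r - 1 := by
    rw [← hhh, ← ZMod.card_units r]; exact orderOf_dvd_card
  have hcr : c ≤ r - 1 := by
    have h1 : orderOf h ∣ r - 1 := by rw [← ZMod.card_units r]; exact orderOf_dvd_card
    rw [hch] at h1
    exact Nat.le_of_dvd (by have := hrpr.two_le; omega) h1
  obtain ⟨j, hj, hjn, hj1⟩ := hcount
  have hcj : c ∣ j := by
    rw [← hch]
    refine orderOf_dvd_of_pow_eq_one (Units.ext ?_)
    rw [Units.val_pow_eq_pow_val, hhq, hj1, Units.val_one]
  have hcn : c ≤ n := (Nat.le_of_dvd (by omega) hcj).trans hjn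
  have hncm : n % c < 2 * m := by
    obtain ⟨e, he⟩ := hcj
    rw [show n = (n - j) + c * e by omega, Nat.add_mul_mod_self_left]
    exact (Nat.mod_le _ _).trans_lt (by omega)
  have hi2 : i = 2 ↔ r ∣ q + 1 := by
    rw [← ZMod.natCast_eq_zero_iff, Nat.cast_add, Nat.cast_one, hi, ← eq_neg_iff_add_eq_zero]
    constructor
    · intro h2
      have h1 := pow_orderOf_eq_one (q : ZMod r)
      rw [h2] at h1
      rcases sq_eq_one_iff.mp h1 with h3 | h3
      · rw [h3, orderOf_one] at h2; omega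
      · exact h3
    · intro h3
      haveI : Fact (2 < r) := ⟨lt_of_le_of_ne hrpr.two_le (Ne.symm hr2)⟩
      refine orderOf_eq_prime (by rw [h3, neg_one_sq]) fun h1 => ?_
      exact ZMod.neg_one_ne_one (h3.symm.trans h1)
  have hc1 : c = 1 → i = 2 := fun h1 => hi2.mpr (by
    rw [← hch, orderOf_eq_one_iff] at h1
    rw [h1, Units.val_one, eq_comm] at hhq
    rw [← ZMod.natCast_eq_zero_iff, Nat.cast_add, Nat.cast_one]
    linear_combination -hhq)
  constructor
  · intro hall
    obtain ⟨hℓ, hbm⟩ : 2 * (m % b) ≤ n % c ∧ b ≤ m := by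
      by_cases hi' : i = 2
      · have h4 : i % 4 = 2 := by omega
        have hb1 : b = 1 := by rw [hb, hi']; simp
        have hc1' : c = 1 := (hcb.1 h4).trans hb1
        rw [hb1, hc1', Nat.mod_one, Nat.mod_one]
        exact ⟨le_refl _, hm⟩
      · have hc2 : 2 ≤ c := by
          by_contra hlt
          exact hi' (hc1 (by omega))
        obtain ⟨k, hk, hsub⟩ := orbit_data h (fun x : ZMod r => if x = 0 then n % c else n / c)
          (fun x => by simp only [mul_eq_zero, h.ne_zero, or_false])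
        rw [hch] at hk
        have hk' : n / c ≤ k := by
          rw [if_pos rfl, sum_zmod] at hk
          simp only [if_pos, Units.ne_zero, if_false, Finset.sum_const, Finset.card_univ, ZMod.card_units, smul_eq_mul] at hk
          have h1 : c * (n / c) ≤ (r - 1) * (n / c) := Nat.mul_le_mul_right _ hcr
          exact Nat.le_of_mul_le_mul_left (by omega) hc0
        obtain ⟨f, hf, hf0, hfle, hfs⟩ := hsub (n % c) (by simp) _ hk'
        have hdiv := Nat.mod_add_div n c
        have hflt : ∀ x, f x < n := fun x => by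
          have h1 := hfle x
          have h2 := Nat.mod_lt n hc0
          have h3 : n / c < n := Nat.div_lt_self (by omega) hc2
          split_ifs at h1 <;> omega
        obtain ⟨g, hg, hgs, hgle⟩ := of_witness hζ hrp hr2 hq2 hq hθ hne hhq f hf (by rw [hfs, hch]; omega) hflt
          (fun hd => absurd (hi2.mpr hd) hi') hall
        obtain ⟨K, hK, -⟩ := orbit_data (h * h) g hg
        rw [hgs, hhh] at hK
        have h1 := hgle 0
        rw [zero_mul, hf0] at h1
        have h2 : m % b ≤ g 0 := by rw [← hK, Nat.add_mul_mod_self_left]; exact Nat.mod_le _ _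
        refine ⟨by omega, ?_⟩
        by_contra hlt
        rw [Nat.mod_eq_of_lt (not_le.mp hlt)] at h2
        omega
    refine ⟨hbm, hℓ, ?_⟩
    by_cases h4 : i % 4 = 2
    · refine Or.inr ⟨h4, ?_, ?_⟩
      · by_contra hlt
        have hcb' := hcb.1 h4
        obtain ⟨s, hs⟩ := hbr
        rw [hs, Nat.mul_div_cancel_left _ hb0] at hlt
        have hnm : n - 2 * m < b * s := by
          have h1 : b * (n / b + 1) ≤ b * (s + 2 * (m / b)) := Nat.mul_le_mul_left _ (by omega)
          rw [mul_add, mul_add, mul_one, mul_left_comm] at h1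
          have h2 := Nat.mod_add_div n b
          have h3 := Nat.mod_add_div m b
          have h5 := Nat.mod_lt n hb0
          omega
        obtain ⟨e, he⟩ : ∃ e, h = (h * h) ^ e := ⟨(b + 1) / 2, by
          have hodd : b % 2 = 1 := by
            rw [hb, if_pos (Nat.even_iff.mpr (by omega : i % 2 = 0))]; omega
          rw [← pow_two, ← pow_mul, show 2 * ((b + 1) / 2) = b + 1 by omega, pow_succ, ← hcb', ← hch, pow_orderOf_eq_one,
            one_mul]⟩
        obtain ⟨v, hvb, f, hf, hfs, hf1, hf0, hsym⟩ : ∃ v, n - 2 * m < v ∧ ∃ f : ZMod r → ℕ, (∀ x, f (x * (h : ZMod r)) = f x) ∧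
            ∑ x, f x = n ∧ (∀ x ≠ 0, f x ≤ 1) ∧ f 0 = n - v ∧ (r ∣ q + 1 → ∀ x, f (-x) = f x) := by
          have mk : ∀ (v : (ZMod r)ˣ) (d : ℕ), orderOf v * d ≤ n → orderOf v * d ≤ r - 1 →
              ∃ g : ZMod r → ℕ, (∀ x, g (x * (v : ZMod r)) = g x) ∧ ∑ x, g x = n ∧ (∀ x ≠ 0, g x ≤ 1) ∧
                g 0 = n - orderOf v * d := fun v d hd hd' => by
            obtain ⟨k, hk, hsub⟩ := orbit_data v (fun x : ZMod r => if x = 0 then n - orderOf v * d else 1)
              (fun x => by simp only [mul_eq_zero, v.ne_zero, or_false])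
            rw [if_pos rfl, sum_zmod] at hk
            simp only [if_pos, Units.ne_zero, if_false, Finset.sum_const, Finset.card_univ, ZMod.card_units, smul_eq_mul,
              mul_one] at hk
            obtain ⟨g, hg, hg0, hgle, hgs⟩ := hsub (n - orderOf v * d) (by simp) d
              (Nat.le_of_mul_le_mul_left (by omega) (orderOf_pos v))
            refine ⟨g, hg, by omega, fun x hx => ?_, hg0⟩
            have := hgle x
            simpa [hx] using this
          by_cases hi' : i = 2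
          · have hb1 : b = 1 := by rw [hb, hi']; simp
            have hh1 : h = 1 := orderOf_eq_one_iff.mp (hch.trans (hcb'.trans hb1))
            have hrodd := Nat.odd_iff.mp (hrpr.odd_of_ne_two hr2)
            rw [hb1, one_mul] at hs hnm
            obtain ⟨g, hg, hgs, hg1, hg0⟩ := mk (-1) ((n - 2 * m) / 2 + 1)
              (by rw [neg_one_pow_units hr2]; omega) (by rw [neg_one_pow_units hr2]; omega)
            refine ⟨orderOf (-1 : (ZMod r)ˣ) * ((n - 2 * m) / 2 + 1), by rw [neg_one_pow_units hr2]; omega, g,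
              fun x => by rw [hh1, Units.val_one, mul_one], hgs, hg1, hg0, fun _ x => ?_⟩
            simpa using hg x
          · have h6 : (n - 2 * m) / b < s := (Nat.div_lt_iff_lt_mul hb0).mpr (by rw [mul_comm s b]; exact hnm)
            have h7 : b * ((n - 2 * m) / b + 1) ≤ n := by
              have h8 := Nat.mul_div_le (n - 2 * m) b
              rw [mul_add, mul_one]; omega
            have h9 : b * ((n - 2 * m) / b + 1) ≤ b * s := Nat.mul_le_mul_left _ h6
            obtain ⟨g, hg, hgs, hg1, hg0⟩ := mk h ((n - 2 * m) / b + 1)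
              (by rw [hch, hcb']; exact h7) (by rw [hch, hcb', hs]; exact h9)
            refine ⟨b * ((n - 2 * m) / b + 1), Nat.lt_mul_div_succ _ hb0, g, hg, hgs, hg1, ?_,
              fun hd => absurd (hi2.mpr hd) hi'⟩
            rw [hg0, hch, hcb']
        obtain ⟨g, hg, hgs, hgle⟩ := of_witness hζ hrp hr2 hq2 hq hθ hne hhq f hf hfs (fun x => by
          by_cases hx : x = 0
          · subst hx; omega
          · have := hf1 x hx; omega) hsym hall
        have hgh : ∀ x, g (x * (h : ZMod r)) = g x := fun x => by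
          have h1 : ∀ (d : ℕ) y, g (y * (((h * h) ^ d : (ZMod r)ˣ) : ZMod r)) = g y := fun d => by
            induction d with
            | zero => simp
            | succ d ih => intro y; rw [pow_succ, Units.val_mul, ← mul_assoc, hg, ih]
          conv_lhs => rw [he]
          exact h1 e x
        have hg0 : ∑ x, g x = g 0 := Finset.sum_eq_single 0 (fun x _ hx => by
          have h1 := hgle x
          rw [hgh] at h1
          have := hf1 x hx
          omega) (fun h0 => absurd (Finset.mem_univ _) h0)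
        have h1 := hgle 0
        rw [hgh] at h1
        omega
      · by_cases hi' : i = 2
        · refine Or.inr ⟨hi', ?_⟩
          by_contra hno
          push Not at hno
          obtain ⟨hrm, hv⟩ := hno
          have hrn : r ∣ n := by
            by_contra hnd
            rw [padicValNat.eq_zero_of_not_dvd hnd] at hv
            omega
          obtain ⟨s, rfl⟩ := hrn
          have hs : 0 < s := Nat.pos_of_ne_zero fun h => by rw [h, mul_zero] at hn; omega
          have hdiv : q + 1 ∣ Fintype.card F - 1 := ⟨q - 1, by rw [hq2, ← Nat.sq_sub_sq]⟩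
          obtain ⟨z, hz1, hz2⟩ := exists_primary (F := F) hrpr hdiv (by omega : 0 < q + 1) (hi2.mp hi')
          have hzq : z ^ (q + 1) = 1 := by
            obtain ⟨e, he⟩ : r ^ padicValNat r (q + 1) ∣ q + 1 := pow_padicValNat_dvd
            rw [he, pow_mul, hz1, one_pow]
          have hzroot : ∀ w : F, w ^ r ≠ z := nonroot hq2 hr2 (hi2.mp hi') hzq hz2
          have hzs : z ^ s = 1 := by
            have h1 : r ^ (padicValNat r (q + 1) + 1) ∣ r * s :=
              (padicValNat_dvd_iff_le (Nat.mul_ne_zero hrpr.ne_zero hs.ne')).mpr hv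
            rw [pow_succ'] at h1
            obtain ⟨e, he⟩ := Nat.dvd_of_mul_dvd_mul_left hrpr.pos h1
            rw [he, pow_mul, hz1, one_pow]
          exact hrm (dvd_of_allTI_nonpower hrp hr2 hθ hne hzroot (by rw [hq, ← pow_succ, hzq]) hzs hs hall)
        · exact Or.inl (by omega)
    · exact Or.inl h4
  · rintro ⟨-, hℓ, hcond⟩ x hd hx hxz -
    obtain ⟨z, hz⟩ := hxz
    obtain ⟨hzz, -⟩ := unitary_scalar (by omega : 0 < n) hd hx hz
    have hzz' : z ^ (q + 1) = 1 := by rw [pow_succ, ← hq, hzz]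
    have hsemi : ∀ w : F, w ^ r = z → w ^ (q + 1) = 1 → HasTI θ m x := fun w hw hw1 => by
      obtain ⟨hw0, hy, hyr⟩ := rescale hq hx hz hw hw1
      obtain ⟨f, hf⟩ : ∃ f : ZMod r → ℕ, f = mult (AdjoinRoot.root P) (w⁻¹ • x) := ⟨_, rfl⟩
      have hfh : ∀ v, f (v * (h : ZMod r)) = f v := fun v => by
        rw [hf]; exact (SelfDual.of_unitary hy).mult_inv hζ hrp hq2 hq hyr hhq v
      have hfs : ∑ v, f v = n := by rw [hf, sum_mult hζ hyr, Fintype.card_fin]
      obtain ⟨k, hk, -⟩ := orbit_data h f hfh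
      rw [hfs, hch] at hk
      have hf0 : n % c ≤ f 0 := by rw [← hk, Nat.add_mul_mod_self_left]; exact Nat.mod_le _ _
      obtain ⟨g, hg, hgs, hgle⟩ := exists_half_two f hfh hfs hmn (by rw [hhh]; omega) fun hm' => by
        have h4 := hmem hm'
        rw [hcb.1 h4] at hℓ
        obtain ⟨-, hs', -⟩ := hcond.resolve_left (fun h => h h4)
        refine Or.inr ?_
        obtain ⟨s, hs⟩ := hbr
        rw [hs, Nat.mul_div_cancel_left _ hb0] at hs'
        have h1 : b * (s + 2 * (m / b)) ≤ b * (n / b) := Nat.mul_le_mul_left _ hs'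
        rw [mul_add, mul_left_comm] at h1
        have h2 := Nat.mod_add_div n b
        have h3 := Nat.mod_add_div m b
        omega
      exact HasTI.of_smul hw0 (hasTI_of_mult hζ hrp hq2 hq hθ hne hhq hmn hy hyr g hg hgs (hf ▸ hgle))
    by_cases hi' : i = 2
    · obtain ⟨t, ht⟩ := hi2.mp hi'
      have ht0 : 0 < t := Nat.pos_of_ne_zero fun h => by rw [h, mul_zero] at ht; omega
      have hdiv : q + 1 ∣ Fintype.card F - 1 := ⟨q - 1, by rw [hq2, ← Nat.sq_sub_sq]⟩
      have hz0 : z ≠ 0 := fun h => by rw [h, zero_pow (Nat.succ_ne_zero q)] at hzz'; exact zero_ne_one hzz'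
      by_cases h1 : z ^ t = 1
      · obtain ⟨w, hw, hw1⟩ := exists_root_in h1 hz0 hrpr.pos (ht ▸ hdiv) ht0
        exact hsemi w hw (ht ▸ hw1)
      have hzroot : ∀ w : F, w ^ r ≠ z := nonroot hq2 hr2 (hi2.mp hi') hzz'
        (by rwa [ht, Nat.mul_div_cancel_left _ hrpr.pos])
      rcases hcond with h4 | ⟨-, -, hgt | ⟨-, hrm | hv⟩⟩
      · exact absurd (by omega : i % 4 = 2) h4
      · exact absurd hi' (by omega)
      · exact hasTI_of_nonpower hrp hθ hne hzroot hzz hx hz hmn hrm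
      · exfalso
        obtain ⟨s, hs, -⟩ := charpoly_of_nonpower hrpr hzroot hz
        rw [Fintype.card_fin] at hs
        have hs0 : 0 < s := Nat.pos_of_ne_zero fun h => by rw [h, mul_zero] at hs; omega
        have hzs : z ^ s = 1 := by
          rw [← det_of_nonpower hrpr hr2 hzroot hz (by rw [Fintype.card_fin, hs]), hd]
        refine h1 ?_
        have := pow_div_eq_one hrpr hs0 (by omega : 0 < q + 1) hzs hzz' (hs ▸ hv)
        rwa [ht, Nat.mul_div_cancel_left _ hrpr.pos] at this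
    · obtain ⟨w, hw, hw1⟩ := exists_root_coprime (hrpr.coprime_iff_not_dvd.mpr fun hd => hi' (hi2.mpr hd)) hzz'
      exact hsemi w hw hw1

theorem two_case (hq2 : Fintype.card F = q ^ 2) (hq : ∀ a, θ a = a ^ q) (hθ : ∀ a, θ (θ a) = a)
    (hne : θ ≠ RingHom.id F) (hn : 3 ≤ n) (hmn : 2 * m ≤ n) (hp2 : p ≠ 2) :
    AllTI θ n m 2 ↔ (2 * m < n ∨ padicValNat 2 (q + 1) ≤ padicValNat 2 n) := by
  classical
  haveI : Fact (2 : ℕ).Prime := ⟨Nat.prime_two⟩
  have hrp : 2 ≠ p := Ne.symm hp2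
  obtain ⟨P, hP, hLfin, hζ⟩ := exists_root_field F Nat.prime_two (natCast_ne_zero hrp)
  have hζ1 : AdjoinRoot.root P = -1 := hζ.eq_neg_one_of_two_right
  obtain ⟨u, hu⟩ := exists_unit_card (F := F) (r := 2) (p := p) (q := q) (hq2 ▸ dvd_pow_self q two_ne_zero) hrp
  have hhq : ((-u : (ZMod 2)ˣ) : ZMod 2) = -(q : ZMod 2) := by rw [Units.val_neg, hu]
  have hu1 : -u = 1 := Subsingleton.elim _ _
  have h2 : (2 : F) ≠ 0 := Ring.two_ne_zero (by rw [ringChar.eq F p]; exact hp2)
  obtain ⟨k, hk⟩ := card_eq_pow (p := p) hq2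
  have hqodd : q % 2 = 1 := by
    rw [hk, Nat.pow_mod, Nat.odd_iff.mp ((Fact.out : p.Prime).odd_of_ne_two hp2), one_pow, Nat.one_mod]
  have hq2le : 2 ≤ q := by
    by_contra hlt
    have := Fintype.one_lt_card (α := F)
    rw [hq2] at this
    interval_cases q <;> simp at this
  have hdiv : 2 * (q + 1) ∣ Fintype.card F - 1 := by
    rw [hq2, show q ^ 2 - 1 = (q - 1) * (q + 1) by rw [mul_comm, ← Nat.sq_sub_sq, one_pow]]
    exact Nat.mul_dvd_mul_right (Nat.dvd_of_mod_eq_zero (by omega)) _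
  have hdiv' : q + 1 ∣ Fintype.card F - 1 := (dvd_mul_left _ 2).trans hdiv
  obtain ⟨t, ht⟩ : ∃ t, t = (q + 1) / 2 := ⟨_, rfl⟩
  have hqt : q + 1 = 2 * t := by omega
  have huniv : (Finset.univ : Finset (ZMod 2)) = {0, 1} := rfl
  have hsum2 : ∀ f : ZMod 2 → ℕ, ∑ x, f x = f 0 + f 1 := fun f => by rw [huniv, Finset.sum_pair zero_ne_one]
  have hdet2 : ∀ M : Matrix (Fin n) (Fin n) F, M ^ 2 = 1 → M.det = (-1) ^ mult (AdjoinRoot.root P) M (1 : ZMod 2) :=
    fun M hM => by
      apply (algebraMap F (AdjoinRoot P)).injective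
      rw [det_of_mult hζ hM, huniv, Finset.prod_pair zero_ne_one, map_pow, map_neg, map_one, ZMod.val_zero, pow_zero,
        one_pow, one_mul, show ((1 : ZMod 2)).val = 1 from rfl, pow_one, hζ1]
  obtain ⟨V, hV⟩ : ∃ V, V = padicValNat 2 (q + 1) := ⟨_, rfl⟩
  have hVd : 2 ^ V ∣ q + 1 := hV ▸ pow_padicValNat_dvd
  constructor
  · intro hall
    by_contra hno
    rw [← hV, not_or, not_lt, not_le] at hno
    obtain ⟨hnm, hlt⟩ := hno
    obtain ⟨z, hz1, hz2⟩ := exists_primary (F := F) Nat.prime_two hdiv' (by omega : 0 < q + 1) (by omega)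
    rw [← hV] at hz1
    obtain ⟨W', hW'⟩ : ∃ W', V = W' + 1 := ⟨V - 1, by omega⟩
    have hzV : z ^ 2 ^ W' = -1 := by
      refine (mul_self_eq_one_iff.mp ?_).resolve_left fun h1 => hz2 ?_
      · rw [← pow_two, ← pow_mul, ← pow_succ, ← hW', hz1]
      · obtain ⟨e, he⟩ := hVd
        rw [he, hW', pow_succ', mul_assoc, Nat.mul_div_cancel_left _ two_pos, pow_mul, h1, one_pow]
    obtain ⟨v, hv⟩ : ∃ v, v = padicValNat 2 n := ⟨_, rfl⟩
    rw [← hv] at hlt
    obtain ⟨o, ho⟩ : 2 ^ v ∣ n := hv ▸ pow_padicValNat_dvd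
    have hoodd : Odd o := by
      by_contra he
      rw [Nat.not_odd_iff_even, even_iff_two_dvd] at he
      have h1 : 2 ^ (v + 1) ∣ n := by rw [ho, pow_succ]; exact Nat.mul_dvd_mul_left _ he
      have := (padicValNat_dvd_iff_le (by omega : n ≠ 0)).mp h1
      omega
    obtain ⟨w, hw⟩ : ∃ w, w = z ^ 2 ^ (W' - v) := ⟨_, rfl⟩
    have hwn : w ^ n = -1 := by
      rw [hw, ho, ← pow_mul, ← mul_assoc, ← pow_add, Nat.sub_add_cancel (by omega), pow_mul, hzV, hoodd.neg_one_pow]
    have hw1 : θ w * w = 1 := by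
      obtain ⟨e, he⟩ := hVd
      rw [hq, ← pow_succ, hw, ← pow_mul, mul_comm, pow_mul, he, pow_mul, hz1, one_pow, one_pow]
    have hw0 : w ≠ 0 := fun h => by rw [h, mul_zero] at hw1; exact zero_ne_one hw1
    obtain ⟨f, hf⟩ : ∃ f : ZMod 2 → ℕ, f = fun x => if x = 0 then n - 1 else 1 := ⟨_, rfl⟩
    have hfs : ∑ x, f x = n := by rw [hsum2, hf]; simp; omega
    obtain ⟨A, hA, hAr, hAm⟩ := exists_selfDual_mult (F := F) hζ hrp hq2 hq hhq f
      (fun x => by rw [hu1, Units.val_one, mul_one]) hfs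
    obtain ⟨B, C, hC, hCA, hB, hBr, hdA, -⟩ :=
      exists_unitary_pow hθ hne hA (r := 2) (z := 1) (by rw [one_smul]; exact hAr)
    rw [one_smul] at hBr
    have hBm : ∀ x, mult (AdjoinRoot.root P) B x = f x := fun x => by
      rw [← congrFun (mult_of_similar (r := 2) (ζ := AdjoinRoot.root P) hC hCA) x, hAm]
    have hBd : B.det = -1 := by rw [hdet2 B hBr, hBm, hf]; simp
    have hns : ∀ a : F, w • B ≠ a • 1 := fun a ha => by
      have h1 : B = (w⁻¹ * a) • 1 := by rw [← smul_smul, ← ha, smul_smul, inv_mul_cancel₀ hw0, one_smul]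
      have h3 : mult (AdjoinRoot.root P) B (1 : ZMod 2) ≠ 0 := by rw [hBm, hf]; simp
      rw [h1] at h3
      have h4 := mult_scalar (ζ := AdjoinRoot.root P) _ _ h3
      rw [← h1, hBm, hf] at h4
      simp at h4
      omega
    have hW := HasTI.of_smul hw0 (hall (w • B)
      (by rw [Matrix.det_smul, Fintype.card_fin, hwn, hBd, neg_one_mul, neg_neg])
      (by rw [dag_mul_smul hB, hw1, one_smul]) ⟨w ^ 2, by rw [_root_.smul_pow, hBr]⟩ hns)
    obtain ⟨g, hg, hgs, hgle⟩ := ti_mult hζ hrp hq2 hq hθ hhq hB hBr hW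
    have e0 := hgle 0
    have e1 := hgle 1
    rw [hu1, Units.val_one, mul_one, hBm, hf] at e0 e1
    simp at e0 e1
    rw [hsum2] at hgs
    omega
  · intro hcond x hd hx hxz _
    obtain ⟨z, hz⟩ := hxz
    obtain ⟨hzz, -⟩ := unitary_scalar (by omega : 0 < n) hd hx hz
    have hzq : z ^ (q + 1) = 1 := by rw [pow_succ, ← hq, hzz]
    have hz0 : z ≠ 0 := fun h => by rw [h, zero_pow (Nat.succ_ne_zero q)] at hzq; exact zero_ne_one hzq
    by_cases hzt : z ^ t = 1
    · obtain ⟨w, hw, hw1⟩ := exists_root_in hzt hz0 two_pos (hqt ▸ hdiv') (by omega)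
      obtain ⟨hw0, hy, hy2⟩ := rescale (r := 2) hq hx hz hw (hqt ▸ hw1)
      obtain ⟨f, hf⟩ : ∃ f : ZMod 2 → ℕ, f = mult (AdjoinRoot.root P) (w⁻¹ • x) := ⟨_, rfl⟩
      have hfs : ∑ v, f v = n := by rw [hf, sum_mult hζ hy2, Fintype.card_fin]
      obtain ⟨g, hg, hgs, hgle⟩ := exists_half_two (h := -u) f (fun x => by rw [hu1, Units.val_one, mul_one]) hfs hmn
        (by rw [hu1, mul_one, orderOf_one, Nat.mod_one]; omega) fun _ => by
          rcases lt_or_eq_of_le hmn with hlt | heq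
          · exact Or.inr (by omega)
          have hev : Even (f 1) := by
            by_contra hodd
            have hd2 : (w⁻¹) ^ n = -1 := by
              have h1 := hdet2 _ hy2
              rw [Matrix.det_smul, Fintype.card_fin, hd, mul_one, ← hf,
                (Nat.not_even_iff_odd.mp hodd).neg_one_pow] at h1
              exact h1
            obtain ⟨e, he⟩ := hVd
            obtain ⟨n', hn'⟩ : 2 ^ V ∣ n := (padicValNat_dvd_iff_le (by omega : n ≠ 0)).mpr
              (hV.trans_le (hcond.resolve_left (by omega)))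
            have heodd : Odd e := by
              by_contra h1
              rw [Nat.not_odd_iff_even, even_iff_two_dvd] at h1
              have h3 : 2 ^ (V + 1) ∣ q + 1 := by rw [he, pow_succ]; exact Nat.mul_dvd_mul_left _ h1
              have := (padicValNat_dvd_iff_le (by omega : q + 1 ≠ 0)).mp h3
              omega
            have h1 : ((w⁻¹) ^ n) ^ e = 1 := by
              rw [← pow_mul, hn', mul_right_comm, ← he, hqt, pow_mul, inv_pow w (2 * t), hw1, inv_one, one_pow]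
            rw [hd2, heodd.neg_one_pow, neg_eq_iff_add_eq_zero, one_add_one_eq_two] at h1
            exact h2 h1
          refine Or.inl ⟨fun x hx => ?_, ?_⟩
          · have hx1 : x = 1 := by
              have := Finset.mem_univ x
              rw [huniv, Finset.mem_insert, Finset.mem_singleton] at this
              exact this.resolve_left hx
            rw [hx1]; exact hev
          · rw [hsum2] at hfs
            rw [hsum2, if_pos rfl, if_neg one_ne_zero]
            rw [Nat.even_iff] at hev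
            omega
      exact HasTI.of_smul hw0 (hasTI_of_mult hζ hrp hq2 hq hθ hne hhq hmn hy hy2 g hg hgs (hf ▸ hgle))
    · obtain ⟨s, hs, -⟩ := exists_root_in hzq hz0 two_pos hdiv (Nat.succ_pos q)
      rw [pow_two] at hs
      have hss : θ s * s = -1 := by
        have h1 : (θ s * s) * (θ s * s) = 1 := by
          rw [hq, ← pow_succ, ← pow_two, ← pow_mul, mul_comm, pow_mul, pow_two, hs, hzq]
        exact (mul_self_eq_one_iff.mp h1).resolve_left fun h3 => hzt (by
          rw [← hs, ← pow_two, ← pow_mul, ← hqt, pow_succ, ← hq, h3])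
      obtain ⟨a, ha, -, hkey⟩ := nonsquare_normal hθ h2 hs hss hx hz
      let e : Fin a ⊕ Fin a ≃ Fin n := finSumFinEquiv.trans (finCongr ha.symm)
      obtain ⟨Q, hQ, hQx⟩ := hkey e
      let ι₀ : (Fin m → F) →ₗ[F] (Fin n → F) := Q.mulVecLin ∘ₗ
        LinearMap.pi (fun l => Sum.elim (fun j : Fin a => if h : (j : ℕ) < m then LinearMap.proj ⟨j, h⟩ else 0)
          (fun _ => 0) (e.symm l))
      have hstep : ∀ c : Fin m → F, x *ᵥ ι₀ c = s • ι₀ c := fun c => by
        show x *ᵥ (Q *ᵥ _) = s • (Q *ᵥ _)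
        rw [Matrix.mulVec_mulVec, ← hQx, ← Matrix.mulVec_mulVec, ← Matrix.mulVec_smul, Matrix.reindex_apply,
          Matrix.submatrix_mulVec_equiv, Matrix.fromBlocks_mulVec]
        congr 1
        funext l
        rcases hl : e.symm l with j | j <;> simp [hl, Matrix.smul_mulVec, Function.comp_def, ← Pi.zero_def]
      refine ⟨LinearMap.range ι₀, ?_, ?_, ?_⟩
      · rw [LinearMap.finrank_range_of_inj, Module.finrank_fin_fun]
        intro c c' hcc
        funext j
        have h1 := congrFun (Matrix.mulVec_injective_iff_isUnit.mpr ((Matrix.isUnit_iff_isUnit_det Q).mpr hQ) hcc)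
          (e (Sum.inl ⟨j, by omega⟩))
        simpa using h1
      · rintro _ ⟨c, rfl⟩ _ ⟨c', rfl⟩
        have h1 : herm θ (x *ᵥ ι₀ c) (x *ᵥ ι₀ c') = herm θ (ι₀ c) (ι₀ c') := by
          rw [herm_mulVec hθ, Matrix.mulVec_mulVec, hx, Matrix.one_mulVec]
        rw [hstep, hstep, herm, show θ ∘ (s • ι₀ c) = θ s • (θ ∘ ι₀ c) from funext fun l => by simp, smul_dotProduct,
          dotProduct_smul, smul_eq_mul, smul_eq_mul, ← mul_assoc, hss, neg_one_mul, neg_eq_iff_add_eq_zero] at h1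
        change herm θ (ι₀ c) (ι₀ c') + herm θ (ι₀ c) (ι₀ c') = 0 at h1
        rw [← two_mul] at h1
        exact (mul_eq_zero.mp h1).resolve_left h2
      · rintro _ ⟨c, rfl⟩
        rw [hstep]
        exact Submodule.smul_mem _ _ ⟨c, rfl⟩

end

/-- Elements of prime order of PSU_n(q) with no fixed totally isotropic `m`-space. Here `T = PSU_n(q)` (`n ≥ 3`, `(n, q) ≠ (3, 2)`), realised through the matrices of determinant 1 over the field `F` with `q²` elements preserving the Hermitian form `h(u, v) = Σ u_i v_i^q`; an element of `T` of prime order `r` is such a matrix `x` with `x^r` scalar and `x` not scalar. For `r ≠ p` let `i` be the multiplicative order of `q` modulo `r`, `b = i/2` for `i` even and `b = i` for `i` odd, `c = i, i/2, 2i` according as `i ≡ 0, 2 (mod 4)` or `i` odd, and write `k = n mod c`, `ℓ = m mod b`, `ℓ' = m mod c`, `n' = ⌊n/b⌋`, `m' = ⌊m/b⌋`, `s = (r−1)/b`; `(a)_r` is the `r`-part of `a`. Let `1 ≤ m ≤ n/2` and let `r` be a prime dividing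 the number of totally isotropic `m`-spaces. Then every element of `T` of order `r` fixes a totally isotropic `m`-space if and only if either (i) `r = 2`, `p ≠ 2`, and (`m < n/2` or `(q+1)_2 ≤ (n)_2`); or (ii) `r ≠ p`, `r > 2`, `b ≤ m`, `k ≥ 2ℓ`, and either `i ≢ 2 (mod 4)`, or `i ≡ 2 (mod 4)`, `n' − 2m' ≥ s` and (`i > 2`, or `i = 2` and (`r ∣ m` or `(q+1)_r ≥ (n)_r`)). -/
theorem result {F : Type*} [Field F] [Fintype F] {p : ℕ} [Fact p.Prime] [CharP F p] {q : ℕ} (hq : Fintype.card F = q ^ 2)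
    (n m : ℕ) (hn : 3 ≤ n) (hT : (n, q) ≠ (3, 2)) (hm : 1 ≤ m) (hmn : 2 * m ≤ n)
    (r : ℕ) [Fact r.Prime]
    (hrΩ : r ∣ Nat.card {W : Submodule F (Fin n → F) // Module.finrank F ↥W = m ∧ (∀ u ∈ W, ∀ v ∈ W, Cfsg.hermForm n F q u v = 0)})
    (i b c : ℕ) (hi : i = orderOf (q : ZMod r)) (hb : b = if Even i then i / 2 else i)
    (hc : c = if i % 4 = 0 then i else if i % 4 = 2 then i / 2 else 2 * i) :
    (∀ x : Matrix.SpecialLinearGroup (Fin n) F, x ∈ Cfsg.SU n F q →
      (∃ z : F, ((x ^ r : Matrix.SpecialLinearGroup (Fin n) F) : Matrix (Fin n) (Fin n) F) = z • (1 : Matrix (Fin n) (Fin n) F)) →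
      (∀ z : F, (x : Matrix (Fin n) (Fin n) F) ≠ z • (1 : Matrix (Fin n) (Fin n) F)) →
      ∃ W : Submodule F (Fin n → F), Module.finrank F ↥W = m ∧ (∀ u ∈ W, ∀ v ∈ W, Cfsg.hermForm n F q u v = 0) ∧
        W.map (Matrix.toLin' (x : Matrix (Fin n) (Fin n) F)) ≤ W) ↔
    ((r = 2 ∧ p ≠ 2 ∧ (2 * m < n ∨ padicValNat 2 (q + 1) ≤ padicValNat 2 n)) ∨
     (r ≠ p ∧ 2 < r ∧ b ≤ m ∧ 2 * (m % b) ≤ n % c ∧
       (i % 4 ≠ 2 ∨ (i % 4 = 2 ∧ (r - 1) / b + 2 * (m / b) ≤ n / b ∧
         (2 < i ∨ (i = 2 ∧ (r ∣ m ∨ padicValNat r n ≤ padicValNat r (q + 1)))))))) := by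
  classical
  have hr : r.Prime := Fact.out
  obtain ⟨θ, hθq, hθ, hne, -⟩ := CfsgLib.Unitary.exists_conj q hq
  have hform : ∀ u v : Fin n → F, Cfsg.hermForm n F q u v = herm θ v u := fun u v => by
    rw [CfsgLib.Unitary.hermForm_eq θ q hθq, dotProduct_comm]; rfl
  have hmem : ∀ x : Matrix.SpecialLinearGroup (Fin n) F, x ∈ Cfsg.SU n F q ↔
      dag θ (x : Matrix (Fin n) (Fin n) F) * (x : Matrix (Fin n) (Fin n) F) = 1 := fun x =>
    CfsgLib.Unitary.mem_SU_iff θ q hθq hθ x
  refine Iff.trans (b := AllTI θ n m r) ⟨fun h x hd hx hxz hns => ?_, fun h x hx hxz hns => ?_⟩ ?_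
  · obtain ⟨z, hz⟩ := hxz
    obtain ⟨W, hWd, hWn, hWx⟩ := h ⟨x, hd⟩ ((hmem _).mpr hx)
      ⟨z, (Matrix.SpecialLinearGroup.coe_pow (⟨x, hd⟩ : Matrix.SpecialLinearGroup (Fin n) F) r).trans hz⟩ hns
    exact ⟨W, hWd, fun u hu v hv => by rw [← hform]; exact hWn v hv u hu,
      fun v hv => hWx ⟨v, hv, Matrix.toLin'_apply _ _⟩⟩
  · obtain ⟨z, hz⟩ := hxz
    obtain ⟨W, hWd, hWn, hWx⟩ := h x.1 x.2 ((hmem x).mp hx)
      ⟨z, by rw [← Matrix.SpecialLinearGroup.coe_pow]; exact hz⟩ hns
    refine ⟨W, hWd, fun u hu v hv => by rw [hform]; exact hWn v hv u hu, ?_⟩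
    rintro _ ⟨v, hv, rfl⟩
    rw [Matrix.toLin'_apply]
    exact hWx v hv
  obtain ⟨hrp, hcount⟩ := ti_count_data (p := p) hq hmn hr hrΩ
  by_cases hr2 : r = 2
  · subst hr2
    rw [two_case hq hθq hθ hne hn hmn (Ne.symm hrp)]
    refine ⟨fun h => Or.inl ⟨rfl, Ne.symm hrp, h⟩, ?_⟩
    rintro (⟨-, -, h⟩ | ⟨-, h, -⟩)
    · exact h
    · exact absurd h (lt_irrefl 2)
  rw [odd_case hq hθq hθ hne hn hm hmn hrp hr2 hi hb hc hcount]
  refine ⟨fun h => Or.inr ⟨hrp, lt_of_le_of_ne hr.two_le (Ne.symm hr2), h⟩, ?_⟩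
  rintro (⟨h, -⟩ | ⟨-, -, h⟩)
  · exact absurd h hr2
  · exact h

end Cfsg.Agent.S5953
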