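import Cfsg.Statements.S5954
import Cfsg.Agent.SubElusive.UnitND

set_option autoImplicit false
open scoped MatrixGroups
open Cfsg

namespace Cfsg.Agent.S5954

open CfsgLib.SubElusive CfsgLib.SemiClasses CfsgLib.FormConj CfsgLib.FormConj.Semi

theorem split_one_two {μ : Multiset ℕ} (h : ∀ a ∈ μ, 0 < a ∧ a ≤ 2) :
    μ = Multiset.replicate (μ.count 1) 1 + Multiset.replicate (μ.count 2) 2 := by
  refine Multiset.ext.mpr fun x => ?_
  simp only [Multiset.count_add, Multiset.count_replicate]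
  by_cases h1 : x = 1
  · subst h1; simp
  by_cases h2 : x = 2
  · subst h2; simp
  rw [if_neg (Ne.symm h1), if_neg (Ne.symm h2), Multiset.count_eq_zero.mpr fun hx => ?_]
  have := h x hx
  omega

theorem part_two {n m : ℕ} (hmn : m ≤ n) :
    (∀ μ : Multiset ℕ, (∀ a ∈ μ, 0 < a ∧ a ≤ 2) → μ.sum = n → ∃ ν : Multiset ℕ, ν ≤ μ ∧ ν.sum = m) ↔
      (Odd n ∨ Even m) := by
  constructor
  · intro h
    by_contra hc
    simp only [Nat.odd_iff, Nat.even_iff] at hc
    obtain ⟨ν, hν, hνs⟩ := h (Multiset.replicate (n / 2) 2)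
      (fun a ha => by rw [Multiset.eq_of_mem_replicate ha]; omega) (by rw [Multiset.sum_replicate, smul_eq_mul]; omega)
    have h2 : ν = Multiset.replicate (Multiset.card ν) 2 :=
      Multiset.eq_replicate_of_mem fun a ha => Multiset.eq_of_mem_replicate (Multiset.mem_of_le hν ha)
    rw [h2, Multiset.sum_replicate, smul_eq_mul] at hνs
    omega
  · intro hc μ hμ hs
    simp only [Nat.odd_iff, Nat.even_iff] at hc
    obtain ⟨a, ha⟩ : ∃ a, a = μ.count 1 := ⟨_, rfl⟩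
    obtain ⟨b, hb⟩ : ∃ b, b = μ.count 2 := ⟨_, rfl⟩
    have hμe := split_one_two hμ
    rw [← ha, ← hb] at hμe
    rw [hμe, Multiset.sum_add, Multiset.sum_replicate, Multiset.sum_replicate, smul_eq_mul, smul_eq_mul] at hs
    refine ⟨Multiset.replicate (m - 2 * min b (m / 2)) 1 + Multiset.replicate (min b (m / 2)) 2, ?_, ?_⟩
    · rw [hμe]
      exact add_le_add ((Multiset.replicate_le_replicate 1).mpr (by omega))
        ((Multiset.replicate_le_replicate 2).mpr (by omega))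
    · rw [Multiset.sum_add, Multiset.sum_replicate, Multiset.sum_replicate, smul_eq_mul, smul_eq_mul]
      omega

section

variable {F : Type*} [Field F] [Fintype F] {p q : ℕ} [Fact p.Prime] [CharP F p] {θ : F →+* F} {n m r : ℕ}
  [hr : Fact r.Prime]

/-- Rescaling by a root of norm one. -/
theorem rescale (hq : ∀ a, θ a = a ^ q) {x : Matrix (Fin n) (Fin n) F} (hx : dag θ x * x = 1) {z w : F}
    (hxz : x ^ r = z • 1) (hw : w ^ r = z) (hw1 : w ^ (q + 1) = 1) :
    w⁻¹ ≠ 0 ∧ dag θ (w⁻¹ • x) * (w⁻¹ • x) = 1 ∧ (w⁻¹ • x) ^ r = 1 := by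
  have hw0 : w ≠ 0 := fun h => by rw [h, zero_pow (Nat.succ_ne_zero q)] at hw1; exact zero_ne_one hw1
  refine ⟨inv_ne_zero hw0, ?_, ?_⟩
  · rw [dag_mul_smul hx, map_inv₀, ← mul_inv, hq, ← pow_succ, hw1, inv_one, one_smul]
  · rw [_root_.smul_pow, hxz, smul_smul, inv_pow, hw, inv_mul_cancel₀, one_smul]
    exact hw ▸ pow_ne_zero _ hw0

theorem odd_case (hq2 : Fintype.card F = q ^ 2) (hq : ∀ a, θ a = a ^ q) (hθ : ∀ a, θ (θ a) = a)
    (hne : θ ≠ RingHom.id F) (hn : 3 ≤ n) (hmn : 2 * m < n) (hrp : r ≠ p) (hr2 : r ≠ 2) {i c : ℕ}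
    (hi : i = orderOf (q : ZMod r)) (hc : c = if i % 4 = 0 then i else if i % 4 = 2 then i / 2 else 2 * i)
    (hcount : ∃ j, n - m < j ∧ j ≤ n ∧ (-(q : ZMod r)) ^ j = 1) :
    AllND θ n m r ↔ (i ≠ 2 ∧ c ≤ m ∧ m % c ≤ n % c) ∨ (i = 2 ∧ (r ∣ m ∨ padicValNat r n ≤ padicValNat r (q + 1))) := by
  classical
  have hrpr : r.Prime := hr.out
  obtain ⟨P, hP, hLfin, hζ⟩ := exists_root_field F hrpr (natCast_ne_zero hrp)
  obtain ⟨u, hu⟩ := exists_unit_card (F := F) (r := r) (p := p) (q := q) (hq2 ▸ dvd_pow_self q two_ne_zero) hrp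
  have hui : orderOf u = i := by rw [← orderOf_units, hu, hi]
  obtain ⟨h, hh⟩ : ∃ h : (ZMod r)ˣ, h = -u := ⟨_, rfl⟩
  have hhq : (h : ZMod r) = -(q : ZMod r) := by rw [hh, Units.val_neg, hu]
  have hch : orderOf h = c := by
    rw [hh, hc]
    rcases Nat.even_or_odd i with he | ho
    · rw [orderOf_neg_even u hr2 (hui.symm ▸ he), hui]
      rw [Nat.even_iff] at he
      split_ifs <;> omega
    · rw [orderOf_neg_odd u hr2 (hui.symm ▸ ho), hui]
      rw [Nat.odd_iff] at ho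
      split_ifs <;> omega
  have hc0 : 0 < c := hch ▸ orderOf_pos h
  obtain ⟨j, hj, hjn, hj1⟩ := hcount
  have hcj : c ∣ j := by
    rw [← hch]
    refine orderOf_dvd_of_pow_eq_one (Units.ext ?_)
    rw [Units.val_pow_eq_pow_val, hhq, hj1, Units.val_one]
  have hcn : c ≤ n := (Nat.le_of_dvd (by omega) hcj).trans hjn
  have hncm : n % c < m := by
    obtain ⟨e, he⟩ := hcj
    rw [show n = (n - j) + c * e by omega, Nat.add_mul_mod_self_left]
    exact (Nat.mod_le _ _).trans_lt (by omega)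
  have hi2 : i = 2 ↔ r ∣ q + 1 := by
    rw [← ZMod.natCast_eq_zero_iff, Nat.cast_add, Nat.cast_one, hi, ← eq_neg_iff_add_eq_zero]
    constructor
    · intro h2
      have h1 := pow_orderOf_eq_one (q : ZMod r)
      rw [h2] at h1
      rcases sq_eq_one_iff.mp h1 with h3 | h3
      · rw [h3, orderOf_one] at h2; omega
      · exact h3
    · intro h3
      haveI : Fact (2 < r) := ⟨lt_of_le_of_ne hrpr.two_le (Ne.symm hr2)⟩
      refine orderOf_eq_prime (by rw [h3, neg_one_sq]) fun h1 => ?_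
      exact ZMod.neg_one_ne_one (h3.symm.trans h1)
  have hsemi : ∀ (x : Matrix (Fin n) (Fin n) F) (z w : F), dag θ x * x = 1 → x ^ r = z • 1 → w ^ r = z →
      w ^ (q + 1) = 1 → m % c ≤ n % c → HasND θ m x := fun x z w hx hxz hw hw1 hmod => by
    obtain ⟨hw0, hy, hyr⟩ := rescale hq hx hxz hw hw1
    exact HasND.of_smul hw0 (hasND_of_mult hζ hrp hq2 hq hθ hne hhq (by omega) (hch ▸ hmod) hy hyr)
  constructor
  · intro hall
    by_cases hi' : i = 2
    · refine Or.inr ⟨hi', ?_⟩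
      by_contra hno
      push Not at hno
      obtain ⟨hrm, hv⟩ := hno
      have hrn : r ∣ n := by
        by_contra hnd
        rw [padicValNat.eq_zero_of_not_dvd hnd] at hv
        omega
      obtain ⟨s, rfl⟩ := hrn
      have hs : 0 < s := Nat.pos_of_ne_zero fun h => by rw [h, mul_zero] at hn; omega
      have hdiv : q + 1 ∣ Fintype.card F - 1 := ⟨q - 1, by rw [hq2, ← Nat.sq_sub_sq]⟩
      obtain ⟨z, hz1, hz2⟩ := exists_primary (F := F) hrpr hdiv (by omega : 0 < q + 1) (hi2.mp hi')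
      have hzq : z ^ (q + 1) = 1 := by
        obtain ⟨e, he⟩ : r ^ padicValNat r (q + 1) ∣ q + 1 := pow_padicValNat_dvd
        rw [he, pow_mul, hz1, one_pow]
      have hzroot : ∀ w : F, w ^ r ≠ z := fun w hw => hz2 (by
        obtain ⟨t, ht⟩ := hi2.mp hi'
        have hw0 : w ≠ 0 := fun h => by rw [← hw, h, zero_pow hrpr.ne_zero, zero_pow (Nat.succ_ne_zero q)] at hzq; exact zero_ne_one hzq
        have h1 : (w ^ (q + 1)) ^ r = 1 := by rw [← pow_mul, mul_comm, pow_mul, hw, hzq]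
        have h2 : (w ^ (q + 1)) ^ (q - 1) = 1 := by
          rw [← pow_mul, ← Nat.sq_sub_sq, one_pow, ← hq2, FiniteField.pow_card_sub_one_eq_one w hw0]
        have hcop : r.Coprime (q - 1) := hrpr.coprime_iff_not_dvd.mpr fun hd => by
          have h3 := Nat.dvd_sub (hi2.mp hi') hd
          rcases q with _ | _ | q
          · have := Fintype.one_lt_card (α := F); rw [hq2] at this; simp at this
          · have := Fintype.one_lt_card (α := F); rw [hq2] at this; simp at this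
          rw [show q + 1 + 1 + 1 - (q + 1 + 1 - 1) = 2 by omega] at h3
          exact hr2 ((Nat.prime_dvd_prime_iff_eq hrpr Nat.prime_two).mp h3)
        have h4 := pow_gcd_eq_one.mpr ⟨h1, h2⟩
        rw [hcop.gcd_eq_one, pow_one] at h4
        rw [ht, Nat.mul_div_cancel_left _ hrpr.pos, ← hw, ← pow_mul, ← ht, h4])
      have hzs : z ^ s = 1 := by
        have h1 : r ^ (padicValNat r (q + 1) + 1) ∣ r * s :=
          (padicValNat_dvd_iff_le (Nat.mul_ne_zero hrpr.ne_zero hs.ne')).mpr hv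
        rw [pow_succ'] at h1
        obtain ⟨e, he⟩ := Nat.dvd_of_mul_dvd_mul_left hrpr.pos h1
        rw [he, pow_mul, hz1, one_pow]
      exact hrm (dvd_of_all_nonpower hrp hr2 hq hθ hne hzroot (by rw [hq, ← pow_succ, hzq]) hzs (by omega) hs hall)
    · have hrq1 : ¬ r ∣ q + 1 := fun hd => hi' (hi2.mpr hd)
      have hmod := mod_le_of_all hζ hrp hq2 hq hθ hne hhq hrq1 (by omega) (hch.symm ▸ hcn) hall
      rw [hch] at hmod
      refine Or.inl ⟨hi', ?_, hmod⟩
      by_contra hlt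
      rw [Nat.mod_eq_of_lt (not_le.mp hlt)] at hmod
      omega
  · intro hcond x hd hx hxz _
    obtain ⟨z, hz⟩ := hxz
    obtain ⟨hzz, -⟩ := unitary_scalar (by omega : 0 < n) hd hx hz
    have hzz' : z ^ (q + 1) = 1 := by rw [pow_succ, ← hq, hzz]
    rcases hcond with ⟨hi', -, hmod⟩ | ⟨hi', hcond⟩
    · obtain ⟨w, hw, hw1⟩ := exists_root_coprime (hrpr.coprime_iff_not_dvd.mpr fun hd => hi' (hi2.mpr hd)) hzz'
      exact hsemi x z w hx hz hw hw1 hmod
    · have hc1 : c = 1 := by rw [hc, hi']; simp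
      obtain ⟨t, ht⟩ := hi2.mp hi'
      have ht0 : 0 < t := Nat.pos_of_ne_zero fun h => by rw [h, mul_zero] at ht; omega
      have hdiv : q + 1 ∣ Fintype.card F - 1 := ⟨q - 1, by rw [hq2, ← Nat.sq_sub_sq]⟩
      have hz0 : z ≠ 0 := fun h => by rw [h, zero_pow (Nat.succ_ne_zero q)] at hzz'; exact zero_ne_one hzz'
      have hroot : z ^ t = 1 → HasND θ m x := fun h1 => by
        obtain ⟨w, hw, hw1⟩ := exists_root_in h1 hz0 hrpr.pos (ht ▸ hdiv) ht0
        exact hsemi x z w hx hz hw (ht ▸ hw1) (by simp [hc1, Nat.mod_one])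
      by_cases h1 : z ^ t = 1
      · exact hroot h1
      have hzroot : ∀ w : F, w ^ r ≠ z := fun w hw => h1 (by
        have hw0 : w ≠ 0 := fun h => hz0 (by rw [← hw, h, zero_pow hrpr.ne_zero])
        have h2 : (w ^ (q + 1)) ^ r = 1 := by rw [← pow_mul, mul_comm, pow_mul, hw, hzz']
        have h3 : (w ^ (q + 1)) ^ (q - 1) = 1 := by
          rw [← pow_mul, ← Nat.sq_sub_sq, one_pow, ← hq2, FiniteField.pow_card_sub_one_eq_one w hw0]
        have hcop : r.Coprime (q - 1) := hrpr.coprime_iff_not_dvd.mpr fun hd => by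
          have h4 := Nat.dvd_sub (hi2.mp hi') hd
          rcases q with _ | _ | q
          · have := Fintype.one_lt_card (α := F); rw [hq2] at this; simp at this
          · have := Fintype.one_lt_card (α := F); rw [hq2] at this; simp at this
          rw [show q + 1 + 1 + 1 - (q + 1 + 1 - 1) = 2 by omega] at h4
          exact hr2 ((Nat.prime_dvd_prime_iff_eq hrpr Nat.prime_two).mp h4)
        have h5 := pow_gcd_eq_one.mpr ⟨h2, h3⟩
        rw [hcop.gcd_eq_one, pow_one] at h5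
        rw [← hw, ← pow_mul, ← ht, h5])
      rcases hcond with hrm | hv
      · exact hasND_of_nonpower hrp hθ hne hzroot hzz hx hz (by omega) hrm
      · exfalso
        obtain ⟨s, hs, -⟩ := charpoly_of_nonpower hrpr hzroot hz
        rw [Fintype.card_fin] at hs
        have hs0 : 0 < s := Nat.pos_of_ne_zero fun h => by rw [h, mul_zero] at hs; omega
        have hzs : z ^ s = 1 := by
          rw [← det_of_nonpower hrpr hr2 hzroot hz (by rw [Fintype.card_fin, hs]), hd]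
        refine h1 ?_
        have := pow_div_eq_one hrpr hs0 (by omega : 0 < q + 1) hzs hzz' (hs ▸ hv)
        rwa [ht, Nat.mul_div_cancel_left _ hrpr.pos] at this

theorem two_case (hq2 : Fintype.card F = q ^ 2) (hq : ∀ a, θ a = a ^ q) (hθ : ∀ a, θ (θ a) = a)
    (hne : θ ≠ RingHom.id F) (hn : 3 ≤ n) (hmn : 2 * m < n) (hp2 : p ≠ 2) :
    AllND θ n m 2 ↔ (Odd n ∨ Even m ∨ (padicValNat 2 n ≤ padicValNat 2 (q + 1) ∧ q % 4 = 3)) := by
  classical
  haveI : Fact (2 : ℕ).Prime := ⟨Nat.prime_two⟩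
  have hrp : 2 ≠ p := Ne.symm hp2
  obtain ⟨P, hP, hLfin, hζ⟩ := exists_root_field F Nat.prime_two (natCast_ne_zero hrp)
  obtain ⟨u, hu⟩ := exists_unit_card (F := F) (r := 2) (p := p) (q := q) (hq2 ▸ dvd_pow_self q two_ne_zero) hrp
  have h2 : (2 : F) ≠ 0 := Ring.two_ne_zero (by rw [ringChar.eq F p]; exact hp2)
  obtain ⟨k, hk⟩ := card_eq_pow (p := p) hq2
  have hqodd : q % 2 = 1 := by
    rw [hk, Nat.pow_mod, Nat.odd_iff.mp ((Fact.out : p.Prime).odd_of_ne_two hp2), one_pow, Nat.one_mod]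
  have hq2le : 2 ≤ q := by
    by_contra hlt
    have := Fintype.one_lt_card (α := F)
    rw [hq2] at this
    interval_cases q <;> simp at this
  have hdiv : 2 * (q + 1) ∣ Fintype.card F - 1 := by
    rw [hq2, show q ^ 2 - 1 = (q - 1) * (q + 1) by rw [mul_comm, ← Nat.sq_sub_sq, one_pow]]
    exact Nat.mul_dvd_mul_right (Nat.dvd_of_mod_eq_zero (by omega)) _
  have hdiv' : q + 1 ∣ Fintype.card F - 1 := (dvd_mul_left _ 2).trans hdiv
  obtain ⟨t, ht⟩ : ∃ t, t = (q + 1) / 2 := ⟨_, rfl⟩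
  have hqt : q + 1 = 2 * t := by omega
  have hsq : ∀ z : F, z ^ (q + 1) = 1 → z ^ t ≠ 1 → ∃ s : F, s * s = z ∧ θ s * s = -1 := fun z hz hzt => by
    have hz0 : z ≠ 0 := fun h => by rw [h, zero_pow (Nat.succ_ne_zero q)] at hz; exact zero_ne_one hz
    obtain ⟨s, hs, -⟩ := exists_root_in hz hz0 two_pos hdiv (Nat.succ_pos q)
    refine ⟨s, by rw [← pow_two, hs], ?_⟩
    have h1 : (θ s * s) * (θ s * s) = 1 := by
      rw [hq, ← pow_succ, ← pow_two, ← pow_mul, mul_comm, pow_mul, hs, hz]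
    exact (mul_self_eq_one_iff.mp h1).resolve_left fun h3 => hzt (by
      rw [← hs, ← pow_mul, ← hqt, pow_succ, ← hq, h3])
  constructor
  · intro hall
    by_contra hno
    simp only [Nat.odd_iff, Nat.even_iff, not_or] at hno
    obtain ⟨hno1, hno2, hno3⟩ := hno
    obtain ⟨a, ha⟩ : ∃ a, n = a + a := ⟨n / 2, by omega⟩
    subst ha
    obtain ⟨z, hzq, hzt, hza⟩ : ∃ z : F, z ^ (q + 1) = 1 ∧ z ^ t ≠ 1 ∧ (-z) ^ a = 1 := by
      by_cases h4 : q % 4 = 3
      · have hv : padicValNat 2 (q + 1) < padicValNat 2 (a + a) := not_le.mp fun h => hno3 ⟨h, h4⟩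
        obtain ⟨z, hz1, hz2⟩ := exists_primary (F := F) Nat.prime_two hdiv' (by omega : 0 < q + 1) (by omega)
        have h5 : 2 ^ (padicValNat 2 (q + 1) + 1) ∣ 2 * a :=
          (padicValNat_dvd_iff_le (by omega)).mpr (by rw [two_mul]; exact hv)
        rw [pow_succ'] at h5
        have h6 := Nat.dvd_of_mul_dvd_mul_left two_pos h5
        have h7 : 2 ∣ a := by
          refine (dvd_pow_self 2 ?_).trans h6
          have := one_le_padicValNat_of_dvd (p := 2) (n := q + 1) (by omega) (by omega)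
          omega
        refine ⟨z, ?_, ht ▸ hz2, ?_⟩
        · obtain ⟨e, he⟩ : 2 ^ padicValNat 2 (q + 1) ∣ q + 1 := pow_padicValNat_dvd
          rw [he, pow_mul, hz1, one_pow]
        · obtain ⟨e, he⟩ := h6
          rw [neg_pow, (even_iff_two_dvd.mpr h7).neg_one_pow, one_mul, he, pow_mul, hz1, one_pow]
      · refine ⟨-1, ?_, ?_, by rw [neg_neg, one_pow]⟩
        · exact (Nat.even_iff.mpr (by omega : (q + 1) % 2 = 0)).neg_one_pow
        · rw [(Nat.odd_iff.mpr (by omega : t % 2 = 1)).neg_one_pow]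
          intro h5
          rw [neg_eq_iff_add_eq_zero, one_add_one_eq_two] at h5
          exact h2 h5
    obtain ⟨s, hs, hss⟩ := hsq z hzq hzt
    have hzz : θ z * z = 1 := by rw [hq, ← pow_succ, hzq]
    obtain ⟨B, hB, hB2⟩ := exists_square_model hzz a
    obtain ⟨a', ha', hBd, -⟩ := nonsquare_normal hθ h2 hs hss hB hB2
    obtain rfl : a' = a := by omega
    refine hno2 (Nat.even_iff.mp (even_of_hasND_nonsquare hθ h2 hs hss hB hB2 (by omega) (hall B (hBd.trans hza) hB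
      ⟨z, hB2⟩ fun w hw => hzt ?_)))
    have hn0 : 0 < a' + a' := by omega
    have e1 : w ^ 2 = z := by
      have := congrFun (congrFun (hw ▸ hB2) ⟨0, hn0⟩) ⟨0, hn0⟩
      simpa [_root_.smul_pow] using this
    have e2 : w ^ (q + 1) = 1 := by
      have := congrFun (congrFun (hw ▸ hB) ⟨0, hn0⟩) ⟨0, hn0⟩
      rw [pow_succ', ← hq]
      simpa [dag_smul, dag_one] using this
    rw [← e1, ← pow_mul, ← hqt, e2]
  · intro hcond x hd hx hxz _
    obtain ⟨z, hz⟩ := hxz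
    obtain ⟨hzz, -⟩ := unitary_scalar (by omega : 0 < n) hd hx hz
    have hzq : z ^ (q + 1) = 1 := by rw [pow_succ, ← hq, hzz]
    have hz0 : z ≠ 0 := fun h => by rw [h, zero_pow (Nat.succ_ne_zero q)] at hzq; exact zero_ne_one hzq
    by_cases hzt : z ^ t = 1
    · obtain ⟨w, hw, hw1⟩ := exists_root_in hzt hz0 two_pos (hqt ▸ hdiv') (by omega)
      obtain ⟨hw0, hy, hy2⟩ := rescale (r := 2) hq hx hz hw (hqt ▸ hw1)
      obtain ⟨h, hh⟩ : ∃ h : (ZMod 2)ˣ, h = -u := ⟨_, rfl⟩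
      refine HasND.of_smul hw0 (hasND_of_mult hζ hrp hq2 hq hθ hne (h := h) (by rw [hh, Units.val_neg, hu]) (by omega) ?_
        hy hy2)
      rw [Subsingleton.elim h 1, orderOf_one, Nat.mod_one, Nat.mod_one]
    · obtain ⟨s, hs, hss⟩ := hsq z hzq hzt
      rcases hcond with hodd | hm | ⟨hv, h4⟩
      · exfalso
        obtain ⟨a, ha, -⟩ := nonsquare_normal hθ h2 hs hss hx hz
        rw [Nat.odd_iff] at hodd
        omega
      · exact hasND_of_nonsquare hθ hne h2 hs hss hx hz (by omega) hm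
      · exfalso
        obtain ⟨a, ha, hdet, -⟩ := nonsquare_normal hθ h2 hs hss hx hz
        rw [hd] at hdet
        have h5 := pow_div_eq_one Nat.prime_two (z := -z) (show 0 < a by omega) (by omega : 0 < q + 1) hdet.symm
          (by rw [(Nat.even_iff.mpr (by omega : (q + 1) % 2 = 0)).neg_pow, hzq]) (by rwa [two_mul, ← ha])
        rw [← ht, (Nat.even_iff.mpr (by omega : t % 2 = 0)).neg_pow] at h5
        exact hzt h5

end

/-- Elements of prime order of PSU_n(q) with no fixed nondegenerate `m`-space. Here `T = PSU_n(q)` (`n ≥ 3`, `(n, q) ≠ (3, 2)`), realised through the matrices of determinant 1 over the field `F` with `q²` elements preserving the Hermitian form `h(u, v) = Σ u_i v_i^q`; an element of `T` of prime order `r` is such a matrix `x` with `x^r` scalar and `x` not scalar. For `r ≠ p` let `i` be the multiplicative order of `q` modulo `r`, `b = i/2` for `i` even and `b = i` for `i` odd, `c = i, i/2, 2i` according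 as `i ≡ 0, 2 (mod 4)` or `i` odd, and write `k = n mod c`, `ℓ = m mod b`, `ℓ' = m mod c`, `n' = ⌊n/b⌋`, `m' = ⌊m/b⌋`, `s = (r−1)/b`; `(a)_r` is the `r`-part of `a`. Let `1 ≤ m < n/2` and let `r` be a prime dividing the number of nondegenerate `m`-spaces. Then every element of `T` of order `r` fixes a nondegenerate `m`-space if and only if one of: (i) `r = p > 2` and every partition of `n` into parts of size at most `p` contains (as a sub-multiset) a partition of `m`; (ii) `r = p = 2` and (`n` is odd or `m` is even); (iii) `r = 2 ≠ p` and (`n` is odd, or `m` is even, or `(q+1)_2 ≥ (n)_2` and `q ≡ 3 (mod 4)`); (iv) `r ≠ p`, `r > 2`, and either `i ≠ 2`, `c ≤ m` and `k ≥ ℓ'`, or `i = 2` and (`r ∣ m` or `(q+1)_r ≥ (n)_r`). -/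
theorem result {F : Type*} [Field F] [Fintype F] {p : ℕ} [Fact p.Prime] [CharP F p] {q : ℕ} (hq : Fintype.card F = q ^ 2)
    (n m : ℕ) (hn : 3 ≤ n) (hT : (n, q) ≠ (3, 2)) (hm : 1 ≤ m) (hmn : 2 * m < n)
    (r : ℕ) [Fact r.Prime]
    (hrΩ : r ∣ Nat.card {W : Submodule F (Fin n → F) // Module.finrank F ↥W = m ∧ (∀ u ∈ W, u ≠ 0 → ∃ v ∈ W, Cfsg.hermForm n F q u v ≠ 0)})
    (i b c : ℕ) (hi : i = orderOf (q : ZMod r)) (hb : b = if Even i then i / 2 else i)
    (hc : c = if i % 4 = 0 then i else if i % 4 = 2 then i / 2 else 2 * i) :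
    (∀ x : Matrix.SpecialLinearGroup (Fin n) F, x ∈ Cfsg.SU n F q →
      (∃ z : F, ((x ^ r : Matrix.SpecialLinearGroup (Fin n) F) : Matrix (Fin n) (Fin n) F) = z • (1 : Matrix (Fin n) (Fin n) F)) →
      (∀ z : F, (x : Matrix (Fin n) (Fin n) F) ≠ z • (1 : Matrix (Fin n) (Fin n) F)) →
      ∃ W : Submodule F (Fin n → F), Module.finrank F ↥W = m ∧ (∀ u ∈ W, u ≠ 0 → ∃ v ∈ W, Cfsg.hermForm n F q u v ≠ 0) ∧
        W.map (Matrix.toLin' (x : Matrix (Fin n) (Fin n) F)) ≤ W) ↔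
    ((r = p ∧ 2 < p ∧ (∀ μ : Multiset ℕ, (∀ a ∈ μ, 0 < a ∧ a ≤ p) → μ.sum = n → ∃ ν : Multiset ℕ, ν ≤ μ ∧ ν.sum = m)) ∨
     (r = p ∧ p = 2 ∧ (Odd n ∨ Even m)) ∨
     (r = 2 ∧ p ≠ 2 ∧ (Odd n ∨ Even m ∨ (padicValNat 2 n ≤ padicValNat 2 (q + 1) ∧ q % 4 = 3))) ∨
     (r ≠ p ∧ 2 < r ∧ ((i ≠ 2 ∧ c ≤ m ∧ m % c ≤ n % c) ∨ (i = 2 ∧ (r ∣ m ∨ padicValNat r n ≤ padicValNat r (q + 1)))))) := by
  classical
  have hr : r.Prime := Fact.out
  obtain ⟨θ, hθq, hθ, hne, -⟩ := CfsgLib.Unitary.exists_conj q hq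
  have hform : ∀ u v : Fin n → F, Cfsg.hermForm n F q u v = herm θ v u := fun u v => by
    rw [CfsgLib.Unitary.hermForm_eq θ q hθq, dotProduct_comm]; rfl
  have hmem : ∀ x : Matrix.SpecialLinearGroup (Fin n) F, x ∈ Cfsg.SU n F q ↔
      dag θ (x : Matrix (Fin n) (Fin n) F) * (x : Matrix (Fin n) (Fin n) F) = 1 := fun x =>
    CfsgLib.Unitary.mem_SU_iff θ q hθq hθ x
  refine Iff.trans (b := AllND θ n m r) ⟨fun h x hd hx hxz hns => ?_, fun h x hx hxz hns => ?_⟩ ?_
  · obtain ⟨z, hz⟩ := hxz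
    obtain ⟨W, hWd, hWn, hWx⟩ := h ⟨x, hd⟩ ((hmem _).mpr hx)
      ⟨z, (Matrix.SpecialLinearGroup.coe_pow (⟨x, hd⟩ : Matrix.SpecialLinearGroup (Fin n) F) r).trans hz⟩ hns
    exact ⟨W, hWd, fun u hu hu0 => by simpa only [hform] using hWn u hu hu0,
      fun v hv => hWx ⟨v, hv, Matrix.toLin'_apply _ _⟩⟩
  · obtain ⟨z, hz⟩ := hxz
    obtain ⟨W, hWd, hWn, hWx⟩ := h x.1 x.2 ((hmem x).mp hx)
      ⟨z, by rw [← Matrix.SpecialLinearGroup.coe_pow]; exact hz⟩ hns
    refine ⟨W, hWd, fun u hu hu0 => by simpa only [hform] using hWn u hu hu0, ?_⟩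
    rintro _ ⟨v, hv, rfl⟩
    rw [Matrix.toLin'_apply]
    exact hWx v hv
  by_cases hrp : r = p
  · subst hrp
    rw [allND_char_iff hq hθq hθ hne (by omega) (by omega)]
    by_cases hp2 : r = 2
    · subst hp2
      rw [part_two (by omega)]
      exact ⟨fun h => Or.inr (Or.inl ⟨rfl, rfl, h⟩), by
        rintro (⟨-, h, -⟩ | ⟨-, -, h⟩ | ⟨-, h, -⟩ | ⟨h, -⟩)
        · exact absurd h (lt_irrefl 2)
        · exact h
        · exact absurd rfl h
        · exact absurd rfl h⟩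
    · refine ⟨fun h => Or.inl ⟨rfl, lt_of_le_of_ne hr.two_le (Ne.symm hp2), h⟩, ?_⟩
      rintro (⟨-, -, h⟩ | ⟨-, h, -⟩ | ⟨h, -⟩ | ⟨h, -⟩)
      · exact h
      · exact absurd h hp2
      · exact absurd h hp2
      · exact absurd rfl h
  by_cases hr2 : r = 2
  · subst hr2
    rw [two_case hq hθq hθ hne hn hmn (Ne.symm hrp)]
    refine ⟨fun h => Or.inr (Or.inr (Or.inl ⟨rfl, Ne.symm hrp, h⟩)), ?_⟩
    rintro (⟨h, -⟩ | ⟨h, -⟩ | ⟨-, -, h⟩ | ⟨-, h, -⟩)
    · exact absurd h hrp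
    · exact absurd h hrp
    · exact h
    · exact absurd h (lt_irrefl 2)
  have hrq : ¬ r ∣ q := fun hd => by
    obtain ⟨k, hk⟩ := card_eq_pow (p := p) hq
    exact hrp ((Nat.prime_dvd_prime_iff_eq hr Fact.out).mp (hr.dvd_of_dvd_pow (hk ▸ hd)))
  obtain ⟨j, hj, hjn, hj1⟩ := nd_count_data hq hθq hθ hne hr hrq (Nat.add_sub_cancel' (by omega : m ≤ n)) hrΩ
  rw [odd_case hq hθq hθ hne hn hmn hrp hr2 hi hc ⟨j, hj, hjn, hj1⟩]
  refine ⟨fun h => Or.inr (Or.inr (Or.inr ⟨hrp, lt_of_le_of_ne hr.two_le (Ne.symm hr2), h⟩)), ?_⟩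
  rintro (⟨h, -⟩ | ⟨h, -⟩ | ⟨h, -⟩ | ⟨-, -, h⟩)
  · exact absurd h hrp
  · exact absurd h hrp
  · exact absurd h hr2
  · exact h

end Cfsg.Agent.S5954
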