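import Cfsg.Statements.S5955
import Cfsg.Agent.SubElusive.SympTI
import Cfsg.Agent.SympInvol.Bins

set_option autoImplicit false
open scoped MatrixGroups
open Cfsg

namespace Cfsg.Agent.S5955


open CfsgLib.SubElusive CfsgLib.SemiClasses CfsgLib.SympInvol

/-- The number of totally isotropic subspaces of a given dimension. -/
theorem card_isotropic_mul {F : Type*} [Field F] [Fintype F] {d m : ℕ} (hmd : m ≤ d) :
    Nat.card {W : Submodule F (Fin d ⊕ Fin d → F) // Module.finrank F ↥W = m ∧ (∀ u ∈ W, ∀ v ∈ W, Cfsg.sympForm d F u v = 0)} *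
      ∏ k ∈ Finset.range m, (Fintype.card F ^ (m - k) - 1) =
    ∏ k ∈ Finset.range m, (Fintype.card F ^ (2 * (d - k)) - 1) := by
  classical
  obtain ⟨q, hq⟩ : ∃ q, q = Fintype.card F := ⟨_, rfl⟩
  have hqpos : 0 < q := hq ▸ Fintype.card_pos
  let Ω := {W : Submodule F (Fin d ⊕ Fin d → F) // Module.finrank F ↥W = m ∧ (∀ u ∈ W, ∀ v ∈ W, Cfsg.sympForm d F u v = 0)}
  let Φ : CfsgLib.SpGeom.Frame d m F → Ω := fun w =>
    ⟨Submodule.span F (Set.range w.1), by rw [finrank_span_eq_card w.2.1, Fintype.card_fin],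
      CfsgLib.PolarPair.isotropic_span w.2.2⟩
  have hfib : ∀ W : Ω, Nat.card {w // Φ w = W} = ∏ k : Fin m, (q ^ m - q ^ (k : ℕ)) := by
    intro W
    haveI := Fintype.ofFinite W.1
    have h1 := card_linearIndependent (K := F) (V := W.1) (k := m) W.2.1.ge
    rw [W.2.1, ← hq] at h1
    rw [← h1]
    refine Nat.card_congr (Equiv.ofBijective
      (fun w => (⟨fun k => ⟨w.1.1 k, (congrArg Subtype.val w.2).le (Submodule.subset_span ⟨k, rfl⟩)⟩,
        LinearIndependent.of_comp W.1.subtype w.1.2.1⟩ : {v : Fin m → W.1 // LinearIndependent F v})) ⟨?_, ?_⟩)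
    · intro w w' e
      exact Subtype.ext (Subtype.ext (funext fun k => congrArg Subtype.val (congrFun (congrArg Subtype.val e) k)))
    · rintro ⟨v, hv⟩
      have hv' : LinearIndependent F fun k => (v k : Fin d ⊕ Fin d → F) := hv.map' W.1.subtype W.1.ker_subtype
      refine ⟨⟨⟨fun k => v k, hv', fun a b => W.2.2 _ (v a).2 _ (v b).2⟩, Subtype.ext ?_⟩, rfl⟩
      refine Submodule.eq_of_le_of_finrank_eq (Submodule.span_le.mpr ?_) ?_
      · rintro _ ⟨k, rfl⟩; exact (v k).2
      · rw [finrank_span_eq_card hv', Fintype.card_fin, W.2.1]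
  haveI : Fintype Ω := Fintype.ofFinite _
  have h := CfsgLib.SpGeom.card_frame (F := F) (m := d) m
  rw [← Nat.card_congr (Equiv.sigmaFiberEquiv Φ), Nat.card_sigma, Finset.sum_congr rfl fun W _ => hfib W,
    Finset.sum_const, smul_eq_mul, Finset.card_univ, ← Nat.card_eq_fintype_card, ← hq,
    Fin.prod_univ_eq_prod_range (fun k => q ^ m - q ^ k) m] at h
  have e1 : ∀ k ∈ Finset.range m, q ^ m - q ^ k = q ^ k * (q ^ (m - k) - 1) := fun k hk => by
    rw [Nat.mul_sub, mul_one, ← pow_add, Nat.add_sub_cancel' (Finset.mem_range.mp hk).le]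
  have e2 : ∀ k ∈ Finset.range m, q ^ (2 * d - k) - q ^ k = q ^ k * (q ^ (2 * (d - k)) - 1) := fun k hk => by
    have := Finset.mem_range.mp hk
    rw [Nat.mul_sub, mul_one, ← pow_add, show k + 2 * (d - k) = 2 * d - k by omega]
  rw [Finset.prod_congr rfl e1, Finset.prod_congr rfl e2, Finset.prod_mul_distrib, Finset.prod_mul_distrib,
    mul_left_comm] at h
  rw [← hq]
  exact Nat.eq_of_mul_eq_mul_left (Finset.prod_pos fun k _ => pow_pos hqpos k) h

section Square

variable {F : Type*} [Field F] {V : Type*} [AddCommGroup V] [Module F V] [FiniteDimensional F V]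
  {B : LinearMap.BilinForm F V} {T : V →ₗ[F] V} {z : F}

theorem exists_sub (W : Submodule F V) {m : ℕ} (hm : m ≤ Module.finrank F W) :
    ∃ W' ≤ W, Module.finrank F W' = m := by
  obtain ⟨v, hv⟩ := exists_linearIndependent_of_le_finrank hm
  refine ⟨(Submodule.span F (Set.range v)).map W.subtype, Submodule.map_subtype_le _ _, ?_⟩
  rw [← (Submodule.equivMapOfInjective _ W.subtype_injective _).finrank_eq, finrank_span_eq_card hv, Fintype.card_fin]

/-- A semisimple map with two eigenvalues has invariant subspaces of every dimension. -/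
theorem exists_invariant_sub (h2 : (2 : F) ≠ 0) {c : F} (hc : c ≠ 0) (U : Submodule F V) (hU : ∀ u ∈ U, T u ∈ U)
    (hsq : ∀ u, T (T u) = (c * c) • u) {m : ℕ} (hm : m ≤ Module.finrank F U) :
    ∃ W ≤ U, Module.finrank F W = m ∧ ∀ w ∈ W, T w ∈ W := by
  obtain ⟨A, hA⟩ : ∃ A : Submodule F V, A = U ⊓ LinearMap.ker (T - c • LinearMap.id) := ⟨_, rfl⟩
  obtain ⟨A', hA'⟩ : ∃ A : Submodule F V, A = U ⊓ LinearMap.ker (T + c • LinearMap.id) := ⟨_, rfl⟩
  have hmem : ∀ v, v ∈ A ↔ v ∈ U ∧ T v = c • v := fun v => by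
    rw [hA, Submodule.mem_inf, LinearMap.mem_ker, LinearMap.sub_apply, sub_eq_zero]; rfl
  have hmem' : ∀ v, v ∈ A' ↔ v ∈ U ∧ T v = -(c • v) := fun v => by
    rw [hA', Submodule.mem_inf, LinearMap.mem_ker, LinearMap.add_apply, add_eq_zero_iff_eq_neg]; rfl
  have hline : ∀ S : Submodule F V, S ≤ A ∨ S ≤ A' → ∀ w ∈ S, T w ∈ S := by
    rintro S (hS | hS) w hw
    · rw [((hmem w).mp (hS hw)).2]; exact S.smul_mem _ hw
    · rw [((hmem' w).mp (hS hw)).2]; exact S.neg_mem (S.smul_mem _ hw)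
  rcases le_or_gt m (Module.finrank F A) with hle | hlt
  · obtain ⟨W, hW, hWd⟩ := exists_sub A hle
    exact ⟨W, hW.trans (hA ▸ inf_le_left), hWd, hline W (Or.inl hW)⟩
  have hsup : U ≤ A ⊔ A' := fun v hv => by
    have hdec : v = (2 * c)⁻¹ • (T v + c • v) + (2 * c)⁻¹ • (-(T v - c • v)) := by
      rw [← smul_add, show T v + c • v + -(T v - c • v) = (2 * c) • v by rw [two_mul, add_smul]; abel, smul_smul,
        inv_mul_cancel₀ (mul_ne_zero h2 hc), one_smul]
    rw [hdec]
    refine Submodule.add_mem_sup (Submodule.smul_mem _ _ ((hmem _).mpr ⟨U.add_mem (hU v hv) (U.smul_mem _ hv), ?_⟩))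
      (Submodule.smul_mem _ _ ((hmem' _).mpr ⟨U.neg_mem (U.sub_mem (hU v hv) (U.smul_mem _ hv)), ?_⟩))
    · rw [map_add, map_smul, hsq, smul_add, smul_smul, add_comm]
    · rw [map_neg, map_sub, map_smul, hsq, smul_neg, smul_sub, smul_smul, neg_neg, neg_sub]
  have hdis : A ⊓ A' = ⊥ := by
    rw [eq_bot_iff]
    intro v hv
    have h1 := ((hmem v).mp hv.1).2
    rw [((hmem' v).mp hv.2).2, neg_eq_iff_add_eq_zero, ← add_smul, smul_eq_zero, ← two_mul] at h1
    rw [Submodule.mem_bot]
    exact h1.resolve_left (mul_ne_zero h2 hc)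
  have hd := Submodule.finrank_sup_add_finrank_inf_eq A A'
  rw [hdis, finrank_bot] at hd
  have hd' : Module.finrank F U ≤ Module.finrank F (A ⊔ A' : Submodule F V) := Submodule.finrank_mono hsup
  obtain ⟨W, hW, hWd⟩ := exists_sub A' (m := m - Module.finrank F A) (by omega)
  have hdis' : A ⊓ W = ⊥ := eq_bot_iff.mpr (hdis ▸ inf_le_inf_left A hW)
  refine ⟨A ⊔ W, sup_le (hA ▸ inf_le_left) (hW.trans (hA' ▸ inf_le_left)), ?_, fun w hw => ?_⟩
  · have := Submodule.finrank_sup_add_finrank_inf_eq A W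
    rw [hdis', finrank_bot] at this
    omega
  · obtain ⟨a, ha, b, hb, rfl⟩ := Submodule.mem_sup.mp hw
    rw [map_add]
    exact Submodule.add_mem_sup (hline A (Or.inl le_rfl) a ha) (hline W (Or.inr hW) b hb)

/-- Invariant totally isotropic subspaces of even dimension, when the square is a non-square. -/
theorem exists_even_isotropic [Finite F] (h : Setting B T z) (hz : z = -1) (h2 : (2 : F) ≠ 0)
    (hns : ∀ c : F, c ^ 2 ≠ -1) : ∀ (k : ℕ) (S : Submodule F V), ND B S → (∀ v ∈ S, T v ∈ S) →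
      4 * k ≤ Module.finrank F S →
      ∃ W ≤ S, Module.finrank F W = 2 * k ∧ (∀ w ∈ W, T w ∈ W) ∧ ∀ u ∈ W, ∀ v ∈ W, B u v = 0 := by
  classical
  subst hz
  have hsq : ∀ v, T (T v) = -v := fun v => by rw [h.sq, neg_one_smul]
  have hpick : ∀ S : Submodule F V, ND B S → (∀ v ∈ S, T v ∈ S) → 0 < Module.finrank F S →
      ∃ v ∈ S, B v (T v) ≠ 0 ∧ ND B (Submodule.span F {v, T v}) ∧ Submodule.span F {v, T v} ≤ S ∧
        (∀ w ∈ Submodule.span F {v, T v}, T w ∈ Submodule.span F {v, T v}) ∧ Submodule.span F {v, T v} ≠ ⊥ ∧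
        Module.finrank F (Submodule.span F ({v, T v} : Set V)) = 2 := by
    intro S hS hTS hpos
    obtain ⟨v, hv, hvv⟩ : ∃ v ∈ S, B v (T v) ≠ 0 := by
      by_contra hno
      push Not at hno
      obtain ⟨u, hu, hu0⟩ := S.exists_mem_ne_zero_of_ne_bot fun e => by rw [e, finrank_bot] at hpos; omega
      refine hu0 (hS u hu fun w hw => ?_)
      obtain ⟨y, hy, rfl⟩ : ∃ y ∈ S, T y = w := ⟨-T w, S.neg_mem (hTS w hw), by rw [map_neg, hsq, neg_neg]⟩
      have h1 := hno (u + y) (S.add_mem hu hy)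
      rw [map_add T, map_add B, LinearMap.add_apply, map_add, map_add, hno u hu, hno y hy, zero_add, add_zero,
        h.skew (T u) y, h.T_left, inv_neg, inv_one, neg_one_mul, neg_neg, ← two_mul] at h1
      exact (mul_eq_zero.mp h1).resolve_left h2
    obtain ⟨hnd, hdim⟩ := h.nd_pair hvv
    refine ⟨v, hv, hvv, hnd, Submodule.span_le.mpr ?_, fun w hw => ?_, fun e => ?_, hdim⟩
    · intro x hx; rcases hx with rfl | rfl
      · exact hv
      · exact hTS v hv
    · obtain ⟨a, b, rfl⟩ := Submodule.mem_span_pair.mp hw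
      exact Submodule.mem_span_pair.mpr ⟨-b, a, by rw [map_add, map_smul, map_smul, hsq, smul_neg, neg_smul, add_comm]⟩
    · rw [e, finrank_bot] at hdim; omega
  intro k
  induction k with
  | zero => exact fun S _ _ _ => ⟨⊥, bot_le, by rw [mul_zero, finrank_bot], by simp, by simp⟩
  | succ k ih =>
    intro S hS hTS hd
    obtain ⟨v, hv, hvv, hR, hRS, hTR, hR0, hRd⟩ := hpick S hS hTS (by omega)
    obtain ⟨hsup, hS1, hTS1, -⟩ := h.split hS hTS hR hRS hTR hR0
    have hd1 := Submodule.finrank_add_le_finrank_add_finrank (Submodule.span F ({v, T v} : Set V))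
      (S ⊓ B.orthogonal (Submodule.span F {v, T v}))
    rw [hsup, hRd] at hd1
    obtain ⟨v₂, hv₂, hvv₂, hR2, hR2S, hTR2, hR20, hR2d⟩ := hpick _ hS1 hTS1 (by omega)
    obtain ⟨hsup2, hS2, hTS2, -⟩ := h.split hS1 hTS1 hR2 hR2S hTR2 hR20
    have hd2 := Submodule.finrank_add_le_finrank_add_finrank (Submodule.span F ({v₂, T v₂} : Set V))
      (S ⊓ B.orthogonal (Submodule.span F {v, T v}) ⊓ B.orthogonal (Submodule.span F {v₂, T v₂}))
    rw [hsup2, hR2d] at hd2
    obtain ⟨W, hW, hWd, hTW, hWi⟩ := ih _ hS2 hTS2 (by omega)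
    obtain ⟨x, y, hxy⟩ : ∃ x y : F, x ^ 2 + y ^ 2 = -(B v₂ (T v₂)) / B v (T v) := by
      haveI := Fintype.ofFinite F
      obtain ⟨a, b, hab⟩ := FiniteField.exists_root_sum_quadratic (f := (Polynomial.X ^ 2 : Polynomial F))
        (g := Polynomial.X ^ 2 - Polynomial.C (-(B v₂ (T v₂)) / B v (T v))) (Polynomial.degree_X_pow 2)
        (Polynomial.degree_X_pow_sub_C (by norm_num) _) (FiniteField.odd_card_of_char_ne_two (by
          intro hc; haveI := ringChar.of_eq hc; exact h2 CharTwo.two_eq_zero))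
      refine ⟨a, b, ?_⟩
      simp only [Polynomial.eval_pow, Polynomial.eval_X, Polynomial.eval_sub, Polynomial.eval_C] at hab
      linear_combination hab
    obtain ⟨w, hw⟩ : ∃ w, w = x • v + y • T v + v₂ := ⟨_, rfl⟩
    have o1 : ∀ u ∈ Submodule.span F ({v, T v} : Set V), ∀ u' ∈ S ⊓ B.orthogonal (Submodule.span F {v, T v}),
        B u u' = 0 ∧ B u' u = 0 := fun u hu u' hu' => ⟨hu'.2 u hu, h.refl _ _ (hu'.2 u hu)⟩
    have mv : v ∈ Submodule.span F ({v, T v} : Set V) := Submodule.subset_span (by simp)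
    have mTv : T v ∈ Submodule.span F ({v, T v} : Set V) := Submodule.subset_span (by simp)
    have mv2 : v₂ ∈ Submodule.span F ({v₂, T v₂} : Set V) := Submodule.subset_span (by simp)
    have mTv2 : T v₂ ∈ Submodule.span F ({v₂, T v₂} : Set V) := Submodule.subset_span (by simp)
    have hTw : T w = x • T v - y • v + T v₂ := by
      rw [hw, map_add, map_add, map_smul, map_smul, hsq, smul_neg, sub_eq_add_neg]
    have hBw : B w (T w) = 0 := by
      rw [hTw, hw]
      simp only [map_add, map_sub, map_smul, LinearMap.add_apply, LinearMap.smul_apply, smul_eq_mul, h.alt,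
        (o1 v mv _ (hR2S mTv2)).1, (o1 _ mTv _ (hR2S mTv2)).1, (o1 v mv v₂ hv₂).2, (o1 _ mTv v₂ hv₂).2, h.skew v (T v)]
      field_simp at hxy
      linear_combination hxy
    have hw0 : w ≠ 0 := fun e => hvv₂ (by
      have h1 : B w (T v₂) = 0 := by rw [e]; simp
      simpa [hw, (o1 v mv _ (hR2S mTv2)).1, (o1 _ mTv _ (hR2S mTv2)).1] using h1)
    have hTT : T (T w) = -w := hsq w
    obtain ⟨Z, hZ⟩ : ∃ Z, Z = Submodule.span F ({w, T w} : Set V) := ⟨_, rfl⟩
    have hZd : Module.finrank F Z = 2 := by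
      have hli : LinearIndependent F ![w, T w] := by
        refine LinearIndependent.pair_iff.2 fun a b hab => ?_
        have h1 := congrArg T hab
        rw [map_add, map_smul, map_smul, hTT, map_zero] at h1
        have h3 : (a * a + b * b) • w = 0 := by
          have : a • (a • w + b • T w) - b • (a • T w + b • -w) = (a * a + b * b) • w := by module
          rw [← this, hab, h1, smul_zero, smul_zero, sub_zero]
        have h4 := (smul_eq_zero.mp h3).resolve_right hw0
        have hb : b = 0 := by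
          by_contra hb
          refine hns (a / b) ?_
          field_simp
          linear_combination h4
        subst hb
        rw [mul_zero, add_zero] at h4
        exact ⟨mul_self_eq_zero.mp h4, rfl⟩
      have := finrank_span_eq_card hli
      rw [Matrix.range_cons_cons_empty, Fintype.card_fin] at this
      rw [hZ]; exact this
    have hZle : Z ≤ Submodule.span F {v, T v} ⊔ Submodule.span F {v₂, T v₂} := by
      rw [hZ, Submodule.span_le]
      intro e he
      rcases he with rfl | rfl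
      · rw [hw]; exact Submodule.add_mem_sup (Submodule.add_mem _ (Submodule.smul_mem _ _ mv) (Submodule.smul_mem _ _ mTv)) mv2
      · rw [hTw]; exact Submodule.add_mem_sup (Submodule.sub_mem _ (Submodule.smul_mem _ _ mTv) (Submodule.smul_mem _ _ mv)) mTv2
    have hperp : ∀ a ∈ Z, ∀ b ∈ S ⊓ B.orthogonal (Submodule.span F {v, T v}) ⊓ B.orthogonal (Submodule.span F {v₂, T v₂}),
        B a b = 0 ∧ B b a = 0 := by
      intro a ha b hb
      obtain ⟨a₁, h₁, a₂, h₂, rfl⟩ := Submodule.mem_sup.mp (hZle ha)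
      have e : B (a₁ + a₂) b = 0 := by rw [map_add, LinearMap.add_apply, (o1 a₁ h₁ b hb.1).1, hb.2 a₂ h₂, add_zero]
      exact ⟨e, h.refl _ _ e⟩
    have hdis : W ⊓ Z = ⊥ := by
      rw [eq_bot_iff]
      intro u hu
      refine (Submodule.mem_bot F).mpr (hS2 u (hW hu.1) fun b hb => ?_)
      exact (hperp u hu.2 b hb).1
    refine ⟨W ⊔ Z, sup_le (hW.trans (inf_le_left.trans inf_le_left))
      (hZle.trans (sup_le hRS (hR2S.trans inf_le_left))), ?_, fun u hu => ?_, fun u hu u' hu' => ?_⟩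
    · have := Submodule.finrank_sup_add_finrank_inf_eq W Z
      rw [hdis, finrank_bot] at this
      omega
    · obtain ⟨a, ha, b, hb, rfl⟩ := Submodule.mem_sup.mp hu
      rw [map_add]
      refine Submodule.add_mem_sup (hTW a ha) ?_
      rw [hZ] at hb ⊢
      obtain ⟨s, t, rfl⟩ := Submodule.mem_span_pair.mp hb
      exact Submodule.mem_span_pair.mpr ⟨-t, s, by rw [map_add, map_smul, map_smul, hTT, smul_neg, neg_smul, add_comm]⟩
    · obtain ⟨a, ha, b, hb, rfl⟩ := Submodule.mem_sup.mp hu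
      obtain ⟨a', ha', b', hb', rfl⟩ := Submodule.mem_sup.mp hu'
      have hbb : B b b' = 0 := by
        rw [hZ] at hb hb'
        obtain ⟨s, t, rfl⟩ := Submodule.mem_span_pair.mp hb
        obtain ⟨s', t', rfl⟩ := Submodule.mem_span_pair.mp hb'
        simp [h.alt, hBw, h.refl _ _ hBw]
      simp only [map_add, LinearMap.add_apply, hWi a ha a' ha', (hperp b hb a' (hW ha')).1, (hperp b' hb' a (hW ha)).2,
        hbb, add_zero]

end Square

/-- Elements of prime order of PSp_n(q) with no fixed totally isotropic `m`-space. Here `T = PSp_n(q)` with `n = 2d ≥ 4`, `(n, q) ≠ (4, 2)`, realised through the symplectic matrices over the field `F` with `q` elements (preserving the standard alternating form); an element of `T` of prime order `r` is such a matrix `x` with `x^r` scalar and `x` not scalar. For `r ≠ p` let `i` be the multiplicative order of `q` modulo `r`, `c = i` for `i` even and `c = 2i` for `i` odd, and write `k = n mod c`, `ℓ = m mod i`, `ℓ' = m mod c`,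 `n' = ⌊n/i⌋`, `m' = ⌊m/i⌋`, `t = (r−1)/i`. Let `1 ≤ m ≤ n/2` and let `r` be a prime dividing the number of totally isotropic `m`-spaces. Then every element of `T` of order `r` fixes a totally isotropic `m`-space if and only if either (i) `r = 2 ≠ p` and (`m` is even or `q ≡ 1 (mod 4)`); or (ii) `r ≠ p`, `r > 2`, `i ≤ m`, `k ≥ 2ℓ`, and (`i` is odd or `n' − 2m' ≥ t`). -/
theorem result {F : Type*} [Field F] [Fintype F] {p : ℕ} [Fact p.Prime] [CharP F p] {q : ℕ} (hq : Fintype.card F = q)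
    (d m : ℕ) (hd : 2 ≤ d) (hT : (d, q) ≠ (2, 2)) (hm : 1 ≤ m) (hmd : m ≤ d)
    (r : ℕ) [Fact r.Prime]
    (hrΩ : r ∣ Nat.card {W : Submodule F (Fin d ⊕ Fin d → F) // Module.finrank F ↥W = m ∧ (∀ u ∈ W, ∀ v ∈ W, Cfsg.sympForm d F u v = 0)})
    (i c : ℕ) (hi : i = orderOf (q : ZMod r)) (hc : c = if Even i then i else 2 * i) :
    (∀ x : ↥(Matrix.symplecticGroup (Fin d) F),
      (∃ z : F, ((x ^ r : ↥(Matrix.symplecticGroup (Fin d) F)) : Matrix (Fin d ⊕ Fin d) (Fin d ⊕ Fin d) F) = z • (1 : Matrix (Fin d ⊕ Fin d) (Fin d ⊕ Fin d) F)) →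
      (∀ z : F, (x : Matrix (Fin d ⊕ Fin d) (Fin d ⊕ Fin d) F) ≠ z • (1 : Matrix (Fin d ⊕ Fin d) (Fin d ⊕ Fin d) F)) →
      ∃ W : Submodule F (Fin d ⊕ Fin d → F), Module.finrank F ↥W = m ∧ (∀ u ∈ W, ∀ v ∈ W, Cfsg.sympForm d F u v = 0) ∧
        W.map (Matrix.toLin' (x : Matrix (Fin d ⊕ Fin d) (Fin d ⊕ Fin d) F)) ≤ W) ↔
    ((r = 2 ∧ p ≠ 2 ∧ (Even m ∨ q % 4 = 1)) ∨
     (r ≠ p ∧ 2 < r ∧ i ≤ m ∧ 2 * (m % i) ≤ (2 * d) % c ∧ (Odd i ∨ (r - 1) / i + 2 * (m / i) ≤ (2 * d) / i))) := by
  classical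
  subst hq
  obtain ⟨hr⟩ := (inferInstance : Fact r.Prime)
  haveI : Fact r.Prime := ⟨hr⟩
  haveI : Nonempty (Fin d ⊕ Fin d) := ⟨Sum.inl ⟨0, by omega⟩⟩
  -- the prime divides one of the factors
  obtain ⟨j, hj, hrj⟩ : ∃ j < m, r ∣ Fintype.card F ^ (2 * (d - j)) - 1 := by
    obtain ⟨j, hj, hrj⟩ := hr.prime.exists_mem_finset_dvd
      ((hrΩ.mul_right _).trans (card_isotropic_mul (F := F) hmd).dvd)
    exact ⟨j, Finset.mem_range.mp hj, hrj⟩
  have hrp : r ≠ p := by
    intro e
    obtain ⟨k, -, hk⟩ := FiniteField.card F p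
    have h1 : r ∣ Fintype.card F ^ (2 * (d - j)) := dvd_pow (by rw [hk, e]; exact dvd_pow_self p k.ne_zero) (by omega)
    have h2 := Nat.dvd_sub h1 hrj
    rw [Nat.sub_sub_self (Nat.one_le_pow _ _ Fintype.card_pos)] at h2
    exact hr.one_lt.ne' (Nat.dvd_one.mp h2)
  have hformx : ∀ (x : Matrix.symplecticGroup (Fin d) F) (z : F),
      ((x ^ r : ↥(Matrix.symplecticGroup (Fin d) F)) : Matrix (Fin d ⊕ Fin d) (Fin d ⊕ Fin d) F) = z • 1 → z * z = 1 := by
    intro x z hz
    obtain ⟨w, hw⟩ := CfsgLib.SpGeom.exists_form_ne_zero (F := F) (m := d)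
      (v := Pi.single (Sum.inl ⟨0, by omega⟩) 1) (by simp)
    have h1 := CfsgLib.SpGeom.form_mulVec (x ^ r) (Pi.single (Sum.inl ⟨0, by omega⟩) 1) w
    rw [hz, Matrix.smul_mulVec, Matrix.smul_mulVec, Matrix.one_mulVec, Matrix.one_mulVec,
      CfsgLib.SpGeom.form_smul_left, CfsgLib.SpGeom.form_smul_right, ← mul_assoc] at h1
    exact mul_right_cancel₀ hw (h1.trans (one_mul _).symm)
  rcases eq_or_ne r 2 with hr2 | hr2
  · subst hr2
    have hp2 : p ≠ 2 := fun e => hrp e.symm
    have hF2 : ringChar F ≠ 2 := by rw [ringChar.eq F p]; exact hp2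
    have h2 : (2 : F) ≠ 0 := Ring.two_ne_zero hF2
    have hodd := FiniteField.odd_card_of_char_ne_two hF2
    have hmain : (∀ x : ↥(Matrix.symplecticGroup (Fin d) F),
        (∃ z : F, ((x ^ 2 : ↥(Matrix.symplecticGroup (Fin d) F)) : Matrix (Fin d ⊕ Fin d) (Fin d ⊕ Fin d) F) = z • (1 : Matrix (Fin d ⊕ Fin d) (Fin d ⊕ Fin d) F)) →
        (∀ z : F, (x : Matrix (Fin d ⊕ Fin d) (Fin d ⊕ Fin d) F) ≠ z • (1 : Matrix (Fin d ⊕ Fin d) (Fin d ⊕ Fin d) F)) →
        ∃ W : Submodule F (Fin d ⊕ Fin d → F), Module.finrank F ↥W = m ∧ (∀ u ∈ W, ∀ v ∈ W, Cfsg.sympForm d F u v = 0) ∧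
          W.map (Matrix.toLin' (x : Matrix (Fin d ⊕ Fin d) (Fin d ⊕ Fin d) F)) ≤ W) ↔
        (Even m ∨ Fintype.card F % 4 = 1) := by
      constructor
      · intro hall
        by_contra hneg
        push Not at hneg
        have hns : ¬ IsSquare (-1 : F) := by rw [FiniteField.isSquare_neg_one_iff]; omega
        obtain ⟨W, hWd, -, hWT⟩ := hall ⟨_, SymplecticGroup.J_mem _ _⟩ ⟨-1, by
          rw [SubmonoidClass.coe_pow, pow_two]
          exact (Matrix.J_squared (Fin d) F).trans (neg_one_smul F (1 : Matrix (Fin d ⊕ Fin d) (Fin d ⊕ Fin d) F)).symm⟩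
          (fun z hz => by
            have := congrFun (congrFun hz (Sum.inl ⟨0, by omega⟩)) (Sum.inr ⟨0, by omega⟩)
            simp [Matrix.J] at this)
        obtain ⟨f, hf⟩ : ∃ f : Module.End F (Fin d ⊕ Fin d → F), f = Matrix.toLin' (Matrix.J (Fin d) F) := ⟨_, rfl⟩
        have hW' : ∀ v ∈ W, f v ∈ W := fun v hv => hWT ⟨v, hv, by rw [hf]⟩
        have h1 : (f.restrict hW' : Module.End F W) * f.restrict hW' = (-1 : F) • 1 := by
          refine LinearMap.ext fun v => Subtype.ext ?_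
          show f (f v.1) = (-1 : F) • v.1
          rw [hf, Matrix.toLin'_apply, Matrix.toLin'_apply, Matrix.mulVec_mulVec, Matrix.J_squared,
            Matrix.neg_mulVec, Matrix.one_mulVec, neg_one_smul]
        have h3 := congrArg LinearMap.det h1
        rw [map_mul, LinearMap.det_smul, map_one, mul_one, hWd, (Nat.not_even_iff_odd.mp hneg.1).neg_one_pow] at h3
        exact hns ⟨_, h3.symm⟩
      · intro hcond x hx1 _
        obtain ⟨z, hz⟩ := hx1
        obtain ⟨hS, hV⟩ := setting_of_symplectic (by omega : 0 < d) x hz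
        have hzz := hformx x z hz
        by_cases hsq : ∀ c : F, c ^ 2 ≠ z
        · have hz1 : z = -1 := (mul_self_eq_one_iff.mp hzz).resolve_left fun e => hsq 1 (by rw [e, one_pow])
          have hme : Even m := hcond.resolve_right fun h1 => by
            obtain ⟨c, hc⟩ := FiniteField.isSquare_neg_one_iff.mpr (show Fintype.card F % 4 ≠ 3 by omega)
            exact hsq c (by rw [hz1, hc, pow_two])
          obtain ⟨k, hk⟩ := hme
          obtain ⟨W, -, hWd, hWT, hWi⟩ := exists_even_isotropic hS hz1 h2 (fun c => hz1 ▸ hsq c) k ⊤ hV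
            (fun _ _ => Submodule.mem_top) (by rw [finrank_top, Module.finrank_pi, Fintype.card_sum, Fintype.card_fin]; omega)
          exact ⟨W, by omega, fun a ha b hb => hWi a ha b hb, Submodule.map_le_iff_le_comap.mpr hWT⟩
        · push Not at hsq
          obtain ⟨c, hc⟩ := hsq
          obtain ⟨U₁, U₂, hU, hi1, hi2, ht1, -⟩ := hS.lagr h2 (s := false)
            (iff_of_false Bool.false_ne_true fun h => h c hc) hV (fun _ _ => Submodule.mem_top)
          have hLe : ∀ U : Submodule F (Fin d ⊕ Fin d → F), (∀ a ∈ U, ∀ b ∈ U, Cfsg.sympForm d F a b = 0) →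
              Module.finrank F U ≤ d := by
            intro U hUi
            by_contra hlt
            obtain ⟨Y, hY, hYd⟩ := exists_sub U (m := d + 1) (by omega)
            let b := Module.finBasisOfFinrankEq F Y hYd
            let φ : (Fin d ⊕ Fin d → F) →ₗ[F] (Fin (d + 1) → F) :=
              LinearMap.pi fun i => CfsgLib.PolarPair.bform F d (b i : Fin d ⊕ Fin d → F)
            have hsur : LinearMap.range φ = ⊤ := LinearMap.range_eq_top.mpr fun c => by
              obtain ⟨v, hv⟩ := CfsgLib.SpUnipCount.pairing_surjective (w := fun i => (b i : Fin d ⊕ Fin d → F))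
                (b.linearIndependent.map' Y.subtype Y.ker_subtype) c
              exact ⟨v, funext fun i => hv i⟩
            have hker : Y ≤ LinearMap.ker φ := fun v hv =>
              LinearMap.mem_ker.mpr (funext fun i => hUi _ (hY (b i).2) v (hY hv))
            have h1 := LinearMap.finrank_range_add_finrank_ker φ
            have h3 := Submodule.finrank_mono hker
            rw [hsur, finrank_top, Module.finrank_fin_fun, Module.finrank_pi, Fintype.card_sum, Fintype.card_fin] at h1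
            omega
          have hdim : d ≤ Module.finrank F U₁ := by
            have h1 := Submodule.finrank_add_le_finrank_add_finrank U₁ U₂
            rw [hU, finrank_top, Module.finrank_pi, Fintype.card_sum, Fintype.card_fin] at h1
            have := hLe U₂ hi2
            omega
          obtain ⟨W, hWU, hWd, hWT⟩ := exists_invariant_sub h2 (c := c)
            (fun e => hS.z_ne (by rw [← hc, e]; ring)) U₁ ht1 (fun v => by rw [hS.sq, ← hc, pow_two]) (hmd.trans hdim)
          exact ⟨W, hWd, fun a ha b hb => hi1 a (hWU ha) b (hWU hb), Submodule.map_le_iff_le_comap.mpr hWT⟩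
    rw [hmain]
    refine ⟨fun h => Or.inl ⟨rfl, hp2, h⟩, ?_⟩
    rintro (⟨-, -, h⟩ | ⟨-, h, -⟩)
    · exact h
    · exact absurd h (lt_irrefl 2)
  -- odd primes
  obtain ⟨u, hu⟩ := exists_unit_card (F := F) (r := r) (p := p) (q := Fintype.card F) dvd_rfl hrp
  obtain ⟨h, hh, hinv⟩ := exists_multiplier u hr2
  have hui : orderOf u = i := by rw [← orderOf_units, hu, hi]
  have hch : orderOf h = c := by
    rw [hh, hc, hui]
    rcases Nat.even_or_odd i with he | ho
    · rw [if_pos he, if_neg (Nat.not_odd_iff_even.mpr he)]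
    · rw [if_neg (Nat.not_even_iff_odd.mpr ho), if_pos ho]
  have hi0 : 0 < i := hui ▸ orderOf_pos u
  have hit : i * ((r - 1) / i) = r - 1 := Nat.mul_div_cancel' (by
    rw [← hui, ← ZMod.card_units r]; exact orderOf_dvd_card)
  have hc2 : 2 ≤ c := by
    rw [hc]
    split_ifs with he
    · obtain ⟨e, he⟩ := he; omega
    · omega
  have hceven : Even c := by
    rw [hc]
    split_ifs with he
    · exact he
    · exact even_two_mul i
  have hh1 : h ≠ 1 := fun e => by rw [e, orderOf_one] at hch; omega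
  have hcr : c ≤ r - 1 := by
    have h1 : orderOf h ∣ r - 1 := by rw [← ZMod.card_units r]; exact orderOf_dvd_card
    rw [hch] at h1
    exact Nat.le_of_dvd (by have := hr.two_le; omega) h1
  -- the count bounds the multiplier
  have hcj : c ∣ 2 * (d - j) := by
    have hij : i ∣ 2 * (d - j) := by
      rw [hi]
      refine orderOf_dvd_of_pow_eq_one ?_
      have h1 := (ZMod.natCast_eq_zero_iff _ r).mpr hrj
      rw [Nat.cast_sub (Nat.one_le_pow _ _ Fintype.card_pos), Nat.cast_pow, Nat.cast_one, sub_eq_zero] at h1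
      exact h1
    rw [hc]
    split_ifs with he
    · exact hij
    · exact (Nat.coprime_two_left.mpr (Nat.not_even_iff_odd.mp he)).mul_dvd_of_dvd_of_dvd (dvd_mul_right 2 _) hij
  have hcn : c ≤ 2 * d := (Nat.le_of_dvd (by omega) hcj).trans (by omega)
  have hncm : 2 * d % c < 2 * m := by
    obtain ⟨e, he⟩ := hcj
    rw [show 2 * d = 2 * j + c * e by omega, Nat.add_mul_mod_self_left]
    exact (Nat.mod_le _ _).trans_lt (by omega)
  obtain ⟨P, hP, hLfin, hζ⟩ := exists_root_field F hr (natCast_ne_zero hrp)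
  constructor
  · intro hall
    -- every witness fixes a subspace
    have hfix : ∀ f : ZMod r → ℕ, (∀ y, f (y * (h : ZMod r)) = f y) → ∑ y, f y = 2 * d → f 0 < 2 * d →
        ∃ g : ZMod r → ℕ, (∀ y, g (y * (u : ZMod r)) = g y) ∧ ∑ y, g y = m ∧ ∀ y, g y + g (-y) ≤ f y := by
      intro f hf hs hf0
      obtain ⟨x, hxr, hxns, hxm⟩ := exists_witness (F := F) hζ hrp hr2 hu hinv hh1 f hf hs hf0
      obtain ⟨W, hWd, hWi, hWT⟩ := hall x ⟨1, by rw [one_smul, SubmonoidClass.coe_pow, hxr]⟩ hxns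
      obtain ⟨g, hg, hgs, hgle⟩ := isotropic_mult (F := F) hζ hrp hu x.2 hxr W
        (fun v hv => hWT ⟨v, hv, Matrix.toLin'_apply _ _⟩) hWi
      exact ⟨g, hg, hgs.trans hWd, fun y => (hgle y).trans (hxm y).le⟩
    have hdiv := Nat.mod_add_div (2 * d) c
    have hk0 : 1 ≤ 2 * d / c := Nat.div_pos hcn (by omega)
    have hck : c ≤ c * (2 * d / c) := Nat.le_mul_of_pos_right c hk0
    obtain ⟨f, hf, hf0, hfs⟩ : ∃ f : ZMod r → ℕ, (∀ x, f (x * (h : ZMod r)) = f x) ∧ f 0 = 2 * d % c ∧
        ∑ x, f x = 2 * d := by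
      obtain ⟨k, hk, hsub⟩ := orbit_data h (fun x : ZMod r => if x = 0 then 2 * d % c else 2 * d / c)
        (fun x => by simp only [mul_eq_zero, h.ne_zero, or_false])
      rw [hch] at hk
      have hk' : 2 * d / c ≤ k := by
        rw [if_pos rfl, sum_zmod] at hk
        simp only [if_pos, Units.ne_zero, if_false, Finset.sum_const, Finset.card_univ, ZMod.card_units, smul_eq_mul] at hk
        have h1 : c * (2 * d / c) ≤ (r - 1) * (2 * d / c) := Nat.mul_le_mul_right _ hcr
        exact Nat.le_of_mul_le_mul_left (by omega) (show 0 < c by omega)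
      obtain ⟨g, hg, hg0, -, hgs⟩ := hsub (2 * d % c) (by simp) _ hk'
      exact ⟨g, hg, hg0, by rw [hgs, hch]; omega⟩
    obtain ⟨g, hg, hgs, hgle⟩ := hfix f hf hfs (by rw [hf0]; omega)
    obtain ⟨K, hK, -⟩ := orbit_data u g hg
    rw [hgs, hui] at hK
    have hℓ : 2 * (m % i) ≤ 2 * d % c := by
      have h1 : m % i ≤ g 0 := by rw [← hK, Nat.add_mul_mod_self_left]; exact Nat.mod_le _ _
      have h2 := hgle 0
      rw [neg_zero, hf0] at h2
      omega
    have him : i ≤ m := by
      by_contra hlt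
      rw [Nat.mod_eq_of_lt (not_le.mp hlt)] at hℓ
      omega
    refine Or.inr ⟨hrp, by have := hr.two_le; omega, him, hℓ, ?_⟩
    by_contra hneg
    rw [not_or, Nat.not_odd_iff_even, not_le] at hneg
    obtain ⟨hie, hlt⟩ := hneg
    have hci : c = i := by rw [hc, if_pos hie]
    obtain ⟨t, ht⟩ : ∃ t, t = (r - 1) / i := ⟨_, rfl⟩
    obtain ⟨m', hm'⟩ : ∃ m', m' = m / i := ⟨_, rfl⟩
    obtain ⟨n', hn'⟩ : ∃ n', n' = 2 * d / i := ⟨_, rfl⟩
    rw [← ht, ← hm', ← hn'] at hlt
    have hm1 : 1 ≤ m' := hm' ▸ Nat.div_pos him hi0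
    have hmn : 2 * m' ≤ n' := by
      rw [hn', Nat.le_div_iff_mul_le hi0, hm']
      have := Nat.div_mul_le_self m i
      rw [mul_assoc]
      omega
    obtain ⟨K₀, hK₀, hsub₀⟩ := orbit_data h (fun x : ZMod r => if x = 0 then 0 else 1)
      (fun x => by simp only [mul_eq_zero, h.ne_zero, or_false])
    have hK₀t : K₀ = t := by
      rw [if_pos rfl, zero_add, sum_zmod, hch, hci] at hK₀
      simp only [if_pos, Units.ne_zero, if_false, Finset.sum_const, Finset.card_univ, ZMod.card_units, smul_eq_mul,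
        mul_one, zero_add] at hK₀
      rw [ht, ← hK₀, Nat.mul_div_cancel_left _ hi0]
    obtain ⟨g₁, hg₁, hg₁0, hg₁le, hg₁s⟩ := hsub₀ 0 (by simp) (n' - 2 * m' + 1) (by omega)
    obtain ⟨k₁, hk₁, hsub₁⟩ := orbit_data h g₁ hg₁
    rw [hg₁0, hg₁s, hch, hci] at hk₁
    obtain ⟨g₂, hg₂, hg₂0, hg₂le, hg₂s⟩ := hsub₁ 0 (by omega) 1 (by
      have := Nat.eq_of_mul_eq_mul_left hi0 (by omega : i * k₁ = i * (n' - 2 * m' + 1))
      omega)
    rw [hch, hci] at hg₁s hg₂s
    obtain ⟨e, he⟩ : ∃ e, e = 2 * d % i + i := ⟨_, rfl⟩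
    obtain ⟨f', hf'⟩ : ∃ f' : ZMod r → ℕ, f' = fun x => (if x = 0 then e else 0) + (g₁ x + 2 * (m' - 1) * g₂ x) :=
      ⟨_, rfl⟩
    have hf's : ∑ x, f' x = 2 * d := by
      rw [hf', Finset.sum_add_distrib, Finset.sum_ite_eq' Finset.univ 0, if_pos (Finset.mem_univ _),
        Finset.sum_add_distrib, ← Finset.mul_sum, hg₁s, hg₂s, he]
      have h2 := Nat.mod_add_div (2 * d) i
      rw [← hn'] at h2
      have h3 : i + (i * (n' - 2 * m' + 1) + 2 * (m' - 1) * i) = i * n' := by
        have : 1 + (n' - 2 * m' + 1 + 2 * (m' - 1)) = n' := by omega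
        conv_rhs => rw [← this]
        ring
      simp only [zero_add, mul_one] at h3 ⊢
      omega
    obtain ⟨g, hg, hgs, hgle⟩ := hfix f' (fun x => by
      rw [hf']; simp only [mul_eq_zero, h.ne_zero, or_false, hg₁, hg₂]) hf's (by
      have h5 : f' 0 = e := by rw [hf']; simp [hg₁0, hg₂0]
      rw [h5, he, ← hci]
      have := Nat.mod_lt (2 * d) (show 0 < c by omega)
      have h6 : 2 * c ≤ 2 * d := by
        rw [hci]
        have := Nat.div_mul_le_self (2 * d) i
        rw [← hn'] at this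
        exact (Nat.mul_le_mul_right i (show 2 ≤ n' by omega)).trans this
      omega)
    -- doubling the function of the subspace
    have hsym : ∀ x, g (-x) = g x := by
      have hp : ∀ k x, g (x * ((u ^ k : (ZMod r)ˣ) : ZMod r)) = g x := fun k => by
        induction k with
        | zero => simp
        | succ k ih => intro x; rw [pow_succ, Units.val_mul, ← mul_assoc, hg, ih]
      intro x
      simpa [neg_one_mem_of_even u hr2 (by rw [hui]; exact hie)] using hp (orderOf u / 2) x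
    have hle : ∑ x, 2 * g x ≤ ∑ x : ZMod r, ((if x = 0 then e else 0) + 2 * (m' - 1) * g₂ x) := by
      refine Finset.sum_le_sum fun x _ => ?_
      have h1 := hgle x
      rw [hsym, hf'] at h1
      have h2 := hg₁le x
      by_cases hx : x = 0
      · subst hx
        simp only [if_true, hg₁0, hg₂0] at h1 ⊢
        omega
      · simp only [if_neg hx, zero_add] at h1 h2 ⊢
        rw [mul_assoc] at h1 ⊢
        omega
    rw [← Finset.mul_sum, hgs, Finset.sum_add_distrib, Finset.sum_ite_eq' Finset.univ 0, if_pos (Finset.mem_univ _),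
      ← Finset.mul_sum, hg₂s, zero_add, mul_one, he] at hle
    have h7 := Nat.mod_add_div m i
    rw [← hm'] at h7
    have h8 : 2 * (m' - 1) * i + 2 * i = 2 * (i * m') := by
      conv_rhs => rw [show m' = m' - 1 + 1 by omega]
      ring
    have := Nat.mod_lt (2 * d) hi0
    omega
  · rintro (⟨h', -, -⟩ | ⟨-, -, him, hℓ, hcond⟩) x ⟨z, hz⟩ -
    · exact absurd h' hr2
    have hz2 : z * z = 1 := hformx x z hz
    have hz0 : z ≠ 0 := fun h0 => one_ne_zero (α := F) (by rw [← hz2, h0, mul_zero])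
    have hzm : (x : Matrix (Fin d ⊕ Fin d) (Fin d ⊕ Fin d) F) ^ r = z • 1 := by rw [← hz, SubmonoidClass.coe_pow]
    obtain ⟨y, hydef⟩ : ∃ y, y = z • (x : Matrix (Fin d ⊕ Fin d) (Fin d ⊕ Fin d) F) := ⟨_, rfl⟩
    have hy : y ∈ Matrix.symplecticGroup (Fin d) F := CfsgLib.SpGeom.mem_of_form fun u v => by
      rw [hydef, Matrix.smul_mulVec, Matrix.smul_mulVec, CfsgLib.SpGeom.form_smul_left, CfsgLib.SpGeom.form_smul_right,
        ← mul_assoc, hz2, one_mul, CfsgLib.SpGeom.form_mulVec]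
    have hyr : y ^ r = 1 := by
      obtain ⟨l, hl⟩ := hr.odd_of_ne_two hr2
      rw [hydef, _root_.smul_pow, hzm, smul_smul, ← pow_succ, show r + 1 = 2 * (l + 1) by omega, pow_mul, pow_two, hz2,
        one_pow, one_smul]
    obtain ⟨f, hfdef⟩ : ∃ f : ZMod r → ℕ, f = mult (AdjoinRoot.root P) y := ⟨_, rfl⟩
    have hfh : ∀ w, f (w * (h : ZMod r)) = f w := by
      rw [hfdef]
      exact form_mult_inv hζ hrp hu hinv (Matrix.isUnit_det_J _ _) hyr (SymplecticGroup.mem_iff'.mp hy)
    have hfs : ∑ w, f w = 2 * d := by rw [hfdef, sum_mult hζ hyr, Fintype.card_sum, Fintype.card_fin, two_mul]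
    obtain ⟨k, hk, -⟩ := orbit_data h f hfh
    rw [hfs, hch] at hk
    have hev : Even (f 0) := by
      have h1 : Even (f 0 + c * k) := by rw [hk]; exact even_two_mul d
      exact (Nat.even_add.mp h1).mpr (hceven.mul_right k)
    obtain ⟨g, hgu, hgs, hgle⟩ := exists_half_fun (u := u) hr2 f ((hinv f).mpr hfh).1 ((hinv f).mpr hfh).2 hfs hev
      hmd (by
        rw [hui]
        refine hℓ.trans ?_
        rw [← hk, Nat.add_mul_mod_self_left]
        exact Nat.mod_le _ _) (fun he => by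
        rw [hui] at he
        have hcond' := hcond.resolve_left (Nat.not_odd_iff_even.mpr he)
        have hci : c = i := by rw [hc, if_pos he]
        have h1 := Nat.mod_add_div m i
        have h2 := Nat.mod_add_div (2 * d) i
        rw [hci] at hℓ
        have h3 := Nat.mul_le_mul_left i hcond'
        rw [mul_add, hit, mul_left_comm] at h3
        omega)
    obtain ⟨B, hB, hBr, hBm, W, hWd, hWi, hWB⟩ := exists_isotropic_model (F := F) hζ hrp hr2 hu f g
      ((hinv f).mpr hfh).1 ((hinv f).mpr hfh).2 hfs hgu hgs hgle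
    obtain ⟨g', hg'⟩ := symp_conj_of_mult hζ hrp hy hB hyr hBr fun w => by rw [hBm, hfdef]
    obtain ⟨E, hE⟩ : ∃ E, E = Matrix.toLin' (g' : Matrix (Fin d ⊕ Fin d) (Fin d ⊕ Fin d) F) := ⟨_, rfl⟩
    have hEi : Function.Injective E := fun u v e => by
      have := congrArg (((g'⁻¹ : Matrix.symplecticGroup (Fin d) F) : Matrix (Fin d ⊕ Fin d) (Fin d ⊕ Fin d) F).mulVec) e
      simpa only [hE, Matrix.toLin'_apply, CfsgLib.SpGeom.inv_mulVec] using this
    refine ⟨W.map E, by rw [← (Submodule.equivMapOfInjective _ hEi W).finrank_eq, hWd], ?_, ?_⟩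
    · rintro _ ⟨a, ha, rfl⟩ _ ⟨b, hb, rfl⟩
      rw [hE, Matrix.toLin'_apply, Matrix.toLin'_apply, CfsgLib.SpGeom.form_mulVec]
      exact hWi a ha b hb
    · have hxy : (x : Matrix (Fin d ⊕ Fin d) (Fin d ⊕ Fin d) F) = z • y := by
        rw [hydef, smul_smul, hz2, one_smul]
      rintro _ ⟨_, ⟨v, hv, rfl⟩, rfl⟩
      refine ⟨z • B.mulVec v, Submodule.smul_mem _ _ (hWB v hv), ?_⟩
      rw [map_smul, hE, Matrix.toLin'_apply, Matrix.toLin'_apply, Matrix.toLin'_apply, hxy, Matrix.smul_mulVec,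
        Matrix.mulVec_mulVec, Matrix.mulVec_mulVec, hg']

end Cfsg.Agent.S5955
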