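import Cfsg.Statements.S5956
import Cfsg.Agent.SubElusive.SympTI
import Cfsg.Agent.SubElusive.SympUni
import Cfsg.Agent.SpUnipCount.Main
import Cfsg.Agent.SympInvol.Bins

set_option autoImplicit false
open scoped MatrixGroups
open Cfsg

namespace Cfsg.Agent.S5956


open CfsgLib.SubElusive CfsgLib.SemiClasses CfsgLib.SympInvol

/-- A prime, other than the characteristic, dividing the number of nondegenerate subspaces. -/
theorem count_data {F : Type*} [Field F] [Fintype F] {d a r : ℕ} (hr : r.Prime) (hrq : ¬ r ∣ Fintype.card F)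
    (had : a ≤ d)
    (h : r ∣ Nat.card {W : Submodule F (Fin d ⊕ Fin d → F) // Module.finrank F ↥W = 2 * a ∧
      (∀ u ∈ W, u ≠ 0 → ∃ v ∈ W, Cfsg.sympForm d F u v ≠ 0)}) :
    ∃ j < a, r ∣ Fintype.card F ^ (2 * (d - j)) - 1 := by
  classical
  obtain ⟨b, rfl⟩ := Nat.exists_eq_add_of_le had
  let Ω := {W : Submodule F (Fin (a + b) ⊕ Fin (a + b) → F) // Module.finrank F ↥W = 2 * a ∧
      (∀ u ∈ W, u ≠ 0 → ∃ v ∈ W, Cfsg.sympForm (a + b) F u v ≠ 0)}
  let Φ : CfsgLib.SpUnipCount.Isom F (a + b) a → Ω := fun L => ⟨LinearMap.range L.1,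
    by rw [LinearMap.finrank_range_of_inj L.injective, Module.finrank_pi, Fintype.card_sum, Fintype.card_fin, two_mul],
    by
      rintro _ ⟨x, rfl⟩ hx
      obtain ⟨w, hw⟩ := CfsgLib.SpGeom.exists_form_ne_zero (v := x) fun e => hx (by rw [e, map_zero])
      exact ⟨_, ⟨w, rfl⟩, by rw [L.2]; exact hw⟩⟩
  have hsur : Function.Surjective Φ := by
    rintro ⟨W, hWd, hWn⟩
    obtain ⟨e, he⟩ := CfsgLib.Forms.exists_symp_coord (n := a) hWd ((CfsgLib.PolarPair.bform F (a + b)).restrict W)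
      (fun v => CfsgLib.SpGeom.form_self _) (fun v hv => by
        by_contra hv0
        obtain ⟨w, hw, hne⟩ := hWn v.1 v.2 fun h0 => hv0 (Subtype.ext h0)
        exact hne (hv ⟨w, hw⟩))
    refine ⟨⟨W.subtype ∘ₗ e.symm.toLinearMap, fun x y => ?_⟩, Subtype.ext ?_⟩
    · conv_rhs => rw [← e.apply_symm_apply x, ← e.apply_symm_apply y, he]
      rfl
    · show LinearMap.range (W.subtype ∘ₗ e.symm.toLinearMap) = W
      rw [LinearMap.range_comp, LinearEquiv.range, Submodule.map_top, Submodule.range_subtype]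
  haveI : Fintype Ω := Fintype.ofFinite _
  haveI : Finite (CfsgLib.SpUnipCount.Isom F (a + b) a) :=
    Finite.of_injective (fun L => (L.1 : (Fin a ⊕ Fin a → F) → (Fin (a + b) ⊕ Fin (a + b) → F)))
      fun L L' e => Subtype.ext (DFunLike.coe_injective e)
  have hdiv : r ∣ Nat.card (CfsgLib.SpUnipCount.Isom F (a + b) a) := by
    rcases isEmpty_or_nonempty Ω with hE | ⟨⟨W₀⟩⟩
    · haveI : IsEmpty (CfsgLib.SpUnipCount.Isom F (a + b) a) := ⟨fun L => IsEmpty.false (Φ L)⟩
      rw [Nat.card_of_isEmpty]; exact dvd_zero r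
    have hle : ∀ W W' : Ω, Nat.card {L // Φ L = W} ≤ Nat.card {L // Φ L = W'} := by
      intro W W'
      obtain ⟨L, rfl⟩ := hsur W
      obtain ⟨L', rfl⟩ := hsur W'
      obtain ⟨A, hA⟩ := CfsgLib.SpUnipCount.exists_move_isom L L'
      have hL' : (Matrix.mulVecLin (A : Matrix (Fin (a + b) ⊕ Fin (a + b)) (Fin (a + b) ⊕ Fin (a + b)) F)) ∘ₗ L.1 = L'.1 :=
        LinearMap.ext hA
      refine Nat.card_le_card_of_injective (fun M => (⟨⟨_, CfsgLib.SpUnipCount.comp_mem A M.1⟩, Subtype.ext ?_⟩ :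
        {M // Φ M = Φ L'})) ?_
      · show LinearMap.range _ = LinearMap.range L'.1
        rw [← hL', LinearMap.range_comp, LinearMap.range_comp]
        exact congrArg _ (congrArg Subtype.val M.2)
      · intro M M' e
        refine Subtype.ext (Subtype.ext (LinearMap.ext fun x => ?_))
        have := congrArg (fun N => ((A⁻¹ : Matrix.symplecticGroup (Fin (a + b)) F) :
          Matrix (Fin (a + b) ⊕ Fin (a + b)) (Fin (a + b) ⊕ Fin (a + b)) F).mulVec (N.1.1 x)) e
        simpa only [LinearMap.comp_apply, Matrix.mulVecLin_apply, CfsgLib.SpGeom.inv_mulVec] using this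
    rw [← Nat.card_congr (Equiv.sigmaFiberEquiv Φ), Nat.card_sigma,
      Finset.sum_congr rfl fun W _ => le_antisymm (hle W W₀) (hle W₀ W), Finset.sum_const, smul_eq_mul, Finset.card_univ,
      ← Nat.card_eq_fintype_card]
    exact h.mul_right _
  have hI' : r ∣ Fintype.card F ^ ((b + a) ^ 2) * ∏ x ∈ Finset.range a, (Fintype.card F ^ (2 * (b + x + 1)) - 1) := by
    have hIs := CfsgLib.SpUnipCount.card_isom (F := F) (m := a + b) (a := a) (b := b) rfl
    rw [CfsgLib.SpGeom.card_Sp, CfsgLib.SpGeom.card_Sp, add_comm a b, Finset.prod_range_add] at hIs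
    have hpos : 0 < ∏ x ∈ Finset.range b, (Fintype.card F ^ (2 * (x + 1)) - 1) := Finset.prod_pos fun x _ => by
      have := Nat.one_lt_pow (show 2 * (x + 1) ≠ 0 by omega) (Fintype.one_lt_card (α := F))
      omega
    have h' : Nat.card (CfsgLib.SpUnipCount.Isom F (a + b) a) * Fintype.card F ^ (b ^ 2) =
        Fintype.card F ^ ((b + a) ^ 2) * ∏ x ∈ Finset.range a, (Fintype.card F ^ (2 * (b + x + 1)) - 1) := by
      apply Nat.eq_of_mul_eq_mul_right hpos
      rw [add_comm a b]
      linarith [hIs]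
    rw [← h']
    exact hdiv.mul_right _
  rcases hr.dvd_mul.mp hI' with hc | hc
  · exact absurd (hr.dvd_of_dvd_pow hc) hrq
  obtain ⟨x, hx, hxd⟩ := hr.prime.exists_mem_finset_dvd hc
  rw [Finset.mem_range] at hx
  refine ⟨a - 1 - x, by omega, ?_⟩
  rwa [show 2 * (a + b - (a - 1 - x)) = 2 * (b + x + 1) by omega]

section Invol

variable {F : Type*} [Field F] {V : Type*} [AddCommGroup V] [Module F V] [FiniteDimensional F V]
  {B : LinearMap.BilinForm F V} {T : V →ₗ[F] V} {z : F}

/-- An invariant nondegenerate plane. -/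
theorem exists_plane (h : Setting B T z) (h2 : (2 : F) ≠ 0) (hzz : z * z = 1) (S : Submodule F V) (hS : ND B S)
    (hTS : ∀ v ∈ S, T v ∈ S) (hS0 : S ≠ ⊥) :
    ∃ v ∈ S, ∃ w ∈ S, B v w ≠ 0 ∧ T v ∈ Submodule.span F ({v, w} : Set V) ∧ T w ∈ Submodule.span F ({v, w} : Set V) := by
  obtain ⟨u, hu, hu0⟩ := S.exists_mem_ne_zero_of_ne_bot hS0
  rcases mul_self_eq_one_iff.mp hzz with hz | hz
  · have hsq : ∀ v, T (T v) = v := fun v => by rw [h.sq, hz, one_smul]
    obtain ⟨v, hv, hv0, ε, hε, hTv⟩ : ∃ v ∈ S, v ≠ 0 ∧ ∃ ε : F, ε * ε = 1 ∧ T v = ε • v := by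
      by_cases h' : u + T u = 0
      · refine ⟨u, hu, hu0, -1, by ring, ?_⟩
        rw [neg_one_smul, eq_neg_iff_add_eq_zero, add_comm]; exact h'
      · refine ⟨u + T u, S.add_mem hu (hTS u hu), h', 1, one_mul 1, ?_⟩
        rw [map_add, hsq, one_smul, add_comm]
    obtain ⟨w, hw, hvw⟩ : ∃ w ∈ S, B v w ≠ 0 := by
      by_contra hall
      push Not at hall
      exact hv0 (hS v hv hall)
    refine ⟨v, hv, w + ε • T w, S.add_mem hw (S.smul_mem ε (hTS w hw)), ?_, ?_, ?_⟩
    · have h1 : ε * B v (T w) = B v w := by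
        rw [← h.iso v w, hTv, map_smul, LinearMap.smul_apply, smul_eq_mul]
      rw [map_add, map_smul, smul_eq_mul, h1, ← two_mul]
      exact mul_ne_zero h2 hvw
    · rw [hTv]; exact Submodule.smul_mem _ _ (Submodule.subset_span (by simp))
    · rw [show T (w + ε • T w) = ε • (w + ε • T w) by
        rw [map_add, map_smul, hsq, smul_add, smul_smul, hε, one_smul, add_comm]]
      exact Submodule.smul_mem _ _ (Submodule.subset_span (by simp))
  · have hsq : ∀ v, T (T v) = -v := fun v => by rw [h.sq, hz, neg_one_smul]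
    obtain ⟨v, hv, hvv⟩ : ∃ v ∈ S, B v (T v) ≠ 0 := by
      by_contra hno
      push Not at hno
      refine hu0 (hS u hu fun w hw => ?_)
      obtain ⟨y, hy, rfl⟩ : ∃ y ∈ S, T y = w := ⟨-T w, S.neg_mem (hTS w hw), by rw [map_neg, hsq, neg_neg]⟩
      have h1 := hno (u + y) (S.add_mem hu hy)
      rw [map_add T, map_add B, LinearMap.add_apply, map_add, map_add, hno u hu, hno y hy, zero_add, add_zero,
        h.skew (T u) y, h.T_left, hz, inv_neg, inv_one, neg_one_mul, neg_neg, ← two_mul] at h1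
      exact (mul_eq_zero.mp h1).resolve_left h2
    refine ⟨v, hv, T v, hTS v hv, hvv, Submodule.subset_span (by simp), ?_⟩
    rw [hsq]
    exact Submodule.neg_mem _ (Submodule.subset_span (by simp))

/-- Invariant nondegenerate subspaces of every even dimension, in odd characteristic. -/
theorem exists_nd_even (h : Setting B T z) (h2 : (2 : F) ≠ 0) (hzz : z * z = 1) :
    ∀ (k : ℕ) (S : Submodule F V), ND B S → (∀ v ∈ S, T v ∈ S) → 2 * k ≤ Module.finrank F S →
      ∃ W ≤ S, Module.finrank F W = 2 * k ∧ ND B W ∧ ∀ v ∈ W, T v ∈ W := by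
  intro k
  induction k with
  | zero =>
    exact fun S _ _ _ => ⟨⊥, bot_le, by rw [mul_zero, finrank_bot], fun u hu _ => (Submodule.mem_bot F).mp hu,
      fun v hv => by rw [(Submodule.mem_bot F).mp hv, map_zero]; exact zero_mem _⟩
  | succ k ih =>
    intro S hS hTS hd
    have hS0 : S ≠ ⊥ := fun e => by rw [e, finrank_bot] at hd; omega
    obtain ⟨v, hv, w, hw, hvw, hTv, hTw⟩ := exists_plane h h2 hzz S hS hTS hS0
    obtain ⟨hR, hRd⟩ := h.nd_pair hvw
    obtain ⟨R, hRdef⟩ : ∃ R, R = Submodule.span F ({v, w} : Set V) := ⟨_, rfl⟩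
    rw [← hRdef] at hR hRd hTv hTw
    have hRS : R ≤ S := by
      rw [hRdef, Submodule.span_le]
      intro x hx; rcases hx with rfl | rfl <;> assumption
    have hTR : ∀ x ∈ R, T x ∈ R := fun x hx => by
      rw [hRdef, Submodule.mem_span_pair] at hx
      obtain ⟨a, b, rfl⟩ := hx
      rw [map_add, map_smul, map_smul]
      exact R.add_mem (R.smul_mem _ hTv) (R.smul_mem _ hTw)
    obtain ⟨hsup, hS1, hTS1, -⟩ := h.split hS hTS hR hRS hTR fun e => by rw [e, finrank_bot] at hRd; omega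
    have hd1 := Submodule.finrank_add_le_finrank_add_finrank R (S ⊓ B.orthogonal R)
    rw [hsup, hRd] at hd1
    obtain ⟨W, hW, hWd, hWn, hTW⟩ := ih _ hS1 hTS1 (by omega)
    obtain ⟨hnd, hdis⟩ := CfsgLib.SubElusive.ndOn_sup h.alt (R := R) (S := W) hR hWn fun a ha b hb => (hW hb).2 a ha
    refine ⟨R ⊔ W, sup_le hRS (hW.trans inf_le_left), ?_, hnd, fun x hx => ?_⟩
    · have := Submodule.finrank_sup_add_finrank_inf_eq R W
      rw [hdis, finrank_bot] at this
      omega
    · obtain ⟨a, ha, b, hb, rfl⟩ := Submodule.mem_sup.mp hx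
      rw [map_add]
      exact Submodule.add_mem_sup (hTR a ha) (hTW b hb)

/-- Invariant nondegenerate subspaces from a family of planes, in any characteristic. -/
theorem exists_nd_planes (h : Setting B T z) (hV : ND B ⊤) {d k : ℕ} (hd : Module.finrank F V = 2 * d) (hk : k ≤ d)
    (hcond : Odd d ∨ Even k) : ∃ W : Submodule F V, Module.finrank F W = 2 * k ∧ ND B W ∧ ∀ v ∈ W, T v ∈ W := by
  classical
  obtain ⟨P, hP, hPo, hPT, hPs⟩ := h.planes hV (fun _ _ => Submodule.mem_top)
  have hsp := h.sup_planes hP hPo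
  have hcard : P.card = d := by
    have := (hsp P Finset.Subset.rfl).2.1
    rw [hPs, finrank_top, hd] at this
    omega
  rcases CfsgLib.SympInvol.exists_invariant (fun A : Submodule F V => A.map T) h.map_map k P hPT (hcard ▸ hk) with
    ⟨S, hS, hSc, hSi⟩ | ⟨hfree, hodd⟩
  · refine ⟨S.sup id, by rw [(hsp S hS).2.1, hSc], (hsp S hS).1, fun v hv => ?_⟩
    have : (S.sup id).map T ≤ S.sup id := by
      rw [Submodule.map_le_iff_le_comap]
      refine Finset.sup_le fun A hA => ?_
      rw [← Submodule.map_le_iff_le_comap]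
      exact Finset.le_sup (f := id) (hSi A hA)
    exact this ⟨v, hv, rfl⟩
  · exfalso
    have hdodd := hcond.resolve_right (Nat.not_even_iff_odd.mpr hodd)
    rw [← hcard] at hdodd
    obtain ⟨e, he⟩ := hdodd
    obtain ⟨S, hS, hSc, hSg, hSd⟩ :=
      CfsgLib.SympInvol.exists_half (fun A : Submodule F V => A.map T) h.map_map (e + 1) P hPT hfree (by omega)
    have h1 := Finset.card_le_card (Finset.union_subset hS hSg)
    rw [Finset.card_union_of_disjoint hSd, Finset.card_image_of_injective _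
      (fun A A' e' => by rw [← h.map_map A, ← h.map_map A']; exact congrArg (Submodule.map T) e'), hSc] at h1
    omega

end Invol

section Odd

variable {F L : Type*} [Field F] [Fintype F] [Field L] [Finite L] [Algebra F L] {p r : ℕ} [Fact p.Prime] [CharP F p]
  [hr : Fact r.Prime] {ζ : L} {d : ℕ}

/-- The multiplicities on a nondegenerate invariant subspace. -/
theorem nondeg_mult (hζ : IsPrimitiveRoot ζ r) (hrp : r ≠ p) {u h : (ZMod r)ˣ}
    (hu : (u : ZMod r) = (Fintype.card F : ℕ))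
    (hinv : ∀ f : ZMod r → ℕ, ((∀ x, f (x * (u : ZMod r)) = f x) ∧ (∀ x, f (-x) = f x)) ↔ ∀ x, f (x * (h : ZMod r)) = f x)
    {x : Matrix (Fin d ⊕ Fin d) (Fin d ⊕ Fin d) F} (hx : x ∈ Matrix.symplecticGroup (Fin d) F) (hxr : x ^ r = 1)
    (W : Submodule F (Fin d ⊕ Fin d → F)) (hW : ∀ v ∈ W, x.mulVec v ∈ W)
    (hnd : ∀ u ∈ W, u ≠ 0 → ∃ v ∈ W, Cfsg.sympForm d F u v ≠ 0) :
    ∃ g : ZMod r → ℕ, (∀ y, g (y * (h : ZMod r)) = g y) ∧ ∑ y, g y = Module.finrank F W ∧ ∀ y, g y ≤ mult ζ x y := by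
  classical
  obtain ⟨f, hf⟩ : ∃ f : Module.End F (Fin d ⊕ Fin d → F), f = Matrix.toLinAlgEquiv' x := ⟨_, rfl⟩
  have hfr : f ^ r = 1 := by rw [hf, ← map_pow, hxr, map_one]
  have hW' : ∀ v ∈ W, f v ∈ W := fun v hv => by rw [hf]; exact hW v hv
  let b := Module.finBasis F W
  obtain ⟨A, hA⟩ : ∃ A, A = LinearMap.toMatrixAlgEquiv b (f.restrict hW') := ⟨_, rfl⟩
  obtain ⟨G, hG⟩ : ∃ G : Matrix (Fin (Module.finrank F W)) (Fin (Module.finrank F W)) F,
      G = LinearMap.BilinForm.toMatrix b ((CfsgLib.PolarPair.bform F d).restrict W) := ⟨_, rfl⟩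
  have hres : (f.restrict hW' : Module.End F W) ^ r = 1 := by
    rw [Module.End.pow_restrict r hW']; ext v; simp [hfr]
  have hAr : A ^ r = 1 := by rw [hA, ← map_pow, hres, map_one]
  have hGu : IsUnit G.det := by
    rw [hG, isUnit_iff_ne_zero, ← LinearMap.BilinForm.nondegenerate_iff_det_ne_zero b]
    refine ⟨fun v hv => ?_, fun v hv => ?_⟩
    · by_contra hv0
      obtain ⟨w, hw, hne⟩ := hnd v.1 v.2 fun h0 => hv0 (Subtype.ext h0)
      exact hne (hv ⟨w, hw⟩)
    · by_contra hv0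
      obtain ⟨w, hw, hne⟩ := hnd v.1 v.2 fun h0 => hv0 (Subtype.ext h0)
      refine hne ?_
      rw [CfsgLib.SpGeom.form_skew, neg_eq_zero]
      exact hv ⟨w, hw⟩
  have hiso : A.transpose * G * A = G := by
    have h1 : A = LinearMap.toMatrix b b (f.restrict hW') := hA
    rw [h1, hG, ← LinearMap.BilinForm.toMatrix_comp b b, show ((CfsgLib.PolarPair.bform F d).restrict W).comp
      (f.restrict hW') (f.restrict hW') = (CfsgLib.PolarPair.bform F d).restrict W from ?_]
    refine LinearMap.BilinForm.ext fun v w => ?_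
    show Cfsg.sympForm d F (f v.1) (f w.1) = Cfsg.sympForm d F v.1 w.1
    rw [hf]
    exact CfsgLib.SpGeom.form_mulVec ⟨x, hx⟩ _ _
  refine ⟨mult ζ A, form_mult_inv hζ hrp hu hinv hGu hAr hiso, by rw [sum_mult hζ hAr, Fintype.card_fin], fun y => ?_⟩
  have hWc : W ≤ W.comap f := fun v hv => hW' v hv
  have hcx : LinearMap.charpoly f = x.charpoly := by
    rw [← LinearMap.charpoly_toMatrix f (Pi.basisFun F (Fin d ⊕ Fin d)), LinearMap.toMatrix_eq_toMatrix', hf]
    exact congrArg Matrix.charpoly (LinearMap.toMatrix'_toLin' x)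
  have hcA : LinearMap.charpoly (f.restrict hW') = A.charpoly := by
    rw [hA]; exact (LinearMap.charpoly_toMatrix _ b).symm
  have hcp : x.charpoly = A.charpoly * (W.mapQ W f hWc).charpoly := by
    rw [← hcx, charpoly_eq_mul W f hWc]
    exact congrArg (· * _) hcA
  simp only [mult, hcp, Polynomial.map_mul]
  rw [Polynomial.rootMultiplicity_mul (((Matrix.charpoly_monic A).map _).mul ((LinearMap.charpoly_monic _).map _)).ne_zero]
  omega

/-- Elements preserving a nondegenerate subspace, by their multiplicities. -/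
theorem exists_nd_model (hζ : IsPrimitiveRoot ζ r) (hrp : r ≠ p) (hr2 : r ≠ 2) {u h : (ZMod r)ˣ}
    (hu : (u : ZMod r) = (Fintype.card F : ℕ))
    (hinv : ∀ f : ZMod r → ℕ, ((∀ x, f (x * (u : ZMod r)) = f x) ∧ (∀ x, f (-x) = f x)) ↔ ∀ x, f (x * (h : ZMod r)) = f x)
    (f g : ZMod r → ℕ) {a b : ℕ} (hab : a + b = d) (hf : ∀ x, f (x * (h : ZMod r)) = f x)
    (hg : ∀ x, g (x * (h : ZMod r)) = g x) (hfs : ∑ x, f x = 2 * d) (hgs : ∑ x, g x = 2 * a) (hle : ∀ x, g x ≤ f x) :
    ∃ B : Matrix (Fin d ⊕ Fin d) (Fin d ⊕ Fin d) F, B ∈ Matrix.symplecticGroup (Fin d) F ∧ B ^ r = 1 ∧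
      (∀ x, mult ζ B x = f x) ∧ ∃ W : Submodule F (Fin d ⊕ Fin d → F), Module.finrank F W = 2 * a ∧
        (∀ u ∈ W, u ≠ 0 → ∃ v ∈ W, Cfsg.sympForm d F u v ≠ 0) ∧ ∀ v ∈ W, B.mulVec v ∈ W := by
  classical
  obtain ⟨f₂, hf₂⟩ : ∃ f₂ : ZMod r → ℕ, f₂ = fun x => f x - g x := ⟨_, rfl⟩
  have hs₂ : ∑ x, f₂ x = 2 * b := by
    have h1 : ∑ x, f₂ x + ∑ x, g x = ∑ x, f x := by
      rw [← Finset.sum_add_distrib]
      exact Finset.sum_congr rfl fun x _ => by rw [hf₂]; exact Nat.sub_add_cancel (hle x)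
    omega
  have hf₂i : ∀ x, f₂ (x * (h : ZMod r)) = f₂ x := fun x => by rw [hf₂]; simp only [hf, hg]
  obtain ⟨B₂, hB₂, hB₂r, hB₂m⟩ := exists_symp_mult (F := F) hζ hrp hr2 hu f₂ ((hinv f₂).mpr hf₂i).1
    ((hinv f₂).mpr hf₂i).2 hs₂
  obtain ⟨B₁, hB₁, hB₁r, hB₁m⟩ := exists_symp_mult (F := F) hζ hrp hr2 hu g ((hinv g).mpr hg).1 ((hinv g).mpr hg).2 hgs
  obtain ⟨ι, hι⟩ : ∃ ι : CfsgLib.SpUnipCount.Isom F d a, ∀ x, ι.1 x = CfsgLib.SpUnipCount.blockVec hab x 0 :=
    ⟨CfsgLib.SpUnipCount.stdIsom hab, fun _ => rfl⟩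
  refine ⟨CfsgLib.Symp.blockMat hab B₁ B₂, CfsgLib.Symp.blockMat_mem hab hB₁ hB₂,
    by rw [CfsgLib.SpUnipCount.blockMat_pow, hB₁r, hB₂r, CfsgLib.Symp.blockMat_one], fun x => ?_, LinearMap.range ι.1,
    ?_, ?_, ?_⟩
  · rw [CfsgLib.Symp.blockMat, mult_reindex, mult_blocks, hB₁m, hB₂m, hf₂]
    exact Nat.add_sub_cancel' (hle x)
  · rw [LinearMap.finrank_range_of_inj ι.injective, Module.finrank_pi, Fintype.card_sum, Fintype.card_fin, two_mul]
  · rintro _ ⟨x, rfl⟩ hx
    obtain ⟨w, hw⟩ := CfsgLib.SpGeom.exists_form_ne_zero (v := x) fun e => hx (by rw [e, map_zero])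
    exact ⟨_, ⟨w, rfl⟩, by rw [ι.2]; exact hw⟩
  · rintro _ ⟨x, rfl⟩
    refine ⟨B₁.mulVec x, ?_⟩
    rw [hι, hι]
    exact ((CfsgLib.SpUnipCount.blockMat_mulVec hab B₁ B₂ x 0).trans (by rw [Matrix.mulVec_zero])).symm

end Odd

/-- Elements of prime order of PSp_n(q) with no fixed nondegenerate `m`-space. Here `T = PSp_n(q)` with `n = 2d ≥ 4`, `(n, q) ≠ (4, 2)`, realised through the symplectic matrices over the field `F` with `q` elements (preserving the standard alternating form); an element of `T` of prime order `r` is such a matrix `x` with `x^r` scalar and `x` not scalar. For `r ≠ p` let `i` be the multiplicative order of `q` modulo `r`, `c = i` for `i` even and `c = 2i` for `i` odd, and write `k = n mod c`, `ℓ = m mod i`, `ℓ' = m mod c`, `n' = ⌊n/i⌋`, `m' = ⌊m/i⌋`, `t = (r−1)/i`. Let `m` be even with `2 ≤ m < n/2` and let `r` be a prime dividing the number of nondegenerate `m`-spaces. Then every element of `T` of order `r` fixes a nondegenerate `m`-space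 if and only if one of: (i) `r = p > 2` and every partition of `n` into parts of size at most `p` in which every odd part has even multiplicity contains (as a sub-multiset) a partition of `m` in which every odd part has even multiplicity; (ii) `r = p = 2` and (`n ≡ 2 (mod 4)` or `m ≡ 0 (mod 4)`); (iii) `r = 2 ≠ p`; (iv) `r ≠ p`, `r > 2`, `c ≤ m` and `k ≥ ℓ'`. -/
theorem result {F : Type*} [Field F] [Fintype F] {p : ℕ} [Fact p.Prime] [CharP F p] {q : ℕ} (hq : Fintype.card F = q)
    (d m : ℕ) (hd : 2 ≤ d) (hT : (d, q) ≠ (2, 2)) (hm : 2 ≤ m) (hme : Even m) (hmd : m < d)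
    (r : ℕ) [Fact r.Prime]
    (hrΩ : r ∣ Nat.card {W : Submodule F (Fin d ⊕ Fin d → F) // Module.finrank F ↥W = m ∧ (∀ u ∈ W, u ≠ 0 → ∃ v ∈ W, Cfsg.sympForm d F u v ≠ 0)})
    (i c : ℕ) (hi : i = orderOf (q : ZMod r)) (hc : c = if Even i then i else 2 * i) :
    (∀ x : ↥(Matrix.symplecticGroup (Fin d) F),
      (∃ z : F, ((x ^ r : ↥(Matrix.symplecticGroup (Fin d) F)) : Matrix (Fin d ⊕ Fin d) (Fin d ⊕ Fin d) F) = z • (1 : Matrix (Fin d ⊕ Fin d) (Fin d ⊕ Fin d) F)) →
      (∀ z : F, (x : Matrix (Fin d ⊕ Fin d) (Fin d ⊕ Fin d) F) ≠ z • (1 : Matrix (Fin d ⊕ Fin d) (Fin d ⊕ Fin d) F)) →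
      ∃ W : Submodule F (Fin d ⊕ Fin d → F), Module.finrank F ↥W = m ∧ (∀ u ∈ W, u ≠ 0 → ∃ v ∈ W, Cfsg.sympForm d F u v ≠ 0) ∧
        W.map (Matrix.toLin' (x : Matrix (Fin d ⊕ Fin d) (Fin d ⊕ Fin d) F)) ≤ W) ↔
    ((r = p ∧ 2 < p ∧ (∀ μ : Multiset ℕ, (∀ a ∈ μ, 0 < a ∧ a ≤ p) → (∀ a : ℕ, Odd a → Even (μ.count a)) → μ.sum = 2 * d →
        ∃ ν : Multiset ℕ, ν ≤ μ ∧ ν.sum = m ∧ ∀ a : ℕ, Odd a → Even (ν.count a))) ∨
     (r = p ∧ p = 2 ∧ ((2 * d) % 4 = 2 ∨ m % 4 = 0)) ∨
     (r = 2 ∧ p ≠ 2) ∨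
     (r ≠ p ∧ 2 < r ∧ c ≤ m ∧ m % c ≤ (2 * d) % c)) := by
  classical
  subst hq
  obtain ⟨hr⟩ := (inferInstance : Fact r.Prime)
  haveI : Fact r.Prime := ⟨hr⟩
  haveI : Nonempty (Fin d ⊕ Fin d) := ⟨Sum.inl ⟨0, by omega⟩⟩
  obtain ⟨a, rfl⟩ : ∃ a, m = 2 * a := ⟨m / 2, by obtain ⟨e, he⟩ := hme; omega⟩
  have hformx : ∀ (x : Matrix.symplecticGroup (Fin d) F) (z : F),
      ((x ^ r : ↥(Matrix.symplecticGroup (Fin d) F)) : Matrix (Fin d ⊕ Fin d) (Fin d ⊕ Fin d) F) = z • 1 → z * z = 1 := by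
    intro x z hz
    obtain ⟨w, hw⟩ := CfsgLib.SpGeom.exists_form_ne_zero (F := F) (m := d)
      (v := Pi.single (Sum.inl ⟨0, by omega⟩) 1) (by simp)
    have h1 := CfsgLib.SpGeom.form_mulVec (x ^ r) (Pi.single (Sum.inl ⟨0, by omega⟩) 1) w
    rw [hz, Matrix.smul_mulVec, Matrix.smul_mulVec, Matrix.one_mulVec, Matrix.one_mulVec,
      CfsgLib.SpGeom.form_smul_left, CfsgLib.SpGeom.form_smul_right, ← mul_assoc] at h1
    exact mul_right_cancel₀ hw (h1.trans (one_mul _).symm)
  obtain ⟨Bf, hBf⟩ : ∃ Bf, Bf = CfsgLib.PolarPair.bform F d := ⟨_, rfl⟩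
  have hBa : ∀ v, Bf v v = 0 := fun v => by rw [hBf]; exact CfsgLib.SpGeom.form_self v
  have hBn : NDOn Bf ⊤ := fun v _ hv => by
    by_contra hv0
    obtain ⟨w, hw⟩ := CfsgLib.SpGeom.exists_form_ne_zero hv0
    exact hw (by have := hv w Submodule.mem_top; rw [hBf] at this; exact this)
  have hND : ∀ W : Submodule F (Fin d ⊕ Fin d → F), NDOn Bf W →
      ∀ u ∈ W, u ≠ 0 → ∃ v ∈ W, Cfsg.sympForm d F u v ≠ 0 := fun W hW u hu hu0 => by
    by_contra hno
    push Not at hno
    exact hu0 (hW u hu fun w hw => by rw [hBf]; exact hno w hw)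
  have hND' : ∀ W : Submodule F (Fin d ⊕ Fin d → F),
      (∀ u ∈ W, u ≠ 0 → ∃ v ∈ W, Cfsg.sympForm d F u v ≠ 0) → NDOn Bf W := fun W hW u hu hall => by
    by_contra hu0
    obtain ⟨v, hv, hne⟩ := hW u hu hu0
    have := hall v hv
    rw [hBf] at this
    exact hne this
  -- the nilpotent part of a matrix
  have hnil : ∀ y : Matrix.symplecticGroup (Fin d) F, ∃ N : Module.End F (Fin d ⊕ Fin d → F),
      (∀ v, N v = (y : Matrix (Fin d ⊕ Fin d) (Fin d ⊕ Fin d) F).mulVec v - v) ∧
      (∀ u v, Bf (u + N u) (v + N v) = Bf u v) ∧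
      ∀ k, N ^ k = Matrix.toLinAlgEquiv' (((y : Matrix (Fin d ⊕ Fin d) (Fin d ⊕ Fin d) F) - 1) ^ k) := fun y => by
    refine ⟨Matrix.toLinAlgEquiv' ((y : Matrix (Fin d ⊕ Fin d) (Fin d ⊕ Fin d) F) - 1), fun v => ?_, fun u v => ?_,
      fun k => (map_pow _ _ _).symm⟩
    · rw [Matrix.toLinAlgEquiv'_apply, Matrix.sub_mulVec, Matrix.one_mulVec]
    · rw [hBf, Matrix.toLinAlgEquiv'_apply, Matrix.toLinAlgEquiv'_apply, Matrix.sub_mulVec, Matrix.sub_mulVec,
        Matrix.one_mulVec, Matrix.one_mulVec, add_sub_cancel, add_sub_cancel]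
      exact CfsgLib.SpGeom.form_mulVec y u v
  rcases eq_or_ne r p with hrp | hrp
  · subst hrp
    rcases eq_or_ne r 2 with hp2 | hp2
    · -- characteristic two
      subst hp2
      haveI : CharP F 2 := inferInstance
      have key : (∀ x : ↥(Matrix.symplecticGroup (Fin d) F),
          (∃ z : F, ((x ^ 2 : ↥(Matrix.symplecticGroup (Fin d) F)) : Matrix (Fin d ⊕ Fin d) (Fin d ⊕ Fin d) F) = z • (1 : Matrix (Fin d ⊕ Fin d) (Fin d ⊕ Fin d) F)) →
          (∀ z : F, (x : Matrix (Fin d ⊕ Fin d) (Fin d ⊕ Fin d) F) ≠ z • (1 : Matrix (Fin d ⊕ Fin d) (Fin d ⊕ Fin d) F)) →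
          ∃ W : Submodule F (Fin d ⊕ Fin d → F), Module.finrank F ↥W = 2 * a ∧ (∀ u ∈ W, u ≠ 0 → ∃ v ∈ W, Cfsg.sympForm d F u v ≠ 0) ∧
            W.map (Matrix.toLin' (x : Matrix (Fin d ⊕ Fin d) (Fin d ⊕ Fin d) F)) ≤ W) ↔
          ((2 * d) % 4 = 2 ∨ (2 * a) % 4 = 0) := by
        constructor
        · intro hall
          by_contra hneg
          push Not at hneg
          obtain ⟨e, rfl⟩ : ∃ e, d = e + e := ⟨d / 2, by omega⟩
          obtain ⟨S, hS⟩ : ∃ S : Matrix (Fin (e + e)) (Fin (e + e)) F,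
              S = Matrix.reindex finSumFinEquiv finSumFinEquiv (Matrix.J (Fin e) F) := ⟨_, rfl⟩
          have hSS : S * S = 1 := by
            rw [hS, Matrix.reindex_apply, Matrix.submatrix_mul_equiv, Matrix.J_squared]
            ext i j
            simp only [Matrix.submatrix_apply, Matrix.neg_apply, CharTwo.neg_eq, Matrix.one_apply,
              EmbeddingLike.apply_eq_iff_eq]
          have hSt : S.transpose = S := by
            rw [hS, Matrix.transpose_reindex, Matrix.J_transpose]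
            ext i j
            simp [CharTwo.neg_eq]
          obtain ⟨x, hx⟩ : ∃ x : Matrix.symplecticGroup (Fin (e + e)) F,
              (x : Matrix (Fin (e + e) ⊕ Fin (e + e)) (Fin (e + e) ⊕ Fin (e + e)) F) = Matrix.fromBlocks 1 S 0 1 :=
            ⟨⟨_, CfsgLib.Symp.upperSym_mem S hSt⟩, rfl⟩
          have hx2 : (x : Matrix (Fin (e + e) ⊕ Fin (e + e)) (Fin (e + e) ⊕ Fin (e + e)) F) ^ 2 = 1 := by
            have hSS0 : S + S = 0 := Matrix.ext fun i j => CharTwo.add_self_eq_zero (S i j)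
            rw [hx, pow_two, Matrix.fromBlocks_multiply, ← Matrix.fromBlocks_one]
            simp [hSS0]
          obtain ⟨N, hN, hNiso, hNpow⟩ := hnil x
          obtain ⟨W, hWd, hWn, hWT⟩ := hall x ⟨1, by rw [one_smul, SubmonoidClass.coe_pow, hx2]⟩ (fun z hz => by
            rw [hx, ← Matrix.fromBlocks_one, Matrix.fromBlocks_smul, smul_zero] at hz
            have h1 := (Matrix.fromBlocks_inj.mp hz).2.1
            rw [h1, Matrix.zero_mul] at hSS
            have := congrFun (congrFun hSS ⟨0, by omega⟩) ⟨0, by omega⟩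
            simp at this)
          have hval : ∀ v, N v = Sum.elim (S.mulVec (v ∘ Sum.inr)) 0 := fun v => by
            rw [hN, hx, Matrix.fromBlocks_mulVec]
            funext i
            rcases i with i | i <;> simp
          have hNW : ∀ v ∈ W, N v ∈ W := fun v hv => by
            rw [hN]; exact W.sub_mem (hWT ⟨v, hv, Matrix.toLin'_apply _ _⟩) hv
          obtain ⟨W', -, hNW', hW', hsup, hdis, -⟩ := split_part hBa hNiso (hND' W hWn) hBn le_top hNW
            (fun _ _ => Submodule.mem_top)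
          have halt : ∀ v, Bf v (N v) = 0 := fun v => by
            rw [hBf, hval]
            show Cfsg.sympForm (e + e) F v (Sum.elim (S.mulVec (v ∘ Sum.inr)) 0) = 0
            rw [CfsgLib.SpGeom.form_def]
            refine Eq.trans ?_ (CfsgLib.SpGeom.form_self (F := F) (m := e) ((v ∘ Sum.inr) ∘ finSumFinEquiv))
            rw [Cfsg.sympForm, dotProduct, ← finSumFinEquiv.sum_comp]
            refine Finset.sum_congr rfl fun i _ => ?_
            simp only [Sum.elim_inl, Sum.elim_inr, Pi.zero_apply, mul_zero, sub_zero, Function.comp_apply, hS,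
              Matrix.reindex_apply, Matrix.submatrix_mulVec_equiv, Equiv.symm_apply_apply, Equiv.symm_symm]
          have hrange : Module.finrank F ↥((⊤ : Submodule F (Fin (e + e) ⊕ Fin (e + e) → F)).map (N ^ 1)) = e + e := by
            let ι : (Fin (e + e) → F) →ₗ[F] (Fin (e + e) ⊕ Fin (e + e) → F) :=
              { toFun := fun w => Sum.elim w 0
                map_add' := fun x y => by funext i; rcases i with i | i <;> simp
                map_smul' := fun c x => by funext i; rcases i with i | i <;> simp }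
            have h1 : (⊤ : Submodule F (Fin (e + e) ⊕ Fin (e + e) → F)).map (N ^ 1) = LinearMap.range ι := by
              rw [pow_one, Submodule.map_top]
              refine le_antisymm ?_ ?_
              · rintro _ ⟨v, rfl⟩; exact ⟨_, (hval v).symm⟩
              · rintro _ ⟨w, rfl⟩
                refine ⟨Sum.elim 0 (S.mulVec w), ?_⟩
                rw [hval, Sum.elim_comp_inr, Matrix.mulVec_mulVec, hSS, Matrix.one_mulVec]
                rfl
            rw [h1, LinearMap.finrank_range_of_inj, Module.finrank_fin_fun]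
            intro x y hxy
            funext i
            exact congrFun hxy (Sum.inl i)
          have hsum := finrank_map_sup hdis hNW hNW' 1
          rw [hsup, hrange] at hsum
          have hN2 : ∀ v, N (N v) = 0 := fun v => by
            rw [hval (N v), hval v, Sum.elim_comp_inr, Matrix.mulVec_zero]
            funext i; rcases i with i | i <;> simp
          have hhalf : ∀ T : Submodule F (Fin (e + e) ⊕ Fin (e + e) → F), (∀ v ∈ T, N v ∈ T) →
              ∃ K : ℕ, K = Module.finrank F (LinearMap.ker (N.domRestrict T)) ∧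
                Module.finrank F ↥(T.map (N ^ 1)) + K = Module.finrank F T ∧ Module.finrank F ↥(T.map (N ^ 1)) ≤ K := by
            intro T hT
            refine ⟨_, rfl, ?_, ?_⟩
            · rw [pow_one, ← LinearMap.range_domRestrict]
              exact LinearMap.finrank_range_add_finrank_ker _
            · rw [← Submodule.finrank_map_subtype_eq T (LinearMap.ker (N.domRestrict T)), pow_one]
              refine Submodule.finrank_mono ?_
              rintro _ ⟨v, hv, rfl⟩
              exact ⟨⟨N v, hT v hv⟩, hN2 v, rfl⟩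
          obtain ⟨K, hK, hKd, hKle⟩ := hhalf W hNW
          obtain ⟨K', -, hK'd, hK'le⟩ := hhalf W' hNW'
          have htot := Submodule.finrank_sup_add_finrank_inf_eq W W'
          rw [hsup, hdis, finrank_bot, finrank_top, Module.finrank_pi, Fintype.card_sum, Fintype.card_fin] at htot
          let β : LinearMap.BilinForm F W := LinearMap.mk₂ F (fun u v => Bf u.1 (N v.1))
            (fun _ _ _ => by simp) (fun _ _ _ => by simp) (fun _ _ _ => by simp) (fun _ _ _ => by simp)
          have hβa : β.IsAlt := fun v => halt v.1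
          have hev := CfsgLib.NilType.even_sub_radical β hβa (LinearMap.ker (N.domRestrict W)) fun u => by
            constructor
            · intro hu v
              rw [← LinearMap.IsAlt.neg hβa]
              show -(Bf v.1 (N u.1)) = 0
              rw [show N u.1 = 0 from hu, map_zero, neg_zero]
            · intro hall'
              refine hND' W hWn (N u.1) (hNW _ u.2) fun w hw => ?_
              have := hall' ⟨w, hw⟩
              rw [← LinearMap.IsAlt.neg hβa, neg_eq_zero] at this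
              exact alt_refl hBa _ _ this
          obtain ⟨c', hc'⟩ := hev
          omega
        · intro hcond x hx1 _
          obtain ⟨z, hz⟩ := hx1
          obtain ⟨hS, hV⟩ := setting_of_symplectic (by omega : 0 < d) x hz
          obtain ⟨W, hWd, hWn, hWT⟩ := exists_nd_planes hS hV (d := d) (k := a)
            (by rw [Module.finrank_pi, Fintype.card_sum, Fintype.card_fin, two_mul]) (by omega) (by
              rcases hcond with h | h
              · exact Or.inl (Nat.odd_iff.mpr (by omega))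
              · exact Or.inr (Nat.even_iff.mpr (by omega)))
          exact ⟨W, hWd, hND W (by rw [hBf]; exact hWn), Submodule.map_le_iff_le_comap.mpr hWT⟩
      rw [key]
      refine ⟨fun h => Or.inr (Or.inl ⟨rfl, rfl, h⟩), ?_⟩
      rintro (⟨-, h, -⟩ | ⟨-, -, h⟩ | ⟨-, h⟩ | ⟨h, -⟩)
      · exact absurd h (lt_irrefl 2)
      · exact h
      · exact absurd rfl h
      · exact absurd rfl h
    · -- odd characteristic, unipotent elements
      have h2 : (2 : F) ≠ 0 := Ring.two_ne_zero (by rw [ringChar.eq F r]; exact hp2)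
      have hfr : ∀ M : Matrix (Fin d ⊕ Fin d) (Fin d ⊕ Fin d) F, (M - 1) ^ r = M ^ r - 1 := fun M => by
        rw [sub_pow_char_of_commute r (Commute.one_right M), one_pow]
      have htop : ∀ (N : Module.End F (Fin d ⊕ Fin d → F)) (μ : Multiset ℕ), SizesOn N ⊤ μ → μ.sum = 2 * d :=
        fun N μ h => by rw [← h.finrank_eq, finrank_top, Module.finrank_pi, Fintype.card_sum, Fintype.card_fin, two_mul]
      constructor
      · intro hall
        refine Or.inl ⟨rfl, lt_of_le_of_ne hr.two_le (Ne.symm hp2), fun μ hμp hμe hμs => ?_⟩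
        by_cases hone : ∀ b ∈ μ, b = 1
        · refine ⟨Multiset.replicate (2 * a) 1, ?_, by simp, fun b _ => ?_⟩
          · rw [Multiset.eq_replicate_of_mem hone, Multiset.replicate_le_replicate]
            have := congrArg Multiset.sum (Multiset.eq_replicate_of_mem hone)
            rw [hμs, Multiset.sum_replicate, smul_eq_mul, mul_one] at this
            omega
          · rw [Multiset.count_replicate]
            split_ifs
            · exact even_two_mul a
            · exact Even.zero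
        obtain ⟨A, hA, -, hAs⟩ := CfsgLib.NilType.exists_symp
          (CfsgLib.NilType.RealSp.of_count (F := F) μ (fun b hb => (hμp b hb).1) hμe) hμs
        obtain ⟨N, hN, hNiso, hNpow⟩ := hnil ⟨A, hA⟩
        have hsz : SizesOn N ⊤ μ := fun j => by
          rw [Submodule.map_top, hNpow, map_pow, ← CfsgLib.NilType.rank_pow_eq']
          exact hAs j
        have hAr : A ^ r = 1 := by
          have h0 : Module.finrank F ↥((⊤ : Submodule F (Fin d ⊕ Fin d → F)).map (N ^ r)) = 0 := by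
            rw [hsz r, Multiset.sum_eq_zero]
            intro b hb
            obtain ⟨b', hb', rfl⟩ := Multiset.mem_map.mp hb
            have := (hμp b' hb').2
            omega
          rw [Submodule.finrank_eq_zero, Submodule.map_top, LinearMap.range_eq_bot, hNpow,
            map_eq_zero_iff _ Matrix.toLinAlgEquiv'.injective, hfr, sub_eq_zero] at h0
          exact h0
        obtain ⟨W, hWd, hWn, hWT⟩ := hall ⟨A, hA⟩ ⟨1, by rw [one_smul, SubmonoidClass.coe_pow]; exact hAr⟩ (fun z hz => by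
          have hz' : A = z • (1 : Matrix (Fin d ⊕ Fin d) (Fin d ⊕ Fin d) F) := hz
          have h1 : z - 1 = 0 := by
            have h3 : (A - 1) ^ r = 0 := by rw [hfr, hAr, sub_self]
            rw [hz', ← one_smul F (1 : Matrix (Fin d ⊕ Fin d) (Fin d ⊕ Fin d) F), smul_smul, mul_one, ← sub_smul,
              _root_.smul_pow, one_pow, smul_eq_zero] at h3
            exact eq_zero_of_pow_eq_zero (h3.resolve_right one_ne_zero)
          have h3 : Module.finrank F ↥((⊤ : Submodule F (Fin d ⊕ Fin d → F)).map (N ^ 1)) = 0 := by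
            rw [Submodule.finrank_eq_zero, Submodule.map_top, LinearMap.range_eq_bot, hNpow, pow_one]
            show Matrix.toLinAlgEquiv' (A - 1) = 0
            rw [hz', sub_eq_zero.mp h1, one_smul, sub_self, map_zero]
          rw [hsz 1, Multiset.sum_eq_zero_iff] at h3
          refine hone fun b hb => ?_
          have h4 : b - 1 = 0 := h3 _ (Multiset.mem_map_of_mem (fun a => a - 1) hb)
          have := (hμp b hb).1
          omega)
        have hNW : ∀ v ∈ W, N v ∈ W := fun v hv => by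
          rw [hN]; exact W.sub_mem (hWT ⟨v, hv, Matrix.toLin'_apply _ _⟩) hv
        obtain ⟨W', -, hNW', hW', hsup, hdis, -⟩ := split_part hBa hNiso (hND' W hWn) hBn le_top hNW
          (fun _ _ => Submodule.mem_top)
        have hNr : N ^ r = 0 := by rw [hNpow, hfr, hAr, sub_self, map_zero]
        obtain ⟨ν, hνp, hνe, hνs⟩ := exists_sizes hA hN hNr hNW (hBf ▸ hND' W hWn)
        obtain ⟨ν', hν'p, hν'e, hν's⟩ := exists_sizes hA hN hNr hNW' (hBf ▸ hW')
        have hμeq : μ = ν + ν' := sizes_unique (fun b hb => (hμp b hb).1) (fun b hb => by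
            rcases Multiset.mem_add.mp hb with h | h
            · exact (hνp b h).1
            · exact (hν'p b h).1) fun j => by
          rw [Multiset.map_add, Multiset.sum_add, ← hsz j, ← hνs j, ← hν's j, ← hsup]
          exact finrank_map_sup hdis hNW hNW' j
        exact ⟨ν, hμeq ▸ Multiset.le_add_right ν ν', hνs.finrank_eq.symm.trans hWd, hνe⟩
      · rintro (⟨-, -, hpart⟩ | ⟨-, h, -⟩ | ⟨h, -⟩ | ⟨h, -⟩) x ⟨z, hz⟩ -
        · have hz2 : z * z = 1 := hformx x z hz
          have hzm : (x : Matrix (Fin d ⊕ Fin d) (Fin d ⊕ Fin d) F) ^ r = z • 1 := by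
            rw [← hz, SubmonoidClass.coe_pow]
          obtain ⟨y, hydef⟩ : ∃ y, y = z • (x : Matrix (Fin d ⊕ Fin d) (Fin d ⊕ Fin d) F) := ⟨_, rfl⟩
          have hy : y ∈ Matrix.symplecticGroup (Fin d) F := CfsgLib.SpGeom.mem_of_form fun u v => by
            rw [hydef, Matrix.smul_mulVec, Matrix.smul_mulVec, CfsgLib.SpGeom.form_smul_left,
              CfsgLib.SpGeom.form_smul_right, ← mul_assoc, hz2, one_mul, CfsgLib.SpGeom.form_mulVec]
          have hyr : y ^ r = 1 := by
            obtain ⟨l, hl⟩ := hr.odd_of_ne_two hp2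
            rw [hydef, _root_.smul_pow, hzm, smul_smul, ← pow_succ, show r + 1 = 2 * (l + 1) by omega, pow_mul, pow_two,
              hz2, one_pow, one_smul]
          obtain ⟨N, hN, hNiso, hNpow⟩ := hnil ⟨y, hy⟩
          have hNr : N ^ r = 0 := by rw [hNpow, hfr, hyr, sub_self, map_zero]
          obtain ⟨μ, hμp, hμe, hμs⟩ := exists_sizes hy hN hNr (S := ⊤) (fun _ _ => Submodule.mem_top) (hBf ▸ hBn)
          obtain ⟨ν, hνμ, hνs, hνe⟩ := hpart μ hμp hμe (htop N μ hμs)
          obtain ⟨W, -, hNW, hWn, hWd⟩ := exists_sub_of_sizes hBa hNiso h2 μ (fun b hb => (hμp b hb).1) hμe ⊤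
            (fun _ _ => Submodule.mem_top) hBn hμs ν hνμ hνe
          refine ⟨W, hWd.trans hνs, hND W hWn, ?_⟩
          rintro _ ⟨v, hv, rfl⟩
          have hxy : (x : Matrix (Fin d ⊕ Fin d) (Fin d ⊕ Fin d) F) = z • y := by
            rw [hydef, smul_smul, hz2, one_smul]
          rw [Matrix.toLin'_apply, hxy, Matrix.smul_mulVec]
          refine W.smul_mem _ ?_
          have h1 := W.add_mem (hNW v hv) hv
          rw [hN, sub_add_cancel] at h1
          exact h1
        · exact absurd h hp2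
        · exact absurd h hp2
        · exact absurd rfl h
  rcases eq_or_ne r 2 with hr2 | hr2
  · -- involutions in odd characteristic
    subst hr2
    have h2 : (2 : F) ≠ 0 := Ring.two_ne_zero (by rw [ringChar.eq F p]; exact Ne.symm hrp)
    refine iff_of_true ?_ (Or.inr (Or.inr (Or.inl ⟨rfl, Ne.symm hrp⟩)))
    intro x hx1 _
    obtain ⟨z, hz⟩ := hx1
    obtain ⟨hS, hV⟩ := setting_of_symplectic (by omega : 0 < d) x hz
    obtain ⟨W, -, hWd, hWn, hWT⟩ := exists_nd_even hS h2 (hformx x z hz) a ⊤ hV (fun _ _ => Submodule.mem_top)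
      (by rw [finrank_top, Module.finrank_pi, Fintype.card_sum, Fintype.card_fin]; omega)
    exact ⟨W, hWd, hND W (by rw [hBf]; exact hWn), Submodule.map_le_iff_le_comap.mpr hWT⟩
  -- odd primes other than the characteristic
  have hrq : ¬ r ∣ Fintype.card F := fun hd => by
    obtain ⟨k, hpp, hk⟩ := FiniteField.card F p
    rw [hk] at hd
    exact hrp ((Nat.prime_dvd_prime_iff_eq hr hpp).mp (hr.dvd_of_dvd_pow hd))
  obtain ⟨j, hj, hrj⟩ := count_data hr hrq (by omega : a ≤ d) hrΩ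
  obtain ⟨u, hu⟩ := exists_unit_card (F := F) (r := r) (p := p) (q := Fintype.card F) dvd_rfl hrp
  obtain ⟨h, hh, hinv⟩ := exists_multiplier u hr2
  have hui : orderOf u = i := by rw [← orderOf_units, hu, hi]
  have hch : orderOf h = c := by
    rw [hh, hc, hui]
    rcases Nat.even_or_odd i with he | ho
    · rw [if_pos he, if_neg (Nat.not_odd_iff_even.mpr he)]
    · rw [if_neg (Nat.not_even_iff_odd.mpr ho), if_pos ho]
  have hi0 : 0 < i := hui ▸ orderOf_pos u
  have hc2 : 2 ≤ c := by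
    rw [hc]
    split_ifs with he
    · obtain ⟨e, he⟩ := he; omega
    · omega
  have hh1 : h ≠ 1 := fun e => by rw [e, orderOf_one] at hch; omega
  have hcr : c ≤ r - 1 := by
    have h1 : orderOf h ∣ r - 1 := by rw [← ZMod.card_units r]; exact orderOf_dvd_card
    rw [hch] at h1
    exact Nat.le_of_dvd (by have := hr.two_le; omega) h1
  have hcj : c ∣ 2 * (d - j) := by
    have hij : i ∣ 2 * (d - j) := by
      rw [hi]
      refine orderOf_dvd_of_pow_eq_one ?_
      have h1 := (ZMod.natCast_eq_zero_iff _ r).mpr hrj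
      rw [Nat.cast_sub (Nat.one_le_pow _ _ Fintype.card_pos), Nat.cast_pow, Nat.cast_one, sub_eq_zero] at h1
      exact h1
    rw [hc]
    split_ifs with he
    · exact hij
    · exact (Nat.coprime_two_left.mpr (Nat.not_even_iff_odd.mp he)).mul_dvd_of_dvd_of_dvd (dvd_mul_right 2 _) hij
  have hcn : c ≤ 2 * d := (Nat.le_of_dvd (by omega) hcj).trans (by omega)
  have hncm : 2 * d % c < 2 * a := by
    obtain ⟨e, he⟩ := hcj
    rw [show 2 * d = 2 * j + c * e by omega, Nat.add_mul_mod_self_left]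
    exact (Nat.mod_le _ _).trans_lt (by omega)
  obtain ⟨P, hP, hLfin, hζ⟩ := exists_root_field F hr (natCast_ne_zero hrp)
  constructor
  · intro hall
    refine Or.inr (Or.inr (Or.inr ⟨hrp, by have := hr.two_le; omega, ?_⟩))
    have hdiv := Nat.mod_add_div (2 * d) c
    have hk0 : 1 ≤ 2 * d / c := Nat.div_pos hcn (by omega)
    have hck : c ≤ c * (2 * d / c) := Nat.le_mul_of_pos_right c hk0
    obtain ⟨f, hf, hf0, hfs⟩ : ∃ f : ZMod r → ℕ, (∀ x, f (x * (h : ZMod r)) = f x) ∧ f 0 = 2 * d % c ∧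
        ∑ x, f x = 2 * d := by
      obtain ⟨k, hk, hsub⟩ := orbit_data h (fun x : ZMod r => if x = 0 then 2 * d % c else 2 * d / c)
        (fun x => by simp only [mul_eq_zero, h.ne_zero, or_false])
      rw [hch] at hk
      have hk' : 2 * d / c ≤ k := by
        rw [if_pos rfl, sum_zmod] at hk
        simp only [if_pos, Units.ne_zero, if_false, Finset.sum_const, Finset.card_univ, ZMod.card_units, smul_eq_mul] at hk
        have h1 : c * (2 * d / c) ≤ (r - 1) * (2 * d / c) := Nat.mul_le_mul_right _ hcr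
        exact Nat.le_of_mul_le_mul_left (by omega) (show 0 < c by omega)
      obtain ⟨g, hg, hg0, -, hgs⟩ := hsub (2 * d % c) (by simp) _ hk'
      exact ⟨g, hg, hg0, by rw [hgs, hch]; omega⟩
    obtain ⟨x, hxr, hxns, hxm⟩ := exists_witness (F := F) hζ hrp hr2 hu hinv hh1 f hf hfs (by rw [hf0]; omega)
    obtain ⟨W, hWd, hWn, hWT⟩ := hall x ⟨1, by rw [one_smul, SubmonoidClass.coe_pow, hxr]⟩ hxns
    obtain ⟨g, hg, hgs, hgle⟩ := nondeg_mult (F := F) hζ hrp hu hinv x.2 hxr W
      (fun v hv => hWT ⟨v, hv, Matrix.toLin'_apply _ _⟩) hWn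
    obtain ⟨K, hK, -⟩ := orbit_data h g hg
    rw [hgs, hWd, hch] at hK
    have hℓ : 2 * a % c ≤ 2 * d % c := by
      have h1 : 2 * a % c ≤ g 0 := by rw [← hK, Nat.add_mul_mod_self_left]; exact Nat.mod_le _ _
      have h2 := (hgle 0).trans (hxm 0).le
      omega
    refine ⟨?_, hℓ⟩
    by_contra hlt
    rw [Nat.mod_eq_of_lt (not_le.mp hlt)] at hℓ
    omega
  · rintro (⟨h', -, -⟩ | ⟨h', -, -⟩ | ⟨h', -⟩ | ⟨-, -, -, hℓ⟩) x ⟨z, hz⟩ -
    · exact absurd h' hrp
    · exact absurd h' hrp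
    · exact absurd h' hr2
    have hz2 : z * z = 1 := hformx x z hz
    have hzm : (x : Matrix (Fin d ⊕ Fin d) (Fin d ⊕ Fin d) F) ^ r = z • 1 := by rw [← hz, SubmonoidClass.coe_pow]
    obtain ⟨y, hydef⟩ : ∃ y, y = z • (x : Matrix (Fin d ⊕ Fin d) (Fin d ⊕ Fin d) F) := ⟨_, rfl⟩
    have hy : y ∈ Matrix.symplecticGroup (Fin d) F := CfsgLib.SpGeom.mem_of_form fun u v => by
      rw [hydef, Matrix.smul_mulVec, Matrix.smul_mulVec, CfsgLib.SpGeom.form_smul_left, CfsgLib.SpGeom.form_smul_right,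
        ← mul_assoc, hz2, one_mul, CfsgLib.SpGeom.form_mulVec]
    have hyr : y ^ r = 1 := by
      obtain ⟨l, hl⟩ := hr.odd_of_ne_two hr2
      rw [hydef, _root_.smul_pow, hzm, smul_smul, ← pow_succ, show r + 1 = 2 * (l + 1) by omega, pow_mul, pow_two, hz2,
        one_pow, one_smul]
    obtain ⟨f, hfdef⟩ : ∃ f : ZMod r → ℕ, f = mult (AdjoinRoot.root P) y := ⟨_, rfl⟩
    have hfh : ∀ w, f (w * (h : ZMod r)) = f w := by
      rw [hfdef]
      exact form_mult_inv hζ hrp hu hinv (Matrix.isUnit_det_J _ _) hyr (SymplecticGroup.mem_iff'.mp hy)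
    have hfs : ∑ w, f w = 2 * d := by rw [hfdef, sum_mult hζ hyr, Fintype.card_sum, Fintype.card_fin, two_mul]
    obtain ⟨k, hk, hsub⟩ := orbit_data h f hfh
    rw [hfs, hch] at hk
    obtain ⟨α, β, α', β', hαβ, -, hα, hβ⟩ := choice_one (n := 2 * d) (m := 2 * a) (i := c) (e := f 0) (k := k)
      hk (by omega) hℓ
    obtain ⟨g, hg, -, hgle, hgs⟩ := hsub α (by omega) β (by omega)
    rw [hch, hαβ] at hgs
    obtain ⟨B, hB, hBr, hBm, W, hWd, hWn, hWB⟩ := exists_nd_model (F := F) hζ hrp hr2 hu hinv f g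
      (Nat.add_sub_cancel' (show a ≤ d by omega)) hfh hg hfs hgs hgle
    obtain ⟨g', hg'⟩ := symp_conj_of_mult hζ hrp hy hB hyr hBr fun w => by rw [hBm, hfdef]
    obtain ⟨E, hE⟩ : ∃ E, E = Matrix.toLin' (g' : Matrix (Fin d ⊕ Fin d) (Fin d ⊕ Fin d) F) := ⟨_, rfl⟩
    have hEi : Function.Injective E := fun u v e => by
      have := congrArg (((g'⁻¹ : Matrix.symplecticGroup (Fin d) F) : Matrix (Fin d ⊕ Fin d) (Fin d ⊕ Fin d) F).mulVec) e
      simpa only [hE, Matrix.toLin'_apply, CfsgLib.SpGeom.inv_mulVec] using this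
    refine ⟨W.map E, by rw [← (Submodule.equivMapOfInjective _ hEi W).finrank_eq, hWd], ?_, ?_⟩
    · rintro _ ⟨b, hb, rfl⟩ hne
      obtain ⟨v, hv, hbv⟩ := hWn b hb fun e => hne (by rw [e, map_zero])
      exact ⟨_, ⟨v, hv, rfl⟩, by rw [hE, Matrix.toLin'_apply, Matrix.toLin'_apply, CfsgLib.SpGeom.form_mulVec]; exact hbv⟩
    · have hxy : (x : Matrix (Fin d ⊕ Fin d) (Fin d ⊕ Fin d) F) = z • y := by
        rw [hydef, smul_smul, hz2, one_smul]
      rintro _ ⟨_, ⟨v, hv, rfl⟩, rfl⟩
      refine ⟨z • B.mulVec v, Submodule.smul_mem _ _ (hWB v hv), ?_⟩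
      rw [map_smul, hE, Matrix.toLin'_apply, Matrix.toLin'_apply, Matrix.toLin'_apply, hxy, Matrix.smul_mulVec,
        Matrix.mulVec_mulVec, Matrix.mulVec_mulVec, hg']

end Cfsg.Agent.S5956
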