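import Cfsg.Statements.S5957
import Mathlib
import Cfsg.Agent.MonomialInvol.Perm
import Cfsg.Agent.MonomialInvol.Basic

set_option autoImplicit false
open scoped MatrixGroups
open Cfsg

namespace Cfsg.Agent.S5957

/-- Involutions of PSL_n(q) and imprimitive subgroups. Here `T = PSL_n(F)` for a field `F` with `q = p^f` elements (`n ≥ 2`, `(n, q) ≠ (2, 2), (2, 3)`), `n = a·t` with `t ≥ 2`, and Ω is the set of direct-sum decompositions of `F^n` into `t` subspaces of dimension `a` (unordered; their number is the number of ordered ones divided by `t!`), whose stabilizers are the imprimitive subgroups of type GL_a(q) ≀ S_t (maximal except in some small cases; maximality is not assumed); an element of `T` of prime order `r` (a matrix `x` of determinant 1 with `x^r` scalar, `x` not scalar) fixes a point of Ω when it permutes the summands of some such decomposition. If the number of such decompositions is even, then every involution of `T` stabilizes one of them (the action is 2-elusive). -/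
theorem result {F : Type*} [Field F] [Fintype F] {p : ℕ} [Fact p.Prime] [CharP F p] {q : ℕ} (hq : Fintype.card F = q)
    (n a t : ℕ) (hn : 2 ≤ n) (hT : (n, q) ≠ (2, 2) ∧ (n, q) ≠ (2, 3)) (hat : n = a * t) (ha : 1 ≤ a) (ht : 2 ≤ t)
    (hΩ : 2 ∣ Nat.card {D : Fin t → Submodule F (Fin n → F) // Cfsg.Geo.IsMDecomposition a D} / Nat.factorial t)
    (x : Matrix.SpecialLinearGroup (Fin n) F)
    (hx1 : ∃ z : F, ((x ^ 2 : Matrix.SpecialLinearGroup (Fin n) F) : Matrix (Fin n) (Fin n) F) = z • (1 : Matrix (Fin n) (Fin n) F))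
    (hx2 : ∀ z : F, (x : Matrix (Fin n) (Fin n) F) ≠ z • (1 : Matrix (Fin n) (Fin n) F)) :
    ∃ D : Fin t → Submodule F (Fin n → F), Cfsg.Geo.IsMDecomposition a D ∧
        ∃ σ : Equiv.Perm (Fin t), ∀ j, (D j).map (Matrix.toLin' (x : Matrix (Fin n) (Fin n) F)) = D (σ j) := by
  classical
  obtain ⟨z, hz⟩ := hx1
  haveI : Nonempty (Fin n) := ⟨⟨0, by omega⟩⟩
  set X : Module.End F (Fin n → F) := Matrix.toLin' (x : Matrix (Fin n) (Fin n) F) with hX
  have hxx : (x : Matrix (Fin n) (Fin n) F) * (x : Matrix (Fin n) (Fin n) F) = z • 1 := by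
    rw [← hz, Matrix.SpecialLinearGroup.coe_pow, pow_two]
  have hz0 : z ≠ 0 := by
    intro h
    have := congrArg Matrix.det hxx
    rw [Matrix.det_mul, Matrix.SpecialLinearGroup.det_coe, h, zero_smul, Matrix.det_zero, mul_one] at this
    exact one_ne_zero this
  have hXX : ∀ v, X (X v) = z • v := fun v => by
    rw [hX, Matrix.toLin'_apply, Matrix.toLin'_apply, Matrix.mulVec_mulVec, hxx, Matrix.smul_mulVec, Matrix.one_mulVec]
  obtain ⟨ι, hι, hιd, e, π, hπ, hmon⟩ := CfsgLib.MonomialInvol.hasMonomialBasis hz0 hXX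
  have hcard : Fintype.card ι = t * a := by
    rw [← Module.finrank_eq_card_basis e, Module.finrank_fin_fun, hat, mul_comm]
  obtain ⟨g, σ, hg⟩ := CfsgLib.MonomialInvol.exists_equipartition t a hcard π hπ
  set b := e.reindex g.symm with hb
  have hbapp : ∀ p, b p = e (g p) := fun p => by rw [hb, Module.Basis.reindex_apply, Equiv.symm_symm]
  let D : Fin t → Submodule F (Fin n → F) := fun j => Submodule.span F (Set.range fun i => b (j, i))
  refine ⟨D, ⟨ht, ha, fun j => ?_, ?_, ?_⟩, σ, fun j => ?_⟩
  · show Module.finrank F (Submodule.span F (Set.range fun i => b (j, i))) = a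
    exact (finrank_span_eq_card (b.linearIndependent.comp _ (Prod.mk_right_injective j))).trans (Fintype.card_fin a)
  · intro j
    refine (b.linearIndependent.disjoint_span_image (s := {p | p.1 = j}) (t := {p | p.1 ≠ j})
      (Set.disjoint_left.2 fun p h1 h2 => h2 h1)).mono ?_ ?_
    · refine Submodule.span_mono ?_
      rintro _ ⟨i, rfl⟩; exact ⟨(j, i), rfl, rfl⟩
    · refine iSup₂_le fun k hk => Submodule.span_mono ?_
      rintro _ ⟨i, rfl⟩; exact ⟨(k, i), hk, rfl⟩
  · rw [eq_top_iff, ← b.span_eq, Submodule.span_le]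
    rintro _ ⟨⟨j, i⟩, rfl⟩
    exact Submodule.mem_iSup_of_mem j (Submodule.subset_span ⟨i, rfl⟩)
  · have key : ∀ j, (D j).map X ≤ D (σ j) := by
      intro j
      rw [Submodule.map_span, Submodule.span_le]
      rintro _ ⟨_, ⟨i, rfl⟩, rfl⟩
      obtain ⟨s, -, hs⟩ := hmon (g (j, i))
      show X (b (j, i)) ∈ D (σ j)
      rw [hbapp, hs]
      refine Submodule.smul_mem _ _ (Submodule.subset_span ⟨(g.symm (π (g (j, i)))).2, ?_⟩)
      show b (σ j, (g.symm (π (g (j, i)))).2) = _
      rw [hbapp, ← hg (j, i), Prod.mk.eta, Equiv.apply_symm_apply]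
    refine Submodule.eq_of_le_of_finrank_eq (key j) ?_
    have hinj : Function.Injective X := fun u v h => by
      have := congrArg X h
      rw [hXX, hXX] at this
      exact smul_right_injective _ hz0 this
    rw [← LinearEquiv.finrank_eq (Submodule.equivMapOfInjective X hinj (D j))]
    exact (finrank_span_eq_card (b.linearIndependent.comp _ (Prod.mk_right_injective j))).trans
      (finrank_span_eq_card (b.linearIndependent.comp _ (Prod.mk_right_injective (σ j)))).symm


end Cfsg.Agent.S5957
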