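import Cfsg.Statements.S5979
import Cfsg.Agent.SubElusive.Tensor
import Cfsg.Agent.SubElusive.Cases
import Cfsg.Agent.SubElusive.Main
import Cfsg.Agent.S5967
import Cfsg.Agent.SL2.Basic

set_option autoImplicit false
open scoped MatrixGroups
open Cfsg

namespace Cfsg.Agent.S5979

open CfsgLib.SubElusive Polynomial
open scoped Matrix Kronecker

theorem charpoly_two_values {F : Type*} [Field F] {ι : Type*} [Fintype ι] (d : ι → Bool) (s : F) :
    ∏ j, (X - C (if d j then s else -s)) =
      (X - C s) ^ (Finset.univ.filter fun j => d j = true).card *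
        (X - C (-s)) ^ (Finset.univ.filter fun j => d j = false).card := by
  rw [← Finset.prod_filter_mul_prod_filter_not Finset.univ (fun j => d j = true)]
  congr 1
  · exact Finset.prod_eq_pow_card fun j hj => by rw [if_pos (Finset.mem_filter.mp hj).2]
  · rw [show (Finset.univ.filter fun j => ¬ d j = true) = Finset.univ.filter fun j => d j = false by simp]
    exact Finset.prod_eq_pow_card fun j hj => by rw [if_neg (by simp [(Finset.mem_filter.mp hj).2])]

theorem cyclic_of_irreducible {F : Type*} [Field F] {a : ℕ} {A : Matrix (Fin a) (Fin a) F} (h : Irreducible A.charpoly)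
    {w : Fin a → F} (hw : w ≠ 0) (S : Submodule F (Fin a → F)) (hS : ∀ v ∈ S, Aᵀ *ᵥ v ∈ S) (hwS : w ∈ S) : S = ⊤ := by
  obtain ⟨f, hf⟩ : ∃ f : Module.End F (Fin a → F), f = Matrix.toLin' Aᵀ := ⟨_, rfl⟩
  have hle : S ≤ S.comap f := fun v hv => by
    rw [Submodule.mem_comap, hf, Matrix.toLin'_apply]; exact hS v hv
  have h1 := charpoly_eq_mul S f hle
  have hc : f.charpoly = A.charpoly := by rw [hf, Matrix.charpoly_toLin', Matrix.charpoly_transpose]
  rw [hc] at h1
  have hpos : 0 < Module.finrank F S := Module.finrank_pos_iff_exists_ne_zero.mpr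
    ⟨⟨w, hwS⟩, fun h0 => hw (congrArg Subtype.val h0)⟩
  have hdeg := congrArg natDegree h1
  rw [natDegree_mul (LinearMap.charpoly_monic _).ne_zero (LinearMap.charpoly_monic _).ne_zero,
    LinearMap.charpoly_natDegree, LinearMap.charpoly_natDegree, Matrix.charpoly_natDegree_eq_dim, Fintype.card_fin]
    at hdeg
  rcases h.isUnit_or_isUnit h1 with hu | hu
  · have := natDegree_eq_zero_of_isUnit hu
    rw [LinearMap.charpoly_natDegree] at this
    omega
  · have h2 := natDegree_eq_zero_of_isUnit hu
    rw [LinearMap.charpoly_natDegree] at h2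
    refine Submodule.eq_top_of_finrank_eq ?_
    rw [Module.finrank_fin_fun]
    omega

/-- Elements of prime order of PSL_n(q) and the stabilizers of tensor decompositions with factors of different dimensions. Here `T = PSL_n(F)` for a field `F` with `q` elements and `n = a·b` with `2 ≤ a < b`; a tensor decomposition `F^n ≅ F^a ⊗ F^b` is given by a bijection `e` of index sets and a change of basis `P`, and `H` is the subgroup of matrices of determinant 1 in its stabilizer (the conjugate by `P` of the group of Kronecker products `g₁ ⊗ g₂`) — a subgroup of type GL_a(q) ⊗ GL_b(q) (maximality is not assumed); Ω is the set of cosets of `H` in `T`, so an element of `T` of prime order `r` (a matrix `x` of determinant 1 with `x^r` scalar, `x` not scalar) fixes a point of Ω exactly when some conjugate of `x` by a matrix of determinant 1 lies in `H`. Let `r` be a prime dividing the index of `H`. Then every element of `T` of order `r` fixes a point of Ω if and only if `r = 2`, `a = 2`, `q` is odd and `(q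 − 1)_2 ≤ (n)_2` (2-parts). -/
theorem result {F : Type*} [Field F] [Fintype F] {p : ℕ} [Fact p.Prime] [CharP F p] {q : ℕ} (hq : Fintype.card F = q)
    (n a b : ℕ) (hab : n = a * b) (ha : 2 ≤ a) (hlt : a < b) (e : Fin n ≃ Fin a × Fin b) (P : GL (Fin n) F)
    (r : ℕ) [Fact r.Prime]
    (hΩ : r ∣ (Cfsg.Geo.tensorProductSubgroup a b e P).relIndex (Cfsg.Geo.specialLinear (Fin n) F)) :
    (∀ x ∈ Cfsg.Geo.specialLinear (Fin n) F, (∃ z : F, ((x ^ r : GL (Fin n) F) : Matrix (Fin n) (Fin n) F) = z • (1 : Matrix (Fin n) (Fin n) F)) →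
      (∀ z : F, (x : Matrix (Fin n) (Fin n) F) ≠ z • (1 : Matrix (Fin n) (Fin n) F)) →
      ∃ g ∈ Cfsg.Geo.specialLinear (Fin n) F, g⁻¹ * x * g ∈ Cfsg.Geo.tensorProductSubgroup a b e P) ↔
    (r = 2 ∧ a = 2 ∧ Odd q ∧ padicValNat 2 (q - 1) ≤ padicValNat 2 n) := by
  classical
  subst hq
  subst hab
  have hb : 3 ≤ b := by omega
  have hn2 : 6 ≤ a * b := by nlinarith
  -- elements of the subgroup
  have outof : ∀ x g : GL (Fin (a * b)) F, g⁻¹ * x * g ∈ Cfsg.Geo.tensorProductSubgroup a b e P →
      ∃ (A : GL (Fin a) F) (B : GL (Fin b) F),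
        (x : Matrix (Fin (a * b)) (Fin (a * b)) F).charpoly = ((A : Matrix (Fin a) (Fin a) F) ⊗ₖ (B : Matrix (Fin b) (Fin b) F)).charpoly ∧
        (∀ c : F, ((x : Matrix (Fin (a * b)) (Fin (a * b)) F) - c • 1).rank =
          ((A : Matrix (Fin a) (Fin a) F) ⊗ₖ (B : Matrix (Fin b) (Fin b) F) - c • 1).rank) ∧
        (∀ z : F, (A : Matrix (Fin a) (Fin a) F) ⊗ₖ (B : Matrix (Fin b) (Fin b) F) = z • 1 →
          (x : Matrix (Fin (a * b)) (Fin (a * b)) F) = z • 1) ∧
        ∀ m : ℕ, (x : Matrix (Fin (a * b)) (Fin (a * b)) F) ^ m = 1 →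
          ((A : Matrix (Fin a) (Fin a) F) ⊗ₖ (B : Matrix (Fin b) (Fin b) F)) ^ m = 1 := by
    intro x g hg
    obtain ⟨g₁, ⟨k, ⟨A, B, hAB⟩, rfl⟩, hk⟩ := hg
    refine ⟨A, B, ?_⟩
    obtain ⟨T, hT⟩ : ∃ T : GL (Fin (a * b)) F, T = g * P := ⟨_, rfl⟩
    obtain ⟨M, hM⟩ : ∃ M : Matrix (Fin (a * b)) (Fin (a * b)) F,
        M = Matrix.reindexAlgEquiv F F e.symm ((A : Matrix (Fin a) (Fin a) F) ⊗ₖ (B : Matrix (Fin b) (Fin b) F)) := ⟨_, rfl⟩
    have hxT : (x : Matrix (Fin (a * b)) (Fin (a * b)) F) * T = (T : Matrix (Fin (a * b)) (Fin (a * b)) F) * M := by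
      have h1 : x * T = T * Cfsg.Geo.glReindex e.symm k := by
        simp only [MulEquiv.coe_toMonoidHom, MulAut.conj_apply] at hk
        rw [hT, show g * P * Cfsg.Geo.glReindex e.symm k = g * (P * Cfsg.Geo.glReindex e.symm k * P⁻¹) * P by group, hk]
        group
      have h2 := congrArg (fun z : GL (Fin (a * b)) F => (z : Matrix (Fin (a * b)) (Fin (a * b)) F)) h1
      simp only [Units.val_mul] at h2
      rw [h2, hM, ← hAB]
      rfl
    have hTu : IsUnit (T : Matrix (Fin (a * b)) (Fin (a * b)) F).det := (Matrix.isUnit_iff_isUnit_det _).mp T.isUnit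
    have hxM : (x : Matrix (Fin (a * b)) (Fin (a * b)) F) =
        (T : Matrix (Fin (a * b)) (Fin (a * b)) F) * M * (T : Matrix (Fin (a * b)) (Fin (a * b)) F)⁻¹ := by
      rw [← hxT, Matrix.mul_nonsing_inv_cancel_right _ _ hTu]
    refine ⟨?_, fun c => ?_, fun z hz => ?_, fun m hm => ?_⟩
    · rw [hxM, Matrix.charpoly_mul_comm, ← Matrix.mul_assoc, Matrix.nonsing_inv_mul _ hTu, Matrix.one_mul, hM,
        Matrix.reindexAlgEquiv_apply, Matrix.charpoly_reindex]
    · rw [← Matrix.rank_mul_eq_left_of_isUnit_det _ _ hTu, Matrix.sub_mul, Matrix.smul_mul, Matrix.one_mul, hxT,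
        show (T : Matrix (Fin (a * b)) (Fin (a * b)) F) * M - c • (T : Matrix (Fin (a * b)) (Fin (a * b)) F) =
          (T : Matrix (Fin (a * b)) (Fin (a * b)) F) * (M - c • 1) by rw [Matrix.mul_sub, Matrix.mul_smul, Matrix.mul_one],
        Matrix.rank_mul_eq_right_of_isUnit_det _ _ hTu, hM, ← map_one (Matrix.reindexAlgEquiv F F e.symm), ← map_smul,
        ← map_sub, Matrix.reindexAlgEquiv_apply, Matrix.rank_reindex]
    · rw [hxM, hM, hz, map_smul, map_one, Matrix.mul_smul, Matrix.mul_one, Matrix.smul_mul,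
        Matrix.mul_nonsing_inv _ hTu]
    · have hpw : ∀ j : ℕ, (x : Matrix (Fin (a * b)) (Fin (a * b)) F) ^ j * T = (T : Matrix (Fin (a * b)) (Fin (a * b)) F) * M ^ j :=
        fun j => ((show SemiconjBy (T : Matrix (Fin (a * b)) (Fin (a * b)) F) M x from hxT.symm).pow_right j).eq.symm
      have h1 := hpw m
      rw [hm, Matrix.one_mul] at h1
      have h2 : M ^ m = 1 := by
        have h3 := congrArg ((T : Matrix (Fin (a * b)) (Fin (a * b)) F)⁻¹ * ·) h1
        simp only [Matrix.nonsing_inv_mul _ hTu, Matrix.nonsing_inv_mul_cancel_left _ _ hTu] at h3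
        exact h3.symm
      rw [hM, ← map_pow] at h2
      exact (Matrix.reindexAlgEquiv F F e.symm).injective (h2.trans (map_one _).symm)
  -- low rank elements are derangements
  have low : ∀ (x : Matrix (Fin (a * b)) (Fin (a * b)) F) (hdet : x.det = 1) (c : F),
      (∀ z : F, x ≠ z • (1 : Matrix (Fin (a * b)) (Fin (a * b)) F)) → (x - c • 1).rank < a →
      ∀ g, ¬ g⁻¹ * Matrix.GeneralLinearGroup.mkOfDetNeZero x (by rw [hdet]; exact one_ne_zero) * g ∈
        Cfsg.Geo.tensorProductSubgroup a b e P := by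
    intro x hdet c hx hrk g hg
    obtain ⟨A, B, -, hrank, hscal, -⟩ := outof _ g hg
    have h1 := hrank c
    have h2 := le_rank_kron hlt.le ((Matrix.isUnit_iff_isUnit_det _).mp A.isUnit) (fun z hz => hx z (hscal z hz)) c
    rw [← h1] at h2
    exact absurd hrk (not_lt.mpr h2)
  simp only [Units.val_pow_eq_pow_val]
  have hrprime := (Fact.out : r.Prime)
  have hq2 : 2 ≤ Fintype.card F := Fintype.one_lt_card
  by_cases hrp : r = p
  · subst hrp
    refine iff_of_false (fun h => ?_) ?_
    · obtain ⟨i, j, hij⟩ : ∃ i j : Fin (a * b), i ≠ j := ⟨⟨0, by omega⟩, ⟨1, by omega⟩, by simp⟩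
      obtain ⟨X₀, hX₀⟩ : ∃ X₀, X₀ = Matrix.transvection i j (1 : F) := ⟨_, rfl⟩
      have hdet : X₀.det = 1 := hX₀ ▸ Matrix.det_transvection_of_ne _ _ hij _
      have hne : ∀ z : F, X₀ ≠ z • (1 : Matrix (Fin (a * b)) (Fin (a * b)) F) := fun z hz => by
        have h1 := congrFun (congrFun hz i) j
        simp [hX₀, Matrix.transvection, hij] at h1
      have hpow : ∀ k : ℕ, Matrix.transvection i j (1 : F) ^ k = Matrix.transvection i j (k : F) := fun k => by
        induction k with
        | zero => simp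
        | succ k ih => rw [pow_succ, ih, Matrix.transvection_mul_transvection_same _ _ hij, Nat.cast_succ]
      obtain ⟨g, -, hg⟩ := h (Matrix.GeneralLinearGroup.mkOfDetNeZero X₀ (by rw [hdet]; exact one_ne_zero))
        (Units.ext hdet) ⟨1, by
          show X₀ ^ r = _
          rw [hX₀, hpow, CharP.cast_eq_zero, Matrix.transvection_zero, one_smul]⟩ hne
      refine low X₀ hdet 1 hne (lt_of_le_of_lt ?_ ha) g hg
      rw [one_smul, hX₀, show Matrix.transvection i j (1 : F) - 1 =
        Matrix.diagonal (Pi.single i 1) * Matrix.single i j 1 by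
          rw [Matrix.diagonal_single, Matrix.single_mul_single_same, one_mul, Matrix.transvection, add_sub_cancel_left]]
      refine (Matrix.rank_mul_le_left _ _).trans ?_
      rw [Matrix.rank_diagonal]
      exact Fintype.card_le_one_iff.mpr fun u v => Subtype.ext ((Decidable.byContradiction fun h =>
        u.2 (Pi.single_eq_of_ne h _)).trans (Decidable.byContradiction fun h => v.2 (Pi.single_eq_of_ne h _)).symm)
    · rintro ⟨rfl, -, ho, -⟩
      obtain ⟨k, -, hk⟩ := FiniteField.card F 2
      rw [hk] at ho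
      exact Nat.not_even_iff_odd.mpr ho ((Nat.even_pow' k.ne_zero).mpr even_two)
  have hrF : (r : F) ≠ 0 := r_ne_zero hrp
  by_cases hrq : r ∣ Fintype.card F - 1
  · obtain ⟨ζ, hζ⟩ := exists_prime_orderOf_dvd_card r (G := Fˣ) (by rw [Fintype.card_units]; exact hrq)
    obtain ⟨i0, i1, h01⟩ : ∃ i0 i1 : Fin (a * b), i0 ≠ i1 := ⟨⟨0, by omega⟩, ⟨1, by omega⟩, by simp⟩
    by_cases hr2a : r = 2 ∧ a = 2
    · obtain ⟨rfl, rfl⟩ := hr2a
      have h2 : (2 : F) ≠ 0 := by exact_mod_cast hrF
      have hodd : Odd (Fintype.card F) := by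
        obtain ⟨k, hk⟩ := hrq
        exact ⟨k, by omega⟩
      simp only [hodd, true_and]
      constructor
      · intro h
        by_contra hv
        push Not at hv
        obtain ⟨g, hg⟩ := IsCyclic.exists_ofOrder_eq_natCard (α := Fˣ)
        rw [Nat.card_units, Nat.card_eq_fintype_card] at hg
        obtain ⟨v, hvdef⟩ : ∃ v, v = padicValNat 2 (2 * b) := ⟨_, rfl⟩
        obtain ⟨m, hm⟩ : 2 ^ v ∣ 2 * b := hvdef ▸ pow_padicValNat_dvd
        have hmodd : Odd m := by
          by_contra he
          obtain ⟨m', rfl⟩ := even_iff_two_dvd.mp (Nat.not_odd_iff_even.mp he)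
          have h1 : 2 ^ (v + 1) ∣ 2 * b := ⟨m', by rw [hm]; ring⟩
          rw [padicValNat_dvd_iff_le (by omega), ← hvdef] at h1
          omega
        obtain ⟨o, ho⟩ : 2 ^ (v + 1) ∣ Fintype.card F - 1 := by
          rw [padicValNat_dvd_iff_le (by omega)]; omega
        obtain ⟨s, hsdef⟩ : ∃ s : Fˣ, s = g ^ o := ⟨_, rfl⟩
        have hneg : (((g ^ (2 ^ v * o) : Fˣ)) : F) = -1 := by
          have e1 : (((g ^ (2 ^ v * o) : Fˣ)) : F) ^ 2 = 1 := by
            rw [← Units.val_pow_eq_pow_val, ← pow_mul, show 2 ^ v * o * 2 = Fintype.card F - 1 by rw [ho]; ring, ← hg,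
              pow_orderOf_eq_one, Units.val_one]
          refine (sq_eq_one_iff.mp e1).resolve_left fun h1 => ?_
          have hpos : 0 < 2 ^ v * o := Nat.mul_pos (pow_pos two_pos v) (Nat.pos_of_ne_zero fun h0 => by
            rw [h0, mul_zero] at ho; omega)
          have h3 := Nat.le_of_dvd hpos (orderOf_dvd_of_pow_eq_one (Units.val_eq_one.mp h1))
          rw [hg, ho, pow_succ] at h3
          nlinarith
        have hs : (s : F) ^ (2 * b) = -1 := by
          rw [hsdef, ← Units.val_pow_eq_pow_val, ← pow_mul, show o * (2 * b) = 2 ^ v * o * m by rw [hm]; ring, pow_mul,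
            Units.val_pow_eq_pow_val, hneg, hmodd.neg_one_pow]
        obtain ⟨X₀, hX₀⟩ : ∃ X₀ : Matrix (Fin (2 * b)) (Fin (2 * b)) F,
            X₀ = Matrix.diagonal (fun j => if j = i0 then -(s : F) else (s : F)) := ⟨_, rfl⟩
        have hdet : X₀.det = 1 := by
          rw [hX₀, Matrix.det_diagonal, ← Finset.mul_prod_erase _ _ (Finset.mem_univ i0), if_pos rfl,
            Finset.prod_eq_pow_card (fun j hj => if_neg (Finset.ne_of_mem_erase hj)),
            Finset.card_erase_of_mem (Finset.mem_univ _), Finset.card_univ, Fintype.card_fin, neg_mul, ← pow_succ',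
            show 2 * b - 1 + 1 = 2 * b by omega, hs, neg_neg]
        have hne : ∀ z : F, X₀ ≠ z • (1 : Matrix (Fin (2 * b)) (Fin (2 * b)) F) := fun z hz => by
          have e0 := congrFun (congrFun hz i0) i0
          have e1 := congrFun (congrFun hz i1) i1
          simp [hX₀, h01.symm] at e0 e1
          have : (2 : F) * s = 0 := by linear_combination e1 - e0
          exact s.ne_zero ((mul_eq_zero.mp this).resolve_left h2)
        obtain ⟨g', -, hg'⟩ := h (Matrix.GeneralLinearGroup.mkOfDetNeZero X₀ (by rw [hdet]; exact one_ne_zero))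
          (Units.ext hdet) ⟨(s : F) ^ 2, by
            show X₀ ^ 2 = _
            rw [hX₀, Matrix.diagonal_pow, Matrix.smul_one_eq_diagonal]
            congr 1; funext j
            simp only [Pi.pow_apply]
            split_ifs <;> ring⟩ hne
        refine low X₀ hdet (s : F) hne (lt_of_le_of_lt ?_ (show 1 < 2 by norm_num)) g' hg'
        rw [hX₀, Matrix.smul_one_eq_diagonal, Matrix.diagonal_sub, Matrix.rank_diagonal]
        refine Fintype.card_le_one_iff.mpr fun u v => Subtype.ext ?_
        have hu := u.2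
        have hv' := v.2
        simp only [ne_eq] at hu hv'
        by_cases hu0 : (u : Fin (2 * b)) = i0
        · by_cases hv0 : (v : Fin (2 * b)) = i0
          · rw [hu0, hv0]
          · simp [hv0] at hv'
        · simp [hu0] at hu
      · intro hv x hxSL hz hx'
        obtain ⟨c, hx⟩ := hz
        have hdetx : (x : Matrix (Fin (2 * b)) (Fin (2 * b)) F).det = 1 := congrArg Units.val hxSL
        have hc0 := scalar_data (r := 2) hdetx (by omega) hx
        -- it suffices to find a Kronecker product with the same polynomial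
        have fin : ∀ (A : Matrix (Fin 2) (Fin 2) F) (B : Matrix (Fin b) (Fin b) F),
            (A ⊗ₖ B) ^ 2 = c • 1 → (A ⊗ₖ B).charpoly = (x : Matrix (Fin (2 * b)) (Fin (2 * b)) F).charpoly →
            ∃ g ∈ Cfsg.Geo.specialLinear (Fin (2 * b)) F, g⁻¹ * x * g ∈ Cfsg.Geo.tensorProductSubgroup 2 b e P := by
          intro A B hK hcp
          have hKu : IsUnit (A ⊗ₖ B).det := by
            have h1 := congrArg Matrix.det hK
            rw [Matrix.det_pow, Matrix.det_smul, Matrix.det_one, mul_one] at h1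
            exact isUnit_iff_ne_zero.mpr fun h0 => pow_ne_zero _ hc0 (by rw [← h1, h0, zero_pow two_ne_zero])
          rw [Matrix.det_kronecker, Fintype.card_fin, Fintype.card_fin] at hKu
          have hA : A.det ≠ 0 := fun h0 => by
            rw [h0, zero_pow (show b ≠ 0 by omega), zero_mul] at hKu; exact hKu.ne_zero rfl
          have hB : B.det ≠ 0 := fun h0 => by
            rw [h0, zero_pow two_ne_zero, mul_zero] at hKu; exact hKu.ne_zero rfl
          obtain ⟨k, hk⟩ : ∃ k : GL (Fin 2 × Fin b) F, (k : Matrix (Fin 2 × Fin b) (Fin 2 × Fin b) F) = A ⊗ₖ B :=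
            ⟨Matrix.GeneralLinearGroup.mkOfDetNeZero (A ⊗ₖ B) (by
              rw [Matrix.det_kronecker]; exact mul_ne_zero (pow_ne_zero _ hA) (pow_ne_zero _ hB)), rfl⟩
          obtain ⟨Z, hZ⟩ : ∃ Z : GL (Fin (2 * b)) F, Z = P * Cfsg.Geo.glReindex e.symm k * P⁻¹ := ⟨_, rfl⟩
          have hZm : (Z : Matrix (Fin (2 * b)) (Fin (2 * b)) F) = (P : Matrix (Fin (2 * b)) (Fin (2 * b)) F) *
              Matrix.reindexAlgEquiv F F e.symm (A ⊗ₖ B) * ((P⁻¹ : GL (Fin (2 * b)) F) : Matrix (Fin (2 * b)) (Fin (2 * b)) F) := by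
            rw [hZ, Units.val_mul, Units.val_mul, ← hk]
            rfl
          have hZ2 : (Z : Matrix (Fin (2 * b)) (Fin (2 * b)) F) ^ 2 = c • 1 := by
            rw [hZm, pow_two]
            calc _ = (P : Matrix (Fin (2 * b)) (Fin (2 * b)) F) * (Matrix.reindexAlgEquiv F F e.symm (A ⊗ₖ B) *
                ((((P⁻¹ : GL (Fin (2 * b)) F) : Matrix (Fin (2 * b)) (Fin (2 * b)) F) * P) *
                  Matrix.reindexAlgEquiv F F e.symm (A ⊗ₖ B))) *
                ((P⁻¹ : GL (Fin (2 * b)) F) : Matrix (Fin (2 * b)) (Fin (2 * b)) F) := by simp only [Matrix.mul_assoc]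
              _ = _ := by
                rw [← Units.val_mul, inv_mul_cancel, Units.val_one, Matrix.one_mul, ← map_mul, ← pow_two, hK, map_smul,
                  map_one, Matrix.mul_smul, Matrix.mul_one, Matrix.smul_mul, ← Units.val_mul, mul_inv_cancel,
                  Units.val_one]
          have hZc : (Z : Matrix (Fin (2 * b)) (Fin (2 * b)) F).charpoly = (x : Matrix (Fin (2 * b)) (Fin (2 * b)) F).charpoly := by
            rw [hZm, Matrix.charpoly_mul_comm, ← Matrix.mul_assoc, ← Units.val_mul, inv_mul_cancel, Units.val_one,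
              Matrix.one_mul, Matrix.reindexAlgEquiv_apply, Matrix.charpoly_reindex, hcp]
          have hm : ((2 * (Fintype.card F - 1) : ℕ) : F) ≠ 0 := by
            rw [Nat.cast_mul, Nat.cast_sub (by omega), FiniteField.cast_card_eq_zero]
            simpa using h2
          have hpow : ∀ W : Matrix (Fin (2 * b)) (Fin (2 * b)) F, W ^ 2 = c • 1 → W ^ (2 * (Fintype.card F - 1)) = 1 :=
            fun W hW => by
              rw [pow_mul, hW, _root_.smul_pow, one_pow, FiniteField.pow_card_sub_one_eq_one c hc0, one_smul]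
          obtain ⟨P', hP', hxP'⟩ := conj_core (show 0 < 2 * b by omega) hm (hpow _ hx) (hpow _ hZ2) hZc.symm
          obtain ⟨g, hgP⟩ : ∃ g : GL (Fin (2 * b)) F, (g : Matrix (Fin (2 * b)) (Fin (2 * b)) F) = P' :=
            ⟨Matrix.GeneralLinearGroup.mkOfDetNeZero P' (by rw [hP']; exact one_ne_zero), rfl⟩
          refine ⟨g, Units.ext (by rw [Matrix.GeneralLinearGroup.val_det_apply, hgP, hP']; rfl), ?_⟩
          have hgZ : g⁻¹ * x * g = Z := by
            have h1 : x * g = g * Z := Units.ext (by rw [Units.val_mul, Units.val_mul, hgP, hxP'])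
            rw [mul_assoc, h1, ← mul_assoc, inv_mul_cancel, one_mul]
          rw [hgZ, hZ]
          exact ⟨_, ⟨k, ⟨Matrix.GeneralLinearGroup.mkOfDetNeZero A hA, Matrix.GeneralLinearGroup.mkOfDetNeZero B hB, hk⟩,
            rfl⟩, rfl⟩
        by_cases hs : ∃ s : F, s ^ 2 = c
        · obtain ⟨s, hs⟩ := hs
          have hs0 : s ≠ 0 := fun h0 => hc0 (by rw [← hs, h0, zero_pow two_ne_zero])
          obtain ⟨M, hMdef⟩ : ∃ M, M = s⁻¹ • (x : Matrix (Fin (2 * b)) (Fin (2 * b)) F) := ⟨_, rfl⟩
          have hM : M * M = 1 := by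
            rw [← pow_two, hMdef, _root_.smul_pow, hx, smul_smul, ← hs, ← mul_pow, inv_mul_cancel₀ hs0, one_pow, one_smul]
          obtain ⟨Q, d, hQ, hMQ⟩ := Cfsg.Agent.S5967.exists_sign_basis h2 M hM
          obtain ⟨D, hD⟩ : ∃ D, D = Matrix.diagonal (fun j => if d j then s else -s) := ⟨_, rfl⟩
          have hxQ : (x : Matrix (Fin (2 * b)) (Fin (2 * b)) F) * Q = Q * D := by
            have hxM : (x : Matrix (Fin (2 * b)) (Fin (2 * b)) F) = s • M := by
              rw [hMdef, smul_smul, mul_inv_cancel₀ hs0, one_smul]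
            rw [hD, hxM, Matrix.smul_mul, hMQ, ← Matrix.mul_smul, ← Matrix.diagonal_smul]
            congr 2; funext j
            simp only [Pi.smul_apply, smul_eq_mul]
            split_ifs <;> ring
          have hxD : (x : Matrix (Fin (2 * b)) (Fin (2 * b)) F) = Q * D * Q⁻¹ := by
            rw [← hxQ, Matrix.mul_nonsing_inv_cancel_right _ _ hQ]
          obtain ⟨f, hf⟩ : ∃ f, f = (Finset.univ.filter fun j => d j = false).card := ⟨_, rfl⟩
          have hsum : (Finset.univ.filter fun j => d j = true).card + f = 2 * b := by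
            have h0 := Finset.card_filter_add_card_filter_not (s := (Finset.univ : Finset (Fin (2 * b)))) (fun j => d j = true)
            simp only [Bool.not_eq_true, Finset.card_univ, Fintype.card_fin] at h0
            omega
          have hfe : Even f := by
            by_contra ho
            rw [Nat.not_even_iff_odd] at ho
            have h1 : D.det = 1 := by
              rw [← hdetx, hxD, Matrix.det_mul, Matrix.det_mul, Matrix.det_nonsing_inv, Ring.inverse_eq_inv',
                mul_right_comm, mul_inv_cancel₀ hQ.ne_zero, one_mul]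
            rw [hD, Matrix.det_diagonal, Finset.prod_ite, Finset.prod_const, Finset.prod_const,
              show (Finset.univ.filter fun j => ¬ d j = true) = Finset.univ.filter fun j => d j = false by simp, ← hf,
              neg_pow, ho.neg_one_pow, mul_left_comm, ← pow_add, hsum, neg_one_mul, neg_eq_iff_eq_neg] at h1
            obtain ⟨v, hvdef⟩ : ∃ v, v = padicValNat 2 (Fintype.card F - 1) := ⟨_, rfl⟩
            obtain ⟨o, ho'⟩ : 2 ^ v ∣ Fintype.card F - 1 := hvdef ▸ pow_padicValNat_dvd
            obtain ⟨m, hm⟩ : 2 ^ v ∣ 2 * b := (pow_dvd_pow 2 (hvdef ▸ hv)).trans pow_padicValNat_dvd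
            have hoodd : Odd o := by
              by_contra he
              obtain ⟨o', rfl⟩ := even_iff_two_dvd.mp (Nat.not_odd_iff_even.mp he)
              have h3 : 2 ^ (v + 1) ∣ Fintype.card F - 1 := ⟨o', by rw [ho']; ring⟩
              rw [padicValNat_dvd_iff_le (by omega), ← hvdef] at h3
              omega
            have h4 := congrArg (fun z : F => z ^ o) h1
            simp only [← pow_mul] at h4
            rw [hm, show 2 ^ v * m * o = (Fintype.card F - 1) * m by rw [ho']; ring, pow_mul,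
              FiniteField.pow_card_sub_one_eq_one s hs0, one_pow, hoodd.neg_one_pow] at h4
            exact h2 (by linear_combination h4)
          obtain ⟨k, hk⟩ := hfe
          obtain ⟨B, hB⟩ : ∃ B : Matrix (Fin b) (Fin b) F,
              B = Matrix.diagonal (fun j : Fin b => if decide (k ≤ j.val) then s else -s) := ⟨_, rfl⟩
          refine fin 1 B ?_ ?_
          · rw [hB, Matrix.one_kronecker, Matrix.reindex_apply, Matrix.blockDiagonal_diagonal, Matrix.submatrix_diagonal_equiv,
              Matrix.diagonal_pow, Matrix.smul_one_eq_diagonal]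
            congr 1; funext j
            simp only [Pi.pow_apply, Function.comp_apply]
            split_ifs <;> rw [← hs] <;> ring
          · rw [charpoly_one_kron, hB, Matrix.charpoly_diagonal, hxD, Matrix.charpoly_mul_comm, ← Matrix.mul_assoc,
              Matrix.nonsing_inv_mul _ hQ, Matrix.one_mul, hD, Matrix.charpoly_diagonal, charpoly_two_values,
              charpoly_two_values, mul_pow, ← pow_mul, ← pow_mul, ← hf]
            have hc1 : (Finset.univ.filter fun j : Fin b => decide (k ≤ j.val) = false).card = k := by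
              simp only [decide_eq_false_iff_not, not_le]
              rw [← Fintype.card_subtype]
              exact Fintype.card_fin_lt_of_le (by omega)
            have hc2 : (Finset.univ.filter fun j : Fin b => decide (k ≤ j.val) = true).card + k = b := by
              conv_rhs => rw [← Fintype.card_fin b, ← Finset.card_univ,
                ← Finset.card_filter_add_card_filter_not (s := Finset.univ) (fun j : Fin b => decide (k ≤ j.val) = true)]
              congr 1
              conv_lhs => rw [← hc1]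
              congr 1
              simp
            rw [hc1]
            congr 2 <;> omega
        · push Not at hs
          obtain ⟨-, hcp, -⟩ := nonsplit (r := 2) _ hs hx
          obtain ⟨A, hA⟩ : ∃ A : Matrix (Fin 2) (Fin 2) F, A = !![0, c; 1, 0] := ⟨_, rfl⟩
          have hK : (A ⊗ₖ (1 : Matrix (Fin b) (Fin b) F)) ^ 2 = c • 1 := by
            rw [pow_two, ← Matrix.mul_kronecker_mul, Matrix.one_mul, show A * A = c • 1 by
              rw [hA]; ext i j; fin_cases i <;> fin_cases j <;> simp, Matrix.smul_kronecker, Matrix.one_kronecker_one]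
          refine fin A 1 hK ?_
          obtain ⟨K, hKdef⟩ : ∃ K, K = Matrix.reindexAlgEquiv F F e.symm (A ⊗ₖ (1 : Matrix (Fin b) (Fin b) F)) := ⟨_, rfl⟩
          have hK2 : K ^ 2 = c • 1 := by rw [hKdef, ← map_pow, hK, map_smul, map_one]
          rw [hcp, ← (nonsplit (r := 2) K hs hK2).2.1, hKdef, Matrix.reindexAlgEquiv_apply, Matrix.charpoly_reindex]
    refine iff_of_false (fun h => ?_) (fun hh => hr2a ⟨hh.1, hh.2.1⟩)
    obtain ⟨X₀, hX₀⟩ : ∃ X₀ : Matrix (Fin (a * b)) (Fin (a * b)) F,
        X₀ = Matrix.diagonal (fun j => if j = i0 then (ζ : F) else if j = i1 then ((ζ⁻¹ : Fˣ) : F) else 1) := ⟨_, rfl⟩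
    have hζ1 : (ζ : F) ≠ 1 := fun h1 => hrprime.ne_one (by rw [← hζ, orderOf_eq_one_iff]; exact Units.ext h1)
    have hζi1 : ((ζ⁻¹ : Fˣ) : F) ≠ 1 := fun h1 => by
      rw [Units.val_inv_eq_inv_val, inv_eq_one] at h1; exact hζ1 h1
    have hdet : X₀.det = 1 := by
      rw [hX₀, Matrix.det_diagonal, ← Finset.mul_prod_erase _ _ (Finset.mem_univ i0), if_pos rfl,
        ← Finset.mul_prod_erase _ _ (Finset.mem_erase.mpr ⟨h01.symm, Finset.mem_univ i1⟩), if_neg h01.symm, if_pos rfl,
        Finset.prod_eq_one (fun j hj => ?_), mul_one, ← Units.val_mul, mul_inv_cancel, Units.val_one]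
      simp only [Finset.mem_erase] at hj
      rw [if_neg hj.2.1, if_neg hj.1]
    have hne : ∀ z : F, X₀ ≠ z • (1 : Matrix (Fin (a * b)) (Fin (a * b)) F) := fun z hz => by
      obtain ⟨i2, h02, h12⟩ : ∃ i2 : Fin (a * b), i2 ≠ i0 ∧ i2 ≠ i1 := by
        have := Finset.card_lt_card (Finset.ssubset_univ_iff.mpr (show ({i0, i1} : Finset (Fin (a * b))) ≠ Finset.univ from
          fun h => by
            have := congrArg Finset.card h
            rw [Finset.card_pair h01, Finset.card_univ, Fintype.card_fin] at this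
            omega))
        obtain ⟨i2, -, hi2⟩ := Finset.exists_mem_notMem_of_card_lt_card this
        simp at hi2
        exact ⟨i2, hi2.1, hi2.2⟩
      have e0 := congrFun (congrFun hz i0) i0
      have e2 := congrFun (congrFun hz i2) i2
      simp [hX₀, h02, h12] at e0 e2
      exact hζ1 (e0.trans e2.symm)
    have hrank : (X₀ - (1 : F) • 1).rank ≤ 2 := by
      rw [hX₀, Matrix.smul_one_eq_diagonal, Matrix.diagonal_sub, Matrix.rank_diagonal, Fintype.card_subtype]
      refine (Finset.card_le_card (t := {i0, i1}) fun j hj => ?_).trans Finset.card_le_two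
      rw [Finset.mem_filter] at hj
      by_contra hj'
      simp at hj'
      exact hj.2 (by rw [if_neg hj'.1, if_neg hj'.2, sub_self])
    obtain ⟨g, -, hg⟩ := h (Matrix.GeneralLinearGroup.mkOfDetNeZero X₀ (by rw [hdet]; exact one_ne_zero))
      (Units.ext hdet) ⟨1, by
        show X₀ ^ r = _
        rw [hX₀, Matrix.diagonal_pow, Matrix.smul_one_eq_diagonal]
        congr 1; funext j
        simp only [Pi.pow_apply]
        split_ifs
        · rw [← Units.val_pow_eq_pow_val, ← hζ, pow_orderOf_eq_one, Units.val_one]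
        · rw [← Units.val_pow_eq_pow_val, inv_pow, ← hζ, pow_orderOf_eq_one, inv_one, Units.val_one]
        · rw [one_pow]⟩ hne
    by_cases ha2 : a = 2
    swap
    · exact low X₀ hdet 1 hne (by omega) g hg
    obtain ⟨A, B, hcp, hrk, -, -⟩ := outof _ g hg
    have hcp' : X₀.charpoly = ((A : Matrix (Fin a) (Fin a) F) ⊗ₖ (B : Matrix (Fin b) (Fin b) F)).charpoly := hcp
    have hrk' : (X₀ - (1 : F) • 1).rank =
        ((A : Matrix (Fin a) (Fin a) F) ⊗ₖ (B : Matrix (Fin b) (Fin b) F) - (1 : F) • 1).rank := hrk 1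
    by_cases hA : ∀ z : F, (A : Matrix (Fin a) (Fin a) F)ᵀ ≠ z • (1 : Matrix (Fin a) (Fin a) F)
    · obtain ⟨w, hw⟩ := exists_moved _ hA
      have h1 := rank_kron_of_cyclic ((Matrix.isUnit_iff_isUnit_det _).mp B.isUnit) w (fun S hS hwS => by
        refine Submodule.eq_top_of_finrank_eq (le_antisymm (Submodule.finrank_le _) ?_)
        have h2 := Submodule.finrank_mono (show Submodule.span F (Set.range ![w, (A : Matrix (Fin a) (Fin a) F)ᵀ *ᵥ w]) ≤ S by
          rw [Submodule.span_le]
          rintro _ ⟨t, rfl⟩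
          fin_cases t
          · exact hwS
          · exact hS w hwS)
        rw [finrank_span_eq_card hw, Fintype.card_fin] at h2
        rw [Module.finrank_fin_fun]
        omega) (1 : F) (A := (A : Matrix (Fin a) (Fin a) F))
      rw [← hrk'] at h1
      subst ha2
      omega
    · push Not at hA
      obtain ⟨α, hα⟩ := hA
      have hα' : (A : Matrix (Fin a) (Fin a) F) = α • 1 := by
        rw [← Matrix.transpose_transpose (A : Matrix (Fin a) (Fin a) F), hα, Matrix.transpose_smul, Matrix.transpose_one]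
      rw [hα'] at hcp'
      have hsplit : X₀.charpoly = (X - C (ζ : F)) * ∏ j ∈ Finset.univ.erase i0,
          (X - C (if j = i1 then ((ζ⁻¹ : Fˣ) : F) else 1)) := by
        rw [hX₀, Matrix.charpoly_diagonal, ← Finset.mul_prod_erase _ _ (Finset.mem_univ i0), if_pos rfl]
        congr 1
        exact Finset.prod_congr rfl fun j hj => by rw [if_neg (Finset.ne_of_mem_erase hj)]
      refine scalar_left_repeated (by omega : 2 ≤ a) (irreducible_X_sub_C (ζ : F)) (hcp' ▸ hsplit ▸ dvd_mul_right _ _) ?_
      rw [← hcp', hsplit, pow_two, mul_dvd_mul_iff_left (X_sub_C_ne_zero _), dvd_iff_isRoot, IsRoot, eval_prod]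
      refine Finset.prod_ne_zero_iff.mpr fun j _ => ?_
      rw [eval_sub, eval_X, eval_C, sub_ne_zero]
      split_ifs
      · intro h1
        have h2 : ζ ^ 2 = 1 := by rw [pow_two]; nth_rewrite 2 [Units.ext h1]; exact mul_inv_cancel ζ
        have h3 := Nat.le_of_dvd two_pos (orderOf_dvd_of_pow_eq_one h2)
        rw [hζ] at h3
        exact hr2a ⟨le_antisymm h3 hrprime.two_le, ha2⟩
      · exact hζ1
  · refine iff_of_false (fun h => ?_) ?_
    swap
    · rintro ⟨rfl, -, ho, -⟩
      obtain ⟨k, hk⟩ := ho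
      exact hrq ⟨k, by omega⟩
    obtain ⟨i, hidef⟩ : ∃ i, i = orderOf (Fintype.card F : ZMod r) := ⟨_, rfl⟩
    obtain ⟨j, hj1, hjn, hjq⟩ : ∃ j, 1 ≤ j ∧ j ≤ a * b ∧ (Fintype.card F : ZMod r) ^ j = 1 := by
      have h1 : r ∣ Nat.card (Matrix.SpecialLinearGroup (Fin (a * b)) F) := by
        refine hΩ.trans ((Subgroup.index_dvd_card _).trans ?_)
        have hcardSL : Nat.card (Cfsg.Geo.specialLinear (Fin (a * b)) F) = Nat.card (Matrix.SpecialLinearGroup (Fin (a * b)) F) :=
          Nat.card_congr
          { toFun := fun g => ⟨g.1.1, congrArg Units.val g.2⟩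
            invFun := fun s => ⟨Matrix.SpecialLinearGroup.toGL s, Units.ext s.2⟩
            left_inv := fun g => Subtype.ext (Units.ext rfl)
            right_inv := fun s => Subtype.ext rfl }
        exact hcardSL.dvd
      have h2 := dvd_mul_of_dvd_left h1 (Fintype.card F - 1)
      have hnq := CfsgLib.SubElusive.nq_mul (Fintype.card F) (a * b) (a * b) le_rfl
      rw [Nat.sub_self, show gq (Fintype.card F) 0 = 1 from Finset.prod_range_zero _, mul_one] at hnq
      unfold nq at hnq
      rw [CfsgLib.SL2.card_SL_mul (F := F) (a * b) (by omega), Matrix.card_GL_field,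
        Fin.prod_univ_eq_prod_range (fun i => Fintype.card F ^ (a * b) - Fintype.card F ^ i) (a * b), hnq] at h2
      have hnd : ¬ r ∣ Fintype.card F := by
        obtain ⟨k, hp, hk⟩ := FiniteField.card F p
        rw [hk]
        exact fun h => hrp ((Nat.prime_dvd_prime_iff_eq hrprime hp).mp (hrprime.dvd_of_dvd_pow h))
      obtain ⟨t, ht, hd⟩ := hrprime.prime.dvd_finsetProd_iff _ |>.mp
        ((hrprime.dvd_mul.mp h2).resolve_left fun h => hnd (hrprime.dvd_of_dvd_pow h))
      refine ⟨t + 1, by omega, by rw [Finset.mem_range] at ht; omega, ?_⟩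
      rw [← ZMod.natCast_eq_zero_iff, Nat.cast_sub (Nat.one_le_pow _ _ (by omega)), Nat.cast_pow, Nat.cast_one,
        sub_eq_zero] at hd
      exact hd
    have hi0 : i ≠ 0 := by
      rw [hidef]
      exact Nat.pos_iff_ne_zero.mp ((isOfFinOrder_iff_pow_eq_one.mpr ⟨j, by omega, hjq⟩).orderOf_pos)
    have hi1 : i ≠ 1 := fun h1 => hrq (r_dvd_sub_iff.mpr (hidef ▸ h1))
    obtain ⟨X₀, hdet, hXr, hne, hrank, R, hR, hR1, hR2⟩ := exists_small_witness (n := a * b) hrp
      (by omega : 2 ≤ orderOf (Fintype.card F : ZMod r))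
      ((Nat.le_of_dvd (by omega) (orderOf_dvd_of_pow_eq_one hjq)).trans hjn)
    rw [← hidef] at hrank
    obtain ⟨g, -, hg⟩ := h (Matrix.GeneralLinearGroup.mkOfDetNeZero X₀ (by rw [hdet]; exact one_ne_zero))
      (Units.ext hdet) ⟨1, by rw [one_smul]; exact hXr⟩ hne
    by_cases hia : i < a
    · exact low X₀ hdet 1 hne (by rw [one_smul]; omega) g hg
    obtain ⟨A, B, hcp, hrk, -, hpw⟩ := outof _ g hg
    have hcp' : X₀.charpoly = ((A : Matrix (Fin a) (Fin a) F) ⊗ₖ (B : Matrix (Fin b) (Fin b) F)).charpoly := hcp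
    have hrk' : (X₀ - (1 : F) • 1).rank =
        ((A : Matrix (Fin a) (Fin a) F) ⊗ₖ (B : Matrix (Fin b) (Fin b) F) - (1 : F) • 1).rank := hrk 1
    have hKr := hpw r hXr
    obtain ⟨μ, hμ0, hμ⟩ : ∃ μ : F, μ ≠ 0 ∧ (μ⁻¹ • (A : Matrix (Fin a) (Fin a) F)) ^ r = 1 := by
      have hkp : ∀ m : ℕ, ((A : Matrix (Fin a) (Fin a) F) ⊗ₖ (B : Matrix (Fin b) (Fin b) F)) ^ m =
          ((A : Matrix (Fin a) (Fin a) F) ^ m) ⊗ₖ ((B : Matrix (Fin b) (Fin b) F) ^ m) := fun m => by
        induction m with
        | zero => simp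
        | succ m ih => rw [pow_succ, ih, ← Matrix.mul_kronecker_mul, ← pow_succ, ← pow_succ]
      rw [hkp] at hKr
      obtain ⟨β, hβ⟩ : ∃ β, β = ((B : Matrix (Fin b) (Fin b) F) ^ r) ⟨0, by omega⟩ ⟨0, by omega⟩ := ⟨_, rfl⟩
      have hent : ∀ u v, ((A : Matrix (Fin a) (Fin a) F) ^ r) u v * β = if u = v then 1 else 0 := fun u v => by
        have := congrFun (congrFun hKr (u, ⟨0, by omega⟩)) (v, ⟨0, by omega⟩)
        rw [Matrix.kroneckerMap_apply, ← hβ] at this
        simpa [Matrix.one_apply] using this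
      have hβ0 : β ≠ 0 := fun h0 => by simpa [h0] using hent ⟨0, by omega⟩ ⟨0, by omega⟩
      obtain ⟨μ, hμ⟩ := order_gt_one_power (F := F) (r := r) hrq β⁻¹
      have hμ0 : μ ≠ 0 := fun h0 => inv_ne_zero hβ0 (by rw [← hμ, h0, zero_pow hrprime.ne_zero])
      refine ⟨μ, hμ0, ?_⟩
      rw [_root_.smul_pow, inv_pow, hμ, inv_inv]
      ext u v
      rw [Matrix.smul_apply, smul_eq_mul, mul_comm, hent, Matrix.one_apply]
    obtain ⟨A', hA'⟩ : ∃ A', A' = μ⁻¹ • (A : Matrix (Fin a) (Fin a) F) := ⟨_, rfl⟩
    rw [← hA'] at hμ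
    obtain ⟨S, hS1, hS2, hS3, -⟩ := CfsgLib.PrimeClasses.exists_factors (F := F) hrprime hrp
    by_cases hfac : ∃ P ∈ S, P ∣ A'.charpoly
    · obtain ⟨P, hP, hPd⟩ := hfac
      obtain ⟨hPm, hPi, hPdeg, -⟩ := hS1 P hP
      rw [← hidef] at hPdeg
      have h1 := natDegree_le_of_dvd hPd (Matrix.charpoly_monic A').ne_zero
      rw [Matrix.charpoly_natDegree_eq_dim, Fintype.card_fin, hPdeg] at h1
      have hcpA : A'.charpoly = P := eq_of_monic_of_dvd_of_natDegree_le hPm (Matrix.charpoly_monic A') hPd (by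
        rw [Matrix.charpoly_natDegree_eq_dim, Fintype.card_fin, hPdeg]; omega)
      have h2 := rank_kron_of_cyclic (A := (A : Matrix (Fin a) (Fin a) F))
        ((Matrix.isUnit_iff_isUnit_det _).mp B.isUnit) (Pi.single ⟨0, by omega⟩ 1) (fun T hT hwT => by
          refine cyclic_of_irreducible (A := A') (hcpA ▸ hPi) (by simp) T (fun v hv => ?_) hwT
          rw [hA', Matrix.transpose_smul, Matrix.smul_mulVec]
          exact T.smul_mem _ (hT v hv)) (1 : F)
      rw [← hrk', one_smul] at h2
      nlinarith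
    · push Not at hfac
      obtain ⟨u, hu⟩ : ∃ u : GL (Fin a) F, (u : Matrix (Fin a) (Fin a) F) = A' :=
        IsUnit.of_pow_eq_one hμ hrprime.ne_zero
      have hur : u ^ r = 1 := Units.ext (by rw [Units.val_pow_eq_pow_val, hu, hμ, Units.val_one])
      have hu1 : u = 1 := by
        have hcop : (orderOf u).Coprime p :=
          Nat.Coprime.coprime_dvd_left (orderOf_dvd_of_pow_eq_one hur)
            ((Nat.coprime_primes hrprime (Fact.out : p.Prime)).mpr hrp)
        rw [← pow_one u]
        refine CfsgLib.PrimeClasses.pow_eq_one_of_factors (p := p) (by simp) u hcop fun Q hQ hd => ?_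
        rw [hu] at hd
        have h3 := CfsgLib.PrimeClasses.factor_dvd A' hμ hQ hd
        have hass : Associated (normalize Q) Q := normalize_associated Q
        rcases hS2 (normalize Q) (monic_normalize hQ.ne_zero) (hass.symm.irreducible hQ) (hass.dvd.trans h3) with h | h
        · rw [pow_one, ← C_1, ← h]
          exact hass.symm.dvd
        · exact absurd (hass.dvd.trans hd) (hfac _ h)
      have hAs : (A : Matrix (Fin a) (Fin a) F) = μ • 1 := by
        rw [← Units.val_one, ← hu1, hu, hA', smul_smul, mul_inv_cancel₀ hμ0, one_smul]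
      rw [hAs] at hcp'
      exact scalar_left_repeated (by omega : 2 ≤ a) hR (hcp' ▸ hR1) (hcp' ▸ hR2)

end Cfsg.Agent.S5979
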