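import Cfsg.Statements.S5958
import Cfsg.Agent.SubElusive.Imprim
import Cfsg.Agent.SubElusive.Count
import Cfsg.Agent.GeoLib.Decomp
import Cfsg.Agent.S5979

set_option autoImplicit false
open scoped MatrixGroups
open Cfsg

namespace Cfsg.Agent.S5958

open CfsgLib.SubElusive Polynomial

section Moved

variable {F : Type*} [Field F] {n a t r : ℕ} [hr : Fact r.Prime] {D : Fin t → Submodule F (Fin n → F)}
  {f : Module.End F (Fin n → F)} {σ : Equiv.Perm (Fin t)}

theorem pow_map (hσ : ∀ j, (D j).map f = D (σ j)) : ∀ (i : ℕ) (j : Fin t), (D j).map (f ^ i) = D ((σ ^ i) j) := by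
  intro i
  induction i with
  | zero => intro j; rw [pow_zero, Module.End.one_eq_id, Submodule.map_id, pow_zero]; rfl
  | succ i ih =>
    intro j
    rw [pow_succ', Module.End.mul_eq_comp, Submodule.map_comp, ih, hσ, pow_succ' σ, Equiv.Perm.mul_apply]

theorem sigma_pow (hD : Cfsg.Geo.IsMDecomposition a D) (hσ : ∀ j, (D j).map f = D (σ j)) (hf : f ^ r = 1) :
    σ ^ r = 1 := by
  have hDinj : Function.Injective D := fun j k hjk => by
    by_contra hne
    have h0 : D j = ⊥ := by
      have hd := hD.indep.pairwiseDisjoint hne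
      rw [Function.onFun, hjk, disjoint_self] at hd
      rw [hjk, hd]
    have := hD.finrank_eq j
    rw [h0, finrank_bot] at this
    exact hD.pos.ne this
  exact Equiv.ext fun j => hDinj (by rw [← pow_map hσ r j, hf, Module.End.one_eq_id, Submodule.map_id]; rfl)

theorem orbit_inj (hσr : σ ^ r = 1) {j₀ : Fin t} (hj₀ : σ j₀ ≠ j₀) :
    Function.Injective fun l : Fin r => (σ ^ (l : ℕ)) j₀ := by
  have key : ∀ i k : ℕ, i < k → k < r → (σ ^ i) j₀ ≠ (σ ^ k) j₀ := by
    intro i k hlt hkp heq
    have hfx : (σ ^ (k - i)) j₀ = j₀ := by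
      apply (σ ^ i).injective
      rw [← Equiv.Perm.mul_apply, ← pow_add, Nat.add_sub_cancel' hlt.le, heq]
    have hcop : (k - i).Coprime r :=
      (hr.out.coprime_iff_not_dvd.mpr fun hd => by have := Nat.le_of_dvd (by omega) hd; omega).symm
    obtain ⟨u, hu⟩ := exists_pow_eq_self_of_coprime (x := σ) (n := k - i)
      (hcop.coprime_dvd_right (orderOf_dvd_of_pow_eq_one hσr))
    have hm : σ ^ (k - i) ∈ MulAction.stabilizer (Equiv.Perm (Fin t)) j₀ := hfx
    have := pow_mem hm u
    rw [hu] at this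
    exact hj₀ this
  intro i k hik
  by_contra hne
  rcases lt_or_gt_of_ne (fun h => hne (Fin.ext h)) with h | h
  · exact key i k h k.2 hik
  · exact key k i h i.2 hik.symm

theorem orbit_indep (hD : Cfsg.Geo.IsMDecomposition a D) (hσ : ∀ j, (D j).map f = D (σ j)) (hf : f ^ r = 1)
    {j₀ : Fin t} (hj₀ : σ j₀ ≠ j₀) (d : Fin r → D j₀) (h : ∑ l : Fin r, (f ^ (l : ℕ)) (d l).1 = 0) : d = 0 := by
  classical
  obtain ⟨π, -, -, h1, h0⟩ := CfsgLib.GeoDecomp.exists_proj hD
  have hmem : ∀ l : Fin r, (f ^ (l : ℕ)) (d l).1 ∈ D ((σ ^ (l : ℕ)) j₀) := fun l =>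
    pow_map hσ (l : ℕ) j₀ ▸ Submodule.mem_map_of_mem (d l).2
  funext k
  have h2 := congrArg (π ((σ ^ (k : ℕ)) j₀)) h
  rw [map_sum, map_zero, Finset.sum_eq_single k (fun l _ hl => h0 _ _
    (fun he => hl (orbit_inj (sigma_pow hD hσ hf) hj₀ he.symm)) _ (hmem l)) (fun hk => absurd (Finset.mem_univ k) hk),
    h1 _ _ (hmem k)] at h2
  refine Subtype.ext ?_
  have h3 := congrArg ((f ^ (r - (k : ℕ))) ·) h2
  simp only [map_zero, ← Module.End.mul_apply, ← pow_add, Nat.sub_add_cancel k.2.le, hf, Module.End.one_apply] at h3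
  exact h3

/-- A moved summand forces every irreducible factor of `X ^ r - 1`. -/
theorem factor_of_moved (hD : Cfsg.Geo.IsMDecomposition a D) (hσ : ∀ j, (D j).map f = D (σ j)) (hf : f ^ r = 1)
    (hσ1 : σ ≠ 1) {P : F[X]} (hP : Irreducible P) (hPd : P ∣ X ^ r - 1) : P ∣ f.charpoly := by
  classical
  obtain ⟨j₀, hj₀⟩ : ∃ j₀, σ j₀ ≠ j₀ := by
    by_contra h
    push Not at h
    exact hσ1 (Equiv.ext h)
  obtain ⟨Q, hQ⟩ := hPd
  have hne : (X : F[X]) ^ r - 1 ≠ 0 := by rw [← C_1]; exact X_pow_sub_C_ne_zero hr.out.pos 1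
  have hQ0 : Q ≠ 0 := fun h => hne (by rw [hQ, h, mul_zero])
  have hdeg : Q.natDegree < r := by
    have := congrArg natDegree hQ
    rw [← C_1, natDegree_X_pow_sub_C, natDegree_mul hP.ne_zero hQ0] at this
    have := hP.natDegree_pos
    omega
  obtain ⟨d, hd, hd0⟩ := (D j₀).exists_mem_ne_zero_of_ne_bot fun h0 => by
    have := hD.finrank_eq j₀; rw [h0, finrank_bot] at this; exact hD.pos.ne this
  refine dvd_of_kill f hP (v := aeval f Q d) (fun h => hd0 ?_) ?_
  · rw [aeval_eq_sum_range' hdeg, LinearMap.sum_apply, ← Fin.sum_univ_eq_sum_range] at h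
    simp only [LinearMap.smul_apply, ← map_smul] at h
    have h2 := congrFun (orbit_indep hD hσ hf hj₀
      (fun l => ⟨Q.coeff (l : ℕ) • d, (D j₀).smul_mem _ hd⟩) h) ⟨Q.natDegree, hdeg⟩
    have h3 := congrArg Subtype.val h2
    simp only [Pi.zero_apply, Submodule.coe_zero, smul_eq_zero, coeff_natDegree] at h3
    exact h3.resolve_left (leadingCoeff_ne_zero.mpr hQ0)
  · rw [← Module.End.mul_apply, ← map_mul, ← hQ, map_sub, map_pow, aeval_X, map_one, hf, sub_self,
      LinearMap.zero_apply]

/-- A moved summand bounds the fixed space from both sides. -/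
theorem fix_of_moved (hD : Cfsg.Geo.IsMDecomposition a D) (hσ : ∀ j, (D j).map f = D (σ j)) (hf : f ^ r = 1)
    (hσ1 : σ ≠ 1) :
    a ≤ Module.finrank F (LinearMap.ker (f - 1)) ∧ r * a + Module.finrank F (LinearMap.ker (f - 1)) ≤ n + a := by
  classical
  obtain ⟨j₀, hj₀⟩ : ∃ j₀, σ j₀ ≠ j₀ := by
    by_contra h
    push Not at h
    exact hσ1 (Equiv.ext h)
  let Φ : (Fin r → D j₀) →ₗ[F] (Fin n → F) :=
    ∑ l : Fin r, (f ^ (l : ℕ)).comp ((D j₀).subtype.comp (LinearMap.proj l))
  have hΦ : ∀ d, Φ d = ∑ l : Fin r, (f ^ (l : ℕ)) (d l).1 := fun d => by simp [Φ]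
  have hΦi : Function.Injective Φ := by
    rw [← LinearMap.ker_eq_bot, LinearMap.ker_eq_bot']
    exact fun d h => orbit_indep hD hσ hf hj₀ d (by rw [← hΦ, h])
  let cst : D j₀ →ₗ[F] (Fin r → D j₀) := LinearMap.pi fun _ => LinearMap.id
  have hS : ∀ d, Φ (cst d) ∈ LinearMap.ker (f - 1) := fun d => by
    have hΦc : Φ (cst d) = ∑ i ∈ Finset.range r, (f ^ i) d.1 := by
      rw [hΦ, ← Fin.sum_univ_eq_sum_range]; rfl
    rw [LinearMap.mem_ker, LinearMap.sub_apply, Module.End.one_apply, sub_eq_zero, hΦc, map_sum]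
    have h1 := Finset.sum_range_succ' (fun i => (f ^ i) d.1) r
    rw [Finset.sum_range_succ, hf, pow_zero] at h1
    simp only [← Module.End.mul_apply, ← pow_succ']
    exact (add_right_cancel h1).symm
  constructor
  · have hinj : Function.Injective (LinearMap.codRestrict _ (Φ.comp cst) hS) := fun x y h => by
      have := hΦi (congrArg Subtype.val h)
      exact congrFun this ⟨0, hr.out.pos⟩
    have := LinearMap.finrank_le_finrank_of_injective hinj
    rwa [hD.finrank_eq j₀] at this
  · have hle : LinearMap.range Φ ≤ D j₀ ⊔ LinearMap.range (f - 1) := by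
      rintro _ ⟨d, rfl⟩
      rw [hΦ]
      refine Submodule.sum_mem _ fun l _ => ?_
      obtain ⟨g, hg⟩ := sub_one_dvd_pow_sub_one f (l : ℕ)
      rw [← sub_add_cancel ((f ^ (l : ℕ)) (d l).1) (d l).1]
      refine Submodule.add_mem _ (Submodule.mem_sup_right ⟨g (d l).1, ?_⟩) (Submodule.mem_sup_left (d l).2)
      rw [← Module.End.mul_apply, ← hg, LinearMap.sub_apply, Module.End.one_apply]
    have h1 := Submodule.finrank_mono hle
    rw [LinearMap.finrank_range_of_inj hΦi, Module.finrank_pi_fintype, Finset.sum_const, Finset.card_univ,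
      Fintype.card_fin, hD.finrank_eq j₀, smul_eq_mul] at h1
    have h2 := Submodule.finrank_add_le_finrank_add_finrank (D j₀) (LinearMap.range (f - 1))
    have h3 := LinearMap.finrank_range_add_finrank_ker (f - 1)
    rw [hD.finrank_eq j₀] at h2
    rw [Module.finrank_fin_fun] at h3
    omega

/-- For decompositions into lines the fixed space sees every orbit. -/
theorem lines_bound (hD : Cfsg.Geo.IsMDecomposition 1 D) (hσ : ∀ j, (D j).map f = D (σ j)) (hf : f ^ r = 1)
    (hrF : (r : F) ≠ 0) (hroot : ∀ l : F, l ^ r = 1 → l = 1) :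
    t ≤ r * Module.finrank F (LinearMap.ker (f - 1)) := by
  classical
  have hσr := sigma_pow hD hσ hf
  obtain ⟨π, -, -, h1, h0⟩ := CfsgLib.GeoDecomp.exists_proj hD
  obtain ⟨S, hS⟩ : ∃ S : Module.End F (Fin n → F), S = ∑ i ∈ Finset.range r, f ^ i := ⟨_, rfl⟩
  have hSker : ∀ v, S v ∈ LinearMap.ker (f - 1) := fun v => by
    rw [LinearMap.mem_ker, ← Module.End.mul_apply, hS, mul_geom_sum, hf, sub_self, LinearMap.zero_apply]
  have hd : ∀ j, ∃ d ∈ D j, d ≠ 0 := fun j => (D j).exists_mem_ne_zero_of_ne_bot fun h0 => by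
    have := hD.finrank_eq j; rw [h0, finrank_bot] at this; exact hD.pos.ne this
  choose d hd hd0 using hd
  have hmem : ∀ i j, (f ^ i) (d j) ∈ D ((σ ^ i) j) := fun i j =>
    pow_map hσ i j ▸ Submodule.mem_map_of_mem (hd j)
  have hself : ∀ j, π j (S (d j)) ≠ 0 := by
    intro j
    rw [hS, LinearMap.sum_apply, map_sum]
    by_cases hj : σ j = j
    · have hfix : ∀ i : ℕ, (σ ^ i) j = j := fun i => by
        induction i with
        | zero => rfl
        | succ i ih => rw [pow_succ, Equiv.Perm.mul_apply, hj, ih]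
      have hline : f (d j) = d j := by
        obtain ⟨l, hl⟩ := (finrank_eq_one_iff_of_nonzero' (⟨d j, hd j⟩ : D j) (fun h => hd0 j (congrArg Subtype.val h))).mp
          (hD.finrank_eq j) ⟨f (d j), by
            have := hσ j ▸ Submodule.mem_map_of_mem (f := f) (hd j)
            rwa [hj] at this⟩
        have hl' : f (d j) = l • d j := (congrArg Subtype.val hl).symm
        have hpow : ∀ i : ℕ, (f ^ i) (d j) = l ^ i • d j := fun i => by
          induction i with
          | zero => simp
          | succ i ih => rw [pow_succ', Module.End.mul_apply, ih, map_smul, hl', smul_smul, pow_succ]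
        have h2 := hpow r
        rw [hf, Module.End.one_apply] at h2
        rw [hl', hroot l (smul_left_injective F (hd0 j) (show l ^ r • d j = (1 : F) • d j by rw [one_smul]; exact h2.symm)),
          one_smul]
      have hfd : ∀ i : ℕ, (f ^ i) (d j) = d j := fun i => by
        induction i with
        | zero => rfl
        | succ i ih => rw [pow_succ, Module.End.mul_apply, hline, ih]
      simp only [hfd, h1 j _ (hd j), Finset.sum_const, Finset.card_range, ← Nat.cast_smul_eq_nsmul F]
      exact fun h => (smul_eq_zero.mp h).elim hrF (hd0 j)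
    · rw [Finset.sum_eq_single 0 (fun i hi hne => h0 _ _ (fun he => hne ?_) _ (hmem i j))
        (fun h => absurd (Finset.mem_range.mpr hr.out.pos) h), pow_zero, Module.End.one_apply, h1 j _ (hd j)]
      · exact hd0 j
      · exact congrArg Fin.val (orbit_inj hσr hj (a₁ := ⟨i, Finset.mem_range.mp hi⟩) (a₂ := ⟨0, hr.out.pos⟩)
          (by simpa using he.symm))
  obtain ⟨O, hO⟩ : ∃ O : Setoid (Fin t), O = Equiv.Perm.SameCycle.setoid σ := ⟨_, rfl⟩
  have hcyc : ∀ j k, σ.SameCycle j k → ∃ i : Fin r, (σ ^ (i : ℕ)) j = k := by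
    intro j k h
    obtain ⟨i, -, -, hi⟩ := h.exists_pow_eq σ
    exact ⟨⟨i % r, Nat.mod_lt _ hr.out.pos⟩, by rw [← pow_eq_pow_mod i hσr]; exact hi⟩
  haveI : Fintype (Quotient O) := Fintype.ofFinite _
  have hind : LinearIndependent F fun o : Quotient O => (⟨S (d o.out), hSker _⟩ : LinearMap.ker (f - 1)) := by
    rw [Fintype.linearIndependent_iff]
    intro g hg o
    have h2 := congrArg (fun v : LinearMap.ker (f - 1) => π o.out v.1) hg
    simp only [Submodule.coe_sum, Submodule.coe_smul, map_sum, map_smul, Submodule.coe_zero, map_zero] at h2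
    rw [Finset.sum_eq_single o (fun o' _ hne => ?_) (fun h => absurd (Finset.mem_univ o) h), smul_eq_zero] at h2
    · exact h2.resolve_right (hself _)
    · rw [hS, LinearMap.sum_apply, map_sum, Finset.sum_eq_zero fun i _ => h0 _ _ (fun he => hne ?_) _ (hmem i _),
        smul_zero]
      rw [← Quotient.out_eq o', ← Quotient.out_eq o]
      refine Quotient.sound ?_
      subst hO
      exact ⟨(i : ℤ), by rw [zpow_natCast]; exact he.symm⟩
  have h2 := hind.fintype_card_le_finrank
  refine le_trans ?_ (Nat.mul_le_mul_left r h2)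
  have h3 := Fintype.card_le_of_surjective (fun x : Fin r × Quotient O => (σ ^ (x.1 : ℕ)) x.2.out) fun j => by
    have hsame : σ.SameCycle (Quotient.mk O j).out j := by
      subst hO
      exact Quotient.mk_out (s := Equiv.Perm.SameCycle.setoid σ) j
    obtain ⟨i, hi⟩ := hcyc _ _ hsame
    exact ⟨(i, Quotient.mk O j), hi⟩
  rwa [Fintype.card_prod, Fintype.card_fin, Fintype.card_fin] at h3

/-- Invariant summands. -/
theorem fix_of_unmoved [Fintype F] {p : ℕ} [Fact p.Prime] [CharP F p] (hrp : r ≠ p)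
    (hD : Cfsg.Geo.IsMDecomposition a D) (hσ : ∀ j, (D j).map f ≤ D j) (hf : f ^ r = 1) :
    t * (a % orderOf (Fintype.card F : ZMod r)) ≤ Module.finrank F (LinearMap.ker (f - 1)) := by
  classical
  have hinv : ∀ j, D j ≤ (D j).comap f := fun j => Submodule.map_le_iff_le_comap.mp (hσ j)
  have hle : ∀ j, a % orderOf (Fintype.card F : ZMod r) ≤ Module.finrank F ↥(D j ⊓ LinearMap.ker (f - 1)) := by
    intro j
    have h1 := mod_le_fix hrp (f.restrict (hinv j)) (by rw [Module.End.pow_restrict r (hinv j)]; ext v; simp [hf])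
    rw [hD.finrank_eq j] at h1
    refine h1.trans (LinearMap.finrank_le_finrank_of_injective (f :=
      LinearMap.codRestrict (D j ⊓ LinearMap.ker (f - 1))
        ((D j).subtype.comp (LinearMap.ker (f.restrict (hinv j) - 1)).subtype) fun v => ⟨v.1.2, ?_⟩) ?_)
    · show _ ∈ LinearMap.ker (f - 1)
      rw [LinearMap.mem_ker]
      exact congrArg Subtype.val (LinearMap.mem_ker.mp v.2)
    · intro v w h
      exact Subtype.ext (Subtype.ext (congrArg Subtype.val h :))
  obtain ⟨π, -, -, h1, h0⟩ := CfsgLib.GeoDecomp.exists_proj hD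
  let Ψ : ((j : Fin t) → ↥(D j ⊓ LinearMap.ker (f - 1))) →ₗ[F] LinearMap.ker (f - 1) :=
    ∑ j, (Submodule.inclusion inf_le_right).comp (LinearMap.proj j)
  have hΨ : ∀ d, (Ψ d).1 = ∑ j, (d j).1 := fun d => by simp [Ψ]
  have hΨi : Function.Injective Ψ := by
    rw [← LinearMap.ker_eq_bot, LinearMap.ker_eq_bot']
    intro d h
    funext j
    have h2 := congrArg (fun v : LinearMap.ker (f - 1) => π j v.1) h
    simp only [hΨ, map_sum, Submodule.coe_zero, map_zero] at h2
    rw [Finset.sum_eq_single j (fun k _ hk => h0 j k (Ne.symm hk) _ (d k).2.1) (fun h => absurd (Finset.mem_univ j) h),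
      h1 j _ (d j).2.1] at h2
    exact Subtype.ext h2
  refine le_trans ?_ (LinearMap.finrank_le_finrank_of_injective hΨi)
  rw [Module.finrank_pi_fintype]
  refine le_trans ?_ (Finset.sum_le_sum fun j _ => hle j)
  simp

end Moved

theorem exists_adapted_basis {F : Type*} [Field F] {n a t : ℕ} {D : Fin t → Submodule F (Fin n → F)}
    (hD : Cfsg.Geo.IsMDecomposition a D) :
    ∃ b : Module.Basis (Fin t × Fin a) F (Fin n → F), ∀ j i, b (j, i) ∈ D j := by
  classical
  have hI := DirectSum.isInternal_submodule_of_iSupIndep_of_iSup_eq_top hD.indep hD.iSup_eq_top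
  refine ⟨(hI.collectedBasis fun j => Module.finBasisOfFinrankEq F (D j) (hD.finrank_eq j)).reindex
    (Equiv.sigmaEquivProd _ _), fun j i => ?_⟩
  rw [Module.Basis.reindex_apply]
  exact hI.collectedBasis_mem (fun j => Module.finBasisOfFinrankEq F (D j) (hD.finrank_eq j)) ⟨j, i⟩

theorem card_decomp {F : Type*} [Field F] [Fintype F] {n a t : ℕ} (ha : 1 ≤ a) :
    Nat.factorial t ∣ Nat.card {D : Fin t → Submodule F (Fin n → F) // Cfsg.Geo.IsMDecomposition a D} ∧
    Nat.card {D : Fin t → Submodule F (Fin n → F) // Cfsg.Geo.IsMDecomposition a D} ∣ Nat.card (GL (Fin n) F) ∨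
    Nat.card {D : Fin t → Submodule F (Fin n → F) // Cfsg.Geo.IsMDecomposition a D} = 0 := by
  classical
  rcases isEmpty_or_nonempty {D : Fin t → Submodule F (Fin n → F) // Cfsg.Geo.IsMDecomposition a D} with hE | ⟨⟨D₀, hD₀⟩⟩
  · exact Or.inr Nat.card_of_isEmpty
  refine Or.inl ⟨?_, ?_⟩
  · -- permutations act freely
    have hinj : ∀ D : {D : Fin t → Submodule F (Fin n → F) // Cfsg.Geo.IsMDecomposition a D}, Function.Injective D.1 :=
      fun D j k hjk => by
        by_contra hne
        have h0 : D.1 j = ⊥ := by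
          have hd := D.2.indep.pairwiseDisjoint hne
          rw [Function.onFun, hjk, disjoint_self] at hd
          rw [hjk, hd]
        have := D.2.finrank_eq j
        rw [h0, finrank_bot] at this
        exact D.2.pos.ne this
    have hperm : ∀ (D : Fin t → Submodule F (Fin n → F)), Cfsg.Geo.IsMDecomposition a D → ∀ π : Equiv.Perm (Fin t),
        Cfsg.Geo.IsMDecomposition a (D ∘ π) := fun D hD π =>
      ⟨hD.two_le, hD.pos, fun j => hD.finrank_eq (π j), hD.indep.comp π.injective,
        (π.surjective.iSup_comp D).trans hD.iSup_eq_top⟩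
    let R : {D : Fin t → Submodule F (Fin n → F) // Cfsg.Geo.IsMDecomposition a D} → Set (Submodule F (Fin n → F)) :=
      fun D => Set.range D.1
    have hfib : ∀ y : Set.range R, Nat.card {D // Set.rangeFactorization R D = y} = Nat.factorial t := by
      rintro ⟨_, D, rfl⟩
      rw [show Nat.factorial t = Nat.card (Equiv.Perm (Fin t)) by simp [Nat.card_eq_fintype_card, Fintype.card_perm]]
      refine (Nat.card_congr (Equiv.ofBijective
        (fun π : Equiv.Perm (Fin t) => ⟨⟨D.1 ∘ π, hperm D.1 D.2 π⟩, Subtype.ext (π.surjective.range_comp D.1)⟩)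
        ⟨fun π ρ h => Equiv.ext fun j => hinj D (congrFun (congrArg Subtype.val (congrArg Subtype.val h)) j), ?_⟩)).symm
      rintro ⟨D', hD'⟩
      have h1 : Set.range D'.1 = Set.range D.1 := congrArg Subtype.val hD'
      let e := (Equiv.ofInjective _ (hinj D')).trans ((Equiv.setCongr h1).trans (Equiv.ofInjective _ (hinj D)).symm)
      refine ⟨e, Subtype.ext (Subtype.ext (funext fun j => ?_))⟩
      show D.1 (e j) = D'.1 j
      simp [e, Equiv.apply_ofInjective_symm]
    rw [← Nat.card_congr (Equiv.sigmaFiberEquiv (Set.rangeFactorization R))]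
    haveI : Fintype (Set.range R) := Fintype.ofFinite _
    rw [Nat.card_sigma, Finset.sum_congr rfl fun y _ => hfib y, Finset.sum_const, smul_eq_mul]
    exact dvd_mul_left _ _
  · -- all decompositions are conjugate
    obtain ⟨Φ, hΦ⟩ : ∃ Φ : GL (Fin n) F → {D : Fin t → Submodule F (Fin n → F) // Cfsg.Geo.IsMDecomposition a D},
        ∀ g, (Φ g).1 = fun j => (D₀ j).map (Matrix.toLin' (g : Matrix (Fin n) (Fin n) F)) := by
      suffices hdec : ∀ g : GL (Fin n) F, Cfsg.Geo.IsMDecomposition a
          fun j => (D₀ j).map (Matrix.toLin' (g : Matrix (Fin n) (Fin n) F)) from ⟨fun g => ⟨_, hdec g⟩, fun g => rfl⟩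
      intro g
      have hinj : Function.Injective (Matrix.toLin' (g : Matrix (Fin n) (Fin n) F)) := fun x y e =>
        Matrix.mulVec_injective_of_isUnit g.isUnit (by simpa using e)
      refine ⟨hD₀.two_le, hD₀.pos, fun j => ?_, ?_, ?_⟩
      · rw [← (Submodule.equivMapOfInjective _ hinj (D₀ j)).finrank_eq, hD₀.finrank_eq]
      · intro j
        rw [show (⨆ (k) (_ : k ≠ j), (D₀ k).map (Matrix.toLin' (g : Matrix (Fin n) (Fin n) F))) =
          (⨆ (k) (_ : k ≠ j), D₀ k).map (Matrix.toLin' (g : Matrix (Fin n) (Fin n) F)) by simp only [Submodule.map_iSup]]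
        exact Submodule.disjoint_map hinj (hD₀.indep j)
      · rw [← Submodule.map_iSup, hD₀.iSup_eq_top, Submodule.map_top, LinearMap.range_eq_top]
        exact LinearMap.injective_iff_surjective.mp hinj
    have htrans : ∀ D, ∃ g, Φ g = D := by
      intro D
      obtain ⟨b₀, hb₀⟩ := exists_adapted_basis hD₀
      obtain ⟨b, hb⟩ := exists_adapted_basis D.2
      obtain ⟨L, hL⟩ : ∃ L, L = b₀.equiv b (Equiv.refl _) := ⟨_, rfl⟩
      let g : GL (Fin n) F := Matrix.GeneralLinearGroup.mkOfDetNeZero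
        (LinearMap.toMatrix' (L : (Fin n → F) →ₗ[F] (Fin n → F)))
        (by rw [LinearMap.det_toMatrix']; exact (LinearEquiv.isUnit_det' L).ne_zero)
      refine ⟨g, Subtype.ext ?_⟩
      rw [hΦ]
      funext j
      have hg : Matrix.toLin' (g : Matrix (Fin n) (Fin n) F) = (L : (Fin n → F) →ₗ[F] (Fin n → F)) :=
        Matrix.toLin'_toMatrix' _
      rw [hg]
      have hspan : ∀ (E : Fin t → Submodule F (Fin n → F)) (hE : Cfsg.Geo.IsMDecomposition a E)
          (c : Module.Basis (Fin t × Fin a) F (Fin n → F)), (∀ j i, c (j, i) ∈ E j) →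
          E j = Submodule.span F (Set.range fun i => c (j, i)) := fun E hE c hc => by
        refine (Submodule.eq_of_le_of_finrank_eq (Submodule.span_le.mpr ?_) ?_).symm
        · rintro _ ⟨i, rfl⟩; exact hc j i
        · rw [hE.finrank_eq]
          exact (finrank_span_eq_card (c.linearIndependent.comp _ (Prod.mk_right_injective j))).trans (Fintype.card_fin a)
      rw [hspan D₀ hD₀ b₀ hb₀, hspan D.1 D.2 b hb, Submodule.map_span, ← Set.range_comp]
      congr 2
      funext i
      simp [hL]
    refine ⟨Nat.card {g // Φ g = Φ 1}, ?_⟩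
    have hmul : ∀ g h : GL (Fin n) F, ∀ j, ((Φ (g * h)).1 j) =
        ((Φ h).1 j).map (Matrix.toLin' (g : Matrix (Fin n) (Fin n) F)) := fun g h j => by
      rw [hΦ, hΦ, Units.val_mul, Matrix.toLin'_mul]
      exact Submodule.map_comp _ _ _
    have hfib : ∀ D, Nat.card {g // Φ g = D} = Nat.card {g // Φ g = Φ 1} := by
      intro D
      obtain ⟨g₀, rfl⟩ := htrans D
      refine (Nat.card_congr (Equiv.subtypeEquiv (Equiv.mulLeft g₀) fun h => ?_)).symm
      constructor
      · intro e
        refine Subtype.ext (funext fun j => ?_)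
        rw [Equiv.coe_mulLeft, hmul, e, ← hmul, mul_one]
      · intro e
        refine Subtype.ext (funext fun j => ?_)
        have h2 := congrFun (congrArg Subtype.val e) j
        rw [Equiv.coe_mulLeft, hmul, show (Φ g₀).1 j = ((Φ 1).1 j).map (Matrix.toLin' (g₀ : Matrix (Fin n) (Fin n) F)) by
          rw [← hmul, mul_one]] at h2
        exact Submodule.map_injective_of_injective
          (fun x y e => Matrix.mulVec_injective_of_isUnit g₀.isUnit (by simpa using e)) h2
    haveI : Fintype {D : Fin t → Submodule F (Fin n → F) // Cfsg.Geo.IsMDecomposition a D} := Fintype.ofFinite _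
    rw [← Nat.card_congr (Equiv.sigmaFiberEquiv Φ), Nat.card_sigma, Finset.sum_congr rfl fun D _ => hfib D,
      Finset.sum_const, smul_eq_mul, Finset.card_univ, ← Nat.card_eq_fintype_card]

/-- Elements of odd prime order of PSL_n(q) and imprimitive subgroups. Here `T = PSL_n(F)` for a field `F` with `q = p^f` elements (`n ≥ 2`, `(n, q) ≠ (2, 2), (2, 3)`), `n = a·t` with `t ≥ 2`, and Ω is the set of direct-sum decompositions of `F^n` into `t` subspaces of dimension `a` (unordered; their number is the number of ordered ones divided by `t!`), whose stabilizers are the imprimitive subgroups of type GL_a(q) ≀ S_t (maximal except in some small cases; maximality is not assumed); an element of `T` of prime order `r` (a matrix `x` of determinant 1 with `x^r` scalar, `x` not scalar) fixes a point of Ω when it permutes the summands of some such decomposition. Let `r ≠ p` be an odd prime dividing the number of such decompositions, let `c` be the multiplicative order of `q` modulo `r`, and write `k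 = n mod c`, `ℓ = a mod c`. Then every element of `T` of order `r` stabilizes such a decomposition if and only if either `a = 1`, `c = r − 1 > 1` and `n ≤ k·r`, or `c ≤ a` and `k = t·ℓ`. -/
theorem result {F : Type*} [Field F] [Fintype F] {p : ℕ} [Fact p.Prime] [CharP F p] {q : ℕ} (hq : Fintype.card F = q)
    (n a t : ℕ) (hn : 2 ≤ n) (hT : (n, q) ≠ (2, 2) ∧ (n, q) ≠ (2, 3)) (hat : n = a * t) (ha : 1 ≤ a) (ht : 2 ≤ t)
    (r : ℕ) [Fact r.Prime] (hr2 : r ≠ 2) (hrp : r ≠ p) (hΩ : r ∣ Nat.card {D : Fin t → Submodule F (Fin n → F) // Cfsg.Geo.IsMDecomposition a D} / Nat.factorial t)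
    (c : ℕ) (hc : c = orderOf (q : ZMod r)) :
    (∀ x : Matrix.SpecialLinearGroup (Fin n) F,
      (∃ z : F, ((x ^ r : Matrix.SpecialLinearGroup (Fin n) F) : Matrix (Fin n) (Fin n) F) = z • (1 : Matrix (Fin n) (Fin n) F)) →
      (∀ z : F, (x : Matrix (Fin n) (Fin n) F) ≠ z • (1 : Matrix (Fin n) (Fin n) F)) →
      ∃ D : Fin t → Submodule F (Fin n → F), Cfsg.Geo.IsMDecomposition a D ∧
        ∃ σ : Equiv.Perm (Fin t), ∀ j, (D j).map (Matrix.toLin' (x : Matrix (Fin n) (Fin n) F)) = D (σ j)) ↔
    ((a = 1 ∧ 1 < c ∧ c = r - 1 ∧ n ≤ (n % c) * r) ∨ (c ≤ a ∧ n % c = t * (a % c))) := by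
  classical
  subst hq
  haveI : Nonempty (Fin n) := ⟨⟨0, by omega⟩⟩
  obtain ⟨hr⟩ := (inferInstance : Fact r.Prime)
  haveI : Fact r.Prime := ⟨hr⟩
  have hcpos : 0 < c := hc ▸ order_pos hrp
  have hrF : (r : F) ≠ 0 := r_ne_zero hrp
  -- from a decomposition of a scalar multiple
  have lift : ∀ (x : Matrix.SpecialLinearGroup (Fin n) F) (d : F), d ≠ 0 →
      (∃ D : Fin t → Submodule F (Fin n → F), Cfsg.Geo.IsMDecomposition a D ∧ ∃ σ : Equiv.Perm (Fin t),
        ∀ j, (D j).map (d • Matrix.toLinAlgEquiv' (x : Matrix (Fin n) (Fin n) F)) = D (σ j)) →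
      ∃ D : Fin t → Submodule F (Fin n → F), Cfsg.Geo.IsMDecomposition a D ∧
        ∃ σ : Equiv.Perm (Fin t), ∀ j, (D j).map (Matrix.toLin' (x : Matrix (Fin n) (Fin n) F)) = D (σ j) := by
    rintro x d hd ⟨D, hD, σ, hσ⟩
    exact ⟨D, hD, σ, fun j => by rw [← hσ j, Submodule.map_smul _ _ _ hd]; rfl⟩
  constructor
  · -- necessity
    intro h
    by_cases hc1 : c = 1
    · right
      exact ⟨by omega, by rw [hc1, Nat.mod_one, Nat.mod_one, mul_zero]⟩
    by_contra hneg
    push Not at hneg
    obtain ⟨hnA, hnB⟩ := hneg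
    -- the order does not exceed the dimension
    have hcn : c ≤ n := by
      rcases card_decomp (F := F) (n := n) (a := a) (t := t) ha with ⟨hf, hd⟩ | h0
      · have h1 : r ∣ Nat.card (GL (Fin n) F) := (hΩ.trans (Nat.div_dvd_of_dvd hf)).trans hd
        have hnq := CfsgLib.SubElusive.nq_mul (Fintype.card F) n n le_rfl
        rw [Nat.sub_self, show gq (Fintype.card F) 0 = 1 from Finset.prod_range_zero _, mul_one] at hnq
        unfold nq at hnq
        rw [Matrix.card_GL_field, Fin.prod_univ_eq_prod_range (fun i => Fintype.card F ^ n - Fintype.card F ^ i) n,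
          hnq] at h1
        have hnd : ¬ r ∣ Fintype.card F := by
          obtain ⟨k, hp, hk⟩ := FiniteField.card F p
          rw [hk]
          exact fun h => hrp ((Nat.prime_dvd_prime_iff_eq hr hp).mp (hr.dvd_of_dvd_pow h))
        obtain ⟨i, hi, hd'⟩ := hr.prime.dvd_finsetProd_iff _ |>.mp
          ((hr.dvd_mul.mp h1).resolve_left fun h => hnd (hr.dvd_of_dvd_pow h))
        rw [← ZMod.natCast_eq_zero_iff, Nat.cast_sub (Nat.one_le_pow _ _ Fintype.card_pos), Nat.cast_pow,
          Nat.cast_one, sub_eq_zero] at hd'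
        rw [Finset.mem_range] at hi
        have := Nat.le_of_dvd (by omega) (hc ▸ orderOf_dvd_of_pow_eq_one hd')
        omega
      · exfalso
        obtain ⟨D, hD, -⟩ := decomp_of_basis (F := F) ht ha
          ((Pi.basisFun F (Fin n)).reindex (Fintype.equivOfCardEq (by simp [hat, mul_comm]))) 1 1
          (fun x y e => e) (fun j i => Submodule.subset_span ⟨i, rfl⟩)
        haveI : Nonempty {D : Fin t → Submodule F (Fin n → F) // Cfsg.Geo.IsMDecomposition a D} := ⟨⟨D, hD⟩⟩
        exact Nat.card_pos.ne' h0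
    obtain ⟨S, hS1, hS2, hS3, hS4⟩ := CfsgLib.PrimeClasses.exists_factors (F := F) hr hrp
    rw [← hc] at hS4
    have hcd : c ∣ r - 1 := hc ▸ order_dvd hrp
    obtain ⟨s, hs⟩ := hcd
    have hspos : 0 < s := Nat.pos_of_ne_zero fun h0 => by rw [h0, mul_zero] at hs; have := hr.two_le; omega
    rw [hs, Nat.mul_div_cancel_left _ hcpos] at hS4
    obtain ⟨P, hP⟩ := Finset.card_pos.mp (hS4 ▸ hspos)
    obtain ⟨hPm, hPi, hPdeg, hP1⟩ := hS1 P hP
    -- a witness with `j` blocks
    have wit : ∀ j : ℕ, 1 ≤ j → c * j ≤ n → ∃ (f : Module.End F (Fin n → F)) (D : Fin t → Submodule F (Fin n → F))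
        (σ : Equiv.Perm (Fin t)), f ^ r = 1 ∧ Cfsg.Geo.IsMDecomposition a D ∧ (∀ i, (D i).map f = D (σ i)) ∧
        f.charpoly = (X - C 1) ^ (n - c * j) * P ^ j ∧ Module.finrank F (LinearMap.ker (f - 1)) = n - c * j := by
      intro j hj hjn
      obtain ⟨y, hy1, hyr, hyc⟩ := exists_blocks (n := n) (j := j) hrp (by omega) (hc ▸ hjn) hPm hPi hPdeg (hS3 P hP)
      rw [← hc] at hyc
      have hns : ∀ z : F, y ≠ z • (1 : Matrix (Fin n) (Fin n) F) := fun z hz => by
        have h1 : P ∣ y.charpoly := hyc ▸ dvd_mul_of_dvd_right (dvd_pow_self P (by omega)) _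
        rw [hz, Matrix.smul_one_eq_diagonal, Matrix.charpoly_diagonal, Finset.prod_const] at h1
        have h2 := eq_of_monic_of_associated hPm (monic_X_sub_C z)
          (hPi.associated_of_dvd (irreducible_X_sub_C z) (hPi.prime.dvd_of_dvd_pow h1))
        rw [h2, natDegree_X_sub_C, ← hc] at hPdeg
        omega
      obtain ⟨D, hD, σ, hσ⟩ := h ⟨y, hy1⟩ ⟨1, by
        rw [one_smul]; exact (Matrix.SpecialLinearGroup.coe_pow _ _).trans hyr⟩ hns
      have hfc : LinearMap.charpoly (Matrix.toLinAlgEquiv' y : Module.End F (Fin n → F)) = y.charpoly := by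
        rw [← LinearMap.charpoly_toMatrix (Matrix.toLinAlgEquiv' y) (Pi.basisFun F (Fin n)),
          LinearMap.toMatrix_eq_toMatrix']
        exact congrArg Matrix.charpoly (LinearMap.toMatrix'_toLin' y)
      have hfr : (Matrix.toLinAlgEquiv' y : Module.End F (Fin n → F)) ^ r = 1 := by rw [← map_pow, hyr, map_one]
      obtain ⟨Q, -, -, -, -, -, hmult⟩ := charpoly_fix _ hrF hfr
      refine ⟨_, D, σ, hfr, hD, hσ, hfc.trans hyc, ?_⟩
      rw [← hmult, hfc, hyc, rootMultiplicity_mul (mul_ne_zero (pow_ne_zero _ (X_sub_C_ne_zero 1))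
        (pow_ne_zero _ hPm.ne_zero)), rootMultiplicity_X_sub_C_pow, rootMultiplicity_eq_zero, add_zero]
      intro hroot
      rw [IsRoot, eval_pow] at hroot
      exact hP1 (eq_of_monic_of_associated hPm (monic_X_sub_C 1)
        ((irreducible_X_sub_C 1).associated_of_dvd hPi (dvd_iff_isRoot.mpr (eq_zero_of_pow_eq_zero hroot))).symm)
    -- a moved summand needs a single type of block
    have single : ∀ (j : ℕ) (f : Module.End F (Fin n → F)) (D : Fin t → Submodule F (Fin n → F))
        (σ : Equiv.Perm (Fin t)), f ^ r = 1 → Cfsg.Geo.IsMDecomposition a D → (∀ i, (D i).map f = D (σ i)) →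
        f.charpoly = (X - C 1) ^ (n - c * j) * P ^ j → σ ≠ 1 → c = r - 1 := by
      intro j f D σ hf hD hσ hcp hσ1
      by_contra hcr
      have hs2 : 1 < S.card := by
        rw [hS4]
        rcases Nat.lt_or_ge 1 s with h1 | h1
        · exact h1
        · exact absurd (by rw [hs, show s = 1 by omega, mul_one]) hcr
      obtain ⟨P', hP', hne⟩ := Finset.exists_mem_ne hs2 P
      obtain ⟨hPm', hPi', -, hP1'⟩ := hS1 P' hP'
      have h1 := factor_of_moved hD hσ hf hσ1 hPi' (hS3 P' hP')
      rw [hcp] at h1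
      rcases hPi'.prime.dvd_or_dvd h1 with h2 | h2
      · exact hP1' (eq_of_monic_of_associated hPm' (monic_X_sub_C 1)
          (hPi'.associated_of_dvd (irreducible_X_sub_C 1) (hPi'.prime.dvd_of_dvd_pow h2)))
      · exact hne (eq_of_monic_of_associated hPm' hPm (hPi'.associated_of_dvd hPi (hPi'.prime.dvd_of_dvd_pow h2)))
    have hdiv := Nat.mod_add_div n c
    have hnc : 1 ≤ n / c := Nat.div_pos hcn hcpos
    obtain ⟨f, D, σ, hf, hD, hσ, hcp, he⟩ := wit (n / c) hnc (by omega)
    have he' : Module.finrank F (LinearMap.ker (f - 1)) = n % c := by omega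
    have hmod := Nat.mod_lt n hcpos
    rcases le_or_gt c a with hca | hca
    · have hlt : n % c < t * (a % c) := by
        have h1 : n % c = (t * (a % c)) % c := by rw [hat, mul_comm a, Nat.mul_mod_mod]
        rcases Nat.lt_or_ge (t * (a % c)) c with h2 | h2
        · exact absurd (h1.trans (Nat.mod_eq_of_lt h2)) (hnB hca)
        · omega
      by_cases hσ1 : σ = 1
      · have := fix_of_unmoved hrp hD (fun i => by rw [hσ i, hσ1]; exact le_refl _) hf
        rw [← hc, he'] at this
        omega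
      · have := (fix_of_moved hD hσ hf hσ1).1
        omega
    · have hmoved : ∀ (j : ℕ) (g : Module.End F (Fin n → F)) (D : Fin t → Submodule F (Fin n → F))
          (τ : Equiv.Perm (Fin t)), 1 ≤ j → c * j ≤ n → g ^ r = 1 → Cfsg.Geo.IsMDecomposition a D →
          (∀ i, (D i).map g = D (τ i)) → Module.finrank F (LinearMap.ker (g - 1)) = n - c * j → τ ≠ 1 := by
        intro j g D τ hj hjn hg hD hτ hfin hτ1
        have h1 := fix_of_unmoved hrp hD (fun i => by rw [hτ i, hτ1]; exact le_refl _) hg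
        rw [← hc, hfin, Nat.mod_eq_of_lt hca, mul_comm, ← hat] at h1
        have : c ≤ c * j := Nat.le_mul_of_pos_right c hj
        omega
      have hcr : c = r - 1 :=
        single _ f D σ hf hD hσ hcp (hmoved _ f D σ hnc (by omega) hf hD hσ he)
      rcases Nat.eq_or_lt_of_le ha with ha1 | ha2
      · subst ha1
        have hroot : ∀ l : F, l ^ r = 1 → l = 1 := by
          intro l hl
          have hl0 : l ≠ 0 := fun h0 => by rw [h0, zero_pow hr.ne_zero] at hl; exact zero_ne_one hl
          have hcop : (Nat.card Fˣ).Coprime r := by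
            rw [Nat.card_units, Nat.card_eq_fintype_card]
            exact (hr.coprime_iff_not_dvd.mpr fun h1 => hc1 (hc ▸ r_dvd_sub_iff.mp h1)).symm
          have := (powCoprime hcop).injective (show (powCoprime hcop) (Units.mk0 l hl0) = (powCoprime hcop) 1 by
            simp [Units.ext_iff, hl])
          exact congrArg Units.val this
        have h1 := lines_bound hD hσ hf hrF hroot
        rw [he', mul_comm] at h1
        have := hnA rfl (by omega) hcr
        omega
      · obtain ⟨g, D', τ, hg, hD', hτ, hcp', he2⟩ := wit 1 le_rfl (by omega)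
        have h1 := (fix_of_moved hD' hτ hg (hmoved 1 g D' τ le_rfl (by omega) hg hD' hτ he2)).2
        rw [he2] at h1
        have h2 : c * 2 ≤ c * a := Nat.mul_le_mul_left _ ha2
        have h3 : r * a = c * a + a := by rw [show r = c + 1 by omega]; ring
        omega
  · -- sufficiency
    intro hcond x hxr hxns
    obtain ⟨z, hz⟩ := hxr
    have hz' : (x : Matrix (Fin n) (Fin n) F) ^ r = z • 1 := by
      rw [← hz, Matrix.SpecialLinearGroup.coe_pow]
    have hz0 : z ≠ 0 := scalar_data x.2 (by omega) hz'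
    obtain ⟨f, hf⟩ : ∃ f : Module.End F (Fin n → F), f = Matrix.toLinAlgEquiv' (x : Matrix (Fin n) (Fin n) F) := ⟨_, rfl⟩
    have hfr : f ^ r = z • 1 := by rw [hf, ← map_pow, hz', map_smul, map_one]
    have hfinj : Function.Injective f := fun u v e => by
      have h1 := congrArg ((f ^ (r - 1)) ·) e
      simp only [← Module.End.mul_apply, ← pow_succ, Nat.sub_add_cancel hr.pos, hfr, LinearMap.smul_apply,
        Module.End.one_apply] at h1
      exact smul_right_injective _ hz0 h1
    by_cases hzp : ∃ d : F, d ^ r = z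
    · obtain ⟨d, hd⟩ := hzp
      have hd0 : d ≠ 0 := fun h0 => hz0 (by rw [← hd, h0, zero_pow hr.ne_zero])
      refine lift x d⁻¹ (inv_ne_zero hd0) ?_
      rw [← hf]
      have hg : (d⁻¹ • f) ^ r = 1 := by
        rw [_root_.smul_pow, hfr, smul_smul, ← hd, ← mul_pow, inv_mul_cancel₀ hd0, one_pow, one_smul]
      have hginj : Function.Injective (d⁻¹ • f) := fun u v e => hfinj (smul_right_injective _ (inv_ne_zero hd0) e)
      rcases hcond with ⟨ha1, -, hcr, hnk⟩ | ⟨-, hmod⟩
      · subst ha1
        obtain ⟨s, -, -, hdim⟩ := charpoly_shape hrp (d⁻¹ • f) hg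
        rw [Module.finrank_fin_fun, ← hc, hcr] at hdim
        obtain ⟨e, he⟩ : ∃ e, e = Module.finrank F (LinearMap.ker (d⁻¹ • f - 1)) := ⟨_, rfl⟩
        obtain ⟨k, hk⟩ : ∃ k, k = Multiset.card s := ⟨_, rfl⟩
        rw [← he, ← hk] at hdim
        have hke : k ≤ e := by
          have h1 : n % c ≤ e := by rw [← hdim, hcr, Nat.add_mul_mod_self_left]; exact Nat.mod_le _ _
          have h2 : n % c * r = n % c + (r - 1) * (n % c) := by
            obtain ⟨r', hr'⟩ : ∃ r', r = r' + 1 := ⟨r - 1, by have := hr.pos; omega⟩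
            rw [hr', Nat.add_sub_cancel]; ring
          have h3 : (r - 1) * (n % c) ≤ (r - 1) * e := Nat.mul_le_mul_left _ h1
          by_contra hlt
          have h4 : (r - 1) * (e + 1) ≤ (r - 1) * k := Nat.mul_le_mul_left _ (by omega)
          rw [mul_add, mul_one] at h4
          have : 0 < r - 1 := by have := hr.two_le; omega
          omega
        obtain ⟨b, σ, hb⟩ := exists_permuted_basis hrp (hc ▸ hcr) (d⁻¹ • f) hg (he ▸ hdim) (he ▸ hke)
        obtain rfl : t = n := by rw [hat, one_mul]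
        obtain ⟨D, hD, hDσ⟩ := decomp_of_monomial ht ha b σ (Equiv.prodUnique (Fin t) (Fin 1)).symm σ
          (fun y => rfl) _ hginj hb
        exact ⟨D, hD, σ, hDσ⟩
      · obtain ⟨b, hb⟩ := exists_invariant_basis hrp a t (d⁻¹ • f) hg
          (by rw [Module.finrank_fin_fun, hat, mul_comm]) (by rw [← hc, mul_comm t a, ← hat, hmod])
        obtain ⟨D, hD, hDσ⟩ := decomp_of_basis ht ha b 1 _ hginj hb
        exact ⟨D, hD, 1, hDσ⟩
    · push Not at hzp
      obtain ⟨m, b, hm, hb⟩ := exists_monomial_nonsplit hrp hzp f hfr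
      obtain ⟨g, σ, hgσ⟩ : ∃ (g : Fin m × ZMod r ≃ Fin t × Fin a) (σ : Equiv.Perm (Fin t)),
          ∀ x, (g (x.1, x.2 + 1)).1 = σ (g x).1 := by
        rcases hr.dvd_mul.mp (show r ∣ a * t by rw [← hat, hm]; exact dvd_mul_left r m) with ⟨a', rfl⟩ | ⟨u, rfl⟩
        · have hm' : m = t * a' := Nat.eq_of_mul_eq_mul_right hr.pos (by rw [← hm, hat]; ring)
          exact ⟨(Equiv.prodCongr ((finCongr hm').trans finProdFinEquiv.symm) (Equiv.refl _)).trans
            ((Equiv.prodAssoc _ _ _).trans (Equiv.prodCongr (Equiv.refl _)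
              (Fintype.equivFinOfCardEq (by simp [mul_comm])))), 1, fun x => by simp [Equiv.prodAssoc]⟩
        · have hm' : m = u * a := Nat.eq_of_mul_eq_mul_right hr.pos (by rw [← hm, hat]; ring)
          obtain ⟨T, -⟩ : ∃ T : Fin u × ZMod r ≃ Fin (r * u), True :=
            ⟨Fintype.equivFinOfCardEq (by simp [mul_comm]), trivial⟩
          refine ⟨(Equiv.prodCongr ((finCongr hm').trans finProdFinEquiv.symm) (Equiv.refl (ZMod r))).trans
              { toFun := fun y => (T (y.1.1, y.2), y.1.2)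
                invFun := fun z => (((T.symm z.1).1, z.2), (T.symm z.1).2)
                left_inv := fun y => by simp
                right_inv := fun z => by simp },
            T.symm.trans ((Equiv.prodCongr (Equiv.refl _) (Equiv.addRight (1 : ZMod r))).trans T), fun x => ?_⟩
          simp
      obtain ⟨D, hD, hDσ⟩ := decomp_of_monomial ht ha b (fun x => (x.1, x.2 + 1)) g σ hgσ f hfinj (fun x => hb x.1 x.2)
      exact ⟨D, hD, σ, by rw [hf] at hDσ; exact hDσ⟩

end Cfsg.Agent.S5958
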