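import Cfsg.Statements.S5959
import Cfsg.Agent.SubElusive.Unipotent

set_option autoImplicit false
open scoped MatrixGroups
open Cfsg

namespace Cfsg.Agent.S5959

/-- Elements of order `p` of PSL_n(q) and imprimitive subgroups: a necessary condition. Here `T = PSL_n(F)` for a field `F` with `q = p^f` elements (`n ≥ 2`, `(n, q) ≠ (2, 2), (2, 3)`), `n = a·t` with `t ≥ 2`, and Ω is the set of direct-sum decompositions of `F^n` into `t` subspaces of dimension `a` (unordered; their number is the number of ordered ones divided by `t!`), whose stabilizers are the imprimitive subgroups of type GL_a(q) ≀ S_t (maximal except in some small cases; maximality is not assumed); an element of `T` of prime order `r` (a matrix `x` of determinant 1 with `x^r` scalar, `x` not scalar) fixes a point of Ω when it permutes the summands of some such decomposition. Suppose `p > 2` divides the number of such decompositions. If every element of `T` of order `p` stabilizes such a decomposition, then every partition of `n` into parts of size at most `p` in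 which the part `p` occurs fewer than `a` times contains (as a sub-multiset) a partition of `a`. -/
theorem result {F : Type*} [Field F] [Fintype F] {p : ℕ} [Fact p.Prime] [CharP F p] {q : ℕ} (hq : Fintype.card F = q)
    (n a t : ℕ) (hn : 2 ≤ n) (hT : (n, q) ≠ (2, 2) ∧ (n, q) ≠ (2, 3)) (hat : n = a * t) (ha : 1 ≤ a) (ht : 2 ≤ t)
    (hp : 2 < p) (hΩ : p ∣ Nat.card {D : Fin t → Submodule F (Fin n → F) // Cfsg.Geo.IsMDecomposition a D} / Nat.factorial t)
    (h : ∀ x : Matrix.SpecialLinearGroup (Fin n) F,
      (∃ z : F, ((x ^ p : Matrix.SpecialLinearGroup (Fin n) F) : Matrix (Fin n) (Fin n) F) = z • (1 : Matrix (Fin n) (Fin n) F)) →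
      (∀ z : F, (x : Matrix (Fin n) (Fin n) F) ≠ z • (1 : Matrix (Fin n) (Fin n) F)) →
      ∃ D : Fin t → Submodule F (Fin n → F), Cfsg.Geo.IsMDecomposition a D ∧
        ∃ σ : Equiv.Perm (Fin t), ∀ j, (D j).map (Matrix.toLin' (x : Matrix (Fin n) (Fin n) F)) = D (σ j)) :
    (∀ μ : Multiset ℕ, (∀ b ∈ μ, 0 < b ∧ b ≤ p) → μ.sum = n → μ.count p < a → ∃ ν : Multiset ℕ, ν ≤ μ ∧ ν.sum = a) := by
  classical
  intro μ hμ hs hcount
  haveI : Nonempty (Fin n) := ⟨⟨0, by omega⟩⟩
  by_cases hall : ∀ c ∈ μ, c ≤ 1
  · have hμ1 : μ = Multiset.replicate (Multiset.card μ) 1 :=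
      Multiset.eq_replicate_card.mpr fun c hc => by have := hμ c hc; have := hall c hc; omega
    rw [hμ1] at hs ⊢
    simp at hs
    have : a ≤ n := by rw [hat]; exact Nat.le_mul_of_pos_right a (by omega)
    exact ⟨Multiset.replicate a 1, (Multiset.replicate_le_replicate _).mpr (by omega), by simp⟩
  let π : Nat.Partition n := { parts := μ, parts_pos := fun {c} hc => (hμ c hc).1, parts_sum := hs }
  obtain ⟨A, hAnil, hA, -⟩ := CfsgLib.NilType.exists_matrix (F := F) π
  have hAp : A ^ p = 0 := (CfsgLib.NilType.pow_eq_zero_iff_type hA p).mpr fun c hc => (hμ c hc).2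
  have hMp : (1 + A) ^ p = 1 := by rw [add_pow_char_of_commute _ (Commute.one_left A), one_pow, hAp, add_zero]
  have hdet : (1 + A).det = 1 := by
    apply frobenius_inj F p
    rw [frobenius_def, frobenius_def, ← Matrix.det_pow, hMp, Matrix.det_one, one_pow]
  obtain ⟨x, hx⟩ : ∃ x : Matrix.SpecialLinearGroup (Fin n) F, x = ⟨1 + A, hdet⟩ := ⟨_, rfl⟩
  have hx' : (x : Matrix (Fin n) (Fin n) F) = 1 + A := by rw [hx]
  obtain ⟨D, hD, σ, hσ⟩ := h x ⟨1, by rw [Matrix.SpecialLinearGroup.coe_pow, hx', one_smul]; exact hMp⟩ fun c hc => by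
    rw [hx'] at hc
    have hc1 : c = 1 := by
      apply frobenius_inj F p
      rw [frobenius_def, frobenius_def, one_pow]
      rw [hc, _root_.smul_pow, one_pow] at hMp
      exact smul_left_injective F (one_ne_zero : (1 : Matrix (Fin n) (Fin n) F) ≠ 0) (hMp.trans (one_smul F _).symm)
    rw [hc1, one_smul, add_eq_left] at hc
    exact hall fun c hcm => (CfsgLib.NilType.pow_eq_zero_iff_type hA 1).mp (by rw [pow_one, hc]) c hcm
  set X : Module.End F (Fin n → F) := Matrix.toLinAlgEquiv' (1 + A) with hX
  have hσ' : ∀ j, (D j).map X = D (σ j) := fun j => by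
    have := hσ j
    rw [hx'] at this
    exact this
  have hXp : X ^ p = 1 := by rw [hX, ← map_pow, hMp, map_one]
  by_cases hfix : ∃ j, σ j = j
  · obtain ⟨j, hj⟩ := hfix
    let W : Submodule F (Fin n → F) := ⨆ k ∈ {k | k ≠ j}, D k
    have hc : IsCompl (D j) W := by
      refine ⟨hD.indep j, codisjoint_iff.mpr (eq_top_iff.mpr ?_)⟩
      rw [← hD.iSup_eq_top]
      refine iSup_le fun k => ?_
      by_cases hk : k = j
      · exact hk ▸ le_sup_left
      · exact le_sup_of_le_right (le_iSup₂ (f := fun k (_ : k ∈ {k | k ≠ j}) => D k) k hk)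
    have hW : W.map X ≤ W := by
      rw [Submodule.map_iSup]
      refine iSup_le fun k => ?_
      rw [Submodule.map_iSup]
      refine iSup_le fun hk => ?_
      rw [hσ' k]
      exact le_iSup₂ (f := fun k (_ : k ∈ {k | k ≠ j}) => D k) (σ k) (fun hkj => hk (σ.injective (hkj.trans hj.symm)))
    have hinv : ∀ Y : Submodule F (Fin n → F), Y.map X ≤ Y → Y.map (Matrix.toLin' A) ≤ Y := by
      rintro Y hY _ ⟨y, hy, rfl⟩
      have h1 := Y.sub_mem (hY ⟨y, hy, rfl⟩) hy
      rwa [hX, map_add, map_one, LinearMap.add_apply, Module.End.one_apply, add_sub_cancel_left] at h1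
    exact CfsgLib.SubElusive.type_split A hAnil hA (D j) W hc (hD.finrank_eq j)
      (hinv _ (by rw [hσ' j, hj])) (hinv _ hW)
  · exfalso
    push Not at hfix
    have hpow : ∀ (i : ℕ) (j : Fin t), (D j).map (X ^ i) = D ((σ ^ i) j) := by
      intro i
      induction i with
      | zero => intro j; rw [pow_zero, Module.End.one_eq_id, Submodule.map_id, pow_zero]; rfl
      | succ i ih =>
        intro j
        rw [pow_succ', Module.End.mul_eq_comp, Submodule.map_comp, ih, hσ', pow_succ' σ, Equiv.Perm.mul_apply]
    have hDinj : Function.Injective D := fun j k hjk => by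
      by_contra hne
      have h0 : D j = ⊥ := by
        have hd := hD.indep.pairwiseDisjoint hne
        rw [Function.onFun, hjk, disjoint_self] at hd
        rw [hjk, hd]
      have := hD.finrank_eq j
      rw [h0, finrank_bot] at this
      omega
    have hσp : σ ^ p = 1 := Equiv.ext fun j => hDinj (by
      rw [← hpow p j, hXp, Module.End.one_eq_id, Submodule.map_id]; rfl)
    let j₀ : Fin t := ⟨0, by omega⟩
    have horb : Set.InjOn (fun i => (σ ^ i) j₀) (Set.Iio p) := by
      intro i hi k hk hik
      by_contra hne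
      have key : ∀ i k, i < k → k < p → (σ ^ i) j₀ ≠ (σ ^ k) j₀ := by
        intro i k hlt hkp heq
        have hfx : (σ ^ (k - i)) ((σ ^ i) j₀) = (σ ^ i) j₀ := by
          rw [← Equiv.Perm.mul_apply, ← pow_add, Nat.sub_add_cancel hlt.le, ← heq]
        have hcop : (k - i).Coprime p :=
          ((Fact.out : p.Prime).coprime_iff_not_dvd.mpr fun hd => by have := Nat.le_of_dvd (by omega) hd; omega).symm
        have h2 : (σ ^ p) ((σ ^ i) j₀) = (σ ^ i) j₀ := by rw [hσp]; rfl
        have hmem : ∀ e, (σ ^ e) ((σ ^ i) j₀) = (σ ^ i) j₀ → σ ^ e ∈ MulAction.stabilizer (Equiv.Perm (Fin t)) ((σ ^ i) j₀) :=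
          fun e he => he
        obtain ⟨u, hu⟩ := exists_pow_eq_self_of_coprime (x := σ) (n := k - i)
          (hcop.coprime_dvd_right (orderOf_dvd_of_pow_eq_one hσp))
        have := pow_mem (hmem _ hfx) u
        rw [hu] at this
        exact hfix ((σ ^ i) j₀) this
      rcases lt_or_gt_of_ne hne with hlt | hlt
      · exact key i k hlt hk hik
      · exact key k i hlt hi hik.symm
    have hpoly : ((Polynomial.X : Polynomial F) - 1) ^ (p - 1) = ∑ i ∈ Finset.range p, Polynomial.X ^ i := by
      have hne : (Polynomial.X : Polynomial F) - 1 ≠ 0 := by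
        rw [← Polynomial.C_1]; exact Polynomial.X_sub_C_ne_zero _
      apply mul_right_cancel₀ hne
      rw [← pow_succ, Nat.sub_add_cancel (by omega), sub_pow_char, one_pow, geom_sum_mul]
    have hsum : A ^ (p - 1) = ∑ i ∈ Finset.range p, (1 + A) ^ i := by
      have h1 := congrArg (Polynomial.aeval (1 + A)) hpoly
      simpa [map_sum] using h1
    have hrank : a ≤ (A ^ (p - 1)).rank := by
      rw [CfsgLib.NilType.rank_pow_eq, ← map_pow, hsum, map_sum]
      rw [Finset.sum_congr rfl fun i _ => (show Matrix.toLinAlgEquiv' ((1 + A) ^ i) = X ^ i by rw [hX, map_pow])]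
      let L : ↥(D j₀) →ₗ[F] LinearMap.range (∑ i ∈ Finset.range p, X ^ i) :=
        (LinearMap.rangeRestrict (∑ i ∈ Finset.range p, X ^ i)).comp (D j₀).subtype
      have hL : Function.Injective L := by
        rw [← LinearMap.ker_eq_bot, Submodule.eq_bot_iff]
        rintro ⟨d, hd⟩ hk
        have h0 : (∑ i ∈ Finset.range p, X ^ i) d = 0 := congrArg Subtype.val (LinearMap.mem_ker.mp hk)
        rw [LinearMap.sum_apply, ← Finset.add_sum_erase _ _ (Finset.mem_range.mpr (show 0 < p by omega)), pow_zero,
          Module.End.one_apply] at h0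
        refine Subtype.ext (Submodule.disjoint_def.mp (hD.indep j₀) d hd ?_)
        rw [eq_neg_of_add_eq_zero_left h0]
        refine Submodule.neg_mem _ (Submodule.sum_mem _ fun i hi => ?_)
        obtain ⟨hi0, hip⟩ := Finset.mem_erase.mp hi
        have hne : (σ ^ i) j₀ ≠ j₀ := fun he =>
          hi0 (horb (Finset.mem_range.mp hip) (show (0 : ℕ) ∈ Set.Iio p from (show 0 < p by omega)) (by simpa using he))
        exact le_iSup₂ (f := fun k (_ : k ≠ j₀) => D k) _ hne (hpow i j₀ ▸ Submodule.mem_map_of_mem hd)
      have := LinearMap.finrank_le_finrank_of_injective hL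
      rwa [hD.finrank_eq j₀] at this
    have hcnt : (μ.map fun c => c - (p - 1)).sum = μ.count p := by
      have : ∀ s : Multiset ℕ, (∀ c ∈ s, c ≤ p) → (s.map fun c => c - (p - 1)).sum = s.count p := by
        intro s
        induction s using Multiset.induction with
        | empty => simp
        | cons c s ih =>
          intro hs'
          rw [Multiset.map_cons, Multiset.sum_cons, Multiset.count_cons, ih fun x hx => hs' x (Multiset.mem_cons_of_mem hx)]
          have := hs' c (Multiset.mem_cons_self c s)
          split <;> omega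
      exact this μ fun c hc => (hμ c hc).2
    rw [hA (p - 1), CfsgLib.NilType.prank, hcnt] at hrank
    omega

end Cfsg.Agent.S5959
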