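import Cfsg.Statements.S5961
import Cfsg.Agent.SubElusive.SympAct
import Cfsg.Agent.SympInvol.Bins

set_option autoImplicit false
open scoped MatrixGroups
open Cfsg

namespace Cfsg.Agent.S5961

open CfsgLib.SubElusive CfsgLib.SemiClasses

/-- A decomposition of the standard space into orthogonal nondegenerate parts. -/
abbrev IsODec (F : Type*) [Field F] (d a : ℕ) {t : ℕ} (D : Fin t → Submodule F (Fin d ⊕ Fin d → F)) : Prop :=
  Cfsg.Geo.IsMDecomposition a D ∧ (∀ j, ∀ u ∈ D j, u ≠ 0 → ∃ v ∈ D j, Cfsg.sympForm d F u v ≠ 0) ∧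
    (∀ j j', j ≠ j' → ∀ u ∈ D j, ∀ v ∈ D j', Cfsg.sympForm d F u v = 0)

/-- All orthogonal decompositions are conjugate and permutations act freely. -/
theorem card_odec {F : Type*} [Field F] [Fintype F] {d b t : ℕ} (hdim : d = t * b) :
    (Nat.factorial t ∣ Nat.card {D : Fin t → Submodule F (Fin d ⊕ Fin d → F) // IsODec F d (2 * b) D} ∧
      Nat.card {D : Fin t → Submodule F (Fin d ⊕ Fin d → F) // IsODec F d (2 * b) D} ∣
        Nat.card (Matrix.symplecticGroup (Fin d) F)) ∨
    Nat.card {D : Fin t → Submodule F (Fin d ⊕ Fin d → F) // IsODec F d (2 * b) D} = 0 := by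
  classical
  rcases isEmpty_or_nonempty {D : Fin t → Submodule F (Fin d ⊕ Fin d → F) // IsODec F d (2 * b) D} with hE | ⟨⟨D₀, hD₀⟩⟩
  · exact Or.inr Nat.card_of_isEmpty
  refine Or.inl ⟨?_, ?_⟩
  · have hinj : ∀ D : {D : Fin t → Submodule F (Fin d ⊕ Fin d → F) // IsODec F d (2 * b) D}, Function.Injective D.1 :=
      fun D j k hjk => by
        by_contra hne
        have h0 : D.1 j = ⊥ := by
          have hd := D.2.1.indep.pairwiseDisjoint hne
          rw [Function.onFun, hjk, disjoint_self] at hd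
          rw [hjk, hd]
        have := D.2.1.finrank_eq j
        rw [h0, finrank_bot] at this
        exact D.2.1.pos.ne this
    have hperm : ∀ (D : Fin t → Submodule F (Fin d ⊕ Fin d → F)), IsODec F d (2 * b) D → ∀ π : Equiv.Perm (Fin t),
        IsODec F d (2 * b) (D ∘ π) := fun D hD π =>
      ⟨⟨hD.1.two_le, hD.1.pos, fun j => hD.1.finrank_eq (π j), hD.1.indep.comp π.injective,
        (π.surjective.iSup_comp D).trans hD.1.iSup_eq_top⟩, fun j => hD.2.1 (π j),
        fun j k hjk => hD.2.2 (π j) (π k) fun e => hjk (π.injective e)⟩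
    let R : {D : Fin t → Submodule F (Fin d ⊕ Fin d → F) // IsODec F d (2 * b) D} →
        Set (Submodule F (Fin d ⊕ Fin d → F)) := fun D => Set.range D.1
    have hfib : ∀ y : Set.range R, Nat.card {D // Set.rangeFactorization R D = y} = Nat.factorial t := by
      rintro ⟨_, D, rfl⟩
      rw [show Nat.factorial t = Nat.card (Equiv.Perm (Fin t)) by simp [Nat.card_eq_fintype_card, Fintype.card_perm]]
      refine (Nat.card_congr (Equiv.ofBijective
        (fun π : Equiv.Perm (Fin t) => ⟨⟨D.1 ∘ π, hperm D.1 D.2 π⟩, Subtype.ext (π.surjective.range_comp D.1)⟩)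
        ⟨fun π ρ h => Equiv.ext fun j => hinj D (congrFun (congrArg Subtype.val (congrArg Subtype.val h)) j), ?_⟩)).symm
      rintro ⟨D', hD'⟩
      have h1 : Set.range D'.1 = Set.range D.1 := congrArg Subtype.val hD'
      let e := (Equiv.ofInjective _ (hinj D')).trans ((Equiv.setCongr h1).trans (Equiv.ofInjective _ (hinj D)).symm)
      refine ⟨e, Subtype.ext (Subtype.ext (funext fun j => ?_))⟩
      show D.1 (e j) = D'.1 j
      simp [e, Equiv.apply_ofInjective_symm]
    rw [← Nat.card_congr (Equiv.sigmaFiberEquiv (Set.rangeFactorization R))]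
    haveI : Fintype (Set.range R) := Fintype.ofFinite _
    rw [Nat.card_sigma, Finset.sum_congr rfl fun y _ => hfib y, Finset.sum_const, smul_eq_mul]
    exact dvd_mul_left _ _
  · obtain ⟨Bf, hBf⟩ : ∃ Bf : LinearMap.BilinForm F (Fin d ⊕ Fin d → F), ∀ u v, Bf u v = Cfsg.sympForm d F u v :=
      ⟨CfsgLib.PolarPair.bform F d, fun u v => rfl⟩
    -- coordinates adapted to a decomposition
    have coord : ∀ (D : Fin t → Submodule F (Fin d ⊕ Fin d → F)), IsODec F d (2 * b) D →
        ∃ L : (Fin t → (Fin b ⊕ Fin b → F)) ≃ₗ[F] (Fin d ⊕ Fin d → F),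
          (∀ v w, Cfsg.sympForm d F (L v) (L w) = ∑ j, Cfsg.sympForm b F (v j) (w j)) ∧
          ∀ j, D j = LinearMap.range ((L : _ →ₗ[F] _).comp (LinearMap.single F (fun _ => Fin b ⊕ Fin b → F) j)) := by
      intro D hD
      have hg : ∀ j, ∃ g : ↥(D j) ≃ₗ[F] (Fin b ⊕ Fin b → F),
          ∀ u v, Cfsg.sympForm b F (g u) (g v) = Cfsg.sympForm d F u.1 v.1 := by
        intro j
        obtain ⟨g, hg⟩ := CfsgLib.Forms.exists_symp_coord (n := b) (hD.1.finrank_eq j) (Bf.restrict (D j))
          (fun v => (hBf _ _).trans (CfsgLib.SpGeom.form_self _)) (fun v hv => by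
            by_contra hv0
            obtain ⟨w, hw, hne⟩ := hD.2.1 j v.1 v.2 fun h0 => hv0 (Subtype.ext h0)
            exact hne ((hBf _ _).symm.trans (hv ⟨w, hw⟩)))
        exact ⟨g, fun u v => (hg u v).trans (hBf _ _)⟩
      choose g hg using hg
      let Λ : (Fin t → (Fin b ⊕ Fin b → F)) →ₗ[F] (Fin d ⊕ Fin d → F) :=
        ∑ j, ((D j).subtype.comp (g j).symm.toLinearMap).comp (LinearMap.proj j)
      have hΛ : ∀ v, Λ v = ∑ j, ((g j).symm (v j)).1 := fun v => by simp [Λ]
      have hform : ∀ v w, Cfsg.sympForm d F (Λ v) (Λ w) = ∑ j, Cfsg.sympForm b F (v j) (w j) := by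
        intro v w
        rw [← hBf, hΛ, hΛ, map_sum]
        refine Finset.sum_congr rfl fun j _ => ?_
        rw [map_sum, LinearMap.sum_apply, Finset.sum_eq_single j (fun k _ hk => (hBf _ _).trans
          (hD.2.2 k j hk _ ((g k).symm (v k)).2 _ ((g j).symm (w j)).2)) (fun h => absurd (Finset.mem_univ j) h),
          hBf, ← hg j, LinearEquiv.apply_symm_apply, LinearEquiv.apply_symm_apply]
      have hΛi : Function.Injective Λ := by
        rw [← LinearMap.ker_eq_bot, LinearMap.ker_eq_bot']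
        intro v hv
        funext j
        by_contra hj
        obtain ⟨w, hw⟩ := CfsgLib.SpGeom.exists_form_ne_zero hj
        apply hw
        have h2 := hform v (Pi.single j w)
        rw [hv, CfsgLib.SpGeom.form_zero_left, Finset.sum_eq_single j (fun k _ hk => by
          rw [Pi.single_eq_of_ne hk, CfsgLib.SpGeom.form_zero_right]) (fun h => absurd (Finset.mem_univ j) h),
          Pi.single_eq_same] at h2
        exact h2.symm
      have hfr : Module.finrank F (Fin t → (Fin b ⊕ Fin b → F)) = Module.finrank F (Fin d ⊕ Fin d → F) := by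
        rw [Module.finrank_pi_fintype, Module.finrank_pi, Module.finrank_pi, Finset.sum_const, Finset.card_univ,
          Fintype.card_fin, Fintype.card_sum, Fintype.card_sum, Fintype.card_fin, Fintype.card_fin, hdim, smul_eq_mul]
        ring
      refine ⟨LinearEquiv.ofBijective Λ ⟨hΛi, (LinearMap.injective_iff_surjective_of_finrank_eq_finrank hfr).mp hΛi⟩,
        hform, fun j => ?_⟩
      refine (Submodule.eq_of_le_of_finrank_eq ?_ ?_).symm
      · rintro _ ⟨w, rfl⟩
        show Λ (Pi.single j w) ∈ D j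
        rw [hΛ, Finset.sum_eq_single j (fun k _ hk => by rw [Pi.single_eq_of_ne hk, map_zero]; rfl)
          (fun h => absurd (Finset.mem_univ j) h)]
        exact Submodule.coe_mem _
      · rw [LinearMap.finrank_range_of_inj, Module.finrank_pi, Fintype.card_sum, Fintype.card_fin, hD.1.finrank_eq j,
          two_mul]
        intro v w e
        exact Pi.single_injective j (hΛi e)
    have hmap : ∀ (g : Matrix.symplecticGroup (Fin d) F), IsODec F d (2 * b)
        fun j => (D₀ j).map (Matrix.toLin' (g : Matrix (Fin d ⊕ Fin d) (Fin d ⊕ Fin d) F)) := by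
      intro g
      have hinj : Function.Injective (Matrix.toLin' (g : Matrix (Fin d ⊕ Fin d) (Fin d ⊕ Fin d) F)) := fun x y e => by
        have := congrArg (((g⁻¹ : Matrix.symplecticGroup (Fin d) F) : Matrix (Fin d ⊕ Fin d) (Fin d ⊕ Fin d) F).mulVec) e
        simpa only [Matrix.toLin'_apply, CfsgLib.SpGeom.inv_mulVec] using this
      refine ⟨⟨hD₀.1.two_le, hD₀.1.pos, fun j => ?_, ?_, ?_⟩, fun j => ?_, fun j k hjk => ?_⟩
      · rw [← (Submodule.equivMapOfInjective _ hinj (D₀ j)).finrank_eq, hD₀.1.finrank_eq]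
      · intro j
        rw [show (⨆ (k) (_ : k ≠ j), (D₀ k).map (Matrix.toLin' (g : Matrix (Fin d ⊕ Fin d) (Fin d ⊕ Fin d) F))) =
          (⨆ (k) (_ : k ≠ j), D₀ k).map (Matrix.toLin' (g : Matrix (Fin d ⊕ Fin d) (Fin d ⊕ Fin d) F)) by simp only [Submodule.map_iSup]]
        exact Submodule.disjoint_map hinj (hD₀.1.indep j)
      · rw [← Submodule.map_iSup, hD₀.1.iSup_eq_top, Submodule.map_top, LinearMap.range_eq_top]
        exact LinearMap.injective_iff_surjective.mp hinj
      · rintro _ ⟨u, hu, rfl⟩ hne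
        obtain ⟨v, hv, hf⟩ := hD₀.2.1 j u hu fun h0 => hne (by rw [h0, map_zero])
        exact ⟨_, ⟨v, hv, rfl⟩, by rw [Matrix.toLin'_apply, Matrix.toLin'_apply, CfsgLib.SpGeom.form_mulVec]; exact hf⟩
      · rintro _ ⟨u, hu, rfl⟩ _ ⟨v, hv, rfl⟩
        rw [Matrix.toLin'_apply, Matrix.toLin'_apply, CfsgLib.SpGeom.form_mulVec]
        exact hD₀.2.2 j k hjk u hu v hv
    obtain ⟨Φ, hΦ⟩ : ∃ Φ : Matrix.symplecticGroup (Fin d) F →
        {D : Fin t → Submodule F (Fin d ⊕ Fin d → F) // IsODec F d (2 * b) D},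
        ∀ g, (Φ g).1 = fun j => (D₀ j).map (Matrix.toLin' (g : Matrix (Fin d ⊕ Fin d) (Fin d ⊕ Fin d) F)) :=
      ⟨fun g => ⟨_, hmap g⟩, fun g => rfl⟩
    have htrans : ∀ D, ∃ g, Φ g = D := by
      intro D
      obtain ⟨L₀, hL₀, hR₀⟩ := coord D₀ hD₀
      obtain ⟨L, hL, hR⟩ := coord D.1 D.2
      obtain ⟨E, hE⟩ : ∃ E, E = L₀.symm.trans L := ⟨_, rfl⟩
      let g : Matrix.symplecticGroup (Fin d) F := ⟨LinearMap.toMatrix' (E : _ →ₗ[F] _),
        CfsgLib.SpGeom.mem_of_form fun u v => by
          rw [LinearMap.toMatrix'_mulVec, LinearMap.toMatrix'_mulVec, hE]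
          show Cfsg.sympForm d F (L (L₀.symm u)) (L (L₀.symm v)) = _
          rw [hL, ← hL₀, LinearEquiv.apply_symm_apply, LinearEquiv.apply_symm_apply]⟩
      refine ⟨g, Subtype.ext ?_⟩
      rw [hΦ]
      funext j
      rw [show Matrix.toLin' (g : Matrix (Fin d ⊕ Fin d) (Fin d ⊕ Fin d) F) = (E : _ →ₗ[F] _) from
        Matrix.toLin'_toMatrix' _, hR₀, hR, ← LinearMap.range_comp]
      congr 1
      refine LinearMap.ext fun v => ?_
      simp [hE]
    refine ⟨Nat.card {g // Φ g = Φ 1}, ?_⟩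
    have hmul : ∀ g h : Matrix.symplecticGroup (Fin d) F, ∀ j, ((Φ (g * h)).1 j) =
        ((Φ h).1 j).map (Matrix.toLin' (g : Matrix (Fin d ⊕ Fin d) (Fin d ⊕ Fin d) F)) := fun g h j => by
      rw [hΦ, hΦ, CfsgLib.SpGeom.coe_mul', Matrix.toLin'_mul]
      exact Submodule.map_comp _ _ _
    have hfib : ∀ D, Nat.card {g // Φ g = D} = Nat.card {g // Φ g = Φ 1} := by
      intro D
      obtain ⟨g₀, rfl⟩ := htrans D
      refine (Nat.card_congr (Equiv.subtypeEquiv (Equiv.mulLeft g₀) fun h => ?_)).symm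
      constructor
      · intro e
        refine Subtype.ext (funext fun j => ?_)
        rw [Equiv.coe_mulLeft, hmul, e, ← hmul, mul_one]
      · intro e
        refine Subtype.ext (funext fun j => ?_)
        have h2 := congrFun (congrArg Subtype.val e) j
        rw [Equiv.coe_mulLeft, hmul, show (Φ g₀).1 j =
          ((Φ 1).1 j).map (Matrix.toLin' (g₀ : Matrix (Fin d ⊕ Fin d) (Fin d ⊕ Fin d) F)) by rw [← hmul, mul_one]] at h2
        refine Submodule.map_injective_of_injective (fun x y e => ?_) h2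
        have := congrArg (((g₀⁻¹ : Matrix.symplecticGroup (Fin d) F) : Matrix (Fin d ⊕ Fin d) (Fin d ⊕ Fin d) F).mulVec) e
        simpa only [Matrix.toLin'_apply, CfsgLib.SpGeom.inv_mulVec] using this
    haveI : Fintype {D : Fin t → Submodule F (Fin d ⊕ Fin d → F) // IsODec F d (2 * b) D} := Fintype.ofFinite _
    rw [← Nat.card_congr (Equiv.sigmaFiberEquiv Φ), Nat.card_sigma, Finset.sum_congr rfl fun D _ => hfib D,
      Finset.sum_const, smul_eq_mul, Finset.card_univ, ← Nat.card_eq_fintype_card]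

/-- Elements of odd prime order of PSp_n(q) and imprimitive subgroups. Here `T = PSp_n(q)`, `n = 2d ≥ 4`, `(n, q) ≠ (4, 2)`, realised through the symplectic matrices over the field `F` with `q` elements and the standard alternating form; `n = a·t` with `a` even and `t ≥ 2`, and Ω is the (nonempty) set of orthogonal decompositions of `F^n` into `t` nondegenerate subspaces of dimension `a` (unordered; counted as ordered ones divided by `t!`), whose stabilizers are the imprimitive subgroups of type Sp_a(q) ≀ S_t (maximality is not assumed); an element of `T` of prime order `r` (a symplectic matrix `x` with `x^r` scalar, `x` not scalar) fixes a point of Ω when it permutes the summands of some such decomposition. Let `r ≠ p` be an odd prime dividing the number of such decompositions, let `i` be the multiplicative order of `q` modulo `r`, `c = i` if `i` is even and `c = 2i` if `i` is odd, and write `k = n mod c`, `ℓ = a mod c`. Then every element of `T` of order `r` stabilizes such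 a decomposition if and only if `c ≤ a` and `k = t·ℓ`. -/
theorem result {F : Type*} [Field F] [Fintype F] {p : ℕ} [Fact p.Prime] [CharP F p] {q : ℕ} (hq : Fintype.card F = q)
    (d : ℕ) (hd : 2 ≤ d) (hT : (d, q) ≠ (2, 2))
    (a t : ℕ) (hat : 2 * d = a * t) (ha : 2 ≤ a) (hae : Even a) (ht : 2 ≤ t)
    (r : ℕ) [Fact r.Prime] (hr2 : r ≠ 2) (hrp : r ≠ p) (hΩ : r ∣ Nat.card {D : Fin t → Submodule F (Fin d ⊕ Fin d → F) // (Cfsg.Geo.IsMDecomposition a D ∧ (∀ j, ∀ u ∈ D j, u ≠ 0 → ∃ v ∈ D j, Cfsg.sympForm d F u v ≠ 0) ∧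
          (∀ j j', j ≠ j' → ∀ u ∈ D j, ∀ v ∈ D j', Cfsg.sympForm d F u v = 0))} / Nat.factorial t)
    (i c : ℕ) (hi : i = orderOf (q : ZMod r)) (hc : c = if Even i then i else 2 * i) :
    (∀ x : ↥(Matrix.symplecticGroup (Fin d) F),
      (∃ z : F, ((x ^ r : ↥(Matrix.symplecticGroup (Fin d) F)) : Matrix (Fin d ⊕ Fin d) (Fin d ⊕ Fin d) F) = z • (1 : Matrix (Fin d ⊕ Fin d) (Fin d ⊕ Fin d) F)) →
      (∀ z : F, (x : Matrix (Fin d ⊕ Fin d) (Fin d ⊕ Fin d) F) ≠ z • (1 : Matrix (Fin d ⊕ Fin d) (Fin d ⊕ Fin d) F)) →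
      ∃ D : Fin t → Submodule F (Fin d ⊕ Fin d → F), (Cfsg.Geo.IsMDecomposition a D ∧ (∀ j, ∀ u ∈ D j, u ≠ 0 → ∃ v ∈ D j, Cfsg.sympForm d F u v ≠ 0) ∧
          (∀ j j', j ≠ j' → ∀ u ∈ D j, ∀ v ∈ D j', Cfsg.sympForm d F u v = 0)) ∧
        ∃ σ : Equiv.Perm (Fin t), ∀ j, (D j).map (Matrix.toLin' (x : Matrix (Fin d ⊕ Fin d) (Fin d ⊕ Fin d) F)) = D (σ j)) ↔
    (c ≤ a ∧ (2 * d) % c = t * (a % c)) := by
  classical
  subst hq
  obtain ⟨hr⟩ := (inferInstance : Fact r.Prime)
  haveI : Fact r.Prime := ⟨hr⟩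
  haveI : Nonempty (Fin d ⊕ Fin d) := ⟨Sum.inl ⟨0, by omega⟩⟩
  obtain ⟨b, hb⟩ := hae
  obtain rfl : a = 2 * b := by omega
  have hdb : d = t * b := by
    have : 2 * d = 2 * (t * b) := by rw [hat]; ring
    omega
  subst hdb
  obtain ⟨u, hu⟩ := exists_unit_card (F := F) (r := r) (p := p) (q := Fintype.card F) dvd_rfl hrp
  obtain ⟨h, hh, hinv⟩ := exists_multiplier u hr2
  have hui : orderOf u = i := by rw [← orderOf_units, hu, hi]
  have hch : orderOf h = c := by
    rw [hh, hc, hui]
    rcases Nat.even_or_odd i with he | ho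
    · rw [if_pos he, if_neg (Nat.not_odd_iff_even.mpr he)]
    · rw [if_neg (Nat.not_even_iff_odd.mpr ho), if_pos ho]
  have hi0 : 0 < i := hui ▸ orderOf_pos u
  have hc2 : 2 ≤ c := by
    rw [hc]
    split_ifs with he
    · obtain ⟨e, he⟩ := he; omega
    · omega
  have hcr : c ≤ r - 1 := by
    have h1 : orderOf h ∣ r - 1 := by rw [← ZMod.card_units r]; exact orderOf_dvd_card
    rw [hch] at h1
    exact Nat.le_of_dvd (by have := hr.two_le; omega) h1
  obtain ⟨P, hP, hLfin, hζ⟩ := exists_root_field F hr (natCast_ne_zero hrp)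
  have hsum : ∀ x : Matrix (Fin (t * b) ⊕ Fin (t * b)) (Fin (t * b) ⊕ Fin (t * b)) F, x ^ r = 1 →
      ∑ y : ZMod r, mult (AdjoinRoot.root P) x y = 2 * (t * b) := fun x hx => by
    rw [sum_mult hζ hx, Fintype.card_sum, Fintype.card_fin, two_mul]
  have hxinv : ∀ x ∈ Matrix.symplecticGroup (Fin (t * b)) F, x ^ r = 1 → ∀ y : ZMod r,
      mult (AdjoinRoot.root P) x (y * (h : ZMod r)) = mult (AdjoinRoot.root P) x y := fun x hx hxr =>
    form_mult_inv hζ hrp hu hinv (Matrix.isUnit_det_J _ _) hxr (SymplecticGroup.mem_iff'.mp hx)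
  have hker : ∀ x : Matrix (Fin (t * b) ⊕ Fin (t * b)) (Fin (t * b) ⊕ Fin (t * b)) F, x ^ r = 1 →
      mult (AdjoinRoot.root P) x (0 : ZMod r) = Module.finrank F (LinearMap.ker (Matrix.toLinAlgEquiv' x - 1 :
        Module.End F (Fin (t * b) ⊕ Fin (t * b) → F))) := fun x hx => mult_zero_eq hrp hx
  constructor
  · intro hall
    by_contra hneg
    push Not at hneg
    -- the order does not exceed the dimension
    have hcn : c ≤ 2 * (t * b) := by
      rcases card_odec (F := F) (b := b) (t := t) (d := t * b) rfl with ⟨hf, hdv⟩ | h0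
      · obtain ⟨g, hg⟩ := exists_prime_orderOf_dvd_card' r ((hΩ.trans (Nat.div_dvd_of_dvd hf)).trans hdv)
        have hgr : (g : Matrix (Fin (t * b) ⊕ Fin (t * b)) (Fin (t * b) ⊕ Fin (t * b)) F) ^ r = 1 := by
          rw [← SubmonoidClass.coe_pow, ← hg, pow_orderOf_eq_one, Submonoid.coe_one]
        obtain ⟨k, hk, -⟩ := orbit_data h _ (hxinv g g.2 hgr)
        rw [hsum _ hgr, hch] at hk
        rcases Nat.eq_zero_or_pos k with hk0 | hk0
        · exfalso
          refine hr.one_lt.ne' ?_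
          rw [← hg, orderOf_eq_one_iff]
          rw [hk0, mul_zero, add_zero, hker _ hgr] at hk
          have htop : LinearMap.ker (Matrix.toLinAlgEquiv' (g : Matrix (Fin (t * b) ⊕ Fin (t * b)) (Fin (t * b) ⊕ Fin (t * b)) F) - 1 :
              Module.End F (Fin (t * b) ⊕ Fin (t * b) → F)) = ⊤ := by
            refine Submodule.eq_top_of_finrank_eq ?_
            rw [hk, Module.finrank_pi, Fintype.card_sum, Fintype.card_fin, two_mul]
          refine CfsgLib.SpGeom.ext_mulVec fun v => ?_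
          have := LinearMap.congr_fun (LinearMap.ker_eq_top.mp htop) v
          rw [LinearMap.sub_apply, Module.End.one_apply, LinearMap.zero_apply, sub_eq_zero] at this
          rw [CfsgLib.SpGeom.coe_one', Matrix.one_mulVec]
          exact this
        · have : c ≤ c * k := Nat.le_mul_of_pos_right c hk0
          omega
      · exfalso
        obtain ⟨hS, hV⟩ := CfsgLib.SympInvol.setting_of_symplectic (z := (1 : F)) (d := t * b) (by omega) 1
          (by rw [one_pow, one_smul]; rfl)
        obtain ⟨D, hD, hperp, hind, htop, -⟩ := hS.decomposition hV (m := b) (t := t) (by omega)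
          (by rw [Module.finrank_pi, Fintype.card_sum, Fintype.card_fin]; ring)
        haveI : Nonempty {D : Fin t → Submodule F (Fin (t * b) ⊕ Fin (t * b) → F) // IsODec F (t * b) (2 * b) D} :=
          ⟨⟨D, ⟨ht, by omega, fun j => (hD j).2, hind, htop⟩, (nondeg_of_split hperp htop).1, hperp⟩⟩
        exact Nat.card_pos.ne' h0
    -- the witness
    have hdiv := Nat.mod_add_div (2 * (t * b)) c
    obtain ⟨j, hj1, hjn, hjA, hjB⟩ : ∃ j, 1 ≤ j ∧ c * j ≤ 2 * (t * b) ∧
        (c ≤ 2 * b → 2 * (t * b) - c * j = 2 * (t * b) % c) ∧ (2 * b < c → j = 1) := by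
      rcases le_or_gt c (2 * b) with hle | hle
      · exact ⟨2 * (t * b) / c, Nat.div_pos hcn (by omega), by omega, fun _ => by omega, fun h => by omega⟩
      · exact ⟨1, le_rfl, by omega, fun h => by omega, fun _ => rfl⟩
    obtain ⟨f, hf, hf0, hfs⟩ : ∃ f : ZMod r → ℕ, (∀ x, f (x * (h : ZMod r)) = f x) ∧ f 0 = 2 * (t * b) - c * j ∧
        ∑ x, f x = 2 * (t * b) := by
      obtain ⟨k, hk, hsub⟩ := orbit_data h (fun x : ZMod r => if x = 0 then 2 * (t * b) - c * j else j)
        (fun x => by simp only [mul_eq_zero, h.ne_zero, or_false])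
      rw [hch] at hk
      have hk' : j ≤ k := by
        rw [if_pos rfl, sum_zmod] at hk
        simp only [if_pos, Units.ne_zero, if_false, Finset.sum_const, Finset.card_univ, ZMod.card_units, smul_eq_mul] at hk
        have h1 : c * j ≤ c * k := by
          have h2 : c * j ≤ (r - 1) * j := Nat.mul_le_mul_right _ hcr
          omega
        exact Nat.le_of_mul_le_mul_left h1 (by omega)
      obtain ⟨g, hg, hg0, -, hgs⟩ := hsub (2 * (t * b) - c * j) (by simp) j hk'
      exact ⟨g, hg, hg0, by rw [hgs, hch]; omega⟩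
    obtain ⟨x, hx, hxr, hxm⟩ := exists_symp_mult (F := F) hζ hrp hr2 hu f ((hinv f).mpr hf).1 ((hinv f).mpr hf).2 hfs
    have hcj : 1 ≤ c * j := Nat.mul_pos (by omega) hj1
    have he : Module.finrank F (LinearMap.ker (Matrix.toLinAlgEquiv' x - 1 :
        Module.End F (Fin (t * b) ⊕ Fin (t * b) → F))) = 2 * (t * b) - c * j := by
      rw [← hker x hxr, hxm, hf0]
    have hns : ∀ z : F, x ≠ z • (1 : Matrix (Fin (t * b) ⊕ Fin (t * b)) (Fin (t * b) ⊕ Fin (t * b)) F) := by
      intro z hz
      rcases eq_or_ne z 1 with rfl | hz1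
      · rw [one_smul] at hz
        rw [hz, map_one, sub_self, LinearMap.ker_zero, finrank_top, Module.finrank_pi, Fintype.card_sum,
          Fintype.card_fin] at he
        omega
      · have hzu := hz
        have h1 : mult (AdjoinRoot.root P) x (0 : ZMod r) = 0 := by
          rw [hker x hxr, Submodule.finrank_eq_zero, LinearMap.ker_eq_bot']
          intro v hv
          rw [LinearMap.sub_apply, Module.End.one_apply, hz, map_smul, map_one, LinearMap.smul_apply, Module.End.one_apply,
            ← one_smul F v, smul_smul, mul_one, ← sub_smul, smul_eq_zero, sub_eq_zero] at hv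
          exact hv.resolve_left hz1
        -- a scalar has a single eigenvalue but the orbit has at least two
        have h2 : ∀ y : ZMod r, y ≠ 0 → f y ≠ 0 → (AdjoinRoot.root P) ^ y.val = algebraMap F _ z := by
          intro y _ hy
          rw [← hxm, mult, hz, Matrix.smul_one_eq_diagonal, Matrix.charpoly_diagonal, Finset.prod_const,
            Polynomial.map_pow, Polynomial.map_sub, Polynomial.map_X, Polynomial.map_C, ← Nat.pos_iff_ne_zero,
            Polynomial.rootMultiplicity_pos', Polynomial.IsRoot.def, Polynomial.eval_pow, Polynomial.eval_sub,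
            Polynomial.eval_X, Polynomial.eval_C] at hy
          exact sub_eq_zero.mp (eq_zero_of_pow_eq_zero hy.2)
        obtain ⟨y, hy⟩ : ∃ y, y ≠ 0 ∧ f y ≠ 0 := by
          by_contra hno
          push Not at hno
          have : ∑ y, f y = f 0 := Finset.sum_eq_single 0 (fun y _ hy => hno y hy) (fun h => absurd (Finset.mem_univ _) h)
          rw [hfs, hf0] at this
          omega
        have h3 := pw_inj hζ ((h2 (y * h) (mul_ne_zero hy.1 h.ne_zero) (by rw [hf]; exact hy.2)).trans
          (h2 y hy.1 hy.2).symm)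
        have h4 : (h : ZMod r) = 1 := mul_left_cancel₀ hy.1 (h3.trans (mul_one y).symm)
        rw [Units.val_eq_one] at h4
        rw [h4, orderOf_one] at hch
        omega
    obtain ⟨D, ⟨hD, hDn, -⟩, σ, hσ⟩ := hall ⟨x, hx⟩ ⟨1, by
      rw [one_smul, SubmonoidClass.coe_pow]; exact hxr⟩ hns
    have hfr : (Matrix.toLinAlgEquiv' x : Module.End F (Fin (t * b) ⊕ Fin (t * b) → F)) ^ r = 1 := by
      rw [← map_pow, hxr, map_one]
    have hcard : Fintype.card (Fin (t * b) ⊕ Fin (t * b)) = 2 * (t * b) := by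
      rw [Fintype.card_sum, Fintype.card_fin, two_mul]
    by_cases hσ1 : σ = 1
    · have hle := fix_sum hD (l := 2 * b % c) (f := Matrix.toLinAlgEquiv' x) fun j => by
        have := sub_fix_le hζ hrp hu hinv hx hxr (D j) (fun v hv => by
          have h1 : x.mulVec v ∈ (D j).map (Matrix.toLin' x) := ⟨v, hv, by simp⟩
          rw [show (D j).map (Matrix.toLin' x) = D j by rw [hσ j, hσ1]; rfl] at h1
          exact h1) (hDn j)
        rwa [hD.finrank_eq, hch] at this
      rw [he] at hle
      rcases le_or_gt c (2 * b) with hca | hca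
      · rw [hjA hca] at hle
        refine hneg hca ?_
        have h1 : 2 * (t * b) % c = t * (2 * b % c) % c := by
          rw [Nat.mul_mod_mod]; congr 1; ring
        rcases Nat.lt_or_ge (t * (2 * b % c)) c with h2 | h2
        · exact h1.trans (Nat.mod_eq_of_lt h2)
        · have := Nat.mod_lt (2 * (t * b)) (show 0 < c by omega); omega
      · rw [Nat.mod_eq_of_lt hca] at hle
        have : 2 * (t * b) = t * (2 * b) := by ring
        omega
    · have hσ' : ∀ i, (D i).map (Matrix.toLinAlgEquiv' x : Module.End F (Fin (t * b) ⊕ Fin (t * b) → F)) = D (σ i) := hσ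
      obtain ⟨h1, h2⟩ := fix_of_moved hD hσ' hfr hσ1
      rw [he] at h1 h2
      rw [hcard] at h2
      rcases le_or_gt c (2 * b) with hca | hca
      · rw [hjA hca] at h1
        have := Nat.mod_lt (2 * (t * b)) (show 0 < c by omega)
        omega
      · have h3 : c * j ≤ 2 * (t * b) := hjn
        have h4 : r * (2 * b) = (r - 1) * (2 * b) + 2 * b := by
          rw [← add_one_mul, Nat.sub_add_cancel (show 1 ≤ r from hr.pos)]
        have h5 : c * (2 * b) ≤ (r - 1) * (2 * b) := Nat.mul_le_mul_right _ hcr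
        have h6 : c * 2 ≤ c * (2 * b) := Nat.mul_le_mul_left _ (by omega)
        have hj' : j = 1 := hjB hca
        rw [hj', mul_one] at h2 h3
        omega
  · rintro ⟨-, hmod⟩ x ⟨z, hz⟩ -
    have hzm : (x : Matrix (Fin (t * b) ⊕ Fin (t * b)) (Fin (t * b) ⊕ Fin (t * b)) F) ^ r = z • 1 := by
      rw [← hz, SubmonoidClass.coe_pow]
    have hz2 : z * z = 1 := by
      obtain ⟨w, hw⟩ := CfsgLib.SpGeom.exists_form_ne_zero (F := F) (m := t * b)
        (v := Pi.single (Sum.inl ⟨0, by omega⟩) 1) (by simp)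
      have h1 := CfsgLib.SpGeom.form_mulVec (x ^ r) (Pi.single (Sum.inl ⟨0, by omega⟩) 1) w
      rw [hz, Matrix.smul_mulVec, Matrix.smul_mulVec, Matrix.one_mulVec, Matrix.one_mulVec,
        CfsgLib.SpGeom.form_smul_left, CfsgLib.SpGeom.form_smul_right, ← mul_assoc] at h1
      exact mul_right_cancel₀ hw (h1.trans (one_mul _).symm)
    have hz0 : z ≠ 0 := fun h0 => one_ne_zero (α := F) (by rw [← hz2, h0, mul_zero])
    obtain ⟨y, hydef⟩ : ∃ y, y = z • (x : Matrix (Fin (t * b) ⊕ Fin (t * b)) (Fin (t * b) ⊕ Fin (t * b)) F) := ⟨_, rfl⟩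
    have hy : y ∈ Matrix.symplecticGroup (Fin (t * b)) F := CfsgLib.SpGeom.mem_of_form fun u v => by
      rw [hydef, Matrix.smul_mulVec, Matrix.smul_mulVec, CfsgLib.SpGeom.form_smul_left, CfsgLib.SpGeom.form_smul_right,
        ← mul_assoc, hz2, one_mul, CfsgLib.SpGeom.form_mulVec]
    have hyr : y ^ r = 1 := by
      obtain ⟨l, hl⟩ := hr.odd_of_ne_two hr2
      rw [hydef, _root_.smul_pow, hzm, smul_smul, ← pow_succ, show r + 1 = 2 * (l + 1) by omega, pow_mul, pow_two, hz2,
        one_pow, one_smul]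
    obtain ⟨B, hB, hBr, hBm, D, hDd, hDi, hDo, hDt⟩ := exists_split_model (F := F) hζ hrp hr2 hu hinv b t _
      (hxinv y hy hyr) (hsum y hyr) (by rw [hch, ← hmod]; congr 1; ring)
    obtain ⟨g, hg⟩ := symp_conj_of_mult hζ hrp hy hB hyr hBr fun w => (hBm w).symm
    obtain ⟨E, hE⟩ : ∃ E, E = Matrix.toLin' (g : Matrix (Fin (t * b) ⊕ Fin (t * b)) (Fin (t * b) ⊕ Fin (t * b)) F) :=
      ⟨_, rfl⟩
    have hEi : Function.Injective E := fun u v e => by
      have := congrArg (((g⁻¹ : Matrix.symplecticGroup (Fin (t * b)) F) : Matrix (Fin (t * b) ⊕ Fin (t * b)) (Fin (t * b) ⊕ Fin (t * b)) F).mulVec) e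
      simpa only [hE, Matrix.toLin'_apply, CfsgLib.SpGeom.inv_mulVec] using this
    have ho : ∀ j k, j ≠ k → ∀ u ∈ (D j).map E, ∀ v ∈ (D k).map E, Cfsg.sympForm (t * b) F u v = 0 := by
      rintro j k hjk _ ⟨u, hu, rfl⟩ _ ⟨v, hv, rfl⟩
      rw [hE, Matrix.toLin'_apply, Matrix.toLin'_apply, CfsgLib.SpGeom.form_mulVec]
      exact hDo j k hjk u hu v hv
    have htop : ⨆ j, (D j).map E = ⊤ := by
      rw [← Submodule.map_iSup, hDt, Submodule.map_top, LinearMap.range_eq_top]
      exact LinearMap.injective_iff_surjective.mp hEi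
    have hdim : ∀ j, Module.finrank F ((D j).map E) = 2 * b := fun j => by
      rw [← (Submodule.equivMapOfInjective _ hEi (D j)).finrank_eq, hDd]
    obtain ⟨hnd, hind⟩ := nondeg_of_split ho htop
    refine ⟨fun j => (D j).map E, ⟨⟨ht, by omega, hdim, hind, htop⟩, hnd, ho⟩, 1, fun j => ?_⟩
    have hxy : (x : Matrix (Fin (t * b) ⊕ Fin (t * b)) (Fin (t * b) ⊕ Fin (t * b)) F) = z • y := by
      rw [hydef, smul_smul, hz2, one_smul]
    refine Submodule.eq_of_le_of_finrank_eq ?_ ?_
    · rintro _ ⟨_, ⟨v, hv, rfl⟩, rfl⟩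
      refine ⟨z • B.mulVec v, Submodule.smul_mem _ _ (hDi j v hv), ?_⟩
      rw [map_smul, hE, Matrix.toLin'_apply, Matrix.toLin'_apply, Matrix.toLin'_apply, hxy, Matrix.smul_mulVec,
        Matrix.mulVec_mulVec, Matrix.mulVec_mulVec, hg]
    · rw [← (Submodule.equivMapOfInjective _ (fun u v e => by
        have := congrArg (((x⁻¹ : Matrix.symplecticGroup (Fin (t * b)) F) : Matrix (Fin (t * b) ⊕ Fin (t * b)) (Fin (t * b) ⊕ Fin (t * b)) F).mulVec) e
        simpa only [Matrix.toLin'_apply, CfsgLib.SpGeom.inv_mulVec] using this) ((D j).map E)).finrank_eq]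
      rfl

end Cfsg.Agent.S5961
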