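import Cfsg.Statements.S5962
import Cfsg.Agent.SpGeom.Basic

set_option autoImplicit false
open scoped MatrixGroups
open Cfsg

namespace Cfsg.Agent.S5962

open Matrix CfsgLib.SpGeom

variable {F : Type*} [Field F] {d : ℕ}

local notation "V" => (Fin d ⊕ Fin d → F)
local notation "f" => Cfsg.sympForm d F

theorem isotropic_sup_span {v : V} {A : Submodule F V} (hA : ∀ a ∈ A, ∀ b ∈ A, f a b = 0)
    (hva : ∀ a ∈ A, f v a = 0) :
    ∀ a ∈ Submodule.span F {v} ⊔ A, ∀ b ∈ Submodule.span F {v} ⊔ A, f a b = 0 := by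
  intro a ha b hb
  obtain ⟨_, hsa, a', ha', rfl⟩ := Submodule.mem_sup.1 ha
  obtain ⟨_, hsb, b', hb', rfl⟩ := Submodule.mem_sup.1 hb
  obtain ⟨α, rfl⟩ := Submodule.mem_span_singleton.1 hsa
  obtain ⟨β, rfl⟩ := Submodule.mem_span_singleton.1 hsb
  simp only [form_add_left, form_add_right, form_smul_left, form_smul_right, form_self,
    hA a' ha' b' hb', hva b' hb', form_skew v a', hva a' ha']
  ring

/-- A polar decomposition compatible with `T`, built from adapted hyperbolic pairs. -/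
theorem exists_pair (T : V →ₗ[F] V) (hT : ∀ u v, f (T u) (T v) = f u v) {z : F} (hz : z * z = 1)
    (hTT : ∀ v, T (T v) = z • v) (sw : Bool)
    (hstep : ∀ S : Submodule F V, S ≠ ⊥ → (∀ s ∈ S, T s ∈ S) →
      (∀ u ∈ S, u ≠ 0 → ∃ v ∈ S, f u v ≠ 0) →
      ∃ v ∈ S, ∃ w ∈ S, f v w ≠ 0 ∧
        T v ∈ Submodule.span F {if sw then w else v} ∧ T w ∈ Submodule.span F {if sw then v else w}) :
    ∀ S : Submodule F V, (∀ s ∈ S, T s ∈ S) → (∀ u ∈ S, u ≠ 0 → ∃ v ∈ S, f u v ≠ 0) →
      ∃ A B : Submodule F V, A ≤ S ∧ B ≤ S ∧ A ⊓ B = ⊥ ∧ A ⊔ B = S ∧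
        (∀ a ∈ A, ∀ b ∈ A, f a b = 0) ∧ (∀ a ∈ B, ∀ b ∈ B, f a b = 0) ∧
        (∀ a ∈ A, T a ∈ (if sw then B else A)) ∧ (∀ b ∈ B, T b ∈ (if sw then A else B)) := by
  intro S
  induction hn : Module.finrank F S using Nat.strong_induction_on generalizing S with
  | _ n ih =>
    intro hinv hnd
    by_cases hS : S = ⊥
    · refine ⟨⊥, ⊥, bot_le, bot_le, inf_bot_eq _, by rw [hS, sup_bot_eq], ?_, ?_, ?_, ?_⟩
      all_goals intro a ha
      · intro b hb; rw [(Submodule.mem_bot F).1 ha, form_zero_left]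
      · intro b hb; rw [(Submodule.mem_bot F).1 ha, form_zero_left]
      · rw [(Submodule.mem_bot F).1 ha, map_zero]; exact zero_mem _
      · rw [(Submodule.mem_bot F).1 ha, map_zero]; exact zero_mem _
    obtain ⟨v, hv, w, hw, hvw, hTv, hTw⟩ := hstep S hS hinv hnd
    let S' : Submodule F V :=
      { carrier := {s | s ∈ S ∧ f v s = 0 ∧ f w s = 0}
        zero_mem' := ⟨S.zero_mem, form_zero_right v, form_zero_right w⟩
        add_mem' := fun {a b} ha hb => ⟨S.add_mem ha.1 hb.1,
          by rw [form_add_right, ha.2.1, hb.2.1, add_zero],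
          by rw [form_add_right, ha.2.2, hb.2.2, add_zero]⟩
        smul_mem' := fun c a ha => ⟨S.smul_mem c ha.1,
          by rw [form_smul_right, ha.2.1, mul_zero], by rw [form_smul_right, ha.2.2, mul_zero]⟩ }
    have hS'le : S' ≤ S := fun s hs => hs.1
    have hlt : S' < S := lt_of_le_of_ne hS'le fun h => hvw (by
      have : f w v = 0 := (h.symm ▸ hv : v ∈ S').2.2
      rw [form_skew w v, this, neg_zero])
    have hP : ∀ u ∈ Submodule.span F ({v, w} : Set V), ∀ s ∈ S', f u s = 0 := by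
      intro u hu s hs
      obtain ⟨α, β, rfl⟩ := Submodule.mem_span_pair.1 hu
      rw [form_add_left, form_smul_left, form_smul_left, hs.2.1, hs.2.2, mul_zero, mul_zero, add_zero]
    have hTP : T v ∈ Submodule.span F ({v, w} : Set V) ∧ T w ∈ Submodule.span F ({v, w} : Set V) := by
      constructor
      · refine Submodule.span_mono ?_ hTv; cases sw <;> simp
      · refine Submodule.span_mono ?_ hTw; cases sw <;> simp
    have hinv' : ∀ s ∈ S', T s ∈ S' := fun s hs => by
      have h : ∀ u, T u ∈ Submodule.span F ({v, w} : Set V) → f u (T s) = 0 := fun u hu => by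
        have e : T (z • T u) = u := by rw [map_smul, hTT, smul_smul, hz, one_smul]
        rw [← e, hT, form_smul_left, hP _ hu s hs, mul_zero]
      exact ⟨hinv s hs.1, h v hTP.1, h w hTP.2⟩
    have hdec : ∀ s ∈ S, ∃ α β : F, s - α • v - β • w ∈ S' := by
      intro s hs
      refine ⟨-(f w s) / f v w, f v s / f v w,
        S.sub_mem (S.sub_mem hs (S.smul_mem _ hv)) (S.smul_mem _ hw), ?_, ?_⟩
      · rw [form_sub_right, form_sub_right, form_smul_right, form_smul_right, form_self]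
        field_simp
        ring
      · rw [form_sub_right, form_sub_right, form_smul_right, form_smul_right, form_self,
          form_skew v w]
        field_simp
        ring
    have hnd' : ∀ u ∈ S', u ≠ 0 → ∃ y ∈ S', f u y ≠ 0 := by
      intro u hu hu0
      obtain ⟨y, hy, hy0⟩ := hnd u hu.1 hu0
      obtain ⟨α, β, h⟩ := hdec y hy
      refine ⟨_, h, ?_⟩
      rwa [form_sub_right, form_sub_right, form_smul_right, form_smul_right, form_skew v u,
        form_skew w u, hu.2.1, hu.2.2, neg_zero, mul_zero, mul_zero, sub_zero, sub_zero]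
    obtain ⟨A, B, hA, hB, hAB, hABS, hAi, hBi, hAT, hBT⟩ :=
      ih _ (hn ▸ Submodule.finrank_lt_finrank_of_lt hlt) S' rfl hinv' hnd'
    refine ⟨Submodule.span F {v} ⊔ A, Submodule.span F {w} ⊔ B,
      sup_le ((Submodule.span_singleton_le_iff_mem _ _).2 hv) (hA.trans hS'le),
      sup_le ((Submodule.span_singleton_le_iff_mem _ _).2 hw) (hB.trans hS'le), ?_, ?_,
      isotropic_sup_span hAi fun a ha => (hA ha).2.1,
      isotropic_sup_span hBi fun a ha => (hB ha).2.2, ?_, ?_⟩
    · rw [Submodule.eq_bot_iff]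
      rintro y ⟨hy1, hy2⟩
      obtain ⟨_, hs1, a, ha, rfl⟩ := Submodule.mem_sup.1 hy1
      obtain ⟨α, rfl⟩ := Submodule.mem_span_singleton.1 hs1
      obtain ⟨_, hs2, b, hb, he⟩ := Submodule.mem_sup.1 hy2
      obtain ⟨β, rfl⟩ := Submodule.mem_span_singleton.1 hs2
      have h1 := congrArg (f v) he
      simp only [form_add_right, form_smul_right, form_self, (hA ha).2.1, (hB hb).2.1, mul_zero,
        add_zero, mul_eq_zero, hvw, or_false] at h1
      have h2 := congrArg (fun t => f t w) he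
      simp only [form_add_left, form_smul_left, form_self, mul_zero, zero_add, form_skew w a,
        form_skew w b, (hA ha).2.2, (hB hb).2.2, neg_zero, add_zero] at h2
      have hα : α = 0 := (mul_eq_zero.1 h2.symm).resolve_right hvw
      subst hα; subst h1
      simp only [zero_smul, zero_add] at he ⊢
      have : a ∈ A ⊓ B := ⟨ha, he ▸ hb⟩
      rw [hAB] at this
      exact (Submodule.mem_bot F).1 this
    · refine le_antisymm (sup_le (sup_le ((Submodule.span_singleton_le_iff_mem _ _).2 hv)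
        (hA.trans hS'le)) (sup_le ((Submodule.span_singleton_le_iff_mem _ _).2 hw) (hB.trans hS'le)))
        fun s hs => ?_
      obtain ⟨α, β, h⟩ := hdec s hs
      rw [← hABS] at h
      obtain ⟨a, ha, b, hb, he⟩ := Submodule.mem_sup.1 h
      refine Submodule.mem_sup.2 ⟨α • v + a, Submodule.add_mem_sup
        (Submodule.smul_mem _ _ (Submodule.mem_span_singleton_self v)) ha, β • w + b,
        Submodule.add_mem_sup (Submodule.smul_mem _ _ (Submodule.mem_span_singleton_self w)) hb, ?_⟩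
      have : s = α • v + β • w + (a + b) := by rw [he]; abel
      rw [this]; abel
    · intro y hy
      obtain ⟨_, hs1, a, ha, rfl⟩ := Submodule.mem_sup.1 hy
      obtain ⟨α, rfl⟩ := Submodule.mem_span_singleton.1 hs1
      have hTa := hAT a ha
      rw [map_add, map_smul]
      cases sw <;> simp only [Bool.false_eq_true, if_false, if_true] at hTv hTa ⊢ <;>
        exact Submodule.add_mem_sup (Submodule.smul_mem _ _ hTv) hTa
    · intro y hy
      obtain ⟨_, hs1, a, ha, rfl⟩ := Submodule.mem_sup.1 hy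
      obtain ⟨α, rfl⟩ := Submodule.mem_span_singleton.1 hs1
      have hTa := hBT a ha
      rw [map_add, map_smul]
      cases sw <;> simp only [Bool.false_eq_true, if_false, if_true] at hTw hTa ⊢ <;>
        exact Submodule.add_mem_sup (Submodule.smul_mem _ _ hTw) hTa


/-- Involutions of PSp_n(q), q odd, and the subgroups GL_{n/2}(q).2. Here `T = PSp_n(q)`, `n = 2d ≥ 4`, `q` odd, realised through the symplectic matrices over the field `F` with `q` elements; Ω is the set of unordered pairs `{U, W}` of complementary totally isotropic `d`-spaces (`F^n = U ⊕ W`), whose stabilizers are the subgroups of type GL_d(q).2 (maximal except in some small cases; maximality is not assumed); an element of `T` of prime order `r` (a symplectic matrix `x` with `x^r` scalar, `x` not scalar) fixes such a pair when it fixes or interchanges `U` and `W`. If the number of such pairs is even, every involution of `T` fixes one of them (the action is 2-elusive). -/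
theorem result {F : Type*} [Field F] [Fintype F] {p : ℕ} [Fact p.Prime] [CharP F p] {q : ℕ} (hq : Fintype.card F = q)
    (d : ℕ) (hd : 2 ≤ d) (hT : (d, q) ≠ (2, 2)) (hodd : Odd q)
    (hΩ : 2 ∣ Nat.card {P : Submodule F (Fin d ⊕ Fin d → F) × Submodule F (Fin d ⊕ Fin d → F) // IsCompl P.1 P.2 ∧ (∀ u ∈ P.1, ∀ v ∈ P.1, Cfsg.sympForm d F u v = 0) ∧ (∀ u ∈ P.2, ∀ v ∈ P.2, Cfsg.sympForm d F u v = 0)} / 2)
    (x : ↥(Matrix.symplecticGroup (Fin d) F))
    (hx1 : ∃ z : F, ((x ^ 2 : ↥(Matrix.symplecticGroup (Fin d) F)) : Matrix (Fin d ⊕ Fin d) (Fin d ⊕ Fin d) F) = z • (1 : Matrix (Fin d ⊕ Fin d) (Fin d ⊕ Fin d) F))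
    (hx2 : ∀ z : F, (x : Matrix (Fin d ⊕ Fin d) (Fin d ⊕ Fin d) F) ≠ z • (1 : Matrix (Fin d ⊕ Fin d) (Fin d ⊕ Fin d) F)) :
    ∃ U W : Submodule F (Fin d ⊕ Fin d → F), IsCompl U W ∧ (∀ u ∈ U, ∀ v ∈ U, Cfsg.sympForm d F u v = 0) ∧ (∀ u ∈ W, ∀ v ∈ W, Cfsg.sympForm d F u v = 0) ∧
        ((U.map (Matrix.toLin' (x : Matrix (Fin d ⊕ Fin d) (Fin d ⊕ Fin d) F)) = U ∧ W.map (Matrix.toLin' (x : Matrix (Fin d ⊕ Fin d) (Fin d ⊕ Fin d) F)) = W) ∨
         (U.map (Matrix.toLin' (x : Matrix (Fin d ⊕ Fin d) (Fin d ⊕ Fin d) F)) = W ∧ W.map (Matrix.toLin' (x : Matrix (Fin d ⊕ Fin d) (Fin d ⊕ Fin d) F)) = U)) := by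
  obtain ⟨z, hz⟩ := hx1
  have h2 : (2 : F) ≠ 0 := by
    intro h
    have hp2 : p = 2 := (Nat.prime_dvd_prime_iff_eq (Fact.out : p.Prime) Nat.prime_two).1
      ((CharP.cast_eq_zero_iff F p 2).1 (by exact_mod_cast h))
    obtain ⟨n, -, hn⟩ := FiniteField.card F p
    rw [← hq, hn, hp2, Nat.odd_pow_iff n.ne_zero] at hodd
    exact absurd hodd (by decide)
  obtain ⟨T, hTdef⟩ : ∃ T, T = Matrix.toLin' (x : Matrix (Fin d ⊕ Fin d) (Fin d ⊕ Fin d) F) :=
    ⟨_, rfl⟩
  rw [← hTdef]
  have hT : ∀ u v, Cfsg.sympForm d F (T u) (T v) = Cfsg.sympForm d F u v := fun u v => by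
    rw [hTdef, Matrix.toLin'_apply, Matrix.toLin'_apply, form_mulVec]
  have hTT : ∀ v, T (T v) = z • v := fun v => by
    rw [pow_two, coe_mul'] at hz
    rw [hTdef, Matrix.toLin'_apply, Matrix.toLin'_apply, Matrix.mulVec_mulVec, hz,
      Matrix.smul_mulVec, Matrix.one_mulVec]
  obtain ⟨v0, hv0⟩ : ∃ v : Fin d ⊕ Fin d → F, v ≠ 0 :=
    ⟨Pi.single (.inl ⟨0, by omega⟩) 1, by simp⟩
  obtain ⟨w0, hw0⟩ := exists_form_ne_zero hv0
  have hzz : z * z = 1 := by
    have h := hT (T v0) (T w0)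
    rw [hT v0 w0, hTT, hTT, form_smul_left, form_smul_right, ← mul_assoc] at h
    exact mul_right_cancel₀ hw0 (h.trans (one_mul _).symm)
  have htop : ∀ u ∈ (⊤ : Submodule F (Fin d ⊕ Fin d → F)), u ≠ 0 →
      ∃ v ∈ (⊤ : Submodule F (Fin d ⊕ Fin d → F)), Cfsg.sympForm d F u v ≠ 0 := fun u _ hu =>
    (exists_form_ne_zero hu).imp fun v h => ⟨Submodule.mem_top, h⟩
  rcases mul_self_eq_one_iff.1 hzz with rfl | rfl
  · -- both eigenspaces are non-degenerate
    obtain ⟨A, B, -, -, hAB, hABt, hAi, hBi, hAT, hBT⟩ := exists_pair T hT hzz hTT false (by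
      intro S hS hinv hnd
      obtain ⟨u, hu, hu0⟩ := S.exists_mem_ne_zero_of_ne_bot hS
      obtain ⟨v, hv, hv0, ε, hε, hTv⟩ : ∃ v ∈ S, v ≠ 0 ∧ ∃ ε : F, ε * ε = 1 ∧ T v = ε • v := by
        by_cases h : u + T u = 0
        · refine ⟨u, hu, hu0, -1, by ring, ?_⟩
          rw [neg_one_smul, eq_neg_iff_add_eq_zero, add_comm]; exact h
        · refine ⟨u + T u, S.add_mem hu (hinv u hu), h, 1, one_mul 1, ?_⟩
          rw [map_add, hTT, one_smul, one_smul, add_comm]
      obtain ⟨w, hw, hvw⟩ := hnd v hv hv0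
      refine ⟨v, hv, w + ε • T w, S.add_mem hw (S.smul_mem ε (hinv w hw)), ?_,
        Submodule.mem_span_singleton.2 ⟨ε, hTv.symm⟩, Submodule.mem_span_singleton.2 ⟨ε, ?_⟩⟩
      · rw [form_add_right, ← form_smul_left ε v (T w) |>.trans (form_smul_right ε v (T w)).symm,
          ← hTv, hT, ← two_mul]
        exact mul_ne_zero h2 hvw
      · simp only [Bool.false_eq_true, if_false, map_add, map_smul, hTT, one_smul, smul_add,
          smul_smul, hε]
        abel) ⊤ (fun s _ => Submodule.mem_top) htop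
    simp only [Bool.false_eq_true, if_false] at hAT hBT
    refine ⟨A, B, ⟨disjoint_iff.2 hAB, codisjoint_iff.2 hABt⟩, hAi, hBi, Or.inl ⟨?_, ?_⟩⟩
    · exact le_antisymm (Submodule.map_le_iff_le_comap.2 hAT)
        fun a ha => ⟨T a, hAT a ha, by rw [hTT, one_smul]⟩
    · exact le_antisymm (Submodule.map_le_iff_le_comap.2 hBT)
        fun a ha => ⟨T a, hBT a ha, by rw [hTT, one_smul]⟩
  · -- `x` interchanges a suitable pair
    obtain ⟨A, B, -, -, hAB, hABt, hAi, hBi, hAT, hBT⟩ := exists_pair T hT hzz hTT true (by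
      intro S hS hinv hnd
      obtain ⟨v, hv, hvv⟩ : ∃ v ∈ S, Cfsg.sympForm d F v (T v) ≠ 0 := by
        by_contra h
        push Not at h
        obtain ⟨u, hu, hu0⟩ := S.exists_mem_ne_zero_of_ne_bot hS
        obtain ⟨y, hy, hy0⟩ := hnd u hu hu0
        have h1 := h (u + T y) (S.add_mem hu (hinv y hy))
        rw [map_add, hTT, neg_one_smul, form_add_left, form_add_right, form_add_right, h u hu, hT,
          ← neg_one_smul F y, form_smul_right, form_smul_right, form_skew y (T y), h y hy,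
          form_skew u y] at h1
        apply hy0
        refine (mul_eq_zero.1 (?_ : (2 : F) * Cfsg.sympForm d F u y = 0)).resolve_left h2
        linear_combination -h1
      refine ⟨v, hv, T v, hinv v hv, hvv, Submodule.mem_span_singleton_self _, ?_⟩
      simp only [if_true]
      exact Submodule.mem_span_singleton.2 ⟨-1, (hTT v).symm⟩) ⊤ (fun s _ => Submodule.mem_top) htop
    simp only [if_true] at hAT hBT
    refine ⟨A, B, ⟨disjoint_iff.2 hAB, codisjoint_iff.2 hABt⟩, hAi, hBi, Or.inr ⟨?_, ?_⟩⟩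
    · exact le_antisymm (Submodule.map_le_iff_le_comap.2 hAT)
        fun a ha => ⟨-(T a), A.neg_mem (hBT a ha), by rw [map_neg, hTT, neg_one_smul, neg_neg]⟩
    · exact le_antisymm (Submodule.map_le_iff_le_comap.2 hBT)
        fun a ha => ⟨-(T a), B.neg_mem (hAT a ha), by rw [map_neg, hTT, neg_one_smul, neg_neg]⟩

end Cfsg.Agent.S5962
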