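import Cfsg.Statements.S5963
import Cfsg.Agent.PolarPair.Count

set_option autoImplicit false
open scoped MatrixGroups
open Cfsg

namespace Cfsg.Agent.S5963

open Matrix CfsgLib.SpGeom

/-- An operator of prime order `r` on a space on which it is non-trivial moves at least a space of
dimension the order of `q` modulo `r`. -/
theorem le_finrank_range {F U : Type*} [Field F] [Fintype F] [AddCommGroup U] [Module F U]
    [FiniteDimensional F U] {r e : ℕ} (hr : r.Prime) (hrF : (r : F) ≠ 0)
    (he : ∀ k, 1 ≤ k → k < e → ¬ r ∣ Fintype.card F ^ k - 1)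
    (R : U →ₗ[F] U) (hR : R ^ r = 1) (hR1 : R ≠ 1) : e ≤ Module.finrank F (R - 1).range := by
  classical
  by_contra hlt
  push Not at hlt
  set U1 := (R - 1).range with hU1
  have hinv : ∀ x ∈ U1, R x ∈ U1 := by
    rintro _ ⟨y, rfl⟩
    exact ⟨R y, by simp [map_sub]⟩
  set R1 := R.restrict hinv with hR1def
  have hR1r : R1 ^ r = 1 := by
    rw [hR1def, Module.End.pow_restrict r hinv]
    refine LinearMap.ext fun x => Subtype.ext ?_
    rw [LinearMap.coe_restrict_apply, hR]
    rfl
  have hR1one : R1 = 1 := by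
    obtain ⟨u, hu⟩ := (IsUnit.of_pow_eq_one hR1r hr.ne_zero)
    have hur : u ^ r = 1 := Units.ext (by rw [Units.val_pow_eq_pow_val, hu, hR1r]; rfl)
    set k := Module.finrank F U1
    let ψ : (U1 →ₗ[F] U1)ˣ ≃* GL (Fin k) F :=
      Units.mapEquiv (LinearMap.toMatrixAlgEquiv (Module.finBasis F U1)).toMulEquiv
    have h1 : orderOf u ∣ r := orderOf_dvd_of_pow_eq_one hur
    rcases (Nat.dvd_prime hr).1 h1 with h | h
    · rw [← hu, orderOf_eq_one_iff.1 h]; rfl
    · exfalso
      have h2 : r ∣ Nat.card (GL (Fin k) F) := by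
        rw [← h, ← orderOf_injective ψ.toMonoidHom ψ.injective u]
        exact orderOf_dvd_natCard _
      rw [Matrix.card_GL_field] at h2
      obtain ⟨i, -, hi⟩ := (Nat.Prime.prime hr).exists_mem_finset_dvd h2
      have hik := i.2
      have e1 : Fintype.card F ^ k - Fintype.card F ^ (i : ℕ) =
          Fintype.card F ^ (i : ℕ) * (Fintype.card F ^ (k - i) - 1) := by
        rw [Nat.mul_sub_one, ← pow_add, Nat.add_sub_cancel' hik.le]
      rw [e1] at hi
      rcases hr.dvd_mul.1 hi with h3 | h3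
      · apply hrF
        obtain ⟨p, hp⟩ := CharP.exists F
        haveI : Fact p.Prime := ⟨CharP.char_is_prime F p⟩
        obtain ⟨n, hp', hn⟩ := FiniteField.card F p
        rw [hn] at h3
        have := (Nat.prime_dvd_prime_iff_eq hr hp').1 (hr.dvd_of_dvd_pow (hr.dvd_of_dvd_pow h3))
        rw [this, CharP.cast_eq_zero]
      · exact he (k - i) (by omega) (by omega) h3
  apply hR1
  have hsq : ∀ x, R ((R - 1) x) = (R - 1) x := fun x => by
    have := congrArg Subtype.val (LinearMap.congr_fun hR1one ⟨_, LinearMap.mem_range_self (R - 1) x⟩)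
    exact this
  have hpow : ∀ n : ℕ, ∀ x, (R ^ n) x = x + (n : F) • (R - 1) x := by
    intro n
    induction n with
    | zero => intro x; simp
    | succ n ih =>
      intro x
      rw [pow_succ', Module.End.mul_apply, ih, map_add, map_smul, hsq]
      simp only [LinearMap.sub_apply, Module.End.one_apply, Nat.cast_succ, add_smul, one_smul]
      abel
  refine LinearMap.ext fun x => ?_
  have := hpow r x
  rw [hR, Module.End.one_apply, left_eq_add, smul_eq_zero] at this
  have h0 := this.resolve_left hrF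
  rw [LinearMap.sub_apply, sub_eq_zero] at h0
  exact h0


/-- Derangements of odd prime order of PSp_n(q), q odd, on pairs of complementary totally isotropic subspaces. Here `T = PSp_n(q)`, `n = 2d ≥ 4`, `q` odd, realised through the symplectic matrices over the field `F` with `q` elements; Ω is the set of unordered pairs `{U, W}` of complementary totally isotropic `d`-spaces (`F^n = U ⊕ W`), whose stabilizers are the subgroups of type GL_d(q).2 (maximal except in some small cases; maximality is not assumed); an element of `T` of prime order `r` (a symplectic matrix `x` with `x^r` scalar, `x` not scalar) fixes such a pair when it fixes or interchanges `U` and `W`. For every odd prime `r ≠ p` dividing the number of such pairs, some element of `T` of order `r` fixes no such pair (the action is never `r`-elusive for odd `r ≠ p`). -/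
theorem result {F : Type*} [Field F] [Fintype F] {p : ℕ} [Fact p.Prime] [CharP F p] {q : ℕ} (hq : Fintype.card F = q)
    (d : ℕ) (hd : 2 ≤ d) (hT : (d, q) ≠ (2, 2)) (hodd : Odd q)
    (r : ℕ) [Fact r.Prime] (hr2 : r ≠ 2) (hrp : r ≠ p) (hΩ : r ∣ Nat.card {P : Submodule F (Fin d ⊕ Fin d → F) × Submodule F (Fin d ⊕ Fin d → F) // IsCompl P.1 P.2 ∧ (∀ u ∈ P.1, ∀ v ∈ P.1, Cfsg.sympForm d F u v = 0) ∧ (∀ u ∈ P.2, ∀ v ∈ P.2, Cfsg.sympForm d F u v = 0)} / 2) :
    ∃ x : ↥(Matrix.symplecticGroup (Fin d) F),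
      (∃ z : F, ((x ^ r : ↥(Matrix.symplecticGroup (Fin d) F)) : Matrix (Fin d ⊕ Fin d) (Fin d ⊕ Fin d) F) = z • (1 : Matrix (Fin d ⊕ Fin d) (Fin d ⊕ Fin d) F)) ∧
      (∀ z : F, (x : Matrix (Fin d ⊕ Fin d) (Fin d ⊕ Fin d) F) ≠ z • (1 : Matrix (Fin d ⊕ Fin d) (Fin d ⊕ Fin d) F)) ∧
      ¬ (∃ U W : Submodule F (Fin d ⊕ Fin d → F), IsCompl U W ∧ (∀ u ∈ U, ∀ v ∈ U, Cfsg.sympForm d F u v = 0) ∧ (∀ u ∈ W, ∀ v ∈ W, Cfsg.sympForm d F u v = 0) ∧
        ((U.map (Matrix.toLin' (x : Matrix (Fin d ⊕ Fin d) (Fin d ⊕ Fin d) F)) = U ∧ W.map (Matrix.toLin' (x : Matrix (Fin d ⊕ Fin d) (Fin d ⊕ Fin d) F)) = W) ∨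
         (U.map (Matrix.toLin' (x : Matrix (Fin d ⊕ Fin d) (Fin d ⊕ Fin d) F)) = W ∧ W.map (Matrix.toLin' (x : Matrix (Fin d ⊕ Fin d) (Fin d ⊕ Fin d) F)) = U))) := by
  classical
  have hr : r.Prime := Fact.out
  have hp : p.Prime := Fact.out
  have hrF : (r : F) ≠ 0 := fun h => hrp ((Nat.prime_dvd_prime_iff_eq hp hr).1
    ((CharP.cast_eq_zero_iff F p r).1 h)).symm
  have hrq : ¬ r ∣ q := fun h => by
    obtain ⟨n, -, hn⟩ := FiniteField.card F p
    rw [← hq, hn] at h
    exact hrp ((Nat.prime_dvd_prime_iff_eq hr hp).1 (hr.dvd_of_dvd_pow h))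
  -- the order of `q` modulo `r`
  have hex : ∃ j, 1 ≤ j ∧ j ≤ d ∧ r ∣ q ^ j + 1 := by
    obtain ⟨k, hk⟩ := CfsgLib.PolarPair.card_pairs_eq (F := F) (m := d)
    rw [hq] at hk
    set N := Nat.card (CfsgLib.PolarPair.Pairs d F) with hN
    have heven : Even (N * q ^ k) := by
      rw [hk]
      refine Even.mul_left ?_ _
      refine even_iff_two_dvd.2 (dvd_trans (even_iff_two_dvd.1 ?_)
        (Finset.dvd_prod_of_mem _ (Finset.mem_range.2 (by omega : 0 < d))))
      exact (hodd.pow).add_one
    have hNe : Even N := (Nat.even_mul.1 heven).resolve_right (Nat.not_even_iff_odd.2 hodd.pow)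
    have hrN : r ∣ N * q ^ k := by
      obtain ⟨c, hc⟩ := hNe
      refine dvd_mul_of_dvd_left ?_ _
      rw [hc, ← mul_two]
      refine dvd_mul_of_dvd_left ?_ _
      have h2 : N / 2 = c := by omega
      rw [← h2]
      exact hΩ
    rw [hk] at hrN
    rcases hr.dvd_mul.1 hrN with h | h
    · exact absurd (hr.dvd_of_dvd_pow h) hrq
    · obtain ⟨i, hi, h⟩ := (Nat.Prime.prime hr).exists_mem_finset_dvd h
      exact ⟨i + 1, by omega, by rw [Finset.mem_range] at hi; omega, h⟩
  obtain ⟨j, ⟨hj1, hjd, hjdvd⟩, hjmin⟩ :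
      ∃ j, (1 ≤ j ∧ j ≤ d ∧ r ∣ q ^ j + 1) ∧ ∀ i, 1 ≤ i → i < j → ¬ r ∣ q ^ i + 1 :=
    ⟨Nat.find hex, Nat.find_spec hex, fun i h1 h2 h3 =>
      Nat.find_min hex h2 ⟨h1, by have := (Nat.find_spec hex).2.1; omega, h3⟩⟩
  have he : ∀ k, 1 ≤ k → k < 2 * j → ¬ r ∣ Fintype.card F ^ k - 1 := by
    intro k hk1 hk2 hk
    rw [hq] at hk
    haveI : Fact (2 < r) := ⟨lt_of_le_of_ne hr.two_le (Ne.symm hr2)⟩
    have hqk : (q : ZMod r) ^ k = 1 := by
      have h1 : 1 ≤ q ^ k := Nat.one_le_pow _ _ (Nat.pos_of_ne_zero fun h => hrq (h ▸ dvd_zero r))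
      have h2 := (ZMod.natCast_eq_zero_iff _ _).mpr hk
      rw [Nat.cast_sub h1, Nat.cast_pow, Nat.cast_one, sub_eq_zero] at h2
      exact h2
    have hqj : (q : ZMod r) ^ j = -1 := by
      have h2 := (ZMod.natCast_eq_zero_iff _ _).mpr hjdvd
      rw [Nat.cast_add, Nat.cast_pow, Nat.cast_one] at h2
      exact eq_neg_of_add_eq_zero_left h2
    have hne1 : (-1 : ZMod r) ≠ 1 := ZMod.neg_one_ne_one
    set e := orderOf (q : ZMod r) with he'
    have hek : e ∣ k := orderOf_dvd_of_pow_eq_one hqk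
    have hej : ¬ e ∣ j := fun h => hne1 (hqj.symm.trans (orderOf_dvd_iff_pow_eq_one.1 h))
    have he2j : e ∣ 2 * j := orderOf_dvd_of_pow_eq_one (by
      rw [mul_comm, pow_mul, hqj, neg_one_sq])
    have hepos : 0 < e := by
      rcases Nat.eq_zero_or_pos e with h | h
      · rw [h] at hek; simp at hek; omega
      · exact h
    obtain ⟨t, ht⟩ : Even e := by
      by_contra h
      exact hej ((Nat.coprime_two_right.2 (Nat.not_even_iff_odd.1 h)).dvd_of_dvd_mul_left he2j)
    have hsq : ((q : ZMod r) ^ t) ^ 2 = 1 := by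
      rw [← pow_mul, show t * 2 = e by omega]; exact pow_orderOf_eq_one _
    have hneg : (q : ZMod r) ^ t = -1 := by
      refine (sq_eq_one_iff.1 hsq).resolve_left fun h => ?_
      have := Nat.le_of_dvd (by omega) (orderOf_dvd_of_pow_eq_one h : e ∣ t)
      omega
    have hdvd : r ∣ q ^ t + 1 := by
      rw [← ZMod.natCast_eq_zero_iff, Nat.cast_add, Nat.cast_pow, Nat.cast_one, hneg,
        neg_add_cancel]
    have hek' := Nat.le_of_dvd hk1 hek
    exact hjmin t (by omega) (by omega) hdvd
  -- an element of order `r` of the small symplectic group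
  obtain ⟨A, hA⟩ : ∃ A : Matrix.symplecticGroup (Fin j) F, orderOf A = r := by
    haveI : Finite (Matrix.symplecticGroup (Fin j) F) := inferInstance
    refine exists_prime_orderOf_dvd_card' r ?_
    rw [card_Sp, hq]
    refine dvd_mul_of_dvd_right (dvd_trans ?_
      (Finset.dvd_prod_of_mem _ (Finset.mem_range.2 (by omega : j - 1 < j)))) _
    rw [show j - 1 + 1 = j by omega, mul_comm, pow_mul, show (1 : ℕ) = 1 ^ 2 by norm_num,
      Nat.sq_sub_sq]
    exact dvd_mul_of_dvd_left hjdvd _
  -- its extension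
  let π : (Fin d ⊕ Fin d → F) →ₗ[F] (Fin j ⊕ Fin j → F) :=
    LinearMap.funLeft F F (Sum.map (Fin.castLE hjd) (Fin.castLE hjd))
  let ι : (Fin j ⊕ Fin j → F) →ₗ[F] (Fin d ⊕ Fin d → F) :=
    { toFun := fun v => Sum.elim (fun i => if h : (i : ℕ) < j then v (.inl ⟨i, h⟩) else 0)
        (fun i => if h : (i : ℕ) < j then v (.inr ⟨i, h⟩) else 0)
      map_add' := fun a b => by funext c; rcases c with c | c <;> simp <;> split_ifs <;> simp
      map_smul' := fun a b => by funext c; rcases c with c | c <;> simp }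
  have hπι : ∀ v, π (ι v) = v := by
    intro v; funext c; rcases c with c | c <;> simp [π, ι, LinearMap.funLeft_apply]
  have hfι : ∀ v w, Cfsg.sympForm d F (ι v) w = Cfsg.sympForm j F v (π w) := by
    intro v w
    rw [form_def, form_def]
    symm
    refine Finset.sum_of_injOn (Fin.castLE hjd) ((Fin.castLE_injective hjd).injOn) (by simp) ?_ ?_
    · intro i _ hi
      have : ¬ (i : ℕ) < j := fun h => hi ⟨⟨i, h⟩, by simp, Fin.ext rfl⟩
      simp [ι, this]
    · intro i _
      simp [ι, π, LinearMap.funLeft_apply]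
  have hfι' : ∀ v w, Cfsg.sympForm d F w (ι v) = Cfsg.sympForm j F (π w) v := by
    intro v w
    rw [form_skew (ι v) w, hfι, form_skew v (π w)]
  let T : Matrix (Fin j ⊕ Fin j) (Fin j ⊕ Fin j) F →
      (Fin d ⊕ Fin d → F) →ₗ[F] (Fin d ⊕ Fin d → F) :=
    fun B => 1 + ι.comp ((Matrix.toLin' B - 1).comp π)
  have hT : ∀ B v, T B v = v + ι (B *ᵥ π v - π v) := fun B v => by simp [T]
  have hπT : ∀ B v, π (T B v) = B *ᵥ π v := fun B v => by rw [hT, map_add, hπι]; abel
  have hTmul : ∀ B C, T B * T C = T (B * C) := by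
    intro B C
    refine LinearMap.ext fun v => ?_
    rw [Module.End.mul_apply, hT B, hπT, hT C, hT, ← Matrix.mulVec_mulVec, add_assoc, ← map_add]
    congr 2
    abel
  have hT1 : T 1 = 1 := LinearMap.ext fun v => by simp [hT]
  obtain ⟨X, hX⟩ : ∃ X, X = T ((A : Matrix.symplecticGroup (Fin j) F) :
      Matrix (Fin j ⊕ Fin j) (Fin j ⊕ Fin j) F) := ⟨_, rfl⟩
  have hXr : X ^ r = 1 := by
    have hpow : ∀ n : ℕ, X ^ n = T ((A ^ n : Matrix.symplecticGroup (Fin j) F) :
        Matrix (Fin j ⊕ Fin j) (Fin j ⊕ Fin j) F) := by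
      intro n
      induction n with
      | zero => rw [pow_zero, pow_zero]; exact hT1.symm
      | succ n ih => rw [pow_succ, pow_succ, ih, hX, hTmul]; rfl
    rw [hpow, ← hA, pow_orderOf_eq_one]
    exact hT1
  have hXf : ∀ u v, Cfsg.sympForm d F (X u) (X v) = Cfsg.sympForm d F u v := by
    intro u v
    rw [hX, hT, hT, form_add_left, form_add_right, form_add_right, hfι', hfι, hfι, hπι,
      form_sub_right, form_sub_left, form_sub_left, form_sub_right, form_sub_right, form_mulVec A]
    ring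
  have hmat : ∀ v, LinearMap.toMatrix' X *ᵥ v = X v := fun v => by
    rw [← Matrix.toLin'_apply, Matrix.toLin'_toMatrix']
  let x : Matrix.symplecticGroup (Fin d) F :=
    ⟨LinearMap.toMatrix' X, mem_of_form fun u v => by rw [hmat, hmat]; exact hXf u v⟩
  have hxlin : Matrix.toLin' (x : Matrix (Fin d ⊕ Fin d) (Fin d ⊕ Fin d) F) = X :=
    Matrix.toLin'_toMatrix' X
  refine ⟨x, ⟨1, ?_⟩, ?_, ?_⟩
  · rw [one_smul, SubmonoidClass.coe_pow]
    apply Matrix.toLin'.injective
    rw [Matrix.toLin'_pow, hxlin, hXr, Matrix.toLin'_one]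
    rfl
  · intro z hz
    have hX' : ∀ v, X v = z • v := fun v => by
      rw [← hxlin, hz, Matrix.toLin'_apply, Matrix.smul_mulVec, Matrix.one_mulVec]
    obtain ⟨v0, hv0⟩ : ∃ v : Fin d ⊕ Fin d → F, v ≠ 0 :=
      ⟨Pi.single (.inl ⟨0, by omega⟩) 1, by simp⟩
    obtain ⟨w0, hw0⟩ := exists_form_ne_zero hv0
    have hz2 : z ^ 2 = 1 := by
      have := hXf v0 w0
      rw [hX', hX', form_smul_left, form_smul_right, ← mul_assoc] at this
      rw [pow_two]
      exact mul_right_cancel₀ hw0 (this.trans (one_mul _).symm)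
    have hzr : z ^ r = 1 := by
      have hn : ∀ n : ℕ, (X ^ n) v0 = z ^ n • v0 := by
        intro n
        induction n with
        | zero => simp
        | succ n ih => rw [pow_succ', Module.End.mul_apply, ih, map_smul, hX', smul_smul, pow_succ]
      have := hn r
      rw [hXr, Module.End.one_apply] at this
      by_contra h
      exact hv0 ((smul_eq_zero.1 (show (z ^ r - 1) • v0 = 0 by
        rw [sub_smul, one_smul, ← this, sub_self])).resolve_left (sub_ne_zero.2 h))
    have hz1 : z = 1 := by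
      obtain ⟨s, rfl⟩ := hr.odd_of_ne_two hr2
      rwa [pow_succ, pow_mul, hz2, one_pow, one_mul] at hzr
    have hA1 : A = 1 := by
      refine ext_mulVec fun w => ?_
      rw [coe_one', Matrix.one_mulVec]
      have := congrArg π (hX' (ι w))
      rw [hX, hπT, hz1, one_smul, hπι] at this
      exact this
    rw [hA1, orderOf_one] at hA
    exact hr.ne_one hA.symm
  · rintro ⟨U, W, hUW, hU, hW, hfix⟩
    rw [hxlin] at hfix
    rcases hfix with ⟨hXU, hXW⟩ | ⟨hXU, hXW⟩
    · -- `X` fixes both subspaces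
      have hXUm : ∀ u ∈ U, X u ∈ U := fun u hu => hXU.le ⟨u, hu, rfl⟩
      have hXWm : ∀ u ∈ W, X u ∈ W := fun u hu => hXW.le ⟨u, hu, rfl⟩
      -- if `X` centralizes one of them it centralizes the other
      have hdual : ∀ U' W' : Submodule F (Fin d ⊕ Fin d → F), IsCompl U' W' →
          (∀ u ∈ U', ∀ v ∈ U', Cfsg.sympForm d F u v = 0) → (∀ u ∈ U', X u ∈ U') →
          (∀ w ∈ W', X w = w) → ∀ u ∈ U', X u = u := by
        intro U' W' hc hiso hm hfixW u hu
        rw [← sub_eq_zero]
        refine CfsgLib.PolarPair.perp_of_compl hc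
          (fun v hv => hiso v hv _ (U'.sub_mem (hm u hu) hu)) fun w hw => ?_
        rw [form_sub_right]
        conv_lhs => arg 1; rw [← hfixW w hw]
        rw [hXf, sub_self]
      have hne : ¬ ((∀ u ∈ U, X u = u) ∧ ∀ w ∈ W, X w = w) := by
        rintro ⟨h1, h2⟩
        have hX1 : X = 1 := LinearMap.ext fun v => by
          obtain ⟨u, hu, w, hw, rfl⟩ := Submodule.mem_sup.1
            (hUW.sup_eq_top ▸ Submodule.mem_top : v ∈ U ⊔ W)
          rw [map_add, h1 u hu, h2 w hw, Module.End.one_apply]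
        have hA1 : A = 1 := ext_mulVec fun w => by
          have := congrArg (fun L : _ →ₗ[F] _ => π (L (ι w))) hX1
          simp only [hX, hπT, hπι, Module.End.one_apply] at this
          rw [this, coe_one', Matrix.one_mulVec]
        rw [hA1, orderOf_one] at hA
        exact hr.ne_one hA.symm
      -- both halves contribute `2j` dimensions to the commutator space
      have key : ∀ (U' : Submodule F (Fin d ⊕ Fin d → F)) (hm : ∀ u ∈ U', X u ∈ U'),
          ¬ (∀ u ∈ U', X u = u) →
          ∃ S : Submodule F (Fin d ⊕ Fin d → F), S ≤ U' ∧ S ≤ LinearMap.range ι ∧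
            2 * j ≤ Module.finrank F S := by
        intro U' hm hn
        refine ⟨(X.restrict hm - 1).range.map U'.subtype, Submodule.map_subtype_le _ _, ?_, ?_⟩
        · rintro _ ⟨_, ⟨v, rfl⟩, rfl⟩
          refine ⟨((A : Matrix.symplecticGroup (Fin j) F) :
            Matrix (Fin j ⊕ Fin j) (Fin j ⊕ Fin j) F) *ᵥ π v - π v, ?_⟩
          show _ = X v - v
          rw [hX, hT, add_sub_cancel_left]
        · rw [Submodule.finrank_map_subtype_eq]
          refine le_finrank_range hr hrF he _ ?_ fun h => hn fun u hu =>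
            congrArg Subtype.val (LinearMap.congr_fun h ⟨u, hu⟩)
          rw [Module.End.pow_restrict r hm]
          refine LinearMap.ext fun v => Subtype.ext ?_
          rw [LinearMap.coe_restrict_apply, hXr]
          rfl
      obtain ⟨S, hSU, hSι, hS⟩ := key U hXUm fun h => hne ⟨h, hdual W U hUW.symm hW hXWm h⟩
      obtain ⟨S', hS'W, hS'ι, hS'⟩ := key W hXWm fun h => hne ⟨hdual U W hUW hU hXUm h, h⟩
      have h1 := Submodule.finrank_mono (sup_le hSι hS'ι)
      have h2 := Submodule.finrank_sup_add_finrank_inf_eq S S'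
      rw [(hUW.disjoint.mono hSU hS'W).eq_bot, finrank_bot] at h2
      have h3 := LinearMap.finrank_range_le ι
      rw [Module.finrank_fintype_fun_eq_card, Fintype.card_sum, Fintype.card_fin] at h3
      omega
    · -- an element of odd order cannot interchange them
      have hit : ∀ n : ℕ, U.map (X ^ (2 * n)) = U := by
        intro n
        induction n with
        | zero => simp [Module.End.one_eq_id]
        | succ n ih =>
          rw [show 2 * (n + 1) = 2 * n + 1 + 1 by ring, pow_succ, pow_succ, mul_assoc,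
            Module.End.mul_eq_comp, Submodule.map_comp, Module.End.mul_eq_comp, Submodule.map_comp,
            hXU, hXW, ih]
      obtain ⟨s, rfl⟩ := hr.odd_of_ne_two hr2
      have hUeq : U = W := by
        calc U = U.map (X ^ (2 * s + 1)) := by rw [hXr]; simp [Module.End.one_eq_id]
          _ = (U.map (X ^ (2 * s))).map X := by
            rw [pow_succ', Module.End.mul_eq_comp, Submodule.map_comp]
          _ = W := by rw [hit, hXU]
      subst hUeq
      have hUtop : U = ⊤ := by simpa using hUW.sup_eq_top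
      obtain ⟨w, hw⟩ := exists_form_ne_zero
        (show (Pi.single (.inl ⟨0, by omega⟩) 1 : Fin d ⊕ Fin d → F) ≠ 0 by simp)
      exact hw (hU _ (hUtop ▸ Submodule.mem_top) _ (hUtop ▸ Submodule.mem_top))

end Cfsg.Agent.S5963
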