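import Cfsg.Statements.S5964
import Cfsg.Agent.SubElusive.Cases
import Cfsg.Agent.SubElusive.Subfield

set_option autoImplicit false
open scoped MatrixGroups
open Cfsg

namespace Cfsg.Agent.S5964

open scoped Matrix

theorem exists_sign_basis {F : Type*} [Field F] {n : ℕ} (h2 : (2 : F) ≠ 0) (M : Matrix (Fin n) (Fin n) F) (hM : M * M = 1) :
    ∃ (P : Matrix (Fin n) (Fin n) F) (d : Fin n → Bool), IsUnit P.det ∧
      M * P = P * Matrix.diagonal fun j => if d j then (1 : F) else -1 := by
  classical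
  obtain ⟨f, hf⟩ : ∃ f : Module.End F (Fin n → F), f = Matrix.toLin' M := ⟨_, rfl⟩
  have hff : ∀ v, f (f v) = v := fun v => by
    rw [hf, Matrix.toLin'_apply, Matrix.toLin'_apply, Matrix.mulVec_mulVec, hM, Matrix.one_mulVec]
  obtain ⟨U, hU⟩ : ∃ U, U = LinearMap.ker (f - 1) := ⟨_, rfl⟩
  obtain ⟨W, hW⟩ : ∃ W, W = LinearMap.ker (f + 1) := ⟨_, rfl⟩
  have hUf : ∀ v ∈ U, f v = v := fun v hv => by
    rw [hU, LinearMap.mem_ker, LinearMap.sub_apply, sub_eq_zero] at hv; exact hv
  have hWf : ∀ v ∈ W, f v = -v := fun v hv => by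
    rw [hW, LinearMap.mem_ker, LinearMap.add_apply, add_eq_zero_iff_eq_neg] at hv; exact hv
  have hc : IsCompl U W := by
    constructor
    · rw [Submodule.disjoint_def]
      intro v h1 h3
      have := (hUf v h1).symm.trans (hWf v h3)
      have h4 : (2 : F) • v = 0 := by rw [two_smul]; exact add_eq_zero_iff_eq_neg.mpr this
      exact (smul_eq_zero.mp h4).resolve_left h2
    · rw [codisjoint_iff, eq_top_iff]
      intro v _
      refine Submodule.mem_sup.mpr ⟨(2 : F)⁻¹ • (v + f v), ?_, (2 : F)⁻¹ • (v - f v), ?_, ?_⟩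
      · rw [hU, LinearMap.mem_ker, LinearMap.sub_apply, Module.End.one_apply, map_smul, map_add, hff]; abel
      · rw [hW, LinearMap.mem_ker, LinearMap.add_apply, Module.End.one_apply, map_smul, map_sub, hff]
        rw [← smul_add]; simp
      · rw [← smul_add, show v + f v + (v - f v) = (2 : F) • v by rw [two_smul]; abel, smul_smul, inv_mul_cancel₀ h2, one_smul]
  let b0 := ((Module.finBasis F U).prod (Module.finBasis F W)).map (Submodule.prodEquivOfIsCompl U W hc)
  let e : Fin (Module.finrank F U) ⊕ Fin (Module.finrank F W) ≃ Fin n :=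
    finSumFinEquiv.trans (finCongr (by rw [Submodule.finrank_add_eq_of_isCompl hc, Module.finrank_fin_fun]))
  let b := b0.reindex e
  refine ⟨Matrix.of fun i j => b j i, fun j => (e.symm j).isLeft, ?_, ?_⟩
  · rw [← Matrix.isUnit_iff_isUnit_det, ← Matrix.linearIndependent_cols_iff_isUnit]
    exact b.linearIndependent
  · refine Matrix.ext_of_mulVec_single fun j => ?_
    have hcol : ∀ j, (Matrix.of fun i j => b j i) *ᵥ Pi.single j 1 = b j := fun j => by
      rw [Matrix.mulVec_single_one]; rfl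
    rw [← Matrix.mulVec_mulVec, ← Matrix.mulVec_mulVec, hcol, Matrix.diagonal_mulVec_single, mul_one,
      ← Matrix.toLin'_apply, ← hf]
    have hsingle : ∀ c : F, (Pi.single j c : Fin n → F) = c • Pi.single j 1 := fun c => by
      rw [← Pi.single_smul', smul_eq_mul, mul_one]
    rw [hsingle, Matrix.mulVec_smul, hcol]
    show f (b0.reindex e j) = _ • b0.reindex e j
    rw [Module.Basis.reindex_apply]
    rcases hj : e.symm j with i | i
    · have e1 : b0 (Sum.inl i) = (Module.finBasis F U i : Fin n → F) := by simp [b0]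
      rw [e1, hUf _ (Module.finBasis F U i).2]
      simp [hj]
    · have e1 : b0 (Sum.inr i) = (Module.finBasis F W i : Fin n → F) := by simp [b0]
      rw [e1, hWf _ (Module.finBasis F W i).2]
      simp [hj]

/-- Involutions of PSL_n(q) and subfield subgroups. Here `T = PSL_n(F)` for a field `F` with `q = p^f` elements (`n ≥ 2`, `(n, q) ≠ (2, 2), (2, 3)`), `F₀` is the subfield with `q₀` elements where `q = q₀^k` for a prime `k`, and `H` is the subgroup of matrices of determinant 1 lying in the subfield group of `F₀` (invertible matrices over `F₀` times scalars) — a maximal subgroup of type GL_n(q₀) (the case `n = 2`, `q₀ = 2` is excluded); Ω is the set of `T`-conjugates of `H` (cosets of `H`), so an element of `T` of prime order `r` (a matrix `x` of determinant 1 with `x^r` scalar, `x` not scalar) fixes a point of Ω when some conjugate of `x` by a matrix of determinant 1 lies in `H`. Suppose the index of `H` is even. Then every involution of `T` is conjugate in `T`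 into `H` if and only if either `q` is even, or `k = 2` and `(n)_2 ≤ (q − 1)_2`. (For `q` odd and `k` odd the index of `H` is odd, so that case does not arise.) -/
theorem result {F : Type*} [Field F] [Fintype F] {p : ℕ} [Fact p.Prime] [CharP F p] {q : ℕ} (hq : Fintype.card F = q)
    (n : ℕ) (hn : 2 ≤ n) (hT : (n, q) ≠ (2, 2) ∧ (n, q) ≠ (2, 3))
    (F₀ : Subfield F) (k q₀ : ℕ) (hk : k.Prime) (hF₀ : Nat.card ↥F₀ = q₀) (hqk : q = q₀ ^ k) (hC5 : ¬ (n = 2 ∧ q₀ = 2)) (hΩ : 2 ∣ ((Cfsg.Geo.subfieldSubgroup F₀ 1).comap (Matrix.SpecialLinearGroup.toGL : Matrix.SpecialLinearGroup (Fin n) F →* GL (Fin n) F)).index) :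
    (∀ x : Matrix.SpecialLinearGroup (Fin n) F,
      (∃ z : F, ((x ^ 2 : Matrix.SpecialLinearGroup (Fin n) F) : Matrix (Fin n) (Fin n) F) = z • (1 : Matrix (Fin n) (Fin n) F)) →
      (∀ z : F, (x : Matrix (Fin n) (Fin n) F) ≠ z • (1 : Matrix (Fin n) (Fin n) F)) →
      ∃ P : Matrix.SpecialLinearGroup (Fin n) F, P⁻¹ * x * P ∈ ((Cfsg.Geo.subfieldSubgroup F₀ 1).comap (Matrix.SpecialLinearGroup.toGL : Matrix.SpecialLinearGroup (Fin n) F →* GL (Fin n) F))) ↔
    (Odd q → (k = 2 ∧ padicValNat 2 n ≤ padicValNat 2 (q - 1))) := by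
  classical
  subst hq
  haveI : Nonempty (Fin n) := ⟨⟨0, by omega⟩⟩
  haveI := Fintype.ofFinite F₀
  rw [Nat.card_eq_fintype_card] at hF₀
  simp only [Matrix.SpecialLinearGroup.coe_pow]
  have hsquares : k = 2 → Odd (Fintype.card F) → ∀ a : F₀, IsSquare (a : F) := by
    intro hk2 hodd a
    subst hk2
    by_cases ha : a = 0
    · subst ha; exact ⟨0, by simp⟩
    have hp2 : ringChar F ≠ 2 := fun h => by
      have := FiniteField.even_card_iff_char_two.mp h
      have := Nat.odd_iff.mp hodd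
      omega
    rw [FiniteField.isSquare_iff hp2 (by simpa using ha)]
    have h1 := congrArg (F₀.subtype) (FiniteField.pow_card_sub_one_eq_one a ha)
    rw [map_pow, map_one, hF₀] at h1
    obtain ⟨j, hj⟩ : Odd q₀ := (Nat.odd_pow_iff two_ne_zero).mp (hqk ▸ hodd)
    subst hj
    have e : Fintype.card F / 2 = (2 * j + 1 - 1) * (j + 1) := by
      rw [hqk, show (2 * j + 1) ^ 2 = 2 * (2 * (j * (j + 1))) + 1 by ring, Nat.add_sub_cancel, mul_assoc]
      omega
    rw [e, pow_mul, show (a : F) ^ (2 * j + 1 - 1) = 1 from h1, one_pow]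
  constructor
  · intro h hodd
    rcases hk.eq_two_or_odd' with hk2 | hkodd
    · refine ⟨hk2, ?_⟩
      by_contra hv
      have hp : 2 ≠ p := fun h2 => by
        obtain ⟨f, -, hf⟩ := FiniteField.card F p
        rw [hf, ← h2] at hodd
        exact absurd (Nat.odd_iff.mp (hodd.of_dvd_nat (dvd_pow_self 2 f.2.ne'))) (by norm_num)
      haveI : Fact (Nat.Prime 2) := ⟨Nat.prime_two⟩
      have h2q : 2 ∣ Fintype.card F - 1 := by obtain ⟨j, hj⟩ := hodd; omega
      have hno := (CfsgLib.SubElusive.no_nonsplit_iff (n := n) hp h2q (by omega)).not.mpr fun hh => hv hh.1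
      rw [not_not] at hno
      obtain ⟨c, hc, h2n, hdet⟩ := hno
      obtain ⟨x, hx, hx'⟩ := CfsgLib.SubElusive.exists_witness_nonsplit (n := n) (by omega) hp hc h2n hdet
      obtain ⟨P, hP⟩ := h x ⟨c, hx⟩ hx'
      obtain ⟨h₀, l, hl⟩ := CfsgLib.SubElusive.of_mem_subfield _ hP
      obtain ⟨H, hH⟩ : ∃ H, H = (h₀ : Matrix (Fin n) (Fin n) F₀).map (F₀.subtype : F₀ →+* F) := ⟨_, rfl⟩
      rw [← hH] at hl
      obtain ⟨y, hy0⟩ : ∃ y, y = P⁻¹ * x * P := ⟨_, rfl⟩
      have hy : (y : Matrix (Fin n) (Fin n) F) ^ 2 = c • (1 : Matrix (Fin n) (Fin n) F) := by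
        rw [← Matrix.SpecialLinearGroup.coe_pow, show y ^ 2 = P⁻¹ * x ^ 2 * P by rw [hy0, pow_two, pow_two]; group,
          Matrix.SpecialLinearGroup.coe_mul, Matrix.SpecialLinearGroup.coe_mul, Matrix.SpecialLinearGroup.coe_pow, hx,
          Matrix.mul_smul, Matrix.smul_mul, Matrix.mul_one, ← Matrix.SpecialLinearGroup.coe_mul, inv_mul_cancel,
          Matrix.SpecialLinearGroup.coe_one]
      have hyl : (y : Matrix (Fin n) (Fin n) F) = (l : F) • H := by rw [hy0]; exact hl
      have h4 : ((l : F) • H) ^ 2 = c • (1 : Matrix (Fin n) (Fin n) F) := by rw [← hyl, hy]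
      let i0 : Fin n := ⟨0, by omega⟩
      have h5 := congrFun (congrFun h4 i0) i0
      rw [_root_.smul_pow, Matrix.smul_apply, Matrix.smul_apply, Matrix.one_apply_eq, smul_eq_mul, smul_eq_mul, mul_one, hH,
        show ((h₀ : Matrix (Fin n) (Fin n) F₀).map (F₀.subtype : F₀ →+* F)) ^ 2 =
          ((h₀ : Matrix (Fin n) (Fin n) F₀) ^ 2).map (F₀.subtype : F₀ →+* F) from
          (map_pow (RingHom.mapMatrix (F₀.subtype : F₀ →+* F)) _ 2).symm, Matrix.map_apply] at h5
      obtain ⟨w, hw⟩ := hsquares hk2 hodd (((h₀ : Matrix (Fin n) (Fin n) F₀) ^ 2) i0 i0)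
      refine hc ((l : F) * w) ?_
      rw [← h5, show (F₀.subtype : F₀ →+* F) (((h₀ : Matrix (Fin n) (Fin n) F₀) ^ 2) i0 i0) = w * w from hw]
      ring
    · exfalso
      have := CfsgLib.SubElusive.odd_index (n := n) F₀ (by omega) (by rw [Nat.card_eq_fintype_card]; exact hF₀) hqk hodd hkodd
      exact (Nat.not_even_iff_odd.mpr this) (even_iff_two_dvd.mpr hΩ)
  · intro hR x ⟨c, hx⟩ hx'
    have hdetx : (x : Matrix (Fin n) (Fin n) F).det = 1 := x.det_coe
    haveI : Fact (Nat.Prime 2) := ⟨Nat.prime_two⟩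
    have hc0 := CfsgLib.SubElusive.scalar_data (r := 2) hdetx (by omega) hx
    obtain ⟨s, hs⟩ : ∃ s : F, s ^ 2 = c := by
      rcases Nat.even_or_odd (Fintype.card F) with he | hodd
      · obtain ⟨s, hs⟩ := FiniteField.isSquare_of_char_two (FiniteField.even_card_iff_char_two.mpr (Nat.even_iff.mp he)) c
        exact ⟨s, by rw [pow_two, hs]⟩
      · by_contra hns
        push Not at hns
        obtain ⟨hk2, hv⟩ := hR hodd
        have hp : 2 ≠ p := fun h2 => by
          obtain ⟨f, -, hf⟩ := FiniteField.card F p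
          rw [hf, ← h2] at hodd
          exact absurd (Nat.odd_iff.mp (hodd.of_dvd_nat (dvd_pow_self 2 f.2.ne'))) (by norm_num)
        obtain ⟨h2n, hcp, -⟩ := CfsgLib.SubElusive.nonsplit (r := 2) _ hns hx
        have hd := CfsgLib.SubElusive.det_nonsplit (r := 2) (Nat.div_mul_cancel h2n).symm hcp
        rw [hdetx] at hd
        refine (CfsgLib.SubElusive.no_nonsplit_iff (n := n) hp (by obtain ⟨j, hj⟩ := hodd; omega) (by omega)).mpr
          ⟨hv, fun _ _ => ?_⟩ ⟨c, hns, h2n, hd.symm⟩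
        obtain ⟨j, hj⟩ : Odd q₀ := (Nat.odd_pow_iff hk.ne_zero).mp (hqk ▸ hodd)
        rw [hqk, hk2, hj, show (2 * j + 1) ^ 2 = 4 * (j * (j + 1)) + 1 by ring]
        omega
    have hs0 : s ≠ 0 := fun h0 => hc0 (by rw [← hs, h0, zero_pow two_ne_zero])
    obtain ⟨M, hMdef⟩ : ∃ M, M = s⁻¹ • (x : Matrix (Fin n) (Fin n) F) := ⟨_, rfl⟩
    have hM : M * M = 1 := by
      rw [← pow_two, hMdef, _root_.smul_pow, hx, smul_smul, ← hs, ← mul_pow, inv_mul_cancel₀ hs0, one_pow, one_smul]
    have hxM : (x : Matrix (Fin n) (Fin n) F) = s • M := by rw [hMdef, smul_smul, mul_inv_cancel₀ hs0, one_smul]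
    by_cases h2 : (2 : F) = 0
    · haveI : CharP F 2 := CharTwo.of_one_ne_zero_of_two_eq_zero one_ne_zero h2
      obtain ⟨A, hA⟩ : ∃ A, A = M - 1 := ⟨_, rfl⟩
      have hA2 : A ^ 2 = 0 := by rw [hA, sub_pow_char_of_commute _ (Commute.one_right M), one_pow, pow_two, hM, sub_self]
      obtain ⟨t, kc, e, P, hkc, hP, hAP⟩ := CfsgLib.SubElusive.exists_shift A ⟨2, hA2⟩
      obtain ⟨B, hB⟩ : ∃ B, B = CfsgLib.SubElusive.shiftOn F e := ⟨_, rfl⟩
      rw [← hB] at hAP
      have hB2 : CfsgLib.SubElusive.shiftOn F e ^ 2 = 0 := by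
        rw [← hB]
        have : P * B ^ 2 = 0 := by
          rw [pow_two, ← Matrix.mul_assoc, ← hAP, Matrix.mul_assoc, ← hAP, ← Matrix.mul_assoc, ← pow_two, hA2, Matrix.zero_mul]
        rw [← Matrix.nonsing_inv_mul_cancel_left P (B ^ 2) hP, this, Matrix.mul_zero]
      have ht : 0 < t := by
        rcases Nat.eq_zero_or_pos t with rfl | ht
        · exact (e.symm ⟨0, by omega⟩).1.elim0
        · exact ht
      let i0 : Fin t := ⟨0, ht⟩
      obtain ⟨δ, hδ⟩ : ∃ δ : F, δ ^ kc i0 = P.det⁻¹ := by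
        have := CfsgLib.SubElusive.le_of_shiftOn_pow hkc e hB2 i0
        have := hkc i0
        rcases (show kc i0 = 1 ∨ kc i0 = 2 by omega) with h1 | h1
        · exact ⟨P.det⁻¹, by rw [h1, pow_one]⟩
        · obtain ⟨w, hw⟩ := FiniteField.isSquare_of_char_two (ringChar.eq F 2) P.det⁻¹
          exact ⟨w, by rw [h1, pow_two, hw]⟩
      obtain ⟨C, hC, hCB⟩ := CfsgLib.SubElusive.scale_chain (F := F) e i0 δ
      rw [← hB] at hCB
      have hu : IsUnit (1 + CfsgLib.SubElusive.shiftOn F₀ e) := by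
        refine IsNilpotent.isUnit_one_add ⟨2, ?_⟩
        apply (Matrix.map_injective (F₀.subtype : F₀ →+* F).injective)
        show ((RingHom.mapMatrix (F₀.subtype : F₀ →+* F)) ((CfsgLib.SubElusive.shiftOn F₀ e) ^ 2)) = _
        rw [map_pow, RingHom.mapMatrix_apply, CfsgLib.SubElusive.shiftOn_map, hB2]
        simp
      refine CfsgLib.SubElusive.conj_into_subfield x (P * C) ?_ hu.unit (Units.mk0 s hs0) ?_
      · rw [Matrix.det_mul, hC, hδ, mul_inv_cancel₀ hP.ne_zero]
      · rw [IsUnit.unit_spec, show (1 + CfsgLib.SubElusive.shiftOn F₀ e).map (F₀.subtype : F₀ →+* F) = 1 + B from by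
          show RingHom.mapMatrix (F₀.subtype : F₀ →+* F) _ = _
          rw [map_add, map_one, RingHom.mapMatrix_apply, CfsgLib.SubElusive.shiftOn_map, hB]]
        rw [hxM, show M = 1 + A by rw [hA, add_sub_cancel], Units.val_mk0, Matrix.smul_mul, Matrix.mul_smul,
          Matrix.add_mul, Matrix.mul_add, Matrix.one_mul, Matrix.mul_one, ← Matrix.mul_assoc A, hAP, Matrix.mul_assoc P B,
          ← hCB, Matrix.mul_assoc P C]
    · obtain ⟨P, d, hP, hMP⟩ := exists_sign_basis h2 M hM
      let i0 : Fin n := ⟨0, by omega⟩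
      obtain ⟨C, hCdef⟩ : ∃ C, C = Matrix.diagonal (Function.update (1 : Fin n → F) i0 P.det⁻¹) := ⟨_, rfl⟩
      let dd : Matrix (Fin n) (Fin n) F₀ := Matrix.diagonal fun j => if d j then (1 : F₀) else -1
      have hdd : IsUnit dd := by
        rw [Matrix.isUnit_iff_isUnit_det, Matrix.det_diagonal, isUnit_iff_ne_zero, Finset.prod_ne_zero_iff]
        intro j _
        split_ifs <;> simp
      refine CfsgLib.SubElusive.conj_into_subfield x (P * C) ?_ hdd.unit (Units.mk0 s hs0) ?_
      · rw [Matrix.det_mul, hCdef, Matrix.det_diagonal, Finset.prod_update_of_mem (Finset.mem_univ _)]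
        simp [mul_inv_cancel₀ hP.ne_zero]
      · rw [IsUnit.unit_spec, show dd.map (F₀.subtype : F₀ →+* F) = Matrix.diagonal (fun j => if d j then (1 : F) else -1) from by
          rw [Matrix.diagonal_map (map_zero _)]
          congr 1; funext j
          show (F₀.subtype : F₀ →+* F) (if d j then (1 : F₀) else -1) = _
          split_ifs <;> simp]
        rw [hxM, Units.val_mk0, Matrix.smul_mul, Matrix.mul_smul, ← Matrix.mul_assoc M, hMP, hCdef, Matrix.mul_assoc P,
          Matrix.mul_assoc P, Matrix.diagonal_mul_diagonal, Matrix.diagonal_mul_diagonal]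
        congr 3; funext j; ring

end Cfsg.Agent.S5964
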