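import Cfsg.Statements.S5965
import Cfsg.Agent.SubElusive.Pairing
import Cfsg.Agent.SubElusive.SubfieldSemi

set_option autoImplicit false
open scoped MatrixGroups
open Cfsg

namespace Cfsg.Agent.S5965

open CfsgLib.SubElusive Polynomial
open scoped Matrix

theorem two_point_not_invariant {r : ℕ} [Fact r.Prime] (hr2 : r ≠ 2) {u : ZMod r} (h1 : u ≠ 1) (h1' : u ≠ -1) :
    ¬ ∃ e, ∀ b, (Finset.univ.filter fun j => (![1, -1] : Fin 2 → ZMod r) j = b).card =
      (Finset.univ.filter fun j => (![1, -1] : Fin 2 → ZMod r) j = u * b + e).card := by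
  rintro ⟨e, he⟩
  have h2 : (2 : ZMod r) ≠ 0 := fun h => by
    have h' : ((2 : ℕ) : ZMod r) = 0 := by exact_mod_cast h
    exact hr2 ((Nat.prime_dvd_prime_iff_eq Fact.out Nat.prime_two).mp ((ZMod.natCast_eq_zero_iff _ _).mp h'))
  have hne : (1 : ZMod r) ≠ -1 := fun h => h2 (by linear_combination h)
  have himg : ∀ b : ZMod r, (b = 1 ∨ b = -1) → u * b + e = 1 ∨ u * b + e = -1 := by
    intro b hb
    have hpos : 0 < (Finset.univ.filter fun j => (![1, -1] : Fin 2 → ZMod r) j = b).card := by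
      rcases hb with rfl | rfl
      · exact Finset.card_pos.mpr ⟨0, by simp⟩
      · exact Finset.card_pos.mpr ⟨1, by simp⟩
    rw [he] at hpos
    obtain ⟨j, hj⟩ := Finset.card_pos.mp hpos
    rw [Finset.mem_filter] at hj
    fin_cases j
    · exact Or.inl (by simpa using hj.2.symm)
    · exact Or.inr (by simpa using hj.2.symm)
  rcases himg 1 (Or.inl rfl) with a | a <;> rcases himg (-1) (Or.inr rfl) with b | b
  · have : u * 2 = 0 := by linear_combination a - b
    rcases mul_eq_zero.mp this with h | h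
    · subst h
      have hone : ∀ b : ZMod r, (0 : ZMod r) * b + e = 1 := fun b => by linear_combination a
      have hb := he (-1 + 1)
      simp only [hone] at hb
      have hz : (Finset.univ.filter fun j => (![1, -1] : Fin 2 → ZMod r) j = -1 + 1).card = 0 := by
        rw [Finset.card_eq_zero, Finset.filter_eq_empty_iff]
        intro j _
        fin_cases j <;> simp
      have hp : 0 < (Finset.univ.filter fun j => (![1, -1] : Fin 2 → ZMod r) j = 1).card :=
        Finset.card_pos.mpr ⟨0, by simp⟩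
      omega
    · exact h2 h
  · exact h1 (mul_right_cancel₀ h2 (by linear_combination a - b))
  · exact h1' (mul_right_cancel₀ h2 (by linear_combination a - b))
  · have : u * 2 = 0 := by linear_combination a - b
    rcases mul_eq_zero.mp this with h | h
    · subst h
      have hone : ∀ b : ZMod r, (0 : ZMod r) * b + e = -1 := fun b => by linear_combination a
      have hb := he (-1 + 1)
      simp only [hone] at hb
      have hz : (Finset.univ.filter fun j => (![1, -1] : Fin 2 → ZMod r) j = -1 + 1).card = 0 := by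
        rw [Finset.card_eq_zero, Finset.filter_eq_empty_iff]
        intro j _
        fin_cases j <;> simp
      have hp : 0 < (Finset.univ.filter fun j => (![1, -1] : Fin 2 → ZMod r) j = -1).card :=
        Finset.card_pos.mpr ⟨1, by simp⟩
      omega
    · exact h2 h

/-- Elements of odd prime order r ≠ p of PSL_n(q) and subfield subgroups. Here `T = PSL_n(F)` for a field `F` with `q = p^f` elements (`n ≥ 2`, `(n, q) ≠ (2, 2), (2, 3)`), `F₀` is the subfield with `q₀` elements where `q = q₀^k` for a prime `k`, and `H` is the subgroup of matrices of determinant 1 lying in the subfield group of `F₀` (invertible matrices over `F₀` times scalars) — a maximal subgroup of type GL_n(q₀) (the case `n = 2`, `q₀ = 2` is excluded); Ω is the set of `T`-conjugates of `H` (cosets of `H`), so an element of `T` of prime order `r` (a matrix `x` of determinant 1 with `x^r` scalar, `x` not scalar) fixes a point of Ω when some conjugate of `x` by a matrix of determinant 1 lies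 in `H`. Let `r ≠ p` be an odd prime dividing the index of `H`, with `(n, r) ≠ (6, 3)` and, when `r = k` divides `q₀ − 1`, with `(n)_r ≤ (q − 1)_r`. Then every element of `T` of order `r` is conjugate in `T` into `H` if and only if `r = k`, or `k = 2`, `r = n ∈ {3, 5}` and `(q₀ + 1)_r = r`. The two excluded cases, `(n, r) = (6, 3)` and `r = k ∣ q₀ − 1` with `(n)_r > (q − 1)_r`, are ones where this criterion can fail, so they are left out. -/
theorem result {F : Type*} [Field F] [Fintype F] {p : ℕ} [Fact p.Prime] [CharP F p] {q : ℕ} (hq : Fintype.card F = q)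
    (n : ℕ) (hn : 2 ≤ n) (hT : (n, q) ≠ (2, 2) ∧ (n, q) ≠ (2, 3))
    (F₀ : Subfield F) (k q₀ : ℕ) (hk : k.Prime) (hF₀ : Nat.card ↥F₀ = q₀) (hqk : q = q₀ ^ k) (hC5 : ¬ (n = 2 ∧ q₀ = 2)) (r : ℕ) [Fact r.Prime] (hr2 : r ≠ 2) (hrp : r ≠ p) (hgap : ¬ (n = 6 ∧ r = 3)) (hgapk : r = k → r ∣ q₀ - 1 → padicValNat r n ≤ padicValNat r (q - 1)) (hΩ : r ∣ ((Cfsg.Geo.subfieldSubgroup F₀ 1).comap (Matrix.SpecialLinearGroup.toGL : Matrix.SpecialLinearGroup (Fin n) F →* GL (Fin n) F)).index) :
    (∀ x : Matrix.SpecialLinearGroup (Fin n) F,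
      (∃ z : F, ((x ^ r : Matrix.SpecialLinearGroup (Fin n) F) : Matrix (Fin n) (Fin n) F) = z • (1 : Matrix (Fin n) (Fin n) F)) →
      (∀ z : F, (x : Matrix (Fin n) (Fin n) F) ≠ z • (1 : Matrix (Fin n) (Fin n) F)) →
      ∃ P : Matrix.SpecialLinearGroup (Fin n) F, P⁻¹ * x * P ∈ ((Cfsg.Geo.subfieldSubgroup F₀ 1).comap (Matrix.SpecialLinearGroup.toGL : Matrix.SpecialLinearGroup (Fin n) F →* GL (Fin n) F))) ↔
    (r = k ∨ (k = 2 ∧ r = n ∧ (n = 3 ∨ n = 5) ∧ padicValNat r (q₀ + 1) = 1)) := by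
  classical
  subst hq
  haveI : Nonempty (Fin n) := ⟨⟨0, by omega⟩⟩
  simp only [Matrix.SpecialLinearGroup.coe_pow]
  have hrprime := (Fact.out : r.Prime)
  have hq0 : 2 ≤ q₀ := by
    rw [← hF₀]
    exact Finite.one_lt_card
  obtain ⟨f₀, hf0, hpf⟩ : ∃ f₀ : ℕ, f₀ ≠ 0 ∧ q₀ = p ^ f₀ := by
    obtain ⟨m, hp, hm⟩ := FiniteField.card F p
    obtain ⟨i, -, hi⟩ := (Nat.dvd_prime_pow hp).mp (show q₀ ∣ p ^ (m : ℕ) by rw [← hm, hqk]; exact dvd_pow_self _ hk.ne_zero)
    exact ⟨i, fun h0 => by rw [h0, pow_zero] at hi; omega, hi⟩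
  obtain ⟨σ, hσdef⟩ : ∃ σ : F →+* F, σ = iterateFrobenius F p f₀ := ⟨_, rfl⟩
  have hσ : ∀ a, σ a = a ^ q₀ := fun a => by rw [hσdef, iterateFrobenius_def, hpf]
  have hfix : ∀ a : F₀, σ (a : F) = a := fun a => by
    haveI := Fintype.ofFinite F₀
    rw [hσ, ← hF₀, Nat.card_eq_fintype_card]
    exact congrArg (fun z : F₀ => (z : F)) (FiniteField.pow_card a)
  -- a conjugate in the subgroup
  have outof : ∀ x : Matrix.SpecialLinearGroup (Fin n) F, (∃ P : Matrix.SpecialLinearGroup (Fin n) F,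
      P⁻¹ * x * P ∈ ((Cfsg.Geo.subfieldSubgroup F₀ 1).comap
        (Matrix.SpecialLinearGroup.toGL : Matrix.SpecialLinearGroup (Fin n) F →* GL (Fin n) F))) →
      ∃ τ : F, τ ≠ 0 ∧ ((x : Matrix (Fin n) (Fin n) F).map σ).charpoly = (τ • (x : Matrix (Fin n) (Fin n) F)).charpoly ∧
        ((x : Matrix (Fin n) (Fin n) F) ^ r = 1 → τ ^ r = 1) := by
    rintro x ⟨P, hP⟩
    obtain ⟨h, c, hhc⟩ := of_mem_subfield _ hP
    obtain ⟨S, hS⟩ : ∃ S, S = (P : Matrix (Fin n) (Fin n) F) := ⟨_, rfl⟩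
    obtain ⟨T, hT⟩ : ∃ T, T = ((P⁻¹ : Matrix.SpecialLinearGroup (Fin n) F) : Matrix (Fin n) (Fin n) F) := ⟨_, rfl⟩
    obtain ⟨H, hH⟩ : ∃ H, H = (h : Matrix (Fin n) (Fin n) F₀).map (F₀.subtype : F₀ →+* F) := ⟨_, rfl⟩
    obtain ⟨X, hX⟩ : ∃ X, X = (x : Matrix (Fin n) (Fin n) F) := ⟨_, rfl⟩
    rw [← hH] at hhc
    have hTS : T * S = 1 := by
      rw [hT, hS, ← Matrix.SpecialLinearGroup.coe_mul, inv_mul_cancel, Matrix.SpecialLinearGroup.coe_one]
    have hST : S * T = 1 := by
      rw [hT, hS, ← Matrix.SpecialLinearGroup.coe_mul, mul_inv_cancel, Matrix.SpecialLinearGroup.coe_one]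
    have hTXS : T * X * S = (c : F) • H := by
      rw [← hhc, hT, hX, hS, ← Matrix.SpecialLinearGroup.coe_mul, ← Matrix.SpecialLinearGroup.coe_mul]
      rfl
    have hXc : X = S * ((c : F) • H) * T := by
      rw [← hTXS, ← Matrix.mul_assoc, ← Matrix.mul_assoc, hST, Matrix.one_mul, Matrix.mul_assoc, hST, Matrix.mul_one]
    have hHσ : H.map σ = H := by
      ext i j
      rw [hH, Matrix.map_apply, Matrix.map_apply]
      exact hfix _
    refine ⟨(c : F) ^ q₀ / (c : F), div_ne_zero (pow_ne_zero _ c.ne_zero) c.ne_zero, ?_, fun hXr => ?_⟩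
    · rw [← hX, hXc]
      have e1 : (S * ((c : F) • H) * T).map σ = S.map σ * ((c : F) ^ q₀ • H) * T.map σ := by
        rw [Matrix.map_mul, Matrix.map_mul, show ((c : F) • H).map σ = σ (c : F) • H.map σ by ext; simp, hHσ, hσ]
      have hTSσ : T.map σ * S.map σ = 1 := by rw [← Matrix.map_mul, hTS, Matrix.map_one _ (map_zero σ) (map_one σ)]
      rw [e1, Matrix.charpoly_mul_comm, ← Matrix.mul_assoc, hTSσ, Matrix.one_mul, ← Matrix.smul_mul, ← Matrix.mul_smul,
        Matrix.charpoly_mul_comm, ← Matrix.mul_assoc, hTS, Matrix.one_mul, smul_smul, div_mul_cancel₀ _ c.ne_zero]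
    · have hpw : ∀ m : ℕ, ((c : F) • H) ^ m = T * X ^ m * S := by
        intro m
        induction m with
        | zero => rw [pow_zero, pow_zero, Matrix.mul_one, hTS]
        | succ m ih =>
          rw [pow_succ, ih, pow_succ, ← hTXS]
          simp only [Matrix.mul_assoc]
          rw [← Matrix.mul_assoc S T, hST, Matrix.one_mul]
      have h1 := hpw r
      rw [hX, hXr, Matrix.mul_one, hTS, _root_.smul_pow] at h1
      have h2 : (c : F) ^ r * (((h : Matrix (Fin n) (Fin n) F₀) ^ r) ⟨0, by omega⟩ ⟨0, by omega⟩ : F₀) = 1 := by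
        have h3 := congrFun (congrFun h1 ⟨0, by omega⟩) ⟨0, by omega⟩
        rw [hH, ← RingHom.mapMatrix_apply, ← map_pow, Matrix.smul_apply, Matrix.one_apply_eq, smul_eq_mul] at h3
        exact h3
      have h3 : σ ((c : F) ^ r) = (c : F) ^ r := by
        rw [eq_inv_of_mul_eq_one_left h2, map_inv₀, hfix]
      rw [hσ, ← pow_mul, mul_comm r q₀, pow_mul] at h3
      rw [div_pow, h3, div_self (pow_ne_zero _ c.ne_zero)]
  have hrF : (r : F) ≠ 0 := r_ne_zero hrp
  have hrq0 : ¬ r ∣ q₀ := by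
    rw [hpf]
    exact fun h => hrp ((Nat.prime_dvd_prime_iff_eq hrprime (Fact.out : p.Prime)).mp (hrprime.dvd_of_dvd_pow h))
  have hq0z : (q₀ : ZMod r) ≠ 0 := fun h => hrq0 ((ZMod.natCast_eq_zero_iff _ _).mp h)
  have hcard : (Fintype.card F : ZMod r) = (q₀ : ZMod r) ^ k := by rw [hqk, Nat.cast_pow]
  have hqz : (Fintype.card F : ZMod r) ≠ 0 := hcard ▸ pow_ne_zero _ hq0z
  have hcard2 : 2 ≤ Fintype.card F := Fintype.one_lt_card
  by_cases hrk : r = k
  · refine iff_of_true (fun x ⟨c, hx⟩ hx' => ?_) (Or.inl hrk)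
    have hqq : (Fintype.card F : ZMod r) = q₀ := by rw [hcard, ← hrk, ZMod.pow_card]
    have hdetx : (x : Matrix (Fin n) (Fin n) F).det = 1 := x.det_coe
    have hc0 := scalar_data (r := r) hdetx (by omega) hx
    obtain ⟨d, hd⟩ : ∃ d : F, d ^ r = c := by
      by_cases hrq : r ∣ Fintype.card F - 1
      · by_contra hns
        push Not at hns
        obtain ⟨hrn, hcp, -⟩ := nonsplit (r := r) _ hns hx
        have hd := det_nonsplit (r := r) (Nat.div_mul_cancel hrn).symm hcp
        rw [hdetx] at hd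
        have hv : padicValNat r n ≤ padicValNat r (Fintype.card F - 1) := hgapk hrk (by
          rw [← ZMod.natCast_eq_zero_iff, Nat.cast_sub (by omega), ← hqq, ← Nat.cast_sub (by omega)]
          exact (ZMod.natCast_eq_zero_iff _ _).mpr hrq)
        exact (no_nonsplit_iff (F := F) (p := p) (n := n) hrp hrq (by omega)).mpr ⟨hv, fun h => absurd h hr2⟩
          ⟨c, hns, hrn, hd.symm⟩
      · have hco : (Nat.card Fˣ).Coprime r := by
          rw [Nat.card_units, Nat.card_eq_fintype_card]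
          exact (hrprime.coprime_iff_not_dvd.mpr hrq).symm
        obtain ⟨u, hu⟩ := (powCoprime hco).surjective (Units.mk0 c hc0)
        exact ⟨u, by simpa [Units.ext_iff] using hu⟩
    have hd0 : d ≠ 0 := fun h0 => hc0 (by rw [← hd, h0, zero_pow hrprime.ne_zero])
    obtain ⟨M, hMdef⟩ : ∃ M, M = d⁻¹ • (x : Matrix (Fin n) (Fin n) F) := ⟨_, rfl⟩
    have hM : M ^ r = 1 := by
      rw [hMdef, _root_.smul_pow, hx, smul_smul, ← hd, ← mul_pow, inv_mul_cancel₀ hd0, one_pow, one_smul]
    have hinv : M.charpoly.map (iterateFrobenius F p f₀) = M.charpoly := by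
      obtain ⟨P, hPf, hfin, hζ⟩ := CfsgLib.SemiClasses.exists_root_field F hrprime hrF
      have := hPf
      have := hfin
      rw [← hσdef, ← Matrix.charpoly_map]
      have hMσ : (M.map σ) ^ r = 1 := by
        rw [← RingHom.mapMatrix_apply, ← map_pow, hM, map_one]
      refine CfsgLib.SemiClasses.charpoly_eq_of_mult hζ hMσ hM fun b => ?_
      have h1 := CfsgLib.SemiClasses.mult_map hζ hrp σ f₀ (fun a => by rw [hσ, hpf]) M b
      rw [← hpf, ← hqq, CfsgLib.SemiClasses.mult_frob hζ] at h1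
      exact h1
    obtain ⟨h, P, hP, hMP⟩ := descend F₀ hF₀ hpf (by omega) hrp hM hinv
    refine conj_into_subfield x P hP h (Units.mk0 d hd0) ?_
    rw [Units.val_mk0, Matrix.mul_smul, ← hMP, hMdef, Matrix.smul_mul, smul_smul, mul_inv_cancel₀ hd0, one_smul]
  obtain ⟨j, hj2, hjn, hqj, hq0j⟩ := (subfield_index (r := r) F₀ (by omega) hF₀ hqk hk hrq0 hΩ).resolve_left hrk
  have hnot : ∀ l : ℕ, (q₀ : ZMod r) ≠ (Fintype.card F : ZMod r) ^ l := fun l hl => hq0j (by
    rw [hl, ← pow_mul, mul_comm, pow_mul, hqj, one_pow])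
  have hu1 : (q₀ : ZMod r) ≠ 1 := by simpa using hnot 0
  obtain ⟨i, hidef⟩ : ∃ i, i = orderOf (Fintype.card F : ZMod r) := ⟨_, rfl⟩
  have hin : i ≤ n := (Nat.le_of_dvd (by omega) (hidef ▸ orderOf_dvd_of_pow_eq_one hqj)).trans hjn
  have hi0 : i ≠ 0 := by
    rw [hidef]
    exact Nat.pos_iff_ne_zero.mp ((isOfFinOrder_iff_pow_eq_one.mpr ⟨j, by omega, hqj⟩).orderOf_pos)
  simp only [hrk, false_or]
  by_cases hi1 : i = 1
  swap
  · refine iff_of_false (fun h => ?_) ?_
    · obtain ⟨X, hXdet, hXr, hXne, P, hPf, hα, hroot, hkey⟩ :=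
        exists_orbit_witness (n := n) hrp (by omega : 2 ≤ orderOf (Fintype.card F : ZMod r)) (hidef ▸ hin)
      obtain ⟨τ, hτ, hcp, hτr⟩ := outof ⟨X, hXdet⟩ (h ⟨X, hXdet⟩ ⟨1, by rw [one_smul]; exact hXr⟩ hXne)
      replace hcp : (X.map σ).charpoly = (τ • X).charpoly := hcp
      have hτ1 : τ = 1 := by
        have h3 : orderOf (Units.mk0 τ hτ) ∣ r := orderOf_dvd_of_pow_eq_one (Units.ext (by simpa using hτr hXr))
        rcases (Nat.dvd_prime hrprime).mp h3 with h | h
        · simpa [orderOf_eq_one_iff, Units.ext_iff] using h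
        · have h4 := orderOf_dvd_natCard (Units.mk0 τ hτ)
          rw [h, Nat.card_units, Nat.card_eq_fintype_card] at h4
          exact absurd (hidef.trans (r_dvd_sub_iff.mp h4)) hi1
      rw [hτ1, one_smul] at hcp
      let L := AdjoinRoot P
      haveI : CharP L p := charP_of_injective_ringHom (AdjoinRoot.of P).injective p
      haveI : ExpChar L p := ExpChar.prime Fact.out
      have hφ : ∀ z : L, iterateFrobenius L p f₀ z = z ^ q₀ := fun z => by rw [iterateFrobenius_def, hpf]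
      have hroot' : (X.map (AdjoinRoot.of P)).charpoly.IsRoot (AdjoinRoot.root P ^ q₀) := by
        rw [Matrix.charpoly_map, ← hcp, Matrix.charpoly_map, Polynomial.map_map, Polynomial.IsRoot, Polynomial.eval_map]
        have h1 := congrArg (iterateFrobenius L p f₀) hroot
        rw [Matrix.charpoly_map, Polynomial.eval_map, Polynomial.hom_eval₂, hφ, map_zero] at h1
        rwa [show (AdjoinRoot.of P).comp σ = (iterateFrobenius L p f₀).comp (AdjoinRoot.of P) from
          RingHom.ext fun a => by rw [RingHom.comp_apply, RingHom.comp_apply, hφ, hσ, map_pow]]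
      obtain ⟨l, hl⟩ := hkey q₀ hq0z hroot'
      exact hnot l hl
    · rintro ⟨rfl, -, -, hv⟩
      apply hi1
      rw [hidef, orderOf_eq_one_iff, hcard]
      have h1 : r ∣ q₀ + 1 := dvd_of_one_le_padicValNat hv.ge
      rw [← ZMod.natCast_eq_zero_iff, Nat.cast_add, Nat.cast_one] at h1
      rw [eq_neg_of_add_eq_zero_left h1, neg_one_sq]
  have hrq : r ∣ Fintype.card F - 1 := r_dvd_sub_iff.mpr (hidef ▸ hi1)
  have hq1 : (Fintype.card F : ZMod r) = 1 := orderOf_eq_one_iff.mp (hidef ▸ hi1)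
  obtain ⟨ζ, hζ⟩ := exists_char (F := F) hrq
  have hζr : ∀ (ξ : AddChar (ZMod r) F) b, ξ b ^ r = 1 := fun ξ b => by
    rw [← ξ.map_nsmul_eq_pow, nsmul_eq_mul, ZMod.natCast_self, zero_mul, ξ.map_zero_eq_one]
  have hξ0 : ∀ (ξ : AddChar (ZMod r) F) b, ξ b ≠ 0 := fun ξ b h0 => by
    have h1 := hζr ξ b
    rw [h0, zero_pow hrprime.ne_zero] at h1
    exact zero_ne_one h1
  have hσζ : ∀ (ξ : AddChar (ZMod r) F) b, σ (ξ b) = ξ ((q₀ : ZMod r) * b) := fun ξ b => by
    rw [hσ, ← ξ.map_nsmul_eq_pow, nsmul_eq_mul]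
  -- a diagonal witness
  have diag : ∀ (s : F) (ξ : AddChar (ZMod r) F) (a : Fin n → ZMod r), s ≠ 0 → Function.Injective ξ →
      (¬ ∃ e, ∀ b, (Finset.univ.filter fun j => a j = b).card =
        (Finset.univ.filter fun j => a j = (q₀ : ZMod r) * b + e).card) →
      ∏ j, s * ξ (a j) = 1 →
      ¬ ∀ x : Matrix.SpecialLinearGroup (Fin n) F,
        (∃ z : F, (x : Matrix (Fin n) (Fin n) F) ^ r = z • (1 : Matrix (Fin n) (Fin n) F)) →
        (∀ z : F, (x : Matrix (Fin n) (Fin n) F) ≠ z • (1 : Matrix (Fin n) (Fin n) F)) →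
        ∃ P : Matrix.SpecialLinearGroup (Fin n) F, P⁻¹ * x * P ∈ ((Cfsg.Geo.subfieldSubgroup F₀ 1).comap
          (Matrix.SpecialLinearGroup.toGL : Matrix.SpecialLinearGroup (Fin n) F →* GL (Fin n) F)) := by
    intro s ξ a hs hξ hninv hprod h
    obtain ⟨D, hD⟩ : ∃ D, D = Matrix.diagonal (fun j => s * ξ (a j)) := ⟨_, rfl⟩
    have hDdet : D.det = 1 := by rw [hD, Matrix.det_diagonal, hprod]
    obtain ⟨τ, hτ, hcp, -⟩ := outof ⟨D, hDdet⟩ (h ⟨D, hDdet⟩ ⟨s ^ r, by
      show D ^ r = _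
      rw [hD, Matrix.diagonal_pow, Matrix.smul_one_eq_diagonal]
      congr 1; funext j
      rw [Pi.pow_apply, mul_pow, hζr, mul_one]⟩ (fun z hz => hninv
        ⟨a ⟨0, by omega⟩ - (q₀ : ZMod r) * a ⟨0, by omega⟩, fun b => by
          have hall : ∀ j, a j = a ⟨0, by omega⟩ := fun j => by
            have e1 := congrFun (congrFun hz j) j
            have e2 := congrFun (congrFun hz ⟨0, by omega⟩) ⟨0, by omega⟩
            replace e1 : D j j = z := by simpa using e1
            replace e2 : D ⟨0, by omega⟩ ⟨0, by omega⟩ = z := by simpa using e2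
            rw [hD, Matrix.diagonal_apply_eq] at e1 e2
            exact hξ (mul_left_cancel₀ hs (e1.trans e2.symm))
          refine congrArg Finset.card (Finset.filter_congr fun j _ => ?_)
          rw [hall j]
          constructor
          · rintro rfl; ring
          · intro e
            exact mul_left_cancel₀ hq0z (by linear_combination e)⟩))
    replace hcp : (D.map σ).charpoly = (τ • D).charpoly := hcp
    rw [hD, Matrix.diagonal_map (map_zero σ), ← Matrix.diagonal_smul, Matrix.charpoly_diagonal,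
      Matrix.charpoly_diagonal] at hcp
    refine hninv (exponent_invariant hξ (by omega) hs a (q₀ : ZMod r) (σ s / τ) fun b => ?_)
    have h1 := count_eq_of_prod (fun j => σ (s * ξ (a j))) (fun j => τ * (s * ξ (a j))) hcp (σ (s * ξ b))
    simp only [σ.injective.eq_iff] at h1
    rw [h1]
    refine congrArg Finset.card (Finset.filter_congr fun j _ => ?_)
    rw [map_mul, hσζ, div_mul_eq_mul_div, eq_div_iff hτ, mul_comm τ]
  by_cases hn2 : n = 2
  · subst hn2
    obtain rfl : j = 2 := by omega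
    refine iff_of_false ?_ (by rintro ⟨-, rfl, h, -⟩; omega)
    refine diag 1 ζ ![1, -1] one_ne_zero hζ (two_point_not_invariant hr2 hu1 fun h => hq0j (by rw [h, neg_one_sq])) ?_
    rw [Fin.prod_univ_two, one_mul, one_mul, ← ζ.map_add_eq_mul]
    simp
  by_cases hnr : (r = 3 ∨ r = 5) ∧ n = r
  · obtain ⟨hr35, hnr⟩ := hnr
    have hk2 : k = 2 := by
      have hord : orderOf (q₀ : ZMod r) = k := by
        rcases (Nat.dvd_prime hk).mp (orderOf_dvd_of_pow_eq_one (hcard.symm.trans hq1)) with h | h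
        · exact absurd (orderOf_eq_one_iff.mp h) hu1
        · exact h
      have h1 := orderOf_dvd_of_pow_eq_one (ZMod.pow_card_sub_one_eq_one hq0z)
      rw [hord] at h1
      rcases hr35 with rfl | rfl
      · exact (Nat.prime_dvd_prime_iff_eq hk Nat.prime_two).mp h1
      · exact (Nat.prime_dvd_prime_iff_eq hk Nat.prime_two).mp (hk.dvd_of_dvd_pow (show k ∣ 2 ^ 2 from h1))
    subst hk2
    have hq0' : (q₀ : ZMod r) = -1 := by
      have h1 := hcard.symm.trans hq1
      exact (sq_eq_one_iff.mp h1).resolve_left hu1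
    have hne1 : (-1 : ZMod r) ≠ 1 := fun h => hu1 (hq0'.trans h)
    have hsplit : r ^ 2 ∣ Fintype.card F - 1 ↔ r ^ 2 ∣ q₀ + 1 := by
      rw [hqk, show q₀ ^ 2 - 1 = (q₀ + 1) * (q₀ - 1) by rw [← Nat.sq_sub_sq, one_pow]]
      refine ⟨fun h => (Nat.Coprime.pow_left 2 ?_).dvd_of_dvd_mul_right h, fun h => dvd_mul_of_dvd_left h _⟩
      rw [hrprime.coprime_iff_not_dvd, ← ZMod.natCast_eq_zero_iff, Nat.cast_sub (by omega), Nat.cast_one, sub_eq_zero]
      exact hu1
    have hr1 : r ∣ q₀ + 1 := by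
      rw [← ZMod.natCast_eq_zero_iff, Nat.cast_add, Nat.cast_one, hq0', neg_add_cancel]
    have hval : padicValNat r (q₀ + 1) = 1 ↔ ¬ r ^ 2 ∣ q₀ + 1 := by
      rw [padicValNat_dvd_iff_le (by omega)]
      have := one_le_padicValNat_of_dvd (show q₀ + 1 ≠ 0 by omega) hr1
      omega
    rw [hval, ← hsplit]
    simp only [hnr, true_and, hr35]
    subst hnr
    rw [hq0'] at diag
    by_cases hv : n ^ 2 ∣ Fintype.card F - 1
    · refine iff_of_false ?_ (not_not_intro hv)
      obtain ⟨g, hg⟩ := IsCyclic.exists_ofOrder_eq_natCard (α := Fˣ)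
      rw [Nat.card_units, Nat.card_eq_fintype_card] at hg
      have hs := orderOf_pow_orderOf_div (orderOf_pos g).ne' (hg ▸ hv)
      generalize g ^ (orderOf g / n ^ 2) = s at hs
      obtain ⟨w, hw⟩ : ∃ w : F, w = ((s : F) ^ n)⁻¹ := ⟨_, rfl⟩
      have hwn : w ^ n = 1 := by
        rw [hw, inv_pow, ← pow_mul, ← pow_two, ← Units.val_pow_eq_pow_val, ← hs, pow_orderOf_eq_one, Units.val_one, inv_one]
      have hwinj : Function.Injective (AddChar.zmodChar n hwn) := by
        intro a b hab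
        rw [AddChar.zmodChar_apply, AddChar.zmodChar_apply] at hab
        have hw1 : orderOf w = n := by
          refine orderOf_eq_prime hwn fun h1 => ?_
          rw [hw, inv_eq_one, ← Units.val_pow_eq_pow_val, Units.val_eq_one] at h1
          have := Nat.le_of_dvd (NeZero.pos n) (orderOf_dvd_of_pow_eq_one h1)
          rw [hs] at this
          nlinarith [hrprime.two_le]
        exact ZMod.val_injective n (pow_injOn_Iio_orderOf (by rw [hw1]; exact ZMod.val_lt a)
          (by rw [hw1]; exact ZMod.val_lt b) hab)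
      refine diag (s : F) (AddChar.zmodChar n hwn) (Pi.single ⟨0, by omega⟩ 1) s.ne_zero hwinj
        (single_not_invariant (by omega) _ hne1) ?_
      rw [Finset.prod_mul_distrib, Finset.prod_const, Finset.card_univ, Fintype.card_fin,
        Finset.prod_eq_single ⟨0, by omega⟩ (fun j _ hj => by rw [Pi.single_eq_of_ne hj, AddChar.map_zero_eq_one]) (by simp),
        Pi.single_eq_same, AddChar.zmodChar_apply, ZMod.val_one, pow_one, hw, mul_inv_cancel₀ (pow_ne_zero _ s.ne_zero)]
    · refine iff_of_true ?_ hv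
      intro x ⟨c, hx⟩ hx'
      obtain ⟨hx1, a, hca, hsum, hne⟩ := split_data hr2 rfl hrq hv hζ hrF x.det_coe hx hx'
      obtain ⟨π, e, hπ, hπa⟩ := exists_pairing hr35 rfl a hsum hne
      have h2 : (2 : ZMod n) ≠ 0 := fun h => hne1 (by linear_combination -h)
      obtain ⟨h, hh⟩ : ∃ h : ZMod n, e = h + h := ⟨e / 2, by field_simp; ring⟩
      obtain ⟨D, hD⟩ : ∃ D, D = Matrix.diagonal fun j => ζ (a j) := ⟨_, rfl⟩
      have hD1 : D ^ n = 1 := by
        rw [hD, Matrix.diagonal_pow, ← Matrix.diagonal_one]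
        congr 1; funext j
        exact hζr ζ _
      obtain ⟨P₁, hP₁, hxP₁⟩ := conj_core (show 0 < n by omega) hrF hx1 hD1 (by rw [hD, Matrix.charpoly_diagonal, hca])
      obtain ⟨M, hMdef⟩ : ∃ M, M = ζ (-h) • (x : Matrix (Fin n) (Fin n) F) := ⟨_, rfl⟩
      have hM : M ^ n = 1 := by rw [hMdef, _root_.smul_pow, hx1, hζr, one_smul]
      have hMc : M.charpoly = ∏ j, (X - C (ζ (a j - h))) := by
        have hu : IsUnit P₁.det := by rw [hP₁]; exact isUnit_one
        have e1 : M = P₁ * (ζ (-h) • D) * P₁⁻¹ := by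
          rw [hMdef, Matrix.mul_smul, ← hxP₁, Matrix.smul_mul, Matrix.mul_nonsing_inv_cancel_right _ _ hu]
        rw [e1, Matrix.charpoly_mul_comm, ← Matrix.mul_assoc, Matrix.nonsing_inv_mul _ hu, Matrix.one_mul, hD,
          ← Matrix.diagonal_smul, Matrix.charpoly_diagonal]
        refine Finset.prod_congr rfl fun j _ => ?_
        rw [Pi.smul_apply, smul_eq_mul, ← ζ.map_add_eq_mul, neg_add_eq_sub]
      have hinv : M.charpoly.map (iterateFrobenius F p f₀) = M.charpoly := by
        rw [← hσdef, hMc, Polynomial.map_prod, ← Equiv.prod_comp π]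
        refine Finset.prod_congr rfl fun j _ => ?_
        rw [Polynomial.map_sub, map_X, map_C, hσζ, hq0', hπa, hh, show (-1 : ZMod n) * (h + h - a j - h) = a j - h by ring]
      obtain ⟨h₀, P, hP, hMP⟩ := descend F₀ hF₀ hpf (by omega) hrp hM hinv
      refine conj_into_subfield x P hP h₀ (Units.mk0 (ζ h) (hξ0 _ h)) ?_
      rw [Units.val_mk0, Matrix.mul_smul, ← hMP, hMdef, Matrix.smul_mul, smul_smul, ← ζ.map_add_eq_mul, add_neg_cancel,
        ζ.map_zero_eq_one, one_smul]
  · refine iff_of_false ?_ fun hh => hnr ⟨hh.2.1 ▸ hh.2.2.1, hh.2.1.symm⟩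
    obtain ⟨m, rfl⟩ : ∃ m, n = 3 + m := ⟨n - 3, by omega⟩
    refine diag 1 ζ (wvec r m) one_ne_zero hζ (wvec_not_invariant hr2 ⟨?_, ?_, ?_⟩ hq0z hu1) ?_
    · intro hk h3; exact hnr ⟨Or.inl h3, by omega⟩
    · intro hk h3; exact hgap ⟨by omega, h3⟩
    · intro hk h5; exact hnr ⟨Or.inr h5, by omega⟩
    · simp only [one_mul]
      have h1 : ∀ t : Finset (Fin (3 + m)), ∏ j ∈ t, ζ (wvec r m j) = ζ (∑ j ∈ t, wvec r m j) := by
        intro t
        induction t using Finset.induction_on with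
        | empty => simp
        | insert j t hj ih => rw [Finset.sum_insert hj, Finset.prod_insert hj, ζ.map_add_eq_mul, ih]
      rw [h1, wvec_sum, ζ.map_zero_eq_one]

end Cfsg.Agent.S5965
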