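import Cfsg.Statements.S5966
import Cfsg.Agent.SubElusive.Cases
import Cfsg.Agent.SubElusive.Subfield

set_option autoImplicit false
open scoped MatrixGroups
open Cfsg

namespace Cfsg.Agent.S5966

open scoped Matrix

/-- A matrix commuting with a shift all of whose chains have length two has square determinant. -/
theorem isSquare_det_commute {F : Type*} [Field F] {n m : ℕ} (s : (Σ _ : Fin m, Fin 2) ≃ Fin n) (C : Matrix (Fin n) (Fin n) F)
    (h : CfsgLib.SubElusive.shiftOn F s * C = C * CfsgLib.SubElusive.shiftOn F s) : IsSquare C.det := by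
  classical
  let u : Fin m ⊕ Fin m ≃ Fin n :=
    (({ toFun := Sum.elim (fun i => ⟨i, 0⟩) (fun i => ⟨i, 1⟩)
        invFun := fun x => if x.2 = 0 then Sum.inl x.1 else Sum.inr x.1
        left_inv := by rintro (i | i) <;> simp
        right_inv := by rintro ⟨i, b⟩; fin_cases b <;> simp } : Fin m ⊕ Fin m ≃ Σ _ : Fin m, Fin 2)).trans s
  obtain ⟨D, hD⟩ : ∃ D, D = C.submatrix u u := ⟨_, rfl⟩
  have hB : (CfsgLib.SubElusive.shiftOn F s).submatrix u u = Matrix.fromBlocks 0 0 1 0 := by
    ext (i | i) (j | j) <;> simp [CfsgLib.SubElusive.shiftOn, u, Matrix.one_apply]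
  have h' := congrArg (fun M => M.submatrix u u) h
  simp only [← Matrix.submatrix_mul_equiv _ _ u u u, ← hD, hB] at h'
  rw [← Matrix.fromBlocks_toBlocks D, Matrix.fromBlocks_multiply, Matrix.fromBlocks_multiply] at h'
  simp only [Matrix.zero_mul, Matrix.one_mul, Matrix.mul_zero, Matrix.mul_one, add_zero, zero_add, Matrix.fromBlocks_inj] at h'
  obtain ⟨h11, -, h21, -⟩ := h'
  refine ⟨(D.toBlocks₁₁).det, ?_⟩
  rw [← Matrix.det_submatrix_equiv_self u, ← hD]
  conv_lhs => rw [← Matrix.fromBlocks_toBlocks D]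
  rw [← h11, Matrix.det_fromBlocks_zero₁₂, ← h21]

/-- Elements of order 3 of PSL_n(q) in characteristic 3 and subfield subgroups. Here `T = PSL_n(F)` for a field `F` with `q` elements, `q` a power of 3 (`n ≥ 2`, `(n, q) ≠ (2, 2), (2, 3)`), `F₀` is the subfield with `q₀` elements where `q = q₀^k` for a prime `k`, and `H` is the subgroup of matrices of determinant 1 lying in the subfield group of `F₀` (invertible matrices over `F₀` times scalars) — a maximal subgroup of type GL_n(q₀) (the case `n = 2`, `q₀ = 2` is excluded); Ω is the set of `T`-conjugates of `H` (cosets of `H`), so an element of `T` of prime order `r` (a matrix `x` of determinant 1 with `x^r` scalar, `x` not scalar) fixes a point of Ω when some conjugate of `x` by a matrix of determinant 1 lies in `H`. Suppose 3 divides the index of `H`. Then every element of `T` of order 3 is conjugate in `T` into `H` if and only if `n` is odd, or `n` is even and `k > 2`. -/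
theorem result {F : Type*} [Field F] [Fintype F] [CharP F 3] {q : ℕ} (hq : Fintype.card F = q)
    (n : ℕ) (hn : 2 ≤ n) (hT : (n, q) ≠ (2, 3))
    (F₀ : Subfield F) (k q₀ : ℕ) (hk : k.Prime) (hF₀ : Nat.card ↥F₀ = q₀) (hqk : q = q₀ ^ k) (hC5 : ¬ (n = 2 ∧ q₀ = 2)) (hΩ : 3 ∣ ((Cfsg.Geo.subfieldSubgroup F₀ 1).comap (Matrix.SpecialLinearGroup.toGL : Matrix.SpecialLinearGroup (Fin n) F →* GL (Fin n) F)).index) :
    (∀ x : Matrix.SpecialLinearGroup (Fin n) F,
      (∃ z : F, ((x ^ 3 : Matrix.SpecialLinearGroup (Fin n) F) : Matrix (Fin n) (Fin n) F) = z • (1 : Matrix (Fin n) (Fin n) F)) →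
      (∀ z : F, (x : Matrix (Fin n) (Fin n) F) ≠ z • (1 : Matrix (Fin n) (Fin n) F)) →
      ∃ P : Matrix.SpecialLinearGroup (Fin n) F, P⁻¹ * x * P ∈ ((Cfsg.Geo.subfieldSubgroup F₀ 1).comap (Matrix.SpecialLinearGroup.toGL : Matrix.SpecialLinearGroup (Fin n) F →* GL (Fin n) F))) ↔
    (Odd n ∨ (Even n ∧ 2 < k)) := by
  classical
  subst hq
  haveI : Nonempty (Fin n) := ⟨⟨0, by omega⟩⟩
  haveI : Fact (Nat.Prime 3) := ⟨Nat.prime_three⟩
  haveI := Fintype.ofFinite F₀
  rw [Nat.card_eq_fintype_card] at hF₀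
  simp only [Matrix.SpecialLinearGroup.coe_pow]
  obtain ⟨f, -, hf⟩ := FiniteField.card F 3
  have hodd : Odd (Fintype.card F) := by rw [hf]; exact (by decide : Odd 3).pow
  obtain ⟨j, hj⟩ : Odd q₀ := (Nat.odd_pow_iff hk.ne_zero).mp (hqk ▸ hodd)
  have hp2 : ringChar F ≠ 2 := fun h => by
      have := FiniteField.even_card_iff_char_two.mp h
      have := Nat.odd_iff.mp hodd
      omega
  have h1 : ∀ a : F₀, a ≠ 0 → (a : F) ^ (2 * j) = 1 := fun a ha => by
    have h1 := congrArg (F₀.subtype) (FiniteField.pow_card_sub_one_eq_one a ha)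
    rw [map_pow, map_one, hF₀, hj, Nat.add_sub_cancel] at h1
    exact h1
  constructor
  · intro h
    by_contra hne
    push Not at hne
    have hn2 : Even n := Nat.not_odd_iff_even.mp hne.1
    have hk2 : k = 2 := le_antisymm (hne.2 hn2) hk.two_le
    subst hk2
    obtain ⟨m, hm⟩ := hn2
    have hsq : ∀ a : F₀, IsSquare (a : F) := by
      intro a
      by_cases ha : a = 0
      · subst ha; exact ⟨0, by simp⟩
      rw [FiniteField.isSquare_iff hp2 (by simpa using ha)]
      have e : Fintype.card F / 2 = 2 * j * (j + 1) := by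
        rw [hqk, hj, show (2 * j + 1) ^ 2 = 2 * (2 * j * (j + 1)) + 1 by ring]; omega
      rw [e, pow_mul, h1 a ha, one_pow]
    have hneg : IsSquare (-1 : F) := by simpa using hsq (-1)
    let s : (Σ _ : Fin m, Fin 2) ≃ Fin n := Fintype.equivFinOfCardEq (by simp; omega)
    obtain ⟨B, hB⟩ : ∃ B, B = CfsgLib.SubElusive.shiftOn F s := ⟨_, rfl⟩
    have hrk : ∀ i, (B ^ i).rank = m * (2 - i) := fun i => by
      rw [hB, CfsgLib.SubElusive.rank_shiftOn]; simp
    have hB2 : B ^ 2 = 0 := by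
      have := hrk 2
      refine Matrix.ext_of_mulVec_single fun i => ?_
      rw [Matrix.zero_mulVec]
      have h1 : LinearMap.range (B ^ 2).mulVecLin = ⊥ := Submodule.finrank_eq_zero.1 (this.trans (by simp))
      exact (Submodule.mem_bot F).1 (h1 ▸ LinearMap.mem_range_self (B ^ 2).mulVecLin (Pi.single i 1))
    obtain ⟨ν, hν⟩ := FiniteField.exists_nonsquare (F := F) hp2
    have hν0 : ν ≠ 0 := fun h0 => hν (h0 ▸ ⟨0, by simp⟩)
    let i0 : Fin n := ⟨0, by omega⟩
    obtain ⟨g, hg⟩ : ∃ g, g = Matrix.diagonal (Function.update (1 : Fin n → F) i0 ν) := ⟨_, rfl⟩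
    have hgdet : g.det = ν := by rw [hg, Matrix.det_diagonal, Finset.prod_update_of_mem (Finset.mem_univ _)]; simp
    have hgu : IsUnit g.det := by rw [hgdet]; exact hν0.isUnit
    have h13 : (1 + B) ^ 3 = 1 := by
      rw [add_pow_char_of_commute _ (Commute.one_left B), one_pow, pow_succ, hB2, Matrix.zero_mul, add_zero]
    have hdet1 : (g * (1 + B) * g⁻¹).det = 1 := by
      rw [Matrix.det_mul, Matrix.det_mul, mul_right_comm, ← Matrix.det_mul, Matrix.mul_nonsing_inv _ hgu, Matrix.det_one, one_mul]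
      apply frobenius_inj F 3
      rw [frobenius_def, frobenius_def, ← Matrix.det_pow, h13, Matrix.det_one, one_pow]
    have hcube : (g * (1 + B) * g⁻¹) ^ 3 = 1 := by
      rw [pow_three, show g * (1 + B) * g⁻¹ * (g * (1 + B) * g⁻¹ * (g * (1 + B) * g⁻¹)) =
        g * ((1 + B) * (g⁻¹ * g) * (1 + B) * (g⁻¹ * g) * (1 + B)) * g⁻¹ by simp only [Matrix.mul_assoc],
        Matrix.nonsing_inv_mul _ hgu, Matrix.mul_one, Matrix.mul_one, Matrix.mul_assoc (1 + B), ← pow_three, h13, Matrix.mul_one,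
        Matrix.mul_nonsing_inv _ hgu]
    obtain ⟨x, hx⟩ : ∃ x : Matrix.SpecialLinearGroup (Fin n) F, x = ⟨g * (1 + B) * g⁻¹, hdet1⟩ := ⟨_, rfl⟩
    have hx' : (x : Matrix (Fin n) (Fin n) F) = g * (1 + B) * g⁻¹ := by rw [hx]
    obtain ⟨P, hP⟩ := h x ⟨1, by rw [hx', one_smul, hcube]⟩ fun z hz => by
      rw [hx'] at hz
      have e : 1 + B = z • (1 : Matrix (Fin n) (Fin n) F) := by
        have := congrArg (fun A => g⁻¹ * A * g) hz
        simp only [Matrix.mul_smul, Matrix.smul_mul, Matrix.mul_one, Matrix.nonsing_inv_mul _ hgu, ← Matrix.mul_assoc,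
          Matrix.one_mul] at this
        rwa [Matrix.mul_assoc, Matrix.nonsing_inv_mul _ hgu, Matrix.mul_one] at this
      have hz1 : z = 1 := by
        apply frobenius_inj F 3
        rw [frobenius_def, frobenius_def, one_pow]
        rw [e, _root_.smul_pow, one_pow] at h13
        exact smul_left_injective F (one_ne_zero : (1 : Matrix (Fin n) (Fin n) F) ≠ 0) (h13.trans (one_smul F _).symm)
      rw [hz1, one_smul, add_eq_left] at e
      have := hrk 1
      rw [pow_one, e, Matrix.rank_zero] at this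
      omega
    obtain ⟨h₀, l, hl⟩ := CfsgLib.SubElusive.of_mem_subfield _ hP
    obtain ⟨T, hT⟩ : ∃ T, T = ((P⁻¹ : Matrix.SpecialLinearGroup (Fin n) F) : Matrix (Fin n) (Fin n) F) * g := ⟨_, rfl⟩
    have hTu : IsUnit T.det := by
      rw [hT, Matrix.det_mul, hgdet, Matrix.SpecialLinearGroup.det_coe, one_mul]; exact hν0.isUnit
    obtain ⟨H, hH⟩ : ∃ H, H = (h₀ : Matrix (Fin n) (Fin n) F₀).map (F₀.subtype : F₀ →+* F) := ⟨_, rfl⟩
    have hTB : T * (1 + B) = (l : F) • H * T := by
      rw [hH, ← hl]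
      obtain ⟨Pi, hPi⟩ : ∃ Pi, Pi = ((P⁻¹ : Matrix.SpecialLinearGroup (Fin n) F) : Matrix (Fin n) (Fin n) F) := ⟨_, rfl⟩
      have hPP : (P : Matrix (Fin n) (Fin n) F) * Pi = 1 := by
        rw [hPi, ← Matrix.SpecialLinearGroup.coe_mul, mul_inv_cancel, Matrix.SpecialLinearGroup.coe_one]
      show _ = ((P⁻¹ * x * P : Matrix.SpecialLinearGroup (Fin n) F) : Matrix (Fin n) (Fin n) F) * T
      rw [Matrix.SpecialLinearGroup.coe_mul, Matrix.SpecialLinearGroup.coe_mul, hT, ← hPi, hx']
      calc Pi * g * (1 + B) = Pi * (g * (1 + B) * g⁻¹) * g := by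
            simp only [Matrix.mul_assoc, Matrix.nonsing_inv_mul _ hgu, Matrix.mul_one]
        _ = _ := by
            rw [Matrix.mul_assoc (Pi * (g * (1 + B) * g⁻¹)) _ (Pi * g), ← Matrix.mul_assoc _ Pi g, hPP, Matrix.one_mul]
    obtain ⟨l₀, hl₀⟩ : ∃ l₀ : F₀, (l₀ : F) = l := by
      have e : ((l : F) • H) ^ 3 = 1 := by
        have e1 : T * (1 + B) * T⁻¹ = (l : F) • H := by rw [hTB, Matrix.mul_nonsing_inv_cancel_right _ _ hTu]
        rw [← e1, pow_three, show T * (1 + B) * T⁻¹ * (T * (1 + B) * T⁻¹ * (T * (1 + B) * T⁻¹)) =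
          T * ((1 + B) * (T⁻¹ * T) * (1 + B) * (T⁻¹ * T) * (1 + B)) * T⁻¹ by simp only [Matrix.mul_assoc],
          Matrix.nonsing_inv_mul _ hTu, Matrix.mul_one, Matrix.mul_one, Matrix.mul_assoc (1 + B), ← pow_three, h13,
          Matrix.mul_one, Matrix.mul_nonsing_inv _ hTu]
      have e0 := congrFun (congrFun e i0) i0
      rw [_root_.smul_pow, Matrix.smul_apply, Matrix.one_apply_eq, smul_eq_mul, hH,
        show ((h₀ : Matrix (Fin n) (Fin n) F₀).map (F₀.subtype : F₀ →+* F)) ^ 3 =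
          ((h₀ : Matrix (Fin n) (Fin n) F₀) ^ 3).map (F₀.subtype : F₀ →+* F) from
          (map_pow (RingHom.mapMatrix (F₀.subtype : F₀ →+* F)) _ 3).symm, Matrix.map_apply] at e0
      haveI : CharP F₀ 3 := (RingHom.charP_iff (F₀.subtype : F₀ →+* F) Subtype.val_injective 3).mpr inferInstance
      obtain ⟨a, ha⟩ := Finite.injective_iff_surjective.mp (frobenius_inj F₀ 3) ((((h₀ : Matrix (Fin n) (Fin n) F₀) ^ 3) i0 i0)⁻¹)
      refine ⟨a, frobenius_inj F 3 ?_⟩
      rw [frobenius_def] at ha ⊢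
      rw [frobenius_def]
      have ha' := congrArg (F₀.subtype : F₀ →+* F) ha
      rw [map_pow, map_inv₀] at ha'
      exact ha'.trans (eq_inv_of_mul_eq_one_left e0).symm
    obtain ⟨N, hN⟩ : ∃ N : Matrix (Fin n) (Fin n) F₀, N = l₀ • (h₀ : Matrix (Fin n) (Fin n) F₀) - 1 := ⟨_, rfl⟩
    have hNmap : RingHom.mapMatrix (F₀.subtype : F₀ →+* F) N = (l : F) • H - 1 := by
      rw [hN, map_sub, map_one, RingHom.mapMatrix_apply, hH, ← hl₀]
      congr 1
    have hNT : RingHom.mapMatrix (F₀.subtype : F₀ →+* F) N * T = T * B := by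
      rw [hNmap, Matrix.sub_mul, ← hTB, Matrix.mul_add, Matrix.mul_one, Matrix.one_mul, add_sub_cancel_left]
    have hN2 : N ^ 2 = 0 := by
      apply Matrix.map_injective (F₀.subtype : F₀ →+* F).injective
      show RingHom.mapMatrix (F₀.subtype : F₀ →+* F) (N ^ 2) = RingHom.mapMatrix (F₀.subtype : F₀ →+* F) 0
      rw [map_zero, map_pow]
      have : RingHom.mapMatrix (F₀.subtype : F₀ →+* F) N ^ 2 * T = 0 := by
        rw [pow_two, Matrix.mul_assoc, hNT, ← Matrix.mul_assoc, hNT, Matrix.mul_assoc, ← pow_two, hB2, Matrix.mul_zero]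
      rw [← Matrix.mul_nonsing_inv_cancel_right T (RingHom.mapMatrix (F₀.subtype : F₀ →+* F) N ^ 2) hTu, this, Matrix.zero_mul]
    obtain ⟨t, kc, e, Q₀, hkc, hQ₀, hNQ⟩ := CfsgLib.SubElusive.exists_shift N ⟨2, hN2⟩
    obtain ⟨Q, hQ⟩ : ∃ Q, Q = RingHom.mapMatrix (F₀.subtype : F₀ →+* F) Q₀ := ⟨_, rfl⟩
    have hQdet : Q.det = (F₀.subtype : F₀ →+* F) Q₀.det := by rw [hQ, RingHom.map_det]
    have hQu : IsUnit Q.det := hQdet ▸ hQ₀.map _
    have hNQ' : RingHom.mapMatrix (F₀.subtype : F₀ →+* F) N * Q = Q * CfsgLib.SubElusive.shiftOn F e := by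
      rw [hQ, ← map_mul, hNQ, map_mul, RingHom.mapMatrix_apply (F₀.subtype : F₀ →+* F) (CfsgLib.SubElusive.shiftOn F₀ e),
        CfsgLib.SubElusive.shiftOn_map]
    obtain ⟨B', hB'⟩ : ∃ B', B' = CfsgLib.SubElusive.shiftOn F e := ⟨_, rfl⟩
    rw [← hB'] at hNQ'
    have hBB : B * (T⁻¹ * Q) = T⁻¹ * Q * B' := by
      rw [Matrix.mul_assoc T⁻¹, ← hNQ', ← Matrix.mul_assoc, ← Matrix.mul_assoc]
      congr 1
      calc B * T⁻¹ = T⁻¹ * (T * B) * T⁻¹ := by rw [Matrix.nonsing_inv_mul_cancel_left _ _ hTu]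
        _ = _ := by rw [← hNT, Matrix.mul_assoc, Matrix.mul_nonsing_inv_cancel_right _ _ hTu]
    have hTQ : IsUnit (T⁻¹ * Q).det := by rw [Matrix.det_mul]; exact (Matrix.isUnit_nonsing_inv_det _ hTu).mul hQu
    have hsame : ∀ i, (B' ^ i).rank = (B ^ i).rank := by
      intro i
      have hi : B ^ i * (T⁻¹ * Q) = T⁻¹ * Q * B' ^ i := by
        have hsc : SemiconjBy (T⁻¹ * Q) B' B := hBB.symm
        exact ((hsc.pow_right i).eq).symm
      calc (B' ^ i).rank = (T⁻¹ * Q * B' ^ i).rank := (Matrix.rank_mul_eq_right_of_isUnit_det _ _ hTQ).symm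
        _ = (B ^ i).rank := by rw [← hi]; exact Matrix.rank_mul_eq_left_of_isUnit_det _ _ hTQ
    have hle : ∀ i, kc i ≤ 2 := fun i => CfsgLib.SubElusive.le_of_shiftOn_pow (F := F) hkc e (by
      have h0 : Q * B' ^ 2 = 0 := by
        rw [pow_two, ← Matrix.mul_assoc, ← hNQ', Matrix.mul_assoc, ← hNQ', ← Matrix.mul_assoc, ← map_mul, ← pow_two, hN2,
          map_zero, Matrix.zero_mul]
      rw [← hB', ← Matrix.nonsing_inv_mul_cancel_left Q (B' ^ 2) hQu, h0, Matrix.mul_zero]) i
    have r0 : ∑ i, kc i = n := by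
      have := Fintype.card_congr e
      rw [Fintype.card_sigma, Fintype.card_fin] at this
      simpa using this
    have r1 : ∑ i, (kc i - 1) = m := by
      have := hsame 1
      rw [hB', CfsgLib.SubElusive.rank_shiftOn, hrk] at this
      simpa using this
    have r2 : ∑ i, (kc i - 1) + t = ∑ i, kc i := by
      rw [show ∑ i, (kc i - 1) + t = ∑ i, (kc i - 1) + ∑ _i : Fin t, 1 by simp, ← Finset.sum_add_distrib]
      exact Finset.sum_congr rfl fun i _ => Nat.sub_add_cancel (hkc i)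
    have htm : t = m := by omega
    subst htm
    have hconst : kc = fun _ => 2 := by
      funext i
      refine (Finset.sum_eq_sum_iff_of_le (fun i _ => hle i)).mp ?_ i (Finset.mem_univ i)
      simp; omega
    subst hconst
    obtain ⟨π, hπ⟩ : ∃ π : Equiv.Perm (Fin n), π = s.symm.trans e := ⟨_, rfl⟩
    have hperm : B'.submatrix π π = B := by
      ext a b
      simp [hB', hB, hπ, CfsgLib.SubElusive.shiftOn]
    obtain ⟨D, hD⟩ : ∃ D, D = (T⁻¹ * Q).submatrix id π := ⟨_, rfl⟩
    have hcomm : B * D = D * B := by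
      have := congrArg (fun M => M.submatrix id π) hBB
      rw [Matrix.submatrix_mul B _ id id π Function.bijective_id, Matrix.submatrix_id_id, ← hD,
        Matrix.submatrix_mul (T⁻¹ * Q) B' id π π π.bijective, ← hD, hperm] at this
      exact this
    obtain ⟨w, hw⟩ := isSquare_det_commute s D (by rw [← hB]; exact hcomm)
    obtain ⟨v, hv⟩ := hsq Q₀.det
    have hdT : T.det = ν := by rw [hT, Matrix.det_mul, hgdet, Matrix.SpecialLinearGroup.det_coe, one_mul]
    have hsgn : IsSquare (((Equiv.Perm.sign π : ℤˣ) : ℤ) : F) := by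
      rcases Int.units_eq_one_or (Equiv.Perm.sign π) with he | he <;> rw [he]
      · simp
      · simpa using hneg
    obtain ⟨u, hu⟩ := hsgn
    have hT' : (T⁻¹).det = ν⁻¹ := by rw [Matrix.det_nonsing_inv, hdT, Ring.inverse_eq_inv']
    have hv0 : v ≠ 0 := fun h0 => hQu.ne_zero (by rw [hQdet]; exact hv.trans (by rw [h0, mul_zero]))
    have hu0 : u ≠ 0 := fun h0 => by
      rw [h0, mul_zero] at hu
      rcases Int.units_eq_one_or (Equiv.Perm.sign π) with he | he <;> rw [he] at hu <;> simp at hu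
    apply hν
    have key : w * w = u * u * (ν⁻¹ * (v * v)) := by
      rw [← hw, hD, Matrix.det_permute', Matrix.det_mul, hT', hQdet, ← hu,
        show (F₀.subtype : F₀ →+* F) Q₀.det = v * v from hv]
    have hw0 : w ≠ 0 := by
      intro h0
      rw [h0, mul_zero] at key
      simp [hu0, hv0, hν0] at key
    refine ⟨u * v / w, ?_⟩
    field_simp at key ⊢
    linear_combination key
  · intro hR x ⟨c, hx⟩ hx'
    have hdetx : (x : Matrix (Fin n) (Fin n) F).det = 1 := x.det_coe
    have hc0 := CfsgLib.SubElusive.scalar_data (r := 3) hdetx (by omega) hx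
    obtain ⟨s, hs⟩ := Finite.injective_iff_surjective.mp (frobenius_inj F 3) c
    rw [frobenius_def] at hs
    have hs0 : s ≠ 0 := fun h0 => hc0 (by rw [← hs, h0, zero_pow (by norm_num)])
    obtain ⟨A, hA⟩ : ∃ A, A = s⁻¹ • (x : Matrix (Fin n) (Fin n) F) - 1 := ⟨_, rfl⟩
    have hA3 : A ^ 3 = 0 := by
      rw [hA, sub_pow_char_of_commute _ (Commute.one_right _), _root_.smul_pow, hx, smul_smul, ← hs, ← mul_pow,
        inv_mul_cancel₀ hs0, one_pow, one_smul, one_pow, sub_self]
    have hxA : (x : Matrix (Fin n) (Fin n) F) = s • (1 + A) := by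
      rw [hA, add_sub_cancel, smul_smul, mul_inv_cancel₀ hs0, one_smul]
    obtain ⟨t, kc, e, P, hkc, hP, hAP⟩ := CfsgLib.SubElusive.exists_shift A ⟨3, hA3⟩
    obtain ⟨B, hB⟩ : ∃ B, B = CfsgLib.SubElusive.shiftOn F e := ⟨_, rfl⟩
    rw [← hB] at hAP
    have hB3 : CfsgLib.SubElusive.shiftOn F e ^ 3 = 0 := by
      rw [← hB]
      have h3 : A ^ 3 * P = P * B ^ 3 := (SemiconjBy.pow_right (show SemiconjBy P B A from hAP.symm) 3).eq.symm
      rw [← Matrix.nonsing_inv_mul_cancel_left P (B ^ 3) hP, ← h3, hA3, Matrix.zero_mul, Matrix.mul_zero]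
    have hle : ∀ i, kc i ≤ 3 := fun i => CfsgLib.SubElusive.le_of_shiftOn_pow hkc e hB3 i
    have hfin : ∀ (Q₀ : GL (Fin n) F₀) (i0 : Fin t) (δ : F),
        P.det * δ ^ kc i0 * ((F₀.subtype : F₀ →+* F) (Q₀ : Matrix (Fin n) (Fin n) F₀).det) = 1 →
        ∃ P : Matrix.SpecialLinearGroup (Fin n) F, P⁻¹ * x * P ∈ ((Cfsg.Geo.subfieldSubgroup F₀ 1).comap
          (Matrix.SpecialLinearGroup.toGL : Matrix.SpecialLinearGroup (Fin n) F →* GL (Fin n) F)) := by
      intro Q₀ i0 δ hdet
      obtain ⟨C, hC, hCB⟩ := CfsgLib.SubElusive.scale_chain (F := F) e i0 δ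
      rw [← hB] at hCB
      have hu : IsUnit (1 + CfsgLib.SubElusive.shiftOn F₀ e) := by
        refine IsNilpotent.isUnit_one_add ⟨3, ?_⟩
        apply (Matrix.map_injective (F₀.subtype : F₀ →+* F).injective)
        show ((RingHom.mapMatrix (F₀.subtype : F₀ →+* F)) ((CfsgLib.SubElusive.shiftOn F₀ e) ^ 3)) = _
        rw [map_pow, RingHom.mapMatrix_apply, CfsgLib.SubElusive.shiftOn_map, hB3]
        simp
      obtain ⟨Q, hQ⟩ : ∃ Q, Q = RingHom.mapMatrix (F₀.subtype : F₀ →+* F) (Q₀ : Matrix (Fin n) (Fin n) F₀) := ⟨_, rfl⟩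
      refine CfsgLib.SubElusive.conj_into_subfield x (P * C * Q) ?_ (Q₀⁻¹ * hu.unit * Q₀) (Units.mk0 s hs0) ?_
      · rw [Matrix.det_mul, Matrix.det_mul, hC, hQ, ← RingHom.map_det, hdet]
      · rw [Units.val_mul, Units.val_mul, IsUnit.unit_spec, Units.val_mk0]
        show _ = _ * (s • RingHom.mapMatrix (F₀.subtype : F₀ →+* F) _)
        rw [map_mul, map_mul, map_add, map_one, RingHom.mapMatrix_apply (F₀.subtype : F₀ →+* F) (CfsgLib.SubElusive.shiftOn F₀ e),
          CfsgLib.SubElusive.shiftOn_map, ← hB, ← hQ, hxA, Matrix.smul_mul, Matrix.mul_smul]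
        congr 1
        have e1 : Q * RingHom.mapMatrix (F₀.subtype : F₀ →+* F) ((Q₀⁻¹ : GL (Fin n) F₀) : Matrix (Fin n) (Fin n) F₀) = 1 := by
          rw [hQ, ← map_mul, ← Units.val_mul, mul_inv_cancel, Units.val_one, map_one]
        have e2 : (1 + A) * (P * C) = P * C * (1 + B) := by
          rw [Matrix.add_mul, Matrix.mul_add, Matrix.one_mul, Matrix.mul_one, ← Matrix.mul_assoc A, hAP, Matrix.mul_assoc P B,
            ← hCB, Matrix.mul_assoc P C]
        calc (1 + A) * (P * C * Q) = (1 + A) * (P * C) * Q := by simp only [Matrix.mul_assoc]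
          _ = P * C * ((1 + B) * Q) := by rw [e2, Matrix.mul_assoc]
          _ = P * C * (Q * RingHom.mapMatrix (F₀.subtype : F₀ →+* F) ((Q₀⁻¹ : GL (Fin n) F₀) : Matrix (Fin n) (Fin n) F₀) *
              ((1 + B) * Q)) := by rw [e1, Matrix.one_mul]
          _ = _ := by simp only [Matrix.mul_assoc]
    by_cases hoddpart : ∃ i, Odd (kc i)
    · obtain ⟨i0, hi0⟩ := hoddpart
      obtain ⟨δ, hδ⟩ : ∃ δ : F, δ ^ kc i0 = P.det⁻¹ := by
        have := hle i0
        obtain ⟨u, hu⟩ := hi0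
        rcases (show kc i0 = 1 ∨ kc i0 = 3 by omega) with h | h
        · exact ⟨_, by rw [h, pow_one]⟩
        · obtain ⟨w, hw⟩ := Finite.injective_iff_surjective.mp (frobenius_inj F 3) P.det⁻¹
          exact ⟨w, by rw [h, ← frobenius_def, hw]⟩
      exact hfin 1 i0 δ (by rw [hδ, mul_inv_cancel₀ hP.ne_zero, Units.val_one, Matrix.det_one, map_one, one_mul])
    · push Not at hoddpart
      have heven : ∀ i, kc i = 2 := fun i => by
        have h2 := Nat.even_iff.mp (Nat.not_odd_iff_even.mp (hoddpart i))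
        have := hle i
        have := hkc i
        omega
      have hn2 : Even n := by
        have := Fintype.card_congr e
        rw [Fintype.card_sigma, Fintype.card_fin] at this
        simp [heven] at this
        exact ⟨t, by omega⟩
      have hkodd : Odd k := by
        rcases hR with h | ⟨-, h⟩
        · exact absurd hn2 (Nat.not_even_iff_odd.mpr h)
        · exact hk.odd_of_ne_two (by omega)
      have ht : 0 < t := by
        rcases Nat.eq_zero_or_pos t with rfl | ht
        · exact (e.symm ⟨0, by omega⟩).1.elim0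
        · exact ht
      let i0 : Fin t := ⟨0, ht⟩
      by_cases hsqd : IsSquare P.det⁻¹
      · obtain ⟨w, hw⟩ := hsqd
        exact hfin 1 i0 w (by rw [heven, pow_two, ← hw, mul_inv_cancel₀ hP.ne_zero, Units.val_one, Matrix.det_one, map_one, one_mul])
      · haveI : CharP F₀ 3 := (RingHom.charP_iff (F₀.subtype : F₀ →+* F) Subtype.val_injective 3).mpr inferInstance
        have hp20 : ringChar F₀ ≠ 2 := by rw [ringChar.eq F₀ 3]; decide
        obtain ⟨ν, hν⟩ := FiniteField.exists_nonsquare (F := F₀) hp20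
        have hν0 : ν ≠ 0 := fun h0 => hν (h0 ▸ ⟨0, by simp⟩)
        have e1 : (ν : F) ^ j = -1 := by
          have := (FiniteField.pow_dichotomy hp20 hν0)
          rw [hF₀, hj, show (2 * j + 1) / 2 = j by omega] at this
          rcases this with h | h
          · exfalso
            apply hν
            rw [FiniteField.isSquare_iff hp20 hν0, hF₀, hj, show (2 * j + 1) / 2 = j by omega, h]
          · have := congrArg (F₀.subtype : F₀ →+* F) h
            simpa using this
        have hνF : ¬ IsSquare (ν : F) := by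
          rw [FiniteField.isSquare_iff hp2 (by simpa using hν0)]
          obtain ⟨O, hO⟩ : q₀ - 1 ∣ q₀ ^ k - 1 := by simpa using Nat.sub_dvd_pow_sub_pow q₀ 1 k
          have hOodd : Odd O := by
            have h2 : 2 ≤ q₀ := by rw [← hF₀]; exact Fintype.one_lt_card
            have hOe : O = ∑ i ∈ Finset.range k, q₀ ^ i := by
              apply Nat.eq_of_mul_eq_mul_left (show 0 < q₀ - 1 by omega)
              rw [← hO, mul_comm, geom_sum_mul_of_one_le (by omega) k]
            rw [hOe, Finset.odd_sum_iff_odd_card_odd, Finset.filter_true_of_mem (fun i _ => (show Odd q₀ from ⟨j, hj⟩).pow), Finset.card_range]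
            exact hkodd
          have hdiv : Fintype.card F / 2 = j * O := by
            have h3 : q₀ ^ k - 1 = 2 * (j * O) := by rw [hO, hj, Nat.add_sub_cancel, mul_assoc]
            have h4 : 1 ≤ q₀ ^ k := Nat.one_le_pow _ _ (by omega)
            rw [hqk]; omega
          rw [hdiv, pow_mul, e1, hOodd.neg_one_pow]
          intro h
          exact Ring.neg_one_ne_one_of_char_ne_two hp2 h
        obtain ⟨w, hw⟩ : IsSquare (P.det⁻¹ * (ν : F)⁻¹) := by
          have hν' : (ν : F) ≠ 0 := by simpa using hν0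
          rw [FiniteField.isSquare_iff hp2 (by simp [hP.ne_zero, hν'])]
          rw [FiniteField.isSquare_iff hp2 (inv_ne_zero hP.ne_zero)] at hsqd
          rw [FiniteField.isSquare_iff hp2 hν'] at hνF
          rw [mul_pow, inv_pow (ν : F), (FiniteField.pow_dichotomy hp2 (inv_ne_zero hP.ne_zero)).resolve_left hsqd,
            (FiniteField.pow_dichotomy hp2 hν').resolve_left hνF]
          simp
        let z : Fin n := ⟨0, by omega⟩
        obtain ⟨Q₀, hQ₀⟩ : ∃ Q₀ : GL (Fin n) F₀, (Q₀ : Matrix (Fin n) (Fin n) F₀).det = ν := by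
          have hd : (Matrix.diagonal (Function.update (1 : Fin n → F₀) z ν)).det = ν := by
            rw [Matrix.det_diagonal, Finset.prod_update_of_mem (Finset.mem_univ _)]; simp
          exact ⟨Matrix.GeneralLinearGroup.mkOfDetNeZero _ (hd.trans_ne hν0), hd⟩
        refine hfin Q₀ i0 w ?_
        have hν' : (ν : F) ≠ 0 := by simpa using hν0
        rw [hQ₀, heven, pow_two, ← hw]
        show P.det * (P.det⁻¹ * (ν : F)⁻¹) * (ν : F) = 1
        field_simp
        rw [div_self hP.ne_zero]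

end Cfsg.Agent.S5966
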