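import Cfsg.Statements.S5968
import Cfsg.Agent.SympType.Basic

set_option autoImplicit false
open scoped MatrixGroups
open Cfsg

namespace Cfsg.Agent.S5968

open CfsgLib.SympType

/-- Derangements of odd prime order of PSL_n(q) on the cosets of a symplectic-type subgroup. Here `T = PSL_n(F)` for a field `F` with `q` elements, `n ≥ 4` even, `f` is a nondegenerate alternating form on `F^n`, and `H` is the subgroup of matrices of determinant 1 preserving `f` up to a scalar — a maximal subgroup of type Sp_n(q); Ω is the set of `T`-conjugates of `H` (cosets of `H`), so an element of `T` of prime order `r` (a matrix `x` of determinant 1 with `x^r` scalar, `x` not scalar) fixes a point of Ω when some conjugate of `x` by a matrix of determinant 1 preserves `f` up to a scalar. For every odd prime `r` dividing the index of `H`, with `(n, r) ≠ (6, 3)`, there is an element of `T` of order `r` with no conjugate in `H`. (For `n = 6`, `r = 3` this can fail: when `(q − 1)_3 = 3` every element of order 3 is conjugate into `H`.)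 -/
theorem result {F : Type*} [Field F] [Fintype F] {p : ℕ} [Fact p.Prime] [CharP F p] {q : ℕ} (hq : Fintype.card F = q)
    (n : ℕ) (hn : 4 ≤ n) (he : Even n) (f : (Fin n → F) → (Fin n → F) → F) (hf : Cfsg.Geo.IsSymplecticForm f)
    (r : ℕ) [Fact r.Prime] (hr2 : r ≠ 2) (hgap : ¬ (n = 6 ∧ r = 3)) (hΩ : r ∣ ((Cfsg.Geo.similarityGroup f).comap (Matrix.SpecialLinearGroup.toGL : Matrix.SpecialLinearGroup (Fin n) F →* GL (Fin n) F)).index) :
    ∃ x : Matrix.SpecialLinearGroup (Fin n) F,
      (∃ z : F, ((x ^ r : Matrix.SpecialLinearGroup (Fin n) F) : Matrix (Fin n) (Fin n) F) = z • (1 : Matrix (Fin n) (Fin n) F)) ∧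
      (∀ z : F, (x : Matrix (Fin n) (Fin n) F) ≠ z • (1 : Matrix (Fin n) (Fin n) F)) ∧
      ∀ P : Matrix.SpecialLinearGroup (Fin n) F, P⁻¹ * x * P ∉ ((Cfsg.Geo.similarityGroup f).comap (Matrix.SpecialLinearGroup.toGL : Matrix.SpecialLinearGroup (Fin n) F →* GL (Fin n) F)) := by
  classical
  have hr : r.Prime := Fact.out
  obtain ⟨x, hxr, hxs, hx⟩ : ∃ x : Matrix.SpecialLinearGroup (Fin n) F, x ^ r = 1 ∧
      (∀ z : F, (x : Matrix (Fin n) (Fin n) F) ≠ z • 1) ∧ NoSimilitude (x : Matrix (Fin n) (Fin n) F) := by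
    by_cases h1 : r ∣ Fintype.card F - 1
    · exact exists_diagonal hn he hr2 hgap h1
    rcases prime_dvd_index (by omega) hf hr hΩ with h | ⟨j, hj, hjr⟩
    · obtain ⟨e, -, he'⟩ := FiniteField.card F p
      rw [he'] at h
      obtain rfl := (Nat.prime_dvd_prime_iff_eq hr Fact.out).1 (hr.dvd_of_dvd_pow h)
      exact exists_unipotent hr2 (by omega)
    · refine exists_block (p := p) (i := 2 * j + 1) ?_ ⟨j, rfl⟩ hj hjr h1
      rcases Nat.eq_zero_or_pos j with rfl | hj0
      · exact absurd (by simpa using hjr) h1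
      · omega
  exact ⟨x, ⟨1, by rw [hxr, one_smul, Matrix.SpecialLinearGroup.coe_one]⟩, hxs, not_mem_similarity hf hx⟩

end Cfsg.Agent.S5968
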