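import Cfsg.Statements.S5969
import Cfsg.Agent.S5967

set_option autoImplicit false
open scoped MatrixGroups
open Cfsg

namespace Cfsg.Agent.S5969

open scoped Matrix

variable {F : Type*} [Field F] {n : ℕ}

local notation "Mat" => Matrix (Fin n) (Fin n) F

theorem field_gen (hn : 0 < n) (K : Subalgebra F Mat) (hK : Cfsg.Geo.IsFieldSubalgebra 2 K) :
    ∃ (ρ : Mat) (a b : F), ρ ∈ K ∧ (∀ t : F, ρ ≠ t • (1 : Mat)) ∧ ρ * ρ = a • ρ + b • (1 : Mat) ∧
      ∀ k ∈ K, ∃ u v : F, k = u • ρ + v • (1 : Mat) := by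
  classical
  haveI : Nonempty (Fin n) := ⟨⟨0, hn⟩⟩
  obtain ⟨ρ, hρK, hρ⟩ : ∃ ρ ∈ K, ∀ t : F, ρ ≠ t • (1 : Mat) := by
    by_contra hne
    push Not at hne
    have hs : Subalgebra.toSubmodule K ≤ Submodule.span F {(1 : Mat)} := fun k hk => by
      obtain ⟨t, ht⟩ := hne k hk
      rw [ht]
      exact Submodule.smul_mem _ _ (Submodule.mem_span_singleton_self _)
    have h1 : Module.finrank F (Subalgebra.toSubmodule K) ≤ 1 :=
      (Submodule.finrank_mono hs).trans (finrank_span_le_card ({(1 : Mat)} : Set Mat) |>.trans (by simp))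
    have h2 : Module.finrank F (Subalgebra.toSubmodule K) = 2 := hK.finrank_eq
    omega
  obtain ⟨v, hv⟩ : ∃ v : Fin 2 → Mat, v = ![ρ, 1] := ⟨_, rfl⟩
  have hli : LinearIndependent F v := by
    rw [hv, LinearIndependent.pair_iff]
    intro s t hst
    by_cases hs : s = 0
    · subst hs
      simp only [zero_smul, zero_add, smul_eq_zero, one_ne_zero, or_false] at hst
      exact ⟨rfl, hst⟩
    · refine absurd ?_ (hρ (-(s⁻¹ * t)))
      have h := congrArg (fun z => s⁻¹ • z) hst
      simp only [smul_add, smul_smul, inv_mul_cancel₀ hs, one_smul, smul_zero] at h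
      rw [neg_smul, eq_neg_iff_add_eq_zero, h]
  have hle : Submodule.span F (Set.range v) ≤ Subalgebra.toSubmodule K := by
    rw [Submodule.span_le, hv]
    rintro _ ⟨i, rfl⟩
    fin_cases i
    exacts [hρK, K.one_mem]
  have heq : Submodule.span F (Set.range v) = Subalgebra.toSubmodule K := by
    refine Submodule.eq_of_le_of_finrank_le hle ?_
    rw [finrank_span_eq_card hli, show Module.finrank F (Subalgebra.toSubmodule K) = 2 from hK.finrank_eq]
    simp
  have hgen : ∀ k ∈ K, ∃ u w : F, k = u • ρ + w • (1 : Mat) := by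
    intro k hk
    have hk' : k ∈ Submodule.span F (Set.range v) := by rw [heq]; exact hk
    obtain ⟨c, hc⟩ := (Submodule.mem_span_range_iff_exists_fun F).mp hk'
    exact ⟨c 0, c 1, by rw [← hc, hv, Fin.sum_univ_two]; simp⟩
  obtain ⟨a, b, hab⟩ := hgen (ρ * ρ) (K.mul_mem hρK hρK)
  exact ⟨ρ, a, b, hρK, hρ, hab, hgen⟩

theorem no_eig {K : Subalgebra F Mat} (hK : Cfsg.Geo.IsFieldSubalgebra 2 K) {ρ : Mat} (hρK : ρ ∈ K)
    (hρ : ∀ t : F, ρ ≠ t • (1 : Mat)) (t : F) (v : Fin n → F) (h : ρ *ᵥ v = t • v) : v = 0 := by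
  obtain ⟨y, hy, hy'⟩ := hK.inv (ρ - t • 1) (K.sub_mem hρK (K.smul_mem K.one_mem t)) (sub_ne_zero.mpr (hρ t))
  rw [hK.comm _ (K.sub_mem hρK (K.smul_mem K.one_mem t)) _ hy] at hy'
  rw [← Matrix.one_mulVec v, ← hy', ← Matrix.mulVec_mulVec, Matrix.sub_mulVec, Matrix.smul_mulVec, Matrix.one_mulVec, h,
    sub_self, Matrix.mulVec_zero]

theorem mem_normalizer {K : Subalgebra F Mat} {ρ : Mat} (hρK : ρ ∈ K)
    (hgen : ∀ k ∈ K, ∃ u v : F, k = u • ρ + v • (1 : Mat)) (hρ : ∀ t : F, ρ ≠ t • (1 : Mat)) (g : GL (Fin n) F) (α β : F)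
    (h : (g : Mat) * ρ = (α • ρ + β • (1 : Mat)) * (g : Mat)) : g ∈ Cfsg.Geo.subalgebraNormalizer K := by
  have hg : ∀ u v : F, (g : Mat) * (u • ρ + v • (1 : Mat)) * ((g⁻¹ : GL (Fin n) F) : Mat) =
      (u * α) • ρ + (u * β + v) • (1 : Mat) := by
    intro u v
    rw [Matrix.mul_add, Matrix.mul_smul, Matrix.mul_smul, h, Matrix.mul_one, Matrix.add_mul, Matrix.smul_mul, Matrix.smul_mul,
      Matrix.mul_assoc, ← Units.val_mul, mul_inv_cancel, Units.val_one, Matrix.mul_one, smul_add, smul_smul, smul_smul,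
      add_smul, add_assoc]
  have hα : α ≠ 0 := by
    intro h0
    refine hρ β ?_
    rw [h0, zero_smul, zero_add, Matrix.smul_mul, Matrix.one_mul] at h
    rw [show ρ = ((g⁻¹ : GL (Fin n) F) : Mat) * ((g : Mat) * ρ) by rw [← Matrix.mul_assoc, ← Units.val_mul, inv_mul_cancel,
      Units.val_one, Matrix.one_mul], h, Matrix.mul_smul, ← Units.val_mul, inv_mul_cancel, Units.val_one]
  intro k
  constructor
  · intro hk
    obtain ⟨u, v, rfl⟩ := hgen k hk
    rw [hg]
    exact K.add_mem (K.smul_mem hρK _) (K.smul_mem K.one_mem _)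
  · intro hk
    obtain ⟨u, v, he⟩ := hgen _ hk
    have h1 : (g : Mat) * k * ((g⁻¹ : GL (Fin n) F) : Mat) =
        (g : Mat) * ((u / α) • ρ + (v - u / α * β) • (1 : Mat)) * ((g⁻¹ : GL (Fin n) F) : Mat) := by
      rw [hg, div_mul_cancel₀ _ hα, add_sub_cancel, he]
    rw [Units.mul_left_inj, Units.mul_right_inj] at h1
    rw [h1]
    exact K.add_mem (K.smul_mem hρK _) (K.smul_mem K.one_mem _)

theorem conj_into {K : Subalgebra F Mat} {ρ : Mat} (hρK : ρ ∈ K)
    (hgen : ∀ k ∈ K, ∃ u v : F, k = u • ρ + v • (1 : Mat)) (hρ : ∀ t : F, ρ ≠ t • (1 : Mat))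
    (x : Matrix.SpecialLinearGroup (Fin n) F) (Q Y Q₀ Y₀ : Mat) (hQ : IsUnit Q.det) (hxQ : (x : Mat) * Q = Q * Y)
    (hQ₀ : IsUnit Q₀.det) (hρQ : ρ * Q₀ = Q₀ * Y₀) (α β : F) (hY : Y * Y₀ = (α • Y₀ + β • (1 : Mat)) * Y)
    (hC : ∀ δ : F, δ ≠ 0 → ∃ C : Mat, C.det = δ ∧ C * Y = Y * C) :
    ∃ P : Matrix.SpecialLinearGroup (Fin n) F, P⁻¹ * x * P ∈ ((Cfsg.Geo.subalgebraNormalizer K).comap
      (Matrix.SpecialLinearGroup.toGL : Matrix.SpecialLinearGroup (Fin n) F →* GL (Fin n) F)) := by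
  classical
  obtain ⟨C, hCd, hCY⟩ := hC (Q₀.det / Q.det) (div_ne_zero hQ₀.ne_zero hQ.ne_zero)
  have hdet : (Q * C * Q₀⁻¹).det = 1 := by
    rw [Matrix.det_mul, Matrix.det_mul, hCd, Matrix.det_nonsing_inv, Ring.inverse_eq_inv']
    field_simp [hQ.ne_zero, hQ₀.ne_zero]
  obtain ⟨P, hP⟩ : ∃ P : Matrix.SpecialLinearGroup (Fin n) F, P = ⟨Q * C * Q₀⁻¹, hdet⟩ := ⟨_, rfl⟩
  have hP' : (P : Mat) = Q * C * Q₀⁻¹ := by rw [hP]
  obtain ⟨y, hy⟩ : ∃ y, y = P⁻¹ * x * P := ⟨_, rfl⟩
  refine ⟨P, mem_normalizer hρK hgen hρ _ α β ?_⟩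
  show ((P⁻¹ * x * P : Matrix.SpecialLinearGroup (Fin n) F) : Mat) * ρ = _ * ((P⁻¹ * x * P : Matrix.SpecialLinearGroup (Fin n) F) : Mat)
  have h1 : (P : Mat) * ((Q₀ * Y) * Q₀⁻¹) = (x : Mat) * P := by
    rw [hP', Matrix.mul_assoc Q₀ Y, ← Matrix.mul_assoc (Q * C * Q₀⁻¹) Q₀, Matrix.nonsing_inv_mul_cancel_right _ _ hQ₀,
      Matrix.mul_assoc Q C, ← Matrix.mul_assoc C Y, hCY]
    simp only [← Matrix.mul_assoc, hxQ]
  have h2 : ((P⁻¹ * x * P : Matrix.SpecialLinearGroup (Fin n) F) : Mat) = Q₀ * Y * Q₀⁻¹ := by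
    rw [Matrix.SpecialLinearGroup.coe_mul, Matrix.SpecialLinearGroup.coe_mul, Matrix.mul_assoc, ← h1, ← Matrix.mul_assoc,
      ← Matrix.SpecialLinearGroup.coe_mul, inv_mul_cancel, Matrix.SpecialLinearGroup.coe_one, Matrix.one_mul]
  have hρ' : ρ = Q₀ * Y₀ * Q₀⁻¹ := by rw [← hρQ, Matrix.mul_nonsing_inv_cancel_right _ _ hQ₀]
  rw [h2, hρ']
  simp only [Matrix.mul_assoc, Matrix.nonsing_inv_mul_cancel_left _ _ hQ₀, Matrix.add_mul, Matrix.smul_mul, Matrix.one_mul]
  rw [← Matrix.mul_assoc Y Y₀, hY]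
  simp only [Matrix.add_mul, Matrix.smul_mul, Matrix.one_mul, Matrix.mul_add, Matrix.mul_smul, Matrix.mul_assoc]

theorem pulled {K : Subalgebra F Mat} (hK : Cfsg.Geo.IsFieldSubalgebra 2 K) {ρ : Mat} {a b : F}
    (hρK : ρ ∈ K) (hab : ρ * ρ = a • ρ + b • (1 : Mat)) (hρ : ∀ t : F, ρ ≠ t • (1 : Mat))
    (D P : Matrix.SpecialLinearGroup (Fin n) F)
    (h : P⁻¹ * D * P ∈ ((Cfsg.Geo.subalgebraNormalizer K).comap
      (Matrix.SpecialLinearGroup.toGL : Matrix.SpecialLinearGroup (Fin n) F →* GL (Fin n) F))) :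
    ∃ R : Mat, R * R = a • R + b • (1 : Mat) ∧ (∀ (t : F) (v : Fin n → F), R *ᵥ v = t • v → v = 0) ∧
      ((D : Mat) * R = R * (D : Mat) ∨ (D : Mat) * R = (a • (1 : Mat) - R) * (D : Mat)) := by
  obtain ⟨g, hg⟩ : ∃ g : GL (Fin n) F, g = Matrix.SpecialLinearGroup.toGL (P⁻¹ * D * P) := ⟨_, rfl⟩
  have hk := ((show g ∈ Cfsg.Geo.subalgebraNormalizer K by rw [hg]; exact h) ρ).mp hρK
  obtain ⟨k, hkdef⟩ : ∃ k, k = (g : Mat) * ρ * ((g⁻¹ : GL (Fin n) F) : Mat) := ⟨_, rfl⟩
  rw [← hkdef] at hk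
  have hkg : k * (g : Mat) = (g : Mat) * ρ := by
    rw [hkdef, Matrix.mul_assoc, ← Units.val_mul, inv_mul_cancel, Units.val_one, Matrix.mul_one]
  have hkk : k * k = a • k + b • (1 : Mat) := by
    rw [← Units.mul_left_inj g, Matrix.mul_assoc, hkg, ← Matrix.mul_assoc, hkg, Matrix.mul_assoc, hab, Matrix.add_mul,
      Matrix.smul_mul, hkg, Matrix.smul_mul, Matrix.one_mul, Matrix.mul_add, Matrix.mul_smul, Matrix.mul_smul, Matrix.mul_one]
  have hcases : k = ρ ∨ k = a • (1 : Mat) - ρ := by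
    by_cases h0 : k - ρ = 0
    · exact Or.inl (sub_eq_zero.mp h0)
    · right
      obtain ⟨y, hy, hy'⟩ := hK.inv _ (K.sub_mem hk hρK) h0
      rw [hK.comm _ (K.sub_mem hk hρK) _ hy] at hy'
      have h3 : (k - ρ) * (k - (a • 1 - ρ)) = 0 := by
        rw [show (k - ρ) * (k - (a • 1 - ρ)) = (k * k - a • k) - (ρ * ρ - a • ρ) + (k * ρ - ρ * k) by
          simp only [Matrix.mul_sub, Matrix.sub_mul, Matrix.mul_smul, Matrix.mul_one, smul_sub]; abel,
          hkk, hab, hK.comm _ hk _ hρK, sub_self, add_zero, add_sub_cancel_left, add_sub_cancel_left, sub_self]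
      have h4 := congrArg (fun Z => y * Z) h3
      simp only [← Matrix.mul_assoc, hy', Matrix.one_mul, Matrix.mul_zero] at h4
      exact sub_eq_zero.mp h4
  have hPR : ((P⁻¹ : Matrix.SpecialLinearGroup (Fin n) F) : Mat) * (P : Mat) = 1 := by
    rw [← Matrix.SpecialLinearGroup.coe_mul, inv_mul_cancel, Matrix.SpecialLinearGroup.coe_one]
  have hRP : (P : Mat) * ((P⁻¹ : Matrix.SpecialLinearGroup (Fin n) F) : Mat) = 1 := by
    rw [← Matrix.SpecialLinearGroup.coe_mul, mul_inv_cancel, Matrix.SpecialLinearGroup.coe_one]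
  obtain ⟨Pi', hPi⟩ : ∃ Pi', Pi' = ((P⁻¹ : Matrix.SpecialLinearGroup (Fin n) F) : Mat) := ⟨_, rfl⟩
  rw [← hPi] at hPR hRP
  have hgv : (g : Mat) = Pi' * (D : Mat) * (P : Mat) := by
    rw [hg, hPi]
    rfl
  have cancel : ∀ Z : Mat, Pi' * ((P : Mat) * Z) = Z := fun Z => by rw [← Matrix.mul_assoc, hPR, Matrix.one_mul]
  have cancel' : ∀ Z : Mat, (P : Mat) * (Pi' * Z) = Z := fun Z => by rw [← Matrix.mul_assoc, hRP, Matrix.one_mul]
  refine ⟨(P : Mat) * ρ * Pi', ?_, ?_, ?_⟩
  · simp only [Matrix.mul_assoc, cancel]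
    rw [← Matrix.mul_assoc ρ ρ, hab]
    simp only [Matrix.add_mul, Matrix.mul_add, Matrix.smul_mul, Matrix.mul_smul, Matrix.one_mul, hRP]
  · intro t v hv
    have h0 := no_eig hK hρK hρ t (Pi' *ᵥ v) (by
      have := congrArg (fun z => Pi' *ᵥ z) hv
      simp only [Matrix.mulVec_mulVec, Matrix.mulVec_smul, Matrix.mul_assoc, cancel] at this
      rwa [Matrix.mulVec_mulVec])
    rw [← Matrix.one_mulVec v, ← hRP, ← Matrix.mulVec_mulVec, h0, Matrix.mulVec_zero]
  · have e : (D : Mat) * ((P : Mat) * ρ * Pi') = (P : Mat) * ((g : Mat) * ρ) * Pi' := by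
      rw [hgv]; simp only [Matrix.mul_assoc, cancel']
    rw [e, ← hkg, hgv]
    rcases hcases with hk' | hk'
    · left
      rw [hk']
      simp only [Matrix.mul_assoc, hRP, Matrix.mul_one]
    · right
      rw [hk']
      simp only [Matrix.mul_assoc, hRP, Matrix.mul_one, Matrix.sub_mul, Matrix.mul_sub, Matrix.smul_mul, Matrix.mul_smul,
        Matrix.one_mul, cancel']

theorem no_fix_semisimple (h2 : (2 : F) ≠ 0) {s d : F} (hs : s ≠ 0) (hn : 3 ≤ n) (hd : ∀ t : F, t ^ 2 ≠ d) (i0 : Fin n)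
    (R : Mat) (hR : R * R = d • (1 : Mat))
    (h : Matrix.diagonal (fun j : Fin n => if j = i0 then -s else s) * R = R * Matrix.diagonal (fun j : Fin n => if j = i0 then -s else s) ∨
      Matrix.diagonal (fun j : Fin n => if j = i0 then -s else s) * R = -(R * Matrix.diagonal (fun j : Fin n => if j = i0 then -s else s))) :
    False := by
  classical
  obtain ⟨w, hw⟩ : ∃ w : Fin n → F, w = fun j => if j = i0 then -s else s := ⟨_, rfl⟩
  rw [← hw] at h
  have hdd : ∀ i j, (∑ k, R i k * R k j) = if i = j then d else 0 := fun i j => by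
    rw [← Matrix.mul_apply, hR, Matrix.smul_apply, Matrix.one_apply]
    simp
  have h2s : (2 : F) * s ≠ 0 := mul_ne_zero h2 hs
  rcases h with h | h
  · have key : ∀ k, k ≠ i0 → R i0 k = 0 := fun k hk => by
      have := congrFun (congrFun h i0) k
      rw [Matrix.diagonal_mul, Matrix.mul_diagonal, hw] at this
      simp only [if_pos, if_neg hk] at this
      exact (mul_eq_zero.mp (show (2 * s) * R i0 k = 0 by linear_combination -this)).resolve_left h2s
    refine hd (R i0 i0) ?_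
    have := hdd i0 i0
    rw [Finset.sum_eq_single i0 (fun k _ hk => by rw [key k hk, zero_mul]) (by simp), if_pos rfl] at this
    rw [pow_two, this]
  · have key : ∀ i j, i ≠ i0 → j ≠ i0 → R i j = 0 := fun i j hi hj => by
      have := congrFun (congrFun h i) j
      rw [Matrix.neg_apply, Matrix.diagonal_mul, Matrix.mul_diagonal, hw] at this
      simp only [if_neg hi, if_neg hj] at this
      exact (mul_eq_zero.mp (show (2 * s) * R i j = 0 by linear_combination this)).resolve_left h2s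
    obtain ⟨i1, hi1⟩ : ((Finset.univ : Finset (Fin n)).erase i0).Nonempty := by
      rw [← Finset.card_pos, Finset.card_erase_of_mem (Finset.mem_univ _)]; simp; omega
    obtain ⟨i2, hi2⟩ : (((Finset.univ : Finset (Fin n)).erase i0).erase i1).Nonempty := by
      rw [← Finset.card_pos, Finset.card_erase_of_mem hi1, Finset.card_erase_of_mem (Finset.mem_univ _)]; simp; omega
    have hne1 := Finset.ne_of_mem_erase hi1
    have hne2 := Finset.ne_of_mem_erase (Finset.mem_of_mem_erase hi2)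
    have hne12 := Finset.ne_of_mem_erase hi2
    have hd0 : d ≠ 0 := fun h0 => hd 0 (by rw [h0, zero_pow two_ne_zero])
    have e : ∀ i j, i ≠ i0 → j ≠ i0 → R i i0 * R i0 j = if i = j then d else 0 := fun i j hi hj => by
      rw [← hdd, Finset.sum_eq_single i0 (fun k _ hk => by rw [key i k hi hk, zero_mul]) (by simp)]
    have a1 := e i1 i1 hne1 hne1
    have a2 := e i2 i2 hne2 hne2
    have a3 := e i1 i2 hne1 hne2
    rw [if_pos rfl] at a1 a2
    rw [if_neg (Ne.symm hne12)] at a3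
    rcases mul_eq_zero.mp a3 with h' | h'
    · rw [h', zero_mul] at a1; exact hd0 a1.symm
    · rw [h', mul_zero] at a2; exact hd0 a2.symm

theorem no_fix_transvection (hn : 3 ≤ n) {a : F} (R : Mat) (hR : ∀ (t : F) (v : Fin n → F), R *ᵥ v = t • v → v = 0)
    (i j l : Fin n) (hij : i ≠ j) (hli : l ≠ i) (hlj : l ≠ j)
    (h : (1 + Matrix.single i j (1 : F)) * R = R * (1 + Matrix.single i j (1 : F)) ∨
      (1 + Matrix.single i j (1 : F)) * R = (a • (1 : Mat) - R) * (1 + Matrix.single i j (1 : F))) (h2 : (2 : F) = 0) : False := by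
  classical
  obtain ⟨c, hc⟩ : ∃ c : F, (1 + Matrix.single i j (1 : F)) * R = (c • (1 : Mat) + R) * (1 + Matrix.single i j (1 : F)) := by
    rcases h with h | h
    · exact ⟨0, by rw [zero_smul, zero_add, h]⟩
    · refine ⟨a, h.trans ?_⟩
      congr 1
      ext u v
      simp only [Matrix.sub_apply, Matrix.add_apply]
      linear_combination -(R u v) * h2
  have hentry : ∀ u v, R u v + (if u = i then R j v else 0) =
      (c * (if u = v then 1 else 0) + R u v) + (if v = j then (c * (if u = i then 1 else 0) + R u i) else 0) := by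
    intro u v
    have := congrFun (congrFun hc u) v
    rw [Matrix.add_mul, Matrix.one_mul, Matrix.mul_add, Matrix.mul_one, Matrix.add_apply, Matrix.add_apply] at this
    by_cases hu : u = i <;> by_cases hv : v = j
    · subst hu hv
      simpa [Matrix.single_mul_apply_same, Matrix.mul_single_apply_same, Matrix.one_apply] using this
    · subst hu
      simpa [Matrix.single_mul_apply_same, hv, Matrix.one_apply] using this
    · subst hv
      simpa [hu, Matrix.mul_single_apply_same, Matrix.one_apply] using this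
    · simpa [hu, hv, Matrix.one_apply] using this
  have hc0 : c = 0 := by
    have := hentry l l
    rw [if_neg hli, if_pos rfl, if_neg hlj] at this
    linear_combination -this
  subst hc0
  have hcol : ∀ u, u ≠ i → R u i = 0 := fun u hu => by
    have := hentry u j
    rw [if_neg hu, if_pos rfl] at this
    linear_combination -this
  have := hR (R i i) (Pi.single i 1) (by
    rw [Matrix.mulVec_single_one]
    funext u
    by_cases hu : u = i
    · subst hu; simp
    · simp [hu, hcol u hu])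
  simpa using congrFun this i

theorem char_two_dim_two [Fintype F] {K : Subalgebra F (Matrix (Fin (1 + 1)) (Fin (1 + 1)) F)}
    {ρ : Matrix (Fin (1 + 1)) (Fin (1 + 1)) F} {a b : F} (hρK : ρ ∈ K)
    (hgen : ∀ k ∈ K, ∃ u v : F, k = u • ρ + v • (1 : Matrix (Fin (1 + 1)) (Fin (1 + 1)) F))
    (hρ : ∀ t : F, ρ ≠ t • (1 : Matrix (Fin (1 + 1)) (Fin (1 + 1)) F))
    (hab : ρ * ρ = a • ρ + b • (1 : Matrix (Fin (1 + 1)) (Fin (1 + 1)) F))
    (heig : ∀ (t : F) (v : Fin (1 + 1) → F), ρ *ᵥ v = t • v → v = 0)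
    (x : Matrix.SpecialLinearGroup (Fin (1 + 1)) F) {c : F}
    (hx : (x : Matrix (Fin (1 + 1)) (Fin (1 + 1)) F) ^ 2 = c • (1 : Matrix (Fin (1 + 1)) (Fin (1 + 1)) F))
    (hx' : ∀ z : F, (x : Matrix (Fin (1 + 1)) (Fin (1 + 1)) F) ≠ z • (1 : Matrix (Fin (1 + 1)) (Fin (1 + 1)) F))
    (h2 : (2 : F) = 0) :
    ∃ P : Matrix.SpecialLinearGroup (Fin (1 + 1)) F, P⁻¹ * x * P ∈ ((Cfsg.Geo.subalgebraNormalizer K).comap
      (Matrix.SpecialLinearGroup.toGL : Matrix.SpecialLinearGroup (Fin (1 + 1)) F →* GL (Fin (1 + 1)) F)) := by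
  classical
  haveI : CharP F 2 := CharTwo.of_one_ne_zero_of_two_eq_zero one_ne_zero h2
  obtain ⟨s, hs⟩ := FiniteField.isSquare_of_char_two (ringChar.eq F 2) c
  have hs' : c = s ^ 2 := by rw [hs, pow_two]
  obtain ⟨A, hA⟩ : ∃ A, A = (x : Matrix (Fin (1 + 1)) (Fin (1 + 1)) F) - s • 1 := ⟨_, rfl⟩
  have hA2 : A * A = 0 := by
    rw [hA, ← pow_two, sub_pow_char_of_commute _ ((Commute.one_right _).smul_right s), hx, _root_.smul_pow, one_pow, hs',
      sub_self]
  have hA0 : A ≠ 0 := fun h0 => hx' s (sub_eq_zero.mp (hA.symm.trans h0))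
  obtain ⟨w, hw⟩ : ∃ w : Fin (1 + 1) → F, A *ᵥ w ≠ 0 := by
    by_contra hne
    push Not at hne
    exact hA0 (Matrix.ext_of_mulVec_single fun j => by rw [hne, Matrix.zero_mulVec])
  have hρ10 : ρ 1 0 ≠ 0 := fun h0 => by
    have := congrFun (heig (ρ 0 0) (Pi.single 0 1) (by
      rw [Matrix.mulVec_single_one]
      funext i
      fin_cases i <;> simp [h0])) 0
    simp at this
  obtain ⟨Q₀, hQ₀def⟩ : ∃ Q₀ : Matrix (Fin (1 + 1)) (Fin (1 + 1)) F, Q₀ = !![1, ρ 0 0; 0, ρ 1 0] := ⟨_, rfl⟩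
  obtain ⟨Y₀, hY₀⟩ : ∃ Y₀ : Matrix (Fin (1 + 1)) (Fin (1 + 1)) F, Y₀ = !![0, b; 1, a] := ⟨_, rfl⟩
  have hρQ : ρ * Q₀ = Q₀ * Y₀ := by
    have e0 := congrFun (congrFun hab 0) 0
    have e1 := congrFun (congrFun hab 1) 0
    simp [Matrix.mul_apply, Fin.sum_univ_two] at e0 e1
    ext i j
    fin_cases i <;> fin_cases j <;>
      simp [hQ₀def, hY₀, Matrix.mul_apply, Fin.sum_univ_two] <;> first | linear_combination e0 | linear_combination e1
  obtain ⟨Q, hQdef⟩ : ∃ Q : Matrix (Fin (1 + 1)) (Fin (1 + 1)) F, Q = Matrix.of fun i j => if j = 0 then (A *ᵥ w) i else (s * a) * w i := ⟨_, rfl⟩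
  have ha : a ≠ 0 := by
    intro ha0
    rw [ha0, zero_smul, zero_add] at hab
    obtain ⟨t, ht⟩ := FiniteField.isSquare_of_char_two (ringChar.eq F 2) b
    have hz : (ρ - t • 1) * (ρ - t • 1) = 0 := by
      rw [← pow_two, sub_pow_char_of_commute _ ((Commute.one_right _).smul_right t), pow_two, hab, _root_.smul_pow, one_pow,
        ht, pow_two, sub_self]
    by_cases h0 : (ρ - t • 1) *ᵥ Pi.single 0 1 = 0
    · rw [Matrix.sub_mulVec, Matrix.smul_mulVec, Matrix.one_mulVec, sub_eq_zero] at h0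
      simpa using congrFun (heig t _ h0) 0
    · refine h0 (heig t _ ?_)
      have := congrArg (fun Z => Z *ᵥ (Pi.single 0 1 : Fin (1 + 1) → F)) hz
      simp only [← Matrix.mulVec_mulVec, Matrix.zero_mulVec] at this
      rw [Matrix.sub_mulVec, Matrix.smul_mulVec, Matrix.one_mulVec, sub_eq_zero] at this
      exact this
  have hsa : s * a ≠ 0 := by
    refine mul_ne_zero (fun h0 => ?_) ha
    have hdx := CfsgLib.SubElusive.scalar_data (r := 2) x.det_coe (by omega) hx
    rw [hs', h0] at hdx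
    exact hdx (by ring)
  have hQ : IsUnit Q.det := by
    rw [← Matrix.isUnit_iff_isUnit_det, ← Matrix.mulVec_injective_iff_isUnit, ← Matrix.coe_mulVecLin, injective_iff_map_eq_zero Q.mulVecLin]
    intro v hv
    rw [Matrix.mulVecLin_apply] at hv
    have hv' : v 0 • (A *ᵥ w) + (v 1 * (s * a)) • w = 0 := by
      rw [← hv]
      funext i
      fin_cases i <;> simp [hQdef, Matrix.mulVec, dotProduct, Fin.sum_univ_two] <;> ring
    have h1 : v 1 = 0 := by
      have := congrArg (fun z => A *ᵥ z) hv'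
      simp only [Matrix.mulVec_add, Matrix.mulVec_smul, Matrix.mulVec_mulVec, hA2, Matrix.zero_mulVec, smul_zero, zero_add,
        Matrix.mulVec_zero] at this
      exact (mul_eq_zero.mp ((smul_eq_zero.mp this).resolve_right hw)).resolve_right hsa
    rw [h1, zero_mul, zero_smul, add_zero, smul_eq_zero] at hv'
    funext i
    fin_cases i
    exacts [hv'.resolve_right hw, h1]
  refine conj_into hρK hgen hρ x Q (s • (1 + !![0, a; 0, 0])) Q₀ Y₀ hQ ?_ ?_ hρQ 1 a ?_ fun δ hδ => ?_
  · have hxA : (x : Matrix (Fin (1 + 1)) (Fin (1 + 1)) F) = s • 1 + A := by rw [hA, add_sub_cancel]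
    refine Matrix.ext_of_mulVec_single fun j => ?_
    rw [← Matrix.mulVec_mulVec, hxA, Matrix.add_mulVec, Matrix.smul_mulVec, Matrix.one_mulVec]
    fin_cases j
    · have e : Q *ᵥ Pi.single 0 1 = A *ᵥ w := by rw [Matrix.mulVec_single_one]; funext i; simp [hQdef]
      simp only [Fin.zero_eta, e, Matrix.mulVec_mulVec w A, hA2, Matrix.zero_mulVec, add_zero]
      funext i
      fin_cases i <;> simp [hQdef, Matrix.mulVec, dotProduct, Fin.sum_univ_two, Matrix.mul_apply] <;> ring
    · have e : Q *ᵥ Pi.single 1 1 = (s * a) • w := by rw [Matrix.mulVec_single_one]; funext i; simp [hQdef]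
      simp only [Fin.mk_one, e, Matrix.mulVec_smul]
      funext i
      fin_cases i <;> simp [hQdef, Matrix.mulVec, dotProduct, Fin.sum_univ_two, Matrix.mul_apply] <;> ring
  · rw [hQ₀def, Matrix.det_fin_two_of]
    simpa using hρ10
  · ext i j
    fin_cases i <;> fin_cases j <;>
      simp [hY₀, Matrix.mul_apply, Fin.sum_univ_two] <;> ring_nf <;> simp [h2] 
  · obtain ⟨t, ht⟩ := FiniteField.isSquare_of_char_two (ringChar.eq F 2) δ
    refine ⟨t • 1, ?_, by rw [Matrix.smul_mul, Matrix.one_mul, Matrix.mul_smul, Matrix.mul_one]⟩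
    rw [Matrix.det_smul, Matrix.det_one, mul_one, Fintype.card_fin, pow_two, ht]


/-- Involutions of PSL_n(q) and extension-field subgroups of degree 2. Here `T = PSL_n(F)` for a field `F` with `q = p^f` elements (`n ≥ 2`, `(n, q) ≠ (2, 2), (2, 3)`), `k` is a prime dividing `n`, `K` is a subalgebra of the `n × n` matrices that is a field of degree `k` over `F` (an extension-field structure F_{q^k} on `F^n`), and `H` is the subgroup of matrices of determinant 1 normalizing `K` — a subgroup of type GL_{n/k}(q^k) (maximal except in some small cases; maximality is not assumed); Ω is the set of cosets of `H` in `T`, so an element of `T` of prime order `r` (a matrix `x` of determinant 1 with `x^r` scalar, `x` not scalar) fixes a point of Ω when some conjugate of `x` by a matrix of determinant 1 normalizes `K`. Take `k = 2` and suppose the index of `H` is even. Then every involution of `T` is conjugate in `T` into `H` if and only if `n = 2`, or `q` is odd and `(q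 − 1)_2 ≤ (n)_2`. -/
theorem result {F : Type*} [Field F] [Fintype F] {p : ℕ} [Fact p.Prime] [CharP F p] {q : ℕ} (hq : Fintype.card F = q)
    (n : ℕ) (hn : 2 ≤ n) (hT : (n, q) ≠ (2, 2) ∧ (n, q) ≠ (2, 3))
    (k : ℕ) (hk : k.Prime) (hkn : k ∣ n) (K : Subalgebra F (Matrix (Fin n) (Fin n) F)) (hK : Cfsg.Geo.IsFieldSubalgebra k K) (hk2 : k = 2) (hΩ : 2 ∣ ((Cfsg.Geo.subalgebraNormalizer K).comap (Matrix.SpecialLinearGroup.toGL : Matrix.SpecialLinearGroup (Fin n) F →* GL (Fin n) F)).index) :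
    (∀ x : Matrix.SpecialLinearGroup (Fin n) F,
      (∃ z : F, ((x ^ 2 : Matrix.SpecialLinearGroup (Fin n) F) : Matrix (Fin n) (Fin n) F) = z • (1 : Matrix (Fin n) (Fin n) F)) →
      (∀ z : F, (x : Matrix (Fin n) (Fin n) F) ≠ z • (1 : Matrix (Fin n) (Fin n) F)) →
      ∃ P : Matrix.SpecialLinearGroup (Fin n) F, P⁻¹ * x * P ∈ ((Cfsg.Geo.subalgebraNormalizer K).comap (Matrix.SpecialLinearGroup.toGL : Matrix.SpecialLinearGroup (Fin n) F →* GL (Fin n) F))) ↔
    (n = 2 ∨ (Odd q ∧ padicValNat 2 (q - 1) ≤ padicValNat 2 n)) := by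
  classical
  subst hk2 hq
  haveI : Nonempty (Fin n) := ⟨⟨0, by omega⟩⟩
  haveI : Fact (Nat.Prime 2) := ⟨Nat.prime_two⟩
  simp only [Matrix.SpecialLinearGroup.coe_pow]
  obtain ⟨m, hm⟩ := hkn
  obtain rfl : n = m + m := by omega
  obtain ⟨ρ, a, b, hρK, hρ, hab, hgen⟩ := field_gen (by omega) K hK
  by_cases h2 : (2 : F) = 0
  · haveI : CharP F 2 := CharTwo.of_one_ne_zero_of_two_eq_zero one_ne_zero h2
    have heven : ¬ Odd (Fintype.card F) := by
      rw [Nat.not_odd_iff, FiniteField.even_card_iff_char_two.symm]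
      exact ringChar.eq F 2
    simp only [heven, false_and, or_false]
    constructor
    · intro h
      by_contra hne
      obtain ⟨i, hi⟩ : ∃ i : Fin (m + m), i = ⟨0, by omega⟩ := ⟨_, rfl⟩
      obtain ⟨j, hj⟩ : ∃ j : Fin (m + m), j = ⟨1, by omega⟩ := ⟨_, rfl⟩
      obtain ⟨l, hl⟩ : ∃ l : Fin (m + m), l = ⟨2, by omega⟩ := ⟨_, rfl⟩
      have hij : i ≠ j := by rw [hi, hj]; simp
      obtain ⟨T, hT'⟩ : ∃ T, T = 1 + Matrix.single i j (1 : F) := ⟨_, rfl⟩
      have hTdet : T.det = 1 := by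
        rw [hT', ← Matrix.transvection, Matrix.det_transvection_of_ne _ _ hij]
      have hT2 : T ^ 2 = (1 : F) • (1 : Matrix (Fin (m + m)) (Fin (m + m)) F) := by
        rw [one_smul, pow_two, hT', Matrix.add_mul, Matrix.one_mul, Matrix.mul_add, Matrix.mul_one,
          Matrix.single_mul_single_of_ne _ _ _ _ hij.symm, add_zero]
        ext u v
        simp only [Matrix.add_apply]
        linear_combination (Matrix.single i j (1 : F) u v) * h2
      obtain ⟨P, hP⟩ := h ⟨T, hTdet⟩ ⟨1, hT2⟩ fun z hz => by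
        have := congrFun (congrFun hz i) j
        replace this : T i j = (z • (1 : Matrix (Fin (m + m)) (Fin (m + m)) F)) i j := this
        rw [hT'] at this
        simp [hij] at this
      obtain ⟨R, -, hR, hR'⟩ := pulled hK hρK hab hρ _ P hP
      subst hT'
      exact no_fix_transvection (by omega) R hR i j l hij (by rw [hl, hi]; simp) (by rw [hl, hj]; simp) hR' h2
    · intro hn2 x ⟨c, hx⟩ hx'
      obtain rfl : m = 1 := by omega
      exact char_two_dim_two hρK hgen hρ hab (fun t => no_eig hK hρK hρ t) x hx hx' h2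
  · have hodd : Odd (Fintype.card F) := by
      refine Nat.odd_iff.mpr (FiniteField.odd_card_of_char_ne_two fun h => ?_)
      haveI : CharP F 2 := ringChar.of_eq h
      exact h2 CharTwo.two_eq_zero
    simp only [hodd, true_and]
    obtain ⟨ρ', d, hρ'K, hρ', hρ'2, hd, hgen'⟩ : ∃ (ρ' : Matrix (Fin (m + m)) (Fin (m + m)) F) (d : F), ρ' ∈ K ∧
        (∀ t : F, ρ' ≠ t • (1 : Matrix (Fin (m + m)) (Fin (m + m)) F)) ∧
        ρ' ^ 2 = d • (1 : Matrix (Fin (m + m)) (Fin (m + m)) F) ∧ (∀ t : F, t ^ 2 ≠ d) ∧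
        ∀ k ∈ K, ∃ u v : F, k = u • ρ' + v • (1 : Matrix (Fin (m + m)) (Fin (m + m)) F) := by
      refine ⟨ρ - (a / 2) • 1, b + a / 2 * (a / 2), K.sub_mem hρK (K.smul_mem K.one_mem _), ?_, ?_, ?_, ?_⟩
      · intro t ht
        exact hρ (t + a / 2) (by rw [add_smul, ← ht, sub_add_cancel])
      · rw [pow_two, Matrix.sub_mul, Matrix.mul_sub, Matrix.mul_sub, hab]
        ext u v
        simp only [Matrix.mul_smul, Matrix.smul_mul, Matrix.mul_one, Matrix.one_mul, Matrix.sub_apply, Matrix.add_apply,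
          Matrix.smul_apply, smul_eq_mul]
        field_simp
        ring
      · intro t ht
        have hprod : (ρ - (a / 2 + t) • 1) * (ρ - (a / 2 - t) • 1) = (0 : Matrix (Fin (m + m)) (Fin (m + m)) F) := by
          rw [Matrix.sub_mul, Matrix.mul_sub, Matrix.mul_sub, hab]
          ext u v
          simp only [Matrix.mul_smul, Matrix.smul_mul, Matrix.mul_one, Matrix.one_mul, Matrix.sub_apply, Matrix.add_apply,
            Matrix.smul_apply, smul_eq_mul, Matrix.zero_apply]
          linear_combination (-(1 : Matrix (Fin (m + m)) (Fin (m + m)) F) u v) * ht - (ρ u v) * (mul_div_cancel₀ a h2)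
        obtain ⟨y, hy, hy'⟩ := hK.inv _ (K.sub_mem hρK (K.smul_mem K.one_mem (a / 2 + t))) (sub_ne_zero.mpr (hρ _))
        rw [hK.comm _ (K.sub_mem hρK (K.smul_mem K.one_mem _)) _ hy] at hy'
        refine hρ (a / 2 - t) (sub_eq_zero.mp ?_)
        have h4 := congrArg (fun Z => y * Z) hprod
        simp only [← Matrix.mul_assoc, hy', Matrix.one_mul, Matrix.mul_zero] at h4
        exact h4
      · intro k hk
        obtain ⟨u, v, rfl⟩ := hgen k hk
        exact ⟨u, v + u * (a / 2), by rw [add_smul, smul_sub, smul_smul]; abel⟩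
    clear hgen hab hρ hρK
    have hm2 : ((2 * (Fintype.card F - 1) : ℕ) : F) ≠ 0 := by
      rw [Nat.cast_mul, Nat.cast_sub Fintype.card_pos, FiniteField.cast_card_eq_zero, Nat.cast_ofNat, Nat.cast_one,
        zero_sub]
      exact mul_ne_zero h2 (neg_ne_zero.mpr one_ne_zero)
    constructor
    · intro h
      by_contra hne
      push Not at hne
      obtain ⟨hn2, hv⟩ := hne
      obtain ⟨-, s, hs⟩ := Cfsg.Agent.S5967.neg_one_pow (F := F) (show m + m ≠ 0 by omega) hv
      obtain ⟨i0, hi0⟩ : ∃ i0 : Fin (m + m), i0 = ⟨0, by omega⟩ := ⟨_, rfl⟩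
      have hs0 : s ≠ 0 := fun h0 => by
        rw [h0, zero_pow (by omega)] at hs
        simp at hs
      obtain ⟨D, hD⟩ : ∃ D, D = Matrix.diagonal (fun j : Fin (m + m) => if j = i0 then -s else s) := ⟨_, rfl⟩
      have hdet : D.det = 1 := by
        rw [hD, Matrix.det_diagonal, ← Finset.mul_prod_erase _ _ (Finset.mem_univ i0), if_pos rfl,
          Finset.prod_congr rfl (g := fun _ => s) (fun j hj => if_neg (Finset.ne_of_mem_erase hj)),
          Finset.prod_const, Finset.card_erase_of_mem (Finset.mem_univ _), Finset.card_univ, Fintype.card_fin,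
          neg_mul, ← pow_succ', Nat.sub_add_cancel (by omega), hs, neg_neg]
      obtain ⟨P, hP⟩ := h ⟨D, hdet⟩ ⟨s ^ 2, by
        show D ^ 2 = _
        rw [hD, Matrix.diagonal_pow, Matrix.smul_one_eq_diagonal]
        congr 1; funext j
        simp only [Pi.pow_apply]
        split_ifs <;> ring⟩ fun z hz => by
        obtain ⟨i1, hi1⟩ : ∃ i1 : Fin (m + m), i1 ≠ i0 := ⟨⟨1, by omega⟩, by rw [hi0]; simp⟩
        have e0 := congrFun (congrFun hz i0) i0
        have e1 := congrFun (congrFun hz i1) i1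
        simp [hD, hi1] at e0 e1
        rcases mul_eq_zero.mp (show (2 : F) * s = 0 by linear_combination e1 - e0) with h' | h'
        exacts [h2 h', hs0 h']
      obtain ⟨R, hR, -, hR'⟩ := pulled hK (a := (0 : F)) hρ'K (by rw [zero_smul, zero_add, ← pow_two, hρ'2]) hρ' _ P hP
      subst hD
      refine no_fix_semisimple h2 hs0 (by omega) hd i0 R (by rw [hR, zero_smul, zero_add]) ?_
      simpa using hR'
    · intro hR x ⟨c, hx⟩ hx'
      have hdetx : (x : Matrix (Fin (m + m)) (Fin (m + m)) F).det = 1 := x.det_coe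
      have hc0 := CfsgLib.SubElusive.scalar_data (r := 2) hdetx (by omega) hx
      have hord : ∀ (c : F), c ≠ 0 → ∀ Z : Matrix (Fin (m + m)) (Fin (m + m)) F,
          Z ^ 2 = c • (1 : Matrix (Fin (m + m)) (Fin (m + m)) F) →
          (Matrix.toLinAlgEquiv' Z) ^ (2 * (Fintype.card F - 1)) = 1 := by
        intro c hc0 Z hZ
        rw [← map_pow, pow_mul, hZ, _root_.smul_pow, one_pow, FiniteField.pow_card_sub_one_eq_one c hc0, one_smul, map_one]
      have hd0 : d ≠ 0 := fun h0 => hd 0 (by rw [h0, zero_pow two_ne_zero])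
      have gl_conj : ∀ (c : F), (∀ t : F, t ^ 2 ≠ c) → ∀ Z Z' : Matrix (Fin (m + m)) (Fin (m + m)) F,
          Z ^ 2 = c • (1 : Matrix (Fin (m + m)) (Fin (m + m)) F) → Z' ^ 2 = c • (1 : Matrix (Fin (m + m)) (Fin (m + m)) F) →
          ∃ Q : Matrix (Fin (m + m)) (Fin (m + m)) F, IsUnit Q.det ∧ Z * Q = Q * Z' := by
        intro c hc Z Z' hZ hZ'
        have hc0 : c ≠ 0 := fun h0 => hc 0 (by rw [h0, zero_pow two_ne_zero])
        obtain ⟨E, hE⟩ := Cfsg.Agent.H29.Semisimple.similar (m + m) (Matrix.toLinAlgEquiv' Z')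
          (Matrix.toLinAlgEquiv' Z) hm2 (hord c hc0 _ hZ') (hord c hc0 _ hZ) (Module.finrank_fin_fun F) (by
            show LinearMap.charpoly (Matrix.toLin' Z') = LinearMap.charpoly (Matrix.toLin' Z)
            rw [Matrix.charpoly_toLin', Matrix.charpoly_toLin',
              (CfsgLib.SubElusive.nonsplit (r := 2) _ hc hZ).2.1, (CfsgLib.SubElusive.nonsplit (r := 2) _ hc hZ').2.1])
        refine ⟨LinearMap.toMatrix' (E : (Fin (m + m) → F) →ₗ[F] (Fin (m + m) → F)), ?_, ?_⟩
        · rw [LinearMap.det_toMatrix']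
          exact LinearEquiv.isUnit_det' E
        · refine Matrix.ext_of_mulVec_single fun j => ?_
          rw [← Matrix.mulVec_mulVec, ← Matrix.mulVec_mulVec, LinearMap.toMatrix'_mulVec, LinearMap.toMatrix'_mulVec,
            ← Matrix.toLinAlgEquiv'_apply]
          show Matrix.toLinAlgEquiv' Z (E (Pi.single j 1)) = E (Z' *ᵥ Pi.single j 1)
          rw [← hE, Matrix.toLinAlgEquiv'_apply]
      by_cases hsq : ∃ s : F, s ^ 2 = c
      · obtain ⟨s, hs⟩ := hsq
        have hs0 : s ≠ 0 := fun h0 => hc0 (by rw [← hs, h0, zero_pow two_ne_zero])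
        obtain ⟨M, hMdef⟩ : ∃ M, M = s⁻¹ • (x : Matrix (Fin (m + m)) (Fin (m + m)) F) := ⟨_, rfl⟩
        have hM : M * M = 1 := by
          rw [← pow_two, hMdef, _root_.smul_pow, hx, smul_smul, ← hs, ← mul_pow, inv_mul_cancel₀ hs0, one_pow, one_smul]
        have hxM : (x : Matrix (Fin (m + m)) (Fin (m + m)) F) = s • M := by
          rw [hMdef, smul_smul, mul_inv_cancel₀ hs0, one_smul]
        obtain ⟨P, dd, hP, hMP⟩ := Cfsg.Agent.S5967.exists_sign_basis h2 M hM
        obtain ⟨k, hk⟩ : ∃ k, k = (Finset.univ.filter fun j => dd j = false).card := ⟨_, rfl⟩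
        have hxP : (x : Matrix (Fin (m + m)) (Fin (m + m)) F) * P = P * Matrix.diagonal fun j => if dd j then s else -s := by
          rw [hxM, Matrix.smul_mul, hMP, ← Matrix.mul_smul, ← Matrix.diagonal_smul]
          congr 2; funext j
          simp only [Pi.smul_apply, smul_eq_mul]
          split_ifs <;> ring
        have hsn : s ^ (m + m) * (-1) ^ k = 1 := by
          have h1 : M.det = (-1) ^ k := by
            have := congrArg Matrix.det hMP
            rw [Matrix.det_mul, Matrix.det_mul, mul_comm] at this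
            rw [mul_left_cancel₀ hP.ne_zero this, Matrix.det_diagonal, Finset.prod_ite, Finset.prod_const_one, one_mul,
              Finset.prod_const, hk]
            simp
          rw [← h1, ← hdetx, hxM, Matrix.det_smul, Fintype.card_fin]
        obtain ⟨e, ε, hε⟩ : ∃ (e : Fin m ⊕ Fin m ≃ Fin (m + m)) (ε : F), ∀ i,
            (if dd (e (Sum.inl i)) then s else -s) = ε * (if dd (e (Sum.inr i)) then s else -s) ∧
            ε * (if dd (e (Sum.inl i)) then s else -s) = (if dd (e (Sum.inr i)) then s else -s) := by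
          by_cases hke : Even k
          · obtain ⟨k', hk'⟩ := hke
            obtain ⟨e, he⟩ := Cfsg.Agent.S5967.align (m := m) dd k' rfl (hk.symm.trans hk')
            exact ⟨e, 1, fun i => by simp [he]⟩
          · have hn2 : m + m = 2 := by
              by_contra hne
              rw [(Nat.not_even_iff_odd.mp hke).neg_one_pow] at hsn
              exact Cfsg.Agent.S5967.no_neg_one_pow h2 (show m + m ≠ 0 by omega) (hR.resolve_left hne) s
                (by linear_combination -hsn)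
            obtain rfl : m = 1 := by omega
            have hle : k ≤ 1 + 1 := hk ▸ le_trans (Finset.card_le_univ _) (by simp)
            have hk1 : k = 1 := by
              rcases (show k = 0 ∨ k = 1 ∨ k = 2 by omega) with h' | h' | h'
              exacts [absurd (h' ▸ (by decide : Even 0)) hke, h', absurd (h' ▸ (by decide : Even 2)) hke]
            obtain ⟨j0, hj0⟩ := Finset.card_eq_one.mp (hk ▸ hk1)
            obtain ⟨e₀⟩ : Nonempty (Fin 1 ⊕ Fin 1 ≃ Fin (1 + 1)) := ⟨finSumFinEquiv⟩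
            refine ⟨(Equiv.swap (Sum.inr 0) (e₀.symm j0)).trans e₀, -1, fun i => ?_⟩
            obtain rfl : i = 0 := Subsingleton.elim _ _
            have hr : ((Equiv.swap (Sum.inr 0) (e₀.symm j0)).trans e₀) (Sum.inr (0 : Fin 1)) = j0 := by simp
            have hl : ((Equiv.swap (Sum.inr 0) (e₀.symm j0)).trans e₀) (Sum.inl (0 : Fin 1)) ≠ j0 := by
              intro h
              exact Sum.inl_ne_inr (((Equiv.swap (Sum.inr 0) (e₀.symm j0)).trans e₀).injective (h.trans hr.symm))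
            have hdr : dd j0 = false := by
              have h' : j0 ∈ Finset.univ.filter (fun j => dd j = false) := by rw [hj0]; exact Finset.mem_singleton_self j0
              exact (Finset.mem_filter.mp h').2
            have hdl : dd (((Equiv.swap (Sum.inr 0) (e₀.symm j0)).trans e₀) (Sum.inl (0 : Fin 1))) = true := by
              by_contra hne
              exact hl (Finset.mem_singleton.mp (hj0 ▸ Finset.mem_filter.mpr ⟨Finset.mem_univ _, by simpa using hne⟩))
            rw [hr, hdl, hdr]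
            simp
        obtain ⟨Q₀, hQ₀, hρQ⟩ := gl_conj d hd ρ' (Cfsg.Agent.S5967.swapY e d) hρ'2 (Cfsg.Agent.S5967.swapY_sq e d)
        refine conj_into hρ'K hgen' hρ' x P _ Q₀ _ hP hxP hQ₀ hρQ ε 0 ?_ fun δ _ => ?_
        · rw [zero_smul, add_zero]
          refine Matrix.ext_of_mulVec_single fun j => ?_
          rw [← Matrix.mulVec_mulVec, ← Matrix.mulVec_mulVec]
          generalize (Pi.single j (1 : F) : Fin (m + m) → F) = u
          funext z
          obtain ⟨z, rfl⟩ := e.surjective z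
          rcases z with i | i
          · rw [Matrix.mulVec_diagonal, Cfsg.Agent.S5967.swapY_inl, Matrix.smul_mulVec, Pi.smul_apply,
              Cfsg.Agent.S5967.swapY_inl, Matrix.mulVec_diagonal, (hε i).1, smul_eq_mul]
            ring
          · rw [Matrix.mulVec_diagonal, Cfsg.Agent.S5967.swapY_inr, Matrix.smul_mulVec, Pi.smul_apply,
              Cfsg.Agent.S5967.swapY_inr, Matrix.mulVec_diagonal, ← (hε i).2, smul_eq_mul]
            ring
        · refine ⟨Matrix.diagonal (Function.update (1 : Fin (m + m) → F) ⟨0, by omega⟩ δ), ?_, ?_⟩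
          · rw [Matrix.det_diagonal, Finset.prod_update_of_mem (Finset.mem_univ _)]
            simp
          · rw [Matrix.diagonal_mul_diagonal, Matrix.diagonal_mul_diagonal]
            congr 1; funext j; ring
      · push Not at hsq
        obtain ⟨t, ht⟩ : ∃ t : F, t ^ 2 * d = c := by
          have hp2 : ringChar F ≠ 2 := fun h => by
            have := FiniteField.even_card_iff_char_two.mp h
            have := Nat.odd_iff.mp hodd
            omega
          have hns : ∀ z : F, z ≠ 0 → (∀ t : F, t ^ 2 ≠ z) → z ^ (Fintype.card F / 2) = -1 := fun z hz hz' => by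
            refine (FiniteField.pow_dichotomy hp2 hz).resolve_left fun h => ?_
            obtain ⟨w, hw⟩ := (FiniteField.isSquare_iff hp2 hz).mpr h
            exact hz' w (by rw [pow_two, hw])
          obtain ⟨w, hw⟩ := (FiniteField.isSquare_iff hp2 (div_ne_zero hc0 hd0)).mpr (by
            rw [div_pow, hns c hc0 hsq, hns d hd0 hd, div_self (neg_ne_zero.mpr one_ne_zero)])
          exact ⟨w, by rw [pow_two, ← hw, div_mul_cancel₀ _ hd0]⟩
        obtain ⟨Q, hQ, hxQ⟩ := gl_conj c hsq (x : Matrix (Fin (m + m)) (Fin (m + m)) F) (t • ρ') hx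
          (by rw [_root_.smul_pow, hρ'2, smul_smul, ht])
        refine conj_into hρ'K hgen' hρ' x Q _ 1 ρ' hQ hxQ (by simp) (by simp) 1 0 ?_ fun δ hδ => ?_
        · rw [zero_smul, add_zero, one_smul, Matrix.smul_mul, Matrix.mul_smul]
        · obtain ⟨g, hg, hgdet⟩ := Cfsg.Agent.H29.Semisimple.exists_commute_det (Matrix.toLinAlgEquiv' (t • ρ')) hm2
            (hord c hc0 _ (by rw [_root_.smul_pow, hρ'2, smul_smul, ht])) (by rw [Module.finrank_fin_fun]; omega) hδ
          refine ⟨LinearMap.toMatrix' g, by rw [LinearMap.det_toMatrix', hgdet], ?_⟩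
          apply Matrix.toLinAlgEquiv'.injective
          rw [map_mul, map_mul, show Matrix.toLinAlgEquiv' (LinearMap.toMatrix' g) = g from Matrix.toLin'_toMatrix' g]
          exact hg

end Cfsg.Agent.S5969
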