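import Cfsg.Statements.S5970
import Cfsg.Agent.SubElusive.Singer
import Cfsg.Agent.SL2.Basic

set_option autoImplicit false
open scoped MatrixGroups
open Cfsg

namespace Cfsg.Agent.S5970

open scoped Matrix

theorem witness {F : Type*} [Field F] [Fintype F] {p : ℕ} [Fact p.Prime] [CharP F p] {n : ℕ} (hn : n.Prime) (hn3 : 3 < n)
    (hnp : n ≠ p) (hne : ¬ orderOf (Fintype.card F : ZMod n) = n - 1) :
    ∃ (x : Matrix.SpecialLinearGroup (Fin n) F) (i j : Fin n), i ≠ j ∧
      (x : Matrix (Fin n) (Fin n) F) *ᵥ Pi.single i 1 = (1 : F) • Pi.single i 1 ∧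
      (x : Matrix (Fin n) (Fin n) F) *ᵥ Pi.single j 1 = (1 : F) • Pi.single j 1 ∧
      (x : Matrix (Fin n) (Fin n) F) ^ n = 1 ∧
      ∀ z : F, (x : Matrix (Fin n) (Fin n) F) ≠ z • (1 : Matrix (Fin n) (Fin n) F) := by
  classical
  haveI := Fact.mk hn
  obtain ⟨f, hfp, hf⟩ := FiniteField.card F p
  have hq0 : (Fintype.card F : ZMod n) ≠ 0 := by
    rw [Ne, ZMod.natCast_eq_zero_iff, hf]
    exact fun h => hnp ((Nat.prime_dvd_prime_iff_eq hn (Fact.out : p.Prime)).mp (hn.dvd_of_dvd_pow h))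
  obtain ⟨i, hidef⟩ : ∃ i, i = orderOf (Fintype.card F : ZMod n) := ⟨_, rfl⟩
  have hidvd : i ∣ n - 1 := hidef ▸ ZMod.orderOf_dvd_card_sub_one hq0
  have hi0 : 0 < i := Nat.pos_of_dvd_of_pos hidvd (by omega)
  rw [← hidef] at hne
  have hile : i * 2 ≤ n - 1 := by
    obtain ⟨m, hm⟩ := hidvd
    rcases m with _ | _ | m
    · omega
    · omega
    · rw [hm]; exact Nat.mul_le_mul_left i (by omega)
  obtain ⟨m, hm⟩ : ∃ m, n = (m + 2) + (i + 1) ∧ True := ⟨n - i - 3, by omega, trivial⟩
  obtain ⟨hm, -⟩ := hm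
  -- an element of order `n` in `SL (i + 1)`
  obtain ⟨g, hg⟩ : ∃ g : Matrix.SpecialLinearGroup (Fin (i + 1)) F, orderOf g = n := by
    refine exists_prime_orderOf_dvd_card' n ?_
    have h1 := CfsgLib.SL2.card_SL_mul (F := F) (i + 1) (by omega)
    rw [Matrix.card_GL_field] at h1
    have hpow : ((Fintype.card F) ^ i : ZMod n) = 1 := by rw [hidef]; exact pow_orderOf_eq_one _
    have hq1 : 1 ≤ Fintype.card F := Fintype.card_pos
    have hd : n ∣ ∏ l : Fin (i + 1), (Fintype.card F ^ (i + 1) - Fintype.card F ^ (l : ℕ)) := by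
      refine dvd_trans ?_ (Finset.dvd_prod_of_mem _ (Finset.mem_univ (⟨1, by omega⟩ : Fin (i + 1))))
      rw [← ZMod.natCast_eq_zero_iff, Nat.cast_sub (Nat.pow_le_pow_right hq1 (by simp)), Nat.cast_pow, Nat.cast_pow,
        pow_succ', hpow, mul_one, pow_one, sub_self]
    rw [← h1] at hd
    rcases hn.dvd_mul.mp hd with hd1 | hd1
    · exact hd1
    · have hq1' : (Fintype.card F : ZMod n) = 1 := by
        have h0 : ((Fintype.card F - 1 : ℕ) : ZMod n) = 0 := (ZMod.natCast_eq_zero_iff _ _).mpr hd1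
        rwa [Nat.cast_sub Fintype.card_pos, Nat.cast_one, sub_eq_zero] at h0
      obtain rfl : i = 1 := by rw [hidef, hq1', orderOf_one]
      have hh := CfsgLib.SL2.card_SL_mul (F := F) (1 + 1) (by omega)
      rw [Matrix.card_GL_field] at hh
      simp only [Fin.prod_univ_succ, Fin.prod_univ_zero, mul_one, Fin.val_zero, Fin.val_succ, pow_zero, zero_add, pow_one] at hh
      have hfac : (Fintype.card F ^ (1 + 1) - 1) * (Fintype.card F ^ (1 + 1) - Fintype.card F) =
          (Fintype.card F + 1) * (Fintype.card F - 1) * Fintype.card F * (Fintype.card F - 1) := by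
        have e1 : Fintype.card F ^ (1 + 1) - 1 = (Fintype.card F + 1) * (Fintype.card F - 1) := by
          rw [← Nat.sq_sub_sq, one_pow]
        have e2 : Fintype.card F ^ (1 + 1) - Fintype.card F = Fintype.card F * (Fintype.card F - 1) := by
          rw [Nat.mul_sub, mul_one, pow_succ, pow_one]
        rw [e1, e2, ← mul_assoc]
      rw [hfac] at hh
      have hs' := Nat.eq_of_mul_eq_mul_right (by have := Fintype.one_lt_card (α := F); omega) hh
      rw [hs']
      exact dvd_mul_of_dvd_left (dvd_mul_of_dvd_right hd1 _) _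
  obtain ⟨e, -⟩ : ∃ e : Fin (m + 2) ⊕ Fin (i + 1) ≃ Fin n, True := ⟨finSumFinEquiv.trans (finCongr hm.symm), trivial⟩
  obtain ⟨B, hB⟩ : ∃ B, B = Matrix.fromBlocks (1 : Matrix (Fin (m + 2)) (Fin (m + 2)) F) 0 0 (g : Matrix (Fin (i + 1)) (Fin (i + 1)) F) :=
    ⟨_, rfl⟩
  obtain ⟨X, hX⟩ : ∃ X, X = Matrix.reindexAlgEquiv F F e B := ⟨_, rfl⟩
  have hdet : X.det = 1 := by
    rw [hX, Matrix.det_reindexAlgEquiv, hB, Matrix.det_fromBlocks_zero₂₁, Matrix.det_one, one_mul, g.det_coe]
  have hgn : (g : Matrix (Fin (i + 1)) (Fin (i + 1)) F) ^ n = 1 := by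
    rw [← Matrix.SpecialLinearGroup.coe_pow, ← hg, pow_orderOf_eq_one, Matrix.SpecialLinearGroup.coe_one]
  refine ⟨⟨X, hdet⟩, e (Sum.inl 0), e (Sum.inl 1), fun h => by simpa using e.injective h, ?_, ?_, ?_, fun z hz => ?_⟩
  iterate 2
    show X *ᵥ _ = _
    rw [one_smul, Matrix.mulVec_single_one]
    funext z
    obtain ⟨z, rfl⟩ := e.surjective z
    rcases z with z | z <;> simp [hX, hB, Matrix.one_apply, Pi.single_apply]
  · show X ^ n = 1
    have hB' : ∀ j : ℕ, B ^ j = Matrix.fromBlocks 1 0 0 ((g : Matrix (Fin (i + 1)) (Fin (i + 1)) F) ^ j) := by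
      intro j
      induction j with
      | zero => simp [Matrix.fromBlocks_one]
      | succ j ih => rw [pow_succ, ih, hB, Matrix.fromBlocks_multiply]; simp [pow_succ]
    rw [hX, ← map_pow, hB', hgn, Matrix.fromBlocks_one, map_one]
  · replace hz : X = z • (1 : Matrix (Fin n) (Fin n) F) := hz
    have h1 : B = z • 1 := by
      apply (Matrix.reindexAlgEquiv F F e).injective
      rw [← hX, hz, map_smul, map_one]
    have h00 := congrFun (congrFun h1 (Sum.inl 0)) (Sum.inl 0)
    rw [hB] at h00 h1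
    simp at h00
    subst h00
    rw [one_smul, ← Matrix.fromBlocks_one] at h1
    have hg1 : g = 1 := Matrix.SpecialLinearGroup.ext _ _ fun a b => by
      rw [(Matrix.fromBlocks_inj.mp h1).2.2.2]; simp
    rw [hg1, orderOf_one] at hg
    omega


/-- Elements of order `n` of PSL_n(q), `n` prime, and the normalizer of a Singer cycle. Here `T = PSL_n(F)` for a field `F` with `q = p^f` elements (`n ≥ 2`, `(n, q) ≠ (2, 2), (2, 3)`), `k` is a prime dividing `n`, `K` is a subalgebra of the `n × n` matrices that is a field of degree `k` over `F` (an extension-field structure F_{q^k} on `F^n`), and `H` is the subgroup of matrices of determinant 1 normalizing `K` — a subgroup of type GL_{n/k}(q^k) (maximal except in some small cases; maximality is not assumed); Ω is the set of cosets of `H` in `T`, so an element of `T` of prime order `r` (a matrix `x` of determinant 1 with `x^r` scalar, `x` not scalar) fixes a point of Ω when some conjugate of `x` by a matrix of determinant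 1 normalizes `K`. Take `k = n > 3` prime with `n ≠ p` (so `H` is the normalizer of a Singer cycle), and suppose `n` divides the index of `H`. Then every element of `T` of order `n` is conjugate in `T` into `H` if and only if the multiplicative order of `q` modulo `n` is `n − 1`. -/
theorem result {F : Type*} [Field F] [Fintype F] {p : ℕ} [Fact p.Prime] [CharP F p] {q : ℕ} (hq : Fintype.card F = q)
    (n : ℕ) (hn : 2 ≤ n) (hT : (n, q) ≠ (2, 2) ∧ (n, q) ≠ (2, 3))
    (k : ℕ) (hk : k.Prime) (hkn : k ∣ n) (K : Subalgebra F (Matrix (Fin n) (Fin n) F)) (hK : Cfsg.Geo.IsFieldSubalgebra k K) (hkn' : k = n) (hn3 : 3 < n) (hnp : n ≠ p) (hΩ : n ∣ ((Cfsg.Geo.subalgebraNormalizer K).comap (Matrix.SpecialLinearGroup.toGL : Matrix.SpecialLinearGroup (Fin n) F →* GL (Fin n) F)).index) :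
    (∀ x : Matrix.SpecialLinearGroup (Fin n) F,
      (∃ z : F, ((x ^ n : Matrix.SpecialLinearGroup (Fin n) F) : Matrix (Fin n) (Fin n) F) = z • (1 : Matrix (Fin n) (Fin n) F)) →
      (∀ z : F, (x : Matrix (Fin n) (Fin n) F) ≠ z • (1 : Matrix (Fin n) (Fin n) F)) →
      ∃ P : Matrix.SpecialLinearGroup (Fin n) F, P⁻¹ * x * P ∈ ((Cfsg.Geo.subalgebraNormalizer K).comap (Matrix.SpecialLinearGroup.toGL : Matrix.SpecialLinearGroup (Fin n) F →* GL (Fin n) F))) ↔
    orderOf (q : ZMod n) = n - 1 := by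
  classical
  subst hkn' hq
  haveI := Fact.mk hk
  haveI : Nonempty (Fin k) := ⟨⟨0, hk.pos⟩⟩
  have hnF : (k : F) ≠ 0 := fun h => hnp ((Nat.prime_dvd_prime_iff_eq (Fact.out : p.Prime) hk).mp
    ((CharP.cast_eq_zero_iff F p k).mp h)).symm
  simp only [Matrix.SpecialLinearGroup.coe_pow]
  constructor
  · intro h
    by_contra hne
    obtain ⟨x, i, j, hij, hxi, hxj, hxk, hx'⟩ := witness (F := F) hk hn3 hnp hne (p := p)
    obtain ⟨P, hP⟩ := h x ⟨1, by rw [one_smul, hxk]⟩ hx'
    exact CfsgLib.SubElusive.singer_no_fix hk hK x P (t := 1) (v := Pi.single i 1) (w := Pi.single j 1) (by simp) hxi hxj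
      (fun a ha => by simpa [hij.symm] using congrFun ha j) hx' hP
  · intro hi x ⟨c, hx⟩ hx'
    obtain ⟨h1, h2⟩ := CfsgLib.SubElusive.singer_max (p := p) hnp (by omega) hi x hx hx'
    exact CfsgLib.SubElusive.singer_conj hk hnF hK x h1 h2

end Cfsg.Agent.S5970
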