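import Cfsg.Statements.S5971
import Cfsg.Agent.SubElusive.Singer
import Cfsg.Agent.SL2.Basic

set_option autoImplicit false
open scoped MatrixGroups
open Cfsg

namespace Cfsg.Agent.S5971

open scoped Matrix

open Polynomial in
theorem split_case {F : Type*} [Field F] [Fintype F] (h3F : (3 : F) ≠ 0) (h9 : ¬ 9 ∣ Fintype.card F - 1)
    (x : Matrix.SpecialLinearGroup (Fin 3) F) {c : F}
    (hx : (x : Matrix (Fin 3) (Fin 3) F) ^ 3 = c • (1 : Matrix (Fin 3) (Fin 3) F))
    (hx' : ∀ z : F, (x : Matrix (Fin 3) (Fin 3) F) ≠ z • (1 : Matrix (Fin 3) (Fin 3) F)) :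
    (x : Matrix (Fin 3) (Fin 3) F) ^ 3 = 1 ∧ (x : Matrix (Fin 3) (Fin 3) F).charpoly = X ^ 3 - 1 := by
  classical
  obtain ⟨M, hMdef⟩ : ∃ M, M = (x : Matrix (Fin 3) (Fin 3) F) := ⟨_, rfl⟩
  rw [← hMdef] at hx hx' ⊢
  have hc3 : c ^ 3 = 1 := by
    have := congrArg Matrix.det hx
    rw [Matrix.det_pow, hMdef, x.det_coe, one_pow, Matrix.det_smul, Matrix.det_one, mul_one, Fintype.card_fin] at this
    exact this.symm
  have hm := Matrix.charpoly_monic M
  have hdeg : M.charpoly.natDegree = 3 := by rw [Matrix.charpoly_natDegree_eq_dim, Fintype.card_fin]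
  obtain ⟨a, ha⟩ : ∃ a, a = M.charpoly.coeff 2 := ⟨_, rfl⟩
  obtain ⟨b, hb⟩ : ∃ b, b = M.charpoly.coeff 1 := ⟨_, rfl⟩
  have hcoeff0 : M.charpoly.coeff 0 = -1 := by
    have := Matrix.det_eq_sign_charpoly_coeff M
    rw [show M.det = 1 by rw [hMdef, x.det_coe], Fintype.card_fin] at this
    linear_combination this
  have hcp : M.charpoly = X ^ 3 + C a * X ^ 2 + C b * X + C (-1) := by
    have h1 := hm.as_sum
    rw [hdeg, Finset.sum_range_succ, Finset.sum_range_succ, Finset.sum_range_succ, Finset.sum_range_zero, zero_add,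
      hcoeff0, ← ha, ← hb, pow_zero, mul_one, pow_one] at h1
    rw [h1]; ring
  have hCH : a • M ^ 2 + b • M + (c - 1) • 1 = 0 := by
    have h1 := Matrix.aeval_self_charpoly M
    rw [hcp] at h1
    simp only [map_add, map_mul, map_pow, aeval_X, aeval_C, Algebra.algebraMap_eq_smul_one, Matrix.smul_mul, Matrix.one_mul,
      hx] at h1
    rw [sub_smul, sub_eq_add_neg, ← neg_smul, ← h1]
    abel
  have hc1 : c = 1 := by
    by_contra hc1
    have hnc : ∀ d : F, d ^ 3 ≠ c := by
      intro d hd
      have hd9 : d ^ 9 = 1 := by rw [show 9 = 3 * 3 from rfl, pow_mul, hd, hc3]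
      have hd0 : d ≠ 0 := fun h0 => by rw [h0, zero_pow (by norm_num)] at hd9; exact zero_ne_one hd9
      have : orderOf (Units.mk0 d hd0) = 9 := by
        haveI : Fact (Nat.Prime 3) := ⟨Nat.prime_three⟩
        refine orderOf_eq_prime_pow (p := 3) (n := 1) (fun h => hc1 ?_) (Units.ext (by simpa using hd9))
        rw [← hd]
        simpa using congrArg Units.val h
      refine h9 ?_
      rw [← this, ← Nat.card_eq_fintype_card, ← Nat.card_units]
      exact orderOf_dvd_natCard _
    have hirr := X_pow_sub_C_irreducible_of_prime Nat.prime_three hnc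
    have hroot : aeval M (X ^ 3 - C c) = 0 := by
      rw [map_sub, map_pow, aeval_X, aeval_C, Algebra.algebraMap_eq_smul_one, hx, sub_self]
    have hmp : minpoly F M = X ^ 3 - C c := by
      haveI : Nonempty (Fin 3) := ⟨0⟩
      refine eq_of_monic_of_associated (minpoly.monic M.isIntegral) (monic_X_pow_sub_C c (by norm_num)) ?_
      exact ((minpoly.not_isUnit F M).imp id |> fun hnu => (hirr.dvd_iff.mp (minpoly.dvd F M hroot)).resolve_left hnu).symm
    have hdvd := Matrix.minpoly_dvd_charpoly M
    rw [hmp] at hdvd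
    have heq := eq_of_monic_of_dvd_of_natDegree_le (monic_X_pow_sub_C c (by norm_num)) hm hdvd
      (by rw [hdeg, natDegree_X_pow_sub_C])
    have := congrArg (fun P => coeff P 0) heq
    simp [hcoeff0] at this
    exact hc1 this.symm
  subst hc1
  rw [one_smul] at hx
  refine ⟨hx, ?_⟩
  rw [sub_self, zero_smul, add_zero] at hCH
  have h1 : a • M + b • 1 = 0 := by
    have h2 : M ^ 2 * (a • M ^ 2 + b • M) = 0 := by rw [hCH, mul_zero]
    rw [Matrix.mul_add, Matrix.mul_smul, Matrix.mul_smul, ← pow_add, ← pow_succ, show (2 + 2) = 3 + 1 from rfl, pow_succ,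
      show (2 + 1) = 3 from rfl, hx, Matrix.one_mul] at h2
    exact h2
  have ha0 : a = 0 := by
    by_contra ha0
    refine hx' (-(a⁻¹ * b)) ?_
    have h2 := congrArg (fun Z => a⁻¹ • Z) h1
    simp only [smul_add, smul_smul, inv_mul_cancel₀ ha0, one_smul, smul_zero] at h2
    rw [neg_smul, eq_neg_iff_add_eq_zero, h2]
  have hb0 : b = 0 := by
    rw [ha0, zero_smul, zero_add, smul_eq_zero] at h1
    exact h1.resolve_right one_ne_zero
  rw [hcp, ha0, hb0]
  simp [sub_eq_add_neg]


/-- Elements of order 3 of PSL_3(q) and the normalizer of a Singer cycle. Here `T = PSL_n(F)` for a field `F` with `q = p^f` elements (`n ≥ 2`, `(n, q) ≠ (2, 2), (2, 3)`), `k` is a prime dividing `n`, `K` is a subalgebra of the `n × n` matrices that is a field of degree `k` over `F` (an extension-field structure F_{q^k} on `F^n`), and `H` is the subgroup of matrices of determinant 1 normalizing `K` — a subgroup of type GL_{n/k}(q^k) (maximal except in some small cases; maximality is not assumed); Ω is the set of cosets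 of `H` in `T`, so an element of `T` of prime order `r` (a matrix `x` of determinant 1 with `x^r` scalar, `x` not scalar) fixes a point of Ω when some conjugate of `x` by a matrix of determinant 1 normalizes `K`. Take `n = k = 3` and suppose 3 divides the index of `H`. Then every element of `T` of order 3 is conjugate in `T` into `H` if and only if `q ≡ 4, 7` or `8 (mod 9)`. -/
theorem result {F : Type*} [Field F] [Fintype F] {p : ℕ} [Fact p.Prime] [CharP F p] {q : ℕ} (hq : Fintype.card F = q)
    (n : ℕ) (hn : n = 3) (k : ℕ) (hk : k.Prime) (hkn : k ∣ n) (K : Subalgebra F (Matrix (Fin n) (Fin n) F)) (hK : Cfsg.Geo.IsFieldSubalgebra k K) (hk3 : k = 3) (hΩ : 3 ∣ ((Cfsg.Geo.subalgebraNormalizer K).comap (Matrix.SpecialLinearGroup.toGL : Matrix.SpecialLinearGroup (Fin n) F →* GL (Fin n) F)).index) :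
    (∀ x : Matrix.SpecialLinearGroup (Fin n) F,
      (∃ z : F, ((x ^ 3 : Matrix.SpecialLinearGroup (Fin n) F) : Matrix (Fin n) (Fin n) F) = z • (1 : Matrix (Fin n) (Fin n) F)) →
      (∀ z : F, (x : Matrix (Fin n) (Fin n) F) ≠ z • (1 : Matrix (Fin n) (Fin n) F)) →
      ∃ P : Matrix.SpecialLinearGroup (Fin n) F, P⁻¹ * x * P ∈ ((Cfsg.Geo.subalgebraNormalizer K).comap (Matrix.SpecialLinearGroup.toGL : Matrix.SpecialLinearGroup (Fin n) F →* GL (Fin n) F))) ↔
    (q % 9 = 4 ∨ q % 9 = 7 ∨ q % 9 = 8) := by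
  classical
  subst hn hk3 hq
  haveI := Fact.mk hk
  simp only [Matrix.SpecialLinearGroup.coe_pow]
  constructor
  · intro h
    by_contra hne
    rcases (show Fintype.card F % 3 = 0 ∨ Fintype.card F % 9 = 1 ∨ (Fintype.card F % 9 = 2 ∨ Fintype.card F % 9 = 5) by omega)
      with h0 | h1 | h2
    · have hp3 : p = 3 := by
        obtain ⟨f, -, hf⟩ := FiniteField.card F p
        have : 3 ∣ p ^ (f : ℕ) := by rw [← hf]; exact Nat.dvd_of_mod_eq_zero h0
        exact ((Nat.prime_dvd_prime_iff_eq hk (Fact.out : p.Prime)).mp (hk.dvd_of_dvd_pow this)).symm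
      subst hp3
      have hij : (0 : Fin 3) ≠ 1 := by decide
      obtain ⟨x, hx⟩ : ∃ x : Matrix.SpecialLinearGroup (Fin 3) F, (x : Matrix (Fin 3) (Fin 3) F) = !![1, 1, 0; 0, 1, 0; 0, 0, 1] :=
        ⟨⟨_, by rw [Matrix.det_fin_three]; simp⟩, rfl⟩
      obtain ⟨P, hP⟩ := h x ⟨1, by
        rw [hx, one_smul, pow_succ, pow_two]
        have h3 : (3 : F) = 0 := by exact_mod_cast CharP.cast_eq_zero F 3
        ext i j
        fin_cases i <;> fin_cases j <;> simp [Matrix.mul_apply, Fin.sum_univ_three] <;> linear_combination h3⟩ fun z hz => by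
        have := congrFun (congrFun hz 0) 1
        rw [hx] at this
        simp at this
      refine CfsgLib.SubElusive.singer_no_fix hk hK x P (t := 1) (v := Pi.single 0 1) (w := Pi.single 2 1) (by simp) ?_ ?_
        (fun a ha => by simpa using congrFun ha 2) (fun z hz => ?_) hP
      iterate 2
        rw [hx, Matrix.mulVec_single_one, one_smul]
        funext i
        fin_cases i <;> simp
      have := congrFun (congrFun hz 0) 1
      rw [hx] at this
      simp at this
    · obtain ⟨g, hg⟩ := IsCyclic.exists_ofOrder_eq_natCard (α := Fˣ)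
      rw [Nat.card_units, Nat.card_eq_fintype_card] at hg
      have hd : 9 ∣ orderOf g := by rw [hg]; omega
      have hs := orderOf_pow_orderOf_div (orderOf_pos g).ne' hd
      generalize g ^ (orderOf g / 9) = s at hs
      have h9 : (s : F) ^ 9 = 1 := by rw [← Units.val_pow_eq_pow_val, ← hs, pow_orderOf_eq_one, Units.val_one]
      have h3 : (s : F) ^ 3 ≠ 1 := fun h3 => by
        have := Nat.le_of_dvd (by norm_num) (orderOf_dvd_of_pow_eq_one (x := s) (n := 3) (Units.ext (by simpa using h3)))
        omega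
      obtain ⟨x, hx⟩ : ∃ x : Matrix.SpecialLinearGroup (Fin 3) F,
          (x : Matrix (Fin 3) (Fin 3) F) = Matrix.diagonal ![(s : F), s, (s : F) ^ 7] := by
        refine ⟨⟨Matrix.diagonal ![(s : F), s, (s : F) ^ 7], ?_⟩, rfl⟩
        rw [Matrix.det_diagonal, Fin.prod_univ_three]
        simp only [Matrix.cons_val_zero, Matrix.cons_val_one, Matrix.cons_val]
        rw [← h9]; ring
      have hns : ∀ z : F, (x : Matrix (Fin 3) (Fin 3) F) ≠ z • (1 : Matrix (Fin 3) (Fin 3) F) := by
        intro z hz
        rw [hx] at hz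
        have e0 := congrFun (congrFun hz 0) 0
        have e2 := congrFun (congrFun hz 2) 2
        simp at e0 e2
        refine h3 ?_
        calc (s : F) ^ 3 = (s : F) ^ 2 * s := by ring
          _ = (s : F) ^ 2 * (s : F) ^ 7 := by rw [e2, ← e0]
          _ = 1 := by rw [← h9]; ring
      obtain ⟨P, hP⟩ := h x ⟨(s : F) ^ 3, by
        rw [hx, Matrix.diagonal_pow, Matrix.smul_one_eq_diagonal]
        congr 1; funext i
        fin_cases i <;> simp
        rw [← pow_mul, show 7 * 3 = 9 + 9 + 3 by rfl, pow_add, pow_add, h9, one_mul, one_mul]⟩ hns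
      refine CfsgLib.SubElusive.singer_no_fix hk hK x P (t := (s : F)) (v := Pi.single 0 1) (w := Pi.single 1 1) (by simp) ?_ ?_
        (fun a ha => by simpa using congrFun ha 1) hns hP
      iterate 2
        rw [hx, Matrix.mulVec_single_one]
        funext i
        fin_cases i <;> simp
    · have h3F : (3 : F) ≠ 0 := fun h0 => by
        have h3p : p ∣ 3 := (CharP.cast_eq_zero_iff F p 3).mp (by exact_mod_cast h0)
        obtain ⟨f, hfp, hf⟩ := FiniteField.card F p
        have : 3 ∣ Fintype.card F := by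
          rw [hf, (Nat.prime_dvd_prime_iff_eq (Fact.out : p.Prime) hk).mp h3p]
          exact dvd_pow_self 3 f.2.ne'
        omega
      obtain ⟨H, hH⟩ : ∃ H, H = (Cfsg.Geo.subalgebraNormalizer K).comap
          (Matrix.SpecialLinearGroup.toGL : Matrix.SpecialLinearGroup (Fin 3) F →* GL (Fin 3) F) := ⟨_, rfl⟩
      rw [← hH] at hΩ
      obtain ⟨Y, hY, hY3, hYc⟩ := CfsgLib.SubElusive.exists_galois hk hK
      have hdetY : (Y : Matrix (Fin 3) (Fin 3) F).det = 1 := by
        rw [Matrix.det_eq_sign_charpoly_coeff, hYc]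
        simp [Polynomial.coeff_X_pow]; norm_num
      obtain ⟨y, hy⟩ : ∃ y : Matrix.SpecialLinearGroup (Fin 3) F, y = ⟨_, hdetY⟩ := ⟨_, rfl⟩
      have hyH : y ∈ H := by
        rw [hH, Subgroup.mem_comap, show Matrix.SpecialLinearGroup.toGL y = Y from Units.ext (by rw [hy]; rfl)]
        exact hY
      have hord : orderOf y = 3 := by
        refine orderOf_eq_prime (Matrix.SpecialLinearGroup.ext _ _ fun i j => ?_) fun h1 => ?_
        · rw [Matrix.SpecialLinearGroup.coe_pow, hy]
          show ((Y : Matrix (Fin 3) (Fin 3) F) ^ 3) i j = _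
          rw [hY3, Matrix.SpecialLinearGroup.coe_one]
        · have h1' : (Y : Matrix (Fin 3) (Fin 3) F) = 1 := by
            have := congrArg (fun A : Matrix.SpecialLinearGroup (Fin 3) F => (A : Matrix (Fin 3) (Fin 3) F)) h1
            rw [hy] at this
            simpa using this
          rw [h1', Matrix.charpoly_one, Fintype.card_fin] at hYc
          have := congrArg (fun P => Polynomial.coeff P 2) hYc
          have he : (Polynomial.X - 1 : Polynomial F) ^ 3 =
              Polynomial.X ^ 3 - Polynomial.C 3 * Polynomial.X ^ 2 + Polynomial.C 3 * Polynomial.X - 1 := by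
            simp only [map_ofNat]; ring
          rw [he] at this
          simp [Polynomial.coeff_X_pow, Polynomial.coeff_one] at this
          exact h3F this
      have h3H : 3 ∣ Nat.card H := by
        have := orderOf_dvd_natCard (⟨y, hyH⟩ : H)
        rwa [Subgroup.orderOf_mk, hord] at this
      have h9 : 9 ∣ Nat.card (Matrix.SpecialLinearGroup (Fin 3) F) := by
        rw [← H.card_mul_index]
        exact mul_dvd_mul (a := 3) (c := 3) h3H hΩ
      have hc := CfsgLib.SL2.card_SL_mul (F := F) 3 (by omega)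
      rw [Matrix.card_GL_field, Fin.prod_univ_three] at hc
      generalize Nat.card (Matrix.SpecialLinearGroup (Fin 3) F) = N at h9 hc
      obtain ⟨q, hq⟩ : ∃ q, q = Fintype.card F := ⟨_, rfl⟩
      rw [← hq] at hc h2
      simp only [Fin.val_zero, Fin.val_one, Fin.val_two, pow_zero, pow_one] at hc
      obtain ⟨k', rfl⟩ := h9
      have hz : (((9 * k' * (q - 1) : ℕ)) : ZMod 9) = 0 := by
        rw [Nat.cast_mul, Nat.cast_mul, show ((9 : ℕ) : ZMod 9) = 0 from ZMod.natCast_self 9, zero_mul, zero_mul]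
      rw [hc, Nat.cast_mul, Nat.cast_mul, Nat.cast_sub (Nat.one_le_pow _ _ (by omega)),
        Nat.cast_sub (Nat.le_self_pow (by norm_num) q), Nat.cast_sub (Nat.pow_le_pow_right (by omega) (by norm_num)),
        Nat.cast_pow, Nat.cast_pow, Nat.cast_one, ← ZMod.natCast_mod q 9] at hz
      rcases h2 with h2 | h2 <;> rw [h2] at hz <;> revert hz <;> decide
  · intro hR x ⟨c, hx⟩ hx'
    have h3F : (3 : F) ≠ 0 := fun h0 => by
      have h3p : p ∣ 3 := (CharP.cast_eq_zero_iff F p 3).mp (by exact_mod_cast h0)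
      obtain ⟨f, hfp, hf⟩ := FiniteField.card F p
      have : 3 ∣ Fintype.card F := by
        rw [hf, (Nat.prime_dvd_prime_iff_eq (Fact.out : p.Prime) hk).mp h3p]
        exact dvd_pow_self 3 f.2.ne'
      omega
    suffices h : (x : Matrix (Fin 3) (Fin 3) F) ^ 3 = 1 ∧ (x : Matrix (Fin 3) (Fin 3) F).charpoly = Polynomial.X ^ 3 - 1 from
      CfsgLib.SubElusive.singer_conj hk (by exact_mod_cast h3F) hK x h.1 h.2
    rcases (show Fintype.card F % 9 = 8 ∨ (Fintype.card F % 3 = 1 ∧ ¬ 9 ∣ Fintype.card F - 1) by omega) with h8 | ⟨h1, h9⟩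
    · refine CfsgLib.SubElusive.singer_max (p := p) (fun h => ?_) (by norm_num) ?_ x hx hx'
      · exact h3F (by have := CharP.cast_eq_zero F p; rw [← h] at this; exact_mod_cast this)
      · have h2 : (Fintype.card F : ZMod 3) = 2 := by
          rw [← ZMod.natCast_mod, show Fintype.card F % 3 = 2 by omega]; rfl
        rw [h2]; exact orderOf_eq_prime (p := 2) (by rfl) (fun h => absurd (congrArg ZMod.val h) (show (2 : ℕ) ≠ 1 by norm_num))
    · exact split_case h3F h9 x hx hx'

end Cfsg.Agent.S5971
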