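import Cfsg.Statements.S5972
import Cfsg.Agent.SubElusive.OrthTS
import Cfsg.Agent.SubElusive.OrthTSInv

set_option autoImplicit false
open scoped MatrixGroups
open Cfsg

namespace Cfsg.Agent.S5972

/-- Elements of prime order of Ω_n(q), n = 2d+1 ≥ 7, q odd, with no fixed totally singular `m`-space. Here `T = Ω_n(q)` is realised as the commutator subgroup of the isometry group of the quadratic form `x₀² + Σ xᵢyᵢ` over the field `F` with `q` elements (it has trivial centre, so its elements of prime order `r` are used directly); let `1 ≤ m ≤ d` and let `r` be a prime dividing the number of totally singular `m`-spaces. For `r ≠ p` let `i` be the multiplicative order of `q` modulo `r`, `c = i` for `i` even and `c = 2i` for `i` odd, and write `k = n mod c`, `ℓ = m mod i`, `n' = ⌊n/i⌋`, `m' = ⌊m/i⌋`, `t = (r−1)/i`. Then every element of `T` of order `r` fixes some totally singular `m`-space if and only if either (i) `r =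 2` and (`m < (n−1)/2` or `q ≡ 1 (mod 4)`); or (ii) `r ≠ p` is odd, `i ≤ m`, `k > 2ℓ`, and (`i` is odd or `n' − 2m' ≥ t`). -/
theorem result {F : Type*} [Field F] [Fintype F] {p : ℕ} [Fact p.Prime] [CharP F p] {q : ℕ} (hq : Fintype.card F = q) (hqodd : Odd q)
    (d m : ℕ) (hd : 3 ≤ d) (hm : 1 ≤ m) (hmd : m ≤ d)
    (r : ℕ) [Fact r.Prime]
    (hrΩ : r ∣ Nat.card {W : Submodule F (Unit ⊕ (Fin d ⊕ Fin d) → F) // Module.finrank F ↥W = m ∧ (∀ w ∈ W, Cfsg.quadFormOdd d F w = 0)})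
    (i c : ℕ) (hi : i = orderOf (q : ZMod r)) (hc : c = if Even i then i else 2 * i) :
    (∀ x : GL (Unit ⊕ (Fin d ⊕ Fin d)) F, x ∈ Cfsg.Geo.omegaGL (Cfsg.quadFormOdd d F) → orderOf x = r →
      ∃ W : Submodule F (Unit ⊕ (Fin d ⊕ Fin d) → F), Module.finrank F ↥W = m ∧ (∀ w ∈ W, Cfsg.quadFormOdd d F w = 0) ∧
        W.map (Matrix.toLin' (x : Matrix (Unit ⊕ (Fin d ⊕ Fin d)) (Unit ⊕ (Fin d ⊕ Fin d)) F)) ≤ W) ↔
    ((r = 2 ∧ (m < d ∨ q % 4 = 1)) ∨
     (r ≠ p ∧ 2 < r ∧ i ≤ m ∧ 2 * (m % i) < (2 * d + 1) % c ∧ (Odd i ∨ (r - 1) / i + 2 * (m / i) ≤ (2 * d + 1) / i))) := by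
  subst hq
  have h2 := CfsgLib.OrthOddSub.two_ne_zero_of_odd (F := F) hqodd
  have hQ := CfsgLib.Forms.nondegenerate_quadOdd (F := F) d h2
  have hι : Fintype.card (Unit ⊕ (Fin d ⊕ Fin d)) = 2 * d + 1 := by simp; omega
  simp only [← CfsgLib.Forms.coe_quadOdd] at hrΩ ⊢
  obtain ⟨hrp, j, hj1, hj2, hj⟩ := CfsgLib.OrthTS.ts_data (p := p) h2 hmd hrΩ
  have hsq : IsSquare (-1 : F) ↔ Fintype.card F % 4 = 1 := by
    rw [FiniteField.isSquare_neg_one_iff]
    have := Nat.odd_iff.mp hqodd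
    omega
  by_cases hr2 : r = 2
  · subst hr2
    constructor
    · intro hall
      refine Or.inl ⟨rfl, ?_⟩
      by_contra hcon
      push Not at hcon
      obtain ⟨g, hg, hg2, hg1, hno⟩ := CfsgLib.OrthTS.exists_invol_no_ts h2 hQ (mt hsq.mp hcon.2) (d := d) (by omega) hι
      obtain ⟨W, hWd, hWs, hW⟩ := hall _ (CfsgLib.Forms.mem_omegaGL.mpr ⟨g, hg, rfl⟩)
        (orderOf_eq_prime (by rw [pow_two, ← Subgroup.coe_mul, hg2, OneMemClass.coe_one]) fun h => hg1 (Subtype.ext h))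
      exact hno W (by omega) hWs hW
    · intro hc' x hx hxo
      obtain ⟨y, hy, rfl⟩ := CfsgLib.Forms.mem_omegaGL.mp hx
      have hX : ((y : GL (Unit ⊕ (Fin d ⊕ Fin d)) F) : Matrix (Unit ⊕ (Fin d ⊕ Fin d)) (Unit ⊕ (Fin d ⊕ Fin d)) F) *
          ((y : GL (Unit ⊕ (Fin d ⊕ Fin d)) F) : Matrix (Unit ⊕ (Fin d ⊕ Fin d)) (Unit ⊕ (Fin d ⊕ Fin d)) F) = 1 := by
        rw [← Units.val_mul, ← pow_two, ← hxo, pow_orderOf_eq_one, Units.val_one]
      rcases lt_or_eq_of_le hmd with hlt | heq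
      · exact CfsgLib.OrthTS.exists_ts_invol h2 hQ hX (CfsgLib.Forms.mem_isometryGroup.mp y.2) hι hlt
      · refine CfsgLib.OrthTS.exists_ts_invol_omega h2 hQ y hy hX (hsq.mpr ?_) (by omega) hι hmd
        rcases hc' with ⟨-, h | h⟩ | ⟨-, h, -⟩
        · omega
        · exact h
        · omega
  have hr3 : 2 < r := by have := (Fact.out : r.Prime).two_le; omega
  have hij : i ∣ 2 * j := hi ▸ orderOf_dvd_of_pow_eq_one hj
  obtain ⟨u, hu⟩ := CfsgLib.SemiClasses.exists_unit_card (F := F) (p := p) (r := r) dvd_rfl hrp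
  have hipos : 0 < i := by rw [hi, ← hu, orderOf_units]; exact orderOf_pos u
  have hcj : c ∣ 2 * j := by
    rw [hc]
    split_ifs with he
    · exact hij
    · exact Nat.mul_dvd_mul_left 2 ((Nat.Coprime.dvd_of_dvd_mul_left
        (Nat.Coprime.symm (Nat.prime_two.coprime_iff_not_dvd.mpr fun h => he (even_iff_two_dvd.mpr h))) hij))
  have hcle : c ≤ 2 * j := Nat.le_of_dvd (by omega) hcj
  have hk : (2 * d + 1) % c < 2 * m := by
    obtain ⟨t, ht⟩ := hcj
    rw [show 2 * d + 1 = (2 * d + 1 - 2 * j) + c * t by omega, Nat.add_mul_mod_self_left]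
    have := Nat.mod_le (2 * d + 1 - 2 * j) c
    omega
  rw [CfsgLib.OrthTS.crit_ts hrp hr2 h2 hi hc d m (by omega) hmd (by omega) hk]
  constructor
  · rintro ⟨h1, h3⟩
    refine Or.inr ⟨hrp, hr3, ?_, h1, h3⟩
    by_contra hlt
    rw [Nat.mod_eq_of_lt (by omega)] at h1
    omega
  · rintro (⟨h, -⟩ | ⟨-, -, -, h1, h3⟩)
    · exact absurd h hr2
    · exact ⟨h1, h3⟩

end Cfsg.Agent.S5972
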