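import Cfsg.Statements.S5973
import Cfsg.Agent.SubElusive.OrthTSEvenQuarter

set_option autoImplicit false
open scoped MatrixGroups
open Cfsg

namespace Cfsg.Agent.S5973

/-- Elements of prime order of PΩ⁺_n(q), n = 2d ≥ 8, with no fixed totally singular `m`-space, `m < n/2`. Here `T = PΩ⁺_n(q)` is realised through `Ω⁺_n(q)`, the commutator subgroup of the isometry group of the quadratic form `Σ xᵢyᵢ` over the field `F` with `q` elements; an element of `T` of prime order `r` is an element `x` of `Ω⁺_n(q)` with `x^r` scalar and `x` not scalar. Let `1 ≤ m < d` and let `r` be a prime dividing the number of totally singular `m`-spaces. For `r ≠ p` let `i` be the multiplicative order of `q` modulo `r`, `c = i` for `i` even and `c = 2i` for `i` odd, and write `k = n mod c`, `ℓ = m mod i`, `n' = ⌊n/i⌋`, `m' = ⌊m/i⌋`, `t = (r−1)/i`. Then every element of `T` of order `r` fixes some totally singular `m`-space if and only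 if one of: (i) `r = 2 ≠ p` and either `q ≡ 1 (mod 4)`, or `q ≡ 3 (mod 4)`, `m ≤ n/2 − 2` and (`m` even or `n ≡ 2 (mod 4)`); (ii) `r ≠ p` odd, `i` odd, `i ≤ m` and `k ≥ 2ℓ`; (iii) `r ≠ p` odd, `i` even, `i ≤ m`, `n' − 2m' ≥ t`, and one of: `i ≥ 2ℓ`, `k = 0`, `n/i` odd and `n' − 2m' > t`; or `k ≥ 2ℓ` and `n'` even; or `k > 2ℓ` and `n'` odd. -/
theorem result {F : Type*} [Field F] [Fintype F] {p : ℕ} [Fact p.Prime] [CharP F p] {q : ℕ} (hq : Fintype.card F = q)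
    (d m : ℕ) (hd : 4 ≤ d) (hm : 1 ≤ m) (hmd : m < d)
    (r : ℕ) [Fact r.Prime]
    (hrΩ : r ∣ Nat.card {W : Submodule F (Fin d ⊕ Fin d → F) // Module.finrank F ↥W = m ∧ (∀ w ∈ W, Cfsg.quadFormPlus d F w = 0)})
    (i c : ℕ) (hi : i = orderOf (q : ZMod r)) (hc : c = if Even i then i else 2 * i) :
    (∀ x : GL (Fin d ⊕ Fin d) F, x ∈ Cfsg.Geo.omegaGL (Cfsg.quadFormPlus d F) →
      (∃ z : F, ((x ^ r : GL (Fin d ⊕ Fin d) F) : Matrix (Fin d ⊕ Fin d) (Fin d ⊕ Fin d) F) = z • (1 : Matrix (Fin d ⊕ Fin d) (Fin d ⊕ Fin d) F)) →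
      (∀ z : F, (x : Matrix (Fin d ⊕ Fin d) (Fin d ⊕ Fin d) F) ≠ z • (1 : Matrix (Fin d ⊕ Fin d) (Fin d ⊕ Fin d) F)) →
      ∃ W : Submodule F (Fin d ⊕ Fin d → F), Module.finrank F ↥W = m ∧ (∀ w ∈ W, Cfsg.quadFormPlus d F w = 0) ∧
        W.map (Matrix.toLin' (x : Matrix (Fin d ⊕ Fin d) (Fin d ⊕ Fin d) F)) ≤ W) ↔
    ((r = 2 ∧ p ≠ 2 ∧ (q % 4 = 1 ∨ (q % 4 = 3 ∧ m + 2 ≤ d ∧ (Even m ∨ (2 * d) % 4 = 2)))) ∨
     (r ≠ p ∧ 2 < r ∧ Odd i ∧ i ≤ m ∧ 2 * (m % i) ≤ (2 * d) % c) ∨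
     (r ≠ p ∧ 2 < r ∧ Even i ∧ i ≤ m ∧ (r - 1) / i + 2 * (m / i) ≤ (2 * d) / i ∧
       ((2 * (m % i) ≤ i ∧ (2 * d) % c = 0 ∧ Odd ((2 * d) / i) ∧ (r - 1) / i + 2 * (m / i) < (2 * d) / i) ∨
        (2 * (m % i) ≤ (2 * d) % c ∧ Even ((2 * d) / i)) ∨
        (2 * (m % i) < (2 * d) % c ∧ Odd ((2 * d) / i))))) := by
  classical
  subst hq
  have hQ := CfsgLib.Forms.nondegenerate_quadPlus (F := F) d
  have hι : Fintype.card (Fin d ⊕ Fin d) = 2 * d := by simp; omega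
  have hε : CfsgLib.SemiClasses.HasHalf (CfsgLib.Forms.quadPlus F d) ↔ True :=
    iff_true_intro (CfsgLib.SemiClasses.hasHalf_quadPlus d)
  simp only [← CfsgLib.Forms.coe_quadPlus] at hrΩ ⊢
  by_cases hr2 : r = 2
  · subst hr2
    have hp : p ≠ 2 := (CfsgLib.OrthTS.ts_data_even (p := p) hQ hι hmd hε hrΩ).1.symm
    have hodd : Fintype.card F % 2 = 1 :=
      FiniteField.odd_card_of_char_ne_two (by rw [ringChar.eq F p]; exact hp)
    rw [CfsgLib.OrthTS.main_two hQ hι (by omega) hmd hε hp, FiniteField.isSquare_neg_one_iff]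
    simp only [true_implies, true_iff, lt_self_iff_false, false_and, and_false, or_false, ne_eq, hp, not_false_iff,
      true_and]
    have hd2 : Even d → IsSquare ((2 : F) ^ d) := fun h => h.isSquare_pow _
    by_cases hsq : IsSquare ((2 : F) ^ d)
    · simp only [hsq, not_true, or_false, Nat.even_iff]
      omega
    · have := mt hd2 hsq
      simp only [hsq, not_false_iff, or_true, and_true, Nat.even_iff]
      rw [Nat.even_iff] at this
      omega
  have hr3 : 2 < r := by have := (Fact.out : r.Prime).two_le; omega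
  obtain ⟨hrp, hmain⟩ := CfsgLib.OrthTS.main_odd (p := p) hr2 hi hc hQ hι (by omega) hmd hε hrΩ
  rw [hmain]
  simp only [hr2, false_and, false_or, true_iff, not_true, and_false, ne_eq, hrp, not_false_iff, hr3, true_and,
    and_true, Nat.not_even_iff_odd]
  rw [show (2 * (m % i) < 2 * d % c ∨ 2 * (m % i) = 2 * d % c) ↔ 2 * (m % i) ≤ 2 * d % c from le_iff_lt_or_eq.symm]

end Cfsg.Agent.S5973
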