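import Cfsg.Statements.S5974
import Cfsg.Agent.SubElusive.OrthNDEvenTwo
import Cfsg.Agent.SubElusive.OrthNDEvenInvol

set_option autoImplicit false
open scoped MatrixGroups
open Cfsg

namespace Cfsg.Agent.S5974

/-- Elements of prime order of PΩ⁺_n(q), n = 2d ≥ 8, with no fixed nondegenerate hyperbolic `m`-space. Here `T = PΩ⁺_n(q)` is realised through `Ω⁺_n(q)`, the commutator subgroup of the isometry group of `Q = Σ xᵢyᵢ` over the field `F` with `q` elements; an element of `T` of prime order `r` is an element `x` of `Ω⁺_n(q)` with `x^r` scalar and `x` not scalar. A hyperbolic `m`-space is a subspace `W` of even dimension `m` on which the polar form of `Q` is nondegenerate and which contains a totally singular subspace of dimension `m/2`. Let `m` be even with `2 ≤ m < n/2`, and let `r` be a prime dividing the number of hyperbolic `m`-spaces, with `r = 2` or `r ≠ p`. For `r ≠ p` let `i` be the multiplicative order of `q` modulo `r`,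 `c = i` for `i` even and `c = 2i` for `i` odd, and write `k = n mod c`, `ℓ' = m mod c`. Then every element of `T` of order `r` fixes some hyperbolic `m`-space if and only if one of: (i) `r = 2` and (`n ≡ 2 (mod 4)`, or `m ≡ 0 (mod 4)`, or `q ≡ 1 (mod 4)`); (ii) `r ≠ p` odd, `i` odd, `c ≤ m` and `k ≥ ℓ'`; (iii) `r ≠ p` odd, `i` even, and either `k = 0` and (`n/i` odd, or `ℓ' = 0` and `m/i` even), or `i ≤ m` and (`k > ℓ' > 0`, or `k = ℓ' > 0` and `(n + m − 2k)/i` even, or `k > ℓ' = 0` and `m/i` even). -/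
theorem result {F : Type*} [Field F] [Fintype F] {p : ℕ} [Fact p.Prime] [CharP F p] {q : ℕ} (hq : Fintype.card F = q)
    (d m : ℕ) (hd : 4 ≤ d) (hm : 2 ≤ m) (hme : Even m) (hmd : m < d)
    (r : ℕ) [Fact r.Prime] (hr : r = 2 ∨ r ≠ p)
    (hrΩ : r ∣ Nat.card {W : Submodule F (Fin d ⊕ Fin d → F) // (Module.finrank F ↥W = m ∧ (∀ u ∈ W, u ≠ 0 → ∃ v ∈ W, QuadraticMap.polar (Cfsg.quadFormPlus d F) u v ≠ 0) ∧
          ∃ U : Submodule F (Fin d ⊕ Fin d → F), U ≤ W ∧ 2 * Module.finrank F ↥U = m ∧ ∀ u ∈ U, Cfsg.quadFormPlus d F u = 0)})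
    (i c : ℕ) (hi : i = orderOf (q : ZMod r)) (hc : c = if Even i then i else 2 * i) :
    (∀ x : GL (Fin d ⊕ Fin d) F, x ∈ Cfsg.Geo.omegaGL (Cfsg.quadFormPlus d F) →
      (∃ z : F, ((x ^ r : GL (Fin d ⊕ Fin d) F) : Matrix (Fin d ⊕ Fin d) (Fin d ⊕ Fin d) F) = z • (1 : Matrix (Fin d ⊕ Fin d) (Fin d ⊕ Fin d) F)) →
      (∀ z : F, (x : Matrix (Fin d ⊕ Fin d) (Fin d ⊕ Fin d) F) ≠ z • (1 : Matrix (Fin d ⊕ Fin d) (Fin d ⊕ Fin d) F)) →
      ∃ W : Submodule F (Fin d ⊕ Fin d → F), (Module.finrank F ↥W = m ∧ (∀ u ∈ W, u ≠ 0 → ∃ v ∈ W, QuadraticMap.polar (Cfsg.quadFormPlus d F) u v ≠ 0) ∧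
          ∃ U : Submodule F (Fin d ⊕ Fin d → F), U ≤ W ∧ 2 * Module.finrank F ↥U = m ∧ ∀ u ∈ U, Cfsg.quadFormPlus d F u = 0) ∧
        W.map (Matrix.toLin' (x : Matrix (Fin d ⊕ Fin d) (Fin d ⊕ Fin d) F)) ≤ W) ↔
    ((r = 2 ∧ ((2 * d) % 4 = 2 ∨ m % 4 = 0 ∨ q % 4 = 1)) ∨
     (r ≠ p ∧ 2 < r ∧ Odd i ∧ c ≤ m ∧ m % c ≤ (2 * d) % c) ∨
     (r ≠ p ∧ 2 < r ∧ Even i ∧
       (((2 * d) % c = 0 ∧ (Odd ((2 * d) / i) ∨ (m % c = 0 ∧ Even (m / i)))) ∨
        (i ≤ m ∧ ((m % c < (2 * d) % c ∧ 0 < m % c) ∨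
                  ((2 * d) % c = m % c ∧ 0 < m % c ∧ Even ((2 * d + m - 2 * ((2 * d) % c)) / i)) ∨
                  (0 < (2 * d) % c ∧ m % c = 0 ∧ Even (m / i))))))) := by
  classical
  subst hq
  have hQ := CfsgLib.Forms.nondegenerate_quadPlus (F := F) d
  have hι : Fintype.card (Fin d ⊕ Fin d) = 2 * d := by simp; omega
  have hε : CfsgLib.SemiClasses.HasHalf (CfsgLib.Forms.quadPlus F d) ↔ True :=
    iff_true_intro (CfsgLib.SemiClasses.hasHalf_quadPlus d)
  simp only [← CfsgLib.Forms.coe_quadPlus] at hrΩ ⊢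
  have hiff : ∀ W : Submodule F (Fin d ⊕ Fin d → F),
      (Module.finrank F ↥W = m ∧
        (∀ u ∈ W, u ≠ 0 → ∃ v ∈ W, QuadraticMap.polar ⇑(CfsgLib.Forms.quadPlus F d) u v ≠ 0) ∧
        ∃ U : Submodule F (Fin d ⊕ Fin d → F), U ≤ W ∧ 2 * Module.finrank F ↥U = m ∧
          ∀ u ∈ U, CfsgLib.Forms.quadPlus F d u = 0) ↔
      CfsgLib.OrthOddSub.SubOK (CfsgLib.Forms.quadPlus F d) m True W := fun W => by
    constructor
    · rintro ⟨h1, h3, U, hU, hUd, hUs⟩
      refine ⟨h1, fun w hw hw0 => ?_, iff_true_intro ⟨U, hU, hUs, by omega⟩⟩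
      obtain ⟨v, hv, hne⟩ := h3 w hw hw0
      exact ⟨⟨v, hv, by rwa [QuadraticMap.polar_comm]⟩, v, hv, hne⟩
    · rintro ⟨h1, h3, h4⟩
      obtain ⟨U, hU, hUs, hUd⟩ := h4.mpr trivial
      exact ⟨h1, fun w hw hw0 => (h3 w hw hw0).2, U, hU, by omega, hUs⟩
  simp only [hiff] at hrΩ ⊢
  by_cases hr2 : r = 2
  · subst hr2
    simp only [lt_self_iff_false, false_and, and_false, or_false, true_and]
    by_cases hp : p = 2
    · subst hp
      have heven : Fintype.card F % 2 = 0 := FiniteField.even_card_of_char_two (ringChar.eq F 2)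
      constructor
      · intro hall
        by_contra hcon
        refine CfsgLib.OrthND.witness_plus (p := 2) (by omega) hme True (fun _ => ?_) hall
        simp only [Nat.even_iff] at hme ⊢
        omega
      · intro hc x hx hz _
        obtain ⟨W, h1, h3, -⟩ := CfsgLib.OrthND.exists_hyp_two (p := 2) rfl hQ hι (by omega) hme (by omega) hε (by
          simp only [true_iff, Nat.odd_iff]
          omega) hx hz
        exact ⟨W, h1, h3⟩
    have hodd : Fintype.card F % 2 = 1 := FiniteField.odd_card_of_char_ne_two (by rw [ringChar.eq F p]; exact hp)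
    have h2 : (2 : F) ≠ 0 := Ring.two_ne_zero (by rw [ringChar.eq F p]; exact hp)
    rw [CfsgLib.OrthND.main_two_even_m h2 hQ hι (by omega) hme hm (by omega) hε]
    simp only [true_iff]
    have hpow : ∀ (a : F) (k : ℕ), a ≠ 0 → (IsSquare (a ^ k) ↔ k % 2 = 0 ∨ IsSquare a) := fun a k ha => by
      rcases Nat.even_or_odd k with he | ⟨j, rfl⟩
      · simp [he.isSquare_pow a, Nat.even_iff.mp he]
      · rw [pow_succ, CfsgLib.Forms.isSquare_mul_iff' (pow_ne_zero _ ha) ha]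
        simp [(even_two_mul j).isSquare_pow a]
    rw [hpow _ d (neg_ne_zero.mpr one_ne_zero), hpow _ d h2, hpow _ (m / 2) (neg_ne_zero.mpr one_ne_zero),
      FiniteField.isSquare_neg_one_iff, FiniteField.isSquare_two_iff]
    simp only [Nat.even_iff, Nat.odd_iff] at hme ⊢
    omega
  have hr3 : 2 < r := by have := (Fact.out : r.Prime).two_le; omega
  have hrp : r ≠ p := hr.resolve_left hr2
  obtain ⟨b', e, R₀, R₁, hb, hR₀, hR₁, hδ, hτ, he⟩ :=
    CfsgLib.OrthND.exists_model_split hQ hε hι hme hm (by omega) True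
  simp only [CfsgLib.OrthND.sub_iff_iso hQ hme hR₀ hδ] at hrΩ ⊢
  obtain ⟨hmain, hcm⟩ := CfsgLib.OrthND.main_even_m (p := p) hrp hr2 hi hc hQ hι (by omega) hme hm hε hR₀ hR₁ hδ hτ
    hb (by omega) e he hrΩ
  rw [hmain, CfsgLib.OrthND.critEven_norm hcm]
  simp only [CfsgLib.OrthTS.MType, true_iff, false_iff, hr2, false_and, false_or, ne_eq, hrp, not_false_iff, hr3,
    true_and]
  have hipos : 0 < i := by
    rw [hi]
    obtain ⟨u, hu⟩ := CfsgLib.SemiClasses.exists_unit_card (F := F) (p := p) (r := r) dvd_rfl hrp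
    rw [← hu, orderOf_units]; exact orderOf_pos u
  rcases Nat.even_or_odd i with hi' | hi'
  · obtain rfl : c = i := by rw [hc, if_pos hi']
    simp only [hi', Nat.not_odd_iff_even.mpr hi', false_and, false_or, true_and, Nat.not_even_iff_odd]
    refine or_congr Iff.rfl (and_congr_right fun _ => or_congr ⟨fun h => ⟨h.2, h.1⟩, fun h => ⟨h.2, h.1⟩⟩
      (or_congr ?_ Iff.rfl))
    constructor <;> rintro ⟨h1, h3, h4⟩
    · exact ⟨h3.symm, h1, (CfsgLib.OrthND.even_flip hipos (by omega) h3).mpr h4⟩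
    · exact ⟨h3, h1.symm, (CfsgLib.OrthND.even_flip hipos (by omega) h1.symm).mp h4⟩
  · simp only [hi', Nat.not_even_iff_odd.mpr hi', false_and, or_false, true_and, true_or, not_true, and_false,
      false_or, and_true]
    have hle : m % c = 0 → c ≤ m := fun h => Nat.le_of_dvd (by omega) (Nat.dvd_of_mod_eq_zero h)
    omega

end Cfsg.Agent.S5974
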