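import Cfsg.Statements.S5982
import Cfsg.Agent.SubElusive.Pairing
import Cfsg.Agent.SubElusive.Count
import Cfsg.Agent.S5967
import Cfsg.Agent.UGeom.Count
import Cfsg.Agent.Unitary.Basic
import Cfsg.Agent.NilType.Gen
import Cfsg.Agent.SL2.Basic

set_option autoImplicit false
open scoped MatrixGroups
open Cfsg

namespace Cfsg.Agent.S5982

open scoped Matrix
open CfsgLib.SubElusive Polynomial

theorem gramSim_pow {F : Type*} [Field F] {n : ℕ} {σ : F →+* F} {G x : Matrix (Fin n) (Fin n) F} {μ : F}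
    (h : GramSim σ G x μ) : ∀ j : ℕ, GramSim σ G (x ^ j) (μ ^ j) := by
  intro j
  unfold GramSim at h ⊢
  induction j with
  | zero => simp
  | succ j ih =>
    rw [show (x ^ (j + 1)).map σ = (x ^ j).map σ * x.map σ by rw [pow_succ, Matrix.map_mul],
      show (x ^ (j + 1))ᵀ = xᵀ * (x ^ j)ᵀ by rw [pow_succ, Matrix.transpose_mul]]
    calc xᵀ * (x ^ j)ᵀ * G * ((x ^ j).map σ * x.map σ) = xᵀ * ((x ^ j)ᵀ * G * (x ^ j).map σ) * x.map σ := by
          simp only [Matrix.mul_assoc]
      _ = μ ^ (j + 1) • G := by rw [ih, Matrix.mul_smul, Matrix.smul_mul, h, smul_smul, ← pow_succ]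

theorem eq_of_smul_eq {F : Type*} [Field F] {n : ℕ} (hn : 0 < n) {G : Matrix (Fin n) (Fin n) F} (hG : IsUnit G.det)
    {a b : F} (h : a • G = b • G) : a = b := by
  haveI : Nonempty (Fin n) := ⟨⟨0, hn⟩⟩
  have h0 : G ≠ 0 := fun h0 => hG.ne_zero (by rw [h0, Matrix.det_zero])
  exact smul_left_injective F h0 h

/-- The index of the unitary-type subgroup only has the expected primes. -/
theorem index_prime {F : Type*} [Field F] [Fintype F] {q₀ : ℕ} (C : CfsgLib.UGeom.Conj F q₀) {n : ℕ} (hn : 1 ≤ n)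
    (H : Subgroup (GL (Fin n) F)) (R : Matrix (Fin n) (Fin n) F) (hR : IsUnit R.det)
    (hle : ∀ g : GL (Fin n) F, GramSim C.σ 1 (R * (g : Matrix (Fin n) (Fin n) F) * R⁻¹) 1 → g ∈ H)
    {r : ℕ} [hr : Fact r.Prime] (hrq : ¬ r ∣ q₀) (h : r ∣ H.relIndex (Cfsg.Geo.specialLinear (Fin n) F)) :
    ∃ j, j ≤ n ∧ (-(q₀ : ZMod r)) ^ j = -1 := by
  classical
  obtain ⟨K, hK⟩ : ∃ K, K = H.subgroupOf (Cfsg.Geo.specialLinear (Fin n) F) := ⟨_, rfl⟩
  rw [Subgroup.relIndex, ← hK] at h
  have hcardSL : Nat.card (Cfsg.Geo.specialLinear (Fin n) F) = Nat.card (Matrix.SpecialLinearGroup (Fin n) F) :=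
    Nat.card_congr
      { toFun := fun g => ⟨g.1.1, congrArg Units.val g.2⟩
        invFun := fun s => ⟨Matrix.SpecialLinearGroup.toGL s, Units.ext s.2⟩
        left_inv := fun g => Subtype.ext (Units.ext rfl)
        right_inv := fun s => Subtype.ext rfl }
  let Ru : GL (Fin n) F := Matrix.GeneralLinearGroup.mkOfDetNeZero R hR.ne_zero
  let em : Cfsg.SU n F q₀ →* Cfsg.Geo.specialLinear (Fin n) F :=
    { toFun := fun s => ⟨Ru⁻¹ * Matrix.SpecialLinearGroup.toGL s.1 * Ru, by
        have : Matrix.GeneralLinearGroup.det (Matrix.SpecialLinearGroup.toGL s.1) = 1 := Units.ext s.1.2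
        show Matrix.GeneralLinearGroup.det _ = 1
        rw [map_mul, map_mul, this, mul_one, ← map_mul, inv_mul_cancel, map_one]⟩
      map_one' := Subtype.ext (by simp)
      map_mul' := fun a b => Subtype.ext (by simp [mul_assoc]) }
  have hinj : Function.Injective em := fun a b hab => by
    have := congrArg Subtype.val hab
    simp only [em, MonoidHom.coe_mk, OneHom.coe_mk, mul_left_inj, mul_right_inj] at this
    exact Subtype.ext (Subtype.ext (congrArg Units.val this))
  have hrange : em.range ≤ K := by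
    rintro _ ⟨s, rfl⟩
    rw [hK, Subgroup.mem_subgroupOf]
    refine hle _ ?_
    show GramSim C.σ 1 (R * ((Ru⁻¹ * Matrix.SpecialLinearGroup.toGL s.1 * Ru : GL (Fin n) F) : Matrix (Fin n) (Fin n) F) * R⁻¹) 1
    have e : R * ((Ru⁻¹ * Matrix.SpecialLinearGroup.toGL s.1 * Ru : GL (Fin n) F) : Matrix (Fin n) (Fin n) F) * R⁻¹ =
        (s.1 : Matrix (Fin n) (Fin n) F) := by
      have hu : R * ((Ru⁻¹ : GL (Fin n) F) : Matrix (Fin n) (Fin n) F) = 1 := by
        rw [show R = (Ru : Matrix (Fin n) (Fin n) F) from rfl, ← Units.val_mul, mul_inv_cancel, Units.val_one]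
      rw [Units.val_mul, Units.val_mul, ← Matrix.mul_assoc, ← Matrix.mul_assoc, hu, Matrix.one_mul,
        show (Ru : Matrix (Fin n) (Fin n) F) = R from rfl, Matrix.mul_nonsing_inv_cancel_right _ _ hR]
      rfl
    rw [e, ← gramSim_iff (Cfsg.hermForm n F q₀) 1 (fun u v => by
      rw [Matrix.one_mulVec, CfsgLib.UGeom.form_eq C]; rfl)]
    intro u v
    rw [one_mul]
    exact s.2 u v
  have hdvd : Nat.card (Cfsg.SU n F q₀) ∣ Nat.card K := by
    rw [Nat.card_congr (MonoidHom.ofInjective hinj).toEquiv]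
    exact Subgroup.card_dvd_of_le hrange
  obtain ⟨c, hc⟩ := hdvd
  have hSL := CfsgLib.SL2.card_SL_mul (F := F) n hn
  rw [← hcardSL, ← K.card_mul_index, hc, Matrix.card_GL_field,
    Fin.prod_univ_eq_prod_range (fun i => Fintype.card F ^ n - Fintype.card F ^ i) n] at hSL
  have hnq := CfsgLib.SubElusive.nq_mul (Fintype.card F) n n le_rfl
  rw [Nat.sub_self, show gq (Fintype.card F) 0 = 1 from Finset.prod_range_zero _, mul_one] at hnq
  unfold nq at hnq
  rw [hnq] at hSL
  have hSU := CfsgLib.UGeom.card_SU_mul C hn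
  rw [CfsgLib.UGeom.card_GU C] at hSU
  obtain ⟨n', rfl⟩ : ∃ n', n = n' + 1 := ⟨n - 1, by omega⟩
  let A : ℕ → ℕ := fun i => if Even i then q₀ ^ (i + 1) + 1 else q₀ ^ (i + 1) - 1
  let B : ℕ → ℕ := fun i => if Even i then q₀ ^ (i + 1) - 1 else q₀ ^ (i + 1) + 1
  have hAB : ∀ i, Fintype.card F ^ (i + 1) - 1 = A i * B i := fun i => by
    rw [C.card, ← pow_mul, mul_comm 2, pow_mul, show (q₀ ^ (i + 1)) ^ 2 - 1 = (q₀ ^ (i + 1) + 1) * (q₀ ^ (i + 1) - 1) by
      rw [← Nat.sq_sub_sq, one_pow]]
    simp only [A, B]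
    split_ifs
    · rfl
    · exact mul_comm _ _
  have hB0 : B 0 = q₀ - 1 := by simp [B]
  have hq1 : Fintype.card F - 1 = (q₀ + 1) * (q₀ - 1) := by rw [C.card, ← Nat.sq_sub_sq, one_pow]
  have hgq : gq (Fintype.card F) (n' + 1) = (∏ i ∈ Finset.range (n' + 1), A i) * ((∏ i ∈ Finset.range n', B (i + 1)) * B 0) := by
    rw [← Finset.prod_range_succ', ← Finset.prod_mul_distrib]
    exact Finset.prod_congr rfl fun i _ => hAB i
  rw [hgq, hB0, hq1] at hSL
  have hSUpos : 0 < (q₀ + 1) * Nat.card (Cfsg.SU (n' + 1) F q₀) := Nat.mul_pos (Nat.succ_pos _) Nat.card_pos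
  have hq0 : 0 < q₀ - 1 := by have := C.two_le; omega
  have key : c * K.index * q₀ ^ ((n' + 1) * (n' + 1 - 1) / 2) =
      Fintype.card F ^ (∑ j ∈ Finset.range (n' + 1), j) * ∏ i ∈ Finset.range n', B (i + 1) := by
    apply Nat.eq_of_mul_eq_mul_left (Nat.mul_pos hSUpos hq0)
    calc (q₀ + 1) * Nat.card (Cfsg.SU (n' + 1) F q₀) * (q₀ - 1) * (c * K.index * q₀ ^ ((n' + 1) * (n' + 1 - 1) / 2))
        = Nat.card (Cfsg.SU (n' + 1) F q₀) * c * K.index * ((q₀ + 1) * (q₀ - 1)) * q₀ ^ ((n' + 1) * (n' + 1 - 1) / 2) := by ring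
      _ = Fintype.card F ^ (∑ j ∈ Finset.range (n' + 1), j) * ((∏ i ∈ Finset.range (n' + 1), A i) *
          ((∏ i ∈ Finset.range n', B (i + 1)) * (q₀ - 1))) * q₀ ^ ((n' + 1) * (n' + 1 - 1) / 2) := by rw [hSL]
      _ = _ := by rw [hSU]; ring
  have h1 : r ∣ Fintype.card F ^ (∑ j ∈ Finset.range (n' + 1), j) * ∏ i ∈ Finset.range n', B (i + 1) :=
    key ▸ dvd_mul_of_dvd_left (dvd_mul_of_dvd_right h c) _
  have h2 := (hr.out.dvd_mul.mp h1).resolve_left fun h' => hrq (hr.out.dvd_of_dvd_pow (C.card ▸ hr.out.dvd_of_dvd_pow h'))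
  obtain ⟨i, hi, hdv⟩ := hr.out.prime.dvd_finsetProd_iff _ |>.mp h2
  refine ⟨i + 1 + 1, by rw [Finset.mem_range] at hi; omega, ?_⟩
  rw [← ZMod.natCast_eq_zero_iff] at hdv
  rcases Nat.even_or_odd (i + 1) with he | ho
  · rw [show B (i + 1) = q₀ ^ (i + 1 + 1) - 1 from if_pos he, Nat.cast_sub (Nat.one_le_pow _ _ (by omega)), Nat.cast_pow,
      Nat.cast_one] at hdv
    rw [neg_pow, sub_eq_zero.mp hdv, he.add_one.neg_one_pow, mul_one]
  · rw [show B (i + 1) = q₀ ^ (i + 1 + 1) + 1 from if_neg (Nat.not_even_iff_odd.mpr ho), Nat.cast_add, Nat.cast_pow,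
      Nat.cast_one] at hdv
    rw [neg_pow, ho.add_one.neg_one_pow, one_mul]
    exact eq_neg_of_add_eq_zero_left hdv

theorem char_two_sim {F : Type*} [Field F] {n t : ℕ} (σ : F →+* F) (h2 : (2 : F) = 0) (ht : t + t ≤ n) :
    ∃ N G : Matrix (Fin n) (Fin n) F, N.rank = t ∧ N ^ 2 = 0 ∧ Gᵀ = G.map σ ∧ IsUnit G.det ∧
      GramSim σ G (1 + N) 1 ∧ (0 < t → ∀ w : F, ∃ C : Matrix (Fin n) (Fin n) F, C.det = w * w ∧ C * N = N * C) := by
  classical
  obtain ⟨l, rfl⟩ : ∃ l, n = (t + t) + l := ⟨n - (t + t), by omega⟩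
  let e : (Fin t ⊕ Fin t) ⊕ Fin l ≃ Fin (t + t + l) := (Equiv.sumCongr finSumFinEquiv (Equiv.refl _)).trans finSumFinEquiv
  let N0 : Matrix ((Fin t ⊕ Fin t) ⊕ Fin l) ((Fin t ⊕ Fin t) ⊕ Fin l) F :=
    Matrix.fromBlocks (Matrix.fromBlocks 0 0 1 0) 0 0 0
  let G0 : Matrix ((Fin t ⊕ Fin t) ⊕ Fin l) ((Fin t ⊕ Fin t) ⊕ Fin l) F :=
    Matrix.fromBlocks (Matrix.fromBlocks 0 1 1 0) 0 0 1
  refine ⟨Matrix.reindexAlgEquiv F F e N0, Matrix.reindexAlgEquiv F F e G0, ?_, ?_, ?_, ?_, ?_, ?_⟩
  · have h1 : N0 = (Matrix.diagonal (Sum.elim (Sum.elim (fun _ => 1) (fun _ => 0)) (fun _ => 0))).submatrix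
        (Equiv.sumCongr (Equiv.sumComm (Fin t) (Fin t)) (Equiv.refl (Fin l))) id := by
      ext ((i | i) | i) ((j | j) | j) <;> simp [N0, Matrix.diagonal_apply, Matrix.one_apply]
    rw [Matrix.reindexAlgEquiv_apply, Matrix.rank_reindex, h1, ← Equiv.coe_refl, Matrix.rank_submatrix, Matrix.rank_diagonal,
      Fintype.card_subtype, Finset.card_filter, Fintype.sum_sum_type, Fintype.sum_sum_type]
    simp
  · rw [← map_pow, pow_two, Matrix.fromBlocks_multiply, Matrix.fromBlocks_multiply]
    simp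
  · rw [Matrix.reindexAlgEquiv_apply, Matrix.transpose_reindex]
    show Matrix.reindex e e G0ᵀ = (Matrix.reindex e e G0).map σ
    rw [show (Matrix.reindex e e G0).map σ = Matrix.reindex e e (G0.map σ) from rfl]
    congr 1
    simp [G0, Matrix.fromBlocks_transpose, Matrix.fromBlocks_map, Matrix.transpose_one]
  · rw [← Matrix.isUnit_iff_isUnit_det]
    refine IsUnit.of_mul_eq_one (Matrix.reindexAlgEquiv F F e G0) ?_
    rw [← map_mul, Matrix.fromBlocks_multiply, Matrix.fromBlocks_multiply]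
    simp [Matrix.fromBlocks_one]
  · let E : Matrix ((Fin t ⊕ Fin t) ⊕ Fin l) ((Fin t ⊕ Fin t) ⊕ Fin l) F :=
      Matrix.fromBlocks (Matrix.fromBlocks 1 0 0 0) 0 0 0
    have hN0 : N0.map σ = N0 := by
      simp [N0, Matrix.fromBlocks_map]
    have e1 : N0ᵀ * G0 = E := by
      simp [N0, G0, E, Matrix.fromBlocks_transpose, Matrix.fromBlocks_multiply]
    have e2 : G0 * N0 = E := by
      simp [N0, G0, E, Matrix.fromBlocks_multiply]
    have e3 : E * N0 = 0 := by
      simp [N0, E, Matrix.fromBlocks_multiply]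
    have h0 : (1 + N0)ᵀ * G0 * (1 + N0).map σ = G0 := by
      rw [Matrix.transpose_add, Matrix.transpose_one, Matrix.map_add _ (map_add σ), hN0,
        Matrix.map_one _ (map_zero σ) (map_one σ), Matrix.add_mul, Matrix.one_mul, e1, Matrix.mul_add, Matrix.mul_one,
        Matrix.add_mul, e2, e3, add_zero, add_assoc, ← two_smul F E, h2, zero_smul, add_zero]
    show (1 + Matrix.reindexAlgEquiv F F e N0)ᵀ * Matrix.reindexAlgEquiv F F e G0 * (1 + Matrix.reindexAlgEquiv F F e N0).map σ =
      (1 : F) • Matrix.reindexAlgEquiv F F e G0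
    rw [one_smul, show (1 : Matrix (Fin (t + t + l)) (Fin (t + t + l)) F) + Matrix.reindexAlgEquiv F F e N0 =
      Matrix.reindexAlgEquiv F F e (1 + N0) by rw [map_add, map_one],
      show (Matrix.reindexAlgEquiv F F e (1 + N0))ᵀ = Matrix.reindexAlgEquiv F F e (1 + N0)ᵀ from rfl,
      show (Matrix.reindexAlgEquiv F F e (1 + N0)).map σ = Matrix.reindexAlgEquiv F F e ((1 + N0).map σ) from rfl,
      ← map_mul, ← map_mul, h0]
  · intro ht0 w
    let γ : Fin t → F := Function.update 1 ⟨0, ht0⟩ w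
    refine ⟨Matrix.reindexAlgEquiv F F e (Matrix.fromBlocks (Matrix.fromBlocks (Matrix.diagonal γ) 0 0 (Matrix.diagonal γ)) 0 0 1), ?_, ?_⟩
    · rw [Matrix.det_reindexAlgEquiv, Matrix.det_fromBlocks_zero₂₁, Matrix.det_fromBlocks_zero₂₁, Matrix.det_diagonal,
        Matrix.det_one, mul_one, Finset.prod_update_of_mem (Finset.mem_univ _)]
      simp
    · rw [← map_mul, ← map_mul]
      congr 1
      simp only [N0, Matrix.fromBlocks_multiply, Matrix.zero_mul, Matrix.mul_zero, add_zero, zero_add, Matrix.one_mul,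
        Matrix.mul_one]


/-- Elements of prime order of PSL_n(q), q = q₀², and the subgroups of unitary type. Here `T = PSL_n(F)` for a field `F` with `q = q₀²` elements (`n ≥ 3`), `f` is a non-degenerate unitary form on `F^n` for the involutory automorphism `x ↦ x^{q₀}`, and `H` is the subgroup of matrices of determinant 1 that preserve `f` up to a scalar — a subgroup of type GU_n(q₀) (maximality is not assumed); Ω is the set of cosets of `H` in `T`, so an element of `T` of prime order `r` (a matrix `x` of determinant 1 with `x^r` scalar, `x` not scalar) fixes a point of Ω exactly when some conjugate of `x` by a matrix of determinant 1 preserves `f` up to a scalar. Let `r` be a prime dividing the index of `H`, with `r = 2` or `r` different from the characteristic `p`, and with `(n, r) ≠ (6, 3)`. Then every element of `T` of order `r` fixes a point of Ω if and only if either `r = 2` and (`p = 2` or `(n)_2 ≤ (q − 1)_2`), or `r ∈ {3, 5}`, `n = r` and `(q₀ − 1)_r = r`. (Odd `r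 = p` and the case `(n, r) = (6, 3)` are not covered by this statement.) -/
theorem result {F : Type*} [Field F] [Fintype F] {p : ℕ} [Fact p.Prime] [CharP F p] {q : ℕ} (hq : Fintype.card F = q)
    (q₀ : ℕ) (hq₀ : q = q₀ ^ 2) (n : ℕ) (hn : 3 ≤ n) (f : (Fin n → F) → (Fin n → F) → F) (hf : Cfsg.Geo.IsUnitaryFormPow q₀ f)
    (r : ℕ) [Fact r.Prime] (hr : r = 2 ∨ r ≠ p) (hgap : ¬ (n = 6 ∧ r = 3))
    (hΩ : r ∣ (Cfsg.Geo.similarityGroup f).relIndex (Cfsg.Geo.specialLinear (Fin n) F)) :
    (∀ x ∈ Cfsg.Geo.specialLinear (Fin n) F, (∃ z : F, ((x ^ r : GL (Fin n) F) : Matrix (Fin n) (Fin n) F) = z • (1 : Matrix (Fin n) (Fin n) F)) →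
      (∀ z : F, (x : Matrix (Fin n) (Fin n) F) ≠ z • (1 : Matrix (Fin n) (Fin n) F)) →
      ∃ g ∈ Cfsg.Geo.specialLinear (Fin n) F, g⁻¹ * x * g ∈ Cfsg.Geo.similarityGroup f) ↔
    ((r = 2 ∧ (p = 2 ∨ padicValNat 2 n ≤ padicValNat 2 (q - 1))) ∨ ((r = 3 ∨ r = 5) ∧ n = r ∧ padicValNat r (q₀ - 1) = 1)) := by
  classical
  subst hq
  obtain ⟨C⟩ := CfsgLib.UGeom.nonempty_conj hq₀
  haveI : Nonempty (Fin n) := ⟨⟨0, by omega⟩⟩
  have hherm : ∀ v w, f v w = C.σ (f w v) := fun v w => by rw [C.pow]; exact hf.herm v w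
  have hsr : ∀ (a : F) v w, f v (a • w) = C.σ a * f v w := fun a v w => by
    rw [hherm, hf.smul_left, map_mul, ← hherm]
  obtain ⟨G, hGdef⟩ : ∃ G : Matrix (Fin n) (Fin n) F, G = Matrix.of fun i j => f (Pi.single i 1) (Pi.single j 1) := ⟨_, rfl⟩
  have hfG : ∀ u v, f u v = u ⬝ᵥ (G *ᵥ (C.σ ∘ v)) := fun u v => by
    rw [hGdef]
    exact form_eq_gram f hf.add_left hf.smul_left (fun a b c => by rw [hherm, hf.add_left, map_add, ← hherm, ← hherm]) hsr u v
  have hGu : IsUnit G.det := isUnit_gram C.invol f G hfG fun v hv => (hf.nondegenerate v hv).1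
  have hGh : Gᵀ = G.map C.σ := by
    ext i j
    rw [hGdef, Matrix.transpose_apply, Matrix.map_apply, Matrix.of_apply, Matrix.of_apply]
    exact hherm _ _
  have hmem : ∀ g : GL (Fin n) F, g ∈ Cfsg.Geo.similarityGroup f ↔
      ∃ μ : Fˣ, GramSim C.σ G (g : Matrix (Fin n) (Fin n) F) (μ : F) := fun g =>
    exists_congr fun μ => gramSim_iff f G hfG _ _
  -- transfer between Gram matrices
  have transfer : ∀ G' : Matrix (Fin n) (Fin n) F, G'ᵀ = G'.map C.σ → IsUnit G'.det →
      ∃ R : Matrix (Fin n) (Fin n) F, IsUnit R.det ∧ G = Rᵀ * G' * R.map C.σ := by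
    have std : ∀ G' : Matrix (Fin n) (Fin n) F, G'ᵀ = G'.map C.σ → IsUnit G'.det →
        ∃ P : Matrix (Fin n) (Fin n) F, IsUnit P.det ∧ G' = Pᵀ * P.map C.σ := by
      intro G' hh hu
      obtain ⟨P, hP⟩ := CfsgLib.Unitary.exists_congr C.σ C.invol C.ne_id n G'ᵀ
        (by
          show (G'ᵀ.map C.σ)ᵀ = G'ᵀ
          rw [Matrix.transpose_map, Matrix.transpose_transpose, hh]) (by rw [Matrix.det_transpose]; exact hu.ne_zero)
      have h1 : G' = Pᵀ * P.map C.σ := by
        rw [← Matrix.transpose_transpose G', ← hP, CfsgLib.Unitary.adj, Matrix.transpose_mul, Matrix.transpose_transpose]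
      refine ⟨P, isUnit_iff_ne_zero.mpr fun h0 => hu.ne_zero ?_, h1⟩
      rw [h1, Matrix.det_mul, Matrix.det_transpose, h0, zero_mul]
    intro G' hh hu
    obtain ⟨P, hP, hG1⟩ := std G hGh hGu
    obtain ⟨P', hP', hG2⟩ := std G' hh hu
    refine ⟨P'⁻¹ * P, ?_, ?_⟩
    · rw [Matrix.det_mul, Matrix.det_nonsing_inv]
      exact (hP'.ringInverse).mul hP
    · have h1 : P' * (P'⁻¹ * P) = P := by rw [← Matrix.mul_assoc, Matrix.mul_nonsing_inv _ hP', Matrix.one_mul]
      calc G = Pᵀ * P.map C.σ := hG1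
        _ = (P' * (P'⁻¹ * P))ᵀ * (P' * (P'⁻¹ * P)).map C.σ := by rw [h1]
        _ = _ := by rw [Matrix.transpose_mul, Matrix.map_mul, hG2]; simp only [Matrix.mul_assoc]
  -- conjugating into the subgroup
  have into : ∀ (x : GL (Fin n) F) (P Y G' : Matrix (Fin n) (Fin n) F) (μ : F), μ ≠ 0 → G'ᵀ = G'.map C.σ → IsUnit G'.det →
      GramSim C.σ G' Y μ → (∀ R : Matrix (Fin n) (Fin n) F, IsUnit R.det → ∃ P' : Matrix (Fin n) (Fin n) F,
        P'.det = 1 ∧ (x : Matrix (Fin n) (Fin n) F) * P' = P' * (R⁻¹ * Y * R)) →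
      ∃ g ∈ Cfsg.Geo.specialLinear (Fin n) F, g⁻¹ * x * g ∈ Cfsg.Geo.similarityGroup f := by
    intro x _ Y G' μ hμ hh hu hsim hconj
    obtain ⟨R, hR, hGR⟩ := transfer G' hh hu
    obtain ⟨P', hP', hxP⟩ := hconj R hR
    refine ⟨Matrix.GeneralLinearGroup.mkOfDetNeZero P' (by rw [hP']; exact one_ne_zero), Units.ext hP', (hmem _).mpr
      ⟨Units.mk0 μ hμ, ?_⟩⟩
    obtain ⟨g, hg⟩ : ∃ g : GL (Fin n) F, g = Matrix.GeneralLinearGroup.mkOfDetNeZero P' (by rw [hP']; exact one_ne_zero) :=
      ⟨_, rfl⟩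
    rw [← hg]
    have hgP : (g : Matrix (Fin n) (Fin n) F) = P' := by rw [hg]; rfl
    have he : ((g⁻¹ * x * g : GL (Fin n) F) : Matrix (Fin n) (Fin n) F) = R⁻¹ * Y * R := by
      rw [Units.val_mul, Units.val_mul, Matrix.mul_assoc, hgP, hxP, ← hgP, ← Matrix.mul_assoc, ← Units.val_mul,
        inv_mul_cancel, Units.val_one, Matrix.one_mul]
    rw [he, hGR, Units.val_mk0]
    refine gramSim_pull hsim ?_
    rw [Matrix.mul_assoc R⁻¹, ← Matrix.mul_assoc R, Matrix.mul_nonsing_inv _ hR, Matrix.one_mul]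
  -- a conjugate in the subgroup
  have outof : ∀ (x g : GL (Fin n) F), g⁻¹ * x * g ∈ Cfsg.Geo.similarityGroup f →
      ∃ (G' : Matrix (Fin n) (Fin n) F) (μ : F), μ ≠ 0 ∧ G'ᵀ = G'.map C.σ ∧ IsUnit G'.det ∧
        GramSim C.σ G' (x : Matrix (Fin n) (Fin n) F) μ := by
    intro x g h
    obtain ⟨μ, hμ⟩ := (hmem _).mp h
    obtain ⟨R, hRdef⟩ : ∃ R, R = ((g⁻¹ : GL (Fin n) F) : Matrix (Fin n) (Fin n) F) := ⟨_, rfl⟩
    refine ⟨Rᵀ * G * R.map C.σ, μ, μ.ne_zero, ?_, ?_, gramSim_pull hμ ?_⟩
    · have e : (R.map C.σ).map C.σ = R := by ext i j; simp [C.invol]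
      rw [Matrix.transpose_mul, Matrix.transpose_mul, Matrix.transpose_transpose, hGh, Matrix.map_mul, Matrix.map_mul, e,
        ← Matrix.transpose_map, Matrix.mul_assoc]
    · rw [Matrix.det_mul, Matrix.det_mul, Matrix.det_transpose, ← RingHom.mapMatrix_apply, ← RingHom.map_det]
      have hRu : IsUnit R.det := by rw [hRdef]; exact (Matrix.isUnit_iff_isUnit_det _).mp (g⁻¹).isUnit
      exact (hRu.mul hGu).mul (hRu.map _)
    · rw [hRdef, ← Units.val_mul, ← Units.val_mul, show g⁻¹ * x * g * g⁻¹ = g⁻¹ * x by group]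
  simp only [Units.val_pow_eq_pow_val]
  have hrprime := (Fact.out : r.Prime)
  have hq2 : 2 ≤ q₀ := C.two_le
  obtain ⟨f₀, -, hpf⟩ : ∃ f₀ : ℕ, f₀ ≠ 0 ∧ q₀ = p ^ f₀ := by
    obtain ⟨k, hp, hk⟩ := FiniteField.card F p
    obtain ⟨i, -, hi⟩ := (Nat.dvd_prime_pow hp).mp (show q₀ ∣ p ^ (k : ℕ) by rw [← hk, hq₀]; exact dvd_pow_self _ two_ne_zero)
    exact ⟨i, fun h0 => by rw [h0, pow_zero] at hi; omega, hi⟩
  by_cases hr2 : r = 2
  · subst hr2
    by_cases hp2 : p = 2
    · subst hp2
      haveI : CharP F 2 := by infer_instance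
      have h2 : (2 : F) = 0 := by exact_mod_cast CharP.cast_eq_zero F 2
      refine iff_of_true (fun x hxSL hz hx' => ?_) (Or.inl ⟨rfl, Or.inl rfl⟩)
      obtain ⟨c, hx⟩ := hz
      obtain ⟨s, hs⟩ := FiniteField.isSquare_of_char_two (ringChar.eq F 2) c
      have hdetx : (x : Matrix (Fin n) (Fin n) F).det = 1 := congrArg Units.val hxSL
      have hc0 := scalar_data (r := 2) hdetx (by omega) hx
      have hs0 : s ≠ 0 := fun h0 => hc0 (by rw [hs, h0, zero_mul])
      obtain ⟨A, hA⟩ : ∃ A, A = s⁻¹ • (x : Matrix (Fin n) (Fin n) F) - 1 := ⟨_, rfl⟩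
      have hA2 : A ^ 2 = 0 := by
        rw [hA, sub_pow_char_of_commute _ (Commute.one_right _), _root_.smul_pow, hx, smul_smul, hs, pow_two, pow_two,
          mul_mul_mul_comm, inv_mul_cancel₀ hs0, one_mul, one_mul, one_smul, sub_self]
      have hrk : A.rank + A.rank ≤ n := by
        have h1 := LinearMap.finrank_range_add_finrank_ker (Matrix.toLin' A)
        rw [Module.finrank_fin_fun] at h1
        have h3 := Submodule.finrank_mono (show LinearMap.range (Matrix.toLin' A) ≤ LinearMap.ker (Matrix.toLin' A) by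
          rintro _ ⟨v, rfl⟩
          rw [LinearMap.mem_ker, Matrix.toLin'_apply, Matrix.toLin'_apply, Matrix.mulVec_mulVec, ← pow_two, hA2,
            Matrix.zero_mulVec])
        have h4 : A.rank = Module.finrank F (LinearMap.range (Matrix.toLin' A)) := rfl
        omega
      obtain ⟨N, G', hNr, hN2, hGh', hGu', hsim, hscale⟩ := char_two_sim C.σ h2 hrk
      have hA0 : A ≠ 0 := fun h0 => hx' s (by
        rw [hA, sub_eq_zero] at h0
        rw [← h0, smul_smul, mul_inv_cancel₀ hs0, one_smul])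
      have hpos : 0 < A.rank := by
        by_contra h0
        push Not at h0
        refine hA0 ?_
        have : Module.finrank F (LinearMap.range (Matrix.toLin' A)) = 0 := Nat.le_zero.mp h0
        exact (Matrix.toLin' (R := F)).injective (by
          rw [map_zero]; exact LinearMap.range_eq_bot.mp (Submodule.finrank_eq_zero.mp this))
      refine into x 1 (s • (1 + N)) G' (s * C.σ s) (mul_ne_zero hs0 (by rwa [Ne, map_eq_zero])) hGh' hGu' ?_ fun R hR => ?_
      · show (s • (1 + N))ᵀ * G' * (s • (1 + N)).map C.σ = (s * C.σ s) • G'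
        rw [Matrix.transpose_smul, show (s • (1 + N)).map C.σ = C.σ s • (1 + N).map C.σ by ext; simp [mul_add],
          Matrix.smul_mul, Matrix.smul_mul, Matrix.mul_smul, hsim, one_smul, smul_smul]
      · obtain ⟨U, hU⟩ := CfsgLib.NilType.isConj_of_rank (A := N) (B := A) ⟨2, hN2⟩ ⟨2, hA2⟩ fun k => by
          rcases k with _ | _ | k
          · rw [pow_zero, pow_zero]
          · rw [pow_one, pow_one, hNr]
          · rw [pow_eq_zero_of_le (by omega) hN2, pow_eq_zero_of_le (by omega) hA2]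
        have hUu : IsUnit (U : Matrix (Fin n) (Fin n) F).det := (Matrix.isUnit_iff_isUnit_det _).mp U.isUnit
        obtain ⟨w, hw⟩ := FiniteField.isSquare_of_char_two (ringChar.eq F 2) ((U : Matrix (Fin n) (Fin n) F).det * R.det)⁻¹
        obtain ⟨Cm, hCdet, hCN⟩ := hscale hpos w
        refine ⟨(U : Matrix (Fin n) (Fin n) F) * Cm * R, ?_, ?_⟩
        · rw [Matrix.det_mul, Matrix.det_mul, hCdet, ← hw]
          field_simp [hUu.ne_zero, hR.ne_zero]
        · have hxA : (x : Matrix (Fin n) (Fin n) F) = s • (1 + A) := by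
            rw [hA, add_sub_cancel, smul_smul, mul_inv_cancel₀ hs0, one_smul]
          have hU' : A * (U : Matrix (Fin n) (Fin n) F) = (U : Matrix (Fin n) (Fin n) F) * N := hU.symm
          have hcancel : ∀ P Z : Matrix (Fin n) (Fin n) F, P * R * (R⁻¹ * Z * R) = P * Z * R := fun P Z => by
            simp only [Matrix.mul_assoc, Matrix.mul_nonsing_inv_cancel_left _ _ hR]
          rw [hxA, hcancel]
          simp only [Matrix.smul_mul, Matrix.mul_smul, Matrix.add_mul, Matrix.mul_add, Matrix.one_mul, Matrix.mul_one,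
            ← Matrix.mul_assoc, hU']
          rw [Matrix.mul_assoc (U : Matrix (Fin n) (Fin n) F) N, ← hCN, ← Matrix.mul_assoc (U : Matrix (Fin n) (Fin n) F)]
    · have h2 : (2 : F) ≠ 0 := fun h0 => hp2 ((Nat.prime_dvd_prime_iff_eq (Fact.out : p.Prime) Nat.prime_two).mp
        ((CharP.cast_eq_zero_iff F p 2).mp (by exact_mod_cast h0)))
      have hodd : Odd q₀ := by
        rw [hpf]
        exact ((Fact.out : p.Prime).odd_of_ne_two hp2).pow
      have hq4 : Fintype.card F % 4 = 1 := by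
        obtain ⟨j, hj⟩ := hodd
        rw [hq₀, hj, show (2 * j + 1) ^ 2 = 4 * (j * (j + 1)) + 1 by ring]
        omega
      have h2q : 2 ∣ Fintype.card F - 1 := by omega
      have hno := no_nonsplit_iff (F := F) (r := 2) (p := p) (n := n) (Ne.symm hp2) h2q (by omega)
      simp only [show ((2 : ℕ) = 3 ∨ (2 : ℕ) = 5) ↔ False by norm_num, false_and, or_false, true_and, hp2, false_or]
      constructor
      · intro h
        by_contra hv
        obtain ⟨c, hc, h2n, hdet⟩ := not_not.mp (hno.not.mpr fun hh => hv hh.1)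
        obtain ⟨X, hX, hX'⟩ := exists_witness_nonsplit (n := n) (p := p) (by omega) (Ne.symm hp2) hc h2n hdet
        obtain ⟨g, -, hg⟩ := h (Matrix.SpecialLinearGroup.toGL X) (Units.ext X.2) ⟨c, hX⟩ hX'
        obtain ⟨G', μ, hμ, hGh', hGu', hsim⟩ := outof _ g hg
        have hμσ : C.σ μ = μ := by
          refine eq_of_smul_eq (show 0 < n by omega) (G := G'.map C.σ) (by
            rw [← RingHom.mapMatrix_apply, ← RingHom.map_det]; exact hGu'.map _) ?_
          have e1 := congrArg (fun Z : Matrix (Fin n) (Fin n) F => Z.map C.σ) hsim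
          have e2 := congrArg Matrix.transpose hsim
          have hcc : ((Matrix.SpecialLinearGroup.toGL X : Matrix (Fin n) (Fin n) F).map C.σ).map C.σ =
              (Matrix.SpecialLinearGroup.toGL X : Matrix (Fin n) (Fin n) F) := by ext i j; simp [C.invol]
          rw [Matrix.transpose_mul, Matrix.transpose_mul, Matrix.transpose_transpose, Matrix.transpose_smul, hGh',
            ← Matrix.mul_assoc] at e2
          have e1' : ((Matrix.SpecialLinearGroup.toGL X : Matrix (Fin n) (Fin n) F).map C.σ)ᵀ * G'.map C.σ *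
              (Matrix.SpecialLinearGroup.toGL X : Matrix (Fin n) (Fin n) F) = C.σ μ • G'.map C.σ := by
            have e3 : (μ • G').map C.σ = C.σ μ • G'.map C.σ := by ext i j; simp
            rw [e3, Matrix.map_mul, Matrix.map_mul, hcc, Matrix.transpose_map] at e1
            exact e1
          rw [← e1', e2]
        have h4 := gramSim_pow hsim 2
        have h5 : μ ^ 2 = c * C.σ c := by
          refine eq_of_smul_eq (show 0 < n by omega) hGu' ?_
          have h6 : (Matrix.SpecialLinearGroup.toGL X : Matrix (Fin n) (Fin n) F) ^ 2 = c • 1 := hX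
          rw [← h4, h6, Matrix.transpose_smul, Matrix.transpose_one, show (c • (1 : Matrix (Fin n) (Fin n) F)).map C.σ =
            C.σ c • 1 by ext i j; simp [Matrix.one_apply, apply_ite C.σ], Matrix.smul_mul, Matrix.one_mul, Matrix.smul_mul,
            Matrix.mul_smul, Matrix.mul_one, smul_smul]
        have hc0 : c ≠ 0 := fun h0 => hc 0 (by rw [h0, zero_pow two_ne_zero])
        obtain ⟨w, hw⟩ : IsSquare c := by
          rw [FiniteField.isSquare_iff (fun h => by have := FiniteField.even_card_iff_char_two.mp h; omega) hc0]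
          obtain ⟨j, hj⟩ := hodd
          rw [C.pow, ← pow_succ'] at h5
          rw [C.pow, hj, pow_succ] at hμσ
          have h7 : μ ^ (2 * j) = 1 := mul_right_cancel₀ hμ (hμσ.trans (one_mul _).symm)
          rw [show Fintype.card F / 2 = (q₀ + 1) * j by
            rw [hq₀, hj, show (2 * j + 1) ^ 2 = 2 * (2 * (j * (j + 1))) + 1 by ring,
              show (2 * j + 1 + 1) * j = 2 * (j * (j + 1)) by ring]
            omega, pow_mul, ← h5, ← pow_mul, h7]
        exact hc w (by rw [hw, pow_two])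
      · intro hv x hxSL hz hx'
        obtain ⟨c, hx⟩ := hz
        have hdetx : (x : Matrix (Fin n) (Fin n) F).det = 1 := congrArg Units.val hxSL
        have hc0 := scalar_data (r := 2) hdetx (by omega) hx
        obtain ⟨s, hs⟩ : ∃ s : F, s ^ 2 = c := by
          by_contra hns
          push Not at hns
          obtain ⟨h2n, hcp, -⟩ := nonsplit (r := 2) _ hns hx
          have hd := det_nonsplit (r := 2) (Nat.div_mul_cancel h2n).symm hcp
          rw [hdetx] at hd
          exact hno.mpr ⟨hv, fun _ _ => hq4⟩ ⟨c, hns, h2n, hd.symm⟩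
        have hs0 : s ≠ 0 := fun h0 => hc0 (by rw [← hs, h0, zero_pow two_ne_zero])
        obtain ⟨M, hMdef⟩ : ∃ M, M = s⁻¹ • (x : Matrix (Fin n) (Fin n) F) := ⟨_, rfl⟩
        have hM : M * M = 1 := by
          rw [← pow_two, hMdef, _root_.smul_pow, hx, smul_smul, ← hs, ← mul_pow, inv_mul_cancel₀ hs0, one_pow, one_smul]
        obtain ⟨P, d, hP, hMP⟩ := Cfsg.Agent.S5967.exists_sign_basis h2 M hM
        have hxP : (x : Matrix (Fin n) (Fin n) F) * P = P * Matrix.diagonal (fun j => if d j then s else -s) := by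
          have hxM : (x : Matrix (Fin n) (Fin n) F) = s • M := by rw [hMdef, smul_smul, mul_inv_cancel₀ hs0, one_smul]
          rw [hxM, Matrix.smul_mul, hMP, ← Matrix.mul_smul, ← Matrix.diagonal_smul]
          congr 2; funext j
          simp only [Pi.smul_apply, smul_eq_mul]
          split_ifs <;> ring
        refine into x 1 (Matrix.diagonal fun j => if d j then s else -s) 1 (s * C.σ s)
          (mul_ne_zero hs0 (by rwa [Ne, map_eq_zero])) (by simp [Matrix.transpose_one]) (by simp) ?_ fun R hR => ?_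
        · show (Matrix.diagonal _)ᵀ * 1 * (Matrix.diagonal _).map C.σ = _
          rw [Matrix.diagonal_transpose, Matrix.mul_one, Matrix.diagonal_map (map_zero _), Matrix.diagonal_mul_diagonal,
            Matrix.smul_one_eq_diagonal]
          congr 1; funext j
          split_ifs <;> simp [map_neg]
        · refine ⟨P * Matrix.diagonal (Function.update (1 : Fin n → F) ⟨0, by omega⟩ (P.det * R.det)⁻¹) * R, ?_, ?_⟩
          · rw [Matrix.det_mul, Matrix.det_mul, Matrix.det_diagonal, Finset.prod_update_of_mem (Finset.mem_univ _)]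
            simp only [Pi.one_apply, Finset.prod_const_one, mul_one]
            field_simp [hP.ne_zero, hR.ne_zero]
          · have hcancel : ∀ P Z : Matrix (Fin n) (Fin n) F, P * R * (R⁻¹ * Z * R) = P * Z * R := fun P Z => by
              simp only [Matrix.mul_assoc, Matrix.mul_nonsing_inv_cancel_left _ _ hR]
            rw [hcancel, ← Matrix.mul_assoc, ← Matrix.mul_assoc, hxP,
              Matrix.mul_assoc P, Matrix.mul_assoc P (Matrix.diagonal _) (Matrix.diagonal _), Matrix.diagonal_mul_diagonal,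
              Matrix.diagonal_mul_diagonal]
            congr 3; funext j; ring
  · have hrp : r ≠ p := hr.resolve_left hr2
    have hrF : (r : F) ≠ 0 := r_ne_zero hrp
    have hrq0 : ¬ r ∣ q₀ := by
      rw [hpf]
      exact fun h => hrp ((Nat.prime_dvd_prime_iff_eq hrprime (Fact.out : p.Prime)).mp (hrprime.dvd_of_dvd_pow h))
    obtain ⟨RR, hRR, hGR⟩ := transfer 1 (by simp [Matrix.transpose_one]) (by simp)
    obtain ⟨J, hJn, hJ⟩ := index_prime C (by omega) (Cfsg.Geo.similarityGroup f) RR hRR (fun g hg => (hmem g).mpr ⟨1, by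
      rw [hGR]
      refine gramSim_pull hg ?_
      rw [Matrix.mul_assoc _ RR⁻¹ RR, Matrix.nonsing_inv_mul _ hRR, Matrix.mul_one]⟩) hrq0 hΩ
    have hne1 : (1 : ZMod r) ≠ -1 := fun h => hr2 ((Nat.prime_dvd_prime_iff_eq hrprime Nat.prime_two).mp
      ((ZMod.natCast_eq_zero_iff _ _).mp (by push_cast; linear_combination h)))
    have hcard : (Fintype.card F : ZMod r) = (q₀ : ZMod r) ^ 2 := by rw [hq₀, Nat.cast_pow]
    have hq0z : (q₀ : ZMod r) ≠ 0 := fun h => hrq0 ((ZMod.natCast_eq_zero_iff _ _).mp h)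
    have hTw : ∀ j : ℕ, -(q₀ : ZMod r) ≠ (Fintype.card F : ZMod r) ^ j := by
      intro j hj
      rw [hcard, ← neg_sq, ← pow_mul] at hj
      obtain ⟨j', rfl⟩ | hj0 : (∃ j', j = j' + 1) ∨ j = 0 := by
        rcases j with _ | j
        exacts [Or.inr rfl, Or.inl ⟨j, rfl⟩]
      · have h1 : (-(q₀ : ZMod r)) ^ (2 * j' + 1) = 1 := by
          refine mul_right_cancel₀ (neg_ne_zero.mpr hq0z) ?_
          rw [one_mul, ← pow_succ, show 2 * j' + 1 + 1 = 2 * (j' + 1) by ring]
          exact hj.symm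
        have h2 := congrArg (fun z => z ^ J) h1
        simp only [one_pow, ← pow_mul] at h2
        rw [mul_comm, pow_mul, hJ, (odd_two_mul_add_one j').neg_one_pow] at h2
        exact hne1 h2.symm
      · rw [hj0, mul_zero, pow_zero] at hj
        rw [hj, one_pow] at hJ
        exact hne1 hJ
    obtain ⟨i, hidef⟩ : ∃ i, i = orderOf (Fintype.card F : ZMod r) := ⟨_, rfl⟩
    have hin : i ≤ n := by
      have hJ0 : J ≠ 0 := fun h => by rw [h, pow_zero] at hJ; exact hne1 hJ
      refine le_trans (Nat.le_of_dvd (Nat.pos_of_ne_zero hJ0) ?_) hJn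
      rw [hidef]
      refine orderOf_dvd_of_pow_eq_one ?_
      rw [hcard, ← neg_sq, ← pow_mul, mul_comm, pow_mul, hJ, neg_one_sq]
    have hi0 : i ≠ 0 := by
      rw [hidef]
      refine Nat.pos_iff_ne_zero.mp ((isOfFinOrder_iff_pow_eq_one.mpr ⟨r - 1, by have := hrprime.two_le; omega,
        ZMod.pow_card_sub_one_eq_one ?_⟩).orderOf_pos)
      rw [hcard]; exact pow_ne_zero _ hq0z
    simp only [hr2, false_and, false_or]
    by_cases hi1 : i = 1
    swap
    · have hlhs : ¬ ∀ x ∈ Cfsg.Geo.specialLinear (Fin n) F,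
          (∃ z : F, (x : Matrix (Fin n) (Fin n) F) ^ r = z • (1 : Matrix (Fin n) (Fin n) F)) →
          (∀ z : F, (x : Matrix (Fin n) (Fin n) F) ≠ z • (1 : Matrix (Fin n) (Fin n) F)) →
          ∃ g ∈ Cfsg.Geo.specialLinear (Fin n) F, g⁻¹ * x * g ∈ Cfsg.Geo.similarityGroup f := by
        intro h
        obtain ⟨X, hXdet, hXr, hXne, P, hPf, hα, hroot, hkey⟩ :=
          exists_orbit_witness (n := n) hrp (by omega : 2 ≤ orderOf (Fintype.card F : ZMod r)) (hidef ▸ hin)
        obtain ⟨g, -, hg⟩ := h (Matrix.GeneralLinearGroup.mkOfDetNeZero X (by rw [hXdet]; exact one_ne_zero))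
          (Units.ext hXdet) ⟨1, by rw [one_smul]; exact hXr⟩ hXne
        obtain ⟨G', μ, hμ, hGh', hGu', hsim⟩ := outof _ g hg
        have hsim' : GramSim C.σ G' X μ := hsim
        have hμ1 : μ = 1 := by
          have h1 := gramSim_pow hsim' r
          rw [hXr] at h1
          have h2 : μ ^ r = 1 := by
            refine eq_of_smul_eq (show 0 < n by omega) hGu' ?_
            rw [← h1, one_smul]; simp
          have h3 : orderOf (Units.mk0 μ hμ) ∣ r := orderOf_dvd_of_pow_eq_one (Units.ext (by simpa using h2))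
          rcases (Nat.dvd_prime hrprime).mp h3 with h | h
          · simpa [orderOf_eq_one_iff, Units.ext_iff] using h
          · have h4 := orderOf_dvd_natCard (Units.mk0 μ hμ)
            rw [h, Nat.card_units, Nat.card_eq_fintype_card] at h4
            exact absurd (hidef.trans (r_dvd_sub_iff.mp h4)) hi1
        subst hμ1
        let L := AdjoinRoot P
        haveI : CharP L p := charP_of_injective_ringHom (AdjoinRoot.of P).injective p
        haveI : ExpChar L p := ExpChar.prime Fact.out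
        have hr1 : X * X ^ (r - 1) = 1 := by rw [← pow_succ', Nat.sub_add_cancel hrprime.one_le, hXr]
        have hconj : X.map C.σ = G'⁻¹ * (X ^ (r - 1))ᵀ * G' := by
          have h1 : (X ^ (r - 1))ᵀ * (Xᵀ * G' * X.map C.σ) = (X ^ (r - 1))ᵀ * G' := by rw [hsim', one_smul]
          rw [← Matrix.mul_assoc, ← Matrix.mul_assoc, ← Matrix.transpose_mul, hr1, Matrix.transpose_one, Matrix.one_mul] at h1
          rw [Matrix.mul_assoc, ← h1, Matrix.nonsing_inv_mul_cancel_left _ _ hGu']
        have hcp : (X.map C.σ).charpoly = (X ^ (r - 1)).charpoly := by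
          have hu : (G'⁻¹ * (X ^ (r - 1))ᵀ * G').charpoly = ((X ^ (r - 1))ᵀ).charpoly := by
            rw [Matrix.charpoly_mul_comm, ← Matrix.mul_assoc, Matrix.mul_nonsing_inv _ hGu', Matrix.one_mul]
          rw [hconj, hu, Matrix.charpoly_transpose]
        have hφ : ∀ z : L, iterateFrobenius L p f₀ z = z ^ q₀ := fun z => by rw [iterateFrobenius_def, hpf]
        have hroot' : ((X ^ (r - 1)).map (AdjoinRoot.of P)).charpoly.IsRoot (AdjoinRoot.root P ^ q₀) := by
          rw [Matrix.charpoly_map, ← hcp, Matrix.charpoly_map, Polynomial.map_map, Polynomial.IsRoot, Polynomial.eval_map]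
          have h1 := congrArg (iterateFrobenius L p f₀) hroot
          rw [Matrix.charpoly_map, Polynomial.eval_map, Polynomial.hom_eval₂, hφ, map_zero] at h1
          rwa [show (AdjoinRoot.of P).comp C.σ = (iterateFrobenius L p f₀).comp (AdjoinRoot.of P) from
            RingHom.ext fun a => by rw [RingHom.comp_apply, RingHom.comp_apply, hφ, C.pow, map_pow]]
        have hmem' := spectrum.pow_mem_pow ((X ^ (r - 1)).map (AdjoinRoot.of P)) (r - 1)
          (Matrix.mem_spectrum_iff_isRoot_charpoly.mpr hroot')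
        rw [← Matrix.map_pow, ← pow_mul,
          show (r - 1) * (r - 1) = r * (r - 2) + 1 by
            obtain ⟨k, rfl⟩ : ∃ k, r = k + 2 := ⟨r - 2, by have := hrprime.two_le; omega⟩
            simp only [Nat.add_sub_cancel, show k + 2 - 1 = k + 1 by omega]
            ring,
          pow_succ, pow_mul X r, hXr, one_pow, Matrix.one_mul, Matrix.mem_spectrum_iff_isRoot_charpoly, ← pow_mul] at hmem'
        have hcast : ((q₀ * (r - 1) : ℕ) : ZMod r) = -(q₀ : ZMod r) := by
          rw [Nat.cast_mul, Nat.cast_sub hrprime.one_le, ZMod.natCast_self, Nat.cast_one, zero_sub, mul_neg, mul_one]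
        obtain ⟨j, hj⟩ := hkey _ (by rw [hcast]; exact neg_ne_zero.mpr hq0z) hmem'
        rw [hcast] at hj
        exact hTw j hj
      refine iff_of_false hlhs ?_
      rintro ⟨-, -, hv⟩
      apply hi1
      rw [hidef]
      refine r_dvd_sub_iff.mp ((dvd_of_one_le_padicValNat hv.ge).trans ?_)
      rw [hq₀, show q₀ ^ 2 - 1 = (q₀ + 1) * (q₀ - 1) by rw [← Nat.sq_sub_sq, one_pow]]
      exact dvd_mul_left _ _
    · have hrq : r ∣ Fintype.card F - 1 := r_dvd_sub_iff.mpr (hidef ▸ hi1)
      have hu : -(q₀ : ZMod r) ≠ 1 := by simpa using hTw 0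
      have hq1 : (q₀ : ZMod r) = 1 := by
        have h1 : (Fintype.card F : ZMod r) = 1 := orderOf_eq_one_iff.mp (hidef ▸ hi1)
        rw [hcard, sq_eq_one_iff] at h1
        exact h1.resolve_right fun h => hu (by rw [h, neg_neg])
      have hu1 : (-1 : ZMod r) ≠ 1 := Ne.symm hne1
      obtain ⟨ζ, hζ⟩ := exists_char (F := F) hrq
      have hζ0 : ∀ b, ζ b ≠ 0 := fun b h0 => by
        have h1 := ζ.map_add_eq_mul b (-b)
        rw [add_neg_cancel, ζ.map_zero_eq_one, h0, zero_mul] at h1
        exact one_ne_zero h1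
      have hζr : ∀ (ξ : AddChar (ZMod r) F) b, ξ b ^ r = 1 := fun ξ b => by
        rw [← ξ.map_nsmul_eq_pow, nsmul_eq_mul, ZMod.natCast_self, zero_mul, ξ.map_zero_eq_one]
      have hσζ : ∀ (ξ : AddChar (ZMod r) F) b, C.σ (ξ b) = ξ b := fun ξ b => by
        rw [C.pow, ← ξ.map_nsmul_eq_pow, nsmul_eq_mul, hq1, one_mul]
      -- a diagonal witness
      have diag : ∀ (s : F) (ξ : AddChar (ZMod r) F) (a : Fin n → ZMod r), s ≠ 0 → Function.Injective ξ →
          (¬ ∃ e, ∀ b, (Finset.univ.filter fun j => a j = b).card = (Finset.univ.filter fun j => a j = -1 * b + e).card) →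
          ∏ j, s * ξ (a j) = 1 →
          ¬ ∀ x ∈ Cfsg.Geo.specialLinear (Fin n) F,
            (∃ z : F, (x : Matrix (Fin n) (Fin n) F) ^ r = z • (1 : Matrix (Fin n) (Fin n) F)) →
            (∀ z : F, (x : Matrix (Fin n) (Fin n) F) ≠ z • (1 : Matrix (Fin n) (Fin n) F)) →
            ∃ g ∈ Cfsg.Geo.specialLinear (Fin n) F, g⁻¹ * x * g ∈ Cfsg.Geo.similarityGroup f := by
        intro s ξ a hs hξ hninv hprod h
        have hξ0 : ∀ b, ξ b ≠ 0 := fun b h0 => by
          have h1 := ξ.map_add_eq_mul b (-b)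
          rw [add_neg_cancel, ξ.map_zero_eq_one, h0, zero_mul] at h1
          exact one_ne_zero h1
        obtain ⟨D, hD⟩ : ∃ D, D = Matrix.diagonal (fun j => s * ξ (a j)) := ⟨_, rfl⟩
        have hDdet : D.det = 1 := by rw [hD, Matrix.det_diagonal, hprod]
        obtain ⟨g, -, hg⟩ := h (Matrix.GeneralLinearGroup.mkOfDetNeZero D (by rw [hDdet]; exact one_ne_zero))
          (Units.ext hDdet) ⟨s ^ r, by
            show D ^ r = _
            rw [hD, Matrix.diagonal_pow, Matrix.smul_one_eq_diagonal]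
            congr 1; funext j
            rw [Pi.pow_apply, mul_pow, hζr, mul_one]⟩ (fun z hz => hninv ⟨a ⟨0, by omega⟩ + a ⟨0, by omega⟩, fun b => by
              have hall : ∀ j, a j = a ⟨0, by omega⟩ := fun j => by
                have e1 := congrFun (congrFun hz j) j
                have e2 := congrFun (congrFun hz ⟨0, by omega⟩) ⟨0, by omega⟩
                replace e1 : D j j = z := by simpa using e1
                replace e2 : D ⟨0, by omega⟩ ⟨0, by omega⟩ = z := by simpa using e2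
                rw [hD, Matrix.diagonal_apply_eq] at e1 e2
                exact hξ (mul_left_cancel₀ hs (e1.trans e2.symm))
              refine congrArg Finset.card (Finset.filter_congr fun j _ => ?_)
              rw [hall j]
              constructor
              · rintro rfl; ring
              · intro e; linear_combination -e⟩)
        obtain ⟨G', μ, hμ, hGh', hGu', hsim⟩ := outof _ g hg
        refine hninv (exponent_invariant hξ (by omega) hs a (-1) (C.σ μ / C.σ s) fun b => ?_)
        have := diag_invariant C.invol hGu' hμ (d := fun j => s * ξ (a j)) (fun j => mul_ne_zero hs (hξ0 _))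
          (by rw [← hD]; exact hsim) (t := s * ξ b) (mul_ne_zero hs (hξ0 b))
        rw [show C.σ (μ / (s * ξ b)) = C.σ μ / C.σ s * ξ (-1 * b) by
          have h1 : ξ (-1 * b) = (ξ b)⁻¹ := eq_inv_of_mul_eq_one_left (by
            rw [← ξ.map_add_eq_mul, show -1 * b + b = 0 by ring, ξ.map_zero_eq_one])
          rw [map_div₀, map_mul, hσζ, h1, div_mul_eq_div_div, div_eq_mul_inv _ (ξ b)]] at this
        exact this
      by_cases hnr : (r = 3 ∨ r = 5) ∧ n = r
      · obtain ⟨hr35, hnr⟩ := hnr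
        have hsplit : r ^ 2 ∣ Fintype.card F - 1 ↔ r ^ 2 ∣ q₀ - 1 := by
          rw [hq₀, show q₀ ^ 2 - 1 = (q₀ + 1) * (q₀ - 1) by rw [← Nat.sq_sub_sq, one_pow]]
          refine ⟨fun h => (Nat.Coprime.pow_left 2 ?_).dvd_of_dvd_mul_left h, fun h => dvd_mul_of_dvd_right h _⟩
          rw [hrprime.coprime_iff_not_dvd, ← ZMod.natCast_eq_zero_iff]
          push_cast
          rw [hq1]
          exact fun h => hne1 (by linear_combination h)
        have hr1 : r ∣ q₀ - 1 := by
          rw [← ZMod.natCast_eq_zero_iff, Nat.cast_sub (by omega), Nat.cast_one, hq1, sub_self]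
        have hval : padicValNat r (q₀ - 1) = 1 ↔ ¬ r ^ 2 ∣ q₀ - 1 := by
          have h0 : q₀ - 1 ≠ 0 := by omega
          rw [padicValNat_dvd_iff_le h0]
          have := one_le_padicValNat_of_dvd h0 hr1
          omega
        rw [hval, ← hsplit]
        simp only [hr35, hnr, true_and]
        subst hnr
        by_cases hv : n ^ 2 ∣ Fintype.card F - 1
        · refine iff_of_false ?_ (not_not_intro hv)
          obtain ⟨g, hg⟩ := IsCyclic.exists_ofOrder_eq_natCard (α := Fˣ)
          rw [Nat.card_units, Nat.card_eq_fintype_card] at hg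
          have hs := orderOf_pow_orderOf_div (orderOf_pos g).ne' (hg ▸ hv)
          generalize g ^ (orderOf g / n ^ 2) = s at hs
          obtain ⟨w, hw⟩ : ∃ w : F, w = ((s : F) ^ n)⁻¹ := ⟨_, rfl⟩
          have hwn : w ^ n = 1 := by
            rw [hw, inv_pow, ← pow_mul, ← pow_two, ← Units.val_pow_eq_pow_val, ← hs, pow_orderOf_eq_one, Units.val_one, inv_one]
          have hwinj : Function.Injective (AddChar.zmodChar n hwn) := by
            intro a b hab
            rw [AddChar.zmodChar_apply, AddChar.zmodChar_apply] at hab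
            have hw1 : orderOf w = n := by
              refine orderOf_eq_prime hwn fun h1 => ?_
              rw [hw, inv_eq_one, ← Units.val_pow_eq_pow_val, Units.val_eq_one] at h1
              have := Nat.le_of_dvd (NeZero.pos n) (orderOf_dvd_of_pow_eq_one h1)
              rw [hs] at this
              nlinarith [hrprime.two_le]
            exact ZMod.val_injective n (pow_injOn_Iio_orderOf (by rw [hw1]; exact ZMod.val_lt a)
              (by rw [hw1]; exact ZMod.val_lt b) hab)
          refine diag (s : F) (AddChar.zmodChar n hwn) (Pi.single ⟨0, by omega⟩ 1) s.ne_zero hwinj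
            (single_not_invariant hn _ hu1) ?_
          rw [Finset.prod_mul_distrib, Finset.prod_const, Finset.card_univ, Fintype.card_fin,
            Finset.prod_eq_single ⟨0, by omega⟩ (fun j _ hj => by rw [Pi.single_eq_of_ne hj, AddChar.map_zero_eq_one]) (by simp),
            Pi.single_eq_same, AddChar.zmodChar_apply, ZMod.val_one, pow_one, hw, mul_inv_cancel₀ (pow_ne_zero _ s.ne_zero)]
        · refine iff_of_true ?_ hv
          intro x hxSL hz hx'
          obtain ⟨c, hx⟩ := hz
          obtain ⟨hx1, a, hca, hsum, hne⟩ := split_data hr2 rfl hrq hv hζ hrF (congrArg Units.val hxSL) hx hx'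
          obtain ⟨π, e, hπ, hπa⟩ := exists_pairing hr35 rfl a hsum hne
          obtain ⟨G', hGt, hGu', hG', hGsim⟩ := pairing_gram (F := F) π hπ
          refine into x 1 (Matrix.diagonal fun j => ζ (a j)) G' (ζ e) (hζ0 e) ?_ hGu' (hGsim _ _ _ fun j => by
            rw [hσζ, ← ζ.map_add_eq_mul, hπa, add_sub_cancel]) fun R hR => ?_
          · rw [hGt]
            ext i j
            rw [Matrix.map_apply, hG']
            split_ifs <;> simp
          · have hY1 : (Matrix.diagonal fun j => ζ (a j)) ^ n = 1 := by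
              rw [Matrix.diagonal_pow, ← Matrix.diagonal_one]
              congr 1; funext j
              exact hζr ζ _
            obtain ⟨P', hP', hxP'⟩ := conj_core (show 0 < n by omega) hrF hx1 (Y := R⁻¹ * (Matrix.diagonal fun j => ζ (a j)) * R) (by
              have hpw : ∀ k : ℕ, (R⁻¹ * (Matrix.diagonal fun j => ζ (a j)) * R) ^ k =
                  R⁻¹ * (Matrix.diagonal fun j => ζ (a j)) ^ k * R := by
                intro k
                induction k with
                | zero => rw [pow_zero, pow_zero, Matrix.mul_one, Matrix.nonsing_inv_mul _ hR]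
                | succ k ih =>
                  rw [pow_succ, ih, pow_succ]
                  simp only [Matrix.mul_assoc, Matrix.mul_nonsing_inv_cancel_left _ _ hR]
              rw [hpw, hY1, Matrix.mul_one, Matrix.nonsing_inv_mul _ hR]) (by
              rw [Matrix.charpoly_mul_comm, ← Matrix.mul_assoc, Matrix.mul_nonsing_inv _ hR, Matrix.one_mul,
                Matrix.charpoly_diagonal, hca])
            exact ⟨P', hP', hxP'⟩
      · refine iff_of_false ?_ fun hh => hnr ⟨hh.1, hh.2.1⟩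
        obtain ⟨k, rfl⟩ : ∃ k, n = 3 + k := ⟨n - 3, by omega⟩
        refine diag 1 ζ (wvec r k) one_ne_zero hζ (wvec_not_invariant hr2 ⟨?_, ?_, ?_⟩ (neg_ne_zero.mpr one_ne_zero) hu1) ?_
        · intro hk h3; exact hnr ⟨Or.inl h3, by omega⟩
        · intro hk h3; exact hgap ⟨by omega, h3⟩
        · intro hk h5; exact hnr ⟨Or.inr h5, by omega⟩
        · simp only [one_mul]
          have h1 : ∀ t : Finset (Fin (3 + k)), ∏ j ∈ t, ζ (wvec r k j) = ζ (∑ j ∈ t, wvec r k j) := by
            intro t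
            induction t using Finset.induction_on with
            | empty => simp
            | insert j t hj ih => rw [Finset.sum_insert hj, Finset.prod_insert hj, ζ.map_add_eq_mul, ih]
          rw [h1, wvec_sum, ζ.map_zero_eq_one]

end Cfsg.Agent.S5982
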