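import Cfsg.Statements.S5983
import Cfsg.Agent.SpQuad.Derangement

set_option autoImplicit false
open scoped MatrixGroups
open Cfsg

namespace Cfsg.Agent.S5983

open Matrix CfsgLib.SpQuad CfsgLib.NonsingPoint

/-- Elements of prime order of PSp_n(q), q even, and the subgroups of orthogonal type. Here `T = Sp_{2d}(F)` for a field `F` of characteristic 2 with `q` elements (`d ≥ 2`, `(d, q) ≠ (2, 2)`), realised as the invertible matrices preserving the standard alternating form; `Q` is a non-degenerate quadratic form on `F^{2d}` whose polar form is that alternating form, and `H` is the subgroup of `T` preserving `Q` up to a scalar (equivalently preserving `Q`) — a subgroup of type O^±_{2d}(q) (maximality is not assumed); `Q` is of plus type when `F^{2d}` contains a `d`-dimensional subspace on which `Q` vanishes, of minus type otherwise. Ω is the set of cosets of `H` in `T`, so an element of `T` of prime order `r` (`x ∈ T` with `x^r` scalar, `x` not scalar) fixes a point of Ω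 exactly when some `T`-conjugate of `x` preserves `Q`. Let `r` be a prime dividing the index of `H`. Then every element of `T` of order `r` fixes a point of Ω if and only if `r = 2` and either `Q` is of plus type or `d` is odd. -/
theorem result {F : Type*} [Field F] [Fintype F] {p : ℕ} [Fact p.Prime] [CharP F p] {q : ℕ} (hq : Fintype.card F = q)
    (hp : p = 2) (d : ℕ) (hd : 2 ≤ d) (hT : (d, q) ≠ (2, 2)) (Q : (Fin d ⊕ Fin d → F) → F) (hQ : Cfsg.Geo.IsNondegenerateQuadraticForm Q)
    (hQf : ∀ u v, QuadraticMap.polar Q u v = Cfsg.sympForm d F u v)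
    (r : ℕ) [Fact r.Prime]
    (hΩ : r ∣ (Cfsg.Geo.quadSimilarityGroup Q).relIndex (Cfsg.spGL d F)) :
    (∀ x ∈ Cfsg.spGL d F, (∃ z : F, ((x ^ r : GL (Fin d ⊕ Fin d) F) : Matrix (Fin d ⊕ Fin d) (Fin d ⊕ Fin d) F) = z • (1 : Matrix (Fin d ⊕ Fin d) (Fin d ⊕ Fin d) F)) →
      (∀ z : F, (x : Matrix (Fin d ⊕ Fin d) (Fin d ⊕ Fin d) F) ≠ z • (1 : Matrix (Fin d ⊕ Fin d) (Fin d ⊕ Fin d) F)) →
      ∃ g ∈ Cfsg.spGL d F, g⁻¹ * x * g ∈ Cfsg.Geo.quadSimilarityGroup Q) ↔
    (r = 2 ∧ (Cfsg.Geo.IsPlusTypeOn Q ⊤ ∨ Odd d)) := by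
  classical
  subst hp
  have hF2 : (2 : F) = 0 := by exact_mod_cast CharP.cast_eq_zero F 2
  have hd1 : 1 ≤ d := by omega
  have hr : r.Prime := Fact.out
  obtain ⟨Qf, rfl, hn⟩ := CfsgLib.Forms.exists_quadForm hQ
  have hpol : Polarizes Qf := hQf
  rw [← isPlus_iff_isPlusTypeOn hpol]
  constructor
  · intro hall
    rcases hr.eq_two_or_odd' with rfl | hodd
    · refine ⟨rfl, ?_⟩
      by_contra hcon
      rw [not_or, Nat.not_odd_iff_even] at hcon
      obtain ⟨hnp, hde⟩ := hcon
      obtain ⟨x, hx, hx2, hxs, hxall⟩ := exists_involution_plus_only (F := F) hd1 hde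
      obtain ⟨g, hg, hm⟩ := hall x hx ⟨1, by rw [hx2, one_smul]; rfl⟩ hxs
      exact not_mem_sim hd1 hpol (fun Q' hQ' hinv hiff => hnp (hiff.1 (hxall Q' hQ' hinv))) hx hg hm
    · exfalso
      have hr2 : r ≠ 2 := fun h => by subst h; exact Nat.not_odd_iff_even.2 even_two hodd
      have hrq : ∀ n, ¬ r ∣ Fintype.card F ^ n := fun n h => hr2 (by
        obtain ⟨k, -, hk⟩ := FiniteField.card F 2
        rw [hk, ← pow_mul] at h
        exact (Nat.prime_dvd_prime_iff_eq hr Nat.prime_two).1 (hr.dvd_of_dvd_pow h))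
      have h2X : r ∣ 2 * (Cfsg.Geo.quadSimilarityGroup ⇑Qf).relIndex (Cfsg.spGL d F) := dvd_mul_of_dvd_right hΩ 2
      obtain ⟨hcp, hcm⟩ := two_mul_relIndex hF2 hd1 hpol
      by_cases hp : IsPlus d Qf
      · rw [hcp hp] at h2X
        obtain ⟨x, Q₁, hQ₁, hnp, hinv, hxr, hfix⟩ :=
          exists_fpf_minus (F := F) hd1 r ((hr.dvd_mul.1 h2X).resolve_left (hrq d))
        have hx := mem_spGL_of_map hQ₁ hQ₁ hinv
        obtain ⟨g, hg, hm⟩ := hall x hx ⟨1, by rw [hxr, one_smul]; rfl⟩
          (ne_scalar_of_fixedPointFree hF2 hd1 hx hfix)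
        exact not_mem_sim hd1 hpol (fun Q' hQ' hinv' hiff => hnp
          (unique_form hF2 hQ₁ hfix hinv hQ' hinv' ▸ hiff.2 hp)) hx hg hm
      · rw [hcm hp] at h2X
        obtain ⟨x, hinv, hxr, hfix⟩ :=
          exists_fpf_plus (F := F) hd1 r ((hr.dvd_mul.1 h2X).resolve_left (hrq d))
        have hQ₁ := polarizes_quadPlus (F := F) (d := d) hF2
        have hx := mem_spGL_of_map hQ₁ hQ₁ hinv
        obtain ⟨g, hg, hm⟩ := hall x hx ⟨1, by rw [hxr, one_smul]; rfl⟩
          (ne_scalar_of_fixedPointFree hF2 hd1 hx hfix)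
        exact not_mem_sim hd1 hpol (fun Q' hQ' hinv' hiff => hp
          (hiff.1 ((unique_form hF2 hQ₁ hfix hinv hQ' hinv').symm ▸ isPlus_quadPlus))) hx hg hm
  · rintro ⟨rfl, htype⟩ x hx ⟨z, hz⟩ -
    obtain ⟨T, hT⟩ : ∃ T, T = Matrix.toLin' (x : Matrix (Fin d ⊕ Fin d) (Fin d ⊕ Fin d) F) := ⟨_, rfl⟩
    have hTf : ∀ u v, Cfsg.sympForm d F (T u) (T v) = Cfsg.sympForm d F u v := fun u v => by
      rw [hT, Matrix.toLin'_apply, Matrix.toLin'_apply]
      exact mem_spGL.1 hx u v
    have hzv : ∀ v, T (T v) = z • v := fun v => by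
      rw [hT, Matrix.toLin'_apply, Matrix.toLin'_apply, Matrix.mulVec_mulVec, ← Units.val_mul,
        ← pow_two, hz, Matrix.smul_mulVec, Matrix.one_mulVec]
    have hz1 : z = 1 := by
      obtain ⟨w, hw⟩ := CfsgLib.SpGeom.exists_form_ne_zero (F := F)
        (v := Pi.single (Sum.inl (⟨0, hd1⟩ : Fin d)) (1 : F)) (by simp)
      have h := (hTf _ _).trans (hTf (Pi.single (Sum.inl (⟨0, hd1⟩ : Fin d)) (1 : F)) w)
      rw [hzv, hzv, CfsgLib.SpGeom.form_smul_left, CfsgLib.SpGeom.form_smul_right, ← mul_assoc] at h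
      have h1 : z * z = 1 := mul_right_cancel₀ hw (h.trans (one_mul _).symm)
      have h3 : (z - 1) * (z - 1) = 0 := by linear_combination h1 + (1 - z) * hF2
      exact sub_eq_zero.1 (mul_self_eq_zero.1 h3)
    have hTT : ∀ v, T (T v) = v := fun v => by rw [hzv, hz1, one_smul]
    obtain ⟨Q', hQ', hinv⟩ := exists_invariant_form hF2 T hTf
    obtain ⟨Q'', hQ'', hinv'', hiff⟩ : ∃ Q'' : QuadraticForm F (Fin d ⊕ Fin d → F),
        Polarizes Q'' ∧ (∀ v, Q'' (T v) = Q'' v) ∧ (IsPlus d Qf ↔ IsPlus d Q'') := by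
      by_cases hsame : IsPlus d Qf ↔ IsPlus d Q'
      · exact ⟨Q', hQ', hinv, hsame⟩
      obtain ⟨c, hcT, hc⟩ : ∃ c, T c = c ∧ Q' c ≠ 0 := by
        by_cases hp' : IsPlus d Q'
        · have hdo : Odd d := htype.resolve_left fun h => hsame (iff_of_true h hp')
          obtain ⟨S, hS, hSd⟩ := hp'
          obtain ⟨G, hG⟩ := CfsgLib.Forms.exists_isometry_plus hd1 finrank_space
            (nondegenerate_of_polarizes hQ') S hS hSd
          obtain ⟨v, hv, hQv⟩ := exists_fixed_of_odd hF2 hdo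
            ((G : (Fin d ⊕ Fin d → F) →ₗ[F] _).comp (T.comp (G.symm : (Fin d ⊕ Fin d → F) →ₗ[F] _)))
            (fun v => by simp [hG, hinv, ← hG (G.symm v)])
            (fun v => by simp [hTT])
          refine ⟨G.symm v, ?_, fun h => hQv ?_⟩
          · have := congrArg G.symm hv
            simpa using this
          · rw [← hG, LinearEquiv.apply_symm_apply] at h; exact h
        · by_contra hcon
          push Not at hcon
          set N := T - 1 with hN
          refine hp' ⟨LinearMap.ker N, fun v hv => hcon v ?_, ?_⟩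
          · rw [LinearMap.mem_ker, hN, LinearMap.sub_apply, Module.End.one_apply, sub_eq_zero] at hv
            exact hv
          · have h2 := LinearMap.finrank_range_add_finrank_ker N
            have h3 := Submodule.finrank_mono (fun w (hw : w ∈ LinearMap.range N) => by
              obtain ⟨v, rfl⟩ := hw
              rw [LinearMap.mem_ker, hN]
              simp only [LinearMap.sub_apply, Module.End.one_apply, map_sub, hTT]
              calc v - T v - (T v - v) = (2 : F) • (v - T v) := by rw [two_smul]; abel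
                _ = 0 := by rw [hF2, zero_smul] : LinearMap.range N ≤ LinearMap.ker N)
            rw [finrank_space] at h2
            omega
      obtain ⟨⟨t₁, ht₁⟩, t₂, ht₂⟩ := exists_shift_types hF2 hd1 finrank_space
        (nondegenerate_of_polarizes hQ') hc
      have hinvs : ∀ t : F, ∀ v, shift Q' (t • c) (T v) = shift Q' (t • c) v := fun t v => by
        have : QuadraticMap.polar Q' (t • c) (T v) = QuadraticMap.polar Q' (t • c) v := by
          rw [hQ', hQ', ← hTf (t • c) v, map_smul, hcT]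
        rw [shift_apply, shift_apply, hinv, this]
      by_cases hp : IsPlus d Qf
      · exact ⟨_, polarizes_shift hF2 hQ' _, hinvs t₁, iff_of_true hp ht₁⟩
      · exact ⟨_, polarizes_shift hF2 hQ' _, hinvs t₂, iff_of_false hp ht₂⟩
    obtain ⟨g, hg, hgQ⟩ := exists_conj hF2 hd1 hpol hQ'' hiff
    refine ⟨g, hg, 1, fun v => ?_⟩
    rw [Units.val_one, one_mul, ← hgQ, Matrix.mulVec_mulVec, ← Units.val_mul, ← mul_assoc,
      ← mul_assoc, mul_inv_cancel, one_mul, Units.val_mul, ← Matrix.mulVec_mulVec,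
      ← Matrix.toLin'_apply (x : Matrix (Fin d ⊕ Fin d) (Fin d ⊕ Fin d) F), ← hT, hinv'', hgQ]

end Cfsg.Agent.S5983
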