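import Cfsg.Statements.S5984
import Cfsg.Agent.UPairs.Derange

set_option autoImplicit false
open scoped MatrixGroups
open Cfsg

namespace Cfsg.Agent.S5984

open Matrix CfsgLib.UPairs

/-- Elements of prime order of PSU_n(q) and the stabilizers of pairs of complementary totally singular subspaces. Here `T = PSU_n(q)` is realised through `SU_n(q)`, the matrices of determinant 1 over the field `F` with `q²` elements preserving the hermitian form `Σ uᵢ vᵢ^q`, with `n ≥ 4` even; `D` is a pair of complementary subspaces of dimension `n/2` on each of which the form vanishes identically, and `H` is the subgroup of `SU_n(q)` fixing or interchanging the two members — a subgroup of type GL_{n/2}(q²).2 (maximality is not assumed). Ω is the set of cosets of `H`, so an element of `T` of prime order `r` (`x ∈ SU_n(q)` with `x^r` scalar, `x` not scalar) fixes a point of Ω exactly when some `SU_n(q)`-conjugate of `x` lies in `H`. Let `r` be a prime dividing the index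 of `H`. Then every element of `T` of order `r` fixes a point of Ω if and only if `r = 2`, `q` is odd and `(q + 1)_2 ≤ (n)_2` (2-parts). -/
theorem result {F : Type*} [Field F] [Fintype F] {p : ℕ} [Fact p.Prime] [CharP F p] {q : ℕ} (hq : Fintype.card F = q ^ 2)
    (n : ℕ) (hn : 4 ≤ n) (he : Even n) (D : Fin 2 → Submodule F (Fin n → F)) (hD : Cfsg.Geo.IsMDecomposition (n / 2) D)
    (hDs : ∀ i, Cfsg.Geo.IsTotallySingularFor (Cfsg.hermForm n F q) (D i))
    (r : ℕ) [Fact r.Prime]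
    (hΩ : r ∣ (Cfsg.Geo.decompositionStabilizer D).relIndex (Cfsg.GU n F q ⊓ Cfsg.Geo.specialLinear (Fin n) F)) :
    (∀ x ∈ Cfsg.GU n F q ⊓ Cfsg.Geo.specialLinear (Fin n) F, (∃ z : F, ((x ^ r : GL (Fin n) F) : Matrix (Fin n) (Fin n) F) = z • (1 : Matrix (Fin n) (Fin n) F)) →
      (∀ z : F, (x : Matrix (Fin n) (Fin n) F) ≠ z • (1 : Matrix (Fin n) (Fin n) F)) →
      ∃ g ∈ Cfsg.GU n F q ⊓ Cfsg.Geo.specialLinear (Fin n) F, g⁻¹ * x * g ∈ Cfsg.Geo.decompositionStabilizer D) ↔
    (r = 2 ∧ Odd q ∧ padicValNat 2 (q + 1) ≤ padicValNat 2 n) := by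
  classical
  obtain ⟨C⟩ := CfsgLib.UGeom.nonempty_conj hq
  have hr : r.Prime := Fact.out
  obtain ⟨d, hnd⟩ : ∃ d, n = 2 * d := ⟨n / 2, by obtain ⟨k, rfl⟩ := he; omega⟩
  have hd : 2 ≤ d := by omega
  have hP := pair_of_decomposition C hD hDs
  -- a derangement refutes the left side
  have hder : ∀ x : GL (Fin n) F, x ∈ Cfsg.GU n F q ⊓ Cfsg.Geo.specialLinear (Fin n) F →
      (∀ U W : Submodule F (Fin n → F), Pair q U W → ¬ Stable x U W) →
      ∀ g ∈ Cfsg.GU n F q ⊓ Cfsg.Geo.specialLinear (Fin n) F, g⁻¹ * x * g ∉ Cfsg.Geo.decompositionStabilizer D := by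
    intro x hx hno g hg hmem
    have hst := (mem_stabilizer_iff hD).1 hmem
    have hback : ∀ v, (g : Matrix (Fin n) (Fin n) F) *ᵥ (((g⁻¹ * x * g : GL (Fin n) F) : Matrix (Fin n) (Fin n) F) *ᵥ v) =
        (x : Matrix (Fin n) (Fin n) F) *ᵥ ((g : Matrix (Fin n) (Fin n) F) *ᵥ v) := fun v => by
      rw [Matrix.mulVec_mulVec, Matrix.mulVec_mulVec, ← Units.val_mul, ← Units.val_mul, mul_assoc g⁻¹, mul_inv_cancel_left]
    let e := Matrix.toLin' (g : Matrix (Fin n) (Fin n) F)
    have hinj : Function.Injective e := fun a b h => by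
      have := congrArg (((g⁻¹ : GL (Fin n) F) : Matrix (Fin n) (Fin n) F) *ᵥ ·) h
      simpa [e, Matrix.mulVec_mulVec, ← Units.val_mul] using this
    have hsurj : Function.Surjective e := LinearMap.injective_iff_surjective.1 hinj
    have hts : ∀ A : Submodule F (Fin n → F), (∀ u ∈ A, ∀ v ∈ A, Cfsg.hermForm n F q u v = 0) →
        ∀ u ∈ A.map e, ∀ v ∈ A.map e, Cfsg.hermForm n F q u v = 0 := by
      rintro A hA _ ⟨a, ha, rfl⟩ _ ⟨b, hb, rfl⟩
      exact ((Subgroup.mem_inf.1 hg).1 a b).trans (hA a ha b hb)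
    refine hno _ _ ⟨⟨?_, ?_⟩, hts _ hP.left, hts _ hP.right⟩ ?_
    · refine Submodule.disjoint_def.2 fun v h0 h1 => ?_
      obtain ⟨a, ha, rfl⟩ := h0
      obtain ⟨b, hb, hab⟩ := h1
      rw [hinj hab] at hb
      rw [Submodule.disjoint_def.1 hP.compl.disjoint a ha hb, map_zero]
    · rw [codisjoint_iff, ← Submodule.map_sup, hP.compl.sup_eq_top, Submodule.map_top, LinearMap.range_eq_top]
      exact hsurj
    · have key : ∀ A B : Submodule F (Fin n → F),
          (∀ u ∈ A, ((g⁻¹ * x * g : GL (Fin n) F) : Matrix (Fin n) (Fin n) F) *ᵥ u ∈ B) →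
          ∀ u ∈ A.map e, (x : Matrix (Fin n) (Fin n) F) *ᵥ u ∈ B.map e := by
        rintro A B hAB _ ⟨a, ha, rfl⟩
        exact ⟨_, hAB a ha, hback a⟩
      rcases hst with ⟨h0, h1⟩ | ⟨h0, h1⟩
      · exact Or.inl ⟨key _ _ h0, key _ _ h1⟩
      · exact Or.inr ⟨key _ _ h0, key _ _ h1⟩
  have hone : ∀ x : GL (Fin n) F, x ^ r = 1 →
      ∃ z : F, ((x ^ r : GL (Fin n) F) : Matrix (Fin n) (Fin n) F) = z • (1 : Matrix (Fin n) (Fin n) F) :=
    fun x h => ⟨1, by rw [h, one_smul]; rfl⟩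
  constructor
  · intro hall
    have absurd_of : ∀ x ∈ Cfsg.GU n F q ⊓ Cfsg.Geo.specialLinear (Fin n) F, x ^ r = 1 →
        (∀ z : F, (x : Matrix (Fin n) (Fin n) F) ≠ z • (1 : Matrix (Fin n) (Fin n) F)) →
        (∀ U W : Submodule F (Fin n → F), Pair q U W → ¬ Stable x U W) → False := by
      intro x hx hxr hxs hno
      obtain ⟨g, hg, hm⟩ := hall x hx (hone x hxr) hxs
      exact hder x hx hno g hg hm
    have hrp : r = p → False := fun h => by
      subst h
      obtain ⟨x, hx, hxr, hxs, hno⟩ := exists_transvection (p := r) C hn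
      exact absurd_of x hx hxr hxs fun U W hUW => hno U W hUW (by rw [(hUW.finrank C hnd).1]; omega)
    have hp : p.Prime := Fact.out
    have hpq : ∀ {r : ℕ}, r.Prime → r ∣ q → r = p := fun {r} hr' h => by
      obtain ⟨e, -, he'⟩ := FiniteField.card F p
      have : r ∣ p ^ (e : ℕ) := by rw [← he', hq]; exact dvd_pow h two_ne_zero
      exact (Nat.prime_dvd_prime_iff_eq hr' hp).1 (hr'.dvd_of_dvd_pow this)
    rcases hr.eq_two_or_odd' with rfl | hodd
    · have hqo : Odd q := by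
        rw [← Nat.not_even_iff_odd]
        exact fun h => hrp (hpq hr (even_iff_two_dvd.1 h))
      refine ⟨rfl, hqo, not_lt.1 fun hlt => ?_⟩
      obtain ⟨x, hx, hz, hxs, hno⟩ := exists_involution C hqo hnd hd hlt
      obtain ⟨g, hg, hm⟩ := hall x hx hz hxs
      exact hder x hx hno g hg hm
    · exfalso
      have hr2 : r ≠ 2 := fun h => by subst h; exact Nat.not_odd_iff_even.2 even_two hodd
      rcases prime_dvd_index C hnd (by omega) hD hDs hr hΩ with h | ⟨a, ha, har⟩
      · exact hrp (hpq hr h)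
      by_cases hq1 : r ∣ q + 1
      · obtain ⟨x, hx, hxr, hxs, hno⟩ := exists_diag C hnd hd hr2 hq1
        exact absurd_of x hx hxr hxs hno
      · obtain ⟨x, hx, hxr, hxs, hno⟩ := exists_block (p := p) C hnd (by omega) ⟨a, rfl⟩ ha hr2 har hq1
        exact absurd_of x hx hxr hxs hno
  · rintro ⟨rfl, hqo, hval⟩ x hx ⟨z, hz⟩ -
    obtain ⟨U, W, hUW, hst⟩ := exists_stable C hqo hnd (by omega) hval hx hz
    obtain ⟨g, hg, hgU, hgW⟩ := exists_transport C hnd (by omega) hP hUW
    refine ⟨g, hg, (mem_stabilizer_iff hD).2 ?_⟩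
    obtain ⟨h', hh'⟩ : ∃ y, y = g⁻¹ * x * g := ⟨_, rfl⟩
    have hginv : ∀ A B : Submodule F (Fin n → F), (∀ u ∈ A, (g : Matrix (Fin n) (Fin n) F) *ᵥ u ∈ B) →
        Module.finrank F A = Module.finrank F B →
        ∀ v ∈ B, ((g⁻¹ : GL (Fin n) F) : Matrix (Fin n) (Fin n) F) *ᵥ v ∈ A := by
      intro A B h hdim v hv
      have hmap : A.map (Matrix.toLin' (g : Matrix (Fin n) (Fin n) F)) = B :=
        Submodule.eq_of_le_of_finrank_eq (by rintro _ ⟨a, ha, rfl⟩; simpa using h a ha)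
          ((finrank_map_gl g A).trans hdim)
      rw [← hmap] at hv
      obtain ⟨a, ha, rfl⟩ := hv
      simpa [Matrix.mulVec_mulVec, ← Units.val_mul] using ha
    have i0 := hginv _ _ hgU ((hP.finrank C hnd).1.trans (hUW.finrank C hnd).1.symm)
    have i1 := hginv _ _ hgW ((hP.finrank C hnd).2.trans (hUW.finrank C hnd).2.symm)
    have hy : ∀ u, ((g⁻¹ * x * g : GL (Fin n) F) : Matrix (Fin n) (Fin n) F) *ᵥ u =
        ((g⁻¹ : GL (Fin n) F) : Matrix (Fin n) (Fin n) F) *ᵥ ((x : Matrix (Fin n) (Fin n) F) *ᵥ ((g : Matrix (Fin n) (Fin n) F) *ᵥ u)) := fun u => by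
      rw [Units.val_mul, Units.val_mul, Matrix.mulVec_mulVec, Matrix.mulVec_mulVec]
    rcases hst with ⟨h0, h1⟩ | ⟨h0, h1⟩
    · exact Or.inl ⟨fun u hu => by simp only; rw [hy]; exact i0 _ (h0 _ (hgU u hu)),
        fun u hu => by simp only; rw [hy]; exact i1 _ (h1 _ (hgW u hu))⟩
    · exact Or.inr ⟨fun u hu => by simp only; rw [hy]; exact i1 _ (h0 _ (hgU u hu)),
        fun u hu => by simp only; rw [hy]; exact i0 _ (h1 _ (hgW u hu))⟩

end Cfsg.Agent.S5984
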