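import Cfsg.Statements.S5985
import Cfsg.Agent.NonsingPoint.Basic

set_option autoImplicit false
open scoped MatrixGroups
open Cfsg

namespace Cfsg.Agent.S5985

open Matrix CfsgLib.NonsingPoint


/-- Elements of prime order of Ω⁺_n(q), q even, with no fixed nonsingular 1-space. Here `T = PΩ⁺_n(F)`, `n = 2d ≥ 8`, realised through `Ω⁺_n(q)`, the commutator subgroup of the isometry group of `Q = Σ xᵢyᵢ` over the field `F` with `q` elements; an element of `T` of prime order `r` is an element `x` of `Ω⁺_n(q)` with `x^r` scalar and `x` not scalar; `q` is even (so the centre is trivial). Let Ω be the set of 1-dimensional subspaces spanned by a vector `v` with `Q(v) ≠ 0`, and let `r` be a prime dividing their number. Then every element of `T` of order `r` fixes some nonsingular 1-space if and only if `r = 2` and `n ≡ 2 (mod 4)` (that is, `d` is odd). -/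
theorem result {F : Type*} [Field F] [Fintype F] {p : ℕ} [Fact p.Prime] [CharP F p] {q : ℕ} (hq : Fintype.card F = q)
    (hp : p = 2) (d : ℕ) (hd : 4 ≤ d) (r : ℕ) [Fact r.Prime]
    (hrΩ : r ∣ Nat.card {W : Submodule F (Fin d ⊕ Fin d → F) // Module.finrank F ↥W = 1 ∧ ∃ v ∈ W, Cfsg.quadFormPlus d F v ≠ 0}) :
    (∀ x : GL (Fin d ⊕ Fin d) F, x ∈ Cfsg.Geo.omegaGL (Cfsg.quadFormPlus d F) →
      (∃ z : F, ((x ^ r : GL (Fin d ⊕ Fin d) F) : Matrix (Fin d ⊕ Fin d) (Fin d ⊕ Fin d) F) = z • (1 : Matrix (Fin d ⊕ Fin d) (Fin d ⊕ Fin d) F)) →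
      (∀ z : F, (x : Matrix (Fin d ⊕ Fin d) (Fin d ⊕ Fin d) F) ≠ z • (1 : Matrix (Fin d ⊕ Fin d) (Fin d ⊕ Fin d) F)) →
      ∃ W : Submodule F (Fin d ⊕ Fin d → F), (Module.finrank F ↥W = 1 ∧ ∃ v ∈ W, Cfsg.quadFormPlus d F v ≠ 0) ∧ W.map (Matrix.toLin' (x : Matrix (Fin d ⊕ Fin d) (Fin d ⊕ Fin d) F)) ≤ W) ↔ (r = 2 ∧ Odd d) := by
  classical
  subst hp
  have hF2 : (2 : F) = 0 := by exact_mod_cast CharP.cast_eq_zero F 2
  have hchar : ringChar F = 2 := ringChar.eq F 2
  have hr : r.Prime := Fact.out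
  have heig : ∀ (x : GL (Fin d ⊕ Fin d) F), x ∈ Cfsg.Geo.omegaGL (Cfsg.quadFormPlus d F) →
      ∀ (W : Submodule F (Fin d ⊕ Fin d → F)), Module.finrank F ↥W = 1 →
      W.map (Matrix.toLin' (x : Matrix (Fin d ⊕ Fin d) (Fin d ⊕ Fin d) F)) ≤ W →
      ∀ v ∈ W, Cfsg.quadFormPlus d F v ≠ 0 →
        (x : Matrix (Fin d ⊕ Fin d) (Fin d ⊕ Fin d) F) *ᵥ v = v := by
    intro x hx W hW hxW v hv hQv
    have hQ : ∀ w, Cfsg.quadFormPlus d F ((x : Matrix (Fin d ⊕ Fin d) (Fin d ⊕ Fin d) F) *ᵥ w) =
        Cfsg.quadFormPlus d F w := fun w => by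
      rw [← CfsgLib.Forms.coe_quadPlus] at hx
      have := (CfsgLib.GeoOrth.polar_omega hx).1 w
      rwa [CfsgLib.Forms.coe_quadPlus] at this
    obtain ⟨c, hc⟩ := (finrank_eq_one_iff_of_nonzero' (⟨v, hv⟩ : W) (fun h => hQv (by
      have h' : v = 0 := congrArg Subtype.val h
      rw [h', ← zero_smul F (0 : Fin d ⊕ Fin d → F), quad_smul]; simp))).1 hW
      ⟨_, hxW ⟨v, hv, rfl⟩⟩
    have hcv : c • v = (x : Matrix (Fin d ⊕ Fin d) (Fin d ⊕ Fin d) F) *ᵥ v :=
      congrArg Subtype.val hc
    have h1 := hQ v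
    rw [← hcv, quad_smul] at h1
    have h2 : c * c = 1 := mul_right_cancel₀ hQv (h1.trans (one_mul _).symm)
    have h3 : (c - 1) * (c - 1) = 0 := by linear_combination h2 + (1 - c) * hF2
    rw [sub_eq_zero.1 (mul_self_eq_zero.1 h3), one_smul] at hcv
    exact hcv.symm
  constructor
  · intro hall
    rcases hr.eq_two_or_odd' with rfl | ⟨s, hs⟩
    · refine ⟨rfl, ?_⟩
      by_contra hde
      rw [Nat.not_odd_iff_even] at hde
      obtain ⟨k, hk⟩ := hde
      -- the unipotent element of a perfect matching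
      let a : Fin k → Fin d := fun l => ⟨2 * l.1, by omega⟩
      let b : Fin k → Fin d := fun l => ⟨2 * l.1 + 1, by omega⟩
      let S : Matrix (Fin d) (Fin d) F := ∑ l, pairMat (a l) (b l)
      have hab : ∀ l l', (a l ≠ b l') ∧ (a l = a l' ↔ l = l') ∧ (b l = b l' ↔ l = l') := fun l l' =>
        ⟨by simp [a, b, Fin.ext_iff]; omega, by simp [a, Fin.ext_iff], by simp [b, Fin.ext_iff]⟩
      have hSmem : unip S ∈ Cfsg.Geo.omegaGL (Cfsg.quadFormPlus d F) := by
        refine Finset.sum_induction _ (fun T => unip T ∈ Cfsg.Geo.omegaGL (Cfsg.quadFormPlus d F))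
          (fun T U hT hU => by rw [unip_add]; exact mul_mem hT hU)
          (by rw [unip_zero]; exact one_mem _) fun l _ => ?_
        obtain ⟨c, hc1, hc2⟩ : ∃ c : Fin d, a l ≠ c ∧ b l ≠ c := by
          rcases Nat.eq_zero_or_pos l.1 with h0 | h0
          · exact ⟨⟨2, by omega⟩, by simp [a, Fin.ext_iff]; omega, by simp [b, Fin.ext_iff]⟩
          · exact ⟨⟨0, by omega⟩, by simp [a, Fin.ext_iff]; omega, by simp [b, Fin.ext_iff]⟩
        exact unip_pair_mem hF2 (hab l l).1 hc1 hc2
      have hker : ∀ y, S *ᵥ y = 0 → y = 0 := by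
        intro y hy
        have hS : S *ᵥ y = ∑ l, (Pi.single (a l) (y (b l)) + Pi.single (b l) (y (a l))) := by
          simp only [S, Matrix.sum_mulVec, pairMat_mulVec]
        rw [hS] at hy
        have ha0 : ∀ l, y (b l) = 0 := fun l => by
          have h1 := congrFun hy (a l)
          rw [Finset.sum_apply, Finset.sum_eq_single l] at h1
          · simpa [(hab l l).1] using h1
          · intro l' _ hl'
            simp [Pi.single_apply, (hab l l').1, (hab l l').2.1, Ne.symm hl']
          · simp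
        have hb0 : ∀ l, y (a l) = 0 := fun l => by
          have h1 := congrFun hy (b l)
          rw [Finset.sum_apply, Finset.sum_eq_single l] at h1
          · simpa [(hab l l).1.symm] using h1
          · intro l' _ hl'
            simp [Pi.single_apply, (hab l' l).1.symm, (hab l l').2.2, Ne.symm hl']
          · simp
        funext c
        rcases Nat.mod_two_eq_zero_or_one c.1 with h | h
        · have : c = a ⟨c.1 / 2, by omega⟩ := Fin.ext (by simp [a]; omega)
          rw [this]; exact hb0 _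
        · have : c = b ⟨c.1 / 2, by omega⟩ := Fin.ext (by simp [b]; omega)
          rw [this]; exact ha0 _
      have hSS : S + S = 0 := by rw [← two_smul F S, hF2, zero_smul]
      obtain ⟨W, ⟨hW, v, hv, hQv⟩, hxW⟩ := hall (unip S) hSmem
        ⟨1, by rw [pow_two, ← unip_add, hSS, unip_zero, one_smul]; rfl⟩ (fun z hz => by
          have h0 : S = 0 := by
            ext i j
            have := congrFun (congrFun hz (Sum.inl i)) (Sum.inr j)
            simpa [coe_unip] using this
          have h1 := hker (Pi.single ⟨0, by omega⟩ 1) (by rw [h0, Matrix.zero_mulVec])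
          simpa using congrFun h1 ⟨0, by omega⟩)
      have hfix := heig _ hSmem W hW hxW v hv hQv
      rw [unip_mulVec] at hfix
      have h0 : S *ᵥ (v ∘ Sum.inr) = 0 := funext fun i => by
        have := congrFun hfix (Sum.inl i)
        simpa using this
      apply hQv
      rw [quad_dot]
      show (v ∘ Sum.inl) ⬝ᵥ (v ∘ Sum.inr) = 0
      rw [hker _ h0, dotProduct_zero]
    · exfalso
      have hrodd : r ≠ 2 := by omega
      -- `r` divides `q ^ d - 1`
      have hdvd : r ∣ Fintype.card F ^ d - 1 := by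
        have h := card_points (F := F) (d := d)
        have h1 := dvd_mul_of_dvd_left hrΩ (Fintype.card F)
        rw [h] at h1
        refine (hr.dvd_mul.1 h1).resolve_right fun h2 => hrodd ?_
        obtain ⟨n, -, hn⟩ := FiniteField.card F 2
        rw [hn] at h2
        exact (Nat.prime_dvd_prime_iff_eq hr Nat.prime_two).1
          (hr.dvd_of_dvd_pow (hr.dvd_of_dvd_pow h2))
      -- a fixed-point-free element of order `r` of `GL_d`
      obtain ⟨A, hAr, hA1, hAfix, hAfix'⟩ : ∃ A : GL (Fin d) F, A ^ r = 1 ∧ A ≠ 1 ∧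
          (∀ y, (A : Matrix (Fin d) (Fin d) F) *ᵥ y = y → y = 0) ∧
          (∀ y, ((A⁻¹ : GL (Fin d) F) : Matrix (Fin d) (Fin d) F)ᵀ *ᵥ y = y → y = 0) := by
        haveI : NeZero d := ⟨by omega⟩
        let K := FiniteField.Extension F 2 d
        let bK := (Module.finBasis F K).reindex (finCongr (FiniteField.finrank_extension F 2 d))
        have : Fintype Kˣ := Fintype.ofFinite _
        obtain ⟨ζ, hζ⟩ := exists_prime_orderOf_dvd_card' (G := Kˣ) r (by
          rw [Nat.card_units, FiniteField.natCard_extension, Nat.card_eq_fintype_card]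
          exact hdvd)
        obtain ⟨φ, hφ⟩ : ∃ φ : K →+* Matrix (Fin d) (Fin d) F,
            φ = (Algebra.leftMulMatrix bK).toRingHom := ⟨_, rfl⟩
        have hζ1 : (ζ : K) ≠ 1 := fun h => by
          rw [show ζ = 1 from Units.ext h, orderOf_one] at hζ
          exact hr.ne_one hζ.symm
        have hfix : ∀ η : K, η ≠ 1 → ∀ M : Matrix (Fin d) (Fin d) F, M = φ η → IsUnit (M - 1) := by
          rintro η hη M rfl
          rw [← map_one φ, ← map_sub]
          exact (isUnit_iff_ne_zero.2 (sub_ne_zero.2 hη)).map φ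
        refine ⟨Units.map φ.toMonoidHom ζ, ?_, ?_, ?_, ?_⟩
        · rw [← map_pow, ← hζ, pow_orderOf_eq_one, map_one]
        · intro h
          have := (hfix (ζ : K) hζ1 _ rfl)
          rw [show φ (ζ : K) = 1 from congrArg Units.val h, sub_self] at this
          exact not_isUnit_zero this
        · intro y hy
          have hu := hfix (ζ : K) hζ1 _ (rfl : φ (ζ : K) = φ (ζ : K))
          apply Matrix.mulVec_injective_of_isUnit hu
          rw [Matrix.mulVec_zero, Matrix.sub_mulVec, Matrix.one_mulVec]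
          exact sub_eq_zero.2 hy
        · intro y hy
          have hu := hfix ((ζ⁻¹ : Kˣ) : K) (fun h => hζ1 (by
            have h' : ζ⁻¹ = 1 := Units.ext h
            rw [inv_eq_one.1 h', Units.val_one])) _ (rfl : φ ((ζ⁻¹ : Kˣ) : K) = _)
          apply Matrix.mulVec_injective_of_isUnit ((Matrix.isUnit_transpose _).2 hu)
          rw [Matrix.mulVec_zero, Matrix.transpose_sub, Matrix.transpose_one, Matrix.sub_mulVec,
            Matrix.one_mulVec]
          rw [← map_inv] at hy
          exact sub_eq_zero.2 hy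
      have hxr : levi A ^ r = 1 := by rw [levi_pow, hAr, levi_one]
      have hxmem := mem_omega_of_pow_odd (by omega) hchar (levi_isometry A) (s := s) (hs ▸ hxr)
      obtain ⟨W, ⟨hW, v, hv, hQv⟩, hxW⟩ := hall (levi A) hxmem
        ⟨1, by rw [hxr, one_smul]; rfl⟩ (fun z hz => by
          have hA0 : (A : Matrix (Fin d) (Fin d) F) = z • 1 := by
            ext i j
            have := congrFun (congrFun hz (Sum.inl i)) (Sum.inl j)
            simpa [coe_levi, Matrix.one_apply] using this
          have hA0' : ((A⁻¹ : GL (Fin d) F) : Matrix (Fin d) (Fin d) F) = z • 1 := by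
            ext i j
            have := congrFun (congrFun hz (Sum.inr j)) (Sum.inr i)
            simpa [coe_levi, Matrix.one_apply, eq_comm] using this
          have hAA : A * A = 1 := by
            have : A = A⁻¹ := Units.ext (hA0.trans hA0'.symm)
            nth_rewrite 2 [this]
            exact mul_inv_cancel A
          apply hA1
          rw [← hAr, hs, pow_succ, pow_mul, pow_two, hAA, one_pow, one_mul])
      have hfix := heig _ hxmem W hW hxW v hv hQv
      rw [levi_mulVec] at hfix
      apply hQv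
      rw [quad_dot]
      show (v ∘ Sum.inl) ⬝ᵥ (v ∘ Sum.inr) = 0
      rw [hAfix (v ∘ Sum.inl) (funext fun i => by simpa using congrFun hfix (Sum.inl i)), zero_dotProduct]
  · rintro ⟨rfl, hdo⟩ x hx ⟨z, hz⟩ -
    have hQ : ∀ w, Cfsg.quadFormPlus d F ((x : Matrix (Fin d ⊕ Fin d) (Fin d ⊕ Fin d) F) *ᵥ w) =
        Cfsg.quadFormPlus d F w := fun w => by
      rw [← CfsgLib.Forms.coe_quadPlus] at hx
      have := (CfsgLib.GeoOrth.polar_omega hx).1 w
      rwa [CfsgLib.Forms.coe_quadPlus] at this
    obtain ⟨T, hT⟩ : ∃ T, T = Matrix.toLin' (x : Matrix (Fin d ⊕ Fin d) (Fin d ⊕ Fin d) F) := ⟨_, rfl⟩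
    have hzv : ∀ v, T (T v) = z • v := fun v => by
      rw [hT, Matrix.toLin'_apply, Matrix.toLin'_apply, Matrix.mulVec_mulVec, ← Units.val_mul,
        ← pow_two, hz, Matrix.smul_mulVec, Matrix.one_mulVec]
    have hTQ : ∀ v, Cfsg.quadFormPlus d F (T v) = Cfsg.quadFormPlus d F v := fun v => by
      rw [hT, Matrix.toLin'_apply, hQ]
    let e : Fin d ⊕ Fin d → F :=
      Pi.single (Sum.inl ⟨0, by omega⟩) 1 + Pi.single (Sum.inr ⟨0, by omega⟩) 1
    have he : Cfsg.quadFormPlus d F e = 1 := by
      rw [Cfsg.quadFormPlus, Finset.sum_eq_single ⟨0, by omega⟩] <;> simp +contextual [e, Pi.single_apply]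
    have hz1 : z = 1 := by
      have h1 := hTQ (T e)
      rw [hzv, quad_smul, hTQ e, he, mul_one] at h1
      have h3 : (z - 1) * (z - 1) = 0 := by linear_combination h1 + (1 - z) * hF2
      exact sub_eq_zero.1 (mul_self_eq_zero.1 h3)
    obtain ⟨v, hv, hQv⟩ := exists_fixed_of_odd hF2 hdo T hTQ fun v => by rw [hzv, hz1, one_smul]
    refine ⟨Submodule.span F {v}, ⟨finrank_span_singleton fun h => hQv ?_, v,
      Submodule.mem_span_singleton_self v, hQv⟩, ?_⟩
    · rw [h, ← zero_smul F (0 : Fin d ⊕ Fin d → F), quad_smul]; simp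
    · rw [← hT, Submodule.map_span, Set.image_singleton, hv]

end Cfsg.Agent.S5985
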