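import Cfsg.Statements.S5986
import Cfsg.Agent.NonsingPoint.Minus

set_option autoImplicit false
open scoped MatrixGroups
open Cfsg

namespace Cfsg.Agent.S5986

open Matrix CfsgLib.NonsingPoint

/-- Elements of prime order of Ω⁻_n(q), q even, with no fixed nonsingular 1-space. Here `T = PΩ⁻_n(F)`, `n = 2d ≥ 8`, realised through `Ω⁻_n(q)`, the commutator subgroup of the isometry group of `Q = Σ_{i<d−1} xᵢyᵢ + z₁² + a z₁z₂ + b z₂²` with `z₁² + a z₁z₂ + b z₂²` anisotropic, over the field `F` with `q` elements; an element of `T` of prime order `r` is an element `x` of `Ω⁻_n(q)` with `x^r` scalar and `x` not scalar; `q` is even (so the centre is trivial). Let Ω be the set of 1-dimensional subspaces spanned by a vector `v` with `Q(v) ≠ 0`, and let `r` be a prime dividing their number. Then every element of `T` of order `r` fixes some nonsingular 1-space if and only if `r = 2`. -/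
theorem result {F : Type*} [Field F] [Fintype F] {p : ℕ} [Fact p.Prime] [CharP F p] {q : ℕ} (hq : Fintype.card F = q)
    (hp : p = 2) (d : ℕ) (hd : 4 ≤ d) (a b : F) (hab : ∀ x y : F, x ^ 2 + a * x * y + b * y ^ 2 = 0 → x = 0 ∧ y = 0) (r : ℕ) [Fact r.Prime]
    (hrΩ : r ∣ Nat.card {W : Submodule F ((Fin (d - 1) ⊕ Fin (d - 1)) ⊕ Fin 2 → F) // Module.finrank F ↥W = 1 ∧ ∃ v ∈ W, Cfsg.quadFormMinus (d - 1) F a b v ≠ 0}) :
    (∀ x : GL ((Fin (d - 1) ⊕ Fin (d - 1)) ⊕ Fin 2) F, x ∈ Cfsg.Geo.omegaGL (Cfsg.quadFormMinus (d - 1) F a b) →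
      (∃ z : F, ((x ^ r : GL ((Fin (d - 1) ⊕ Fin (d - 1)) ⊕ Fin 2) F) : Matrix ((Fin (d - 1) ⊕ Fin (d - 1)) ⊕ Fin 2) ((Fin (d - 1) ⊕ Fin (d - 1)) ⊕ Fin 2) F) = z • (1 : Matrix ((Fin (d - 1) ⊕ Fin (d - 1)) ⊕ Fin 2) ((Fin (d - 1) ⊕ Fin (d - 1)) ⊕ Fin 2) F)) →
      (∀ z : F, (x : Matrix ((Fin (d - 1) ⊕ Fin (d - 1)) ⊕ Fin 2) ((Fin (d - 1) ⊕ Fin (d - 1)) ⊕ Fin 2) F) ≠ z • (1 : Matrix ((Fin (d - 1) ⊕ Fin (d - 1)) ⊕ Fin 2) ((Fin (d - 1) ⊕ Fin (d - 1)) ⊕ Fin 2) F)) →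
      ∃ W : Submodule F ((Fin (d - 1) ⊕ Fin (d - 1)) ⊕ Fin 2 → F), (Module.finrank F ↥W = 1 ∧ ∃ v ∈ W, Cfsg.quadFormMinus (d - 1) F a b v ≠ 0) ∧ W.map (Matrix.toLin' (x : Matrix ((Fin (d - 1) ⊕ Fin (d - 1)) ⊕ Fin 2) ((Fin (d - 1) ⊕ Fin (d - 1)) ⊕ Fin 2) F)) ≤ W) ↔ r = 2 := by
  classical
  subst hp
  have hF2 : (2 : F) = 0 := by exact_mod_cast CharP.cast_eq_zero F 2
  have hchar : ringChar F = 2 := ringChar.eq F 2
  have hr : r.Prime := Fact.out
  let Qm := CfsgLib.Forms.quadMinus F (d - 1) a b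
  have hQm : ∀ w, Qm w = Cfsg.quadFormMinus (d - 1) F a b w := fun w =>
    congrFun (CfsgLib.Forms.coe_quadMinus (F := F) (d - 1) a b) w
  have hiso : ∀ x : GL ((Fin (d - 1) ⊕ Fin (d - 1)) ⊕ Fin 2) F,
      x ∈ Cfsg.Geo.omegaGL (Cfsg.quadFormMinus (d - 1) F a b) → ∀ w,
      Qm ((x : Matrix ((Fin (d - 1) ⊕ Fin (d - 1)) ⊕ Fin 2) ((Fin (d - 1) ⊕ Fin (d - 1)) ⊕ Fin 2) F) *ᵥ w) = Qm w := by
    intro x hx w
    rw [← CfsgLib.Forms.coe_quadMinus] at hx
    exact (CfsgLib.GeoOrth.polar_omega hx).1 w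
  have hsmul : ∀ (c : F) w, Qm (c • w) = c * c * Qm w := fun c w => by
    rw [QuadraticMap.map_smul, smul_eq_mul]
  have hone : ∀ c : F, c * c = 1 → c = 1 := fun c h => by
    have h3 : (c - 1) * (c - 1) = 0 := by linear_combination h + (1 - c) * hF2
    exact sub_eq_zero.1 (mul_self_eq_zero.1 h3)
  have heig : ∀ (x : GL ((Fin (d - 1) ⊕ Fin (d - 1)) ⊕ Fin 2) F),
      x ∈ Cfsg.Geo.omegaGL (Cfsg.quadFormMinus (d - 1) F a b) →
      ∀ (W : Submodule F ((Fin (d - 1) ⊕ Fin (d - 1)) ⊕ Fin 2 → F)), Module.finrank F ↥W = 1 →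
      W.map (Matrix.toLin' (x : Matrix ((Fin (d - 1) ⊕ Fin (d - 1)) ⊕ Fin 2) ((Fin (d - 1) ⊕ Fin (d - 1)) ⊕ Fin 2) F)) ≤ W →
      ∀ v ∈ W, Qm v ≠ 0 →
        (x : Matrix ((Fin (d - 1) ⊕ Fin (d - 1)) ⊕ Fin 2) ((Fin (d - 1) ⊕ Fin (d - 1)) ⊕ Fin 2) F) *ᵥ v = v := by
    intro x hx W hW hxW v hv hQv
    obtain ⟨c, hc⟩ := (finrank_eq_one_iff_of_nonzero' (⟨v, hv⟩ : W) (fun h => hQv (by
      rw [show v = 0 from congrArg Subtype.val h, QuadraticMap.map_zero]))).1 hW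
      ⟨_, hxW ⟨v, hv, rfl⟩⟩
    have hcv : c • v = (x : Matrix ((Fin (d - 1) ⊕ Fin (d - 1)) ⊕ Fin 2) ((Fin (d - 1) ⊕ Fin (d - 1)) ⊕ Fin 2) F) *ᵥ v :=
      congrArg Subtype.val hc
    have h1 := hiso x hx v
    rw [← hcv, hsmul] at h1
    rw [hone c (mul_right_cancel₀ hQv (h1.trans (one_mul _).symm)), one_smul] at hcv
    exact hcv.symm
  constructor
  · intro hall
    by_contra hr2
    have hdvd : r ∣ Fintype.card F ^ d + 1 := by
      rw [card_points_minus (d - 1) a b hab, Nat.sub_add_cancel (show 1 ≤ d by omega)] at hrΩ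
      refine (hr.dvd_mul.1 hrΩ).resolve_left fun h => hr2 ?_
      obtain ⟨n, -, hn⟩ := FiniteField.card F 2
      rw [hn, ← pow_mul] at h
      exact (Nat.prime_dvd_prime_iff_eq hr Nat.prime_two).1 (hr.dvd_of_dvd_pow h)
    obtain ⟨g, hg, hgr, hgfix⟩ := exists_derangement_minus d (by omega) hab r hdvd
    obtain ⟨s, hs⟩ := hr.odd_of_ne_two hr2
    have hgmem : g ∈ Cfsg.Geo.omegaGL (Cfsg.quadFormMinus (d - 1) F a b) := by
      have := sq_mem_omega_minus (d - 1) (by omega) hchar hab (pow_mem hg (s + 1))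
      rwa [← pow_add, show s + 1 + (s + 1) = r + 1 by omega, pow_succ, hgr, one_mul] at this
    obtain ⟨W, ⟨hW, v, hv, hQv⟩, hxW⟩ := hall g hgmem ⟨1, by rw [hgr, one_smul]; rfl⟩ (fun z hz => by
      have he : Qm (Pi.single (Sum.inr 0) 1) = 1 := by
        rw [hQm]
        simp [Cfsg.quadFormMinus, Cfsg.quadFormPlus]
      have h1 := hiso g hgmem (Pi.single (Sum.inr 0) 1)
      rw [hz, Matrix.smul_mulVec, Matrix.one_mulVec, hsmul, he, mul_one] at h1
      rw [hone z h1, one_smul] at hz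
      have := hgfix (Pi.single (Sum.inr 0) 1) (by rw [hz, Matrix.one_mulVec])
      simpa using congrFun this (Sum.inr 0))
    rw [← hQm] at hQv
    apply hQv
    rw [hgfix v (heig g hgmem W hW hxW v hv hQv), QuadraticMap.map_zero]
  · rintro rfl x hx ⟨z, hz⟩ -
    obtain ⟨T, hT⟩ : ∃ T, T = Matrix.toLin' (x : Matrix ((Fin (d - 1) ⊕ Fin (d - 1)) ⊕ Fin 2) ((Fin (d - 1) ⊕ Fin (d - 1)) ⊕ Fin 2) F) := ⟨_, rfl⟩
    have hzv : ∀ v, T (T v) = z • v := fun v => by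
      rw [hT, Matrix.toLin'_apply, Matrix.toLin'_apply, Matrix.mulVec_mulVec, ← Units.val_mul,
        ← pow_two, hz, Matrix.smul_mulVec, Matrix.one_mulVec]
    have hTQ : ∀ v, Qm (T v) = Qm v := fun v => by
      rw [hT, Matrix.toLin'_apply, hiso x hx]
    have hz1 : z = 1 := by
      have he : Qm (Pi.single (Sum.inr 0) 1) = 1 := by
        rw [hQm]
        simp [Cfsg.quadFormMinus, Cfsg.quadFormPlus]
      have h1 := hTQ (T (Pi.single (Sum.inr 0) 1))
      rw [hzv, hsmul, hTQ, he, mul_one] at h1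
      exact hone z h1
    set N := T - 1 with hN
    by_contra hcon
    push Not at hcon
    have hsing : ∀ v ∈ LinearMap.ker N, Cfsg.quadFormMinus (d - 1) F a b v = 0 := by
      intro v hv
      rw [LinearMap.mem_ker, hN, LinearMap.sub_apply, Module.End.one_apply, sub_eq_zero] at hv
      by_contra hQv
      refine hcon (Submodule.span F {v}) ⟨finrank_span_singleton fun h => hQv ?_, v,
        Submodule.mem_span_singleton_self v, hQv⟩ ?_
      · rw [h, ← hQm, QuadraticMap.map_zero]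
      · rw [← hT, Submodule.map_span, Set.image_singleton, hv]
    have h1 := CfsgLib.Forms.finrank_le_of_singular_minus hab hsing
    have h2 := LinearMap.finrank_range_add_finrank_ker N
    have h3 := Submodule.finrank_mono (fun w (hw : w ∈ LinearMap.range N) => by
      obtain ⟨v, rfl⟩ := hw
      rw [LinearMap.mem_ker, hN]
      simp only [LinearMap.sub_apply, Module.End.one_apply, map_sub, hzv, hz1, one_smul]
      calc v - T v - (T v - v) = (2 : F) • (v - T v) := by rw [two_smul]; abel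
        _ = 0 := by rw [hF2, zero_smul] : LinearMap.range N ≤ LinearMap.ker N)
    rw [Module.finrank_fintype_fun_eq_card, Fintype.card_sum, Fintype.card_sum, Fintype.card_fin,
      Fintype.card_fin] at h2
    omega

end Cfsg.Agent.S5986
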