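import Cfsg.Statements.S5987
import Cfsg.Agent.SubElusive.OrthTSEvenQuarter

set_option autoImplicit false
open scoped MatrixGroups
open Cfsg

namespace Cfsg.Agent.S5987

/-- Elements of prime order of PΩ⁻_n(q) with no fixed totally singular `m`-space. Here `T = PΩ⁻_n(F)`, `n = 2d ≥ 8`, realised through `Ω⁻_n(q)`, the commutator subgroup of the isometry group of `Q = Σ_{i<d−1} xᵢyᵢ + z₁² + a z₁z₂ + b z₂²` with `z₁² + a z₁z₂ + b z₂²` anisotropic, over the field `F` with `q` elements; an element of `T` of prime order `r` is an element `x` of `Ω⁻_n(q)` with `x^r` scalar and `x` not scalar. Let `1 ≤ m ≤ d − 1` and let `r` be a prime dividing the number of totally singular `m`-spaces (subspaces of dimension `m` on which `Q` vanishes); for `r ≠ p` let `i` be the multiplicative order of `q` modulo `r`, `c = i` for `i` even and `c = 2i` for `i` odd, and write `k = n mod c`, `ℓ = m mod i`, `n'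 = ⌊n/i⌋`, `m' = ⌊m/i⌋`, `t = (r−1)/i`. Then every element of `T` of order `r` fixes some totally singular `m`-space if and only if one of: (i) `r = 2 ≠ p` and (`n ≡ 0 (mod 4)`, or `m` is even, or `q ≢ 7 (mod 8)`); (ii) `r ≠ p` odd, `i` odd, `i ≤ m` and (`k = 0` or `k > 2ℓ`); (iii) `r ≠ p` odd, `i` even, `i ≤ m`, `n' − 2m' ≥ t`, and one of: (a) `i ≥ 2ℓ`, `k = 0`, `n/i` even and `n' − 2m' > t` (all four); (b) `k ≥ 2ℓ` and `n'` odd; (c) `k > 2ℓ` and `n'` even. -/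
theorem result {F : Type*} [Field F] [Fintype F] {p : ℕ} [Fact p.Prime] [CharP F p] {q : ℕ} (hq : Fintype.card F = q)
    (d m : ℕ) (hd : 4 ≤ d) (hm : 1 ≤ m) (hmd : m + 1 ≤ d) (a b : F) (hab : ∀ x y : F, x ^ 2 + a * x * y + b * y ^ 2 = 0 → x = 0 ∧ y = 0)
    (r : ℕ) [Fact r.Prime]
    (hrΩ : r ∣ Nat.card {W : Submodule F ((Fin (d - 1) ⊕ Fin (d - 1)) ⊕ Fin 2 → F) // Module.finrank F ↥W = m ∧ Cfsg.Geo.IsTotallySingularQuad (Cfsg.quadFormMinus (d - 1) F a b) W})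
    (i c : ℕ) (hi : i = orderOf (q : ZMod r)) (hc : c = if Even i then i else 2 * i) :
    (∀ x : GL ((Fin (d - 1) ⊕ Fin (d - 1)) ⊕ Fin 2) F, x ∈ Cfsg.Geo.omegaGL (Cfsg.quadFormMinus (d - 1) F a b) →
      (∃ z : F, ((x ^ r : GL ((Fin (d - 1) ⊕ Fin (d - 1)) ⊕ Fin 2) F) : Matrix ((Fin (d - 1) ⊕ Fin (d - 1)) ⊕ Fin 2) ((Fin (d - 1) ⊕ Fin (d - 1)) ⊕ Fin 2) F) = z • (1 : Matrix ((Fin (d - 1) ⊕ Fin (d - 1)) ⊕ Fin 2) ((Fin (d - 1) ⊕ Fin (d - 1)) ⊕ Fin 2) F)) →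
      (∀ z : F, (x : Matrix ((Fin (d - 1) ⊕ Fin (d - 1)) ⊕ Fin 2) ((Fin (d - 1) ⊕ Fin (d - 1)) ⊕ Fin 2) F) ≠ z • (1 : Matrix ((Fin (d - 1) ⊕ Fin (d - 1)) ⊕ Fin 2) ((Fin (d - 1) ⊕ Fin (d - 1)) ⊕ Fin 2) F)) →
      ∃ W : Submodule F ((Fin (d - 1) ⊕ Fin (d - 1)) ⊕ Fin 2 → F), (Module.finrank F ↥W = m ∧ Cfsg.Geo.IsTotallySingularQuad (Cfsg.quadFormMinus (d - 1) F a b) W) ∧ W.map (Matrix.toLin' (x : Matrix ((Fin (d - 1) ⊕ Fin (d - 1)) ⊕ Fin 2) ((Fin (d - 1) ⊕ Fin (d - 1)) ⊕ Fin 2) F)) ≤ W) ↔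
    ((r = 2 ∧ p ≠ 2 ∧ (Even d ∨ Even m ∨ q % 8 ≠ 7)) ∨
     (r ≠ p ∧ 2 < r ∧ Odd i ∧ i ≤ m ∧ ((2 * d) % c = 0 ∨ 2 * (m % i) < (2 * d) % c)) ∨
     (r ≠ p ∧ 2 < r ∧ Even i ∧ i ≤ m ∧ (r - 1) / i + 2 * (m / i) ≤ (2 * d) / i ∧
       ((2 * (m % i) ≤ i ∧ (2 * d) % c = 0 ∧ Even ((2 * d) / i) ∧ (r - 1) / i + 2 * (m / i) < (2 * d) / i) ∨
        (2 * (m % i) ≤ (2 * d) % c ∧ Odd ((2 * d) / i)) ∨
        (2 * (m % i) < (2 * d) % c ∧ Even ((2 * d) / i))))) := by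
  classical
  subst hq
  have hQ := CfsgLib.Forms.nondegenerate_quadMinus (F := F) (d - 1) hab
  have hι : Fintype.card ((Fin (d - 1) ⊕ Fin (d - 1)) ⊕ Fin 2) = 2 * d := by simp; omega
  have hε : CfsgLib.SemiClasses.HasHalf (CfsgLib.Forms.quadMinus F (d - 1) a b) ↔ False :=
    iff_false_intro (CfsgLib.SemiClasses.not_hasHalf_quadMinus _ hab)
  simp only [← CfsgLib.Forms.coe_quadMinus, Cfsg.Geo.IsTotallySingularQuad, and_assoc] at hrΩ ⊢
  by_cases hr2 : r = 2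
  · subst hr2
    have hp : p ≠ 2 := (CfsgLib.OrthTS.ts_data_even (p := p) hQ hι (by omega) hε hrΩ).1.symm
    have hodd : Fintype.card F % 2 = 1 :=
      FiniteField.odd_card_of_char_ne_two (by rw [ringChar.eq F p]; exact hp)
    rw [CfsgLib.OrthTS.main_two hQ hι (by omega) (by omega) hε hp, FiniteField.isSquare_neg_one_iff]
    simp only [false_implies, false_iff, not_not, true_and, lt_self_iff_false, false_and, and_false, or_false, ne_eq,
      hp, not_false_iff]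
    rcases Nat.even_or_odd d with he | ho
    · simp [he]
    · obtain ⟨k, rfl⟩ := ho
      have h2 : IsSquare ((2 : F) ^ (2 * k + 1)) ↔ IsSquare (2 : F) := by
        have h0 : (2 : F) ≠ 0 := Ring.two_ne_zero (by rw [ringChar.eq F p]; exact hp)
        rw [pow_succ, CfsgLib.Forms.isSquare_mul_iff' (pow_ne_zero _ h0) h0]
        simp [(even_two_mul k).isSquare_pow (2 : F)]
      simp only [h2, FiniteField.isSquare_two_iff, Nat.even_iff]
      omega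
  have hr3 : 2 < r := by have := (Fact.out : r.Prime).two_le; omega
  obtain ⟨hrp, hmain⟩ := CfsgLib.OrthTS.main_odd (p := p) hr2 hi hc hQ hι (by omega) (by omega) hε hrΩ
  rw [hmain]
  simp only [hr2, false_and, false_or, false_iff, not_false_iff, and_true, and_false, or_false, ne_eq, hrp, hr3,
    true_and, Nat.not_even_iff_odd, Nat.not_odd_iff_even]

end Cfsg.Agent.S5987
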