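import Cfsg.Statements.S5988
import Cfsg.Agent.SubElusive.OrthNDEvenTwo
import Cfsg.Agent.SubElusive.OrthNDEvenUnip

set_option autoImplicit false
open scoped MatrixGroups
open Cfsg

namespace Cfsg.Agent.S5988

/-- Elements of prime order of PΩ⁺_n(q) with no fixed elliptic `m`-space. Here `T = PΩ⁺_n(F)`, `n = 2d ≥ 8`, realised through `Ω⁺_n(q)`, the commutator subgroup of the isometry group of `Q = Σ xᵢyᵢ` over the field `F` with `q` elements; an element of `T` of prime order `r` is an element `x` of `Ω⁺_n(q)` with `x^r` scalar and `x` not scalar; a nondegenerate `m`-space (even `m`) is a subspace on which the polar form of `Q` is nondegenerate; it is hyperbolic if it contains an `m/2`-dimensional subspace on which `Q` vanishes, elliptic otherwise. Let `m` be even with `2 ≤ m < n/2` and let `r` be a prime dividing the number of elliptic `m`-spaces; for `r ≠ p` let `i` be the multiplicative order of `q` modulo `r`, `c = i`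 for `i` even and `c = 2i` for `i` odd, and write `k = n mod c`, `ℓ = m mod i`, `ℓ' = m mod c`, `n' = ⌊n/i⌋`, `m' = ⌊m/i⌋`, `t = (r−1)/i`. Then every element of `T` of order `r` fixes some elliptic `m`-space if and only if one of: (i) `r = 2 ≠ p` and either `n ≡ 0 (mod 4)`, `q ≡ 3 (mod 4)` and `m ≡ 2 (mod 4)`, or `n ≡ 2 (mod 4)` and `q ≢ 1 (mod 8)`; (ii) `r ≠ p` odd, `i` odd, `c ≤ m` and `k > ℓ' > 0`; (iii) `r ≠ p` odd, `i` even, and either `k = 0` and (`n/i` odd, or `ℓ' = 0` and `m/i` odd), or `i ≤ m` and (`k > ℓ' > 0`, or `k = ℓ' > 0` and `(n + m − 2k)/i` odd, or `k > ℓ' = 0` and `m/i` odd). (For `r = p` there is always an element of order `p` fixing no elliptic `m`-space.) -/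
theorem result {F : Type*} [Field F] [Fintype F] {p : ℕ} [Fact p.Prime] [CharP F p] {q : ℕ} (hq : Fintype.card F = q)
    (d m : ℕ) (hd : 4 ≤ d) (hm : 2 ≤ m) (hme : Even m) (hmd : m < d)
    (r : ℕ) [Fact r.Prime]
    (hrΩ : r ∣ Nat.card {W : Submodule F (Fin d ⊕ Fin d → F) // Module.finrank F ↥W = m ∧ Cfsg.Geo.IsNondegenerateOn (QuadraticMap.polar (Cfsg.quadFormPlus d F)) W ∧ ¬ Cfsg.Geo.IsPlusTypeOn (Cfsg.quadFormPlus d F) W})
    (i c : ℕ) (hi : i = orderOf (q : ZMod r)) (hc : c = if Even i then i else 2 * i) :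
    (∀ x : GL (Fin d ⊕ Fin d) F, x ∈ Cfsg.Geo.omegaGL (Cfsg.quadFormPlus d F) →
      (∃ z : F, ((x ^ r : GL (Fin d ⊕ Fin d) F) : Matrix (Fin d ⊕ Fin d) (Fin d ⊕ Fin d) F) = z • (1 : Matrix (Fin d ⊕ Fin d) (Fin d ⊕ Fin d) F)) →
      (∀ z : F, (x : Matrix (Fin d ⊕ Fin d) (Fin d ⊕ Fin d) F) ≠ z • (1 : Matrix (Fin d ⊕ Fin d) (Fin d ⊕ Fin d) F)) →
      ∃ W : Submodule F (Fin d ⊕ Fin d → F), (Module.finrank F ↥W = m ∧ Cfsg.Geo.IsNondegenerateOn (QuadraticMap.polar (Cfsg.quadFormPlus d F)) W ∧ ¬ Cfsg.Geo.IsPlusTypeOn (Cfsg.quadFormPlus d F) W) ∧ W.map (Matrix.toLin' (x : Matrix (Fin d ⊕ Fin d) (Fin d ⊕ Fin d) F)) ≤ W) ↔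
    ((r = 2 ∧ p ≠ 2 ∧ ((Even d ∧ q % 4 = 3 ∧ m % 4 = 2) ∨ (Odd d ∧ q % 8 ≠ 1))) ∨
     (r ≠ p ∧ 2 < r ∧ Odd i ∧ c ≤ m ∧ 0 < m % c ∧ m % c < (2 * d) % c) ∨
     (r ≠ p ∧ 2 < r ∧ Even i ∧
       (((2 * d) % c = 0 ∧ (Odd ((2 * d) / i) ∨ (m % c = 0 ∧ Odd (m / i)))) ∨
        (i ≤ m ∧ ((0 < m % c ∧ m % c < (2 * d) % c) ∨
                  (0 < m % c ∧ m % c = (2 * d) % c ∧ Odd ((2 * d + m - 2 * ((2 * d) % c)) / i)) ∨
                  (m % c = 0 ∧ 0 < (2 * d) % c ∧ Odd (m / i))))))) := by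
  classical
  subst hq
  have hQ := CfsgLib.Forms.nondegenerate_quadPlus (F := F) d
  have hι : Fintype.card (Fin d ⊕ Fin d) = 2 * d := by simp; omega
  have hε : CfsgLib.SemiClasses.HasHalf (CfsgLib.Forms.quadPlus F d) ↔ True :=
    iff_true_intro (CfsgLib.SemiClasses.hasHalf_quadPlus d)
  simp only [← CfsgLib.Forms.coe_quadPlus] at hrΩ ⊢
  have hiff : ∀ W : Submodule F (Fin d ⊕ Fin d → F),
      (Module.finrank F ↥W = m ∧ Cfsg.Geo.IsNondegenerateOn (QuadraticMap.polar ⇑(CfsgLib.Forms.quadPlus F d)) W ∧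
        ¬ Cfsg.Geo.IsPlusTypeOn ⇑(CfsgLib.Forms.quadPlus F d) W) ↔
      CfsgLib.OrthOddSub.SubOK (CfsgLib.Forms.quadPlus F d) m False W :=
    fun W => by rw [CfsgLib.OrthOddSub.SubOK, iff_false]
  simp only [hiff] at hrΩ ⊢
  by_cases hrp : r = p
  · subst hrp
    refine iff_of_false (CfsgLib.OrthND.witness_plus (by omega) hme False False.elim) ?_
    rintro (⟨h, h', -⟩ | ⟨h, -⟩ | ⟨h, -⟩)
    exacts [h' h, h rfl, h rfl]
  by_cases hr2 : r = 2
  · subst hr2
    have hodd : Fintype.card F % 2 = 1 :=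
      FiniteField.odd_card_of_char_ne_two (by rw [ringChar.eq F p]; exact Ne.symm hrp)
    have h2 : (2 : F) ≠ 0 := Ring.two_ne_zero (by rw [ringChar.eq F p]; exact Ne.symm hrp)
    rw [CfsgLib.OrthND.main_two_even_m h2 hQ hι (by omega) hme hm (by omega) hε]
    simp only [true_iff, false_iff, lt_self_iff_false, false_and, and_false, or_false, true_and, ne_eq,
      Ne.symm hrp, not_false_iff]
    have hpow : ∀ (a : F) (k : ℕ), a ≠ 0 → (IsSquare (a ^ k) ↔ k % 2 = 0 ∨ IsSquare a) := fun a k ha => by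
      rcases Nat.even_or_odd k with he | ⟨j, rfl⟩
      · simp [he.isSquare_pow a, Nat.even_iff.mp he]
      · rw [pow_succ, CfsgLib.Forms.isSquare_mul_iff' (pow_ne_zero _ ha) ha]
        simp [(even_two_mul j).isSquare_pow a]
    rw [hpow _ d (neg_ne_zero.mpr one_ne_zero), hpow _ d h2, hpow _ (m / 2) (neg_ne_zero.mpr one_ne_zero),
      FiniteField.isSquare_neg_one_iff, FiniteField.isSquare_two_iff, Nat.even_iff, Nat.odd_iff]
    rw [Nat.even_iff] at hme
    omega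
  have hr3 : 2 < r := by have := (Fact.out : r.Prime).two_le; omega
  obtain ⟨b, e, R₀, R₁, hb, hR₀, hR₁, hδ, hτ, he⟩ :=
    CfsgLib.OrthND.exists_model_split hQ hε hι hme hm (by omega) False
  simp only [CfsgLib.OrthND.sub_iff_iso hQ hme hR₀ hδ] at hrΩ ⊢
  obtain ⟨hmain, hcm⟩ := CfsgLib.OrthND.main_even_m (p := p) hrp hr2 hi hc hQ hι (by omega) hme hm hε hR₀ hR₁ hδ hτ
    hb (by omega) e he hrΩ
  rw [hmain, CfsgLib.OrthND.critEven_norm hcm]
  simp only [CfsgLib.OrthTS.MType, true_iff, false_iff, hr2, false_and, false_or, ne_eq, hrp, not_false_iff, hr3,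
    true_and]
  have hipos : 0 < i := by
    rw [hi]
    obtain ⟨u, hu⟩ := CfsgLib.SemiClasses.exists_unit_card (F := F) (p := p) (r := r) dvd_rfl hrp
    rw [← hu, orderOf_units]; exact orderOf_pos u
  rcases Nat.even_or_odd i with hi' | hi'
  · obtain rfl : c = i := by rw [hc, if_pos hi']
    simp only [hi', Nat.not_odd_iff_even.mpr hi', false_and, false_or, true_and, Nat.not_even_iff_odd]
    refine or_congr Iff.rfl (and_congr_right fun _ => or_congr Iff.rfl (or_congr ?_ ⟨fun h => ⟨h.2.1, h.1, h.2.2⟩,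
      fun h => ⟨h.2.1, h.1, h.2.2⟩⟩))
    refine and_congr_right fun _ => and_congr_right fun h => ?_
    rw [← Nat.not_even_iff_odd, ← Nat.not_even_iff_odd, CfsgLib.OrthND.even_flip hipos (by omega) h]
  · simp only [hi', Nat.not_even_iff_odd.mpr hi', false_and, or_false, true_and, true_or, not_true, and_false,
      false_or]

end Cfsg.Agent.S5988
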