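import Cfsg.Statements.S5989
import Cfsg.Agent.SubElusive.OrthNDUnip

set_option autoImplicit false
open scoped MatrixGroups
open Cfsg

namespace Cfsg.Agent.S5989

/-- Elements of prime order of PΩ⁺_n(q), q odd, with no fixed nondegenerate `m`-space of odd dimension. Here `T = PΩ⁺_n(F)`, `n = 2d ≥ 8`, realised through `Ω⁺_n(q)`, the commutator subgroup of the isometry group of `Q = Σ xᵢyᵢ` over the field `F` with `q` elements; an element of `T` of prime order `r` is an element `x` of `Ω⁺_n(q)` with `x^r` scalar and `x` not scalar; `q` and `m` are odd, `1 ≤ m < n/2`. The nondegenerate `m`-spaces (subspaces on which the polar form is nondegenerate) fall into two isometry classes, each an orbit of `T`, and the two actions are equivalent; fix one such space `W₀` and let Ω be the set of nondegenerate `m`-spaces isometric to `W₀` (some linear isomorphism preserves `Q`). Let `r` be a prime dividing the size of Ω; for `r ≠ p` let `i` be the multiplicative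 order of `q` modulo `r`, `c = i` for `i` even and `c = 2i` for `i` odd, and write `k = n mod c`, `ℓ = m mod i`, `ℓ' = m mod c`, `n' = ⌊n/i⌋`, `m' = ⌊m/i⌋`, `t = (r−1)/i`. Then every element of `T` of order `r` fixes a member of Ω if and only if one of: (i) `r = 2`, `n ≡ 2 (mod 4)` and `q ≢ 1 (mod 8)`; (ii) `r ≠ p` odd, `i` odd, `c ≤ m` and `k > ℓ' > 0`; (iii) `r ≠ p` odd, `i` even, and either `k = 0` and `n/i` odd, or `i ≤ m` and `k > ℓ' > 0`. (For `r = p` there is always an element of order `p` fixing no member of Ω.) -/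
theorem result {F : Type*} [Field F] [Fintype F] {p : ℕ} [Fact p.Prime] [CharP F p] {q : ℕ} (hq : Fintype.card F = q)
    (hodd : Odd q) (d m : ℕ) (hd : 4 ≤ d) (hm : Odd m) (hmd : m < d)
    (W₀ : Submodule F (Fin d ⊕ Fin d → F)) (hW₀ : Module.finrank F ↥W₀ = m ∧ Cfsg.Geo.IsNondegenerateOn (QuadraticMap.polar (Cfsg.quadFormPlus d F)) W₀)
    (r : ℕ) [Fact r.Prime]
    (hrΩ : r ∣ Nat.card {W : Submodule F (Fin d ⊕ Fin d → F) // Module.finrank F ↥W = m ∧ Cfsg.Geo.IsNondegenerateOn (QuadraticMap.polar (Cfsg.quadFormPlus d F)) W ∧ Cfsg.Geo.AreIsometricFor (Cfsg.quadFormPlus d F) W W₀})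
    (i c : ℕ) (hi : i = orderOf (q : ZMod r)) (hc : c = if Even i then i else 2 * i) :
    (∀ x : GL (Fin d ⊕ Fin d) F, x ∈ Cfsg.Geo.omegaGL (Cfsg.quadFormPlus d F) →
      (∃ z : F, ((x ^ r : GL (Fin d ⊕ Fin d) F) : Matrix (Fin d ⊕ Fin d) (Fin d ⊕ Fin d) F) = z • (1 : Matrix (Fin d ⊕ Fin d) (Fin d ⊕ Fin d) F)) →
      (∀ z : F, (x : Matrix (Fin d ⊕ Fin d) (Fin d ⊕ Fin d) F) ≠ z • (1 : Matrix (Fin d ⊕ Fin d) (Fin d ⊕ Fin d) F)) →
      ∃ W : Submodule F (Fin d ⊕ Fin d → F), (Module.finrank F ↥W = m ∧ Cfsg.Geo.IsNondegenerateOn (QuadraticMap.polar (Cfsg.quadFormPlus d F)) W ∧ Cfsg.Geo.AreIsometricFor (Cfsg.quadFormPlus d F) W W₀) ∧ W.map (Matrix.toLin' (x : Matrix (Fin d ⊕ Fin d) (Fin d ⊕ Fin d) F)) ≤ W) ↔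
    ((r = 2 ∧ Odd d ∧ q % 8 ≠ 1) ∨
     (r ≠ p ∧ 2 < r ∧ Odd i ∧ c ≤ m ∧ 0 < m % c ∧ m % c < (2 * d) % c) ∨
     (r ≠ p ∧ 2 < r ∧ Even i ∧ (((2 * d) % c = 0 ∧ Odd ((2 * d) / i)) ∨ (i ≤ m ∧ 0 < m % c ∧ m % c < (2 * d) % c)))) := by
  classical
  subst hq
  have hQ := CfsgLib.Forms.nondegenerate_quadPlus (F := F) d
  have hι : Fintype.card (Fin d ⊕ Fin d) = 2 * d := by simp; omega
  have hε : CfsgLib.SemiClasses.HasHalf (CfsgLib.Forms.quadPlus F d) ↔ True :=
    iff_true_intro (CfsgLib.SemiClasses.hasHalf_quadPlus d)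
  have h2 := CfsgLib.OrthOddSub.two_ne_zero_of_odd (F := F) hodd
  simp only [← CfsgLib.Forms.coe_quadPlus] at hrΩ hW₀ ⊢
  obtain ⟨b, e, R₀, R₁, hb, hR₀, hR₁, he, hiff⟩ := CfsgLib.OrthND.class_iff hQ hW₀.1 hW₀.2
  rw [hι] at hb
  simp only [hiff] at hrΩ ⊢
  have hqodd := Nat.odd_iff.mp hodd
  by_cases hr2 : r = 2
  · subst hr2
    rw [CfsgLib.OrthND.main_two_odd_m h2 hQ hι (by omega) hm hmd hε hR₀]
    simp only [true_iff, lt_self_iff_false, false_and, and_false, or_false, true_and]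
    rcases Nat.even_or_odd d with he' | ho'
    · simp [he'.isSquare_pow (2 : F), he', Nat.not_odd_iff_even.mpr he']
    · obtain ⟨k, rfl⟩ := ho'
      have hpow : ∀ a : F, a ≠ 0 → (IsSquare (a ^ (2 * k + 1)) ↔ IsSquare a) := fun a ha => by
        rw [pow_succ, CfsgLib.Forms.isSquare_mul_iff' (pow_ne_zero _ ha) ha]
        simp [(even_two_mul k).isSquare_pow a]
      rw [hpow _ (neg_ne_zero.mpr one_ne_zero), hpow _ h2, FiniteField.isSquare_neg_one_iff,
        FiniteField.isSquare_two_iff]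
      simp only [odd_two_mul_add_one, true_and]
      omega
  have hr3 : 2 < r := by have := (Fact.out : r.Prime).two_le; omega
  by_cases hrp : r = p
  · subst hrp
    refine iff_of_false (CfsgLib.OrthND.main_char (p := r) hr2 hQ hι (by omega) hm hb hR₀ hR₁ e he) ?_
    rintro (⟨h, -⟩ | ⟨h, -⟩ | ⟨h, -⟩)
    exacts [hr2 h, h rfl, h rfl]
  rw [CfsgLib.OrthND.main_odd_m (p := p) hrp hr2 h2 hi hc hQ hι (by omega) hm hmd hε hR₀ hR₁ hb e he hrΩ]
  simp only [hr2, false_and, false_or, true_iff, ne_eq, hrp, not_false_iff, hr3, true_and, CfsgLib.OrthTS.MType]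
  rcases Nat.even_or_odd i with hi' | hi'
  · rw [show c = i by rw [hc, if_pos hi']]
    simp only [hi', Nat.not_odd_iff_even.mpr hi', false_and, false_or, true_and, Nat.not_even_iff_odd]
  · simp only [hi', Nat.not_even_iff_odd.mpr hi', false_and, or_false, true_and, true_or, not_true, and_false, false_or]

end Cfsg.Agent.S5989
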