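import Cfsg.Statements.S5990
import Cfsg.Agent.SubElusive.OrthNDEvenTwo
import Cfsg.Agent.SubElusive.OrthNDEvenInvol

set_option autoImplicit false
open scoped MatrixGroups
open Cfsg

namespace Cfsg.Agent.S5990

/-- Elements of prime order of PΩ⁻_n(q) with no fixed elliptic `m`-space. Here `T = PΩ⁻_n(F)`, `n = 2d ≥ 8`, realised through `Ω⁻_n(q)`, the commutator subgroup of the isometry group of `Q = Σ_{i<d−1} xᵢyᵢ + z₁² + a z₁z₂ + b z₂²` with `z₁² + a z₁z₂ + b z₂²` anisotropic, over the field `F` with `q` elements; an element of `T` of prime order `r` is an element `x` of `Ω⁻_n(q)` with `x^r` scalar and `x` not scalar; a nondegenerate `m`-space (even `m`) is a subspace on which the polar form of `Q` is nondegenerate; it is hyperbolic if it contains an `m/2`-dimensional subspace on which `Q` vanishes, elliptic otherwise. Let `m` be even with `2 ≤ m ≤ n − 2` (no restriction `m < n/2`: fixing an elliptic `m`-space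 is the same as fixing its hyperbolic orthogonal complement) and let `r` be a prime dividing the number of elliptic `m`-spaces, with `r = 2` or `r ≠ p`; for `r ≠ p` let `i` be the multiplicative order of `q` modulo `r`, `c = i` for `i` even and `c = 2i` for `i` odd, and write `k = n mod c`, `ℓ = m mod i`, `ℓ' = m mod c`, `n' = ⌊n/i⌋`, `m' = ⌊m/i⌋`, `t = (r−1)/i`. Then every element of `T` of order `r` fixes some elliptic `m`-space if and only if one of: (i) `r = p = 2` and (`n ≡ 0 (mod 4)` or `m ≡ 2 (mod 4)`); (ii) `r = 2 ≠ p` and (`n ≡ 0 (mod 4)`, or `q ≢ 7 (mod 8)`, or `m ≡ 2 (mod 4)`); (iii) `r ≠ p` odd, `i` odd, and `k = 0` or (`c ≤ m` and `k ≥ ℓ' > 0`); (iv) `r ≠ p` odd, `i` even, and either `k = 0` and (`n/i` even, or `ℓ' = 0` and `m/i` odd), or `k > 0`, `i ≤ m` and (`k > ℓ' > 0`, or `ℓ' = 0` and `m/i` odd, or `k = ℓ'` and `(n + m − 2k)/i` even). (Odd `r = p` is not covered by this statement.) -/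
theorem result {F : Type*} [Field F] [Fintype F] {p : ℕ} [Fact p.Prime] [CharP F p] {q : ℕ} (hq : Fintype.card F = q)
    (d m : ℕ) (hd : 4 ≤ d) (hm : 2 ≤ m) (hme : Even m) (hmn : m + 2 ≤ 2 * d) (a b : F) (hab : ∀ x y : F, x ^ 2 + a * x * y + b * y ^ 2 = 0 → x = 0 ∧ y = 0)
    (r : ℕ) [Fact r.Prime] (hr : r = 2 ∨ r ≠ p)
    (hrΩ : r ∣ Nat.card {W : Submodule F ((Fin (d - 1) ⊕ Fin (d - 1)) ⊕ Fin 2 → F) // Module.finrank F ↥W = m ∧ Cfsg.Geo.IsNondegenerateOn (QuadraticMap.polar (Cfsg.quadFormMinus (d - 1) F a b)) W ∧ ¬ Cfsg.Geo.IsPlusTypeOn (Cfsg.quadFormMinus (d - 1) F a b) W})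
    (i c : ℕ) (hi : i = orderOf (q : ZMod r)) (hc : c = if Even i then i else 2 * i) :
    (∀ x : GL ((Fin (d - 1) ⊕ Fin (d - 1)) ⊕ Fin 2) F, x ∈ Cfsg.Geo.omegaGL (Cfsg.quadFormMinus (d - 1) F a b) →
      (∃ z : F, ((x ^ r : GL ((Fin (d - 1) ⊕ Fin (d - 1)) ⊕ Fin 2) F) : Matrix ((Fin (d - 1) ⊕ Fin (d - 1)) ⊕ Fin 2) ((Fin (d - 1) ⊕ Fin (d - 1)) ⊕ Fin 2) F) = z • (1 : Matrix ((Fin (d - 1) ⊕ Fin (d - 1)) ⊕ Fin 2) ((Fin (d - 1) ⊕ Fin (d - 1)) ⊕ Fin 2) F)) →
      (∀ z : F, (x : Matrix ((Fin (d - 1) ⊕ Fin (d - 1)) ⊕ Fin 2) ((Fin (d - 1) ⊕ Fin (d - 1)) ⊕ Fin 2) F) ≠ z • (1 : Matrix ((Fin (d - 1) ⊕ Fin (d - 1)) ⊕ Fin 2) ((Fin (d - 1) ⊕ Fin (d - 1)) ⊕ Fin 2) F)) →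
      ∃ W : Submodule F ((Fin (d - 1) ⊕ Fin (d - 1)) ⊕ Fin 2 → F), (Module.finrank F ↥W = m ∧ Cfsg.Geo.IsNondegenerateOn (QuadraticMap.polar (Cfsg.quadFormMinus (d - 1) F a b)) W ∧ ¬ Cfsg.Geo.IsPlusTypeOn (Cfsg.quadFormMinus (d - 1) F a b) W) ∧ W.map (Matrix.toLin' (x : Matrix ((Fin (d - 1) ⊕ Fin (d - 1)) ⊕ Fin 2) ((Fin (d - 1) ⊕ Fin (d - 1)) ⊕ Fin 2) F)) ≤ W) ↔
    ((r = 2 ∧ p = 2 ∧ (Even d ∨ m % 4 = 2)) ∨
     (r = 2 ∧ p ≠ 2 ∧ (Even d ∨ q % 8 ≠ 7 ∨ m % 4 = 2)) ∨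
     (r ≠ p ∧ 2 < r ∧ Odd i ∧ ((2 * d) % c = 0 ∨ (c ≤ m ∧ 0 < m % c ∧ m % c ≤ (2 * d) % c))) ∨
     (r ≠ p ∧ 2 < r ∧ Even i ∧
       (((2 * d) % c = 0 ∧ (Even ((2 * d) / i) ∨ (m % c = 0 ∧ Odd (m / i)))) ∨
        (0 < (2 * d) % c ∧ i ≤ m ∧ ((0 < m % c ∧ m % c < (2 * d) % c) ∨ (m % c = 0 ∧ Odd (m / i)) ∨
                                    (m % c = (2 * d) % c ∧ Even ((2 * d + m - 2 * ((2 * d) % c)) / i))))))) := by
  classical
  subst hq
  have hQ := CfsgLib.Forms.nondegenerate_quadMinus (F := F) (d - 1) hab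
  have hι : Fintype.card ((Fin (d - 1) ⊕ Fin (d - 1)) ⊕ Fin 2) = 2 * d := by simp; omega
  have hε : CfsgLib.SemiClasses.HasHalf (CfsgLib.Forms.quadMinus F (d - 1) a b) ↔ False :=
    iff_false_intro (CfsgLib.SemiClasses.not_hasHalf_quadMinus _ hab)
  simp only [← CfsgLib.Forms.coe_quadMinus] at hrΩ ⊢
  have hiff : ∀ W : Submodule F ((Fin (d - 1) ⊕ Fin (d - 1)) ⊕ Fin 2 → F),
      (Module.finrank F ↥W = m ∧
        Cfsg.Geo.IsNondegenerateOn (QuadraticMap.polar ⇑(CfsgLib.Forms.quadMinus F (d - 1) a b)) W ∧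
        ¬ Cfsg.Geo.IsPlusTypeOn ⇑(CfsgLib.Forms.quadMinus F (d - 1) a b) W) ↔
      CfsgLib.OrthOddSub.SubOK (CfsgLib.Forms.quadMinus F (d - 1) a b) m False W :=
    fun W => by rw [CfsgLib.OrthOddSub.SubOK, iff_false]
  simp only [hiff] at hrΩ ⊢
  by_cases hr2 : r = 2
  · subst hr2
    simp only [lt_self_iff_false, false_and, and_false, or_false, true_and]
    by_cases hp : p = 2
    · subst hp
      simp only [ne_eq, not_true, false_and, or_false, true_and]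
      constructor
      · intro hall
        by_contra hcon
        refine CfsgLib.OrthND.witness_minus_even (p := 2) (d' := d - 1) (by omega) ?_ hab ?_ hall <;>
          simp only [Nat.even_iff] at hme hcon ⊢ <;> omega
      · intro hc x hx hz _
        obtain ⟨W, -, -, h4⟩ := CfsgLib.OrthND.exists_hyp_two (p := 2) (b := 2 * d - m) rfl hQ hι (by omega)
          (by rw [Nat.even_iff] at hme ⊢; omega) (by omega) hε (by
            simp only [false_iff, Nat.not_odd_iff]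
            simp only [Nat.even_iff] at hme hc
            omega) hx hz
        obtain ⟨h1, h3⟩ := h4 id
        rw [show 2 * d - (2 * d - m) = m by omega] at h1
        exact ⟨_, h1, h3⟩
    have hodd : Fintype.card F % 2 = 1 := FiniteField.odd_card_of_char_ne_two (by rw [ringChar.eq F p]; exact hp)
    have h2 : (2 : F) ≠ 0 := Ring.two_ne_zero (by rw [ringChar.eq F p]; exact hp)
    rw [CfsgLib.OrthND.main_two_even_m h2 hQ hι (by omega) hme hm (by omega) hε]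
    simp only [false_iff, ne_eq, hp, false_and, false_or, not_false_iff, true_and]
    have hpow : ∀ (a : F) (k : ℕ), a ≠ 0 → (IsSquare (a ^ k) ↔ k % 2 = 0 ∨ IsSquare a) := fun a k ha => by
      rcases Nat.even_or_odd k with he | ⟨j, rfl⟩
      · simp [he.isSquare_pow a, Nat.even_iff.mp he]
      · rw [pow_succ, CfsgLib.Forms.isSquare_mul_iff' (pow_ne_zero _ ha) ha]
        simp [(even_two_mul j).isSquare_pow a]
    rw [hpow _ d (neg_ne_zero.mpr one_ne_zero), hpow _ d h2, hpow _ (m / 2) (neg_ne_zero.mpr one_ne_zero),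
      FiniteField.isSquare_neg_one_iff, FiniteField.isSquare_two_iff]
    simp only [Nat.even_iff, Nat.odd_iff] at hme ⊢
    omega
  have hr3 : 2 < r := by have := (Fact.out : r.Prime).two_le; omega
  have hrp : r ≠ p := hr.resolve_left hr2
  obtain ⟨b', e, R₀, R₁, hb, hR₀, hR₁, hδ, hτ, he⟩ :=
    CfsgLib.OrthND.exists_model_split hQ hε hι hme hm (by omega) False
  simp only [CfsgLib.OrthND.sub_iff_iso hQ hme hR₀ hδ] at hrΩ ⊢
  obtain ⟨hmain, hcm⟩ := CfsgLib.OrthND.main_even_m (p := p) hrp hr2 hi hc hQ hι (by omega) hme hm hε hR₀ hR₁ hδ hτ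
    hb (by omega) e he hrΩ
  rw [hmain, CfsgLib.OrthND.critEven_norm hcm]
  simp only [CfsgLib.OrthTS.MType, true_iff, false_iff, hr2, false_and, false_or, ne_eq, hrp, not_false_iff, hr3,
    true_and]
  have hipos : 0 < i := by
    rw [hi]
    obtain ⟨u, hu⟩ := CfsgLib.SemiClasses.exists_unit_card (F := F) (p := p) (r := r) dvd_rfl hrp
    rw [← hu, orderOf_units]; exact orderOf_pos u
  rcases Nat.even_or_odd i with hi' | hi'
  · obtain rfl : c = i := by rw [hc, if_pos hi']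
    simp only [hi', Nat.not_odd_iff_even.mpr hi', false_and, false_or, true_and, Nat.not_even_iff_odd, Nat.not_odd_iff_even]
    refine or_congr Iff.rfl ⟨fun ⟨hC, h⟩ => ⟨by omega, hC, ?_⟩, fun ⟨hk, hC, h⟩ => ⟨hC, ?_⟩⟩
    · rcases h with h | ⟨h1, h3, h4⟩ | ⟨h1, h3, h4⟩
      exacts [Or.inl h, Or.inr (Or.inr ⟨h3, (CfsgLib.OrthND.even_flip hipos (by omega) h3).mpr h4⟩),
        Or.inr (Or.inl ⟨h3, h4⟩)]
    · rcases h with h | ⟨h3, h4⟩ | ⟨h3, h4⟩
      exacts [Or.inl h, Or.inr (Or.inr ⟨hk, h3, h4⟩),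
        Or.inr (Or.inl ⟨by omega, h3, (CfsgLib.OrthND.even_flip hipos (by omega) h3).mp h4⟩)]
  · simp only [hi', Nat.not_even_iff_odd.mpr hi', false_and, or_false, true_and, true_or, not_true, and_false,
      false_or, and_true, not_false_iff]
    omega

end Cfsg.Agent.S5990
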