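import Cfsg.Statements.S5991
import Cfsg.Agent.SubElusive.OrthNDUnip

set_option autoImplicit false
open scoped MatrixGroups
open Cfsg

namespace Cfsg.Agent.S5991

/-- Elements of prime order of PΩ⁻_n(q), q odd, with no fixed nondegenerate `m`-space of odd dimension. Here `T = PΩ⁻_n(F)`, `n = 2d ≥ 8`, realised through `Ω⁻_n(q)`, the commutator subgroup of the isometry group of `Q = Σ_{i<d−1} xᵢyᵢ + z₁² + a z₁z₂ + b z₂²` with `z₁² + a z₁z₂ + b z₂²` anisotropic, over the field `F` with `q` elements; an element of `T` of prime order `r` is an element `x` of `Ω⁻_n(q)` with `x^r` scalar and `x` not scalar; `q` and `m` are odd, `1 ≤ m < n/2`. The nondegenerate `m`-spaces fall into two isometry classes, each an orbit of `T`, with equivalent actions; fix one such space `W₀` and let Ω be the set of nondegenerate `m`-spaces isometric to `W₀`. Let `r` be a prime dividing the size of Ω; for `r ≠ p` let `i`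 be the multiplicative order of `q` modulo `r`, `c = i` for `i` even and `c = 2i` for `i` odd, and write `k = n mod c`, `ℓ = m mod i`, `ℓ' = m mod c`, `n' = ⌊n/i⌋`, `m' = ⌊m/i⌋`, `t = (r−1)/i`. Then every element of `T` of order `r` fixes a member of Ω if and only if one of: (i) `r = 2` and (`n ≡ 0 (mod 4)` or `q ≢ 7 (mod 8)`); (ii) `r ≠ p` odd, `i` odd, and `k = 0` or (`c ≤ m` and `k > ℓ' > 0`); (iii) `r ≠ p` odd, `i` even, and either `k = 0` and `n/i` even, or `k > 0`, `i ≤ m` and `k > ℓ' > 0`. (For `r = p` there is always an element of order `p` fixing no member of Ω.) -/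
theorem result {F : Type*} [Field F] [Fintype F] {p : ℕ} [Fact p.Prime] [CharP F p] {q : ℕ} (hq : Fintype.card F = q)
    (hodd : Odd q) (d m : ℕ) (hd : 4 ≤ d) (hm : Odd m) (hmd : m < d) (a b : F) (hab : ∀ x y : F, x ^ 2 + a * x * y + b * y ^ 2 = 0 → x = 0 ∧ y = 0)
    (W₀ : Submodule F ((Fin (d - 1) ⊕ Fin (d - 1)) ⊕ Fin 2 → F)) (hW₀ : Module.finrank F ↥W₀ = m ∧ Cfsg.Geo.IsNondegenerateOn (QuadraticMap.polar (Cfsg.quadFormMinus (d - 1) F a b)) W₀)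
    (r : ℕ) [Fact r.Prime]
    (hrΩ : r ∣ Nat.card {W : Submodule F ((Fin (d - 1) ⊕ Fin (d - 1)) ⊕ Fin 2 → F) // Module.finrank F ↥W = m ∧ Cfsg.Geo.IsNondegenerateOn (QuadraticMap.polar (Cfsg.quadFormMinus (d - 1) F a b)) W ∧ Cfsg.Geo.AreIsometricFor (Cfsg.quadFormMinus (d - 1) F a b) W W₀})
    (i c : ℕ) (hi : i = orderOf (q : ZMod r)) (hc : c = if Even i then i else 2 * i) :
    (∀ x : GL ((Fin (d - 1) ⊕ Fin (d - 1)) ⊕ Fin 2) F, x ∈ Cfsg.Geo.omegaGL (Cfsg.quadFormMinus (d - 1) F a b) →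
      (∃ z : F, ((x ^ r : GL ((Fin (d - 1) ⊕ Fin (d - 1)) ⊕ Fin 2) F) : Matrix ((Fin (d - 1) ⊕ Fin (d - 1)) ⊕ Fin 2) ((Fin (d - 1) ⊕ Fin (d - 1)) ⊕ Fin 2) F) = z • (1 : Matrix ((Fin (d - 1) ⊕ Fin (d - 1)) ⊕ Fin 2) ((Fin (d - 1) ⊕ Fin (d - 1)) ⊕ Fin 2) F)) →
      (∀ z : F, (x : Matrix ((Fin (d - 1) ⊕ Fin (d - 1)) ⊕ Fin 2) ((Fin (d - 1) ⊕ Fin (d - 1)) ⊕ Fin 2) F) ≠ z • (1 : Matrix ((Fin (d - 1) ⊕ Fin (d - 1)) ⊕ Fin 2) ((Fin (d - 1) ⊕ Fin (d - 1)) ⊕ Fin 2) F)) →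
      ∃ W : Submodule F ((Fin (d - 1) ⊕ Fin (d - 1)) ⊕ Fin 2 → F), (Module.finrank F ↥W = m ∧ Cfsg.Geo.IsNondegenerateOn (QuadraticMap.polar (Cfsg.quadFormMinus (d - 1) F a b)) W ∧ Cfsg.Geo.AreIsometricFor (Cfsg.quadFormMinus (d - 1) F a b) W W₀) ∧ W.map (Matrix.toLin' (x : Matrix ((Fin (d - 1) ⊕ Fin (d - 1)) ⊕ Fin 2) ((Fin (d - 1) ⊕ Fin (d - 1)) ⊕ Fin 2) F)) ≤ W) ↔
    ((r = 2 ∧ (Even d ∨ q % 8 ≠ 7)) ∨
     (r ≠ p ∧ 2 < r ∧ Odd i ∧ ((2 * d) % c = 0 ∨ (c ≤ m ∧ 0 < m % c ∧ m % c < (2 * d) % c))) ∨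
     (r ≠ p ∧ 2 < r ∧ Even i ∧ (((2 * d) % c = 0 ∧ Even ((2 * d) / i)) ∨ (0 < (2 * d) % c ∧ i ≤ m ∧ 0 < m % c ∧ m % c < (2 * d) % c)))) := by
  classical
  subst hq
  have hQ := CfsgLib.Forms.nondegenerate_quadMinus (F := F) (d - 1) hab
  have hι : Fintype.card ((Fin (d - 1) ⊕ Fin (d - 1)) ⊕ Fin 2) = 2 * d := by simp; omega
  have hε : CfsgLib.SemiClasses.HasHalf (CfsgLib.Forms.quadMinus F (d - 1) a b) ↔ False :=
    iff_false_intro (CfsgLib.SemiClasses.not_hasHalf_quadMinus _ hab)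
  have h2 := CfsgLib.OrthOddSub.two_ne_zero_of_odd (F := F) hodd
  simp only [← CfsgLib.Forms.coe_quadMinus] at hrΩ hW₀ ⊢
  obtain ⟨b', e, R₀, R₁, hb, hR₀, hR₁, he, hiff⟩ := CfsgLib.OrthND.class_iff hQ hW₀.1 hW₀.2
  rw [hι] at hb
  simp only [hiff] at hrΩ ⊢
  have hqodd := Nat.odd_iff.mp hodd
  by_cases hr2 : r = 2
  · subst hr2
    rw [CfsgLib.OrthND.main_two_odd_m h2 hQ hι (by omega) hm hmd hε hR₀]
    simp only [false_iff, lt_self_iff_false, false_and, and_false, or_false, true_and]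
    rcases Nat.even_or_odd d with he' | ho'
    · simp [he'.isSquare_pow (-1 : F), he']
    · obtain ⟨k, rfl⟩ := ho'
      have hpow : ∀ a : F, a ≠ 0 → (IsSquare (a ^ (2 * k + 1)) ↔ IsSquare a) := fun a ha => by
        rw [pow_succ, CfsgLib.Forms.isSquare_mul_iff' (pow_ne_zero _ ha) ha]
        simp [(even_two_mul k).isSquare_pow a]
      rw [hpow _ (neg_ne_zero.mpr one_ne_zero), hpow _ h2, FiniteField.isSquare_neg_one_iff,
        FiniteField.isSquare_two_iff]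
      simp only [Nat.not_even_two_mul_add_one, false_or]
      omega
  have hr3 : 2 < r := by have := (Fact.out : r.Prime).two_le; omega
  by_cases hrp : r = p
  · subst hrp
    refine iff_of_false (CfsgLib.OrthND.main_char (p := r) hr2 hQ hι (by omega) hm hb hR₀ hR₁ e he) ?_
    rintro (⟨h, -⟩ | ⟨h, -⟩ | ⟨h, -⟩)
    exacts [hr2 h, h rfl, h rfl]
  rw [CfsgLib.OrthND.main_odd_m (p := p) hrp hr2 h2 hi hc hQ hι (by omega) hm hmd hε hR₀ hR₁ hb e he hrΩ]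
  simp only [hr2, false_and, false_or, false_iff, not_not, ne_eq, hrp, not_false_iff, hr3, true_and, CfsgLib.OrthTS.MType]
  rcases Nat.even_or_odd i with hi' | hi'
  · rw [show c = i by rw [hc, if_pos hi']]
    simp only [hi', Nat.not_odd_iff_even.mpr hi', false_and, false_or, true_and, or_false]
    exact or_congr Iff.rfl ⟨fun h => ⟨by omega, h⟩, fun h => h.2⟩
  · simp only [hi', Nat.not_even_iff_odd.mpr hi', false_and, or_false, true_and, true_or, and_true]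

end Cfsg.Agent.S5991
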