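import Cfsg.Statements.S5992
import Cfsg.Agent.SubElusive.OrthOdd

set_option autoImplicit false
open scoped MatrixGroups
open Cfsg

namespace Cfsg.Agent.S5992

/-- Elements of prime order r ≠ p of Ω_n(q), nq odd, with no fixed hyperbolic `m`-space. Here `T = Ω_n(F)`, `n = 2d+1 ≥ 7`, `q` odd, realised as the commutator subgroup of the isometry group of `Q = x₀² + Σ xᵢyᵢ` over the field `F` with `q` elements (trivial centre, so its elements of prime order `r` are used directly); a nondegenerate `m`-space (even `m`) is a subspace on which the polar form of `Q` is nondegenerate; it is hyperbolic if it contains an `m/2`-dimensional subspace on which `Q` vanishes, elliptic otherwise. Let `m` be even with `2 ≤ m ≤ n − 1` (no restriction `m < n/2`) and let `r ≠ p` be a prime dividing the number of hyperbolic `m`-spaces; for `r ≠ p` let `i` be the multiplicative order of `q` modulo `r`, `c = i` for `i` even and `c = 2i` for `i` odd, and write `k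 = n mod c`, `ℓ' = m mod c`. Then every element of `T` of order `r` fixes some hyperbolic `m`-space if and only if `r = 2`, or `r` is odd and one of: (i) `i` odd, `c ≤ m` and either `k > ℓ' > 0` or `ℓ' = 0`; (ii) `i` even, `i ≤ m`, `k > ℓ'`, and `m/i` even whenever `ℓ' = 0`. (`r = p` is not covered by this statement.) -/
theorem result {F : Type*} [Field F] [Fintype F] {p : ℕ} [Fact p.Prime] [CharP F p] {q : ℕ} (hq : Fintype.card F = q) (hqodd : Odd q)
    (d m : ℕ) (hd : 3 ≤ d) (hm : 2 ≤ m) (hme : Even m) (hmn : m ≤ 2 * d)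
    (r : ℕ) [Fact r.Prime] (hrp : r ≠ p)
    (hrΩ : r ∣ Nat.card {W : Submodule F (Unit ⊕ (Fin d ⊕ Fin d) → F) // Module.finrank F ↥W = m ∧ Cfsg.Geo.IsNondegenerateOn (QuadraticMap.polar (Cfsg.quadFormOdd d F)) W ∧ Cfsg.Geo.IsPlusTypeOn (Cfsg.quadFormOdd d F) W})
    (i c : ℕ) (hi : i = orderOf (q : ZMod r)) (hc : c = if Even i then i else 2 * i) :
    (∀ x : GL (Unit ⊕ (Fin d ⊕ Fin d)) F, x ∈ Cfsg.Geo.omegaGL (Cfsg.quadFormOdd d F) → orderOf x = r →
      ∃ W : Submodule F (Unit ⊕ (Fin d ⊕ Fin d) → F), (Module.finrank F ↥W = m ∧ Cfsg.Geo.IsNondegenerateOn (QuadraticMap.polar (Cfsg.quadFormOdd d F)) W ∧ Cfsg.Geo.IsPlusTypeOn (Cfsg.quadFormOdd d F) W) ∧ W.map (Matrix.toLin' (x : Matrix (Unit ⊕ (Fin d ⊕ Fin d)) (Unit ⊕ (Fin d ⊕ Fin d)) F)) ≤ W) ↔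
    (r = 2 ∨
     (2 < r ∧ Odd i ∧ c ≤ m ∧ (m % c = 0 ∨ (0 < m % c ∧ m % c < (2 * d + 1) % c))) ∨
     (2 < r ∧ Even i ∧ i ≤ m ∧ m % c < (2 * d + 1) % c ∧ (0 < m % c ∨ Even (m / i)))) := by
  have hset : ∀ W : Submodule F (Unit ⊕ (Fin d ⊕ Fin d) → F),
      CfsgLib.OrthOddSub.SubOK (CfsgLib.Forms.quadOdd F d) m True W ↔
        (Module.finrank F ↥W = m ∧ Cfsg.Geo.IsNondegenerateOn (QuadraticMap.polar (Cfsg.quadFormOdd d F)) W ∧ Cfsg.Geo.IsPlusTypeOn (Cfsg.quadFormOdd d F) W) := fun W => by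
    simp only [CfsgLib.OrthOddSub.SubOK, CfsgLib.Forms.coe_quadOdd, iff_true]
  obtain ⟨hcrit, hfacts⟩ := CfsgLib.OrthOddSub.crit hq hqodd d m hd hm hme hmn hrp True
    (by rw [Nat.card_congr (Equiv.subtypeEquivRight hset)]; exact hrΩ) i c hi hc
  simp only [hset, CfsgLib.Forms.coe_quadOdd] at hcrit
  rw [hcrit]
  simp only [true_iff]
  refine or_congr_right ⟨fun ⟨hr, h⟩ => ?_, fun h => ?_⟩
  · obtain ⟨hcpos, hk, hev, hodd⟩ := hfacts hr
    have hcm : c ≤ m := by
      by_contra hlt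
      rw [Nat.mod_eq_of_lt (by omega)] at h
      omega
    rcases Nat.even_or_odd i with he | ho
    · rw [if_pos he] at hc
      refine Or.inr ⟨hr, he, by omega, ?_, ?_⟩
      · rcases h with h | h <;> omega
      · rcases h with h | ⟨-, h⟩
        · exact Or.inl h.1
        · exact Or.inr (h.resolve_left (Nat.not_odd_iff_even.mpr he))
    · exact Or.inl ⟨hr, ho, hcm, h.symm.imp And.left id⟩
  · rcases h with ⟨hr, ho, -, h⟩ | ⟨hr, he, -, hlt, h⟩
    · exact ⟨hr, h.symm.imp id fun h => ⟨h, Or.inl ho⟩⟩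
    · refine ⟨hr, ?_⟩
      rcases Nat.eq_zero_or_pos (m % c) with h0 | h0
      · exact Or.inr ⟨h0, Or.inr (h.resolve_left (by omega))⟩
      · exact Or.inl ⟨h0, hlt⟩

end Cfsg.Agent.S5992
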