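import Cfsg.Statements.S5993
import Cfsg.Agent.SubElusive.OrthOdd
import Cfsg.Agent.OrthUnip.Main

set_option autoImplicit false
open scoped MatrixGroups
open Cfsg

namespace Cfsg.Agent.S5993

/-- Elements of prime order of Ω_n(q), nq odd, with no fixed elliptic `m`-space. Here `T = Ω_n(F)`, `n = 2d+1 ≥ 7`, `q` odd, realised as the commutator subgroup of the isometry group of `Q = x₀² + Σ xᵢyᵢ` over the field `F` with `q` elements (trivial centre, so its elements of prime order `r` are used directly); a nondegenerate `m`-space (even `m`) is a subspace on which the polar form of `Q` is nondegenerate; it is hyperbolic if it contains an `m/2`-dimensional subspace on which `Q` vanishes, elliptic otherwise. Let `m` be even with `2 ≤ m ≤ n − 1` (no restriction `m < n/2`) and let `r` be a prime dividing the number of elliptic `m`-spaces; for `r ≠ p` let `i` be the multiplicative order of `q` modulo `r`, `c = i` for `i` even and `c = 2i` for `i` odd, and write `k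 = n mod c`, `ℓ' = m mod c`. Then every element of `T` of order `r` fixes some elliptic `m`-space if and only if `r = 2`, or `r ≠ p` is odd and one of: (i) `i` odd, `c ≤ m` and `k > ℓ' > 0`; (ii) `i` even, `i ≤ m`, `k > ℓ'`, and `m/i` odd whenever `ℓ' = 0`. (For `r = p` there is always an element of order `p` fixing no elliptic `m`-space.) -/
theorem result {F : Type*} [Field F] [Fintype F] {p : ℕ} [Fact p.Prime] [CharP F p] {q : ℕ} (hq : Fintype.card F = q) (hqodd : Odd q)
    (d m : ℕ) (hd : 3 ≤ d) (hm : 2 ≤ m) (hme : Even m) (hmn : m ≤ 2 * d)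
    (r : ℕ) [Fact r.Prime]
    (hrΩ : r ∣ Nat.card {W : Submodule F (Unit ⊕ (Fin d ⊕ Fin d) → F) // Module.finrank F ↥W = m ∧ Cfsg.Geo.IsNondegenerateOn (QuadraticMap.polar (Cfsg.quadFormOdd d F)) W ∧ ¬ Cfsg.Geo.IsPlusTypeOn (Cfsg.quadFormOdd d F) W})
    (i c : ℕ) (hi : i = orderOf (q : ZMod r)) (hc : c = if Even i then i else 2 * i) :
    (∀ x : GL (Unit ⊕ (Fin d ⊕ Fin d)) F, x ∈ Cfsg.Geo.omegaGL (Cfsg.quadFormOdd d F) → orderOf x = r →
      ∃ W : Submodule F (Unit ⊕ (Fin d ⊕ Fin d) → F), (Module.finrank F ↥W = m ∧ Cfsg.Geo.IsNondegenerateOn (QuadraticMap.polar (Cfsg.quadFormOdd d F)) W ∧ ¬ Cfsg.Geo.IsPlusTypeOn (Cfsg.quadFormOdd d F) W) ∧ W.map (Matrix.toLin' (x : Matrix (Unit ⊕ (Fin d ⊕ Fin d)) (Unit ⊕ (Fin d ⊕ Fin d)) F)) ≤ W) ↔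
    (r = 2 ∨
     (r ≠ p ∧ 2 < r ∧ Odd i ∧ c ≤ m ∧ 0 < m % c ∧ m % c < (2 * d + 1) % c) ∨
     (r ≠ p ∧ 2 < r ∧ Even i ∧ i ≤ m ∧ m % c < (2 * d + 1) % c ∧ (0 < m % c ∨ Odd (m / i)))) := by
  have hset : ∀ W : Submodule F (Unit ⊕ (Fin d ⊕ Fin d) → F),
      CfsgLib.OrthOddSub.SubOK (CfsgLib.Forms.quadOdd F d) m False W ↔
        (Module.finrank F ↥W = m ∧ Cfsg.Geo.IsNondegenerateOn (QuadraticMap.polar (Cfsg.quadFormOdd d F)) W ∧ ¬ Cfsg.Geo.IsPlusTypeOn (Cfsg.quadFormOdd d F) W) := fun W => by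
    simp only [CfsgLib.OrthOddSub.SubOK, CfsgLib.Forms.coe_quadOdd, iff_false]
  have h2 := CfsgLib.OrthOddSub.two_ne_zero_of_odd (F := F) (hq ▸ hqodd)
  have hp2 : p ≠ 2 := fun h => h2 (by
    have := CharP.cast_eq_zero F p
    rw [h] at this
    exact_mod_cast this)
  by_cases hrp : r = p
  · refine iff_of_false (fun hall => ?_) (by rintro (h | h | h); exacts [hp2 (hrp ▸ h), h.1 hrp, h.1 hrp])
    have hp3 : 3 ≤ p := by have := (Fact.out : p.Prime).two_le; omega
    obtain ⟨o, k, ho, hok, hke⟩ : ∃ o k : ℕ, (o = 1 ∨ o = 3) ∧ o + 2 * k = 2 * d + 1 ∧ Even k := by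
      rcases Nat.even_or_odd d with h | ⟨t, rfl⟩
      · exact ⟨1, d, Or.inl rfl, by omega, h⟩
      · exact ⟨3, 2 * t, Or.inr rfl, by omega, even_two_mul t⟩
    obtain ⟨ν, hle, hνs, hνe, hU⟩ := CfsgLib.OrthUnip.key hp2 (CfsgLib.Forms.quadOdd F d)
      (CfsgLib.Forms.nondegenerate_quadOdd d h2) (by simp; omega) (m := m) (by omega) (by simp; omega)
      (fun W => ¬ Cfsg.Geo.IsPlusTypeOn (Cfsg.quadFormOdd d F) W)
      (fun x hx hxp hx1 => by
        rw [CfsgLib.Forms.coe_quadOdd] at hx ⊢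
        exact hall x hx ((orderOf_eq_prime hxp hx1).trans hrp.symm))
      (o ::ₘ Multiset.replicate k 2)
      (fun a ha => by
        rcases Multiset.mem_cons.1 ha with rfl | ha
        · omega
        · rw [Multiset.eq_of_mem_replicate ha]; omega)
      (fun a ha => by
        rw [Multiset.count_cons_of_ne (by rintro rfl; obtain ⟨t, ht⟩ := ha; omega), Multiset.count_replicate]
        split_ifs
        · exact hke
        · exact Even.zero)
      ⟨o, Multiset.mem_cons_self _ _, by rcases ho with rfl | rfl <;> decide⟩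
      (by rw [Multiset.sum_cons, Multiset.sum_replicate, smul_eq_mul]; simp; omega)
    have hno : o ∉ ν := fun ho' => by
      obtain ⟨ν₁, rfl⟩ := Multiset.exists_cons_of_mem ho'
      obtain ⟨j, -, rfl⟩ := Multiset.le_replicate_iff.1 ((Multiset.cons_le_cons_iff _).1 hle)
      rw [Multiset.sum_cons, Multiset.sum_replicate, smul_eq_mul] at hνs
      obtain ⟨t, ht⟩ := hme
      omega
    obtain ⟨W, hWP, hplus⟩ := hU fun a ha => by
      rcases Multiset.mem_cons.1 (Multiset.mem_of_le hle ha) with rfl | h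
      · exact absurd ha hno
      · exact Multiset.eq_of_mem_replicate h
    rw [CfsgLib.Forms.coe_quadOdd] at hplus
    exact hWP hplus
  obtain ⟨hcrit, hfacts⟩ := CfsgLib.OrthOddSub.crit hq hqodd d m hd hm hme hmn hrp False
    (by rw [Nat.card_congr (Equiv.subtypeEquivRight hset)]; exact hrΩ) i c hi hc
  simp only [hset, CfsgLib.Forms.coe_quadOdd] at hcrit
  rw [hcrit]
  simp only [false_iff, not_or, Nat.not_even_iff_odd, Nat.not_odd_iff_even, ne_eq, hrp, not_false_eq_true, true_and]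
  refine or_congr_right ⟨fun ⟨hr, h⟩ => ?_, fun h => ?_⟩
  · obtain ⟨hcpos, hk, hev, hodd⟩ := hfacts hr
    have hcm : c ≤ m := by
      by_contra hlt
      rw [Nat.mod_eq_of_lt (by omega)] at h
      omega
    rcases Nat.even_or_odd i with he | ho
    · rw [if_pos he] at hc
      refine Or.inr ⟨hr, he, by omega, ?_, ?_⟩
      · rcases h with h | h <;> omega
      · exact h.imp And.left fun h => h.2.2
    · refine Or.inl ⟨hr, ho, hcm, ?_⟩
      rcases h with h | ⟨-, h, -⟩
      · exact h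
      · exact absurd h (Nat.not_even_iff_odd.mpr ho)
  · rcases h with ⟨hr, ho, -, h⟩ | ⟨hr, he, -, hlt, h⟩
    · exact ⟨hr, Or.inl h⟩
    · refine ⟨hr, ?_⟩
      rcases Nat.eq_zero_or_pos (m % c) with h0 | h0
      · exact Or.inr ⟨h0, he, h.resolve_left (by omega)⟩
      · exact Or.inl ⟨h0, hlt⟩

end Cfsg.Agent.S5993
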