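import Cfsg.Statements.S5994
import Cfsg.Agent.OrthUnip.Main

set_option autoImplicit false
open scoped MatrixGroups
open Cfsg

namespace Cfsg.Agent.S5994

/-- A necessary condition for every element of order p of PΩ⁻_n(q), q odd, to fix an elliptic `m`-space. Here `T = PΩ⁻_n(F)`, `n = 2d ≥ 8`, realised through `Ω⁻_n(q)`, the commutator subgroup of the isometry group of `Q = Σ_{i<d−1} xᵢyᵢ + z₁² + a z₁z₂ + b z₂²` with `z₁² + a z₁z₂ + b z₂²` anisotropic, over the field `F` with `q` elements; an element of `T` of prime order `r` is an element `x` of `Ω⁻_n(q)` with `x^r` scalar and `x` not scalar; `q` is odd; a nondegenerate `m`-space (even `m`) is a subspace on which the polar form of `Q` is nondegenerate; it is hyperbolic if it contains an `m/2`-dimensional subspace on which `Q` vanishes, elliptic otherwise. Let `m` be even with `2 ≤ m ≤ n − 2` and suppose `p` divides the number of elliptic `m`-spaces. If every element of `T` of order `p` fixes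 some elliptic `m`-space, then `n ≡ m (mod 4)` and every partition of `n` into parts of size at most `p` in which every even part has even multiplicity contains (as a sub-multiset) a partition of `m` in which every even part has even multiplicity. -/
theorem result {F : Type*} [Field F] [Fintype F] {p : ℕ} [Fact p.Prime] [CharP F p] {q : ℕ} (hq : Fintype.card F = q) (hqodd : Odd q)
    (d m : ℕ) (hd : 4 ≤ d) (hm : 2 ≤ m) (hme : Even m) (hmn : m + 2 ≤ 2 * d) (a b : F) (hab : ∀ x y : F, x ^ 2 + a * x * y + b * y ^ 2 = 0 → x = 0 ∧ y = 0)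
    (hpΩ : p ∣ Nat.card {W : Submodule F ((Fin (d - 1) ⊕ Fin (d - 1)) ⊕ Fin 2 → F) // Module.finrank F ↥W = m ∧ Cfsg.Geo.IsNondegenerateOn (QuadraticMap.polar (Cfsg.quadFormMinus (d - 1) F a b)) W ∧ ¬ Cfsg.Geo.IsPlusTypeOn (Cfsg.quadFormMinus (d - 1) F a b) W}) :
    (∀ x : GL ((Fin (d - 1) ⊕ Fin (d - 1)) ⊕ Fin 2) F, x ∈ Cfsg.Geo.omegaGL (Cfsg.quadFormMinus (d - 1) F a b) →
      (∃ z : F, ((x ^ p : GL ((Fin (d - 1) ⊕ Fin (d - 1)) ⊕ Fin 2) F) : Matrix ((Fin (d - 1) ⊕ Fin (d - 1)) ⊕ Fin 2) ((Fin (d - 1) ⊕ Fin (d - 1)) ⊕ Fin 2) F) = z • (1 : Matrix ((Fin (d - 1) ⊕ Fin (d - 1)) ⊕ Fin 2) ((Fin (d - 1) ⊕ Fin (d - 1)) ⊕ Fin 2) F)) →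
      (∀ z : F, (x : Matrix ((Fin (d - 1) ⊕ Fin (d - 1)) ⊕ Fin 2) ((Fin (d - 1) ⊕ Fin (d - 1)) ⊕ Fin 2) F) ≠ z • (1 : Matrix ((Fin (d - 1) ⊕ Fin (d - 1)) ⊕ Fin 2) ((Fin (d - 1) ⊕ Fin (d - 1)) ⊕ Fin 2) F)) →
      ∃ W : Submodule F ((Fin (d - 1) ⊕ Fin (d - 1)) ⊕ Fin 2 → F), (Module.finrank F ↥W = m ∧ Cfsg.Geo.IsNondegenerateOn (QuadraticMap.polar (Cfsg.quadFormMinus (d - 1) F a b)) W ∧ ¬ Cfsg.Geo.IsPlusTypeOn (Cfsg.quadFormMinus (d - 1) F a b) W) ∧ W.map (Matrix.toLin' (x : Matrix ((Fin (d - 1) ⊕ Fin (d - 1)) ⊕ Fin 2) ((Fin (d - 1) ⊕ Fin (d - 1)) ⊕ Fin 2) F)) ≤ W) →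
    ((2 * d) % 4 = m % 4 ∧ (∀ μ : Multiset ℕ, (∀ e ∈ μ, 0 < e ∧ e ≤ p) → (∀ e : ℕ, Even e → Even (μ.count e)) → μ.sum = 2 * d →
        ∃ ν : Multiset ℕ, ν ≤ μ ∧ ν.sum = m ∧ ∀ e : ℕ, Even e → Even (ν.count e))) := by
  intro hall
  have hp2 : p ≠ 2 := by
    rintro rfl
    obtain ⟨k, hk, hk2⟩ := FiniteField.card F 2
    rw [← hq, hk2] at hqodd
    exact Nat.not_odd_iff_even.2 (even_two.pow_of_ne_zero k.ne_zero) hqodd
  have hp3 : 3 ≤ p := by have := (Fact.out : p.Prime).two_le; omega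
  have hcard : Fintype.card ((Fin (d - 1) ⊕ Fin (d - 1)) ⊕ Fin 2) = 2 * d := by simp; omega
  haveI : Nonempty ((Fin (d - 1) ⊕ Fin (d - 1)) ⊕ Fin 2) := Fintype.card_pos_iff.1 (by omega)
  have hkey := fun μ hμ hev hodd (hsum : Multiset.sum μ = 2 * d) =>
    CfsgLib.OrthUnip.key hp2 (CfsgLib.Forms.quadMinus F (d - 1) a b)
      (CfsgLib.Forms.nondegenerate_quadMinus (d - 1) hab) (by omega) (m := m) (by omega) (by omega)
      (fun W => ¬ Cfsg.Geo.IsPlusTypeOn (Cfsg.quadFormMinus (d - 1) F a b) W)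
      (fun x hx hxp hx1 => by
        rw [CfsgLib.Forms.coe_quadMinus] at hx ⊢
        exact hall x hx ⟨1, by rw [hxp, Units.val_one, one_smul]⟩ (CfsgLib.OrthUnip.not_scalar hxp hx1))
      μ hμ hev hodd (hsum.trans hcard.symm)
  have main : ∀ μ : Multiset ℕ, (∀ e ∈ μ, 0 < e ∧ e ≤ p) → (∀ e : ℕ, Even e → Even (μ.count e)) →
      μ.sum = 2 * d → ∃ ν : Multiset ℕ, ν ≤ μ ∧ ν.sum = m ∧ ∀ e : ℕ, Even e → Even (ν.count e) := by
    intro μ hμ hev hsum
    refine CfsgLib.OrthUnip.of_odd ((Fact.out : p.Prime).odd_of_ne_two hp2) (by omega) hme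
      (fun μ hμ hev hodd hsum => ?_) μ hμ hev hsum
    obtain ⟨ν, h1, hs, h3, -⟩ := hkey μ hμ hev hodd hsum
    exact ⟨ν, h1, hs, h3⟩
  refine ⟨?_, main⟩
  obtain ⟨t, ht⟩ := hme
  rcases Nat.even_or_odd d with hd2 | ⟨s, rfl⟩
  · obtain ⟨s, rfl⟩ := hd2
    obtain ⟨ν, hle, hνs, hνe⟩ := main (3 ::ₘ 1 ::ₘ Multiset.replicate (2 * (s - 1)) 2)
      (fun a ha => by
        simp only [Multiset.mem_cons, Multiset.mem_replicate] at ha
        omega)
      (fun a ha => by
        obtain ⟨u, rfl⟩ := ha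
        simp only [Multiset.count_cons, Multiset.count_replicate]
        rw [if_neg (by omega : ¬ u + u = 1), if_neg (by omega : ¬ u + u = 3)]
        split_ifs <;> simp [parity_simps])
      (by simp only [Multiset.sum_cons, Multiset.sum_replicate, smul_eq_mul]; omega)
    have hsum := CfsgLib.OrthUnip.sum_small ν fun a ha => by
      have := Multiset.mem_of_le hle ha
      simp only [Multiset.mem_cons, Multiset.mem_replicate] at this
      omega
    have c1 := Multiset.count_le_of_le 1 hle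
    have c3 := Multiset.count_le_of_le 3 hle
    obtain ⟨u, hu⟩ := hνe 2 even_two
    simp [Multiset.count_replicate] at c1 c3
    rcases (show ν.count 1 = 0 ∨ ν.count 1 = 1 by omega) with e1 | e1 <;>
      rcases (show ν.count 3 = 0 ∨ ν.count 3 = 1 by omega) with e3 | e3 <;> omega
  · obtain ⟨ν, hle, hνs, hνe, hU⟩ := hkey (1 ::ₘ 1 ::ₘ Multiset.replicate (2 * s) 2)
      (fun a ha => by
        simp only [Multiset.mem_cons, Multiset.mem_replicate] at ha
        omega)
      (fun a ha => by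
        obtain ⟨u, rfl⟩ := ha
        simp only [Multiset.count_cons, Multiset.count_replicate]
        rw [if_neg (by omega : ¬ u + u = 1)]
        split_ifs <;> simp [parity_simps])
      ⟨1, Multiset.mem_cons_self _ _, odd_one⟩
      (by simp only [Multiset.sum_cons, Multiset.sum_replicate, smul_eq_mul]; omega)
    have hmem : ∀ a ∈ ν, a = 1 ∨ a = 2 := fun a ha => by
      have := Multiset.mem_of_le hle ha
      simp only [Multiset.mem_cons, Multiset.mem_replicate] at this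
      omega
    have hsum := CfsgLib.OrthUnip.sum_small ν fun a ha => by have := hmem a ha; omega
    have c1 := Multiset.count_le_of_le 1 hle
    have c3 := Multiset.count_le_of_le 3 hle
    obtain ⟨u, hu⟩ := hνe 2 even_two
    simp [Multiset.count_replicate] at c1
    have e3 : ν.count 3 = 0 := Multiset.count_eq_zero.2 fun h => by
      have := hmem 3 h
      omega
    rcases Nat.eq_zero_or_pos (ν.count 1) with h1 | h1
    · exfalso
      obtain ⟨W, hW, hWp⟩ := hU fun a ha => (hmem a ha).resolve_left fun h => by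
        subst h
        exact absurd ha (Multiset.count_eq_zero.1 h1)
      rw [CfsgLib.Forms.coe_quadMinus] at hWp
      exact hW hWp
    · rcases (show ν.count 1 = 1 ∨ ν.count 1 = 2 by omega) with e1 | e1 <;> omega

end Cfsg.Agent.S5994
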