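import Cfsg.Statements.S5995
import Cfsg.Agent.OrthUnip.Main

set_option autoImplicit false
open scoped MatrixGroups
open Cfsg

namespace Cfsg.Agent.S5995

/-- A necessary condition for every element of order p of Ω_n(q), nq odd, to fix a hyperbolic `m`-space. Here `T = Ω_n(F)`, `n = 2d+1 ≥ 7`, `q` odd, realised as the commutator subgroup of the isometry group of `Q = x₀² + Σ xᵢyᵢ` over the field `F` with `q` elements (trivial centre, so its elements of prime order `r` are used directly); a nondegenerate `m`-space (even `m`) is a subspace on which the polar form of `Q` is nondegenerate; it is hyperbolic if it contains an `m/2`-dimensional subspace on which `Q` vanishes, elliptic otherwise. Let `m` be even with `2 ≤ m ≤ n − 1` and suppose `p` divides the number of hyperbolic `m`-spaces. If every element of `T` of order `p` fixes some hyperbolic `m`-space, then `m ≡ 0 (mod 4)` and every partition of `n` into parts of size at most `p` in which every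 even part has even multiplicity contains (as a sub-multiset) a partition of `m` in which every even part has even multiplicity. -/
theorem result {F : Type*} [Field F] [Fintype F] {p : ℕ} [Fact p.Prime] [CharP F p] {q : ℕ} (hq : Fintype.card F = q) (hqodd : Odd q)
    (d m : ℕ) (hd : 3 ≤ d) (hm : 2 ≤ m) (hme : Even m) (hmn : m ≤ 2 * d)
    (hpΩ : p ∣ Nat.card {W : Submodule F (Unit ⊕ (Fin d ⊕ Fin d) → F) // Module.finrank F ↥W = m ∧ Cfsg.Geo.IsNondegenerateOn (QuadraticMap.polar (Cfsg.quadFormOdd d F)) W ∧ Cfsg.Geo.IsPlusTypeOn (Cfsg.quadFormOdd d F) W}) :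
    (∀ x : GL (Unit ⊕ (Fin d ⊕ Fin d)) F, x ∈ Cfsg.Geo.omegaGL (Cfsg.quadFormOdd d F) → orderOf x = p →
      ∃ W : Submodule F (Unit ⊕ (Fin d ⊕ Fin d) → F), (Module.finrank F ↥W = m ∧ Cfsg.Geo.IsNondegenerateOn (QuadraticMap.polar (Cfsg.quadFormOdd d F)) W ∧ Cfsg.Geo.IsPlusTypeOn (Cfsg.quadFormOdd d F) W) ∧ W.map (Matrix.toLin' (x : Matrix (Unit ⊕ (Fin d ⊕ Fin d)) (Unit ⊕ (Fin d ⊕ Fin d)) F)) ≤ W) →
    (m % 4 = 0 ∧ (∀ μ : Multiset ℕ, (∀ e ∈ μ, 0 < e ∧ e ≤ p) → (∀ e : ℕ, Even e → Even (μ.count e)) → μ.sum = 2 * d + 1 →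
        ∃ ν : Multiset ℕ, ν ≤ μ ∧ ν.sum = m ∧ ∀ e : ℕ, Even e → Even (ν.count e))) := by
  intro hall
  have hp2 : p ≠ 2 := by
    rintro rfl
    obtain ⟨k, hk, hk2⟩ := FiniteField.card F 2
    rw [← hq, hk2] at hqodd
    exact Nat.not_odd_iff_even.2 (even_two.pow_of_ne_zero k.ne_zero) hqodd
  have hp3 : 3 ≤ p := by have := (Fact.out : p.Prime).two_le; omega
  have h2 : (2 : F) ≠ 0 := fun h => hp2 ((Nat.prime_dvd_prime_iff_eq Fact.out Nat.prime_two).1
    ((CharP.cast_eq_zero_iff F p 2).1 (by exact_mod_cast h)))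
  have hcard : Fintype.card (Unit ⊕ (Fin d ⊕ Fin d)) = 2 * d + 1 := by simp; omega
  have main : ∀ μ : Multiset ℕ, (∀ e ∈ μ, 0 < e ∧ e ≤ p) → (∀ e : ℕ, Even e → Even (μ.count e)) →
      μ.sum = 2 * d + 1 → ∃ ν : Multiset ℕ, ν ≤ μ ∧ ν.sum = m ∧ ∀ e : ℕ, Even e → Even (ν.count e) := by
    intro μ hμ hev hsum
    refine CfsgLib.OrthUnip.of_odd ((Fact.out : p.Prime).odd_of_ne_two hp2) (by omega) hme
      (fun μ hμ hev hodd hsum => ?_) μ hμ hev hsum
    obtain ⟨ν, h1, hs, h3, -⟩ := CfsgLib.OrthUnip.key hp2 (CfsgLib.Forms.quadOdd F d)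
      (CfsgLib.Forms.nondegenerate_quadOdd d h2) (by omega) (m := m) (by omega) (by omega)
      (fun W => Cfsg.Geo.IsPlusTypeOn (Cfsg.quadFormOdd d F) W)
      (fun x hx hxp hx1 => by
        rw [CfsgLib.Forms.coe_quadOdd] at hx ⊢
        exact hall x hx (orderOf_eq_prime hxp hx1))
      μ hμ hev hodd (by omega)
    exact ⟨ν, h1, hs, h3⟩
  refine ⟨?_, main⟩
  obtain ⟨o, k, ho, hok, hke⟩ : ∃ o k : ℕ, (o = 1 ∨ o = 3) ∧ o + 2 * k = 2 * d + 1 ∧ Even k := by
    rcases Nat.even_or_odd d with h | ⟨t, rfl⟩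
    · exact ⟨1, d, Or.inl rfl, by omega, h⟩
    · exact ⟨3, 2 * t, Or.inr rfl, by omega, even_two_mul t⟩
  obtain ⟨ν, hle, hνs, hνe⟩ := main (o ::ₘ Multiset.replicate k 2)
    (fun a ha => by
      rcases Multiset.mem_cons.1 ha with rfl | ha
      · omega
      · rw [Multiset.eq_of_mem_replicate ha]; omega)
    (fun a ha => by
      rw [Multiset.count_cons_of_ne (by rintro rfl; obtain ⟨t, ht⟩ := ha; omega), Multiset.count_replicate]
      split_ifs
      · exact hke
      · exact Even.zero)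
    (by rw [Multiset.sum_cons, Multiset.sum_replicate, smul_eq_mul]; omega)
  by_cases ho' : o ∈ ν
  · obtain ⟨ν₁, rfl⟩ := Multiset.exists_cons_of_mem ho'
    obtain ⟨j, -, rfl⟩ := Multiset.le_replicate_iff.1 ((Multiset.cons_le_cons_iff _).1 hle)
    rw [Multiset.sum_cons, Multiset.sum_replicate, smul_eq_mul] at hνs
    obtain ⟨t, ht⟩ := hme
    omega
  · obtain ⟨j, -, rfl⟩ := Multiset.le_replicate_iff.1 ((Multiset.le_cons_of_notMem ho').1 hle)
    rw [Multiset.sum_replicate, smul_eq_mul] at hνs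
    obtain ⟨t, ht⟩ := hνe 2 even_two
    rw [Multiset.count_replicate_self] at ht
    omega

end Cfsg.Agent.S5995
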