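import Cfsg.Statements.S5996
import Cfsg.Agent.OrthUnip.Main

set_option autoImplicit false
open scoped MatrixGroups
open Cfsg

namespace Cfsg.Agent.S5996

/-- A necessary condition for every element of order p of PΩ⁺_n(q), q odd, to fix a hyperbolic `m`-space. Here `T = PΩ⁺_n(F)`, `n = 2d ≥ 8`, realised through `Ω⁺_n(q)`, the commutator subgroup of the isometry group of `Q = Σ xᵢyᵢ` over the field `F` with `q` elements; an element of `T` of prime order `r` is an element `x` of `Ω⁺_n(q)` with `x^r` scalar and `x` not scalar; `q` is odd; a nondegenerate `m`-space (even `m`) is a subspace on which the polar form of `Q` is nondegenerate; it is hyperbolic if it contains an `m/2`-dimensional subspace on which `Q` vanishes, elliptic otherwise. Let `m` be even with `2 ≤ m < n/2` and suppose `p` divides the number of hyperbolic `m`-spaces. If every element of `T` of order `p` fixes some hyperbolic `m`-space, then every partition of `n` into parts of size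 at most `p` in which every even part has even multiplicity contains (as a sub-multiset) a partition of `m` in which every even part has even multiplicity. -/
theorem result {F : Type*} [Field F] [Fintype F] {p : ℕ} [Fact p.Prime] [CharP F p] {q : ℕ} (hq : Fintype.card F = q) (hqodd : Odd q)
    (d m : ℕ) (hd : 4 ≤ d) (hm : 2 ≤ m) (hme : Even m) (hmd : m < d)
    (hpΩ : p ∣ Nat.card {W : Submodule F (Fin d ⊕ Fin d → F) // Module.finrank F ↥W = m ∧ Cfsg.Geo.IsNondegenerateOn (QuadraticMap.polar (Cfsg.quadFormPlus d F)) W ∧ Cfsg.Geo.IsPlusTypeOn (Cfsg.quadFormPlus d F) W}) :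
    (∀ x : GL (Fin d ⊕ Fin d) F, x ∈ Cfsg.Geo.omegaGL (Cfsg.quadFormPlus d F) →
      (∃ z : F, ((x ^ p : GL (Fin d ⊕ Fin d) F) : Matrix (Fin d ⊕ Fin d) (Fin d ⊕ Fin d) F) = z • (1 : Matrix (Fin d ⊕ Fin d) (Fin d ⊕ Fin d) F)) →
      (∀ z : F, (x : Matrix (Fin d ⊕ Fin d) (Fin d ⊕ Fin d) F) ≠ z • (1 : Matrix (Fin d ⊕ Fin d) (Fin d ⊕ Fin d) F)) →
      ∃ W : Submodule F (Fin d ⊕ Fin d → F), (Module.finrank F ↥W = m ∧ Cfsg.Geo.IsNondegenerateOn (QuadraticMap.polar (Cfsg.quadFormPlus d F)) W ∧ Cfsg.Geo.IsPlusTypeOn (Cfsg.quadFormPlus d F) W) ∧ W.map (Matrix.toLin' (x : Matrix (Fin d ⊕ Fin d) (Fin d ⊕ Fin d) F)) ≤ W) →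
    (∀ μ : Multiset ℕ, (∀ e ∈ μ, 0 < e ∧ e ≤ p) → (∀ e : ℕ, Even e → Even (μ.count e)) → μ.sum = 2 * d →
        ∃ ν : Multiset ℕ, ν ≤ μ ∧ ν.sum = m ∧ ∀ e : ℕ, Even e → Even (ν.count e)) := by
  intro hall
  have hp2 : p ≠ 2 := by
    rintro rfl
    obtain ⟨k, hk, hk2⟩ := FiniteField.card F 2
    rw [← hq, hk2] at hqodd
    exact Nat.not_odd_iff_even.2 (even_two.pow_of_ne_zero k.ne_zero) hqodd
  have hcard : Fintype.card (Fin d ⊕ Fin d) = 2 * d := by simp [two_mul]
  haveI : Nonempty (Fin d ⊕ Fin d) := Fintype.card_pos_iff.1 (by omega)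
  intro μ hμ hev hsum
  refine CfsgLib.OrthUnip.of_odd ((Fact.out : p.Prime).odd_of_ne_two hp2) (by omega) hme
    (fun μ hμ hev hodd hsum => ?_) μ hμ hev hsum
  obtain ⟨ν, h1, h2, h3, -⟩ := CfsgLib.OrthUnip.key hp2 (CfsgLib.Forms.quadPlus F d)
    (CfsgLib.Forms.nondegenerate_quadPlus d) (by omega) (m := m) (by omega) (by omega)
    (fun W => Cfsg.Geo.IsPlusTypeOn (Cfsg.quadFormPlus d F) W)
    (fun x hx hxp hx1 => by
      rw [CfsgLib.Forms.coe_quadPlus] at hx ⊢
      exact hall x hx ⟨1, by rw [hxp, Units.val_one, one_smul]⟩ (CfsgLib.OrthUnip.not_scalar hxp hx1))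
    μ hμ hev hodd (by omega)
  exact ⟨ν, h1, h2, h3⟩

end Cfsg.Agent.S5996
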