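import Cfsg.Statements.S5997
import Cfsg.Agent.SL2.Classes
import Cfsg.Agent.S3742

set_option autoImplicit false
open scoped MatrixGroups
open Cfsg

namespace Cfsg.Agent.S5997

variable {F : Type*} [Field F]

theorem sq_two (M : Matrix (Fin 2) (Fin 2) F) :
    M * M = M.trace • M - M.det • (1 : Matrix (Fin 2) (Fin 2) F) := by
  ext a b
  fin_cases a <;> fin_cases b <;>
    simp [Matrix.mul_apply, Fin.sum_univ_two, Matrix.trace_fin_two, Matrix.det_fin_two] <;> ring

theorem anticomm (M N : Matrix (Fin 2) (Fin 2) F) (hM : M.trace = 0) (hN : N.trace = 0) :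
    M * N + N * M = (M * N).trace • (1 : Matrix (Fin 2) (Fin 2) F) := by
  rw [Matrix.trace_fin_two] at hM hN
  have h1 : M 1 1 = - M 0 0 := by linear_combination hM
  have h2 : N 1 1 = - N 0 0 := by linear_combination hN
  ext a b
  fin_cases a <;> fin_cases b <;>
    simp [Matrix.mul_apply, Fin.sum_univ_two, Matrix.trace_fin_two, h1, h2] <;> ring

/-- A square root of `-1` anticommuting with an invertible matrix. -/
theorem trace_det_of_anti (h2 : (2 : F) ≠ 0) {I J : Matrix (Fin 2) (Fin 2) F}
    (hI : I * I = -1) (hJ : J * J = -1) (hIJ : J * I = -(I * J)) : I.trace = 0 ∧ I.det = 1 := by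
  have h := sq_two I
  rw [hI] at h
  have ht : I.trace = 0 := by
    by_contra ht
    have hI' : I = (I.trace⁻¹ * (I.det - 1)) • (1 : Matrix (Fin 2) (Fin 2) F) := by
      have : I.trace • I = (I.det - 1) • (1 : Matrix (Fin 2) (Fin 2) F) := by
        rw [sub_smul, one_smul, sub_eq_add_neg, h]; abel
      rw [mul_smul, ← this, smul_smul, inv_mul_cancel₀ ht, one_smul]
    have hcomm : J * I = I * J := by rw [hI']; simp
    rw [hcomm] at hIJ
    have h0 : (2 : F) • (I * J) = 0 := by rw [two_smul]; nth_rewrite 2 [hIJ]; abel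
    have h1 : I * J = 0 := (smul_eq_zero.1 h0).resolve_left h2
    have : (I * J) * J = 0 := by rw [h1, zero_mul]
    rw [mul_assoc, hJ, mul_neg, mul_one, neg_eq_zero] at this
    rw [this] at hI
    exact one_ne_zero (neg_eq_zero.1 (by simpa using hI.symm) : (1 : Matrix (Fin 2) (Fin 2) F) = 0)
  refine ⟨ht, ?_⟩
  rw [ht, zero_smul, zero_sub] at h
  have := congrFun (congrFun h 0) 0
  simp at this
  exact this.symm

/-- An element commuting with two anticommuting square roots of `-1` is scalar. -/
theorem scalar_of_comm (h2 : (2 : F) ≠ 0) {I J M : Matrix (Fin 2) (Fin 2) F}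
    (hI : I * I = -1) (hJ : J * J = -1) (hIJ : J * I = -(I * J))
    (hMI : M * I = I * M) (hMJ : M * J = J * M) :
    M = (M.trace / 2) • (1 : Matrix (Fin 2) (Fin 2) F) := by
  obtain ⟨htI, -⟩ := trace_det_of_anti h2 hI hJ hIJ
  obtain ⟨htJ, -⟩ := trace_det_of_anti h2 hJ hI (by rw [hIJ]; simp)
  set W := M - (M.trace / 2) • (1 : Matrix (Fin 2) (Fin 2) F) with hW
  have hWt : W.trace = 0 := by
    rw [hW, Matrix.trace_sub, Matrix.trace_smul, Matrix.trace_one]
    simp only [Fintype.card_fin, Nat.cast_ofNat, smul_eq_mul]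
    field_simp; ring
  have hWI : W * I = I * W := by rw [hW]; simp [sub_mul, mul_sub, hMI]
  have hWJ : W * J = J * W := by rw [hW]; simp [sub_mul, mul_sub, hMJ]
  have key : ∀ A : Matrix (Fin 2) (Fin 2) F, A.trace = 0 → A * A = -1 → W * A = A * W →
      ∃ c : F, W = c • A := by
    intro A hA hAA hWA
    have h := anticomm W A hWt hA
    rw [← hWA, ← two_smul F (W * A)] at h
    have h' : W * A = ((W * A).trace / 2) • (1 : Matrix (Fin 2) (Fin 2) F) := by
      rw [div_eq_inv_mul, mul_smul, ← h, smul_smul, inv_mul_cancel₀ h2, one_smul]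
    refine ⟨-((W * A).trace / 2), ?_⟩
    have := congrArg (· * A) h'
    simp only [mul_assoc, hAA, mul_neg, mul_one, Matrix.smul_mul, one_mul] at this
    rw [neg_smul, ← this, neg_neg]
  obtain ⟨c, hc⟩ := key I htI hI hWI
  obtain ⟨d, hd⟩ := key J htJ hJ hWJ
  have hIJ2 : c • (J * I) = c • (I * J) := by
    rw [← Matrix.mul_smul, ← Matrix.smul_mul, ← hc]
    exact hWJ.symm
  rw [hIJ, smul_neg] at hIJ2
  have h0 : (2 : F) • (c • (I * J)) = 0 := by rw [two_smul]; nth_rewrite 2 [← hIJ2]; abel
  have h1 := (smul_eq_zero.1 h0).resolve_left h2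
  have hW0 : W = 0 := by
    have : c • (I * J) * J = 0 := by rw [h1, zero_mul]
    rw [Matrix.smul_mul, mul_assoc, hJ, mul_neg, mul_one, smul_neg, neg_eq_zero, ← hc] at this
    exact this
  rw [hW, sub_eq_zero] at hW0
  exact hW0

theorem quat_gen (q : QuaternionGroup 2) :
    q ∈ Subgroup.closure {QuaternionGroup.a 1, QuaternionGroup.xa 0} := by
  have hpow : ∀ i : ZMod (2 * 2), (QuaternionGroup.a i : QuaternionGroup 2) ∈
      Subgroup.closure {QuaternionGroup.a 1, QuaternionGroup.xa 0} := by
    intro i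
    rw [← ZMod.natCast_zmod_val i, ← QuaternionGroup.a_one_pow]
    exact pow_mem (Subgroup.subset_closure (by simp)) _
  rcases q with i | i
  · exact hpow i
  · have : (QuaternionGroup.xa i : QuaternionGroup 2) =
        QuaternionGroup.xa 0 * QuaternionGroup.a i := by
      rw [QuaternionGroup.xa_mul_a, zero_add]
    rw [this]
    exact mul_mem (Subgroup.subset_closure (by simp)) (hpow i)

theorem quat_basis (h2 : (2 : F) ≠ 0) (R : Subgroup (GL (Fin 2) F))
    (e : ↥R ≃* QuaternionGroup 2) :
    ∃ i j : GL (Fin 2) F, i ∈ R ∧ j ∈ R ∧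
      (i : Matrix (Fin 2) (Fin 2) F) * i = -1 ∧ (j : Matrix (Fin 2) (Fin 2) F) * j = -1 ∧
      (j : Matrix (Fin 2) (Fin 2) F) * i = -((i : Matrix (Fin 2) (Fin 2) F) * j) ∧
      R = Subgroup.closure {i, j} := by
  set i : GL (Fin 2) F := (e.symm (QuaternionGroup.a 1) : GL (Fin 2) F) with hi
  set j : GL (Fin 2) F := (e.symm (QuaternionGroup.xa 0) : GL (Fin 2) F) with hj
  set φ : QuaternionGroup 2 →* GL (Fin 2) F := R.subtype.comp e.symm.toMonoidHom with hφ
  have hinj : Function.Injective φ := fun a b h => e.symm.injective (Subtype.ext h)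
  set z : GL (Fin 2) F := φ (QuaternionGroup.a 2) with hz
  have hzz : z * z = 1 := by rw [hz, ← map_mul, ← map_one φ]; congr 1
  have hii : i * i = z := by
    change φ _ * φ _ = _; rw [← map_mul]; congr 1
  have hjj : j * j = z := by
    change φ _ * φ _ = _; rw [← map_mul]; congr 1
  have hji : j * i = z * (i * j) := by
    change φ _ * φ _ = φ _ * (φ _ * φ _); rw [← map_mul, ← map_mul, ← map_mul]; congr 1
  have hzne : z ≠ 1 := by
    rw [hz, ← map_one φ]; intro h
    exact absurd (hinj h) (by decide)
  -- `z` is `-1`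
  have hzm : (z : Matrix (Fin 2) (Fin 2) F) = -1 := by
    set Z := (z : Matrix (Fin 2) (Fin 2) F) with hZdef
    set I := (i : Matrix (Fin 2) (Fin 2) F) with hIdef
    set J := (j : Matrix (Fin 2) (Fin 2) F) with hJdef
    have eZ : Z * Z = 1 := by
      have := congrArg (fun g : GL (Fin 2) F => (g : Matrix (Fin 2) (Fin 2) F)) hzz
      simpa using this
    have eI : I * I = Z := by
      have := congrArg (fun g : GL (Fin 2) F => (g : Matrix (Fin 2) (Fin 2) F)) hii
      simpa using this
    have eJ : J * J = Z := by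
      have := congrArg (fun g : GL (Fin 2) F => (g : Matrix (Fin 2) (Fin 2) F)) hjj
      simpa using this
    have eJI : J * I = Z * (I * J) := by
      have := congrArg (fun g : GL (Fin 2) F => (g : Matrix (Fin 2) (Fin 2) F)) hji
      simpa using this
    have hZne : Z ≠ 1 := fun h => hzne (Units.ext (h.trans Units.val_one.symm))
    have cI : Z * I = I * Z := by rw [← eI, mul_assoc]
    have cJ : Z * J = J * Z := by rw [← eJ, mul_assoc]
    by_contra hne
    have h := sq_two Z
    rw [eZ] at h
    -- `Z` is not scalar, so `I` and `J` are polynomials in `Z`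
    have hns : Z 0 1 ≠ 0 ∨ Z 1 0 ≠ 0 ∨ Z 0 0 ≠ Z 1 1 := by
      by_contra hc
      push_neg at hc
      obtain ⟨a1, a2, a3⟩ := hc
      have hs : Z = Z 0 0 • (1 : Matrix (Fin 2) (Fin 2) F) := by
        ext a b; fin_cases a <;> fin_cases b <;> simp [a1, a2, a3]
      have hsq : Z 0 0 * Z 0 0 = 1 := by
        have := congrFun (congrFun eZ 0) 0
        simpa [Matrix.mul_apply, Fin.sum_univ_two, a1] using this
      rcases mul_self_eq_one_iff.1 hsq with h' | h'
      · rw [h', one_smul] at hs; exact hZne hs
      · rw [h', neg_one_smul] at hs; exact hne hs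
    have hIJ : J * I = I * J := by
      have e1 : ∀ a b, (Z * I) a b = (I * Z) a b := fun a b => by rw [cI]
      have e2 : ∀ a b, (Z * J) a b = (J * Z) a b := fun a b => by rw [cJ]
      have p00 := e1 0 0; have p01 := e1 0 1; have p10 := e1 1 0
      have q00 := e2 0 0; have q01 := e2 0 1; have q10 := e2 1 0
      simp only [Matrix.mul_apply, Fin.sum_univ_two] at p00 p01 p10 q00 q01 q10
      ext a b
      fin_cases a <;> fin_cases b <;> simp [Matrix.mul_apply, Fin.sum_univ_two] <;>
        rcases hns with hn | hn | hn <;>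
        first
          | (apply mul_left_cancel₀ hn; grind)
          | (apply mul_left_cancel₀ (sub_ne_zero.2 hn); grind)
    rw [hIJ] at eJI
    apply hzne
    have : i * j = z * (i * j) := Units.ext (by simpa using eJI)
    exact mul_eq_right.1 this.symm
  refine ⟨i, j, SetLike.coe_mem _, SetLike.coe_mem _, ?_, ?_, ?_, ?_⟩
  · rw [← Units.val_mul, hii, hzm]
  · rw [← Units.val_mul, hjj, hzm]
  · rw [← Units.val_mul, hji, Units.val_mul, Units.val_mul, hzm, neg_one_mul]
  · apply le_antisymm
    · intro g hg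
      have hmap : φ (e ⟨g, hg⟩) ∈ (Subgroup.closure
          {QuaternionGroup.a 1, QuaternionGroup.xa 0}).map φ :=
        Subgroup.mem_map_of_mem _ (quat_gen _)
      rw [MonoidHom.map_closure, Set.image_pair] at hmap
      simpa [hφ, hi, hj] using hmap
    · rw [Subgroup.closure_le]
      rintro g (rfl | rfl) <;> exact SetLike.coe_mem _

open CfsgLib.SL2 in
/-- Elements of determinant one with equal trace `t`, `t² ≠ 4`, are conjugate. -/
theorem conj_of_trace [Finite F] {x y : GL (Fin 2) F}
    (hx : (x : Matrix (Fin 2) (Fin 2) F).det = 1) (hy : (y : Matrix (Fin 2) (Fin 2) F).det = 1)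
    (ht : (x : Matrix (Fin 2) (Fin 2) F).trace ^ 2 ≠ 4)
    (heq : (x : Matrix (Fin 2) (Fin 2) F).trace = (y : Matrix (Fin 2) (Fin 2) F).trace) :
    ∃ g ∈ Cfsg.Geo.specialLinear (Fin 2) F, g⁻¹ * x * g = y := by
  let X : Matrix.SpecialLinearGroup (Fin 2) F := ⟨x, hx⟩
  let Y : Matrix.SpecialLinearGroup (Fin 2) F := ⟨y, hy⟩
  have ht' : tr X ^ 2 ≠ 4 := by simpa [tr, X, Matrix.trace_fin_two] using ht
  have heq' : tr X = tr Y := by simpa [tr, X, Y, Matrix.trace_fin_two] using heq
  obtain ⟨c, hc⟩ := isConj_iff.1 (isConj_of_tr_eq' ht' heq')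
  refine ⟨(Matrix.SpecialLinearGroup.toGL c)⁻¹, inv_mem ?_, ?_⟩
  · show Matrix.GeneralLinearGroup.det _ = 1
    exact Units.ext (by simpa using c.2)
  · have := congrArg Matrix.SpecialLinearGroup.toGL hc
    rw [map_mul, map_mul, map_inv] at this
    rw [inv_inv]
    have eX : Matrix.SpecialLinearGroup.toGL X = x := Units.ext rfl
    have eY : Matrix.SpecialLinearGroup.toGL Y = y := Units.ext rfl
    rw [eX, eY] at this
    exact this

/-- Elements of prime order of PSL_2(p) and the normalizer of a quaternion subgroup. Here `T = PSL_2(F)` for the field `F` with `p` elements, `p ≥ 5` prime; `R` is a subgroup of GL_2(F) isomorphic to the quaternion group of order 8 (an absolutely irreducible 2-group of symplectic type), and `H` is the subgroup of matrices of determinant 1 normalizing `R` — a subgroup of type 2^{1+2}.O₂⁻(2), isomorphic modulo scalars to A₄ or S₄ (maximality is not assumed). Ω is the set of cosets of `H` in `T`, so an element of `T` of prime order `r` (a matrix `x` of determinant 1 with `x^r` scalar,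 `x` not scalar) fixes a point of Ω exactly when some conjugate of `x` by a matrix of determinant 1 normalizes `R`. Let `r` be a prime dividing the index of `H`. Then every element of `T` of order `r` fixes a point of Ω if and only if `r = 2` or `r = 3`. -/
theorem result {F : Type*} [Field F] [Fintype F] {p : ℕ} [Fact p.Prime] [CharP F p] (hF : Fintype.card F = p) (hp : 5 ≤ p)
    (R : Subgroup (GL (Fin 2) F)) (hR : Nonempty (↥R ≃* QuaternionGroup 2))
    (r : ℕ) [Fact r.Prime]
    (hΩ : r ∣ (Cfsg.Geo.subgroupNormalizer R).relIndex (Cfsg.Geo.specialLinear (Fin 2) F)) :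
    (∀ x ∈ Cfsg.Geo.specialLinear (Fin 2) F, (∃ z : F, ((x ^ r : GL (Fin 2) F) : Matrix (Fin 2) (Fin 2) F) = z • (1 : Matrix (Fin 2) (Fin 2) F)) →
      (∀ z : F, (x : Matrix (Fin 2) (Fin 2) F) ≠ z • (1 : Matrix (Fin 2) (Fin 2) F)) →
      ∃ g ∈ Cfsg.Geo.specialLinear (Fin 2) F, g⁻¹ * x * g ∈ Cfsg.Geo.subgroupNormalizer R) ↔ (r = 2 ∨ r = 3) := by
  obtain ⟨e⟩ := hR
  have hsmall : ∀ n : ℕ, 0 < n → n < 5 → (n : F) ≠ 0 := by
    intro n hn hn5 h
    have := Nat.le_of_dvd hn ((CharP.cast_eq_zero_iff F p n).1 h)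
    omega
  have h2 : (2 : F) ≠ 0 := by simpa using hsmall 2 (by norm_num) (by norm_num)
  have h3 : (3 : F) ≠ 0 := by simpa using hsmall 3 (by norm_num) (by norm_num)
  have h4 : (4 : F) ≠ 0 := by simpa using hsmall 4 (by norm_num) (by norm_num)
  obtain ⟨i, j, hiR, hjR, hI, hJ, hIJ, hgen⟩ := quat_basis h2 R e
  obtain ⟨htI, hdI⟩ := trace_det_of_anti h2 hI hJ hIJ
  have hdetSL : ∀ x ∈ Cfsg.Geo.specialLinear (Fin 2) F, (x : Matrix (Fin 2) (Fin 2) F).det = 1 := by
    intro x hx
    have : Matrix.GeneralLinearGroup.det x = 1 := hx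
    simpa using congrArg Units.val this
  constructor
  · intro hall
    by_contra hr
    push_neg at hr
    have hrp : r.Prime := Fact.out
    have hr5 : 5 ≤ r := hrp.five_le_of_ne_two_of_ne_three hr.1 hr.2
    have hdvd : r ∣ Nat.card (Cfsg.Geo.specialLinear (Fin 2) F) :=
      hΩ.trans (Subgroup.index_dvd_card _)
    obtain ⟨x, hx⟩ := exists_prime_orderOf_dvd_card' r hdvd
    have hx' : orderOf (x : GL (Fin 2) F) = r := by rw [Subgroup.orderOf_coe, hx]
    have hxr : (x : GL (Fin 2) F) ^ r = 1 := by rw [← hx']; exact pow_orderOf_eq_one _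
    have hns : ∀ z : F, ((x : GL (Fin 2) F) : Matrix (Fin 2) (Fin 2) F) ≠
        z • (1 : Matrix (Fin 2) (Fin 2) F) := by
      intro z hz
      have hd := hdetSL _ x.2
      rw [hz] at hd
      simp at hd
      have : (x : GL (Fin 2) F) ^ 2 = 1 := by
        apply Units.ext
        rw [Units.val_pow_eq_pow_val, hz, smul_pow, one_pow, Units.val_one]
        rcases hd with rfl | rfl <;> simp
      have := Nat.le_of_dvd (by norm_num) (hx' ▸ orderOf_dvd_of_pow_eq_one this)
      omega
    obtain ⟨g, -, hy⟩ := hall _ x.2 ⟨1, by rw [hxr, one_smul, Units.val_one]⟩ hns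
    set y := g⁻¹ * (x : GL (Fin 2) F) * g with hydef
    have hyr : y ^ r = 1 := by
      have := conj_pow (i := r) (a := g⁻¹) (b := (x : GL (Fin 2) F))
      rw [inv_inv, hxr, mul_one, inv_mul_cancel] at this
      exact this
    -- the action of `y` on `R` is trivial
    let ρ := R.normalizerMonoidHom
    set σ : MulAut R := ρ ⟨y, hy⟩ with hσ
    have hσr : σ ^ r = 1 := by
      rw [hσ, ← map_pow]
      have : (⟨y, hy⟩ : Subgroup.normalizer (R : Set (GL (Fin 2) F))) ^ r = 1 :=
        Subtype.ext (by simpa using hyr)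
      rw [this, map_one]
    have hcard : Nat.card (MulAut R) = 24 := by
      obtain ⟨f⟩ := Cfsg.Agent.S3742.result
      rw [Nat.card_congr (((MulAut.congr e).trans f).toEquiv), Nat.card_perm, Nat.card_fin]
      rfl
    have hσ1 : σ = 1 := by
      have h1 : orderOf σ ∣ Nat.gcd r 24 :=
        Nat.dvd_gcd (orderOf_dvd_of_pow_eq_one hσr) (hcard ▸ orderOf_dvd_natCard σ)
      have : Nat.gcd r 24 = 1 := by
        refine (Nat.Prime.coprime_iff_not_dvd hrp).2 fun hd => ?_
        have h24 : r ≤ 24 := Nat.le_of_dvd (by norm_num) hd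
        interval_cases r <;> first | omega | norm_num at hrp
      exact orderOf_eq_one_iff.1 (Nat.dvd_one.1 (this ▸ h1))
    have hcomm : ∀ n ∈ R, y * n = n * y := by
      intro n hn
      have hk := congrArg Subtype.val (DFunLike.congr_fun hσ1 (⟨n, hn⟩ : R))
      have hk' : y * n * y⁻¹ = n := hk
      calc y * n = y * n * y⁻¹ * y := by group
        _ = n * y := by rw [hk']
    have key := scalar_of_comm h2 hI hJ hIJ (M := (y : Matrix (Fin 2) (Fin 2) F))
      (by simpa using congrArg Units.val (hcomm i hiR))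
      (by simpa using congrArg Units.val (hcomm j hjR))
    apply hns ((y : Matrix (Fin 2) (Fin 2) F).trace / 2)
    have hxy : (x : GL (Fin 2) F) = g * y * g⁻¹ := by rw [hydef]; group
    rw [hxy, Units.val_mul, Units.val_mul]
    conv_lhs => rw [key]
    rw [Matrix.mul_smul, Matrix.smul_mul, mul_one, ← Units.val_mul, mul_inv_cancel, Units.val_one]
  · intro hr x hxS ⟨z, hz⟩ hns
    have hdx := hdetSL x hxS
    set X := (x : Matrix (Fin 2) (Fin 2) F) with hX
    have hXX : X * X = X.trace • X - (1 : Matrix (Fin 2) (Fin 2) F) := by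
      rw [sq_two X, hdx, one_smul]
    have hlin : ∀ a b : F, a • X = b • (1 : Matrix (Fin 2) (Fin 2) F) → a = 0 := by
      intro a b hab
      by_contra ha
      apply hns (a⁻¹ * b)
      rw [mul_smul, ← hab, smul_smul, inv_mul_cancel₀ ha, one_smul]
    rw [Units.val_pow_eq_pow_val] at hz
    have hiN : i ∈ Cfsg.Geo.subgroupNormalizer R := Subgroup.le_normalizer hiR
    rcases hr with rfl | rfl
    · rw [pow_two, hXX] at hz
      have ht : X.trace = 0 := hlin _ (z + 1) (by rw [add_smul, one_smul, ← hz]; abel)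
      obtain ⟨g, hg, hgi⟩ := conj_of_trace hdx hdI
        (by rw [← hX, ht]; simpa using h4.symm) (by rw [← hX, ht, htI])
      exact ⟨g, hg, hgi ▸ hiN⟩
    · have h33 : X ^ 3 = (X.trace * X.trace - 1) • X - X.trace • (1 : Matrix (Fin 2) (Fin 2) F) := by
        rw [pow_three, hXX, mul_sub, mul_smul_comm, hXX, mul_one, smul_sub, smul_smul, sub_smul,
          one_smul]
        abel
      rw [h33] at hz
      have ht0 : X.trace * X.trace - 1 = 0 :=
        hlin _ (z + X.trace) (by rw [add_smul, ← hz]; abel)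
      set I := (i : Matrix (Fin 2) (Fin 2) F) with hIdef
      set J := (j : Matrix (Fin 2) (Fin 2) F) with hJdef
      set G := (2 : F)⁻¹ • (-1 + I + J + I * J) with hG
      have eJ3 : J * (I * J) = I := by rw [← mul_assoc, hIJ, neg_mul, mul_assoc, hJ]; simp
      have eI3 : I * (I * J) = -J := by rw [← mul_assoc, hI]; simp
      have eK1 : (I * J) * I = J := by rw [mul_assoc, hIJ, mul_neg, eI3, neg_neg]
      have eK2 : (I * J) * J = -I := by rw [mul_assoc, hJ]; simp
      have eKK : (I * J) * (I * J) = -1 := by rw [← mul_assoc, eK1, hJ]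
      have hGI : G * I = (I * J) * G := by
        rw [hG, Matrix.smul_mul, Matrix.mul_smul]
        congr 1
        simp only [add_mul, mul_add, neg_mul, mul_neg, one_mul, mul_one, hI, hIJ, eK1, eK2, eKK]
        abel
      have hGJ : G * J = I * G := by
        rw [hG, Matrix.smul_mul, Matrix.mul_smul]
        congr 1
        simp only [add_mul, mul_add, neg_mul, mul_neg, one_mul, mul_one, hI, hJ, eI3, eK2]
        abel
      have hGsq : G * G + G + 1 = 0 := by
        apply smul_right_injective _ h4
        simp only [smul_add, smul_zero]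
        rw [hG, Matrix.smul_mul, Matrix.mul_smul, smul_smul, smul_smul,
          smul_smul (4 : F) (2 : F)⁻¹]
        have e1 : (4 : F) * 2⁻¹ * 2⁻¹ = 1 := by field_simp; ring
        have e2 : (4 : F) * 2⁻¹ = (2 : ℕ) := by push_cast; field_simp; ring
        have e4 : (4 : F) = (4 : ℕ) := by norm_num
        rw [e1, one_smul, e2, e4, Nat.cast_smul_eq_nsmul, Nat.cast_smul_eq_nsmul]
        simp only [add_mul, mul_add, neg_mul, mul_neg, one_mul, mul_one, hI, hJ, hIJ, eI3, eJ3,
          eK1, eK2, eKK]
        abel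
      have hG3 : G * (G * G) = 1 := by
        have := congrArg (fun M => G * M) hGsq
        simp only [mul_add, mul_one, mul_zero] at this
        have hGG : G * G + G = -1 := eq_neg_of_add_eq_zero_left hGsq
        rw [add_assoc, hGG] at this
        exact eq_of_sub_eq_zero (by rw [sub_eq_add_neg]; exact this)
      have hG3' : G * G * G = 1 := by rw [mul_assoc, hG3]
      let g0 : GL (Fin 2) F := ⟨G, G * G, hG3, hG3'⟩
      have hgi : g0 * i = (i * j) * g0 := Units.ext (by simpa [g0] using hGI)
      have hgj : g0 * j = i * g0 := Units.ext (by simpa [g0] using hGJ)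
      have hsub : ∀ n ∈ R, g0 * n * g0⁻¹ ∈ R := by
        intro n hn
        have hle : R ≤ R.comap (MulAut.conj g0).toMonoidHom := by
          conv_lhs => rw [hgen]
          rw [Subgroup.closure_le]
          rintro m (rfl | rfl)
          · show g0 * _ * g0⁻¹ ∈ R
            rw [hgi, mul_inv_cancel_right]; exact mul_mem hiR hjR
          · show g0 * _ * g0⁻¹ ∈ R
            rw [hgj, mul_inv_cancel_right]; exact hiR
        exact hle hn
      have hg0 : g0 ∈ Cfsg.Geo.subgroupNormalizer R := by
        refine Subgroup.mem_normalizer_iff.2 fun n => ⟨hsub n, fun hn => ?_⟩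
        have h2' := hsub _ (hsub _ hn)
        have e3 : g0 * g0 * g0 = 1 := Units.ext (by simpa [g0] using hG3')
        have : g0 * (g0 * (g0 * n * g0⁻¹) * g0⁻¹) * g0⁻¹ = n := by
          calc _ = (g0 * g0 * g0) * n * (g0 * g0 * g0)⁻¹ := by group
            _ = n := by rw [e3]; simp
        rwa [this] at h2'
      have htG : G.trace = -1 := by
        have hJI0 : (I * J).trace = 0 := by
          have := congrArg Matrix.trace hIJ
          rw [Matrix.trace_neg, Matrix.trace_mul_comm] at this
          have : (2 : F) * (I * J).trace = 0 := by linear_combination this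
          exact (mul_eq_zero.1 this).resolve_left h2
        have htJ := (trace_det_of_anti h2 hJ hI (by rw [hIJ]; simp)).1
        rw [hG]
        simp [Matrix.trace_add, htI, htJ, hJI0, Matrix.trace_one]
        field_simp
      have hdG : G.det = 1 := by
        have h := sq_two G
        have hGG : G * G = -(G + 1) :=
          eq_neg_of_add_eq_zero_left (by rw [← add_assoc]; exact hGsq)
        rw [htG, hGG] at h
        have h' := congrFun (congrFun h 0) 0
        simp at h'
        linear_combination h'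
      rcases mul_self_eq_one_iff.1 (sub_eq_zero.1 ht0) with ht | ht
      · -- trace one: use `-g0`
        have hneg : -g0 ∈ Cfsg.Geo.subgroupNormalizer R := by
          have hmem : i * i ∈ Cfsg.Geo.subgroupNormalizer R := mul_mem hiN hiN
          have : -g0 = i * i * g0 := Units.ext (by rw [Units.val_mul, Units.val_mul, Units.val_neg, hI, neg_one_mul])
          rw [this]; exact mul_mem hmem hg0
        obtain ⟨g, hg, hgy⟩ := conj_of_trace (y := -g0) hdx
          (by simp [g0, Matrix.det_neg, hdG])
          (by rw [← hX, ht]; intro h; exact h3 (by linear_combination -h))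
          (by simp [← hX, ht, g0, htG])
        exact ⟨g, hg, hgy ▸ hneg⟩
      · obtain ⟨g, hg, hgy⟩ := conj_of_trace (y := g0) hdx (by simpa [g0] using hdG)
          (by rw [← hX, ht]; intro h; exact h3 (by linear_combination -h))
          (by simp [← hX, ht, g0, htG])
        exact ⟨g, hg, hgy ▸ hg0⟩

end Cfsg.Agent.S5997
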