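import Cfsg.Statements.S5998
import Cfsg.Agent.GeoPrime.Extraspecial

set_option autoImplicit false
open scoped MatrixGroups
open Cfsg

namespace Cfsg.Agent.S5998

open Matrix

variable {F : Type*} [Field F]

/-- A matrix with `M ^ r = 1` is diagonalizable when there are enough roots of unity. -/
theorem exists_diag {ι : Type*} [Fintype ι] [DecidableEq ι] {r : ℕ} [NeZero r] (hr : (r : F) ≠ 0)
    {ζ : F} (hζ : IsPrimitiveRoot ζ r) {M : Matrix ι ι F} (hM : M ^ r = 1) :
    ∃ (A : GL ι F) (d : ι → F), M * A = A * Matrix.diagonal d ∧ ∀ i, d i ^ r = 1 := by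
  classical
  set S : Set (ι → F) := {v | ∃ μ : F, μ ^ r = 1 ∧ M *ᵥ v = μ • v} with hS
  have hspan : Submodule.span F S = ⊤ := by
    rw [eq_top_iff]
    intro v _
    have hsum : ∑ k ∈ Finset.range r, ∑ j ∈ Finset.range r, (ζ ^ k) ^ j • (M ^ j *ᵥ v)
        = (r : F) • v := by
      rw [Finset.sum_comm, Finset.sum_eq_single 0]
      · simp [Nat.cast_smul_eq_nsmul]
      · intro j hj hj0
        rw [← Finset.sum_smul]
        have h0 : ∑ k ∈ Finset.range r, (ζ ^ k) ^ j = 0 := by
          have e : ∀ k, (ζ ^ k) ^ j = (ζ ^ j) ^ k := fun k => by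
            rw [← pow_mul, ← pow_mul, mul_comm]
          simp only [e]
          have h1 : ζ ^ j ≠ 1 := hζ.pow_ne_one_of_pos_of_lt hj0 (Finset.mem_range.1 hj)
          rw [geom_sum_eq h1, ← pow_mul, mul_comm, pow_mul, hζ.pow_eq_one, one_pow, sub_self,
            zero_div]
        rw [h0, zero_smul]
      · intro h
        exact absurd (Finset.mem_range.2 (NeZero.pos r)) h
    have hv : v = (r : F)⁻¹ • ((r : F) • v) := by rw [smul_smul, inv_mul_cancel₀ hr, one_smul]
    rw [hv, ← hsum]
    refine Submodule.smul_mem _ _ (Submodule.sum_mem _ fun k hk => Submodule.subset_span ?_)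
    refine ⟨(ζ ^ k)⁻¹, by rw [inv_pow, ← pow_mul, mul_comm, pow_mul, hζ.pow_eq_one, one_pow,
      inv_one], ?_⟩
    have hz0 : ζ ^ k ≠ 0 := pow_ne_zero _ (hζ.ne_zero (NeZero.ne r))
    set f : ℕ → (ι → F) := fun j => (ζ ^ k) ^ j • (M ^ j *ᵥ v) with hf
    have hfr : f r = f 0 := by
      simp only [hf, hM, pow_zero, one_smul]
      rw [← pow_mul, mul_comm, pow_mul, hζ.pow_eq_one, one_pow, one_smul]
    have hshift : ∑ j ∈ Finset.range r, f (j + 1) = ∑ j ∈ Finset.range r, f j := by
      have := (Finset.sum_range_succ f r).symm.trans (Finset.sum_range_succ' f r)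
      rw [hfr] at this
      exact (add_right_cancel this).symm
    show M *ᵥ (∑ j ∈ Finset.range r, f j) = (ζ ^ k)⁻¹ • ∑ j ∈ Finset.range r, f j
    conv_rhs => rw [← hshift]
    rw [Matrix.mulVec_sum, Finset.smul_sum]
    refine Finset.sum_congr rfl fun j _ => ?_
    simp only [hf]
    rw [Matrix.mulVec_smul, Matrix.mulVec_mulVec, ← pow_succ', smul_smul, pow_succ (ζ ^ k) j,
      mul_comm ((ζ ^ k) ^ j), ← mul_assoc, inv_mul_cancel₀ hz0, one_mul]
  let B := Module.Basis.ofSpan (le_of_eq hspan.symm)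
  let e := B.indexEquiv (Pi.basisFun F ι)
  let b := B.reindex e
  have hb : ∀ i, ∃ μ : F, μ ^ r = 1 ∧ M *ᵥ b i = μ • b i := fun i => by
    have : B (e.symm i) ∈ S :=
      Module.Basis.ofSpan_subset (le_of_eq hspan.symm) ⟨_, rfl⟩
    simp only [b, Module.Basis.reindex_apply]
    exact this
  choose d hd1 hd2 using hb
  have hunit : IsUnit (Matrix.of fun i j => b j i) := by
    rw [← Matrix.linearIndependent_cols_iff_isUnit]
    exact b.linearIndependent
  refine ⟨hunit.unit, d, ?_, hd1⟩
  rw [IsUnit.unit_spec]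
  ext i j
  have := congrFun (hd2 j) i
  simp only [Matrix.mulVec, dotProduct, Pi.smul_apply, smul_eq_mul] at this
  rw [Matrix.mul_apply, Matrix.mul_diagonal]
  simp only [Matrix.of_apply]
  rw [this, mul_comm]

/-- Diagonalizable matrices with the same eigenvalues are conjugate in `SL`. -/
theorem exists_conj_sl {x y A B : GL (Fin 3) F} {d : Fin 3 → F}
    (hx : (x : Matrix (Fin 3) (Fin 3) F) * A = A * Matrix.diagonal d)
    (hy : (y : Matrix (Fin 3) (Fin 3) F) * B = B * Matrix.diagonal d) :
    ∃ g ∈ Cfsg.Geo.specialLinear (Fin 3) F, g⁻¹ * x * g = y := by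
  set a := Matrix.GeneralLinearGroup.det A with ha
  set b := Matrix.GeneralLinearGroup.det B with hb
  set v : Fin 3 → F := ![((b / a : Fˣ) : F), 1, 1] with hv
  have hdet : (Matrix.diagonal v).det = ((b / a : Fˣ) : F) := by
    simp [hv, Fin.prod_univ_three]
  let C : GL (Fin 3) F := Matrix.GeneralLinearGroup.mk'' (Matrix.diagonal v)
    (by rw [hdet]; exact (b / a : Fˣ).isUnit)
  have hC : (C : Matrix (Fin 3) (Fin 3) F) = Matrix.diagonal v := rfl
  refine ⟨A * C * B⁻¹, ?_, ?_⟩
  · show Matrix.GeneralLinearGroup.det _ = 1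
    rw [map_mul, map_mul, map_inv, ← ha, ← hb]
    have : Matrix.GeneralLinearGroup.det C = b / a := Units.ext (by simpa [hC] using hdet)
    rw [this]
    simp
  · rw [_root_.mul_inv_rev, _root_.mul_inv_rev, inv_inv]
    have h : x * (A * C * B⁻¹) = (A * C * B⁻¹) * y := by
      apply Units.ext
      have hy' : Matrix.diagonal d * (↑B⁻¹ : Matrix (Fin 3) (Fin 3) F) =
          (↑B⁻¹ : Matrix (Fin 3) (Fin 3) F) * y := by
        calc Matrix.diagonal d * (↑B⁻¹ : Matrix (Fin 3) (Fin 3) F)
            = (↑B⁻¹ : Matrix (Fin 3) (Fin 3) F) * (B * Matrix.diagonal d) * ↑B⁻¹ := by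
              rw [← mul_assoc, Units.inv_mul, one_mul]
          _ = _ := by rw [← hy, mul_assoc, mul_assoc, Units.mul_inv, mul_one]
      have hcom : Matrix.diagonal d * Matrix.diagonal v = Matrix.diagonal v * Matrix.diagonal d := by
        simp [Matrix.diagonal_mul_diagonal, mul_comm]
      simp only [Units.val_mul, hC]
      calc (x : Matrix (Fin 3) (Fin 3) F) * (A * Matrix.diagonal v * ↑B⁻¹)
          = A * (Matrix.diagonal d * Matrix.diagonal v) * ↑B⁻¹ := by
            rw [← mul_assoc, ← mul_assoc, hx, mul_assoc (A : Matrix (Fin 3) (Fin 3) F)]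
        _ = A * Matrix.diagonal v * (Matrix.diagonal d * ↑B⁻¹) := by
            rw [hcom]; simp only [mul_assoc]
        _ = _ := by rw [hy']; simp only [mul_assoc]
    have e : B * (C⁻¹ * A⁻¹) * x * (A * C * B⁻¹) = (A * C * B⁻¹)⁻¹ * (x * (A * C * B⁻¹)) := by
      simp [mul_assoc]
    rw [e, h, inv_mul_cancel_left]

/-- Diagonal matrix times the cyclic shift. -/
def shift : Matrix (Fin 3) (Fin 3) F := !![0, 0, 1; 1, 0, 0; 0, 1, 0]

theorem conj_mem_normalizer {G : Type*} [Group G] [Finite G] {R : Subgroup G} {S : Set G}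
    (hgen : R = Subgroup.closure S) {t : G} (h : ∀ s ∈ S, t * s * t⁻¹ ∈ R) :
    t ∈ Subgroup.normalizer (R : Set G) := by
  have hle : R.map (MulAut.conj t).toMonoidHom ≤ R := by
    conv_lhs => rw [hgen, MonoidHom.map_closure]
    rw [Subgroup.closure_le]
    rintro _ ⟨s, hs, rfl⟩
    exact h s hs
  have heq : R.map (MulAut.conj t).toMonoidHom = R := by
    apply Subgroup.eq_of_le_of_card_ge hle
    rw [Subgroup.card_map_of_injective (MulAut.conj t).injective]
  refine Subgroup.mem_normalizer_iff.2 fun n => ?_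
  conv_rhs => rw [← heq]
  exact (Subgroup.mem_map_iff_mem (f := (MulAut.conj t).toMonoidHom) (MulAut.conj t).injective).symm

theorem structure_R [Fintype F] {ω₀ : F} (hω₀ : IsPrimitiveRoot ω₀ 3) (h3 : (3 : F) ≠ 0)
    (R : Subgroup (GL (Fin 3) F)) (hR : Nat.card R = 27) (hRe : Monoid.exponent R = 3)
    (hRna : ¬ IsMulCommutative R) :
    ∃ (ω : F) (g h z P : GL (Fin 3) F), IsPrimitiveRoot ω 3 ∧ R = Subgroup.closure {g, h} ∧
      g ∈ R ∧ h ∈ R ∧ z ∈ R ∧ (z : Matrix (Fin 3) (Fin 3) F) = ω • 1 ∧
      (g : Matrix (Fin 3) (Fin 3) F) * P = P * Matrix.diagonal ![1, ω, ω ^ 2] ∧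
      (h : Matrix (Fin 3) (Fin 3) F) * P = P * (shift : Matrix (Fin 3) (Fin 3) F) := by
  classical
  have : Fact (Nat.Prime 3) := ⟨by norm_num⟩
  have hpg : IsPGroup 3 R := IsPGroup.of_card (n := 3) (by rw [hR]; norm_num)
  -- commutators are central
  have hcen : ∀ a b : R, a * b * a⁻¹ * b⁻¹ ∈ Subgroup.center R := by
    intro a b
    have hc : Subgroup.center R ≠ ⊥ := by
      have : Nontrivial R := Finite.one_lt_card_iff_nontrivial.1 (by omega)
      intro hb
      have := hpg.center_nontrivial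
      rw [hb] at this
      exact not_nontrivial _ this
    have hq := (Subgroup.center R).card_mul_index
    rw [hR, Subgroup.index_eq_card] at hq
    set Q := R ⧸ Subgroup.center R
    have hc1 : Nat.card (Subgroup.center R) ≠ 1 := fun h => hc (Subgroup.card_eq_one.1 h)
    obtain ⟨i, hi, hi'⟩ := (Nat.dvd_prime_pow (p := 3) (m := 3) (by norm_num)).1
      (show Nat.card Q ∣ 3 ^ 3 from ⟨_, by rw [mul_comm, hq]; norm_num⟩)
    have hcomm : ∀ u v : Q, u * v = v * u := by
      interval_cases i
      · intro u v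
        have : Subsingleton Q := (Nat.card_eq_one_iff_unique.1 (by simpa using hi')).1
        exact Subsingleton.elim _ _
      · have : IsCyclic Q := isCyclic_of_prime_card (p := 3) (by simpa using hi')
        exact fun u v => mul_comm' u v
      · exact (IsPGroup.isMulCommutative_of_card_eq_prime_sq hi').is_comm.comm
      · exfalso
        rw [hi'] at hq
        omega
    rw [← QuotientGroup.eq_one_iff]
    simp only [QuotientGroup.mk_mul, QuotientGroup.mk_inv]
    rw [hcomm (a : Q) (b : Q)]
    group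
  have hex : ∀ a ∈ R, a ^ 3 = 1 := fun a ha => by
    have := Monoid.pow_exponent_eq_one (⟨a, ha⟩ : R)
    rw [hRe] at this
    exact congrArg Subtype.val this
  obtain ⟨g, hg, h, hh, hgh⟩ : ∃ g ∈ R, ∃ h ∈ R, g * h ≠ h * g := by
    by_contra hc
    push Not at hc
    exact hRna ⟨⟨fun a b => Subtype.ext (hc _ a.2 _ b.2)⟩⟩
  set z := g * h * g⁻¹ * h⁻¹ with hz
  have hzR : z ∈ R := mul_mem (mul_mem (mul_mem hg hh) (inv_mem hg)) (inv_mem hh)
  have hz1 : z ≠ 1 := by
    intro e
    apply hgh
    rw [hz] at e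
    calc g * h = (g * h * g⁻¹ * h⁻¹) * (h * g) := by group
      _ = h * g := by rw [e, one_mul]
  have hzc : ∀ a ∈ R, a * z = z * a := fun a ha => by
    have := Subgroup.mem_center_iff.1 (hcen ⟨g, hg⟩ ⟨h, hh⟩) ⟨a, ha⟩
    exact congrArg Subtype.val this
  set G := (g : Matrix (Fin 3) (Fin 3) F) with hG
  set H := (h : Matrix (Fin 3) (Fin 3) F) with hH
  set Z := (z : Matrix (Fin 3) (Fin 3) F) with hZ
  have hZ3 : Z ^ 3 = 1 := by rw [hZ, ← Units.val_pow_eq_pow_val, hex z hzR, Units.val_one]
  have hGH : G * H = Z * (H * G) := by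
    rw [hG, hH, hZ, ← Units.val_mul, ← Units.val_mul, ← Units.val_mul]
    congr 1
    rw [hz]; group
  obtain ⟨A, d, hA, hd⟩ := exists_diag (r := 3) (by simpa using h3) hω₀ hZ3
  -- `z` is scalar
  obtain ⟨ω, hω, hzω⟩ : ∃ ω : F, IsPrimitiveRoot ω 3 ∧ Z = ω • 1 := by
    have hdne : ¬ ∀ i, d i = 1 := by
      intro hall
      apply hz1
      have : d = fun _ => 1 := funext hall
      rw [this, Matrix.diagonal_one, mul_one] at hA
      have hZ1 : Z = 1 := by simpa using congrArg (· * (↑A⁻¹ : Matrix (Fin 3) (Fin 3) F)) hA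
      exact Units.ext hZ1
    push Not at hdne
    obtain ⟨i0, hi0⟩ := hdne
    set a := d i0 with ha
    set D := Matrix.diagonal d with hDdef
    set e : Fin 3 → F := fun i => if d i = a then 1 else 0 with he
    set G' := (↑A⁻¹ : Matrix (Fin 3) (Fin 3) F) * G * (↑A : Matrix (Fin 3) (Fin 3) F) with hG'
    set H' := (↑A⁻¹ : Matrix (Fin 3) (Fin 3) F) * H * (↑A : Matrix (Fin 3) (Fin 3) F) with hH'
    have hZA : Z = (A : Matrix (Fin 3) (Fin 3) F) * D * (↑A⁻¹ : Matrix (Fin 3) (Fin 3) F) := by
      rw [← hA, mul_assoc Z, Units.mul_inv, mul_one]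
    have hD' : D = (↑A⁻¹ : Matrix (Fin 3) (Fin 3) F) * Z * (↑A : Matrix (Fin 3) (Fin 3) F) := by
      rw [mul_assoc, hA, ← mul_assoc, Units.inv_mul, one_mul]
    have conjmul : ∀ X Y : Matrix (Fin 3) (Fin 3) F,
        ((↑A⁻¹ : Matrix (Fin 3) (Fin 3) F) * X * (↑A : Matrix (Fin 3) (Fin 3) F)) * ((↑A⁻¹ : Matrix (Fin 3) (Fin 3) F) * Y * (↑A : Matrix (Fin 3) (Fin 3) F))
          = (↑A⁻¹ : Matrix (Fin 3) (Fin 3) F) * (X * Y) * (↑A : Matrix (Fin 3) (Fin 3) F) := fun X Y => by
      simp only [mul_assoc, Units.mul_inv_cancel_left]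
    have entry : ∀ a' ∈ R, ∀ i j,
        ((↑A⁻¹ : Matrix (Fin 3) (Fin 3) F) * (a' : Matrix (Fin 3) (Fin 3) F) * (↑A : Matrix (Fin 3) (Fin 3) F)) i j * e j =
          e i * ((↑A⁻¹ : Matrix (Fin 3) (Fin 3) F) * (a' : Matrix (Fin 3) (Fin 3) F) * (↑A : Matrix (Fin 3) (Fin 3) F)) i j := by
      intro a' ha' i j
      set X := (↑A⁻¹ : Matrix (Fin 3) (Fin 3) F) * (a' : Matrix (Fin 3) (Fin 3) F) * (↑A : Matrix (Fin 3) (Fin 3) F) with hX
      have hc : X * D = D * X := by
        rw [hD', hX, conjmul, conjmul, show (a' : Matrix (Fin 3) (Fin 3) F) * Z = Z * a' from congrArg Units.val (hzc a' ha')]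
      have := congrFun (congrFun hc i) j
      rw [hDdef, Matrix.mul_diagonal, Matrix.diagonal_mul] at this
      by_cases hX0 : X i j = 0
      · simp [hX0]
      · have : d i = d j := by
          apply mul_left_cancel₀ hX0
          rw [this, mul_comm]
        simp [he, this, mul_comm]
    have commE : ∀ a' ∈ R,
        ((↑A⁻¹ : Matrix (Fin 3) (Fin 3) F) * (a' : Matrix (Fin 3) (Fin 3) F) * (↑A : Matrix (Fin 3) (Fin 3) F)) * Matrix.diagonal e
        = Matrix.diagonal e * ((↑A⁻¹ : Matrix (Fin 3) (Fin 3) F) * (a' : Matrix (Fin 3) (Fin 3) F) * (↑A : Matrix (Fin 3) (Fin 3) F)) := by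
      intro a' ha'
      ext i j
      rw [Matrix.mul_diagonal, Matrix.diagonal_mul]
      exact entry a' ha' i j
    set E := Matrix.diagonal e with hE
    have hEE : E * E = E := by
      rw [hE, Matrix.diagonal_mul_diagonal]
      congr 1; funext i; by_cases hi : d i = a <;> simp [he, hi]
    have blk : ∀ X Y : Matrix (Fin 3) (Fin 3) F, Y * E = E * Y →
        (X * E + (1 - E)) * (Y * E + (1 - E)) = X * Y * E + (1 - E) := by
      intro X Y hY
      have h1 : X * E * (Y * E) = X * Y * E := by
        rw [mul_assoc X E (Y * E), ← mul_assoc E Y E, ← hY, mul_assoc Y E E, hEE, mul_assoc]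
      have h2 : X * E * (1 - E) = 0 := by rw [mul_assoc, mul_sub, mul_one, hEE, sub_self, mul_zero]
      have h3' : (1 - E) * (Y * E) = 0 := by
        rw [hY, ← mul_assoc, sub_mul, one_mul, hEE, sub_self, zero_mul]
      have h4 : (1 - E) * (1 - E) = 1 - E := by
        rw [sub_mul, one_mul, mul_sub, mul_one, hEE, sub_self, sub_zero]
      rw [add_mul, mul_add, mul_add, h1, h2, h3', h4]
      abel
    have hGinv : (G' * E + (1 - E)).det ≠ 0 := by
      have := congrArg Matrix.det (blk ((↑A⁻¹ : Matrix (Fin 3) (Fin 3) F) *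
        ((g⁻¹ : GL (Fin 3) F) : Matrix (Fin 3) (Fin 3) F) * (↑A : Matrix (Fin 3) (Fin 3) F)) G' (commE g hg))
      rw [Matrix.det_mul, hG', conjmul, Units.inv_mul, mul_one, Units.inv_mul, one_mul] at this
      rw [show E + (1 - E) = 1 by abel, Matrix.det_one] at this
      exact right_ne_zero_of_mul (by rw [this]; exact one_ne_zero)
    have hHinv : (H' * E + (1 - E)).det ≠ 0 := by
      have := congrArg Matrix.det (blk ((↑A⁻¹ : Matrix (Fin 3) (Fin 3) F) *
        ((h⁻¹ : GL (Fin 3) F) : Matrix (Fin 3) (Fin 3) F) * (↑A : Matrix (Fin 3) (Fin 3) F)) H' (commE h hh))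
      rw [Matrix.det_mul, hH', conjmul, Units.inv_mul, mul_one, Units.inv_mul, one_mul] at this
      rw [show E + (1 - E) = 1 by abel, Matrix.det_one] at this
      exact right_ne_zero_of_mul (by rw [this]; exact one_ne_zero)
    have hprod : ∏ i, (if d i = a then a else 1) = 1 := by
      have h5 : G' * H' = D * (H' * G') := by rw [hG', hH', hD', conjmul, conjmul, conjmul, hGH]
      have h6 : D * E + (1 - E) = Matrix.diagonal (fun i => if d i = a then a else 1) := by
        rw [hDdef, hE, Matrix.diagonal_mul_diagonal, ← Matrix.diagonal_one,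
          Matrix.diagonal_sub, Matrix.diagonal_add]
        congr 1; funext i; by_cases hi : d i = a <;> simp [he, hi]
      have h7 : H' * G' * E = E * (H' * G') := by
        rw [mul_assoc, commE g hg, ← mul_assoc, commE h hh, mul_assoc]
      have hl := blk G' H' (commE h hh)
      rw [h5, ← blk D (H' * G') h7, h6, ← blk H' G' (commE g hg)] at hl
      have := congrArg Matrix.det hl
      simp only [Matrix.det_mul, Matrix.det_diagonal] at this
      have hne := mul_ne_zero hGinv hHinv
      apply mul_right_cancel₀ hne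
      rw [one_mul]
      linear_combination -this
    have ha3 : a ^ 3 = 1 := hd i0
    have ha0 : a ≠ 0 := fun h0 => by simp [h0] at ha3
    have ha2 : a * a ≠ 1 := fun h2 => hi0 (by
      calc a = a * (a * a) := by rw [h2, mul_one]
        _ = 1 := by rw [← ha3]; ring)
    have hall : ∀ i, d i = a := by
      rw [Fin.prod_univ_three] at hprod
      intro i
      by_contra hne
      have hi0' : d i0 = a := rfl
      by_cases c0 : d 0 = a <;> by_cases c1 : d 1 = a <;> by_cases c2 : d 2 = a <;>
        simp only [c0, c1, c2, if_true, if_false, one_mul, mul_one] at hprod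
      all_goals first
        | exact hi0 hprod
        | exact ha2 hprod
        | (fin_cases i <;> first | exact hne c0 | exact hne c1 | exact hne c2)
        | (fin_cases i0 <;> first | exact c0 hi0' | exact c1 hi0' | exact c2 hi0')
    refine ⟨a, IsPrimitiveRoot.iff_orderOf.2 (orderOf_eq_prime ha3 hi0), ?_⟩
    rw [hZA, hDdef, funext hall, ← Matrix.smul_one_eq_diagonal, Matrix.mul_smul, mul_one,
      Matrix.smul_mul, Units.mul_inv]
  have hGH' : G * H = ω • (H * G) := by rw [hGH, hzω, Matrix.smul_mul, one_mul]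
  -- an eigenvector of `g` with eigenvalue one
  obtain ⟨A', d', hA', hd'⟩ := exists_diag (r := 3) (by simpa using h3) hω₀
    (show G ^ 3 = 1 by rw [hG, ← Units.val_pow_eq_pow_val, hex g hg, Units.val_one])
  set v : Fin 3 → F := (A' : Matrix (Fin 3) (Fin 3) F) *ᵥ Pi.single 0 1 with hv
  have hv0 : v ≠ 0 := fun h0 => by
    have := CfsgLib.GeoPrime.gl_inj A' (u := Pi.single 0 1) (v := 0) (by rw [mulVec_zero]; exact h0)
    simpa using congrFun this 0
  have hGv : G *ᵥ v = d' 0 • v := by
    rw [hv, mulVec_mulVec, hA', ← mulVec_mulVec, Matrix.diagonal_mulVec_single, ← mulVec_smul]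
    congr 1
    funext j; by_cases hj : j = 0 <;> simp [Pi.single_apply, hj]
  obtain ⟨k, -, hk⟩ := hω.eq_pow_of_pow_eq_one
    (show ((d' 0)⁻¹) ^ 3 = 1 by rw [inv_pow, hd' 0, inv_one])
  set w := (H ^ k) *ᵥ v with hw
  have hw0 : w ≠ 0 := fun h0 => hv0 (CfsgLib.GeoPrime.gl_inj (h ^ k) (by
    rw [Units.val_pow_eq_pow_val, mulVec_zero]; exact h0))
  have hd0 : d' 0 ≠ 0 := fun h0 => by simpa [h0] using hd' 0
  have hGw : G *ᵥ w = (1 : F) • w := by
    rw [hw, mulVec_mulVec, (CfsgLib.GeoPrime.pow_commute_up_to hGH' k).2, smul_mulVec,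
      ← mulVec_mulVec, hGv, mulVec_smul, smul_smul, hk, inv_mul_cancel₀ hd0]
  obtain ⟨b, hb, hbe⟩ := CfsgLib.GeoPrime.eigenbasis hω one_ne_zero hGH' hw0 hGw
  have hunit : IsUnit (Matrix.of fun i j => b j i) := by
    rw [← Matrix.linearIndependent_cols_iff_isUnit]
    exact b.linearIndependent
  refine ⟨ω, g, h, z, hunit.unit, hω, ?_, hg, hh, hzR, hzω, ?_, ?_⟩
  · apply le_antisymm
    · have hle : Subgroup.closure {g, h} ≤ R := by
        rw [Subgroup.closure_le]; rintro a (rfl | rfl) <;> assumption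
      have hC := Subgroup.card_dvd_of_le hle
      rw [hR] at hC
      set C := Subgroup.closure {g, h}
      obtain ⟨i, hi, hi'⟩ := (Nat.dvd_prime_pow (p := 3) (m := 3) (by norm_num)).1
        (show Nat.card C ∣ 3 ^ 3 from hC)
      have hnc : ¬ ∀ u v : C, u * v = v * u := fun hall => hgh (congrArg Subtype.val
        (hall ⟨g, Subgroup.subset_closure (by simp)⟩ ⟨h, Subgroup.subset_closure (by simp)⟩))
      interval_cases i
      · have : Subsingleton C := (Nat.card_eq_one_iff_unique.1 (by simpa using hi')).1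
        exact absurd (fun u v => Subsingleton.elim _ _) hnc
      · have : IsCyclic C := isCyclic_of_prime_card (p := 3) (by simpa using hi')
        exact absurd (fun u v => mul_comm' u v) hnc
      · exact absurd ((IsPGroup.isMulCommutative_of_card_eq_prime_sq hi').is_comm.comm) hnc
      · exact (Subgroup.eq_of_le_of_card_ge hle (by rw [hR, hi']; norm_num)).ge
    · rw [Subgroup.closure_le]; rintro a (rfl | rfl) <;> assumption
  · rw [IsUnit.unit_spec]
    ext i j
    have := congrFun (hbe j) i
    simp only [Matrix.mulVec, dotProduct, Pi.smul_apply, smul_eq_mul, one_mul] at this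
    rw [Matrix.mul_apply, Matrix.mul_diagonal]
    simp only [Matrix.of_apply]
    rw [this, mul_comm]
    fin_cases j <;> simp
  · rw [IsUnit.unit_spec]
    have hH3 : H ^ 3 = 1 := by rw [hH, ← Units.val_pow_eq_pow_val, hex h hh, Units.val_one]
    have e0 : H *ᵥ b 0 = b 1 := by rw [hb, hb, mulVec_mulVec]; simp [hH]
    have e1 : H *ᵥ b 1 = b 2 := by rw [hb, hb, mulVec_mulVec, ← pow_succ']; simp [hH]
    have e2 : H *ᵥ b 2 = b 0 := by rw [hb, hb, mulVec_mulVec, ← pow_succ']; simp [hH3]
    ext i j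
    rw [Matrix.mul_apply, Matrix.mul_apply]
    fin_cases j
    · have := congrFun e0 i
      simp only [Matrix.mulVec, dotProduct] at this
      simp [shift, Fin.sum_univ_three] at this ⊢; exact this
    · have := congrFun e1 i
      simp only [Matrix.mulVec, dotProduct] at this
      simp [shift, Fin.sum_univ_three] at this ⊢; exact this
    · have := congrFun e2 i
      simp only [Matrix.mulVec, dotProduct] at this
      simp [shift, Fin.sum_univ_three] at this ⊢; exact this

theorem diag_conj_mem {ω : F} (hω : IsPrimitiveRoot ω 3) {R : Subgroup (GL (Fin 3) F)} [Finite F]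
    {g h z P : GL (Fin 3) F} (hgen : R = Subgroup.closure {g, h}) (hg : g ∈ R) (hh : h ∈ R)
    (hzR : z ∈ R) (hz : (z : Matrix (Fin 3) (Fin 3) F) = ω • 1)
    (hgP : (g : Matrix (Fin 3) (Fin 3) F) * P = P * Matrix.diagonal ![1, ω, ω ^ 2])
    (hhP : (h : Matrix (Fin 3) (Fin 3) F) * P = P * (shift : Matrix (Fin 3) (Fin 3) F))
    {y : GL (Fin 3) F} {e : Fin 3 → F}
    (hy : (y : Matrix (Fin 3) (Fin 3) F) * P = P * Matrix.diagonal e)
    (he : ∀ i, (e i / e 0) ^ 3 = 1) (he0 : ∀ i, e i ≠ 0) :
    y ∈ Cfsg.Geo.subgroupNormalizer R := by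
  apply conj_mem_normalizer hgen
  have cancel : ∀ a b : GL (Fin 3) F, (a : Matrix (Fin 3) (Fin 3) F) * P = b * P → a = b :=
    fun a b h' => mul_right_cancel (b := P) (Units.ext (by simpa using h'))
  have gP : ∀ k : ℕ, ((g ^ k : GL (Fin 3) F) : Matrix (Fin 3) (Fin 3) F) * P =
      P * Matrix.diagonal (![1, ω, ω ^ 2] ^ k) := by
    intro k
    induction k with
    | zero => simp
    | succ k ih =>
      rw [pow_succ, Units.val_mul, mul_assoc, hgP, ← mul_assoc, ih, mul_assoc,
        Matrix.diagonal_mul_diagonal]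
      congr 2
      funext i
      simp [pow_succ]
  rintro s (rfl | rfl)
  · have : y * s = s * y := by
      apply cancel
      simp only [Units.val_mul, mul_assoc]
      rw [hgP, ← mul_assoc, hy, mul_assoc, Matrix.diagonal_mul_diagonal, ← mul_assoc, hgP,
        mul_assoc, Matrix.diagonal_mul_diagonal]
      congr 2; funext i; ring
    rw [this, mul_inv_cancel_right]; exact hg
  · obtain ⟨a, -, ha⟩ := hω.eq_pow_of_pow_eq_one (show (e 0 / e 2) ^ 3 = 1 by
      rw [← inv_div, inv_pow, he 2, inv_one])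
    obtain ⟨k, -, hk⟩ := hω.eq_pow_of_pow_eq_one (show ((e 1 / e 0) / (e 0 / e 2)) ^ 3 = 1 by
      rw [div_pow, he 1, ← inv_div (e 2), inv_pow, he 2, inv_one, div_one])
    have h3 : ω ^ 3 = 1 := hω.pow_eq_one
    have n0 := he0 0
    have n1 := he0 1
    have n2 := he0 2
    have q0 : ω ^ a * e 2 = e 0 := by rw [ha]; field_simp
    have q1 : ω ^ a * ω ^ k * e 0 = e 1 := by rw [ha, hk]; field_simp
    have q2 : ω ^ a * (ω ^ 2) ^ k * e 1 = e 2 := by
      have c : (ω ^ a) ^ 3 * (ω ^ k) ^ 3 = 1 := by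
        rw [← pow_mul, ← pow_mul, mul_comm a, mul_comm k, pow_mul, pow_mul, h3, one_pow, one_pow,
          one_mul]
      rw [← q1, ← pow_mul, mul_comm 2 k, pow_mul, ← q0]
      linear_combination e 2 * c
    have : y * s = z ^ a * g ^ k * s * y := by
      apply cancel
      simp only [Units.val_mul, mul_assoc]
      rw [hhP, hy, ← mul_assoc (s : Matrix (Fin 3) (Fin 3) F), hhP]
      rw [← mul_assoc (y : Matrix (Fin 3) (Fin 3) F), hy, mul_assoc (P : Matrix (Fin 3) (Fin 3) F) shift,
        ← mul_assoc ((g ^ k : GL (Fin 3) F) : Matrix (Fin 3) (Fin 3) F), gP, Units.val_pow_eq_pow_val,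
        hz, smul_pow, one_pow, Matrix.smul_mul, one_mul]
      simp only [mul_assoc, ← Matrix.mul_smul]
      congr 1
      ext i j
      fin_cases i <;> fin_cases j <;>
        simp [shift, Matrix.mul_apply, Fin.sum_univ_three, Matrix.diagonal_apply, Matrix.vecMul_diagonal]
      all_goals first
        | linear_combination -q0
        | linear_combination -q1
        | linear_combination -q2
    rw [this, mul_inv_cancel_right]
    exact mul_mem (mul_mem (pow_mem hzR _) (pow_mem hg _)) hh

theorem scalar_of_comm {ω : F} (hω : IsPrimitiveRoot ω 3) {g h P y : GL (Fin 3) F}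
    (hgP : (g : Matrix (Fin 3) (Fin 3) F) * P = P * Matrix.diagonal ![1, ω, ω ^ 2])
    (hhP : (h : Matrix (Fin 3) (Fin 3) F) * P = P * (shift : Matrix (Fin 3) (Fin 3) F))
    (hyg : y * g = g * y) (hyh : y * h = h * y) :
    ∃ c : F, (y : Matrix (Fin 3) (Fin 3) F) = c • 1 := by
  set Y := (↑P⁻¹ : Matrix (Fin 3) (Fin 3) F) * y * P with hY
  have comm : ∀ (a : GL (Fin 3) F) (M : Matrix (Fin 3) (Fin 3) F),
      (a : Matrix (Fin 3) (Fin 3) F) * P = P * M → y * a = a * y → Y * M = M * Y := by
    intro a M ha hya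
    have hM : M = (↑P⁻¹ : Matrix (Fin 3) (Fin 3) F) * a * P := by
      rw [mul_assoc, ha, ← mul_assoc, Units.inv_mul, one_mul]
    rw [hM, hY]
    simp only [mul_assoc, Units.mul_inv_cancel_left]
    congr 1
    rw [← mul_assoc (y : Matrix (Fin 3) (Fin 3) F), ← mul_assoc (a : Matrix (Fin 3) (Fin 3) F)]
    congr 1
    rw [← Units.val_mul, hya, Units.val_mul]
  have cg := comm g _ hgP hyg
  have ch := comm h _ hhP hyh
  have hdiag : ∀ i j, i ≠ j → Y i j = 0 := by
    intro i j hij
    have := congrFun (congrFun cg i) j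
    rw [Matrix.mul_diagonal, Matrix.diagonal_mul] at this
    have hne : (![1, ω, ω ^ 2] : Fin 3 → F) i ≠ ![1, ω, ω ^ 2] j := by
      have e : ∀ m : Fin 3, (![1, ω, ω ^ 2] : Fin 3 → F) m = ω ^ (m : ℕ) := fun m => by
        fin_cases m <;> simp
      rw [e, e]
      exact fun h' => hij (Fin.ext (hω.pow_inj i.2 j.2 h'))
    by_contra h0
    exact hne (mul_left_cancel₀ h0 (by rw [mul_comm, ← this]))
  have c10 := congrFun (congrFun ch 1) 0
  have c21 := congrFun (congrFun ch 2) 1
  simp [shift, Matrix.mul_apply, Fin.sum_univ_three] at c10 c21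
  refine ⟨Y 0 0, ?_⟩
  have hYs : Y = Y 0 0 • (1 : Matrix (Fin 3) (Fin 3) F) := by
    ext i j
    by_cases hij : i = j
    · subst hij; fin_cases i <;> simp [c10, c21]
    · simp [hdiag i j hij, hij]
  have hy : (y : Matrix (Fin 3) (Fin 3) F) = P * Y * (↑P⁻¹ : Matrix (Fin 3) (Fin 3) F) := by
    rw [hY]; simp only [mul_assoc, Units.mul_inv, mul_one, Units.mul_inv_cancel_left]
  rw [hy]
  conv_lhs => rw [hYs]
  rw [Matrix.mul_smul, mul_one, Matrix.smul_mul, Units.mul_inv]

theorem card_check : ∀ a : ZMod 243, a.val % 9 = 4 ∨ a.val % 9 = 7 →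
    (a ^ 3 - 1) * (a ^ 3 - a) * (a ^ 3 - a ^ 2) ≠ 0 := by decide +kernel

/-- Elements of prime order of PSL_3(p), p ≡ 1 (mod 3), and the normalizer of an extraspecial subgroup of order 27. Here `T = PSL_3(F)` for the field `F` with `p` elements, `p` a prime with `p ≡ 1 (mod 3)`; `R` is a non-abelian subgroup of GL_3(F) of order 27 and exponent 3 (an extraspecial group 3^{1+2}, acting absolutely irreducibly), and `H` is the subgroup of matrices of determinant 1 normalizing `R` — a subgroup of type 3^{1+2}.Sp₂(3) (maximality is not assumed). Ω is the set of cosets of `H` in `T`, so an element of `T` of prime order `r` (a matrix `x` of determinant 1 with `x^r` scalar, `x` not scalar) fixes a point of Ω exactly when some conjugate of `x` by a matrix of determinant 1 normalizes `R`. Let `r` be a prime dividing the index of `H`. Then every element of `T` of order `r` fixes a point of Ω if and only if `r = 2`, or `r = 3` and `p ≡ 1 (mod 9)`. -/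
theorem result {F : Type*} [Field F] [Fintype F] {p : ℕ} [Fact p.Prime] [CharP F p] (hF : Fintype.card F = p) (hp3 : p % 3 = 1)
    (R : Subgroup (GL (Fin 3) F)) (hR : Nat.card R = 27) (hRe : Monoid.exponent R = 3) (hRna : ¬ IsMulCommutative R)
    (r : ℕ) [Fact r.Prime]
    (hΩ : r ∣ (Cfsg.Geo.subgroupNormalizer R).relIndex (Cfsg.Geo.specialLinear (Fin 3) F)) :
    (∀ x ∈ Cfsg.Geo.specialLinear (Fin 3) F, (∃ z : F, ((x ^ r : GL (Fin 3) F) : Matrix (Fin 3) (Fin 3) F) = z • (1 : Matrix (Fin 3) (Fin 3) F)) →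
      (∀ z : F, (x : Matrix (Fin 3) (Fin 3) F) ≠ z • (1 : Matrix (Fin 3) (Fin 3) F)) →
      ∃ g ∈ Cfsg.Geo.specialLinear (Fin 3) F, g⁻¹ * x * g ∈ Cfsg.Geo.subgroupNormalizer R) ↔ (r = 2 ∨ (r = 3 ∧ p % 9 = 1)) := by
  classical
  have hp : p.Prime := Fact.out
  have hp7 : 7 ≤ p := by
    have := hp.two_le
    rcases Nat.lt_or_ge p 7 with h | h
    · interval_cases p <;> first | omega | norm_num at hp
    · exact h
  have hsmall : ∀ n : ℕ, 0 < n → n < 7 → (n : F) ≠ 0 := by
    intro n hn hn5 h
    have := Nat.le_of_dvd hn ((CharP.cast_eq_zero_iff F p n).1 h)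
    omega
  have h2 : (2 : F) ≠ 0 := by simpa using hsmall 2 (by norm_num) (by norm_num)
  have h3 : (3 : F) ≠ 0 := by simpa using hsmall 3 (by norm_num) (by norm_num)
  have hcu : Nat.card Fˣ = p - 1 := by rw [Nat.card_units, Nat.card_eq_fintype_card, hF]
  have root : ∀ n : ℕ, n ∣ p - 1 → ∃ ζ : F, IsPrimitiveRoot ζ n := by
    intro n hn
    obtain ⟨u, hu⟩ := IsCyclic.exists_ofOrder_eq_natCard (α := Fˣ)
    obtain ⟨m, hm⟩ := hn
    refine ⟨((u ^ m : Fˣ) : F), IsPrimitiveRoot.coe_units_iff.2 ?_⟩
    exact (IsPrimitiveRoot.iff_orderOf.2 (hu.trans hcu)).pow (by omega) (by rw [hm, mul_comm])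
  obtain ⟨ω₀, hω₀⟩ := root 3 (by omega)
  obtain ⟨ω, g, h, z, P, hω, hgen, hg, hh, hzR, hz, hgP, hhP⟩ :=
    structure_R hω₀ h3 R hR hRe hRna
  have hdetSL : ∀ x ∈ Cfsg.Geo.specialLinear (Fin 3) F, (x : Matrix (Fin 3) (Fin 3) F).det = 1 :=
    fun x hx => CfsgLib.GeoPrime.mem_specialLinear.1 hx
  have hPdet : (P : Matrix (Fin 3) (Fin 3) F).det ≠ 0 := Matrix.GeneralLinearGroup.det_ne_zero P
  have hw3 : ω ^ 3 = 1 := hω.pow_eq_one
  have hRSL : R ≤ Cfsg.Geo.specialLinear (Fin 3) F := by
    rw [hgen, Subgroup.closure_le]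
    rintro a (rfl | rfl)
    · have := congrArg Matrix.det hgP
      rw [Matrix.det_mul, Matrix.det_mul, mul_comm] at this
      apply CfsgLib.GeoPrime.mem_specialLinear.2
      rw [mul_left_cancel₀ hPdet this]
      simp [Fin.prod_univ_three]
      linear_combination hw3
    · have := congrArg Matrix.det hhP
      rw [Matrix.det_mul, Matrix.det_mul, mul_comm] at this
      apply CfsgLib.GeoPrime.mem_specialLinear.2
      rw [mul_left_cancel₀ hPdet this]
      simp [shift, Matrix.det_fin_three]
  have hrp : r.Prime := Fact.out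
  constructor
  · intro hall
    by_contra hr
    push Not at hr
    rcases Nat.lt_or_ge r 5 with hlt | hr5
    · -- `r = 3` does not divide the index
      have hr3 : r = 3 := by
        have := hrp.two_le
        interval_cases r <;> first | omega | norm_num at hrp
      subst hr3
      have hp9 := hr.2 rfl
      set K := (Cfsg.Geo.subgroupNormalizer R).subgroupOf (Cfsg.Geo.specialLinear (Fin 3) F) with hK
      have h27 : 27 ∣ Nat.card K := by
        have hle : R.subgroupOf (Cfsg.Geo.specialLinear (Fin 3) F) ≤ K :=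
          fun a ha => Subgroup.le_normalizer ha
        have := Subgroup.card_dvd_of_le hle
        rwa [Nat.card_congr (Subgroup.subgroupOfEquivOfLe hRSL).toEquiv, hR] at this
      have h81 : 81 ∣ Nat.card (Cfsg.Geo.specialLinear (Fin 3) F) := by
        rw [← K.card_mul_index]
        exact mul_dvd_mul h27 hΩ
      have hsurj : Function.Surjective (Matrix.GeneralLinearGroup.det : GL (Fin 3) F →* Fˣ) := by
        intro u
        refine ⟨Matrix.GeneralLinearGroup.mk'' (Matrix.diagonal ![(u : F), 1, 1])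
          (by simp [Fin.prod_univ_three]), Units.ext (by simp [Fin.prod_univ_three])⟩
      have hgl : 243 ∣ Nat.card (GL (Fin 3) F) := by
        rw [← (Matrix.GeneralLinearGroup.det : GL (Fin 3) F →* Fˣ).ker.card_mul_index,
          Subgroup.index_ker, MonoidHom.range_eq_top.2 hsurj, Subgroup.card_top, hcu]
        exact mul_dvd_mul h81 (show 3 ∣ p - 1 by omega)
      rw [Matrix.card_GL_field, hF, Fin.prod_univ_three] at hgl
      simp only [Fin.val_zero, Fin.val_one, Fin.val_two, pow_zero, pow_one] at hgl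
      have hval : (p : ZMod 243).val % 9 = p % 9 := by
        rw [ZMod.val_natCast, Nat.mod_mod_of_dvd _ (by norm_num : 9 ∣ 243)]
      apply card_check (p : ZMod 243) (by omega)
      have := (ZMod.natCast_eq_zero_iff _ _).2 hgl
      have l1 : 1 ≤ p ^ 3 := Nat.one_le_pow _ _ hp.pos
      have l2 : p ≤ p ^ 3 := Nat.le_self_pow (by norm_num) _
      have l3 : p ^ 2 ≤ p ^ 3 := Nat.pow_le_pow_right hp.pos (by norm_num)
      push_cast [Nat.cast_sub l1, Nat.cast_sub l2, Nat.cast_sub l3] at this
      exact this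
    · have hdvd : r ∣ Nat.card (Cfsg.Geo.specialLinear (Fin 3) F) :=
        hΩ.trans (Subgroup.index_dvd_card _)
      obtain ⟨x, hx⟩ := exists_prime_orderOf_dvd_card' r hdvd
      have hx' : orderOf (x : GL (Fin 3) F) = r := by rw [Subgroup.orderOf_coe, hx]
      have hxr : (x : GL (Fin 3) F) ^ r = 1 := by rw [← hx']; exact pow_orderOf_eq_one _
      have hns : ∀ c : F, ((x : GL (Fin 3) F) : Matrix (Fin 3) (Fin 3) F) ≠
          c • (1 : Matrix (Fin 3) (Fin 3) F) := by
        intro c hc
        have hd := hdetSL _ x.2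
        rw [hc] at hd
        simp at hd
        have : (x : GL (Fin 3) F) ^ 3 = 1 := by
          apply Units.ext
          rw [Units.val_pow_eq_pow_val, hc, smul_pow, one_pow, hd, one_smul, Units.val_one]
        have := Nat.le_of_dvd (by norm_num) (hx' ▸ orderOf_dvd_of_pow_eq_one this)
        omega
      obtain ⟨u, -, hy⟩ := hall _ x.2 ⟨1, by rw [hxr, one_smul, Units.val_one]⟩ hns
      set y := u⁻¹ * (x : GL (Fin 3) F) * u with hydef
      have hyr : y ^ r = 1 := by
        have := conj_pow (i := r) (a := u⁻¹) (b := (x : GL (Fin 3) F))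
        rw [inv_inv, hxr, mul_one, inv_mul_cancel] at this
        exact this
      set σ : MulAut R := R.normalizerMonoidHom ⟨y, hy⟩ with hσ
      have hσr : σ ^ r = 1 := by
        rw [hσ, ← map_pow]
        have : (⟨y, hy⟩ : Subgroup.normalizer (R : Set (GL (Fin 3) F))) ^ r = 1 :=
          Subtype.ext (by simpa using hyr)
        rw [this, map_one]
      have hpgrp : IsPGroup r (Subgroup.zpowers σ) := by
        rintro ⟨τ, m, rfl⟩
        refine ⟨1, Subtype.ext ?_⟩
        simp only [pow_one, SubgroupClass.coe_pow, OneMemClass.coe_one]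
        rw [← zpow_natCast, ← _root_.zpow_mul, mul_comm, _root_.zpow_mul, zpow_natCast, hσr, _root_.one_zpow]
      have hmod := hpgrp.card_modEq_card_fixedPoints (α := R)
      let C : Subgroup R := σ.toMonoidHom.eqLocus (MonoidHom.id R)
      have hfix : MulAction.fixedPoints (Subgroup.zpowers σ) R = (C : Set R) := by
        ext a
        constructor
        · intro ha
          exact ha ⟨σ, Subgroup.mem_zpowers σ⟩
        · intro ha τ
          have hst : σ ∈ MulAction.stabilizer (MulAut R) a := ha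
          exact (Subgroup.zpowers_le.2 hst) τ.2
      rw [hfix] at hmod
      change Nat.card R ≡ Nat.card C [MOD r] at hmod
      rw [hR] at hmod
      have hzC : (⟨z, hzR⟩ : R) ∈ C := by
        show σ ⟨z, hzR⟩ = ⟨z, hzR⟩
        apply Subtype.ext
        show y * z * y⁻¹ = z
        have : y * z = z * y := Units.ext (by simp [hz])
        rw [this, mul_inv_cancel_right]
      have hC1 : Nat.card C ≠ 1 := by
        intro h1
        have := Subgroup.card_eq_one.1 h1
        rw [this, Subgroup.mem_bot, Subtype.ext_iff] at hzC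
        apply hω.ne_one (by norm_num)
        have h0 := congrArg (fun u : GL (Fin 3) F => (u : Matrix (Fin 3) (Fin 3) F) 0 0) hzC
        simpa [hz] using h0
      have hCtop : C = ⊤ := by
        have hC := C.card_subgroup_dvd_card
        rw [hR] at hC
        obtain ⟨i, hi, hi'⟩ := (Nat.dvd_prime_pow (p := 3) (m := 3) (by norm_num)).1
          (show Nat.card C ∣ 3 ^ 3 from hC)
        rw [hi'] at hmod hC1
        have hd := (Nat.modEq_iff_dvd' (by
          calc 3 ^ i ≤ 3 ^ 3 := Nat.pow_le_pow_right (by norm_num) hi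
            _ = 27 := by norm_num)).1 hmod.symm
        interval_cases i
        · simp at hC1
        · norm_num at hd
          have := Nat.le_of_dvd (by norm_num) hd
          interval_cases r <;> first | omega | norm_num at hrp
        · norm_num at hd
          have := Nat.le_of_dvd (by norm_num) hd
          interval_cases r <;> first | omega | norm_num at hrp
        · exact Subgroup.eq_top_of_card_eq C (by rw [hi', hR]; norm_num)
      have hcomm : ∀ n ∈ R, y * n = n * y := by
        intro n hn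
        have hm : (⟨n, hn⟩ : R) ∈ C := hCtop ▸ Subgroup.mem_top _
        have hk' : y * n * y⁻¹ = n := congrArg Subtype.val hm
        calc y * n = y * n * y⁻¹ * y := by group
          _ = n * y := by rw [hk']
      obtain ⟨c, hc⟩ := scalar_of_comm hω hgP hhP (hcomm g hg) (hcomm h hh)
      apply hns c
      have hxy : (x : GL (Fin 3) F) = u * y * u⁻¹ := by rw [hydef]; group
      rw [hxy, Units.val_mul, Units.val_mul, hc, Matrix.mul_smul, Matrix.smul_mul, mul_one,
        ← Units.val_mul, mul_inv_cancel, Units.val_one]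
  · intro hr x hxS ⟨c, hc⟩ hns
    have hdx := hdetSL x hxS
    set X := (x : Matrix (Fin 3) (Fin 3) F) with hX
    rw [Units.val_pow_eq_pow_val, ← hX] at hc
    have hc3 : c ^ 3 = 1 := by
      have := congrArg Matrix.det hc
      simpa [Matrix.det_pow, hdx] using this.symm
    have hc0 : c ≠ 0 := fun h0 => by simp [h0] at hc3
    have finish : ∀ (η : F), η ≠ 0 → η ^ r = c → ∀ ζ : F, IsPrimitiveRoot ζ r → (r : F) ≠ 0 →
        ∃ (A : GL (Fin 3) F) (d : Fin 3 → F), X * A = A * Matrix.diagonal (fun i => η * d i) ∧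
          (∀ i, d i ^ r = 1) ∧ η ^ 3 * (d 0 * d 1 * d 2) = 1 ∧ ¬ (d 0 = d 1 ∧ d 1 = d 2) := by
      intro η hη hηr ζ hζ hr0
      have : NeZero r := ⟨hrp.ne_zero⟩
      obtain ⟨A, d, hA, hd⟩ := exists_diag hr0 hζ (M := η⁻¹ • X) (by
        rw [smul_pow, hc, smul_smul, inv_pow, hηr, inv_mul_cancel₀ hc0, one_smul])
      have hA' : X * A = A * Matrix.diagonal (fun i => η * d i) := by
        rw [Matrix.smul_mul] at hA
        calc X * A = η • (η⁻¹ • (X * A)) := by rw [smul_smul, mul_inv_cancel₀ hη, one_smul]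
          _ = η • (A * Matrix.diagonal d) := by rw [hA]
          _ = A * Matrix.diagonal (fun i => η * d i) := by
            rw [← Matrix.mul_smul, ← Matrix.diagonal_smul]; rfl
      have hdet := congrArg Matrix.det hA'
      rw [Matrix.det_mul, Matrix.det_mul, hdx, one_mul, Matrix.det_diagonal] at hdet
      have hAd : (A : Matrix (Fin 3) (Fin 3) F).det ≠ 0 := Matrix.GeneralLinearGroup.det_ne_zero A
      have hprod := mul_left_cancel₀ hAd ((mul_one _).trans hdet)
      refine ⟨A, d, hA', hd, ?_, fun ⟨e1, e2⟩ => hns (η * d 0) ?_⟩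
      · rw [Fin.prod_univ_three] at hprod
        linear_combination -hprod
      · have : (fun i => η * d i) = fun _ => η * d 0 := by
          funext i; fin_cases i <;> simp [e1, e2]
        rw [this, ← Matrix.smul_one_eq_diagonal, Matrix.mul_smul, mul_one] at hA'
        have := congrArg (· * (↑A⁻¹ : Matrix (Fin 3) (Fin 3) F)) hA'
        simpa [mul_assoc] using this
    rcases hr with rfl | ⟨rfl, hp9⟩
    · have hη : (c * c) ^ 2 = c := by linear_combination c * hc3
      obtain ⟨A, d, hA, hd, hprod, hne⟩ := finish (c * c) (mul_ne_zero hc0 hc0) hη (-1)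
        (IsPrimitiveRoot.neg_one p (by omega)) (by simpa using h2)
      have hprod' : d 0 * d 1 * d 2 = 1 := by
        linear_combination hprod - (c ^ 3 + 1) * (d 0 * d 1 * d 2) * hc3
      have hpm : ∀ i, d i = 1 ∨ d i = -1 := fun i => by
        have := hd i; rw [sq] at this; exact mul_self_eq_one_iff.1 this
      obtain ⟨s, hs⟩ : ∃ s : Equiv.Perm (Fin 3), ∀ i, d (s i) = ![-1, -1, 1] i := by
        have hn : (-1 : F) ≠ 1 := fun e => h2 (by linear_combination -e)
        rcases hpm 0 with e0 | e0 <;> rcases hpm 1 with e1 | e1 <;> rcases hpm 2 with e2 | e2 <;>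
          simp only [e0, e1, e2] at hprod' hne <;>
          first
            | (exfalso; simp at hprod' hne; done)
            | (exfalso; exact hn (by simpa using hprod'))
            | (refine ⟨Equiv.swap 0 2, fun i => ?_⟩; fin_cases i <;> simp [e0, e1, e2, Equiv.swap_apply_of_ne_of_ne]; done)
            | (refine ⟨Equiv.swap 1 2, fun i => ?_⟩; fin_cases i <;> simp [e0, e1, e2, Equiv.swap_apply_of_ne_of_ne]; done)
            | (refine ⟨1, fun i => ?_⟩; fin_cases i <;> simp [e0, e1, e2]; done)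
      have hA2 : IsUnit ((A : Matrix (Fin 3) (Fin 3) F).submatrix id s) :=
        Matrix.isUnit_submatrix_equiv (e₁ := Equiv.refl _) (e₂ := s) |>.2 A.isUnit
      have hA2' : X * hA2.unit = hA2.unit * Matrix.diagonal (fun i => c * c * ![-1, -1, 1] i) := by
        rw [IsUnit.unit_spec]
        ext i j
        have := congrFun (congrFun hA i) (s j)
        rw [Matrix.mul_diagonal] at this ⊢
        simp only [Matrix.submatrix_apply, id_eq, Matrix.mul_apply, hs] at this ⊢
        exact this
      set T : Matrix (Fin 3) (Fin 3) F := !![-1, 0, 0; 0, 0, -1; 0, -1, 0] with hT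
      have hTdet : T.det ≠ 0 := by simp [hT, Matrix.det_fin_three]
      let B₀ : GL (Fin 3) F := Matrix.GeneralLinearGroup.mk'' !![1, 0, 0; 0, 1, 1; 0, 1, -1]
        (isUnit_iff_ne_zero.2 (by
          simp [Matrix.det_fin_three]
          exact fun e => h2 (by linear_combination -e)))
      let T₀ : GL (Fin 3) F := Matrix.GeneralLinearGroup.mk'' T (isUnit_iff_ne_zero.2 hTdet)
      let L : GL (Fin 3) F := Matrix.GeneralLinearGroup.mk'' ((c * c) • 1)
        (isUnit_iff_ne_zero.2 (by simp [hc0]))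
      have hB : ((P * T₀ * P⁻¹ * L : GL (Fin 3) F) : Matrix (Fin 3) (Fin 3) F) * (P * B₀ : GL (Fin 3) F)
          = (P * B₀ : GL (Fin 3) F) * Matrix.diagonal (fun i => c * c * ![-1, -1, 1] i) := by
        have hTB : (T₀ : Matrix (Fin 3) (Fin 3) F) * (↑B₀ : Matrix (Fin 3) (Fin 3) F) =
            (↑B₀ : Matrix (Fin 3) (Fin 3) F) * Matrix.diagonal ![-1, -1, 1] := by
          show T * !![(1 : F), 0, 0; 0, 1, 1; 0, 1, -1] = !![1, 0, 0; 0, 1, 1; 0, 1, -1] * _
          ext i j
          fin_cases i <;> fin_cases j <;> simp [hT, Matrix.mul_apply, Fin.sum_univ_three]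
        have hL : (L : Matrix (Fin 3) (Fin 3) F) = (c * c) • 1 := rfl
        simp only [Units.val_mul, hL, Matrix.mul_smul, mul_one, Matrix.smul_mul]
        rw [show (fun i => c * c * (![-1, -1, 1] : Fin 3 → F) i) = (c * c) • ![-1, -1, 1] from rfl,
          Matrix.diagonal_smul, Matrix.mul_smul]
        congr 1
        simp only [mul_assoc, Units.inv_mul_cancel_left, hTB]
      obtain ⟨u, hu, he⟩ := exists_conj_sl hA2' hB
      refine ⟨u, hu, he ▸ ?_⟩
      refine mul_mem ?_ ?_
      · apply conj_mem_normalizer hgen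
        have cancel : ∀ a b : GL (Fin 3) F, (a : Matrix (Fin 3) (Fin 3) F) * P = b * P → a = b :=
          fun a b h' => mul_right_cancel (b := P) (Units.ext (by simpa using h'))
        have hT0 : (T₀ : Matrix (Fin 3) (Fin 3) F) = T := rfl
        rintro a (rfl | rfl)
        · have : P * T₀ * P⁻¹ * a = a * a * (P * T₀ * P⁻¹) := by
            apply cancel
            simp only [Units.val_mul, mul_assoc]
            rw [hgP, Units.inv_mul, mul_one, ← mul_assoc (a : Matrix (Fin 3) (Fin 3) F) P, hgP,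
              Units.inv_mul_cancel_left, mul_assoc (P : Matrix (Fin 3) (Fin 3) F),
              ← mul_assoc (a : Matrix (Fin 3) (Fin 3) F), hgP, mul_assoc, hT0]
            congr 1
            ext i j
            fin_cases i <;> fin_cases j <;>
              simp [hT, Matrix.mul_apply, Fin.sum_univ_three, Matrix.diagonal_apply]
            all_goals first | ring1 | linear_combination ω * hw3 | linear_combination -ω * hw3 | linear_combination (2 * ω) * hw3 | linear_combination (-2 * ω) * hw3
          rw [this, mul_inv_cancel_right]; exact mul_mem hg hg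
        · have : P * T₀ * P⁻¹ * a = a * a * (P * T₀ * P⁻¹) := by
            apply cancel
            simp only [Units.val_mul, mul_assoc]
            rw [hhP, Units.inv_mul, mul_one, ← mul_assoc (a : Matrix (Fin 3) (Fin 3) F) P, hhP,
              Units.inv_mul_cancel_left, mul_assoc (P : Matrix (Fin 3) (Fin 3) F),
              ← mul_assoc (a : Matrix (Fin 3) (Fin 3) F), hhP, mul_assoc, hT0]
            congr 1
            ext i j
            fin_cases i <;> fin_cases j <;>
              simp [hT, shift, Matrix.mul_apply, Fin.sum_univ_three]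
          rw [this, mul_inv_cancel_right]; exact mul_mem hh hh
      · refine Subgroup.mem_normalizer_iff.2 fun n => ?_
        have : L * n * L⁻¹ = n := by
          rw [mul_inv_eq_iff_eq_mul]
          refine Units.ext ?_
          rw [Units.val_mul, Units.val_mul, show (L : Matrix (Fin 3) (Fin 3) F) = (c * c) • 1 from rfl,
            Matrix.smul_mul, Matrix.mul_smul, one_mul, mul_one]
        rw [this]
    · obtain ⟨ζ, hζ⟩ := root 9 (by omega)
      have hζ3 : IsPrimitiveRoot (ζ ^ 3) 3 := hζ.pow (by norm_num) (by norm_num)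
      obtain ⟨k, -, hk⟩ := hζ3.eq_pow_of_pow_eq_one hc3
      have hη : (ζ ^ k) ^ 3 = c := by rw [← hk, ← pow_mul, ← pow_mul, mul_comm]
      obtain ⟨A, d, hA, hd, -, -⟩ := finish (ζ ^ k) (pow_ne_zero _ (hζ.ne_zero (by norm_num))) hη
        ω hω (by simpa using h3)
      have hd0 : ∀ i, d i ≠ 0 := fun i h0 => by simpa [h0] using hd i
      have hη0 : ζ ^ k ≠ 0 := pow_ne_zero _ (hζ.ne_zero (by norm_num))
      let E : GL (Fin 3) F := Matrix.GeneralLinearGroup.mk'' (Matrix.diagonal fun i => ζ ^ k * d i)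
        (isUnit_iff_ne_zero.2 (by
          rw [Matrix.det_diagonal]
          exact Finset.prod_ne_zero_iff.2 fun i _ => mul_ne_zero hη0 (hd0 i)))
      have hB : ((P * E * P⁻¹ : GL (Fin 3) F) : Matrix (Fin 3) (Fin 3) F) * P
          = P * Matrix.diagonal (fun i => ζ ^ k * d i) := by
        simp only [Units.val_mul, mul_assoc, Units.inv_mul, mul_one]
        rfl
      obtain ⟨u, hu, he⟩ := exists_conj_sl hA hB
      refine ⟨u, hu, he ▸ ?_⟩
      exact diag_conj_mem hω hgen hg hh hzR hz hgP hhP hB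
        (fun i => by rw [mul_div_mul_left _ _ hη0, div_pow, hd i, hd 0, div_one])
        (fun i => mul_ne_zero hη0 (hd0 i))

end Cfsg.Agent.S5998
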