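import Cfsg.Statements.S5999
import Cfsg.Agent.HeisU3.Main

set_option autoImplicit false
open scoped MatrixGroups
open Cfsg

set_option maxHeartbeats 1000000

namespace Cfsg.Agent.S5999

/-- Elements of prime order of PSU_3(p), p ≡ 2 (mod 3), and the normalizer of an extraspecial subgroup of order 27. Here `T = PSU_3(p)` for a prime `p ≥ 5` with `p ≡ 2 (mod 3)`, realised through `SU_3(p)`, the matrices of determinant 1 over the field `F` with `p²` elements preserving the hermitian form `Σ uᵢvᵢ^p`; `R` is a non-abelian subgroup of order 27 and exponent 3 of the full unitary group of that form (an extraspecial group 3^{1+2}, acting absolutely irreducibly), and `H` is the subgroup of `SU_3(p)` normalizing `R` — a subgroup of type 3^{1+2}.Sp₂(3) (maximality is not assumed). Ω is the set of cosets of `H`, so an element of `T` of prime order `r` (`x ∈ SU_3(p)` with `x^r` scalar, `x` not scalar) fixes a point of Ω exactly when some `SU_3(p)`-conjugate of `x` normalizes `R`. Let `r` be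 a prime dividing the index of `H`. Then every element of `T` of order `r` fixes a point of Ω if and only if `r = 2`, or `r = 3` and `p ≡ 8 (mod 9)`. -/
theorem result {F : Type*} [Field F] [Fintype F] {p : ℕ} [Fact p.Prime] [CharP F p] (hF : Fintype.card F = p ^ 2) (hp : 5 ≤ p) (hp3 : p % 3 = 2)
    (R : Subgroup (GL (Fin 3) F)) (hRU : R ≤ Cfsg.GU 3 F p) (hR : Nat.card R = 27) (hRe : Monoid.exponent R = 3) (hRna : ¬ IsMulCommutative R)
    (r : ℕ) [Fact r.Prime]
    (hΩ : r ∣ (Cfsg.Geo.subgroupNormalizer R).relIndex (Cfsg.GU 3 F p ⊓ Cfsg.Geo.specialLinear (Fin 3) F)) :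
    (∀ x ∈ Cfsg.GU 3 F p ⊓ Cfsg.Geo.specialLinear (Fin 3) F, (∃ z : F, ((x ^ r : GL (Fin 3) F) : Matrix (Fin 3) (Fin 3) F) = z • (1 : Matrix (Fin 3) (Fin 3) F)) →
      (∀ z : F, (x : Matrix (Fin 3) (Fin 3) F) ≠ z • (1 : Matrix (Fin 3) (Fin 3) F)) →
      ∃ g ∈ Cfsg.GU 3 F p ⊓ Cfsg.Geo.specialLinear (Fin 3) F, g⁻¹ * x * g ∈ Cfsg.Geo.subgroupNormalizer R) ↔ (r = 2 ∨ (r = 3 ∧ p % 9 = 8)) := by
  classical
  obtain ⟨C⟩ := CfsgLib.UGeom.nonempty_conj (F := F) (q := p) hF
  obtain ⟨H⟩ := CfsgLib.HeisU3.exists_heis C hp3 R hRU hR hRe hRna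
  have hp2 : p ≠ 2 := by omega
  have h2 : (2 : F) ≠ 0 := fun h => hp2 ((Nat.prime_dvd_prime_iff_eq Fact.out Nat.prime_two).1
    ((CharP.cast_eq_zero_iff F p 2).1 (by exact_mod_cast h)))
  set S : Subgroup (GL (Fin 3) F) := Cfsg.GU 3 F p ⊓ Cfsg.Geo.specialLinear (Fin 3) F with hSd
  have hidx : (Cfsg.Geo.subgroupNormalizer R).relIndex S * Nat.card ((Cfsg.Geo.subgroupNormalizer R).subgroupOf S) =
      Nat.card S := Subgroup.index_mul_card _
  have hr := (Fact.out : r.Prime)
  have hdetz : ∀ x ∈ S, ∀ z : F,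
      ((x ^ r : GL (Fin 3) F) : Matrix (Fin 3) (Fin 3) F) = z • (1 : Matrix (Fin 3) (Fin 3) F) → z ^ 3 = 1 := by
    intro x hx z hz
    have h1 := congrArg Matrix.det hz
    rw [Matrix.det_smul, Matrix.det_one, mul_one, Fintype.card_fin, ← Matrix.GeneralLinearGroup.val_det_apply,
      map_pow, MonoidHom.mem_ker.1 (Subgroup.mem_inf.1 hx).2, one_pow, Units.val_one] at h1
    exact h1.symm
  constructor
  · intro hall
    rcases eq_or_ne r 2 with h | h
    · exact Or.inl h
    right
    rcases eq_or_ne r 3 with rfl | h3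
    · refine ⟨rfl, ?_⟩
      by_contra h9
      have h27 : 27 ∣ Nat.card ((Cfsg.Geo.subgroupNormalizer R).subgroupOf S) := by
        have hle : R.subgroupOf S ≤ (Cfsg.Geo.subgroupNormalizer R).subgroupOf S :=
          Subgroup.comap_mono (Subgroup.le_normalizer : R ≤ Subgroup.normalizer (R : Set (GL (Fin 3) F)))
        have h1 := Subgroup.card_dvd_of_le hle
        rwa [Nat.card_congr (Subgroup.subgroupOfEquivOfLe (le_inf hRU H.sl : R ≤ S)).toEquiv, hR] at h1
      have h81 : 81 ∣ Nat.card S := hidx ▸ Nat.mul_dvd_mul hΩ h27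
      have hcard : Nat.card S = Nat.card (Cfsg.SU 3 F p) := by
        refine Nat.card_congr ?_
        exact
          { toFun := fun g => ⟨⟨g.1.1, congrArg Units.val (MonoidHom.mem_ker.1 (Subgroup.mem_inf.1 g.2).2)⟩,
              (Subgroup.mem_inf.1 g.2).1⟩
            invFun := fun s => ⟨Matrix.SpecialLinearGroup.toGL s.1, Subgroup.mem_inf.2 ⟨s.2, Units.ext s.1.2⟩⟩
            left_inv := fun g => Subtype.ext (Units.ext rfl)
            right_inv := fun s => Subtype.ext (Subtype.ext rfl) }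
      have hGU := CfsgLib.UGeom.card_SU_mul C (n := 3) (by norm_num)
      rw [← hcard, CfsgLib.UGeom.card_GU C] at hGU
      simp [Finset.prod_range_succ, Nat.even_iff, -Nat.card_eq_fintype_card] at hGU
      have hS : Nat.card S = p ^ 3 * (p ^ 2 - 1) * (p ^ 3 + 1) :=
        Nat.eq_of_mul_eq_mul_left (Nat.succ_pos p) (hGU.trans (by rw [Nat.succ_eq_add_one]; ring))
      rw [hS] at h81
      have hz : ((p : ZMod 81)) ^ 3 * ((p : ZMod 81) ^ 2 - 1) * ((p : ZMod 81) ^ 3 + 1) = 0 := by
        have h1 := (CharP.cast_eq_zero_iff (ZMod 81) 81 _).2 h81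
        rw [Nat.cast_mul, Nat.cast_mul, Nat.cast_sub (Nat.one_le_pow _ _ (by omega))] at h1
        simpa using h1
      have key : ∀ t : ZMod 81, (t.val % 9 = 2 ∨ t.val % 9 = 5) → t ^ 3 * (t ^ 2 - 1) * (t ^ 3 + 1) ≠ 0 := by
        decide +kernel
      refine key _ ?_ hz
      rw [ZMod.val_natCast]
      omega
    · exfalso
      have hr5 : 5 ≤ r := by
        have h4 : r ≠ 4 := fun h => by rw [h] at hr; norm_num at hr
        have := hr.two_le
        omega
      obtain ⟨⟨x, hx⟩, hxo⟩ := exists_prime_orderOf_dvd_card' (G := S) r (hidx ▸ dvd_mul_of_dvd_left hΩ _)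
      have hxr : x ^ r = 1 := by
        have := pow_orderOf_eq_one (⟨x, hx⟩ : S)
        rw [hxo] at this
        exact congrArg Subtype.val this
      have hns : ∀ z : F, (x : Matrix (Fin 3) (Fin 3) F) ≠ z • (1 : Matrix (Fin 3) (Fin 3) F) := by
        intro z hz
        have h1 : z ^ r = 1 := by
          have h0 : ((x ^ r : GL (Fin 3) F) : Matrix (Fin 3) (Fin 3) F) = 1 := by rw [hxr, Units.val_one]
          rw [Units.val_pow_eq_pow_val, hz, smul_pow, one_pow] at h0
          simpa using congrFun (congrFun h0 0) 0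
        have h3' : z ^ 3 = 1 := by
          have hd := congrArg Matrix.det hz
          rw [Matrix.det_smul, Matrix.det_one, mul_one, Fintype.card_fin, ← Matrix.GeneralLinearGroup.val_det_apply,
            MonoidHom.mem_ker.1 (Subgroup.mem_inf.1 hx).2, Units.val_one] at hd
          exact hd.symm
        have hcop : Nat.gcd r 3 = 1 := (Nat.coprime_primes hr Nat.prime_three).2 h3
        have hz1 : z = 1 := by
          have := pow_gcd_eq_one.2 ⟨h1, h3'⟩
          rwa [hcop, pow_one] at this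
        have hx1 : x = 1 := Units.ext (by rw [hz, hz1, one_smul, Units.val_one])
        subst hx1
        rw [show (⟨1, hx⟩ : S) = 1 from rfl, orderOf_one] at hxo
        omega
      obtain ⟨g, hg, hgN⟩ := hall x hx ⟨1, by rw [hxr, Units.val_one, one_smul]⟩ hns
      obtain ⟨c, hc⟩ := CfsgLib.HeisU3.scalar_of_normalizes H hR hr5
        (y := g⁻¹ * x * g) (by rw [show g⁻¹ * x * g = g⁻¹ * x * (g⁻¹)⁻¹ by rw [inv_inv], conj_pow, hxr]; group) hgN
      refine hns c ?_
      rw [show x = g * (g⁻¹ * x * g) * g⁻¹ by group, Units.val_mul, Units.val_mul, hc, Matrix.mul_smul, mul_one,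
        Matrix.smul_mul, ← Units.val_mul, mul_inv_cancel, Units.val_one]
  · intro hr23 x hx ⟨z, hz⟩ hns
    have hz3 := hdetz x hx z hz
    have hz0 : z ≠ 0 := fun h => by rw [h, zero_pow three_ne_zero] at hz3; exact zero_ne_one hz3
    obtain ⟨hxU, hxS⟩ := Subgroup.mem_inf.1 hx
    have hx1 : Matrix.GeneralLinearGroup.det x = 1 := MonoidHom.mem_ker.1 hxS
    rcases hr23 with rfl | ⟨rfl, -⟩
    · let s : Fˣ := (Units.mk0 z hz0) ^ 2
      have hs : s ^ 3 = 1 := by
        refine Units.ext ?_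
        simp only [s, Units.val_pow_eq_pow_val, Units.val_mk0, Units.val_one]
        rw [← pow_mul, mul_comm, pow_mul, hz3, one_pow]
      have hsn := CfsgLib.HeisU3.norm_of_pow C hp3 hs
      have hss : (s : F) * s = z := by
        simp only [s, Units.val_pow_eq_pow_val, Units.val_mk0]
        linear_combination z * hz3
      have hsq : (x : Matrix (Fin 3) (Fin 3) F) * x = ((s : F) * s) • 1 := by
        rw [hss, ← hz, Units.val_pow_eq_pow_val, sq]
      obtain ⟨k, hk, hxk⟩ := CfsgLib.HeisU3.inv_diag C h2 hxU hx1 hs hsn hsq hns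
      let J : GL (Fin 3) F :=
        { val := !![-(s : F), 0, 0; 0, 0, -(s : F); 0, -(s : F), 0]
          inv := !![-((s⁻¹ : Fˣ) : F), 0, 0; 0, 0, -((s⁻¹ : Fˣ) : F); 0, -((s⁻¹ : Fˣ) : F), 0]
          val_inv := by ext i j; fin_cases i <;> fin_cases j <;> simp [Matrix.mul_apply, Fin.sum_univ_three]
          inv_val := by ext i j; fin_cases i <;> fin_cases j <;> simp [Matrix.mul_apply, Fin.sum_univ_three] }
      have hJU : J ∈ Cfsg.GU 3 F p := CfsgLib.HeisU3.mem_GU_iff.2 fun u v => by
        rw [CfsgLib.UGeom.form_eq C, CfsgLib.UGeom.form_eq C]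
        simp [J, Matrix.mulVec, dotProduct, Fin.sum_univ_three]
        linear_combination (u 0 * C.σ (v 0) + u 1 * C.σ (v 1) + u 2 * C.σ (v 2)) * hsn
      have hJ1 : Matrix.GeneralLinearGroup.det J = 1 := by
        refine Units.ext ?_
        show Matrix.det (!![-(s : F), 0, 0; 0, 0, -(s : F); 0, -(s : F), 0]) = 1
        have : (s : F) ^ 3 = 1 := by rw [← Units.val_pow_eq_pow_val, hs, Units.val_one]
        simp [Matrix.det_fin_three]
        linear_combination this
      have hJs : (J : Matrix (Fin 3) (Fin 3) F) * J = ((s : F) * s) • 1 := by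
        ext i j
        fin_cases i <;> fin_cases j <;> simp [J, Matrix.mul_apply, Fin.sum_univ_three]
      have hJn : ∀ c : F, (J : Matrix (Fin 3) (Fin 3) F) ≠ c • 1 := fun c h => by
        have := congrFun (congrFun h 1) 2
        simp [J] at this
      obtain ⟨k', hk', hJk⟩ := CfsgLib.HeisU3.inv_diag C h2 hJU hJ1 hs hsn hJs hJn
      obtain ⟨G, hG, hGe⟩ := CfsgLib.HeisU3.transport C hk hk' H.mem hxk hJk
      have hw : (H.w : F) ^ 3 = 1 := by rw [← Units.val_pow_eq_pow_val, H.cube, Units.val_one]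
      refine ⟨G, hG, hGe ▸ CfsgLib.HeisU3.conj_mem H hR (U := CfsgLib.HeisU3.A0 H.w ^ 2)
        (V := CfsgLib.HeisU3.P0 F ^ 2) ?_ ?_ ?_ ?_⟩
      · rw [← conj_pow]; exact R.pow_mem H.hA 2
      · rw [← conj_pow]; exact R.pow_mem H.hP 2
      · refine Units.ext (Matrix.ext fun i j => ?_)
        simp only [CfsgLib.HeisU3.A0, CfsgLib.HeisU3.Dg_pow, Units.val_mul, CfsgLib.HeisU3.Dg_val,
          Matrix.mul_diagonal, Matrix.diagonal_mul]
        fin_cases i <;> fin_cases j <;> simp [J] <;> first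
          | ring1
          | linear_combination (s : F) * (H.w : F) * hw
          | linear_combination -((s : F) * (H.w : F)) * hw
      · refine Units.ext (Matrix.ext fun i j => ?_)
        simp only [sq, Units.val_mul]
        fin_cases i <;> fin_cases j <;> simp [J, CfsgLib.HeisU3.P0, Matrix.mul_apply, Fin.sum_univ_three]
    · obtain ⟨a, ha⟩ := CfsgLib.HeisU3.exists_root hx1 hz
      have ha0 : a ≠ 0 := fun h => hz0 (by rw [← ha, h, zero_pow three_ne_zero])
      exact CfsgLib.HeisU3.three H C hp3 hR hxU hns (a := Units.mk0 a ha0)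
        (Units.ext (by simp [ha, hz3])) (by rw [Units.val_mk0, ha]; exact hz)

end Cfsg.Agent.S5999
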