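import Cfsg.Statements.S6000
import Cfsg.Agent.HeisFour.Data
import Cfsg.Agent.HeisFour.Neg
import Cfsg.Agent.HeisFour.Classes
import Cfsg.Agent.SL2.Basic
import Cfsg.Agent.S5998

set_option autoImplicit false
open scoped MatrixGroups
open Cfsg

set_option maxHeartbeats 1000000

namespace Cfsg.Agent.S6000

/-- Residues modulo five of order other than four. -/
theorem zmod_five (a : ZMod 5) (ha : orderOf a ≠ 4) : a * (a ^ 2 - 1) = 0 := by
  haveI : Fact (Nat.Prime 2) := ⟨Nat.prime_two⟩
  have h : a = 0 ∨ a = 1 ∨ a = 2 ∨ a = 3 ∨ a = 4 := by clear ha; revert a; decide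
  rcases h with rfl | rfl | rfl | rfl | rfl
  · decide
  · decide
  · exact absurd (orderOf_eq_prime_pow (p := 2) (n := 1) (by decide) (by decide)) ha
  · exact absurd (orderOf_eq_prime_pow (p := 2) (n := 1) (by decide) (by decide)) ha
  · decide

open Matrix CfsgLib.HeisFour in
/-- A `2 × 2` block doubled. -/
theorem exists_double {F : Type*} [Field F] [Fintype F] {p : ℕ} [Fact p.Prime] (hF : Fintype.card F = p)
    (h5 : 5 ∣ p * (p ^ 2 - 1)) :
    ∃ (x : GL (Fin 4) F) (t : F), x ^ 5 = 1 ∧ Matrix.GeneralLinearGroup.det x = 1 ∧ x ≠ 1 ∧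
      (x : Matrix (Fin 4) (Fin 4) F) + ((x⁻¹ : GL (Fin 4) F) : Matrix (Fin 4) (Fin 4) F) = t • 1 := by
  haveI : Fact (Nat.Prime 5) := ⟨by norm_num⟩
  obtain ⟨n, hn⟩ := exists_prime_orderOf_dvd_card' (G := Matrix.SpecialLinearGroup (Fin 2) F) 5 (by
    rw [CfsgLib.SL2.card_SL2, hF]; exact h5)
  let dbl : Matrix (Fin 2) (Fin 2) F → Matrix (Fin 4) (Fin 4) F := fun N =>
    !![N 0 0, N 0 1, 0, 0; N 1 0, N 1 1, 0, 0; 0, 0, N 0 0, N 0 1; 0, 0, N 1 0, N 1 1]
  have hmul : ∀ A B, dbl (A * B) = dbl A * dbl B := fun A B => by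
    ext r k
    fin_cases r <;> fin_cases k <;> simp [dbl, Matrix.mul_apply, Fin.sum_univ_four, Fin.sum_univ_two]
  have hone : dbl 1 = 1 := by ext r k; fin_cases r <;> fin_cases k <;> simp [dbl]
  let f : Matrix.SpecialLinearGroup (Fin 2) F →* GL (Fin 4) F :=
    MonoidHom.toHomUnits ⟨⟨fun s => dbl s.1, hone⟩, fun a b => hmul a.1 b.1⟩
  have hf : ∀ s, (f s : Matrix (Fin 4) (Fin 4) F) = dbl s.1 := fun s => rfl
  refine ⟨f n, n.1 0 0 + n.1 1 1, ?_, ?_, fun h => ?_, ?_⟩
  · rw [← map_pow, show n ^ 5 = 1 by rw [← hn, pow_orderOf_eq_one], map_one]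
  · refine Units.ext ?_
    show (f n : Matrix (Fin 4) (Fin 4) F).det = 1
    have hd : n.1 0 0 * n.1 1 1 - n.1 0 1 * n.1 1 0 = 1 := (Matrix.det_fin_two n.1).symm.trans n.2
    rw [hf]
    simp [dbl, Matrix.det_succ_row_zero, Fin.sum_univ_succ, Fin.succAbove]
    linear_combination (n.1 0 0 * n.1 1 1 - n.1 0 1 * n.1 1 0 + 1) * hd
  · have h1 : n = 1 := by
      have h' := congrArg (fun g : GL (Fin 4) F => (g : Matrix (Fin 4) (Fin 4) F)) h
      simp only [hf, Units.val_one] at h'
      refine Subtype.ext (Matrix.ext fun r k => ?_)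
      fin_cases r <;> fin_cases k
      · simpa [dbl] using congrFun (congrFun h' 0) 0
      · simpa [dbl] using congrFun (congrFun h' 0) 1
      · simpa [dbl] using congrFun (congrFun h' 1) 0
      · simpa [dbl] using congrFun (congrFun h' 1) 1
    rw [h1, orderOf_one] at hn
    norm_num at hn
  · rw [← map_inv, hf, hf, Matrix.SpecialLinearGroup.coe_inv, Matrix.adjugate_fin_two]
    ext r k
    fin_cases r <;> fin_cases k <;> simp [dbl, add_comm]

/-- Elements of prime order of PSL_4(p), p ≡ 1 (mod 4), and the normalizer of a 2-group of symplectic type of order 2⁶. Here `T = PSL_4(F)` for the field `F` with `p` elements, `p` a prime with `p ≡ 1 (mod 4)`; `R` is an absolutely irreducible subgroup of GL_4(F) of order 2⁶ that is a 2-group of symplectic type of exponent 4 with centre of order 4 (the central product of the scalars of order 4 with an extraspecial group 2^{1+4}), and `H` is the subgroup of matrices of determinant 1 normalizing `R` — a subgroup of type 2⁴.Sp₄(2) (maximality is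 not assumed). Ω is the set of cosets of `H` in `T`, so an element of `T` of prime order `r` (a matrix `x` of determinant 1 with `x^r` scalar, `x` not scalar) fixes a point of Ω exactly when some conjugate of `x` by a matrix of determinant 1 normalizes `R`. Let `r` be a prime dividing the index of `H`. Then every element of `T` of order `r` fixes a point of Ω if and only if `r = 2`, or `r = 3` and `p ≡ 2 (mod 3)`, or `r = 5` and `p ≡ ±2 (mod 5)` (`p` has multiplicative order 4 modulo 5). -/
theorem result {F : Type*} [Field F] [Fintype F] {p : ℕ} [Fact p.Prime] [CharP F p] (hF : Fintype.card F = p) (hp4 : p % 4 = 1)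
    (R : Subgroup (GL (Fin 4) F)) (hR : Cfsg.Geo.IsLinearSymplecticTypeData 2 R) (hR6 : Nat.card R = 2 ^ 6)
    (r : ℕ) [Fact r.Prime]
    (hΩ : r ∣ (Cfsg.Geo.subgroupNormalizer R).relIndex (Cfsg.Geo.specialLinear (Fin 4) F)) :
    (∀ x ∈ Cfsg.Geo.specialLinear (Fin 4) F, (∃ z : F, ((x ^ r : GL (Fin 4) F) : Matrix (Fin 4) (Fin 4) F) = z • (1 : Matrix (Fin 4) (Fin 4) F)) →
      (∀ z : F, (x : Matrix (Fin 4) (Fin 4) F) ≠ z • (1 : Matrix (Fin 4) (Fin 4) F)) →
      ∃ g ∈ Cfsg.Geo.specialLinear (Fin 4) F, g⁻¹ * x * g ∈ Cfsg.Geo.subgroupNormalizer R) ↔ (r = 2 ∨ (r = 3 ∧ p % 3 = 2) ∨ (r = 5 ∧ orderOf (p : ZMod 5) = 4)) := by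
  classical
  have hp2 : p ≠ 2 := by omega
  have h2 : (2 : F) ≠ 0 := fun h => hp2 ((Nat.prime_dvd_prime_iff_eq Fact.out Nat.prime_two).1
    ((CharP.cast_eq_zero_iff F p 2).1 (by exact_mod_cast h)))
  have hp5 : 5 ≤ p := by
    have := (Fact.out : p.Prime).two_le
    omega
  have h3 : (3 : F) ≠ 0 := fun h => by
    have := (Nat.prime_dvd_prime_iff_eq Fact.out Nat.prime_three).1 ((CharP.cast_eq_zero_iff F p 3).1 (by exact_mod_cast h))
    omega
  have hfacts := CfsgLib.HeisFour.facts_of_data h2 hR hR6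
  obtain ⟨H⟩ := CfsgLib.HeisFour.exists_frame h2 hfacts
  haveI hfin : Finite R := Nat.finite_of_card_ne_zero (by rw [hR6]; norm_num)
  have hr := (Fact.out : r.Prime)
  have hone : ∀ x : GL (Fin 4) F, x ≠ 1 → x ^ r = 1 → Matrix.GeneralLinearGroup.det x = 1 → r ≠ 2 →
      ∀ z : F, (x : Matrix (Fin 4) (Fin 4) F) ≠ z • (1 : Matrix (Fin 4) (Fin 4) F) := by
    intro x hx1 hxr hxd hr2 z hz
    have h1 : z ^ r = 1 := by
      have h0 : ((x ^ r : GL (Fin 4) F) : Matrix (Fin 4) (Fin 4) F) = 1 := by rw [hxr, Units.val_one]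
      rw [Units.val_pow_eq_pow_val, hz, smul_pow, one_pow] at h0
      simpa using congrFun (congrFun h0 0) 0
    have h4 : z ^ 4 = 1 := by
      have hd := congrArg Matrix.det hz
      rw [Matrix.det_smul, Matrix.det_one, mul_one, Fintype.card_fin, ← Matrix.GeneralLinearGroup.val_det_apply,
        hxd, Units.val_one] at hd
      exact hd.symm
    have hg : Nat.gcd r 4 = 1 := by
      rw [show (4 : ℕ) = 2 ^ 2 by norm_num]
      exact Nat.Coprime.pow_right 2 ((Nat.coprime_primes hr Nat.prime_two).2 hr2)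
    have hz1 : z = 1 := by
      have := pow_gcd_eq_one.2 ⟨h1, h4⟩
      rwa [hg, pow_one] at this
    exact hx1 (Units.ext (by rw [hz, hz1, one_smul, Units.val_one]))
  have hnorm : ∀ g : GL (Fin 4) F, g ∈ Cfsg.Geo.subgroupNormalizer R → ∀ v ∈ R, g * v * g⁻¹ ∈ R := fun g hg v hv =>
    (Subgroup.mem_normalizer_iff.1 (show g ∈ Subgroup.normalizer (R : Set (GL (Fin 4) F)) from hg) v).1 hv
  constructor
  · intro hall
    rcases eq_or_ne r 2 with h | hr2
    · exact Or.inl h
    right
    rcases eq_or_ne r 3 with rfl | hr3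
    · left
      refine ⟨rfl, ?_⟩
      by_contra hp3
      have hp31 : 3 ∣ p - 1 := by
        have : ¬ (3 ∣ p) := fun h => by
          have := (Nat.prime_dvd_prime_iff_eq Nat.prime_three Fact.out).1 h
          omega
        omega
      obtain ⟨ω, hω⟩ := exists_prime_orderOf_dvd_card' (G := Fˣ) 3 (by
        rw [Nat.card_units, Nat.card_eq_fintype_card, hF]; exact hp31)
      have hω3 : (ω : F) ^ 3 = 1 := by rw [← Units.val_pow_eq_pow_val, ← hω, pow_orderOf_eq_one, Units.val_one]
      have hω1 : (ω : F) ≠ 1 := fun h => by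
        rw [show ω = 1 from Units.ext h, orderOf_one] at hω; norm_num at hω
      have hωs : (ω : F) ^ 2 + ω + 1 = 0 := by
        have : ((ω : F) - 1) * ((ω : F) ^ 2 + ω + 1) = 0 := by linear_combination hω3
        exact (mul_eq_zero.1 this).resolve_left (sub_ne_zero.2 hω1)
      let x : GL (Fin 4) F :=
        { val := Matrix.diagonal ![(ω : F), (ω : F), (ω : F), 1]
          inv := Matrix.diagonal ![(ω : F) ^ 2, (ω : F) ^ 2, (ω : F) ^ 2, 1]
          val_inv := by
            rw [Matrix.diagonal_mul_diagonal, ← Matrix.diagonal_one]; congr 1; funext k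
            fin_cases k <;> simp [← pow_succ', hω3]
          inv_val := by
            rw [Matrix.diagonal_mul_diagonal, ← Matrix.diagonal_one]; congr 1; funext k
            fin_cases k <;> simp [← pow_succ, hω3] }
      have hx3 : x ^ 3 = 1 := by
        refine Units.ext ?_
        rw [Units.val_pow_eq_pow_val, Units.val_one]
        show Matrix.diagonal _ ^ 3 = 1
        rw [Matrix.diagonal_pow, ← Matrix.diagonal_one]; congr 1; funext k
        fin_cases k <;> simp [hω3]
      have hxd : Matrix.GeneralLinearGroup.det x = 1 := by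
        refine Units.ext ?_
        show Matrix.det (Matrix.diagonal ![(ω : F), (ω : F), (ω : F), 1]) = 1
        simp [Matrix.det_diagonal, Fin.prod_univ_four]
        linear_combination hω3
      have hx1 : x ≠ 1 := fun h => hω1 (by
        simpa [x] using congrArg (fun g : GL (Fin 4) F => (g : Matrix (Fin 4) (Fin 4) F) 0 0) h)
      obtain ⟨g, -, hgN⟩ := hall x hxd ⟨1, by rw [hx3, Units.val_one, one_smul]⟩ (hone x hx1 hx3 hxd (by norm_num))
      have hid := CfsgLib.HeisFour.trace_identity hfacts h2 (y := g⁻¹ * x * g) (hnorm _ hgN) Nat.prime_three (by norm_num)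
        (by rw [show g⁻¹ * x * g = g⁻¹ * x * (g⁻¹)⁻¹ by rw [inv_inv], conj_pow, hx3]; group)
      have ht : ((g⁻¹ * x * g : GL (Fin 4) F) : Matrix (Fin 4) (Fin 4) F).trace = 3 * (ω : F) + 1 := by
        rw [Units.val_mul, Units.val_mul, Matrix.trace_mul_comm, ← mul_assoc, ← Units.val_mul, mul_inv_cancel,
          Units.val_one, one_mul]
        show (Matrix.diagonal ![(ω : F), (ω : F), (ω : F), 1]).trace = _
        simp [Matrix.trace_diagonal, Fin.sum_univ_four]
        ring
      have ht' : (((g⁻¹ * x * g)⁻¹ : GL (Fin 4) F) : Matrix (Fin 4) (Fin 4) F).trace = 3 * (ω : F) ^ 2 + 1 := by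
        rw [show (g⁻¹ * x * g)⁻¹ = g⁻¹ * x⁻¹ * g by group, Units.val_mul, Units.val_mul, Matrix.trace_mul_comm,
          ← mul_assoc, ← Units.val_mul, mul_inv_cancel, Units.val_one, one_mul]
        show (Matrix.diagonal ![(ω : F) ^ 2, (ω : F) ^ 2, (ω : F) ^ 2, 1]).trace = _
        simp [Matrix.trace_diagonal, Fin.sum_univ_four]
        ring
      rw [ht, ht'] at hid
      set K := (Subgroup.centralizer {g⁻¹ * x * g}).subgroupOf R
      have hd : Nat.card K ∈ Nat.divisors (2 ^ 6) :=
        Nat.mem_divisors.2 ⟨hR6 ▸ K.card_subgroup_dvd_card, by norm_num⟩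
      have h4 := CfsgLib.HeisFour.four_dvd hfacts hfacts.scal_mem h2 (g⁻¹ * x * g)
      have h7 : (112 : F) = 4 * (Nat.card K : F) := by
        rw [← hid]
        linear_combination (-48 : F) * hωs + (-144 : F) * hω3
      rw [show Nat.divisors (2 ^ 6) = {1, 2, 4, 8, 16, 32, 64} by decide] at hd
      simp only [Finset.mem_insert, Finset.mem_singleton] at hd
      have hne : ∀ n : ℕ, n ∈ [24, 20, 12, 4, 36] → (n : F) ≠ 0 := fun n hn h => by
        have hdvd := (CharP.cast_eq_zero_iff F p n).1 h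
        have hle := Nat.le_of_dvd (by simp at hn; omega) hdvd
        have hpp := (Fact.out : p.Prime)
        simp at hn
        rcases hn with rfl | rfl | rfl | rfl | rfl <;> interval_cases p <;> revert hpp hdvd hp3 hp4 <;> decide
      have h4' : 4 ∣ Nat.card K := h4
      have h40 : (4 : F) ≠ 0 := by rw [show (4 : F) = 2 * 2 by norm_num]; exact mul_ne_zero h2 h2
      rcases hd with h | h | h | h | h | h | h <;> rw [h] at h4' h7
      · norm_num at h4'
      · norm_num at h4'
      · exact hne 24 (by simp) (mul_left_cancel₀ h40 (by push_cast at h7 ⊢; linear_combination h7))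
      · exact hne 20 (by simp) (mul_left_cancel₀ h40 (by push_cast at h7 ⊢; linear_combination h7))
      · exact hne 12 (by simp) (mul_left_cancel₀ h40 (by push_cast at h7 ⊢; linear_combination h7))
      · exact hne 4 (by simp) (mul_left_cancel₀ h40 (by push_cast at h7 ⊢; linear_combination -h7))
      · exact hne 36 (by simp) (mul_left_cancel₀ h40 (by push_cast at h7 ⊢; linear_combination -h7))
    right
    rcases eq_or_ne r 5 with rfl | hr5
    · refine ⟨rfl, ?_⟩
      by_contra hord
      have h5 : 5 ∣ p * (p ^ 2 - 1) := by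
        have hmod : ∀ a : ZMod 5, orderOf a ≠ 4 → a * (a ^ 2 - 1) = 0 := by
          exact fun a ha => zmod_five a ha
        have h := hmod _ hord
        rw [← ZMod.natCast_eq_zero_iff, Nat.cast_mul, Nat.cast_sub (Nat.one_le_pow _ _ (by omega)), Nat.cast_pow,
          Nat.cast_one]
        exact h
      obtain ⟨x, t, hx5, hxd, hx1, hxt⟩ := exists_double hF h5
      obtain ⟨g, -, hgN⟩ := hall x hxd ⟨1, by rw [hx5, Units.val_one, one_smul]⟩ (hone x hx1 hx5 hxd (by norm_num))
      obtain ⟨c, hc⟩ := CfsgLib.HeisFour.quad_scalar hfacts h2 (y := g⁻¹ * x * g) (hnorm _ hgN) hr le_rfl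
        (by rw [show g⁻¹ * x * g = g⁻¹ * x * (g⁻¹)⁻¹ by rw [inv_inv], conj_pow, hx5]; group) (t := t) (by
          rw [show (g⁻¹ * x * g)⁻¹ = g⁻¹ * x⁻¹ * g by group]
          simp only [Units.val_mul]
          rw [← add_mul, ← mul_add, hxt, Matrix.mul_smul, mul_one, Matrix.smul_mul, ← Units.val_mul, inv_mul_cancel,
            Units.val_one])
      refine hone x hx1 hx5 hxd (by norm_num) c ?_
      rw [show x = g * (g⁻¹ * x * g) * g⁻¹ by group, Units.val_mul, Units.val_mul, hc, Matrix.mul_smul, mul_one,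
        Matrix.smul_mul, ← Units.val_mul, mul_inv_cancel, Units.val_one]
    · exfalso
      have hr7 : 7 ≤ r := by
        have := hr.two_le
        by_contra hlt
        interval_cases r <;> first | omega | norm_num at hr
      set S := Cfsg.Geo.specialLinear (Fin 4) F
      have hidx : (Cfsg.Geo.subgroupNormalizer R).relIndex S * Nat.card ((Cfsg.Geo.subgroupNormalizer R).subgroupOf S) =
          Nat.card S := Subgroup.index_mul_card _
      obtain ⟨⟨x, hx⟩, hxo⟩ := exists_prime_orderOf_dvd_card' (G := S) r (hidx ▸ dvd_mul_of_dvd_left hΩ _)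
      have hxr : x ^ r = 1 := by
        have := pow_orderOf_eq_one (⟨x, hx⟩ : S)
        rw [hxo] at this
        exact congrArg Subtype.val this
      have hx1 : x ≠ 1 := by
        intro h
        subst h
        rw [show (⟨1, hx⟩ : S) = 1 from rfl, orderOf_one] at hxo
        omega
      have hxd : Matrix.GeneralLinearGroup.det x = 1 := hx
      obtain ⟨g, -, hgN⟩ := hall x hx ⟨1, by rw [hxr, Units.val_one, one_smul]⟩ (hone x hx1 hxr hxd hr2)
      obtain ⟨c, hc⟩ := CfsgLib.HeisFour.seven_scalar hfacts h2 (y := g⁻¹ * x * g) (hnorm _ hgN) hr7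
        (by rw [show g⁻¹ * x * g = g⁻¹ * x * (g⁻¹)⁻¹ by rw [inv_inv], conj_pow, hxr]; group)
      refine hone x hx1 hxr hxd hr2 c ?_
      rw [show x = g * (g⁻¹ * x * g) * g⁻¹ by group, Units.val_mul, Units.val_mul, hc, Matrix.mul_smul, mul_one,
        Matrix.smul_mul, ← Units.val_mul, mul_inv_cancel, Units.val_one]
  · intro hcase x hx ⟨z, hz⟩ hns
    have hxd : Matrix.GeneralLinearGroup.det x = 1 := hx
    have hz4 : z ^ 4 = 1 := by
      have h1 := congrArg Matrix.det hz
      rw [Matrix.det_smul, Matrix.det_one, mul_one, Fintype.card_fin, ← Matrix.GeneralLinearGroup.val_det_apply,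
        map_pow, hxd, one_pow, Units.val_one] at h1
      exact h1.symm
    have hz0 : z ≠ 0 := fun h => by rw [h, zero_pow (by norm_num)] at hz4; exact zero_ne_one hz4
    rcases hcase with rfl | ⟨rfl, hp3⟩ | ⟨rfl, hp⟩
    · -- involutions
      have hxx : ((x : Matrix (Fin 4) (Fin 4) F)) * x = z • 1 := by
        rw [← hz, Units.val_pow_eq_pow_val, sq]
      by_cases hsq : ∃ a : F, a * a = z
      · obtain ⟨a, ha⟩ := hsq
        have ha0 : a ≠ 0 := fun h => hz0 (by rw [← ha, h, mul_zero])
        have hM : (a⁻¹ • (x : Matrix (Fin 4) (Fin 4) F)) ^ 2 = 1 := by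
          rw [sq, Matrix.smul_mul, Matrix.mul_smul, hxx, smul_smul, smul_smul, ← ha]
          convert one_smul F (1 : Matrix (Fin 4) (Fin 4) F)
          field_simp
        obtain ⟨A, d, hA, hd⟩ := Cfsg.Agent.S5998.exists_diag (r := 2) (by exact_mod_cast h2)
          (IsPrimitiveRoot.mk_of_lt (-1 : F) (by norm_num) (by norm_num) (fun l hl0 hl => by
            interval_cases l
            rw [pow_one]
            intro h
            exact h2 (by linear_combination -h))) hM
        have hd' : ∀ k, d k = 1 ∨ d k = -1 := fun k => sq_eq_one_iff.1 (hd k)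
        have hdet : (a • Matrix.diagonal d).det ≠ 0 := by
          rw [Matrix.det_smul, Matrix.det_diagonal]
          exact mul_ne_zero (pow_ne_zero _ ha0) (Finset.prod_ne_zero_iff.2 fun k _ => by
            rcases hd' k with h | h <;> simp [h])
        let D : GL (Fin 4) F := Matrix.GeneralLinearGroup.mkOfDetNeZero _ hdet
        have hxA : x * A = A * D := Units.ext (by
          rw [Units.val_mul, Units.val_mul]
          show (x : Matrix (Fin 4) (Fin 4) F) * A = A * (a • Matrix.diagonal d)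
          rw [Matrix.mul_smul, ← hA, Matrix.smul_mul, smul_smul, mul_inv_cancel₀ ha0, one_smul])
        have hN := CfsgLib.HeisFour.diag_normalizes H h2 (y := D) ha0 hd' rfl hfin
        obtain ⟨g, hg, hge⟩ := CfsgLib.HeisFour.transport (x := x) (y := H.g * D * H.g⁻¹) (P := A) (Q := H.g) (D := D)
          hxA (by group) (fun δ => by
            have hδ : (Matrix.diagonal ![(δ : F), 1, 1, 1]).det = (δ : F) := by
              simp [Matrix.det_diagonal, Fin.prod_univ_four]
            refine ⟨Matrix.GeneralLinearGroup.mkOfDetNeZero (Matrix.diagonal ![(δ : F), 1, 1, 1])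
              (show _ ≠ (0 : F) from fun h => δ.ne_zero (hδ.symm.trans h)), Units.ext ?_, Units.ext hδ⟩
            show Matrix.diagonal ![(δ : F), 1, 1, 1] * (a • Matrix.diagonal d) = (a • Matrix.diagonal d) * Matrix.diagonal ![(δ : F), 1, 1, 1]
            rw [Matrix.mul_smul, Matrix.smul_mul, Matrix.diagonal_mul_diagonal, Matrix.diagonal_mul_diagonal]
            congr 2; funext k; exact mul_comm _ _)
        exact ⟨g, hg, hge ▸ hN⟩
      · exfalso
        push Not at hsq
        obtain ⟨P, hP⟩ := CfsgLib.HeisFour.quad_form (x := x) (α := 0) (β := z) hz0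
          (fun c => by rw [zero_mul, zero_add]; exact hsq c)
          (fun u => by rw [Matrix.mulVec_mulVec, hxx, Matrix.smul_mulVec, Matrix.one_mulVec, zero_smul, zero_add])
        have hd := congrArg (Matrix.GeneralLinearGroup.det : GL (Fin 4) F →* Fˣ) hP
        rw [map_mul, map_mul, hxd, one_mul] at hd
        have hd' : (1 : F) = z * z := by
          have h1 := congrArg Units.val (mul_eq_left.1 hd.symm)
          rw [Matrix.GeneralLinearGroup.val_det_apply, Units.val_one] at h1
          exact h1.symm.trans (CfsgLib.HeisFour.det_Cq 0 z)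
        rcases mul_eq_zero.1 (show (z - 1) * (z + 1) = 0 by linear_combination -hd') with h | h
        · exact hsq 1 (by rw [one_mul]; exact (sub_eq_zero.1 h).symm)
        · exact hsq H.i (by rw [H.hi]; exact (eq_neg_of_add_eq_zero_left h).symm)
    · -- order three
      let s : Fˣ := (Units.mk0 z hz0) ^ 3
      have hs3 : (s : F) ^ 3 = z := by
        simp only [s, Units.val_pow_eq_pow_val, Units.val_mk0]
        linear_combination (z * z ^ 4 + z) * hz4
      let x' := x * CfsgLib.HeisFour.Sc s⁻¹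
      have hx' : x' ^ 3 = 1 := by
        refine Units.ext ?_
        have hc : Commute x (CfsgLib.HeisFour.Sc s⁻¹) := CfsgLib.HeisFour.Sc_comm s⁻¹ x
        rw [hc.mul_pow, CfsgLib.HeisFour.Sc_pow, Units.val_mul, hz, CfsgLib.HeisFour.Sc_val, Matrix.smul_mul, one_mul,
          smul_smul, Units.val_pow_eq_pow_val, Units.val_inv_eq_inv_val, inv_pow, hs3, mul_inv_cancel₀ hz0, one_smul,
          Units.val_one]
      have hx'1 : x' ≠ 1 := fun h => hns s (by
        rw [mul_eq_one_iff_eq_inv] at h
        rw [h, show (CfsgLib.HeisFour.Sc (F := F) s⁻¹)⁻¹ = CfsgLib.HeisFour.Sc s by simp [CfsgLib.HeisFour.Sc]]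
        exact CfsgLib.HeisFour.Sc_val s)
      have hno : ∀ c : F, c * c ≠ (-1) * c + (-1) := by
        intro c hc
        have hc0 : c ≠ 0 := fun h => by rw [h] at hc; simp at hc
        have hc3 : c ^ 3 = 1 := by linear_combination (c - 1) * hc
        have hcp := FiniteField.pow_card_sub_one_eq_one c hc0
        rw [hF] at hcp
        have hg : Nat.gcd 3 (p - 1) = 1 := (Nat.prime_three.coprime_iff_not_dvd).2 (by omega)
        have h1 := pow_gcd_eq_one.2 ⟨hc3, hcp⟩
        rw [hg, pow_one] at h1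
        rw [h1] at hc
        exact h3 (by linear_combination hc)
      have hcentA := CfsgLib.HeisFour.cent_Dq (F := F) h2 h3 (by rw [hF]; omega)
      obtain ⟨⟨y₁, hy₁, ht₁, hN₁, -⟩, ⟨y₂, hy₂, ht₂, hN₂, -⟩⟩ := CfsgLib.HeisFour.exists_three H h2 hfin
      have hy1ne : ∀ (y : GL (Fin 4) F) (τ : F), (y : Matrix (Fin 4) (Fin 4) F).trace = τ → τ ≠ 4 → y ≠ 1 := fun y τ h hτ e => by
        rw [e, Units.val_one, Matrix.trace_one, Fintype.card_fin] at h
        exact hτ (by rw [← h]; norm_num)
      have hA : ((CfsgLib.HeisFour.Dq (-1 : F) (-1) (neg_ne_zero.2 one_ne_zero)) : Matrix (Fin 4) (Fin 4) F).trace = -2 := by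
        show (CfsgLib.HeisFour.Cq (-1 : F) (-1)).trace = _
        simp [CfsgLib.HeisFour.Cq, Matrix.trace, Fin.sum_univ_four]; ring
      have hB : ((CfsgLib.HeisFour.Dm (F := F)) : Matrix (Fin 4) (Fin 4) F).trace = 1 := by
        show (CfsgLib.HeisFour.Cm : Matrix (Fin 4) (Fin 4) F).trace = _
        simp [CfsgLib.HeisFour.Cm, Matrix.trace, Fin.sum_univ_four]
      have hne12 : (1 : F) ≠ -2 := fun h => h3 (by linear_combination h)
      obtain ⟨y, hyN, g, hg, hge⟩ : ∃ y : GL (Fin 4) F, H.g * y * H.g⁻¹ ∈ Cfsg.Geo.subgroupNormalizer R ∧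
          ∃ g ∈ Cfsg.Geo.specialLinear (Fin 4) F, g⁻¹ * x' * g = H.g * y * H.g⁻¹ := by
        rcases CfsgLib.HeisFour.three_form h3 hno hx' hx'1 with ⟨P, hP⟩ | ⟨P, hP⟩
        · rcases CfsgLib.HeisFour.three_form h3 hno hy₁ (hy1ne y₁ _ ht₁ fun h => by
            have : (2 : F) * 3 = 0 := by linear_combination -h
            exact mul_ne_zero h2 h3 this) with ⟨Q, hQ⟩ | ⟨Q, hQ⟩
          · exact ⟨y₁, hN₁, CfsgLib.HeisFour.transport hP (Q := H.g * Q) (by simp [mul_assoc, hQ]) hcentA⟩
          · exfalso; rw [CfsgLib.HeisFour.trace_eq hQ, hB] at ht₁; exact hne12 ht₁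
        · rcases CfsgLib.HeisFour.three_form h3 hno hy₂ (hy1ne y₂ _ ht₂ fun h => h3 (by linear_combination -h))
            with ⟨Q, hQ⟩ | ⟨Q, hQ⟩
          · exfalso; rw [CfsgLib.HeisFour.trace_eq hQ, hA] at ht₂; exact hne12 ht₂.symm
          · exact ⟨y₂, hN₂, CfsgLib.HeisFour.transport hP (Q := H.g * Q) (by simp [mul_assoc, hQ]) CfsgLib.HeisFour.cent_Dm⟩
      refine ⟨g, hg, ?_⟩
      have hS : CfsgLib.HeisFour.Sc s ∈ Cfsg.Geo.subgroupNormalizer R := by
        show CfsgLib.HeisFour.Sc s ∈ Subgroup.normalizer (R : Set (GL (Fin 4) F))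
        refine Subgroup.mem_normalizer_iff.2 fun v => ?_
        rw [← CfsgLib.HeisFour.Sc_comm s v, mul_inv_cancel_right]
      have hxe : g⁻¹ * x * g = (g⁻¹ * x' * g) * CfsgLib.HeisFour.Sc s := by
        have hmm : CfsgLib.HeisFour.Sc (F := F) s⁻¹ = (CfsgLib.HeisFour.Sc s)⁻¹ := map_inv _ s
        simp only [x', hmm]
        rw [mul_assoc (g⁻¹ * _) g, CfsgLib.HeisFour.Sc_comm s g]
        group
      rw [hxe, hge]
      exact mul_mem hyN hS
    · -- order five
      have hp5' : ¬ 5 ∣ p - 1 := fun h => by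
        have h1 : ((p : ℕ) : ZMod 5) = 1 := by
          obtain ⟨k, hk⟩ := h
          rw [show p = 5 * k + 1 by omega]
          push_cast
          rw [show (5 : ZMod 5) = 0 from rfl, zero_mul, zero_add]
        rw [h1, orderOf_one] at hp
        omega
      let s : Fˣ := Units.mk0 z hz0
      let x' := x * CfsgLib.HeisFour.Sc s⁻¹
      have hx' : x' ^ 5 = 1 := by
        refine Units.ext ?_
        have hc : Commute x (CfsgLib.HeisFour.Sc s⁻¹) := CfsgLib.HeisFour.Sc_comm s⁻¹ x
        rw [hc.mul_pow, CfsgLib.HeisFour.Sc_pow, Units.val_mul, hz, CfsgLib.HeisFour.Sc_val, Matrix.smul_mul, one_mul,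
          smul_smul, Units.val_pow_eq_pow_val, Units.val_inv_eq_inv_val, inv_pow, Units.val_mk0, Units.val_one]
        rw [show z * (z ^ 5)⁻¹ = 1 by rw [pow_succ, hz4, one_mul, mul_inv_cancel₀ hz0], one_smul]
      have hx'1 : x' ≠ 1 := fun h => hns s (by
        rw [mul_eq_one_iff_eq_inv] at h
        rw [h, show (CfsgLib.HeisFour.Sc (F := F) s⁻¹)⁻¹ = CfsgLib.HeisFour.Sc s by simp [CfsgLib.HeisFour.Sc]]
        exact CfsgLib.HeisFour.Sc_val s)
      obtain ⟨y, hy5, hyt, hyN, -⟩ := CfsgLib.HeisFour.exists_five H h2 hfin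
      have hy5' : (H.g * y * H.g⁻¹) ^ 5 = 1 := by rw [conj_pow, hy5]; group
      have hy1' : H.g * y * H.g⁻¹ ≠ 1 := by
        intro h
        have : y = 1 := by
          have := congrArg (fun g => H.g⁻¹ * g * H.g) h
          simpa [mul_assoc] using this
        rw [this, Units.val_one, Matrix.trace_one, Fintype.card_fin] at hyt
        have h50 : ((5 : ℕ) : F) = 0 := by push_cast at hyt ⊢; linear_combination hyt
        have := (Nat.prime_dvd_prime_iff_eq Fact.out (by norm_num : Nat.Prime 5)).1 ((CharP.cast_eq_zero_iff F p 5).1 h50)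
        subst this
        rw [ZMod.natCast_self, orderOf_eq_zero (fun hf => by
          obtain ⟨n, hn, h1⟩ := isOfFinOrder_iff_pow_eq_one.1 hf
          rw [zero_pow (by omega)] at h1
          exact zero_ne_one h1)] at hp
        omega
      obtain ⟨g, hg, hge⟩ := CfsgLib.HeisFour.five_conj hF hp hx' hy5' hx'1 hy1'
      refine ⟨g, hg, ?_⟩
      have hS : CfsgLib.HeisFour.Sc s ∈ Cfsg.Geo.subgroupNormalizer R := by
        show CfsgLib.HeisFour.Sc s ∈ Subgroup.normalizer (R : Set (GL (Fin 4) F))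
        refine Subgroup.mem_normalizer_iff.2 fun v => ?_
        rw [← CfsgLib.HeisFour.Sc_comm s v, mul_inv_cancel_right]
      have hxe : g⁻¹ * x * g = (g⁻¹ * x' * g) * CfsgLib.HeisFour.Sc s := by
        have hmm : CfsgLib.HeisFour.Sc (F := F) s⁻¹ = (CfsgLib.HeisFour.Sc s)⁻¹ := map_inv _ s
        simp only [x', hmm]
        rw [mul_assoc (g⁻¹ * _) g, CfsgLib.HeisFour.Sc_comm s g]
        group
      rw [hxe, hge]
      exact mul_mem hyN hS

end Cfsg.Agent.S6000
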