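import Cfsg.Statements.S6001
import Cfsg.Agent.HeisFour.UFrame
import Cfsg.Agent.HeisFour.UClasses
import Cfsg.Agent.HeisFour.UNeg
import Cfsg.Agent.HeisFour.Data

set_option autoImplicit false
set_option maxHeartbeats 1000000
open scoped MatrixGroups
open Cfsg Matrix

namespace Cfsg.Agent.S6001

open Matrix CfsgLib.HeisFour in
/-- An element of a unitary group of prime order which is scalar and of determinant one is trivial. -/
theorem hone_of {F : Type*} [Field F] {r : ℕ} (hr : r.Prime) (hr2 : r ≠ 2) {x : GL (Fin 4) F} (hx1 : x ≠ 1)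
    (hxr : x ^ r = 1) (hxd : Matrix.GeneralLinearGroup.det x = 1) (z : F) :
    (x : Matrix (Fin 4) (Fin 4) F) ≠ z • (1 : Matrix (Fin 4) (Fin 4) F) := by
  intro hz
  have h1 : z ^ r = 1 := by
    have h0 : ((x ^ r : GL (Fin 4) F) : Matrix (Fin 4) (Fin 4) F) = 1 := by rw [hxr, Units.val_one]
    rw [Units.val_pow_eq_pow_val, hz, smul_pow, one_pow] at h0
    simpa using congrFun (congrFun h0 0) 0
  have h4 : z ^ 4 = 1 := by
    have hd := congrArg Matrix.det hz
    rw [Matrix.det_smul, Matrix.det_one, mul_one, Fintype.card_fin, ← Matrix.GeneralLinearGroup.val_det_apply,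
      hxd, Units.val_one] at hd
    exact hd.symm
  have hg : Nat.gcd r 4 = 1 := by
    rw [show (4 : ℕ) = 2 ^ 2 by norm_num]
    exact Nat.Coprime.pow_right 2 ((Nat.coprime_primes hr Nat.prime_two).2 hr2)
  have hz1 : z = 1 := by
    have := pow_gcd_eq_one.2 ⟨h1, h4⟩
    rwa [hg, pow_one] at this
  exact hx1 (Units.ext (by rw [hz, hz1, one_smul, Units.val_one]))

/-- The residue of `p` modulo five when its order is not four. -/
theorem mod_five {p : ℕ} [Fact p.Prime] (hp4 : p % 4 = 3) (h : orderOf (p : ZMod 5) ≠ 4) : p % 5 = 1 ∨ p % 5 = 4 := by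
  haveI : Fact (Nat.Prime 2) := ⟨Nat.prime_two⟩
  have h0 : p % 5 ≠ 0 := fun h0 => by
    have := (Nat.prime_dvd_prime_iff_eq (by norm_num) Fact.out).1 (Nat.dvd_of_mod_eq_zero h0)
    omega
  rw [← ZMod.natCast_mod] at h
  have hlt : p % 5 < 5 := Nat.mod_lt _ (by norm_num)
  interval_cases hk : p % 5
  · exact absurd rfl h0
  · simp
  · exact absurd (orderOf_eq_prime_pow (p := 2) (n := 1) (by decide) (by decide)) h
  · exact absurd (orderOf_eq_prime_pow (p := 2) (n := 1) (by decide) (by decide)) h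
  · simp

/-- Elements of prime order of PSU_4(p), p ≡ 3 (mod 4), and the normalizer of a 2-group of symplectic type of order 2⁶. Here `T = PSU_4(p)` for a prime `p ≡ 3 (mod 4)`, realised through `SU_4(p)`, the matrices of determinant 1 over the field `F` with `p²` elements preserving the hermitian form `f = Σ uᵢvᵢ^p`; `R` is an absolutely irreducible subgroup of the full unitary group of `f` of order 2⁶ that is a 2-group of symplectic type of exponent 4 with centre of order 4, and `H` is the subgroup of `SU_4(p)` normalizing `R` — a subgroup of type 2⁴.Sp₄(2) (maximality is not assumed). Ω is the set of cosets of `H`, so an element of `T` of prime order `r` (`x ∈ SU_4(p)` with `x^r` scalar, `x` not scalar) fixes a point of Ω exactly when some `SU_4(p)`-conjugate of `x` normalizes `R`. Let `r` be a prime dividing the index of `H`. Then every element of `T` of order `r` fixes a point of Ω if and only if `r = 2`, or `r = 3` and `p ≡ 1 (mod 3)`, or `r = 5` and `p ≡ ±2 (mod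 5)` (`p` has multiplicative order 4 modulo 5). -/
theorem result {F : Type*} [Field F] [Fintype F] {p : ℕ} [Fact p.Prime] [CharP F p] (hF : Fintype.card F = p ^ 2) (hp4 : p % 4 = 3)
    (R : Subgroup (GL (Fin 4) F)) (hRs : Cfsg.Geo.IsSymplecticTypeGroup 2 R) (hRi : Cfsg.Geo.ActsAbsolutelyIrreducibly (Cfsg.Geo.matrixSet R))
    (hRU : R ≤ Cfsg.GU 4 F p) (hR6 : Nat.card R = 2 ^ 6) (hRZ : Nat.card (Subgroup.center R) = 4)
    (r : ℕ) [Fact r.Prime]
    (hΩ : r ∣ (Cfsg.Geo.subgroupNormalizer R).relIndex (Cfsg.GU 4 F p ⊓ Cfsg.Geo.specialLinear (Fin 4) F)) :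
    (∀ x ∈ Cfsg.GU 4 F p ⊓ Cfsg.Geo.specialLinear (Fin 4) F, (∃ z : F, ((x ^ r : GL (Fin 4) F) : Matrix (Fin 4) (Fin 4) F) = z • (1 : Matrix (Fin 4) (Fin 4) F)) →
      (∀ z : F, (x : Matrix (Fin 4) (Fin 4) F) ≠ z • (1 : Matrix (Fin 4) (Fin 4) F)) →
      ∃ g ∈ Cfsg.GU 4 F p ⊓ Cfsg.Geo.specialLinear (Fin 4) F, g⁻¹ * x * g ∈ Cfsg.Geo.subgroupNormalizer R) ↔ (r = 2 ∨ (r = 3 ∧ p % 3 = 1) ∨ (r = 5 ∧ orderOf (p : ZMod 5) = 4)) := by
  classical
  obtain ⟨C⟩ := CfsgLib.UGeom.nonempty_conj hF
  have hp2 : p ≠ 2 := by omega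
  have h2 : (2 : F) ≠ 0 := fun h => hp2 ((Nat.prime_dvd_prime_iff_eq Fact.out Nat.prime_two).1
    ((CharP.cast_eq_zero_iff F p 2).1 (by exact_mod_cast h)))
  have hfacts := CfsgLib.HeisFour.facts_of hRs hRi hRZ hR6
  obtain ⟨H₀⟩ := CfsgLib.HeisFour.exists_frame h2 hfacts
  obtain ⟨H, hgU⟩ := CfsgLib.HeisFour.exists_unitary_frame C h2 hRU H₀
  haveI hfin : Finite R := Nat.finite_of_card_ne_zero (by rw [hR6]; norm_num)
  have hr := (Fact.out : r.Prime)
  have hodd : Fintype.card F % 2 = 1 := by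
    rw [hF, Nat.pow_mod]
    have : p % 2 = 1 := by omega
    rw [this]
  have hi0 : H.i ≠ 0 := fun h => by have := H.hi; rw [h, mul_zero] at this; exact one_ne_zero (neg_eq_zero.1 this.symm)
  have hσi := CfsgLib.HeisFour.conj_i C hp4 H.hi
  set N := Cfsg.Geo.subgroupNormalizer R
  set S := Cfsg.GU 4 F p ⊓ Cfsg.Geo.specialLinear (Fin 4) F with hS
  have hnorm : ∀ g : GL (Fin 4) F, g ∈ N → ∀ v ∈ R, g * v * g⁻¹ ∈ R := fun g hg v hv =>
    (Subgroup.mem_normalizer_iff.1 (show g ∈ Subgroup.normalizer (R : Set (GL (Fin 4) F)) from hg) v).1 hv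
  have hpow : ∀ (g x : GL (Fin 4) F) (n : ℕ), x ^ n = 1 → (g⁻¹ * x * g) ^ n = 1 := fun g x n h => by
    rw [show g⁻¹ * x * g = g⁻¹ * x * (g⁻¹)⁻¹ by rw [inv_inv], conj_pow, h]; group
  have hback : ∀ (g x : GL (Fin 4) F) (c : F), ((g⁻¹ * x * g : GL (Fin 4) F) : Matrix (Fin 4) (Fin 4) F) = c • 1 →
      (x : Matrix (Fin 4) (Fin 4) F) = c • 1 := fun g x c hc => by
    rw [show x = g * (g⁻¹ * x * g) * g⁻¹ by group, Units.val_mul, Units.val_mul, hc, Matrix.mul_smul, mul_one,
      Matrix.smul_mul, ← Units.val_mul, mul_inv_cancel, Units.val_one]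
  have hSc : ∀ s : Fˣ, (s : F) * C.σ s = 1 → CfsgLib.HeisFour.Sc s ∈ Cfsg.GU 4 F p := fun s hs =>
    CfsgLib.HeisFour.mem_GU4.2 fun u v => by
      rw [CfsgLib.HeisFour.Sc_val, Matrix.smul_mulVec, Matrix.one_mulVec, Matrix.smul_mulVec, Matrix.one_mulVec,
        CfsgLib.UGeom.form_smul_left, CfsgLib.UGeom.form_smul_right C, ← mul_assoc, hs, one_mul]
  have hScN : ∀ s : Fˣ, CfsgLib.HeisFour.Sc s ∈ N := fun s => by
    show CfsgLib.HeisFour.Sc s ∈ Subgroup.normalizer (R : Set (GL (Fin 4) F))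
    refine Subgroup.mem_normalizer_iff.2 fun v => ?_
    rw [← CfsgLib.HeisFour.Sc_comm s v, mul_inv_cancel_right]
  constructor
  · intro hall
    rcases eq_or_ne r 2 with h | hr2
    · exact Or.inl h
    right
    rcases eq_or_ne r 3 with rfl | hr3
    · left
      refine ⟨rfl, ?_⟩
      by_contra hp3
      rcases eq_or_ne p 3 with rfl | hne3
      · -- a transvection
        have h30 : (3 : F) = 0 := by exact_mod_cast (CharP.cast_eq_zero_iff F 3 3).2 dvd_rfl
        have hba : (![1, 1, 1, 0] : Fin 4 → F) ⬝ᵥ ![H.i, H.i, H.i, 0] = 0 := by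
          simp [dotProduct, Fin.sum_univ_four]
          linear_combination H.i * h30
        set a : Fin 4 → F := ![H.i, H.i, H.i, 0] with ha
        set b : Fin 4 → F := ![1, 1, 1, 0] with hb
        have hNN : Matrix.vecMulVec a b * Matrix.vecMulVec a b = 0 := by
          rw [Matrix.vecMulVec_mul_vecMulVec, hba, zero_smul, Matrix.vecMulVec_zero]
        let x : GL (Fin 4) F := ⟨1 + Matrix.vecMulVec a b, 1 - Matrix.vecMulVec a b,
          by simp only [add_mul, mul_sub, one_mul, mul_one, hNN]; abel,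
          by simp only [sub_mul, mul_add, one_mul, mul_one, hNN]; abel⟩
        have hxU : x ∈ Cfsg.GU 4 F 3 := CfsgLib.HeisFour.mem_GU4_of_mat C (by
          show (1 + Matrix.vecMulVec a b)ᵀ * (1 + Matrix.vecMulVec a b).map C.σ = 1
          have h13 : (1 : F) + 1 + 1 = 0 := by linear_combination h30
          ext r k
          fin_cases r <;> fin_cases k <;>
            simp [ha, hb, Matrix.mul_apply, Fin.sum_univ_four, Matrix.vecMulVec_apply, hσi] <;>
            first | ring1 | linear_combination (-3 : F) * H.hi + h30 | linear_combination (-1 : F) * h30 * H.i * H.i)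
        have hxd : Matrix.GeneralLinearGroup.det x = 1 := Units.ext (by
          show (1 + Matrix.vecMulVec a b).det = 1
          rw [Matrix.vecMulVec_eq Unit, Matrix.det_one_add_replicateCol_mul_replicateRow]
          rw [hba, add_zero])
        have hx3 : x ^ 3 = 1 := Units.ext (by
          rw [Units.val_pow_eq_pow_val, Units.val_one]
          show (1 + Matrix.vecMulVec a b) ^ 3 = 1
          rw [pow_succ, sq]
          simp only [add_mul, mul_add, one_mul, mul_one, hNN, add_zero]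
          rw [show (1 : Matrix (Fin 4) (Fin 4) F) + Matrix.vecMulVec a b + Matrix.vecMulVec a b + Matrix.vecMulVec a b =
            1 + (3 : F) • Matrix.vecMulVec a b by module, h30, zero_smul, add_zero])
        have hx1 : x ≠ 1 := fun h => hi0 (by
          simpa [x, ha, hb, Matrix.vecMulVec_apply] using
            congrArg (fun g : GL (Fin 4) F => (g : Matrix (Fin 4) (Fin 4) F) 0 0) h)
        obtain ⟨g, -, hgN⟩ := hall x ⟨hxU, hxd⟩ ⟨1, by rw [hx3, Units.val_one, one_smul]⟩
          (hone_of Nat.prime_three (by norm_num) hx1 hx3 hxd)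
        obtain ⟨c, hc⟩ := CfsgLib.HeisFour.transvection_scalar hfacts h2 h30 (y := g⁻¹ * x * g) (hnorm _ hgN)
          (hpow g x 3 hx3) (a := ((g⁻¹ : GL (Fin 4) F) : Matrix (Fin 4) (Fin 4) F) *ᵥ a)
          (b := b ᵥ* (g : Matrix (Fin 4) (Fin 4) F)) (by
            rw [Matrix.dotProduct_mulVec, Matrix.vecMul_vecMul, ← Units.val_mul, mul_inv_cancel, Units.val_one,
              Matrix.vecMul_one, hba]) (by
            rw [Units.val_mul, Units.val_mul]
            show _ * (1 + Matrix.vecMulVec a b) * _ = _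
            rw [mul_add, mul_one, add_mul, ← Units.val_mul, inv_mul_cancel, Units.val_one, Matrix.mul_vecMulVec,
              Matrix.vecMulVec_mul])
        exact hone_of Nat.prime_three (by norm_num) hx1 hx3 hxd c (hback g x c hc)
      have hp5 : 5 ≤ p := by
        have := (Fact.out : p.Prime).two_le
        omega
      have hp32 : p % 3 = 2 := by
        have : ¬ (3 ∣ p) := fun h => hne3 ((Nat.prime_dvd_prime_iff_eq Nat.prime_three Fact.out).1 h).symm
        omega
      obtain ⟨ω, hω⟩ := exists_prime_orderOf_dvd_card' (G := Fˣ) 3 (by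
        rw [Nat.card_units, Nat.card_eq_fintype_card, hF]
        have h1 : p ^ 2 % 3 = 1 := by rw [Nat.pow_mod, hp32]
        have h1' : 1 ≤ p ^ 2 := Nat.one_le_pow _ _ (by omega)
        omega)
      have hω3 : (ω : F) ^ 3 = 1 := by rw [← Units.val_pow_eq_pow_val, ← hω, pow_orderOf_eq_one, Units.val_one]
      have hω1 : (ω : F) ≠ 1 := fun h => by
        rw [show ω = 1 from Units.ext h, orderOf_one] at hω; norm_num at hω
      have hωs : (ω : F) ^ 2 + ω + 1 = 0 := by
        have : ((ω : F) - 1) * ((ω : F) ^ 2 + ω + 1) = 0 := by linear_combination hω3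
        exact (mul_eq_zero.1 this).resolve_left (sub_ne_zero.2 hω1)
      have hωσ : C.σ (ω : F) = (ω : F) ^ 2 := by
        rw [C.pow, ← Nat.div_add_mod p 3, hp32, pow_add, pow_mul, hω3, one_pow, one_mul]
      let x : GL (Fin 4) F :=
        { val := Matrix.diagonal ![(ω : F), (ω : F), (ω : F), 1]
          inv := Matrix.diagonal ![(ω : F) ^ 2, (ω : F) ^ 2, (ω : F) ^ 2, 1]
          val_inv := by
            rw [Matrix.diagonal_mul_diagonal, ← Matrix.diagonal_one]; congr 1; funext k
            fin_cases k <;> simp [← pow_succ', hω3]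
          inv_val := by
            rw [Matrix.diagonal_mul_diagonal, ← Matrix.diagonal_one]; congr 1; funext k
            fin_cases k <;> simp [← pow_succ, hω3] }
      have hx3 : x ^ 3 = 1 := by
        refine Units.ext ?_
        rw [Units.val_pow_eq_pow_val, Units.val_one]
        show Matrix.diagonal _ ^ 3 = 1
        rw [Matrix.diagonal_pow, ← Matrix.diagonal_one]; congr 1; funext k
        fin_cases k <;> simp [hω3]
      have hxd : Matrix.GeneralLinearGroup.det x = 1 := by
        refine Units.ext ?_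
        show Matrix.det (Matrix.diagonal ![(ω : F), (ω : F), (ω : F), 1]) = 1
        simp [Matrix.det_diagonal, Fin.prod_univ_four]
        linear_combination hω3
      have hx1 : x ≠ 1 := fun h => hω1 (by
        simpa [x] using congrArg (fun g : GL (Fin 4) F => (g : Matrix (Fin 4) (Fin 4) F) 0 0) h)
      have hxU : x ∈ Cfsg.GU 4 F p := CfsgLib.HeisFour.mem_GU4_of_mat C (by
        show (Matrix.diagonal ![(ω : F), (ω : F), (ω : F), 1])ᵀ *
          (Matrix.diagonal ![(ω : F), (ω : F), (ω : F), 1]).map C.σ = 1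
        rw [Matrix.diagonal_transpose, Matrix.diagonal_map (map_zero _), Matrix.diagonal_mul_diagonal,
          ← Matrix.diagonal_one]
        congr 1; funext k
        fin_cases k <;> simp [hωσ, ← pow_succ', hω3])
      obtain ⟨g, -, hgN⟩ := hall x ⟨hxU, hxd⟩ ⟨1, by rw [hx3, Units.val_one, one_smul]⟩
        (hone_of Nat.prime_three (by norm_num) hx1 hx3 hxd)
      have hid := CfsgLib.HeisFour.trace_identity hfacts h2 (y := g⁻¹ * x * g) (hnorm _ hgN) Nat.prime_three (by norm_num)
        (hpow g x 3 hx3)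
      have ht : ((g⁻¹ * x * g : GL (Fin 4) F) : Matrix (Fin 4) (Fin 4) F).trace = 3 * (ω : F) + 1 := by
        rw [Units.val_mul, Units.val_mul, Matrix.trace_mul_comm, ← mul_assoc, ← Units.val_mul, mul_inv_cancel,
          Units.val_one, one_mul]
        show (Matrix.diagonal ![(ω : F), (ω : F), (ω : F), 1]).trace = _
        simp [Matrix.trace_diagonal, Fin.sum_univ_four]
        ring
      have ht' : (((g⁻¹ * x * g)⁻¹ : GL (Fin 4) F) : Matrix (Fin 4) (Fin 4) F).trace = 3 * (ω : F) ^ 2 + 1 := by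
        rw [show (g⁻¹ * x * g)⁻¹ = g⁻¹ * x⁻¹ * g by group, Units.val_mul, Units.val_mul, Matrix.trace_mul_comm,
          ← mul_assoc, ← Units.val_mul, mul_inv_cancel, Units.val_one, one_mul]
        show (Matrix.diagonal ![(ω : F) ^ 2, (ω : F) ^ 2, (ω : F) ^ 2, 1]).trace = _
        simp [Matrix.trace_diagonal, Fin.sum_univ_four]
        ring
      rw [ht, ht'] at hid
      set K := (Subgroup.centralizer {g⁻¹ * x * g}).subgroupOf R
      have hd : Nat.card K ∈ Nat.divisors (2 ^ 6) :=
        Nat.mem_divisors.2 ⟨hR6 ▸ K.card_subgroup_dvd_card, by norm_num⟩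
      have h4 := CfsgLib.HeisFour.four_dvd hfacts hfacts.scal_mem h2 (g⁻¹ * x * g)
      have h7 : (112 : F) = 4 * (Nat.card K : F) := by
        rw [← hid]
        linear_combination (-48 : F) * hωs + (-144 : F) * hω3
      rw [show Nat.divisors (2 ^ 6) = {1, 2, 4, 8, 16, 32, 64} by decide] at hd
      simp only [Finset.mem_insert, Finset.mem_singleton] at hd
      have hne : ∀ n : ℕ, n ∈ [24, 20, 12, 4, 36] → (n : F) ≠ 0 := fun n hn h => by
        have hdvd := (CharP.cast_eq_zero_iff F p n).1 h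
        have hle := Nat.le_of_dvd (by simp at hn; omega) hdvd
        have hpp := (Fact.out : p.Prime)
        simp at hn
        rcases hn with rfl | rfl | rfl | rfl | rfl <;> interval_cases p <;> revert hpp hdvd hp32 hp4 <;> decide
      have h4' : 4 ∣ Nat.card K := h4
      have h40 : (4 : F) ≠ 0 := by rw [show (4 : F) = 2 * 2 by norm_num]; exact mul_ne_zero h2 h2
      rcases hd with h | h | h | h | h | h | h <;> rw [h] at h4' h7
      · norm_num at h4'
      · norm_num at h4'
      · exact hne 24 (by simp) (mul_left_cancel₀ h40 (by push_cast at h7 ⊢; linear_combination h7))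
      · exact hne 20 (by simp) (mul_left_cancel₀ h40 (by push_cast at h7 ⊢; linear_combination h7))
      · exact hne 12 (by simp) (mul_left_cancel₀ h40 (by push_cast at h7 ⊢; linear_combination h7))
      · exact hne 4 (by simp) (mul_left_cancel₀ h40 (by push_cast at h7 ⊢; linear_combination -h7))
      · exact hne 36 (by simp) (mul_left_cancel₀ h40 (by push_cast at h7 ⊢; linear_combination -h7))
    right
    rcases eq_or_ne r 5 with rfl | hr5
    · refine ⟨rfl, ?_⟩
      by_contra hord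
      have hm := mod_five hp4 hord
      obtain ⟨ζ, hζ⟩ := exists_prime_orderOf_dvd_card' (G := Fˣ) 5 (by
        rw [Nat.card_units, Nat.card_eq_fintype_card, hF]
        have h1 : p ^ 2 % 5 = 1 := by rcases hm with h | h <;> rw [Nat.pow_mod, h]
        have h1' : 1 ≤ p ^ 2 := Nat.one_le_pow _ _ (by omega)
        omega)
      have hζ5 : (ζ : F) ^ 5 = 1 := by rw [← Units.val_pow_eq_pow_val, ← hζ, pow_orderOf_eq_one, Units.val_one]
      have hζ1 : (ζ : F) ≠ 1 := fun h => by
        rw [show ζ = 1 from Units.ext h, orderOf_one] at hζ; norm_num at hζ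
      have hphi : (ζ : F) ^ 4 + (ζ : F) ^ 3 + (ζ : F) ^ 2 + ζ + 1 = 0 := by
        have : ((ζ : F) - 1) * ((ζ : F) ^ 4 + (ζ : F) ^ 3 + (ζ : F) ^ 2 + ζ + 1) = 0 := by linear_combination hζ5
        exact (mul_eq_zero.1 this).resolve_left (sub_ne_zero.2 hζ1)
      have h50 : (5 : F) ≠ 0 := fun h => by
        have := (Nat.prime_dvd_prime_iff_eq Fact.out (by norm_num : Nat.Prime 5)).1
          ((CharP.cast_eq_zero_iff F p 5).1 (by exact_mod_cast h))
        omega
      have hσ1 : C.σ (ζ : F) = (ζ : F) ^ (p % 5) := by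
        rw [C.pow]
        conv_lhs => rw [← Nat.div_add_mod p 5, pow_add, pow_mul, hζ5, one_pow, one_mul]
      obtain ⟨x, hxU, hx5, hxd, hx1, hxt⟩ := CfsgLib.HeisFour.exists_double_unitary C h2 h50
        (t := (ζ : F) + (ζ : F) ^ 4) (by linear_combination hphi + (2 + (ζ : F) ^ 3) * hζ5) (by
          rw [map_add, map_pow, hσ1]
          rcases hm with h | h <;> rw [h]
          · rw [pow_one]
          · linear_combination ((ζ : F) ^ 11 + (ζ : F) ^ 6 + ζ) * hζ5)
      obtain ⟨g, -, hgN⟩ := hall x ⟨hxU, hxd⟩ ⟨1, by rw [hx5, Units.val_one, one_smul]⟩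
        (hone_of hr (by norm_num) hx1 hx5 hxd)
      obtain ⟨c, hc⟩ := CfsgLib.HeisFour.quad_scalar hfacts h2 (y := g⁻¹ * x * g) (hnorm _ hgN) hr le_rfl
        (hpow g x 5 hx5) (t := (ζ : F) + (ζ : F) ^ 4) (by
          rw [show (g⁻¹ * x * g)⁻¹ = g⁻¹ * x⁻¹ * g by group]
          simp only [Units.val_mul]
          rw [← add_mul, ← mul_add, hxt, Matrix.mul_smul, mul_one, Matrix.smul_mul, ← Units.val_mul, inv_mul_cancel,
            Units.val_one])
      exact hone_of hr (by norm_num) hx1 hx5 hxd c (hback g x c hc)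
    · exfalso
      have hr7 : 7 ≤ r := by
        have := hr.two_le
        by_contra hlt
        interval_cases r <;> first | omega | norm_num at hr
      have hidx : N.relIndex S * Nat.card (N.subgroupOf S) = Nat.card S := Subgroup.index_mul_card _
      obtain ⟨⟨x, hx⟩, hxo⟩ := exists_prime_orderOf_dvd_card' (G := S) r (hidx ▸ dvd_mul_of_dvd_left hΩ _)
      have hxr : x ^ r = 1 := by
        have := pow_orderOf_eq_one (⟨x, hx⟩ : S)
        rw [hxo] at this
        exact congrArg Subtype.val this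
      have hx1 : x ≠ 1 := by
        intro h
        subst h
        rw [show (⟨1, hx⟩ : S) = 1 from rfl, orderOf_one] at hxo
        omega
      have hxd : Matrix.GeneralLinearGroup.det x = 1 := hx.2
      obtain ⟨g, -, hgN⟩ := hall x hx ⟨1, by rw [hxr, Units.val_one, one_smul]⟩ (hone_of hr hr2 hx1 hxr hxd)
      obtain ⟨c, hc⟩ := CfsgLib.HeisFour.seven_scalar hfacts h2 (y := g⁻¹ * x * g) (hnorm _ hgN) hr7 (hpow g x r hxr)
      exact hone_of hr hr2 hx1 hxr hxd c (hback g x c hc)
  · intro hcase x hx ⟨z, hz⟩ hns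
    have hxU : x ∈ Cfsg.GU 4 F p := hx.1
    have hxd : Matrix.GeneralLinearGroup.det x = 1 := hx.2
    have hz4 : z ^ 4 = 1 := by
      have h1 := congrArg Matrix.det hz
      rw [Matrix.det_smul, Matrix.det_one, mul_one, Fintype.card_fin, ← Matrix.GeneralLinearGroup.val_det_apply,
        map_pow, hxd, one_pow, Units.val_one] at h1
      exact h1.symm
    have hz0 : z ≠ 0 := fun h => by rw [h, zero_pow (by norm_num)] at hz4; exact zero_ne_one hz4
    have hzσ : z * C.σ z = 1 := by
      have h := CfsgLib.HeisFour.mem_GU4.1 (pow_mem hxU r) (Pi.single 0 1) (Pi.single 0 1)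
      rw [hz, Matrix.smul_mulVec, Matrix.one_mulVec, CfsgLib.UGeom.form_smul_left, CfsgLib.UGeom.form_smul_right C,
        CfsgLib.UGeom.form_single_left C, Pi.single_eq_same, map_one, mul_one] at h
      exact h
    -- dividing by a scalar
    have hscale : ∀ (n : ℕ) (s : Fˣ), (s : F) * C.σ s = 1 → (s : F) ^ n = z → (s : F) ^ 4 = 1 → r = n →
        (x * CfsgLib.HeisFour.Sc s⁻¹) ∈ S ∧ (x * CfsgLib.HeisFour.Sc s⁻¹) ^ n = 1 ∧
        x * CfsgLib.HeisFour.Sc s⁻¹ ≠ 1 ∧
        ∀ y ∈ N, ∀ g ∈ S, g⁻¹ * (x * CfsgLib.HeisFour.Sc s⁻¹) * g = y → ∃ g ∈ S, g⁻¹ * x * g ∈ N := by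
      intro n s hsσ hsn hs4 hrn
      subst hrn
      have hmm : CfsgLib.HeisFour.Sc (F := F) s⁻¹ = (CfsgLib.HeisFour.Sc s)⁻¹ := map_inv _ s
      refine ⟨⟨?_, ?_⟩, Units.ext ?_, fun h => hns s ?_, fun y hy g hg hge => ⟨g, hg, ?_⟩⟩
      · rw [hmm]; exact mul_mem hxU (Subgroup.inv_mem _ (hSc s hsσ))
      · show Matrix.GeneralLinearGroup.det _ = 1
        rw [map_mul, hxd, one_mul, hmm, map_inv, inv_eq_one]
        refine Units.ext ?_
        rw [Matrix.GeneralLinearGroup.val_det_apply, CfsgLib.HeisFour.Sc_val, Matrix.det_smul, Matrix.det_one, mul_one,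
          Fintype.card_fin, hs4, Units.val_one]
      · have hc : Commute x (CfsgLib.HeisFour.Sc s⁻¹) := CfsgLib.HeisFour.Sc_comm s⁻¹ x
        rw [hc.mul_pow, CfsgLib.HeisFour.Sc_pow, Units.val_mul, hz, CfsgLib.HeisFour.Sc_val, Matrix.smul_mul, one_mul,
          smul_smul, Units.val_pow_eq_pow_val, Units.val_inv_eq_inv_val, inv_pow, hsn, mul_inv_cancel₀ hz0, one_smul,
          Units.val_one]
      · rw [hmm, mul_inv_eq_one] at h
        rw [h]
        exact CfsgLib.HeisFour.Sc_val s
      · have hxe : g⁻¹ * x * g = (g⁻¹ * (x * CfsgLib.HeisFour.Sc s⁻¹) * g) * CfsgLib.HeisFour.Sc s := by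
          rw [hmm, mul_assoc (g⁻¹ * _) g, CfsgLib.HeisFour.Sc_comm s g]
          group
        rw [hxe, hge]
        exact mul_mem hy (hScN s)
    have hyU : ∀ {Y : CfsgLib.HeisFour.GM} (y : GL (Fin 4) F), Yᵀ * Y.map star = (4 : GaussianInt) • 1 →
        (y : Matrix (Fin 4) (Fin 4) F) = (2 : F)⁻¹ • CfsgLib.HeisFour.img H.i H.hi Y →
        H.g * y * H.g⁻¹ ∈ Cfsg.GU 4 F p := fun y hY hy =>
      mul_mem (mul_mem hgU (CfsgLib.HeisFour.half_mem C hp4 h2 H.hi hY hy)) (inv_mem hgU)
    have htrc : ∀ y : GL (Fin 4) F, ((H.g * y * H.g⁻¹ : GL (Fin 4) F) : Matrix (Fin 4) (Fin 4) F).trace =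
        (y : Matrix (Fin 4) (Fin 4) F).trace := fun y => by
      rw [Units.val_mul, Units.val_mul, Matrix.trace_units_conj]
    rcases hcase with rfl | ⟨rfl, hp3⟩ | ⟨rfl, hp⟩
    · -- involutions
      have hxx : ((x : Matrix (Fin 4) (Fin 4) F)) * x = z • 1 := by
        rw [← hz, Units.val_pow_eq_pow_val, sq]
      obtain ⟨a, ha⟩ : IsSquare z := by
        refine (FiniteField.isSquare_iff (by rw [ringChar.eq F p]; omega) hz0).2 ?_
        obtain ⟨k, hk⟩ : ∃ k, p = 4 * k + 3 := ⟨p / 4, by omega⟩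
        rw [hF, hk, show (4 * k + 3) ^ 2 / 2 = 4 * (2 * k * k + 3 * k + 1) by
          have : (4 * k + 3) ^ 2 = 2 * (4 * (2 * k * k + 3 * k + 1)) + 1 := by ring
          omega, pow_mul, hz4, one_pow]
      have ha0 : a ≠ 0 := fun h => hz0 (by rw [ha, h, mul_zero])
      have hsq : ∀ u, (x : Matrix (Fin 4) (Fin 4) F) *ᵥ ((x : Matrix (Fin 4) (Fin 4) F) *ᵥ u) = (a * a) • u := fun u => by
        rw [Matrix.mulVec_mulVec, hxx, ← ha, Matrix.smul_mulVec, Matrix.one_mulVec]
      have ha2 : (a * C.σ a - 1) * (a * C.σ a + 1) = 0 := by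
        rw [ha, map_mul] at hzσ
        linear_combination hzσ
      rcases mul_eq_zero.1 ha2 with h | h
      · -- orthogonal eigenspaces
        have haσ : a * C.σ a = 1 := sub_eq_zero.1 h
        obtain ⟨P, d, hP, hd, hPd⟩ := CfsgLib.HeisFour.diag_sq C h2 hxU haσ hsq
        set D := P⁻¹ * x * P with hD
        have hxP : x * P = P * D := by rw [hD]; group
        have hDval : (D : Matrix (Fin 4) (Fin 4) F) = a • Matrix.diagonal d := by
          rw [hD, Units.val_mul, Units.val_mul, mul_assoc, hPd, ← mul_assoc, ← Units.val_mul, inv_mul_cancel,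
            Units.val_one, one_mul]
        clear_value D
        have hN' := CfsgLib.HeisFour.diag_normalizes H h2 (y := D) ha0 hd hDval hfin
        obtain ⟨g, hg, hge⟩ := CfsgLib.HeisFour.conj_frames C (x := x) (y := H.g * D * H.g⁻¹) (P := P) (Q := H.g)
          (D := D) hxP (by group) (fun u v => by
            rw [CfsgLib.HeisFour.mem_GU4.1 hP, CfsgLib.HeisFour.mem_GU4.1 hgU]) (fun δ hδ => by
            refine ⟨CfsgLib.HeisFour.diagU ![δ, 1, 1, 1], Units.ext ?_, by rw [CfsgLib.HeisFour.det_diagU]; simp,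
              fun u v => ?_⟩
            · rw [Units.val_mul, Units.val_mul, hDval, CfsgLib.HeisFour.diagU_val, Matrix.mul_smul, Matrix.smul_mul,
                Matrix.diagonal_mul_diagonal, Matrix.diagonal_mul_diagonal]
              congr 2; funext k; exact mul_comm _ _
            · rw [CfsgLib.HeisFour.mem_GU4.1 hP, CfsgLib.HeisFour.mem_GU4.1 hP, CfsgLib.UGeom.form_eq C,
                CfsgLib.UGeom.form_eq C]
              simp [CfsgLib.HeisFour.diagU_mulVec, Fin.sum_univ_four]
              linear_combination (u 0 * C.σ (v 0)) * hδ)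
        exact ⟨g, hg, hge ▸ hN'⟩
      · exfalso
        have haσ : a * C.σ a = -1 := eq_neg_of_add_eq_zero_left h
        have hd := CfsgLib.HeisFour.det_of_norm_neg C h2 hxU haσ hsq
        rw [← Matrix.GeneralLinearGroup.val_det_apply, hxd, Units.val_one] at hd
        have h1 : a * C.σ a = 1 := by
          rw [C.pow, ← pow_succ', show p + 1 = 4 * (p / 4 + 1) by omega, pow_mul, ← hd, one_pow]
        exact h2 (by linear_combination -(haσ.symm.trans h1))
    · -- order three
      have h3 : (3 : F) ≠ 0 := fun h => by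
        have := (Nat.prime_dvd_prime_iff_eq Fact.out Nat.prime_three).1 ((CharP.cast_eq_zero_iff F p 3).1 (by exact_mod_cast h))
        omega
      obtain ⟨ω, hω⟩ := exists_prime_orderOf_dvd_card' (G := Fˣ) 3 (by
        rw [Nat.card_units, Nat.card_eq_fintype_card, hF]
        have h1 : p ^ 2 % 3 = 1 := by rw [Nat.pow_mod, hp3]
        have h1' : 1 ≤ p ^ 2 := Nat.one_le_pow _ _ (by omega)
        omega)
      have hω3 : (ω : F) ^ 3 = 1 := by rw [← Units.val_pow_eq_pow_val, ← hω, pow_orderOf_eq_one, Units.val_one]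
      have hω1 : (ω : F) ≠ 1 := fun h => by
        rw [show ω = 1 from Units.ext h, orderOf_one] at hω; norm_num at hω
      have hωs : (ω : F) * ω + ω + 1 = 0 := by
        have : ((ω : F) - 1) * ((ω : F) * ω + ω + 1) = 0 := by linear_combination hω3
        exact (mul_eq_zero.1 this).resolve_left (sub_ne_zero.2 hω1)
      have hωσ : C.σ (ω : F) = ω := by
        rw [C.pow, ← Nat.div_add_mod p 3, hp3, pow_add, pow_mul, hω3, one_pow, one_mul, pow_one]
      obtain ⟨hx'S, hx'3, hx'1, hfinish⟩ := hscale 3 ((Units.mk0 z hz0) ^ 3) (by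
          rw [Units.val_pow_eq_pow_val, Units.val_mk0, map_pow, ← mul_pow, hzσ, one_pow]) (by
          simp only [Units.val_pow_eq_pow_val, Units.val_mk0]
          linear_combination (z * z ^ 4 + z) * hz4) (by
          simp only [Units.val_pow_eq_pow_val, Units.val_mk0]
          rw [← pow_mul, mul_comm, pow_mul, hz4, one_pow]) rfl
      obtain ⟨⟨y₁, hy₁, ht₁, hN₁, he₁⟩, ⟨y₂, hy₂, ht₂, hN₂, he₂⟩⟩ := CfsgLib.HeisFour.exists_three H h2 hfin
      have hU1 := hyU y₁ CfsgLib.HeisFour.y3_herm he₁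
      have hU2 := hyU y₂ CfsgLib.HeisFour.z3_herm he₂
      rw [← htrc] at ht₁ ht₂
      have hne : ∀ (y : GL (Fin 4) F) (τ : F), (y : Matrix (Fin 4) (Fin 4) F).trace = τ → τ ≠ 4 → y ≠ 1 :=
        fun y τ h hτ e => by
          rw [e, Units.val_one, Matrix.trace_one, Fintype.card_fin] at h
          exact hτ (by rw [← h]; norm_num)
      have hp31 : ∀ y : GL (Fin 4) F, y ^ 3 = 1 → (H.g * y * H.g⁻¹) ^ 3 = 1 := fun y h => by
        rw [conj_pow, h]; group
      have hA : ((CfsgLib.HeisFour.D2 ω : GL (Fin 4) F) : Matrix (Fin 4) (Fin 4) F).trace = -2 := by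
        simp [CfsgLib.HeisFour.D2, CfsgLib.HeisFour.diagU_val, Matrix.trace_diagonal, Fin.sum_univ_four]
        linear_combination (2 : F) * hωs
      have hB : ((CfsgLib.HeisFour.D1 ω : GL (Fin 4) F) : Matrix (Fin 4) (Fin 4) F).trace = 1 := by
        simp [CfsgLib.HeisFour.D1, CfsgLib.HeisFour.diagU_val, Matrix.trace_diagonal, Fin.sum_univ_four]
        linear_combination hωs
      have hne12 : (1 : F) ≠ -2 := fun h => h3 (by linear_combination h)
      rcases CfsgLib.HeisFour.three_frame C h3 hωs hωσ hx'S.1 hx'3 hx'1 with ⟨P, hP, hPJ⟩ | ⟨P, hP, hPJ⟩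
      · rcases CfsgLib.HeisFour.three_frame C h3 hωs hωσ hU2 (hp31 _ hy₂)
          (hne _ _ ht₂ fun h => h3 (by linear_combination -h)) with ⟨Q, hQ, hQJ⟩ | ⟨Q, hQ, hQJ⟩
        · obtain ⟨g, hg, hge⟩ := CfsgLib.HeisFour.conj_of_gram hP hQ hPJ hQJ (CfsgLib.HeisFour.cent_D1 ω)
          exact hfinish _ hN₂ g hg hge
        · exfalso; rw [CfsgLib.HeisFour.trace_eq hQ, hA] at ht₂; exact hne12 ht₂.symm
      · rcases CfsgLib.HeisFour.three_frame C h3 hωs hωσ hU1 (hp31 _ hy₁)
          (hne _ _ ht₁ fun h => mul_ne_zero h2 h3 (by linear_combination -h)) with ⟨Q, hQ, hQJ⟩ | ⟨Q, hQ, hQJ⟩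
        · exfalso; rw [CfsgLib.HeisFour.trace_eq hQ, hB] at ht₁; exact hne12 ht₁
        · obtain ⟨g, hg, hge⟩ := CfsgLib.HeisFour.conj_of_gram hP hQ hPJ hQJ (CfsgLib.HeisFour.cent_D2 h2 hi0 hσi ω)
          exact hfinish _ hN₁ g hg hge
    · -- order five
      obtain ⟨t, ht, hσt, h50, hno, hno'⟩ := CfsgLib.HeisFour.exists_trace_five C h2 hp
      obtain ⟨hx'S, hx'5, hx'1, hfinish⟩ := hscale 5 (Units.mk0 z hz0) hzσ
        (show z ^ 5 = z by linear_combination z * hz4) hz4 rfl
      obtain ⟨y, hy5, hyt, hyN, hye⟩ := CfsgLib.HeisFour.exists_five H h2 hfin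
      have hU := hyU y CfsgLib.HeisFour.y5_herm hye
      rw [← htrc] at hyt
      have hy1 : H.g * y * H.g⁻¹ ≠ 1 := fun e => by
        rw [e, Units.val_one, Matrix.trace_one, Fintype.card_fin] at hyt
        exact h50 (by push_cast at hyt; linear_combination hyt)
      obtain ⟨P, hP, hPJ⟩ := CfsgLib.HeisFour.five_frame C ht hσt h50 hno hno' hx'S.1 hx'5 hx'1
      obtain ⟨Q, hQ, hQJ⟩ := CfsgLib.HeisFour.five_frame C ht hσt h50 hno hno' hU
        (by rw [conj_pow, hy5]; group) hy1
      obtain ⟨g, hg, hge⟩ := CfsgLib.HeisFour.conj_of_gram hP hQ hPJ hQJ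
        (CfsgLib.HeisFour.cent_D5 h2 hi0 hσi hodd hno)
      exact hfinish _ hyN g hg hge

end Cfsg.Agent.S6001
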