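import Cfsg.Statements.S6002
import Cfsg.Agent.HeisSp.Neg
import Cfsg.Agent.HeisSp.Classes
import Cfsg.Agent.SL2.Basic

set_option autoImplicit false
set_option maxHeartbeats 1000000
open scoped MatrixGroups
open Cfsg Matrix CfsgLib

namespace Cfsg.Agent.S6002

open Matrix in
/-- A doubled element of order five of `SL_2`. -/
theorem exists_double {F : Type*} [Field F] [Fintype F] {p : ℕ} [Fact p.Prime] (hF : Fintype.card F = p)
    (h5 : 5 ∣ p * (p ^ 2 - 1)) :
    ∃ (x : GL (Fin 2 ⊕ Fin 2) F) (t : F), x ∈ Cfsg.spGL 2 F ∧ x ^ 5 = 1 ∧ x ≠ 1 ∧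
      (x : Matrix (Fin 2 ⊕ Fin 2) (Fin 2 ⊕ Fin 2) F) +
        ((x⁻¹ : GL (Fin 2 ⊕ Fin 2) F) : Matrix (Fin 2 ⊕ Fin 2) (Fin 2 ⊕ Fin 2) F) = t • 1 := by
  haveI : Fact (Nat.Prime 5) := ⟨by norm_num⟩
  obtain ⟨n, hn⟩ := exists_prime_orderOf_dvd_card' (G := Matrix.SpecialLinearGroup (Fin 2) F) 5 (by
    rw [CfsgLib.SL2.card_SL2, hF]; exact h5)
  let dbl : Matrix (Fin 2) (Fin 2) F → Matrix (Fin 2 ⊕ Fin 2) (Fin 2 ⊕ Fin 2) F := fun N =>
    Matrix.fromBlocks (N 0 0 • 1) (N 0 1 • 1) (N 1 0 • 1) (N 1 1 • 1)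
  have hmul : ∀ A B, dbl (A * B) = dbl A * dbl B := fun A B => by
    simp [dbl, Matrix.fromBlocks_multiply, Matrix.mul_apply, Fin.sum_univ_two, smul_smul, add_smul, mul_comm]
  have hone : dbl 1 = 1 := by simp [dbl, Matrix.fromBlocks_one]
  let f : Matrix.SpecialLinearGroup (Fin 2) F →* GL (Fin 2 ⊕ Fin 2) F :=
    MonoidHom.toHomUnits ⟨⟨fun s => dbl s.1, hone⟩, fun a b => hmul a.1 b.1⟩
  have hf : ∀ s, (f s : Matrix (Fin 2 ⊕ Fin 2) (Fin 2 ⊕ Fin 2) F) = dbl s.1 := fun s => rfl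
  have hd : n.1 0 0 * n.1 1 1 - n.1 0 1 * n.1 1 0 = 1 := (Matrix.det_fin_two n.1).symm.trans n.2
  refine ⟨f n, n.1 0 0 + n.1 1 1, CfsgLib.GeoSp.mem_spGL.2 fun u v => ?_, ?_, fun h => ?_, ?_⟩
  · rw [hf, SpGeom.form_def, SpGeom.form_def]
    simp [dbl, Matrix.fromBlocks_mulVec, Matrix.smul_mulVec, Fin.sum_univ_two]
    linear_combination (u (Sum.inr 0) * v (Sum.inl 0) - u (Sum.inl 0) * v (Sum.inr 0) + u (Sum.inr 1) * v (Sum.inl 1) -
      u (Sum.inl 1) * v (Sum.inr 1)) * hd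
  · rw [← map_pow, show n ^ 5 = 1 by rw [← hn, pow_orderOf_eq_one], map_one]
  · have h1 : n = 1 := by
      have h' := congrArg (fun g : GL (Fin 2 ⊕ Fin 2) F => (g : Matrix (Fin 2 ⊕ Fin 2) (Fin 2 ⊕ Fin 2) F)) h
      simp only [hf, Units.val_one] at h'
      refine Subtype.ext (Matrix.ext fun r k => ?_)
      fin_cases r <;> fin_cases k
      · simpa [dbl] using congrFun (congrFun h' (Sum.inl 0)) (Sum.inl 0)
      · simpa [dbl] using congrFun (congrFun h' (Sum.inl 0)) (Sum.inr 0)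
      · simpa [dbl] using congrFun (congrFun h' (Sum.inr 0)) (Sum.inl 0)
      · simpa [dbl] using congrFun (congrFun h' (Sum.inr 0)) (Sum.inr 0)
    rw [h1, orderOf_one] at hn
    norm_num at hn
  · rw [← map_inv, hf, hf, Matrix.SpecialLinearGroup.coe_inv, Matrix.adjugate_fin_two]
    simp [dbl, Matrix.fromBlocks_add, ← add_smul]
    rw [← Matrix.fromBlocks_one, Matrix.fromBlocks_smul, smul_zero, add_comm (n.1 1 1)]

/-- Elements of prime order of PSp_4(p), p odd, and the normalizer of an extraspecial 2-group of order 2⁵ of minus type. Here `T = PSp_4(F)` for the field `F` with `p` elements, `p` an odd prime, realised through the matrices preserving the standard alternating form `f`; `R` is an absolutely irreducible subgroup of `T` (it preserves `f`) that is a 2-group of symplectic type of exponent 4, order 2⁵ and centre of order 2, of minus type (no elementary abelian subgroup of order 2³), and `H` is the subgroup of `T` normalizing `R`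 — a subgroup of type 2^{1+4}.O₄⁻(2) (maximality is not assumed). Ω is the set of cosets of `H` in `T`, so an element of `T` of prime order `r` (`x ∈ T` with `x^r` scalar, `x` not scalar) fixes a point of Ω exactly when some `T`-conjugate of `x` normalizes `R`. Let `r` be a prime dividing the index of `H`. Then every element of `T` of order `r` fixes a point of Ω if and only if `r = 2`, or `r = 5` and `p` has multiplicative order 4 modulo 5. -/
theorem result {F : Type*} [Field F] [Fintype F] {p : ℕ} [Fact p.Prime] [CharP F p] (hF : Fintype.card F = p) (hodd : Odd p)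
    (R : Subgroup (GL (Fin 2 ⊕ Fin 2) F)) (hRs : Cfsg.Geo.IsSymplecticTypeGroup 2 R) (hRi : Cfsg.Geo.ActsAbsolutelyIrreducibly (Cfsg.Geo.matrixSet R))
    (hRf : R ≤ Cfsg.spGL 2 F) (hR5 : Nat.card R = 2 ^ 5) (hRZ : Nat.card (Subgroup.center R) = 2) (hRm : Cfsg.Geo.IsOfMinusType 2 R)
    (r : ℕ) [Fact r.Prime]
    (hΩ : r ∣ (Cfsg.Geo.subgroupNormalizer R).relIndex (Cfsg.spGL 2 F)) :
    (∀ x ∈ Cfsg.spGL 2 F, (∃ z : F, ((x ^ r : GL (Fin 2 ⊕ Fin 2) F) : Matrix (Fin 2 ⊕ Fin 2) (Fin 2 ⊕ Fin 2) F) = z • (1 : Matrix (Fin 2 ⊕ Fin 2) (Fin 2 ⊕ Fin 2) F)) →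
      (∀ z : F, (x : Matrix (Fin 2 ⊕ Fin 2) (Fin 2 ⊕ Fin 2) F) ≠ z • (1 : Matrix (Fin 2 ⊕ Fin 2) (Fin 2 ⊕ Fin 2) F)) →
      ∃ g ∈ Cfsg.spGL 2 F, g⁻¹ * x * g ∈ Cfsg.Geo.subgroupNormalizer R) ↔ (r = 2 ∨ (r = 5 ∧ orderOf (p : ZMod 5) = 4)) := by
  classical
  have hodd2 : Fintype.card F % 2 = 1 := by rw [hF]; exact Nat.odd_iff.1 hodd
  have hp2 : p ≠ 2 := fun h => by subst h; exact absurd hodd (by decide)
  have h2 : (2 : F) ≠ 0 := fun h => hp2 ((Nat.prime_dvd_prime_iff_eq Fact.out Nat.prime_two).1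
    ((CharP.cast_eq_zero_iff F p 2).1 (by exact_mod_cast h)))
  have hfacts := CfsgLib.HeisSp.facts_of h2 hRs hRi hR5 hRZ hRm
  obtain ⟨H⟩ := CfsgLib.HeisSp.exists_gens h2 hfacts
  haveI hfin : Finite R := Nat.finite_of_card_ne_zero (by rw [hR5]; norm_num)
  have hr := (Fact.out : r.Prime)
  set N := Cfsg.Geo.subgroupNormalizer R
  set S := Cfsg.spGL 2 F with hS
  have hnorm : ∀ g : GL (Fin 2 ⊕ Fin 2) F, g ∈ N → ∀ v ∈ R, g * v * g⁻¹ ∈ R := fun g hg v hv =>
    (Subgroup.mem_normalizer_iff.1 (show g ∈ Subgroup.normalizer (R : Set (GL (Fin 2 ⊕ Fin 2) F)) from hg) v).1 hv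
  have hRN : R ≤ N := Subgroup.le_normalizer
  have hpow : ∀ (g x : GL (Fin 2 ⊕ Fin 2) F) (n : ℕ), x ^ n = 1 → (g⁻¹ * x * g) ^ n = 1 := fun g x n h => by
    rw [show g⁻¹ * x * g = g⁻¹ * x * (g⁻¹)⁻¹ by rw [inv_inv], conj_pow, h]; group
  have hscal : ∀ x ∈ S, ∀ z : F, (x : Matrix (Fin 2 ⊕ Fin 2) (Fin 2 ⊕ Fin 2) F) = z • 1 → z * z = 1 := by
    intro x hx z hz
    have h := CfsgLib.GeoSp.mem_spGL.1 hx (Pi.single (Sum.inr 0) 1) (Pi.single (Sum.inl 0) 1)
    rw [hz, Matrix.smul_mulVec, Matrix.one_mulVec, Matrix.smul_mulVec, Matrix.one_mulVec, SpGeom.form_smul_left,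
      SpGeom.form_smul_right, SpGeom.form_single_inl_right, Pi.single_eq_same, ← mul_assoc, mul_one] at h
    exact h
  have hone : ∀ x ∈ S, x ≠ 1 → x ^ r = 1 → r ≠ 2 →
      ∀ z : F, (x : Matrix (Fin 2 ⊕ Fin 2) (Fin 2 ⊕ Fin 2) F) ≠ z • 1 := by
    intro x hx hx1 hxr hr2 z hz
    have h1 : z ^ r = 1 := by
      have h0 : ((x ^ r : GL (Fin 2 ⊕ Fin 2) F) : Matrix (Fin 2 ⊕ Fin 2) (Fin 2 ⊕ Fin 2) F) = 1 := by
        rw [hxr, Units.val_one]
      rw [Units.val_pow_eq_pow_val, hz, smul_pow, one_pow] at h0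
      simpa using congrFun (congrFun h0 (Sum.inl 0)) (Sum.inl 0)
    have h4 : z ^ 2 = 1 := by rw [sq]; exact hscal x hx z hz
    have hz1 : z = 1 := by
      have := pow_gcd_eq_one.2 ⟨h1, h4⟩
      rwa [show Nat.gcd r 2 = 1 from (Nat.coprime_primes hr Nat.prime_two).2 hr2, pow_one] at this
    exact hx1 (Units.ext (by rw [hz, hz1, one_smul, Units.val_one]))
  have hback : ∀ (g x : GL (Fin 2 ⊕ Fin 2) F) (c : F),
      ((g⁻¹ * x * g : GL (Fin 2 ⊕ Fin 2) F) : Matrix (Fin 2 ⊕ Fin 2) (Fin 2 ⊕ Fin 2) F) = c • 1 →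
      (x : Matrix (Fin 2 ⊕ Fin 2) (Fin 2 ⊕ Fin 2) F) = c • 1 := fun g x c hc => by
    rw [show x = g * (g⁻¹ * x * g) * g⁻¹ by group, Units.val_mul, Units.val_mul, hc, Matrix.mul_smul, mul_one,
      Matrix.smul_mul, ← Units.val_mul, mul_inv_cancel, Units.val_one]
  constructor
  · intro hall
    rcases eq_or_ne r 2 with h | hr2
    · exact Or.inl h
    right
    rcases eq_or_ne r 3 with rfl | hr3
    · exfalso
      rcases eq_or_ne p 3 with rfl | hne3
      · -- a transvection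
        have h30 : (3 : F) = 0 := by exact_mod_cast (CharP.cast_eq_zero_iff F 3 3).2 dvd_rfl
        set v₀ : Fin 2 ⊕ Fin 2 → F := Pi.single (Sum.inl 0) 1 with hv₀
        set x := CfsgLib.GeoSp.tvGL v₀ (1 : F) with hxdef
        have hx3 : x ^ 3 = 1 := by
          rw [show x ^ 3 = x * x * x by simp only [pow_succ, pow_zero, one_mul], hxdef, CfsgLib.GeoSp.tvGL_mul,
            CfsgLib.GeoSp.tvGL_mul, show (1 : F) + 1 + 1 = 0 by linear_combination h30, CfsgLib.GeoSp.tvGL_zero]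
        have hxv : (x : Matrix (Fin 2 ⊕ Fin 2) (Fin 2 ⊕ Fin 2) F) =
            1 + Matrix.vecMulVec v₀ (Matrix.J (Fin 2) F *ᵥ v₀) := Matrix.ext_iff_mulVec.2 fun u => by
          rw [hxdef, CfsgLib.GeoSp.tvGL_mulVec, Matrix.add_mulVec, Matrix.one_mulVec, Matrix.vecMulVec_mulVec, one_mul]
          congr 1
          funext k
          simp [Cfsg.sympForm, dotProduct_comm, mul_comm]
        have hba : (Matrix.J (Fin 2) F *ᵥ v₀) ⬝ᵥ v₀ = 0 := by
          rw [dotProduct_comm]; exact SpGeom.form_self v₀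
        have hx1 : x ≠ 1 := fun h => by
          have := CfsgLib.GeoSp.tvGL_mulVec v₀ (1 : F) (Pi.single (Sum.inr 0) 1)
          rw [← hxdef, h, Units.val_one, Matrix.one_mulVec] at this
          have h' := congrFun this (Sum.inl 0)
          simp [hv₀, SpGeom.form_single_inl_right] at h'
        obtain ⟨g, -, hgN⟩ := hall x (CfsgLib.GeoSp.tvGL_mem v₀ 1) ⟨1, by rw [hx3, Units.val_one, one_smul]⟩
          (hone x (CfsgLib.GeoSp.tvGL_mem v₀ 1) hx1 hx3 (by norm_num))
        obtain ⟨c, hc⟩ := CfsgLib.HeisSp.transvection_scalar hfacts h2 h30 (y := g⁻¹ * x * g) (hnorm _ hgN)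
          (hpow g x 3 hx3)
          (a := ((g⁻¹ : GL (Fin 2 ⊕ Fin 2) F) : Matrix (Fin 2 ⊕ Fin 2) (Fin 2 ⊕ Fin 2) F) *ᵥ v₀)
          (b := (Matrix.J (Fin 2) F *ᵥ v₀) ᵥ* (g : Matrix (Fin 2 ⊕ Fin 2) (Fin 2 ⊕ Fin 2) F)) (by
            rw [Matrix.dotProduct_mulVec, Matrix.vecMul_vecMul, ← Units.val_mul, mul_inv_cancel, Units.val_one,
              Matrix.vecMul_one, hba]) (by
            rw [Units.val_mul, Units.val_mul, hxv, mul_add, mul_one, add_mul, ← Units.val_mul, inv_mul_cancel,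
              Units.val_one, Matrix.mul_vecMulVec, Matrix.vecMulVec_mul])
        exact hone x (CfsgLib.GeoSp.tvGL_mem v₀ 1) hx1 hx3 (by norm_num) c (hback g x c hc)
      -- an element with eigenvalues a pair of roots of unity and one twice
      let A : Matrix (Fin 2 ⊕ Fin 2) (Fin 2 ⊕ Fin 2) F :=
        Matrix.fromBlocks (Matrix.diagonal ![0, 1]) (Matrix.diagonal ![-1, 0]) (Matrix.diagonal ![1, 0])
          (Matrix.diagonal ![-1, 1])
      let A' : Matrix (Fin 2 ⊕ Fin 2) (Fin 2 ⊕ Fin 2) F :=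
        Matrix.fromBlocks (Matrix.diagonal ![-1, 1]) (Matrix.diagonal ![1, 0]) (Matrix.diagonal ![-1, 0])
          (Matrix.diagonal ![0, 1])
      have hAA : A * A' = 1 := by
        ext (r | r) (k | k) <;> fin_cases r <;> fin_cases k <;>
          simp [A, A', Matrix.mul_apply, Fintype.sum_sum_type, Fin.sum_univ_two]
      have hAA' : A' * A = 1 := by
        ext (r | r) (k | k) <;> fin_cases r <;> fin_cases k <;>
          simp [A, A', Matrix.mul_apply, Fintype.sum_sum_type, Fin.sum_univ_two]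
      have hA3 : A * A = A' := by
        ext (r | r) (k | k) <;> fin_cases r <;> fin_cases k <;>
          simp [A, A', Matrix.mul_apply, Fintype.sum_sum_type, Fin.sum_univ_two]
      let x : GL (Fin 2 ⊕ Fin 2) F := ⟨A, A', hAA, hAA'⟩
      have hxS : x ∈ S := CfsgLib.GeoSp.mem_spGL.2 fun u v => by
        show Cfsg.sympForm 2 F (A *ᵥ u) (A *ᵥ v) = _
        rw [SpGeom.form_def, SpGeom.form_def]
        simp [A, Matrix.fromBlocks_mulVec, Matrix.mulVec_diagonal, Fin.sum_univ_two]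
        ring
      have hx3 : x ^ 3 = 1 := Units.ext (by
        rw [Units.val_pow_eq_pow_val, Units.val_one]
        show A ^ 3 = 1
        rw [show A ^ 3 = A * A * A by simp only [pow_succ, pow_zero, one_mul], hA3, hAA'])
      have hx1 : x ≠ 1 := fun h => by
        have := congrArg (fun g : GL (Fin 2 ⊕ Fin 2) F => (g : Matrix (Fin 2 ⊕ Fin 2) (Fin 2 ⊕ Fin 2) F)
          (Sum.inr 0) (Sum.inl 0)) h
        simp [x, A] at this
      obtain ⟨g, -, hgN⟩ := hall x hxS ⟨1, by rw [hx3, Units.val_one, one_smul]⟩ (hone x hxS hx1 hx3 (by norm_num))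
      have hy3 := hpow g x 3 hx3
      have hid := CfsgLib.HeisSp.trace_identity hfacts h2 (y := g⁻¹ * x * g) (hnorm _ hgN) Nat.prime_three
        (by norm_num) hy3
      have htA : A.trace = 1 := by
        simp [A, Matrix.trace, Fintype.sum_sum_type, Fin.sum_univ_two]
      have htA' : A'.trace = 1 := by
        simp [A', Matrix.trace, Fintype.sum_sum_type, Fin.sum_univ_two]
      have ht : ((g⁻¹ * x * g : GL (Fin 2 ⊕ Fin 2) F) : Matrix (Fin 2 ⊕ Fin 2) (Fin 2 ⊕ Fin 2) F).trace = 1 := by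
        rw [Units.val_mul, Units.val_mul, Matrix.trace_units_conj']
        exact htA
      have ht' : (((g⁻¹ * x * g)⁻¹ : GL (Fin 2 ⊕ Fin 2) F) : Matrix (Fin 2 ⊕ Fin 2) (Fin 2 ⊕ Fin 2) F).trace = 1 := by
        rw [show (g⁻¹ * x * g)⁻¹ = g⁻¹ * x⁻¹ * g by group, Units.val_mul, Units.val_mul, Matrix.trace_units_conj']
        exact htA'
      rw [ht, ht'] at hid
      rcases CfsgLib.HeisSp.scalar_or_le hfacts (g⁻¹ * x * g) with ⟨c, hc⟩ | ⟨h16, heven⟩
      · exact hone x hxS hx1 hx3 (by norm_num) c (hback g x c hc)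
      have hne2 := CfsgLib.HeisSp.three_fixes hfacts h2 H (hnorm _ hgN) hy3
      have hmod := CfsgLib.HeisSp.card_modEq (hnorm _ hgN) hy3
      rw [hfacts.card] at hmod
      set K := (Subgroup.centralizer {g⁻¹ * x * g}).subgroupOf R
      have h8 : Nat.card K = 8 := by
        have hd : Nat.card K ∈ Nat.divisors 16 := Nat.mem_divisors.2 ⟨h16, by norm_num⟩
        rw [show Nat.divisors 16 = {1, 2, 4, 8, 16} by decide] at hd
        simp only [Finset.mem_insert, Finset.mem_singleton] at hd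
        unfold Nat.ModEq at hmod
        omega
      rw [h8] at hid
      have h24 : ((24 : ℕ) : F) = 0 := by push_cast at hid ⊢; linear_combination -hid
      have hdvd := (CharP.cast_eq_zero_iff F p 24).1 h24
      have hle := Nat.le_of_dvd (by norm_num) hdvd
      have hpp := (Fact.out : p.Prime)
      interval_cases p <;> revert hpp hdvd hne3 hp2 <;> decide
    rcases eq_or_ne r 5 with rfl | hr5
    · refine ⟨rfl, ?_⟩
      by_contra hord
      haveI : Fact (Nat.Prime 2) := ⟨Nat.prime_two⟩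
      have h5 : 5 ∣ p * (p ^ 2 - 1) := by
        by_cases hp50 : p % 5 = 0
        · exact dvd_mul_of_dvd_left (Nat.dvd_of_mod_eq_zero hp50) _
        refine dvd_mul_of_dvd_right ?_ _
        have hm : p % 5 = 1 ∨ p % 5 = 4 := by
          rw [← ZMod.natCast_mod] at hord
          have hlt : p % 5 < 5 := Nat.mod_lt _ (by norm_num)
          interval_cases hk : p % 5
          · exact absurd rfl hp50
          · simp
          · exact absurd (orderOf_eq_prime_pow (p := 2) (n := 1) (by decide) (by decide)) hord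
          · exact absurd (orderOf_eq_prime_pow (p := 2) (n := 1) (by decide) (by decide)) hord
          · simp
        have h1 : p ^ 2 % 5 = 1 := by rcases hm with h | h <;> rw [Nat.pow_mod, h]
        have h1' : 1 ≤ p ^ 2 := Nat.one_le_pow _ _ (Fact.out : p.Prime).pos
        omega
      obtain ⟨x, t, hxS, hx5, hx1, hxt⟩ := exists_double hF h5
      obtain ⟨g, -, hgN⟩ := hall x hxS ⟨1, by rw [hx5, Units.val_one, one_smul]⟩ (hone x hxS hx1 hx5 (by norm_num))
      obtain ⟨c, hc⟩ := CfsgLib.HeisSp.quad_scalar hfacts h2 (y := g⁻¹ * x * g) (hnorm _ hgN) hr le_rfl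
        (hpow g x 5 hx5) (t := t) (by
          rw [show (g⁻¹ * x * g)⁻¹ = g⁻¹ * x⁻¹ * g by group]
          simp only [Units.val_mul]
          rw [← add_mul, ← mul_add, hxt, Matrix.mul_smul, mul_one, Matrix.smul_mul, ← Units.val_mul, inv_mul_cancel,
            Units.val_one])
      exact hone x hxS hx1 hx5 (by norm_num) c (hback g x c hc)
    · exfalso
      have hr7 : 7 ≤ r := by
        have := hr.two_le
        by_contra hlt
        interval_cases r <;> first | omega | norm_num at hr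
      have hidx : N.relIndex S * Nat.card (N.subgroupOf S) = Nat.card S := Subgroup.index_mul_card _
      obtain ⟨⟨x, hx⟩, hxo⟩ := exists_prime_orderOf_dvd_card' (G := S) r (hidx ▸ dvd_mul_of_dvd_left hΩ _)
      have hxr : x ^ r = 1 := by
        have := pow_orderOf_eq_one (⟨x, hx⟩ : S)
        rw [hxo] at this
        exact congrArg Subtype.val this
      have hx1 : x ≠ 1 := by
        intro h
        subst h
        rw [show (⟨1, hx⟩ : S) = 1 from rfl, orderOf_one] at hxo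
        omega
      obtain ⟨g, -, hgN⟩ := hall x hx ⟨1, by rw [hxr, Units.val_one, one_smul]⟩ (hone x hx hx1 hxr hr2)
      obtain ⟨c, hc⟩ := CfsgLib.HeisSp.seven_scalar hfacts h2 (y := g⁻¹ * x * g) (hnorm _ hgN) hr7 (hpow g x r hxr)
      exact hone x hx hx1 hxr hr2 c (hback g x c hc)
  · intro hcase x hx ⟨z, hz⟩ hns
    have hz2 : z * z = 1 := hscal _ (pow_mem hx r) z hz
    rcases hcase with rfl | ⟨rfl, hp⟩
    · have hx1 : x ≠ 1 := fun h => hns 1 (by rw [h, Units.val_one, one_smul])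
      have hx1' : x ≠ -1 := fun h => hns (-1) (by rw [h, Units.val_neg, Units.val_one, neg_one_smul])
      rcases mul_eq_zero.1 (show (z - 1) * (z + 1) = 0 by linear_combination hz2) with h | h
      · have hxx : x * x = 1 := Units.ext (by
          rw [← sq, hz, sub_eq_zero.1 h, one_smul, Units.val_one])
        obtain ⟨hA1, hA1'⟩ := CfsgLib.HeisSp.ne_of_anti h2 H.BA
        obtain ⟨g, hg, hge⟩ := CfsgLib.HeisSp.conj_of_forms (CfsgLib.HeisSp.involution_form h2 hx hxx hx1 hx1')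
          (CfsgLib.HeisSp.involution_form h2 (hRf H.hA) H.AA hA1 hA1')
        exact ⟨g, hg, hge ▸ hRN H.hA⟩
      · have hxx : x * x = -1 := Units.ext (by
          rw [← sq, hz, eq_neg_of_add_eq_zero_left h, neg_one_smul, Units.val_neg, Units.val_one])
        obtain ⟨g, hg, hge⟩ := CfsgLib.HeisSp.conj_of_forms (CfsgLib.HeisSp.root_form h2 hodd2 hx hxx)
          (CfsgLib.HeisSp.root_form h2 hodd2 (hRf H.hC) H.CC)
        exact ⟨g, hg, hge ▸ hRN H.hC⟩
    · -- order five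
      have hz0 : z ≠ 0 := fun h => by rw [h, zero_mul] at hz2; exact zero_ne_one hz2
      let s : Fˣ := Units.mk0 z hz0
      have hScN : ∀ t : Fˣ, CfsgLib.HeisSp.Sc t ∈ N := fun t => by
        show CfsgLib.HeisSp.Sc t ∈ Subgroup.normalizer (R : Set (GL (Fin 2 ⊕ Fin 2) F))
        refine Subgroup.mem_normalizer_iff.2 fun v => ?_
        rw [← CfsgLib.HeisSp.Sc_comm t v, mul_inv_cancel_right]
      have hScS : CfsgLib.HeisSp.Sc s ∈ S := CfsgLib.GeoSp.mem_spGL.2 fun u v => by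
        rw [CfsgLib.HeisSp.Sc_val, Matrix.smul_mulVec, Matrix.one_mulVec, Matrix.smul_mulVec, Matrix.one_mulVec,
          SpGeom.form_smul_left, SpGeom.form_smul_right, ← mul_assoc, Units.val_mk0, hz2, one_mul]
      set x' := x * CfsgLib.HeisSp.Sc s with hx'
      have hx'5 : x' ^ 5 = 1 := by
        refine Units.ext ?_
        rw [hx', (show Commute x (CfsgLib.HeisSp.Sc s) from CfsgLib.HeisSp.Sc_comm s x).mul_pow, Units.val_mul, hz,
          Units.val_pow_eq_pow_val (CfsgLib.HeisSp.Sc s), CfsgLib.HeisSp.Sc_val, Units.val_mk0, smul_pow, one_pow,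
          Matrix.smul_mul, one_mul, smul_smul, Units.val_one]
        rw [show z * z ^ 5 = 1 by linear_combination (z ^ 4 + z ^ 2 + 1) * hz2, one_smul]
      have hx'1 : x' ≠ 1 := fun h => hns z (by
        have e : x = (CfsgLib.HeisSp.Sc s)⁻¹ := eq_inv_of_mul_eq_one_left h
        have e2 : (CfsgLib.HeisSp.Sc s)⁻¹ = CfsgLib.HeisSp.Sc s := inv_eq_of_mul_eq_one_right (Units.ext (by
          rw [Units.val_mul, CfsgLib.HeisSp.Sc_val, Units.val_mk0, Matrix.smul_mul, one_mul, smul_smul, hz2, one_smul,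
            Units.val_one]))
        rw [e, e2, CfsgLib.HeisSp.Sc_val, Units.val_mk0])
      have hx'S : x' ∈ S := mul_mem hx hScS
      obtain ⟨y, d, hyN, hy5, hyns⟩ := CfsgLib.HeisSp.exists_five_gl h2 hfacts H
      obtain ⟨c, hc⟩ := CfsgLib.HeisSp.exists_multiplier hfacts (fun u hu => CfsgLib.GeoSp.mem_spGL.1 (hRf hu)) hyN
      have hd0 : d ≠ 0 := fun h => (y ^ 5).ne_zero (by rw [hy5, h, zero_smul])
      have hc5 : c ^ 5 = d * d := by
        have it : ∀ (n : ℕ) u v, Cfsg.sympForm 2 F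
            (((y ^ n : GL (Fin 2 ⊕ Fin 2) F) : Matrix (Fin 2 ⊕ Fin 2) (Fin 2 ⊕ Fin 2) F) *ᵥ u)
            (((y ^ n : GL (Fin 2 ⊕ Fin 2) F) : Matrix (Fin 2 ⊕ Fin 2) (Fin 2 ⊕ Fin 2) F) *ᵥ v) =
            c ^ n * Cfsg.sympForm 2 F u v := by
          intro n
          induction n with
          | zero => intro u v; simp
          | succ n ih =>
            intro u v
            rw [pow_succ', Units.val_mul, ← Matrix.mulVec_mulVec, ← Matrix.mulVec_mulVec, hc, ih, pow_succ' c]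
            ring
        have h := it 5 (Pi.single (Sum.inr 0) 1) (Pi.single (Sum.inl 0) 1)
        rw [hy5, Matrix.smul_mulVec, Matrix.one_mulVec, Matrix.smul_mulVec, Matrix.one_mulVec, SpGeom.form_smul_left,
          SpGeom.form_smul_right, SpGeom.form_single_inl_right, Pi.single_eq_same, mul_one, mul_one] at h
        exact h.symm
      have hc0 : c ≠ 0 := fun h => hd0 (by
        rw [h, zero_pow (by norm_num)] at hc5
        exact mul_self_eq_zero.1 hc5.symm)
      let w : Fˣ := Units.mk0 (d / c ^ 3) (div_ne_zero hd0 (pow_ne_zero _ hc0))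
      set y' := CfsgLib.HeisSp.Sc w * y with hy'
      have hy'S : y' ∈ S := CfsgLib.GeoSp.mem_spGL.2 fun u v => by
        rw [hy', Units.val_mul, CfsgLib.HeisSp.Sc_val, Units.val_mk0, Matrix.smul_mul, one_mul, Matrix.smul_mulVec,
          Matrix.smul_mulVec, SpGeom.form_smul_left, SpGeom.form_smul_right, hc]
        field_simp
        linear_combination (-(Cfsg.sympForm 2 F u v)) * hc5
      have hy'5 : y' ^ 5 = 1 := by
        refine Units.ext ?_
        rw [hy', (show Commute (CfsgLib.HeisSp.Sc w) y from (CfsgLib.HeisSp.Sc_comm w y).symm).mul_pow, Units.val_mul,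
          hy5, Units.val_pow_eq_pow_val (CfsgLib.HeisSp.Sc w), CfsgLib.HeisSp.Sc_val, Units.val_mk0, smul_pow, one_pow,
          Matrix.smul_mul, one_mul, smul_smul, Units.val_one]
        convert one_smul F (1 : Matrix (Fin 2 ⊕ Fin 2) (Fin 2 ⊕ Fin 2) F)
        field_simp
        linear_combination (-((c ^ 5) ^ 2 + c ^ 5 * (d * d) + (d * d) ^ 2)) * hc5
      have hy'1 : y' ≠ 1 := fun h => hyns (w⁻¹ : Fˣ) (by
        have e : y = (CfsgLib.HeisSp.Sc w)⁻¹ := eq_inv_of_mul_eq_one_right h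
        rw [e, show (CfsgLib.HeisSp.Sc w)⁻¹ = CfsgLib.HeisSp.Sc w⁻¹ from (map_inv _ w).symm, CfsgLib.HeisSp.Sc_val])
      obtain ⟨g, hg, k, hk⟩ := CfsgLib.HeisSp.five_conj hF hp hx'S hy'S hx'5 hy'5 hx'1 hy'1
      refine ⟨g, hg, ?_⟩
      have hxe : g⁻¹ * x * g = g⁻¹ * x' * g * (CfsgLib.HeisSp.Sc s)⁻¹ := by
        rw [hx', show g⁻¹ * (x * CfsgLib.HeisSp.Sc s) * g = g⁻¹ * x * (CfsgLib.HeisSp.Sc s * g) by group,
          ← CfsgLib.HeisSp.Sc_comm]
        group
      rw [hxe, hk]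
      exact mul_mem (pow_mem (mul_mem (hScN w) hyN) k) (Subgroup.inv_mem _ (hScN s))

end Cfsg.Agent.S6002
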